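import Cfsg.Statements.S0902
import Cfsg.Agent.Lib.BlockT.GaloisPrime

set_option autoImplicit false
open Cfsg

namespace Cfsg.Agent.S0902

open Cfsg.Agent.Lib.BlockT.GaloisPrime Cfsg.Agent.Lib.Char.Galois in
/-- If two irreducible characters of a finite group lie in the same block relative to one maximal ideal M of the algebraic integers containing the prime p, then at every element the difference of their central characters is an algebraic integer lying in every maximal ideal containing p; in particular they lie in the same block relative to any such ideal. -/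
theorem result {G : Type*} [Group G] [Finite G] (p : ℕ) [Fact p.Prime] (M : Ideal Cfsg.AlgInt) (hM : Cfsg.IsPModular p M) (χ ψ : Cfsg.IrrCharacter G) (h : Cfsg.SameBlock M (χ : G → ℂ) (ψ : G → ℂ)) (M' : Ideal Cfsg.AlgInt) (hM' : Cfsg.IsPModular p M') (g : G) : ∃ r : Cfsg.AlgInt, r ∈ M' ∧ (r : ℂ) = Cfsg.centralChar (χ : G → ℂ) g - Cfsg.centralChar (ψ : G → ℂ) g := by
  classical
  let _ : Fintype G := Fintype.ofFinite G
  have hprime : M.IsPrime := hM.2.1.isPrime
  have hint : ∀ g : G, IsIntegral ℤ (Cfsg.centralChar (χ : G → ℂ) g - Cfsg.centralChar (ψ : G → ℂ) g) :=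
    fun g => (Cfsg.Agent.Lib.Blocks.Central.isIntegral_centralChar χ g).sub
      (Cfsg.Agent.Lib.Blocks.Central.isIntegral_centralChar ψ g)
  have hn0 : NeZero (Nat.card G) := ⟨Nat.card_pos.ne'⟩
  let r₀ : AlgInt := ⟨_, hint g⟩
  refine ⟨r₀, ?_, rfl⟩
  apply mem_of_minpoly_roots_mem hM hM' r₀
  intro z hz
  obtain ⟨x, hx1, hx2⟩ := exists_centralChar_Kn (Nat.card G) dvd_rfl χ g
  obtain ⟨y, hy1, hy2⟩ := exists_centralChar_Kn (Nat.card G) dvd_rfl ψ g
  have hcoe : (r₀ : ℂ) = algebraMap (Kn (Nat.card G)) ℂ (x - y) := by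
    show _ - _ = ((x - y : Kn (Nat.card G)) : ℂ)
    rw [← hx1, ← hy1]
    rfl
  have hmin : minpoly ℚ (r₀ : ℂ) = minpoly ℚ (x - y) := by
    rw [hcoe]
    exact minpoly.algebraMap_eq (algebraMap (Kn (Nat.card G)) ℂ).injective _
  have hroot : z ∈ (minpoly ℚ (x - y)).rootSet ℂ := by
    rw [Polynomial.mem_rootSet]
    refine ⟨?_, by rw [← hmin]; exact hz⟩
    exact minpoly.ne_zero (Algebra.IsIntegral.isIntegral _)
  rw [← Algebra.IsAlgebraic.range_eval_eq_rootSet_minpoly] at hroot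
  obtain ⟨σ, hσ⟩ := hroot
  obtain ⟨k, hcop, hk⟩ := exists_pow_of_algHom (Nat.card G) σ
  have hval : z = Cfsg.centralChar (χ : G → ℂ) (g ^ k) - Cfsg.centralChar (ψ : G → ℂ) (g ^ k) := by
    rw [← hσ]
    show σ (x - y) = _
    rw [map_sub, hx2 σ k hk hcop, hy2 σ k hk hcop]
  refine ⟨⟨_, hint (g ^ k)⟩, ?_, hval.symm⟩
  exact Cfsg.Agent.Lib.Blocks.Local.memLocalIdeal_coe_iff.mp (h (g ^ k))

end Cfsg.Agent.S0902
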