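import Cfsg.Statements.S1056
import Cfsg.Agent.Lib.Chev.Perfect
import Cfsg.Agent.Lib.Lie.AxOf
-- import your own Cfsg.Agent.* helpers here

set_option autoImplicit false
open Cfsg

namespace Cfsg.Agent.S1056

/-- B₂(F) is simple for every field `F` other than the field with two elements. -/
theorem result {F : Type*} [Field F] (hF : ∃ a : F, a ≠ 0 ∧ a ≠ 1) : IsSimpleGroup ↥(Cfsg.Lie.chevB2.group F) ∧ ¬ IsMulCommutative ↥(Cfsg.Lie.chevB2.group F) := by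
  have hD' : Cfsg.Lie.chevB2 ∈ [Cfsg.Lie.chevG2, Cfsg.Lie.chevB2, Cfsg.Lie.chevD4, Cfsg.Lie.chevF4, Cfsg.Lie.chevE6, Cfsg.Lie.chevE7, Cfsg.Lie.chevE8] := by simp
  exact Cfsg.Agent.Lib.Chev.ChevPerfect.simple_all hD' (Cfsg.Agent.Lib.Lie.AxOf.ax_of_mem hD') (fun _ => hF)

end Cfsg.Agent.S1056
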