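import Cfsg.Statements.S3736
import Cfsg.Agent.Lib.FGS.CoprimeMod
import Cfsg.Agent.Lib.PGroups.Special
import Mathlib

set_option autoImplicit false
open Cfsg
open scoped commutatorElement

namespace Cfsg.Agent.S3736

open Cfsg.Agent.Lib.Coprime.Action Cfsg.Agent.Lib.FGS.CoprimeMod

/-- The Hall–Higman reduction for a minimal non-trivial action. Let B, A and P be subgroups of a finite group with P a p-group, B normalizing P, and A a normal subgroup of B of order prime to p. Suppose A does not centralize P but centralizes every proper B-invariant subgroup of P. Then [P, A] = P; P is elementary abelian or special; B acts irreducibly on P/Φ(P), that is, the only B-invariant subgroups of P containing Φ(P) are Φ(P) and P; and if p is odd then every element of P has order dividing p. -/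
theorem result {X : Type*} [Group X] [Finite X] {p : ℕ} [Fact p.Prime] (B A P : Subgroup X) (hP : IsPGroup p P) (hBP : B ≤ Subgroup.normalizer (P : Set X)) (hAB : A ≤ B) (hAn : B ≤ Subgroup.normalizer (A : Set X)) (hAp : (Nat.card A).Coprime p) (hnt : ⁅P, A⁆ ≠ ⊥) (hmin : ∀ U : Subgroup X, U < P → B ≤ Subgroup.normalizer (U : Set X) → ⁅U, A⁆ = ⊥) : ⁅P, A⁆ = P ∧ (Cfsg.IsElementaryAbelian p P ∨ Cfsg.IsSpecial p ↥P) ∧ (∀ U : Subgroup X, (frattini ↥P).map P.subtype ≤ U → U ≤ P → B ≤ Subgroup.normalizer (U : Set X) → U = (frattini ↥P).map P.subtype ∨ U = P) ∧ (p ≠ 2 → ∀ x ∈ P, x ^ p = 1) := by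
  classical
  have hp : p.Prime := Fact.out
  have hAP : A ≤ Subgroup.normalizer (P : Set X) := hAB.trans hBP
  have hcop : (Nat.card A).Coprime (Nat.card P) := by
    obtain ⟨k, hk⟩ := IsPGroup.iff_card.1 hP
    rw [hk]
    exact hAp.pow_right k
  haveI hPnil : Group.IsNilpotent P := hP.isNilpotent
  have hsolv : Group.IsSolvable A ∨ Group.IsSolvable P := Or.inr inferInstance
  -- Step 1: `[P, A] = P`
  have hcomm : ⁅P, A⁆ = P := by
    by_contra hne
    have hle : ⁅P, A⁆ ≤ P := commutator_le_of_le_normalizer hAP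
    have hlt : ⁅P, A⁆ < P := lt_of_le_of_ne hle hne
    have hBc : B ≤ Subgroup.normalizer ((⁅P, A⁆ : Subgroup X) : Set X) :=
      le_normalizer_commutator_of_le hBP hAn
    have h1 := hmin _ hlt hBc
    rw [commutator_commutator_eq hAP hcop hsolv] at h1
    exact hnt h1
  have hPne : P ≠ ⊥ := by
    rintro h
    rw [h] at hnt
    exact hnt (Subgroup.commutator_bot_left _)
  haveI hPnt : Nontrivial P := (Subgroup.nontrivial_iff_ne_bot P).2 hPne
  -- The Frattini subgroup and the derived subgroup
  set Φ : Subgroup X := (frattini ↥P).map P.subtype with hΦdef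
  have hΦP : Φ ≤ P := Subgroup.map_subtype_le _
  have hΦB : B ≤ Subgroup.normalizer (Φ : Set X) := hBP.trans (normalizer_le_normalizer_map P _)
  have hΦne : Φ ≠ P := by
    intro h
    have htop : frattini ↥P = ⊤ := by
      apply Subgroup.map_injective P.subtype_injective
      rw [← hΦdef, h, ← MonoidHom.range_eq_map, Subgroup.range_subtype]
    obtain ⟨M, hM, -⟩ := (eq_top_or_exists_le_coatom (⊥ : Subgroup ↥P)).resolve_left bot_ne_top
    have : frattini ↥P ≤ M := by
      unfold frattini Order.radical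
      exact iInf₂_le M hM
    rw [htop] at this
    exact hM.1 (top_le_iff.1 this)
  have hΦlt : Φ < P := lt_of_le_of_ne hΦP hΦne
  have hΦA : ⁅Φ, A⁆ = ⊥ := hmin Φ hΦlt hΦB
  set D : Subgroup X := ⁅P, P⁆ with hDdef
  have hDmap : (commutator ↥P).map P.subtype = D := by
    rw [commutator_def, Subgroup.map_commutator, ← MonoidHom.range_eq_map, Subgroup.range_subtype]
  have hDΦ : D ≤ Φ := by
    rw [← hDmap]
    exact Subgroup.map_mono (Cfsg.Agent.Lib.PGroups.Basic.commutator_le_frattini hP)
  have hDP : D ≤ P := by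
    rw [← hDmap]; exact Subgroup.map_subtype_le _
  have hDnormP : P ≤ Subgroup.normalizer (D : Set X) := le_normalizer_commutator_left P P
  have hDnormA : A ≤ Subgroup.normalizer (D : Set X) := le_normalizer_commutator_of_le hAP hAP
  have hCD : P ⊓ Subgroup.centralizer (A : Set X) ≤ D :=
    inf_centralizer_le_of_comm A P D hAP hDnormA hDnormP le_rfl hcop hcomm
  have hΦC : Φ ≤ Subgroup.centralizer (A : Set X) :=
    Subgroup.commutator_eq_bot_iff_le_centralizer.1 hΦA
  have hΦD : Φ = D := le_antisymm (fun x hx => hCD ⟨hΦP hx, hΦC hx⟩) hDΦ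
  -- `Φ ≤ Z(P)`
  have hPΦ : ⁅P, Φ⁆ = ⊥ := by
    have h1 : ⁅⁅A, Φ⁆, P⁆ = ⊥ := by
      rw [Subgroup.commutator_comm A Φ, hΦA, Subgroup.commutator_bot_left]
    have h2 : ⁅⁅Φ, P⁆, A⁆ = ⊥ := by
      have hle : ⁅Φ, P⁆ ≤ Φ := by
        apply commutator_le_of_le_normalizer
        rw [hΦD]; exact hDnormP
      rw [eq_bot_iff, ← hΦA]
      exact Subgroup.commutator_mono hle le_rfl
    have h3 := Subgroup.commutator_commutator_eq_bot_of_rotate h1 h2
    rwa [hcomm] at h3
  have hΦcent : ∀ x ∈ Φ, ∀ y ∈ P, y * x = x * y := by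
    intro x hx y hy
    have : ⁅y, x⁆ ∈ (⊥ : Subgroup X) := by
      rw [← hPΦ]; exact Subgroup.commutator_mem_commutator hy hx
    exact commutatorElement_eq_one_iff_mul_comm.1 (Subgroup.mem_bot.1 this)
  -- power and commutators in `↥P`
  have hpowΦ : ∀ x ∈ P, x ^ p ∈ Φ := by
    intro x hx
    exact ⟨(⟨x, hx⟩ : P) ^ p, Cfsg.Agent.Lib.PGroups.Basic.pow_mem_frattini hP _, by simp⟩
  refine ⟨hcomm, ?_, ?_, ?_⟩
  · -- elementary abelian or special
    set Z : Subgroup X := (Subgroup.center ↥P).map P.subtype with hZdef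
    have hΦZ : Φ ≤ Z := by
      intro x hx
      refine ⟨⟨x, hΦP hx⟩, ?_, rfl⟩
      show _ ∈ Subgroup.center ↥P
      rw [Subgroup.mem_center_iff]
      intro y
      apply Subtype.ext
      exact hΦcent x hx y y.2
    by_cases hZP : Z = P
    · left
      have hctop : Subgroup.center ↥P = ⊤ := by
        apply Subgroup.map_injective P.subtype_injective
        rw [← hZdef, hZP, ← MonoidHom.range_eq_map, Subgroup.range_subtype]
      have hcm : ∀ x ∈ P, ∀ y ∈ P, x * y = y * x := by
        intro x hx y hy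
        have h1 : (⟨y, hy⟩ : P) ∈ Subgroup.center ↥P := by rw [hctop]; trivial
        exact congrArg Subtype.val ((Subgroup.mem_center_iff.1 h1) ⟨x, hx⟩)
      have hDbot : D = ⊥ := by
        rw [hDdef, eq_bot_iff, Subgroup.commutator_le]
        intro x hx y hy
        rw [Subgroup.mem_bot]
        exact commutatorElement_eq_one_iff_mul_comm.2 (hcm x hx y hy)
      refine ⟨⟨⟨fun a b => Subtype.ext (hcm a a.2 b b.2)⟩⟩, fun x hx => ?_⟩
      have := hpowΦ x hx
      rw [hΦD, hDbot] at this
      exact Subgroup.mem_bot.1 this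
    · right
      have hZlt : Z < P := lt_of_le_of_ne (Subgroup.map_subtype_le _) hZP
      have hZB : B ≤ Subgroup.normalizer (Z : Set X) := hBP.trans (normalizer_le_normalizer_map P _)
      have hZA := hmin Z hZlt hZB
      have hZC : Z ≤ Subgroup.centralizer (A : Set X) :=
        Subgroup.commutator_eq_bot_iff_le_centralizer.1 hZA
      have hZΦ : Z ≤ Φ := by
        rw [hΦD]
        exact fun x hx => hCD ⟨hZlt.le hx, hZC hx⟩
      have hZeq : Z = Φ := le_antisymm hZΦ hΦZ
      refine ⟨hP, ?_, ?_⟩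
      · apply Subgroup.map_injective P.subtype_injective
        rw [← hZdef, ← hΦdef, hZeq]
      · apply Subgroup.map_injective P.subtype_injective
        rw [← hZdef, hDmap, hZeq, hΦD]
  · -- irreducibility
    intro U hΦU hUP hUB
    by_cases hUe : U = P
    · exact Or.inr hUe
    · left
      have hUlt : U < P := lt_of_le_of_ne hUP hUe
      have hUA := hmin U hUlt hUB
      have hUC : U ≤ Subgroup.centralizer (A : Set X) :=
        Subgroup.commutator_eq_bot_iff_le_centralizer.1 hUA
      refine le_antisymm ?_ hΦU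
      rw [hΦD]
      exact fun x hx => hCD ⟨hUlt.le hx, hUC hx⟩
  · -- exponent `p`
    intro hp2
    -- work inside `↥P`
    have hc : ∀ a b : ↥P, ⁅a, b⁆ ∈ Subgroup.center ↥P := by
      intro a b
      rw [Subgroup.mem_center_iff]
      intro y
      apply Subtype.ext
      have h1 : ((⁅a, b⁆ : ↥P) : X) ∈ Φ := by
        rw [hΦD]
        exact Subgroup.commutator_mem_commutator a.2 b.2
      exact hΦcent _ h1 y y.2
    have hcentP : ∀ x : ↥P, (x ^ p) ∈ Subgroup.center ↥P := by
      intro x
      rw [Subgroup.mem_center_iff]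
      intro y
      apply Subtype.ext
      exact hΦcent _ (hpowΦ x x.2) y y.2
    have hcp : ∀ x y : ↥P, ⁅y, x⁆ ^ p = 1 := by
      intro x y
      rw [← Cfsg.Agent.Lib.PGroups.ClassTwo.comm_pow_left hc]
      rw [commutatorElement_eq_one_iff_mul_comm]
      exact ((Subgroup.mem_center_iff.1 (hcentP y)) x).symm
    have hmulp : ∀ x y : ↥P, (x * y) ^ p = x ^ p * y ^ p := by
      intro x y
      exact Cfsg.Agent.Lib.PGroups.ClassTwo.mul_pow_prime_of_comm hp hp2
        ((Subgroup.mem_center_iff.1 (hc y x)) x).symm ((Subgroup.mem_center_iff.1 (hc y x)) y).symm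
        (hcp x y)
    let f : ↥P →* ↥P :=
      { toFun := fun x => x ^ p
        map_one' := one_pow p
        map_mul' := hmulp }
    have hT : P ≤ f.ker.map P.subtype := by
      conv_lhs => rw [← hcomm]
      rw [Subgroup.commutator_le]
      intro x hx a ha
      have hax : a * x⁻¹ * a⁻¹ ∈ P :=
        Subgroup.le_normalizer_iff.1 hAP a ha _ (P.inv_mem hx)
      have hcP : ⁅x, a⁆ ∈ P := by
        have e : ⁅x, a⁆ = x * (a * x⁻¹ * a⁻¹) := by
          simp only [commutatorElement_def]; group
        rw [e]; exact P.mul_mem hx hax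
      refine ⟨⟨⁅x, a⁆, hcP⟩, ?_, rfl⟩
      show _ ∈ f.ker
      rw [MonoidHom.mem_ker]
      apply Subtype.ext
      -- `f` on products
      have e1 : (⟨⁅x, a⁆, hcP⟩ : ↥P) = (⟨x, hx⟩ : ↥P) * ⟨a * x⁻¹ * a⁻¹, hax⟩ := by
        apply Subtype.ext
        simp only [commutatorElement_def, Subgroup.coe_mul]
        group
      rw [e1, map_mul]
      show (x ^ p) * (a * x⁻¹ * a⁻¹) ^ p = 1
      have e2 : (a * x⁻¹ * a⁻¹) ^ p = a * (x ^ p)⁻¹ * a⁻¹ := by
        rw [conj_pow, inv_pow]
      rw [e2]
      have hcx : a * x ^ p = x ^ p * a :=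
        (Subgroup.mem_centralizer_iff.1 (hΦC (hpowΦ x hx))) a ha
      have e3 : a * (x ^ p)⁻¹ * a⁻¹ = (x ^ p)⁻¹ := by
        have : a * (x ^ p)⁻¹ = (x ^ p)⁻¹ * a := by
          have := (Commute.inv_right (show Commute a (x ^ p) from hcx)).eq
          exact this
        rw [this]; group
      rw [e3]; group
    intro x hx
    obtain ⟨y, hy, rfl⟩ := hT hx
    have := congrArg Subtype.val (MonoidHom.mem_ker.1 hy)
    exact this

end Cfsg.Agent.S3736
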