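import Cfsg.Statements.S2581
import Cfsg.Agent.Lib.Jordan.Cent

set_option autoImplicit false
open Cfsg
open Cfsg.Agent.Lib.Jordan.Cent
open Matrix Finset

namespace Cfsg.Agent.S2581


section Count

variable {F : Type*} [Field F] {t : ℕ} {d : Fin t → ℕ}

/-- Parameters on the diagonal. -/
abbrev Par1 (d : Fin t → ℕ) := (k : Fin t) × {l : Fin t // d l = d k}

/-- Diagonal parameters. -/
def isDiag (s : Par d) : Prop := d s.2.1 = d s.1 ∧ (s.2.2 : ℕ) + 1 = d s.1

/-- The parameters on the diagonal. -/
def diagEquiv (hd : ∀ k, 1 ≤ d k) : {s : Par d // isDiag s} ≃ Par1 d where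
  toFun s := ⟨s.1.1, ⟨s.1.2.1, s.2.1⟩⟩
  invFun s := ⟨⟨s.1, s.2.1, ⟨d s.1 - 1, by
    have h1 := hd s.1
    have h2 := s.2.2
    exact lt_min (by omega) (by omega)⟩⟩, ⟨s.2.2, by
    have h1 := hd s.1
    show d s.1 - 1 + 1 = d s.1
    omega⟩⟩
  left_inv := by
    rintro ⟨⟨k, l, b⟩, hs⟩
    obtain ⟨h1, h2⟩ := hs
    simp only at h1 h2
    apply Subtype.ext
    simp only
    congr 3
    omega
  right_inv := by
    rintro ⟨k, ⟨l, hl⟩⟩
    rfl

/-- The matrices from the diagonal parameters. -/
def diagMat (N : ℕ) (hN : ∀ k, d k < N) : (Par1 d → F) ≃ ((i : Fin N) → Matrix (Tp d i) (Tp d i) F) where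
  toFun α i := fun l k => α ⟨k.1, ⟨l.1, l.2.trans k.2.symm⟩⟩
  invFun β s := β ⟨d s.1, hN s.1⟩ ⟨s.2.1, s.2.2⟩ ⟨s.1, rfl⟩
  left_inv := by
    intro α
    rfl
  right_inv := by
    intro β
    funext ⟨i, hi⟩ l k
    obtain ⟨l, hl⟩ := l
    obtain ⟨k, hk⟩ := k
    simp only at hl hk
    subst hk
    rfl

theorem card_units_matrix {ι : Type*} [Fintype ι] [DecidableEq ι] [Fintype F] :
    Nat.card {M : Matrix ι ι F // IsUnit M} =
      ∏ j : Fin (Fintype.card ι), (Fintype.card F ^ Fintype.card ι - Fintype.card F ^ (j : ℕ)) := by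
  have e1 : {M : Matrix ι ι F // IsUnit M} ≃ GL ι F :=
    { toFun := fun M => M.2.unit
      invFun := fun g => ⟨g.1, g.isUnit⟩
      left_inv := fun M => rfl
      right_inv := fun g => Units.ext rfl }
  have e2 : GL ι F ≃ GL (Fin (Fintype.card ι)) F :=
    (Units.mapEquiv (Matrix.reindexAlgEquiv F F (Fintype.equivFin ι)).toMulEquiv).toEquiv
  rw [Nat.card_congr (e1.trans e2), Matrix.card_GL_field]

theorem sum_fib {N : ℕ} (hN : ∀ k, d k < N) (f : ℕ → ℕ) :
    ∑ k, f (d k) = ∑ i ∈ Finset.range N, (Finset.univ.filter (fun k : Fin t => d k = i)).card * f i := by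
  rw [← Finset.sum_fiberwise_of_maps_to (s := Finset.univ) (t := Finset.range N) (g := d)
    (fun k _ => Finset.mem_range.mpr (hN k))]
  apply Finset.sum_congr rfl
  intro i _
  rw [Finset.sum_congr rfl (fun k hk => by rw [(Finset.mem_filter.mp hk).2]), Finset.sum_const, smul_eq_mul]

/-- The arithmetic of the exponent. -/
theorem exponent_eq (hd : ∀ k, 1 ≤ d k) {N : ℕ} (hN : ∀ k, d k < N) :
    (∑ k, ∑ l, min (d k) (d l)) =
      (∑ k, (Finset.univ.filter (fun l : Fin t => d l = d k)).card) +
      (2 * (∑ i ∈ Finset.range N, ∑ j ∈ Finset.range N,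
        if i < j then i * (Finset.univ.filter (fun k : Fin t => d k = i)).card *
          (Finset.univ.filter (fun k : Fin t => d k = j)).card else 0) +
        ∑ i ∈ Finset.range N, (i - 1) * (Finset.univ.filter (fun k : Fin t => d k = i)).card ^ 2) := by
  set a : ℕ → ℕ := fun i => (Finset.univ.filter (fun k : Fin t => d k = i)).card with ha
  have ha0 : a 0 = 0 := by
    simp only [ha, Finset.card_eq_zero]
    apply Finset.filter_eq_empty_iff.mpr
    intro k _
    have := hd k
    omega
  have h1 : (∑ k, ∑ l, min (d k) (d l)) = ∑ i ∈ Finset.range N, ∑ j ∈ Finset.range N, a i * (a j * min i j) := by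
    rw [sum_fib hN (fun i => ∑ l, min i (d l))]
    apply Finset.sum_congr rfl
    intro i _
    rw [sum_fib hN (fun j => min i j), Finset.mul_sum]
  have h2 : (∑ k, (Finset.univ.filter (fun l : Fin t => d l = d k)).card) = ∑ i ∈ Finset.range N, a i * a i := by
    rw [sum_fib hN a]
  have h3 : ∀ i j, a i * (a j * min i j) =
      (if i < j then i * a i * a j else 0) + (if j < i then j * a j * a i else 0) +
        (if i = j then i * a i * a i else 0) := by
    intro i j
    rcases lt_trichotomy i j with h | h | h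
    · have h4 : ¬ j < i := by omega
      have h5 : ¬ i = j := by omega
      rw [if_pos h, if_neg h4, if_neg h5, min_eq_left h.le]
      ring
    · subst h
      simp
      ring
    · have h4 : ¬ i < j := by omega
      have h5 : ¬ i = j := by omega
      rw [if_neg h4, if_pos h, if_neg h5, min_eq_right h.le]
      ring
  have h4 : ∑ i ∈ Finset.range N, ∑ j ∈ Finset.range N, (if j < i then j * a j * a i else 0) =
      ∑ i ∈ Finset.range N, ∑ j ∈ Finset.range N, (if i < j then i * a i * a j else 0) := by
    rw [Finset.sum_comm]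
  have h5 : ∑ i ∈ Finset.range N, ∑ j ∈ Finset.range N, (if i = j then i * a i * a i else 0) =
      ∑ i ∈ Finset.range N, i * a i * a i := by
    apply Finset.sum_congr rfl
    intro i hi
    rw [Finset.sum_ite_eq]
    simp [hi]
  have h6 : ∑ i ∈ Finset.range N, a i * a i + ∑ i ∈ Finset.range N, (i - 1) * a i ^ 2 =
      ∑ i ∈ Finset.range N, i * a i * a i := by
    rw [← Finset.sum_add_distrib]
    apply Finset.sum_congr rfl
    intro i _
    rcases Nat.eq_zero_or_pos i with rfl | hi
    · simp [ha0]
    · obtain ⟨i, rfl⟩ : ∃ i', i = i' + 1 := ⟨i - 1, by omega⟩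
      simp only [Nat.add_sub_cancel]
      ring
  rw [h1, h2]
  simp only [h3, Finset.sum_add_distrib]
  rw [h4, h5, ← h6]
  ring

variable [Fintype F]

/-- The count. -/
theorem card_cent (hd : ∀ k, 1 ≤ d k) {N : ℕ} (hN : ∀ k, d k < N) :
    Nat.card {g : GL (Ix d) F // (g : Matrix (Ix d) (Ix d) F) * jordanTypeMatrix d F =
        jordanTypeMatrix d F * (g : Matrix (Ix d) (Ix d) F)} =
      Fintype.card F ^ (2 * (∑ i ∈ Finset.range N, ∑ j ∈ Finset.range N,
        if i < j then i * (Finset.univ.filter (fun k : Fin t => d k = i)).card *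
          (Finset.univ.filter (fun k : Fin t => d k = j)).card else 0) +
        ∑ i ∈ Finset.range N, (i - 1) * (Finset.univ.filter (fun k : Fin t => d k = i)).card ^ 2) *
      ∏ i ∈ Finset.range N, ∏ j : Fin ((Finset.univ.filter (fun k : Fin t => d k = i)).card),
        (Fintype.card F ^ (Finset.univ.filter (fun k : Fin t => d k = i)).card - Fintype.card F ^ (j : ℕ)) := by
  classical
  -- from the group to the commutant
  let e1 : {g : GL (Ix d) F // (g : Matrix (Ix d) (Ix d) F) * jordanTypeMatrix d F =
        jordanTypeMatrix d F * (g : Matrix (Ix d) (Ix d) F)} ≃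
      {A : Matrix (Ix d) (Ix d) F // A * Nil F d = Nil F d * A ∧ IsUnit A} :=
    { toFun := fun g => ⟨g.1.1, (comm_iff _).mp g.2, g.1.isUnit⟩
      invFun := fun A => ⟨A.2.2.unit, (comm_iff _).mpr A.2.1⟩
      left_inv := fun g => by
        apply Subtype.ext
        apply Units.ext
        rfl
      right_inv := fun A => rfl }
  -- from the commutant to the parameters
  let e2 : {A : Matrix (Ix d) (Ix d) F // A * Nil F d = Nil F d * A ∧ IsUnit A} ≃
      {α : Par d → F // IsUnit (mk0 α)} :=
    { toFun := fun A => ⟨pars A.1, by rw [mk0_pars A.2.1]; exact A.2.2⟩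
      invFun := fun α => ⟨mk0 α.1, mk0_comm α.1, α.2⟩
      left_inv := fun A => Subtype.ext (mk0_pars A.2.1)
      right_inv := fun α => Subtype.ext (pars_mk0 α.1) }
  -- the diagonal parameters
  let e3 : (Par d → F) ≃ ({s : Par d // isDiag s} → F) × ({s : Par d // ¬ isDiag s} → F) :=
    Equiv.piEquivPiSubtypeProd isDiag (fun _ => F)
  let e4 := (Equiv.arrowCongr (diagEquiv hd) (Equiv.refl F)).trans (diagMat (F := F) N hN)
  have hres : ∀ (α : Par d → F) (i : Fin N), res (mk0 α) i = e4 (fun s => α s.1) i := by
    intro α i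
    ext ⟨l, hl⟩ ⟨k, hk⟩
    simp only [res]
    have h1 := hd l
    have h2 := hd k
    rw [B, dif_pos ⟨h1, h2⟩]
    simp only [mk0, ext0]
    rw [if_pos (le_refl _), dif_pos]
    · simp only [e4, Equiv.trans_apply, Equiv.arrowCongr_apply, diagMat, Equiv.coe_fn_mk, Equiv.coe_refl,
        Function.comp, id]
      show α _ = α _
      congr 3
      apply Fin.ext
      simp only [diagEquiv, Equiv.coe_fn_symm_mk]
      omega
    · simp only [Nat.sub_self]
      have : d l = d k := hl.trans hk.symm
      rw [this, min_self]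
      omega
  have hunit : ∀ α : Par d → F, IsUnit (mk0 α) ↔ ∀ i : Fin N, IsUnit (e4 (fun s => α s.1) i) := by
    intro α
    rw [isUnit_iff hd (mk0_comm α)]
    constructor
    · intro h i
      rw [← hres]
      exact h i
    · intro h i
      by_cases hi : i < N
      · have := h ⟨i, hi⟩
        rw [← hres] at this
        exact this
      · have : IsEmpty (Tp d i) := ⟨fun k => by
          have h1 := k.2
          have h2 := hN k.1
          omega⟩
        exact isUnit_of_subsingleton _
  let e5 : {α : Par d → F // IsUnit (mk0 α)} ≃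
      ((i : Fin N) → {M : Matrix (Tp d i) (Tp d i) F // IsUnit M}) × ({s : Par d // ¬ isDiag s} → F) :=
    { toFun := fun α => (fun i => ⟨e4 (fun s => α.1 s.1) i, (hunit α.1).mp α.2 i⟩, fun s => α.1 s.1)
      invFun := fun β => ⟨e3.symm (e4.symm (fun i => (β.1 i).1), β.2), by
        rw [hunit]
        intro i
        have h1 : (fun s : {s : Par d // isDiag s} => e3.symm (e4.symm (fun i => (β.1 i).1), β.2) s.1) =
            e4.symm (fun i => (β.1 i).1) := by
          funext s
          simp [e3, Equiv.piEquivPiSubtypeProd, s.2]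
        rw [h1, Equiv.apply_symm_apply]
        exact (β.1 i).2⟩
      left_inv := by
        rintro ⟨α, hα⟩
        apply Subtype.ext
        funext s
        simp only [e3, Equiv.piEquivPiSubtypeProd, Equiv.symm_apply_apply, Equiv.coe_fn_symm_mk]
        by_cases hs : isDiag s
        · simp [hs]
        · simp [hs]
      right_inv := by
        rintro ⟨β, γ⟩
        have h1 : (fun s : {s : Par d // isDiag s} => e3.symm (e4.symm (fun i => (β i).1), γ) s.1) =
            e4.symm (fun i => (β i).1) := by
          funext s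
          simp [e3, Equiv.piEquivPiSubtypeProd, s.2]
        have h2 : (fun s : {s : Par d // ¬ isDiag s} => e3.symm (e4.symm (fun i => (β i).1), γ) s.1) = γ := by
          funext s
          simp [e3, Equiv.piEquivPiSubtypeProd, s.2]
        apply Prod.ext
        · funext i
          apply Subtype.ext
          show e4 (fun s : {s : Par d // isDiag s} => e3.symm (e4.symm (fun i => (β i).1), γ) s.1) i = _
          rw [h1, Equiv.apply_symm_apply]
        · exact h2 }
  rw [Nat.card_congr (e1.trans (e2.trans e5)), Nat.card_prod, Nat.card_pi, mul_comm]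
  congr 1
  · rw [Nat.card_fun, Nat.card_eq_fintype_card, Nat.card_eq_fintype_card]
    congr 1
    have h1 := exponent_eq hd hN
    have h2 : Fintype.card {s : Par d // ¬ isDiag s} + Fintype.card {s : Par d // isDiag s} = Fintype.card (Par d) := by
      rw [Fintype.card_subtype_compl]
      have := Fintype.card_subtype_le (isDiag (d := d))
      omega
    have h3 : Fintype.card {s : Par d // isDiag s} = ∑ k, (Finset.univ.filter (fun l : Fin t => d l = d k)).card := by
      rw [Fintype.card_congr (diagEquiv hd), Fintype.card_sigma]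
      apply Finset.sum_congr rfl
      intro k _
      rw [Fintype.card_subtype]
    have h4 : Fintype.card (Par d) = ∑ k, ∑ l, min (d k) (d l) := by
      simp [Fintype.card_sigma]
    omega
  · rw [Finset.prod_range]
    apply Finset.prod_congr rfl
    intro i _
    rw [card_units_matrix]
    have h1 : Fintype.card (Tp d i) = (Finset.univ.filter (fun k : Fin t => d k = i)).card :=
      Fintype.card_subtype _
    rw [h1]

end Count

/-- Order of the centraliser in GL of a unipotent matrix of given Jordan type over the field with q elements: if the type has a_i blocks of size i (all block sizes at least 1), the invertible matrices commuting with it number q^γ · Π_i |GL_(a_i)(q)| with γ = 2 Σ_(i<j) i a_i a_j + Σ_i (i − 1) a_i² (a group of order q^γ extended by Π GL_(a_i)(q)). -/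
theorem result {F : Type*} [Field F] [Fintype F] {q : ℕ} (hF : Fintype.card F = q) {t : ℕ} (d : Fin t → ℕ) (hd : ∀ k, 1 ≤ d k) : Nat.card {g : GL ((k : Fin t) × Fin (d k)) F // (g : Matrix ((k : Fin t) × Fin (d k)) ((k : Fin t) × Fin (d k)) F) * Cfsg.jordanTypeMatrix d F = Cfsg.jordanTypeMatrix d F * (g : Matrix ((k : Fin t) × Fin (d k)) ((k : Fin t) × Fin (d k)) F)} = q ^ (2 * (∑ i ∈ Finset.range (Finset.univ.sup d + 1), ∑ j ∈ Finset.range (Finset.univ.sup d + 1), if i < j then i * (Finset.univ.filter (fun k : Fin t => d k = i)).card * (Finset.univ.filter (fun k : Fin t => d k = j)).card else 0) + ∑ i ∈ Finset.range (Finset.univ.sup d + 1), (i - 1) * (Finset.univ.filter (fun k : Fin t => d k = i)).card ^ 2) * ∏ i ∈ Finset.range (Finset.univ.sup d + 1), ∏ j : Fin ((Finset.univ.filter (fun k : Fin t => d k = i)).card), (q ^ (Finset.univ.filter (fun k : Fin t => d k = i)).card - q ^ (j : ℕ)) := by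
  subst hF
  exact card_cent hd (fun k => Nat.lt_succ_of_le (Finset.le_sup (f := d) (Finset.mem_univ k)))

end Cfsg.Agent.S2581
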