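import Cfsg.Statements.S0735
import Mathlib

set_option autoImplicit false
open Cfsg

namespace Cfsg.Agent.S0735

open scoped Pointwise

theorem exists_pair {α : Type*} [Fintype α] [DecidableEq α] (G : Subgroup (Equiv.Perm α))
    (h2 : MulAction.IsPretransitive G (Set.powersetCard α 2)) {a b c d : α} (hab : a ≠ b)
    (hcd : c ≠ d) :
    ∃ g : G, ((g : Equiv.Perm α) a = c ∧ (g : Equiv.Perm α) b = d) ∨
      ((g : Equiv.Perm α) a = d ∧ (g : Equiv.Perm α) b = c) := by
  have hs : ({a, b} : Finset α).card = 2 := Finset.card_pair hab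
  have ht : ({c, d} : Finset α).card = 2 := Finset.card_pair hcd
  obtain ⟨g, hg⟩ := h2.exists_smul_eq (⟨{a, b}, hs⟩ : Set.powersetCard α 2) ⟨{c, d}, ht⟩
  have hg' : g • ({a, b} : Finset α) = {c, d} := by
    have := congrArg (fun s : Set.powersetCard α 2 => (s : Finset α)) hg
    simp only [Set.powersetCard.coe_smul] at this
    exact this
  have ha : g • a ∈ ({c, d} : Finset α) := by
    rw [← hg']; exact Finset.smul_mem_smul_finset (by simp)
  have hb : g • b ∈ ({c, d} : Finset α) := by
    rw [← hg']; exact Finset.smul_mem_smul_finset (by simp)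
  have hne : g • a ≠ g • b := fun h => hab (MulAction.injective g h)
  have e : ∀ x, g • x = (g : Equiv.Perm α) x := fun _ => rfl
  simp only [Finset.mem_insert, Finset.mem_singleton] at ha hb
  refine ⟨g, ?_⟩
  rw [← e, ← e]
  rcases ha with ha | ha <;> rcases hb with hb | hb
  · exact absurd (ha.trans hb.symm) hne
  · exact Or.inl ⟨ha, hb⟩
  · exact Or.inr ⟨ha, hb⟩
  · exact absurd (ha.trans hb.symm) hne

/-- A 2-homogeneous permutation group (transitive on 2-subsets) of even order is doubly transitive; a non-trivial 2-homogeneous group is primitive. -/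
theorem result {α : Type*} [Fintype α] [DecidableEq α] (G : Subgroup (Equiv.Perm α)) (h2 : MulAction.IsPretransitive G (Set.powersetCard α 2)) (hα : 3 ≤ Fintype.card α) : (Even (Nat.card G) → MulAction.IsMultiplyPretransitive G α 2) ∧ (G ≠ ⊥ → MulAction.IsPreprimitive G α) := by
  classical
  have e : ∀ (g : G) (x : α), g • x = (g : Equiv.Perm α) x := fun _ _ => rfl
  have hthird : ∀ a b : α, ∃ c : α, c ≠ a ∧ c ≠ b := by
    intro a b
    have : ({a, b} : Finset α).card < Fintype.card α := by
      have := Finset.card_le_two (a := a) (b := b)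
      omega
    obtain ⟨c, -, hc⟩ := Finset.exists_mem_notMem_of_card_lt_card
      (s := ({a, b} : Finset α)) (t := Finset.univ) (by simpa using this)
    simp only [Finset.mem_insert, Finset.mem_singleton, not_or] at hc
    exact ⟨c, hc.1, hc.2⟩
  have htrans : MulAction.IsPretransitive G α := by
    constructor
    intro a b
    by_cases hab : a = b
    · exact ⟨1, by simp [hab]⟩
    obtain ⟨c, hca, hcb⟩ := hthird a b
    obtain ⟨g, hg⟩ := exists_pair G h2 (a := a) (b := c) (c := b) (d := c) (Ne.symm hca) (Ne.symm hcb)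
    rcases hg with ⟨h1, _⟩ | ⟨h1, h3⟩
    · exact ⟨g, by rw [e]; exact h1⟩
    · refine ⟨g * g, ?_⟩
      rw [e]
      simp only [Subgroup.coe_mul, Equiv.Perm.coe_mul, Function.comp_apply, h1, h3]
  refine ⟨fun heven => ?_, fun _ => ?_⟩
  · -- an involution
    have h2dvd : 2 ∣ Nat.card G := heven.two_dvd
    have : Fact (Nat.Prime 2) := ⟨Nat.prime_two⟩
    obtain ⟨t, ht⟩ := exists_prime_orderOf_dvd_card' 2 h2dvd
    have ht1 : t ≠ 1 := by
      intro h
      rw [h, orderOf_one] at ht
      omega
    have ht2 : t * t = 1 := by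
      have := pow_orderOf_eq_one t
      rw [ht, pow_two] at this
      exact this
    -- some point moved by `t`
    have hmoved : ∃ a : α, (t : Equiv.Perm α) a ≠ a := by
      by_contra hall
      push Not at hall
      apply ht1
      apply Subtype.ext
      ext x
      simpa using hall x
    obtain ⟨a, ha⟩ := hmoved
    set b := (t : Equiv.Perm α) a with hb
    have hta : (t : Equiv.Perm α) b = a := by
      have : ((t * t : G) : Equiv.Perm α) a = a := by rw [ht2]; simp
      simpa using this
    rw [MulAction.is_two_pretransitive_iff]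
    intro x y u v hxy huv
    -- move `a,b` to `x,y` and to `u,v`
    have hmove : ∀ {p q : α}, p ≠ q → ∃ g : G, (g : Equiv.Perm α) a = p ∧ (g : Equiv.Perm α) b = q := by
      intro p q hpq
      obtain ⟨g, hg⟩ := exists_pair G h2 (a := a) (b := b) (Ne.symm ha) hpq
      rcases hg with h | ⟨h1, h3⟩
      · exact ⟨g, h⟩
      · refine ⟨g * t, ?_, ?_⟩
        · simp only [Subgroup.coe_mul, Equiv.Perm.coe_mul, Function.comp_apply, ← hb, h3]
        · simp only [Subgroup.coe_mul, Equiv.Perm.coe_mul, Function.comp_apply, hta, h1]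
    obtain ⟨g₁, h₁, h₂⟩ := hmove hxy
    obtain ⟨g₂, h₃, h₄⟩ := hmove huv
    refine ⟨g₂ * g₁⁻¹, ?_, ?_⟩
    · rw [e]
      simp only [Subgroup.coe_mul, Subgroup.coe_inv, Equiv.Perm.coe_mul, Function.comp_apply]
      rw [← h₁, Equiv.Perm.inv_eq_iff_eq.mpr rfl, h₃]
    · rw [e]
      simp only [Subgroup.coe_mul, Subgroup.coe_inv, Equiv.Perm.coe_mul, Function.comp_apply]
      rw [← h₂, Equiv.Perm.inv_eq_iff_eq.mpr rfl, h₄]
  · -- primitivity
    refine ⟨?_⟩
    intro B hB
    by_cases hsub : B.Subsingleton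
    · exact Or.inl hsub
    right
    rw [Set.not_subsingleton_iff] at hsub
    obtain ⟨a, ha, b, hb, hab⟩ := hsub
    rw [Set.eq_univ_iff_forall]
    intro c
    by_contra hc
    have hca : a ≠ c := fun h => hc (h ▸ ha)
    obtain ⟨g, hg⟩ := exists_pair G h2 hab hca
    -- `g • B` meets `B` at `a`
    have hgB : g • B = B := by
      rcases hg with ⟨h1, _⟩ | ⟨_, h3⟩
      · apply MulAction.IsBlock.smul_eq_of_mem hB ha
        rw [e, h1]; exact ha
      · apply MulAction.IsBlock.smul_eq_of_mem hB hb
        rw [e, h3]; exact ha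
    apply hc
    rw [← hgB]
    rcases hg with ⟨_, h3⟩ | ⟨h1, _⟩
    · exact ⟨b, hb, by show g • b = c; rw [e, h3]⟩
    · exact ⟨a, ha, by show g • a = c; rw [e, h1]⟩

end Cfsg.Agent.S0735
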