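import Cfsg.Statements.S2941
import Cfsg.Agent.Lib.LocalEven.CharP
import Cfsg.Agent.Lib.LocalEven.Util
import Cfsg.Agent.Lib.Components.Basic
import Cfsg.Agent.Lib.Core.ThompsonMap

set_option autoImplicit false
open Cfsg
open Subgroup

namespace Cfsg.Agent.S2941

open scoped commutatorElement

/-- Let G be a finite group of characteristic 2 type in which every 2-local subgroup is solvable and the centralizer of Ω₁(Z(S)) lies in N_G(S) for every Sylow 2-subgroup S, and let T be a nontrivial 2-subgroup and K a J(T)-component (J the Thompson subgroup generated by the elementary abelian 2-subgroups of largest order). If a subgroup Q is normalized by ⟨K, J(T)⟩ and normalizes J(T), then Q normalizes K. -/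
theorem result {G : Type*} [Group G] [Finite G] (hL : Cfsg.IsCharacteristicTwoType G) (hN : ∀ N : Subgroup G, Cfsg.IsTwoLocal N → Group.IsSolvable ↥N)
    (hZ : ∀ S : Sylow 2 G, Subgroup.centralizer (Cfsg.omegaCenterOf (S : Subgroup G) : Set G) ≤ Subgroup.normalizer ((S : Subgroup G) : Set G)) (T : Subgroup G) (hT : IsPGroup 2 ↥T) (hT1 : T ≠ ⊥) (K : Subgroup G) (hK : Cfsg.IsJComponent T K)
    (Q : Subgroup G) (hQ1 : K ⊔ Cfsg.thompsonSubgroupOf 2 T ≤ Subgroup.normalizer (Q : Set G)) (hQ2 : Q ≤ Subgroup.normalizer (Cfsg.thompsonSubgroupOf 2 T : Set G)) :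
    Q ≤ Subgroup.normalizer (K : Set G) := by
    classical
  set J := thompsonSubgroupOf 2 T with hJdef
  have hJT : J ≤ T := Cfsg.Agent.Lib.Core.ThompsonMap.thompsonSubgroupOf_le T
  have hJ2 : IsPGroup 2 J := hT.to_le hJT
  have hcomm : ⁅K, J⁆ = K := hK.2.1
  have hJK : J ≤ normalizer (K : Set G) := by
    have := Cfsg.Agent.Lib.LocalEven.CharP.le_normalizer_commutator J K
    rwa [Subgroup.commutator_comm, hcomm] at this
  let C : Subgroup G := closure {x | ∃ k ∈ K, ∃ j ∈ J, x = k * j * k⁻¹}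
  have hKC : K ≤ C := by
    conv_lhs => rw [← hcomm]
    rw [Subgroup.commutator_le]
    intro k hk j hj
    have h1 : k * j * k⁻¹ ∈ C := subset_closure ⟨k, hk, j, hj, rfl⟩
    have h2 : j ∈ C := subset_closure ⟨1, one_mem _, j, hj, by simp⟩
    have : ⁅k, j⁆ = (k * j * k⁻¹) * j⁻¹ := rfl
    rw [this]
    exact mul_mem h1 (inv_mem h2)
  have hJC : J ≤ C := fun j hj => subset_closure ⟨1, one_mem _, j, hj, by simp⟩
  have hBC : K ⊔ J ≤ C := sup_le hKC hJC
  have hconj : ∀ q ∈ Q, ∀ x ∈ K ⊔ J, q * x * q⁻¹ ∈ K ⊔ J := by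
    intro q hq x hx
    have hx' : x ∈ C := hBC hx
    clear hx
    induction hx' using closure_induction with
    | mem x hx₁ =>
      obtain ⟨k, hk, j, hj, rfl⟩ := hx₁
      have hkQ : k ∈ normalizer (Q : Set G) := hQ1 (mem_sup_left hk)
      have hq' : k⁻¹ * q * k ∈ Q := by
        have := (mem_normalizer_iff.1 (inv_mem hkQ) q).1 hq
        simpa using this
      have hj' : (k⁻¹ * q * k) * j * (k⁻¹ * q * k)⁻¹ ∈ J :=
        (mem_normalizer_iff.1 (hQ2 hq') j).1 hj
      have : q * (k * j * k⁻¹) * q⁻¹ = k * ((k⁻¹ * q * k) * j * (k⁻¹ * q * k)⁻¹) * k⁻¹ := by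
        group
      rw [this]
      exact mul_mem (mul_mem (mem_sup_left hk) (mem_sup_right hj')) (inv_mem (mem_sup_left hk))
    | one => simp
    | mul x y hx hy ihx ihy =>
      have : q * (x * y) * q⁻¹ = (q * x * q⁻¹) * (q * y * q⁻¹) := by group
      rw [this]
      exact mul_mem ihx ihy
    | inv x hx ihx =>
      have : q * x⁻¹ * q⁻¹ = (q * x * q⁻¹)⁻¹ := by group
      rw [this]
      exact inv_mem ihx
  have hodd : ∀ x ∈ K ⊔ J, Odd (orderOf x) → x ∈ K := by
    intro x hx hxo
    rw [sup_comm] at hx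
    obtain ⟨j, hj, k, hk, rfl⟩ :=
      Cfsg.Agent.Lib.Components.Basic.mem_sup_of_le_normalizer hJK hx
    obtain ⟨m, hm⟩ := hJ2 ⟨j, hj⟩
    have hjm : j ^ (2 ^ m) = 1 := by
      have := congrArg Subtype.val hm
      simpa using this
    have hpow : ∀ n : ℕ, ∃ k' ∈ K, (j * k) ^ n = k' * j ^ n := by
      intro n
      induction n with
      | zero => exact ⟨1, one_mem _, by simp⟩
      | succ n ih =>
        obtain ⟨k', hk', he⟩ := ih
        have hjn : j ^ n ∈ normalizer (K : Set G) := pow_mem (hJK hj) n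
        have hj1 : j ∈ normalizer (K : Set G) := hJK hj
        refine ⟨k' * (j ^ n * (j * k * j⁻¹) * (j ^ n)⁻¹), mul_mem hk' ?_, ?_⟩
        · refine (mem_normalizer_iff.1 hjn _).1 ((mem_normalizer_iff.1 hj1 _).1 hk)
        · rw [pow_succ, he, pow_succ]
          group
    obtain ⟨k', hk', he⟩ := hpow (2 ^ m)
    rw [hjm, mul_one] at he
    have hcop : Nat.Coprime (2 ^ m) (orderOf (j * k)) :=
      Nat.Coprime.pow_left _ (Nat.coprime_two_left.2 hxo)
    obtain ⟨r, hr⟩ := exists_pow_eq_self_of_coprime hcop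
    rw [← hr, he]
    exact pow_mem hk' r
  have hcl : ∀ q ∈ Q, ∀ x ∈ K, q * x * q⁻¹ ∈ K := by
    intro q hq x hx
    have hx' : x ∈ closure {g : G | g ∈ K ∧ Odd (orderOf g)} := by
      rw [hK.1]; exact hx
    clear hx
    induction hx' using closure_induction with
    | mem x hx₁ =>
      refine hodd _ (hconj q hq x (mem_sup_left hx₁.1)) ?_
      have : orderOf (q * x * q⁻¹) = orderOf x := by
        have := orderOf_injective (MulAut.conj q).toMonoidHom (MulAut.conj q).injective x
        simpa using this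
      rw [this]; exact hx₁.2
    | one => simp
    | mul x y hx hy ihx ihy =>
      have : q * (x * y) * q⁻¹ = (q * x * q⁻¹) * (q * y * q⁻¹) := by group
      rw [this]
      exact mul_mem ihx ihy
    | inv x hx ihx =>
      have : q * x⁻¹ * q⁻¹ = (q * x * q⁻¹)⁻¹ := by group
      rw [this]
      exact inv_mem ihx
  intro q hq
  exact Cfsg.Agent.Lib.LocalEven.Util.mem_normalizer_of_conj_le (hcl q hq)

end Cfsg.Agent.S2941
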