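import Cfsg.Statements.S2570
import Cfsg.Agent.Lib.Jordan.GL

set_option autoImplicit false
open Cfsg Cfsg.Agent.Lib.Jordan.GL Polynomial
open scoped Matrix

namespace Cfsg.Agent.S2570

/-- `(g - 1)^p = g^p - 1`. -/
theorem Nm_pow_char {F : Type*} [Field F] {p : ℕ} [Fact p.Prime] [CharP F p] {n : ℕ} (g : GL (Fin n) F) :
    (Nm g) ^ p = 0 ↔ g ^ p = 1 := by
  have h1 : ((g : Matrix (Fin n) (Fin n) F) - 1) ^ p = (g : Matrix (Fin n) (Fin n) F) ^ p - 1 := by
    have h2 : ((X : F[X]) - 1) ^ p = X ^ p - 1 := by
      rw [sub_pow_char]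
      simp
    have h3 := congrArg (aeval (g : Matrix (Fin n) (Fin n) F)) h2
    simpa using h3
  rw [Nm_pow, h1]
  constructor
  · intro h
    apply Units.ext
    ext i j
    have h4 := congrFun (LinearMap.congr_fun h (Pi.single j 1)) i
    simp only [Matrix.mulVecLin_apply, Matrix.mulVec_single_one, Matrix.col_apply, LinearMap.zero_apply, Pi.zero_apply,
      Matrix.sub_apply] at h4
    rw [Units.val_pow_eq_pow_val, Units.val_one]
    exact sub_eq_zero.mp h4
  · intro h
    have h5 : (g : Matrix (Fin n) (Fin n) F) ^ p = 1 := by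
      rw [← Units.val_pow_eq_pow_val, h, Units.val_one]
    rw [h5, sub_self, Matrix.mulVecLin_zero]

/-- Number of conjugacy classes of elements of order p in GL_n over a finite field of characteristic p: they correspond to the Jordan types, that is, to the partitions of n with all parts at most p other than the partition into ones, so there are (number of partitions of n with parts ≤ p) − 1 of them. -/
theorem result {F : Type*} [Field F] [Fintype F] {p : ℕ} [Fact p.Prime] [CharP F p] (n : ℕ) : Nat.card {C : ConjClasses (GL (Fin n) F) // ∃ g : GL (Fin n) F, ConjClasses.mk g = C ∧ orderOf g = p} = (Finset.univ.filter (fun μ : Nat.Partition n => ∀ a ∈ μ.parts, a ≤ p)).card - 1 := by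
  classical
  let A : Finset (Nat.Partition n) := Finset.univ.filter (fun μ => (∀ a ∈ μ.parts, a ≤ p) ∧ ∃ a ∈ μ.parts, 2 ≤ a)
  -- the partition of ones
  have hp1 : 1 ≤ p := (Fact.out : p.Prime).one_lt.le
  have hp2 : 2 ≤ p := (Fact.out : p.Prime).two_le
  let one : Nat.Partition n := ⟨Multiset.replicate n 1, fun h => by
    rw [Multiset.eq_of_mem_replicate h]
    exact Nat.one_pos, by simp⟩
  have hcardA : A.card = (Finset.univ.filter (fun μ : Nat.Partition n => ∀ a ∈ μ.parts, a ≤ p)).card - 1 := by
    have h1 : A = (Finset.univ.filter (fun μ : Nat.Partition n => ∀ a ∈ μ.parts, a ≤ p)).erase one := by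
      ext μ
      simp only [A, Finset.mem_filter, Finset.mem_univ, true_and, Finset.mem_erase, ne_eq]
      constructor
      · rintro ⟨h1, a, ha, h2⟩
        refine ⟨?_, h1⟩
        intro h
        rw [h] at ha
        have := Multiset.eq_of_mem_replicate ha
        omega
      · rintro ⟨h1, h2⟩
        refine ⟨h2, ?_⟩
        by_contra hcon
        push Not at hcon
        apply h1
        have h3 : ∀ a ∈ μ.parts, a = 1 := by
          intro a ha
          have h4 := hcon a ha
          have h5 := μ.parts_pos ha
          omega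
        apply Nat.Partition.ext
        show μ.parts = Multiset.replicate n 1
        rw [Multiset.eq_replicate]
        refine ⟨?_, h3⟩
        have h6 := μ.parts_sum
        rw [Multiset.eq_replicate_card.mpr h3] at h6
        simpa using h6
    rw [h1, Finset.card_erase_of_mem]
    simp only [Finset.mem_filter, Finset.mem_univ, true_and]
    intro a ha
    rw [Multiset.eq_of_mem_replicate ha]
    exact hp1
  rw [← hcardA]
  -- a representative of each type
  have hcs : ∀ μ : Nat.Partition n, μ.parts.sum = Fintype.card (Fin n) := by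
    intro μ
    rw [μ.parts_sum, Fintype.card_fin]
  have h0 : ∀ μ : Nat.Partition n, 0 ∉ μ.parts := fun μ h => absurd (μ.parts_pos h) (lt_irrefl 0)
  have hex : ∀ μ : {μ // μ ∈ A}, ∃ g : GL (Fin n) F, HasType g μ.1.parts ∧ orderOf g = p := by
    rintro ⟨μ, hμ⟩
    obtain ⟨g, hg⟩ := exists_of_mset (F := F) (ι := Fin n) μ.parts (h0 μ) (hcs μ)
    refine ⟨g, hg, ?_⟩
    simp only [A, Finset.mem_filter, Finset.mem_univ, true_and] at hμ
    obtain ⟨h1, a, ha, h2⟩ := hμ
    have h3 : g ^ p = 1 := (Nm_pow_char g).mp ((hg.pow_eq_zero_iff p).mpr h1)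
    apply orderOf_eq_prime h3
    intro h4
    rw [eq_one_iff] at h4
    have h5 := (hg.pow_eq_zero_iff 1).mp (by rw [pow_one]; exact h4) a ha
    omega
  choose rep hrep hord using hex
  let f : {μ // μ ∈ A} → {C : ConjClasses (GL (Fin n) F) // ∃ g : GL (Fin n) F, ConjClasses.mk g = C ∧ orderOf g = p} :=
    fun μ => ⟨ConjClasses.mk (rep μ), rep μ, rfl, hord μ⟩
  have hf : Function.Bijective f := by
    constructor
    · intro μ ν h
      have h1 : ConjClasses.mk (rep μ) = ConjClasses.mk (rep ν) := congrArg Subtype.val h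
      have h2 := ConjClasses.mk_eq_mk_iff_isConj.mp h1
      have h3 := type_eq_of_conj h2 (hrep μ) (hrep ν)
      exact Subtype.ext (Nat.Partition.ext h3)
    · rintro ⟨C, g, rfl, hg⟩
      have h1 : g ^ p = 1 := by rw [← hg]; exact pow_orderOf_eq_one g
      have h2 := (Nm_pow_char g).mpr h1
      obtain ⟨M, hM⟩ := exists_type g ⟨p, h2⟩
      have hle := (hM.pow_eq_zero_iff p).mp h2
      let μ : Nat.Partition n := ⟨M, fun {i} hi => by
        rcases Nat.eq_zero_or_pos i with h | h
        · rw [h] at hi
          exact absurd hi hM.zero_notMem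
        · exact h, by rw [hM.sum, Fintype.card_fin]⟩
      have hμA : μ ∈ A := by
        simp only [A, Finset.mem_filter, Finset.mem_univ, true_and]
        refine ⟨hle, ?_⟩
        by_contra hcon
        push Not at hcon
        have h3 : Nm g = 0 := by
          have : ∀ a ∈ M, a ≤ 1 := fun a ha => by
            have := hcon a ha
            omega
          have h4 := (hM.pow_eq_zero_iff 1).mpr this
          rwa [pow_one] at h4
        have h5 : g = 1 := (eq_one_iff g).mpr h3
        rw [h5, orderOf_one] at hg
        omega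
      refine ⟨⟨μ, hμA⟩, ?_⟩
      apply Subtype.ext
      show ConjClasses.mk (rep ⟨μ, hμA⟩) = ConjClasses.mk g
      exact ConjClasses.mk_eq_mk_iff_isConj.mpr (conj_of_type (hrep ⟨μ, hμA⟩) hM)
  rw [← Nat.card_congr (Equiv.ofBijective f hf)]
  simp

end Cfsg.Agent.S2570
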