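import Cfsg.Statements.S2587
import Cfsg.Agent.Lib.MatConj.NormSurj
import Cfsg.Agent.Lib.HermCount.Field

set_option autoImplicit false
open Cfsg Polynomial Cfsg.Agent.Lib.HermCount.Field Cfsg.Agent.Lib.MatConj.NormSurj
open scoped Matrix

namespace Cfsg.Agent.S2587


section Sharp
variable {K : Type*} [Field K] [Fintype K] {q n : ℕ}

/-- The conjugate transpose. -/
def sh (hK : Fintype.card K = q ^ 2) (M : Matrix (Fin n) (Fin n) K) : Matrix (Fin n) (Fin n) K :=
  (M.map (frobHom hK))ᵀ

theorem sh_mul (hK : Fintype.card K = q ^ 2) (M N : Matrix (Fin n) (Fin n) K) : sh hK (M * N) = sh hK N * sh hK M := by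
  rw [sh, sh, sh, Matrix.map_mul, Matrix.transpose_mul]

theorem sh_one (hK : Fintype.card K = q ^ 2) : sh hK (1 : Matrix (Fin n) (Fin n) K) = 1 := by
  rw [sh, Matrix.map_one _ (map_zero _) (map_one _), Matrix.transpose_one]

theorem sh_sh (hK : Fintype.card K = q ^ 2) (M : Matrix (Fin n) (Fin n) K) : sh hK (sh hK M) = M := by
  ext i j
  simp [sh, frob_frob hK]

theorem sh_add (hK : Fintype.card K = q ^ 2) (M N : Matrix (Fin n) (Fin n) K) : sh hK (M + N) = sh hK M + sh hK N := by
  ext i j
  simpa [sh] using frob_add hK _ _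

theorem sh_algebraMap (hK : Fintype.card K = q ^ 2) (c : K) :
    sh hK (algebraMap K (Matrix (Fin n) (Fin n) K) c) = algebraMap K _ (c ^ q) := by
  ext i j
  simp only [sh, Matrix.transpose_apply, Matrix.map_apply, Matrix.algebraMap_matrix_apply, frobHom_apply]
  by_cases h : i = j
  · subst h
    simp
  · have h' : j ≠ i := fun h1 => h h1.symm
    simp only [if_neg h, if_neg h']
    rw [zero_pow (by have := two_le hK; omega)]

theorem herm_adj (hK : Fintype.card K = q ^ 2) (M : Matrix (Fin n) (Fin n) K) (u v : Fin n → K) :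
    hermForm n K q (M *ᵥ u) v = hermForm n K q u (sh hK M *ᵥ v) := by
  simp only [hermForm, Matrix.mulVec, dotProduct, sh, Matrix.transpose_apply, Matrix.map_apply, frobHom_apply]
  have h1 : ∀ i : Fin n, (∑ j, M j i ^ q * v j) ^ q = ∑ j, M j i * v j ^ q := by
    intro i
    have := map_sum (frobHom hK) (fun j => M j i ^ q * v j) Finset.univ
    simp only [frobHom_apply] at this
    rw [this]
    refine Finset.sum_congr rfl fun j _ => ?_
    rw [mul_pow, frob_frob hK]
  simp only [h1, Finset.sum_mul, Finset.mul_sum]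
  rw [Finset.sum_comm]
  refine Finset.sum_congr rfl fun i _ => Finset.sum_congr rfl fun j _ => ?_
  ring

theorem mem_GU_iff_sh (hK : Fintype.card K = q ^ 2) (g : GL (Fin n) K) :
    g ∈ GU n K q ↔ sh hK (g : Matrix (Fin n) (Fin n) K) * (g : Matrix (Fin n) (Fin n) K) = 1 := by
  constructor
  · intro hg
    have h1 : ∀ u v, hermForm n K q ((g : Matrix (Fin n) (Fin n) K) *ᵥ u) ((g : Matrix (Fin n) (Fin n) K) *ᵥ v) = hermForm n K q u v := hg
    ext i j
    have h2 := h1 (Pi.single i 1) (Pi.single j 1)
    rw [herm_adj hK, Matrix.mulVec_mulVec] at h2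
    have hq2 := two_le hK
    have h0 : (0 : K) ^ q = 0 := zero_pow (by omega)
    simp only [hermForm, Pi.single_apply, ite_mul, one_mul, zero_mul, Finset.sum_ite_eq', Finset.mem_univ, if_true] at h2
    simp only [Matrix.mulVec_single_one, Matrix.col_apply] at h2
    have h3 := congrArg (fun z : K => z ^ q) h2
    simp only [frob_frob hK] at h3
    rw [h3]
    simp only [Matrix.one_apply, Pi.single_apply]
  · intro hg u v
    show hermForm n K q ((g : Matrix (Fin n) (Fin n) K) *ᵥ u) ((g : Matrix (Fin n) (Fin n) K) *ᵥ v) = hermForm n K q u v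
    rw [herm_adj hK, Matrix.mulVec_mulVec, hg, Matrix.one_mulVec]

/-- Coefficientwise Frobenius. -/
noncomputable def sp (hK : Fintype.card K = q ^ 2) : K[X] →+* K[X] := Polynomial.mapRingHom (frobHom hK)

theorem sp_sp (hK : Fintype.card K = q ^ 2) (p : K[X]) : sp hK (sp hK p) = p := by
  ext i
  simp [sp, frob_frob hK]

theorem sh_pow (hK : Fintype.card K = q ^ 2) (H : Matrix (Fin n) (Fin n) K) (hH : sh hK H = H) (m : ℕ) :
    sh hK (H ^ m) = H ^ m := by
  induction m with
  | zero => simp [sh_one]
  | succ m ih =>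
    rw [pow_succ, sh_mul, hH, ih]
    exact ((Commute.refl H).pow_right m).eq

theorem commute_aeval (H a : Matrix (Fin n) (Fin n) K) (hc : Commute H a) (p : K[X]) : Commute (aeval H p) a := by
  induction p using Polynomial.induction_on' with
  | add u v hu hv =>
    rw [map_add]
    exact hu.add_left hv
  | monomial m c =>
    rw [aeval_monomial]
    exact (Algebra.commute_algebraMap_left c a).mul_left (hc.pow_left m)

theorem aeval_sp (hK : Fintype.card K = q ^ 2) (H : Matrix (Fin n) (Fin n) K) (hH : sh hK H = H) (p : K[X]) :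
    aeval H (sp hK p) = sh hK (aeval H p) := by
  induction p using Polynomial.induction_on' with
  | add p r hp hr => simp only [map_add, hp, hr, sh_add]
  | monomial m a =>
    have h1 : sp hK (monomial m a) = monomial m (a ^ q) := by
      simp [sp]
    rw [h1, aeval_monomial, aeval_monomial, sh_mul, sh_algebraMap]
    rw [sh_pow hK H hH, Algebra.commutes]

theorem exists_poly_norm (hK : Fintype.card K = q ^ 2) (H : Matrix (Fin n) (Fin n) K) (hH : sh hK H = H) (hu : IsUnit H) :
    ∃ p : K[X], sh hK (aeval H p) * aeval H p = H := by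
  classical
  let f : K[X] →+* Matrix (Fin n) (Fin n) K := (aeval H : K[X] →ₐ[K] _).toRingHom
  have hf : ∀ p, f p = aeval H p := fun p => rfl
  let I : Ideal K[X] := RingHom.ker f
  have hI : ∀ p, p ∈ I ↔ aeval H p = 0 := fun p => RingHom.mem_ker
  have hle : I ≤ I.comap (sp hK) := by
    intro p hp
    rw [Ideal.mem_comap, hI, aeval_sp hK H hH, (hI p).mp hp]
    ext i j
    simp [sh, frobHom_apply, zero_pow (by have := two_le hK; omega : q ≠ 0)]
  let σ : (K[X] ⧸ I) →+* (K[X] ⧸ I) := Ideal.quotientMap I (sp hK) hle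
  have hσmk : ∀ p, σ (Ideal.Quotient.mk I p) = Ideal.Quotient.mk I (sp hK p) := fun p => Ideal.quotientMap_mk
  have hσ : ∀ y, σ (σ y) = y := by
    intro y
    obtain ⟨p, rfl⟩ := Ideal.Quotient.mk_surjective y
    rw [hσmk, hσmk, sp_sp]
  have hinj : Function.Injective (RingHom.kerLift f) := RingHom.kerLift_injective f
  haveI : Finite (K[X] ⧸ I) := Finite.of_injective _ hinj
  obtain ⟨s, hs⟩ := exists_trace hK 1 (one_pow q)
  have hc : Ideal.Quotient.mk I (C s) + σ (Ideal.Quotient.mk I (C s)) = 1 := by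
    rw [hσmk, ← map_add]
    have : C s + sp hK (C s) = 1 := by
      simp only [sp, coe_mapRingHom, map_C, frobHom_apply]
      rw [← C_add, hs, C_1]
    rw [this, map_one]
  have hfield : ∀ m : Ideal (K[X] ⧸ I), m.IsMaximal → m.comap σ = m → ∃ y, σ y - y ∉ m := by
    intro m hm _
    obtain ⟨k, hk⟩ := exists_frob_ne hK
    refine ⟨Ideal.Quotient.mk I (C k), ?_⟩
    intro hmem
    rw [hσmk, ← map_sub] at hmem
    have h1 : sp hK (C k) - C k = C (k ^ q - k) := by
      simp only [sp, coe_mapRingHom, map_C, frobHom_apply, C_sub]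
    rw [h1] at hmem
    have h2 : k ^ q - k ≠ 0 := sub_ne_zero.mpr hk
    apply hm.ne_top
    apply Ideal.eq_top_of_isUnit_mem _ hmem
    exact IsUnit.map _ ((isUnit_C).mpr h2.isUnit)
  have hxσ : σ (Ideal.Quotient.mk I X) = Ideal.Quotient.mk I X := by
    rw [hσmk]
    simp [sp]
  have hx : IsUnit (Ideal.Quotient.mk I X) := by
    have hinj2 : Function.Injective (fun y : K[X] ⧸ I => Ideal.Quotient.mk I X * y) := by
      intro a b hab
      apply hinj
      have h1 := congrArg (RingHom.kerLift f) hab
      simp only [map_mul] at h1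
      have h2 : RingHom.kerLift f (Ideal.Quotient.mk I X) = H := by
        show f X = H
        rw [hf, aeval_X]
      rw [h2] at h1
      exact hu.mul_left_cancel h1
    obtain ⟨y, hy⟩ := (Finite.injective_iff_surjective.mp hinj2) 1
    exact IsUnit.of_mul_eq_one _ hy
  obtain ⟨y, hy⟩ := exists_norm_eq σ hσ _ hc hfield _ hx hxσ
  obtain ⟨p, rfl⟩ := Ideal.Quotient.mk_surjective y
  refine ⟨p, ?_⟩
  rw [hσmk, ← map_mul, Ideal.Quotient.eq, hI] at hy
  rw [← aeval_sp hK H hH, ← map_mul]
  rw [map_sub, aeval_X, sub_eq_zero] at hy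
  exact hy

end Sharp

/-- Conjugacy in the finite general unitary group is controlled by the general linear group: two elements of GU_n(q) (the invertible matrices over the field with q² elements preserving the Hermitian form Σ u_i v_i^q) are conjugate in GU_n(q) if and only if they are conjugate in GL_n(q²). -/
theorem result {K : Type*} [Field K] [Fintype K] {q n : ℕ} (hK : Fintype.card K = q ^ 2) (A B : ↥(Cfsg.GU n K q)) : IsConj A B ↔ IsConj (A : GL (Fin n) K) (B : GL (Fin n) K) := by
  classical
  constructor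
  · intro h
    exact MonoidHom.map_isConj (GU n K q).subtype h
  · intro h
    obtain ⟨P, hP⟩ := isConj_iff.mp h
    have hA := (mem_GU_iff_sh hK (A : GL (Fin n) K)).mp A.2
    have hB := (mem_GU_iff_sh hK (B : GL (Fin n) K)).mp B.2
    -- matrices
    set a : Matrix (Fin n) (Fin n) K := ((A : GL (Fin n) K) : Matrix (Fin n) (Fin n) K) with ha
    set b : Matrix (Fin n) (Fin n) K := ((B : GL (Fin n) K) : Matrix (Fin n) (Fin n) K) with hb
    set p : Matrix (Fin n) (Fin n) K := (P : Matrix (Fin n) (Fin n) K) with hp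
    have hPab : p * a = b * p := by
      have h1 : P * (A : GL (Fin n) K) = (B : GL (Fin n) K) * P := by rw [← hP]; group
      exact congrArg Units.val h1
    set H : Matrix (Fin n) (Fin n) K := sh hK p * p with hH
    have hHsh : sh hK H = H := by rw [hH, sh_mul, sh_sh]
    have hshp : sh hK p * sh hK ((P⁻¹ : GL (Fin n) K) : Matrix (Fin n) (Fin n) K) = 1 := by
      rw [← sh_mul]
      have : ((P⁻¹ : GL (Fin n) K) : Matrix (Fin n) (Fin n) K) * p = 1 := by
        rw [hp, ← Units.val_mul, inv_mul_cancel, Units.val_one]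
      rw [this, sh_one]
    have hHu : IsUnit H := by
      have h1 : IsUnit (sh hK p) := IsUnit.of_mul_eq_one _ hshp
      exact h1.mul P.isUnit
    have hAinv : a * sh hK a = 1 := mul_eq_one_comm.mp hA
    have hBinv : b * sh hK b = 1 := mul_eq_one_comm.mp hB
    -- `H` commutes with `a`
    have hHa : H * a = a * H := by
      -- `sh p * b = a * sh p`
      have h1 : sh hK b * p = p * sh hK a := by
        calc sh hK b * p = sh hK b * p * (a * sh hK a) := by rw [hAinv, mul_one]
          _ = sh hK b * (p * a) * sh hK a := by simp only [mul_assoc]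
          _ = sh hK b * (b * p) * sh hK a := by rw [hPab]
          _ = (sh hK b * b) * p * sh hK a := by simp only [mul_assoc]
          _ = p * sh hK a := by rw [hB, one_mul]
      have h2 : sh hK p * b = a * sh hK p := by
        have := congrArg (sh hK) h1
        rwa [sh_mul, sh_mul, sh_sh, sh_sh] at this
      calc H * a = sh hK p * (p * a) := by rw [hH, mul_assoc]
        _ = (sh hK p * b) * p := by rw [hPab, mul_assoc]
        _ = a * H := by rw [h2, hH, mul_assoc]
    obtain ⟨r, hr⟩ := exists_poly_norm hK H hHsh hHu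
    set R : Matrix (Fin n) (Fin n) K := aeval H r with hR
    have hRa : R * a = a * R := by
      exact commute_aeval H a hHa r
    have hRu : IsUnit R := by
      have h1 : (H⁻¹ * sh hK R) * R = 1 := by
        rw [mul_assoc, hr]
        exact Matrix.nonsing_inv_mul _ ((Matrix.isUnit_iff_isUnit_det _).mp hHu)
      exact (Matrix.isUnit_iff_isUnit_det _).mpr (Matrix.isUnit_det_of_left_inverse h1)
    obtain ⟨Ru, hRu2⟩ := hRu
    -- the conjugating element
    let U : GL (Fin n) K := P * Ru⁻¹
    have hRinv : R * ((Ru⁻¹ : GL (Fin n) K) : Matrix (Fin n) (Fin n) K) = 1 := by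
      rw [← hRu2, ← Units.val_mul, mul_inv_cancel, Units.val_one]
    have hU : U ∈ GU n K q := by
      rw [mem_GU_iff_sh hK]
      show sh hK (p * ((Ru⁻¹ : GL (Fin n) K) : Matrix (Fin n) (Fin n) K)) * (p * ((Ru⁻¹ : GL (Fin n) K) : Matrix (Fin n) (Fin n) K)) = 1
      set w : Matrix (Fin n) (Fin n) K := ((Ru⁻¹ : GL (Fin n) K) : Matrix (Fin n) (Fin n) K) with hw
      rw [sh_mul]
      calc sh hK w * sh hK p * (p * w) = sh hK w * (sh hK p * p) * w := by simp only [mul_assoc]
        _ = sh hK w * (sh hK R * R) * w := by rw [hr]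
        _ = (sh hK w * sh hK R) * (R * w) := by simp only [mul_assoc]
        _ = 1 := by rw [← sh_mul, hRinv, sh_one, one_mul]
    refine isConj_iff.mpr ⟨⟨U, hU⟩, Subtype.ext ?_⟩
    show U * (A : GL (Fin n) K) * U⁻¹ = (B : GL (Fin n) K)
    have hcomm : Ru * (A : GL (Fin n) K) = (A : GL (Fin n) K) * Ru := by
      apply Units.ext
      show (Ru : Matrix (Fin n) (Fin n) K) * a = a * Ru
      rw [hRu2]
      exact hRa
    have hcomm2 : Ru⁻¹ * (A : GL (Fin n) K) * Ru = (A : GL (Fin n) K) := by
      rw [mul_assoc, ← hcomm, inv_mul_cancel_left]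
    show P * Ru⁻¹ * (A : GL (Fin n) K) * (P * Ru⁻¹)⁻¹ = (B : GL (Fin n) K)
    rw [← hP, mul_inv_rev, inv_inv]
    calc P * Ru⁻¹ * (A : GL (Fin n) K) * (Ru * P⁻¹) = P * (Ru⁻¹ * (A : GL (Fin n) K) * Ru) * P⁻¹ := by group
      _ = P * (A : GL (Fin n) K) * P⁻¹ := by rw [hcomm2]

end Cfsg.Agent.S2587
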