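import Cfsg.Statements.S2588
import Cfsg.Agent.Lib.Wall.Polar
import Cfsg.Agent.S2587
import Cfsg.Agent.Lib.Witt.HermModel
import Cfsg.Agent.Lib.Classical.MatrixBridge

set_option autoImplicit false
open Cfsg

namespace Cfsg.Agent.S2588

open Matrix Cfsg Polynomial
open Cfsg.Agent.Lib.HermCount.Field Cfsg.Agent.Lib.HermCount.Space Cfsg.Agent.Lib.Wall.Polar
open Cfsg.Agent.Lib.Classical.MatrixBridge
open Cfsg.Agent.S2587

variable {K : Type*} [Field K] [Fintype K] {q n : ℕ}

/-- A Hermitian invertible matrix is congruent to the identity. -/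
theorem exists_congr_one (hK : Fintype.card K = q ^ 2) (H : Matrix (Fin n) (Fin n) K)
    (hsh : sh hK H = H) (hu : IsUnit H) : ∃ P : GL (Fin n) K,
      sh hK (P : Matrix (Fin n) (Fin n) K) * H * (P : Matrix (Fin n) (Fin n) K) = 1 := by
  classical
  have S := Cfsg.Agent.Lib.HermCount.Lines.herm_space (F := K) (q := q) n hK
  let h : (Fin n → K) → (Fin n → K) → K := fun u v => hermForm n K q (H *ᵥ u) v
  have HS : HSpace q h :=
    { add_left := fun x y z => by
        simp only [h, Matrix.mulVec_add, S.add_left]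
      smul_left := fun c x z => by
        simp only [h, Matrix.mulVec_smul, S.smul_left]
      conj := fun x y => by
        show hermForm n K q (H *ᵥ y) x = (hermForm n K q (H *ᵥ x) y) ^ q
        rw [herm_adj hK, hsh]
        exact S.conj (H *ᵥ x) y
      nd := fun x hx => by
        have h1 : H *ᵥ x = 0 := S.nd _ hx
        have h2 : H⁻¹ *ᵥ (H *ᵥ x) = x := by
          rw [Matrix.mulVec_mulVec, Matrix.nonsing_inv_mul _ ((Matrix.isUnit_iff_isUnit_det _).1 hu),
            Matrix.one_mulVec]
        rw [← h2, h1, Matrix.mulVec_zero] }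
  obtain ⟨ψ, hψ⟩ := Cfsg.Agent.Lib.Witt.HermModel.exists_model HS hK n (by simp)
  refine ⟨glToLin.symm ψ, ?_⟩
  set P : GL (Fin n) K := glToLin.symm ψ with hP
  have hPv : ∀ x, (P : Matrix (Fin n) (Fin n) K) *ᵥ x = ψ x := fun x => glToLin_symm_mulVec ψ x
  apply Matrix.ext_iff_mulVec.2
  intro u
  rw [Matrix.one_mulVec]
  have h1 : ∀ v, hermForm n K q ((sh hK (P : Matrix (Fin n) (Fin n) K) * H * (P : Matrix (Fin n) (Fin n) K)) *ᵥ u - u) v = 0 := by
    intro v
    have h2 := hψ u v
    show hermForm n K q _ v = 0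
    have h3 : hermForm n K q (H *ᵥ ψ u) (ψ v) = hermForm n K q u v := h2
    rw [← hPv, ← hPv] at h3
    rw [← sh_sh hK (P : Matrix (Fin n) (Fin n) K), ← herm_adj hK] at h3
    rw [sh_sh] at h3
    have h4 : (sh hK (P : Matrix (Fin n) (Fin n) K) * H * (P : Matrix (Fin n) (Fin n) K)) *ᵥ u =
        sh hK (P : Matrix (Fin n) (Fin n) K) *ᵥ (H *ᵥ ((P : Matrix (Fin n) (Fin n) K) *ᵥ u)) := by
      rw [Matrix.mulVec_mulVec, Matrix.mulVec_mulVec]
    have hsub : ∀ a b c : Fin n → K, hermForm n K q (a - b) c = hermForm n K q a c - hermForm n K q b c := by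
      intro a b c
      simp only [hermForm, Pi.sub_apply, sub_mul, Finset.sum_sub_distrib]
    rw [hsub, h4, h3, sub_self]
  exact sub_eq_zero.1 (S.nd _ h1)

/-- An invertible matrix A over the field with q² elements is conjugate in GL_n(q²) to an element of the general unitary group GU_n(q) (isometries of the Hermitian form Σ u_i v_i^q) if and only if A is similar to the inverse transpose of its entrywise q-th power (A ~ A^(−qT), the image of A under the map sending a matrix to the inverse transpose of its entrywise q-th power — inverse transpose composed with the field automorphism — whose fixed points form GU_n(q)). -/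
theorem result {K : Type*} [Field K] [Fintype K] {q n : ℕ} (hK : Fintype.card K = q ^ 2) (A : GL (Fin n) K) : (∃ B : ↥(Cfsg.GU n K q), IsConj A (B : GL (Fin n) K)) ↔ IsConj (A : Matrix (Fin n) (Fin n) K) (((A : Matrix (Fin n) (Fin n) K).map (fun x : K => x ^ q)).transpose)⁻¹ := by
  classical
  have hq2 := two_le hK
  -- the map `g ↦ (g^q)ᵀ⁻¹` on `GL`
  have hshinv : ∀ g : GL (Fin n) K, sh hK (g : Matrix (Fin n) (Fin n) K) * sh hK ((g⁻¹ : GL (Fin n) K) : Matrix (Fin n) (Fin n) K) = 1 := by
    intro g
    rw [← sh_mul, ← Units.val_mul, inv_mul_cancel, Units.val_one, sh_one]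
  have hshinv' : ∀ g : GL (Fin n) K, sh hK ((g⁻¹ : GL (Fin n) K) : Matrix (Fin n) (Fin n) K) * sh hK (g : Matrix (Fin n) (Fin n) K) = 1 := by
    intro g
    rw [← sh_mul, ← Units.val_mul, mul_inv_cancel, Units.val_one, sh_one]
  have hRHS : (((A : Matrix (Fin n) (Fin n) K).map (fun x : K => x ^ q)).transpose)⁻¹ =
      sh hK ((A⁻¹ : GL (Fin n) K) : Matrix (Fin n) (Fin n) K) :=
    Matrix.inv_eq_right_inv (hshinv A)
  rw [hRHS]
  let dag : GL (Fin n) K →* GL (Fin n) K :=
    { toFun := fun g => ⟨sh hK ((g⁻¹ : GL (Fin n) K) : Matrix (Fin n) (Fin n) K), sh hK (g : Matrix (Fin n) (Fin n) K),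
        hshinv' g, hshinv g⟩
      map_one' := by
        apply Units.ext
        show sh hK (((1 : GL (Fin n) K)⁻¹ : GL (Fin n) K) : Matrix (Fin n) (Fin n) K) = 1
        rw [inv_one, Units.val_one, sh_one]
      map_mul' := fun x y => by
        apply Units.ext
        show sh hK (((x * y)⁻¹ : GL (Fin n) K) : Matrix (Fin n) (Fin n) K) =
          sh hK ((x⁻¹ : GL (Fin n) K) : Matrix (Fin n) (Fin n) K) * sh hK ((y⁻¹ : GL (Fin n) K) : Matrix (Fin n) (Fin n) K)
        rw [_root_.mul_inv_rev, Units.val_mul, sh_mul] }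
  have hdag : ∀ g, ((dag g : GL (Fin n) K) : Matrix (Fin n) (Fin n) K) =
      sh hK ((g⁻¹ : GL (Fin n) K) : Matrix (Fin n) (Fin n) K) := fun _ => rfl
  constructor
  · rintro ⟨B, hB⟩
    have h1 : dag (B : GL (Fin n) K) = B := by
      apply Units.ext
      rw [hdag]
      have h2 := (mem_GU_iff_sh hK (B : GL (Fin n) K)).1 B.2
      have h3 : sh hK (((B : GL (Fin n) K)⁻¹ : GL (Fin n) K) : Matrix (Fin n) (Fin n) K) =
          sh hK (((B : GL (Fin n) K)⁻¹ : GL (Fin n) K) : Matrix (Fin n) (Fin n) K) *
            (sh hK ((B : GL (Fin n) K) : Matrix (Fin n) (Fin n) K) * ((B : GL (Fin n) K) : Matrix (Fin n) (Fin n) K)) := by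
        rw [h2, mul_one]
      rw [h3, ← mul_assoc, hshinv', one_mul]
    have h2 : IsConj (dag A) (dag (B : GL (Fin n) K)) := MonoidHom.map_isConj dag hB
    rw [h1] at h2
    have h3 : IsConj A (dag A) := hB.trans h2.symm
    exact MonoidHom.map_isConj (Units.coeHom (Matrix (Fin n) (Fin n) K)) h3
  · rintro ⟨S, hS⟩
    have hS' : (S : Matrix (Fin n) (Fin n) K) * (A : Matrix (Fin n) (Fin n) K) =
      sh hK ((A⁻¹ : GL (Fin n) K) : Matrix (Fin n) (Fin n) K) * (S : Matrix (Fin n) (Fin n) K) := hS
    -- notation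
    set a : Matrix (Fin n) (Fin n) K := (A : Matrix (Fin n) (Fin n) K) with ha
    set ai : Matrix (Fin n) (Fin n) K := ((A⁻¹ : GL (Fin n) K) : Matrix (Fin n) (Fin n) K) with hai
    set Sm : Matrix (Fin n) (Fin n) K := (S : Matrix (Fin n) (Fin n) K) with hSm
    set Si : Matrix (Fin n) (Fin n) K := ((S⁻¹ : GL (Fin n) K) : Matrix (Fin n) (Fin n) K) with hSi
    have haai : a * ai = 1 := by rw [ha, hai, ← Units.val_mul, mul_inv_cancel, Units.val_one]
    have haia : ai * a = 1 := by rw [ha, hai, ← Units.val_mul, inv_mul_cancel, Units.val_one]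
    have hSS : Sm * Si = 1 := by rw [hSm, hSi, ← Units.val_mul, mul_inv_cancel, Units.val_one]
    have hSS' : Si * Sm = 1 := by rw [hSm, hSi, ← Units.val_mul, inv_mul_cancel, Units.val_one]
    have hsa : sh hK a * sh hK ai = 1 := hshinv A
    have hsa' : sh hK ai * sh hK a = 1 := hshinv' A
    have hs : sh hK Sm * sh hK Si = 1 := hshinv S
    have hs' : sh hK Si * sh hK Sm = 1 := hshinv' S
    -- the involution
    let θ : Matrix (Fin n) (Fin n) K → Matrix (Fin n) (Fin n) K := fun M => Si * sh hK M * Sm
    have hθ : ∀ M, θ M = Si * sh hK M * Sm := fun _ => rfl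
    have hanti : Anti θ :=
      { add := fun x y => by
          simp only [hθ, sh_add, mul_add, add_mul]
        mul := fun x y => by
          simp only [hθ, sh_mul]
          calc Si * (sh hK y * sh hK x) * Sm = Si * sh hK y * (Sm * Si) * sh hK x * Sm := by
                rw [hSS]; simp only [mul_assoc, mul_one]
            _ = _ := by simp only [mul_assoc]
        one := by
          rw [hθ, sh_one, mul_one, hSS'] }
    -- relations
    have hθa : θ a = ai := by
      rw [hθ]
      have h1 : sh hK a * (Sm * a) = sh hK a * (sh hK ai * Sm) := by rw [hS']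
      rw [← mul_assoc (sh hK a) (sh hK ai), hsa, one_mul] at h1
      calc Si * sh hK a * Sm = Si * (sh hK a * Sm * (a * ai)) := by rw [haai]; simp only [mul_assoc, mul_one]
        _ = Si * (sh hK a * (Sm * a)) * ai := by simp only [mul_assoc]
        _ = ai := by rw [h1, hSS', one_mul]
    have hθai : θ ai = a := by
      have h1 : θ ai * θ a = 1 := by
        rw [← hanti.mul, haai, hanti.one]
      rw [hθa] at h1
      calc θ ai = θ ai * (ai * a) := by rw [haia, mul_one]
        _ = (θ ai * ai) * a := (mul_assoc _ _ _).symm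
        _ = a := by rw [h1, one_mul]
    set T : Matrix (Fin n) (Fin n) K := Si * sh hK Sm with hT
    set Ti : Matrix (Fin n) (Fin n) K := sh hK Si * Sm with hTi
    have hTTi : T * Ti = 1 := by
      calc T * Ti = Si * (sh hK Sm * sh hK Si) * Sm := by simp only [hT, hTi, mul_assoc]
        _ = 1 := by rw [hs, mul_one, hSS']
    have hTiT : Ti * T = 1 := by
      calc Ti * T = sh hK Si * (Sm * Si) * sh hK Sm := by simp only [hT, hTi, mul_assoc]
        _ = 1 := by rw [hSS, mul_one, hs']
    have hθT : θ T = Ti := by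
      rw [hθ, hT, sh_mul, sh_sh, hTi]
      calc Si * (Sm * sh hK Si) * Sm = (Si * Sm) * sh hK Si * Sm := by simp only [mul_assoc]
        _ = _ := by rw [hSS', one_mul]
    have hθTi : θ Ti = T := by
      rw [hθ, hTi, sh_mul, sh_sh, hT]
      calc Si * (sh hK Sm * Si) * Sm = Si * sh hK Sm * (Si * Sm) := by simp only [mul_assoc]
        _ = _ := by rw [hSS', mul_one]
    have hS2 : sh hK Sm * a = sh hK ai * sh hK Sm := by
      have h1 := congrArg (sh hK) hS'
      rw [sh_mul, sh_mul, sh_sh] at h1
      -- `sh a * sh S = sh S * ai`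
      calc sh hK Sm * a = (sh hK ai * sh hK a) * (sh hK Sm * a) := by rw [hsa', one_mul]
        _ = sh hK ai * (sh hK a * sh hK Sm) * a := by simp only [mul_assoc]
        _ = sh hK ai * (sh hK Sm * ai) * a := by rw [h1]
        _ = sh hK ai * sh hK Sm * (ai * a) := by simp only [mul_assoc]
        _ = _ := by rw [haia, mul_one]
    have hS3 : Si * sh hK ai = a * Si := by
      have h1 : Si * sh hK ai * Sm = a := hθai
      calc Si * sh hK ai = Si * sh hK ai * (Sm * Si) := by rw [hSS, mul_one]
        _ = (Si * sh hK ai * Sm) * Si := by simp only [mul_assoc]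
        _ = _ := by rw [h1]
    have hTa : T * a = a * T := by
      calc T * a = Si * (sh hK Sm * a) := by rw [hT, mul_assoc]
        _ = (Si * sh hK ai) * sh hK Sm := by rw [hS2, mul_assoc]
        _ = a * T := by rw [hS3, hT, mul_assoc]
    have hTai : T * ai = ai * T := by
      calc T * ai = (ai * a) * T * ai := by rw [haia, one_mul]
        _ = ai * (T * a) * ai := by rw [hTa]; simp only [mul_assoc]
        _ = ai * T * (a * ai) := by simp only [mul_assoc]
        _ = ai * T := by rw [haai, mul_one]
    have hTia : Ti * a = a * Ti := by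
      calc Ti * a = Ti * a * (T * Ti) := by rw [hTTi, mul_one]
        _ = Ti * (T * a) * Ti := by rw [hTa]; simp only [mul_assoc]
        _ = (Ti * T) * a * Ti := by simp only [mul_assoc]
        _ = a * Ti := by rw [hTiT, one_mul]
    have hTiai : Ti * ai = ai * Ti := by
      calc Ti * ai = (ai * a) * Ti * ai := by rw [haia, one_mul]
        _ = ai * (Ti * a) * ai := by rw [hTia]; simp only [mul_assoc]
        _ = ai * Ti * (a * ai) := by simp only [mul_assoc]
        _ = ai * Ti := by rw [haai, mul_one]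
    have hθalg : ∀ k : K, θ (algebraMap K _ k) = algebraMap K _ (k ^ q) := by
      intro k
      rw [hθ, sh_algebraMap, ← Algebra.commutes, mul_assoc, hSS', mul_one]
    -- the generating set
    let G : Set (Matrix (Fin n) (Fin n) K) := {a, ai, T, Ti} ∪ Set.range (algebraMap K (Matrix (Fin n) (Fin n) K))
    have hG1 : ∀ x ∈ ({a, ai, T, Ti} : Set (Matrix (Fin n) (Fin n) K)), ∀ y ∈ ({a, ai, T, Ti} : Set (Matrix (Fin n) (Fin n) K)),
        x * y = y * x := by
      intro x hx y hy
      simp only [Set.mem_insert_iff, Set.mem_singleton_iff] at hx hy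
      have haai' : a * ai = ai * a := by rw [haai, haia]
      have hTTi' : T * Ti = Ti * T := by rw [hTTi, hTiT]
      rcases hx with rfl | rfl | rfl | rfl <;> rcases hy with rfl | rfl | rfl | rfl <;>
        first
        | rfl
        | assumption
        | (symm; assumption)
    have hcomm : ∀ x ∈ G, ∀ y ∈ G, x * y = y * x := by
      rintro x (hx | ⟨k, rfl⟩) y (hy | ⟨l, rfl⟩)
      · exact hG1 x hx y hy
      · exact (Algebra.commutes l x).symm
      · exact Algebra.commutes k y
      · exact Algebra.commutes k _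
    have hsubclosure : G ⊆ (Subring.closure G : Set _) := Subring.subset_closure
    have hmemG : ∀ x ∈ ({a, ai, T, Ti} : Set (Matrix (Fin n) (Fin n) K)), x ∈ Subring.closure G :=
      fun x hx => Subring.subset_closure (Or.inl hx)
    have hmemS : ∀ k : K, algebraMap K (Matrix (Fin n) (Fin n) K) k ∈ Subring.closure G :=
      fun k => Subring.subset_closure (Or.inr ⟨k, rfl⟩)
    have hst : ∀ x ∈ G, θ x ∈ Subring.closure G := by
      rintro x (hx | ⟨k, rfl⟩)
      · simp only [Set.mem_insert_iff, Set.mem_singleton_iff] at hx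
        rcases hx with rfl | rfl | rfl | rfl
        · rw [hθa]
          exact hmemG _ (by simp)
        · rw [hθai]
          exact hmemG _ (by simp)
        · rw [hθT]
          exact hmemG _ (by simp)
        · rw [hθTi]
          exact hmemG _ (by simp)
      · rw [hθalg]
        exact hmemS _
    have hinv : ∀ x ∈ G, θ (θ x) = x := by
      rintro x (hx | ⟨k, rfl⟩)
      · simp only [Set.mem_insert_iff, Set.mem_singleton_iff] at hx
        rcases hx with rfl | rfl | rfl | rfl
        · rw [hθa, hθai]
        · rw [hθai, hθa]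
        · rw [hθT, hθTi]
        · rw [hθTi, hθT]
      · rw [hθalg, hθalg, frob_frob hK]
    obtain ⟨s₀, hs₀⟩ := exists_trace hK 1 (one_pow q)
    obtain ⟨k₀, hk₀⟩ := exists_frob_ne hK
    have hnk : IsUnit (algebraMap K (Matrix (Fin n) (Fin n) K) k₀ - θ (algebraMap K _ k₀)) := by
      rw [hθalg, ← map_sub]
      exact IsUnit.map _ (sub_ne_zero.2 hk₀.symm).isUnit
    obtain ⟨x, hxG, hxu, hx⟩ := exists_h90 hanti hcomm hst hinv (hmemS s₀)
      (by rw [hθalg, ← map_add, hs₀, map_one]) (hmemS k₀) hnk (hmemG T (by simp))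
      (by rw [hθT, hTiT])
    -- `x` commutes with `a`
    have hxa' : ∀ z ∈ Subring.closure G, z * a = a * z := by
      intro z hz
      induction hz using Subring.closure_induction with
      | mem z hz => exact hcomm z hz a (Or.inl (by simp))
      | zero => simp
      | one => simp
      | add y z _ _ hy hz => rw [add_mul, mul_add, hy, hz]
      | neg y _ hy => rw [neg_mul, mul_neg, hy]
      | mul y z _ _ hy hz => rw [mul_assoc, hz, ← mul_assoc, hy, mul_assoc]
    have hxa : x * a = a * x := hxa' x hxG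
    set H : Matrix (Fin n) (Fin n) K := Sm * x with hH
    have hHu : IsUnit H := S.isUnit.mul hxu
    have hshx : sh hK x = Sm * θ x * Si := by
      rw [hθ]
      calc sh hK x = (Sm * Si) * sh hK x * (Sm * Si) := by rw [hSS, one_mul, mul_one]
        _ = _ := by simp only [mul_assoc]
    have hHsh : sh hK H = H := by
      rw [hH, sh_mul, hshx]
      calc Sm * θ x * Si * sh hK Sm = Sm * (θ x * (Si * sh hK Sm)) := by simp only [mul_assoc]
        _ = Sm * x := by rw [← hT, ← hx]
    have hHa : sh hK a * H * a = H := by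
      calc sh hK a * H * a = sh hK a * Sm * (x * a) := by rw [hH]; simp only [mul_assoc]
        _ = sh hK a * (Sm * a) * x := by rw [hxa]; simp only [mul_assoc]
        _ = (sh hK a * sh hK ai) * Sm * x := by rw [hS']; simp only [mul_assoc]
        _ = H := by rw [hsa, one_mul]
    obtain ⟨P, hP⟩ := exists_congr_one hK H hHsh hHu
    set p : Matrix (Fin n) (Fin n) K := (P : Matrix (Fin n) (Fin n) K) with hp
    set pi : Matrix (Fin n) (Fin n) K := ((P⁻¹ : GL (Fin n) K) : Matrix (Fin n) (Fin n) K) with hpi
    have hppi : p * pi = 1 := by rw [hp, hpi, ← Units.val_mul, mul_inv_cancel, Units.val_one]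
    have hspi : sh hK pi * sh hK p = 1 := hshinv' P
    have hsHpi : sh hK pi * pi = H := by
      calc sh hK pi * pi = sh hK pi * (sh hK p * H * p) * pi := by rw [hP, mul_one]
        _ = (sh hK pi * sh hK p) * H * (p * pi) := by simp only [mul_assoc]
        _ = H := by rw [hspi, hppi, one_mul, mul_one]
    have hB : P⁻¹ * A * P ∈ GU n K q := by
      rw [mem_GU_iff_sh hK]
      show sh hK (pi * a * p) * (pi * a * p) = 1
      rw [sh_mul, sh_mul]
      calc sh hK p * (sh hK a * sh hK pi) * (pi * a * p)
          = sh hK p * (sh hK a * (sh hK pi * pi) * a) * p := by simp only [mul_assoc]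
        _ = sh hK p * H * p := by rw [hsHpi, hHa]
        _ = 1 := hP
    refine ⟨⟨P⁻¹ * A * P, hB⟩, ?_⟩
    rw [isConj_iff]
    refine ⟨P⁻¹, ?_⟩
    simp

end Cfsg.Agent.S2588
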