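import Cfsg.Statements.S5422
import Cfsg.Agent.Lib.ThreeT.LargeConj
import Cfsg.Agent.Lib.PGroups.Special

set_option autoImplicit false
open Cfsg

namespace Cfsg.Agent.S5422


open Cfsg.Agent.Lib.ThreeT.LargeConj Cfsg.Agent.Lib.PGroups.Special
open scoped commutatorElement

/-- The induced action on the three involutions of a four-group. -/
theorem relIndex_six {G : Type*} [Group G] [Finite G] {V : Subgroup G} {z t : G}
    (hzz : z * z = 1) (htt : t * t = 1) (hzt : z * t = t * z) (hz1 : z ≠ 1) (ht1 : t ≠ 1) (htz : t ≠ z)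
    (hV : ∀ x, x ∈ V ↔ x = 1 ∨ x = z ∨ x = t ∨ x = z * t)
    {q r : G} (hqz : q * z = z * q) (hqt : q * t = z * (t * q))
    (hrt : r * t = t * r) (hrz : r * z = t * (z * r)) :
    (Subgroup.centralizer (V : Set G)).relIndex (Subgroup.normalizer (V : Set G)) = 6 := by
  classical
  set N := Subgroup.normalizer (V : Set G) with hN
  let e : Fin 3 → G := ![z, t, z * t]
  have e0 : e 0 = z := rfl
  have e1 : e 1 = t := rfl
  have e2 : e 2 = z * t := rfl
  have hzt1 : z * t ≠ z := by
    intro h; exact ht1 (mul_left_cancel (a := z) (by rw [h, mul_one]))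
  have hzt2 : z * t ≠ t := by
    intro h; exact hz1 (mul_right_cancel (b := t) (by rw [h, one_mul]))
  have heinj : Function.Injective e := by
    intro i j hij
    fin_cases i <;> fin_cases j <;> first | rfl | (exfalso; simp [e] at hij)
    all_goals first | exact htz hij.symm | exact htz hij | exact ht1 hij | exact hz1 hij | exact ht1 hij.symm | exact hz1 hij.symm
  have he1 : ∀ i, e i ≠ 1 := by
    intro i
    fin_cases i
    · exact hz1
    · exact ht1
    · intro h4
      have h4' : z * t = 1 := h4
      apply htz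
      calc t = z * z * t := by rw [hzz, one_mul]
        _ = z * (z * t) := by rw [mul_assoc]
        _ = z := by rw [h4', mul_one]
  have hV' : ∀ x, x ∈ V ↔ x = 1 ∨ ∃ i, x = e i := by
    intro x
    rw [hV]
    constructor
    · rintro (h | h | h | h)
      · exact Or.inl h
      · exact Or.inr ⟨0, h⟩
      · exact Or.inr ⟨1, h⟩
      · exact Or.inr ⟨2, h⟩
    · rintro (h | ⟨i, h⟩)
      · exact Or.inl h
      · fin_cases i
        · exact Or.inr (Or.inl h)
        · exact Or.inr (Or.inr (Or.inl h))
        · exact Or.inr (Or.inr (Or.inr h))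
  have hconj : ∀ n ∈ N, ∀ i, ∃ j, n * e i * n⁻¹ = e j := by
    intro n hn i
    have h1 : n * e i * n⁻¹ ∈ V := (Subgroup.mem_normalizer_iff.1 hn (e i)).1 ((hV' _).2 (Or.inr ⟨i, rfl⟩))
    rcases (hV' _).1 h1 with h2 | ⟨j, h2⟩
    · exfalso
      have h3 : e i = 1 := by
        have := congrArg (fun y => n⁻¹ * y * n) h2
        simpa [mul_assoc] using this
      exact he1 i h3
    · exact ⟨j, h2⟩
  choose π hπ using hconj
  have hπinj : ∀ n (hn : n ∈ N), Function.Injective (π n hn) := by
    intro n hn i j hij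
    apply heinj
    have h1 := hπ n hn i
    have h2 := hπ n hn j
    rw [hij, ← h2] at h1
    exact mul_left_cancel (mul_right_cancel h1)
  let f : N →* Equiv.Perm (Fin 3) := MonoidHom.mk'
    (fun n => Equiv.ofBijective (π n n.2) (Finite.injective_iff_bijective.1 (hπinj n n.2)))
    (by
      intro m n
      ext i
      have h0 : e (π (m * n : N) (m * n : N).2 i) = e (π m m.2 (π n n.2 i)) := by
        rw [← hπ _ _ i, ← hπ _ _ (π n n.2 i), ← hπ _ _ i]
        simp [mul_assoc]
      exact congrArg (fun k : Fin 3 => (k : ℕ)) (heinj h0))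
  have hfapply : ∀ (n : N) i, e (f n i) = (n : G) * e i * (n : G)⁻¹ := by
    intro n i
    exact (hπ n n.2 i).symm
  have hker : (Subgroup.centralizer (V : Set G)).subgroupOf N = f.ker := by
    ext n
    rw [Subgroup.mem_subgroupOf, MonoidHom.mem_ker, Subgroup.mem_centralizer_iff]
    constructor
    · intro h
      ext i
      have h1 : e (f n i) = e i := by
        rw [hfapply]
        have := h (e i) ((hV' _).2 (Or.inr ⟨i, rfl⟩))
        rw [← this]; group
      exact congrArg (fun k : Fin 3 => (k : ℕ)) (heinj h1)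
    · intro h x hx
      rcases (hV' _).1 hx with h1 | ⟨i, h1⟩
      · rw [h1]; group
      · have h2 : e (f n i) = e i := by rw [h]; rfl
        rw [hfapply] at h2
        rw [h1]
        calc e i * (n : G) = ((n : G) * e i * (n : G)⁻¹) * (n : G) := by rw [h2]
          _ = _ := by group
  have hmem : ∀ (n : G) (σ : Equiv.Perm (Fin 3)), (∀ i, n * e i * n⁻¹ = e (σ i)) →
      ∃ hn : n ∈ N, f ⟨n, hn⟩ = σ := by
    intro n σ hσ
    have hn : n ∈ N := by
      rw [hN, Subgroup.mem_normalizer_iff]
      intro x
      constructor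
      · intro hx
        rcases (hV' _).1 hx with h1 | ⟨i, h1⟩
        · rw [h1]
          simp [V.one_mem]
        · rw [h1, hσ]
          exact (hV' _).2 (Or.inr ⟨_, rfl⟩)
      · intro hx
        rcases (hV' _).1 hx with h1 | ⟨j, h1⟩
        · have h2 : x = 1 := by
            have := congrArg (fun y => n⁻¹ * y * n) h1
            simpa [mul_assoc] using this
          rw [h2]; exact V.one_mem
        · have h2 : n * x * n⁻¹ = n * e (σ.symm j) * n⁻¹ := by
            rw [h1, hσ]; simp
          have h3 : x = e (σ.symm j) := mul_left_cancel (mul_right_cancel h2)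
          rw [h3]
          exact (hV' _).2 (Or.inr ⟨_, rfl⟩)
    refine ⟨hn, ?_⟩
    ext i
    have h1 : e (f ⟨n, hn⟩ i) = e (σ i) := by
      rw [hfapply]
      exact hσ i
    exact congrArg (fun k : Fin 3 => (k : ℕ)) (heinj h1)
  have hzi : z⁻¹ = z := inv_eq_of_mul_eq_one_left hzz
  have hti : t⁻¹ = t := inv_eq_of_mul_eq_one_left htt
  obtain ⟨hqN, hqf⟩ := hmem q (Equiv.swap 1 2) (by
    intro i
    have h1 : q * z * q⁻¹ = z := by rw [hqz]; group
    have h2 : q * t * q⁻¹ = z * t := by rw [hqt]; group
    fin_cases i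
    · have : (Equiv.swap (1 : Fin 3) 2) 0 = 0 := by decide
      show q * z * q⁻¹ = e ((Equiv.swap (1 : Fin 3) 2) 0)
      rw [this, h1]; rfl
    · have : (Equiv.swap (1 : Fin 3) 2) 1 = 2 := by decide
      show q * t * q⁻¹ = e ((Equiv.swap (1 : Fin 3) 2) 1)
      rw [this, h2]; rfl
    · have : (Equiv.swap (1 : Fin 3) 2) 2 = 1 := by decide
      show q * (z * t) * q⁻¹ = e ((Equiv.swap (1 : Fin 3) 2) 2)
      rw [this]
      show q * (z * t) * q⁻¹ = t
      have h3 : q * (z * t) * q⁻¹ = (q * z * q⁻¹) * (q * t * q⁻¹) := by group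
      rw [h3, h1, h2, ← mul_assoc, hzz, one_mul])
  obtain ⟨hrN, hrf⟩ := hmem r (Equiv.swap 0 2) (by
    intro i
    have h1 : r * t * r⁻¹ = t := by rw [hrt]; group
    have h2 : r * z * r⁻¹ = z * t := by rw [hrz, hzt]; simp only [← mul_assoc]; rw [← hzt, hzt]; group
    fin_cases i
    · have : (Equiv.swap (0 : Fin 3) 2) 0 = 2 := by decide
      show r * z * r⁻¹ = e ((Equiv.swap (0 : Fin 3) 2) 0)
      rw [this, h2]; rfl
    · have : (Equiv.swap (0 : Fin 3) 2) 1 = 1 := by decide
      show r * t * r⁻¹ = e ((Equiv.swap (0 : Fin 3) 2) 1)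
      rw [this, h1]; rfl
    · have : (Equiv.swap (0 : Fin 3) 2) 2 = 0 := by decide
      show r * (z * t) * r⁻¹ = e ((Equiv.swap (0 : Fin 3) 2) 2)
      rw [this]
      show r * (z * t) * r⁻¹ = z
      have h3 : r * (z * t) * r⁻¹ = (r * z * r⁻¹) * (r * t * r⁻¹) := by group
      rw [h3, h1, h2, mul_assoc, htt, mul_one])
  have hall : ∀ σ : Equiv.Perm (Fin 3), σ = 1 ∨ σ = Equiv.swap 1 2 ∨ σ = Equiv.swap 0 2 ∨
      σ = Equiv.swap 1 2 * Equiv.swap 0 2 ∨ σ = Equiv.swap 0 2 * Equiv.swap 1 2 ∨
      σ = Equiv.swap 1 2 * Equiv.swap 0 2 * Equiv.swap 1 2 := by decide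
  have hrange : f.range = ⊤ := by
    rw [eq_top_iff]
    intro σ _
    have h1 : Equiv.swap (1 : Fin 3) 2 ∈ f.range := ⟨_, hqf⟩
    have h2 : Equiv.swap (0 : Fin 3) 2 ∈ f.range := ⟨_, hrf⟩
    rcases hall σ with h | h | h | h | h | h <;> rw [h]
    · exact Subgroup.one_mem _
    · exact h1
    · exact h2
    · exact Subgroup.mul_mem _ h1 h2
    · exact Subgroup.mul_mem _ h2 h1
    · exact Subgroup.mul_mem _ (Subgroup.mul_mem _ h1 h2) h1
  rw [Subgroup.relIndex, hker, Subgroup.index_ker, hrange, Subgroup.card_top,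
    Nat.card_eq_fintype_card, Fintype.card_perm, Fintype.card_fin]
  rfl

/-- The four-group as a subgroup. -/
theorem four {G : Type*} [Group G] {z t : G} (hzz : z * z = 1) (htt : t * t = 1)
    (hzt : z * t = t * z) :
    ∃ W : Subgroup G, ∀ x, x ∈ W ↔ x = 1 ∨ x = z ∨ x = t ∨ x = z * t := by
  have f1 : z * (z * t) = t := by rw [← mul_assoc, hzz, one_mul]
  have f3 : z * t * z = t := by rw [hzt, mul_assoc, hzz, mul_one]
  have f4 : z * t * t = z := by rw [mul_assoc, htt, mul_one]
  have f2 : t * (z * t) = z := by rw [← mul_assoc, ← hzt, f4]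
  have f5 : z * t * (z * t) = 1 := by rw [← mul_assoc, f3, htt]
  have f6 : t * z = z * t := hzt.symm
  have hzi : z⁻¹ = z := inv_eq_of_mul_eq_one_left hzz
  have hti : t⁻¹ = t := inv_eq_of_mul_eq_one_left htt
  refine ⟨{ carrier := {x | x = 1 ∨ x = z ∨ x = t ∨ x = z * t}, mul_mem' := ?_, one_mem' := Or.inl rfl,
            inv_mem' := ?_ }, fun x => Iff.rfl⟩
  · rintro a b (ha | ha | ha | ha) (hb | hb | hb | hb) <;> rw [ha, hb] <;>
      simp [f1, f2, f3, f4, f5, f6, hzz, htt, Set.mem_ofPred_eq]
  · rintro a (ha | ha | ha | ha) <;> rw [ha] <;>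
      simp [hzi, hti, f6, Set.mem_ofPred_eq]
/-- Let Q be an extraspecial 2-subgroup of the finite group G whose centralizer in G is its centre Z and which is normal in the centralizer of Z; suppose Q has width at least 2 (order 2^(2w+1) with w ≥ 2) and g is an element of G not normalizing Z with g Z g⁻¹ inside Q. Then Z lies inside g Q g⁻¹; writing V for the subgroup generated by Z and g Z g⁻¹ (a four-group), the normalizer of V induces on V its full automorphism group, that is, the centralizer of V has index 6 in the normalizer of V; and Q is a large extraspecial 2-subgroup of G. -/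
theorem result {G : Type*} [Group G] [Finite G] (Q : Subgroup G) (hL1 : Cfsg.IsExtraspecial 2 ↥Q) (hL2 : Subgroup.centralizer (Q : Set G) = ((Subgroup.center ↥Q).map Q.subtype)) (hL3 : Subgroup.centralizer (((Subgroup.center ↥Q).map Q.subtype) : Set G) ≤ Subgroup.normalizer (Q : Set G)) (w : ℕ) (hw : 2 ≤ w) (hcard : Nat.card ↥Q = 2 ^ (2 * w + 1)) (g : G) (hg : g ∉ Subgroup.normalizer (((Subgroup.center ↥Q).map Q.subtype) : Set G)) (hZg : (((Subgroup.center ↥Q).map Q.subtype)).map (MulAut.conj g).toMonoidHom ≤ Q) : ((Subgroup.center ↥Q).map Q.subtype) ≤ (Q).map (MulAut.conj g).toMonoidHom ∧ (Subgroup.centralizer ((((Subgroup.center ↥Q).map Q.subtype) ⊔ (((Subgroup.center ↥Q).map Q.subtype)).map (MulAut.conj g).toMonoidHom : Subgroup G) : Set G)).relIndex (Subgroup.normalizer ((((Subgroup.center ↥Q).map Q.subtype) ⊔ (((Subgroup.center ↥Q).map Q.subtype)).map (MulAut.conj g).toMonoidHom : Subgroup G) : Set G)) = 6 ∧ Cfsg.IsLargeExtraspecial Q := by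
  classical
  have hcc : Nat.card (Subgroup.center Q) = 2 := hL1.2
  have hfact : Fact (Nat.Prime 2) := ⟨Nat.prime_two⟩
  obtain ⟨z₀, hz₀, huniq⟩ := (Nat.card_eq_two_iff' (1 : Subgroup.center Q)).1 hcc
  have hcen : ∀ c : Q, c ∈ Subgroup.center Q → c = 1 ∨ c = z₀.1 := by
    intro c hc
    by_cases h : (⟨c, hc⟩ : Subgroup.center Q) = 1
    · left; exact congrArg Subtype.val h
    · right; exact congrArg Subtype.val (huniq _ h)
  set z : G := z₀.1.1 with hzdef
  have hZmem : ∀ x, x ∈ ((Subgroup.center ↥Q).map Q.subtype) ↔ x = 1 ∨ x = z := by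
    intro x
    constructor
    · rintro ⟨c, hc, rfl⟩
      rcases hcen c hc with h | h
      · left; rw [h]; rfl
      · right; rw [h]; rfl
    · rintro (h | h)
      · rw [h]; exact Subgroup.one_mem _
      · rw [h]; exact ⟨z₀.1, z₀.2, rfl⟩
  have hz01 : (z₀ : Q) ≠ 1 := fun h => hz₀ (Subtype.ext h)
  have hz1 : z ≠ 1 := fun h => hz01 (Subtype.ext h)
  have hzz : z * z = 1 := by
    have h1 : z₀ ^ (Nat.card (Subgroup.center Q)) = 1 := pow_card_eq_one'
    rw [hcc, pow_two] at h1
    have h2 := congrArg (fun y : Subgroup.center Q => ((y : Q) : G)) h1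
    simpa using h2
  have hQ : Ctx Q z :=
    { z_mem := (z₀ : Q).2
      z_sq := hzz
      z_ne := hz1
      z_comm := by
        intro a ha
        have h1 := Subgroup.mem_center_iff.1 z₀.2 ⟨a, ha⟩
        have h2 := congrArg (fun y : Q => (y : G)) h1
        exact h2
      comm := by
        intro a ha b hb
        have h1 := IsSpecial.comm_mem hL1.1 (⟨a, ha⟩ : Q) ⟨b, hb⟩
        rcases hcen _ h1 with h2 | h2
        · left
          have h3 := commutatorElement_eq_one_iff_mul_comm.1 h2
          exact congrArg (fun y : Q => (y : G)) h3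
        · right
          have h3 : a * b * a⁻¹ * b⁻¹ = z := congrArg (fun y : Q => (y : G)) h2
          calc a * b = (a * b * a⁻¹ * b⁻¹) * (b * a) := by group
            _ = _ := by rw [h3]
      sq := by
        intro a ha
        have h1 := IsSpecial.pow_mem hL1.1 (⟨a, ha⟩ : Q)
        rcases hcen _ h1 with h2 | h2
        · left
          have h3 := congrArg (fun y : Q => (y : G)) h2
          simpa [pow_two] using h3
        · right
          have h3 := congrArg (fun y : Q => (y : G)) h2
          simpa [pow_two] using h3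
      cent := by
        intro c hc
        have h1 : c ∈ Subgroup.centralizer (Q : Set G) := by
          rw [Subgroup.mem_centralizer_iff]
          intro a ha
          exact (hc a ha).symm
        rw [hL2] at h1
        exact (hZmem c).1 h1
      norm := by
        intro c hc a ha
        have h1 : c ∈ Subgroup.centralizer (((Subgroup.center ↥Q).map Q.subtype) : Set G) := by
          rw [Subgroup.mem_centralizer_iff]
          intro x hx
          rcases (hZmem x).1 hx with h | h
          · rw [h]; group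
          · rw [h]; exact hc.symm
        exact (Subgroup.mem_normalizer_iff.1 (hL3 h1) a).1 ha }
  set t : G := g * z * g⁻¹ with htdef
  have htQ : t ∈ Q := hZg ⟨z, (hZmem z).2 (Or.inr rfl), rfl⟩
  have htz : t ≠ z := by
    intro h
    apply hg
    rw [Subgroup.mem_normalizer_iff]
    intro x
    constructor
    · intro hx
      rcases (hZmem x).1 hx with h1 | h1
      · rw [h1]; simp
      · rw [h1, ← htdef, h]; exact (hZmem z).2 (Or.inr rfl)
    · intro hx
      rcases (hZmem _).1 hx with h1 | h1
      · have h2 : x = 1 := by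
          have := congrArg (fun y => g⁻¹ * y * g) h1
          simpa [mul_assoc] using this
        rw [h2]; exact Subgroup.one_mem _
      · have h2 : g * x * g⁻¹ = g * z * g⁻¹ := by rw [h1, ← htdef, h]
        have h3 : x = z := mul_left_cancel (mul_right_cancel h2)
        rw [h3]; exact (hZmem z).2 (Or.inr rfl)
  have hT : Two Q (Q.map (MulAut.conj g).toMonoidHom) z t g :=
    { hQ := hQ
      hR := hQ.conj g
      hmem := fun x => mem_map_conj
      ht := rfl
      htQ := htQ
      htz := htz }
  have h8 : 8 < Nat.card Q := by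
    rw [hcard]
    calc 8 < 2 ^ 5 := by norm_num
      _ ≤ 2 ^ (2 * w + 1) := Nat.pow_le_pow_right (by norm_num) (by omega)
  have hzR := hT.mem h8
  have htt : t * t = 1 := hT.hR.z_sq
  have hzt : z * t = t * z := hT.comm_zt
  refine ⟨?_, ?_, hL1, hL2, hL3, ?_⟩
  · intro x hx
    rcases (hZmem x).1 hx with h | h
    · rw [h]; exact Subgroup.one_mem _
    · rw [h]; exact hzR
  · obtain ⟨W, hW⟩ := four hzz htt hzt
    have hTmem : ∀ x, x ∈ (((Subgroup.center ↥Q).map Q.subtype)).map (MulAut.conj g).toMonoidHom ↔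
        x = 1 ∨ x = t := by
      intro x
      rw [mem_map_conj, hZmem]
      constructor
      · rintro (h | h)
        · left
          have := congrArg (fun y => g * y * g⁻¹) h
          simpa [mul_assoc] using this
        · right
          rw [htdef, ← h]; group
      · rintro (h | h)
        · left; rw [h]; group
        · right; rw [h, htdef]; group
    have hV : ∀ x, x ∈ (((Subgroup.center ↥Q).map Q.subtype) ⊔
        (((Subgroup.center ↥Q).map Q.subtype)).map (MulAut.conj g).toMonoidHom : Subgroup G) ↔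
        x = 1 ∨ x = z ∨ x = t ∨ x = z * t := by
      intro x
      constructor
      · intro hx
        have hle : ((Subgroup.center ↥Q).map Q.subtype) ⊔
            (((Subgroup.center ↥Q).map Q.subtype)).map (MulAut.conj g).toMonoidHom ≤ W := by
          refine sup_le ?_ ?_
          · intro y hy
            rcases (hZmem y).1 hy with h | h
            · exact (hW y).2 (Or.inl h)
            · exact (hW y).2 (Or.inr (Or.inl h))
          · intro y hy
            rcases (hTmem y).1 hy with h | h
            · exact (hW y).2 (Or.inl h)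
            · exact (hW y).2 (Or.inr (Or.inr (Or.inl h)))
        exact (hW x).1 (hle hx)
      · have h1 : z ∈ (((Subgroup.center ↥Q).map Q.subtype) ⊔
            (((Subgroup.center ↥Q).map Q.subtype)).map (MulAut.conj g).toMonoidHom : Subgroup G) :=
          (le_sup_left : ((Subgroup.center ↥Q).map Q.subtype) ≤ _) ((hZmem z).2 (Or.inr rfl))
        have h2 : t ∈ (((Subgroup.center ↥Q).map Q.subtype) ⊔
            (((Subgroup.center ↥Q).map Q.subtype)).map (MulAut.conj g).toMonoidHom : Subgroup G) :=
          (le_sup_right : _ ≤ ((Subgroup.center ↥Q).map Q.subtype) ⊔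
            (((Subgroup.center ↥Q).map Q.subtype)).map (MulAut.conj g).toMonoidHom)
            ((hTmem t).2 (Or.inr rfl))
        rintro (h | h | h | h)
        · rw [h]; exact Subgroup.one_mem _
        · rw [h]; exact h1
        · rw [h]; exact h2
        · rw [h]; exact Subgroup.mul_mem _ h1 h2
    obtain ⟨q, hq, hqt⟩ := hQ.exists_anti htQ hT.t_ne htz
    obtain ⟨r, hr, hrz⟩ := hT.hR.exists_anti hzR hz1 htz.symm
    exact relIndex_six hzz htt hzt hz1 hT.t_ne htz hV (hQ.z_comm q hq) hqt
      (hT.hR.z_comm r hr) hrz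
  · intro K hK hQK
    exact hT.odd hzR K hK (fun a ha k hk => (Subgroup.mem_normalizer_iff.1 (hQK ha) k).1 hk)

end Cfsg.Agent.S5422
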