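import Cfsg.Statements.S1062
import Cfsg.Agent.Lib.Chev.OrderData.F4
import Cfsg.Agent.Lib.Chev.Diag
import Cfsg.Agent.Lib.Chev.Tables2
import Cfsg.Agent.Lib.Chev.Tables
import Cfsg.Agent.Lib.Lie.AxOf
-- import your own Cfsg.Agent.* helpers here

set_option autoImplicit false
open Cfsg

namespace Cfsg.Agent.S1062

/-- `|F₄(q)| = q²⁴ (q² - 1)(q⁶ - 1)(q⁸ - 1)(q¹² - 1)`. -/
theorem result {F : Type*} [Field F] [Fintype F] {q : ℕ} (hq : Fintype.card F = q) : Nat.card ↥(Cfsg.Lie.chevF4.group F) = q ^ 24 * (q ^ 2 - 1) * (q ^ 6 - 1) * (q ^ 8 - 1) * (q ^ 12 - 1) := by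
  have hD : Cfsg.Lie.chevF4 ∈ [Cfsg.Lie.chevG2, Cfsg.Lie.chevB2, Cfsg.Lie.chevD4, Cfsg.Lie.chevF4, Cfsg.Lie.chevE6, Cfsg.Lie.chevE7, Cfsg.Lie.chevE8] := by simp
  have ax := Cfsg.Agent.Lib.Lie.AxOf.ax_of_mem (F := F) hD
  have hd := Cfsg.Agent.Lib.Chev.Diag.card_diagonal_final hq (Cfsg.Lie.chevF4, 1) (by simp) ax
  have key := Cfsg.Agent.Lib.Chev.Order3.card_of_cert (Cfsg.Agent.Lib.Chev.Tables.tab_of_mem hD)
    (Cfsg.Agent.Lib.Chev.Tables2.tab2_of_mem hD) ax Cfsg.Agent.Lib.Chev.OrderData.F4.cert (by decide) hq hd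
  have hN : Cfsg.Lie.chevF4.nroots / 2 = 24 := by decide
  rw [hN] at key
  simp only [List.map_cons, List.map_nil, List.prod_cons, List.prod_nil, mul_one] at key
  rw [one_mul] at key
  rw [key]
  ring

end Cfsg.Agent.S1062
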