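import Cfsg.Statements.S4487
import Cfsg.Agent.Lib.BlockP.Reduce
import Cfsg.Agent.Lib.Core.Basic
import Cfsg.Agent.Lib.Blocks.Local

set_option autoImplicit false
open Cfsg

namespace Cfsg.Agent.S4487

open Cfsg.Agent.Lib.BlockP.Reduce

/-- Let G be a finite group and p a prime such that G has no non-trivial normal subgroup of order prime to p and C_G(O_p(G)) ≤ O_p(G). Then G has a single p-block: any two irreducible characters lie in the same block relative to every maximal ideal M of the algebraic integers containing p. -/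
theorem result {G : Type*} [Group G] [Finite G] (p : ℕ) [Fact p.Prime] (M : Ideal Cfsg.AlgInt) (hM : Cfsg.IsPModular p M) (hcore : Cfsg.pPrimeCore p G = ⊥) (hconstr : Subgroup.centralizer ((Cfsg.pCore p G) : Set G) ≤ Cfsg.pCore p G) (χ ψ : Cfsg.IrrCharacter G) : Cfsg.SameBlock M (χ : G → ℂ) (ψ : G → ℂ) := by
  intro g
  have hp : p.Prime := Fact.out
  have hMp : M.IsPrime := hM.2.1.isPrime
  have hQ : (Cfsg.pCore p G).Normal := Cfsg.pCore_normal p G
  have hpQ : IsPGroup p (Cfsg.pCore p G) := Cfsg.Agent.Lib.Core.Basic.pCore_isPGroup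
  by_cases h : ∀ x, IsConj g x → x ∉ Subgroup.centralizer ((Cfsg.pCore p G) : Set G)
  · exact Cfsg.Agent.Lib.Blocks.Local.memLocalIdeal_sub
      (centralChar_mem_of_no_conj hp hM χ.2 _ hQ hpQ g h)
      (centralChar_mem_of_no_conj hp hM ψ.2 _ hQ hpQ g h)
  · push Not at h
    obtain ⟨x, hx, hx2⟩ := h
    have hxQ := hconstr hx2
    obtain ⟨c, hc⟩ := isConj_iff.1 hx
    have hgQ : g ∈ Cfsg.pCore p G := by
      have := hQ.conj_mem x hxQ c⁻¹
      rw [← hc] at this
      simpa [mul_assoc] using this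
    have h1 := centralChar_sub_mem_of_mem hp hM χ.2 _ hQ hpQ g hgQ
    have h2 := centralChar_sub_mem_of_mem hp hM ψ.2 _ hQ hpQ g hgQ
    have h3 := Cfsg.Agent.Lib.Blocks.Local.memLocalIdeal_sub h1 h2
    simpa using h3

end Cfsg.Agent.S4487
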