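import Cfsg.Statements.S4492
import Cfsg.Agent.Lib.CharTriple.Fong
import Cfsg.Agent.Lib.Core.PSolvable
import Cfsg.Agent.Lib.Core.Series
import Cfsg.Agent.Lib.SelfCent.CoreLemmas

set_option autoImplicit false
open Cfsg

namespace Cfsg.Agent.S4492

/-- Let G be a finite p-solvable group, N = O_{p'}(G) its largest normal subgroup of order prime to p, and θ an irreducible character of N invariant under conjugation by G; fix a maximal ideal M of the algebraic integers containing p. Then the irreducible characters of G lying over θ (those whose restriction to N contains θ) form a single p-block of G, and the defect groups of that block are exactly the Sylow p-subgroups of G. -/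
theorem result {G : Type*} [Group G] [Fintype G] (p : ℕ) [Fact p.Prime] (M : Ideal Cfsg.AlgInt) (hM : Cfsg.IsPModular p M) (hsolv : Cfsg.IsPSolvable p G) (N : Subgroup G) [hN : N.Normal] [Fintype N] (hNdef : N = Cfsg.pPrimeCore p G) (θ : Cfsg.IrrCharacter N) (hinv : ∀ (g : G) (n : N), (θ : N → ℂ) ⟨g * n * g⁻¹, hN.conj_mem n n.2 g⟩ = (θ : N → ℂ) n) : ∃ B : Set (Cfsg.IrrCharacter G), Cfsg.IsPBlock M B ∧ (∀ χ : Cfsg.IrrCharacter G, χ ∈ B ↔ Cfsg.classInner (fun n : N => (χ : G → ℂ) n) (θ : N → ℂ) ≠ 0) ∧ (∀ P : Sylow p G, Cfsg.IsDefectGroup p M B (P : Subgroup G)) ∧ ∀ D : Subgroup G, Cfsg.IsDefectGroup p M B D → ∃ P : Sylow p G, D = (P : Subgroup G) := by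
  classical
  subst hNdef
  have hp : p.Prime := Fact.out
  haveI hL : (pPrimePCore p G).Normal := inferInstance
  have hKp : ¬ p ∣ Nat.card (pPrimeCore p G) := by
    have h1 := Cfsg.Agent.Lib.SelfCent.CoreLemmas.pPrimeCore_coprime (G := G) p
    exact (Nat.Prime.coprime_iff_not_dvd hp).mp h1.symm
  have hKL := Cfsg.Agent.Lib.Core.Series.pPrimeCore_le_pPrimePCore (p := p) (G := G)
  have hLp : ∀ l ∈ pPrimePCore p G, ∃ k : ℕ, l ^ (p ^ k) ∈ pPrimeCore p G :=
    fun l hl => Cfsg.Agent.Lib.Core.Series.exists_pow_mem_pPrimeCore hl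
  obtain ⟨P⟩ : Nonempty (Sylow p (pPrimePCore p G)) := inferInstance
  have hC := Cfsg.Agent.Lib.Core.PSolvable.isPConstrained_of_isPSolvable hsolv P
  have hle : (P : Subgroup (pPrimePCore p G)).map (pPrimePCore p G).subtype ≤ pPrimePCore p G :=
    Subgroup.map_subtype_le _
  have hQS : ¬ p ∣ ((P : Subgroup (pPrimePCore p G)).map (pPrimePCore p G).subtype).relIndex (pPrimePCore p G) := by
    have h0 : ((P : Subgroup (pPrimePCore p G)).map (pPrimePCore p G).subtype).subgroupOf (pPrimePCore p G) = P :=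
      Subgroup.comap_map_eq_self_of_injective (pPrimePCore p G).subtype_injective _
    rw [Subgroup.relIndex, h0]
    exact P.not_dvd_index
  have hHH := Cfsg.Agent.Lib.CharTriple.Fong.hh_of_constrained hKL hKp hLp hle (P.2.map _) hQS hC
  obtain ⟨h1, h2, h3⟩ := Cfsg.Agent.Lib.CharTriple.Fong.fong_main hM (pPrimeCore p G) (pPrimePCore p G) hKL hKp hLp hHH θ (fun g => funext (hinv g)) {χ | classInner (fun n : pPrimeCore p G => (χ : G → ℂ) n) (θ : pPrimeCore p G → ℂ) ≠ 0} (fun χ => Iff.rfl)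
  exact ⟨_, h1, fun χ => Iff.rfl, h2, h3⟩

end Cfsg.Agent.S4492
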