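-- Statement S5411.
import Cfsg.Statements.S5411
import Cfsg.Agent.Lib.Monster.Types

set_option autoImplicit false
open Cfsg

namespace Cfsg.Agent.S5411

open Cfsg.Agent.Lib.Monster.Local Cfsg.Agent.Lib.Monster.Types

theorem short32 {G : Type*} [Group G] [Finite G] {z : G} {Q : Subgroup (Cz z)} [Q.Normal]
    {e : (Cz z) ⧸ Q ≃* Spor.Co1} {ψ : leechLattice → Q ⧸ Subgroup.center Q} (hS : MSet z Q e ψ) (hnwc : NWC z Q)
    {a : Q} (ha2 : orderOf ((a : Cz z) : G) = 2) (hnc : ¬ IsConj z ((a : Cz z) : G)) :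
    a ∉ Subgroup.center Q ∧ ∃ u : leechLattice, ψ u = QuotientGroup.mk a ∧ Cfsg.sqNorm (u : Cfsg.GolayPt → ℤ) = 32 := by
  have h1 : a ∉ Subgroup.center Q := by
    intro hc
    rcases (hS.mem_center_iff a).mp hc with h2 | h2
    · rw [h2] at ha2
      simp at ha2
    · apply hnc
      rw [h2]
      exact IsConj.refl _
  refine ⟨h1, ?_⟩
  have hsq : a ^ 2 = 1 := by
    apply Subtype.ext
    apply Subtype.ext
    show ((a : Cz z) : G) ^ 2 = 1
    rw [← ha2]
    exact pow_orderOf_eq_one _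
  obtain ⟨u, hu, h2⟩ := exists_short_class hS hsq h1
  refine ⟨u, hu, ?_⟩
  rcases h2 with h2 | h2
  · exact h2
  · exact absurd (conj_of_type4 hS hnwc h2 hu).1 hnc

/-- Let G be a finite group of Monster type at the involution z with Q the extraspecial normal subgroup of order 2^25 of C = C_G(z) (so C/Q is identified with the first Conway group with Q modulo its centre the Leech lattice modulo 2, and z is not weakly closed in Q). Then C acts transitively by conjugation on the involutions of Q that are not conjugate to z in G. -/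
theorem result {G : Type*} [Group G] [Finite G] (z : G) (Q : Subgroup (Subgroup.centralizer ({z} : Set G))) [Q.Normal] (hM : Cfsg.IsOfMonsterType z Q) (s t : G) (hsQ : ∃ hsc : s ∈ Subgroup.centralizer ({z} : Set G), (⟨s, hsc⟩ : Subgroup.centralizer ({z} : Set G)) ∈ Q) (htQ : ∃ htc : t ∈ Subgroup.centralizer ({z} : Set G), (⟨t, htc⟩ : Subgroup.centralizer ({z} : Set G)) ∈ Q) (hs2 : orderOf s = 2) (ht2 : orderOf t = 2) (hs : ¬ IsConj z s) (ht : ¬ IsConj z t) : ∃ h ∈ Subgroup.centralizer ({z} : Set G), h * s * h⁻¹ = t := by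
  obtain ⟨⟨hz, hF, hE, hcard, hnwc⟩, e, ψ, hψ⟩ := hM
  have hS : MSet z Q e ψ := ⟨hz, hF, hE, hcard, hψ⟩
  obtain ⟨hsc, hs'⟩ := hsQ
  obtain ⟨htc, ht'⟩ := htQ
  obtain ⟨hnc, u, hu, hun⟩ := short32 (a := ⟨⟨s, hsc⟩, hs'⟩) hS hnwc hs2 hs
  obtain ⟨-, u', hu', hun'⟩ := short32 (a := ⟨⟨t, htc⟩, ht'⟩) hS hnwc ht2 ht
  obtain ⟨γ, hγ⟩ := Cfsg.Agent.Lib.Leech.Trans.trans32 u u' hun hun'
  obtain ⟨c, -, hc⟩ := hS.exists_conj_of_smul γ hu (b := ⟨⟨t, htc⟩, ht'⟩) (by rw [hγ]; exact hu') hnc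
  exact ⟨c, c.2, congrArg Subtype.val hc⟩

end Cfsg.Agent.S5411
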