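import Cfsg.Statements.S5967
import Cfsg.Agent.Lib.Elusive.BlockForm

set_option autoImplicit false
open scoped MatrixGroups
open Cfsg

namespace Cfsg.Agent.S5967

open Module Cfsg.Agent.Lib.Elusive.BlockForm

/-- Eigenbasis when `g² = w²`, `2 ≠ 0`. -/
theorem exists_eigen_basis {F V : Type*} [Field F] [AddCommGroup V] [Module F V]
    [FiniteDimensional F V] (g : V →ₗ[F] V) (w : F) (hw : w ≠ 0) (h2 : (2 : F) ≠ 0)
    (hg : ∀ v, g (g v) = (w ^ 2) • v) :
    ∃ (a c : ℕ) (e : Basis (Fin a ⊕ Fin c) F V), (∀ i, g (e (.inl i)) = w • e (.inl i)) ∧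
      (∀ j, g (e (.inr j)) = (-w) • e (.inr j)) := by
  classical
  let Wp : Submodule F V := LinearMap.ker (g - w • LinearMap.id)
  let Wm : Submodule F V := LinearMap.ker (g + w • LinearMap.id)
  have hWp : ∀ v, v ∈ Wp ↔ g v = w • v := by
    intro v
    simp [Wp, sub_eq_zero]
  have hWm : ∀ v, v ∈ Wm ↔ g v = (-w) • v := by
    intro v
    simp [Wm, add_eq_zero_iff_eq_neg]
  have h2w : (2 * w : F) ≠ 0 := mul_ne_zero h2 hw
  have hcompl : IsCompl Wp Wm := by
    constructor
    · rw [Submodule.disjoint_def]
      intro v hv hv'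
      have h1 := (hWp v).1 hv
      have h3 := (hWm v).1 hv'
      have h4 : (2 * w) • v = 0 := by
        have : w • v = (-w) • v := h1.symm.trans h3
        rw [neg_smul] at this
        have h5 : w • v + w • v = 0 := by
          nth_rewrite 1 [this]
          abel
        rw [← h5, two_mul, add_smul]
      exact (smul_eq_zero.mp h4).resolve_left h2w
    · rw [codisjoint_iff, eq_top_iff]
      intro v _
      have hdec : v = (2 * w)⁻¹ • (g v + w • v) + (2 * w)⁻¹ • (w • v - g v) := by
        rw [← smul_add]
        have : g v + w • v + (w • v - g v) = (2 * w) • v := by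
          rw [two_mul, add_smul]
          abel
        rw [this, smul_smul, inv_mul_cancel₀ h2w, one_smul]
      rw [hdec]
      refine Submodule.add_mem _ (Submodule.mem_sup_left ?_) (Submodule.mem_sup_right ?_)
      · rw [hWp]
        simp only [map_smul, map_add, hg]
        rw [smul_comm w]
        congr 1
        rw [smul_add, smul_smul, pow_two, add_comm]
      · rw [hWm]
        simp only [map_smul, map_sub, hg]
        rw [smul_comm (-w)]
        congr 1
        rw [smul_sub, smul_smul, pow_two, neg_smul, neg_mul, neg_smul]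
        abel
  let bp := finBasis F Wp
  let bm := finBasis F Wm
  let e := (bp.prod bm).map (Submodule.prodEquivOfIsCompl Wp Wm hcompl)
  refine ⟨_, _, e, ?_, ?_⟩
  · intro i
    have : e (.inl i) = (bp i : V) := by simp [e]
    rw [this]
    exact (hWp _).1 (bp i).2
  · intro j
    have : e (.inr j) = (bm j : V) := by simp [e]
    rw [this]
    exact (hWm _).1 (bm j).2

/-- The `2`-adic consequence of `w^n = -1`. -/
theorem padic_of_pow_eq_neg_one {F : Type*} [Field F] [Fintype F] {q : ℕ} (hq : Fintype.card F = q)
    (h2 : (2 : F) ≠ 0) (n : ℕ) (hn : n ≠ 0) (w : F) (hw : w ^ n = -1) :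
    padicValNat 2 n + 1 ≤ padicValNat 2 (q - 1) := by
  classical
  have hw0 : w ≠ 0 := by
    rintro rfl
    rw [zero_pow hn] at hw
    have : (1 : F) = 0 := by
      have h := congrArg Neg.neg hw
      simpa using h.symm
    exact one_ne_zero this
  have hq2 : 2 ≤ q := hq ▸ Fintype.one_lt_card
  have hneg : (-1 : F) ≠ 1 := by
    intro h
    apply h2
    have : (1 : F) + 1 = 0 := by
      nth_rewrite 1 [← h]
      ring
    rw [← this]
    ring
  set s := padicValNat 2 n with hs
  obtain ⟨m, hm⟩ : 2 ^ s ∣ n := pow_padicValNat_dvd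
  have hmodd : ¬ 2 ∣ m := by
    rintro ⟨r, rfl⟩
    have : 2 ^ (s + 1) ∣ n := ⟨r, by rw [hm]; ring⟩
    have hfact : Fact (Nat.Prime 2) := ⟨Nat.prime_two⟩
    exact pow_succ_padicValNat_not_dvd hn this
  let u : Fˣ := Units.mk0 (w ^ m) (pow_ne_zero _ hw0)
  have hu : (u : F) ^ (2 ^ s) = -1 := by
    simp only [u, Units.val_mk0]
    rw [← pow_mul, mul_comm, ← hm, hw]
  have hu1 : u ^ (2 ^ s) ≠ 1 := by
    intro h
    have := congrArg Units.val h
    rw [Units.val_pow_eq_pow_val, hu, Units.val_one] at this
    exact hneg this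
  have hu2 : u ^ (2 ^ (s + 1)) = 1 := by
    ext
    rw [Units.val_pow_eq_pow_val, pow_succ, pow_mul, hu]
    simp
  have hord : orderOf u = 2 ^ (s + 1) := orderOf_eq_prime_pow hu1 hu2
  have hdvd : 2 ^ (s + 1) ∣ q - 1 := by
    rw [← hord]
    apply orderOf_dvd_of_pow_eq_one
    ext
    rw [Units.val_pow_eq_pow_val, Units.val_one, ← hq]
    exact FiniteField.pow_card_sub_one_eq_one _ u.ne_zero
  exact (padicValNat_dvd_iff_le (by omega)).1 hdvd

/-- The reflection obstruction. -/
theorem no_reflection {F : Type*} [Field F] {n : ℕ} (hn : 3 ≤ n)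
    {f : (Fin n → F) → (Fin n → F) → F} (hf : Cfsg.Geo.IsSymplecticForm f) (h2 : (2 : F) ≠ 0)
    (φ : (Fin n → F) →ₗ[F] F) (a : Fin n → F) (hφa : φ a = 1) (y : (Fin n → F) → (Fin n → F))
    (δ : F) (hδ : δ ≠ 0) (hy : ∀ u, y u = δ • (u - (2 * φ u) • a)) (c : F)
    (hc : ∀ u v, f (y u) (y v) = c * f u v) : False := by
  classical
  let B := toBilin f hf.bilinear
  have hB : B.IsAlt := toBilin_isAlt hf
  have ha0 : a ≠ 0 := by
    rintro rfl
    simp at hφa
  have hyker : ∀ u, φ u = 0 → y u = δ • u := by
    intro u hu
    rw [hy, hu]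
    simp
  have hya : y a = (-δ) • a := by
    rw [hy, hφa]
    have : a - (2 * 1 : F) • a = (-1 : F) • a := by
      rw [mul_one, two_smul, neg_one_smul]
      abel
    rw [this, smul_smul]
    simp
  have hff : ∀ u v, f u v = B u v := fun _ _ => rfl
  -- first value of `c`
  obtain ⟨t, ht⟩ := (hf.nondegenerate a ha0).2
  let u₁ := t - φ t • a
  have hu₁ : φ u₁ = 0 := by simp [u₁, hφa]
  have hau₁ : f a u₁ ≠ 0 := by
    have : B a u₁ = B a t := by
      simp only [u₁, map_sub, map_smul, hB a, smul_zero, sub_zero]
    rw [hff, this]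
    exact ht
  have hc1 : c = -(δ * δ) := by
    have h := hc a u₁
    rw [hya, hyker u₁ hu₁] at h
    simp only [hff, map_smul, LinearMap.smul_apply, smul_eq_mul] at h
    have hau₁' : B a u₁ ≠ 0 := hau₁
    apply mul_right_cancel₀ hau₁'
    linear_combination -h
  -- second value of `c`
  let ψ : (Fin n → F) →ₗ[F] (F × F) := φ.prod (B a)
  have hker : LinearMap.ker ψ ≠ ⊥ := by
    apply LinearMap.ker_ne_bot_of_finrank_lt
    simp
    omega
  obtain ⟨v, hv, hv0⟩ := Submodule.exists_mem_ne_zero_of_ne_bot hker
  have hvφ : φ v = 0 := by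
    have : ψ v = 0 := hv
    exact congrArg Prod.fst this
  have hvB : B a v = 0 := by
    have : ψ v = 0 := hv
    exact congrArg Prod.snd this
  obtain ⟨t', ht'⟩ := (hf.nondegenerate v hv0).2
  let u₂ := t' - φ t' • a
  have hu₂ : φ u₂ = 0 := by simp [u₂, hφa]
  have hvu₂ : f v u₂ ≠ 0 := by
    have hva : B v a = 0 := by rw [Cfsg.Agent.Lib.Elusive.Sympl.skew hB, hvB, neg_zero]
    have : B v u₂ = B v t' := by
      simp only [u₂, map_sub, map_smul, hva, smul_zero, sub_zero]
    rw [hff, this]
    exact ht'
  have hc2 : c = δ * δ := by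
    have h := hc v u₂
    rw [hyker v hvφ, hyker u₂ hu₂] at h
    simp only [hff, map_smul, LinearMap.smul_apply, smul_eq_mul] at h
    have hvu₂' : B v u₂ ≠ 0 := hvu₂
    apply mul_right_cancel₀ hvu₂'
    linear_combination -h
  have : 2 * (δ * δ) = 0 := by
    linear_combination hc1 - hc2
  rcases mul_eq_zero.mp this with h | h
  · exact h2 h
  · exact hδ (mul_self_eq_zero.mp h)


/-- Involutions of PSL_n(q) and the symplectic-type subgroups. Here `T = PSL_n(F)` for a field `F` with `q` elements, `n ≥ 4` even, `f` is a nondegenerate alternating form on `F^n`, and `H` is the subgroup of matrices of determinant 1 preserving `f` up to a scalar — a maximal subgroup of type Sp_n(q); Ω is the set of `T`-conjugates of `H` (cosets of `H`), so an element of `T` of prime order `r` (a matrix `x` of determinant 1 with `x^r` scalar, `x` not scalar) fixes a point of Ω when some conjugate of `x` by a matrix of determinant 1 preserves `f` up to a scalar. Suppose the index of `H` is even. Then every involution of `T` is conjugate in `T` into `H` if and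 only if `(q − 1)_2 ≤ (n)_2`. -/
theorem result {F : Type*} [Field F] [Fintype F] {p : ℕ} [Fact p.Prime] [CharP F p] {q : ℕ} (hq : Fintype.card F = q)
    (n : ℕ) (hn : 4 ≤ n) (he : Even n) (f : (Fin n → F) → (Fin n → F) → F) (hf : Cfsg.Geo.IsSymplecticForm f)
    (hΩ : 2 ∣ ((Cfsg.Geo.similarityGroup f).comap (Matrix.SpecialLinearGroup.toGL : Matrix.SpecialLinearGroup (Fin n) F →* GL (Fin n) F)).index) :
    (∀ x : Matrix.SpecialLinearGroup (Fin n) F,
      (∃ z : F, ((x ^ 2 : Matrix.SpecialLinearGroup (Fin n) F) : Matrix (Fin n) (Fin n) F) = z • (1 : Matrix (Fin n) (Fin n) F)) →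
      (∀ z : F, (x : Matrix (Fin n) (Fin n) F) ≠ z • (1 : Matrix (Fin n) (Fin n) F)) →
      ∃ P : Matrix.SpecialLinearGroup (Fin n) F, P⁻¹ * x * P ∈ ((Cfsg.Geo.similarityGroup f).comap (Matrix.SpecialLinearGroup.toGL : Matrix.SpecialLinearGroup (Fin n) F →* GL (Fin n) F))) ↔
    padicValNat 2 (q - 1) ≤ padicValNat 2 n := by
  classical
  have hn0 : n ≠ 0 := by omega
  have hq2 : 2 ≤ q := hq ▸ Fintype.one_lt_card
  constructor
  · -- reflection obstruction
    intro hall
    by_contra hcon
    have hlt : padicValNat 2 n + 1 ≤ padicValNat 2 (q - 1) := by omega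
    set s := padicValNat 2 n with hs
    have hdvd : 2 ^ (s + 1) ∣ q - 1 :=
      (padicValNat_dvd_iff_le (by omega)).2 hlt
    -- `q` is odd
    have h2 : (2 : F) ≠ 0 := by
      intro h2
      have : CharP F 2 := CharTwo.of_one_ne_zero_of_two_eq_zero one_ne_zero h2
      have hch : ringChar F = 2 := ringChar.eq F 2
      have heven := FiniteField.even_card_of_char_two hch
      rw [hq] at heven
      have : 2 ∣ q - 1 := dvd_trans (dvd_pow_self 2 (by omega)) hdvd
      omega
    have hneg : (-1 : F) ≠ 1 := by
      intro h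
      apply h2
      have : (1 : F) + 1 = 0 := by
        nth_rewrite 1 [← h]
        ring
      rw [← this]
      ring
    -- an element of order `2^(s+1)`
    obtain ⟨γ, hγ⟩ := IsCyclic.exists_generator (α := Fˣ)
    have hγo : orderOf γ = q - 1 := by
      rw [orderOf_eq_card_of_forall_mem_zpowers hγ, Nat.card_eq_fintype_card, Fintype.card_units, hq]
    obtain ⟨k, hk⟩ := hdvd
    let δ₀ : Fˣ := γ ^ k
    have hq1 : q - 1 ≠ 0 := by omega
    have hδ₀ : orderOf δ₀ = 2 ^ (s + 1) := by
      have := orderOf_pow_of_dvd (x := γ) (n := k) (by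
        intro h
        rw [h, mul_zero] at hk
        exact hq1 hk) (by rw [hγo, hk]; exact dvd_mul_left _ _)
      rw [this, hγo, hk]
      have hk0 : k ≠ 0 := by
        intro h
        rw [h, mul_zero] at hk
        exact hq1 hk
      exact Nat.mul_div_cancel _ (Nat.pos_of_ne_zero hk0)
    let δ : F := (δ₀ : F)
    have hδ0 : δ ≠ 0 := δ₀.ne_zero
    have hδpow : δ ^ (2 ^ s) = -1 := by
      have h1 : (δ ^ (2 ^ s)) ^ 2 = 1 := by
        have : δ₀ ^ (2 ^ (s + 1)) = 1 := by
          rw [← hδ₀]
          exact pow_orderOf_eq_one _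
        have h3 := congrArg Units.val this
        rw [Units.val_pow_eq_pow_val, Units.val_one, pow_succ, pow_mul] at h3
        exact h3
      have h4 : δ ^ (2 ^ s) ≠ 1 := by
        intro h
        have : δ₀ ^ (2 ^ s) = 1 := by
          ext
          rw [Units.val_pow_eq_pow_val, Units.val_one]
          exact h
        have h5 := orderOf_dvd_of_pow_eq_one this
        rw [hδ₀] at h5
        have := Nat.le_of_dvd (by positivity) h5
        have h6 : 2 ^ s < 2 ^ (s + 1) := Nat.pow_lt_pow_right (by norm_num) (by omega)
        omega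
      have h5 : (δ ^ (2 ^ s) - 1) * (δ ^ (2 ^ s) + 1) = 0 := by
        linear_combination h1
      rcases mul_eq_zero.mp h5 with h | h
      · exact absurd (sub_eq_zero.mp h) h4
      · linear_combination h
    obtain ⟨m, hm⟩ : 2 ^ s ∣ n := pow_padicValNat_dvd
    have hmodd : Odd m := by
      rw [← Nat.not_even_iff_odd]
      rintro ⟨r, rfl⟩
      have : 2 ^ (s + 1) ∣ n := ⟨r, by rw [hm]; ring⟩
      have hfact : Fact (Nat.Prime 2) := ⟨Nat.prime_two⟩
      exact pow_succ_padicValNat_not_dvd hn0 this
    have hδn : δ ^ n = -1 := by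
      rw [hm, pow_mul, hδpow]
      exact hmodd.neg_one_pow
    -- the element
    let i0 : Fin n := ⟨0, by omega⟩
    let i1 : Fin n := ⟨1, by omega⟩
    let d : Fin n → F := fun i => δ * (if i = i0 then -1 else 1)
    have hddet : (Matrix.diagonal d).det = 1 := by
      rw [Matrix.det_diagonal]
      simp only [d]
      rw [Finset.prod_mul_distrib, Finset.prod_const, Finset.card_univ, Fintype.card_fin, hδn,
        Finset.prod_ite_eq' Finset.univ i0 (fun _ => (-1 : F))]
      simp
    let x : Matrix.SpecialLinearGroup (Fin n) F := ⟨Matrix.diagonal d, hddet⟩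
    have hx1 : ∃ z : F, ((x ^ 2 : Matrix.SpecialLinearGroup (Fin n) F) : Matrix (Fin n) (Fin n) F) = z • (1 : Matrix (Fin n) (Fin n) F) := by
      refine ⟨δ ^ 2, ?_⟩
      rw [pow_two, Matrix.SpecialLinearGroup.coe_mul]
      change Matrix.diagonal d * Matrix.diagonal d = _
      rw [Matrix.diagonal_mul_diagonal, ← Matrix.diagonal_one, ← Matrix.diagonal_smul]
      congr 1
      funext i
      simp only [d, Pi.smul_apply, smul_eq_mul]
      by_cases hi : i = i0 <;> simp [hi] <;> ring
    have hx2 : ∀ z : F, (x : Matrix (Fin n) (Fin n) F) ≠ z • (1 : Matrix (Fin n) (Fin n) F) := by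
      intro z hz
      have h0 := congrFun (congrFun hz i0) i0
      have h1 := congrFun (congrFun hz i1) i1
      have hi10 : i1 ≠ i0 := by
        intro h
        have := congrArg Fin.val h
        simp [i1, i0] at this
      change Matrix.diagonal d i0 i0 = _ at h0
      change Matrix.diagonal d i1 i1 = _ at h1
      simp [d, hi10] at h0 h1
      have h3 : 2 * δ = 0 := by
        have : -δ = δ := by rw [h0, h1]
        linear_combination -this
      rcases mul_eq_zero.mp h3 with h | h
      · exact h2 h
      · exact hδ0 h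
    obtain ⟨P, hP⟩ := hall x hx1 hx2
    obtain ⟨c, hc⟩ := hP
    -- the reflection form
    let PM : Matrix (Fin n) (Fin n) F := (P : Matrix (Fin n) (Fin n) F)
    let PI : Matrix (Fin n) (Fin n) F := ((P⁻¹ : Matrix.SpecialLinearGroup (Fin n) F) : Matrix (Fin n) (Fin n) F)
    have hPIP : PI * PM = 1 := by
      simp only [PI, PM]
      rw [← Matrix.SpecialLinearGroup.coe_mul, inv_mul_cancel]
      rfl
    have hPPI : PM * PI = 1 := by
      simp only [PI, PM]
      rw [← Matrix.SpecialLinearGroup.coe_mul, mul_inv_cancel]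
      rfl
    let φ : (Fin n → F) →ₗ[F] F := (LinearMap.proj i0) ∘ₗ Matrix.toLin' PM
    let a : Fin n → F := PI.mulVec (Pi.single i0 1)
    have hφa : φ a = 1 := by
      simp only [φ, a, LinearMap.comp_apply, Matrix.toLin'_apply, LinearMap.proj_apply,
        Matrix.mulVec_mulVec, hPPI, Matrix.one_mulVec, Pi.single_eq_same]
    let y : (Fin n → F) → (Fin n → F) := fun u =>
      ((Matrix.SpecialLinearGroup.toGL (P⁻¹ * x * P) : GL (Fin n) F) : Matrix (Fin n) (Fin n) F).mulVec u
    have hy : ∀ u, y u = δ • (u - (2 * φ u) • a) := by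
      intro u
      have h0 : ((Matrix.SpecialLinearGroup.toGL (P⁻¹ * x * P) : GL (Fin n) F) : Matrix (Fin n) (Fin n) F) =
          PI * Matrix.diagonal d * PM := rfl
      simp only [y]
      rw [h0, ← Matrix.mulVec_mulVec, ← Matrix.mulVec_mulVec]
      have h1 : ∀ v : Fin n → F, (Matrix.diagonal d).mulVec v = δ • (v - (2 * v i0) • (Pi.single i0 1 : Fin n → F)) := by
        intro v
        funext i
        simp only [Matrix.mulVec_diagonal, Pi.smul_apply, Pi.sub_apply, smul_eq_mul, d, Pi.single_apply]
        by_cases hi : i = i0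
        · subst hi
          simp
          ring
        · simp [hi]
      rw [h1, Matrix.mulVec_smul, Matrix.mulVec_sub, Matrix.mulVec_smul, Matrix.mulVec_mulVec, hPIP,
        Matrix.one_mulVec]
      rfl
    exact no_reflection (by omega) hf h2 φ a hφa y δ hδ0 hy (c : F) (fun u v => hc u v)
  · -- construction
    intro hval x hx1 _
    obtain ⟨z, hz⟩ := hx1
    have hsq : (x : Matrix (Fin n) (Fin n) F) * (x : Matrix (Fin n) (Fin n) F) = z • (1 : Matrix (Fin n) (Fin n) F) := by
      have h := hz
      rw [pow_two, Matrix.SpecialLinearGroup.coe_mul] at h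
      exact h
    have hz0 : z ≠ 0 := by
      rintro rfl
      rw [zero_smul] at hsq
      have : (x : Matrix (Fin n) (Fin n) F).det * (x : Matrix (Fin n) (Fin n) F).det = 0 := by
        rw [← Matrix.det_mul, hsq]
        have : Nonempty (Fin n) := ⟨⟨0, by omega⟩⟩
        exact Matrix.det_zero
      rw [Matrix.SpecialLinearGroup.det_coe] at this
      simp at this
    let g : (Fin n → F) →ₗ[F] (Fin n → F) := Matrix.toLin' (x : Matrix (Fin n) (Fin n) F)
    have hg : ∀ v, g (g v) = z • v := by
      intro v
      simp only [g, Matrix.toLin'_apply, Matrix.mulVec_mulVec, hsq, Matrix.smul_mulVec, Matrix.one_mulVec]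
    have hfin : finrank F (Fin n → F) = n := by simp
    have hVeven : Even (finrank F (Fin n → F)) := by rw [hfin]; exact he
    -- finishing from the block data
    have hfinish : ∀ (I : Type) (_ : Fintype I) (_ : DecidableEq I) (b : Basis (Fin 2 × I) F (Fin n → F))
        (M : I → Matrix (Fin 2) (Fin 2) F) (c₀ : F),
        c₀ ≠ 0 →
        (∀ i m, g (b (i, m)) = ∑ j, M m j i • b (j, m)) → (∀ m, (M m).det = c₀) →
        (∀ m δ, ∃ U : Matrix (Fin 2) (Fin 2) F, U * M m = M m * U ∧ U.det = δ) →
        ∃ P : Matrix.SpecialLinearGroup (Fin n) F, P⁻¹ * x * P ∈ ((Cfsg.Geo.similarityGroup f).comap (Matrix.SpecialLinearGroup.toGL : Matrix.SpecialLinearGroup (Fin n) F →* GL (Fin n) F)) := by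
      intro I _ _ b M c₀ hc₀ hb hdet hU
      have hI : Fintype.card (Fin 2 × I) = n := by
        rw [← hfin, finrank_eq_card_basis b]
      have hIpos : 0 < Fintype.card I := by
        rw [Fintype.card_prod, Fintype.card_fin] at hI
        omega
      obtain ⟨m₀⟩ := Fintype.card_pos_iff.mp hIpos
      exact exists_sl_conj_of_blocks hf x b M hb c₀ hc₀ hdet m₀ (hU m₀)
    by_cases h2 : (2 : F) = 0
    · -- characteristic two
      have : CharP F 2 := CharTwo.of_one_ne_zero_of_two_eq_zero one_ne_zero h2
      have hch : ringChar F = 2 := ringChar.eq F 2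
      obtain ⟨w, hw⟩ := FiniteField.isSquare_of_char_two hch z
      have hneg : -z = z := by
        have : (2 : F) * z = 0 := by rw [h2, zero_mul]
        linear_combination -this
      obtain ⟨I, _, _, b, M, hb, hdet, hU⟩ := exists_blocks_of_sq g z w hz0 hg hVeven (by
        intro v t hv ht
        have h1 := hg v
        rw [ht, map_smul, ht, smul_smul] at h1
        have h3 : t * t = z := by
          have h4 : (t * t - z) • v = 0 := by
            rw [sub_smul, h1, sub_self]
          have := (smul_eq_zero.mp h4).resolve_right hv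
          linear_combination this
        have h5 : (t - w) * (t - w) = 0 := by
          linear_combination h3 - hw + (z - t * w) * h2
        have h7 : t = w := sub_eq_zero.mp (mul_self_eq_zero.mp h5)
        refine ⟨h7, ?_⟩
        rw [hneg, hw]
        ring)
      exact hfinish I inferInstance inferInstance b M (-z) (neg_ne_zero.mpr hz0) hb hdet hU
    by_cases hsqz : IsSquare z
    · -- `z = w²`: eigenspaces
      obtain ⟨w, hw⟩ := hsqz
      have hw0 : w ≠ 0 := by
        rintro rfl
        apply hz0
        rw [hw]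
        ring
      obtain ⟨a, c, e, he1, he2⟩ := exists_eigen_basis g w hw0 h2 (by
        intro v
        rw [hg, hw]
        congr 1
        ring)
      have hac : a + c = n := by
        have := finrank_eq_card_basis e
        rw [hfin] at this
        simpa using this.symm
      -- determinant
      have hdetg : w ^ a * (-w) ^ c = 1 := by
        have h1 : LinearMap.det g = 1 := by
          simp only [g]
          rw [LinearMap.det_toLin']
          exact Matrix.SpecialLinearGroup.det_coe x
        have h3 : LinearMap.toMatrix e e g = Matrix.diagonal (Sum.elim (fun _ => w) (fun _ => -w)) := by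
          ext p p'
          rw [LinearMap.toMatrix_apply]
          rcases p' with i | j
          · rw [he1]
            simp [Matrix.diagonal_apply, Finsupp.single_apply]
            rcases p with i' | j'
            · by_cases h : i = i'
              · simp [h]
              · have h' : i' ≠ i := fun hh => h hh.symm
                simp [h, h']
            · simp
          · rw [he2]
            simp [Matrix.diagonal_apply, Finsupp.single_apply]
            rcases p with i' | j'
            · simp
            · by_cases h : j = j'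
              · simp [h]
              · have h' : j' ≠ j := fun hh => h hh.symm
                simp [h, h']
        rw [← LinearMap.det_toMatrix e, h3, Matrix.det_diagonal] at h1
        simpa using h1
      have hceven : Even c := by
        by_contra hodd
        rw [Nat.not_even_iff_odd] at hodd
        have hpow : w ^ n = -1 := by
          rw [hodd.neg_pow] at hdetg
          rw [← hac, pow_add]
          linear_combination -hdetg
        have := padic_of_pow_eq_neg_one hq h2 n hn0 w hpow
        omega
      obtain ⟨c', rfl⟩ : ∃ c', c = 2 * c' := by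
        obtain ⟨r, hr⟩ := hceven
        exact ⟨r, by omega⟩
      obtain ⟨a', rfl⟩ : ∃ a', a = 2 * a' := by
        obtain ⟨r, hr⟩ := he
        exact ⟨r - c', by omega⟩
      let ε : Fin 2 × (Fin a' ⊕ Fin c') ≃ Fin (2 * a') ⊕ Fin (2 * c') :=
        (Equiv.prodSumDistrib _ _ _).trans (Equiv.sumCongr finProdFinEquiv finProdFinEquiv)
      let b : Basis (Fin 2 × (Fin a' ⊕ Fin c')) F (Fin n → F) := e.reindex ε.symm
      have hb : ∀ p, b p = e (ε p) := fun p => by simp [b]
      let M : Fin a' ⊕ Fin c' → Matrix (Fin 2) (Fin 2) F :=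
        Sum.elim (fun _ => w • (1 : Matrix (Fin 2) (Fin 2) F))
          (fun _ => (-w) • (1 : Matrix (Fin 2) (Fin 2) F))
      refine hfinish _ inferInstance inferInstance b M z hz0 ?_ ?_ ?_
      · rintro i (k | l') <;> fin_cases i
        · simp [hb, M, ε, Fin.sum_univ_two, he1]
        · simp [hb, M, ε, Fin.sum_univ_two, he1]
        · simp [hb, M, ε, Fin.sum_univ_two, he2]
        · simp [hb, M, ε, Fin.sum_univ_two, he2]
      · rintro (k | l')
        · simp only [M, Sum.elim_inl]
          rw [det_scalarBlock, hw]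
          ring
        · simp only [M, Sum.elim_inr]
          rw [det_scalarBlock, hw]
          ring
      · rintro (k | l') δ
        · exact exists_comm_scalarBlock _ δ
        · exact exists_comm_scalarBlock _ δ
    · -- `z` non-square
      obtain ⟨I, _, _, b, M, hb, hdet, hU⟩ := exists_blocks_of_sq g z 0 hz0 hg hVeven (by
        intro v t hv ht
        exfalso
        apply hsqz
        have h1 := hg v
        rw [ht, map_smul, ht, smul_smul] at h1
        have h4 : (t * t - z) • v = 0 := by
          rw [sub_smul, h1, sub_self]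
        have := (smul_eq_zero.mp h4).resolve_right hv
        exact ⟨t, by linear_combination -this⟩)
      exact hfinish I inferInstance inferInstance b M (-z) (neg_ne_zero.mpr hz0) hb hdet hU

end Cfsg.Agent.S5967
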