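import Cfsg.Statements.S0710
import Mathlib

set_option autoImplicit false
open Cfsg

namespace Cfsg.Agent.S0710

/-- No transitive permutation group on 13 points has order `13 * 12 * 11 * 10 * 9 * 8`. -/
theorem result {α : Type*} [Fintype α] [DecidableEq α] (hα : Fintype.card α = 13) (G : Subgroup (Equiv.Perm α)) [MulAction.IsPretransitive G α] : Nat.card G ≠ 13 * 12 * 11 * 10 * 9 * 8 := by
  classical
  intro hG
  have hG' : Nat.card G = 1235520 := by rw [hG]
  have h13 : Fact (Nat.Prime 13) := ⟨by norm_num⟩
  have hfac : (Nat.card G).factorization 13 = 1 := by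
    rw [hG', show (1235520 : ℕ) = 13 * 95040 by norm_num,
      Nat.factorization_mul (by norm_num) (by norm_num), Finsupp.add_apply,
      Nat.Prime.factorization_self h13.out,
      Nat.factorization_eq_zero_of_not_dvd (by norm_num : ¬ 13 ∣ 95040)]
  have _ : Fintype (Sylow 13 G) := Fintype.ofFinite _
  obtain ⟨P⟩ : Nonempty (Sylow 13 G) := inferInstance
  have hP : Nat.card (P : Subgroup G) = 13 := by
    rw [Sylow.card_eq_multiplicity, hfac, pow_one]
  have hcyc : IsCyclic (P : Subgroup G) := isCyclic_of_prime_card hP
  obtain ⟨x, hx⟩ := hcyc.exists_generator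
  have hxord : orderOf x = 13 := by
    rw [orderOf_eq_card_of_forall_mem_zpowers hx, hP]
  set y : Equiv.Perm α := ((x : G) : Equiv.Perm α) with hy
  have hyord : orderOf y = 13 := by
    rw [hy, Subgroup.orderOf_coe, Subgroup.orderOf_coe, hxord]
  have hycyc : y.IsCycle := Equiv.Perm.isCycle_of_prime_order'
    (by rw [hyord]; exact h13.out) (by rw [hyord, hα]; norm_num)
  have hsupp : y.support.card = 13 := by
    rw [← hycyc.orderOf, hyord]
  have hsuppall : ∀ z : α, y z ≠ z := by
    intro z
    have huniv : y.support = Finset.univ := by
      apply Finset.eq_univ_of_card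
      rw [hsupp, hα]
    have : z ∈ y.support := by rw [huniv]; simp
    exact Equiv.Perm.mem_support.mp this
  have hne : Nonempty α := by
    apply Fintype.card_pos_iff.mp
    omega
  obtain ⟨a⟩ := hne
  have hsame : ∀ z : α, ∃ k : ℤ, (y ^ k) a = z := fun z =>
    hycyc.sameCycle (hsuppall a) (hsuppall z)
  -- the centraliser of `y` in `G` is generated by `y`
  have hcent : Subgroup.centralizer ((P : Subgroup G) : Set G) = (P : Subgroup G) := by
    apply le_antisymm
    · intro c hc
      obtain ⟨k, hk⟩ := hsame ((c : Equiv.Perm α) a)
      have hcomm : Commute (c : Equiv.Perm α) y := by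
        have := (Subgroup.mem_centralizer_iff.mp hc) (x : G) x.2
        have h2 := congrArg (fun g : G => (g : Equiv.Perm α)) this
        simp only [Subgroup.coe_mul] at h2
        exact h2.symm
      have hceq : (c : Equiv.Perm α) = y ^ k := by
        ext z
        obtain ⟨j, rfl⟩ := hsame z
        have h1 : (c : Equiv.Perm α) ((y ^ j) a) = (y ^ j) ((c : Equiv.Perm α) a) := by
          have := (hcomm.zpow_right j).eq
          exact congrArg (fun f : Equiv.Perm α => f a) this
        rw [h1, ← hk]
        have h3 : (y ^ j) ((y ^ k) a) = (y ^ k) ((y ^ j) a) := by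
          have := ((Commute.refl y).zpow_zpow j k).eq
          exact congrArg (fun f : Equiv.Perm α => f a) this
        exact h3
      have : c = (x : G) ^ k := by
        apply Subtype.ext
        rw [hceq]
        simp [hy]
      rw [this]
      exact (P : Subgroup G).zpow_mem x.2 k
    · intro p hp
      rw [Subgroup.mem_centralizer_iff]
      intro q hq
      have := (IsCyclic.isMulCommutative (α := (P : Subgroup G))).is_comm.comm ⟨q, hq⟩ ⟨p, hp⟩
      exact congrArg Subtype.val this
  -- the normaliser
  set N := Subgroup.normalizer ((P : Subgroup G) : Set G) with hN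
  have hker : Nat.card ((P : Subgroup G).normalizerMonoidHom.ker) = 13 := by
    rw [Subgroup.normalizerMonoidHom_ker, hcent]
    exact (Nat.card_congr (Subgroup.subgroupOfEquivOfLe Subgroup.le_normalizer).toEquiv).trans hP
  have haut : Nat.card (MulAut (P : Subgroup G)) = 12 := by
    rw [IsCyclic.card_mulAut, hP]
    decide
  have hrange : Nat.card ((P : Subgroup G).normalizerMonoidHom.range) ∣ 12 := by
    rw [← haut]
    exact Subgroup.card_subgroup_dvd_card _
  set d := Nat.card ((P : Subgroup G).normalizerMonoidHom.range) with hd
  have hNcard : Nat.card N = 13 * d := by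
    have := Subgroup.card_mul_index ((P : Subgroup G).normalizerMonoidHom.ker)
    rw [hker, Subgroup.index_ker] at this
    exact this.symm
  have hindex : N.index * (13 * d) = 1235520 := by
    have := Subgroup.index_mul_card N
    rw [hNcard, hG'] at this
    exact this
  have hcount : N.index % 13 = 1 := by
    have h1 := card_sylow_modEq_one 13 G
    rw [P.card_eq_index_normalizer] at h1
    exact h1
  have hd12 : d ≤ 12 := Nat.le_of_dvd (by norm_num) hrange
  have hdpos : 0 < d := Nat.pos_of_dvd_of_pos hrange (by norm_num)
  generalize N.index = I at hindex hcount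
  interval_cases d <;> first | omega | (exfalso; revert hrange; decide)

end Cfsg.Agent.S0710
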