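import Cfsg.Statements.S0743
import Cfsg.Agent.Lib.Perm.Witt

set_option autoImplicit false
open Cfsg

namespace Cfsg.Agent.S0743

/-- Gleason's Lemma: let `p` be a prime and `1 ≤ k < n`; if every `k`-subset of the `n` points is exactly the fixed-point set of some `p`-subgroup of `G`, then `G` is `k`-transitive. -/
theorem result {α : Type*} [Fintype α] [DecidableEq α] (G : Subgroup (Equiv.Perm α)) {p k : ℕ} (hp : p.Prime) (hk : 1 ≤ k) (hkn : k < Fintype.card α) (h : ∀ s : Finset α, s.card = k → ∃ P : Subgroup G, IsPGroup p P ∧ MulAction.fixedPoints P α = (s : Set α)) : MulAction.IsMultiplyPretransitive G α k := by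
  classical
  have := Fact.mk hp
  refine Cfsg.Agent.Lib.Perm.Basic.of_fixing_transitive (G := G) hk (by rwa [Nat.card_eq_fintype_card]) ?_
  intro s hs a b ha hb
  by_contra hcon
  push Not at hcon
  -- the stabiliser
  let H : Subgroup G := fixingSubgroup G (s : Set α)
  have hHmem : ∀ g : G, g ∈ H ↔ ∀ x ∈ s, g • x = x := by
    intro g
    simp only [H, mem_fixingSubgroup_iff, Finset.mem_coe]
  have hbo : ∀ x ∈ MulAction.orbit H b, x ∉ s := by
    rintro x ⟨h, rfl⟩ hx
    apply hb
    have h1 := (hHmem h).1 h.2 _ hx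
    have h2 : (h : G) • b = (h : G) • ((h : G) • b) := h1.symm
    exact (MulAction.injective (h : G) h2) ▸ hx
  have hab : a ∉ MulAction.orbit H b := by
    rintro ⟨h, rfl⟩
    have := hcon (h⁻¹ : H) (fun x hx => (hHmem _).1 (h⁻¹ : H).2 x hx)
    apply this
    change ((h⁻¹ : H) : G) • ((h : G) • b) = b
    simp
  obtain ⟨Pa, hPa, hFa⟩ := h (insert a s) (by rw [Finset.card_insert_of_notMem ha]; omega)
  obtain ⟨Pb, hPb, hFb⟩ := h (insert b s) (by rw [Finset.card_insert_of_notMem hb]; omega)
  have hle : ∀ (P : Subgroup G) (c : α), MulAction.fixedPoints P α = ((insert c s : Finset α) : Set α) → P ≤ H := by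
    intro P c hF q hq
    rw [hHmem]
    intro x hx
    have : x ∈ MulAction.fixedPoints P α := by
      rw [hF]; simp [hx]
    exact this ⟨q, hq⟩
  have h1 := Cfsg.Agent.Lib.Perm.Witt.card_orbit_modEq_fixed hPa (hle Pa a hFa) b
  have h2 := Cfsg.Agent.Lib.Perm.Witt.card_orbit_modEq_fixed hPb (hle Pb b hFb) b
  have hfix : ∀ (P : Subgroup G) (y : α), (∀ q ∈ P, q • y = y) ↔ y ∈ MulAction.fixedPoints P α := by
    intro P y
    simp only [MulAction.mem_fixedPoints, Subtype.forall, Subgroup.mk_smul]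
  have e1 : {y : α | y ∈ MulAction.orbit H b ∧ ∀ q ∈ Pa, q • y = y} = ∅ := by
    ext y
    simp only [Set.mem_ofPred_eq, Set.mem_empty_iff_false, iff_false, not_and]
    intro hy hq
    rw [hfix, hFa] at hq
    simp only [Finset.coe_insert, Set.mem_insert_iff, Finset.mem_coe] at hq
    rcases hq with rfl | hq
    · exact hab hy
    · exact hbo y hy hq
  have e2 : {y : α | y ∈ MulAction.orbit H b ∧ ∀ q ∈ Pb, q • y = y} = {b} := by
    ext y
    simp only [Set.mem_ofPred_eq, Set.mem_singleton_iff]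
    constructor
    · rintro ⟨hy, hq⟩
      rw [hfix, hFb] at hq
      simp only [Finset.coe_insert, Set.mem_insert_iff, Finset.mem_coe] at hq
      rcases hq with rfl | hq
      · rfl
      · exact (hbo y hy hq).elim
    · rintro rfl
      refine ⟨MulAction.mem_orbit_self _, ?_⟩
      rw [hfix, hFb]
      simp
  rw [e1] at h1
  rw [e2] at h2
  simp only [Set.ncard_empty, Set.ncard_singleton] at h1 h2
  have := h1.symm.trans h2
  have h3 : (p : ℕ) ∣ 1 := (Nat.modEq_zero_iff_dvd.1 this.symm)
  exact hp.one_lt.ne' (Nat.dvd_one.1 h3)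

end Cfsg.Agent.S0743
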