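import Cfsg.Statements.S0744
import Cfsg.Agent.S0743
import Mathlib

set_option autoImplicit false
open Cfsg

namespace Cfsg.Agent.S0744

/-- If for some `k > 1` the pointwise stabilisers of all `(k-1)`-subsets have the same order `> 1` and those of all `k`-subsets have the same order, then the group is `(k-1)`-transitive. -/
theorem result {α : Type*} [Fintype α] [DecidableEq α] (G : Subgroup (Equiv.Perm α)) {k : ℕ} (hk : 1 < k) (hkn : k ≤ Fintype.card α) (l m : ℕ) (hl : 1 < l) (hkm1 : ∀ s : Finset α, s.card = k - 1 → Nat.card (fixingSubgroup G (s : Set α)) = l) (hkm : ∀ s : Finset α, s.card = k → Nat.card (fixingSubgroup G (s : Set α)) = m) : MulAction.IsMultiplyPretransitive G α (k - 1) := by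
  classical
  -- pointwise stabilisers are nested
  have hle : ∀ (s : Finset α) (x : α), fixingSubgroup G (((insert x s : Finset α)) : Set α) ≤ fixingSubgroup G (s : Set α) := by
    intro s x
    apply fixingSubgroup_antitone
    simp
  have hexout : ∀ s : Finset α, s.card = k - 1 → ∃ x, x ∉ s := by
    intro s hs
    by_contra hcon
    push Not at hcon
    have : s = Finset.univ := Finset.eq_univ_iff_forall.mpr hcon
    rw [this, Finset.card_univ] at hs
    omega
  have hinscard : ∀ (s : Finset α) (x : α), s.card = k - 1 → x ∉ s → (insert x s).card = k := by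
    intro s x hs hx
    rw [Finset.card_insert_of_notMem hx, hs]
    omega
  obtain ⟨s₀, hs₀⟩ : ∃ s : Finset α, s.card = k - 1 :=
    Finset.exists_subset_card_eq (s := (Finset.univ : Finset α)) (n := k - 1)
      (by rw [Finset.card_univ]; omega) |>.imp fun _ h => h.2
  obtain ⟨x₀, hx₀⟩ := hexout s₀ hs₀
  have hmdvd : m ∣ l := by
    have h1 := Subgroup.card_dvd_of_le (hle s₀ x₀)
    rwa [hkm _ (hinscard s₀ x₀ hs₀ hx₀), hkm1 _ hs₀] at h1
  have hlpos : 0 < l := by omega
  have hmpos : 0 < m := Nat.pos_of_dvd_of_pos hmdvd hlpos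
  have hne : m ≠ l := by
    rintro rfl
    -- every stabiliser `G_s` is trivial
    have hfix : ∀ g ∈ fixingSubgroup G (s₀ : Set α), g = 1 := by
      intro g hg
      apply Subtype.ext
      apply Equiv.ext
      intro y
      by_cases hy : y ∈ s₀
      · have := (mem_fixingSubgroup_iff G).mp hg y hy
        exact this
      · have heq : fixingSubgroup G ((insert y s₀ : Finset α) : Set α) = fixingSubgroup G (s₀ : Set α) :=
          Subgroup.eq_of_le_of_card_ge (hle s₀ y) (by
            rw [hkm _ (hinscard s₀ y hs₀ hy), hkm1 _ hs₀])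
        rw [← heq] at hg
        have := (mem_fixingSubgroup_iff G).mp hg y (by simp)
        exact this
    have hone : Nat.card (fixingSubgroup G (s₀ : Set α)) = 1 := by
      rw [Nat.card_eq_one_iff_unique]
      refine ⟨⟨fun a b => Subtype.ext ?_⟩, ⟨1⟩⟩
      rw [hfix a.1 a.2, hfix b.1 b.2]
    rw [hkm1 _ hs₀] at hone
    omega
  obtain ⟨r, hr⟩ := hmdvd
  have hr1 : r ≠ 1 := by
    rintro rfl
    apply hne
    omega
  set p := r.minFac with hp
  have hpp : p.Prime := Nat.minFac_prime hr1
  have hpr : p ∣ r := Nat.minFac_dvd r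
  have := Fact.mk hpp
  apply Cfsg.Agent.S0743.result G hpp (by omega) (by omega)
  intro s hs
  set T := fixingSubgroup G (s : Set α) with hT
  have hTcard : Nat.card T = l := hkm1 s hs
  obtain ⟨P⟩ : Nonempty (Sylow p T) := inferInstance
  have hPcard : Nat.card P = p ^ l.factorization p := by
    rw [Sylow.card_eq_multiplicity P, hTcard]
  refine ⟨(P : Subgroup T).map T.subtype, ?_, ?_⟩
  · exact P.isPGroup'.map _
  · ext y
    rw [Finset.mem_coe, MulAction.mem_fixedPoints]
    constructor
    · intro hy
      by_contra hys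
      -- `P` is contained in the stabiliser of `s ∪ {y}`
      have hle' : (P : Subgroup T).map T.subtype ≤ fixingSubgroup G ((insert y s : Finset α) : Set α) := by
        rw [Subgroup.map_le_iff_le_comap]
        intro g hg
        rw [Subgroup.mem_comap, mem_fixingSubgroup_iff]
        intro z hz
        simp only [Finset.coe_insert, Set.mem_insert_iff, Finset.mem_coe] at hz
        rcases hz with rfl | hz
        · exact hy ⟨_, Subgroup.mem_map_of_mem _ hg⟩
        · exact (mem_fixingSubgroup_iff G).mp g.2 z hz
      have h1 := Subgroup.card_dvd_of_le hle'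
      rw [hkm _ (hinscard s y hs hys)] at h1
      have h2 : Nat.card ((P : Subgroup T).map T.subtype) = Nat.card P := by
        exact Nat.card_congr (Subgroup.equivMapOfInjective _ _ T.subtype_injective).symm.toEquiv
      rw [h2, hPcard] at h1
      have h3 : p ^ (l.factorization p + 1) ∣ l := by
        have h4 : p ^ l.factorization p * p ∣ m * r := mul_dvd_mul h1 hpr
        rwa [← hr, ← pow_succ] at h4
      exact Nat.pow_succ_factorization_not_dvd hlpos.ne' hpp h3
    · intro hy g
      obtain ⟨g, hg⟩ := g
      obtain ⟨t, -, rfl⟩ := hg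
      exact (mem_fixingSubgroup_iff G).mp t.2 y hy

end Cfsg.Agent.S0744
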