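import Cfsg.Statements.S0672
import Cfsg.Agent.Lib.PermMod.Heart

set_option autoImplicit false
open Cfsg

namespace Cfsg.Agent.S0672

open MulAction Cfsg.Agent.Lib.PermMod.Basic Cfsg.Agent.Lib.PermMod.Heart

variable {G : Type*} [Group G] {K : Type*} [Field K] {Ω : Type*} [Fintype Ω] [DecidableEq Ω]
  [MulAction G Ω]

/-- The pair `{a, b}` as a point of `Set.powersetCard Ω 2`. -/
def pair {a b : Ω} (hab : a ≠ b) : Set.powersetCard Ω 2 :=
  ⟨{a, b}, Finset.card_pair hab⟩

theorem mem_pair {a b x : Ω} (hab : a ≠ b) : x ∈ pair hab ↔ x = a ∨ x = b := by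
  change x ∈ ({a, b} : Finset Ω) ↔ _
  simp

theorem mem_smul_iff (g : G) (s : Set.powersetCard Ω 2) (x : Ω) : g • x ∈ g • s ↔ x ∈ s := by
  change g • x ∈ ((g • s : Set.powersetCard Ω 2) : Finset Ω) ↔ x ∈ (s : Finset Ω)
  rw [Set.powersetCard.coe_smul]
  exact Finset.smul_mem_smul_finset_iff g

/-- The boundary map. -/
noncomputable def bd (K : Type*) [Field K] (Ω : Type*) [Fintype Ω] [DecidableEq Ω] :
    (Ω → K) →ₗ[K] (Set.powersetCard Ω 2 → K) :=
  kernelMap K (fun x (s : Set.powersetCard Ω 2) => if x ∈ s.1 then 1 else 0)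

theorem bd_equivariant (g : G) (f : Ω → K) :
    bd K Ω (permRep K G Ω g f) = permRep K G (Set.powersetCard Ω 2) g (bd K Ω f) :=
  kernelMap_equivariant (G := G) (fun g x s => by
    have : g • x ∈ (g • s).1 ↔ x ∈ s.1 := mem_smul_iff g s x
    simp only [this]) g f

theorem bd_apply (f : Ω → K) (s : Set.powersetCard Ω 2) :
    bd K Ω f s = ∑ x, (if x ∈ s.1 then 1 else 0) * f x := rfl

theorem bd_const (s : Set.powersetCard Ω 2) : bd K Ω (fun _ => (1 : K)) s = 2 := by
  rw [bd_apply]
  simp only [mul_one]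
  rw [Finset.sum_boole]
  have : (Finset.univ.filter fun x => x ∈ s.1) = (s : Finset Ω) := by
    ext x
    simp only [Finset.mem_filter, Finset.mem_univ, true_and]
  rw [this, s.2]
  norm_num

theorem bd_single (x : Ω) (s : Set.powersetCard Ω 2) :
    bd K Ω (Pi.single x 1) s = if x ∈ s.1 then 1 else 0 := kernelMap_single _ x s

section

variable [Finite G] {p : ℕ} [hp : Fact p.Prime] [CharP K p]

/-- The key step: setwise stabilisers of pairs are transitive on the remaining points. -/
theorem claim1 [IsPretransitive G Ω] (h2 : IsMultiplyPretransitive G Ω 2)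
    (hp' : p ∣ Fintype.card Ω)
    (h : ∀ f : Representation.IntertwiningMap (permSumZero K G Ω).toRepresentation
        (permRep K G (Set.powersetCard Ω 2)),
        (∀ v : (permSumZero K G Ω).toSubmodule, (v : Ω → K) ∈ (permConstants K G Ω).toSubmodule →
          f v = 0) → f = 0)
    {a b c c' : Ω} (hab : a ≠ b) (hca : c ≠ a) (hcb : c ≠ b) (hca' : c' ≠ a) (hcb' : c' ≠ b) :
    ∃ g : G, g • c = c' ∧ ((g • a = a ∧ g • b = b) ∨ (g • a = b ∧ g • b = a)) := by
  classical
  have hS1 : (fun _ => (1 : K)) ∈ (permSumZero K G Ω).toSubmodule := by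
    change ∑ _x : Ω, (1 : K) = 0
    simp only [Finset.sum_const, Finset.card_univ, nsmul_eq_mul, mul_one]
    exact (CharP.cast_eq_zero_iff K p _).mpr hp'
  -- an equivariant map on the sum-zero functions killing constants vanishes
  have hvan : ∀ ψ : (Ω → K) →ₗ[K] (Set.powersetCard Ω 2 → K),
      (∀ (g : G) u, ψ (permRep K G Ω g u) = permRep K G (Set.powersetCard Ω 2) g (ψ u)) →
      ψ (fun _ => 1) = 0 → ∀ v ∈ (permSumZero K G Ω).toSubmodule, ψ v = 0 := by
    intro ψ hψ hψ1 v hv
    let F : Representation.IntertwiningMap (permSumZero K G Ω).toRepresentation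
        (permRep K G (Set.powersetCard Ω 2)) :=
      LinearMap.intertwiningMap_of_isIntertwiningMap _ _
        (ψ ∘ₗ (permSumZero K G Ω).toSubmodule.subtype) (fun g u => hψ g u)
    have hF : ∀ u : (permSumZero K G Ω).toSubmodule, F u = ψ u := fun _ => rfl
    have hF0 : F = 0 := by
      apply h
      intro w hw
      obtain ⟨d, hd⟩ := mem_constants_iff.mp hw
      rw [hF, hd]
      have : (fun _ => d : Ω → K) = d • (fun _ => (1 : K)) := by
        ext x; simp
      rw [this, map_smul, hψ1, smul_zero]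
    have := hF ⟨v, hv⟩
    rw [hF0] at this
    exact this.symm
  by_cases hp2 : (2 : K) = 0
  · -- characteristic two: the boundary map kills the constants
    exfalso
    have hbd := hvan (bd K Ω) (fun g u => bd_equivariant g u) (by
      ext s
      rw [bd_const, hp2]
      rfl)
    let w : Ω → K := Pi.single a 1 + Pi.single c 1
    have hw : w ∈ (permSumZero K G Ω).toSubmodule := by
      change ∑ x, w x = 0
      simp only [w, Pi.add_apply, Finset.sum_add_distrib, Finset.sum_pi_single', Finset.mem_univ,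
        if_true]
      rw [one_add_one_eq_two, hp2]
    have h1 := hbd w hw
    have h3 := congrFun h1 (pair hab)
    simp only [w, map_add, Pi.add_apply, bd_single, Pi.zero_apply] at h3
    have ha' : a ∈ (pair hab).1 := (mem_pair hab).mpr (Or.inl rfl)
    have hc' : c ∉ (pair hab).1 := fun hh => by
      rcases (mem_pair hab).mp hh with hh | hh
      · exact hca hh
      · exact hcb hh
    rw [if_pos ha', if_neg hc'] at h3
    simp at h3
  -- the orbit kernel
  let s₀ := pair hab
  let A : Ω → Set.powersetCard Ω 2 → K := fun x s => if (x, s) ∈ orbit G (c, s₀) then 1 else 0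
  have hA : ∀ (g : G) x s, A (g • x) (g • s) = A x s := by
    intro g x s
    have : ((g • x, g • s) ∈ orbit G (c, s₀)) ↔ ((x, s) ∈ orbit G (c, s₀)) := by
      constructor
      · rintro ⟨k, hk⟩
        refine ⟨g⁻¹ * k, ?_⟩
        have hk' : k • (c, s₀) = (g • x, g • s) := hk
        change (g⁻¹ * k) • (c, s₀) = (x, s)
        rw [mul_smul, hk']
        simp
      · rintro ⟨k, hk⟩
        refine ⟨g * k, ?_⟩
        have hk' : k • (c, s₀) = (x, s) := hk
        change (g * k) • (c, s₀) = (g • x, g • s)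
        rw [mul_smul, hk']
        rfl
    simp only [A, this]
  let φ := kernelMap K A
  have hφ : ∀ (g : G) u, φ (permRep K G Ω g u) = permRep K G (Set.powersetCard Ω 2) g (φ u) :=
    kernelMap_equivariant hA
  -- the value on the constants
  have htr2 : IsPretransitive G (Set.powersetCard Ω 2) :=
    Set.powersetCard.isPretransitive_of_isMultiplyPretransitive G h2
  have hufix : ∀ (s : Set.powersetCard Ω 2), φ (fun _ => 1) s = φ (fun _ => 1) s₀ := by
    apply fun s => eq_const_of_fixed (H := G) (fun g x => ?_) s s₀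
    have := hφ g (fun _ => 1)
    rw [permRep_const] at this
    exact (congrFun this x).symm
  set l : K := φ (fun _ => 1) s₀ with hl
  let ψ : (Ω → K) →ₗ[K] (Set.powersetCard Ω 2 → K) := φ - (l / 2) • bd K Ω
  have hψapp : ∀ u s, ψ u s = φ u s - (l / 2) * bd K Ω u s := fun _ _ => rfl
  have hψ : ∀ (g : G) u, ψ (permRep K G Ω g u) = permRep K G (Set.powersetCard Ω 2) g (ψ u) := by
    intro g u
    simp only [ψ, LinearMap.sub_apply, LinearMap.smul_apply, hφ, bd_equivariant, map_sub, map_smul]
  have hψ1 : ψ (fun _ => 1) = 0 := by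
    ext s
    rw [hψapp, hufix, bd_const]
    simp only [Pi.zero_apply]
    field_simp
    simp [hl]
  have hψS := hvan ψ hψ hψ1
  -- `ψ` only depends on the sum of the coordinates
  let δ : Ω → K := Pi.single a 1
  have hδsum : ∑ y, δ y = 1 := by simp [δ]
  have hform : ∀ u : Ω → K, ψ u = (∑ y, u y) • ψ δ := by
    intro u
    have hmem : u - (∑ y, u y) • δ ∈ (permSumZero K G Ω).toSubmodule := by
      rw [mem_sumZero_iff]
      simp only [Pi.sub_apply, Pi.smul_apply, smul_eq_mul, Finset.sum_sub_distrib,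
        ← Finset.mul_sum, hδsum, mul_one, sub_self]
    have := hψS _ hmem
    rw [map_sub, map_smul, sub_eq_zero] at this
    exact this
  have hvfix : ∀ s, ψ δ s = ψ δ s₀ := by
    apply fun s => eq_const_of_fixed (H := G) (fun g x => ?_) s s₀
    have h1 := hψ g δ
    rw [hform (permRep K G Ω g δ), sum_permRep, hδsum, one_smul] at h1
    exact (congrFun h1 x).symm
  -- entries of the kernel
  have hentry : ∀ x (s : Set.powersetCard Ω 2), A x s = ψ δ s₀ + (l / 2) * (if x ∈ s.1 then 1 else 0) := by
    intro x s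
    have h1 : φ (Pi.single x 1) s = A x s := kernelMap_single A x s
    have h3 := congrFun (hform (Pi.single x 1)) s
    rw [Pi.smul_apply, hvfix] at h3
    simp only [Finset.sum_pi_single', Finset.mem_univ, if_true, one_smul] at h3
    rw [hψapp, bd_single, h1] at h3
    rw [← h3]
    ring
  have hc₀ : c ∉ s₀.1 := fun hh => by
    rcases (mem_pair hab).mp hh with hh | hh
    · exact hca hh
    · exact hcb hh
  have hc₀' : c' ∉ s₀.1 := fun hh => by
    rcases (mem_pair hab).mp hh with hh | hh
    · exact hca' hh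
    · exact hcb' hh
  have hAc : A c s₀ = 1 := if_pos (mem_orbit_self _)
  have hAc' : A c' s₀ = 1 := by
    rw [hentry, if_neg hc₀']
    rw [hentry, if_neg hc₀] at hAc
    exact hAc
  have horb : (c', s₀) ∈ orbit G (c, s₀) := by
    by_contra hcon
    have : A c' s₀ = 0 := if_neg hcon
    rw [this] at hAc'
    exact zero_ne_one hAc'
  obtain ⟨g, hg⟩ := horb
  have hg' : g • (c, s₀) = (c', s₀) := hg
  have hgc : g • c = c' := congrArg Prod.fst hg'
  have hgs : g • s₀ = s₀ := congrArg Prod.snd hg'
  refine ⟨g, hgc, ?_⟩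
  have hga : g • a ∈ s₀ := by
    rw [← hgs]
    exact (mem_smul_iff g s₀ a).mpr ((mem_pair hab).mpr (Or.inl rfl))
  have hgb : g • b ∈ s₀ := by
    rw [← hgs]
    exact (mem_smul_iff g s₀ b).mpr ((mem_pair hab).mpr (Or.inr rfl))
  have hne : g • a ≠ g • b := fun hh => hab (MulAction.injective g hh)
  rcases (mem_pair hab).mp hga with h1 | h1 <;> rcases (mem_pair hab).mp hgb with h3 | h3
  · exact absurd (h1.trans h3.symm) hne
  · exact Or.inl ⟨h1, h3⟩
  · exact Or.inr ⟨h1, h3⟩
  · exact absurd (h1.trans h3.symm) hne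

end

/-- Let a finite group act faithfully and doubly transitively with point stabilisers of even order, and let `K` have characteristic `p` dividing the degree. If the heart of the permutation module admits no non-zero equivariant map to the permutation module on unordered pairs (phrased: every intertwining map from the sum-zero functions vanishing on the constants is zero), the action is triply transitive. -/
theorem result {G : Type*} [Group G] [Finite G] {K : Type*} [Field K] {p : ℕ} [Fact p.Prime] [CharP K p] {Ω : Type*} [Fintype Ω] [DecidableEq Ω] [MulAction G Ω] [FaithfulSMul G Ω] (h2 : MulAction.IsMultiplyPretransitive G Ω 2) (hp : p ∣ Fintype.card Ω) (heven : ∀ a : Ω, Even (Nat.card (MulAction.stabilizer G a))) (h : ∀ f : Representation.IntertwiningMap (Cfsg.permSumZero K G Ω).toRepresentation (Cfsg.permRep K G (Set.powersetCard Ω 2)), (∀ v : (Cfsg.permSumZero K G Ω).toSubmodule, (v : Ω → K) ∈ (Cfsg.permConstants K G Ω).toSubmodule → f v = 0) → f = 0) : MulAction.IsMultiplyPretransitive G Ω 3 :=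 by
  have htr : IsPretransitive G Ω := isPretransitive_of_is_two_pretransitive
  rw [isMultiplyPretransitive_iff]
  intro x y
  -- an involution fixing `x 0`
  set a₀ := x 0 with ha₀
  have hdvd : 2 ∣ Nat.card (stabilizer G a₀) := (heven a₀).two_dvd
  obtain ⟨t, ht⟩ := exists_prime_orderOf_dvd_card' 2 hdvd
  have ht' : orderOf (t : G) = 2 := by
    rw [← ht]
    exact Subgroup.orderOf_coe t
  have htsq : (t : G) * t = 1 := by
    rw [← pow_two, ← ht', pow_orderOf_eq_one]
  have htne : (t : G) ≠ 1 := by
    intro h0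
    rw [h0, orderOf_one] at ht'
    exact absurd ht' (by norm_num)
  obtain ⟨b, hb⟩ : ∃ b : Ω, (t : G) • b ≠ b := by
    by_contra hcon
    push Not at hcon
    apply htne
    apply FaithfulSMul.eq_of_smul_eq_smul (α := Ω)
    intro z
    rw [one_smul]
    exact hcon z
  have hta : (t : G) • a₀ = a₀ := t.2
  set c := (t : G) • b with hc
  have htc : (t : G) • c = b := by
    rw [hc, ← mul_smul, htsq, one_smul]
  have hba : b ≠ a₀ := by
    rintro rfl
    exact hb hta
  have hca : c ≠ a₀ := by
    intro hh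
    apply hba
    rw [← htc, hh, hta]
  have hbc : b ≠ c := fun hh => hb hh.symm
  -- every injective triple can be moved to `(a₀, b, c)`
  have hmove : ∀ z : Fin 3 ↪ Ω, ∃ g : G, g • z 0 = a₀ ∧ g • z 1 = b ∧ g • z 2 = c := by
    intro z
    have hz12 : z 1 ≠ z 2 := fun hh => absurd (z.injective hh) (by decide)
    have hz01 : z 0 ≠ z 1 := fun hh => absurd (z.injective hh) (by decide)
    have hz02 : z 0 ≠ z 2 := fun hh => absurd (z.injective hh) (by decide)
    obtain ⟨g₁, hg₁1, hg₁2⟩ := (is_two_pretransitive_iff.mp h2) hz12 hbc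
    have hd1 : g₁ • z 0 ≠ b := by
      rw [← hg₁1]
      exact fun hh => hz01 (MulAction.injective g₁ hh)
    have hd2 : g₁ • z 0 ≠ c := by
      rw [← hg₁2]
      exact fun hh => hz02 (MulAction.injective g₁ hh)
    obtain ⟨g₂, hg₂d, hg₂⟩ := claim1 (p := p) (K := K) h2 hp h hbc hd1 hd2 hba.symm hca.symm
    rcases hg₂ with ⟨h1, h3⟩ | ⟨h1, h3⟩
    · refine ⟨g₂ * g₁, ?_, ?_, ?_⟩
      · rw [mul_smul, hg₂d]
      · rw [mul_smul, hg₁1, h1]
      · rw [mul_smul, hg₁2, h3]
    · refine ⟨t * (g₂ * g₁), ?_, ?_, ?_⟩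
      · rw [mul_smul, mul_smul, hg₂d]
        exact hta
      · rw [mul_smul, mul_smul, hg₁1, h1]
        exact htc
      · rw [mul_smul, mul_smul, hg₁2, h3]
  obtain ⟨g, hg0, hg1, hg2⟩ := hmove x
  obtain ⟨k, hk0, hk1, hk2⟩ := hmove y
  refine ⟨k⁻¹ * g, ?_⟩
  ext i
  rw [Function.Embedding.smul_apply, mul_smul, inv_smul_eq_iff]
  fin_cases i
  · exact hg0.trans hk0.symm
  · exact hg1.trans hk1.symm
  · exact hg2.trans hk2.symm

end Cfsg.Agent.S0672
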