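import Cfsg.Statements.S0676
import Cfsg.Agent.S0672
import Cfsg.Agent.Lib.PermMod.SylowPD
import Mathlib.Tactic.FieldSimp

set_option autoImplicit false
open Cfsg

namespace Cfsg.Agent.S0676

open MulAction Cfsg.Agent.Lib.PermMod.Basic Cfsg.Agent.Lib.PermMod.Heart
  Cfsg.Agent.Lib.PermMod.PrimeDegree Cfsg.Agent.Lib.PermMod.SylowPD

open scoped Pointwise

variable {α : Type*} [Fintype α] [DecidableEq α] {p : ℕ} [hp : Fact p.Prime]

/-- An involution normalising the cycle acts as `j ↦ c - j`. -/
theorem involution_formula {σ t : Equiv.Perm α} {e : ZMod p ≃ α} (he : ∀ j, σ (e j) = e (j + 1))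
    {k : ℕ} (h : t * σ * t⁻¹ = σ ^ k) (ht : t * t = 1) (ht1 : t ≠ 1) (hp2 : p ≠ 2) :
    ∃ c : ZMod p, ∀ j, t (e j) = e (c - j) := by
  have hform := conj_formula he h
  set c := e.symm (t (e 0)) with hc
  have htt : ∀ x, t (t x) = x := by
    intro x
    have := congrArg (fun g : Equiv.Perm α => g x) ht
    simpa using this
  have htj : ∀ j, t (e j) = e (c + (k : ZMod p) * j) := by
    intro j
    rw [← hform, Equiv.apply_symm_apply]
  have hinv : ∀ j, c + (k : ZMod p) * (c + (k : ZMod p) * j) = j := by
    intro j
    have h1 := htt (e j)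
    rw [htj, htj] at h1
    exact e.injective h1
  have h0 := hinv 0
  have h1 := hinv 1
  have hksq : ((k : ZMod p) - 1) * ((k : ZMod p) + 1) = 0 := by
    linear_combination h1 - h0
  have h2ne : (2 : ZMod p) ≠ 0 := by
    intro h20
    have : ((2 : ℕ) : ZMod p) = 0 := by exact_mod_cast h20
    rw [ZMod.natCast_eq_zero_iff] at this
    exact hp2 ((Nat.prime_dvd_prime_iff_eq hp.out Nat.prime_two).mp this)
  rcases mul_eq_zero.mp hksq with hk | hk
  · exfalso
    have hk1 : (k : ZMod p) = 1 := sub_eq_zero.mp hk
    rw [hk1] at h0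
    have hc0 : c = 0 := by
      have : 2 * c = 0 := by linear_combination h0
      exact (mul_eq_zero.mp this).resolve_left h2ne
    apply ht1
    ext x
    obtain ⟨j, rfl⟩ := e.surjective x
    rw [htj, hc0, hk1]
    simp
  · have hk1 : (k : ZMod p) = -1 := eq_neg_of_add_eq_zero_left hk
    refine ⟨c, fun j => ?_⟩
    rw [htj, hk1]
    congr 1
    ring

/-- A non-solvable transitive permutation group of prime degree `p` whose Sylow `p`-normaliser has even order is triply transitive. -/
theorem result {α : Type*} [Fintype α] [DecidableEq α] {p : ℕ} [Fact p.Prime] (hα : Fintype.card α = p) (G : Subgroup (Equiv.Perm α)) [MulAction.IsPretransitive G α] (hG : ¬ Group.IsSolvable G) (P : Sylow p G) (heven : Even (Nat.card (Subgroup.normalizer ((P : Subgroup G) : Set G)))) : MulAction.IsMultiplyPretransitive G α 3 := by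
  have hpp : p.Prime := Fact.out
  have hp5 : 5 ≤ p := by
    by_contra hlt
    exact hG (isSolvable_of_small hα (by omega) G)
  have hp2 : p ≠ 2 := by omega
  have h2 : IsMultiplyPretransitive G α 2 :=
    (burnside (by rw [hα]; exact hpp) G).resolve_left hG
  have : IsPretransitive G α := inferInstance
  -- the involution
  obtain ⟨t₀, ht₀⟩ := exists_prime_orderOf_dvd_card' 2 heven.two_dvd
  let t : G := t₀
  have htord : orderOf t = 2 := (Subgroup.orderOf_coe t₀).trans ht₀
  have htsq : t * t = 1 := by
    rw [← pow_two, ← htord, pow_orderOf_eq_one]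
  have htne : t ≠ 1 := by
    intro h0
    rw [h0, orderOf_one] at htord
    exact absurd htord (by norm_num)
  obtain ⟨σ, hσP, hσord, hgen, e, he⟩ := exists_label_sylow hα G P
  have hτ : t * σ * t⁻¹ ∈ (P : Subgroup G) := (Subgroup.mem_normalizer_iff.mp t₀.2 σ).mp hσP
  have hσfin : IsOfFinOrder σ := by
    rw [← orderOf_pos_iff, hσord]
    exact hpp.pos
  obtain ⟨k, hk⟩ : ∃ k : ℕ, σ ^ k = t * σ * t⁻¹ := by
    have := hgen _ hτ
    rw [← mem_powers_iff_mem_zpowers] at this
    exact Submonoid.mem_powers_iff _ _ |>.mp this
  have hkP : (t : Equiv.Perm α) * (σ : Equiv.Perm α) * (t : Equiv.Perm α)⁻¹ = (σ : Equiv.Perm α) ^ k := by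
    have := congrArg (Subtype.val) hk
    simpa using this.symm
  have htsqP : (t : Equiv.Perm α) * (t : Equiv.Perm α) = 1 := by
    have := congrArg (Subtype.val) htsq
    simpa using this
  have htneP : (t : Equiv.Perm α) ≠ 1 := by
    intro h0
    exact htne (Subtype.ext h0)
  obtain ⟨c, hc⟩ := involution_formula he hkP htsqP htneP hp2
  have htinv : t⁻¹ = t := by
    rw [inv_eq_iff_mul_eq_one]
    exact htsq
  have hpcard : p ∣ Fintype.card α := by rw [hα]
  apply Cfsg.Agent.S0672.result (K := ZMod p) (p := p) h2 hpcard
  · -- stabilisers have even order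
    intro a
    have hindex : (stabilizer G a).index = p := by
      rw [index_stabilizer, MulAction.orbit_eq_univ, Set.ncard_univ, Nat.card_eq_fintype_card, hα]
    have h1 : Nat.card (stabilizer G a) * p = Nat.card G := by
      rw [← hindex]
      exact Subgroup.card_mul_index _
    have h3 : 2 ∣ Nat.card G :=
      heven.two_dvd.trans (Subgroup.card_subgroup_dvd_card _)
    rw [← h1] at h3
    rw [even_iff_two_dvd]
    rcases (Nat.Prime.dvd_mul Nat.prime_two).mp h3 with h4 | h4
    · exact h4
    · exact absurd ((Nat.prime_dvd_prime_iff_eq Nat.prime_two hpp).mp h4).symm hp2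
  · intro F hFc
    -- the linear function
    let f : α → ZMod p := e.symm
    have hfe : ∀ j, f (e j) = j := fun j => Equiv.symm_apply_apply e j
    have hfS : f ∈ (permSumZero (ZMod p) G α).toSubmodule := by
      change ∑ x, f x = 0
      rw [← Equiv.sum_comp e f]
      simp only [hfe]
      exact sum_id_eq_zero hp2
    let fS : (permSumZero (ZMod p) G α).toSubmodule := ⟨f, hfS⟩
    let ρ' := (permSumZero (ZMod p) G α).toRepresentation
    have hρ' : ∀ (g : G) (v : (permSumZero (ZMod p) G α).toSubmodule),
        ((ρ' g v : (permSumZero (ZMod p) G α).toSubmodule) : α → ZMod p) = permRep (ZMod p) G α g v :=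
      fun _ _ => rfl
    let u := F fS
    -- `σ` fixes `u`
    have hσu : permRep (ZMod p) G (Set.powersetCard α 2) σ u = u := by
      have h1 := Representation.IntertwiningMap.isIntertwining _ _ F σ fS
      refine Eq.trans h1.symm ?_
      have h3 : ρ' σ fS - fS ∈ (LinearMap.ker F.toLinearMap) := by
        rw [LinearMap.mem_ker, F.toLinearMap_apply]
        apply hFc
        rw [mem_constants_iff]
        refine ⟨-1, ?_⟩
        funext x
        obtain ⟨j, rfl⟩ := e.surjective x
        change permRep (ZMod p) G α σ f (e j) - f (e j) = -1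
        rw [permRep_apply, hfe]
        have h4 : σ⁻¹ • e j = e (j - 1) := by
          rw [inv_smul_eq_iff]
          change e j = (σ : Equiv.Perm α) (e (j - 1))
          rw [he, sub_add_cancel]
        rw [h4, hfe]
        ring
      rw [LinearMap.mem_ker, map_sub, sub_eq_zero] at h3
      exact h3
    -- `t` negates `u`
    have htu : permRep (ZMod p) G (Set.powersetCard α 2) t u = -u := by
      have h1 := Representation.IntertwiningMap.isIntertwining _ _ F t fS
      refine Eq.trans h1.symm ?_
      have h3 : ρ' t fS + fS ∈ (LinearMap.ker F.toLinearMap) := by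
        rw [LinearMap.mem_ker, F.toLinearMap_apply]
        apply hFc
        rw [mem_constants_iff]
        refine ⟨c, ?_⟩
        funext x
        obtain ⟨j, rfl⟩ := e.surjective x
        change permRep (ZMod p) G α t f (e j) + f (e j) = c
        rw [permRep_apply, hfe, htinv]
        change f ((t : Equiv.Perm α) (e j)) + j = c
        rw [hc, hfe]
        ring
      rw [LinearMap.mem_ker, map_add] at h3
      exact eq_neg_of_add_eq_zero_left h3
    -- `t` fixes `u`
    have hσs : ∀ s : Set.powersetCard α 2, u (σ • s) = u s := by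
      intro s
      have := congrFun hσu (σ • s)
      rw [permRep_apply, inv_smul_smul] at this
      exact this.symm
    have hσpow : ∀ (n : ℕ) (s : Set.powersetCard α 2), u (σ ^ n • s) = u s := by
      intro n
      induction n with
      | zero => simp
      | succ n ih =>
        intro s
        rw [pow_succ', mul_smul, hσs, ih]
    have htfix : ∀ s : Set.powersetCard α 2, u (t • s) = u s := by
      intro s
      obtain ⟨x, y, hxy, hs⟩ := Finset.card_eq_two.mp s.2
      obtain ⟨i, rfl⟩ := e.surjective x
      obtain ⟨j, rfl⟩ := e.surjective y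
      have h1 : σ ^ (i + j - c).val • (t • s) = s := by
        apply Subtype.ext
        have hsm : ∀ (g : G) (u' : Set.powersetCard α 2), ((g • u' : Set.powersetCard α 2) : Finset α) = g • (u' : Finset α) := fun _ _ => rfl
        rw [hsm, hsm]
        change σ ^ (i + j - c).val • t • s.1 = s.1
        rw [hs]
        rw [Finset.smul_finset_insert, Finset.smul_finset_insert, Finset.smul_finset_singleton,
          Finset.smul_finset_singleton]
        have h3 : ∀ a : ZMod p, σ ^ (i + j - c).val • t • e a = e (i + j - a) := by
          intro a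
          change ((σ ^ (i + j - c).val : G) : Equiv.Perm α) ((t : Equiv.Perm α) (e a)) = _
          rw [hc]
          simp only [SubgroupClass.coe_pow]
          rw [pow_label he, ZMod.natCast_zmod_val]
          congr 1
          ring
        rw [h3, h3, Finset.pair_comm]
        congr 2
        · congr 1; ring
        · congr 2; ring
      rw [← hσpow (i + j - c).val (t • s), h1]
    have hu0 : u = 0 := by
      funext s
      have h1 := congrFun htu (t • s)
      rw [permRep_apply, inv_smul_smul, Pi.neg_apply, htfix] at h1
      have h2ne : (2 : ZMod p) ≠ 0 := by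
        intro h20
        have : ((2 : ℕ) : ZMod p) = 0 := by exact_mod_cast h20
        rw [ZMod.natCast_eq_zero_iff] at this
        exact hp2 ((Nat.prime_dvd_prime_iff_eq hpp Nat.prime_two).mp this)
      have h3 : 2 * u s = 0 := by linear_combination h1
      exact (mul_eq_zero.mp h3).resolve_left h2ne
    -- conclusion by irreducibility
    let Z : Submodule (ZMod p) (α → ZMod p) :=
      (LinearMap.ker F.toLinearMap).map (permSumZero (ZMod p) G α).toSubmodule.subtype
    have hZinv : ∀ g : G, ∀ v ∈ Z, permRep (ZMod p) G α g v ∈ Z := by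
      rintro g _ ⟨w, hw, rfl⟩
      refine ⟨ρ' g w, ?_, rfl⟩
      rw [SetLike.mem_coe, LinearMap.mem_ker, F.toLinearMap_apply] at hw ⊢
      rw [Representation.IntertwiningMap.isIntertwining, hw, map_zero]
    have hCS : (permConstants (ZMod p) G α).toSubmodule ≤ (permSumZero (ZMod p) G α).toSubmodule := by
      intro v hv
      obtain ⟨d, rfl⟩ := mem_constants_iff.mp hv
      change ∑ _x : α, d = 0
      simp only [Finset.sum_const, Finset.card_univ, nsmul_eq_mul, hα]
      simp
    have hCZ : (permConstants (ZMod p) G α).toSubmodule ≤ Z := by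
      intro v hv
      refine ⟨⟨v, hCS hv⟩, ?_, rfl⟩
      rw [SetLike.mem_coe, LinearMap.mem_ker, F.toLinearMap_apply]
      exact hFc _ hv
    have hZS : Z ≤ (permSumZero (ZMod p) G α).toSubmodule := by
      rintro _ ⟨w, -, rfl⟩
      exact w.2
    have hfZ : f ∈ Z := by
      refine ⟨fS, ?_, rfl⟩
      rw [SetLike.mem_coe, LinearMap.mem_ker, F.toLinearMap_apply]
      exact hu0
    rcases heart_irreducible hα G hG Z hZinv hCZ hZS with hZC | hZeq
    · exfalso
      rw [hZC] at hfZ
      obtain ⟨d, hd⟩ := mem_constants_iff.mp hfZ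
      have h0 := congrFun hd (e 0)
      have h1 := congrFun hd (e 1)
      rw [hfe] at h0 h1
      have : (0 : ZMod p) = 1 := h0.trans h1.symm
      exact zero_ne_one this
    · apply Representation.IntertwiningMap.ext
      refine LinearMap.ext fun v => ?_
      have hv : (v : α → ZMod p) ∈ Z := by
        rw [hZeq]
        exact v.2
      obtain ⟨w, hw, hwv⟩ := hv
      have hwv' : w = v := Subtype.ext hwv
      rw [← hwv']
      exact hw

end Cfsg.Agent.S0676
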