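import Cfsg.Statements.S0677
import Cfsg.Agent.S0676
import Cfsg.Agent.Lib.PermMod.DiffSet
import Cfsg.Agent.Lib.PermMod.PrimeNormal

set_option autoImplicit false
open Cfsg

namespace Cfsg.Agent.S0677

open MulAction Subgroup
open Cfsg.Agent.Lib.PermMod.SylowPD Cfsg.Agent.Lib.PermMod.PrimeNormal
  Cfsg.Agent.Lib.PermMod.DiffSet Cfsg.Agent.Lib.PermMod.PrimeDegree

variable {α : Type*} [Fintype α] [DecidableEq α] {p : ℕ} [hp : Fact p.Prime]

/-- The labelling together with an involution acting as `j ↦ c - j`. -/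
theorem exists_involution_label (hα : Fintype.card α = p) (G : Subgroup (Equiv.Perm α))
    [IsPretransitive G α] (hp2 : p ≠ 2) (P : Sylow p G)
    (heven : Even (Nat.card (Subgroup.normalizer ((P : Subgroup G) : Set G)))) :
    ∃ (σ t : G) (e : ZMod p ≃ α) (c : ZMod p), orderOf σ = p ∧
      (∀ j, (σ : Equiv.Perm α) (e j) = e (j + 1)) ∧ ∀ j, (t : Equiv.Perm α) (e j) = e (c - j) := by
  have hpp : p.Prime := Fact.out
  obtain ⟨t₀, ht₀⟩ := exists_prime_orderOf_dvd_card' 2 heven.two_dvd
  let t : G := t₀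
  have htord : orderOf t = 2 := (Subgroup.orderOf_coe t₀).trans ht₀
  have htsq : t * t = 1 := by
    rw [← pow_two, ← htord, pow_orderOf_eq_one]
  have htne : t ≠ 1 := by
    intro h0
    rw [h0, orderOf_one] at htord
    exact absurd htord (by norm_num)
  obtain ⟨σ, hσP, hσord, hgen, e, he⟩ := exists_label_sylow hα G P
  have hτ : t * σ * t⁻¹ ∈ (P : Subgroup G) := (Subgroup.mem_normalizer_iff.mp t₀.2 σ).mp hσP
  have hσfin : IsOfFinOrder σ := by
    rw [← orderOf_pos_iff, hσord]
    exact hpp.pos
  obtain ⟨k, hk⟩ : ∃ k : ℕ, σ ^ k = t * σ * t⁻¹ := by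
    have := hgen _ hτ
    rw [← mem_powers_iff_mem_zpowers] at this
    exact Submonoid.mem_powers_iff _ _ |>.mp this
  have hkP : (t : Equiv.Perm α) * (σ : Equiv.Perm α) * (t : Equiv.Perm α)⁻¹ = (σ : Equiv.Perm α) ^ k := by
    have := congrArg (Subtype.val) hk
    simpa using this.symm
  have htsqP : (t : Equiv.Perm α) * (t : Equiv.Perm α) = 1 := by
    have := congrArg (Subtype.val) htsq
    simpa using this
  have htneP : (t : Equiv.Perm α) ≠ 1 := by
    intro h0
    exact htne (Subtype.ext h0)
  obtain ⟨c, hc⟩ := Cfsg.Agent.S0676.involution_formula he hkP htsqP htneP hp2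
  exact ⟨σ, t, e, c, hσord, he, hc⟩

theorem exists_fixed_of_not_solvable (hα : Fintype.card α = p) (G : Subgroup (Equiv.Perm α))
    [IsPretransitive G α] (hG : ¬ Group.IsSolvable G) (P : Sylow p G)
    (heven : Even (Nat.card (Subgroup.normalizer ((P : Subgroup G) : Set G))))
    (H : Subgroup G) (hH : H.index = p) : ∃ a : α, ∀ h ∈ H, h • a = a := by
  classical
  have hpp : p.Prime := Fact.out
  have hp5 : 5 ≤ p := by
    by_contra hlt
    exact hG (isSolvable_of_small hα (by omega) G)
  have hp2 : p ≠ 2 := by omega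
  have h2 : IsMultiplyPretransitive G α 2 :=
    (burnside (by rw [hα]; exact hpp) G).resolve_left hG
  obtain ⟨σ, t, e, c, hσord, he, hc⟩ := exists_involution_label hα G hp2 P heven
  have hnd := not_dvd_card_of_index hα G H hH
  have hcomp : (zpowers σ).IsComplement' H := by
    apply isComplement'_of_coprime
    · rw [Nat.card_zpowers, hσord, ← hH, mul_comm]
      exact Subgroup.card_mul_index H
    · rw [Nat.card_zpowers, hσord, Nat.Prime.coprime_iff_not_dvd hpp]
      exact hnd
  have hσfin : IsOfFinOrder σ := by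
    rw [← orderOf_pos_iff, hσord]
    exact hpp.pos
  have hdec : ∀ g : G, ∃ (m : ℕ) (h : G), h ∈ H ∧ g = σ ^ m * h := by
    intro g
    obtain ⟨⟨s, h⟩, hsh⟩ := hcomp.2 g
    have hs : (s : G) ∈ zpowers σ := s.2
    rw [← mem_powers_iff_mem_zpowers] at hs
    obtain ⟨m, hm⟩ := Submonoid.mem_powers_iff _ _ |>.mp hs
    refine ⟨m, h, h.2, ?_⟩
    rw [hm]
    exact hsh.symm
  -- the action on labels
  let A : G → ZMod p → ZMod p := fun g x => e.symm ((g : Equiv.Perm α) (e x))
  have hA1 : ∀ g g' x, A (g * g') x = A g (A g' x) := by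
    intro g g' x
    simp [A]
  have hAσ : ∀ (m : ℕ) (x : ZMod p), A (σ ^ m) x = x + m := by
    intro m x
    simp only [A, SubgroupClass.coe_pow]
    rw [pow_label he, Equiv.symm_apply_apply]
  have hAt : ∀ x, A t x = c - x := by
    intro x
    simp only [A]
    rw [hc, Equiv.symm_apply_apply]
  have hAe : ∀ g x, e (A g x) = (g : Equiv.Perm α) (e x) := by
    intro g x
    simp [A]
  -- the orbit
  let a₀ := e 0
  let M : ZMod p → Prop := fun x => e x ∈ orbit H a₀
  have hM0 : M 0 := mem_orbit_self _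
  have hMH : ∀ h ∈ H, ∀ x, M (A h x) ↔ M x := by
    intro h hh x
    change e (A h x) ∈ orbit H a₀ ↔ e x ∈ orbit H a₀
    rw [hAe]
    change (⟨h, hh⟩ : H) • e x ∈ orbit H a₀ ↔ _
    rw [← orbit_eq_iff, ← orbit_eq_iff, orbit_smul]
  have hnotall : ∃ y, ¬ M y := by
    by_contra hall
    push_neg at hall
    haveI : IsPretransitive H α := by
      constructor
      intro x y
      obtain ⟨i, rfl⟩ := e.surjective x
      obtain ⟨j, rfl⟩ := e.surjective y
      obtain ⟨h₁, hh₁⟩ := hall i
      obtain ⟨h₂, hh₂⟩ := hall j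
      refine ⟨h₂ * h₁⁻¹, ?_⟩
      rw [mul_smul]
      change h₂ • (h₁⁻¹ • e i) = e j
      rw [inv_smul_eq_iff.mpr hh₁.symm]
      exact hh₂
    exact hnd (dvd_card_of_transitive hα)
  have hC : ∀ (g : G) (j : ZMod p), ∃ i, ∀ x, M (A g x - i) ↔ M (x - j) := by
    intro g j
    obtain ⟨m, h, hh, hgm⟩ := hdec (g * σ ^ j.val)
    refine ⟨m, fun x => ?_⟩
    have h1 : A g x = A h (x - j) + m := by
      have h2 : A (g * σ ^ j.val) (x - j) = A g x := by
        rw [hA1, hAσ, ZMod.natCast_zmod_val, sub_add_cancel]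
      rw [← h2, hgm, hA1, hAσ]
    rw [h1, add_sub_cancel_right]
    exact hMH h hh _
  have hnotrans : ∀ u : ZMod p, u ≠ 0 → ¬ ∀ y, M (y + u) ↔ M y := by
    intro u hu hinv
    obtain ⟨y, hy⟩ := hnotall
    apply hy
    have h1 : ∀ n : ℕ, M ((n : ZMod p) * u) := by
      intro n
      induction n with
      | zero => simpa using hM0
      | succ n ih =>
        have h2 : ((n + 1 : ℕ) : ZMod p) * u = (n : ZMod p) * u + u := by push_cast; ring
        rw [h2]
        exact (hinv _).mpr ih
    have h3 := h1 (y / u).val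
    rw [ZMod.natCast_zmod_val, div_mul_cancel₀ _ hu] at h3
    exact h3
  choose π hπ using hC
  have hπinj : ∀ g, Function.Injective (π g) := by
    intro g j j' hjj'
    by_contra hne
    apply hnotrans (j - j') (sub_ne_zero.mpr hne)
    intro y
    have h1 := hπ g j (y + j)
    have h2 := hπ g j' (y + j)
    rw [hjj'] at h1
    rw [add_sub_cancel_right] at h1
    have h3 : y + j - j' = y + (j - j') := by ring
    rw [h3] at h2
    exact h2.symm.trans h1
  -- the intersection numbers
  let L : ZMod p → ZMod p → ℕ := fun x₁ x₂ =>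
    (Finset.univ.filter fun j => M (x₁ - j) ∧ M (x₂ - j)).card
  have hLinv : ∀ g x₁ x₂, L (A g x₁) (A g x₂) = L x₁ x₂ := by
    intro g x₁ x₂
    symm
    apply Finset.card_bij (fun j _ => π g j)
    · intro j hj
      simp only [Finset.mem_filter, Finset.mem_univ, true_and] at hj ⊢
      exact ⟨(hπ g j x₁).mpr hj.1, (hπ g j x₂).mpr hj.2⟩
    · intro j _ j' _ h
      exact hπinj g h
    · intro i hi
      obtain ⟨j, rfl⟩ := (Finite.injective_iff_surjective.mp (hπinj g)) i
      refine ⟨j, ?_, rfl⟩
      simp only [Finset.mem_filter, Finset.mem_univ, true_and] at hi ⊢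
      exact ⟨(hπ g j x₁).mp hi.1, (hπ g j x₂).mp hi.2⟩
  have h2t : ∀ x₁ x₂ y₁ y₂ : ZMod p, x₁ ≠ x₂ → y₁ ≠ y₂ → ∃ g : G, A g x₁ = y₁ ∧ A g x₂ = y₂ := by
    intro x₁ x₂ y₁ y₂ hx hy
    obtain ⟨g, h1, h2'⟩ := (is_two_pretransitive_iff.mp h2) (e.injective.ne hx) (e.injective.ne hy)
    refine ⟨g, ?_, ?_⟩
    · apply e.injective
      rw [hAe]
      exact h1
    · apply e.injective
      rw [hAe]
      exact h2'
  let lam := L 1 0
  have hL : ∀ x₁ x₂, x₁ ≠ x₂ → L x₁ x₂ = lam := by
    intro x₁ x₂ hne
    obtain ⟨g, h1, h2'⟩ := h2t x₁ x₂ 1 0 hne one_ne_zero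
    rw [← hLinv g, h1, h2']
  -- symmetry
  let b := c - π t 0
  have hsym0 : ∀ x, M (b - x) ↔ M x := by
    intro x
    have := hπ t 0 x
    rw [hAt, sub_zero] at this
    have e1 : c - x - π t 0 = b - x := by
      simp only [b]
      ring
    rwa [e1] at this
  have h2ne : (2 : ZMod p) ≠ 0 := by
    intro h
    have h3 : ((2 : ℕ) : ZMod p) = 0 := by exact_mod_cast h
    rw [ZMod.natCast_eq_zero_iff] at h3
    exact hp2 ((Nat.prime_dvd_prime_iff_eq hpp Nat.prime_two).mp h3)
  let w : ZMod p := b * (2 : ZMod p)⁻¹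
  have hw : w + w = b := by
    simp only [w]
    field_simp
    ring
  let D₁ : Finset (ZMod p) := Finset.univ.filter fun x => M (x + w)
  have hmemD : ∀ x, x ∈ D₁ ↔ M (x + w) := by
    intro x
    simp [D₁]
  have hD₁sym : ∀ x, x ∈ D₁ → -x ∈ D₁ := by
    intro x hx
    rw [hmemD] at hx ⊢
    have := (hsym0 (x + w)).mpr hx
    have e1 : b - (x + w) = -x + w := by
      rw [← hw]
      ring
    rwa [e1] at this
  have hD₁ne : D₁.Nonempty := ⟨-w, by
    rw [hmemD, neg_add_cancel]
    exact hM0⟩
  have hD₁lt : D₁.card < p := by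
    obtain ⟨y, hy⟩ := hnotall
    have h1 : y - w ∉ D₁ := by
      rw [hmemD, sub_add_cancel]
      exact hy
    have h2' : D₁.card < (Finset.univ : Finset (ZMod p)).card :=
      Finset.card_lt_card ⟨Finset.subset_univ _, fun h => h1 (h (Finset.mem_univ _))⟩
    rwa [Finset.card_univ, ZMod.card] at h2'
  have hD₁count : ∀ u : ZMod p, u ≠ 0 → (D₁.filter (fun d => d - u ∈ D₁)).card = lam := by
    intro u hu
    rw [← hL u 0 hu]
    apply Finset.card_nbij' (fun d => u - d - w) (fun j => u - j - w)
    · intro d hd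
      have hd' := Finset.mem_coe.mp hd
      rw [Finset.mem_filter, hmemD, hmemD] at hd'
      rw [Finset.mem_coe, Finset.mem_filter]
      refine ⟨Finset.mem_univ _, ?_, ?_⟩
      · have : u - (u - d - w) = d + w := by ring
        rw [this]
        exact hd'.1
      · have : 0 - (u - d - w) = d - u + w := by ring
        rw [this]
        exact hd'.2
    · intro j hj
      have hj' := Finset.mem_coe.mp hj
      rw [Finset.mem_filter] at hj'
      rw [Finset.mem_coe, Finset.mem_filter, hmemD, hmemD]
      constructor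
      · have : u - j - w + w = u - j := by ring
        rw [this]
        exact hj'.2.1
      · have : u - j - w - u + w = 0 - j := by ring
        rw [this]
        exact hj'.2.2
    · intro d _
      ring
    · intro j _
      ring
  have htriv := diffset_trivial hp2 D₁ hD₁sym hD₁ne hD₁lt lam hD₁count
  refine ⟨e w, fun h hh => ?_⟩
  have hfix : A h w = w := by
    by_cases h1 : (1 : ZMod p) ∈ D₁
    · have hall : ∀ y, y ≠ w → M y := by
        intro y hy
        have h3 := (htriv 1 (y - w) one_ne_zero (sub_ne_zero.mpr hy)).mp h1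
        rw [hmemD, sub_add_cancel] at h3
        exact h3
      have hw' : ¬ M w := by
        intro hMw
        obtain ⟨y, hy⟩ := hnotall
        by_cases hyw : y = w
        · exact hy (hyw ▸ hMw)
        · exact hy (hall y hyw)
      by_contra hne
      exact hw' ((hMH h hh w).mp (hall _ hne))
    · have hnone : ∀ y, M y → y = w := by
        intro y hy
        by_contra hne
        apply h1
        apply (htriv (y - w) 1 (sub_ne_zero.mpr hne) one_ne_zero).mp
        rw [hmemD, sub_add_cancel]
        exact hy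
      have hMw : M w := by
        have := hnone 0 hM0
        rw [← this]
        exact hM0
      exact hnone _ ((hMH h hh w).mpr hMw)
  have h3 := hAe h w
  rw [hfix] at h3
  exact h3.symm

/-- In a transitive permutation group of prime degree `p` whose Sylow `p`-normaliser has even order, the point stabilisers are the only subgroups of index `p`. -/
theorem result {α : Type*} [Fintype α] [DecidableEq α] {p : ℕ} [Fact p.Prime] (hα : Fintype.card α = p) (G : Subgroup (Equiv.Perm α)) [MulAction.IsPretransitive G α] (P : Sylow p G) (heven : Even (Nat.card (Subgroup.normalizer ((P : Subgroup G) : Set G)))) (H : Subgroup G) (hH : H.index = p) : ∃ a : α, H = MulAction.stabilizer G a := by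
  by_cases hG : Group.IsSolvable G
  · exact eq_stabilizer_of_solvable hα G hG H hH
  · obtain ⟨a, ha⟩ := exists_fixed_of_not_solvable hα G hG P heven H hH
    exact ⟨a, eq_stabilizer_of_le hα G hH (fun h hh => ha h hh)⟩

end Cfsg.Agent.S0677
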