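import Cfsg.Statements.S4442
import Cfsg.Agent.Lib.ModRep.BlockTh
import Cfsg.Agent.Lib.D1.Count

set_option autoImplicit false
open Cfsg
set_option linter.style.haveILetI false

namespace Cfsg.Agent.S4442

/-- Blocks of defect one. Let p be an odd prime and G a finite group whose Sylow p-subgroup P has order p; let C = C_G(P) and N = N_G(P), and fix a maximal ideal M of the algebraic integers containing p. Let B be a block of G with defect group P, b a block of C inducing B, and θ the member of b having P in its kernel (there is exactly one). Let T be the stabilizer of θ in N (the elements g ∈ N with θ(g c g⁻¹) = θ(c) for all c ∈ C) and e the index of C in T. Then e divides p − 1 and B contains exactly e + (p − 1)/e irreducible characters. Moreover B is the disjoint union of a set X of e characters and a set Y of (p − 1)/e characters such that, with f the index of C in N: every χ ∈ X has χ(1) ≡ ±(f/e)·θ(1) (mod p), there is one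 sign ε with ψ(1) ≡ ε f θ(1) (mod p) for all ψ ∈ Y, and all members of Y agree on the p-regular elements of G. -/
theorem result {G : Type*} [Group G] [Finite G] (p : ℕ) [Fact p.Prime] (M : Ideal Cfsg.AlgInt) (hM : Cfsg.IsPModular p M) (hodd : p ≠ 2) (P : Sylow p G) (hP : Nat.card P = p) (B : Set (Cfsg.IrrCharacter G)) (hB : Cfsg.IsPBlock M B) (hBP : Cfsg.IsDefectGroup p M B P) (b : Set (Cfsg.IrrCharacter (Subgroup.centralizer ((P : Subgroup G) : Set G)))) (hind : Cfsg.IsInducedBlock M (Subgroup.centralizer ((P : Subgroup G) : Set G)) b B) (θ : Cfsg.IrrCharacter (Subgroup.centralizer ((P : Subgroup G) : Set G))) (hθ : θ ∈ b) (hθP : ∀ x : Subgroup.centralizer ((P : Subgroup G) : Set G), (x : G) ∈ (P : Subgroup G) → (θ : Subgroup.centralizer ((P : Subgroup G) : Set G) → ℂ) x = (θ : Subgroup.centralizer ((P : Subgroup G) : Set G) → ℂ) 1) (T : Subgroup G) (hT : ∀ g : G, g ∈ T ↔ (g ∈ Subgroup.normalizer ((P : Subgroup G) : Set G) ∧ ∀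 c c' : Subgroup.centralizer ((P : Subgroup G) : Set G), (c' : G) = g * c * g⁻¹ → (θ : Subgroup.centralizer ((P : Subgroup G) : Set G) → ℂ) c' = (θ : Subgroup.centralizer ((P : Subgroup G) : Set G) → ℂ) c)) (e f : ℕ) (he : (Subgroup.centralizer ((P : Subgroup G) : Set G)).relIndex T = e) (hf : (Subgroup.centralizer ((P : Subgroup G) : Set G)).relIndex (Subgroup.normalizer ((P : Subgroup G) : Set G)) = f) : e ∣ p - 1 ∧ Nat.card B = e + (p - 1) / e ∧ ∃ X Y : Set (Cfsg.IrrCharacter G), B = X ∪ Y ∧ Disjoint X Y ∧ Nat.card X = e ∧ Nat.card Y = (p - 1) / e ∧ (∀ χ ∈ X, (Cfsg.charDegree (χ : G → ℂ) : ℤ) ≡ ((f / e * Cfsg.charDegree (θ : Subgroup.centralizer ((P : Subgroup G) : Set G) → ℂ) : ℕ) : ℤ) [ZMOD p] ∨ (Cfsg.charDegree (χ : G → ℂ) : ℤ) ≡ -((f / e * Cfsg.charDegree (θ : Subgroup.centralizer ((P : Subgroup G) : Set G) → ℂ) : ℕ) : ℤ) [ZMOD p]) ∧ (∃ ε : ℤ, (ε = 1 ∨ ε = -1) ∧ ∀ ψ ∈ Y, (Cfsg.charDegree (ψ : G → ℂ) : ℤ) ≡ ε * ((f * Cfsg.charDegree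 (θ : Subgroup.centralizer ((P : Subgroup G) : Set G) → ℂ) : ℕ) : ℤ) [ZMOD p]) ∧ ∀ ψ ∈ Y, ∀ ψ' ∈ Y, ∀ g : G, ¬ p ∣ orderOf g → (ψ : G → ℂ) g = (ψ' : G → ℂ) g := by
  classical
  letI := Fintype.ofFinite G
  have hQcard : Nat.card (P : Subgroup G) = p := hP
  have hpp : p.Prime := Fact.out
  have hp2 : ¬ p ^ 2 ∣ Nat.card G := by
    intro h
    have h1 : Nat.card P = p ^ (Nat.card G).factorization p := P.card_eq_multiplicity
    have h2 : 2 ≤ (Nat.card G).factorization p :=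
      (hpp.pow_dvd_iff_le_factorization Nat.card_pos.ne').mp h
    rw [hP] at h1
    have h3 : p ^ 1 = p ^ (Nat.card G).factorization p := by rw [pow_one]; exact h1
    have h4 := Nat.pow_right_injective hpp.two_le h3
    omega
  haveI := Cfsg.Agent.Lib.Blocks.Local.isPrime_of_pModular hM
  haveI := Cfsg.Agent.Lib.Char.Ortho.finite_irrCharacter (G := G)
  letI := Fintype.ofFinite (IrrCharacter G)
  letI : Fintype (P : Subgroup G) := Fintype.ofFinite _
  letI : Fintype (Cfsg.Agent.Lib.ExcP.Gram.Cn (P : Subgroup G)) := Fintype.ofFinite _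
  letI : Fintype (Cfsg.Agent.Lib.ExcP.Gram.Nn (P : Subgroup G)) := Fintype.ofFinite _
  haveI := Cfsg.Agent.Lib.Char.Ortho.finite_irrCharacter (G := Cfsg.Agent.Lib.ExcP.Gram.Cn (P : Subgroup G))
  letI := Fintype.ofFinite (IrrCharacter (Cfsg.Agent.Lib.ExcP.Gram.Cn (P : Subgroup G)))
  haveI := Cfsg.Agent.Lib.ExcP.Inst.finite_DD (p := p) (P := (P : Subgroup G)) hQcard hp2
  letI : Fintype (Cfsg.Agent.Lib.ExcP.Inst.DD (P : Subgroup G) p) := Fintype.ofFinite _
  have hb : b = blockOf M (θ : Cfsg.Agent.Lib.ExcP.Gram.Cn (P : Subgroup G) → ℂ) :=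
    Cfsg.Agent.Lib.Blocks.Central.isPBlock_eq_blockOf hind.1 hθ
  subst hb
  obtain ⟨he0, hef, -⟩ := Cfsg.Agent.Lib.ModRep.BlockTh.card_Nn_of_relIndex
    (Cfsg.Agent.Lib.Char.Basic.isClassFunction_of_isIrrCharacter θ.2) hT he hf
  obtain ⟨X, Y, εX, ε, ν, hB', hdisj, hXcard, hYcard, hεX, hε, hν, hνY, hform, hdX, hdY⟩ :=
    Cfsg.Agent.Lib.ModRep.BlockTh.structure_T (P := (P : Subgroup G)) hM hQcard hp2 θ hθP hind hT he hf
      (fun S hS => Cfsg.Agent.Lib.D1.Count.card_le hM hQcard hp2 θ hθP hind T hT e he S hS)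
  have hYeq : Y.card = (p - 1) / e := by
    rw [← hYcard, Nat.mul_div_cancel _ he0]
  have hε0 : (ε : ℂ) ≠ 0 := by
    rcases hε with h | h <;> rw [h] <;> norm_num
  have hBeq : B = (X : Set (IrrCharacter G)) ∪ (Y : Set (IrrCharacter G)) := by
    ext j
    rw [hB' j, Finset.mem_union]
    rfl
  have hdisj' : Disjoint (X : Set (IrrCharacter G)) (Y : Set (IrrCharacter G)) := by
    rw [Finset.disjoint_coe]
    exact hdisj
  have hcardB : Nat.card B = e + (p - 1) / e := by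
    rw [hBeq, Nat.card_coe_set_eq, Set.ncard_union_eq hdisj' (Set.toFinite _) (Set.toFinite _),
      Set.ncard_coe_finset, Set.ncard_coe_finset, hXcard, hYeq]
  refine ⟨⟨Y.card, by rw [mul_comm]; exact hYcard.symm⟩, hcardB, (X : Set (IrrCharacter G)), (Y : Set (IrrCharacter G)),
    hBeq, hdisj', ?_, ?_, ?_, ⟨ε, hε, ?_⟩, ?_⟩
  · rw [Nat.card_coe_set_eq, Set.ncard_coe_finset, hXcard]
  · rw [Nat.card_coe_set_eq, Set.ncard_coe_finset, hYeq]
  · intro χ hχ
    have hχ' : χ ∈ X := hχ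
    have h1 := hdX χ hχ'
    rcases hεX χ hχ' with h2 | h2
    · left
      rw [h2, mul_one] at h1
      exact (Int.modEq_iff_dvd.mpr h1).symm
    · right
      rw [h2] at h1
      have h3 : (p : ℤ) ∣ (charDegree (χ : G → ℂ) : ℤ) - -((f / e * charDegree (θ : Cfsg.Agent.Lib.ExcP.Gram.Cn (P : Subgroup G) → ℂ) : ℕ) : ℤ) := by
        convert h1 using 1
        ring
      exact (Int.modEq_iff_dvd.mpr h3).symm
  · intro ψ hψ
    have hψ' : ψ ∈ Y := hψ
    obtain ⟨d, rfl⟩ := (hνY ψ).mp hψ'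
    have h1 := hdY d
    have h3 : (p : ℤ) ∣ (charDegree (ν d : G → ℂ) : ℤ) - ε * ((f * charDegree (θ : Cfsg.Agent.Lib.ExcP.Gram.Cn (P : Subgroup G) → ℂ) : ℕ) : ℤ) := by
      convert h1 using 2
      have h4 : f = e * (f / e) := (Nat.mul_div_cancel' hef).symm
      conv_lhs => rw [h4]
      push_cast
      ring
    exact (Int.modEq_iff_dvd.mpr h3).symm
  · intro ψ hψ ψ' hψ' g hg
    obtain ⟨d, rfl⟩ := (hνY ψ).mp hψ
    obtain ⟨d', rfl⟩ := (hνY ψ').mp hψ'
    have h1 := hform d g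
    have h2 := hform d' g
    have h3 : Cfsg.Agent.Lib.ModRep.ThGram.Ws (P : Subgroup G) (θ : Cfsg.Agent.Lib.ExcP.Gram.Cn (P : Subgroup G) → ℂ) d.1 g = 0 :=
      Cfsg.Agent.Lib.ModRep.ThGram.Ws_regular _ d.2.1 hg
    have h4 : Cfsg.Agent.Lib.ModRep.ThGram.Ws (P : Subgroup G) (θ : Cfsg.Agent.Lib.ExcP.Gram.Cn (P : Subgroup G) → ℂ) d'.1 g = 0 :=
      Cfsg.Agent.Lib.ModRep.ThGram.Ws_regular _ d'.2.1 hg
    simp only at h1 h2
    rw [h3] at h1
    rw [h4] at h2
    have h5 : (ε : ℂ) * (ν d : G → ℂ) g = (ε : ℂ) * (ν d' : G → ℂ) g := by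
      linear_combination h2 - h1
    exact mul_left_cancel₀ hε0 h5

end Cfsg.Agent.S4442
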