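import Cfsg.Statements.S5016
import Cfsg.Agent.Lib.RootSubgroups.RankOne

set_option autoImplicit false
open Cfsg

namespace Cfsg.Agent.S5016

open Matrix Cfsg.Agent.Lib.RootSubgroups.RankOne

variable {k : Type*} [Field k]

/-- upper unitriangular -/
def up (t : k) : Matrix.SpecialLinearGroup (Fin 2) k := ⟨!![1, t; 0, 1], by simp [Matrix.det_fin_two]⟩

/-- lower unitriangular -/
def low (t : k) : Matrix.SpecialLinearGroup (Fin 2) k := ⟨!![1, 0; t, 1], by simp [Matrix.det_fin_two]⟩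

lemma coe_up (t : k) : ((up t : Matrix.SpecialLinearGroup (Fin 2) k) : Matrix (Fin 2) (Fin 2) k) = !![1, t; 0, 1] := rfl
lemma coe_low (t : k) : ((low t : Matrix.SpecialLinearGroup (Fin 2) k) : Matrix (Fin 2) (Fin 2) k) = !![1, 0; t, 1] := rfl

lemma up_add (s t : k) : up s * up t = up (s + t) := by
  apply Subtype.ext
  simp only [Matrix.SpecialLinearGroup.coe_mul, coe_up, Matrix.mul_fin_two]
  congr 1 <;> simp [add_comm]

lemma low_add (s t : k) : low s * low t = low (s + t) := by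
  apply Subtype.ext
  simp only [Matrix.SpecialLinearGroup.coe_mul, coe_low, Matrix.mul_fin_two]
  congr 1 <;> simp [add_comm]

lemma up_zero : up (0 : k) = 1 := by
  apply Subtype.ext
  simp [coe_up, Matrix.one_fin_two]

lemma low_zero : low (0 : k) = 1 := by
  apply Subtype.ext
  simp [coe_low, Matrix.one_fin_two]

lemma up_inv (t : k) : (up t)⁻¹ = up (-t) := by
  rw [inv_eq_iff_mul_eq_one, up_add]; simp [up_zero]

lemma low_inv (t : k) : (low t)⁻¹ = low (-t) := by
  rw [inv_eq_iff_mul_eq_one, low_add]; simp [low_zero]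

lemma up_ne_one {t : k} (h : up t = 1) : t = 0 := by
  have := congrArg (fun g : Matrix.SpecialLinearGroup (Fin 2) k => (g : Matrix (Fin 2) (Fin 2) k) 0 1) h
  simpa [coe_up] using this

lemma low_ne_one {t : k} (h : low t = 1) : t = 0 := by
  have := congrArg (fun g : Matrix.SpecialLinearGroup (Fin 2) k => (g : Matrix (Fin 2) (Fin 2) k) 1 0) h
  simpa [coe_low] using this

lemma mem_upper {g : Matrix.SpecialLinearGroup (Fin 2) k} : g ∈ Cfsg.upperUnipotentSL2 k ↔ ∃ t, g = up t := by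
  constructor
  · intro hg
    refine Subgroup.closure_induction (p := fun g _ => ∃ t, g = up t) ?_ ?_ ?_ ?_ hg
    · rintro x ⟨h1, h2, h3⟩
      refine ⟨(x : Matrix (Fin 2) (Fin 2) k) 0 1, ?_⟩
      apply Subtype.ext
      rw [coe_up]
      ext i j
      fin_cases i <;> fin_cases j <;> simp [h1, h2, h3]
    · exact ⟨0, up_zero.symm⟩
    · rintro _ _ _ _ ⟨s, rfl⟩ ⟨t, rfl⟩
      exact ⟨s + t, up_add s t⟩
    · rintro _ _ ⟨s, rfl⟩
      exact ⟨-s, up_inv s⟩
  · rintro ⟨t, rfl⟩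
    apply Subgroup.subset_closure
    simp [coe_up]

lemma mem_lower {g : Matrix.SpecialLinearGroup (Fin 2) k} : g ∈ Cfsg.lowerUnipotentSL2 k ↔ ∃ t, g = low t := by
  constructor
  · intro hg
    refine Subgroup.closure_induction (p := fun g _ => ∃ t, g = low t) ?_ ?_ ?_ ?_ hg
    · rintro x ⟨h1, h2, h3⟩
      refine ⟨(x : Matrix (Fin 2) (Fin 2) k) 1 0, ?_⟩
      apply Subtype.ext
      rw [coe_low]
      ext i j
      fin_cases i <;> fin_cases j <;> simp [h1, h2, h3]
    · exact ⟨0, low_zero.symm⟩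
    · rintro _ _ _ _ ⟨s, rfl⟩ ⟨t, rfl⟩
      exact ⟨s + t, low_add s t⟩
    · rintro _ _ ⟨s, rfl⟩
      exact ⟨-s, low_inv s⟩
  · rintro ⟨t, rfl⟩
    apply Subgroup.subset_closure
    simp [coe_low]

/-- The basic conjugation identity. -/
lemma key (t s u : k) (h : t * s = 1) :
    up (-t) * low u * up t = low (-s) * up (-(t ^ 2 * u)) * low s := by
  apply Subtype.ext
  simp only [Matrix.SpecialLinearGroup.coe_mul, coe_low, coe_up, Matrix.mul_fin_two]
  have e1 : t * t * s = t := by rw [mul_assoc, h, mul_one]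
  have e2 : t * (t * (s * s)) = 1 := by
    have : t * (t * (s * s)) = (t * s) * (t * s) := by ring
    rw [this, h, one_mul]
  congr 1
  simp only [mul_one, mul_zero, add_zero, zero_add, one_mul, neg_mul, zero_mul]
  ext i j
  fin_cases i <;> fin_cases j <;> simp
  · linear_combination (-(t * u)) * h
  · ring
  · linear_combination (-(u * (t * s + 1))) * h
  · linear_combination (-(u * t)) * h

lemma conj_eq {t s : k} (h : t * s = 1) :
    Cfsg.conjBy (Cfsg.lowerUnipotentSL2 k) (up t)⁻¹ = Cfsg.conjBy (Cfsg.upperUnipotentSL2 k) (low s)⁻¹ := by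
  have hs : (s * t) = 1 := by rw [mul_comm]; exact h
  ext x
  constructor
  · rintro ⟨y, hy, rfl⟩
    obtain ⟨u, rfl⟩ := mem_lower.1 hy
    refine ⟨up (-(t ^ 2 * u)), mem_upper.2 ⟨_, rfl⟩, ?_⟩
    simp only [MonoidHom.coe_coe, MulEquiv.coe_toMonoidHom, MulAut.conj_apply, inv_inv]
    rw [low_inv, up_inv, key t s u h]
  · rintro ⟨y, hy, rfl⟩
    obtain ⟨v, rfl⟩ := mem_upper.1 hy
    refine ⟨low (-(s ^ 2 * v)), mem_lower.2 ⟨_, rfl⟩, ?_⟩
    simp only [MonoidHom.coe_coe, MulEquiv.coe_toMonoidHom, MulAut.conj_apply, inv_inv]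
    rw [low_inv, up_inv, key t s _ h]
    congr 2
    congr 1
    have : t ^ 2 * s ^ 2 = 1 := by rw [← mul_pow, h, one_pow]
    calc -(t ^ 2 * -(s ^ 2 * v)) = (t ^ 2 * s ^ 2) * v := by ring
      _ = v := by rw [this, one_mul]

lemma mul_eq_one_of_conj_eq {t s : k} (hs : s ≠ 0)
    (h : Cfsg.conjBy (Cfsg.lowerUnipotentSL2 k) (up t)⁻¹ = Cfsg.conjBy (Cfsg.upperUnipotentSL2 k) (low s)⁻¹) :
    t * s = 1 := by
  have hmem : (up t)⁻¹ * low s * ((up t)⁻¹)⁻¹ ∈ Cfsg.conjBy (Cfsg.lowerUnipotentSL2 k) (up t)⁻¹ :=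
    conj_mem_conjBy (mem_lower.2 ⟨s, rfl⟩) _
  rw [h] at hmem
  obtain ⟨y, hy, he⟩ := hmem
  obtain ⟨v, rfl⟩ := mem_upper.1 hy
  simp only [MonoidHom.coe_coe, MulEquiv.coe_toMonoidHom, MulAut.conj_apply, inv_inv] at he
  rw [low_inv, up_inv] at he
  have he' := congrArg (fun g : Matrix.SpecialLinearGroup (Fin 2) k => (g : Matrix (Fin 2) (Fin 2) k)) he
  simp only [Matrix.SpecialLinearGroup.coe_mul, coe_low, coe_up, Matrix.mul_fin_two] at he'
  have e00 := congrFun (congrFun he' 0) 0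
  have e10 := congrFun (congrFun he' 1) 0
  simp at e00 e10
  have h1 : s * (s * v + 1) = 0 := by linear_combination -e10
  have h2 : s * v + 1 = 0 := by
    rcases mul_eq_zero.1 h1 with h | h
    · exact absurd h hs
    · exact h
  linear_combination e00 - h2

lemma gen : Cfsg.lowerUnipotentSL2 k ⊔ Cfsg.upperUnipotentSL2 k = ⊤ := by
  rw [eq_top_iff]
  rintro g -
  have hL : ∀ u : k, low u ∈ Cfsg.lowerUnipotentSL2 k ⊔ Cfsg.upperUnipotentSL2 k := fun u =>
    (le_sup_left : Cfsg.lowerUnipotentSL2 k ≤ _) (mem_lower.2 ⟨u, rfl⟩)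
  have hU : ∀ u : k, up u ∈ Cfsg.lowerUnipotentSL2 k ⊔ Cfsg.upperUnipotentSL2 k := fun u =>
    (le_sup_right : Cfsg.upperUnipotentSL2 k ≤ _) (mem_upper.2 ⟨u, rfl⟩)
  have hdet : ∀ g : Matrix.SpecialLinearGroup (Fin 2) k,
      (g : Matrix (Fin 2) (Fin 2) k) 0 0 * (g : Matrix (Fin 2) (Fin 2) k) 1 1 -
        (g : Matrix (Fin 2) (Fin 2) k) 0 1 * (g : Matrix (Fin 2) (Fin 2) k) 1 0 = 1 := by
    intro g
    have := g.2
    rwa [Matrix.det_fin_two] at this
  have main : ∀ g : Matrix.SpecialLinearGroup (Fin 2) k, (g : Matrix (Fin 2) (Fin 2) k) 1 0 ≠ 0 →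
      g ∈ Cfsg.lowerUnipotentSL2 k ⊔ Cfsg.upperUnipotentSL2 k := by
    intro g hr
    set p := (g : Matrix (Fin 2) (Fin 2) k) 0 0 with hp
    set q := (g : Matrix (Fin 2) (Fin 2) k) 0 1 with hq
    set r := (g : Matrix (Fin 2) (Fin 2) k) 1 0 with hrr
    set w := (g : Matrix (Fin 2) (Fin 2) k) 1 1 with hw
    have hd : p * w - q * r = 1 := hdet g
    have : g = up ((p - 1) / r) * low r * up ((w - 1) / r) := by
      apply Subtype.ext
      simp only [Matrix.SpecialLinearGroup.coe_mul, coe_low, coe_up, Matrix.mul_fin_two]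
      ext i j
      fin_cases i <;> fin_cases j <;> simp
      · show p = _
        rw [div_mul_cancel₀ _ hr]; ring
      · show q = _
        rw [div_mul_cancel₀ _ hr]
        field_simp
        linear_combination (-1 : k) * hd
      · rfl
      · show w = _
        rw [mul_div_cancel₀ _ hr]; ring
    rw [this]
    exact Subgroup.mul_mem _ (Subgroup.mul_mem _ (hU _) (hL _)) (hU _)
  by_cases hr : (g : Matrix (Fin 2) (Fin 2) k) 1 0 = 0
  · have hd := hdet g
    rw [hr, mul_zero, sub_zero] at hd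
    have hp : (g : Matrix (Fin 2) (Fin 2) k) 0 0 ≠ 0 := by
      intro h0
      rw [h0, zero_mul] at hd
      exact zero_ne_one hd
    have h2 : low 1 * g ∈ Cfsg.lowerUnipotentSL2 k ⊔ Cfsg.upperUnipotentSL2 k := by
      apply main
      simp [coe_low, Matrix.mul_apply, Fin.sum_univ_two, hr, hp]
    have := Subgroup.mul_mem _ (hL (-1)) h2
    rw [← mul_assoc, low_add] at this
    simpa [low_zero] using this
  · exact main g hr

lemma comm_upper : IsMulCommutative (Cfsg.upperUnipotentSL2 k) := by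
  refine ⟨⟨?_⟩⟩
  rintro ⟨a, ha⟩ ⟨b, hb⟩
  obtain ⟨s, rfl⟩ := mem_upper.1 ha
  obtain ⟨t, rfl⟩ := mem_upper.1 hb
  apply Subtype.ext
  show up s * up t = up t * up s
  rw [up_add, up_add, add_comm]

lemma comm_lower : IsMulCommutative (Cfsg.lowerUnipotentSL2 k) := by
  refine ⟨⟨?_⟩⟩
  rintro ⟨a, ha⟩ ⟨b, hb⟩
  obtain ⟨s, rfl⟩ := mem_lower.1 ha
  obtain ⟨t, rfl⟩ := mem_lower.1 hb
  apply Subtype.ext
  show low s * low t = low t * low s
  rw [low_add, low_add, add_comm]

lemma nil_of_comm {G : Type*} [Group G] (h : IsMulCommutative G) : Group.IsNilpotent G := by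
  letI : CommGroup G := { (inferInstance : Group G) with mul_comm := h.is_comm.comm }
  exact CommGroup.isNilpotent

lemma pair : Cfsg.IsRankOnePair (Cfsg.lowerUnipotentSL2 k) (Cfsg.upperUnipotentSL2 k) := by
  refine ⟨?_, nil_of_comm comm_lower, nil_of_comm comm_upper, ?_, ?_⟩
  · intro h
    have h1 : low (1 : k) ∈ Cfsg.upperUnipotentSL2 k := h ▸ mem_lower.2 ⟨1, rfl⟩
    obtain ⟨t, ht⟩ := mem_upper.1 h1
    have := congrArg (fun g : Matrix.SpecialLinearGroup (Fin 2) k => (g : Matrix (Fin 2) (Fin 2) k) 1 0) ht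
    simp [coe_low, coe_up] at this
  · intro a ha hne
    obtain ⟨s, rfl⟩ := mem_lower.1 ha
    have hs : s ≠ 0 := by
      rintro rfl
      exact hne low_zero
    refine ⟨up s⁻¹, mem_upper.2 ⟨_, rfl⟩, ?_, conj_eq (inv_mul_cancel₀ hs)⟩
    intro h
    exact inv_ne_zero hs (up_ne_one h)
  · intro a ha hne
    obtain ⟨t, rfl⟩ := mem_upper.1 ha
    have ht : t ≠ 0 := by
      rintro rfl
      exact hne up_zero
    refine ⟨low t⁻¹, mem_lower.2 ⟨_, rfl⟩, ?_, (conj_eq (mul_inv_cancel₀ ht)).symm⟩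
    intro h
    exact inv_ne_zero ht (low_ne_one h)

/-- For any field k, the special linear group SL₂(k) is a special rank one group with abelian unipotent subgroups, the unipotent subgroups being the group of lower unitriangular matrices and the group of upper unitriangular matrices. -/
theorem result (k : Type*) [Field k] :
    Cfsg.IsRankOneGroup (Matrix.SpecialLinearGroup (Fin 2) k) (Cfsg.lowerUnipotentSL2 k) (Cfsg.upperUnipotentSL2 k) ∧
    Cfsg.IsSpecialRankOnePair (Cfsg.lowerUnipotentSL2 k) (Cfsg.upperUnipotentSL2 k) ∧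
    Cfsg.HasAbelianUnipotents (Cfsg.lowerUnipotentSL2 k) (Cfsg.upperUnipotentSL2 k) := by
  refine ⟨⟨gen, pair⟩, ⟨pair, ?_⟩, comm_lower, comm_upper⟩
  intro a ha hane b hb hbne hcond
  obtain ⟨s, rfl⟩ := mem_lower.1 ha
  obtain ⟨t, rfl⟩ := mem_upper.1 hb
  have hs : s ≠ 0 := by
    rintro rfl
    exact hane low_zero
  have hts : t * s = 1 := mul_eq_one_of_conj_eq hs hcond
  rw [low_inv, up_inv]
  have h1 := key t s s hts
  have h2 : -(t ^ 2 * s) = -t := by
    have : t ^ 2 * s = t * (t * s) := by ring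
    rw [this, hts, mul_one]
  rw [h2] at h1
  exact h1

end Cfsg.Agent.S5016
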