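import Cfsg.Statements.S5061

set_option autoImplicit false
open Cfsg

namespace Cfsg.Agent.S5061

section grp
variable {H : Type*} [Group H]

theorem mem_normalizer_of_both {W : Subgroup H} {g : H} (h1 : ∀ v ∈ W, g * v * g⁻¹ ∈ W)
    (h2 : ∀ v ∈ W, g⁻¹ * v * g ∈ W) : g ∈ Subgroup.normalizer (W : Set H) := by
  rw [Subgroup.mem_normalizer_iff]
  intro v
  refine ⟨h1 v, fun hv => ?_⟩
  have := h2 _ hv
  simpa [mul_assoc] using this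

/-- Normalizer lemma for a group with a central chain above `Z 0`. -/
theorem exists_normalizing (U : Subgroup H) (𝒜 : Set (Subgroup H)) (h𝒜 : ∀ A ∈ 𝒜, A ≤ U)
    (hconj : ∀ A ∈ 𝒜, ∀ u ∈ U, A.map (MulAut.conj u).toMonoidHom ∈ 𝒜) (hgen : U ≤ sSup 𝒜)
    (ℬ : Set (Subgroup H)) (hℬ : ℬ ⊆ 𝒜) (Z : ℕ → Subgroup H) (hZU : ∀ j, Z j ≤ U)
    (hZmono : ∀ j, Z j ≤ Z (j + 1))
    (hZn : ∀ j, U ≤ Subgroup.normalizer (Z j : Set H))
    (hZc : ∀ j, ∀ z ∈ Z (j + 1), ∀ u ∈ U, z * u * z⁻¹ * u⁻¹ ∈ Z j) :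
    ∀ (d j : ℕ), Z (j + d) = U → sSup ℬ ⊔ Z j ≠ U →
      ∃ A ∈ 𝒜, A ≤ Subgroup.normalizer ((sSup ℬ ⊔ Z j : Subgroup H) : Set H) ∧
        ¬ A ≤ sSup ℬ ⊔ Z j := by
  have hRU : sSup ℬ ≤ U := sSup_le fun B hB => h𝒜 B (hℬ hB)
  intro d
  induction d with
  | zero =>
    intro j hj hne
    exfalso
    apply hne
    rw [add_zero] at hj
    rw [hj]
    exact sup_eq_right.2 hRU
  | succ d ih =>
    intro j hj hne
    have hj' : Z (j + 1 + d) = U := by rw [← hj]; congr 1; omega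
    set R := sSup ℬ with hR
    set W := R ⊔ Z j with hW
    set W₁ := R ⊔ Z (j + 1) with hW₁
    have hWW₁ : W ≤ W₁ := sup_le_sup_left (hZmono j) R
    have hWU : W ≤ U := sup_le hRU (hZU j)
    have hup : ∀ z ∈ Z (j + 1), ∀ v ∈ W, z * v * z⁻¹ ∈ W := by
      intro z hz
      have hle : W ≤ W.comap (MulAut.conj z).toMonoidHom := by
        refine sup_le ?_ ?_
        · intro r hr
          rw [Subgroup.mem_comap]
          have h1 := hZc j z hz r (hRU hr)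
          have e : (MulAut.conj z).toMonoidHom r = (z * r * z⁻¹ * r⁻¹) * r := by simp
          rw [e]
          exact W.mul_mem ((le_sup_right : Z j ≤ W) h1) ((le_sup_left : R ≤ W) hr)
        · intro y hy
          rw [Subgroup.mem_comap]
          apply (le_sup_right : Z j ≤ W)
          exact (Subgroup.mem_normalizer_iff.1 (hZn j (hZU _ hz)) y).1 hy
      intro v hv
      exact hle hv
    have hZN : Z (j + 1) ≤ Subgroup.normalizer (W : Set H) := by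
      intro z hz
      refine mem_normalizer_of_both (hup z hz) ?_
      intro v hv
      have := hup z⁻¹ (inv_mem hz) v hv
      simpa using this
    have hW₁N : W₁ ≤ Subgroup.normalizer (W : Set H) :=
      sup_le ((le_sup_left : R ≤ W).trans Subgroup.le_normalizer) hZN
    by_cases h₁ : W₁ = U
    · have hUN : U ≤ Subgroup.normalizer (W : Set H) := h₁ ▸ hW₁N
      have : ∃ A ∈ 𝒜, ¬ A ≤ W := by
        by_contra hcon
        push Not at hcon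
        exact hne (le_antisymm hWU (hgen.trans (sSup_le hcon)))
      obtain ⟨A, hA, hAW⟩ := this
      exact ⟨A, hA, (h𝒜 A hA).trans hUN, hAW⟩
    · obtain ⟨A, hA, hAN, hAW₁⟩ := ih (j + 1) hj' h₁
      by_cases hAN' : A ≤ Subgroup.normalizer (W : Set H)
      · exact ⟨A, hA, hAN', fun h => hAW₁ (h.trans hWW₁)⟩
      · obtain ⟨a, ha, haN⟩ := Set.not_subset.1 hAN'
        have h1 : ∃ b ∈ A, ∃ v ∈ W, b * v * b⁻¹ ∉ W := by
          by_contra hcon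
          push Not at hcon
          refine haN (mem_normalizer_of_both (hcon a ha) fun v hv => ?_)
          have := hcon a⁻¹ (A.inv_mem ha) v hv
          simpa using this
        obtain ⟨b, hb, v, hv, hbv⟩ := h1
        have hbU : b ∈ U := h𝒜 A hA hb
        have h2 : ∃ B ∈ ℬ, ∃ y ∈ B, b * y * b⁻¹ ∉ W := by
          by_contra hcon
          push Not at hcon
          have hle : W ≤ W.comap (MulAut.conj b).toMonoidHom := by
            refine sup_le (sSup_le fun B hB y hy => ?_) ?_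
            · exact hcon B hB y hy
            · intro y hy
              rw [Subgroup.mem_comap]
              apply (le_sup_right : Z j ≤ W)
              exact (Subgroup.mem_normalizer_iff.1 (hZn j hbU) y).1 hy
          exact hbv (hle hv)
        obtain ⟨B, hB, y, hy, hby⟩ := h2
        refine ⟨B.map (MulAut.conj b).toMonoidHom, hconj B (hℬ hB) b hbU, ?_, ?_⟩
        · rintro _ ⟨y', hy', rfl⟩
          apply hW₁N
          exact (Subgroup.mem_normalizer_iff.1 (hAN hb) y').1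
            ((le_sup_left : R ≤ W₁) (le_sSup hB hy'))
        · intro h
          exact hby (h ⟨y, hy, rfl⟩)

end grp

section mod
variable {k : Type*} [Field k] {M : Type*} [AddCommGroup M] [Module k M]

/-- The action on vectors. -/
def ap (g : LinearMap.GeneralLinearGroup k M) (v : M) : M := (g : M →ₗ[k] M) v

theorem ap_mul (g h : LinearMap.GeneralLinearGroup k M) (v : M) : ap (g * h) v = ap g (ap h v) := rfl
theorem ap_one (v : M) : ap (1 : LinearMap.GeneralLinearGroup k M) v = v := rfl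
theorem ap_add (g : LinearMap.GeneralLinearGroup k M) (v w : M) : ap g (v + w) = ap g v + ap g w :=
  map_add _ v w
theorem ap_sub (g : LinearMap.GeneralLinearGroup k M) (v w : M) : ap g (v - w) = ap g v - ap g w :=
  map_sub _ v w
theorem ap_neg (g : LinearMap.GeneralLinearGroup k M) (v : M) : ap g (-v) = - ap g v :=
  map_neg _ v
theorem ap_zero (g : LinearMap.GeneralLinearGroup k M) : ap g (0 : M) = 0 := map_zero _
theorem ap_smul (g : LinearMap.GeneralLinearGroup k M) (c : k) (v : M) : ap g (c • v) = c • ap g v :=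
  map_smul _ c v
theorem ap_inv_ap (g : LinearMap.GeneralLinearGroup k M) (v : M) : ap g⁻¹ (ap g v) = v := by
  rw [← ap_mul, inv_mul_cancel, ap_one]
theorem ap_ap_inv (g : LinearMap.GeneralLinearGroup k M) (v : M) : ap g (ap g⁻¹ v) = v := by
  rw [← ap_mul, mul_inv_cancel, ap_one]

/-- Vectors moved into `Z`. -/
def fixMod (H : Subgroup (LinearMap.GeneralLinearGroup k M)) (Z : Submodule k M) : Submodule k M where
  carrier := {v | ∀ g ∈ H, ap g v - v ∈ Z}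
  add_mem' := by
    intro a b ha hb g hg
    have := Z.add_mem (ha g hg) (hb g hg)
    convert this using 1
    rw [ap_add]; abel
  zero_mem' := by
    intro g _
    simp [ap_zero]
  smul_mem' := by
    intro c a ha g hg
    have := Z.smul_mem c (ha g hg)
    convert this using 1
    rw [ap_smul, smul_sub]

theorem mem_fixMod {H : Subgroup (LinearMap.GeneralLinearGroup k M)} {Z : Submodule k M} {v : M} :
    v ∈ fixMod H Z ↔ ∀ g ∈ H, ap g v - v ∈ Z := Iff.rfl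

theorem fixMod_anti {H H' : Subgroup (LinearMap.GeneralLinearGroup k M)} (h : H' ≤ H)
    (Z : Submodule k M) : fixMod H Z ≤ fixMod H' Z := fun _ hv g hg => hv g (h hg)

theorem fixMod_mono (H : Subgroup (LinearMap.GeneralLinearGroup k M)) {Z Z' : Submodule k M}
    (h : Z ≤ Z') : fixMod H Z ≤ fixMod H Z' := fun _ hv g hg => h (hv g hg)

/-- The stabilizer of a subspace. -/
def stabSub (Z : Submodule k M) : Subgroup (LinearMap.GeneralLinearGroup k M) where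
  carrier := {g | (∀ v ∈ Z, ap g v ∈ Z) ∧ ∀ v ∈ Z, ap g⁻¹ v ∈ Z}
  mul_mem' := by
    intro g h hg hh
    refine ⟨fun v hv => ?_, fun v hv => ?_⟩
    · rw [ap_mul]; exact hg.1 _ (hh.1 v hv)
    · rw [mul_inv_rev, ap_mul]; exact hh.2 _ (hg.2 v hv)
  one_mem' := by
    refine ⟨fun v hv => ?_, fun v hv => ?_⟩
    · rw [ap_one]; exact hv
    · rw [inv_one, ap_one]; exact hv
  inv_mem' := by
    intro g hg
    refine ⟨hg.2, fun v hv => ?_⟩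
    rw [inv_inv]; exact hg.1 v hv

theorem le_stabSub {H : Subgroup (LinearMap.GeneralLinearGroup k M)} {Z : Submodule k M}
    (h : ∀ g ∈ H, ∀ v ∈ Z, ap g v ∈ Z) : H ≤ stabSub Z :=
  fun g hg => ⟨h g hg, h g⁻¹ (H.inv_mem hg)⟩

/-- Elements moving `v` inside `Z` and stabilizing `Z`. -/
def fixSub (v : M) (Z : Submodule k M) : Subgroup (LinearMap.GeneralLinearGroup k M) where
  carrier := {g | g ∈ stabSub Z ∧ ap g v - v ∈ Z}
  mul_mem' := by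
    intro g h hg hh
    refine ⟨(stabSub Z).mul_mem hg.1 hh.1, ?_⟩
    have := Z.add_mem (hg.1.1 _ hh.2) hg.2
    convert this using 1
    rw [ap_mul, ap_sub]; abel
  one_mem' := by
    refine ⟨(stabSub Z).one_mem, ?_⟩
    rw [ap_one, sub_self]; exact Z.zero_mem
  inv_mem' := by
    intro g hg
    refine ⟨(stabSub Z).inv_mem hg.1, ?_⟩
    have := Z.neg_mem (hg.1.2 _ hg.2)
    convert this using 1
    rw [ap_sub, ap_inv_ap]; abel

theorem fix_sSup {C : Set (Subgroup (LinearMap.GeneralLinearGroup k M))} {Z : Submodule k M} {v : M}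
    (hs : ∀ A ∈ C, A ≤ stabSub Z) (hv : ∀ A ∈ C, ∀ a ∈ A, ap a v - v ∈ Z) :
    ∀ g ∈ sSup C, ap g v - v ∈ Z := by
  have : sSup C ≤ fixSub v Z := sSup_le fun A hA a ha => ⟨hs A hA ha, hv A hA a ha⟩
  intro g hg
  exact (this hg).2

/-- The Loewy chain on the section `Y₂ / Y₁`. -/
def Lw (H : Subgroup (LinearMap.GeneralLinearGroup k M)) (Y₁ Y₂ : Submodule k M) : ℕ → Submodule k M
  | 0 => Y₁
  | i + 1 => Y₂ ⊓ fixMod H (Lw H Y₁ Y₂ i)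

/-- Unipotence on a section. -/
def Uni (H : Subgroup (LinearMap.GeneralLinearGroup k M)) (Y₁ Y₂ : Submodule k M) : Prop :=
  ∃ n, Y₂ ≤ Lw H Y₁ Y₂ n

theorem Lw_mono {H : Subgroup (LinearMap.GeneralLinearGroup k M)} {Y₁ Y₂ : Submodule k M}
    (hle : Y₁ ≤ Y₂) (h₁ : H ≤ stabSub Y₁) (i : ℕ) : Lw H Y₁ Y₂ i ≤ Lw H Y₁ Y₂ (i + 1) := by
  induction i with
  | zero =>
    intro v hv
    refine ⟨hle hv, fun g hg => ?_⟩
    exact Y₁.sub_mem ((h₁ hg).1 v hv) hv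
  | succ i ih =>
    intro v hv
    exact ⟨hv.1, fixMod_mono H ih hv.2⟩

theorem Lw_le {H : Subgroup (LinearMap.GeneralLinearGroup k M)} {Y₁ Y₂ : Submodule k M}
    (hle : Y₁ ≤ Y₂) (i : ℕ) : Lw H Y₁ Y₂ i ≤ Y₂ := by
  cases i with
  | zero => exact hle
  | succ i => exact inf_le_left

theorem Lw_stab {H : Subgroup (LinearMap.GeneralLinearGroup k M)} {Y₁ Y₂ : Submodule k M}
    (hle : Y₁ ≤ Y₂) (h₁ : H ≤ stabSub Y₁) (i : ℕ) : H ≤ stabSub (Lw H Y₁ Y₂ i) := by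
  refine le_stabSub fun g hg v hv => ?_
  cases i with
  | zero => exact (h₁ hg).1 v hv
  | succ i =>
    have h1 := Lw_mono hle h₁ i (hv.2 g hg)
    have := Submodule.add_mem _ h1 hv
    simpa using this

theorem Lw_mono' {H : Subgroup (LinearMap.GeneralLinearGroup k M)} {Y₁ Y₂ : Submodule k M}
    (hle : Y₁ ≤ Y₂) (h₁ : H ≤ stabSub Y₁) {i j : ℕ} (hij : i ≤ j) :
    Lw H Y₁ Y₂ i ≤ Lw H Y₁ Y₂ j :=
  monotone_nat_of_le_succ (Lw_mono hle h₁) hij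

theorem uni_mono {H H' : Subgroup (LinearMap.GeneralLinearGroup k M)} (h : H' ≤ H)
    {Y₁ Y₂ : Submodule k M} (hU : Uni H Y₁ Y₂) : Uni H' Y₁ Y₂ := by
  obtain ⟨n, hn⟩ := hU
  have key : ∀ i, Lw H Y₁ Y₂ i ≤ Lw H' Y₁ Y₂ i := by
    intro i
    induction i with
    | zero => exact le_rfl
    | succ i ih =>
      intro v hv
      exact ⟨hv.1, fixMod_mono H' ih (fixMod_anti h _ hv.2)⟩
  exact ⟨n, hn.trans (key n)⟩

/-- Passing to a smaller section. -/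
theorem uni_section {H : Subgroup (LinearMap.GeneralLinearGroup k M)} {Y₁ Y₂ Y₁' Y₂' : Submodule k M}
    (h₁ : Y₁ ≤ Y₁') (h₂ : Y₂' ≤ Y₂) (hs : H ≤ stabSub Y₂') (hU : Uni H Y₁ Y₂) : Uni H Y₁' Y₂' := by
  obtain ⟨n, hn⟩ := hU
  have key : ∀ i, Lw H Y₁ Y₂ i ⊓ Y₂' ≤ Lw H Y₁' Y₂' i := by
    intro i
    induction i with
    | zero =>
      intro v hv
      exact h₁ hv.1
    | succ i ih =>
      rintro v ⟨hv, hv'⟩
      refine ⟨hv', fun g hg => ?_⟩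
      exact ih ⟨hv.2 g hg, Y₂'.sub_mem ((hs hg).1 v hv') hv'⟩
  exact ⟨n, fun v hv => key n ⟨hn (h₂ hv), hv⟩⟩

theorem uni_glue {H : Subgroup (LinearMap.GeneralLinearGroup k M)} {Y₁ Z Y₂ : Submodule k M}
    (h₂ : Z ≤ Y₂) (hU₁ : Uni H Y₁ Z) (hU₂ : Uni H Z Y₂) : Uni H Y₁ Y₂ := by
  obtain ⟨n₁, hn₁⟩ := hU₁
  obtain ⟨n₂, hn₂⟩ := hU₂
  have key₁ : ∀ i, Lw H Y₁ Z i ≤ Lw H Y₁ Y₂ i := by
    intro i
    induction i with
    | zero => exact le_rfl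
    | succ i ih =>
      intro v hv
      exact ⟨h₂ hv.1, fixMod_mono H ih hv.2⟩
  have key₂ : ∀ i, Lw H Z Y₂ i ≤ Lw H Y₁ Y₂ (n₁ + i) := by
    intro i
    induction i with
    | zero => exact hn₁.trans (key₁ n₁)
    | succ i ih =>
      intro v hv
      exact ⟨hv.1, fixMod_mono H ih hv.2⟩
  exact ⟨n₁ + n₂, hn₂.trans (key₂ n₂)⟩

/-- The fixed space of the section. -/
abbrev Fx (H : Subgroup (LinearMap.GeneralLinearGroup k M)) (Y₁ Y₂ : Submodule k M) : Submodule k M :=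
  Y₂ ⊓ fixMod H Y₁

theorem Fx_anti {H H' : Subgroup (LinearMap.GeneralLinearGroup k M)} (h : H' ≤ H)
    (Y₁ Y₂ : Submodule k M) : Fx H Y₁ Y₂ ≤ Fx H' Y₁ Y₂ :=
  inf_le_inf_left _ (fixMod_anti h _)

theorem le_Fx {H : Subgroup (LinearMap.GeneralLinearGroup k M)} {Y₁ Y₂ : Submodule k M}
    (hle : Y₁ ≤ Y₂) (h₁ : H ≤ stabSub Y₁) : Y₁ ≤ Fx H Y₁ Y₂ := Lw_mono hle h₁ 0

theorem not_Fx_le {H : Subgroup (LinearMap.GeneralLinearGroup k M)} {Y₁ Y₂ : Submodule k M}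
    (hU : Uni H Y₁ Y₂) (hne : ¬ Y₂ ≤ Y₁) : ¬ Fx H Y₁ Y₂ ≤ Y₁ := by
  intro h
  obtain ⟨n, hn⟩ := hU
  have key : ∀ i, Lw H Y₁ Y₂ i ≤ Y₁ := by
    intro i
    induction i with
    | zero => exact le_rfl
    | succ i ih =>
      intro v hv
      exact h ⟨hv.1, fixMod_mono H ih hv.2⟩
  exact hne (hn.trans (key n))

theorem uni_conj {H : Subgroup (LinearMap.GeneralLinearGroup k M)} {Y₁ Y₂ : Submodule k M}
    {g : LinearMap.GeneralLinearGroup k M} (h₁ : g ∈ stabSub Y₁) (h₂ : g ∈ stabSub Y₂)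
    (hU : Uni H Y₁ Y₂) : Uni (H.map (MulAut.conj g).toMonoidHom) Y₁ Y₂ := by
  obtain ⟨n, hn⟩ := hU
  have key : ∀ i, ∀ v ∈ Lw H Y₁ Y₂ i, ap g v ∈ Lw (H.map (MulAut.conj g).toMonoidHom) Y₁ Y₂ i := by
    intro i
    induction i with
    | zero => exact fun v hv => h₁.1 v hv
    | succ i ih =>
      rintro v ⟨hv1, hv2⟩
      refine ⟨h₂.1 v hv1, ?_⟩
      rintro _ ⟨h', hh', rfl⟩
      have := ih _ (hv2 h' hh')
      convert this using 1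
      rw [ap_sub]
      congr 1
      simp only [MulEquiv.toMonoidHom_eq_coe, MonoidHom.coe_coe, MulAut.conj_apply]
      rw [ap_mul, ap_mul, ap_inv_ap]
  refine ⟨n, fun v hv => ?_⟩
  have := key n _ (hn (h₂.2 v hv))
  rwa [ap_ap_inv] at this


/-! ### The central chain of a group acting unipotently on a section -/

/-- The stability groups of the Loewy chain. -/
def Gd (U : Subgroup (LinearMap.GeneralLinearGroup k M)) (Y₁ Y₂ : Submodule k M)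
    (hle : Y₁ ≤ Y₂) (h₁ : U ≤ stabSub Y₁) (d : ℕ) :
    Subgroup (LinearMap.GeneralLinearGroup k M) where
  carrier := {g | g ∈ U ∧ ∀ i, ∀ v ∈ Lw U Y₁ Y₂ (i + d), ap g v - v ∈ Lw U Y₁ Y₂ i}
  mul_mem' := by
    intro g h hg hh
    refine ⟨U.mul_mem hg.1 hh.1, fun i v hv => ?_⟩
    have h1 := ((Lw_stab hle h₁ i) hg.1).1 _ (hh.2 i v hv)
    have := Submodule.add_mem _ h1 (hg.2 i v hv)
    convert this using 1
    rw [ap_mul, ap_sub]; abel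
  one_mem' := by
    refine ⟨U.one_mem, fun i v _ => ?_⟩
    rw [ap_one, sub_self]; exact Submodule.zero_mem _
  inv_mem' := by
    intro g hg
    refine ⟨U.inv_mem hg.1, fun i v hv => ?_⟩
    have h1 := ((Lw_stab hle h₁ i) hg.1).2 _ (hg.2 i v hv)
    have := Submodule.neg_mem _ h1
    convert this using 1
    rw [ap_sub, ap_inv_ap]; abel

theorem Gd_zero (U : Subgroup (LinearMap.GeneralLinearGroup k M)) (Y₁ Y₂ : Submodule k M)
    (hle : Y₁ ≤ Y₂) (h₁ : U ≤ stabSub Y₁) : Gd U Y₁ Y₂ hle h₁ 0 = U := by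
  apply le_antisymm
  · exact fun g hg => hg.1
  · intro g hg
    refine ⟨hg, fun i v hv => ?_⟩
    have h1 := ((Lw_stab hle h₁ i) hg).1 v hv
    exact Submodule.sub_mem _ h1 hv

theorem Gd_anti (U : Subgroup (LinearMap.GeneralLinearGroup k M)) (Y₁ Y₂ : Submodule k M)
    (hle : Y₁ ≤ Y₂) (h₁ : U ≤ stabSub Y₁) {d d' : ℕ} (h : d ≤ d') :
    Gd U Y₁ Y₂ hle h₁ d' ≤ Gd U Y₁ Y₂ hle h₁ d := by
  intro g hg
  refine ⟨hg.1, fun i v hv => hg.2 i v (Lw_mono' hle h₁ (by omega) hv)⟩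

theorem Gd_norm (U : Subgroup (LinearMap.GeneralLinearGroup k M)) (Y₁ Y₂ : Submodule k M)
    (hle : Y₁ ≤ Y₂) (h₁ : U ≤ stabSub Y₁) (d : ℕ) :
    U ≤ Subgroup.normalizer (Gd U Y₁ Y₂ hle h₁ d : Set (LinearMap.GeneralLinearGroup k M)) := by
  have key : ∀ u ∈ U, ∀ g ∈ Gd U Y₁ Y₂ hle h₁ d, u * g * u⁻¹ ∈ Gd U Y₁ Y₂ hle h₁ d := by
    intro u hu g hg
    refine ⟨U.mul_mem (U.mul_mem hu hg.1) (U.inv_mem hu), fun i v hv => ?_⟩
    have h1 := ((Lw_stab hle h₁ (i + d)) hu).2 v hv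
    have h2 := hg.2 i _ h1
    have h3 := ((Lw_stab hle h₁ i) hu).1 _ h2
    convert h3 using 1
    rw [ap_sub, ap_ap_inv, ap_mul, ap_mul]
  intro u hu
  refine mem_normalizer_of_both (key u hu) fun v hv => ?_
  have := key u⁻¹ (U.inv_mem hu) v hv
  simpa using this

theorem Gd_comm (U : Subgroup (LinearMap.GeneralLinearGroup k M)) (Y₁ Y₂ : Submodule k M)
    (hle : Y₁ ≤ Y₂) (h₁ : U ≤ stabSub Y₁) (d : ℕ) {z u : LinearMap.GeneralLinearGroup k M}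
    (hz : z ∈ Gd U Y₁ Y₂ hle h₁ d) (hu : u ∈ U) : z * u * z⁻¹ * u⁻¹ ∈ Gd U Y₁ Y₂ hle h₁ (d + 1) := by
  refine ⟨U.mul_mem (U.mul_mem (U.mul_mem hz.1 hu) (U.inv_mem hz.1)) (U.inv_mem hu), fun i v hv => ?_⟩
  set w := ap z⁻¹ (ap u⁻¹ v) with hw
  have hw1 : w ∈ Lw U Y₁ Y₂ (i + (d + 1)) :=
    ((Lw_stab hle h₁ _) hz.1).2 _ (((Lw_stab hle h₁ _) hu).2 v hv)
  have hv' : v = ap u (ap z w) := by rw [hw, ap_ap_inv, ap_ap_inv]
  have hval : ap (z * u * z⁻¹ * u⁻¹) v = ap z (ap u w) := by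
    rw [hw, ap_mul, ap_mul, ap_mul]
  -- `(u - 1) w ∈ L (i + d)`
  have e1 : i + (d + 1) = (i + d) + 1 := by omega
  rw [e1] at hw1
  have h2 : ap u w - w ∈ Lw U Y₁ Y₂ (i + d) := hw1.2 u hu
  have h3 := hz.2 i _ h2
  -- `(z - 1) w ∈ L (i + 1)`
  have e2 : i + d + 1 = (i + 1) + d := by omega
  rw [e2] at hw1
  have h4 := hz.2 (i + 1) _ hw1
  have h5 : ap u (ap z w - w) - (ap z w - w) ∈ Lw U Y₁ Y₂ i := h4.2 u hu
  have := Submodule.sub_mem _ h3 h5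
  convert this using 1
  rw [hval, hv']
  simp only [ap_sub]
  abel

/-- The normalizer property for a family of subgroups acting unipotently on a section. -/
theorem exists_A {Y₁ Y₂ : Submodule k M} {Γ : Subgroup (LinearMap.GeneralLinearGroup k M)}
    (hle : Y₁ ≤ Y₂) (h₁ : Γ ≤ stabSub Y₁) (h₂ : Γ ≤ stabSub Y₂)
    {𝒜 ℬ : Set (Subgroup (LinearMap.GeneralLinearGroup k M))} (h𝒜 : ∀ A ∈ 𝒜, A ≤ Γ)
    (hU : Uni (sSup 𝒜) Y₁ Y₂)
    (hconj : ∀ A ∈ 𝒜, ∀ u ∈ sSup 𝒜, A.map (MulAut.conj u).toMonoidHom ∈ 𝒜)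
    (hℬ : ℬ ⊆ 𝒜) (hne : ¬ Fx (sSup ℬ) Y₁ Y₂ ≤ Fx (sSup 𝒜) Y₁ Y₂) :
    ∃ A ∈ 𝒜, A ∉ ℬ ∧ A ≤ stabSub (Fx (sSup ℬ) Y₁ Y₂) := by
  set U := sSup 𝒜 with hUdef
  have hUΓ : U ≤ Γ := sSup_le h𝒜
  have hU₁ : U ≤ stabSub Y₁ := hUΓ.trans h₁
  obtain ⟨n, hn⟩ := hU
  set R := sSup ℬ with hR
  have hRU : R ≤ U := sSup_le fun B hB => le_sSup (hℬ hB)
  let Z : ℕ → Subgroup (LinearMap.GeneralLinearGroup k M) := fun j => Gd U Y₁ Y₂ hle hU₁ (n - j)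
  have hZ0 : ∀ v ∈ Y₂, ∀ z ∈ Z 0, ap z v - v ∈ Y₁ := by
    intro v hv z hz
    have := hz.2 0 v (by simpa using hn hv)
    exact this
  have hfix : ∀ v ∈ Fx R Y₁ Y₂, R ⊔ Z 0 ≤ fixSub v Y₁ := by
    intro v hv
    refine sup_le (fun r hr => ⟨hU₁ (hRU hr), hv.2 r hr⟩) (fun z hz => ⟨hU₁ hz.1, hZ0 v hv.1 z hz⟩)
  have hne' : R ⊔ Z 0 ≠ U := by
    intro h
    apply hne
    intro v hv
    refine ⟨hv.1, fun g hg => ?_⟩
    have := hfix v hv (h.symm ▸ hg)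
    exact this.2
  obtain ⟨A, hA, hAN, hAR⟩ := exists_normalizing U 𝒜 (fun A hA => le_sSup hA) hconj le_rfl ℬ hℬ Z
    (fun j g hg => hg.1)
    (fun j => Gd_anti U Y₁ Y₂ hle hU₁ (by omega))
    (fun j => Gd_norm U Y₁ Y₂ hle hU₁ _)
    (fun j z hz u hu => Gd_anti U Y₁ Y₂ hle hU₁ (by omega) (Gd_comm U Y₁ Y₂ hle hU₁ _ hz hu))
    n 0 (by simp [Z, Gd_zero]) hne'
  refine ⟨A, hA, fun hAℬ => hAR ((le_sSup hAℬ).trans le_sup_left), ?_⟩
  refine le_stabSub fun a ha v hv => ?_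
  have haΓ : a ∈ Γ := h𝒜 A hA ha
  refine ⟨(h₂ haΓ).1 v hv.1, fun r hr => ?_⟩
  have h1 : a⁻¹ * r * a⁻¹⁻¹ ∈ R ⊔ Z 0 :=
    (Subgroup.mem_normalizer_iff.1 (hAN (A.inv_mem ha)) r).1 ((le_sup_left : R ≤ R ⊔ Z 0) hr)
  have h2 := (hfix v hv h1).2
  have h3 := (h₁ haΓ).1 _ h2
  convert h3 using 1
  rw [ap_sub]
  congr 1
  simp only [inv_inv, ap_mul, ap_ap_inv]

/-! ### The main induction -/

/-- The data on a section. -/
structure Sys (Y₁ Y₂ : Submodule k M) (Γ : Subgroup (LinearMap.GeneralLinearGroup k M))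
    (𝒲 : Set (Subgroup (LinearMap.GeneralLinearGroup k M))) : Prop where
  le : Y₁ ≤ Y₂
  s₁ : Γ ≤ stabSub Y₁
  s₂ : Γ ≤ stabSub Y₂
  sub : ∀ A ∈ 𝒲, A ≤ Γ
  conj : ∀ A ∈ 𝒲, ∀ g ∈ Γ, A.map (MulAut.conj g).toMonoidHom ∈ 𝒲
  pair : ∀ A ∈ 𝒲, ∀ B ∈ 𝒲, Uni (A ⊔ B) Y₁ Y₂

/-- The fixed spaces of unipotent subfamilies. -/
def Fam (Y₁ Y₂ : Submodule k M) (𝒲 : Set (Subgroup (LinearMap.GeneralLinearGroup k M))) :
    Set (Submodule k M) :=
  {Z | ∃ D ⊆ 𝒲, Uni (sSup D) Y₁ Y₂ ∧ Z = Fx (sSup D) Y₁ Y₂}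

/-- The members stabilizing `F`. -/
def Dd (𝒲 : Set (Subgroup (LinearMap.GeneralLinearGroup k M))) (F : Submodule k M) :
    Set (Subgroup (LinearMap.GeneralLinearGroup k M)) :=
  {A | A ∈ 𝒲 ∧ A ≤ stabSub F}

/-- The minimal members of `Fam`. -/
def Mn (Y₁ Y₂ : Submodule k M) (𝒲 : Set (Subgroup (LinearMap.GeneralLinearGroup k M))) :
    Set (Submodule k M) :=
  {F | F ∈ Fam Y₁ Y₂ 𝒲 ∧ ∀ F' ∈ Fam Y₁ Y₂ 𝒲, ¬ F' < F}

section main
variable {Y₁ Y₂ : Submodule k M} {Γ : Subgroup (LinearMap.GeneralLinearGroup k M)}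
  {𝒲 : Set (Subgroup (LinearMap.GeneralLinearGroup k M))}

theorem Sys.sSup_le (hS : Sys Y₁ Y₂ Γ 𝒲) {D : Set (Subgroup (LinearMap.GeneralLinearGroup k M))}
    (hD : D ⊆ 𝒲) : sSup D ≤ Γ := _root_.sSup_le fun A hA => hS.sub A (hD hA)

theorem Sys.le_of_mem_Fam (hS : Sys Y₁ Y₂ Γ 𝒲) {Z : Submodule k M} (hZ : Z ∈ Fam Y₁ Y₂ 𝒲) :
    Y₁ ≤ Z ∧ Z ≤ Y₂ := by
  obtain ⟨D, hD, _, rfl⟩ := hZ
  exact ⟨le_Fx hS.le ((hS.sSup_le hD).trans hS.s₁), inf_le_left⟩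

theorem Sys.not_le_of_mem_Fam (hS : Sys Y₁ Y₂ Γ 𝒲) (hne : ¬ Y₂ ≤ Y₁) {Z : Submodule k M}
    (hZ : Z ∈ Fam Y₁ Y₂ 𝒲) : ¬ Z ≤ Y₁ := by
  obtain ⟨D, hD, hU, rfl⟩ := hZ
  exact not_Fx_le hU hne

theorem Fam.exists_min [FiniteDimensional k M] {Z : Submodule k M} (hZ : Z ∈ Fam Y₁ Y₂ 𝒲) :
    ∃ F ∈ Mn Y₁ Y₂ 𝒲, F ≤ Z := by
  obtain ⟨F, ⟨hF, hFZ⟩, hmin⟩ := IsArtinian.set_has_minimal
    {Z' | Z' ∈ Fam Y₁ Y₂ 𝒲 ∧ Z' ≤ Z} ⟨Z, hZ, le_rfl⟩
  exact ⟨F, ⟨hF, fun F' hF' hlt => hmin F' ⟨hF', hlt.le.trans hFZ⟩ hlt⟩, hFZ⟩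

theorem Dd_of_fix {A : Subgroup (LinearMap.GeneralLinearGroup k M)} {F : Submodule k M}
    (hA : A ∈ 𝒲) (hF : Y₁ ≤ F) (h : ∀ a ∈ A, ∀ v ∈ F, ap a v - v ∈ Y₁) : A ∈ Dd 𝒲 F := by
  refine ⟨hA, le_stabSub fun a ha v hv => ?_⟩
  have := F.add_mem (hF (h a ha v hv)) hv
  simpa using this

theorem Sys.Dd_props (hS : Sys Y₁ Y₂ Γ 𝒲) (hne : ¬ Y₂ ≤ Y₁)
    (IH : ∀ Z : Submodule k M, Y₁ ≤ Z → Z ≤ Y₂ → Z ≠ Y₁ → Z ≠ Y₂ →
      Uni (sSup (Dd 𝒲 Z)) Y₁ Y₂)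
    {F : Submodule k M} (hF : F ∈ Mn Y₁ Y₂ 𝒲) (hFY : F ≠ Y₂) :
    Uni (sSup (Dd 𝒲 F)) Y₁ Y₂ ∧ Fx (sSup (Dd 𝒲 F)) Y₁ Y₂ = F := by
  have hF1 := hS.le_of_mem_Fam hF.1
  have hF2 := hS.not_le_of_mem_Fam hne hF.1
  have hU : Uni (sSup (Dd 𝒲 F)) Y₁ Y₂ :=
    IH F hF1.1 hF1.2 (fun h => hF2 h.le) hFY
  refine ⟨hU, ?_⟩
  obtain ⟨⟨D, hD, hUD, hFD⟩, hmin⟩ := hF
  have hDD : D ⊆ Dd 𝒲 F := by
    intro A hA
    refine Dd_of_fix (hD hA) hF1.1 fun a ha v hv => ?_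
    rw [hFD] at hv
    exact hv.2 a ((le_sSup hA : A ≤ sSup D) ha)
  have hle : Fx (sSup (Dd 𝒲 F)) Y₁ Y₂ ≤ F := by
    rw [hFD]
    rw [← hFD]
    have := Fx_anti (sSup_le_sSup hDD) Y₁ Y₂
    rw [← hFD] at this
    exact this
  have hmem : Fx (sSup (Dd 𝒲 F)) Y₁ Y₂ ∈ Fam Y₁ Y₂ 𝒲 :=
    ⟨Dd 𝒲 F, fun A hA => hA.1, hU, rfl⟩
  by_contra hcon
  exact hmin _ hmem (lt_of_le_of_ne hle hcon)

theorem Sys.fix_of_Dd (hS : Sys Y₁ Y₂ Γ 𝒲) (hne : ¬ Y₂ ≤ Y₁)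
    (IH : ∀ Z : Submodule k M, Y₁ ≤ Z → Z ≤ Y₂ → Z ≠ Y₁ → Z ≠ Y₂ →
      Uni (sSup (Dd 𝒲 Z)) Y₁ Y₂)
    {F : Submodule k M} (hF : F ∈ Mn Y₁ Y₂ 𝒲) (hFY : F ≠ Y₂)
    {A : Subgroup (LinearMap.GeneralLinearGroup k M)} (hA : A ∈ Dd 𝒲 F)
    {a : LinearMap.GeneralLinearGroup k M} (ha : a ∈ A) {v : M} (hv : v ∈ F) :
    ap a v - v ∈ Y₁ := by
  have h := (hS.Dd_props hne IH hF hFY).2
  rw [← h] at hv
  exact hv.2 a ((le_sSup hA : A ≤ sSup (Dd 𝒲 F)) ha)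

theorem Sys.Dd_conj (hS : Sys Y₁ Y₂ Γ 𝒲) {F : Submodule k M}
    {A : Subgroup (LinearMap.GeneralLinearGroup k M)} (hA : A ∈ Dd 𝒲 F)
    {u : LinearMap.GeneralLinearGroup k M} (hu : u ∈ sSup (Dd 𝒲 F)) :
    A.map (MulAut.conj u).toMonoidHom ∈ Dd 𝒲 F := by
  have huΓ : u ∈ Γ := (_root_.sSup_le fun B hB => hS.sub B hB.1 : sSup (Dd 𝒲 F) ≤ Γ) hu
  refine ⟨hS.conj A hA.1 u huΓ, ?_⟩
  have hu' : u ∈ stabSub F := (_root_.sSup_le fun B hB => hB.2 : sSup (Dd 𝒲 F) ≤ stabSub F) hu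
  rintro _ ⟨a, ha, rfl⟩
  exact (stabSub F).mul_mem ((stabSub F).mul_mem hu' (hA.2 ha)) ((stabSub F).inv_mem hu')

theorem Sys.no_two [FiniteDimensional k M] (hS : Sys Y₁ Y₂ Γ 𝒲) (hne : ¬ Y₂ ≤ Y₁)
    (IH : ∀ Z : Submodule k M, Y₁ ≤ Z → Z ≤ Y₂ → Z ≠ Y₁ → Z ≠ Y₂ →
      Uni (sSup (Dd 𝒲 Z)) Y₁ Y₂)
    (hY₂ : Y₂ ∉ Mn Y₁ Y₂ 𝒲) {F F' : Submodule k M} (hF : F ∈ Mn Y₁ Y₂ 𝒲)
    (hF' : F' ∈ Mn Y₁ Y₂ 𝒲) : F = F' := by
  by_contra hcon
  have hMnne : ∀ {X : Submodule k M}, X ∈ Mn Y₁ Y₂ 𝒲 → X ≠ Y₂ := fun hX h => hY₂ (h ▸ hX)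
  obtain ⟨Y, ⟨F, hF, F', hF', hFF', rfl⟩, hmin⟩ := IsArtinian.set_has_minimal
    {Y | ∃ F ∈ Mn Y₁ Y₂ 𝒲, ∃ F' ∈ Mn Y₁ Y₂ 𝒲, F ≠ F' ∧ Y = Fx (sSup (Dd 𝒲 F ∩ Dd 𝒲 F')) Y₁ Y₂}
    ⟨_, F, hF, F', hF', hcon, rfl⟩
  set ℬ := Dd 𝒲 F ∩ Dd 𝒲 F' with hℬ
  set Y := Fx (sSup ℬ) Y₁ Y₂ with hY
  have hFs : ∀ {X : Submodule k M}, X ∈ Mn Y₁ Y₂ 𝒲 → ℬ ⊆ Dd 𝒲 X → X ≤ Y := by
    intro X hX hsub v hv
    refine ⟨(hS.le_of_mem_Fam hX.1).2 hv, ?_⟩
    exact fix_sSup (fun A hA => (hS.sub A (hsub hA).1).trans hS.s₁)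
      (fun A hA a ha => hS.fix_of_Dd hne IH hX (hMnne hX) (hsub hA) ha hv)
  have hFY := hFs hF Set.inter_subset_left
  have hF'Y := hFs hF' Set.inter_subset_right
  have hFfix := (hS.Dd_props hne IH hF (hMnne hF)).2
  have hF'fix := (hS.Dd_props hne IH hF' (hMnne hF')).2
  have hcond : ∀ {X X' : Submodule k M}, X ∈ Mn Y₁ Y₂ 𝒲 → X' ∈ Mn Y₁ Y₂ 𝒲 → X ≠ X' → X' ≤ Y →
      ¬ Y ≤ X := by
    intro X X' hX hX' hXX' hX'Y hle
    have h1 : X' ≤ X := hX'Y.trans hle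
    exact hXX' (by_contra fun h => hX.2 X' hX'.1 (lt_of_le_of_ne h1 (Ne.symm h)))
  have hA₁ : ¬ Fx (sSup ℬ) Y₁ Y₂ ≤ Fx (sSup (Dd 𝒲 F)) Y₁ Y₂ := by
    rw [hFfix]; exact hcond hF hF' hFF' hF'Y
  have hA₂ : ¬ Fx (sSup ℬ) Y₁ Y₂ ≤ Fx (sSup (Dd 𝒲 F')) Y₁ Y₂ := by
    rw [hF'fix]; exact hcond hF' hF (Ne.symm hFF') hFY
  obtain ⟨A, hA, hAℬ, hAs⟩ := exists_A hS.le hS.s₁ hS.s₂ (fun B hB => hS.sub B hB.1)
    (hS.Dd_props hne IH hF (hMnne hF)).1 (fun B hB u hu => hS.Dd_conj hB hu)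
    Set.inter_subset_left hA₁
  obtain ⟨A', hA', hA'ℬ, hA's⟩ := exists_A hS.le hS.s₁ hS.s₂ (fun B hB => hS.sub B hB.1)
    (hS.Dd_props hne IH hF' (hMnne hF')).1 (fun B hB u hu => hS.Dd_conj hB hu)
    Set.inter_subset_right hA₂
  have hAF' : A ∉ Dd 𝒲 F' := fun h => hAℬ ⟨hA, h⟩
  have hA'F : A' ∉ Dd 𝒲 F := fun h => hA'ℬ ⟨h, hA'⟩
  -- a unipotent family containing `A`, `A'` and, if `Y ≠ Y₂`, all of `ℬ`
  obtain ⟨E, hE𝒲, hEU, hAE, hA'E, hYE⟩ : ∃ E ⊆ 𝒲, Uni (sSup E) Y₁ Y₂ ∧ A ∈ E ∧ A' ∈ E ∧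
      ∀ F₀, E ⊆ Dd 𝒲 F₀ → Fx (sSup (Dd 𝒲 F ∩ Dd 𝒲 F₀)) Y₁ Y₂ ≤ Y := by
    by_cases hYY : Y = Y₂
    · refine ⟨{A, A'}, ?_, ?_, Set.mem_insert _ _, Set.mem_insert_of_mem _ rfl, ?_⟩
      · rintro B (rfl | rfl)
        · exact hA.1
        · exact hA'.1
      · rw [sSup_pair]
        exact hS.pair A hA.1 A' hA'.1
      · intro F₀ _
        rw [hYY]
        exact inf_le_left
    · have hY1 : Y₁ ≤ Y := le_Fx hS.le ((hS.sSup_le fun B hB => hB.1.1).trans hS.s₁)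
      have hYne : Y ≠ Y₁ := by
        intro h
        exact hS.not_le_of_mem_Fam hne hF.1 (h ▸ hFY)
      refine ⟨Dd 𝒲 Y, fun B hB => hB.1, IH Y hY1 inf_le_left hYne hYY, ⟨hA.1, hAs⟩, ⟨hA'.1, hA's⟩, ?_⟩
      intro F₀ hF₀
      have hsubset : ℬ ⊆ Dd 𝒲 F ∩ Dd 𝒲 F₀ := by
        intro B hB
        refine ⟨hB.1, hF₀ ?_⟩
        exact Dd_of_fix hB.1.1 hY1 fun b hb v hv => hv.2 b ((le_sSup hB : B ≤ sSup ℬ) hb)
      exact Fx_anti (sSup_le_sSup hsubset) Y₁ Y₂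
  have hT : Fx (sSup E) Y₁ Y₂ ∈ Fam Y₁ Y₂ 𝒲 := ⟨E, hE𝒲, hEU, rfl⟩
  obtain ⟨F₀, hF₀, hF₀T⟩ := Fam.exists_min hT
  have hF₀1 := hS.le_of_mem_Fam hF₀.1
  have hEF₀ : E ⊆ Dd 𝒲 F₀ := by
    intro B hB
    exact Dd_of_fix (hE𝒲 hB) hF₀1.1 fun b hb v hv =>
      (hF₀T hv).2 b ((le_sSup hB : B ≤ sSup E) hb)
  have hF₀F : F ≠ F₀ := by
    intro h
    exact hA'F (h ▸ hEF₀ hA'E)
  have hY₀le := hYE F₀ hEF₀
  have hY₀ne : Fx (sSup (Dd 𝒲 F ∩ Dd 𝒲 F₀)) Y₁ Y₂ ≠ Y := by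
    intro h
    apply hAF'
    refine Dd_of_fix hA.1 (hS.le_of_mem_Fam hF'.1).1 fun a ha v hv => ?_
    have hv' := hF'Y hv
    rw [← h] at hv'
    have hAle : A ≤ sSup (Dd 𝒲 F ∩ Dd 𝒲 F₀) := le_sSup (⟨hA, hEF₀ hAE⟩ : A ∈ Dd 𝒲 F ∩ Dd 𝒲 F₀)
    exact hv'.2 a (hAle ha)
  exact hmin _ ⟨F, hF, F₀, hF₀, hF₀F, rfl⟩ (lt_of_le_of_ne hY₀le hY₀ne)

theorem Sys.step [FiniteDimensional k M] (hS : Sys Y₁ Y₂ Γ 𝒲) (hne : ¬ Y₂ ≤ Y₁)
    (IH : ∀ Z : Submodule k M, Y₁ ≤ Z → Z ≤ Y₂ → Z ≠ Y₁ → Z ≠ Y₂ →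
      Uni (sSup (Dd 𝒲 Z)) Y₁ Y₂) :
    Uni (sSup 𝒲) Y₁ Y₂ := by
  by_cases hY₂ : Y₂ ∈ Mn Y₁ Y₂ 𝒲
  · -- everything acts trivially on the section
    have hall : ∀ A ∈ 𝒲, ∀ a ∈ A, ∀ v ∈ Y₂, ap a v - v ∈ Y₁ := by
      intro A hA a ha v hv
      have hU : Uni (sSup {A}) Y₁ Y₂ := by
        rw [sSup_singleton]
        have := hS.pair A hA A hA
        rwa [sup_idem] at this
      have hmem : Fx (sSup {A}) Y₁ Y₂ ∈ Fam Y₁ Y₂ 𝒲 :=
        ⟨{A}, by simpa using hA, hU, rfl⟩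
      have heq : Fx (sSup {A}) Y₁ Y₂ = Y₂ := by
        by_contra hcon
        exact hY₂.2 _ hmem (lt_of_le_of_ne inf_le_left hcon)
      rw [← heq, sSup_singleton] at hv
      exact hv.2 a ha
    refine ⟨1, fun v hv => ⟨hv, ?_⟩⟩
    exact fix_sSup (fun A hA => (hS.sub A hA).trans hS.s₁)
      (fun A hA a ha => hall A hA a ha v hv)
  · have hMnne : ∀ {X : Submodule k M}, X ∈ Mn Y₁ Y₂ 𝒲 → X ≠ Y₂ := fun hX h => hY₂ (h ▸ hX)
    have hY₂F : Y₂ ∈ Fam Y₁ Y₂ 𝒲 := by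
      refine ⟨∅, Set.empty_subset _, ⟨1, fun v hv => ⟨hv, ?_⟩⟩, ?_⟩
      · intro g hg
        rw [sSup_empty, Subgroup.mem_bot] at hg
        rw [hg, ap_one, sub_self]
        exact Y₁.zero_mem
      · apply le_antisymm
        · intro v hv
          refine ⟨hv, ?_⟩
          intro g hg
          rw [sSup_empty, Subgroup.mem_bot] at hg
          rw [hg, ap_one, sub_self]
          exact Y₁.zero_mem
        · exact inf_le_left
    obtain ⟨F, hF, -⟩ := Fam.exists_min hY₂F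
    have hF1 := hS.le_of_mem_Fam hF.1
    have hF2 := hS.not_le_of_mem_Fam hne hF.1
    have hDF := hS.Dd_props hne IH hF (hMnne hF)
    -- conjugates of `Dd F` again fix `F`
    have hcfix : ∀ g ∈ Γ, ∀ A ∈ Dd 𝒲 F, ∀ a ∈ A, ∀ v ∈ F, ap (g * a * g⁻¹) v - v ∈ Y₁ := by
      intro g hg A hA a ha v hv
      let D' : Set (Subgroup (LinearMap.GeneralLinearGroup k M)) :=
        (fun B => B.map (MulAut.conj g).toMonoidHom) '' Dd 𝒲 F
      have hD'𝒲 : D' ⊆ 𝒲 := by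
        rintro _ ⟨B, hB, rfl⟩
        exact hS.conj B hB.1 g hg
      have hD'le : sSup D' ≤ (sSup (Dd 𝒲 F)).map (MulAut.conj g).toMonoidHom := by
        refine _root_.sSup_le ?_
        rintro _ ⟨B, hB, rfl⟩
        exact Subgroup.map_mono (le_sSup hB)
      have hU' : Uni (sSup D') Y₁ Y₂ :=
        uni_mono hD'le (uni_conj (hS.s₁ hg) (hS.s₂ hg) hDF.1)
      have hT : Fx (sSup D') Y₁ Y₂ ∈ Fam Y₁ Y₂ 𝒲 := ⟨D', hD'𝒲, hU', rfl⟩
      obtain ⟨F₁, hF₁, hF₁T⟩ := Fam.exists_min hT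
      have heq : F₁ = F := hS.no_two hne IH hY₂ hF₁ hF
      rw [heq] at hF₁T
      have hAle : A.map (MulAut.conj g).toMonoidHom ≤ sSup D' := le_sSup ⟨A, hA, rfl⟩
      exact (hF₁T hv).2 (g * a * g⁻¹) (hAle ⟨a, ha, rfl⟩)
    -- hence `Γ` stabilizes `F`
    have hΓF : Γ ≤ stabSub F := by
      refine le_stabSub fun g hg v hv => ?_
      rw [← hDF.2]
      refine ⟨(hS.s₂ hg).1 v (hF1.2 hv), fun h hh => ?_⟩
      have hle : sSup (Dd 𝒲 F) ≤ (fixSub v Y₁).comap (MulAut.conj g⁻¹).toMonoidHom := by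
        refine _root_.sSup_le fun A hA a ha => ?_
        have ha' : g⁻¹ * a * g⁻¹⁻¹ ∈ Γ :=
          Γ.mul_mem (Γ.mul_mem (Γ.inv_mem hg) (hS.sub A hA.1 ha)) (Γ.inv_mem (Γ.inv_mem hg))
        exact ⟨hS.s₁ ha', hcfix g⁻¹ (Γ.inv_mem hg) A hA a ha v hv⟩
      have h1 := (hle hh).2
      have h2 := (hS.s₁ hg).1 _ h1
      convert h2 using 1
      rw [ap_sub]
      congr 1
      simp only [MulEquiv.toMonoidHom_eq_coe, MonoidHom.coe_coe, MulAut.conj_apply, inv_inv, ap_mul,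
        ap_ap_inv]
    have hall : Dd 𝒲 F = 𝒲 := by
      apply Set.eq_of_subset_of_subset (fun A hA => hA.1)
      exact fun A hA => ⟨hA, (hS.sub A hA).trans hΓF⟩
    rw [← hall]
    exact hDF.1

theorem main_sec [FiniteDimensional k M] (d : ℕ) : ∀ (Y₁ Y₂ : Submodule k M)
    (Γ : Subgroup (LinearMap.GeneralLinearGroup k M))
    (𝒲 : Set (Subgroup (LinearMap.GeneralLinearGroup k M))), Sys Y₁ Y₂ Γ 𝒲 →
    Module.finrank k Y₂ ≤ Module.finrank k Y₁ + d → Uni (sSup 𝒲) Y₁ Y₂ := by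
  induction d with
  | zero =>
    intro Y₁ Y₂ Γ 𝒲 hS hd
    have : Y₁ = Y₂ := Submodule.eq_of_le_of_finrank_le hS.le hd
    exact ⟨0, this ▸ le_rfl⟩
  | succ d ih =>
    intro Y₁ Y₂ Γ 𝒲 hS hd
    by_cases hne : Y₂ ≤ Y₁
    · exact ⟨0, hne⟩
    refine hS.step hne fun Z hZ1 hZ2 hZne1 hZne2 => ?_
    have hsub : ∀ A ∈ Dd 𝒲 Z, A ≤ Γ ⊓ stabSub Z := fun A hA => le_inf (hS.sub A hA.1) hA.2
    have hconj : ∀ A ∈ Dd 𝒲 Z, ∀ g ∈ Γ ⊓ stabSub Z, A.map (MulAut.conj g).toMonoidHom ∈ Dd 𝒲 Z := by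
      intro A hA g hg
      refine ⟨hS.conj A hA.1 g hg.1, ?_⟩
      rintro _ ⟨a, ha, rfl⟩
      exact (stabSub Z).mul_mem ((stabSub Z).mul_mem hg.2 (hA.2 ha)) ((stabSub Z).inv_mem hg.2)
    have hS₁ : Sys Y₁ Z (Γ ⊓ stabSub Z) (Dd 𝒲 Z) :=
      { le := hZ1
        s₁ := inf_le_left.trans hS.s₁
        s₂ := inf_le_right
        sub := hsub
        conj := hconj
        pair := fun A hA B hB =>
          uni_section le_rfl hZ2 (sup_le hA.2 hB.2) (hS.pair A hA.1 B hB.1) }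
    have hS₂ : Sys Z Y₂ (Γ ⊓ stabSub Z) (Dd 𝒲 Z) :=
      { le := hZ2
        s₁ := inf_le_right
        s₂ := inf_le_left.trans hS.s₂
        sub := hsub
        conj := hconj
        pair := fun A hA B hB =>
          uni_section hZ1 le_rfl ((sup_le (hS.sub A hA.1) (hS.sub B hB.1)).trans hS.s₂)
            (hS.pair A hA.1 B hB.1) }
    have h1 : Module.finrank k Y₁ < Module.finrank k Z :=
      Submodule.finrank_lt_finrank_of_lt (lt_of_le_of_ne hZ1 (Ne.symm hZne1))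
    have h2 : Module.finrank k Z < Module.finrank k Y₂ :=
      Submodule.finrank_lt_finrank_of_lt (lt_of_le_of_ne hZ2 hZne2)
    exact uni_glue hZ2 (ih Y₁ Z _ _ hS₁ (by omega)) (ih Z Y₂ _ _ hS₂ (by omega))

end main

/-! ### Back to `IsUnipotentOn` -/

theorem uni_of_isUnipotentOn {H : Subgroup (LinearMap.GeneralLinearGroup k M)}
    (h : Cfsg.IsUnipotentOn H) : Uni H ⊥ ⊤ := by
  obtain ⟨n, hn⟩ := h
  have key : ∀ (i : ℕ) (v : M),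
      (∀ l : List (LinearMap.GeneralLinearGroup k M), (∀ g ∈ l, g ∈ H) → l.length = i →
        (l.map fun g => (g : M →ₗ[k] M) - 1).prod v = 0) → v ∈ Lw H ⊥ ⊤ i := by
    intro i
    induction i with
    | zero =>
      intro v hv
      have := hv [] (by simp) rfl
      simpa [Lw] using this
    | succ i ih =>
      intro v hv
      refine ⟨trivial, fun g hg => ih _ fun l hl hlen => ?_⟩
      have := hv (l ++ [g]) (by
        intro x hx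
        rcases List.mem_append.1 hx with hx | hx
        · exact hl x hx
        · rw [List.mem_singleton] at hx
          exact hx ▸ hg) (by simp [hlen])
      simpa [List.map_append, List.prod_append, ap] using this
  refine ⟨n, fun v _ => key n v fun l hl hlen => ?_⟩
  rw [hn l hl hlen]
  simp

theorem isUnipotentOn_of_uni {H : Subgroup (LinearMap.GeneralLinearGroup k M)}
    (h : Uni H ⊥ ⊤) : Cfsg.IsUnipotentOn H := by
  obtain ⟨n, hn⟩ := h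
  refine ⟨n, fun l hl hlen => ?_⟩
  have key : ∀ (l : List (LinearMap.GeneralLinearGroup k M)), (∀ g ∈ l, g ∈ H) →
      ∀ v ∈ Lw H ⊥ ⊤ l.length, (l.map fun g => (g : M →ₗ[k] M) - 1).prod v = 0 := by
    intro l
    induction l using List.reverseRecOn with
    | nil =>
      intro _ v hv
      simpa [Lw] using hv
    | append_singleton l g ih =>
      intro hl v hv
      have hg : g ∈ H := hl g (by simp)
      have h1 : v ∈ Lw H ⊥ ⊤ (l.length + 1) := by simpa using hv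
      have h2 := ih (fun x hx => hl x (by simp [hx])) _ (h1.2 g hg)
      simpa [List.map_append, List.prod_append, ap] using h2
  ext v
  have := key l hl v (by rw [hlen]; exact hn trivial)
  simpa using this

end mod

theorem main_result {k : Type*} [Field k] {M : Type*} [AddCommGroup M] [Module k M] [FiniteDimensional k M]
    {G : Subgroup (LinearMap.GeneralLinearGroup k M)} {W : Set (Subgroup (LinearMap.GeneralLinearGroup k M))} (hWG : ∀ A ∈ W, A ≤ G)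
    (hWW : ∀ A ∈ W, ∀ B ∈ W, Cfsg.IsUnipotentOn (A ⊔ B)) (hWconj : ∀ A ∈ W, ∀ g ∈ G, Cfsg.conjBy A g ∈ W) :
    Cfsg.IsUnipotentOn (⨆ A ∈ W, A) ∧ ∀ g ∈ G, Cfsg.conjBy (⨆ A ∈ W, A) g = ⨆ A ∈ W, A := by
  rw [← sSup_eq_iSup]
  constructor
  · apply isUnipotentOn_of_uni
    refine main_sec (Module.finrank k (⊤ : Submodule k M)) ⊥ ⊤ G W ?_ (by omega)
    exact
      { le := bot_le
        s₁ := le_stabSub fun g _ v hv => by
          rw [Submodule.mem_bot] at hv ⊢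
          rw [hv, ap_zero]
        s₂ := le_stabSub fun _ _ _ _ => trivial
        sub := hWG
        conj := hWconj
        pair := fun A hA B hB => uni_of_isUnipotentOn (hWW A hA B hB) }
  · intro g hg
    apply le_antisymm
    · rw [Subgroup.map_le_iff_le_comap]
      refine sSup_le fun A hA a ha => ?_
      exact (le_sSup (hWconj A hA g hg) : Cfsg.conjBy A g ≤ sSup W) ⟨a, ha, rfl⟩
    · refine sSup_le fun A hA x hx => ?_
      have h1 : g⁻¹ * x * g ∈ sSup W := by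
        refine (le_sSup (hWconj A hA g⁻¹ (G.inv_mem hg)) : Cfsg.conjBy A g⁻¹ ≤ sSup W) ⟨x, hx, ?_⟩
        simp
      refine ⟨_, h1, ?_⟩
      simp [mul_assoc]


/-- Let M be a finite-dimensional vector space over a field k, G ≤ GL(M), and 𝒲 a set of subgroups of G, invariant under conjugation by G, such that any two members of 𝒲 generate a subgroup acting unipotently on M (for some n all products of n endomorphisms g − 1 from it vanish). Then the subgroup generated by all members of 𝒲 acts unipotently on M and is normal in G. -/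
theorem result {k : Type*} [Field k] {M : Type*} [AddCommGroup M] [Module k M] [FiniteDimensional k M]
    {G : Subgroup (LinearMap.GeneralLinearGroup k M)} {W : Set (Subgroup (LinearMap.GeneralLinearGroup k M))} (hWG : ∀ A ∈ W, A ≤ G)
    (hWW : ∀ A ∈ W, ∀ B ∈ W, Cfsg.IsUnipotentOn (A ⊔ B)) (hWconj : ∀ A ∈ W, ∀ g ∈ G, Cfsg.conjBy A g ∈ W) :
    Cfsg.IsUnipotentOn (⨆ A ∈ W, A) ∧ ∀ g ∈ G, Cfsg.conjBy (⨆ A ∈ W, A) g = ⨆ A ∈ W, A := by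
  exact main_result hWG hWW hWconj

end Cfsg.Agent.S5061
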