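import Cfsg.Statements.S2589
import Cfsg.Agent.Lib.Wall.PolarForm

set_option autoImplicit false
open Cfsg

namespace Cfsg.Agent.S2589

open Cfsg.Agent.Lib.Wall.PolarForm Cfsg.Agent.Lib.Classical.SympForm
open scoped Matrix

/-- Two semisimple elements of the finite symplectic group Sp_2m(F) (elements of order prime to the characteristic) are conjugate in Sp_2m(F) if and only if they are conjugate in GL_2m(F). -/
theorem result {F : Type*} [Field F] [Fintype F] {p : ℕ} [Fact p.Prime] [CharP F p] {m : ℕ} (A B : Matrix.symplecticGroup (Fin m) F) (hA : (orderOf A).Coprime p) : IsConj A B ↔ IsConj (A : Matrix (Fin m ⊕ Fin m) (Fin m ⊕ Fin m) F) (B : Matrix (Fin m ⊕ Fin m) (Fin m ⊕ Fin m) F) := by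
  classical
  haveI : Fact p.Prime := inferInstance
  constructor
  · intro h
    exact MonoidHom.map_isConj (Matrix.symplecticGroup (Fin m) F).subtype h
  · rintro ⟨c, hc⟩
    let φ := Matrix.toLinAlgEquiv' (R := F) (n := Fin m ⊕ Fin m)
    have hφ : ∀ (M : Matrix (Fin m ⊕ Fin m) (Fin m ⊕ Fin m) F) x, φ M x = M *ᵥ x := fun M x => Matrix.toLinAlgEquiv'_apply M x
    let C := sympBilin m F
    have hcm : (c : Matrix (Fin m ⊕ Fin m) (Fin m ⊕ Fin m) F) * A = B * c := hc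
    have hA1 : (A : Matrix (Fin m ⊕ Fin m) (Fin m ⊕ Fin m) F) * ((A⁻¹ : Matrix.symplecticGroup (Fin m) F) : Matrix (Fin m ⊕ Fin m) (Fin m ⊕ Fin m) F) = 1 :=
      congrArg Subtype.val (mul_inv_cancel A)
    have hA2 : ((A⁻¹ : Matrix.symplecticGroup (Fin m) F) : Matrix (Fin m ⊕ Fin m) (Fin m ⊕ Fin m) F) * (A : Matrix (Fin m ⊕ Fin m) (Fin m ⊕ Fin m) F) = 1 :=
      congrArg Subtype.val (inv_mul_cancel A)
    have hB1 : (B : Matrix (Fin m ⊕ Fin m) (Fin m ⊕ Fin m) F) * ((B⁻¹ : Matrix.symplecticGroup (Fin m) F) : Matrix (Fin m ⊕ Fin m) (Fin m ⊕ Fin m) F) = 1 :=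
      congrArg Subtype.val (mul_inv_cancel B)
    have hB2 : ((B⁻¹ : Matrix.symplecticGroup (Fin m) F) : Matrix (Fin m ⊕ Fin m) (Fin m ⊕ Fin m) F) * (B : Matrix (Fin m ⊕ Fin m) (Fin m ⊕ Fin m) F) = 1 :=
      congrArg Subtype.val (inv_mul_cancel B)
    have hAn : (A : Matrix (Fin m ⊕ Fin m) (Fin m ⊕ Fin m) F) ^ orderOf A = 1 := by
      have := congrArg Subtype.val (pow_orderOf_eq_one A)
      exact this
    have hBn : (B : Matrix (Fin m ⊕ Fin m) (Fin m ⊕ Fin m) F) ^ orderOf A = 1 := by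
      have h1 : SemiconjBy (c : Matrix (Fin m ⊕ Fin m) (Fin m ⊕ Fin m) F) (A : Matrix (Fin m ⊕ Fin m) (Fin m ⊕ Fin m) F) B := hc
      have h3 := (h1.pow_right (orderOf A)).eq
      rw [hAn, mul_one] at h3
      have h4 : ((c⁻¹ : (Matrix (Fin m ⊕ Fin m) (Fin m ⊕ Fin m) F)ˣ) : Matrix (Fin m ⊕ Fin m) (Fin m ⊕ Fin m) F) * c = 1 := c.inv_mul
      have h5 : (c : Matrix (Fin m ⊕ Fin m) (Fin m ⊕ Fin m) F) * ((c⁻¹ : (Matrix (Fin m ⊕ Fin m) (Fin m ⊕ Fin m) F)ˣ) : Matrix (Fin m ⊕ Fin m) (Fin m ⊕ Fin m) F) = 1 := c.mul_inv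
      calc (B : Matrix (Fin m ⊕ Fin m) (Fin m ⊕ Fin m) F) ^ orderOf A = (B : Matrix (Fin m ⊕ Fin m) (Fin m ⊕ Fin m) F) ^ orderOf A * (c * ((c⁻¹ : (Matrix (Fin m ⊕ Fin m) (Fin m ⊕ Fin m) F)ˣ) : Matrix (Fin m ⊕ Fin m) (Fin m ⊕ Fin m) F)) := by rw [h5, mul_one]
        _ = ((B : Matrix (Fin m ⊕ Fin m) (Fin m ⊕ Fin m) F) ^ orderOf A * c) * ((c⁻¹ : (Matrix (Fin m ⊕ Fin m) (Fin m ⊕ Fin m) F)ˣ) : Matrix (Fin m ⊕ Fin m) (Fin m ⊕ Fin m) F) := by rw [mul_assoc]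
        _ = 1 := by rw [← h3, h5]
    have hn : ((orderOf A : ℕ) : F) ≠ 0 := by
      intro h0
      have h1 : p ∣ orderOf A := (CharP.cast_eq_zero_iff F p _).mp h0
      have h3 := Nat.eq_one_of_dvd_coprimes hA h1 (dvd_refl p)
      exact (Fact.out : p.Prime).one_lt.ne' h3
    have hC := sympBilin_nondegenerate (m := m) (F := F)
    have hAlt := sympBilin_isAlt (m := m) (F := F)
    obtain ⟨ℓ, hℓ⟩ := exists_pi_alt (C := C) hC hAlt (a := φ A) (a' := φ ((A⁻¹ : Matrix.symplecticGroup (Fin m) F) : Matrix (Fin m ⊕ Fin m) (Fin m ⊕ Fin m) F))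
      (b := φ B) (b' := φ ((B⁻¹ : Matrix.symplecticGroup (Fin m) F) : Matrix (Fin m ⊕ Fin m) (Fin m ⊕ Fin m) F))
      (G := φ c) (G' := φ ((c⁻¹ : (Matrix (Fin m ⊕ Fin m) (Fin m ⊕ Fin m) F)ˣ) : Matrix (Fin m ⊕ Fin m) (Fin m ⊕ Fin m) F))
      hn (by rw [← map_mul, hA1, map_one]) (by rw [← map_mul, hA2, map_one]) (by rw [← map_mul, hB1, map_one]) (by rw [← map_mul, hB2, map_one])
      (by rw [← map_mul, c.mul_inv, map_one]) (by rw [← map_mul, c.inv_mul, map_one])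
      (fun x y => by
        rw [hφ, hφ]
        exact (mem_symplecticGroup_iff _).mp A.2 x y)
      (fun x y => by
        rw [hφ, hφ]
        exact (mem_symplecticGroup_iff _).mp B.2 x y)
      (by rw [← map_mul, ← map_mul, hcm])
      (by rw [← map_pow, hAn, map_one]) (by rw [← map_pow, hBn, map_one])
    set M := φ.symm ℓ with hM
    have hφM : φ M = ℓ := φ.apply_symm_apply ℓ
    have hiso : ∀ x y, sympForm m F (M *ᵥ x) (M *ᵥ y) = sympForm m F x y := by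
      intro x y
      rw [← hφ, ← hφ, hφM]
      exact hℓ.iso x y
    have hMsp : M ∈ Matrix.symplecticGroup (Fin m) F := (mem_symplecticGroup_iff _).mpr hiso
    have hcomm : M * A = B * M := by
      apply φ.injective
      rw [map_mul, map_mul, hφM]
      exact hℓ.comm
    refine isConj_iff.mpr ⟨⟨M, hMsp⟩, ?_⟩
    rw [mul_inv_eq_iff_eq_mul]
    exact Subtype.ext hcomm

end Cfsg.Agent.S2589
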