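import Cfsg.Statements.S1012
import Cfsg.Agent.Lib.Small.Sieve
import Cfsg.Agent.Lib.SmallSimple.Count
-- import your own Cfsg.Agent.* helpers here

set_option autoImplicit false
open Cfsg

namespace Cfsg.Agent.S1012

/-- A group of order 24 containing no element of order 6 is isomorphic to the symmetric group of degree 4. -/
theorem result {G : Type*} [Group G] [Finite G] (h : Nat.card G = 24) (h6 : ∀ g : G, orderOf g ≠ 6) : Nonempty (G ≃* Equiv.Perm (Fin 4)) := by
  classical
  have h3f : Fact (Nat.Prime 3) := ⟨by norm_num⟩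
  have hG : Nat.card G = 3 ^ 1 * 8 := by rw [h]; norm_num
  obtain ⟨P⟩ : Nonempty (Sylow 3 G) := inferInstance
  have hcardP : Nat.card (P : Subgroup G) = 3 := by
    simpa using Cfsg.Agent.Lib.Small.Sieve.card_sylow_eq hG (by norm_num) P
  have hidx : (P : Subgroup G).index = 8 := Cfsg.Agent.Lib.Small.Sieve.index_sylow_eq hG (by norm_num) P
  have hn : Nat.card (Sylow 3 G) ∣ 8 := by rw [← hidx]; exact P.card_dvd_index
  have hmod : Nat.card (Sylow 3 G) % 3 = 1 := by
    have h1 := card_sylow_modEq_one 3 G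
    exact h1
  have hle := Nat.le_of_dvd (by norm_num) hn
  obtain ⟨y, hy⟩ : ∃ y : G, orderOf y = 3 := exists_prime_orderOf_dvd_card' 3 (by rw [h]; norm_num)
  have hno : ∀ z : G, orderOf z = 2 → ¬ (z * y = y * z) := by
    intro z hz hc
    apply h6 (z * y)
    rw [(show Commute z y from hc).orderOf_mul_eq_mul_orderOf_of_coprime (by rw [hz, hy]; norm_num), hz, hy]
  have hn1 : Nat.card (Sylow 3 G) ≠ 1 := by
    intro h1
    have hsub : Subsingleton (Sylow 3 G) := (Nat.card_eq_one_iff_unique.mp h1).1
    have hPn : (P : Subgroup G).Normal := Sylow.normal_of_subsingleton P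
    have hcyc : IsCyclic ↥(P : Subgroup G) := isCyclic_of_prime_card hcardP
    have hAut : Nat.card (MulAut ↥(P : Subgroup G)) = 2 := by
      rw [IsCyclic.card_mulAut, hcardP]; rfl
    let φ : G →* MulAut ↥(P : Subgroup G) := MulAut.conjNormal
    have hr : Nat.card φ.range ∣ 2 := by
      rw [← hAut]; exact Subgroup.card_subgroup_dvd_card _
    have hk := Subgroup.card_mul_index φ.ker
    rw [Subgroup.index_ker, h] at hk
    have h2k : 2 ∣ Nat.card φ.ker := by
      have hr' : Nat.card φ.range = 1 ∨ Nat.card φ.range = 2 := (Nat.dvd_prime Nat.prime_two).mp hr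
      rcases hr' with hr' | hr' <;> rw [hr'] at hk <;> omega
    have : Fact (Nat.Prime 2) := ⟨Nat.prime_two⟩
    obtain ⟨z, hz⟩ := exists_prime_orderOf_dvd_card' (G := φ.ker) 2 h2k
    have hyP : y ∈ (P : Subgroup G) := by
      have hpg : IsPGroup 3 (Subgroup.zpowers y) := by
        apply IsPGroup.of_card (n := 1)
        rw [Nat.card_zpowers, hy, pow_one]
      obtain ⟨Q, hQ⟩ := hpg.exists_le_sylow
      have : Q = P := Subsingleton.elim _ _
      subst this
      exact hQ (Subgroup.mem_zpowers y)
    apply hno (z : G)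
    · rw [Subgroup.orderOf_coe]; exact hz
    · have hzk : φ (z : G) = 1 := z.2
      have h5 := congrArg (fun e : MulAut ↥(P : Subgroup G) => ((e ⟨y, hyP⟩ : ↥(P : Subgroup G)) : G)) hzk
      have h6 : (z : G) * y * (z : G)⁻¹ = y := h5
      calc (z : G) * y = (z : G) * y * (z : G)⁻¹ * z := by group
        _ = y * z := by rw [h6]
  have hn4 : Nat.card (Sylow 3 G) = 4 := by
    interval_cases hc : Nat.card (Sylow 3 G) <;> simp_all
  -- the action on the four Sylow subgroups
  let e : Sylow 3 G ≃ Fin 4 := Finite.equivFinOfCardEq hn4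
  let φ : G →* Equiv.Perm (Sylow 3 G) := MulAction.toPermHom G (Sylow 3 G)
  let ψ : G →* Equiv.Perm (Fin 4) := (Equiv.permCongrHom e).toMonoidHom.comp φ
  have hnorm : Nat.card (Subgroup.normalizer ((P : Subgroup G) : Set G)) = 6 := by
    have h3 := Cfsg.Agent.Lib.SmallSimple.Count.card_sylow_mul_card_normalizer P
    rw [hn4, h] at h3
    omega
  have hφker : φ.ker ≤ Subgroup.normalizer ((P : Subgroup G) : Set G) := by
    intro x hx
    have h5 : φ x = 1 := hx
    have h6 : x • P = P := by
      have := congrArg (fun f : Equiv.Perm (Sylow 3 G) => f P) h5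
      exact this
    exact Sylow.smul_eq_iff_mem_normalizer.mp h6
  have hKdvd : Nat.card φ.ker ∣ 6 := by
    rw [← hnorm]; exact Subgroup.card_dvd_of_le hφker
  have h3k : ¬ 3 ∣ Nat.card φ.ker := by
    intro h3d
    obtain ⟨x, hx⟩ := exists_prime_orderOf_dvd_card' (G := φ.ker) 3 h3d
    have hx1 : ((x : G)) ≠ 1 := by
      intro hone
      have : x = 1 := Subtype.ext hone
      rw [this, orderOf_one] at hx
      omega
    have hall : ∀ Q : Sylow 3 G, (Q : Subgroup G) = Subgroup.zpowers (x : G) := by
      intro Q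
      have hQ : Nat.card (Q : Subgroup G) = 3 := Cfsg.Agent.Lib.SmallSimple.Count.card_sylow_of_card P Q hcardP
      apply Cfsg.Agent.Lib.SmallSimple.Count.sylow_eq_zpowers_of_card Q hQ _ hx1
      have h5 : φ (x : G) = 1 := x.2
      have h6 : (x : G) • Q = Q := by
        have := congrArg (fun f : Equiv.Perm (Sylow 3 G) => f Q) h5
        exact this
      have h7 : (x : G) ∈ Subgroup.normalizer ((Q : Subgroup G) : Set G) :=
        Sylow.smul_eq_iff_mem_normalizer.mp h6
      have hpg : IsPGroup 3 (Subgroup.zpowers (x : G)) := by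
        apply IsPGroup.of_card (n := 1)
        rw [Nat.card_zpowers, Subgroup.orderOf_coe, hx, pow_one]
      have h8 : (x : G) ∈ Subgroup.zpowers (x : G) ⊓ Subgroup.normalizer ((Q : Subgroup G) : Set G) :=
        ⟨Subgroup.mem_zpowers _, h7⟩
      exact ((hpg.inf_normalizer_sylow Q).le h8).2
    apply hn1
    have hsub : Subsingleton (Sylow 3 G) := ⟨fun Q R => Sylow.ext ((hall Q).trans (hall R).symm)⟩
    exact Nat.card_unique
  have h2k : Nat.card φ.ker ≠ 2 := by
    intro h2
    have : Fact (Nat.Prime 2) := ⟨Nat.prime_two⟩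
    obtain ⟨z, hz⟩ := exists_prime_orderOf_dvd_card' (G := φ.ker) 2 (by rw [h2])
    have hcyc : IsCyclic ↥φ.ker := isCyclic_of_prime_card h2
    have hAut : Nat.card (MulAut ↥φ.ker) = 1 := by
      rw [IsCyclic.card_mulAut, h2]; rfl
    have hsub : Subsingleton (MulAut ↥φ.ker) := (Nat.card_eq_one_iff_unique.mp hAut).1
    apply hno (z : G)
    · rw [Subgroup.orderOf_coe]; exact hz
    · have h5 : (MulAut.conjNormal (H := φ.ker) y) = 1 := Subsingleton.elim _ _
      have h6 := congrArg (fun f : MulAut ↥φ.ker => ((f z : ↥φ.ker) : G)) h5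
      have h7 : y * (z : G) * y⁻¹ = z := h6
      calc (z : G) * y = (y * (z : G) * y⁻¹) * y := by rw [h7]
        _ = y * z := by group
  have hK1 : Nat.card φ.ker = 1 := by
    have hle2 := Nat.le_of_dvd (by norm_num) hKdvd
    have hpos : 0 < Nat.card φ.ker := Nat.card_pos
    interval_cases hc : Nat.card φ.ker <;> simp_all
  have hφinj : Function.Injective φ := by
    rw [injective_iff_map_eq_one]
    intro a ha
    have hsub : Subsingleton φ.ker := (Nat.card_eq_one_iff_unique.mp hK1).1
    have : (⟨a, ha⟩ : φ.ker) = 1 := Subsingleton.elim _ _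
    exact congrArg Subtype.val this
  have hψinj : Function.Injective ψ := by
    intro a b hab
    apply hφinj
    exact (Equiv.permCongrHom e).injective hab
  have hbij : Function.Bijective ψ := by
    apply hψinj.bijective_of_nat_card_le
    rw [h, Nat.card_perm, Nat.card_fin]
    decide
  exact ⟨MulEquiv.ofBijective ψ hbij⟩

end Cfsg.Agent.S1012
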