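import Cfsg.Statements.S0580
import Mathlib.GroupTheory.Sylow
import Mathlib.GroupTheory.Nilpotent
import Mathlib.GroupTheory.Solvable
import Mathlib.GroupTheory.PGroup
import Cfsg.Agent.Lib.SolvStruct.Super3

set_option autoImplicit false
open Cfsg

namespace Cfsg.Agent.S0580

open Subgroup in
theorem aux {G : Type*} [Group G] [Finite G] (h : ∀ M : Subgroup G, IsCoatom M → M.index.Prime) : Group.IsSolvable G := by
  induction hn : Nat.card G using Nat.strong_induction_on generalizing G with
  | _ n ih =>
  subst hn
  rcases subsingleton_or_nontrivial G with hsub | hnt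
  · infer_instance
  · -- the largest prime
    have hne : (Nat.card G).primeFactors.Nonempty := by
      rw [Nat.nonempty_primeFactors]
      exact Finite.one_lt_card_iff_nontrivial.mpr hnt
    set p := (Nat.card G).primeFactors.max' hne with hp
    have hpmem : p ∈ (Nat.card G).primeFactors := Finset.max'_mem _ _
    have hpp : p.Prime := Nat.prime_of_mem_primeFactors hpmem
    haveI : Fact p.Prime := ⟨hpp⟩
    have hpG : p ∣ Nat.card G := Nat.dvd_of_mem_primeFactors hpmem
    have hmax : ∀ q : ℕ, q.Prime → q ∣ Nat.card G → q ≤ p := fun q hq hqd =>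
      Finset.le_max' _ _ (Nat.mem_primeFactors.mpr ⟨hq, hqd, Nat.card_pos.ne'⟩)
    obtain ⟨P⟩ : Nonempty (Sylow p G) := inferInstance
    have hnorm : normalizer ((P : Subgroup G) : Set G) = ⊤ := by
      by_contra hne
      obtain ⟨M, hM, hle⟩ := (eq_top_or_exists_le_coatom (normalizer ((P : Subgroup G) : Set G))).resolve_left hne
      have hPM : (P : Subgroup G) ≤ M := Subgroup.le_normalizer.trans hle
      let Q : Sylow p M := P.subtype hPM
      have h1 : Nat.card (Sylow p G) = (normalizer ((P : Subgroup G) : Set G)).index := Sylow.card_eq_index_normalizer P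
      have h2 : Nat.card (Sylow p M) = (normalizer ((P : Subgroup G) : Set G)).relIndex M := by
        have hQ : (Q : Subgroup M) = (P : Subgroup G).subgroupOf M := Sylow.coe_subtype _ _
        rw [Sylow.card_eq_index_normalizer Q, Subgroup.relIndex, Subgroup.subgroupOf_normalizer_eq hPM]
        change (normalizer ((Q : Subgroup M) : Set M)).index = _
        rw [hQ]
      have h3 := Subgroup.relIndex_mul_index hle
      rw [← h1, ← h2] at h3
      have h4 := card_sylow_modEq_one p G
      have h5 := card_sylow_modEq_one p M
      have h6 : M.index ≡ 1 [MOD p] := by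
        have h7 := h5.mul_right M.index
        rw [h3, one_mul] at h7
        exact h7.symm.trans h4
      have hq := h M hM
      have hqG : M.index ∣ Nat.card G := Subgroup.index_dvd_card M
      have hle' := hmax _ hq hqG
      have h1p : 1 < p := hpp.one_lt
      rcases eq_or_lt_of_le hle' with h8 | h8
      · rw [h8, Nat.ModEq, Nat.mod_self, Nat.mod_eq_of_lt h1p] at h6
        exact absurd h6 (by norm_num)
      · rw [Nat.ModEq, Nat.mod_eq_of_lt h8, Nat.mod_eq_of_lt h1p] at h6
        exact hq.one_lt.ne' h6
    haveI hPn : (P : Subgroup G).Normal := Subgroup.normalizer_eq_top_iff.mp hnorm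
    have hPnt : 1 < Nat.card P := by
      rw [P.card_eq_multiplicity]
      have : (Nat.card G).factorization p ≠ 0 := (Nat.Prime.factorization_pos_of_dvd hpp Nat.card_pos.ne' hpG).ne'
      exact Nat.one_lt_pow this hpp.one_lt
    have hcard := Cfsg.Agent.Lib.SolvStruct.Super3.card_quotient_mul (P : Subgroup G)
    have hlt : Nat.card (G ⧸ (P : Subgroup G)) < Nat.card G := by
      rw [← hcard]
      exact lt_mul_of_one_lt_left Nat.card_pos hPnt
    have hQ : Group.IsSolvable (G ⧸ (P : Subgroup G)) := by
      apply ih _ hlt _ rfl
      intro M hM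
      have := h (M.comap (QuotientGroup.mk' (P : Subgroup G))) ?_
      · rwa [Subgroup.index_comap_of_surjective _ (QuotientGroup.mk'_surjective _)] at this
      · exact isCoatom_comap_of_surjective (QuotientGroup.mk'_surjective _) hM
    haveI : Group.IsNilpotent (P : Subgroup G) := P.isPGroup'.isNilpotent
    exact Group.isSolvable_of_ker_le_range (P : Subgroup G).subtype (QuotientGroup.mk' (P : Subgroup G)) (by
      rw [QuotientGroup.ker_mk', Subgroup.range_subtype])

/-- If every maximal subgroup of a finite group has prime index, then the group is solvable. -/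
theorem result {G : Type*} [Group G] [Finite G] (h : ∀ M : Subgroup G, IsCoatom M → M.index.Prime) : Group.IsSolvable G := by
  exact aux h

end Cfsg.Agent.S0580
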