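import Mathlib
import Cfsg.Statements.S0303
import Cfsg.Agent.Lib.Classical.LowOmega.Generic
import Cfsg.Agent.Lib.Classical.LowOmega.Klein
import Cfsg.Agent.Lib.Classical.FieldTransfer
import Cfsg.Agent.Lib.Classical.QuadExt
import Cfsg.Agent.Lib.Classical.SL2Tori
import Cfsg.Agent.Lib.Classical.HermBridge
import Cfsg.Agent.Lib.Orth.Closure
import Cfsg.Agent.Lib.Orth.Forms
import Cfsg.Agent.S0278
import Cfsg.Agent.S0283
import Cfsg.Agent.S0288
-- import your own Cfsg.Agent.* helpers here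

set_option autoImplicit false
open Cfsg

namespace Cfsg.Agent.S0303

open Matrix Cfsg QuadraticAlgebra Cfsg.Agent.Lib.Classical.LowOmega Cfsg.Agent.Lib.Classical.LowOmega.Klein
open scoped MatrixGroups

section model

variable {F : Type*} [Field F] {a b : F}

/-- The quadratic extension with norm `z₁² + a z₁ z₂ + b z₂²`. -/
abbrev KK (a b : F) := QuadraticAlgebra F (-b) a

/-- The action of `SL₄(K)` on `K⁶`, as `F`-linear maps. -/
noncomputable def tauSL [Fact (∀ r : F, r ^ 2 ≠ -b + a * r)] :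
    SL(4, KK a b) →* Module.End F (Fin 6 → KK a b) where
  toFun g := (Matrix.mulVecLin (P g.1)).restrictScalars F
  map_one' := by
    apply LinearMap.ext
    intro x
    show P (1 : SL(4, KK a b)).1 *ᵥ x = x
    rw [Matrix.SpecialLinearGroup.coe_one, P_one, Matrix.one_mulVec]
  map_mul' g h := by
    apply LinearMap.ext
    intro x
    show P (g * h).1 *ᵥ x = P g.1 *ᵥ (P h.1 *ᵥ x)
    rw [Matrix.SpecialLinearGroup.coe_mul, P_mul, Matrix.mulVec_mulVec]

/-- The semilinear involution on `K⁶`. -/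
def thet (x : Fin 6 → KK a b) : Fin 6 → KK a b :=
  ![star (x 5), - star (x 4), star (x 3), star (x 2), - star (x 1), star (x 0)]

theorem thet_eq (x : Fin 6 → KK a b) :
    thet x = S6 (KK a b) *ᵥ ((starRingEnd (KK a b)) ∘ x) := by
  ext1 i
  fin_cases i <;> simp [thet, S6, Matrix.mulVec, dotProduct, Fin.sum_univ_six, starRingEnd_apply]

theorem thet_neg (x : Fin 6 → KK a b) : thet (- x) = - thet x := by
  ext1 i
  fin_cases i <;> simp [thet]

theorem thet_add (x y : Fin 6 → KK a b) : thet (x + y) = thet x + thet y := by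
  ext1 i
  fin_cases i <;> simp [thet] <;> ring

theorem thet_smul (c : KK a b) (x : Fin 6 → KK a b) : thet (c • x) = star c • thet x := by
  ext1 i
  fin_cases i <;> simp [thet]

theorem thet_thet (x : Fin 6 → KK a b) : thet (thet x) = x := by
  ext1 i
  fin_cases i <;> simp [thet]

/-- Every vector of `K⁶` is a combination of two `θ`-fixed vectors. -/
theorem exists_decomp [Fact (∀ r : F, r ^ 2 ≠ -b + a * r)] (hD : 4 * b - a ^ 2 ≠ 0) (x : Fin 6 → KK a b) :
    ∃ y₁ y₂ : Fin 6 → KK a b, thet y₁ = y₁ ∧ thet y₂ = y₂ ∧ x = y₁ + (ω : KK a b) • y₂ := by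
  have hd : (ω : KK a b) - star ω ≠ 0 := by
    intro h
    have h1 := congrArg QuadraticAlgebra.im h
    have h2 := congrArg QuadraticAlgebra.re h
    simp at h1 h2
    apply hD
    have h3 : (2 : F) = 0 := by linear_combination h1
    rw [h2]
    linear_combination (2 * b) * h3
  set d : KK a b := (ω : KK a b) - star ω with hdd
  have hsd : star d = - d := by
    rw [hdd]
    simp
  have hd' : star (d⁻¹) = - d⁻¹ := by
    rw [star_inv₀, hsd, inv_neg]
  set y₂ : Fin 6 → KK a b := d⁻¹ • (x - thet x) with hy₂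
  have hdy : d • y₂ = x - thet x := by
    rw [hy₂, smul_smul, mul_inv_cancel₀ hd, one_smul]
  have hθ2 : thet y₂ = y₂ := by
    rw [hy₂, thet_smul, hd', sub_eq_add_neg, thet_add, thet_neg, thet_thet]
    ext1 i
    simp only [Pi.smul_apply, Pi.add_apply, Pi.neg_apply, smul_eq_mul]
    ring
  refine ⟨x + (- (ω : KK a b)) • y₂, y₂, ?_, hθ2, ?_⟩
  · rw [thet_add, thet_smul, hθ2]
    ext1 i
    have h := congrFun hdy i
    simp only [Pi.smul_apply, Pi.sub_apply, smul_eq_mul] at h
    simp only [Pi.smul_apply, Pi.add_apply, smul_eq_mul, star_neg, star_star]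
    rw [hdd] at h
    linear_combination h
  · ext1 i
    simp only [Pi.smul_apply, Pi.add_apply, smul_eq_mul]
    ring

/-- The `F`-linear map from `K³` to the `θ`-fixed points. -/
noncomputable def secL [Fact (∀ r : F, r ^ 2 ≠ -b + a * r)] : (KK a b × KK a b × KK a b) →ₗ[F] (Fin 6 → KK a b) where
  toFun w := ![w.1, w.2.1, w.2.2, star w.2.2, - star w.2.1, star w.1]
  map_add' u v := by
    ext1 i
    fin_cases i <;> simp <;> ring
  map_smul' c u := by
    ext1 i
    fin_cases i
    · simp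
    · simp
    · simp
    · ext <;> simp <;> ring
    · ext <;> simp <;> ring
    · ext <;> simp <;> ring

/-- The `F`-linear retraction. -/
noncomputable def retL [Fact (∀ r : F, r ^ 2 ≠ -b + a * r)] : (Fin 6 → KK a b) →ₗ[F] (KK a b × KK a b × KK a b) where
  toFun x := (x 0, x 1, x 2)
  map_add' u v := rfl
  map_smul' c u := rfl

variable [Fact (∀ r : F, r ^ 2 ≠ -b + a * r)]

theorem retL_secL (w : KK a b × KK a b × KK a b) : retL (secL w) = w := by
  simp [retL, secL]

theorem secL_retL {x : Fin 6 → KK a b} (h : thet x = x) : secL (retL x) = x := by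
  have e0 := congrFun h 0
  have e1 := congrFun h 1
  have e2 := congrFun h 2
  simp [thet] at e0 e1 e2
  ext1 i
  fin_cases i
  · simp [retL, secL]
  · simp [retL, secL]
  · simp [retL, secL]
  · simp [retL, secL]
    rw [← e2]; simp
  · simp [retL, secL]
    rw [← e1]; simp
  · simp [retL, secL]
    rw [← e0]; simp

theorem thet_secL (w : KK a b × KK a b × KK a b) : thet (secL w) = secL w := by
  ext1 i
  fin_cases i <;> simp [thet, secL]

theorem pf_secL (w : KK a b × KK a b × KK a b) :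
    pf (secL w) = w.1 * star w.1 + w.2.1 * star w.2.1 + w.2.2 * star w.2.2 := by
  simp [pf, secL]

variable (a b) in
/-- The norm-like quadratic function on `K³` as a value in `F`. -/
noncomputable def normSum (w : KK a b × KK a b × KK a b) : F :=
  QuadraticAlgebra.norm w.1 + QuadraticAlgebra.norm w.2.1 + QuadraticAlgebra.norm w.2.2

theorem pf_secL' (w : KK a b × KK a b × KK a b) :
    pf (secL w) = algebraMap F (KK a b) (normSum a b w) := by
  rw [pf_secL, normSum, map_add, map_add, QuadraticAlgebra.algebraMap_norm_eq_mul_star,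
    QuadraticAlgebra.algebraMap_norm_eq_mul_star, QuadraticAlgebra.algebraMap_norm_eq_mul_star]

section coordinate

variable (hD : 4 * b - a ^ 2 ≠ 0)

include hD in
theorem gram1 (y₀ y₁ : F) :
    2 * ((2 * b * y₀ - a * y₁) / (4 * b - a ^ 2)) + a * ((2 * y₁ - a * y₀) / (4 * b - a ^ 2)) = y₀ := by
  generalize hDD : 4 * b - a ^ 2 = D at hD ⊢
  field_simp
  linear_combination y₀ * hDD

include hD in
theorem gram2 (y₀ y₁ : F) :
    a * ((2 * b * y₀ - a * y₁) / (4 * b - a ^ 2)) + 2 * b * ((2 * y₁ - a * y₀) / (4 * b - a ^ 2)) = y₁ := by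
  generalize hDD : 4 * b - a ^ 2 = D at hD ⊢
  field_simp
  linear_combination y₁ * hDD

include hD in
theorem gram3 (u₁ u₂ : F) :
    (2 * b * (2 * u₁ + a * u₂) - a * (a * u₁ + 2 * b * u₂)) / (4 * b - a ^ 2) = u₁ := by
  generalize hDD : 4 * b - a ^ 2 = D at hD ⊢
  field_simp
  linear_combination u₁ * hDD

include hD in
theorem gram4 (u₁ u₂ : F) :
    (2 * (a * u₁ + 2 * b * u₂) - a * (2 * u₁ + a * u₂)) / (4 * b - a ^ 2) = u₂ := by
  generalize hDD : 4 * b - a ^ 2 = D at hD ⊢
  field_simp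
  linear_combination u₂ * hDD

/-- `F`-coordinates on `K³`: first step. -/
noncomputable def E₁ : ((Fin 2 ⊕ Fin 2) ⊕ Fin 2 → F) ≃ₗ[F] (KK a b × KK a b × KK a b) where
  toFun v := (⟨v (.inl (.inl 0)), v (.inl (.inl 1))⟩,
    ⟨(2 * b * v (.inl (.inr 0)) - a * v (.inl (.inr 1))) / (4 * b - a ^ 2),
     (2 * v (.inl (.inr 1)) - a * v (.inl (.inr 0))) / (4 * b - a ^ 2)⟩,
    ⟨v (.inr 0), v (.inr 1)⟩)
  invFun w := Sum.elim (Sum.elim ![w.1.re, w.1.im]
      ![2 * w.2.1.re + a * w.2.1.im, a * w.2.1.re + 2 * b * w.2.1.im])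
    ![w.2.2.re, w.2.2.im]
  map_add' u v := by
    refine Prod.ext ?_ (Prod.ext ?_ ?_)
    · ext <;> simp
    · ext <;> simp <;> ring
    · ext <;> simp
  map_smul' c u := by
    refine Prod.ext ?_ (Prod.ext ?_ ?_)
    · ext <;> simp
    · ext <;> simp <;> ring
    · ext <;> simp
  left_inv v := by
    ext i
    rcases i with (i | i) | i
    · fin_cases i <;> simp
    · fin_cases i
      · exact gram1 hD _ _
      · exact gram2 hD _ _
    · fin_cases i <;> simp
  right_inv w := by
    refine Prod.ext ?_ (Prod.ext ?_ ?_)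
    · ext <;> simp
    · ext
      · exact gram3 hD _ _
      · exact gram4 hD _ _
    · ext <;> simp

/-- Second step. -/
noncomputable def E₂ (κ t : KK a b) (hκ : κ ≠ 0) : (KK a b × KK a b × KK a b) ≃ₗ[F] (KK a b × KK a b × KK a b) where
  toFun w := (w.1 + w.2.1 - star t * w.1, κ⁻¹ * (w.2.1 - star t * w.1), w.2.2)
  invFun w := (w.1 - κ * w.2.1, κ * w.2.1 + star t * (w.1 - κ * w.2.1), w.2.2)
  map_add' u v := by
    refine Prod.ext ?_ (Prod.ext ?_ ?_)
    · simp only [Prod.fst_add, Prod.snd_add]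
      ring
    · simp only [Prod.fst_add, Prod.snd_add]
      ring
    · simp only [Prod.snd_add]
  map_smul' c u := by
    refine Prod.ext ?_ (Prod.ext ?_ ?_)
    · simp only [Prod.smul_fst, Prod.smul_snd, RingHom.id_apply]
      rw [mul_smul_comm, smul_sub, smul_add]
    · simp only [Prod.smul_fst, Prod.smul_snd, RingHom.id_apply]
      rw [mul_smul_comm, ← smul_sub, mul_smul_comm]
    · simp only [Prod.smul_snd, RingHom.id_apply]
  left_inv w := by
    refine Prod.ext ?_ (Prod.ext ?_ ?_)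
    · simp only
      rw [mul_inv_cancel_left₀ hκ]
      ring
    · simp only
      rw [mul_inv_cancel_left₀ hκ]
      ring
    · rfl
  right_inv w := by
    refine Prod.ext ?_ (Prod.ext ?_ ?_)
    · simp only
      field_simp
      ring
    · simp only
      field_simp
      ring
    · rfl

theorem normSum_E₂ (κ t : KK a b) (hκ : κ ≠ 0) (hκ1 : κ * star κ = -1) (ht : t + star t = 1)
    (w : KK a b × KK a b × KK a b) :
    algebraMap F (KK a b) (normSum a b (E₂ κ t hκ w)) =
      w.1 * star w.2.1 + star w.1 * w.2.1 + w.2.2 * star w.2.2 := by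
  rw [normSum, map_add, map_add, QuadraticAlgebra.algebraMap_norm_eq_mul_star,
    QuadraticAlgebra.algebraMap_norm_eq_mul_star, QuadraticAlgebra.algebraMap_norm_eq_mul_star]
  obtain ⟨s, u, z⟩ := w
  show (s + u - star t * s) * star (s + u - star t * s) +
    (κ⁻¹ * (u - star t * s)) * star (κ⁻¹ * (u - star t * s)) + z * star z = s * star u + star s * u + z * star z
  have hsκ : star κ ≠ 0 := by simpa using hκ
  simp only [star_add, star_sub, star_mul', star_inv₀, star_star]
  have h1 : κ⁻¹ * (star κ)⁻¹ = -1 := by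
    rw [← mul_inv, hκ1]
    norm_num
  have ht' : star t = 1 - t := by linear_combination ht
  calc _ = (s + u - star t * s) * (star s + star u - t * star s) +
        (κ⁻¹ * (star κ)⁻¹) * ((u - star t * s) * (star u - t * star s)) + z * star z := by ring
    _ = _ := by
        rw [h1, ht']
        ring

/-- The trace pairing in coordinates. -/
theorem trace_pairing (s u : KK a b) :
    s * star u + star s * u =
      algebraMap F (KK a b) (s.re * (2 * u.re + a * u.im) + s.im * (a * u.re + 2 * b * u.im)) := by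
  ext <;> simp <;> ring

theorem norm_mk (z : KK a b) : QuadraticAlgebra.norm z = z.re ^ 2 + a * z.re * z.im + b * z.im ^ 2 := by
  rw [QuadraticAlgebra.norm_def]
  ring

end coordinate

section assembly

variable [Fintype F]

/-- The unitary form in terms of the conjugation. -/
theorem herm_eq (n : ℕ) (u v : Fin n → KK a b) :
    hermForm n (KK a b) (Fintype.card F) u v = ∑ i, u i * star (v i) := by
  simp only [hermForm, Cfsg.Agent.Lib.Classical.QuadExt.pow_q_eq_star]

/-- The conjugate matrix. -/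
noncomputable def bar (g : Matrix (Fin 4) (Fin 4) (KK a b)) : Matrix (Fin 4) (Fin 4) (KK a b) :=
  g.map (starRingEnd (KK a b))

theorem transpose_mul_bar (g : SU 4 (KK a b) (Fintype.card F)) : (g.1.1)ᵀ * bar g.1.1 = 1 := by
  have hg : ∀ u v, hermForm 4 (KK a b) (Fintype.card F) (g.1.1 *ᵥ u) (g.1.1 *ᵥ v) =
      hermForm 4 (KK a b) (Fintype.card F) u v := g.2
  refine Matrix.ext fun i j => ?_
  have h := hg (Pi.single i 1) (Pi.single j 1)
  simp only [herm_eq, Matrix.mulVec_single_one] at h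
  rw [Matrix.mul_apply]
  simp only [Matrix.transpose_apply, bar, Matrix.map_apply, starRingEnd_apply]
  have h' : ∑ k, g.1.1 k i * star (g.1.1 k j) = _ := h
  rw [h']
  simp [Pi.single_apply, Matrix.one_apply, eq_comm]
  split_ifs <;> simp

theorem mul_transpose_bar (g : SU 4 (KK a b) (Fintype.card F)) : g.1.1 * (bar g.1.1)ᵀ = 1 := by
  have h1 : bar g.1.1 * (g.1.1)ᵀ = 1 := mul_eq_one_comm.mp (transpose_mul_bar g)
  have h2 := congrArg Matrix.transpose h1
  rwa [Matrix.transpose_mul, Matrix.transpose_transpose, Matrix.transpose_one] at h2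

theorem det_bar (g : SU 4 (KK a b) (Fintype.card F)) : (bar g.1.1).det = 1 := by
  have h : (bar g.1.1).det = (starRingEnd (KK a b)) (g.1.1.det) := by
    rw [bar, ← RingHom.mapMatrix_apply, ← RingHom.map_det]
  rw [h, g.1.2, map_one]

theorem S_P_bar (g : SU 4 (KK a b) (Fintype.card F)) :
    S6 (KK a b) * P (bar g.1.1) = P g.1.1 * S6 (KK a b) := by
  have h1 := P_transpose_S_P (bar g.1.1)
  rw [det_bar, one_smul] at h1
  have h2 : P g.1.1 * (P (bar g.1.1))ᵀ = 1 := by
    rw [← P_transpose, ← P_mul, mul_transpose_bar, P_one]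
  calc S6 (KK a b) * P (bar g.1.1)
      = (P g.1.1 * (P (bar g.1.1))ᵀ) * S6 (KK a b) * P (bar g.1.1) := by rw [h2, Matrix.one_mul]
    _ = P g.1.1 * ((P (bar g.1.1))ᵀ * S6 (KK a b) * P (bar g.1.1)) := by simp only [Matrix.mul_assoc]
    _ = P g.1.1 * S6 (KK a b) := by rw [h1]

theorem thet_P (g : SU 4 (KK a b) (Fintype.card F)) (x : Fin 6 → KK a b) :
    thet (P g.1.1 *ᵥ x) = P g.1.1 *ᵥ thet x := by
  rw [thet_eq, thet_eq, Matrix.mulVec_mulVec, ← S_P_bar, ← Matrix.mulVec_mulVec]
  congr 1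
  funext i
  have := RingHom.map_mulVec (starRingEnd (KK a b)) (P g.1.1) x i
  rw [Function.comp_apply, this, bar, P_map]

variable (hD : 4 * b - a ^ 2 ≠ 0) (κ t : KK a b) (hκ : κ ≠ 0)

/-- The action of `SU₄`. -/
noncomputable def tauSU : SU 4 (KK a b) (Fintype.card F) →* Module.End F (Fin 6 → KK a b) :=
  tauSL.comp (SU 4 (KK a b) (Fintype.card F)).subtype

theorem tauSU_apply (g : SU 4 (KK a b) (Fintype.card F)) (x : Fin 6 → KK a b) :
    tauSU g x = P g.1.1 *ᵥ x := rfl

/-- The coordinate equivalence. -/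
noncomputable def EE : ((Fin 2 ⊕ Fin 2) ⊕ Fin 2 → F) ≃ₗ[F] (KK a b × KK a b × KK a b) :=
  (E₁ hD).trans (E₂ κ t hκ)

/-- The section. -/
noncomputable def sec : ((Fin 2 ⊕ Fin 2) ⊕ Fin 2 → F) →ₗ[F] (Fin 6 → KK a b) :=
  secL ∘ₗ (EE hD κ t hκ).toLinearMap

/-- The retraction. -/
noncomputable def ret : (Fin 6 → KK a b) →ₗ[F] ((Fin 2 ⊕ Fin 2) ⊕ Fin 2 → F) :=
  (EE hD κ t hκ).symm.toLinearMap ∘ₗ retL

theorem ret_sec (v : (Fin 2 ⊕ Fin 2) ⊕ Fin 2 → F) : ret hD κ t hκ (sec hD κ t hκ v) = v := by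
  simp [ret, sec, retL_secL]

theorem sec_ret {x : Fin 6 → KK a b} (h : thet x = x) : sec hD κ t hκ (ret hD κ t hκ x) = x := by
  simp [ret, sec, secL_retL h]

theorem thet_sec (v : (Fin 2 ⊕ Fin 2) ⊕ Fin 2 → F) : thet (sec hD κ t hκ v) = sec hD κ t hκ v :=
  thet_secL _

/-- The representation on the six-dimensional `F`-space. -/
noncomputable def rho : SU 4 (KK a b) (Fintype.card F) →*
    (((Fin 2 ⊕ Fin 2) ⊕ Fin 2 → F) ≃ₗ[F] ((Fin 2 ⊕ Fin 2) ⊕ Fin 2 → F)) :=
  repOfSection tauSU (sec hD κ t hκ) (ret hD κ t hκ) (ret_sec hD κ t hκ) (fun g w =>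
    sec_ret hD κ t hκ (by
      rw [tauSU_apply, thet_P, thet_sec]))

theorem sec_rho (g : SU 4 (KK a b) (Fintype.card F)) (v : (Fin 2 ⊕ Fin 2) ⊕ Fin 2 → F) :
    sec hD κ t hκ (rho hD κ t hκ g v) = P g.1.1 *ᵥ sec hD κ t hκ v := by
  have : rho hD κ t hκ g v = ret hD κ t hκ (P g.1.1 *ᵥ sec hD κ t hκ v) := rfl
  rw [this]
  exact sec_ret hD κ t hκ (by rw [thet_P, thet_sec])

/-- The value of the Pfaffian on the section is the quadratic form. -/
theorem pf_sec (hκ1 : κ * star κ = -1) (ht : t + star t = 1) (v : (Fin 2 ⊕ Fin 2) ⊕ Fin 2 → F) :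
    pf (sec hD κ t hκ v) = algebraMap F (KK a b) (quadFormMinus 2 F a b v) := by
  show pf (secL (E₂ κ t hκ (E₁ hD v))) = _
  rw [pf_secL', normSum_E₂ κ t hκ hκ1 ht, trace_pairing, ← QuadraticAlgebra.algebraMap_norm_eq_mul_star,
    ← map_add]
  congr 1
  have e1 : 2 * (E₁ hD v).2.1.re + a * (E₁ hD v).2.1.im = v (.inl (.inr 0)) := gram1 hD _ _
  have e2 : a * (E₁ hD v).2.1.re + 2 * b * (E₁ hD v).2.1.im = v (.inl (.inr 1)) := gram2 hD _ _
  rw [e1, e2, norm_mk]
  have e3 : (E₁ hD v).1.re = v (.inl (.inl 0)) := rfl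
  have e4 : (E₁ hD v).1.im = v (.inl (.inl 1)) := rfl
  have e5 : (E₁ hD v).2.2.re = v (.inr 0) := rfl
  have e6 : (E₁ hD v).2.2.im = v (.inr 1) := rfl
  rw [e3, e4, e5, e6]
  simp only [quadFormMinus, Fin.sum_univ_two]

/-- The homomorphism to the orthogonal group. -/
noncomputable def phi (hκ1 : κ * star κ = -1) (ht : t + star t = 1) :
    SU 4 (KK a b) (Fintype.card F) →* isometryGroup F (quadFormMinus 2 F a b) :=
  homOfRep₀ (quadFormMinus 2 F a b) (rho hD κ t hκ) (fun g v => by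
    apply (algebraMap F (KK a b)).injective
    rw [← pf_sec hD κ t hκ hκ1 ht, ← pf_sec hD κ t hκ hκ1 ht, sec_rho, pf_mulVec, g.1.2, one_mul])

/-- `-1` in `SU₄`. -/
noncomputable def neg1 : SU 4 (KK a b) (Fintype.card F) :=
  ⟨⟨-1, by rw [Matrix.det_neg]; norm_num⟩, by
    intro u v
    show hermForm 4 (KK a b) (Fintype.card F) ((-1 : Matrix (Fin 4) (Fin 4) (KK a b)) *ᵥ u)
      ((-1 : Matrix (Fin 4) (Fin 4) (KK a b)) *ᵥ v) = hermForm 4 (KK a b) (Fintype.card F) u v
    simp [herm_eq, Matrix.neg_mulVec]⟩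

theorem neg1_center : (neg1 : SU 4 (KK a b) (Fintype.card F)) ∈
    Subgroup.center (SU 4 (KK a b) (Fintype.card F)) := by
  rw [Subgroup.mem_center_iff]
  intro x
  apply Subtype.ext
  apply Subtype.ext
  show x.1.1 * (-1 : Matrix (Fin 4) (Fin 4) (KK a b)) = (-1 : Matrix (Fin 4) (Fin 4) (KK a b)) * x.1.1
  simp

theorem ker_phi (hκ1 : κ * star κ = -1) (ht : t + star t = 1) {g : SU 4 (KK a b) (Fintype.card F)}
    (hg : g ∈ (phi hD κ t hκ hκ1 ht).ker) : g = 1 ∨ g = neg1 := by
  rw [phi, mem_ker_homOfRep₀, MonoidHom.mem_ker] at hg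
  have hfix : ∀ y : Fin 6 → KK a b, thet y = y → P g.1.1 *ᵥ y = y := by
    intro y hy
    have h := sec_rho hD κ t hκ g (ret hD κ t hκ y)
    rw [hg, sec_ret hD κ t hκ hy] at h
    simpa [sec_ret hD κ t hκ hy] using h.symm
  have hall : ∀ x : Fin 6 → KK a b, P g.1.1 *ᵥ x = x := by
    intro x
    obtain ⟨y₁, y₂, h1, h2, rfl⟩ := exists_decomp hD x
    rw [Matrix.mulVec_add, Matrix.mulVec_smul, hfix _ h1, hfix _ h2]
  have hP : P g.1.1 = 1 := by
    apply Matrix.toLin'.injective
    apply LinearMap.ext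
    intro y
    simp only [Matrix.toLin'_apply, Matrix.toLin'_one, LinearMap.id_apply]
    exact hall y
  obtain ⟨h01, h02, h03, h10, h12, h13, h20, h21, h23, h30, h31, h32, h11, h22, h33, hs⟩ :=
    scalar_of_P_eq_one _ hP
  have hs' : (g.1.1 0 0 - 1) * (g.1.1 0 0 + 1) = 0 := by linear_combination hs
  rcases mul_eq_zero.mp hs' with h1 | h1
  · left
    have h00 : g.1.1 0 0 = 1 := sub_eq_zero.mp h1
    apply Subtype.ext
    apply Subtype.ext
    refine Matrix.ext fun i j => ?_
    fin_cases i <;> fin_cases j <;> simp [*]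
  · right
    have h00 : g.1.1 0 0 = -1 := eq_neg_of_add_eq_zero_left h1
    apply Subtype.ext
    apply Subtype.ext
    refine Matrix.ext fun i j => ?_
    fin_cases i <;> fin_cases j <;> simp [*, neg1]

theorem phi_neg (hκ1 : κ * star κ = -1) (ht : t + star t = 1) :
    neg1 ∈ (phi hD κ t hκ hκ1 ht).ker := by
  rw [phi, mem_ker_homOfRep₀, MonoidHom.mem_ker]
  have hP : P (neg1 : SU 4 (KK a b) (Fintype.card F)).1.1 = 1 := by
    show P (-1 : Matrix (Fin 4) (Fin 4) (KK a b)) = 1
    refine Matrix.ext fun i j => ?_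
    fin_cases i <;> fin_cases j <;> simp [P, idx, Matrix.one_apply]
  apply LinearEquiv.ext
  intro v
  have h := sec_rho hD κ t hκ neg1 v
  show ret hD κ t hκ (P (neg1 : SU 4 (KK a b) (Fintype.card F)).1.1 *ᵥ sec hD κ t hκ v) = v
  rw [hP, Matrix.one_mulVec, ret_sec]

theorem perfect : commutator (SU 4 (KK a b) (Fintype.card F)) = ⊤ := by
  haveI : Fintype (KK a b) := Fintype.ofFinite _
  have hcard : Fintype.card (KK a b) = Fintype.card F ^ 2 := by
    rw [← Nat.card_eq_fintype_card]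
    exact Cfsg.Agent.Lib.Classical.QuadExt.card_K
  have h1 := Cfsg.Agent.Lib.Classical.HermSimple.commutator_eq_top
    (Cfsg.Agent.Lib.Classical.HermBridge.hform hcard 4)
    (Cfsg.Agent.Lib.Classical.HermBridge.invol_frob hcard)
    (Cfsg.Agent.Lib.Classical.HermBridge.perfect_hyp hcard (by norm_num) (by norm_num))
    (by rw [Module.finrank_fin_fun]; norm_num)
  exact Cfsg.Agent.Lib.Classical.SympSimple.commutator_eq_top_of_mulEquiv
    (Cfsg.Agent.Lib.Classical.HermBridge.suEquiv 4 _) h1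

theorem numeric (q : ℕ) (hq : 2 ≤ q) (N : ℕ)
    (h : (q + 1) * N = q ^ 6 * ((q + 1) * (q ^ 2 - 1) * (q ^ 3 + 1) * (q ^ 4 - 1))) :
    2 * q ^ 6 * (q ^ 3 + 1) * ((q ^ 2 - 1) * (q ^ 4 - 1)) = 2 * N := by
  have h1 : (q + 1) * (q ^ 6 * ((q ^ 2 - 1) * (q ^ 3 + 1) * (q ^ 4 - 1))) = (q + 1) * N := by
    rw [h]
    ring
  have h2 := Nat.eq_of_mul_eq_mul_left (by omega : 0 < q + 1) h1
  rw [← h2]
  ring

/-- The main theorem over the model. -/
theorem model_equiv (hab : ∀ z₁ z₂ : F, z₁ ^ 2 + a * z₁ * z₂ + b * z₂ ^ 2 = 0 → z₁ = 0 ∧ z₂ = 0) :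
    Nonempty (Cfsg.POmega F (Cfsg.quadFormMinus 2 F a b) ≃* Cfsg.PSU 4 (KK a b) (Fintype.card F)) := by
  classical
  have hD : 4 * b - a ^ 2 ≠ 0 := Cfsg.Agent.Lib.Orth.Forms.disc_ne_zero_of_anisotropic hab
  have hq : 2 ≤ Fintype.card F := Fintype.one_lt_card
  haveI : Fintype (KK a b) := Fintype.ofFinite _
  have hcardK : Fintype.card (KK a b) = Fintype.card F ^ 2 := by
    rw [← Nat.card_eq_fintype_card]
    exact Cfsg.Agent.Lib.Classical.QuadExt.card_K
  -- the constants
  obtain ⟨κ, hκn⟩ := Cfsg.Agent.Lib.Classical.SL2Tori.exists_norm_eq (F := F) (a := -b) (b := a)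
    (Units.mk0 (-1 : F) (by simp))
  have hκ1 : κ * star κ = -1 := by
    rw [← QuadraticAlgebra.algebraMap_norm_eq_mul_star, hκn]
    simp
  have hκ : κ ≠ 0 := by
    rintro rfl
    simp at hκ1
  let t : KK a b := ⟨2 * b / (4 * b - a ^ 2), - a / (4 * b - a ^ 2)⟩
  have ht : t + star t = 1 := by
    have h1 : 2 * (2 * b / (4 * b - a ^ 2)) + a * (- a / (4 * b - a ^ 2)) = 1 := by
      generalize hDD : 4 * b - a ^ 2 = D at hD ⊢
      field_simp
      linear_combination hDD
    ext
    · simp only [QuadraticAlgebra.re_add, QuadraticAlgebra.re_star, QuadraticAlgebra.re_one, t]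
      linear_combination h1
    · simp [t]
  have hperf := perfect (a := a) (b := b)
  have hsimple : IsSimpleGroup (Cfsg.PSU 4 (KK a b) (Fintype.card F)) :=
    Cfsg.Agent.S0283.result hcardK 4 (by norm_num) (by norm_num)
  have hperfT : commutator (Cfsg.PSU 4 (KK a b) (Fintype.card F)) = ⊤ := by
    have : Group.IsPerfect (SU 4 (KK a b) (Fintype.card F)) := ⟨hperf⟩
    have : Group.IsPerfect (Cfsg.PSU 4 (KK a b) (Fintype.card F)) := inferInstance
    exact this.commutator_eq_top
  have hO : Nat.card (isometryGroup F (quadFormMinus 2 F a b)) =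
      2 * Nat.card (SU 4 (KK a b) (Fintype.card F)) := by
    have h1 := Cfsg.Agent.S0288.result (F := F) rfl 3 (by norm_num) a b hab
    have h2 : Nat.card (isometryGroup F (quadFormMinus 2 F a b)) = _ := h1
    have h3 := Cfsg.Agent.S0278.result (F := KK a b) (q := Fintype.card F) hcardK 4 (by norm_num)
    rw [h2]
    simp [Finset.prod_range_succ, Nat.even_iff] at h3 ⊢
    exact numeric _ hq _ (by simpa [mul_assoc, mul_comm, mul_left_comm] using h3)
  refine commutator_quotient_equiv (phi hD κ t hκ hκ1 ht) (QuotientGroup.mk' _)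
    (QuotientGroup.mk'_surjective _) (QuotientGroup.ker_mk' _) (center_eq_bot_of_simple hperfT) ?_
    (map_mem_commutator_of_perfect _ hperf) ?_
  · intro g hg
    rw [QuotientGroup.ker_mk']
    rcases ker_phi hD κ t hκ hκ1 ht hg with rfl | rfl
    · exact Subgroup.one_mem _
    · exact neg1_center
  · refine index_mul_card_range _ neg1 (phi_neg hD κ t hκ hκ1 ht)
      (fun g hg => ker_phi hD κ t hκ hκ1 ht hg) ?_ ?_ hO
    · intro hne
      have h2 : (2 : F) ≠ 0 := by
        intro h2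
        apply hne
        have h1 : (-1 : KK a b) = 1 := by
          have h3 : (2 : KK a b) = 0 := by
            rw [← map_ofNat (algebraMap F (KK a b)) 2, h2, map_zero]
          linear_combination -h3
        apply Subtype.ext
        apply Subtype.ext
        show (-1 : Matrix (Fin 4) (Fin 4) (KK a b)) = 1
        refine Matrix.ext fun i j => ?_
        simp only [Matrix.neg_apply, Matrix.one_apply]
        split_ifs <;> simp [h1]
      exact Cfsg.Agent.Lib.Orth.Closure.index_Omega_odd (Cfsg.Agent.Lib.Orth.Forms.minusForm 2 F a b) h2 (by simp)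
        (Cfsg.Agent.Lib.Orth.Forms.minusForm_nondeg 2 hab)
    · intro he
      refine index_commutator_eq_two (phi hD κ t hκ hκ1 ht) ?_ (map_mem_commutator_of_perfect _ hperf) hO
      rw [eq_bot_iff]
      intro g hg
      rcases ker_phi hD κ t hκ hκ1 ht hg with h | h
      · exact h
      · rw [h, he]; exact Subgroup.one_mem _

end assembly

end model

/-- A ring isomorphism (fixing the exponent `q`) identifies the `SU` groups. -/
noncomputable def suCongr {K L : Type*} [Field K] [Field L] (e : K ≃+* L) (q : ℕ) :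
    SU 4 K q ≃* SU 4 L q := by
  refine MulEquiv.subgroupMap (Cfsg.Agent.Lib.Classical.FieldTransfer.slCongr e) (SU 4 K q) |>.trans
    (MulEquiv.subgroupCongr ?_)
  ext g
  have key : ∀ (A : SL(4, K)) (B : SL(4, L)), (∀ i j, B.1 i j = e (A.1 i j)) →
      ((A ∈ SU 4 K q) ↔ (B ∈ SU 4 L q)) := by
    intro A B hAB
    have hmv : ∀ u : Fin 4 → K, (B.1 *ᵥ (fun i => e (u i))) = fun i => e ((A.1 *ᵥ u) i) := by
      intro u
      funext i
      simp [Matrix.mulVec, dotProduct, hAB]
    have hH : ∀ u v : Fin 4 → K, hermForm 4 L q (fun i => e (u i)) (fun i => e (v i)) = e (hermForm 4 K q u v) := by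
      intro u v
      simp [hermForm]
    constructor
    · intro hA u v
      have hA' : ∀ u v, hermForm 4 K q (A.1 *ᵥ u) (A.1 *ᵥ v) = hermForm 4 K q u v := hA
      show hermForm 4 L q (B.1 *ᵥ u) (B.1 *ᵥ v) = hermForm 4 L q u v
      obtain ⟨u', rfl⟩ : ∃ u' : Fin 4 → K, u = fun i => e (u' i) :=
        ⟨fun i => e.symm (u i), by funext i; simp⟩
      obtain ⟨v', rfl⟩ : ∃ v' : Fin 4 → K, v = fun i => e (v' i) :=
        ⟨fun i => e.symm (v i), by funext i; simp⟩
      rw [hmv, hmv, hH, hH, hA']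
    · intro hB u v
      have hB' : ∀ u v, hermForm 4 L q (B.1 *ᵥ u) (B.1 *ᵥ v) = hermForm 4 L q u v := hB
      show hermForm 4 K q (A.1 *ᵥ u) (A.1 *ᵥ v) = hermForm 4 K q u v
      apply e.injective
      rw [← hH, ← hH, ← hmv, ← hmv, hB']
  constructor
  · rintro ⟨A, hA, rfl⟩
    exact (key A _ (fun i j => rfl)).mp hA
  · intro hg
    refine ⟨(Cfsg.Agent.Lib.Classical.FieldTransfer.slCongr e).symm g, ?_, by simp⟩
    exact (key _ g (fun i j => by
      have := Cfsg.Agent.Lib.Classical.FieldTransfer.slCongr_apply e ((Cfsg.Agent.Lib.Classical.FieldTransfer.slCongr e).symm g) i j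
      simpa using this)).mpr hg

/-- PΩ^-_6(q) is isomorphic to PSU_4(q). -/
theorem result {F K : Type*} [Field F] [Fintype F] [Field K] [Fintype K] {q : ℕ} (hF : Fintype.card F = q) (hK : Fintype.card K = q ^ 2) (a b : F) (hab : ∀ z₁ z₂ : F, z₁ ^ 2 + a * z₁ * z₂ + b * z₂ ^ 2 = 0 → z₁ = 0 ∧ z₂ = 0) : Nonempty (Cfsg.POmega F (Cfsg.quadFormMinus 2 F a b) ≃* Cfsg.PSU 4 K q) := by
  classical
  subst hF
  haveI hfact : Fact (∀ r : F, r ^ 2 ≠ -b + a * r) := ⟨fun r hr => by
    have := hab (-r) 1 (by linear_combination hr)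
    exact one_ne_zero this.2⟩
  haveI : Fintype (KK a b) := Fintype.ofFinite _
  have hcardK : Fintype.card (KK a b) = Fintype.card K := by
    rw [← Nat.card_eq_fintype_card, hK]
    exact Cfsg.Agent.Lib.Classical.QuadExt.card_K
  obtain ⟨e⟩ := model_equiv (a := a) (b := b) hab
  exact ⟨e.trans (Cfsg.Agent.Lib.Classical.FieldTransfer.centralQuotientCongr
    (suCongr (FiniteField.ringEquivOfCardEq hcardK) _))⟩

end Cfsg.Agent.S0303
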