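-- Proof of S0514: centralizers of involutions in groups with dihedral Sylow 2-subgroups.
import Cfsg.Statements.S0514
import Cfsg.Agent.Lib.Transfer.Frobenius

set_option autoImplicit false
open Cfsg

namespace Cfsg.Agent.S0514

open Cfsg.Agent.Lib.Transfer.Frobenius

/-- The rotation/reflection sign of the dihedral group. -/
def dihSign (n : ℕ) : DihedralGroup n →* ℤˣ where
  toFun x := match x with
    | .r _ => 1
    | .sr _ => -1
  map_one' := rfl
  map_mul' := by
    rintro (a | a) (b | b) <;> simp [DihedralGroup.r_mul_r, DihedralGroup.r_mul_sr,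
      DihedralGroup.sr_mul_r, DihedralGroup.sr_mul_sr]

lemma dihSign_eq_one_iff {n : ℕ} (x : DihedralGroup n) :
    dihSign n x = 1 ↔ ∃ i, x = DihedralGroup.r i := by
  cases x with
  | r i => exact ⟨fun _ => ⟨i, rfl⟩, fun _ => rfl⟩
  | sr i =>
    constructor
    · intro h
      have h2 : (-1 : ℤˣ) = 1 := h
      exact absurd h2 (by decide)
    · rintro ⟨j, hj⟩
      cases hj

/-- The index function on rotations. -/
def rotIdx {n : ℕ} : DihedralGroup n → ZMod n
  | .r i => i
  | .sr i => i

lemma card_units_int_le (H : Subgroup ℤˣ) : Nat.card H ≤ 2 := by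
  have h1 : Nat.card H ≤ Nat.card ℤˣ := Subgroup.card_le_card_group H
  have h2 : Nat.card ℤˣ = 2 := by simp
  omega

/-- An odd-order endomorphism of a finite 2-subgroup of a dihedral group fixing a nontrivial
element is trivial. -/
lemma key {A : Type*} [Group A] [Finite A] (hA : IsPGroup 2 A) {n : ℕ}
    (ι : A →* DihedralGroup n) (hι : Function.Injective ι)
    (f : A →* A) (m : ℕ) (hm : Odd m) (hf : ∀ x, f^[m] x = x)
    (t : A) (ht : t ≠ 1) (hft : f t = t) : ∀ x, f x = x := by
  classical
  obtain ⟨k, hk⟩ := hm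
  have hfinj : Function.Injective f := by
    intro x y hxy
    have hx : f^[2 * k] (f x) = x := by
      have := hf x
      rwa [hk] at this
    have hy : f^[2 * k] (f y) = y := by
      have := hf y
      rwa [hk] at this
    rw [hxy] at hx
    rw [← hx, hy]
  have hf1 : f 1 = 1 := map_one f
  by_cases hcard : Nat.card A ≤ 4
  · intro x
    by_contra hne
    have hx1 : x ≠ 1 := by
      rintro rfl; exact hne hf1
    have hxt : x ≠ t := by
      rintro rfl; exact hne hft
    have hy1 : f x ≠ 1 := fun h => hx1 (hfinj (h.trans hf1.symm))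
    have hyt : f x ≠ t := fun h => hxt (hfinj (h.trans hft.symm))
    have hz1 : f (f x) ≠ 1 := fun h => hy1 (hfinj (h.trans hf1.symm))
    have hzt : f (f x) ≠ t := fun h => hyt (hfinj (h.trans hft.symm))
    have hyz : f x ≠ f (f x) := fun h => hne (hfinj h).symm
    have hxz : x ≠ f (f x) := by
      intro h
      have hit : ∀ j : ℕ, f^[2 * j] x = x := by
        intro j
        induction j with
        | zero => rfl
        | succ j ih =>
          have e : 2 * (j + 1) = 2 * j + 1 + 1 := by ring
          rw [e]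
          change f^[2 * j] (f (f x)) = x
          rw [← h]
          exact ih
      have h2 := hf x
      have h3 : f^[2 * k + 1] x = f (f^[2 * k] x) := Function.iterate_succ_apply' f (2 * k) x
      rw [hk, h3, hit] at h2
      exact hne h2
    have hxy : x ≠ f x := fun h => hne h.symm
    haveI : Fintype A := Fintype.ofFinite A
    have hc : ({1, t, x, f x, f (f x)} : Finset A).card = 5 := by
      rw [Finset.card_insert_of_notMem, Finset.card_insert_of_notMem, Finset.card_insert_of_notMem,
        Finset.card_insert_of_notMem, Finset.card_singleton]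
      · simpa using hyz
      · simp only [Finset.mem_insert, Finset.mem_singleton, not_or]
        exact ⟨hxy, hxz⟩
      · simp only [Finset.mem_insert, Finset.mem_singleton, not_or]
        exact ⟨hxt.symm, hyt.symm, hzt.symm⟩
      · simp only [Finset.mem_insert, Finset.mem_singleton, not_or]
        exact ⟨ht.symm, hx1.symm, hy1.symm, hz1.symm⟩
    have hle := Finset.card_le_univ ({1, t, x, f x, f (f x)} : Finset A)
    rw [hc, ← Nat.card_eq_fintype_card] at hle
    omega
  · -- the rotation subgroup
    rw [not_le] at hcard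
    let φ : A →* ℤˣ := (dihSign n).comp ι
    let R : Subgroup A := φ.ker
    have hmemR : ∀ a : A, a ∈ R ↔ ∃ i, ι a = DihedralGroup.r i := by
      intro a
      change φ a = 1 ↔ _
      exact dihSign_eq_one_iff (ι a)
    have hcardR : 2 < Nat.card R := by
      have h1 : Nat.card A = Nat.card R * Nat.card φ.range := by
        rw [← Subgroup.index_ker, Subgroup.card_mul_index]
      have h2 : Nat.card φ.range ≤ 2 := card_units_int_le _
      by_contra hlt
      rw [not_lt] at hlt
      have : Nat.card A ≤ 2 * 2 := by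
        rw [h1]; exact Nat.mul_le_mul hlt h2
      omega
    -- the rotation subgroup is cyclic
    let ρ : R →* Multiplicative (ZMod n) :=
      { toFun := fun a => Multiplicative.ofAdd (rotIdx (ι a))
        map_one' := by
          change Multiplicative.ofAdd (rotIdx (ι 1)) = 1
          rw [map_one]
          rfl
        map_mul' := by
          rintro ⟨a, ha⟩ ⟨b, hb⟩
          obtain ⟨i, hi⟩ := (hmemR a).mp ha
          obtain ⟨j, hj⟩ := (hmemR b).mp hb
          simp [hi, hj, rotIdx, DihedralGroup.r_mul_r] }
    have hρ : Function.Injective ρ := by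
      rintro ⟨a, ha⟩ ⟨b, hb⟩ h
      obtain ⟨i, hi⟩ := (hmemR a).mp ha
      obtain ⟨j, hj⟩ := (hmemR b).mp hb
      have h2 : i = j := by
        have : Multiplicative.ofAdd (rotIdx (ι a)) = Multiplicative.ofAdd (rotIdx (ι b)) := h
        simpa [hi, hj, rotIdx] using this
      apply Subtype.ext
      apply hι
      change ι a = ι b
      rw [hi, hj, h2]
    haveI hcyc : IsCyclic R := isCyclic_of_injective ρ hρ
    obtain ⟨y, hy⟩ := hcyc.exists_generator
    have hordy : orderOf y = Nat.card R := orderOf_eq_card_of_forall_mem_zpowers hy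
    have hysq : (y : A) ^ 2 ≠ 1 := by
      intro h
      have h1 : y ^ 2 = 1 := Subtype.ext h
      have h2 := orderOf_dvd_of_pow_eq_one h1
      have h3 := Nat.le_of_dvd (by norm_num) h2
      omega
    have hsq : ∀ a : A, a ^ 2 ≠ 1 → a ∈ R := by
      intro a ha
      rw [hmemR]
      cases h : ι a with
      | r i => exact ⟨i, rfl⟩
      | sr i =>
        exfalso
        apply ha
        apply hι
        rw [map_pow, h, map_one, pow_two]
        exact DihedralGroup.sr_mul_self i
    have hfy : f y ∈ R := by
      apply hsq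
      intro h
      apply hysq
      apply hfinj
      rw [map_pow, h, map_one]
    have hfR : ∀ a ∈ R, f a ∈ R := by
      intro a ha
      obtain ⟨j, hj⟩ := Subgroup.mem_zpowers_iff.mp (hy ⟨a, ha⟩)
      have : a = (y : A) ^ j := by
        have := congrArg Subtype.val hj
        simpa using this.symm
      rw [this, map_zpow]
      exact R.zpow_mem hfy j
    let fR : R →* R := (f.comp R.subtype).codRestrict R (fun a => hfR a a.2)
    have hfRinj : Function.Injective fR := by
      intro a b h
      apply Subtype.ext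
      apply hfinj
      exact congrArg Subtype.val h
    have hfRbij : Function.Bijective fR := Finite.injective_iff_bijective.mp hfRinj
    let σ : MulAut R := MulEquiv.ofBijective fR hfRbij
    have hσk : ∀ (j : ℕ) (a : R), (((σ ^ j) a : R) : A) = f^[j] a := by
      intro j
      induction j with
      | zero => intro a; simp
      | succ j ih =>
        intro a
        rw [pow_succ, MulAut.mul_apply, ih, Function.iterate_succ_apply]
        rfl
    have hσm : σ ^ (2 * k + 1) = 1 := by
      apply MulEquiv.ext
      intro a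
      apply Subtype.ext
      rw [hσk, ← hk, hf]
      rfl
    have hcardAut : Nat.card (MulAut R) = Nat.totient (Nat.card R) := IsCyclic.card_mulAut R
    obtain ⟨b, hb⟩ := IsPGroup.iff_card.mp (hA.to_subgroup R)
    have hb0 : b ≠ 0 := by
      rintro rfl
      rw [pow_zero] at hb
      omega
    have hdvd1 : orderOf σ ∣ 2 ^ (b - 1) := by
      have h1 := orderOf_dvd_natCard σ
      rw [hcardAut, hb, Nat.totient_prime_pow Nat.prime_two (Nat.pos_of_ne_zero hb0)] at h1
      simpa using h1
    have hdvd2 : orderOf σ ∣ 2 * k + 1 := orderOf_dvd_of_pow_eq_one hσm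
    have hcop : Nat.Coprime (2 ^ (b - 1)) (2 * k + 1) :=
      Nat.Coprime.pow_left _ (Nat.coprime_two_left.mpr ⟨k, rfl⟩)
    have hσ1 : orderOf σ = 1 := Nat.eq_one_of_dvd_coprimes hcop hdvd1 hdvd2
    have hσone : σ = 1 := orderOf_eq_one_iff.mp hσ1
    have hfixR : ∀ a ∈ R, f a = a := by
      intro a ha
      have : σ ⟨a, ha⟩ = ⟨a, ha⟩ := by rw [hσone]; rfl
      exact congrArg Subtype.val this
    intro x
    by_cases hxR : x ∈ R
    · exact hfixR x hxR
    have hfxR : f x ∉ R := by
      intro h
      have h2 := hfixR _ h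
      have h3 : f x = x := hfinj h2
      exact hxR (h3 ▸ h)
    -- sign arguments
    have hsign : ∀ a : A, a ∉ R → φ a = -1 := by
      intro a ha
      have ha' : φ a ≠ 1 := ha
      rcases Int.units_eq_one_or (φ a) with h | h
      · exact absurd h ha'
      · exact h
    set u : A := f x * x⁻¹ with hu
    have huR : u ∈ R := by
      change φ u = 1
      rw [hu, map_mul, map_inv, hsign x hxR, hsign _ hfxR]
      rfl
    have hfu : f u = u := hfixR u huR
    have hiter : ∀ j : ℕ, f^[j] x = u ^ j * x := by
      intro j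
      induction j with
      | zero => simp
      | succ j ih =>
        rw [Function.iterate_succ_apply', ih, map_mul, map_pow, hfu, pow_succ, hu]
        group
    have hum : u ^ (2 * k + 1) = 1 := by
      have h1 := hf x
      rw [hiter, hk] at h1
      simpa using h1
    obtain ⟨c, hc⟩ := hA u
    have hd1 : orderOf u ∣ 2 ^ c := orderOf_dvd_of_pow_eq_one hc
    have hd2 : orderOf u ∣ 2 * k + 1 := orderOf_dvd_of_pow_eq_one hum
    have hcop2 : Nat.Coprime (2 ^ c) (2 * k + 1) :=
      Nat.Coprime.pow_left _ (Nat.coprime_two_left.mpr ⟨k, rfl⟩)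
    have hu1 : u = 1 := orderOf_eq_one_iff.mp (Nat.eq_one_of_dvd_coprimes hcop2 hd1 hd2)
    rw [hu] at hu1
    exact mul_inv_eq_one.mp hu1

/-- Embedding of a 2-group into a Sylow subgroup. -/
lemma exists_embed {X : Type*} [Group X] [Finite X] {A : Type*} [Group A] [Finite A]
    (hA : IsPGroup 2 A) (j : A →* X) (hj : Function.Injective j) (S : Sylow 2 X) {B : Type*}
    [Group B] (e : (S : Subgroup X) ≃* B) : ∃ ι : A →* B, Function.Injective ι := by
  haveI : Fact (Nat.Prime 2) := ⟨Nat.prime_two⟩
  have h1 : IsPGroup 2 j.range := hA.of_surjective j.rangeRestrict j.rangeRestrict_surjective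
  obtain ⟨T, hT⟩ := h1.exists_le_sylow
  obtain ⟨a, ha⟩ : ∃ a : X, a • T = S := MulAction.exists_smul_eq X T S
  have hmem : ∀ x : A, (MulAut.conj a) (j x) ∈ (S : Subgroup X) := by
    intro x
    have h2 : j x ∈ T := hT ⟨x, rfl⟩
    have h3 : a * j x * a⁻¹ ∈ a • T := by
      rw [mem_smul_sylow_iff]
      simpa [mul_assoc] using h2
    rw [ha] at h3
    exact h3
  refine ⟨e.toMonoidHom.comp (((MulAut.conj a).toMonoidHom.comp j).codRestrict S hmem), ?_⟩
  intro x y h
  apply hj
  have h2 := e.injective h
  have h3 := congrArg Subtype.val h2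
  exact (MulAut.conj a).injective h3

/-- The Frobenius condition for the centralizer of an involution. -/
lemma frob {X : Type*} [Group X] [Finite X] (S : Sylow 2 X) (n : ℕ)
    (hS : Nonempty ((S : Subgroup X) ≃* DihedralGroup n)) (t : X) (ht : orderOf t = 2) :
    FrobeniusCond 2 (Subgroup.centralizer ({t} : Set X)) := by
  classical
  haveI : Fact (Nat.Prime 2) := ⟨Nat.prime_two⟩
  obtain ⟨e⟩ := hS
  set C := Subgroup.centralizer ({t} : Set X) with hC
  intro D hD g hg hco
  have htC : t ∈ C := by
    rw [hC, Subgroup.mem_centralizer_singleton_iff]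
  let t₀ : C := ⟨t, htC⟩
  have hcen : ∀ c : C, c * t₀ = t₀ * c := by
    intro c
    apply Subtype.ext
    have h0 : (c : X) ∈ Subgroup.centralizer ({t} : Set X) := c.2
    rw [Subgroup.mem_centralizer_singleton_iff] at h0
    exact h0
  have hcenz : ∀ c : C, ∀ z ∈ Subgroup.zpowers t₀, c * z * c⁻¹ = z := by
    intro c z hz
    obtain ⟨j, rfl⟩ := Subgroup.mem_zpowers_iff.mp hz
    have : Commute c (t₀ ^ j) := Commute.zpow_right (hcen c) j
    rw [this.eq]
    group
  haveI hZn : (Subgroup.zpowers t₀).Normal := by
    constructor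
    intro z hz c
    rw [hcenz c z hz]
    exact hz
  have ht₀ : orderOf t₀ = 2 := by
    have h0 : orderOf (t₀ : X) = orderOf t₀ := Subgroup.orderOf_coe t₀
    rw [← h0]
    exact ht
  have hZp : IsPGroup 2 (Subgroup.zpowers t₀) := by
    apply IsPGroup.of_card (n := 1)
    rw [Nat.card_zpowers, ht₀, pow_one]
  have hD'p : IsPGroup 2 (D ⊔ Subgroup.zpowers t₀ : Subgroup C) :=
    IsPGroup.to_sup_of_normal_right hD hZp
  set D' : Subgroup C := D ⊔ Subgroup.zpowers t₀ with hD'
  have hgD' : D' ≤ D'.comap (MulAut.conj g).toMonoidHom := by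
    refine sup_le ?_ ?_
    · intro d hd
      have h1 : g * d * g⁻¹ ∈ D := (mem_normalizer_iff'.mp hg d).mp hd
      exact (le_sup_left : D ≤ D') h1
    · intro z hz
      change g * z * g⁻¹ ∈ D'
      rw [hcenz g z hz]
      exact (le_sup_right : Subgroup.zpowers t₀ ≤ D') hz
  let f : D' →* D' := ((MulAut.conj g).toMonoidHom.comp D'.subtype).codRestrict D'
    (fun a => hgD' a.2)
  have hfval : ∀ a : D', ((f a : D') : C) = g * a * g⁻¹ := fun _ => rfl
  have hit : ∀ (j : ℕ) (a : D'), ((f^[j] a : D') : C) = g ^ j * a * (g ^ j)⁻¹ := by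
    intro j
    induction j with
    | zero => intro a; simp
    | succ j ih =>
      intro a
      rw [Function.iterate_succ_apply', hfval, ih, pow_succ']
      group
  have hm : Odd (orderOf g) := Nat.coprime_two_right.mp hco
  have hf : ∀ x, f^[orderOf g] x = x := by
    intro x
    apply Subtype.ext
    rw [hit, pow_orderOf_eq_one]
    simp
  have hτ : t₀ ∈ D' := (le_sup_right : Subgroup.zpowers t₀ ≤ D') (Subgroup.mem_zpowers t₀)
  have hτ1 : (⟨t₀, hτ⟩ : D') ≠ 1 := by
    intro h
    have h2 : t₀ = 1 := congrArg Subtype.val h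
    rw [h2, orderOf_one] at ht₀
    omega
  have hfτ : f ⟨t₀, hτ⟩ = ⟨t₀, hτ⟩ := by
    apply Subtype.ext
    rw [hfval]
    exact hcenz g t₀ (Subgroup.mem_zpowers t₀)
  obtain ⟨ι, hι⟩ := exists_embed hD'p (C.subtype.comp D'.subtype)
    (Subtype.val_injective.comp Subtype.val_injective) S e
  have hfix := key hD'p ι hι f (orderOf g) hm hf ⟨t₀, hτ⟩ hτ1 hfτ
  rw [mem_centralizer_iff']
  intro d hd
  have h1 := hfix ⟨d, (le_sup_left : D ≤ D') hd⟩
  have h2 := congrArg Subtype.val h1
  rw [hfval] at h2
  exact h2

lemma final {C : Type*} [Group C] [Finite C] (h : HasNormalPComplement 2 C) :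
    ∃ N : Subgroup C, N.Normal ∧ Odd (Nat.card N) ∧ ∃ k : ℕ, N.index = 2 ^ k := by
  haveI : Fact (Nat.Prime 2) := ⟨Nat.prime_two⟩
  obtain ⟨P, N, hN, hc⟩ := h
  refine ⟨N, hN, ?_, ?_⟩
  · have h1 : Nat.card N = (P : Subgroup C).index := hc.index_eq_card.symm
    rw [h1, ← Nat.not_even_iff_odd, even_iff_two_dvd]
    exact P.not_dvd_index
  · obtain ⟨k, hk⟩ := IsPGroup.iff_card.mp P.2
    exact ⟨k, by rw [hc.symm.index_eq_card, hk]⟩

/-- In a finite group whose Sylow 2-subgroups are dihedral of order at least 4, the centralizer of any involution has a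
normal subgroup of odd order whose index in the centralizer is a power of 2. -/
theorem result {X : Type*} [Group X] [Finite X]
    (S : Sylow 2 X) (n : ℕ) (hn : 2 ≤ n) (hS : Nonempty ((S : Subgroup X) ≃* DihedralGroup n)) (t : X)
    (ht : orderOf t = 2) :
    ∃ N : Subgroup (Subgroup.centralizer ({t} : Set X)), N.Normal ∧ Odd (Nat.card N) ∧ ∃ k : ℕ, N.index = 2 ^ k := by
  haveI : Fact (Nat.Prime 2) := ⟨Nat.prime_two⟩
  exact final (hasNormalPComplement_of_frobeniusCond (frob S n hS t ht))

end Cfsg.Agent.S0514
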