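import Cfsg.Statements.S0002
import Mathlib.GroupTheory.SchurZassenhaus

set_option autoImplicit false
open Pointwise
open Cfsg

namespace Cfsg.Agent.S0002

theorem stab_aux {G : Type*} [Group G] [Finite G] (A : Subgroup G) [A.Normal] [IsMulCommutative A]
    (hA : (Nat.card A).Coprime A.index) (L : Subgroup G) (hL : Subgroup.IsComplement' A L) :
    ∃ α : A.QuotientDiff, MulAction.stabilizer G α = L := by
  let T : A.LeftTransversal := ⟨L, hL.symm⟩
  let α : A.QuotientDiff := Quotient.mk'' T
  refine ⟨α, ?_⟩
  have h1 : L ≤ MulAction.stabilizer G α := by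
    intro l hl
    rw [MulAction.mem_stabilizer_iff]
    change Quotient.mk'' (MulOpposite.op l⁻¹ • T) = Quotient.mk'' T
    congr 1
    apply Subtype.ext
    ext x
    change x ∈ (MulOpposite.op l⁻¹ • (L : Set G)) ↔ x ∈ (L : Set G)
    rw [Set.mem_smul_set_iff_inv_smul_mem]
    simp only [← MulOpposite.op_inv, inv_inv, MulOpposite.smul_eq_mul_unop, MulOpposite.unop_op]
    exact L.mul_mem_cancel_right hl
  have h2 := Subgroup.isComplement'_stabilizer_of_coprime (α := α) hA
  have h3 := h2.card_mul_card
  have h4 := hL.card_mul_card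
  have hpos : 0 < Nat.card A := Nat.card_pos
  refine (Subgroup.eq_of_le_of_card_ge h1 ?_).symm
  have : Nat.card A * Nat.card (MulAction.stabilizer G α) = Nat.card A * Nat.card L := by
    rw [h3, h4]
  exact le_of_eq (Nat.eq_of_mul_eq_mul_left hpos this)

/-- Schur's Theorem, conjugacy part, for an abelian normal subgroup of coprime order and index: any two complements are conjugate by an element of the normal subgroup. -/
theorem result {G : Type*} [Group G] [Finite G] (A : Subgroup G) [A.Normal] [IsMulCommutative A]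
    (hA : (Nat.card A).Coprime A.index)
    (H K : Subgroup G) (hH : Subgroup.IsComplement' A H) (hK : Subgroup.IsComplement' A K) :
    ∃ a ∈ A, MulAut.conj a • H = K := by
  obtain ⟨α, hα⟩ := stab_aux A hA H hH
  obtain ⟨β, hβ⟩ := stab_aux A hA K hK
  obtain ⟨a, ha⟩ := Subgroup.exists_smul_eq hA α β
  refine ⟨a, a.2, ?_⟩
  have ha' : (a : G) • α = β := ha
  rw [← hα, ← hβ, ← ha']
  exact (MulAction.stabilizer_smul_eq_stabilizer_map_conj (a : G) α).symm

end Cfsg.Agent.S0002
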