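import Cfsg.Statements.S0011

set_option autoImplicit false
open Cfsg

namespace Cfsg.Agent.S0011

/-- If the Frattini quotient of a finite group is nilpotent then the group is nilpotent. -/
theorem result {G : Type*} [Group G] [Finite G]
    (h : Group.IsNilpotent (G ⧸ frattini G)) : Group.IsNilpotent G := by
  have q := (Group.isNilpotent_of_finite_tfae (G := G)).out 0 2
  rw [q]
  have q' := (Group.isNilpotent_of_finite_tfae (G := G ⧸ frattini G)).out 0 2
  rw [q'] at h
  intro M hM
  let π : G →* G ⧸ frattini G := QuotientGroup.mk' (frattini G)
  have hπ : Function.Surjective π := QuotientGroup.mk'_surjective _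
  have hker : π.ker ≤ M := by
    rw [QuotientGroup.ker_mk']
    exact frattini_le_coatom hM
  have hcomap : (M.map π).comap π = M := by
    rw [Subgroup.comap_map_eq, sup_eq_left]
    exact hker
  have hcoatom : IsCoatom (M.map π) := by
    refine ⟨?_, ?_⟩
    · intro htop
      apply hM.1
      rw [← hcomap, htop, Subgroup.comap_top]
    · intro L hL
      have hlt : M < L.comap π := by
        rw [← hcomap]
        refine lt_of_le_of_ne (Subgroup.comap_mono hL.le) ?_
        intro heq
        apply hL.ne
        have := congrArg (Subgroup.map π) heq
        rwa [Subgroup.map_comap_eq_self_of_surjective hπ,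
          Subgroup.map_comap_eq_self_of_surjective hπ] at this
      have := hM.2 _ hlt
      rw [← Subgroup.map_comap_eq_self_of_surjective hπ L, this, Subgroup.map_top_of_surjective _ hπ]
  have := h _ hcoatom
  rw [← hcomap]
  exact this.comap π

end Cfsg.Agent.S0011
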