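import Cfsg.Statements.S0013
import Mathlib.RingTheory.Coprime.Lemmas
import Mathlib.RingTheory.Int.Basic

set_option autoImplicit false
open Cfsg

namespace Cfsg.Agent.S0013

open scoped commutatorElement

/-- In a finite p-group the Frattini subgroup is the smallest normal subgroup with elementary abelian quotient: it lies below any normal subgroup containing all commutators and all p-th powers. -/
theorem result {G : Type*} [Group G] [Finite G] (p : ℕ) [Fact p.Prime]
    (hG : IsPGroup p G) (N : Subgroup G) [N.Normal] (hcomm : commutator G ≤ N) (hpow : ∀ x : G, x ^ p ∈ N) :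
    frattini G ≤ N := by
  classical
  intro x hx
  by_contra hxN
  let s : Set (Subgroup G) := {M | N ≤ M ∧ x ∉ M}
  have hNs : N ∈ s := ⟨le_rfl, hxN⟩
  obtain ⟨M, -, hMmax⟩ := (Set.toFinite s).exists_le_maximal hNs
  have hNM : N ≤ M := hMmax.1.1
  have hxM : x ∉ M := hMmax.1.2
  have hMnorm : M.Normal := by
    constructor
    intro m hm g
    have h1 : ⁅g, m⁆ ∈ M := hNM (hcomm (Subgroup.commutator_mem_commutator (Subgroup.mem_top g) (Subgroup.mem_top m)))
    have h2 : g * m * g⁻¹ = ⁅g, m⁆ * m := by
      rw [commutatorElement_def]; simp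
    rw [h2]
    exact M.mul_mem h1 hm
  have hcoatom : IsCoatom M := by
    refine ⟨?_, ?_⟩
    · rintro rfl
      exact hxM (Subgroup.mem_top x)
    · intro L hL
      have hxL : x ∈ L := by
        by_contra hxL
        exact absurd (hMmax.2 ⟨hNM.trans hL.le, hxL⟩ hL.le) (not_le_of_gt hL)
      rw [eq_top_iff]
      intro y _
      by_contra hyL
      have hyM : y ∉ M := fun h => hyL (hL.le h)
      have hxM' : x ∈ Subgroup.zpowers y ⊔ M := by
        by_contra hxM'
        have hle := hMmax.2 (y := Subgroup.zpowers y ⊔ M) ⟨hNM.trans le_sup_right, hxM'⟩ le_sup_right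
        exact hyM (hle (Subgroup.mem_sup_left (Subgroup.mem_zpowers y)))
      have hset := Subgroup.mul_normal (Subgroup.zpowers y) M
      have hx' : x ∈ ((Subgroup.zpowers y ⊔ M : Subgroup G) : Set G) := hxM'
      rw [hset] at hx'
      obtain ⟨z, hz, m, hm, rfl⟩ := hx'
      obtain ⟨k, rfl⟩ := Subgroup.mem_zpowers_iff.1 hz
      have hyk : y ^ k ∈ L := by
        have : y ^ k = (y ^ k * m) * m⁻¹ := by simp
        rw [this]
        exact L.mul_mem hxL (L.inv_mem (hL.le hm))
      have hypL : y ^ p ∈ L := hL.le (hNM (hpow y))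
      by_cases hdvd : (p : ℤ) ∣ k
      · obtain ⟨c, rfl⟩ := hdvd
        apply hxM
        apply M.mul_mem _ hm
        rw [zpow_mul, zpow_natCast]
        exact M.zpow_mem (hNM (hpow y)) c
      · have hpi : Prime (p : ℤ) := Nat.prime_iff_prime_int.1 (Fact.out)
        have hc : IsCoprime (p : ℤ) k := (Irreducible.coprime_iff_not_dvd hpi.irreducible).2 hdvd
        obtain ⟨a, b, hab⟩ := hc
        apply hyL
        have : y = (y ^ p) ^ a * (y ^ k) ^ b := by
          rw [← zpow_natCast, ← zpow_mul, ← zpow_mul, ← zpow_add, mul_comm (p : ℤ) a, mul_comm k b, hab, zpow_one]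
        rw [this]
        exact L.mul_mem (L.zpow_mem hypL a) (L.zpow_mem hyk b)
  exact hxM (frattini_le_coatom hcoatom hx)

end Cfsg.Agent.S0013
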