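import Cfsg.Statements.S0014
import Cfsg.Agent.S0012
import Cfsg.Agent.S0013
import Mathlib.Algebra.Module.ZMod
import Mathlib.LinearAlgebra.Dimension.Constructions
import Mathlib.LinearAlgebra.Basis.VectorSpace
import Mathlib.FieldTheory.Finite.Basic
import Mathlib.Data.ZMod.Basic

set_option autoImplicit false
open Cfsg

namespace Cfsg.Agent.S0014

open scoped commutatorElement

section Aux

theorem aux0 {Q : Type*} [CommGroup Q] [Finite Q] (p n : ℕ) [Fact p.Prime]
    [Module (ZMod p) (Additive Q)] (hcard : Nat.card Q = p ^ n) :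
    (∀ S : Finset Q, Subgroup.closure (S : Set Q) = ⊤ →
      ∃ T : Finset Q, T ⊆ S ∧ T.card = n ∧ Subgroup.closure (T : Set Q) = ⊤) ∧
    (∀ T : Finset Q, Subgroup.closure (T : Set Q) = ⊤ → n ≤ T.card) := by
  classical
  have hfr : Module.finrank (ZMod p) (Additive Q) = n := by
    have hfin : Module.Finite (ZMod p) (Additive Q) := Module.Finite.of_finite
    have h1 : Nat.card (Additive Q) = Nat.card (ZMod p) ^ Module.finrank (ZMod p) (Additive Q) :=
      @Module.natCard_eq_pow_finrank (ZMod p) (Additive Q) _ _ _ hfin
    have h2 : Nat.card (Additive Q) = p ^ n := hcard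
    rw [h2, Nat.card_zmod] at h1
    exact (Nat.pow_right_injective (Fact.out : p.Prime).two_le h1).symm
  have hfr' : Module.finrank (ZMod p) ↥(⊤ : Submodule (ZMod p) (Additive Q)) = n := by
    rw [finrank_top]; exact hfr
  have hspan : ∀ A : Set Q, Submodule.span (ZMod p) (Additive.toMul ⁻¹' A) = ⊤ ↔ Subgroup.closure A = ⊤ := by
    intro A
    constructor
    · intro h
      let W := AddSubgroup.toZModSubmodule p (Subgroup.toAddSubgroup (Subgroup.closure A))
      have hW : Submodule.span (ZMod p) (Additive.toMul ⁻¹' A) ≤ W := by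
        rw [Submodule.span_le]
        intro x hx
        change Additive.toMul x ∈ Subgroup.closure A
        exact Subgroup.subset_closure hx
      have hW' : W = ⊤ := top_unique (h ▸ hW)
      rw [eq_top_iff]
      intro x _
      have hx : Additive.ofMul x ∈ W := by rw [hW']; trivial
      exact hx
    · intro h
      rw [eq_top_iff]
      intro x _
      let W : AddSubgroup (Additive Q) :=
        (Submodule.span (ZMod p) (Additive.toMul ⁻¹' A)).toAddSubgroup
      let W' : Subgroup Q := AddSubgroup.toSubgroup' W
      have hle : Subgroup.closure A ≤ W' := by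
        rw [Subgroup.closure_le]
        intro a ha
        exact Submodule.subset_span (R := ZMod p) (s := Additive.toMul ⁻¹' A) (a := Additive.ofMul a) ha
      rw [h, top_le_iff] at hle
      have hx : Additive.toMul x ∈ W' := by rw [hle]; exact Subgroup.mem_top _
      exact hx
  constructor
  · intro S hS
    have h1 := (hspan S).2 hS
    haveI hfin : Module.Finite (ZMod p) (Additive Q) := Module.Finite.of_finite
    obtain ⟨b, hbS, hbcard, hbspan, hbli⟩ := Submodule.exists_finset_span_eq_linearIndepOn (ZMod p) (Additive.toMul ⁻¹' (S : Set Q))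
    rw [h1] at hbcard
    rw [h1] at hbspan
    replace hbcard := hbcard.trans hfr'
    refine ⟨b.image Additive.toMul, ?_, ?_, ?_⟩
    · intro x hx
      obtain ⟨y, hy, rfl⟩ := Finset.mem_image.1 hx
      exact hbS hy
    · rw [Finset.card_image_of_injective _ Additive.toMul.injective, hbcard]
    · rw [← hspan, ← hbspan]
      congr 1
      ext x
      simp
  · intro T hT
    have h1 := (hspan T).2 hT
    haveI hfin : Module.Finite (ZMod p) (Additive Q) := Module.Finite.of_finite
    have h2 := finrank_span_finset_le_card (R := ZMod p) (T.image Additive.ofMul)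
    have h3 : ((T.image Additive.ofMul : Finset (Additive Q)) : Set (Additive Q)) = Additive.toMul ⁻¹' (T : Set Q) := by
      ext x
      simp
    rw [h3, Set.finrank, h1, Finset.card_image_of_injective _ Additive.ofMul.injective] at h2
    exact hfr'.symm.le.trans h2

theorem aux {Q : Type*} [Group Q] [Finite Q] (p n : ℕ) [Fact p.Prime]
    (hcomm : ∀ a b : Q, a * b = b * a) (hexp : ∀ x : Q, x ^ p = 1) (hcard : Nat.card Q = p ^ n) :
    (∀ S : Finset Q, Subgroup.closure (S : Set Q) = ⊤ →
      ∃ T : Finset Q, T ⊆ S ∧ T.card = n ∧ Subgroup.closure (T : Set Q) = ⊤) ∧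
    (∀ T : Finset Q, Subgroup.closure (T : Set Q) = ⊤ → n ≤ T.card) := by
  letI : CommGroup Q := { ‹Group Q› with mul_comm := hcomm }
  letI : Module (ZMod p) (Additive Q) := AddCommGroup.zmodModule (n := p) (by
    intro x
    change Additive.ofMul ((Additive.toMul x) ^ p) = 0
    rw [hexp]; rfl)
  exact aux0 p n hcard

end Aux

/-- Burnside's basis Theorem: in a finite p-group whose Frattini quotient has order p ^ n, every generating set contains n elements that already generate, and no set with fewer than n elements generates. -/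
theorem result {G : Type*} [Group G] [Finite G] (p n : ℕ) [Fact p.Prime]
    (hG : IsPGroup p G) (hn : (frattini G).index = p ^ n) :
    (∀ S : Finset G, Subgroup.closure (S : Set G) = ⊤ → ∃ T : Finset G, T ⊆ S ∧ T.card = n ∧ Subgroup.closure (T : Set G) = ⊤) ∧
    (∀ T : Finset G, Subgroup.closure (T : Set G) = ⊤ → n ≤ T.card) := by
  classical
  obtain ⟨hc, hpow⟩ := Cfsg.Agent.S0012.result p hG
  let π : G →* G ⧸ frattini G := QuotientGroup.mk' (frattini G)
  have hπ : Function.Surjective π := QuotientGroup.mk'_surjective _
  have hcomm : ∀ a b : G ⧸ frattini G, a * b = b * a := by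
    intro a b
    obtain ⟨a, rfl⟩ := hπ a
    obtain ⟨b, rfl⟩ := hπ b
    rw [commutator_def, Subgroup.commutator_le] at hc
    have h1 : π ⁅a, b⁆ = 1 :=
      (QuotientGroup.eq_one_iff _).2 (hc a (Subgroup.mem_top a) b (Subgroup.mem_top b))
    rw [map_commutatorElement, commutatorElement_eq_one_iff_mul_comm] at h1
    exact h1
  have hexp : ∀ x : G ⧸ frattini G, x ^ p = 1 := by
    intro x
    obtain ⟨g, rfl⟩ := hπ x
    rw [← map_pow]
    exact (QuotientGroup.eq_one_iff _).2 (hpow g)
  obtain ⟨h1, h2⟩ := aux (Q := G ⧸ frattini G) p n hcomm hexp hn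
  have hmap : ∀ A : Set G, Subgroup.closure A = ⊤ ↔ Subgroup.closure (π '' A) = ⊤ := by
    intro A
    rw [← MonoidHom.map_closure]
    constructor
    · intro h
      rw [h, Subgroup.map_top_of_surjective _ hπ]
    · intro h
      have h1 : Subgroup.closure A ⊔ frattini G = ⊤ := by
        have h2 := congrArg (Subgroup.comap π) h
        rw [Subgroup.comap_map_eq, Subgroup.comap_top, QuotientGroup.ker_mk'] at h2
        exact h2
      exact frattini_nongenerating h1
  constructor
  · intro S hS
    obtain ⟨T, hT1, hT2, hT3⟩ := h1 (S.image π) (by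
      rw [Finset.coe_image]; exact (hmap _).1 hS)
    have hsurj : Set.SurjOn π (S : Set G) (T : Set (G ⧸ frattini G)) := by
      intro x hx
      have := hT1 hx
      simpa using this
    obtain ⟨u, huS, huinj, huimg⟩ := Finset.exists_subset_injOn_image_eq_of_surjOn (S : Set G) T hsurj
    refine ⟨u, by exact_mod_cast huS, ?_, ?_⟩
    · rw [← Finset.card_image_of_injOn huinj, huimg, hT2]
    · rw [hmap, ← Finset.coe_image, huimg, hT3]
  · intro T hT
    have := h2 (T.image π) (by rw [Finset.coe_image]; exact (hmap _).1 hT)
    exact this.trans Finset.card_image_le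

end Cfsg.Agent.S0014
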