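import Cfsg.Statements.S0015
import Cfsg.Agent.S0065

set_option autoImplicit false
open Cfsg

namespace Cfsg.Agent.S0015

/-- In a finite nilpotent group, an abelian normal subgroup that is maximal among abelian normal subgroups equals its own centralizer. -/
theorem result {G : Type*} [Group G] [Finite G] [Group.IsNilpotent G]
    (N : Subgroup G) [N.Normal] [IsMulCommutative N]
    (hmax : ∀ M : Subgroup G, M.Normal → IsMulCommutative M → N ≤ M → M = N) :
    Subgroup.centralizer (N : Set G) = N := by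
  classical
  have hcomm : ∀ a ∈ N, ∀ b ∈ N, Commute a b := by
    intro a ha b hb
    have := (inferInstance : IsMulCommutative N).is_comm.comm ⟨a, ha⟩ ⟨b, hb⟩
    exact congrArg Subtype.val this
  have hNC : N ≤ Subgroup.centralizer (N : Set G) := by
    intro x hx
    rw [Subgroup.mem_centralizer_iff]
    intro y hy
    exact hcomm y hy x hx
  refine le_antisymm ?_ hNC
  by_contra hCN
  let π : G →* G ⧸ N := QuotientGroup.mk' N
  have hπ : Function.Surjective π := QuotientGroup.mk'_surjective _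
  have hCnorm : (Subgroup.centralizer (N : Set G)).Normal := by
    constructor
    intro c hc g
    rw [Subgroup.mem_centralizer_iff] at hc ⊢
    intro h hh
    have h1 : g⁻¹ * h * g ∈ N := by
      have := ‹N.Normal›.conj_mem h hh g⁻¹
      simpa using this
    have h2 := hc _ h1
    calc h * (g * c * g⁻¹) = g * ((g⁻¹ * h * g) * c) * g⁻¹ := by simp [mul_assoc]
      _ = g * (c * (g⁻¹ * h * g)) * g⁻¹ := by rw [h2]
      _ = g * c * g⁻¹ * h := by simp [mul_assoc]
  have hmapNormal : ((Subgroup.centralizer (N : Set G)).map π).Normal := hCnorm.map π hπ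
  have hne : (Subgroup.centralizer (N : Set G)).map π ≠ ⊥ := by
    intro hbot
    apply hCN
    intro c hc
    have : π c ∈ (Subgroup.centralizer (N : Set G)).map π := ⟨c, hc, rfl⟩
    rw [hbot] at this
    exact (QuotientGroup.eq_one_iff c).1 this
  have h1 := Cfsg.Agent.S0065.result _ hne
  obtain ⟨⟨z, hz⟩, hzne⟩ := (Subgroup.ne_bot_iff_exists_ne_one).1 h1
  obtain ⟨⟨x, hxC, rfl⟩, hzc⟩ := hz
  have hzne' : π x ≠ 1 := fun h => hzne (Subtype.ext h)
  have hxN : x ∉ N := fun h => hzne' ((QuotientGroup.eq_one_iff x).2 h)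
  replace hzc : π x ∈ Subgroup.center (G ⧸ N) := hzc
  rw [Subgroup.mem_center_iff] at hzc
  let M : Subgroup G := (Subgroup.zpowers (π x)).comap π
  have hMnorm : M.Normal := by
    apply Subgroup.Normal.comap
    constructor
    rintro y ⟨k, rfl⟩ g
    have : Commute g (π x) := hzc g
    have h2 : g * (π x) ^ k * g⁻¹ = (π x) ^ k := by
      rw [(this.zpow_right k).eq]; simp
    exact ⟨k, h2.symm⟩
  have hNM : N ≤ M := by
    intro n hn
    change π n ∈ Subgroup.zpowers (π x)
    have hn1 : π n = 1 := (QuotientGroup.eq_one_iff n).2 hn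
    rw [hn1]
    exact Subgroup.one_mem _
  have hxM : x ∈ M := Subgroup.mem_zpowers _
  have hdecomp : ∀ a ∈ M, ∃ n ∈ N, ∃ k : ℤ, a = n * x ^ k := by
    intro a ha
    obtain ⟨k, hk⟩ := ha
    refine ⟨a * (x ^ k)⁻¹, ?_, k, by simp⟩
    apply (QuotientGroup.eq_one_iff _).1
    change π (a * (x ^ k)⁻¹) = 1
    simp only [map_mul, map_inv, map_zpow]
    rw [← hk]
    simp
  have hxk : ∀ k : ℤ, x ^ k ∈ Subgroup.centralizer (N : Set G) := fun k => Subgroup.zpow_mem _ hxC k
  have hMcomm : IsMulCommutative M := by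
    refine ⟨⟨?_⟩⟩
    rintro ⟨a, ha⟩ ⟨b, hb⟩
    obtain ⟨n1, hn1, k, rfl⟩ := hdecomp a ha
    obtain ⟨n2, hn2, l, rfl⟩ := hdecomp b hb
    apply Subtype.ext
    have c1 : Commute n1 n2 := hcomm n1 hn1 n2 hn2
    have c2 : Commute n1 (x ^ l) := (Subgroup.mem_centralizer_iff.1 (hxk l) n1 hn1)
    have c3 : Commute (x ^ k) n2 := (Subgroup.mem_centralizer_iff.1 (hxk k) n2 hn2).symm
    have c4 : Commute (x ^ k) (x ^ l) := (Commute.refl x).zpow_zpow k l
    exact (Commute.mul_left (Commute.mul_right c1 c2) (Commute.mul_right c3 c4)).eq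
  have hMN := hmax M hMnorm hMcomm hNM
  exact hxN (hMN ▸ hxM)

end Cfsg.Agent.S0015
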