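import Cfsg.Statements.S0047
import Mathlib.GroupTheory.Solvable
import Mathlib.Algebra.Group.Subgroup.Finite
import Mathlib.Tactic.Group

set_option autoImplicit false
open Cfsg
open scoped commutatorElement

namespace Cfsg.Agent.S0047

variable {G : Type*} [Group G]

theorem comm_mul_right {a x y : G} (h : y * a⁻¹ = a⁻¹ * y) : ⁅a, x * y⁆ = ⁅a, x⁆ := by
  simp only [commutatorElement_def]
  calc a * (x * y) * a⁻¹ * (x * y)⁻¹ = a * x * (y * a⁻¹) * y⁻¹ * x⁻¹ := by group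
    _ = a * x * (a⁻¹ * y) * y⁻¹ * x⁻¹ := by rw [h]
    _ = _ := by group

theorem comm_mul_left {b x y : G} (h : y * b = b * y) : ⁅x * y, b⁆ = ⁅x, b⁆ := by
  simp only [commutatorElement_def]
  calc x * y * b * (x * y)⁻¹ * b⁻¹ = x * (y * b) * y⁻¹ * x⁻¹ * b⁻¹ := by group
    _ = x * (b * y) * y⁻¹ * x⁻¹ * b⁻¹ := by rw [h]
    _ = _ := by group

theorem conj_comm (g x y : G) : g * ⁅x, y⁆ * g⁻¹ = ⁅g * x * g⁻¹, g * y * g⁻¹⁆ := by
  simp only [commutatorElement_def]; group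

theorem key (A B : Subgroup G)
    (hA : ∀ x ∈ A, ∀ y ∈ A, x * y = y * x) (hB : ∀ x ∈ B, ∀ y ∈ B, x * y = y * x)
    (hAB : ∀ g : G, ∃ a ∈ A, ∃ b ∈ B, g = a * b)
    {a a₁ b b₁ : G} (ha : a ∈ A) (ha₁ : a₁ ∈ A) (hb : b ∈ B) (hb₁ : b₁ ∈ B) :
    Commute ⁅b₁⁻¹, a₁⁻¹⁆ ⁅a, b⁆ := by
  -- decomposition a₁ b a₁⁻¹ = b₂ a₂
  obtain ⟨a₂', ha₂', b₂', hb₂', h₂⟩ := hAB (a₁ * b⁻¹ * a₁⁻¹)
  have h₂' : a₁ * b * a₁⁻¹ = b₂'⁻¹ * a₂'⁻¹ := by
    rw [← mul_inv_rev, ← h₂]; group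
  have hb₂ : b₂'⁻¹ ∈ B := B.inv_mem hb₂'
  have ha₂ : a₂'⁻¹ ∈ A := A.inv_mem ha₂'
  obtain ⟨a₃, ha₃, b₃, hb₃, h₃⟩ := hAB (b₁ * a * b₁⁻¹)
  have comA : ∀ x ∈ A, a₁ * x * a₁⁻¹ = x := fun x hx => by
    rw [hA _ ha₁ _ hx]; group
  have comB : ∀ x ∈ B, b₁ * x * b₁⁻¹ = x := fun x hx => by
    rw [hB _ hb₁ _ hx]; group
  have step1 : ∀ x ∈ A, a₁ * ⁅x, b⁆ * a₁⁻¹ = ⁅x, b₂'⁻¹⁆ := fun x hx => by
    rw [conj_comm, comA x hx, h₂', comm_mul_right (hA _ ha₂ _ (A.inv_mem hx))]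
  have step2 : ∀ x ∈ B, b₁ * ⁅a, x⁆ * b₁⁻¹ = ⁅a₃, x⁆ := fun x hx => by
    rw [conj_comm, comB x hx, h₃, comm_mul_left (hB _ hb₃ _ hx)]
  have e : (b₁ * a₁) * ⁅a, b⁆ * (b₁ * a₁)⁻¹ = (a₁ * b₁) * ⁅a, b⁆ * (a₁ * b₁)⁻¹ := by
    calc (b₁ * a₁) * ⁅a, b⁆ * (b₁ * a₁)⁻¹ = b₁ * (a₁ * ⁅a, b⁆ * a₁⁻¹) * b₁⁻¹ := by group
      _ = ⁅a₃, b₂'⁻¹⁆ := by rw [step1 a ha, step2 _ hb₂]
      _ = a₁ * (b₁ * ⁅a, b⁆ * b₁⁻¹) * a₁⁻¹ := by rw [step2 b hb, step1 a₃ ha₃]
      _ = _ := by group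
  have hc : ⁅b₁⁻¹, a₁⁻¹⁆ = (a₁ * b₁)⁻¹ * (b₁ * a₁) := by
    simp only [commutatorElement_def]; group
  rw [hc]
  unfold Commute SemiconjBy
  generalize ⁅a, b⁆ = c at e ⊢
  have e' : (b₁ * a₁) * c = (a₁ * b₁) * c * (a₁ * b₁)⁻¹ * (b₁ * a₁) := by
    rw [← e]; group
  calc (a₁ * b₁)⁻¹ * (b₁ * a₁) * c = (a₁ * b₁)⁻¹ * ((b₁ * a₁) * c) := by group
    _ = _ := by rw [e']; group

/-- A finite group which is the product AB of two abelian subgroups A and B is solvable. -/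
theorem result {G : Type*} [Group G] [Finite G] (A B : Subgroup G)
    [IsMulCommutative A] [IsMulCommutative B] (hAB : ∀ g : G, ∃ a ∈ A, ∃ b ∈ B, g = a * b) :
    Group.IsSolvable G := by
  have hA : ∀ x ∈ A, ∀ y ∈ A, x * y = y * x := fun x hx y hy => by
    have := (IsMulCommutative.is_comm (M := A)).comm ⟨x, hx⟩ ⟨y, hy⟩
    simpa using congrArg Subtype.val this
  have hB : ∀ x ∈ B, ∀ y ∈ B, x * y = y * x := fun x hx y hy => by
    have := (IsMulCommutative.is_comm (M := B)).comm ⟨x, hx⟩ ⟨y, hy⟩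
    simpa using congrArg Subtype.val this
  let S : Set G := {c | ∃ a ∈ A, ∃ b ∈ B, c = ⁅a, b⁆}
  let N : Subgroup G := Subgroup.closure S
  -- commuting generators
  have hS : ∀ x ∈ S, ∀ y ∈ S, x * y = y * x := by
    rintro x ⟨a', ha', b', hb', rfl⟩ y ⟨a, ha, b, hb, rfl⟩
    have := key A B hA hB hAB ha (A.inv_mem ha') hb (B.inv_mem hb')
    rw [inv_inv, inv_inv] at this
    have h2 : ⁅a', b'⁆ = ⁅b', a'⁆⁻¹ := by simp [commutatorElement_inv]
    rw [h2]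
    exact (this.inv_left).eq
  have hN : ∀ x ∈ N, ∀ y ∈ N, x * y = y * x := by
    intro x hx y hy
    have hle : N ≤ Subgroup.centralizer (N : Set G) := by
      apply (Subgroup.closure_le _).2
      intro c hc
      rw [SetLike.mem_coe, Subgroup.mem_centralizer_iff]
      intro d hd
      have : d ∈ Subgroup.centralizer S := by
        refine (Subgroup.closure_le (Subgroup.centralizer S)).2 ?_ hd
        intro e he
        rw [SetLike.mem_coe, Subgroup.mem_centralizer_iff]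
        intro f hf
        exact hS f hf e he
      exact ((Subgroup.mem_centralizer_iff.1 this) c hc).symm
    have := Subgroup.mem_centralizer_iff.1 (hle hy) x hx
    exact this
  have hmemN : ∀ {a b : G}, a ∈ A → b ∈ B → ⁅a, b⁆ ∈ N := fun {a b} ha hb =>
    Subgroup.subset_closure ⟨a, ha, b, hb, rfl⟩
  -- N is normal
  have hnorm : N.Normal := by
    have hA' : ∀ g ∈ A, ∀ n ∈ N, g * n * g⁻¹ ∈ N := by
      intro g hg n hn
      induction hn using Subgroup.closure_induction with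
      | mem c hc =>
        obtain ⟨a, ha, b, hb, rfl⟩ := hc
        have h : g * ⁅a, b⁆ * g⁻¹ = ⁅g * a, b⁆ * ⁅g, b⁆⁻¹ := by
          simp only [commutatorElement_def]; group
        rw [h]
        exact N.mul_mem (hmemN (A.mul_mem hg ha) hb) (N.inv_mem (hmemN hg hb))
      | one => simp [N.one_mem]
      | mul x y _ _ hx hy =>
        have : g * (x * y) * g⁻¹ = (g * x * g⁻¹) * (g * y * g⁻¹) := by group
        rw [this]; exact N.mul_mem hx hy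
      | inv x _ hx =>
        have : g * x⁻¹ * g⁻¹ = (g * x * g⁻¹)⁻¹ := by group
        rw [this]; exact N.inv_mem hx
    have hB' : ∀ g ∈ B, ∀ n ∈ N, g * n * g⁻¹ ∈ N := by
      intro g hg n hn
      induction hn using Subgroup.closure_induction with
      | mem c hc =>
        obtain ⟨a, ha, b, hb, rfl⟩ := hc
        have h : g * ⁅a, b⁆ * g⁻¹ = ⁅a, g⁆⁻¹ * ⁅a, g * b⁆ := by
          simp only [commutatorElement_def]; group
        rw [h]
        exact N.mul_mem (N.inv_mem (hmemN ha hg)) (hmemN ha (B.mul_mem hg hb))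
      | one => simp [N.one_mem]
      | mul x y _ _ hx hy =>
        have : g * (x * y) * g⁻¹ = (g * x * g⁻¹) * (g * y * g⁻¹) := by group
        rw [this]; exact N.mul_mem hx hy
      | inv x _ hx =>
        have : g * x⁻¹ * g⁻¹ = (g * x * g⁻¹)⁻¹ := by group
        rw [this]; exact N.inv_mem hx
    constructor
    intro n hn g
    obtain ⟨a, ha, b, hb, rfl⟩ := hAB g
    have := hA' a ha _ (hB' b hb n hn)
    convert this using 1
    group
  -- commutators lie in N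
  have hcomm : commutator G ≤ N := by
    rw [commutator_eq_closure, Subgroup.closure_le]
    rintro _ ⟨x, y, rfl⟩
    obtain ⟨a₁, ha₁, b₁, hb₁, rfl⟩ := hAB x
    obtain ⟨a₂, ha₂, b₂, hb₂, rfl⟩ := hAB y
    rw [SetLike.mem_coe, ← QuotientGroup.eq_one_iff (N := N)]
    have c1 : ((a₁ : G) : G ⧸ N) * (a₂ : G) = (a₂ : G) * (a₁ : G) := by
      rw [← QuotientGroup.mk_mul, ← QuotientGroup.mk_mul, hA _ ha₁ _ ha₂]
    have c2 : ((b₁ : G) : G ⧸ N) * (b₂ : G) = (b₂ : G) * (b₁ : G) := by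
      rw [← QuotientGroup.mk_mul, ← QuotientGroup.mk_mul, hB _ hb₁ _ hb₂]
    have cab : ∀ {a b : G}, a ∈ A → b ∈ B → ((a : G) : G ⧸ N) * (b : G) = (b : G) * (a : G) := by
      intro a b ha hb
      have h1 : ((⁅a, b⁆ : G) : G ⧸ N) = 1 := (QuotientGroup.eq_one_iff _).2 (hmemN ha hb)
      have h2 : ((⁅a, b⁆ : G) : G ⧸ N) = (a : G ⧸ N) * b * (a : G ⧸ N)⁻¹ * (b : G ⧸ N)⁻¹ := by
        simp [commutatorElement_def]
      rw [h2] at h1
      have h3 := mul_inv_eq_one.1 h1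
      exact mul_inv_eq_iff_eq_mul.1 h3
    have hc : Commute (((a₁ * b₁ : G)) : G ⧸ N) ((a₂ * b₂ : G) : G ⧸ N) := by
      rw [QuotientGroup.mk_mul, QuotientGroup.mk_mul]
      have h12 : Commute ((a₁ : G) : G ⧸ N) (a₂ : G) := c1
      have h13 : Commute ((a₁ : G) : G ⧸ N) (b₂ : G) := cab ha₁ hb₂
      have h23 : Commute ((b₁ : G) : G ⧸ N) (a₂ : G) := (cab ha₂ hb₁).symm
      have h24 : Commute ((b₁ : G) : G ⧸ N) (b₂ : G) := c2
      exact (h12.mul_right h13).mul_left (h23.mul_right h24)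
    have : ((⁅a₁ * b₁, a₂ * b₂⁆ : G) : G ⧸ N) = ⁅((a₁ * b₁ : G) : G ⧸ N), ((a₂ * b₂ : G) : G ⧸ N)⁆ := by
      simp [commutatorElement_def]
    rw [this]
    exact commutatorElement_eq_one_iff_commute.2 hc
  refine ⟨2, ?_⟩
  rw [eq_bot_iff]
  have : derivedSeries G 2 = ⁅commutator G, commutator G⁆ := by
    simp [derivedSeries, commutator]
  rw [this, Subgroup.commutator_le]
  intro x hx y hy
  rw [Subgroup.mem_bot, commutatorElement_eq_one_iff_mul_comm]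
  exact hN x (hcomm hx) y (hcomm hy)

end Cfsg.Agent.S0047
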