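import Cfsg.Statements.S0049
import Mathlib.GroupTheory.Frattini
import Mathlib.GroupTheory.SchurZassenhaus
import Mathlib.GroupTheory.Sylow

set_option autoImplicit false
open Cfsg

namespace Cfsg.Agent.S0049

/-- A prime divisor of the order of a finite group also divides the index of the Frattini subgroup. -/
theorem result {G : Type*} [Group G] [Finite G] (p : ℕ) (hp : p.Prime) (hdvd : p ∣ Nat.card G) :
    p ∣ (frattini G).index := by
  by_contra hnd
  haveI : Fact p.Prime := ⟨hp⟩
  obtain ⟨P⟩ : Nonempty (Sylow p G) := inferInstance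
  -- P ≤ Φ
  have hPΦ : (P : Subgroup G) ≤ frattini G := by
    intro x hx
    have hpg : IsPGroup p (P : Subgroup G) := P.isPGroup'
    obtain ⟨k, hk⟩ := (IsPGroup.iff_orderOf.mp hpg) ⟨x, hx⟩
    have hk' : orderOf x = p ^ k := by
      rw [← hk, Subgroup.orderOf_mk]
    have h1 : x ^ p ^ k = 1 := by rw [← hk']; exact pow_orderOf_eq_one x
    have h2 : orderOf ((x : G) : G ⧸ frattini G) ∣ p ^ k := by
      apply orderOf_dvd_of_pow_eq_one
      rw [← QuotientGroup.mk_pow, h1]; rfl
    have h3 : orderOf ((x : G) : G ⧸ frattini G) ∣ (frattini G).index := by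
      rw [Subgroup.index_eq_card]
      exact orderOf_dvd_natCard _
    have h4 : Nat.Coprime (p ^ k) (frattini G).index :=
      Nat.Coprime.pow_left _ ((Nat.Prime.coprime_iff_not_dvd hp).2 hnd)
    have h5 : orderOf ((x : G) : G ⧸ frattini G) = 1 :=
      Nat.eq_one_of_dvd_coprimes h4 h2 h3
    rw [orderOf_eq_one_iff, QuotientGroup.eq_one_iff] at h5
    exact h5
  have hnorm : Subgroup.normalizer ((P : Subgroup G) : Set G) = ⊤ :=
    frattini_nongenerating (Sylow.normalizer_sup_eq_top' P hPΦ)
  have hPn : (P : Subgroup G).Normal := Subgroup.normalizer_eq_top_iff.mp hnorm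
  obtain ⟨H, hH⟩ := Subgroup.exists_right_complement'_of_coprime (N := (P : Subgroup G)) P.card_coprime_index
  have hsup : (P : Subgroup G) ⊔ H = ⊤ := hH.sup_eq_top
  have hHtop : H = ⊤ := by
    apply frattini_nongenerating
    rw [eq_top_iff, ← hsup, sup_comm]
    exact sup_le_sup_left hPΦ H
  have hdisj := hH.disjoint
  rw [hHtop, disjoint_top] at hdisj
  have hne := Sylow.ne_bot_of_dvd_card P hdvd
  exact hne hdisj

end Cfsg.Agent.S0049
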