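import Cfsg.Statements.S0053
import Cfsg.Agent.Lib.Solvable.Gaschutz

set_option autoImplicit false
open Cfsg

namespace Cfsg.Agent.S0053

/-- An abelian minimal normal subgroup N of a finite group is complemented exactly when N is not inside the Frattini subgroup. -/
theorem result {G : Type*} [Group G] [Finite G]
    (N : Subgroup G) [N.Normal] [IsMulCommutative N] (hN : N ≠ ⊥)
    (hmin : ∀ M : Subgroup G, M.Normal → M ≤ N → M = ⊥ ∨ M = N) :
    (∃ H : Subgroup G, Subgroup.IsComplement' N H) ↔ ¬ N ≤ frattini G := by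
  classical
  constructor
  · rintro ⟨H, hH⟩ hle
    have h1 : H ⊔ frattini G = ⊤ := by
      apply top_le_iff.mp
      intro g _
      obtain ⟨⟨k, a⟩, hka⟩ := hH.2 g
      have h2 : g = k.1 * a.1 := hka.symm
      rw [h2]
      exact Subgroup.mul_mem _ ((le_sup_right : frattini G ≤ _) (hle k.2))
        ((le_sup_left : H ≤ _) a.2)
    have h2 : H = ⊤ := frattini_nongenerating h1
    apply hN
    have h3 := hH.disjoint
    rw [h2, disjoint_top] at h3
    exact h3
  · intro hnle
    obtain ⟨M, hM, hNM⟩ : ∃ M : Subgroup G, IsCoatom M ∧ ¬ N ≤ M := by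
      by_contra hcon
      push Not at hcon
      apply hnle
      intro x hx
      unfold frattini Order.radical
      simp only [Subgroup.mem_iInf]
      intro M hM
      exact hcon M hM hx
    have hsup : N ⊔ M = ⊤ := by
      rw [sup_comm]
      exact hM.2 _ (lt_of_le_of_ne le_sup_left (fun h => hNM (h ▸ le_sup_right)))
    have hinfn : (N ⊓ M).Normal := by
      constructor
      intro x hx g
      have hg : g ∈ N ⊔ M := by
        rw [hsup]
        trivial
      rw [← SetLike.mem_coe, Subgroup.normal_mul] at hg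
      obtain ⟨n, hn, m, hm, rfl⟩ := Set.mem_mul.mp hg
      have h1 : m * x * m⁻¹ ∈ N ⊓ M :=
        ⟨(inferInstance : N.Normal).conj_mem x hx.1 m, M.mul_mem (M.mul_mem hm hx.2) (M.inv_mem hm)⟩
      have h2 : n * (m * x * m⁻¹) * n⁻¹ = m * x * m⁻¹ := by
        have h3 := Cfsg.Agent.Lib.Solvable.Gaschutz.commute_of_mem N hn h1.1 inferInstance
        rw [h3]
        group
      have h4 : n * m * x * (n * m)⁻¹ = n * (m * x * m⁻¹) * n⁻¹ := by group
      rw [h4, h2]
      exact h1
    have hinf : N ⊓ M = ⊥ := by
      rcases hmin _ hinfn inf_le_left with h | h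
      · exact h
      · exact absurd (inf_eq_left.mp h) hNM
    refine ⟨M, Subgroup.isComplement'_of_disjoint_and_mul_eq_univ (disjoint_iff.mpr hinf) ?_⟩
    rw [← Subgroup.normal_mul, hsup]
    rfl

end Cfsg.Agent.S0053
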