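import Cfsg.Statements.S0060
import Mathlib.GroupTheory.Sylow
import Mathlib.Tactic.Group
import Mathlib.Data.Fintype.Lattice
import Mathlib.Data.Set.Finite.Lattice

set_option autoImplicit false
open Pointwise
open Cfsg

namespace Cfsg.Agent.S0060

variable {G : Type*} [Group G] [Finite G] {p : ℕ} [Fact p.Prime]

theorem mem_conj {g x : G} {H : Subgroup G} :
    x ∈ MulAut.conj g • H ↔ g⁻¹ * x * g ∈ H := by
  rw [Subgroup.mem_pointwise_smul_iff_inv_smul_mem, ← map_inv, MulAut.smul_def, MulAut.conj_apply,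
    inv_inv]

theorem mem_sylow_smul {g x : G} {P : Sylow p G} :
    x ∈ ((g • P : Sylow p G) : Subgroup G) ↔ g⁻¹ * x * g ∈ (P : Subgroup G) := by
  rw [Sylow.coe_subgroup_smul, mem_conj]

/-- The intersection of all Sylow subgroups lies in the `p`-core. -/
theorem iInf_sylow_le_pCore (Z : Sylow p G) :
    (⨅ P : Sylow p G, (P : Subgroup G)) ≤ Cfsg.pCore p G := by
  apply le_sSup
  constructor
  · constructor
    intro x hx g
    rw [Subgroup.mem_iInf] at hx ⊢
    intro P
    have := hx (g⁻¹ • P)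
    rw [mem_sylow_smul] at this
    simpa using this
  · have h1 : (⨅ P : Sylow p G, (P : Subgroup G)) ≤ Z := iInf_le _ Z
    exact Z.isPGroup'.to_le h1

/-- Brodkey's Theorem: in a finite group with abelian Sylow p-subgroups and no nontrivial normal p-subgroup, some conjugate of a Sylow p-subgroup meets it trivially. -/
theorem result {G : Type*} [Group G] [Finite G] (p : ℕ) [Fact p.Prime]
    (S : Sylow p G) (hS : IsMulCommutative S) (hOp : Cfsg.pCore p G = ⊥) :
    ∃ g : G, (S : Subgroup G) ⊓ MulAut.conj g • (S : Subgroup G) = ⊥ := by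
  classical
  have hcomm : ∀ P : Sylow p G, ∀ x ∈ (P : Subgroup G), ∀ y ∈ (P : Subgroup G), x * y = y * x := by
    intro P x hx y hy
    obtain ⟨g, rfl⟩ := MulAction.exists_smul_eq G S P
    rw [mem_sylow_smul] at hx hy
    have h1 := hS.is_comm.comm (⟨_, hx⟩ : (S : Subgroup G)) ⟨_, hy⟩
    have h2 : g⁻¹ * x * g * (g⁻¹ * y * g) = g⁻¹ * y * g * (g⁻¹ * x * g) := congrArg Subtype.val h1
    have h3 : g⁻¹ * x * g * (g⁻¹ * y * g) = g⁻¹ * (x * y) * g := by group
    have h4 : g⁻¹ * y * g * (g⁻¹ * x * g) = g⁻¹ * (y * x) * g := by group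
    rw [h3, h4] at h2
    simpa using h2
  obtain ⟨⟨X, Y⟩, hmin⟩ := Finite.exists_min
    (fun q : Sylow p G × Sylow p G => Nat.card (((q.1 : Subgroup G) ⊓ (q.2 : Subgroup G) : Subgroup G)))
  simp only at hmin
  have hD : (X : Subgroup G) ⊓ (Y : Subgroup G) = ⊥ := by
    by_contra hne
    set D : Subgroup G := (X : Subgroup G) ⊓ (Y : Subgroup G) with hDdef
    -- a Sylow not containing D
    obtain ⟨Z, hZ⟩ : ∃ Z : Sylow p G, ¬ D ≤ (Z : Subgroup G) := by
      by_contra hall
      push Not at hall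
      apply hne
      have h1 : D ≤ ⨅ P : Sylow p G, (P : Subgroup G) := le_iInf hall
      have h2 := iInf_sylow_le_pCore X
      rw [hOp] at h2
      exact eq_bot_iff.2 (h1.trans h2)
    -- normaliser
    let N : Subgroup G := Subgroup.normalizer (D : Set G)
    have hDN : ∀ P : Sylow p G, D ≤ (P : Subgroup G) → (P : Subgroup G) ≤ N := by
      intro P hP x hx
      rw [Subgroup.mem_normalizer_iff]
      intro h
      have hcx : ∀ y ∈ D, x * y * x⁻¹ = y := by
        intro y hy
        rw [hcomm P x hx y (hP hy)]; group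
      constructor
      · intro hh
        rw [hcx h hh]; exact hh
      · intro hh
        have : x⁻¹ * (x * h * x⁻¹) * x = h := by group
        rw [← this]
        have hinv : ∀ y ∈ D, x⁻¹ * y * x = y := by
          intro y hy
          rw [hcomm P x⁻¹ (Subgroup.inv_mem _ hx) y (hP hy)]; group
        rw [hinv _ hh]; exact hh
    have hXN : (X : Subgroup G) ≤ N := hDN X inf_le_left
    have hYN : (Y : Subgroup G) ≤ N := hDN Y inf_le_right
    -- the p-subgroup E = Z ⊓ N
    let E : Subgroup G := (Z : Subgroup G) ⊓ N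
    have hE : IsPGroup p E := Z.isPGroup'.to_inf_left
    have hE' : IsPGroup p (E.subgroupOf N) := hE.comap_subtype
    obtain ⟨Q, hQ⟩ := hE'.exists_le_sylow
    let X' : Sylow p N := X.subtype hXN
    obtain ⟨n, hn⟩ := MulAction.exists_smul_eq N X' Q
    let T' : Sylow p G := (n : G) • Y
    have hnD : ∀ y, y ∈ D ↔ (n : G) * y * (n : G)⁻¹ ∈ D := by
      intro y
      exact Subgroup.mem_normalizer_iff.1 n.2 y
    have hT'N : (T' : Subgroup G) ≤ N := by
      intro x hx
      rw [mem_sylow_smul] at hx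
      have := N.mul_mem (N.mul_mem n.2 (hYN hx)) (N.inv_mem n.2)
      convert this using 1
      group
    have hsub : (T' : Subgroup G) ⊓ (Z : Subgroup G) ≤ D := by
      rintro x ⟨hxT, hxZ⟩
      have hxN := hT'N hxT
      have hxE : (⟨x, hxN⟩ : N) ∈ E.subgroupOf N := ⟨hxZ, hxN⟩
      have hxQ := hQ hxE
      rw [← hn] at hxQ
      have h2 : (n : G)⁻¹ * x * (n : G) ∈ (X : Subgroup G) := by
        have h21 := (mem_sylow_smul (G := N)).1 hxQ
        rw [Sylow.coe_subtype, Subgroup.mem_subgroupOf] at h21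
        exact h21
      have h3 : (n : G)⁻¹ * x * (n : G) ∈ (Y : Subgroup G) := mem_sylow_smul.1 hxT
      have h4 : (n : G)⁻¹ * x * (n : G) ∈ D := ⟨h2, h3⟩
      have h5 := (hnD _).1 h4
      convert h5 using 1
      group
    have hlt : (T' : Subgroup G) ⊓ (Z : Subgroup G) < D := by
      refine lt_of_le_of_ne hsub ?_
      intro heq
      apply hZ
      rw [← heq]
      exact inf_le_right
    have hcard : Nat.card ((T' : Subgroup G) ⊓ (Z : Subgroup G) : Subgroup G) < Nat.card D := by
      have hss : (((T' : Subgroup G) ⊓ (Z : Subgroup G) : Subgroup G) : Set G) ⊂ (D : Set G) :=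
        SetLike.coe_ssubset_coe.2 hlt
      exact Set.Finite.card_lt_card (Set.toFinite _) hss
    have := hmin (T', Z)
    simp only at this
    omega
  obtain ⟨a, ha⟩ := MulAction.exists_smul_eq G S X
  obtain ⟨b, hb⟩ := MulAction.exists_smul_eq G S Y
  refine ⟨a⁻¹ * b, ?_⟩
  rw [eq_bot_iff]
  rintro x ⟨hx1, hx2⟩
  change x ∈ MulAut.conj (a⁻¹ * b) • (S : Subgroup G) at hx2
  change x ∈ (S : Subgroup G) at hx1
  rw [mem_conj] at hx2
  have h1 : a * x * a⁻¹ ∈ (X : Subgroup G) := by
    rw [← ha, mem_sylow_smul]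
    convert hx1 using 1
    group
  have h2 : a * x * a⁻¹ ∈ (Y : Subgroup G) := by
    rw [← hb, mem_sylow_smul]
    convert hx2 using 1
    group
  have h3 : a * x * a⁻¹ ∈ (X : Subgroup G) ⊓ (Y : Subgroup G) := ⟨h1, h2⟩
  rw [hD, Subgroup.mem_bot] at h3
  have : x = a⁻¹ * (a * x * a⁻¹) * a := by group
  rw [this, h3]; simp

end Cfsg.Agent.S0060
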