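import Cfsg.Statements.S0062
import Cfsg.Agent.S0061
import Mathlib

set_option autoImplicit false
open Cfsg

namespace Cfsg.Agent.S0062

universe u

theorem solvable_of_p_sq {G : Type u} [Group G] [Finite G] {p : ℕ} (hp : p.Prime) {n : ℕ}
    (hG : Nat.card G ∣ p ^ n) : Group.IsSolvable G := by
  haveI := Fact.mk hp
  have : IsPGroup p G := IsPGroup.of_card_dvd_pow hG
  haveI := this.isNilpotent
  infer_instance

/-- Order 36. -/
theorem solvable_36 {G : Type u} [Group G] [Finite G] (hG : Nat.card G = 36) :
    Group.IsSolvable G := by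
  haveI : Fact (Nat.Prime 3) := ⟨by norm_num⟩
  obtain ⟨P⟩ : Nonempty (Sylow 3 G) := inferInstance
  have hfac : (Nat.card G).factorization 3 = 2 := by
    rw [hG, show (36 : ℕ) = 2 ^ 2 * 3 ^ 2 by norm_num,
      Nat.factorization_mul (by norm_num) (by norm_num),
      Nat.Prime.factorization_pow (by norm_num), Nat.Prime.factorization_pow (by norm_num)]
    simp
  have hcardP : Nat.card (P : Subgroup G) = 9 := by
    rw [P.card_eq_multiplicity, hfac]; norm_num
  have hsmall : ∀ {A : Type u} [Group A] [Finite A], Nat.card A ∣ 36 → Nat.card A ≠ 36 →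
      Group.IsSolvable A := by
    intro A _ _ hd hne
    have hle : Nat.card A ≤ 36 := Nat.le_of_dvd (by norm_num) hd
    have hpos : 0 < Nat.card A := Nat.card_pos
    have hmem : Nat.card A = 1 ∨ Nat.card A = 2 ∨ Nat.card A = 3 ∨ Nat.card A = 4 ∨ Nat.card A = 6 ∨
        Nat.card A = 9 ∨ Nat.card A = 12 ∨ Nat.card A = 18 := by
      generalize Nat.card A = n at *
      interval_cases n <;> omega
    have two : Nat.Prime 2 := Nat.prime_two
    have three : Nat.Prime 3 := Nat.prime_three
    rcases hmem with h | h | h | h | h | h | h | h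
    · haveI : Subsingleton A := (Nat.card_eq_one_iff_unique.1 h).1
      infer_instance
    · exact Cfsg.Agent.S0061.result 3 2 0 three two (by rw [h]; norm_num)
    · exact Cfsg.Agent.S0061.result 2 3 0 two three (by rw [h]; norm_num)
    · exact Cfsg.Agent.S0061.result 2 2 1 two two (by rw [h]; norm_num)
    · exact Cfsg.Agent.S0061.result 2 3 1 two three (by rw [h]; norm_num)
    · exact Cfsg.Agent.S0061.result 3 3 1 three three (by rw [h]; norm_num)
    · exact Cfsg.Agent.S0061.result 2 3 2 two three (by rw [h]; norm_num)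
    · exact Cfsg.Agent.S0061.result 3 2 2 three two (by rw [h]; norm_num)
  -- the action on cosets of P
  let φ : G →* Equiv.Perm (G ⧸ (P : Subgroup G)) := MulAction.toPermHom G (G ⧸ (P : Subgroup G))
  have hidx : (P : Subgroup G).index = 4 := by
    have h1 := Subgroup.card_mul_index (P : Subgroup G)
    rw [hcardP, hG] at h1
    omega
  have hcardPerm : Nat.card (Equiv.Perm (G ⧸ (P : Subgroup G))) = 24 := by
    rw [Nat.card_perm]
    have : Nat.card (G ⧸ (P : Subgroup G)) = 4 := by
      rw [← Subgroup.index_eq_card, hidx]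
    rw [this]; rfl
  let K : Subgroup G := φ.ker
  have hKtop : K ≠ ⊤ := by
    intro h
    -- then P would be the whole group
    have hle : K ≤ P := by
      intro x hx
      have h1 : φ x = 1 := hx
      have h2 : x • ((1 : G) : G ⧸ (P : Subgroup G)) = ((1 : G) : G ⧸ (P : Subgroup G)) := by
        have := congrArg (fun f : Equiv.Perm (G ⧸ (P : Subgroup G)) => f ((1 : G) : G ⧸ (P : Subgroup G))) h1
        simpa [φ] using this
      have h3 := MulAction.Quotient.smul_coe (P : Subgroup G) x (1 : G)
      rw [MulAction.mem_stabilizer_iff.symm] at h2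
      simpa using h2
    rw [h, top_le_iff] at hle
    rw [hle, Subgroup.index_top] at hidx
    omega
  have hKbot : K ≠ ⊥ := by
    intro h
    have hinj : Function.Injective φ := (MonoidHom.ker_eq_bot_iff φ).1 h
    have := Nat.card_le_card_of_injective φ hinj
    rw [hG, hcardPerm] at this
    omega
  have hmul : Nat.card K * K.index = 36 := by rw [Subgroup.card_mul_index, hG]
  have hpos1 : 0 < Nat.card K := Nat.card_pos
  have hpos2 : 0 < K.index := Nat.pos_of_ne_zero Subgroup.index_ne_zero_of_finite
  have hi1 : K.index ≠ 1 := fun h => hKtop (Subgroup.index_eq_one.1 h)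
  have hc1 : Nat.card K ≠ 1 := fun h => hKbot (Subgroup.eq_bot_of_card_eq _ h)
  have h1 : Group.IsSolvable K := hsmall ⟨K.index, hmul.symm⟩ (by
    intro h; rw [h] at hmul; omega)
  have h2 : Group.IsSolvable (G ⧸ K) := hsmall (by
      rw [← Subgroup.index_eq_card]; exact ⟨Nat.card K, by rw [← hmul, mul_comm]⟩) (by
    rw [← Subgroup.index_eq_card]
    intro h; rw [h] at hmul; omega)
  exact Cfsg.Agent.S0061.solvable_of_normal K h1 h2

theorem main {G : Type u} [Group G] [Finite G] (p q : ℕ) (hp : p.Prime) (hq : q.Prime)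
    (hlt : q < p) (hG : Nat.card G = p ^ 2 * q ^ 2) : Group.IsSolvable G := by
  haveI := Fact.mk hp
  have hpq : p ≠ q := hlt.ne'
  obtain ⟨P⟩ : Nonempty (Sylow p G) := inferInstance
  have hfac : (Nat.card G).factorization p = 2 := by
    rw [hG, Nat.factorization_mul (pow_pos hp.pos _).ne' (pow_pos hq.pos _).ne',
      hp.factorization_pow, hq.factorization_pow]
    simp [hq.factorization, hpq.symm]
  have hcardP : Nat.card (P : Subgroup G) = p ^ 2 := by
    rw [P.card_eq_multiplicity, hfac]
  have hidx : (P : Subgroup G).index = q ^ 2 := by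
    have h1 := Subgroup.card_mul_index (P : Subgroup G)
    rw [hcardP, hG] at h1
    exact Nat.eq_of_mul_eq_mul_left (pow_pos hp.pos _) h1
  have hdvd : Nat.card (Sylow p G) ∣ q ^ 2 := by
    rw [← hidx]; exact Sylow.card_dvd_index P
  have hmod : Nat.card (Sylow p G) ≡ 1 [MOD p] := card_sylow_modEq_one p G
  obtain ⟨i, hi, hi2⟩ := (Nat.dvd_prime_pow hq).1 hdvd
  have hq1 : 1 < q := hq.one_lt
  have hcases : Nat.card (Sylow p G) = 1 ∨ (p = 3 ∧ q = 2) := by
    interval_cases i
    · left; simpa using hi2
    · exfalso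
      rw [pow_one] at hi2
      rw [hi2] at hmod
      have : q % p = 1 % p := hmod
      rw [Nat.mod_eq_of_lt hlt, Nat.mod_eq_of_lt (by omega)] at this
      omega
    · right
      rw [hi2] at hmod
      have h3 : p ∣ q ^ 2 - 1 := (Nat.modEq_iff_dvd' (Nat.one_le_pow _ _ hq.pos)).1 hmod.symm
      have h4 : q ^ 2 - 1 = (q - 1) * (q + 1) := by
        obtain ⟨k, rfl⟩ : ∃ k, q = k + 1 := ⟨q - 1, by omega⟩
        simp; ring_nf; omega
      rw [h4] at h3
      rcases (Nat.Prime.dvd_mul hp).1 h3 with h5 | h5
      · have := Nat.le_of_dvd (by omega) h5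
        omega
      · have := Nat.le_of_dvd (by omega) h5
        have hpe : p = q + 1 := by omega
        -- consecutive primes
        rcases hq.eq_two_or_odd with rfl | hodd
        · exact ⟨by omega, rfl⟩
        · exfalso
          have h2p : 2 ∣ p := by rw [hpe]; omega
          have hp2 := (Nat.prime_dvd_prime_iff_eq Nat.prime_two hp).1 h2p
          omega
  rcases hcases with h1 | ⟨rfl, rfl⟩
  · -- normal Sylow
    have hsub : Subsingleton (Sylow p G) := by
      exact (Nat.card_eq_one_iff_unique.1 h1).1
    haveI hPn : (P : Subgroup G).Normal := P.normal_of_subsingleton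
    have h2 : Group.IsSolvable (P : Subgroup G) :=
      solvable_of_p_sq hp (n := 2) (by rw [hcardP])
    have h3 : Group.IsSolvable (G ⧸ (P : Subgroup G)) :=
      solvable_of_p_sq hq (n := 2) (by rw [← Subgroup.index_eq_card, hidx])
    exact Cfsg.Agent.S0061.solvable_of_normal P h2 h3
  · exact solvable_36 (by rw [hG]; norm_num)

/-- A finite group of order p^2 * q^2 with p and q prime is solvable. -/
theorem result {G : Type*} [Group G] [Finite G] (p q : ℕ) (hp : p.Prime) (hq : q.Prime)
    (hG : Nat.card G = p ^ 2 * q ^ 2) : Group.IsSolvable G := by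
  rcases lt_trichotomy p q with h | rfl | h
  · exact main q p hq hp h (by rw [hG, mul_comm])
  · exact solvable_of_p_sq hp (n := 4) (by rw [hG, ← pow_add])
  · exact main p q hp hq h hG

end Cfsg.Agent.S0062
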