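import Cfsg.Statements.S0063
import Mathlib.GroupTheory.PGroup
import Mathlib.GroupTheory.Nilpotent
import Mathlib.GroupTheory.SpecificGroups.Cyclic

set_option autoImplicit false
open Cfsg

namespace Cfsg.Agent.S0063

theorem aux {p : ℕ} [Fact p.Prime] (m : ℕ) :
    ∀ {G : Type*} [Group G] [Finite G], Nat.card G = p ^ m → 1 < m → Group.nilpotencyClass G ≤ m - 1 := by
  induction m using Nat.strong_induction_on with
  | _ m ih =>
    intro G _ _ hG hm
    classical
    have hP : IsPGroup p G := IsPGroup.of_card hG
    haveI : Group.IsNilpotent G := hP.isNilpotent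
    have hnt : Nontrivial G := by
      rw [← Finite.one_lt_card_iff_nontrivial, hG]
      exact Nat.one_lt_pow (by omega) (Fact.out : p.Prime).one_lt
    have hZ := hP.center_nontrivial
    -- card of the centre
    obtain ⟨k, hk⟩ := (IsPGroup.iff_card.mp (hP.to_subgroup (Subgroup.center G)))
    have hk0 : 0 < k := by
      rcases Nat.eq_zero_or_pos k with rfl | h
      · rw [pow_zero] at hk
        exact absurd hk (Finite.one_lt_card_iff_nontrivial.mpr hZ).ne'
      · exact h
    obtain ⟨l, hl⟩ := IsPGroup.iff_card.mp (hP.to_quotient (Subgroup.center G))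
    have hcard : p ^ m = p ^ l * p ^ k := by
      rw [← hG, ← hl, ← hk]
      exact (Subgroup.card_eq_card_quotient_mul_card_subgroup (Subgroup.center G))
    have hml : m = l + k := by
      rw [← pow_add] at hcard
      exact Nat.pow_right_injective (Fact.out : p.Prime).two_le hcard
    by_cases hl1 : 1 < l
    · have h1 := ih l (by omega) hl hl1
      have h2 := nilpotencyClass_eq_quotient_center_plus_one (G := G)
      omega
    · -- the central quotient is cyclic
      haveI : IsCyclic (G ⧸ Subgroup.center G) := by
        interval_cases l
        · rw [pow_zero] at hl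
          haveI := (Nat.card_eq_one_iff_unique.mp hl).1
          exact isCyclic_of_subsingleton
        · rw [pow_one] at hl
          haveI : Fact (Nat.card (G ⧸ Subgroup.center G)).Prime := ⟨by rw [hl]; exact Fact.out⟩
          exact isCyclic_of_prime_card rfl
      letI : CommGroup G := { ‹Group G› with mul_comm := (commutative_of_cyclic_center_quotient (QuotientGroup.mk' (Subgroup.center G)) (by simp)) }
      have := CommGroup.nilpotencyClass_le_one (G := G)
      omega

/-- A finite group of prime-power order p ^ m with m > 1 is nilpotent of class at most m - 1. -/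
theorem result {G : Type*} [Group G] [Finite G] (p m : ℕ) [Fact p.Prime]
    (hG : Nat.card G = p ^ m) (hm : 1 < m) : Group.nilpotencyClass G ≤ m - 1 := 
  aux m hG hm

end Cfsg.Agent.S0063
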