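import Cfsg.Statements.S0064
import Mathlib.GroupTheory.Nilpotent
import Mathlib.GroupTheory.IsSubnormal
import Mathlib.Order.WellFoundedSet

set_option autoImplicit false
open Cfsg

namespace Cfsg.Agent.S0064

/-- A finite group is nilpotent exactly when each of its subgroups is subnormal. -/
theorem result {G : Type*} [Group G] [Finite G] :
    Group.IsNilpotent G ↔ ∀ H : Subgroup G, H.IsSubnormal := by
  constructor
  · intro hG H
    have hNC : NormalizerCondition G := Group.normalizerCondition_of_isNilpotent
    induction H using WellFoundedGT.induction with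
    | _ H ih =>
      by_cases hH : H = ⊤
      · rw [hH]; exact Subgroup.IsSubnormal.top
      · have hlt : H < Subgroup.normalizer (H : Set G) := hNC H (lt_top_iff_ne_top.2 hH)
        exact Subgroup.IsSubnormal.step H _ hlt.le (ih _ hlt)
          (Subgroup.normal_subgroupOf_of_le_normalizer le_rfl)
  · intro h
    refine ((Group.isNilpotent_of_finite_tfae (G := G)).out 2 0).1 ?_
    intro H hH
    obtain ⟨K, hK, hHK, hlt⟩ := (h H).exists_normal_and_le_and_lt_top_of_ne hH.1
    have : H = K := by
      rcases eq_or_lt_of_le hHK with h1 | h1
      · exact h1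
      · exact absurd (hH.2 K h1) hlt.ne
    rw [this]; exact hK

end Cfsg.Agent.S0064
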