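import Cfsg.Statements.S0067
import Cfsg.Agent.S0066
import Cfsg.Agent.S0064
import Cfsg.Agent.Lib.Core.Basic

set_option autoImplicit false
open Pointwise
open Cfsg

namespace Cfsg.Agent.S0067

/-- If the join of a subgroup A with each of its conjugates is nilpotent, then A is subnormal in the finite group and contained in the Fitting subgroup. -/
theorem result {G : Type*} [Group G] [Finite G] (A : Subgroup G)
    (h : ∀ g : G, Group.IsNilpotent (A ⊔ MulAut.conj g • A : Subgroup G)) : A.IsSubnormal ∧ A ≤ Cfsg.fittingSubgroup G := by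
  have hsn : A.IsSubnormal := Cfsg.Agent.S0066.result A (fun g => by
    haveI := h g
    exact (Cfsg.Agent.S0064.result (G := (A ⊔ MulAut.conj g • A : Subgroup G))).1 inferInstance _)
  refine ⟨hsn, Cfsg.Agent.Lib.Core.Basic.le_fittingSubgroup_of_isSubnormal hsn ?_⟩
  haveI := h 1
  have hle : A ≤ (A ⊔ MulAut.conj (1 : G) • A : Subgroup G) := le_sup_left
  exact Group.nilpotent_of_mulEquiv (Subgroup.subgroupOfEquivOfLe hle)

end Cfsg.Agent.S0067
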