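import Cfsg.Statements.S0070
import Mathlib.GroupTheory.Frattini
import Mathlib.GroupTheory.Sylow
import Mathlib.GroupTheory.Nilpotent

set_option autoImplicit false
open Cfsg

namespace Cfsg.Agent.S0070

variable {G : Type*} [Group G] [Finite G]

theorem nilpotent_of_map (N : Subgroup G) [hN : N.Normal] (hΦ : frattini G ≤ N)
    (hnil : Group.IsNilpotent (N.map (QuotientGroup.mk' (frattini G)))) : Group.IsNilpotent N := by
  refine ((Group.isNilpotent_of_finite_tfae (G := N)).out 3 0).1 ?_
  intro p hp P
  set φ := QuotientGroup.mk' (frattini G) with hφ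
  have hφs : Function.Surjective φ := QuotientGroup.mk'_surjective _
  let f : N →* N.map φ := φ.subgroupMap N
  have hf : Function.Surjective f := φ.subgroupMap_surjective N
  let Pb : Sylow p (N.map φ) := P.mapSurjective hf
  have hPbn : (Pb : Subgroup (N.map φ)).Normal := inferInstance
  haveI hPbc : (Pb : Subgroup (N.map φ)).Characteristic := Pb.characteristic_of_normal hPbn
  haveI hNbn : (N.map φ).Normal := hN.map φ hφs
  have hQb : ((Pb : Subgroup (N.map φ)).map (N.map φ).subtype).Normal := inferInstance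
  let Q : Subgroup G := ((Pb : Subgroup (N.map φ)).map (N.map φ).subtype).comap φ
  haveI hQn : Q.Normal := hQb.comap φ
  let P₁ : Subgroup G := (P : Subgroup N).map N.subtype
  have hP₁N : P₁ ≤ N := Subgroup.map_subtype_le _
  have hP₁Q : P₁ ≤ Q := by
    rintro _ ⟨x, hx, rfl⟩
    refine ⟨f x, ⟨x, hx, rfl⟩, rfl⟩
  have hQN : Q ≤ N := by
    intro x hx
    obtain ⟨y, _, hy⟩ := hx
    obtain ⟨z, hz, hzy⟩ := y.2
    have h1 : φ (z⁻¹ * x) = 1 := by
      rw [map_mul, map_inv, hzy]
      have : ((N.map φ).subtype y) = (y : G ⧸ frattini G) := rfl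
      rw [← this, hy]; simp
    have h2 : z⁻¹ * x ∈ frattini G := (QuotientGroup.eq_one_iff _).1 h1
    have h3 : x = z * (z⁻¹ * x) := by group
    rw [h3]
    exact N.mul_mem hz (hΦ h2)
  have hQle : Q ≤ P₁ ⊔ frattini G := by
    intro x hx
    obtain ⟨y, hy, hyx⟩ := hx
    obtain ⟨z, hz, hzy⟩ := hy
    have hz' : φ z.1 = (N.map φ).subtype y := by
      rw [← hzy]; rfl
    have h1 : φ (z.1⁻¹ * x) = 1 := by
      rw [map_mul, map_inv, hz', ← hyx]; simp
    have h2 : (z.1)⁻¹ * x ∈ frattini G := (QuotientGroup.eq_one_iff _).1 h1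
    have h3 : x = z.1 * (z.1⁻¹ * x) := by group
    rw [h3]
    exact Subgroup.mul_mem_sup ⟨z, hz, rfl⟩ h2
  -- P₁ as Sylow subgroup of Q
  have hpQ : IsPGroup p (P₁.subgroupOf Q) := (P.isPGroup'.map N.subtype).comap_subtype
  have hidx : ¬ p ∣ (P₁.subgroupOf Q).index := by
    have h1 : (P₁.subgroupOf Q).index ∣ (P₁.subgroupOf N).index := by
      change P₁.relIndex Q ∣ P₁.relIndex N
      exact Dvd.intro _ (Subgroup.relIndex_mul_relIndex P₁ Q N hP₁Q hQN)
    have h2 : (P₁.subgroupOf N) = P := by
      exact Subgroup.comap_map_eq_self_of_injective N.subtype_injective _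
    rw [h2] at h1
    exact fun h => P.not_dvd_index (h.trans h1)
  let P' : Sylow p Q := hpQ.toSylow hidx
  have hfr := Sylow.normalizer_sup_eq_top (N := Q) P'
  have hmap : ((P' : Subgroup Q).map Q.subtype) = P₁ := by
    have : (P' : Subgroup Q) = P₁.subgroupOf Q := rfl
    rw [this]
    exact Subgroup.map_subgroupOf_eq_of_le hP₁Q
  have hfr' : Subgroup.normalizer (((P' : Subgroup Q).map Q.subtype : Subgroup G) : Set G) ⊔ Q = ⊤ := hfr
  rw [hmap] at hfr'
  have htop : Subgroup.normalizer (P₁ : Set G) ⊔ frattini G = ⊤ := by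
    rw [eq_top_iff, ← hfr']
    refine sup_le le_sup_left (hQle.trans (sup_le_sup_right ?_ _))
    exact Subgroup.le_normalizer
  have hnorm := frattini_nongenerating htop
  have hP₁n : P₁.Normal := Subgroup.normalizer_eq_top_iff.mp hnorm
  exact hP₁n.of_map_subtype

/-- The Fitting subgroup commutes with passing to the Frattini quotient: the Fitting subgroup of G modulo its Frattini subgroup is the image of the Fitting subgroup of G. -/
theorem result {G : Type*} [Group G] [Finite G] :
    Cfsg.fittingSubgroup (G ⧸ frattini G) = (Cfsg.fittingSubgroup G).map (QuotientGroup.mk' (frattini G)) := by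
  have hφs : Function.Surjective (QuotientGroup.mk' (frattini G)) := QuotientGroup.mk'_surjective _
  apply le_antisymm
  · apply sSup_le
    rintro Nb ⟨hNb, hnil⟩
    let N : Subgroup G := Nb.comap (QuotientGroup.mk' (frattini G))
    haveI hN : N.Normal := hNb.comap _
    have hΦ : frattini G ≤ N := by
      intro x hx
      change ((x : G) : G ⧸ frattini G) ∈ Nb
      rw [(QuotientGroup.eq_one_iff x).2 hx]
      exact Nb.one_mem
    have hmap : N.map (QuotientGroup.mk' (frattini G)) = Nb :=
      Subgroup.map_comap_eq_self_of_surjective hφs Nb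
    have hnilN : Group.IsNilpotent N := nilpotent_of_map N hΦ (by rw [hmap]; exact hnil)
    rw [← hmap]
    apply Subgroup.map_mono
    exact le_sSup ⟨hN, hnilN⟩
  · rw [Subgroup.map_le_iff_le_comap]
    apply sSup_le
    rintro N ⟨hN, hnil⟩
    rw [← Subgroup.map_le_iff_le_comap]
    apply le_sSup
    refine ⟨hN.map _ hφs, ?_⟩
    exact Group.nilpotent_of_surjective _ ((QuotientGroup.mk' (frattini G)).subgroupMap_surjective N)

end Cfsg.Agent.S0070
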