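import Cfsg.Statements.S0076

set_option autoImplicit false
open Cfsg

namespace Cfsg.Agent.S0076

/-- Two P-invariant subsets of a Sylow p-subgroup P that are conjugate in G are conjugate under the normalizer of P. -/
theorem result {G : Type*} [Group G] [Finite G] {p : ℕ} [Fact p.Prime] (P : Sylow p G) (X Y : Set G) (hXP : X ⊆ P) (hYP : Y ⊆ P) (hX : ∀ x ∈ P, (fun y => x * y * x⁻¹) '' X = X) (hY : ∀ x ∈ P, (fun y => x * y * x⁻¹) '' Y = Y) (g : G) (hg : (fun y => g * y * g⁻¹) '' X = Y) : ∃ n ∈ Subgroup.normalizer (P : Set G), (fun y => n * y * n⁻¹) '' X = Y := by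
  have key : ∀ (a b : G) (S : Set G), (fun y => a * y * a⁻¹) '' ((fun y => b * y * b⁻¹) '' S)
      = (fun y => (a * b) * y * (a * b)⁻¹) '' S := by
    intro a b S
    rw [Set.image_image]
    apply Set.image_congr
    intro y _
    group
  have hmem : ∀ (a : G) (S : Set G), a ∈ Subgroup.normalizer S ↔
      (fun y => a * y * a⁻¹) '' S = S := by
    intro a S
    rw [Subgroup.mem_normalizer_iff_conj_image_eq]
    rfl
  have hP : (P : Subgroup G) ≤ Subgroup.normalizer Y := fun x hx => (hmem x Y).2 (hY x hx)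
  have hQ : ((g • P : Sylow p G) : Subgroup G) ≤ Subgroup.normalizer Y := by
    intro x hx
    rw [Sylow.coe_subgroup_smul, Subgroup.mem_pointwise_smul_iff_inv_smul_mem] at hx
    have hx' : g⁻¹ * x * g ∈ (P : Subgroup G) := by
      simpa [MulAut.smul_def, MulAut.conj_apply, mul_assoc] using hx
    apply (hmem x Y).2
    have h2 := hX _ hx'
    calc (fun y => x * y * x⁻¹) '' Y
        = (fun y => x * y * x⁻¹) '' ((fun y => g * y * g⁻¹) '' X) := by rw [hg]
      _ = (fun y => (x * g) * y * (x * g)⁻¹) '' X := key _ _ _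
      _ = (fun y => (g * (g⁻¹ * x * g)) * y * (g * (g⁻¹ * x * g))⁻¹) '' X := by
            simp only [mul_assoc, mul_inv_cancel_left]
      _ = (fun y => g * y * g⁻¹) '' ((fun y => (g⁻¹ * x * g) * y * (g⁻¹ * x * g)⁻¹) '' X) :=
            (key _ _ _).symm
      _ = Y := by rw [h2, hg]
  obtain ⟨h, hh⟩ := MulAction.exists_smul_eq (Subgroup.normalizer Y)
    ((g • P : Sylow p G).subtype hQ) (P.subtype hP)
  rw [Sylow.smul_subtype] at hh
  have hh2 := Sylow.subtype_injective hh
  refine ⟨h * g, ?_, ?_⟩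
  · rw [← Sylow.smul_eq_iff_mem_normalizer, mul_smul]
    exact hh2
  · rw [← key, hg]
    exact (hmem _ Y).1 h.2

end Cfsg.Agent.S0076
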