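import Cfsg.Statements.S0079
import Cfsg.Agent.Lib.ElementFusion.Control
import Cfsg.Agent.S0073

set_option autoImplicit false
open Cfsg

namespace Cfsg.Agent.S0079

open Cfsg.Agent.Lib.Transfer.Basic Cfsg.Agent.Lib.Transfer.Frobenius
open Cfsg.Agent.Lib.ElementFusion.Control
open scoped commutatorElement

universe u

/-- In a finite nilpotent group, a `p`-element and a `p'`-element commute. -/
theorem commute_of_isNilpotent {H : Type u} [Group H] [Finite H] [hn : Group.IsNilpotent H] {p : ℕ}
    [Fact p.Prime] {x y : H} (hx : ∃ k : ℕ, x ^ p ^ k = 1) (hy : Nat.Coprime (orderOf y) p) :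
    x * y = y * x := by
  classical
  by_contra hne
  have hnC : y ∉ Subgroup.centralizer ({x} : Set H) := by
    intro hc
    exact hne (Subgroup.mem_centralizer_iff.1 hc x rfl)
  obtain ⟨y', q, k, hq, hk, hy', hy'C⟩ := Cfsg.Agent.S0073.exists_prime_pow_power _ y hnC
  have hfq : Fact q.Prime := ⟨hq⟩
  have hall := (Group.isNilpotent_of_finite_tfae (G := H)).out 0 3 |>.1 hn
  have hZp : IsPGroup q (Subgroup.zpowers y') :=
    IsPGroup.of_card (n := k) (by rw [Nat.card_zpowers, hk])
  obtain ⟨Q, hQ⟩ := hZp.exists_le_sylow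
  have hQn := hall q inferInstance Q
  have hy'Q : y' ∈ (Q : Subgroup H) := hQ (Subgroup.mem_zpowers y')
  obtain ⟨j, hj⟩ := hx
  have hxp : IsPGroup p (Subgroup.zpowers x) :=
    IsPGroup.of_card_dvd_pow (n := j) (by
      rw [Nat.card_zpowers]
      exact orderOf_dvd_of_pow_eq_one hj)
  obtain ⟨S, hS⟩ := hxp.exists_le_sylow
  have hSn := hall p inferInstance S
  have hxS : x ∈ (S : Subgroup H) := hS (Subgroup.mem_zpowers x)
  -- the commutator lies in both
  have hc1 : x * y' * x⁻¹ * y'⁻¹ ∈ (Q : Subgroup H) :=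
    (Q : Subgroup H).mul_mem (hQn.conj_mem y' hy'Q x) ((Q : Subgroup H).inv_mem hy'Q)
  have hc2 : x * y' * x⁻¹ * y'⁻¹ ∈ (S : Subgroup H) := by
    have h3 := hSn.conj_mem x⁻¹ ((S : Subgroup H).inv_mem hxS) y'
    have h4 := (S : Subgroup H).mul_mem hxS h3
    simpa [mul_assoc] using h4
  have hk0 : k ≠ 0 := by
    rintro rfl
    rw [pow_zero, orderOf_eq_one_iff] at hk
    rw [hk] at hy'C
    exact hy'C (Subgroup.one_mem _)
  have hqk : Nat.Coprime q p := by
    have h5 : Nat.Coprime (q ^ k) p := by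
      rw [← hk]
      exact Nat.Coprime.coprime_dvd_left (orderOf_dvd_of_mem_zpowers hy') hy
    exact Nat.Coprime.coprime_dvd_left (dvd_pow_self q hk0) h5
  have hc3 : Nat.Coprime (orderOf (x * y' * x⁻¹ * y'⁻¹)) p := by
    obtain ⟨m, hm⟩ := (IsPGroup.iff_orderOf.mp Q.2) ⟨_, hc1⟩
    rw [Subgroup.orderOf_mk] at hm
    rw [hm]
    exact Nat.Coprime.pow_left _ hqk
  have hc4 := eq_one_of_coprime_of_mem_isPGroup S.2 hc2 hc3
  apply hy'C
  rw [Subgroup.mem_centralizer_iff]
  rintro _ rfl
  exact mul_inv_eq_one.1 (by simpa [mul_assoc] using hc4)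

/-- A nilpotent Hall subgroup has a normal complement exactly when elements of it that are conjugate in the whole group are already conjugate inside it. -/
theorem result {G : Type*} [Group G] [Finite G] (H : Subgroup G) (hH : Group.IsNilpotent H) (hHall : Nat.Coprime (Nat.card H) H.index) : (∃ N : Subgroup G, N.Normal ∧ N.IsComplement' H) ↔ ∀ x ∈ H, ∀ y ∈ H, (∃ g : G, g * x * g⁻¹ = y) → ∃ h ∈ H, h * x * h⁻¹ = y := by
  classical
  constructor
  · rintro ⟨N, hN, hc⟩ x hx y hy ⟨g, hg⟩
    obtain ⟨⟨n, h⟩, hnh⟩ := hc.2 g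
    change (n : G) * (h : G) = g at hnh
    refine ⟨h, h.2, ?_⟩
    set w := (h : G) * x * (h : G)⁻¹ with hw
    have hwH : w ∈ H := H.mul_mem (H.mul_mem h.2 hx) (H.inv_mem h.2)
    have hyw : y = (n : G) * w * (n : G)⁻¹ := by
      rw [← hg, ← hnh, hw]; group
    have h1 : y * w⁻¹ ∈ H := H.mul_mem hy (H.inv_mem hwH)
    have h2 : y * w⁻¹ ∈ N := by
      have h3 := hN.conj_mem _ (N.inv_mem n.2) w
      have h4 := N.mul_mem n.2 h3
      rw [hyw]
      have e : (n : G) * w * (n : G)⁻¹ * w⁻¹ = (n : G) * (w * (n : G)⁻¹ * w⁻¹) := by group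
      rw [e]
      exact h4
    have h5 : y * w⁻¹ ∈ N ⊓ H := ⟨h2, h1⟩
    have h6 := hc.disjoint.le_bot h5
    rw [Subgroup.mem_bot, mul_inv_eq_one] at h6
    exact h6.symm
  · intro hctrl
    have hstep : ∀ p : ℕ, p.Prime → p ∣ Nat.card H → HasNormalPComplement p G := by
      intro p hp hpd
      have : Fact p.Prime := ⟨hp⟩
      obtain ⟨S⟩ : Nonempty (Sylow p H) := inferInstance
      have hall := (Group.isNilpotent_of_finite_tfae (G := H)).out 0 3 |>.1 hH
      have hSn : (S : Subgroup H).Normal := hall p inferInstance S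
      have hP₀p : IsPGroup p ((S : Subgroup H).map H.subtype) := S.2.map _
      have hP₀i : ¬ p ∣ ((S : Subgroup H).map H.subtype).index := by
        rw [Subgroup.index_map_subtype, Nat.Prime.dvd_mul hp]
        rintro (h | h)
        · exact S.not_dvd_index h
        · exact hp.one_lt.ne' (Nat.eq_one_of_dvd_coprimes hHall hpd h)
      apply hasNormalPComplement_of_control (hP₀p.toSylow hP₀i)
      rintro _ ⟨x', hx', rfl⟩ _ ⟨y', hy', rfl⟩ hxy
      obtain ⟨h, hh, hhx⟩ := hctrl _ x'.2 _ y'.2 hxy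
      obtain ⟨a, b, hab, hcomm, -, -, hak, hbo⟩ := exists_pPart_decomp (p := p) (⟨h, hh⟩ : H)
      have hxk : ∃ k : ℕ, x' ^ p ^ k = 1 := by
        obtain ⟨k, hk⟩ := S.2 ⟨x', hx'⟩
        exact ⟨k, congrArg Subtype.val hk⟩
      have hbx : x' * b = b * x' := commute_of_isNilpotent hxk hbo
      have haS : a ∈ (S : Subgroup H) := by
        obtain ⟨j, hj⟩ := hak
        have hzp : IsPGroup p (Subgroup.zpowers a) :=
          IsPGroup.of_card_dvd_pow (n := j) (by
            rw [Nat.card_zpowers]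
            exact orderOf_dvd_of_pow_eq_one hj)
        obtain ⟨T, hT⟩ := hzp.exists_le_sylow
        have hST : (S : Subgroup H) ≤ T := S.2.le_sylow_of_normal T
        have hTS : (T : Subgroup H) = S := S.3 T.2 hST
        rw [← hTS]
        exact hT (Subgroup.mem_zpowers a)
      refine ⟨(a : G), ⟨a, haS, rfl⟩, ?_⟩
      have hab' : h = (a : G) * (b : G) := congrArg Subtype.val hab
      have hbx' : (x' : G) * (b : G) = (b : G) * (x' : G) := congrArg Subtype.val hbx
      simp only [Subgroup.subtype_apply] at hhx ⊢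
      rw [← hhx, hab']
      have e : (a : G) * b * x' * ((a : G) * b)⁻¹ = (a : G) * (b * x') * (b : G)⁻¹ * (a : G)⁻¹ := by
        group
      rw [e, ← hbx']
      group
    let N : Subgroup G := ⨅ p ∈ (Nat.card H).primeFactors, pResidual p G
    have hmem : ∀ x, x ∈ N ↔ Nat.Coprime (orderOf x) (Nat.card H) := by
      intro x
      simp only [N, Subgroup.mem_iInf]
      constructor
      · intro h
        apply Nat.Coprime.symm
        apply Nat.coprime_of_dvd
        intro q hq hq1 hq2
        have hq' : q ∈ (Nat.card H).primeFactors :=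
          Nat.mem_primeFactors.2 ⟨hq, hq1, Nat.card_pos.ne'⟩
        have hf : Fact q.Prime := ⟨hq⟩
        have h3 := h q hq'
        rw [mem_pResidual_iff_of_hasNormalPComplement (hstep q hq hq1)] at h3
        have h4 : q ∣ Nat.gcd (orderOf x) q := Nat.dvd_gcd hq2 dvd_rfl
        rw [h3] at h4
        exact hq.one_lt.ne' (Nat.dvd_one.1 h4)
      · intro h p hp
        have hp' := Nat.mem_primeFactors.1 hp
        have hf : Fact p.Prime := ⟨hp'.1⟩
        rw [mem_pResidual_iff_of_hasNormalPComplement (hstep p hp'.1 hp'.2.1)]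
        exact Nat.Coprime.coprime_dvd_right hp'.2.1 h
    have hNn : N.Normal := by
      constructor
      intro x hx g
      rw [hmem] at hx ⊢
      have : orderOf (g * x * g⁻¹) = orderOf x := by
        simpa using (MulAut.conj g).orderOf_eq x
      rwa [this]
    have hcop1 : Nat.Coprime (Nat.card N) (Nat.card H) := by
      by_contra hcon
      obtain ⟨q, hq, hqN, hqH⟩ := Nat.Prime.not_coprime_iff_dvd.1 hcon
      have hf : Fact q.Prime := ⟨hq⟩
      obtain ⟨x, hx⟩ := exists_prime_orderOf_dvd_card' q hqN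
      have h1 := (hmem x).1 x.2
      rw [Subgroup.orderOf_coe, hx] at h1
      have h4 : q ∣ Nat.gcd q (Nat.card H) := Nat.dvd_gcd dvd_rfl hqH
      rw [h1] at h4
      exact hq.one_lt.ne' (Nat.dvd_one.1 h4)
    have hcardG : Nat.card H * H.index = Nat.card G := Subgroup.card_mul_index H
    have hpow : ∀ x : G, x ^ Nat.card H ∈ N := by
      intro x
      rw [hmem]
      have h1 : orderOf (x ^ Nat.card H) ∣ H.index := by
        apply orderOf_dvd_of_pow_eq_one
        rw [← pow_mul, hcardG]
        exact pow_card_eq_one'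
      exact Nat.Coprime.coprime_dvd_left h1 hHall.symm
    have hcop2 : Nat.Coprime H.index N.index := by
      by_contra hcon
      obtain ⟨q, hq, hqk, hqN⟩ := Nat.Prime.not_coprime_iff_dvd.1 hcon
      have hf : Fact q.Prime := ⟨hq⟩
      rw [Subgroup.index_eq_card] at hqN
      obtain ⟨x, hx⟩ := exists_prime_orderOf_dvd_card' q hqN
      obtain ⟨g, rfl⟩ := QuotientGroup.mk'_surjective N x
      have h1 : (QuotientGroup.mk' N g) ^ Nat.card H = 1 := by
        rw [← map_pow]
        exact (QuotientGroup.eq_one_iff _).2 (hpow g)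
      have h2 : q ∣ Nat.card H := by
        rw [← hx]
        exact orderOf_dvd_of_pow_eq_one h1
      have h4 : q ∣ Nat.gcd (Nat.card H) H.index := Nat.dvd_gcd h2 hqk
      rw [hHall] at h4
      exact hq.one_lt.ne' (Nat.dvd_one.1 h4)
    have hNcard : Nat.card N = H.index := by
      have hcardN : Nat.card N * N.index = Nat.card G := Subgroup.card_mul_index N
      apply Nat.dvd_antisymm
      · apply hcop1.dvd_of_dvd_mul_left
        rw [hcardG, ← hcardN]
        exact Dvd.intro _ rfl
      · apply hcop2.dvd_of_dvd_mul_right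
        rw [hcardN, ← hcardG]
        exact Dvd.intro_left _ rfl
    refine ⟨N, hNn, Subgroup.isComplement'_of_coprime ?_ hcop1⟩
    rw [hNcard, mul_comm, hcardG]

end Cfsg.Agent.S0079
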