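import Cfsg.Statements.S0093
import Cfsg.Agent.Lib.PGroups.Critical

set_option autoImplicit false
open Cfsg

namespace Cfsg.Agent.S0093



/-- Every finite p-group has a critical subgroup: a characteristic subgroup H whose Frattini subgroup and whose commutator with the whole group lie in the centre of H, and whose centralizer is contained in H. -/
theorem result {P : Type*} [Group P] [Finite P] {p : ℕ} [Fact p.Prime] (hP : IsPGroup p P) : ∃ H : Subgroup P, H.Characteristic ∧ (frattini H).map H.subtype ≤ Subgroup.centralizer (H : Set P) ∧ ⁅H, (⊤ : Subgroup P)⁆ ≤ H ⊓ Subgroup.centralizer (H : Set P) ∧ Subgroup.centralizer (H : Set P) ≤ H := by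
  exact Cfsg.Agent.Lib.PGroups.Critical.exists_critical hP

end Cfsg.Agent.S0093
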