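import Cfsg.Statements.S0096
import Cfsg.Agent.Lib.PGroups.ClassTwo

set_option autoImplicit false
open Cfsg
open scoped commutatorElement

namespace Cfsg.Agent.S0096



/-- For odd p, in a p-group of class at most two the elements of order dividing p generate a subgroup of exponent dividing p. -/
theorem result {P : Type*} [Group P] [Finite P] {p : ℕ} [Fact p.Prime] (hp : p ≠ 2) (hP : IsPGroup p P) (h2 : ⁅commutator P, (⊤ : Subgroup P)⁆ = ⊥) (g : P) (hg : g ∈ Subgroup.closure {x : P | x ^ p = 1}) : g ^ p = 1 := by
  have hc : ∀ a b : P, ⁅a, b⁆ ∈ Subgroup.center P := by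
    have h3 : commutator P ≤ Subgroup.center P := Subgroup.commutator_top_right_eq_bot_iff_le_center.mp h2
    intro a b
    exact h3 (Subgroup.commutator_mem_commutator (Subgroup.mem_top a) (Subgroup.mem_top b))
  induction hg using Subgroup.closure_induction with
  | mem x hx => exact hx
  | one => simp
  | mul a b _ _ iha ihb =>
    have h4 : ⁅b, a⁆ ^ p = 1 := by
      rw [← Cfsg.Agent.Lib.PGroups.ClassTwo.comm_pow_left hc, ihb]
      simp
    rw [Cfsg.Agent.Lib.PGroups.ClassTwo.mul_pow_prime_of_comm (Fact.out) hp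
      ((Subgroup.mem_center_iff.mp (hc b a)) a).symm ((Subgroup.mem_center_iff.mp (hc b a)) b).symm h4,
      iha, ihb, one_mul]
  | inv a _ iha => rw [inv_pow, iha, inv_one]

end Cfsg.Agent.S0096
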