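import Cfsg.Statements.S0097
import Cfsg.Agent.Lib.PGroups.Special

set_option autoImplicit false
open Cfsg

namespace Cfsg.Agent.S0097



/-- For odd p and E extraspecial, the subgroup generated by the elements of order dividing p has exponent dividing p and index at most p. -/
theorem result {E : Type*} [Group E] [Finite E] {p : ℕ} [Fact p.Prime] (hp : p ≠ 2) (h : Cfsg.IsExtraspecial p E) : (Subgroup.closure {x : E | x ^ p = 1}).index ≤ p ∧ ∀ g ∈ Subgroup.closure {x : E | x ^ p = 1}, g ^ p = 1 := by
  have hL := Cfsg.Agent.Lib.PGroups.Special.extraLike_of_isExtraspecial h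
  have hk := hL.closure_pow_eq_ker hp
  constructor
  · rw [hk, Subgroup.index_ker]
    calc Nat.card (hL.powHom hp).range ≤ Nat.card (Subgroup.center E) :=
          Subgroup.card_le_card_group _
      _ = p := hL.card_center
  · intro g hg
    rw [hk, MonoidHom.mem_ker] at hg
    exact congrArg Subtype.val hg

end Cfsg.Agent.S0097
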