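import Cfsg.Statements.S0099
import Cfsg.Agent.Lib.PGroups.ExtraIso

set_option autoImplicit false
open Cfsg

namespace Cfsg.Agent.S0099



/-- Among three extraspecial 2-groups of equal order, some two are isomorphic. -/
theorem result {E₁ : Type*} {E₂ : Type*} {E₃ : Type*} [Group E₁] [Group E₂] [Group E₃] [Finite E₁] [Finite E₂] [Finite E₃] (h₁ : Cfsg.IsExtraspecial 2 E₁) (h₂ : Cfsg.IsExtraspecial 2 E₂) (h₃ : Cfsg.IsExtraspecial 2 E₃) (h12 : Nat.card E₁ = Nat.card E₂) (h23 : Nat.card E₂ = Nat.card E₃) : Nonempty (E₁ ≃* E₂) ∨ Nonempty (E₂ ≃* E₃) ∨ Nonempty (E₁ ≃* E₃) := by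
  have hL₁ := Cfsg.Agent.Lib.PGroups.Special.extraLike_of_isExtraspecial h₁
  have hL₂ := Cfsg.Agent.Lib.PGroups.Special.extraLike_of_isExtraspecial h₂
  have hL₃ := Cfsg.Agent.Lib.PGroups.Special.extraLike_of_isExtraspecial h₃
  obtain ⟨m₁, -, hc₁, hN₁⟩ := Cfsg.Agent.Lib.PGroups.ExtraIso.count_of_isExtraspecial h₁
  obtain ⟨m₂, -, hc₂, hN₂⟩ := Cfsg.Agent.Lib.PGroups.ExtraIso.count_of_isExtraspecial h₂
  obtain ⟨m₃, -, hc₃, hN₃⟩ := Cfsg.Agent.Lib.PGroups.ExtraIso.count_of_isExtraspecial h₃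
  have h21 : m₁ = m₂ := by
    rw [hc₁, hc₂] at h12
    have := Nat.pow_right_injective (le_refl 2) h12
    omega
  have h23' : m₂ = m₃ := by
    rw [hc₂, hc₃] at h23
    have := Nat.pow_right_injective (le_refl 2) h23
    omega
  subst h21 h23'
  have key12 := Cfsg.Agent.Lib.PGroups.ExtraIso.nonempty_equiv_of_count hL₁ hL₂ h12
  have key23 := Cfsg.Agent.Lib.PGroups.ExtraIso.nonempty_equiv_of_count hL₂ hL₃ h23
  have key13 := Cfsg.Agent.Lib.PGroups.ExtraIso.nonempty_equiv_of_count hL₁ hL₃ (h12.trans h23)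
  rcases hN₁ with h1 | h1 <;> rcases hN₂ with h2 | h2 <;> rcases hN₃ with h3 | h3
  · exact Or.inl (key12 (by rw [h1, h2]))
  · exact Or.inl (key12 (by rw [h1, h2]))
  · exact Or.inr (Or.inr (key13 (by rw [h1, h3])))
  · exact Or.inr (Or.inl (key23 (by omega)))
  · exact Or.inr (Or.inl (key23 (by omega)))
  · exact Or.inr (Or.inr (key13 (by omega)))
  · exact Or.inl (key12 (by omega))
  · exact Or.inl (key12 (by omega))

end Cfsg.Agent.S0099
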