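import Cfsg.Statements.S0101
import Mathlib.GroupTheory.Abelianization.Defs

set_option autoImplicit false
open Cfsg

namespace Cfsg.Agent.S0101

/-- Maximal subgroups of finite p-groups have abelian quotient. -/
theorem quot_comm_of_coatom {P : Type*} [Group P] [Finite P] {p : ℕ} [Fact p.Prime]
    (hP : IsPGroup p P) (M : Subgroup P) (hM : IsCoatom M) [M.Normal] (a b : P ⧸ M) :
    a * b = b * a := by
  have hQ : IsPGroup p (P ⧸ M) := hP.to_quotient M
  have hnt : Nontrivial (P ⧸ M) := by
    have : M ≠ ⊤ := hM.1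
    exact QuotientGroup.nontrivial_iff.2 this
  have := hQ.center_nontrivial
  have hc : (Subgroup.center (P ⧸ M)).comap (QuotientGroup.mk' M) = ⊤ := by
    apply hM.2
    rw [lt_iff_le_and_ne]
    constructor
    · intro x hx
      have : (QuotientGroup.mk' M x) = 1 := (QuotientGroup.eq_one_iff x).2 hx
      simp [Subgroup.mem_comap, this]
    · intro h
      obtain ⟨⟨c, hc⟩, hne⟩ := exists_ne (1 : Subgroup.center (P ⧸ M))
      obtain ⟨x, rfl⟩ := QuotientGroup.mk'_surjective M c
      have hx : x ∈ M := by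
        rw [h]; exact hc
      apply hne
      apply Subtype.ext
      exact (QuotientGroup.eq_one_iff x).2 hx
  obtain ⟨x, rfl⟩ := QuotientGroup.mk'_surjective M a
  have hx : x ∈ (Subgroup.center (P ⧸ M)).comap (QuotientGroup.mk' M) := by rw [hc]; trivial
  exact ((Subgroup.mem_center_iff.1 hx) b).symm

/-- In a perfect central extension, the kernel meets each Sylow p-subgroup P inside the Frattini subgroup of P. -/
theorem result {H : Type*} {G : Type*} [Group H] [Group G] [Finite H] (σ : H →* G) (hσ : Function.Surjective σ) (hc : σ.ker ≤ Subgroup.center H) (hH : commutator H = ⊤) {p : ℕ} [Fact p.Prime] (P : Sylow p H) : σ.ker ⊓ (P : Subgroup H) ≤ (frattini P).map (P : Subgroup H).subtype := by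
  rintro z ⟨hz1, hz2⟩
  refine ⟨⟨z, hz2⟩, ?_, rfl⟩
  have hzc : ∀ g : H, g * z = z * g := fun g => (Subgroup.mem_center_iff.1 (hc hz1)) g
  change (⟨z, hz2⟩ : (P : Subgroup H)) ∈ Order.radical (Subgroup (P : Subgroup H))
  simp only [Order.radical, Subgroup.mem_iInf]
  intro M hM
  have hPn : IsPGroup p (P : Subgroup H) := P.2
  have hnil : Group.IsNilpotent (P : Subgroup H) := hPn.isNilpotent
  have hMn : M.Normal := by
    have q := (Group.isNilpotent_of_finite_tfae (G := (P : Subgroup H))).out 0 2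
    exact (q.1 hnil) M hM
  let _ : CommGroup ((P : Subgroup H) ⧸ M) :=
    { (inferInstance : Group ((P : Subgroup H) ⧸ M)) with
      mul_comm := quot_comm_of_coatom hPn M hM }
  let ϕ : (P : Subgroup H) →* ((P : Subgroup H) ⧸ M) := QuotientGroup.mk' M
  have hV : MonoidHom.transfer ϕ z = 1 := by
    have hk : commutator H ≤ (MonoidHom.transfer ϕ).ker :=
      Abelianization.commutator_subset_ker _
    rw [hH] at hk
    exact hk (Subgroup.mem_top z)
  have key : ∀ (k : ℕ) (g₀ : H), g₀⁻¹ * z ^ k * g₀ ∈ (P : Subgroup H) →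
      g₀⁻¹ * z ^ k * g₀ = z ^ k := by
    intro k g₀ _
    have : g₀ * z ^ k = z ^ k * g₀ := by
      have := (Commute.pow_right (show Commute g₀ z from hzc g₀) k)
      exact this
    rw [mul_assoc, ← this, inv_mul_cancel_left]
  have h2 := MonoidHom.transfer_eq_pow ϕ z key
  rw [hV] at h2
  have h3 : ((⟨z, hz2⟩ : (P : Subgroup H)) : (P : Subgroup H)) ^ (P : Subgroup H).index ∈ M := by
    have h4 : (ϕ ⟨z ^ (P : Subgroup H).index, _⟩) = 1 := h2.symm
    have h5 := (QuotientGroup.eq_one_iff _).1 h4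
    exact h5
  have hcop := P.not_dvd_index
  -- p-group quotient
  have hQ : IsPGroup p ((P : Subgroup H) ⧸ M) := hPn.to_quotient M
  have h6 : (QuotientGroup.mk' M (⟨z, hz2⟩ : (P : Subgroup H))) ^ (P : Subgroup H).index = 1 := by
    rw [← map_pow]
    exact (QuotientGroup.eq_one_iff _).2 h3
  have h7 : QuotientGroup.mk' M (⟨z, hz2⟩ : (P : Subgroup H)) = 1 := by
    have h8 := (hQ.powEquiv' hcop).injective (a₁ := QuotientGroup.mk' M (⟨z, hz2⟩ : (P : Subgroup H))) (a₂ := 1)
    apply h8
    simpa using h6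
  exact (QuotientGroup.eq_one_iff _).1 h7

end Cfsg.Agent.S0101
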