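import Cfsg.Statements.S0102
import Mathlib.GroupTheory.Abelianization.Defs
import Mathlib.GroupTheory.SpecificGroups.Cyclic

set_option autoImplicit false
open Cfsg

namespace Cfsg.Agent.S0102

/-- A finite perfect group with cyclic Sylow p-subgroups has no perfect central extension whose kernel has order divisible by p. -/
theorem result {G : Type*} {H : Type*} [Group G] [Group H] [Finite G] [Finite H] (hG : commutator G = ⊤) {p : ℕ} [Fact p.Prime] (hcyc : ∀ P : Sylow p G, IsCyclic P) (σ : H →* G) (hσ : Function.Surjective σ) (hz : σ.ker ≤ Subgroup.center H) (hH : commutator H = ⊤) : ¬ p ∣ Nat.card σ.ker := by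
  intro hdvd
  obtain ⟨⟨z, hzk⟩, hzo⟩ := exists_prime_orderOf_dvd_card' p hdvd
  have hzo' : orderOf z = p := by
    rw [← hzo]
    exact (Subgroup.orderOf_mk z hzk).symm
  have hzp : IsPGroup p (Subgroup.zpowers z) := by
    apply IsPGroup.of_card (n := 1)
    rw [Nat.card_zpowers, hzo', pow_one]
  obtain ⟨P, hP⟩ := hzp.exists_le_sylow
  have hzP : z ∈ (P : Subgroup H) := hP (Subgroup.mem_zpowers z)
  have hzc : ∀ g : H, g * z = z * g := fun g => (Subgroup.mem_center_iff.1 (hz hzk)) g
  -- P is abelian
  let f : (P : Subgroup H) →* G := σ.comp (P : Subgroup H).subtype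
  have hcycl : IsCyclic f.range := by
    have hp : IsPGroup p f.range := by
      exact IsPGroup.of_surjective P.2 f.rangeRestrict f.rangeRestrict_surjective
    obtain ⟨Q, hQ⟩ := hp.exists_le_sylow
    have := hcyc Q
    exact isCyclic_of_injective (Subgroup.inclusion hQ) (Subgroup.inclusion_injective hQ)
  have hcom : ∀ a b : (P : Subgroup H), a * b = b * a := by
    suffices h : IsMulCommutative (P : Subgroup H) from fun a b => mul_comm' a b
    apply MonoidHom.isMulCommutative_of_isCyclic_of_ker_le_center f.rangeRestrict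
    intro x hx
    rw [MonoidHom.ker_rangeRestrict] at hx
    have hx2 : (x : H) ∈ σ.ker := hx
    rw [Subgroup.mem_center_iff]
    intro y
    apply Subtype.ext
    exact (Subgroup.mem_center_iff.1 (hz hx2)) y
  let _ : CommGroup (P : Subgroup H) :=
    { (inferInstance : Group (P : Subgroup H)) with mul_comm := hcom }
  let ϕ : (P : Subgroup H) →* (P : Subgroup H) := MonoidHom.id _
  have hV : MonoidHom.transfer ϕ z = 1 := by
    have hk : commutator H ≤ (MonoidHom.transfer ϕ).ker :=
      Abelianization.commutator_subset_ker _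
    rw [hH] at hk
    exact hk (Subgroup.mem_top z)
  have key : ∀ (k : ℕ) (g₀ : H), g₀⁻¹ * z ^ k * g₀ ∈ (P : Subgroup H) →
      g₀⁻¹ * z ^ k * g₀ = z ^ k := by
    intro k g₀ _
    have : g₀ * z ^ k = z ^ k * g₀ := by
      have := (Commute.pow_right (show Commute g₀ z from hzc g₀) k)
      exact this
    rw [mul_assoc, ← this, inv_mul_cancel_left]
  have h2 := MonoidHom.transfer_eq_pow ϕ z key
  rw [hV] at h2
  have h3 : z ^ (P : Subgroup H).index = 1 := by
    have := congrArg Subtype.val h2
    exact this.symm
  have h4 : p ∣ (P : Subgroup H).index := by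
    have := orderOf_dvd_of_pow_eq_one h3
    rwa [hzo'] at this
  exact P.not_dvd_index h4

end Cfsg.Agent.S0102
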