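import Cfsg.Statements.S0103

set_option autoImplicit false
open Cfsg

namespace Cfsg.Agent.S0103

/-- If a Sylow p-subgroup P intersects every distinct conjugate trivially, then its normalizer controls fusion in P. -/
theorem result {G : Type*} [Group G] [Finite G] {p : ℕ} [Fact p.Prime] (P : Sylow p G) (hTI : ∀ g : G, (P : Subgroup G).map (MulAut.conj g).toMonoidHom ≠ (P : Subgroup G) → (P : Subgroup G) ⊓ (P : Subgroup G).map (MulAut.conj g).toMonoidHom = ⊥) (x y : G) (hx : x ∈ P) (hy : y ∈ P) (hc : ∃ g : G, g * x * g⁻¹ = y) : ∃ n ∈ Subgroup.normalizer (P : Set G), n * x * n⁻¹ = y := by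
  obtain ⟨g, hg⟩ := hc
  by_cases hm : (P : Subgroup G).map (MulAut.conj g).toMonoidHom = (P : Subgroup G)
  · refine ⟨g, ?_, hg⟩
    rw [Subgroup.mem_set_normalizer_iff]
    intro h
    constructor
    · intro hh
      have : g * h * g⁻¹ ∈ (P : Subgroup G).map (MulAut.conj g).toMonoidHom :=
        ⟨h, hh, by simp⟩
      rw [hm] at this
      exact this
    · intro hh
      have hh' : g * h * g⁻¹ ∈ (P : Subgroup G).map (MulAut.conj g).toMonoidHom := by
        rw [hm]; exact hh
      obtain ⟨k, hk, hk'⟩ := hh'
      have : k = h := by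
        have h2 : g * k * g⁻¹ = g * h * g⁻¹ := by simpa using hk'
        simpa using h2
      rw [← this]; exact hk
  · have h1 := hTI g hm
    have hy' : y ∈ (P : Subgroup G) ⊓ (P : Subgroup G).map (MulAut.conj g).toMonoidHom :=
      ⟨hy, x, hx, by simpa using hg⟩
    rw [h1, Subgroup.mem_bot] at hy'
    have hx1 : x = 1 := by
      have : g * x * g⁻¹ = 1 := by rw [hg, hy']
      have h3 : g * x = g := by
        have := congrArg (· * g) this
        simpa using this
      simpa using h3
    refine ⟨1, Subgroup.one_mem _, ?_⟩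
    simp [hx1, hy']

end Cfsg.Agent.S0103
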