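import Cfsg.Statements.S0104

set_option autoImplicit false
open Cfsg

namespace Cfsg.Agent.S0104

variable {G : Type*} [Group G]

theorem mem_norm_iff (Z : Subgroup G) (g : G) :
    g ∈ Subgroup.normalizer (Z : Set G) ↔ Z.map (MulAut.conj g).toMonoidHom = Z := by
  rw [Subgroup.mem_normalizer_iff_map_conj_eq]
  rfl

theorem mem_map_conj (Z : Subgroup G) (g x : G) :
    x ∈ Z.map (MulAut.conj g).toMonoidHom ↔ g⁻¹ * x * g ∈ Z := by
  constructor
  · rintro ⟨y, hy, rfl⟩
    simpa [mul_assoc] using hy
  · intro h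
    exact ⟨_, h, by simp [mul_assoc]⟩

theorem mem_sylow_smul {p : ℕ} (P : Sylow p G) (g x : G) :
    x ∈ ((g • P : Sylow p G) : Subgroup G) ↔ g⁻¹ * x * g ∈ (P : Subgroup G) := by
  rw [Sylow.coe_subgroup_smul, Subgroup.mem_pointwise_smul_iff_inv_smul_mem]
  simp [MulAut.smul_def, mul_assoc]

/-- A subgroup Z of a Sylow p-subgroup P that is normalized by N_G(P) is weakly closed in P exactly when it is normal in every Sylow p-subgroup containing it. -/
theorem result {G : Type*} [Group G] [Finite G] {p : ℕ} [Fact p.Prime] (P : Sylow p G) (Z : Subgroup G) (hZP : Z ≤ (P : Subgroup G)) (hZN : Subgroup.normalizer (P : Set G) ≤ Subgroup.normalizer (Z : Set G)) : Cfsg.IsWeaklyClosed Z P ↔ ∀ R : Sylow p G, Z ≤ (R : Subgroup G) → (R : Subgroup G) ≤ Subgroup.normalizer (Z : Set G) := by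
  have hPN : (P : Subgroup G) ≤ Subgroup.normalizer (Z : Set G) :=
    le_trans Subgroup.le_normalizer hZN
  constructor
  · rintro ⟨-, hW⟩ R hR
    obtain ⟨g, hg⟩ := MulAction.exists_smul_eq G R P
    have h1 : Z.map (MulAut.conj g).toMonoidHom ≤ (P : Subgroup G) := by
      intro x hx
      rw [mem_map_conj] at hx
      rw [← hg]
      rw [mem_sylow_smul]
      exact hR hx
    have hg' : g ∈ Subgroup.normalizer (Z : Set G) := (mem_norm_iff Z g).2 (hW g h1)
    intro r hr
    have h2 : g * r * g⁻¹ ∈ (P : Subgroup G) := by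
      rw [← hg, mem_sylow_smul]
      simpa [mul_assoc] using hr
    have h3 := hPN h2
    have h4 : r = g⁻¹ * (g * r * g⁻¹) * g := by group
    rw [h4]
    exact mul_mem (mul_mem (inv_mem hg') h3) hg'
  · intro h
    refine ⟨hZP, fun g hg => ?_⟩
    set W := Z.map (MulAut.conj g).toMonoidHom with hWdef
    have hP1 : (P : Subgroup G) ≤ Subgroup.normalizer (W : Set G) := by
      -- g⁻¹ P g is a Sylow containing Z
      have hR : Z ≤ ((g⁻¹ • P : Sylow p G) : Subgroup G) := by
        intro z hz
        rw [mem_sylow_smul]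
        have : g * z * g⁻¹ ∈ W := by
          rw [hWdef, mem_map_conj]; simpa [mul_assoc] using hz
        simpa using hg this
      have h2 := h _ hR
      intro x hx
      rw [Subgroup.mem_set_normalizer_iff]
      intro w
      have hxR : g⁻¹ * x * g ∈ Subgroup.normalizer (Z : Set G) := by
        apply h2
        rw [mem_sylow_smul]
        simpa [mul_assoc] using hx
      rw [Subgroup.mem_set_normalizer_iff] at hxR
      have h5 := hxR (g⁻¹ * w * g)
      simp only [SetLike.mem_coe] at h5 ⊢
      rw [hWdef, mem_map_conj, mem_map_conj]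
      have e : g⁻¹ * (x * w * x⁻¹) * g = g⁻¹ * x * g * (g⁻¹ * w * g) * (g⁻¹ * x * g)⁻¹ := by group
      rw [e]
      exact h5
    have hP2 : ((g • P : Sylow p G) : Subgroup G) ≤ Subgroup.normalizer (W : Set G) := by
      intro x hx
      rw [mem_sylow_smul] at hx
      have hx2 := hPN hx
      rw [Subgroup.mem_set_normalizer_iff]
      intro w
      rw [Subgroup.mem_set_normalizer_iff] at hx2
      have h5 := hx2 (g⁻¹ * w * g)
      simp only [SetLike.mem_coe] at h5 ⊢
      rw [hWdef, mem_map_conj, mem_map_conj]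
      have e : g⁻¹ * (x * w * x⁻¹) * g = g⁻¹ * x * g * (g⁻¹ * w * g) * (g⁻¹ * x * g)⁻¹ := by group
      rw [e]
      exact h5
    obtain ⟨k, hk⟩ := MulAction.exists_smul_eq (Subgroup.normalizer (W : Set G))
      ((g • P : Sylow p G).subtype hP2) (P.subtype hP1)
    rw [Sylow.smul_subtype] at hk
    have hk2 := Sylow.subtype_injective hk
    have hkg : (k : G) * g ∈ Subgroup.normalizer (P : Set G) := by
      rw [← Sylow.smul_eq_iff_mem_normalizer, mul_smul]
      exact hk2
    have hZ1 := (mem_norm_iff Z _).1 (hZN hkg)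
    have hW1 := (mem_norm_iff W _).1 k.2
    -- k g Z g⁻¹ k⁻¹ = Z, k W k⁻¹ = W
    apply le_antisymm
    · intro w hw
      have hw' : (k : G)⁻¹ * w * k ∈ W := (mem_map_conj W _ _).1 (by rw [hW1]; exact hw)
      have hw'' := (mem_map_conj Z g _).1 hw'
      have : (k * g : G)⁻¹ * w * (k * g) ∈ Z := by
        simpa [mul_assoc] using hw''
      have h6 := (mem_map_conj Z (k * g : G) w).2 this
      rwa [hZ1] at h6
    · intro z hz
      have hz' : z ∈ Z.map (MulAut.conj (k * g : G)).toMonoidHom := by rw [hZ1]; exact hz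
      rw [mem_map_conj] at hz'
      have h7 : (k : G)⁻¹ * z * k ∈ W := by
        apply (mem_map_conj Z g _).2
        simpa [mul_assoc] using hz'
      have h8 := (mem_map_conj W (k : G) z).2 h7
      rwa [hW1] at h8

end Cfsg.Agent.S0104
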