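import Cfsg.Statements.S0106
import Cfsg.Agent.Lib.ElementFusion.SL23
import Cfsg.Agent.Lib.Transfer.Frobenius

set_option autoImplicit false
open Cfsg

namespace Cfsg.Agent.S0106

open Cfsg.Agent.Lib.Transfer.Basic Cfsg.Agent.Lib.Transfer.Frobenius
open Cfsg.Agent.Lib.ElementFusion.SL23

universe u

section analysis

variable {G : Type u} [Group G] [Finite G]

/-- An element of odd order normalizing a cyclic `2`-subgroup centralizes it. -/
theorem cyc_fix (u y : G) (n : ℕ) (hu : u ^ 2 ^ n = 1) (hodd : Odd (orderOf y))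
    (hm : y * u * y⁻¹ ∈ Subgroup.zpowers u) : y * u * y⁻¹ = u := by
  have hle : (Subgroup.zpowers u).map (MulAut.conj y).toMonoidHom ≤ Subgroup.zpowers u := by
    rintro _ ⟨x, hx, rfl⟩
    obtain ⟨k, rfl⟩ := Subgroup.mem_zpowers_iff.1 hx
    have : (MulAut.conj y).toMonoidHom (u ^ k) = (y * u * y⁻¹) ^ k := by
      simp
    rw [this]
    exact Subgroup.zpow_mem _ hm k
  have heq : (Subgroup.zpowers u).map (MulAut.conj y).toMonoidHom = Subgroup.zpowers u := by
    apply Subgroup.eq_of_le_of_card_ge hle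
    rw [Subgroup.card_map_of_injective (MulAut.conj y).injective]
  have hyN : y ∈ Subgroup.normalizer ((Subgroup.zpowers u : Subgroup G) : Set G) := by
    rw [Subgroup.mem_normalizer_iff_map_conj_eq]
    exact heq
  let f := (Subgroup.zpowers u).normalizerMonoidHom ⟨y, hyN⟩
  have hf1 : orderOf f ∣ orderOf y := by
    apply orderOf_dvd_of_pow_eq_one
    rw [← map_pow]
    have : (⟨y, hyN⟩ : Subgroup.normalizer ((Subgroup.zpowers u : Subgroup G) : Set G)) ^ orderOf y = 1 := by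
      apply Subtype.ext
      simp [pow_orderOf_eq_one]
    rw [this, map_one]
  have hf2 : orderOf f ∣ Nat.card (MulAut (Subgroup.zpowers u)) := orderOf_dvd_natCard f
  rw [IsCyclic.card_mulAut, Nat.card_zpowers] at hf2
  have hou : orderOf u ∣ 2 ^ n := orderOf_dvd_of_pow_eq_one hu
  obtain ⟨k, -, hk⟩ := (Nat.dvd_prime_pow Nat.prime_two).1 hou
  have hf3 : Nat.Coprime (orderOf y) (Nat.totient (orderOf u)) := by
    rw [hk]
    rcases Nat.eq_zero_or_pos k with rfl | hk0
    · simp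
    · rw [Nat.totient_prime_pow Nat.prime_two hk0]
      simp only [Nat.add_one_sub_one, mul_one]
      exact (Nat.Coprime.pow_right _ (Nat.coprime_two_right.2 hodd))
  have hf4 : orderOf f = 1 := Nat.Coprime.eq_one_of_dvd (Nat.Coprime.coprime_dvd_left hf1 hf3) hf2
  rw [orderOf_eq_one_iff] at hf4
  have h5 := DFunLike.congr_fun hf4 ⟨u, Subgroup.mem_zpowers u⟩
  exact congrArg Subtype.val h5

theorem mem_zpowers_of_four (c d : G) (hc : c ^ 4 = 1) (hd : d ∈ Subgroup.zpowers c) :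
    d = 1 ∨ d = c ∨ d = c ^ 2 ∨ d = c⁻¹ := by
  obtain ⟨k, rfl⟩ := Subgroup.mem_zpowers_iff.1 hd
  have hk : c ^ k = c ^ (k % 4) := by
    have := Int.emod_add_mul_ediv k 4
    conv_lhs => rw [← this]
    rw [zpow_add, zpow_mul]
    have h4 : c ^ (4 : ℤ) = 1 := by
      exact_mod_cast hc
    rw [h4, one_zpow, mul_one]
  rw [hk]
  have h1 : 0 ≤ k % 4 := Int.emod_nonneg _ (by norm_num)
  have h2 : k % 4 < 4 := Int.emod_lt_of_pos _ (by norm_num)
  generalize k % 4 = t at h1 h2
  interval_cases t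
  · left; simp
  · right; left; simp
  · right; right; left; exact_mod_cast rfl
  · right; right; right
    rw [eq_inv_iff_mul_eq_one]
    have : c ^ (3 : ℤ) * c = c ^ 4 := by
      have h3 : c ^ (3 : ℤ) = c ^ 3 := by exact_mod_cast rfl
      rw [h3]
      exact (pow_succ c 3).symm
    rw [this, hc]

/-- The analysis of a subgroup of a generalized quaternion group with a nontrivial automorphism of
odd order. -/
theorem analysis (A T Q : Subgroup G) (z y : G)
    (hQT : Q ≤ T) (hT2 : IsPGroup 2 T) (hAc : IsCyclic A)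
    (hzu : ∀ u ∈ A, u ^ 2 = 1 → u = 1 ∨ u = z) (hz1 : z ≠ 1) (hz2 : z ^ 2 = 1)
    (hout : ∀ x ∈ T, x ∉ A → x ^ 2 = z ∧ ∀ u ∈ A, x * u * x⁻¹ = u⁻¹)
    (hcos : ∀ x ∈ T, ∀ x' ∈ T, x ∉ A → x' ∉ A → x⁻¹ * x' ∈ A)
    (hyN : y ∈ Subgroup.normalizer (Q : Set G)) (hodd : Odd (orderOf y))
    (hyC : y ∉ Subgroup.centralizer (Q : Set G)) :
    ∃ c j : G, c ^ 2 = z ∧ j ^ 2 = z ∧ j * c * j⁻¹ = c⁻¹ ∧ y * c * y⁻¹ = j ∧ y * j * y⁻¹ = j * c := by
  classical
  have hQconj : ∀ x ∈ Q, y * x * y⁻¹ ∈ Q := fun x hx =>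
    (Subgroup.mem_set_normalizer_iff.1 hyN x).1 hx
  have h2el : ∀ x ∈ T, ∃ n : ℕ, x ^ 2 ^ n = 1 := by
    intro x hx
    obtain ⟨n, hn⟩ := hT2 ⟨x, hx⟩
    exact ⟨n, congrArg Subtype.val hn⟩
  have hcentQ : (∀ x ∈ Q, y * x * y⁻¹ = x) → False := by
    intro h
    apply hyC
    rw [Subgroup.mem_centralizer_iff]
    intro x hx
    have := h x hx
    rw [mul_inv_eq_iff_eq_mul] at this
    exact this.symm
  -- a generator of `Q ∩ A`
  have hCc : IsCyclic (Q ⊓ A : Subgroup G) :=
    isCyclic_of_injective (Subgroup.inclusion (inf_le_right : Q ⊓ A ≤ A))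
      (Subgroup.inclusion_injective _)
  obtain ⟨⟨c, hcQ, hcA⟩, hgen'⟩ := IsCyclic.exists_generator (α := (Q ⊓ A : Subgroup G))
  have hgen : ∀ x ∈ Q, x ∈ A → x ∈ Subgroup.zpowers c := by
    intro x hxQ hxA
    obtain ⟨k, hk⟩ := Subgroup.mem_zpowers_iff.1 (hgen' ⟨x, hxQ, hxA⟩)
    refine Subgroup.mem_zpowers_iff.2 ⟨k, ?_⟩
    exact congrArg Subtype.val hk
  have hcT : c ∈ T := hQT hcQ
  obtain ⟨nc, hnc⟩ := h2el c hcT
  -- elements commuting with `c`
  have hcomm_zp : ∀ w : G, w * c * w⁻¹ = c → ∀ x ∈ Subgroup.zpowers c, w * x * w⁻¹ = x := by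
    intro w hw x hx
    obtain ⟨k, rfl⟩ := Subgroup.mem_zpowers_iff.1 hx
    have h1 : Commute w c := by
      unfold Commute SemiconjBy
      rw [mul_inv_eq_iff_eq_mul] at hw
      exact hw
    have h2 : Commute w (c ^ k) := h1.zpow_right k
    rw [h2.eq, mul_inv_cancel_right]
  -- if `y` centralizes `c` then it centralizes `Q`
  have hcentral : y * c * y⁻¹ = c → False := by
    intro hy
    apply hcentQ
    intro x hx
    by_cases hxA : x ∈ A
    · exact hcomm_zp y hy x (hgen x hx hxA)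
    · have hx'Q := hQconj x hx
      have hx'A : y * x * y⁻¹ ∉ A := by
        intro h
        have h1 := hcomm_zp y hy _ (hgen _ hx'Q h)
        have h2 : y * x * y⁻¹ = x := by
          have h3 : y * (y * x * y⁻¹) = y * x := by
            rw [mul_inv_eq_iff_eq_mul] at h1
            rw [h1]
            group
          exact (mul_left_cancel h3)
        rw [h2] at h
        exact hxA h
      have hdA := hcos x (hQT hx) _ (hQT hx'Q) hxA hx'A
      have hdQ : x⁻¹ * (y * x * y⁻¹) ∈ Q := Q.mul_mem (Q.inv_mem hx) hx'Q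
      have hdz := hgen _ hdQ hdA
      have hdy := hcomm_zp y hy _ hdz
      set d := x⁻¹ * (y * x * y⁻¹) with hd
      have hxd : y * x * y⁻¹ = x * d := by rw [hd]; group
      have iter : ∀ t : ℕ, y ^ t * x * (y ^ t)⁻¹ = x * d ^ t := by
        intro t
        induction t with
        | zero => simp
        | succ t ih =>
          have h1 : y * d ^ t * y⁻¹ = d ^ t := by
            have hcm : Commute y d := by
              unfold Commute SemiconjBy
              rw [mul_inv_eq_iff_eq_mul] at hdy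
              exact hdy
            rw [(hcm.pow_right t).eq, mul_inv_cancel_right]
          calc y ^ (t + 1) * x * (y ^ (t + 1))⁻¹ = y * (y ^ t * x * (y ^ t)⁻¹) * y⁻¹ := by
                rw [pow_succ']; group
            _ = y * (x * d ^ t) * y⁻¹ := by rw [ih]
            _ = (y * x * y⁻¹) * (y * d ^ t * y⁻¹) := by group
            _ = x * d * d ^ t := by rw [hxd, h1]
            _ = x * d ^ (t + 1) := by rw [pow_succ']; group
      have hdr := iter (orderOf y)
      rw [pow_orderOf_eq_one, one_mul, inv_one, mul_one] at hdr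
      have hdr1 : d ^ orderOf y = 1 := by simpa using hdr
      obtain ⟨nd, hnd⟩ := h2el d (hQT hdQ)
      have hd1 : orderOf d ∣ orderOf y := orderOf_dvd_of_pow_eq_one hdr1
      have hd2 : orderOf d ∣ 2 ^ nd := orderOf_dvd_of_pow_eq_one hnd
      have hd3 : Nat.Coprime (orderOf y) (2 ^ nd) :=
        Nat.Coprime.pow_right _ (Nat.coprime_two_right.2 hodd)
      have hd4 : orderOf d = 1 := Nat.Coprime.eq_one_of_dvd (Nat.Coprime.coprime_dvd_left hd1 hd3) hd2
      rw [orderOf_eq_one_iff] at hd4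
      rw [hxd, hd4, mul_one]
  -- `j = y c y⁻¹` lies outside `A`
  have hjQ := hQconj c hcQ
  have hjA : y * c * y⁻¹ ∉ A := by
    intro h
    exact hcentral (cyc_fix c y nc hnc hodd (hgen _ hjQ h))
  set j := y * c * y⁻¹ with hj
  obtain ⟨hj2, hjc⟩ := hout j (hQT hjQ) hjA
  have hjcc : j * c * j⁻¹ = c⁻¹ := hjc c hcA
  have hpowconj : ∀ n : ℕ, j ^ n = y * c ^ n * y⁻¹ := by
    intro n
    rw [hj]
    simp [conj_pow]
  have hc2ne : c ^ 2 ≠ 1 := by
    intro h
    apply hz1
    rw [← hj2, hpowconj, h]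
    simp
  have hc4 : c ^ 4 = 1 := by
    have h1 : j ^ 4 = 1 := by
      have : j ^ 4 = (j ^ 2) ^ 2 := by rw [← pow_mul]
      rw [this, hj2, hz2]
    rw [hpowconj] at h1
    have h2 : y * c ^ 4 = y := by
      rw [mul_inv_eq_one] at h1
      exact h1
    simpa using h2
  have hc2 : c ^ 2 = z := by
    have h1 : (c ^ 2) ^ 2 = 1 := by rw [← pow_mul]; exact hc4
    rcases hzu _ (Subgroup.pow_mem _ hcA 2) h1 with h | h
    · exact (hc2ne h).elim
    · exact h
  -- `k = y j y⁻¹`
  have hkQ := hQconj j hjQ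
  have hj_ne_fix : y * j * y⁻¹ ≠ j := by
    intro h
    have h1 : y * j * y⁻¹ = y * c * y⁻¹ := by rw [h]
    have h2 : j = c := by
      have h3 : y * j = y * c := by
        rw [mul_inv_eq_iff_eq_mul, mul_assoc, inv_mul_cancel, mul_one] at h1
        exact h1
      exact mul_left_cancel h3
    apply hjA
    rw [h2]
    exact hcA
  have hkA : y * j * y⁻¹ ∉ A := by
    intro hk
    have hkz := hgen _ hkQ hk
    have hyo : Odd (orderOf (y ^ 2)) := Odd.of_dvd_nat hodd (orderOf_pow_dvd 2)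
    have hy2 : y ^ 2 * c * (y ^ 2)⁻¹ = y * j * y⁻¹ := by
      rw [hj, pow_two]; group
    have hfix := cyc_fix c (y ^ 2) nc hnc hyo (by rw [hy2]; exact hkz)
    have hfixj : y ^ 2 * j * (y ^ 2)⁻¹ = j := by
      have : y ^ 2 * j * (y ^ 2)⁻¹ = y * (y ^ 2 * c * (y ^ 2)⁻¹) * y⁻¹ := by
        rw [hj, pow_two]; group
      rw [this, hfix]
    -- `y²` centralizes `Q`
    have hall : ∀ x ∈ Q, y ^ 2 * x * (y ^ 2)⁻¹ = x := by
      intro x hx
      by_cases hxA : x ∈ A
      · exact hcomm_zp _ hfix x (hgen x hx hxA)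
      · have hdA := hcos j (hQT hjQ) x (hQT hx) hjA hxA
        have hdQ : j⁻¹ * x ∈ Q := Q.mul_mem (Q.inv_mem hjQ) hx
        have hd := hcomm_zp _ hfix _ (hgen _ hdQ hdA)
        have hx' : x = j * (j⁻¹ * x) := by group
        calc y ^ 2 * x * (y ^ 2)⁻¹ = (y ^ 2 * j * (y ^ 2)⁻¹) * (y ^ 2 * (j⁻¹ * x) * (y ^ 2)⁻¹) := by
              group
          _ = x := by rw [hfixj, hd]; group
    obtain ⟨r, hr⟩ := hodd
    have hy : y = (y ^ 2) ^ (r + 1) := by
      rw [← pow_mul]
      have : 2 * (r + 1) = orderOf y + 1 := by omega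
      rw [this, pow_succ, pow_orderOf_eq_one, one_mul]
    apply hcentQ
    intro x hx
    have hcm : ∀ t : ℕ, (y ^ 2) ^ t * x * ((y ^ 2) ^ t)⁻¹ = x := by
      intro t
      have hc : Commute (y ^ 2) x := by
        have := hall x hx
        unfold Commute SemiconjBy
        rw [mul_inv_eq_iff_eq_mul] at this
        exact this
      rw [(hc.pow_left t).eq, mul_inv_cancel_right]
    have := hcm (r + 1)
    rwa [← hy] at this
  -- now `k = j d` with `d ∈ ⟨c⟩`
  have hdA := hcos j (hQT hjQ) _ (hQT hkQ) hjA hkA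
  have hdQ : j⁻¹ * (y * j * y⁻¹) ∈ Q := Q.mul_mem (Q.inv_mem hjQ) hkQ
  have hkeq : y * j * y⁻¹ = j * (j⁻¹ * (y * j * y⁻¹)) := by group
  rcases mem_zpowers_of_four c _ hc4 (hgen _ hdQ hdA) with hd | hd | hd | hd
  · -- `d = 1`
    rw [hd, mul_one] at hkeq
    exact (hj_ne_fix hkeq).elim
  · -- `d = c`
    rw [hd] at hkeq
    exact ⟨c, j, hc2, hj2, hjcc, rfl, hkeq⟩
  · -- `d = c²`
    exfalso
    rw [hd, hc2, ← hj2] at hkeq
    have hj4 : j ^ 4 = 1 := by
      have : j ^ 4 = (j ^ 2) ^ 2 := by rw [← pow_mul]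
      rw [this, hj2, hz2]
    have hkj : y * j * y⁻¹ ∈ Subgroup.zpowers j := by
      rw [hkeq]
      exact Subgroup.mul_mem _ (Subgroup.mem_zpowers j) (Subgroup.pow_mem _ (Subgroup.mem_zpowers j) 2)
    have hj2el : j ^ 2 ^ 2 = 1 := hj4
    exact hj_ne_fix (cyc_fix j y 2 hj2el hodd hkj)
  · -- `d = c⁻¹`
    rw [hd] at hkeq
    refine ⟨c⁻¹, j⁻¹, ?_, ?_, ?_, ?_, ?_⟩
    · rw [inv_pow, hc2, inv_eq_of_mul_eq_one_left]
      rw [← pow_two, hz2]
    · rw [inv_pow, hj2, inv_eq_of_mul_eq_one_left]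
      rw [← pow_two, hz2]
    · -- `j⁻¹ c⁻¹ j = c`
      rw [inv_inv, inv_inv]
      rw [← hjcc]
      group
    · rw [hj]; group
    · calc y * j⁻¹ * y⁻¹ = (y * j * y⁻¹)⁻¹ := by group
        _ = (j * c⁻¹)⁻¹ := by rw [hkeq]
        _ = c * j⁻¹ := by group
        _ = j⁻¹ * (j * c * j⁻¹) := by group
        _ = j⁻¹ * c⁻¹ := by rw [hjcc]

end analysis

section quat

open QuaternionGroup

variable {G : Type u} [Group G] [Finite G]

theorem quat_structure (T : Subgroup G) (m : ℕ) [NeZero m] (e : T ≃* QuaternionGroup m) :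
    ∃ (A : Subgroup G) (z : G), IsCyclic A ∧ z ≠ 1 ∧ z ^ 2 = 1 ∧
      (∀ u ∈ A, u ^ 2 = 1 → u = 1 ∨ u = z) ∧
      (∀ x ∈ T, x ∉ A → x ^ 2 = z ∧ ∀ u ∈ A, x * u * x⁻¹ = u⁻¹) ∧
      (∀ x ∈ T, ∀ x' ∈ T, x ∉ A → x' ∉ A → x⁻¹ * x' ∈ A) := by
  classical
  have hm0 : m ≠ 0 := NeZero.ne m
  haveI : NeZero (2 * m) := ⟨by omega⟩
  let ι : QuaternionGroup m →* G := T.subtype.comp e.symm.toMonoidHom
  have hι : Function.Injective ι := Subtype.val_injective.comp e.symm.injective
  have hιT : ∀ x (hx : x ∈ T), ι (e ⟨x, hx⟩) = x := by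
    intro x hx
    simp [ι]
  have hA : ∀ u, u ∈ Subgroup.zpowers (ι (a 1)) ↔ ∃ i, u = ι (a i) := by
    intro u
    constructor
    · intro hu
      rw [← mem_powers_iff_mem_zpowers] at hu
      obtain ⟨k, rfl⟩ := hu
      refine ⟨(k : ZMod (2 * m)), ?_⟩
      simp only [← map_pow, a_one_pow]
    · rintro ⟨i, rfl⟩
      rw [← mem_powers_iff_mem_zpowers]
      refine ⟨i.val, ?_⟩
      simp only [← map_pow, a_one_pow, ZMod.natCast_zmod_val]
  have hmm : (m : ZMod (2 * m)) + m = 0 := by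
    have : ((2 * m : ℕ) : ZMod (2 * m)) = 0 := ZMod.natCast_self _
    rw [← this]
    push_cast
    ring
  have hmne : (m : ZMod (2 * m)) ≠ 0 := by
    intro h
    rw [ZMod.natCast_eq_zero_iff] at h
    have := Nat.le_of_dvd (by omega) h
    omega
  have hinv : ∀ i : ZMod (2 * m), (xa i : QuaternionGroup m)⁻¹ = xa ((m : ZMod (2 * m)) + i) := by
    intro i
    apply inv_eq_of_mul_eq_one_right
    rw [xa_mul_xa, one_def]
    congr 1
    rw [show (m : ZMod (2 * m)) + (m + i) - i = m + m by ring, hmm]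
  refine ⟨Subgroup.zpowers (ι (a 1)), ι (a m), inferInstance, ?_, ?_, ?_, ?_, ?_⟩
  · intro h
    rw [← map_one ι] at h
    have h1 := hι h
    rw [one_def] at h1
    exact hmne (a.inj h1)
  · rw [← map_pow, pow_two, a_mul_a, hmm, a_zero, map_one]
  · intro u hu hu2
    obtain ⟨i, rfl⟩ := (hA u).1 hu
    rw [← map_pow, ← map_one ι] at hu2
    have h1 := hι hu2
    rw [pow_two, a_mul_a, one_def] at h1
    have h2 : i + i = 0 := a.inj h1
    have h3 : i = 0 ∨ i = m := by
      have hv : ((2 * i.val : ℕ) : ZMod (2 * m)) = 0 := by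
        push_cast
        rw [ZMod.natCast_zmod_val, ← h2]
        ring
      rw [ZMod.natCast_eq_zero_iff] at hv
      have hv2 : m ∣ i.val := Nat.dvd_of_mul_dvd_mul_left (by norm_num) hv
      obtain ⟨k, hk⟩ := hv2
      have hlt : i.val < 2 * m := ZMod.val_lt i
      have hk2 : k < 2 := by
        by_contra hcon
        push Not at hcon
        have : m * 2 ≤ m * k := Nat.mul_le_mul_left _ hcon
        omega
      interval_cases k
      · left
        rw [← ZMod.natCast_zmod_val i, hk]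
        simp
      · right
        rw [← ZMod.natCast_zmod_val i, hk]
        simp
    rcases h3 with rfl | rfl
    · left
      rw [a_zero, map_one]
    · right
      rfl
  · intro x hx hxA
    have hxe := hιT x hx
    cases hq : e ⟨x, hx⟩ with
    | a i =>
      rw [hq] at hxe
      exact (hxA ((hA x).2 ⟨i, hxe.symm⟩)).elim
    | xa i =>
      rw [hq] at hxe
      rw [← hxe]
      refine ⟨by rw [← map_pow, xa_sq], ?_⟩
      intro u hu
      obtain ⟨t, rfl⟩ := (hA u).1 hu
      rw [← map_inv, ← map_inv, ← map_mul, ← map_mul]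
      congr 1
      rw [mul_inv_eq_iff_eq_mul]
      have hinva : (a t : QuaternionGroup m)⁻¹ = a (-t) := by
        apply inv_eq_of_mul_eq_one_right
        rw [a_mul_a, one_def]
        congr 1
        ring
      rw [hinva, xa_mul_a, a_mul_xa]
      congr 1
      ring
  · intro x hx x' hx' hxA hx'A
    have hxe := hιT x hx
    have hxe' := hιT x' hx'
    cases hq : e ⟨x, hx⟩ with
    | a i =>
      rw [hq] at hxe
      exact (hxA ((hA x).2 ⟨i, hxe.symm⟩)).elim
    | xa i =>
      cases hq' : e ⟨x', hx'⟩ with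
      | a i' =>
        rw [hq'] at hxe'
        exact (hx'A ((hA x').2 ⟨i', hxe'.symm⟩)).elim
      | xa i' =>
        rw [hq] at hxe
        rw [hq'] at hxe'
        rw [← hxe, ← hxe', ← map_inv, ← map_mul, hinv, xa_mul_xa]
        exact (hA _).2 ⟨_, rfl⟩

end quat

/-- A finite group with generalized quaternion Sylow 2-subgroups either has a normal 2-complement or has a section isomorphic to SL(2,3). -/
theorem result {G : Type*} [Group G] [Finite G] (T : Sylow 2 G) (n : ℕ) (hn : 1 ≤ n) (hT : Nonempty ((T : Subgroup G) ≃* QuaternionGroup (2 ^ n))) : Cfsg.HasNormalPComplement 2 G ∨ ∃ (H K : Subgroup G) (hK : (K.subgroupOf H).Normal), Nonempty ((H ⧸ K.subgroupOf H) ≃* Matrix.SpecialLinearGroup (Fin 2) (ZMod 3)) := by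
  classical
  by_cases hN : Cfsg.HasNormalPComplement 2 G
  · exact Or.inl hN
  right
  haveI : Fact (Nat.Prime 2) := ⟨Nat.prime_two⟩
  obtain ⟨e⟩ := hT
  obtain ⟨A, z, hAc, hz1, hz2, hzu, hout, hcos⟩ := quat_structure (T : Subgroup G) (2 ^ n) e
  have hex : ∃ Q : Subgroup G, Q ≤ (T : Subgroup G) ∧ ∃ y ∈ Subgroup.normalizer (Q : Set G),
      Nat.Coprime (orderOf y) 2 ∧ y ∉ Subgroup.centralizer (Q : Set G) := by
    by_contra hcon
    push Not at hcon
    exact hN (hasNormalPComplement_of_frobeniusCond (frobeniusCond_of_sylow T hcon))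
  obtain ⟨Q, hQT, y, hyN, hyco, hyC⟩ := hex
  have hodd : Odd (orderOf y) := Nat.coprime_two_right.1 hyco
  obtain ⟨c, j, hc2, hj2, hjc, hyc, hyj⟩ :=
    analysis A T Q z y hQT T.2 hAc hzu hz1 hz2 hout hcos hyN hodd hyC
  -- `y³` commutes with `c`, `j`
  have hy3c : y ^ 3 * c * (y ^ 3)⁻¹ = c := by
    have h1 : y ^ 3 * c * (y ^ 3)⁻¹ = y * (y * (y * c * y⁻¹) * y⁻¹) * y⁻¹ := by
      simp only [pow_succ, pow_zero, one_mul]
      group
    rw [h1, hyc, hyj]
    have h2 : y * (j * c) * y⁻¹ = (y * j * y⁻¹) * (y * c * y⁻¹) := by group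
    rw [h2, hyj, hyc]
    have h3 : j * c * j = (j * c * j⁻¹) * j ^ 2 := by
      rw [pow_two]; group
    rw [h3, hjc, hj2, ← hc2, pow_two]
    group
  have hy3j : y ^ 3 * j * (y ^ 3)⁻¹ = j := by
    rw [← hyc]
    have h1 : y ^ 3 * (y * c * y⁻¹) * (y ^ 3)⁻¹ = y * (y ^ 3 * c * (y ^ 3)⁻¹) * y⁻¹ := by
      simp only [pow_succ, pow_zero, one_mul]
      group
    rw [h1, hy3c]
  have hy3y : y ^ 3 * y * (y ^ 3)⁻¹ = y := by
    simp only [pow_succ, pow_zero, one_mul]
    group
  let H : Subgroup G := Subgroup.closure {c, j, y}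
  let K : Subgroup G := Subgroup.zpowers (y ^ 3)
  have hcH : c ∈ H := Subgroup.subset_closure (by simp)
  have hjH : j ∈ H := Subgroup.subset_closure (by simp)
  have hyH : y ∈ H := Subgroup.subset_closure (by simp)
  have hcent : ∀ h ∈ H, Commute (y ^ 3) h := by
    intro h hh
    have hle : H ≤ Subgroup.centralizer {y ^ 3} := by
      rw [Subgroup.closure_le]
      have hfrom : ∀ w : G, y ^ 3 * w * (y ^ 3)⁻¹ = w → w ∈ Subgroup.centralizer {y ^ 3} := by
        intro w hw
        rw [Subgroup.mem_centralizer_singleton_iff]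
        rw [mul_inv_eq_iff_eq_mul] at hw
        exact hw.symm
      intro w hw
      simp only [Set.mem_insert_iff, Set.mem_singleton_iff] at hw
      rcases hw with rfl | rfl | rfl
      · exact hfrom _ hy3c
      · exact hfrom _ hy3j
      · exact hfrom _ hy3y
    have := Subgroup.mem_centralizer_singleton_iff.1 (hle hh)
    exact this.symm
  have hKn : (K.subgroupOf H).Normal := by
    refine ⟨fun k hk h => ?_⟩
    rw [Subgroup.mem_subgroupOf] at hk ⊢
    obtain ⟨t, ht⟩ := Subgroup.mem_zpowers_iff.1 hk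
    have hcm : Commute (h : G) (k : G) := by
      rw [← ht]
      exact ((hcent h h.2).zpow_left t).symm
    have : ((h * k * h⁻¹ : H) : G) = k := by
      push_cast
      rw [hcm.eq, mul_inv_cancel_right]
    rw [this]
    exact hk
  let π : H →* (H ⧸ K.subgroupOf H) := QuotientGroup.mk' (K.subgroupOf H)
  let c' : H := ⟨c, hcH⟩
  let j' : H := ⟨j, hjH⟩
  let y' : H := ⟨y, hyH⟩
  have hgen : Subgroup.closure {π c', π j', π y'} = ⊤ := by
    rw [eq_top_iff]
    rintro w -
    obtain ⟨⟨h, hh⟩, rfl⟩ := QuotientGroup.mk'_surjective (K.subgroupOf H) w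
    change π ⟨h, hh⟩ ∈ _
    induction hh using Subgroup.closure_induction with
    | mem x hx =>
      simp only [Set.mem_insert_iff, Set.mem_singleton_iff] at hx
      rcases hx with rfl | rfl | rfl
      · exact Subgroup.subset_closure (by simp [c'])
      · exact Subgroup.subset_closure (by simp [j'])
      · exact Subgroup.subset_closure (by simp [y'])
    | one =>
      have : (⟨1, H.one_mem⟩ : H) = 1 := rfl
      rw [this, map_one]
      exact Subgroup.one_mem _
    | mul x x' hx hx' ihx ihx' =>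
      have : (⟨x * x', H.mul_mem hx hx'⟩ : H) = ⟨x, hx⟩ * ⟨x', hx'⟩ := rfl
      rw [this, map_mul]
      exact Subgroup.mul_mem _ ihx ihx'
    | inv x hx ihx =>
      have : (⟨x⁻¹, H.inv_mem hx⟩ : H) = (⟨x, hx⟩ : H)⁻¹ := rfl
      rw [this, map_inv]
      exact Subgroup.inv_mem _ ihx
  refine ⟨H, K, hKn, ?_⟩
  refine nonempty_mulEquiv_sl23 (π c') (π j') (π y') ?_ ?_ ?_ ?_ ?_ ?_ ?_ hgen
  · -- `i ^ 4 = 1`
    rw [← map_pow]
    have : c' ^ 4 = 1 := by
      apply Subtype.ext
      change c ^ 4 = 1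
      rw [show (4 : ℕ) = 2 * 2 from rfl, pow_mul, hc2, hz2]
    rw [this, map_one]
  · rw [← map_pow, ← map_pow]
    congr 1
    apply Subtype.ext
    change j ^ 2 = c ^ 2
    rw [hj2, hc2]
  · rw [← map_inv, ← map_inv, ← map_mul, ← map_mul]
    congr 1
    apply Subtype.ext
    exact hjc
  · rw [← map_pow]
    refine (QuotientGroup.eq_one_iff _).2 ?_
    rw [Subgroup.mem_subgroupOf]
    exact Subgroup.mem_zpowers _
  · rw [← map_inv, ← map_mul, ← map_mul]
    congr 1
    apply Subtype.ext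
    exact hyc
  · rw [← map_inv, ← map_mul, ← map_mul, ← map_mul]
    congr 1
    apply Subtype.ext
    exact hyj
  · intro hcon
    rw [← map_pow] at hcon
    have h1 := (QuotientGroup.eq_one_iff _).1 hcon
    rw [Subgroup.mem_subgroupOf] at h1
    have h2 : z ∈ Subgroup.zpowers (y ^ 3) := by
      rw [← hc2]
      exact h1
    have h3 : orderOf z ∣ orderOf (y ^ 3) := orderOf_dvd_of_mem_zpowers h2
    have h4 : orderOf z = 2 := orderOf_eq_prime hz2 hz1
    rw [h4] at h3
    have h5 : Odd (orderOf (y ^ 3)) := Odd.of_dvd_nat hodd (orderOf_pow_dvd 3)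
    rcases h5 with ⟨r, hr⟩
    omega

end Cfsg.Agent.S0106
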