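import Cfsg.Statements.S0121
import Cfsg.Agent.Lib.PGroups.Critical

set_option autoImplicit false
open Cfsg

namespace Cfsg.Agent.S0121



/-- A p'-automorphism of a p-group acting trivially on a critical subgroup is trivial. -/
theorem result {G : Type*} [Group G] [Finite G] {p : ℕ} [Fact p.Prime] (hG : IsPGroup p G) (H : Subgroup G) (hH : H.Characteristic) (h1 : (frattini H).map H.subtype ≤ Subgroup.centralizer (H : Set G)) (h2 : ⁅H, (⊤ : Subgroup G)⁆ ≤ H ⊓ Subgroup.centralizer (H : Set G)) (h3 : Subgroup.centralizer (H : Set G) ≤ H) (a : MulAut G) (ha : Nat.Coprime (orderOf a) p) (h : ∀ x ∈ H, a x = x) : a = 1 := by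
  exact Cfsg.Agent.Lib.PGroups.Critical.eq_one_of_fixes_critical hG H h2 h3 a ha h

end Cfsg.Agent.S0121
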