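import Cfsg.Statements.S0123
import Cfsg.Agent.Lib.PGroups.ClassThree

set_option autoImplicit false
open Cfsg
open scoped commutatorElement

namespace Cfsg.Agent.S0123



/-- For a p-group of small class relative to p (class ≤ 2 with p odd, or class ≤ 3 with p > 3) whose derived subgroup is generated by elements of order dividing p, the p-th power map is multiplicative. -/
theorem result {R : Type*} [Group R] [Finite R] {p : ℕ} [Fact p.Prime] (hR : IsPGroup p R) (hcl : (p ≠ 2 ∧ ⁅commutator R, (⊤ : Subgroup R)⁆ = ⊥) ∨ (3 < p ∧ ⁅⁅commutator R, (⊤ : Subgroup R)⁆, (⊤ : Subgroup R)⁆ = ⊥)) (hder : commutator R ≤ Subgroup.closure {x : R | x ^ p = 1}) (x y : R) : (x * y) ^ p = x ^ p * y ^ p := by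
  have hpr : p.Prime := Fact.out
  rcases hcl with ⟨hp2, h2⟩ | ⟨hp3, h3⟩
  · have hc := Cfsg.Agent.Lib.PGroups.ClassThree.central_of_class_two h2
    have h4 : ⁅y, x⁆ ^ p = 1 :=
      Cfsg.Agent.Lib.PGroups.ClassThree.pow_eq_one_of_mem_closure_two hpr hp2 hc
        (hder (Subgroup.commutator_mem_commutator (Subgroup.mem_top y) (Subgroup.mem_top x)))
    exact Cfsg.Agent.Lib.PGroups.ClassTwo.mul_pow_prime_of_comm hpr hp2
      ((Subgroup.mem_center_iff.mp (hc y x)) x).symm ((Subgroup.mem_center_iff.mp (hc y x)) y).symm h4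
  · have hc := Cfsg.Agent.Lib.PGroups.ClassThree.central_of_class_three h3
    have h := Cfsg.Agent.Lib.PGroups.ClassThree.hallData_of_central hc x y
    have hΩ : ∀ w ∈ commutator R, w ^ p = 1 := fun w hw =>
      Cfsg.Agent.Lib.PGroups.ClassThree.pow_eq_one_of_mem_closure_three hpr hp3 hc (hder hw)
    have he : y⁻¹ * x⁻¹ * y * x ∈ commutator R := by
      have := Subgroup.commutator_mem_commutator (Subgroup.mem_top y⁻¹) (Subgroup.mem_top x⁻¹)
      simpa [commutatorElement_def, commutator_def] using this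
    refine Cfsg.Agent.Lib.PGroups.ClassThree.mul_pow_eq_of_class_three hpr hp3 h (hΩ _ he) (hΩ _ ?_) (hΩ _ ?_)
    · have := Subgroup.commutator_mem_commutator (Subgroup.mem_top (y⁻¹ * x⁻¹ * y * x)⁻¹) (Subgroup.mem_top x⁻¹)
      simpa [commutatorElement_def, commutator_def] using this
    · have := Subgroup.commutator_mem_commutator (Subgroup.mem_top (y⁻¹ * x⁻¹ * y * x)⁻¹) (Subgroup.mem_top y⁻¹)
      simpa [commutatorElement_def, commutator_def] using this

end Cfsg.Agent.S0123
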