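import Cfsg.Statements.S0125

set_option autoImplicit false
open Cfsg

namespace Cfsg.Agent.S0125

/-- The centralizer of a self-centralizing normal subgroup A of a Sylow p-subgroup is the direct product of A with a normal p'-subgroup. -/
theorem result {G : Type*} [Group G] [Finite G] {p : ℕ} [Fact p.Prime] (R : Sylow p G) (A : Subgroup G) (hAR : A ≤ (R : Subgroup G)) (hAn : (R : Subgroup G) ≤ Subgroup.normalizer (A : Set G)) (hC : (R : Subgroup G) ⊓ Subgroup.centralizer (A : Set G) = A) : ∃ H : Subgroup G, H ≤ Subgroup.centralizer (A : Set G) ∧ Nat.Coprime (Nat.card H) p ∧ Subgroup.centralizer (A : Set G) ≤ Subgroup.normalizer (H : Set G) ∧ H ⊓ A = ⊥ ∧ H ⊔ A = Subgroup.centralizer (A : Set G) := by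
  classical
  have hAC : A ≤ Subgroup.centralizer (A : Set G) := fun a ha => by
    have : a ∈ (R : Subgroup G) ⊓ Subgroup.centralizer (A : Set G) := by rw [hC]; exact ha
    exact this.2
  have hCN : Subgroup.centralizer (A : Set G) ≤ Subgroup.normalizer (A : Set G) := by
    intro c hc
    rw [Subgroup.mem_set_normalizer_iff]
    intro h
    constructor
    · intro hh
      have h1 : h * c = c * h := Subgroup.mem_centralizer_iff.1 hc h hh
      have : c * h * c⁻¹ = h := by rw [← h1]; group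
      rw [SetLike.mem_coe, this]
      exact hh
    · intro hh
      have hh' : c * h * c⁻¹ ∈ A := hh
      have h1 : (c * h * c⁻¹) * c = c * (c * h * c⁻¹) := Subgroup.mem_centralizer_iff.1 hc _ hh'
      have : h = c * h * c⁻¹ := by
        have h2 : c * h = c * (c * h * c⁻¹) := by simpa using h1
        exact mul_left_cancel h2
      rw [SetLike.mem_coe, this]
      exact hh'
  let C := Subgroup.centralizer (A : Set G)
  have hA_p : IsPGroup p (A.subgroupOf C) := by
    have h1 : IsPGroup p A := R.2.to_le hAR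
    exact h1.comap_subtype
  have hmax : ∀ {Q : Subgroup C}, IsPGroup p Q → A.subgroupOf C ≤ Q → Q = A.subgroupOf C := by
    intro Q hQ hle
    apply le_antisymm _ hle
    intro s hs
    rw [Subgroup.mem_subgroupOf]
    let N := Subgroup.normalizer (A : Set G)
    let Q' : Subgroup G := Q.map C.subtype
    have hQ'p : IsPGroup p Q' := hQ.map _
    have hQNp : IsPGroup p (Q'.subgroupOf N) := hQ'p.comap_subtype
    obtain ⟨R', hR'⟩ := hQNp.exists_le_sylow
    obtain ⟨n, hn⟩ := MulAction.exists_smul_eq N (R.subtype hAn) R'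
    have hsN : (s : G) ∈ N := hCN s.2
    have hsQ : (⟨s, hsN⟩ : N) ∈ Q'.subgroupOf N := by
      rw [Subgroup.mem_subgroupOf]
      exact ⟨s, hs, rfl⟩
    have hsR' := hR' hsQ
    rw [← hn, Sylow.coe_subgroup_smul, Subgroup.mem_pointwise_smul_iff_inv_smul_mem,
      Sylow.coe_subtype, Subgroup.mem_subgroupOf] at hsR'
    have h2 : ((n : G)⁻¹ * s * n) ∈ (R : Subgroup G) := by
      simpa [MulAut.smul_def, mul_assoc] using hsR'
    have h3 : ((n : G)⁻¹ * s * n) ∈ Subgroup.centralizer (A : Set G) := by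
      rw [Subgroup.mem_centralizer_iff]
      intro a ha
      have ha' : (n : G) * a * (n : G)⁻¹ ∈ A := (Subgroup.mem_set_normalizer_iff.1 n.2 a).1 ha
      have h4 : ((n : G) * a * (n : G)⁻¹) * s = s * ((n : G) * a * (n : G)⁻¹) :=
        Subgroup.mem_centralizer_iff.1 s.2 _ ha'
      calc a * ((n : G)⁻¹ * s * n) = (n : G)⁻¹ * (((n : G) * a * (n : G)⁻¹) * s) * n := by group
        _ = (n : G)⁻¹ * (s * ((n : G) * a * (n : G)⁻¹)) * n := by rw [h4]
        _ = ((n : G)⁻¹ * s * n) * a := by group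
    have h5 : ((n : G)⁻¹ * s * n) ∈ A := by
      have : ((n : G)⁻¹ * s * n) ∈ (R : Subgroup G) ⊓ Subgroup.centralizer (A : Set G) := ⟨h2, h3⟩
      rwa [hC] at this
    have h6 := (Subgroup.mem_set_normalizer_iff''.1 n.2 (s : G)).2 h5
    exact h6
  let S : Sylow p C := ⟨A.subgroupOf C, hA_p, hmax⟩
  have hS : (S : Subgroup C) = A.subgroupOf C := rfl
  have hP : Subgroup.normalizer (S : Subgroup C) ≤ Subgroup.centralizer ((S : Subgroup C) : Set C) := by
    intro z _
    rw [Subgroup.mem_centralizer_iff]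
    intro h hh
    apply Subtype.ext
    exact Subgroup.mem_centralizer_iff.1 z.2 h.1 (by exact hh)
  obtain ⟨K, hnorm, hcompl, hKcard⟩ : ∃ K : Subgroup C, K.Normal ∧
      K.IsComplement' (S : Subgroup C) ∧ ¬ p ∣ Nat.card K :=
    ⟨_, MonoidHom.normal_ker _, MonoidHom.ker_transferSylow_isComplement' S hP,
      MonoidHom.not_dvd_card_ker_transferSylow S hP⟩
  refine ⟨K.map C.subtype, Subgroup.map_subtype_le _, ?_, ?_, ?_, ?_⟩
  · rw [Subgroup.card_map_of_injective (Subgroup.subtype_injective C)]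
    exact (Nat.Prime.coprime_iff_not_dvd Fact.out).2 hKcard |>.symm
  · intro c hc
    rw [Subgroup.mem_set_normalizer_iff]
    intro h
    constructor
    · rintro ⟨k, hk, rfl⟩
      exact ⟨⟨c, hc⟩ * k * ⟨c, hc⟩⁻¹, hnorm.conj_mem k hk _, rfl⟩
    · rintro ⟨k, hk, hk2⟩
      have hkc : h = (⟨c, hc⟩⁻¹ * k * ⟨c, hc⟩ : C) := by
        have : (k : G) = c * h * c⁻¹ := hk2
        simp [this, mul_assoc]
      rw [SetLike.mem_coe, hkc]
      refine ⟨⟨c, hc⟩⁻¹ * k * ⟨c, hc⟩, ?_, rfl⟩
      have := hnorm.conj_mem k hk (⟨c, hc⟩⁻¹ : C)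
      simpa using this
  · rw [eq_bot_iff]
    rintro x ⟨⟨k, hk, rfl⟩, hxA⟩
    have h1 : k ∈ K ⊓ (S : Subgroup C) := ⟨hk, hxA⟩
    have h2 := hcompl.disjoint.le_bot h1
    rw [Subgroup.mem_bot] at h2
    simp [h2]
  · have h1 : K ⊔ (S : Subgroup C) = ⊤ := hcompl.sup_eq_top
    have h2 := congrArg (Subgroup.map C.subtype) h1
    rw [Subgroup.map_sup, hS, Subgroup.map_subgroupOf_eq_of_le hAC] at h2
    rw [h2]
    exact (MonoidHom.range_eq_map _).symm.trans (Subgroup.range_subtype C)

end Cfsg.Agent.S0125
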