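import Cfsg.Statements.S0132
import Cfsg.Agent.Lib.Transfer.Frobenius
import Cfsg.Agent.S0073

set_option autoImplicit false
open Cfsg

namespace Cfsg.Agent.S0132

open Cfsg.Agent.Lib.Transfer.Basic Cfsg.Agent.Lib.Transfer.Frobenius

/-- A minimal non-p-nilpotent finite group is a minimal non-nilpotent group with a normal Sylow p-subgroup. -/
theorem result {G : Type*} [Group G] [Finite G] {p : ℕ} [Fact p.Prime] (h1 : ¬ Cfsg.HasNormalPComplement p G) (h2 : ∀ H : Subgroup G, H ≠ ⊤ → Cfsg.HasNormalPComplement p H) : (∀ H : Subgroup G, H ≠ ⊤ → Group.IsNilpotent H) ∧ ¬ Group.IsNilpotent G ∧ ∀ P : Sylow p G, (P : Subgroup G).Normal := by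
  classical
  have hF : ¬ FrobeniusCond p G := fun h => h1 (hasNormalPComplement_of_frobeniusCond h)
  unfold FrobeniusCond at hF
  push Not at hF
  obtain ⟨D, hD, g, hgN, hgco, hgC⟩ := hF
  obtain ⟨y, q, k, hq, hk, hy, hyC⟩ := Cfsg.Agent.S0073.exists_prime_pow_power _ g hgC
  have hyN : Subgroup.zpowers y ≤ Subgroup.normalizer (D : Set G) :=
    Subgroup.zpowers_le.2 ((Subgroup.zpowers_le.2 hgN) hy)
  have : Fact q.Prime := ⟨hq⟩
  have hyco : Nat.Coprime (orderOf y) p :=
    Nat.Coprime.coprime_dvd_left (orderOf_dvd_of_mem_zpowers hy) hgco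
  have hqk : Nat.Coprime (q ^ k) p := hk ▸ hyco
  -- the subgroup D ⟨y⟩ is everything
  have hHtop : D ⊔ Subgroup.zpowers y = ⊤ := by
    by_contra hne
    have hFH := frobeniusCond_of_hasNormalPComplement (h2 _ hne)
    set H := D ⊔ Subgroup.zpowers y with hH
    have hDH : D ≤ H := le_sup_left
    have hyH : y ∈ H := (le_sup_right : Subgroup.zpowers y ≤ H) (Subgroup.mem_zpowers y)
    have hD' : IsPGroup p (D.subgroupOf H) := hD.comap_subtype
    have hmem : (⟨y, hyH⟩ : H) ∈ Subgroup.normalizer ((D.subgroupOf H) : Set H) := by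
      rw [mem_normalizer_iff']
      intro x
      exact mem_normalizer_iff'.mp (hyN (Subgroup.mem_zpowers y)) x
    have hco' : Nat.Coprime (orderOf (⟨y, hyH⟩ : H)) p := by
      rwa [Subgroup.orderOf_mk]
    have hc := hFH _ hD' _ hmem hco'
    rw [mem_centralizer_iff'] at hc
    apply hyC
    rw [mem_centralizer_iff']
    intro x hx
    have := hc ⟨x, hDH hx⟩ hx
    exact congrArg Subtype.val this
  -- D is normal
  have hDn : D.Normal := by
    rw [← Subgroup.normalizer_eq_top_iff, eq_top_iff, ← hHtop]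
    exact sup_le (le_normalizer' D) hyN
  -- decomposition
  have hdec : ∀ x : G, ∃ d ∈ D, ∃ z ∈ Subgroup.zpowers y, x = d * z := by
    intro x
    have hx : x ∈ ((D ⊔ Subgroup.zpowers y : Subgroup G) : Set G) := by
      rw [hHtop]; trivial
    rw [Subgroup.normal_mul] at hx
    obtain ⟨d, hd, z, hz, rfl⟩ := Set.mem_mul.1 hx
    exact ⟨d, hd, z, hz, rfl⟩
  have hzo : ∀ z ∈ Subgroup.zpowers y, Nat.Coprime (orderOf z) p := fun z hz =>
    Nat.Coprime.coprime_dvd_left (orderOf_dvd_of_mem_zpowers hz) hyco
  -- Sylow subgroups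
  have hSyl : ∀ P : Sylow p G, (P : Subgroup G) = D := by
    intro P
    apply le_antisymm
    · intro x hx
      obtain ⟨d, hd, z, hz, rfl⟩ := hdec x
      have hdP : d ∈ (P : Subgroup G) := hD.le_sylow_of_normal P hd
      have hzP : z ∈ (P : Subgroup G) := by
        have := (P : Subgroup G).mul_mem ((P : Subgroup G).inv_mem hdP) hx
        simpa using this
      rw [eq_one_of_coprime_of_mem_isPGroup P.2 hzP (hzo z hz), mul_one]
      exact hd
    · exact hD.le_sylow_of_normal P
  -- elements of order prime to p are q-elements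
  have hqel : ∀ x : G, Nat.Coprime (orderOf x) p → x ^ (q ^ k) = 1 := by
    intro x hx
    obtain ⟨d, hd, z, hz, rfl⟩ := hdec x
    have hz1 : z ^ (q ^ k) = 1 := by
      have h3 : orderOf z ∣ q ^ k := by
        rw [← hk]; exact orderOf_dvd_of_mem_zpowers hz
      exact orderOf_dvd_iff_pow_eq_one.1 h3
    have hmk : (QuotientGroup.mk' D) ((d * z) ^ (q ^ k)) = 1 := by
      have hd1 : QuotientGroup.mk' D d = 1 := (QuotientGroup.eq_one_iff d).2 hd
      rw [map_pow, map_mul, hd1, one_mul, ← map_pow, hz1, map_one]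
    have hin : (d * z) ^ (q ^ k) ∈ D := (QuotientGroup.eq_one_iff _).1 hmk
    exact eq_one_of_coprime_of_mem_isPGroup hD hin
      (Nat.Coprime.coprime_dvd_left (orderOf_pow_dvd _) hx)
  refine ⟨?_, ?_, ?_⟩
  · -- proper subgroups are nilpotent
    intro H hH
    have hq3 := (Group.isNilpotent_of_finite_tfae (G := H)).out 0 3
    rw [hq3]
    intro r hr R
    by_cases hrp : r = p
    · subst hrp
      have hnorm : (D.subgroupOf H).Normal := hDn.subgroupOf H
      have hRD : (R : Subgroup H) = D.subgroupOf H := by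
        apply le_antisymm
        · intro x hx
          rw [Subgroup.mem_subgroupOf]
          have hmap : IsPGroup r ((R : Subgroup H).map H.subtype) := R.2.map _
          obtain ⟨P, hP⟩ := hmap.exists_le_sylow
          rw [← hSyl P]
          exact hP ⟨x, hx, rfl⟩
        · exact (hD.comap_subtype : IsPGroup r (D.subgroupOf H)).le_sylow_of_normal R
      rw [hRD]
      exact hnorm
    · -- r ≠ p
      have hcomp := h2 H hH
      have hNn : (pResidual p H).Normal := inferInstance
      have hRN : (R : Subgroup H) ≤ pResidual p H := by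
        intro x hx
        rw [mem_pResidual_iff_of_hasNormalPComplement hcomp]
        obtain ⟨m, hm⟩ := (IsPGroup.iff_orderOf.mp R.2) ⟨x, hx⟩
        rw [Subgroup.orderOf_mk] at hm
        rw [hm]
        exact Nat.Coprime.pow_left _ ((Nat.coprime_primes hr.out Fact.out).2 hrp)
      have hNq : ∀ x ∈ pResidual p H, x ^ (q ^ k) = 1 := by
        intro x hx
        rw [mem_pResidual_iff_of_hasNormalPComplement hcomp] at hx
        have h3 : Nat.Coprime (orderOf (x : G)) p := by
          rwa [Subgroup.orderOf_coe]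
        have := hqel _ h3
        apply Subtype.ext
        simpa using this
      by_cases hrq : r = q
      · subst hrq
        have hNp : IsPGroup r (pResidual p H) := by
          intro x
          exact ⟨k, Subtype.ext (by simpa using hNq x x.2)⟩
        have h5 : pResidual p H ≤ (R : Subgroup H) := hNp.le_sylow_of_normal R
        rw [le_antisymm hRN h5]
        exact hNn
      · have hbot : (R : Subgroup H) = ⊥ := by
          rw [eq_bot_iff]
          intro x hx
          obtain ⟨m, hm⟩ := (IsPGroup.iff_orderOf.mp R.2) ⟨x, hx⟩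
          rw [Subgroup.orderOf_mk] at hm
          have h6 : orderOf x ∣ q ^ k := orderOf_dvd_of_pow_eq_one (hNq x (hRN hx))
          have h7 : Nat.Coprime (r ^ m) (q ^ k) :=
            Nat.Coprime.pow _ _ ((Nat.coprime_primes hr.out Fact.out).2 hrq)
          rw [hm] at h6
          have h8 : r ^ m = 1 := Nat.Coprime.eq_one_of_dvd h7 h6
          rw [Subgroup.mem_bot, ← orderOf_eq_one_iff, hm, h8]
        rw [hbot]
        infer_instance
  · -- G is not nilpotent
    intro hnil
    have hq3 := (Group.isNilpotent_of_finite_tfae (G := G)).out 0 3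
    have hall := hq3.1 hnil
    have hZp : IsPGroup q (Subgroup.zpowers y) :=
      IsPGroup.of_card (n := k) (by rw [Nat.card_zpowers, hk])
    obtain ⟨Q, hQ⟩ := hZp.exists_le_sylow
    have hQn := hall q inferInstance Q
    have hyQ : y ∈ (Q : Subgroup G) := hQ (Subgroup.mem_zpowers y)
    apply hyC
    rw [mem_centralizer_iff']
    intro d hd
    have hc1 : y * d * y⁻¹ * d⁻¹ ∈ D :=
      D.mul_mem (hDn.conj_mem d hd y) (D.inv_mem hd)
    have hc2 : y * d * y⁻¹ * d⁻¹ ∈ (Q : Subgroup G) := by
      have h3 := hQn.conj_mem y⁻¹ ((Q : Subgroup G).inv_mem hyQ) d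
      have h4 := (Q : Subgroup G).mul_mem hyQ h3
      simpa [mul_assoc] using h4
    have hc3 : Nat.Coprime (orderOf (y * d * y⁻¹ * d⁻¹)) p := by
      obtain ⟨m, hm⟩ := (IsPGroup.iff_orderOf.mp Q.2) ⟨_, hc2⟩
      rw [Subgroup.orderOf_mk] at hm
      rw [hm]
      apply Nat.Coprime.pow_left
      have hk0 : k ≠ 0 := by
        rintro rfl
        rw [pow_zero, orderOf_eq_one_iff] at hk
        rw [hk] at hyC
        exact hyC (Subgroup.one_mem _)
      exact Nat.Coprime.coprime_dvd_left (dvd_pow_self q hk0) hqk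
    have hc4 := eq_one_of_coprime_of_mem_isPGroup hD hc1 hc3
    exact mul_inv_eq_one.1 hc4
  · intro P
    rw [hSyl P]
    exact hDn

end Cfsg.Agent.S0132
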