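import Cfsg.Statements.S0145
import Cfsg.Agent.Lib.Char.Complete

set_option autoImplicit false
open scoped ComplexConjugate
open Cfsg

namespace Cfsg.Agent.S0145

/-- Column orthogonality: the sum over the irreducible characters χ of χ g * conj (χ h) is the order of the centralizer of g if g and h are conjugate, and is 0 otherwise. -/
theorem result {G : Type*} [Group G] [Finite G] (g h : G) : (IsConj g h → ∑ᶠ χ : Cfsg.IrrCharacter G, (χ : G → ℂ) g * conj ((χ : G → ℂ) h) = (Nat.card (Subgroup.centralizer ({g} : Set G)) : ℂ)) ∧ (¬ IsConj g h → ∑ᶠ χ : Cfsg.IrrCharacter G, (χ : G → ℂ) g * conj ((χ : G → ℂ) h) = 0) := by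
  classical
  have := Cfsg.Agent.Lib.Char.Ortho.finite_irrCharacter (G := G)
  let _ := Fintype.ofFinite (Cfsg.IrrCharacter G)
  let _ := Fintype.ofFinite G
  rw [finsum_eq_sum_of_fintype]
  constructor
  · intro hgh
    rw [Cfsg.Agent.Lib.Char.Complete.sum_irr_mul_conj, if_pos hgh]
    congr 1
    have h1 := Cfsg.Agent.Lib.Char.Complete.card_isConj_mul_card_centralizer g
    have h2 := Cfsg.Agent.Lib.Char.Complete.card_isConj_mul_card_centralizer h
    have h3 : Nat.card {x : G // IsConj x g} = Nat.card {x : G // IsConj x h} := by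
      apply Nat.card_congr
      refine Equiv.subtypeEquivRight fun x => ⟨fun hx => hx.trans hgh, fun hx => hx.trans hgh.symm⟩
    rw [← h1, h3] at h2
    exact Nat.eq_of_mul_eq_mul_left (Nat.pos_of_ne_zero (by
      intro h0
      rw [← h3] at h0
      rw [h0, zero_mul] at h1
      exact Nat.card_pos.ne' h1.symm)) h2
  · intro hgh
    rw [Cfsg.Agent.Lib.Char.Complete.sum_irr_mul_conj, if_neg hgh]

end Cfsg.Agent.S0145
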