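import Cfsg.Statements.S0159
import Cfsg.Agent.Lib.Char.FrobSchur

set_option autoImplicit false
open Cfsg

namespace Cfsg.Agent.S0159

/-- The number of solutions of s * s = 1 in a finite group equals the sum, over the irreducible characters χ, of (the average over s of χ (s * s)) times χ 1. -/
theorem result {G : Type*} [Group G] [Fintype G] : (Nat.card {s : G // s * s = 1} : ℂ) = ∑ᶠ χ : Cfsg.IrrCharacter G, ((Nat.card G : ℂ)⁻¹ * ∑ s : G, (χ : G → ℂ) (s * s)) * (χ : G → ℂ) 1 := by
  classical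
  have := Cfsg.Agent.Lib.Char.Ortho.finite_irrCharacter (G := G)
  let _ := Fintype.ofFinite (Cfsg.IrrCharacter G)
  rw [finsum_eq_sum_of_fintype]
  have h := Cfsg.Agent.Lib.Char.FrobSchur.card_sqrt_eq (G := G) 1
  have h2 := congrArg (starRingEnd ℂ) h
  rw [map_natCast, map_sum] at h2
  rw [h2]
  refine Finset.sum_congr rfl fun χ _ => ?_
  obtain ⟨n, hn⟩ := Cfsg.Agent.Lib.Char.Basic.exists_deg_of_isCharacter
    (Cfsg.Agent.Lib.Char.Basic.isCharacter_of_isIrrCharacter χ.2)
  rw [map_mul, Complex.conj_conj, hn, map_natCast]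

end Cfsg.Agent.S0159
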