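-- Statement S0162: Burnside's congruence for groups of odd order.
import Cfsg.Statements.S0162
import Cfsg.Agent.S0161

set_option autoImplicit false
open Cfsg

namespace Cfsg.Agent.S0162

open Cfsg.Agent.Lib.Char.Basic Cfsg.Agent.Lib.Char.Ortho Cfsg.Agent.Lib.Char.Complete
open Cfsg.Agent.Lib.CharX.Fixed Cfsg.Agent.Lib.CharX.Conj Module
open scoped ComplexConjugate

/-- If a finite group has odd order, its order is congruent to its number of conjugacy classes modulo 16. -/
theorem result {G : Type*} [Group G] [Finite G] (hodd : Odd (Nat.card G)) : Nat.card G ≡ Nat.card (ConjClasses G) [MOD 16] := by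
  classical
  let _ : Fintype G := Fintype.ofFinite G
  have := finite_irrCharacter (G := G)
  let _ : Fintype (IrrCharacter G) := Fintype.ofFinite _
  let i₁ : IrrCharacter G := ⟨fun _ => 1, isIrrCharacter_one⟩
  have hex : ∀ χ : IrrCharacter G, ∃ n : ℕ, 0 < n ∧ (χ : G → ℂ) 1 = n := fun χ =>
    exists_pos_deg_of_isIrr χ.2
  choose d hdpos hd using hex
  have hsum : ∑ χ : IrrCharacter G, d χ ^ 2 = Nat.card G := by
    have := sum_deg_sq_eq_card (G := G)
    simp only [hd] at this
    exact_mod_cast this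
  have hd1 : d i₁ = 1 := by
    have := hd i₁
    have h2 : ((i₁ : G → ℂ) 1) = 1 := rfl
    rw [h2] at this
    exact_mod_cast this.symm
  have hdodd : ∀ χ, Odd (d χ) := by
    rintro ⟨χ, n, ρ, hρ, rfl⟩
    have hinst : ρ.IsIrreducible := hρ
    have h5 := Cfsg.Agent.Lib.Char.Central.finrank_dvd_card ρ
    have h6 : Odd (finrank ℂ (Fin n → ℂ)) := hodd.of_dvd_nat h5
    have h7 := hd ⟨ρ.character, n, ρ, hρ, rfl⟩
    simp only [Representation.char_one] at h7
    have h8 : finrank ℂ (Fin n → ℂ) = d ⟨ρ.character, n, ρ, hρ, rfl⟩ := by exact_mod_cast h7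
    rw [← h8]
    exact h6
  have hsq : ∀ χ, ∃ c, d χ ^ 2 = 8 * c + 1 := by
    intro χ
    obtain ⟨m, hm⟩ := hdodd χ
    obtain ⟨t, ht⟩ := Nat.even_mul_succ_self m
    refine ⟨t, ?_⟩
    rw [hm]
    have : m * (m + 1) = 2 * t := by omega
    nlinarith
  choose c hc using hsq
  -- conjugation on non-principal characters
  obtain ⟨T, hT, hcard, hhalf⟩ := exists_half (Finset.univ.erase i₁) conjIrr
    (fun x hx => by
      simp only [Finset.mem_erase, Finset.mem_univ, and_true] at hx ⊢
      intro h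
      apply hx
      have h2 : conjIrr x = i₁ := h
      have h3 : conjIrr (conjIrr x) = conjIrr i₁ := by rw [h2]
      rw [conjIrr_conjIrr] at h3
      rw [h3]
      apply Subtype.ext
      funext g
      simp [i₁])
    (fun x _ => conjIrr_conjIrr x)
    (fun x hx h => by
      have hx1 := (Finset.mem_erase.mp hx).1
      apply hx1
      apply Subtype.ext
      exact Cfsg.Agent.S0161.result hodd x ((conjIrr_eq_iff x).mp h))
  have hsplit := Finset.add_sum_erase Finset.univ (fun χ : IrrCharacter G => d χ ^ 2) (Finset.mem_univ i₁)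
  simp only [hd1] at hsplit
  rw [hsum] at hsplit
  have hhalfsq := hhalf (fun χ => ((d χ : ℂ)) ^ 2) (fun x _ => by
    have h1 := hd (conjIrr x)
    rw [conjIrr_apply, hd x, Complex.conj_natCast] at h1
    have h2 : d x = d (conjIrr x) := by exact_mod_cast h1
    rw [← h2])
  have hhalfsq' : ∑ χ ∈ Finset.univ.erase i₁, d χ ^ 2 = 2 * ∑ χ ∈ T, d χ ^ 2 := by
    exact_mod_cast hhalfsq
  have hk : Nat.card (ConjClasses G) = 1 + 2 * T.card := by
    rw [← card_irr_eq_card_conjClasses, Nat.card_eq_fintype_card, ← hcard,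
      Finset.card_erase_of_mem (Finset.mem_univ _), Finset.card_univ]
    have : 0 < Fintype.card (IrrCharacter G) := Fintype.card_pos_iff.mpr ⟨i₁⟩
    omega
  have hTsum : ∑ χ ∈ T, d χ ^ 2 = 8 * ∑ χ ∈ T, c χ + T.card := by
    simp only [hc, Finset.sum_add_distrib, Finset.mul_sum]
    simp
  have hfinal : Nat.card G = 16 * (∑ χ ∈ T, c χ) + (1 + 2 * T.card) := by
    rw [← hsplit, hhalfsq', hTsum]
    ring
  rw [hk, hfinal]
  simp [Nat.ModEq]

end Cfsg.Agent.S0162
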