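import Cfsg.Statements.S0166
import Cfsg.Agent.Lib.CycloReal.Main

set_option autoImplicit false
open Cfsg

namespace Cfsg.Agent.S0166

/-- Brauer's splitting field Theorem: a complex representation of a finite group of exponent m is equivalent to a representation by matrices with entries in ℚ adjoined exp(2πi/m). -/
theorem result {G : Type*} [Group G] [Finite G] (n : ℕ) (ρ : Representation ℂ G (Fin n → ℂ)) : ∃ σ : Representation ℂ G (Fin n → ℂ), Nonempty (ρ.Equiv σ) ∧ ∀ g : G, ∀ i j : Fin n, LinearMap.toMatrix' (σ g) i j ∈ Algebra.adjoin ℚ ({Complex.exp (2 * Real.pi * Complex.I / (Monoid.exponent G : ℂ))} : Set ℂ) := by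
  classical
  let _ := Fintype.ofFinite G
  set m := Monoid.exponent G with hm
  have hm0 : m ≠ 0 := Monoid.exponent_ne_zero_of_finite
  set ζ := Complex.exp (2 * Real.pi * Complex.I / (m : ℂ)) with hζ
  have hprim : IsPrimitiveRoot ζ m := Complex.isPrimitiveRoot_exp m hm0
  have hint : IsIntegral ℚ ζ := by
    refine IsIntegral.of_pow (Nat.pos_of_ne_zero hm0) ?_
    rw [hprim.pow_eq_one]
    exact isIntegral_one
  let K : IntermediateField ℚ ℂ := IntermediateField.adjoin ℚ {ζ}
  have hζK : ζ ∈ K := IntermediateField.mem_adjoin_simple_self ℚ ζ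
  have hroots : ∀ z : ℂ, z ^ Monoid.exponent G = 1 → z ∈ (algebraMap K ℂ).range := by
    intro z hz
    have : NeZero m := ⟨hm0⟩
    obtain ⟨i, -, rfl⟩ := hprim.eq_pow_of_pow_eq_one hz
    exact ⟨⟨ζ ^ i, pow_mem hζK i⟩, rfl⟩
  obtain ⟨σ, h1, h2⟩ := Cfsg.Agent.Lib.CycloReal.Main.exists_form (K := K) hroots n ρ
  refine ⟨σ, h1, fun g i j => ?_⟩
  obtain ⟨x, hx⟩ := h2 g i j
  rw [← hx, ← IntermediateField.adjoin_simple_toSubalgebra_of_isAlgebraic hint.isAlgebraic]
  exact x.2

end Cfsg.Agent.S0166
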