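-- Statement S0167: Frobenius' criterion for an element to be a commutator.
import Cfsg.Statements.S0167
import Cfsg.Agent.Lib.Char.Central
import Cfsg.Agent.Lib.Char.Complete

set_option autoImplicit false
open Cfsg

namespace Cfsg.Agent.S0167

open Cfsg.Agent.Lib.Char.Basic Cfsg.Agent.Lib.Char.Ortho Cfsg.Agent.Lib.Char.Complete Module
open scoped ComplexConjugate

variable {G : Type*} [Group G] [Fintype G]

/-- The number of ways to write `g` as a commutator. -/
noncomputable def commCount [DecidableEq G] (g : G) : ℂ :=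
  ∑ p : G × G, if p.1 * p.2 * p.1⁻¹ * p.2⁻¹ = g then 1 else 0

theorem commCount_isClass [DecidableEq G] : IsClassFunction G (commCount (G := G)) := by
  intro g h
  simp only [commCount]
  let e : G × G ≃ G × G := (MulAut.conj h).toEquiv.prodCongr (MulAut.conj h).toEquiv
  refine (Fintype.sum_equiv e _ _ fun p => ?_).symm
  have h1 : (e p).1 * (e p).2 * (e p).1⁻¹ * (e p).2⁻¹ = h * (p.1 * p.2 * p.1⁻¹ * p.2⁻¹) * h⁻¹ := by
    simp [e, MulAut.conj_apply]
    group
  rw [h1]
  congr 1
  simp

/-- Summing against the count is summing over the commutators. -/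
theorem sum_commCount_mul [DecidableEq G] (c : G → ℂ) :
    ∑ g : G, commCount g * c g = ∑ p : G × G, c (p.1 * p.2 * p.1⁻¹ * p.2⁻¹) := by
  simp only [commCount, Finset.sum_mul]
  rw [Finset.sum_comm]
  refine Finset.sum_congr rfl fun p _ => ?_
  simp

/-- The class sum on an irreducible representation. -/
theorem sum_conj_eq_smul {V : Type*} [AddCommGroup V] [Module ℂ V] [FiniteDimensional ℂ V]
    (ρ : Representation ℂ G V) [ρ.IsIrreducible] (a : G) :
    ∑ b : G, ρ.character (b * a * b⁻¹ * a⁻¹)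
      = (Nat.card G : ℂ) * ρ.character a * ρ.character a⁻¹ / (finrank ℂ V : ℂ) := by
  have hpos := Cfsg.Agent.Lib.Char.Central.finrank_pos_of_irreducible ρ
  have hne : (finrank ℂ V : ℂ) ≠ 0 := Nat.cast_ne_zero.mpr hpos.ne'
  let T : Module.End ℂ V := ∑ b : G, ρ (b * a * b⁻¹)
  obtain ⟨c, hc⟩ := Cfsg.Agent.Lib.Char.Central.schur_scalar ρ T (by
    intro h v
    simp only [T, LinearMap.sum_apply, map_sum]
    refine (Fintype.sum_equiv (Equiv.mulLeft h) _ _ fun b => ?_).symm
    simp only [Equiv.coe_mulLeft]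
    rw [← Module.End.mul_apply, ← map_mul, ← Module.End.mul_apply, ← map_mul]
    congr 2
    group)
  have htr : c * (finrank ℂ V : ℂ) = (Nat.card G : ℂ) * ρ.character a := by
    have h1 : LinearMap.trace ℂ V T = (Nat.card G : ℂ) * ρ.character a := by
      simp only [T, map_sum]
      have : ∀ b : G, LinearMap.trace ℂ V (ρ (b * a * b⁻¹)) = ρ.character a := fun b =>
        Representation.char_conj ρ a b
      simp only [this, Finset.sum_const, Finset.card_univ, nsmul_eq_mul, Nat.card_eq_fintype_card]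
    rw [← h1, hc, map_smul, smul_eq_mul]
    congr 1
    exact (LinearMap.trace_one ℂ V).symm
  have hsum : ∑ b : G, ρ.character (b * a * b⁻¹ * a⁻¹) = c * ρ.character a⁻¹ := by
    have h1 : ∑ b : G, ρ.character (b * a * b⁻¹ * a⁻¹) = LinearMap.trace ℂ V (T * ρ a⁻¹) := by
      simp only [T, Finset.sum_mul, map_sum]
      refine Finset.sum_congr rfl fun b _ => ?_
      change LinearMap.trace ℂ V (ρ (b * a * b⁻¹ * a⁻¹)) = _
      rw [map_mul]
    rw [h1, hc, smul_mul_assoc, one_mul, map_smul, smul_eq_mul]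
    rfl
  rw [hsum]
  field_simp
  linear_combination (ρ.character a⁻¹) * htr

/-- The coefficient of an irreducible character in the commutator count. -/
theorem classInner_commCount [DecidableEq G] {χ : G → ℂ} (hχ : IsIrrCharacter G χ) :
    classInner (commCount (G := G)) χ = (Nat.card G : ℂ) / χ 1 := by
  obtain ⟨n, ρ, hρ, rfl⟩ := hχ
  have hinst : ρ.IsIrreducible := hρ
  have hpos := Cfsg.Agent.Lib.Char.Central.finrank_pos_of_irreducible ρ
  rw [classInner_def, sum_commCount_mul, Fintype.sum_prod_type]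
  have h1 : ∀ a b : G, conj (ρ.character (a * b * a⁻¹ * b⁻¹)) = ρ.character (b * a * b⁻¹ * a⁻¹) := by
    intro a b
    rw [← char_inv_eq_conj (isCharacter_of_rep ρ)]
    congr 1
    group
  simp only [h1, sum_conj_eq_smul ρ]
  have h2 := Cfsg.Agent.Lib.Char.Central.exists_sum_character_mul_inv ρ
  have hdne : ((finrank ℂ (Fin n → ℂ) : ℕ) : ℂ) ≠ 0 := Nat.cast_ne_zero.mpr hpos.ne'
  have hG : (Nat.card G : ℂ) ≠ 0 := card_ne_zero_complex
  have h3 : ∑ x : G, (Nat.card G : ℂ) * ρ.character x * ρ.character x⁻¹ / (finrank ℂ (Fin n → ℂ) : ℂ)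
      = (Nat.card G : ℂ) * (∑ x : G, ρ.character x⁻¹ * ρ.character x) / (finrank ℂ (Fin n → ℂ) : ℂ) := by
    rw [Finset.mul_sum, Finset.sum_div]
    refine Finset.sum_congr rfl fun x _ => ?_
    ring
  rw [h3, h2, Representation.char_one]
  field_simp

/-- The Frobenius formula. -/
theorem commCount_eq [DecidableEq G] [Fintype (IrrCharacter G)] (g : G) :
    commCount g = (Nat.card G : ℂ) * ∑ χ : IrrCharacter G, (χ : G → ℂ) g / (χ : G → ℂ) 1 := by
  have h := congrFun (classFunction_eq_sum (commCount_isClass (G := G))) g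
  rw [h]
  simp only [Finset.sum_apply, Pi.smul_apply, smul_eq_mul, classInner_commCount (Subtype.property _)]
  rw [Finset.mul_sum]
  refine Finset.sum_congr rfl fun χ _ => ?_
  ring

/-- An element g of a finite group is a commutator if and only if the sum over the irreducible characters χ of χ g / χ 1 is nonzero. -/
theorem result {G : Type*} [Group G] [Finite G] (g : G) : (∃ a b : G, g = a * b * a⁻¹ * b⁻¹) ↔ ∑ᶠ χ : Cfsg.IrrCharacter G, (χ : G → ℂ) g / (χ : G → ℂ) 1 ≠ 0 := by
  classical
  let _ : Fintype G := Fintype.ofFinite G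
  have := finite_irrCharacter (G := G)
  let _ : Fintype (IrrCharacter G) := Fintype.ofFinite _
  rw [finsum_eq_sum_of_fintype]
  have h1 := commCount_eq g
  have hG : (Nat.card G : ℂ) ≠ 0 := card_ne_zero_complex
  have h2 : commCount g = ((Finset.univ.filter
      (fun p : G × G => p.1 * p.2 * p.1⁻¹ * p.2⁻¹ = g)).card : ℂ) := by
    simp [commCount, Finset.sum_boole]
  constructor
  · rintro ⟨a, b, hab⟩ h0
    rw [h0, mul_zero, h2] at h1
    have h3 : (Finset.univ.filter
        (fun p : G × G => p.1 * p.2 * p.1⁻¹ * p.2⁻¹ = g)).card = 0 := by exact_mod_cast h1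
    rw [Finset.card_eq_zero, Finset.filter_eq_empty_iff] at h3
    exact h3 (Finset.mem_univ (a, b)) hab.symm
  · intro h0
    have h3 : commCount g ≠ 0 := by
      rw [h1]
      exact mul_ne_zero hG h0
    rw [h2] at h3
    have h4 : (Finset.univ.filter
        (fun p : G × G => p.1 * p.2 * p.1⁻¹ * p.2⁻¹ = g)).card ≠ 0 := by exact_mod_cast h3
    rw [Finset.card_ne_zero] at h4
    obtain ⟨p, hp⟩ := h4
    exact ⟨p.1, p.2, (Finset.mem_filter.mp hp).2.symm⟩

end Cfsg.Agent.S0167
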