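-- Statement S0168: the Burnside-Brauer theorem.
import Cfsg.Statements.S0168
import Cfsg.Agent.Lib.Char.Central
import Cfsg.Agent.Lib.Char.Complete

set_option autoImplicit false
open Cfsg

namespace Cfsg.Agent.S0168

open Cfsg.Agent.Lib.Char.Basic Cfsg.Agent.Lib.Char.Ortho Cfsg.Agent.Lib.Char.Complete Module
open scoped ComplexConjugate

/-- The Burnside–Brauer Theorem. Let χ be the character of a faithful complex representation of a finite group, taking m distinct values. Then every irreducible character has nonzero inner product with χ ^ i for some i < m. -/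
theorem result {G : Type*} [Group G] [Fintype G] {V : Type*} [AddCommGroup V] [Module ℂ V] [FiniteDimensional ℂ V] (ρ : Representation ℂ G V) (hfaithful : Function.Injective ρ) (ψ : G → ℂ) (hψ : Cfsg.IsIrrCharacter G ψ) : ∃ i : ℕ, i < Nat.card (Set.range ρ.character) ∧ Cfsg.classInner (fun g => ρ.character g ^ i) ψ ≠ 0 := by
  classical
  by_contra hall
  push Not at hall
  set χ := ρ.character with hχ
  have hfin : Finite (Set.range χ) := Set.finite_range χ
  let e : Set.range χ ≃ Fin (Nat.card (Set.range χ)) := Finite.equivFin _
  set m := Nat.card (Set.range χ) with hm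
  let f : Fin m → ℂ := fun j => ((e.symm j : Set.range χ) : ℂ)
  have hfinj : Function.Injective f := fun a b h => e.symm.injective (Subtype.ext h)
  let pos : G → Fin m := fun g => e ⟨χ g, ⟨g, rfl⟩⟩
  have hpos : ∀ g, f (pos g) = χ g := fun g => by simp [f, pos]
  let β : Fin m → ℂ := fun j => ∑ g : G, if χ g = f j then conj (ψ g) else 0
  have hβ : β = 0 := by
    refine Matrix.eq_zero_of_forall_pow_sum_mul_pow_eq_zero hfinj ?_
    intro i
    have h1 := hall i i.2
    rw [classInner_def] at h1
    have h2 : ∑ g : G, χ g ^ (i : ℕ) * conj (ψ g) = 0 :=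
      (mul_eq_zero.mp h1).resolve_left (inv_ne_zero card_ne_zero_complex)
    rw [← h2]
    simp only [β, Finset.sum_mul]
    rw [Finset.sum_comm]
    refine Finset.sum_congr rfl fun g _ => ?_
    rw [Finset.sum_eq_single (pos g)]
    · rw [if_pos (hpos g).symm, hpos g, mul_comm]
    · intro j _ hj
      rw [if_neg, zero_mul]
      intro h
      apply hj
      apply hfinj
      rw [hpos g, h]
    · intro h
      exact absurd (Finset.mem_univ _) h
  have h0 := congrFun hβ (pos 1)
  simp only [β, Pi.zero_apply, hpos] at h0
  rw [Finset.sum_eq_single 1] at h0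
  · rw [if_pos rfl] at h0
    have := Cfsg.Agent.Lib.Char.Complete.irr_one_ne_zero hψ
    exact this (by simpa using h0)
  · intro g _ hg
    rw [if_neg]
    intro h
    apply hg
    apply hfaithful
    have h3 : χ g = (finrank ℂ V : ℂ) := by
      rw [h, hχ, Representation.char_one]
    have h4 := (Cfsg.Agent.Lib.Char.Eigen.character_eq_finrank_iff ρ g).mp h3
    rw [h4, map_one]
    rfl
  · intro h
    exact absurd (Finset.mem_univ _) h

end Cfsg.Agent.S0168
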