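-- Statement S0170: exceptional characters.
import Cfsg.Statements.S0170
import Cfsg.Agent.Lib.CharX.Isometry
import Cfsg.Agent.Lib.Char.TI
import Cfsg.Agent.Lib.Char.IndRep

set_option autoImplicit false
open Cfsg

namespace Cfsg.Agent.S0170

open Cfsg.Agent.Lib.Char.Basic Cfsg.Agent.Lib.Char.Ortho Cfsg.Agent.Lib.Char.Complete
open Cfsg.Agent.Lib.Char.Induced Cfsg.Agent.Lib.Char.IndRep Cfsg.Agent.Lib.Char.TI
open Cfsg.Agent.Lib.CharX.Isometry

/-- Exceptional characters. Let S be a subset of a finite group contained in its normalizer N and meeting its conjugates by elements outside N only in the identity. Given n ≥ 2 distinct irreducible characters of N of equal degree that vanish on N away from S, there exist a sign ε and n distinct irreducible characters θ_i of G such that inducing χ_i − χ_j to G gives ε (θ_i − θ_j) for all i, j. -/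
theorem result {G : Type*} [Group G] [Fintype G] (S : Set G) (hSN : S ⊆ Subgroup.normalizer S) (hTI : ∀ g : G, g ∉ Subgroup.normalizer S → ∀ s ∈ S, g * s * g⁻¹ ∈ S → s = 1) (n : ℕ) (hn : 2 ≤ n) (χ : Fin n → (Subgroup.normalizer S → ℂ)) (hirr : ∀ i, Cfsg.IsIrrCharacter (Subgroup.normalizer S) (χ i)) (hinj : Function.Injective χ) (hvan : ∀ i, ∀ x : Subgroup.normalizer S, (x : G) ∉ S → χ i x = 0) (hdeg : ∀ i j, χ i 1 = χ j 1) : ∃ ε : ℂ, (ε = 1 ∨ ε = -1) ∧ ∃ θ : Fin n → (G → ℂ), (∀ i, Cfsg.IsIrrCharacter G (θ i)) ∧ Function.Injective θ ∧ ∀ i j, Cfsg.indFun (Subgroup.normalizer S) (χ i) - Cfsg.indFun (Subgroup.normalizer S) (χ j) = ε • (θ i - θ j) := by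
  classical
  let _ : Fintype (Subgroup.normalizer S) := Fintype.ofFinite _
  let i₀ : Fin n := ⟨0, by omega⟩
  let N := Subgroup.normalizer S
  let τ : Fin n → (G → ℂ) := fun i => indFun N (χ i) - indFun N (χ i₀)
  have hcl : ∀ i, IsClassFunction N (χ i) := fun i => isClassFunction_of_isIrrCharacter (hirr i)
  have hτ : ∀ i, τ i = indFun N (χ i - χ i₀) := fun i => (indFun_sub N _ _).symm
  have hgram : ∀ i j, i ≠ i₀ → j ≠ i₀ → classInner (τ i) (τ j) = if i = j then 2 else 1 := by
    intro i j hi hj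
    rw [hτ i, hτ j]
    rw [classInner_indFun_indFun_normalizer S hTI hSN _ _
      (isClassFunction_sub (hcl i) (hcl i₀)) (isClassFunction_sub (hcl j) (hcl i₀))
      (fun x hx => by simp [hvan i x hx, hvan i₀ x hx])
      (fun x hx => by simp [hvan j x hx, hvan i₀ x hx])
      (by simp [hdeg i i₀])]
    rw [classInner_sub_left, classInner_sub_right, classInner_sub_right]
    rw [classInner_irr (hirr i) (hirr j), classInner_irr (hirr i) (hirr i₀),
      classInner_irr (hirr i₀) (hirr j), classInner_irr (hirr i₀) (hirr i₀)]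
    have h1 : χ i ≠ χ i₀ := fun h => hi (hinj h)
    have h2 : χ i₀ ≠ χ j := fun h => hj (hinj h).symm
    rw [if_neg h1, if_neg h2, if_pos rfl]
    by_cases hij : i = j
    · rw [if_pos hij, if_pos (congrArg χ hij)]
      norm_num
    · rw [if_neg hij, if_neg (fun h => hij (hinj h))]
      norm_num
  obtain ⟨ε, hε, μ, hμ, hμinj, hfinal⟩ := isometry_lemma n i₀ τ (sub_self _)
    (fun i => ⟨_, _, isCharacter_indFun N (isCharacter_of_isIrrCharacter (hirr i)),
      isCharacter_indFun N (isCharacter_of_isIrrCharacter (hirr i₀)), rfl⟩)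
    (fun i => by
      simp only [τ, Pi.sub_apply, indFun_one, hdeg i i₀, sub_self])
    hgram
  refine ⟨ε, hε, μ, hμ, hμinj, fun i j => ?_⟩
  have h1 := hfinal i
  have h2 := hfinal j
  have h3 : indFun N (χ i) - indFun N (χ j) = τ i - τ j := by
    simp [τ]
  rw [h3, h1, h2, ← smul_sub]
  congr 1
  abel

end Cfsg.Agent.S0170
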