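-- Statement S0172: class number of a Frobenius group.
import Cfsg.Statements.S0172
import Mathlib

set_option autoImplicit false
open Cfsg

namespace Cfsg.Agent.S0172

/-- Burnside count: the sum of centralizer orders. -/
theorem sum_centralizer (A : Type*) [Group A] [Fintype A] :
    ∑ x : A, Nat.card (Subgroup.centralizer ({x} : Set A)) = Nat.card (ConjClasses A) * Nat.card A := by
  classical
  rw [← card_comm_eq_card_conjClasses_mul_card]
  have e : {p : A × A // Commute p.1 p.2} ≃ Σ x : A, Subgroup.centralizer ({x} : Set A) :=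
    { toFun := fun p => ⟨p.1.1, ⟨p.1.2, by
        rw [Subgroup.mem_centralizer_singleton_iff]; exact p.2.symm.eq⟩⟩
      invFun := fun q => ⟨(q.1, q.2.1), by
        have := q.2.2
        rw [Subgroup.mem_centralizer_singleton_iff] at this
        exact Commute.symm this⟩
      left_inv := fun p => rfl
      right_inv := fun q => rfl }
  rw [Nat.card_congr e, Nat.card_sigma]

section
variable {G : Type*} [Group G] [Finite G] (K H : Subgroup G) [K.Normal]
set_option linter.unusedSectionVars false

/-- Lemma A: every element of the coset `K h` is `K`-conjugate to `h`. -/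
theorem exists_conj_of_mem_coset
    (hfpf : ∀ h ∈ H, h ≠ 1 → ∀ k ∈ K, h * k = k * h → k = 1)
    {h : G} (hh : h ∈ H) (h1 : h ≠ 1) {k : G} (hk : k ∈ K) :
    ∃ u ∈ K, k * h = u * h * u⁻¹ := by
  let φ : K → K := fun u => ⟨u * h * (u : G)⁻¹ * h⁻¹, by
    have h2 : h * (u : G)⁻¹ * h⁻¹ ∈ K := Subgroup.Normal.conj_mem inferInstance _ (K.inv_mem u.2) h
    have : (u : G) * h * (u : G)⁻¹ * h⁻¹ = u * (h * (u : G)⁻¹ * h⁻¹) := by group
    rw [this]
    exact K.mul_mem u.2 h2⟩
  have hinj : Function.Injective φ := by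
    intro u v huv
    have h3 : (u : G) * h * (u : G)⁻¹ * h⁻¹ = v * h * (v : G)⁻¹ * h⁻¹ := congrArg Subtype.val huv
    have h4 : (u : G) * h * (u : G)⁻¹ = v * h * (v : G)⁻¹ := by simpa using h3
    have h5 : h * ((v : G)⁻¹ * u) = ((v : G)⁻¹ * u) * h := by
      have : (v : G)⁻¹ * ((u : G) * h * (u : G)⁻¹) * u = (v : G)⁻¹ * (v * h * (v : G)⁻¹) * u := by
        rw [h4]
      have e1 : (v : G)⁻¹ * ((u : G) * h * (u : G)⁻¹) * u = ((v : G)⁻¹ * u) * h := by group
      have e2 : (v : G)⁻¹ * (v * h * (v : G)⁻¹) * u = h * ((v : G)⁻¹ * u) := by group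
      rw [e1, e2] at this
      exact this.symm
    have h6 := hfpf h hh h1 _ (K.mul_mem (K.inv_mem v.2) u.2) h5
    have : (u : G) = v := by
      have := congrArg (fun x => (v : G) * x) h6
      simpa using this
    exact Subtype.ext this
  have hsurj : Function.Surjective φ := Finite.surjective_of_injective hinj
  obtain ⟨u, hu⟩ := hsurj ⟨k, hk⟩
  have h7 : (u : G) * h * (u : G)⁻¹ * h⁻¹ = k := congrArg Subtype.val hu
  refine ⟨u, u.2, ?_⟩
  rw [← h7]
  group

theorem exists_mul_of_sup (hKH' : K ⊔ H = ⊤) (g : G) : ∃ k ∈ K, ∃ h ∈ H, g = k * h := by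
  have hg : g ∈ ((K ⊔ H : Subgroup G) : Set G) := by rw [hKH']; trivial
  rw [Subgroup.normal_mul] at hg
  obtain ⟨k, hk, h, hh, rfl⟩ := Set.mem_mul.mp hg
  exact ⟨k, hk, h, hh, rfl⟩

/-- Lemma B: the centralizer of a non-identity element of `K` lies in `K`. -/
theorem mem_K_of_commute (hKH' : K ⊔ H = ⊤)
    (hfpf : ∀ h ∈ H, h ≠ 1 → ∀ k ∈ K, h * k = k * h → k = 1)
    {x : G} (hx : x ∈ K) (hx1 : x ≠ 1) {g : G} (hg : g * x = x * g) : g ∈ K := by
  obtain ⟨k, hk, h, hh, rfl⟩ := exists_mul_of_sup K H hKH' g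
  by_cases h1 : h = 1
  · simpa [h1] using hk
  exfalso
  obtain ⟨u, hu, e⟩ := exists_conj_of_mem_coset K H hfpf hh h1 hk
  rw [e] at hg
  have hy : (u : G)⁻¹ * x * u ∈ K := by
    have := Subgroup.Normal.conj_mem (inferInstance : K.Normal) x hx (u⁻¹)
    simpa using this
  have := hfpf h hh h1 _ hy (by
    have h2 : u⁻¹ * (u * h * u⁻¹ * x) * u = u⁻¹ * (x * (u * h * u⁻¹)) * u := by rw [hg]
    have e1 : u⁻¹ * (u * h * u⁻¹ * x) * u = h * (u⁻¹ * x * u) := by group
    have e2 : u⁻¹ * (x * (u * h * u⁻¹)) * u = (u⁻¹ * x * u) * h := by group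
    rw [e1, e2] at h2
    exact h2)
  apply hx1
  have h3 := congrArg (fun y => u * y * u⁻¹) this
  simpa [mul_assoc] using h3

/-- Lemma C: the centralizer of a non-identity element of `H` lies in `H`. -/
theorem mem_H_of_commute (hKH : K ⊓ H = ⊥) (hKH' : K ⊔ H = ⊤)
    (hfpf : ∀ h ∈ H, h ≠ 1 → ∀ k ∈ K, h * k = k * h → k = 1)
    {h : G} (hh : h ∈ H) (h1 : h ≠ 1) {g : G} (hg : g * h = h * g) : g ∈ H := by
  obtain ⟨k, hk, h', hh', rfl⟩ := exists_mul_of_sup K H hKH' g
  -- the conjugate `h'' = h' h h'⁻¹`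
  set h'' := h' * h * h'⁻¹ with hh''
  have hh''H : h'' ∈ H := H.mul_mem (H.mul_mem hh' hh) (H.inv_mem hh')
  have e0 : k * h'' * k⁻¹ = h := by
    rw [hh'']
    have : k * (h' * h * h'⁻¹) * k⁻¹ = (k * h') * h * (k * h')⁻¹ := by group
    rw [this, hg]
    group
  have hKmem : k * (h'' * k⁻¹ * h''⁻¹) ∈ K :=
    K.mul_mem hk (Subgroup.Normal.conj_mem inferInstance _ (K.inv_mem hk) h'')
  have e1 : k * (h'' * k⁻¹ * h''⁻¹) = h * h''⁻¹ := by
    rw [← e0]; group
  have hHmem : k * (h'' * k⁻¹ * h''⁻¹) ∈ H := by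
    rw [e1]; exact H.mul_mem hh (H.inv_mem hh''H)
  have hmem : k * (h'' * k⁻¹ * h''⁻¹) ∈ K ⊓ H := ⟨hKmem, hHmem⟩
  rw [hKH, Subgroup.mem_bot] at hmem
  have e2 : h = h'' := by
    rw [e1] at hmem
    exact mul_inv_eq_one.mp hmem
  have e3 : h * k = k * h := by
    rw [e2] at e0 ⊢
    have := congrArg (fun y => y * k) e0
    simp only [inv_mul_cancel_right] at this
    exact this.symm
  have := hfpf h hh h1 k hk e3
  simpa [this] using hh'

theorem card_centralizer_of_K (hKH' : K ⊔ H = ⊤)
    (hfpf : ∀ h ∈ H, h ≠ 1 → ∀ k ∈ K, h * k = k * h → k = 1) (x : K) (hx1 : x ≠ 1) :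
    Nat.card (Subgroup.centralizer ({(x : G)} : Set G)) = Nat.card (Subgroup.centralizer ({x} : Set K)) := by
  have hx1' : (x : G) ≠ 1 := fun h => hx1 (Subtype.ext h)
  symm
  refine Nat.card_congr
    { toFun := fun y => ⟨((y : K) : G), by
        have := y.2
        rw [Subgroup.mem_centralizer_singleton_iff] at this ⊢
        exact congrArg Subtype.val this⟩
      invFun := fun y => ⟨⟨y.1, mem_K_of_commute K H hKH' hfpf x.2 hx1' (by
          have := y.2
          rw [Subgroup.mem_centralizer_singleton_iff] at this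
          exact this)⟩, by
        have := y.2
        rw [Subgroup.mem_centralizer_singleton_iff] at this ⊢
        exact Subtype.ext this⟩
      left_inv := fun y => rfl
      right_inv := fun y => rfl }

theorem card_centralizer_of_H (hKH : K ⊓ H = ⊥) (hKH' : K ⊔ H = ⊤)
    (hfpf : ∀ h ∈ H, h ≠ 1 → ∀ k ∈ K, h * k = k * h → k = 1) (x : H) (hx1 : x ≠ 1) :
    Nat.card (Subgroup.centralizer ({(x : G)} : Set G)) = Nat.card (Subgroup.centralizer ({x} : Set H)) := by
  have hx1' : (x : G) ≠ 1 := fun h => hx1 (Subtype.ext h)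
  symm
  refine Nat.card_congr
    { toFun := fun y => ⟨((y : H) : G), by
        have := y.2
        rw [Subgroup.mem_centralizer_singleton_iff] at this ⊢
        exact congrArg Subtype.val this⟩
      invFun := fun y => ⟨⟨y.1, mem_H_of_commute K H hKH hKH' hfpf x.2 hx1' (by
          have := y.2
          rw [Subgroup.mem_centralizer_singleton_iff] at this
          exact this)⟩, by
        have := y.2
        rw [Subgroup.mem_centralizer_singleton_iff] at this ⊢
        exact Subtype.ext this⟩
      left_inv := fun y => rfl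
      right_inv := fun y => rfl }

theorem card_centralizer_conj (u x : G) :
    Nat.card (Subgroup.centralizer ({u * x * u⁻¹} : Set G)) = Nat.card (Subgroup.centralizer ({x} : Set G)) := by
  refine Nat.card_congr
    { toFun := fun y => ⟨u⁻¹ * y * u, by
        have := y.2
        rw [Subgroup.mem_centralizer_singleton_iff] at this ⊢
        have h2 : u⁻¹ * ((y : G) * (u * x * u⁻¹)) * u = u⁻¹ * ((u * x * u⁻¹) * y) * u := by rw [this]
        have e1 : u⁻¹ * ((y : G) * (u * x * u⁻¹)) * u = u⁻¹ * y * u * x := by group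
        have e2 : u⁻¹ * ((u * x * u⁻¹) * (y : G)) * u = x * (u⁻¹ * y * u) := by group
        rw [e1, e2] at h2
        exact h2⟩
      invFun := fun y => ⟨u * y * u⁻¹, by
        have := y.2
        rw [Subgroup.mem_centralizer_singleton_iff] at this ⊢
        have h2 : u * ((y : G) * x) * u⁻¹ = u * (x * y) * u⁻¹ := by rw [this]
        have e1 : u * ((y : G) * x) * u⁻¹ = u * y * u⁻¹ * (u * x * u⁻¹) := by group
        have e2 : u * (x * (y : G)) * u⁻¹ = u * x * u⁻¹ * (u * y * u⁻¹) := by group
        rw [e1, e2] at h2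
        exact h2⟩
      left_inv := fun y => Subtype.ext (by simp [mul_assoc])
      right_inv := fun y => Subtype.ext (by simp [mul_assoc]) }

end

/-- Class number of a Frobenius group: if G = K H with K normal, K ⊓ H trivial and no non-identity element of H commuting with a non-identity element of K, then |H| * k(G) + 1 = |H| * k(H) + k(K), where k denotes the number of conjugacy classes. -/
theorem result {G : Type*} [Group G] [Finite G] (K H : Subgroup G) [K.Normal] (hKH : K ⊓ H = ⊥) (hKH' : K ⊔ H = ⊤) (hfpf : ∀ h ∈ H, h ≠ 1 → ∀ k ∈ K, h * k = k * h → k = 1) : Nat.card H * Nat.card (ConjClasses G) + 1 = Nat.card H * Nat.card (ConjClasses H) + Nat.card (ConjClasses K) := by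
  classical
  have _ : Fintype G := Fintype.ofFinite G
  have _ : Fintype K := Fintype.ofFinite K
  have _ : Fintype H := Fintype.ofFinite H
  set f : G → ℕ := fun x => Nat.card (Subgroup.centralizer ({x} : Set G)) with hf
  set fK : K → ℕ := fun x => Nat.card (Subgroup.centralizer ({x} : Set K)) with hfK
  set fH : H → ℕ := fun x => Nat.card (Subgroup.centralizer ({x} : Set H)) with hfH
  -- the three Burnside counts
  have bG := sum_centralizer G
  have bK := sum_centralizer K
  have bH := sum_centralizer H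
  -- order of `G`
  have hcard : Nat.card K * Nat.card H = Nat.card G := by
    refine Subgroup.IsComplement'.card_mul_card ?_
    refine Subgroup.isComplement'_of_disjoint_and_mul_eq_univ ?_ ?_
    · rw [disjoint_iff]; exact hKH
    · rw [← Subgroup.normal_mul, hKH']; rfl
  -- split of the sums at `1`
  have sK : fK 1 + ∑ x ∈ Finset.univ.erase (1 : K), fK x = ∑ x : K, fK x :=
    Finset.add_sum_erase _ _ (Finset.mem_univ _)
  have sH : fH 1 + ∑ x ∈ Finset.univ.erase (1 : H), fH x = ∑ x : H, fH x :=
    Finset.add_sum_erase _ _ (Finset.mem_univ _)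
  have f1K : fK 1 = Nat.card K := by
    simp only [hfK]
    have : Subgroup.centralizer ({(1 : K)} : Set K) = ⊤ := by
      ext y; simp [Subgroup.mem_centralizer_singleton_iff]
    rw [this]; simp
  have f1H : fH 1 = Nat.card H := by
    simp only [hfH]
    have : Subgroup.centralizer ({(1 : H)} : Set H) = ⊤ := by
      ext y; simp [Subgroup.mem_centralizer_singleton_iff]
    rw [this]; simp
  have f1G : f 1 = Nat.card G := by
    simp only [hf]
    have : Subgroup.centralizer ({(1 : G)} : Set G) = ⊤ := by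
      ext y; simp [Subgroup.mem_centralizer_singleton_iff]
    rw [this]; simp
  -- split of the sum over `G`
  have s1 : ∑ x : G, f x = ∑ x ∈ Finset.univ.filter (fun x : G => x ∈ K), f x
      + ∑ x ∈ Finset.univ.filter (fun x : G => x ∉ K), f x :=
    (Finset.sum_filter_add_sum_filter_not _ _ _).symm
  -- the part in `K`
  have s2 : ∑ x ∈ Finset.univ.filter (fun x : G => x ∈ K), f x = f 1 + ∑ x ∈ Finset.univ.erase (1 : K), fK x := by
    have h1mem : (1 : G) ∈ Finset.univ.filter (fun x : G => x ∈ K) := by simp [K.one_mem]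
    rw [← Finset.add_sum_erase _ _ h1mem]
    congr 1
    refine Finset.sum_bij (fun x hx => ((x : K) : G)) ?_ ?_ ?_ ?_ |>.symm
    · intro x hx
      simp only [Finset.mem_erase, Finset.mem_univ, and_true] at hx
      simp only [Finset.mem_erase, Finset.mem_filter, Finset.mem_univ, true_and]
      exact ⟨fun h => hx (Subtype.ext h), x.2⟩
    · intro a _ b _ h
      exact Subtype.ext h
    · intro b hb
      simp only [Finset.mem_erase, Finset.mem_filter, Finset.mem_univ, true_and] at hb
      refine ⟨⟨b, hb.2⟩, ?_, rfl⟩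
      simp only [Finset.mem_erase, Finset.mem_univ, and_true]
      exact fun h => hb.1 (congrArg Subtype.val h)
    · intro x hx
      simp only [Finset.mem_erase, Finset.mem_univ, and_true] at hx
      exact (card_centralizer_of_K K H hKH' hfpf x hx).symm
  -- the part outside `K`
  have s3 : ∑ x ∈ Finset.univ.filter (fun x : G => x ∉ K), f x
      = Nat.card K * ∑ x ∈ Finset.univ.erase (1 : H), fH x := by
    have h0 : ∑ p ∈ (Finset.univ : Finset K) ×ˢ (Finset.univ.erase (1 : H)), fH p.2
        = Nat.card K * ∑ x ∈ Finset.univ.erase (1 : H), fH x := by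
      rw [Finset.sum_product]
      simp [Nat.card_eq_fintype_card]
    rw [← h0]
    symm
    refine Finset.sum_bij (fun p _ => (p.1 : G) * (p.2 : G) * (p.1 : G)⁻¹) ?_ ?_ ?_ ?_
    · rintro ⟨u, h⟩ hp
      simp only [Finset.mem_product, Finset.mem_univ, Finset.mem_erase, true_and, and_true] at hp
      simp only [Finset.mem_filter, Finset.mem_univ, true_and]
      intro hmem
      apply hp
      have h1 : (h : G) ∈ K := by
        have h2 : (u : G)⁻¹ * ((u : G) * (h : G) * (u : G)⁻¹) * (u : G) = h := by group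
        rw [← h2]
        exact K.mul_mem (K.mul_mem (K.inv_mem u.2) hmem) u.2
      have : (h : G) ∈ K ⊓ H := ⟨h1, h.2⟩
      rw [hKH, Subgroup.mem_bot] at this
      exact Subtype.ext this
    · rintro ⟨u, h⟩ hp ⟨v, h'⟩ hq e
      simp only [Finset.mem_product, Finset.mem_univ, Finset.mem_erase, true_and, and_true] at hp hq
      have e' : (u : G) * (h : G) * (u : G)⁻¹ = (v : G) * (h' : G) * (v : G)⁻¹ := e
      -- modulo K
      have h1 : (h : G) * (h' : G)⁻¹ ∈ K := by
        have e2 : (h : G) * (h' : G)⁻¹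
            = (u : G)⁻¹ * ((v : G) * ((h' : G) * ((v : G)⁻¹ * (u : G)) * (h' : G)⁻¹)) := by
          have : (h : G) = (u : G)⁻¹ * ((v : G) * (h' : G) * (v : G)⁻¹) * (u : G) := by
            rw [← e']; group
          rw [this]; group
        rw [e2]
        refine K.mul_mem (K.inv_mem u.2) (K.mul_mem v.2 ?_)
        exact Subgroup.Normal.conj_mem inferInstance _ (K.mul_mem (K.inv_mem v.2) u.2) _
      have h2 : (h : G) * (h' : G)⁻¹ ∈ K ⊓ H := ⟨h1, H.mul_mem h.2 (H.inv_mem h'.2)⟩
      rw [hKH, Subgroup.mem_bot] at h2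
      have hh' : (h : G) = h' := mul_inv_eq_one.mp h2
      have hhh : h = h' := Subtype.ext hh'
      subst hhh
      have h3 : (h : G) * ((v : G)⁻¹ * u) = ((v : G)⁻¹ * u) * h := by
        have : (v : G)⁻¹ * ((u : G) * (h : G) * (u : G)⁻¹) * u = (v : G)⁻¹ * ((v : G) * (h : G) * (v : G)⁻¹) * u := by
          rw [e']
        have e1 : (v : G)⁻¹ * ((u : G) * (h : G) * (u : G)⁻¹) * u = ((v : G)⁻¹ * u) * h := by group
        have e2 : (v : G)⁻¹ * ((v : G) * (h : G) * (v : G)⁻¹) * u = h * ((v : G)⁻¹ * u) := by group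
        rw [e1, e2] at this
        exact this.symm
      have h4 := hfpf h h.2 (fun h0 => hp (Subtype.ext h0)) _ (K.mul_mem (K.inv_mem v.2) u.2) h3
      have h5 : (u : G) = v := by
        have := congrArg (fun x => (v : G) * x) h4
        simpa using this
      have : u = v := Subtype.ext h5
      rw [this]
    · intro x hx
      simp only [Finset.mem_filter, Finset.mem_univ, true_and] at hx
      obtain ⟨k, hk, h, hh, rfl⟩ := exists_mul_of_sup K H hKH' x
      have h1 : h ≠ 1 := by
        rintro rfl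
        apply hx
        simpa using hk
      obtain ⟨u, hu, e⟩ := exists_conj_of_mem_coset K H hfpf hh h1 hk
      refine ⟨(⟨u, hu⟩, ⟨h, hh⟩), ?_, e.symm⟩
      simp only [Finset.mem_product, Finset.mem_univ, Finset.mem_erase, true_and, and_true]
      exact fun h0 => h1 (congrArg Subtype.val h0)
    · rintro ⟨u, h⟩ hp
      simp only [Finset.mem_product, Finset.mem_univ, Finset.mem_erase, true_and, and_true] at hp
      simp only [hf]
      rw [card_centralizer_conj]
      exact (card_centralizer_of_H K H hKH hKH' hfpf h hp).symm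
  -- arithmetic
  have a_pos : 0 < Nat.card K := Nat.card_pos
  set a := Nat.card K with ha
  set b := Nat.card H with hb
  set kG := Nat.card (ConjClasses G)
  set kK := Nat.card (ConjClasses K)
  set kH := Nat.card (ConjClasses H)
  set SK := ∑ x ∈ Finset.univ.erase (1 : K), fK x
  set SH := ∑ x ∈ Finset.univ.erase (1 : H), fH x
  have eqG : kG * (a * b) = a * b + SK + a * SH := by
    rw [hcard]
    have h1 : ∑ x : G, f x = kG * Nat.card G := bG
    rw [← h1, s1, s2, s3, f1G]
  have eqK : a + SK = kK * a := by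
    have h1 : ∑ x : K, fK x = kK * a := bK
    rw [← h1, ← sK, f1K]
  have eqH : b + SH = kH * b := by
    have h1 : ∑ x : H, fH x = kH * b := bH
    rw [← h1, ← sH, f1H]
  apply Nat.eq_of_mul_eq_mul_left a_pos
  nlinarith [eqG, eqK, eqH]

end Cfsg.Agent.S0172
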