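-- Statement S0180: rational character tables.
import Cfsg.Statements.S0180
import Cfsg.Agent.Lib.Char.Galois
import Cfsg.Agent.Lib.Char.Complete

set_option autoImplicit false
open Cfsg

namespace Cfsg.Agent.S0180

open Cfsg.Agent.Lib.Char.Basic Cfsg.Agent.Lib.Char.Ortho Cfsg.Agent.Lib.Char.Complete
open Cfsg.Agent.Lib.Char.Galois

/-- Every irreducible complex character of a finite group takes only rational values if and only if g is conjugate to g ^ m for every element g and every m coprime to the group order. -/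
theorem result {G : Type*} [Group G] [Finite G] : (∀ χ : Cfsg.IrrCharacter G, ∀ g : G, ∃ q : ℚ, (χ : G → ℂ) g = (q : ℂ)) ↔ ∀ m : ℕ, m.Coprime (Nat.card G) → ∀ g : G, IsConj g (g ^ m) := by
  classical
  set n := Nat.card G with hn
  have hn0 : n ≠ 0 := Nat.card_pos.ne'
  have : NeZero n := ⟨hn0⟩
  have hgn : ∀ g : G, g ^ n = 1 := fun g => pow_card_eq_one'
  have hcyc := isCyclotomicExtension_Kn n
  constructor
  · intro hrat m hm g
    rw [isConj_iff_forall_irr]
    rintro ⟨χ, k, ρ, hρ, rfl⟩
    obtain ⟨q, hq⟩ := hrat ⟨ρ.character, k, ρ, hρ, rfl⟩ g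
    simp only at hq ⊢
    -- the Galois automorphism attached to `m`
    let u : (ZMod n)ˣ := ZMod.unitOfCoprime m hm
    let σ : Gal(Kn n/ℚ) := (IsCyclotomicExtension.Rat.galEquivZMod n (Kn n)).symm u
    let σ' : Kn n →ₐ[ℚ] ℂ := (Kn n).val.comp σ.toAlgHom
    have hk : ∀ z : Kn n, z ^ n = 1 → σ' z = (z : ℂ) ^ m := by
      intro z hz
      have h1 := IsCyclotomicExtension.Rat.galEquivZMod_apply_of_pow_eq n (Kn n) σ hz
      have h2 : (IsCyclotomicExtension.Rat.galEquivZMod n (Kn n) σ) = u :=
        (IsCyclotomicExtension.Rat.galEquivZMod n (Kn n)).apply_symm_apply u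
      rw [h2] at h1
      have h3 : σ' z = ((σ z : Kn n) : ℂ) := rfl
      rw [h3, h1]
      have h4 : z ^ (u : ZMod n).val = z ^ m := by
        have hu : (u : ZMod n).val ≡ m [MOD n] := by
          simp only [u, ZMod.coe_unitOfCoprime]
          rw [ZMod.val_natCast]
          exact Nat.mod_modEq m n
        exact pow_eq_pow_of_modEq hu hz
      rw [h4]
      push_cast
      rfl
    have h1 := algHom_character ρ hn0 hk (hgn g)
    have h2 : (⟨ρ.character g, character_mem_Kn ρ hn0 (hgn g)⟩ : Kn n) = algebraMap ℚ (Kn n) q := by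
      apply Subtype.ext
      change ρ.character g = _
      rw [hq]
      simp
    rw [h2, AlgHom.commutes] at h1
    rw [hq, ← h1]
    simp
  · intro hconj ⟨χ, hχ⟩ g
    obtain ⟨k, ρ, hρ, rfl⟩ := hχ
    simp only
    let x : Kn n := ⟨ρ.character g, character_mem_Kn ρ hn0 (hgn g)⟩
    have hfix : ∀ σ : Gal(Kn n/ℚ), σ x = x := by
      intro σ
      let σ' : Kn n →ₐ[ℚ] ℂ := (Kn n).val.comp σ.toAlgHom
      obtain ⟨m, hm, hmk⟩ := exists_pow_of_algHom n σ'
      have h1 := algHom_character ρ hn0 hmk (hgn g)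
      apply Subtype.ext
      change σ' x = ρ.character g
      have h2 := isClassFunction_iff_isConj.mp (isClassFunction_of_isCharacter (isCharacter_of_rep ρ))
        _ _ (hconj m hm g)
      rw [h2, ← h1]
    obtain ⟨q, hq⟩ := (IsGalois.mem_range_algebraMap_iff_fixed x).mpr hfix
    refine ⟨q, ?_⟩
    have := congrArg Subtype.val hq
    simpa using this.symm

end Cfsg.Agent.S0180
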