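-- Statement S0184: a p-group has a faithful irreducible representation iff its centre is cyclic.
import Cfsg.Statements.S0184
import Cfsg.Agent.Lib.Char.Central
import Cfsg.Agent.Lib.CharX.Fixed

set_option autoImplicit false
open Cfsg

namespace Cfsg.Agent.S0184

open Cfsg.Agent.Lib.Char.Basic Cfsg.Agent.Lib.Char.Ortho Cfsg.Agent.Lib.Char.Complete
open Cfsg.Agent.Lib.CharX.Fixed Module

/-- In a cyclic group, every solution of `z ^ p = 1` is a power of any element of order `p`. -/
theorem mem_zpowers_of_pow_eq_one {C : Type*} [Group C] [Finite C] [IsCyclic C] {p : ℕ} (hp : 0 < p)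
    {y z : C} (hy : orderOf y = p) (hz : z ^ p = 1) : z ∈ Subgroup.zpowers y := by
  classical
  let _ : Fintype C := Fintype.ofFinite C
  have hle : (Finset.univ.filter (fun a : C => a ^ p = 1)).card ≤ p :=
    IsCyclic.card_pow_eq_one_le hp
  let Y : Finset C := Finset.univ.filter (fun a : C => a ∈ Subgroup.zpowers y)
  have hYcard : Y.card = p := by
    have h1 : Y.card = Nat.card (Subgroup.zpowers y) := by
      rw [Nat.card_eq_fintype_card, Fintype.card_subtype]
    rw [h1, Nat.card_zpowers, hy]
  have hsub : Y ⊆ Finset.univ.filter (fun a : C => a ^ p = 1) := by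
    intro a ha
    simp only [Y, Finset.mem_filter, Finset.mem_univ, true_and] at ha ⊢
    obtain ⟨i, rfl⟩ := Subgroup.mem_zpowers_iff.mp ha
    rw [← zpow_natCast, ← zpow_mul, mul_comm, zpow_mul, zpow_natCast, ← hy, pow_orderOf_eq_one]
    simp
  have heq := Finset.eq_of_subset_of_card_le hsub (by rw [hYcard]; exact hle)
  have hmem : z ∈ Finset.univ.filter (fun a : C => a ^ p = 1) := by simp [hz]
  rw [← heq] at hmem
  simpa [Y] using hmem

/-- A nontrivial normal subgroup of a `p`-group contains a nontrivial central element. -/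
theorem exists_mem_center_of_normal {G : Type*} [Group G] [Finite G] {p : ℕ} [Fact p.Prime]
    (hG : IsPGroup p G) (K : Subgroup G) [K.Normal] (hK : K ≠ ⊥) :
    ∃ x ∈ K, x ≠ 1 ∧ x ∈ Subgroup.center G := by
  have hcG : IsPGroup p (ConjAct G) := hG.of_equiv ConjAct.toConjAct
  have hKp : p ∣ Nat.card K := by
    rcases (hG.to_subgroup K).card_eq_or_dvd with h | h
    · exfalso
      apply hK
      exact Subgroup.eq_bot_of_card_eq K h
    · exact h
  have hfix : (1 : K) ∈ MulAction.fixedPoints (ConjAct G) K := by
    intro g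
    simp
  obtain ⟨b, hb, hne⟩ := hcG.exists_fixed_point_of_prime_dvd_card_of_fixed_point K hKp hfix
  refine ⟨b, b.2, fun h => hne (Subtype.ext h.symm), ?_⟩
  rw [Subgroup.mem_center_iff]
  intro g
  have h1 : (ConjAct.toConjAct g) • b = b := hb _
  have h2 := congrArg Subtype.val h1
  have h3 : g * (b : G) * g⁻¹ = b := by
    conv_rhs => rw [← h2]
    rfl
  rw [mul_inv_eq_iff_eq_mul] at h3
  exact h3

/-- A finite p-group admits a faithful irreducible complex representation if and only if its centre is cyclic. -/
theorem result {G : Type*} [Group G] [Finite G] (p : ℕ) [Fact p.Prime] (hG : IsPGroup p G) : (∃ (n : ℕ) (ρ : Representation ℂ G (Fin n → ℂ)), ρ.IsIrreducible ∧ Function.Injective ρ) ↔ IsCyclic (Subgroup.center G) := by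
  classical
  let _ : Fintype G := Fintype.ofFinite G
  have := finite_irrCharacter (G := G)
  let _ : Fintype (IrrCharacter G) := Fintype.ofFinite _
  have hpp : p.Prime := Fact.out
  constructor
  · rintro ⟨n, ρ, hρ, hinj⟩
    have hnt := nontrivial_of_isIrreducible hρ
    have hex : ∀ z : Subgroup.center G, ∃ ω : ℂ, ρ z = ω • (1 : End ℂ (Fin n → ℂ)) := fun z =>
      Cfsg.Agent.Lib.Char.Central.center_acts_scalar ρ z z.2
    choose ω hω using hex
    have huniq : ∀ c d : ℂ, c • (1 : End ℂ (Fin n → ℂ)) = d • (1 : End ℂ (Fin n → ℂ)) → c = d := by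
      intro c d h
      obtain ⟨v, hv⟩ := exists_ne (0 : Fin n → ℂ)
      have h1 : c • v = d • v := by
        simpa using LinearMap.congr_fun h v
      exact smul_left_injective ℂ hv h1
    let f : Subgroup.center G →* ℂ :=
      { toFun := ω
        map_one' := by
          apply huniq
          rw [← hω]
          simp
        map_mul' := by
          intro x y
          apply huniq
          rw [← hω, mul_smul]
          change ρ ((x : G) * y) = _
          rw [map_mul, hω, hω]
          simp [smul_smul, mul_comm] }
    refine isCyclic_of_injective_ringHom f ?_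
    intro x y hxy
    apply Subtype.ext
    apply hinj
    rw [hω, hω]
    have : ω x = ω y := hxy
    rw [this]
  · intro hcyc
    by_cases hnt : Nontrivial G
    · have hZ := hG.center_nontrivial
      have hpZ : p ∣ Nat.card (Subgroup.center G) := by
        rcases (hG.to_subgroup (Subgroup.center G)).card_eq_or_dvd with h | h
        · exfalso
          have := Finite.one_lt_card (α := Subgroup.center G)
          omega
        · exact h
      obtain ⟨z, hz⟩ := exists_prime_orderOf_dvd_card' p hpZ
      have hz1 : (z : G) ≠ 1 := by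
        intro h
        have h2 : z = 1 := Subtype.ext h
        rw [h2, orderOf_one] at hz
        exact hpp.one_lt.ne hz
      -- a character not trivial on `z`
      have hex : ∃ χ : IrrCharacter G, (χ : G → ℂ) (z : G) ≠ (χ : G → ℂ) 1 := by
        by_contra hall
        push Not at hall
        have h1 := sum_irr_mul_conj (G := G) (z : G) 1
        have h2 := sum_irr_mul_conj (G := G) 1 1
        rw [if_neg (fun hc => hz1 (isConj_one_right.mp hc.symm))] at h1
        rw [if_pos (IsConj.refl _)] at h2
        have h3 : ∑ χ : IrrCharacter G, (χ : G → ℂ) (z : G) * (starRingEnd ℂ) ((χ : G → ℂ) 1)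
            = ∑ χ : IrrCharacter G, (χ : G → ℂ) 1 * (starRingEnd ℂ) ((χ : G → ℂ) 1) :=
          Finset.sum_congr rfl fun χ _ => by rw [hall χ]
        rw [h1, h2] at h3
        exact (Nat.cast_ne_zero.mpr Nat.card_pos.ne') h3.symm
      obtain ⟨⟨χ, n, ρ, hρ, rfl⟩, hχ⟩ := hex
      simp only at hχ
      have hρz : ρ (z : G) ≠ 1 := by
        intro h
        apply hχ
        simp [Representation.character, h]
      refine ⟨n, ρ, hρ, ?_⟩
      rw [← MonoidHom.ker_eq_bot_iff]
      by_contra hK
      obtain ⟨x, hxK, hx1, hxZ⟩ := exists_mem_center_of_normal hG (MonoidHom.ker ρ) hK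
      -- work in the centre
      let x' : Subgroup.center G := ⟨x, hxZ⟩
      have hx'1 : x' ≠ 1 := fun h => hx1 (congrArg Subtype.val h)
      have hdvd : p ∣ orderOf x' := (hG.to_subgroup (Subgroup.center G)).dvd_orderOf hx'1
      have hord : orderOf x' ≠ 0 := (orderOf_pos x').ne'
      have hy := orderOf_pow_orderOf_div hord hdvd
      have hmem := mem_zpowers_of_pow_eq_one hpp.pos hy (by rw [← hz]; exact pow_orderOf_eq_one z)
      have hzK : (z : G) ∈ MonoidHom.ker ρ := by
        obtain ⟨i, hi⟩ := Subgroup.mem_zpowers_iff.mp hmem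
        rw [← hi]
        simp only [Subgroup.coe_zpow, SubmonoidClass.coe_pow]
        exact Subgroup.zpow_mem _ (Subgroup.pow_mem _ hxK _) _
      exact hρz hzK
    · rw [not_nontrivial_iff_subsingleton] at hnt
      obtain ⟨n, ρ, hρ, -⟩ := isIrrCharacter_one (G := G)
      refine ⟨n, ρ, hρ, ?_⟩
      intro a b _
      exact Subsingleton.elim a b

end Cfsg.Agent.S0184
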