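-- Statement S0185: a faithful representation of degree below all primes dividing |G| forces G abelian.
import Cfsg.Statements.S0185
import Cfsg.Agent.Lib.Char.Central
import Cfsg.Agent.Lib.Char.Complete

set_option autoImplicit false
open Cfsg

namespace Cfsg.Agent.S0185

open Cfsg.Agent.Lib.Char.Decomp Module

universe u v

/-- A representation of degree below all primes dividing the order of the group has commuting
image. -/
theorem rep_commute_of_finrank_lt {G : Type u} [Group G] [Finite G] (V : Type v) [AddCommGroup V]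
    [Module ℂ V] [FiniteDimensional ℂ V] (ρ : Representation ℂ G V)
    (hdeg : ∀ p : ℕ, p.Prime → p ∣ Nat.card G → finrank ℂ V < p) (a b : G) :
    ρ a * ρ b = ρ b * ρ a := by
  refine rep_induction (G := G)
    (P := fun V _ _ ρ => (∀ p : ℕ, p.Prime → p ∣ Nat.card G → finrank ℂ V < p) →
      ∀ a b : G, ρ a * ρ b = ρ b * ρ a) ?_ ?_ ?_ V ρ hdeg a b
  · intro V _ _ _ ρ hV _ a b
    ext v
    exact Subsingleton.elim _ _
  · intro V _ _ _ ρ hρ hdeg a b
    have hd : finrank ℂ V ∣ Nat.card G := Cfsg.Agent.Lib.Char.Central.finrank_dvd_card ρ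
    have hpos : 0 < finrank ℂ V := Cfsg.Agent.Lib.Char.Central.finrank_pos_of_irreducible ρ
    have hone : finrank ℂ V = 1 := by
      by_contra hne
      have hp := Nat.minFac_prime hne
      have h1 := hdeg _ hp ((Nat.minFac_dvd _).trans hd)
      have h2 := Nat.minFac_le hpos
      omega
    obtain ⟨c, hc, -⟩ := LinearMap.existsUnique_eq_smul_id_of_finrank_eq_one hone (ρ a)
    ext v
    simp only [Module.End.mul_apply]
    rw [hc]
    simp
  · intro V _ _ _ ρ U U' hU h1 h2 hdeg a b
    have hU1 : ∀ p : ℕ, p.Prime → p ∣ Nat.card G → finrank ℂ U.toSubmodule < p := fun p hp hd =>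
      lt_of_le_of_lt (Submodule.finrank_le _) (hdeg p hp hd)
    have hU2 : ∀ p : ℕ, p.Prime → p ∣ Nat.card G → finrank ℂ U'.toSubmodule < p := fun p hp hd =>
      lt_of_le_of_lt (Submodule.finrank_le _) (hdeg p hp hd)
    ext v
    have hv : v ∈ U.toSubmodule ⊔ U'.toSubmodule := by
      have := (isCompl_toSubmodule hU).sup_eq_top
      rw [this]
      trivial
    obtain ⟨u, hu, u', hu', rfl⟩ := Submodule.mem_sup.mp hv
    have e1 := congrArg Subtype.val (LinearMap.congr_fun (h1 hU1 a b) ⟨u, hu⟩)
    have e2 := congrArg Subtype.val (LinearMap.congr_fun (h2 hU2 a b) ⟨u', hu'⟩)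
    have e1' : (ρ a * ρ b) u = (ρ b * ρ a) u := e1
    have e2' : (ρ a * ρ b) u' = (ρ b * ρ a) u' := e2
    rw [map_add, map_add, e1', e2']

/-- If a finite group has a faithful complex representation of degree less than the smallest prime dividing its order, the group is abelian. -/
theorem result {G : Type*} [Group G] [Finite G] {V : Type*} [AddCommGroup V] [Module ℂ V] [FiniteDimensional ℂ V] (ρ : Representation ℂ G V) (hfaithful : Function.Injective ρ) (hdeg : ∀ p : ℕ, p.Prime → p ∣ Nat.card G → Module.finrank ℂ V < p) (a b : G) : a * b = b * a := by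
  apply hfaithful
  rw [map_mul, map_mul]
  exact rep_commute_of_finrank_lt V ρ hdeg a b

end Cfsg.Agent.S0185
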