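-- Statement S0186: many conjugacy classes in a simple group force abelian Sylow subgroups.
import Cfsg.Statements.S0186
import Cfsg.Agent.S0185
import Cfsg.Agent.Lib.CharX.Fixed

set_option autoImplicit false
open Cfsg

namespace Cfsg.Agent.S0186

open Cfsg.Agent.Lib.Char.Basic Cfsg.Agent.Lib.Char.Ortho Cfsg.Agent.Lib.Char.Complete
open Cfsg.Agent.Lib.CharX.Fixed Module

/-- In a simple group, a non-principal irreducible representation is faithful. -/
theorem faithful_of_simple {G : Type*} [Group G] [Fintype G] [IsSimpleGroup G] {n : ℕ}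
    (ρ : Representation ℂ G (Fin n → ℂ)) (hρ : ρ.IsIrreducible) (hne : ρ.character ≠ fun _ => 1) :
    Function.Injective ρ := by
  have hker := (inferInstance : (MonoidHom.ker ρ).Normal)
  rcases IsSimpleGroup.eq_bot_or_eq_top_of_normal _ hker with h | h
  · exact (MonoidHom.ker_eq_bot_iff ρ).mp h
  · exfalso
    apply hne
    have hall : ∀ g, ρ g = 1 := fun g => by
      have : g ∈ MonoidHom.ker ρ := by rw [h]; trivial
      exact this
    have hchar : ∀ g, ρ.character g = n := fun g => by
      simp [Representation.character, hall g]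
    have h1 := classInner_self_of_isIrr (isIrrCharacter_of_irrep ρ hρ)
    rw [classInner_def] at h1
    simp only [hchar, map_natCast, Finset.sum_const, Finset.card_univ, nsmul_eq_mul] at h1
    rw [← Nat.card_eq_fintype_card, ← mul_assoc, inv_mul_cancel₀ card_ne_zero_complex, one_mul] at h1
    have h2 : n * n = 1 := by exact_mod_cast h1
    have h3 : n = 1 := by
      rcases Nat.eq_zero_or_pos n with h0 | h0
      · subst h0; omega
      · nlinarith
    funext g
    rw [hchar g, h3]
    simp

/-- Let G be a finite simple group of order n and p a prime dividing n. If G has more than n / p^2 conjugacy classes, then every Sylow p-subgroup of G is abelian. -/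
theorem result {G : Type*} [Group G] [Finite G] [IsSimpleGroup G] (p : ℕ) [Fact p.Prime] (hp : p ∣ Nat.card G) (hmany : Nat.card G < p ^ 2 * Nat.card (ConjClasses G)) (P : Sylow p G) (a b : G) (ha : a ∈ P) (hb : b ∈ P) : a * b = b * a := by
  classical
  by_contra hne
  let _ : Fintype G := Fintype.ofFinite G
  have := finite_irrCharacter (G := G)
  let _ : Fintype (IrrCharacter G) := Fintype.ofFinite _
  have hpp : p.Prime := Fact.out
  -- order of `P`
  obtain ⟨m, hm⟩ := IsPGroup.iff_card.mp P.isPGroup'
  have hm2 : 2 ≤ m := by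
    by_contra hlt
    push Not at hlt
    apply hne
    have hcomm : ∀ x y : (P : Subgroup G), x * y = y * x := by
      have hm1 : m = 0 ∨ m = 1 := by omega
      rcases hm1 with rfl | rfl
      · have : Nat.card (P : Subgroup G) = 1 := by simpa using hm
        have hs : Subsingleton (P : Subgroup G) := (Nat.card_eq_one_iff_unique.mp this).1
        intro x y
        exact Subsingleton.elim _ _
      · have h1 : Nat.card (P : Subgroup G) = p := by simpa using hm
        have := Fact.mk hpp
        have hc : IsCyclic (P : Subgroup G) := isCyclic_of_prime_card h1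
        intro x y
        obtain ⟨z, hz⟩ := hc.exists_generator
        obtain ⟨i, hi⟩ := Subgroup.mem_zpowers_iff.mp (hz x)
        obtain ⟨j, hj⟩ := Subgroup.mem_zpowers_iff.mp (hz y)
        rw [← hi, ← hj, ← zpow_add, ← zpow_add, add_comm]
    exact congrArg Subtype.val (hcomm ⟨a, ha⟩ ⟨b, hb⟩)
  have hdvd : p ^ 2 ∣ Nat.card G := by
    have h1 : p ^ 2 ∣ Nat.card (P : Subgroup G) := by
      rw [hm]
      exact pow_dvd_pow _ hm2
    exact h1.trans (Subgroup.card_subgroup_dvd_card _)
  -- degrees of non-principal characters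
  have hdeg : ∀ χ : IrrCharacter G, (χ : G → ℂ) ≠ (fun _ => 1) → ∀ d : ℕ, (χ : G → ℂ) 1 = d → p ≤ d := by
    rintro ⟨χ, hχ⟩ hχ1 d hd
    obtain ⟨n, ρ, hρ, rfl⟩ := hχ
    simp only at hχ1 hd
    have hinj := faithful_of_simple ρ hρ hχ1
    by_contra hlt
    push Not at hlt
    rw [Representation.char_one] at hd
    have hd' : finrank ℂ (Fin n → ℂ) = d := by exact_mod_cast hd
    let σ : Representation ℂ (P : Subgroup G) (Fin n → ℂ) := ρ.comp (P : Subgroup G).subtype
    have hcomm := Cfsg.Agent.S0185.rep_commute_of_finrank_lt (G := (P : Subgroup G)) (Fin n → ℂ) σ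
      (fun q hq hqd => by
        rw [hm] at hqd
        have : q = p := (Nat.prime_dvd_prime_iff_eq hq hpp).mp (hq.dvd_of_dvd_pow hqd)
        rw [this, hd']
        exact hlt) ⟨a, ha⟩ ⟨b, hb⟩
    apply hne
    apply hinj
    rw [map_mul, map_mul]
    exact hcomm
  have hex : ∀ χ : IrrCharacter G, ∃ n : ℕ, 0 < n ∧ (χ : G → ℂ) 1 = n := fun χ =>
    exists_pos_deg_of_isIrr χ.2
  choose d hdpos hd using hex
  have hsum : ∑ χ : IrrCharacter G, d χ ^ 2 = Nat.card G := by
    have := sum_deg_sq_eq_card (G := G)
    simp only [hd] at this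
    exact_mod_cast this
  let i₁ : IrrCharacter G := ⟨fun _ => 1, isIrrCharacter_one⟩
  have hd1 : d i₁ = 1 := by
    have := hd i₁
    have h2 : ((i₁ : G → ℂ) 1) = 1 := rfl
    rw [h2] at this
    exact_mod_cast this.symm
  have hsplit := Finset.add_sum_erase Finset.univ (fun χ : IrrCharacter G => d χ ^ 2) (Finset.mem_univ i₁)
  simp only [hd1] at hsplit
  rw [hsum] at hsplit
  have hlower : (Finset.univ.erase i₁).card • p ^ 2 ≤ ∑ χ ∈ Finset.univ.erase i₁, d χ ^ 2 := by
    apply Finset.card_nsmul_le_sum
    intro χ hχ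
    have hχ1 : χ ≠ i₁ := (Finset.mem_erase.mp hχ).1
    have : p ≤ d χ := hdeg χ (fun h => hχ1 (Subtype.ext h)) _ (hd χ)
    exact Nat.pow_le_pow_left this 2
  have hcardk : (Finset.univ.erase i₁).card + 1 = Nat.card (ConjClasses G) := by
    rw [Finset.card_erase_of_mem (Finset.mem_univ _), Finset.card_univ,
      ← card_irr_eq_card_conjClasses, Nat.card_eq_fintype_card]
    have : 0 < Fintype.card (IrrCharacter G) := Fintype.card_pos_iff.mpr ⟨i₁⟩
    omega
  obtain ⟨m', hm'⟩ := hdvd
  rw [← hcardk, hm'] at hmany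
  have hpos2 : 0 < p ^ 2 := by have := hpp.pos; positivity
  have h3 : m' < (Finset.univ.erase i₁).card + 1 := lt_of_mul_lt_mul_left hmany (Nat.zero_le _)
  have h4 : p ^ 2 * m' ≤ p ^ 2 * (Finset.univ.erase i₁).card := Nat.mul_le_mul_left _ (by omega)
  rw [smul_eq_mul, mul_comm] at hlower
  omega

end Cfsg.Agent.S0186
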