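-- Statement S0188: the irreducible characters of a direct product.
import Cfsg.Statements.S0188
import Cfsg.Agent.Lib.CharX.Fixed

set_option autoImplicit false
open Cfsg

namespace Cfsg.Agent.S0188

open Cfsg.Agent.Lib.Char.Basic Cfsg.Agent.Lib.Char.Ortho Cfsg.Agent.Lib.Char.Complete
open scoped ComplexConjugate

variable {G : Type*} [Group G] {H : Type*} [Group H]

theorem classInner_prod [Fintype G] [Fintype H] (φ φ' : G → ℂ) (ψ ψ' : H → ℂ) :
    classInner (fun x : G × H => φ x.1 * ψ x.2) (fun x : G × H => φ' x.1 * ψ' x.2)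
      = classInner φ φ' * classInner ψ ψ' := by
  simp only [classInner_def, Nat.card_prod, Fintype.sum_prod_type, map_mul]
  push_cast
  have h1 : ∑ g : G, ∑ h : H, φ g * ψ h * (conj (φ' g) * conj (ψ' h))
      = (∑ g : G, φ g * conj (φ' g)) * (∑ h : H, ψ h * conj (ψ' h)) := by
    rw [Finset.sum_mul_sum]
    refine Finset.sum_congr rfl fun g _ => Finset.sum_congr rfl fun h _ => ?_
    ring
  rw [h1, mul_inv]
  ring

theorem isCharacter_prod {φ : G → ℂ} {ψ : H → ℂ} (hφ : IsCharacter G φ) (hψ : IsCharacter H ψ) :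
    IsCharacter (G × H) (fun x => φ x.1 * ψ x.2) :=
  isCharacter_mul (isCharacter_comp (MonoidHom.fst G H) hφ) (isCharacter_comp (MonoidHom.snd G H) hψ)

theorem isIrr_prod [Fintype G] [Fintype H] {φ : G → ℂ} {ψ : H → ℂ} (hφ : IsIrrCharacter G φ)
    (hψ : IsIrrCharacter H ψ) : IsIrrCharacter (G × H) (fun x => φ x.1 * ψ x.2) := by
  refine isIrrCharacter_of_classInner_self_eq_one
    (isCharacter_prod (isCharacter_of_isIrrCharacter hφ) (isCharacter_of_isIrrCharacter hψ)) ?_
  rw [classInner_prod, classInner_self_of_isIrr hφ, classInner_self_of_isIrr hψ, mul_one]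

/-- The irreducible complex characters of G × H are precisely the functions (g, h) ↦ φ g * ψ h with φ, ψ irreducible characters of G and H. -/
theorem result {G : Type*} [Group G] [Finite G] {H : Type*} [Group H] [Finite H] (θ : G × H → ℂ) : Cfsg.IsIrrCharacter (G × H) θ ↔ ∃ (φ : G → ℂ) (ψ : H → ℂ), Cfsg.IsIrrCharacter G φ ∧ Cfsg.IsIrrCharacter H ψ ∧ θ = fun x => φ x.1 * ψ x.2 := by
  classical
  let _ : Fintype G := Fintype.ofFinite G
  let _ : Fintype H := Fintype.ofFinite H
  constructor
  · intro hθ
    by_contra hno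
    push Not at hno
    have horth : ∀ φ ψ, IsIrrCharacter G φ → IsIrrCharacter H ψ →
        classInner θ (fun x : G × H => φ x.1 * ψ x.2) = 0 := fun φ ψ hφ hψ =>
      classInner_eq_zero_of_isIrr_of_ne hθ (isIrr_prod hφ hψ) (hno φ ψ hφ hψ)
    have hcl := isClassFunction_of_isIrrCharacter hθ
    have hθ0 : θ = 0 := by
      funext ⟨g, h⟩
      have hclG : ∀ h : H, IsClassFunction G (fun g => θ (g, h)) := by
        intro h g k
        have := hcl (g, h) (k, 1)
        simpa using this
      have hclH : ∀ φ : G → ℂ, IsClassFunction H (fun h => classInner (fun g => θ (g, h)) φ) := by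
        intro φ h k
        simp only [classInner_def]
        congr 1
        refine Finset.sum_congr rfl fun g _ => ?_
        have := hcl (g, h) (1, k)
        simp only [Prod.mk_mul_mk, one_mul, mul_one, Prod.inv_mk, inv_one] at this
        rw [this]
      have h1 : ∀ φ, IsIrrCharacter G φ → (fun h => classInner (fun g => θ (g, h)) φ) = 0 := by
        intro φ hφ
        refine eq_zero_of_classInner_irr_eq_zero (hclH φ) ?_
        intro ψ hψ
        have h2 := horth φ ψ hφ hψ
        simp only [classInner_def, Nat.card_prod, Fintype.sum_prod_type, map_mul] at h2 ⊢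
        push_cast at h2
        rw [mul_inv] at h2
        have hG : (Nat.card G : ℂ)⁻¹ ≠ 0 := inv_ne_zero card_ne_zero_complex
        have hH : (Nat.card H : ℂ)⁻¹ ≠ 0 := inv_ne_zero card_ne_zero_complex
        rw [mul_assoc] at h2
        have h3 := (mul_eq_zero.mp h2).resolve_left hG
        have h4 := (mul_eq_zero.mp h3).resolve_left hH
        rw [mul_eq_zero]
        right
        simp only [Finset.mul_sum, ← mul_assoc, Finset.sum_mul] at h4 ⊢
        rw [Finset.sum_comm] at h4
        have h5 : (Nat.card G : ℂ)⁻¹ * ∑ x : H, ∑ g : G, θ (g, x) * conj (φ g) * conj (ψ x) = 0 := by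
          rw [h4, mul_zero]
        simp only [Finset.mul_sum] at h5
        rw [← h5]
        refine Finset.sum_congr rfl fun x _ => Finset.sum_congr rfl fun y _ => ?_
        ring
      have h2 : (fun g => θ (g, h)) = 0 := by
        refine eq_zero_of_classInner_irr_eq_zero (hclG h) ?_
        intro φ hφ
        exact congrFun (h1 φ hφ) h
      exact congrFun h2 g
    have := irr_one_ne_zero hθ
    rw [hθ0] at this
    exact this rfl
  · rintro ⟨φ, ψ, hφ, hψ, rfl⟩
    exact isIrr_prod hφ hψ

end Cfsg.Agent.S0188
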