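-- Statement S0192: Brauer's generation criterion.
import Cfsg.Statements.S0192
import Cfsg.Agent.Lib.CharX.Fixed

set_option autoImplicit false
open Cfsg

namespace Cfsg.Agent.S0192

open Cfsg.Agent.Lib.Char.Basic Cfsg.Agent.Lib.CharX.Fixed Module in
/-- Brauer's generation criterion. Let G be a finite simple group, H₁ and H₂ subgroups, and χ a non-principal irreducible character. If the multiplicity of the principal character in χ restricted to H₁ ⊓ H₂ is less than the sum of the corresponding multiplicities for H₁ and H₂, then H₁ and H₂ do not generate G. -/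
theorem result {G : Type*} [Group G] [Fintype G] [IsSimpleGroup G] (H₁ H₂ : Subgroup G) [Fintype H₁] [Fintype H₂] [Fintype ↥(H₁ ⊓ H₂)] (χ : G → ℂ) (hχ : Cfsg.IsIrrCharacter G χ) (hχ1 : χ ≠ fun _ => 1) (hlt : (Cfsg.classInner (fun x : ↥(H₁ ⊓ H₂) => χ x) (fun _ => 1)).re < (Cfsg.classInner (fun x : H₁ => χ x) (fun _ => 1)).re + (Cfsg.classInner (fun x : H₂ => χ x) (fun _ => 1)).re) : H₁ ⊔ H₂ ≠ ⊤ := by
  intro htop
  obtain ⟨n, ρ, hρ, rfl⟩ := hχ
  rw [classInner_restrict_one_eq_finrank, classInner_restrict_one_eq_finrank,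
    classInner_restrict_one_eq_finrank] at hlt
  simp only [Complex.natCast_re] at hlt
  set W₁ := Representation.invariants (ρ.comp H₁.subtype)
  set W₂ := Representation.invariants (ρ.comp H₂.subtype)
  set W₀ := Representation.invariants (ρ.comp (H₁ ⊓ H₂).subtype)
  have hlt' : finrank ℂ W₀ < finrank ℂ W₁ + finrank ℂ W₂ := by exact_mod_cast hlt
  have h1 : W₁ ≤ W₀ := fun v hv x => hv ⟨x.1, x.2.1⟩
  have h2 : W₂ ≤ W₀ := fun v hv x => hv ⟨x.1, x.2.2⟩
  have h3 : W₁ ⊓ W₂ ≤ Representation.invariants ρ := fun v hv =>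
    mem_invariants_of_sup_eq_top H₁ H₂ htop ρ hv.1 hv.2
  have h4 := finrank_invariants_eq_zero ρ hρ hχ1
  have h5 : finrank ℂ ↥(W₁ ⊓ W₂) = 0 := by
    have := Submodule.finrank_mono h3
    omega
  have h6 := Submodule.finrank_sup_add_finrank_inf_eq W₁ W₂
  have h7 : finrank ℂ ↥(W₁ ⊔ W₂) ≤ finrank ℂ W₀ := Submodule.finrank_mono (sup_le h1 h2)
  omega

end Cfsg.Agent.S0192
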