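import Cfsg.Statements.S0194
import Cfsg.Agent.S0161
import Cfsg.Agent.Lib.Char.CliffordCorr

set_option autoImplicit false
open scoped ComplexConjugate
open Cfsg

namespace Cfsg.Agent.S0194

/-- Let G have odd order, H be a normal subgroup and θ a non-principal irreducible character of H. Then the function induced from θ is orthogonal to its complex conjugate. -/
theorem result {G : Type*} [Group G] [Fintype G] (hodd : Odd (Nat.card G)) (H : Subgroup G) [H.Normal] (θ : H → ℂ) (hθ : Cfsg.IsIrrCharacter H θ) (hθ1 : θ ≠ fun _ => 1) : Cfsg.classInner (fun g => conj (Cfsg.indFun H θ g)) (Cfsg.indFun H θ) = 0 := by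
  classical
  letI : Fintype H := Fintype.ofFinite _
  have hN : H.Normal := ‹H.Normal›
  have hθc := Cfsg.Agent.Lib.Char.Basic.isCharacter_of_isIrrCharacter hθ
  -- the conjugate
  let θbar : H → ℂ := fun h => conj (θ h)
  have hθbar : Cfsg.IsIrrCharacter H θbar := Cfsg.Agent.Lib.CharX.Conj.isIrr_conj hθ
  have hind : (fun g => conj (Cfsg.indFun H θ g)) = Cfsg.indFun H θbar := by
    funext g
    simp only [Cfsg.Agent.Lib.Char.Induced.indFun_apply, map_mul, map_inv₀, map_natCast, map_sum]
    congr 2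
    funext x
    by_cases hx : x⁻¹ * g * x ∈ H
    · rw [Cfsg.Agent.Lib.Char.Induced.extendByZero_of_mem H _ hx,
        Cfsg.Agent.Lib.Char.Induced.extendByZero_of_mem H _ hx]
    · rw [Cfsg.Agent.Lib.Char.Induced.extendByZero_of_not_mem H _ hx,
        Cfsg.Agent.Lib.Char.Induced.extendByZero_of_not_mem H _ hx]
      simp
  rw [hind, Cfsg.Agent.Lib.Char.Conj.classInner_indFun_indFun_of_normal hN]
  apply mul_eq_zero_of_right
  apply Finset.sum_eq_zero
  intro x _
  rw [Cfsg.Agent.Lib.Char.Ortho.classInner_irr hθbar (Cfsg.Agent.Lib.Char.Conj.isIrrCharacter_conjOn hN _ hθ)]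
  rw [if_neg]
  intro heq
  -- `y = x⁻¹`
  set y := x⁻¹ with hy
  have h1 : Cfsg.Agent.Lib.Char.Conj.conjOn hN (y * y) θ = θ := by
    rw [Cfsg.Agent.Lib.Char.Conj.conjOn_mul, ← heq]
    funext h
    have := congrFun heq h
    simp only [Cfsg.Agent.Lib.Char.Conj.conjOn_apply, θbar] at this ⊢
    rw [← this]
    simp
  have h2 : Cfsg.Agent.Lib.Char.Conj.conjOn hN y θ = θ := by
    obtain ⟨k, hk⟩ := hodd
    have hyk : y = (y * y) ^ (k + 1) := by
      have h3 : y ^ (Nat.card G) = 1 := pow_card_eq_one'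
      rw [← pow_two, ← pow_mul]
      have h4 : 2 * (k + 1) = Nat.card G + 1 := by omega
      rw [h4, pow_succ, h3, one_mul]
    have hmem : y * y ∈ Cfsg.Agent.Lib.Char.CliffordCorr.inertia hN θ := h1
    have := (Cfsg.Agent.Lib.Char.CliffordCorr.inertia hN θ).pow_mem hmem (k + 1)
    rw [← hyk] at this
    exact this
  rw [h2] at heq
  have hreal : ∀ h : H, (θ h).im = 0 := by
    intro h
    have := congrFun heq h
    have h5 : conj (θ h) = θ h := this
    exact Complex.conj_eq_iff_im.mp h5
  have hoddH : Odd (Nat.card H) := by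
    exact hodd.of_dvd_nat (Subgroup.card_subgroup_dvd_card H)
  have := Cfsg.Agent.S0161.result hoddH ⟨θ, hθ⟩ hreal
  exact hθ1 this

end Cfsg.Agent.S0194
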