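-- Statement S0196: index of a self-centralizing subgroup in its normalizer.
import Cfsg.Statements.S0196
import Mathlib

set_option autoImplicit false
open Cfsg

namespace Cfsg.Agent.S0196

/-- If every orbit has cardinality divisible by `d`, so does the whole set. -/
theorem dvd_card_of_dvd_orbits {N X : Type*} [Group N] [MulAction N X] [Finite X] (d : ℕ)
    (h : ∀ x : X, d ∣ Nat.card (MulAction.orbit N x)) : d ∣ Nat.card X := by
  classical
  have _ : Fintype X := Fintype.ofFinite X
  rw [Nat.card_congr (MulAction.selfEquivSigmaOrbits N X), Nat.card_sigma]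
  exact Finset.dvd_sum (fun i _ => h _)

/-- Let A be a subgroup of a finite group G that equals the centralizer of each of its non-identity elements, and let N be its normalizer. Then the index of A in N divides |A| − 1 (N/A permutes the non-identity elements of A in orbits of full length). -/
theorem result {G : Type*} [Group G] [Finite G] (A : Subgroup G) (hA : ∀ x ∈ A, x ≠ 1 → Subgroup.centralizer ({x} : Set G) = A) : (A.subgroupOf (Subgroup.normalizer (A : Set G))).index ∣ Nat.card A - 1 := by
  classical
  set N := Subgroup.normalizer (A : Set G) with hN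
  -- the set of non-identity elements of `A`
  let X := {a : G // a ∈ A ∧ a ≠ 1}
  have hcardX : Nat.card X = Nat.card A - 1 := by
    have : Nat.card {a : A // a ≠ 1} = Nat.card A - 1 := by
      have _ : Fintype A := Fintype.ofFinite A
      rw [Nat.card_eq_fintype_card, Nat.card_eq_fintype_card, Fintype.card_subtype_compl]
      simp
    rw [← this]
    refine Nat.card_congr ⟨fun x => ⟨⟨x.1, x.2.1⟩, fun h => x.2.2 (congrArg Subtype.val h)⟩,
      fun x => ⟨x.1.1, x.1.2, fun h => x.2 (Subtype.ext h)⟩, fun _ => rfl, fun _ => rfl⟩
  have hconj : ∀ (n : N) (x : X), (n : G) * x.1 * (n : G)⁻¹ ∈ A ∧ (n : G) * x.1 * (n : G)⁻¹ ≠ 1 := by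
    intro n x
    refine ⟨(Subgroup.mem_normalizer_iff.mp n.2 x.1).mp x.2.1, ?_⟩
    intro h
    apply x.2.2
    have : (n : G) * x.1 * (n : G)⁻¹ = (n : G) * 1 * (n : G)⁻¹ := by simpa using h
    simpa using this
  let act : MulAction N X :=
    { smul := fun n x => ⟨(n : G) * x.1 * (n : G)⁻¹, hconj n x⟩
      one_smul := by
        intro x
        apply Subtype.ext
        change ((1 : N) : G) * x.1 * ((1 : N) : G)⁻¹ = x.1
        simp
      mul_smul := by
        intro a b x
        apply Subtype.ext
        change ((a * b : N) : G) * x.1 * ((a * b : N) : G)⁻¹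
          = (a : G) * ((b : G) * x.1 * (b : G)⁻¹) * (a : G)⁻¹
        push_cast
        group }
  rw [← hcardX]
  refine dvd_card_of_dvd_orbits (N := N) _ ?_
  intro x
  have hstab : MulAction.stabilizer N x = A.subgroupOf N := by
    ext n
    rw [MulAction.mem_stabilizer_iff, Subgroup.mem_subgroupOf, ← hA x.1 x.2.1 x.2.2,
      Subgroup.mem_centralizer_singleton_iff]
    constructor
    · intro h
      have h' : (n : G) * x.1 * (n : G)⁻¹ = x.1 := congrArg Subtype.val h
      exact (mul_inv_eq_iff_eq_mul.mp h')
    · intro h
      apply Subtype.ext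
      change (n : G) * x.1 * (n : G)⁻¹ = x.1
      rw [mul_inv_eq_iff_eq_mul]
      exact h
  rw [← hstab]
  have h := MulAction.index_stabilizer (G := N) x
  rw [h]
  rfl

end Cfsg.Agent.S0196
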