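import Cfsg.Statements.S0200
import Cfsg.Agent.S0199
import Cfsg.Agent.Lib.Involutions2.Basic

set_option autoImplicit false
open Cfsg

namespace Cfsg.Agent.S0200


/-- An involution lying in no normal 2-subgroup of a finite group inverts a nontrivial element of odd order (a consequence of the Baer–Suzuki Theorem). -/
theorem result {G : Type*} [Group G] [Finite G] (t : G) (ht : orderOf t = 2) (hO : ∀ N : Subgroup G, N.Normal → IsPGroup 2 N → t ∉ N) : ∃ h : G, h ≠ 1 ∧ Odd (orderOf h) ∧ t * h * t⁻¹ = h⁻¹ := by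
  open Cfsg.Agent.Lib.Involutions2.Basic Cfsg.Agent.Lib.Involutions.Dihedral in
  have ht2 := sq_of_orderOf ht
  have hinv := inv_of_orderOf ht
  by_cases hall : ∀ g : G, IsPGroup 2 ↥(Subgroup.zpowers t ⊔ (Subgroup.zpowers t).map (MulAut.conj g).toMonoidHom)
  · exfalso
    have : Fact (Nat.Prime 2) := ⟨Nat.prime_two⟩
    have hX : IsPGroup 2 ↥(Subgroup.zpowers t) := by
      apply IsPGroup.of_card (n := 1)
      rw [Nat.card_zpowers, ht, pow_one]
    obtain ⟨N, hN, hNp, hle⟩ := Cfsg.Agent.S0199.result (p := 2) _ hX hall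
    exact hO N hN hNp (hle (Subgroup.mem_zpowers t))
  push Not at hall
  obtain ⟨g, hg⟩ := hall
  set s := g * t * g⁻¹ with hs
  have hs2 : s ^ 2 = 1 := by
    have : s ^ 2 = g * (t * t) * g⁻¹ := by
      rw [hs, sq]; group
    rw [this, mul_self_of_sq ht2]
    group
  have hclosure : Subgroup.zpowers t ⊔ (Subgroup.zpowers t).map (MulAut.conj g).toMonoidHom ≤
      Subgroup.closure ({t, s} : Set G) := by
    refine sup_le ?_ ?_
    · rw [Subgroup.zpowers_le]
      exact Subgroup.subset_closure (by simp)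
    · rintro _ ⟨_, ⟨k, rfl⟩, rfl⟩
      have : (MulAut.conj g).toMonoidHom (t ^ k) = s ^ k := by
        simp [hs, MulAut.conj_apply, conj_zpow]
      rw [this]
      exact zpow_mem (Subgroup.subset_closure (by simp)) k
  set c := t * s with hc
  obtain ⟨k, m, hm, hn⟩ := Nat.exists_eq_two_pow_mul_odd (orderOf_pos c).ne'
  have hcm : m ≠ 1 := by
    rintro rfl
    apply hg
    refine IsPGroup.to_le ?_ hclosure
    apply isPGroup_closure_pair ht2 hs2 (k := k)
    rw [← mul_one (2 ^ k), ← hn]
    exact pow_orderOf_eq_one _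
  refine ⟨c ^ (2 ^ k), ?_, ?_, ?_⟩
  · intro h1
    have hdvd := orderOf_dvd_of_pow_eq_one h1
    rw [hn] at hdvd
    have hpos : 0 < 2 ^ k := by positivity
    have hm0 : 0 < m := hm.pos
    have := Nat.le_of_dvd hpos hdvd
    have h3 : 2 ^ k * m ≤ 2 ^ k * 1 := by simpa using this
    have h4 := Nat.le_of_mul_le_mul_left h3 hpos
    omega
  · have : orderOf (c ^ (2 ^ k)) = m := by
      rw [orderOf_pow, hn]
      have h1 : Nat.gcd (2 ^ k * m) (2 ^ k) = 2 ^ k := Nat.gcd_eq_right (Dvd.intro _ rfl)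
      rw [h1]
      exact Nat.mul_div_cancel_left _ (by positivity)
    rw [this]
    exact hm
  · rw [← conj_pow]
    have := conj_prod ht2 hs2
    rw [← hc] at this
    rw [this, inv_pow]

end Cfsg.Agent.S0200
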