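import Cfsg.Statements.S0203
import Cfsg.Agent.Lib.Involutions2.KleinSylow

set_option autoImplicit false
open Cfsg

namespace Cfsg.Agent.S0203


/-- If a Sylow 2-subgroup P of a finite group G is a Klein four-group, then G has three classes of involutions if and only if P has a normal complement in G. -/
theorem result {G : Type*} [Group G] [Finite G] (P : Sylow 2 G) (hP : IsKleinFour (P : Subgroup G)) : Nat.card {C : ConjClasses G // ∃ t : G, orderOf t = 2 ∧ ConjClasses.mk t = C} = 3 ↔ ∃ N : Subgroup G, N.Normal ∧ Subgroup.IsComplement' N (P : Subgroup G) := by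
  open Cfsg.Agent.Lib.Involutions2.KleinSylow in
  have hp : Fact (Nat.Prime 2) := ⟨Nat.prime_two⟩
  obtain ⟨a, b, c, h⟩ := exists_kleinData P hP
  constructor
  · intro h3
    rcases h.dichotomy with ⟨h1, h2⟩ | ⟨h1, h2, h4⟩
    · exact absurd (h3.symm.trans (h.card_eq_one h1 h2)) (by norm_num)
    · have hinj : ∀ u, (u = a ∨ u = b ∨ u = c) → ∀ v, (v = a ∨ v = b ∨ v = c) → IsConj u v → u = v := by
        intro u hu v hv huv
        rcases hu with hu | hu | hu <;> rcases hv with hv | hv | hv <;> rw [hu, hv] at huv ⊢ <;>
          first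
          | rfl
          | exact absurd huv h1
          | exact absurd huv h2
          | exact absurd huv h4
          | exact absurd huv.symm h1
          | exact absurd huv.symm h2
          | exact absurd huv.symm h4
      have hfix : ∀ x ∈ P, orderOf x = 2 → ∀ n ∈ Subgroup.normalizer ((P : Subgroup G) : Set G),
          n * x * n⁻¹ = x := by
        intro x hx hxo n hn
        have hconj : IsConj x (n * x * n⁻¹) := isConj_iff.2 ⟨n, rfl⟩
        have hm := KleinData.conj_mem hx hn
        have ho := KleinData.conj_order n hxo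
        exact (hinj _ (h.mem_abc hx hxo) _ (h.mem_abc hm ho) hconj).symm
      have hNC : Subgroup.normalizer ((P : Subgroup G) : Set G) ≤
          Subgroup.centralizer ((P : Subgroup G) : Set G) := by
        intro n hn
        rw [Subgroup.mem_centralizer_iff]
        intro x hx
        rcases h.hall x hx with rfl | h5 | h5 | h5
        · simp
        all_goals
          have ho : orderOf x = 2 := by
            rw [h5]
            first
            | exact h.oa
            | exact h.ob
            | exact h.oc
          have := hfix x hx ho n hn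
          calc x * n = (n * x * n⁻¹) * n := by rw [this]
            _ = n * x := by group
      exact ⟨_, MonoidHom.normal_ker _, MonoidHom.ker_transferSylow_isComplement' P hNC⟩
  · rintro ⟨N, hN, hc⟩
    have key : ∀ x ∈ P, ∀ y ∈ P, IsConj x y → x = y := by
      intro x hx y hy hxy
      obtain ⟨g, hg⟩ := isConj_iff.1 hxy
      obtain ⟨⟨n, p⟩, hnp⟩ := hc.2 g
      have hnp' : n.1 * p.1 = g := hnp
      have hpx : p.1 * x * p.1⁻¹ = x := by
        rw [h.comm p.1 p.2 x hx]
        group
      have hy' : y = n.1 * x * n.1⁻¹ := by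
        rw [← hg, ← hnp']
        calc n.1 * p.1 * x * (n.1 * p.1)⁻¹ = n.1 * (p.1 * x * p.1⁻¹) * n.1⁻¹ := by group
          _ = n.1 * x * n.1⁻¹ := by rw [hpx]
      have hmem : y * x⁻¹ ∈ N := by
        rw [hy']
        have h1 : n.1 * x * n.1⁻¹ * x⁻¹ = n.1 * (x * n.1⁻¹ * x⁻¹) := by group
        rw [h1]
        exact mul_mem n.2 (hN.conj_mem _ (inv_mem n.2) x)
      have hmemP : y * x⁻¹ ∈ (P : Subgroup G) := mul_mem hy (inv_mem hx)
      have := Subgroup.disjoint_def.1 hc.disjoint hmem hmemP
      exact (mul_inv_eq_one.1 this).symm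
    exact h.card_eq_three (fun h1 => h.hab (key _ h.ha _ h.hb h1))
      (fun h1 => h.hac (key _ h.ha _ h.hc h1)) (fun h1 => h.hbc (key _ h.hb _ h.hc h1))

end Cfsg.Agent.S0203
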