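import Cfsg.Statements.S0216
import Cfsg.Agent.Lib.Involutions2.Basic

set_option autoImplicit false
open Cfsg

namespace Cfsg.Agent.S0216


/-- For an involution u in a Sylow 2-subgroup P of a finite group G, the following are equivalent: no G-conjugate of u other than u lies in P; every commutator of u with an element of G has odd order. -/
theorem result {G : Type*} [Group G] [Finite G] (P : Sylow 2 G) (u : G) (hu : orderOf u = 2) (huP : u ∈ P) : (∀ g : G, g * u * g⁻¹ ∈ P → g * u * g⁻¹ = u) ↔ (∀ g : G, Odd (orderOf (u * g * u⁻¹ * g⁻¹))) := by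
  open Cfsg.Agent.Lib.Involutions2.Basic in
  have hu2 := sq_of_orderOf hu
  have hinv : u⁻¹ = u := inv_of_orderOf hu
  constructor
  · intro hiso g
    have h := odd_orderOf_mul_conj P hu hiso g
    have : u * g * u⁻¹ * g⁻¹ = u * (g * u * g⁻¹) := by
      rw [hinv]; group
    rw [this]
    exact h
  · intro hcomm g hg
    have hinv' : (g * u * g⁻¹)⁻¹ = g * u * g⁻¹ := by
      simp only [mul_inv_rev, inv_inv, mul_assoc, hinv]
    have h1 : u * g * u⁻¹ * g⁻¹ = u * (g * u * g⁻¹) := by
      rw [hinv]; group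
    have hodd := hcomm g
    rw [h1] at hodd
    have hmem : u * (g * u * g⁻¹) ∈ (P : Subgroup G) := mul_mem huP hg
    obtain ⟨n, hn⟩ := (IsPGroup.iff_orderOf.1 P.isPGroup') ⟨_, hmem⟩
    have hn' : orderOf (u * (g * u * g⁻¹)) = 2 ^ n := by
      rw [← hn]
      simp
    rw [hn'] at hodd
    have hn0 : n = 0 := by
      by_contra hne
      have : Even (2 ^ n) := (Nat.even_pow.2 ⟨even_two, hne⟩)
      exact (Nat.not_even_iff_odd.2 hodd) this
    rw [hn0, pow_zero, orderOf_eq_one_iff] at hn'
    have := mul_eq_one_iff_eq_inv.1 hn'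
    rw [hinv'] at this
    exact this.symm

end Cfsg.Agent.S0216
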