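import Cfsg.Statements.S0220
import Cfsg.Agent.S0219
import Cfsg.Agent.S0199
import Cfsg.Agent.Lib.Involutions2.Basic

set_option autoImplicit false
open Cfsg

namespace Cfsg.Agent.S0220

open Cfsg.Agent.Lib.Involutions2.Basic in
/-- A finite cyclic group has at most one involution. -/
lemma eq_of_isCyclic {C : Type*} [Group C] [Finite C] [IsCyclic C] {x y : C} (hx : orderOf x = 2)
    (hy : orderOf y = 2) : x = y := by
  classical
  have : Fintype C := Fintype.ofFinite _
  by_contra hne
  have h1 := IsCyclic.card_pow_eq_one_le (α := C) (n := 2) (by norm_num)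
  have hx1 := ne_one_of_orderOf hx
  have hy1 := ne_one_of_orderOf hy
  have hsub : ({1, x, y} : Finset C) ⊆ Finset.univ.filter (fun a : C => a ^ 2 = 1) := by
    intro a ha
    simp only [Finset.mem_insert, Finset.mem_singleton] at ha
    rw [Finset.mem_filter]
    refine ⟨Finset.mem_univ _, ?_⟩
    rcases ha with rfl | rfl | rfl
    · simp
    · exact sq_of_orderOf hx
    · exact sq_of_orderOf hy
  have hc := Finset.card_le_card hsub
  have h3 : ({1, x, y} : Finset C).card = 3 := by
    rw [Finset.card_eq_three]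
    exact ⟨1, x, y, hx1.symm, hy1.symm, hne, rfl⟩
  omega


lemma aux {G : Type*} [Group G] [Finite G] (x : G) (hx : orderOf x = 2) (C : Subgroup G)
    (hC : C = Subgroup.centralizer ({x} : Set G)) (S : Sylow 2 ↥C)
    (hS : IsCyclic (S : Subgroup ↥C)) : ∃ H : Subgroup G, H.index = 2 := by
  open Cfsg.Agent.Lib.Involutions2.Basic in
  have : Fact (Nat.Prime 2) := ⟨Nat.prime_two⟩
  have hxC : x ∈ C := by
    rw [hC, Subgroup.mem_centralizer_singleton_iff]
  have heven : Even (Nat.card G) := by
    have := orderOf_dvd_natCard x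
    rw [hx] at this
    exact even_iff_two_dvd.2 this
  -- x lies in S
  have hxS : (⟨x, hxC⟩ : C) ∈ (S : Subgroup C) := by
    have hz : IsPGroup 2 ↥(Subgroup.zpowers (⟨x, hxC⟩ : C)) := by
      apply IsPGroup.of_card (n := 1)
      rw [Nat.card_zpowers, pow_one, ← hx]
      simp
    have hn : (Subgroup.zpowers (⟨x, hxC⟩ : C)).Normal := by
      constructor
      rintro _ ⟨k, rfl⟩ g
      have hcomm : g * (⟨x, hxC⟩ : C) = (⟨x, hxC⟩ : C) * g := by
        apply Subtype.ext
        have hgC : g.1 ∈ Subgroup.centralizer ({x} : Set G) := by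
          rw [← hC]; exact g.2
        have := Subgroup.mem_centralizer_singleton_iff.1 hgC
        simp only [MulMemClass.coe_mul]
        exact this
      have h2 : g * (⟨x, hxC⟩ : C) * g⁻¹ = (⟨x, hxC⟩ : C) := by
        rw [hcomm]; group
      have : g * ((⟨x, hxC⟩ : C) ^ k) * g⁻¹ = (⟨x, hxC⟩ : C) ^ k := by
        rw [← conj_zpow, h2]
      change g * ((⟨x, hxC⟩ : C) ^ k) * g⁻¹ ∈ _
      rw [this]
      exact Subgroup.zpow_mem_zpowers _ _
    have hsup := (S.isPGroup').to_sup_of_normal_right hz
    have hle : (S : Subgroup C) ≤ (S : Subgroup C) ⊔ Subgroup.zpowers (⟨x, hxC⟩ : C) := le_sup_left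
    have heq := S.is_maximal' hsup hle
    rw [← heq]
    exact Subgroup.mem_sup_right (Subgroup.mem_zpowers _)
  -- a Sylow subgroup of G containing S
  let S' : Subgroup G := (S : Subgroup C).map C.subtype
  have hS'p : IsPGroup 2 S' := S.isPGroup'.map _
  obtain ⟨T, hT⟩ := hS'p.exists_le_sylow
  have hxS' : x ∈ S' := ⟨⟨x, hxC⟩, hxS, rfl⟩
  -- C_T(x) = S'
  have hTC : (T : Subgroup G) ⊓ C = S' := by
    have hp : IsPGroup 2 (((T : Subgroup G) ⊓ C).subgroupOf C) :=
      (T.isPGroup'.to_inf_left (K := C)).comap_of_injective C.subtype C.subtype_injective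
    have hle : (S : Subgroup C) ≤ ((T : Subgroup G) ⊓ C).subgroupOf C := by
      intro y hy
      rw [Subgroup.mem_subgroupOf]
      exact ⟨hT ⟨y, hy, rfl⟩, y.2⟩
    have h2 := S.is_maximal' hp hle
    have h3 := congrArg (Subgroup.map C.subtype) h2
    rw [Subgroup.subgroupOf_map_subtype, inf_assoc, inf_idem] at h3
    exact h3
  have hS'cyc : IsCyclic S' := by
    have : Function.Surjective ((C.subtype.subgroupMap (S : Subgroup C))) :=
      C.subtype.subgroupMap_surjective _
    exact isCyclic_of_surjective _ this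
  have hTeq : (T : Subgroup G) ≤ C := by
    by_contra hnot
    have hlt : S' < (T : Subgroup G) := by
      refine lt_of_le_of_ne hT ?_
      intro he
      apply hnot
      rw [← he]
      rintro _ ⟨y, -, rfl⟩
      exact y.2
    obtain ⟨g, hgT, hgS, hgN⟩ := Cfsg.Agent.S0199.normalizer_grows T.isPGroup' hlt
    apply hgS
    rw [← hTC]
    suffices hgC : g ∈ C from ⟨hgT, hgC⟩
    rw [hC, Subgroup.mem_centralizer_singleton_iff]
    have h1 : g * x * g⁻¹ ∈ S' := (Subgroup.mem_normalizer_iff.1 hgN x).1 hxS'
    have h2 : orderOf (g * x * g⁻¹) = 2 := by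
      have := MulEquiv.orderOf_eq (MulAut.conj g) x
      rw [hx] at this
      exact this
    have h3 : (⟨g * x * g⁻¹, h1⟩ : S') = ⟨x, hxS'⟩ := by
      apply eq_of_isCyclic
      · rw [← h2]; simp
      · rw [← hx]; simp
    have h4 : g * x * g⁻¹ = x := congrArg Subtype.val h3
    calc g * x = (g * x * g⁻¹) * g := by group
      _ = x * g := by rw [h4]
  have hTS : (T : Subgroup G) = S' := by
    rw [← hTC]
    exact (inf_eq_left.2 hTeq).symm
  exact Cfsg.Agent.S0219.result heven T (by rw [hTS]; exact hS'cyc)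

/-- If x is an involution of a finite group G and a Sylow 2-subgroup of the centralizer of x is cyclic, then G has a subgroup of index 2; in particular G is not simple unless it has order 2. -/
theorem result {G : Type*} [Group G] [Finite G] (x : G) (hx : orderOf x = 2) (S : Sylow 2 ↥(Subgroup.centralizer ({x} : Set G))) (hS : IsCyclic (S : Subgroup ↥(Subgroup.centralizer ({x} : Set G)))) : ∃ H : Subgroup G, H.index = 2 := by
  exact aux x hx _ rfl S hS

end Cfsg.Agent.S0220
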