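import Cfsg.Statements.S0221
import Cfsg.Agent.Lib.Involutions2.NormalFour
import Cfsg.Agent.Lib.Involutions2.Sign
import Mathlib

set_option autoImplicit false
open Cfsg
open scoped Pointwise

namespace Cfsg.Agent.S0221

open Cfsg.Agent.Lib.Involutions2

section helpers

variable {G : Type*} [Group G]

lemma exists_extend [Finite G] (A : Subgroup G) (u : G) (hu : u ^ 2 = 1)
    (hc : ∀ a ∈ A, a * u = u * a) :
    ∃ B : Subgroup G, A ≤ B ∧ u ∈ B ∧ (∀ K : Subgroup G, A ≤ K → u ∈ K → B ≤ K) ∧
      ((∀ a ∈ A, a ^ 2 = 1) → ∀ x ∈ B, x ^ 2 = 1) ∧ (u ∉ A → 2 * Nat.card A ≤ Nat.card B) := by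
  have huinv : u⁻¹ = u := by
    rw [inv_eq_iff_mul_eq_one, ← sq, hu]
  have huu : u * u = 1 := by rw [← sq, hu]
  have hcomm' : ∀ x, x * u ∈ A → x * u = u * x := by
    intro x hx
    have h1 := hc _ hx
    exact mul_right_cancel (h1.trans (mul_assoc u x u).symm)
  let B : Subgroup G :=
    { carrier := {x | x ∈ A ∨ x * u ∈ A}
      mul_mem' := by
        rintro x y (hx | hx) (hy | hy)
        · exact Or.inl (mul_mem hx hy)
        · right
          rw [mul_assoc]
          exact mul_mem hx hy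
        · right
          have : x * y * u = (x * u) * y := by
            rw [mul_assoc, hc y hy, mul_assoc]
          rw [this]
          exact mul_mem hx hy
        · left
          have h1 := hcomm' y hy
          have : x * y = (x * u) * (y * u) := by
            rw [h1, mul_assoc, ← mul_assoc u u y, huu, one_mul]
          rw [this]
          exact mul_mem hx hy
      one_mem' := Or.inl (one_mem _)
      inv_mem' := by
        rintro x (hx | hx)
        · exact Or.inl (inv_mem hx)
        · right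
          have h5 := hcomm' x hx
          have h2 : x⁻¹ * u = (x * u)⁻¹ := by
            rw [mul_inv_rev, huinv]
            exact ((show Commute x u from h5).inv_left).eq
          rw [h2]
          exact inv_mem hx }
  have hAB : A ≤ B := fun x hx => Or.inl hx
  have huB : u ∈ B := Or.inr (by rw [huu]; exact one_mem _)
  refine ⟨B, hAB, huB, ?_, ?_, ?_⟩
  · rintro K hK huK x (hx | hx)
    · exact hK hx
    · have : x = (x * u) * u⁻¹ := by group
      rw [this]
      exact mul_mem (hK hx) (inv_mem huK)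
  · rintro hexp x (hx | hx)
    · exact hexp x hx
    · have h1 := hexp _ hx
      have h6 : Commute x u := hcomm' x hx
      rw [h6.mul_pow, hu, mul_one] at h1
      exact h1
  · intro huA
    have hdvd : Nat.card A ∣ Nat.card B := Subgroup.card_dvd_of_le hAB
    obtain ⟨k, hk⟩ := hdvd
    have hpos : 0 < Nat.card A := Nat.card_pos
    have hposB : 0 < Nat.card B := Nat.card_pos
    have hk0 : k ≠ 0 := by
      rintro rfl
      simp at hk
      omega
    have hk1 : k ≠ 1 := by
      rintro rfl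
      apply huA
      rw [mul_one] at hk
      have : A = B := Subgroup.eq_of_le_of_card_ge hAB hk.le
      rw [this]
      exact huB
    have hk2 : 2 ≤ k := by omega
    rw [hk, mul_comm]
    exact Nat.mul_le_mul_left _ hk2

lemma exists_card_eight [Finite G] (A : Subgroup G) (h8 : 8 ≤ Nat.card A)
    (hA : ∀ x ∈ A, x ^ 2 = 1) : ∃ E : Subgroup G, E ≤ A ∧ Nat.card E = 8 ∧ ∀ e ∈ E, e ^ 2 = 1 := by
  have hp : Fact (Nat.Prime 2) := ⟨Nat.prime_two⟩
  have hAp : IsPGroup 2 A := by
    rw [IsPGroup]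
    intro x
    refine ⟨1, Subtype.ext ?_⟩
    simpa using hA x.1 x.2
  obtain ⟨n, hn⟩ := IsPGroup.iff_card.1 hAp
  have hn3 : 3 ≤ n := by
    by_contra h
    have h4 : n ≤ 2 := by omega
    have h5 : 2 ^ n ≤ 2 ^ 2 := Nat.pow_le_pow_right (by norm_num) h4
    omega
  have hd : 2 ^ 3 ∣ Nat.card A := by
    rw [hn]
    exact pow_dvd_pow 2 hn3
  obtain ⟨K, hK⟩ := Sylow.exists_subgroup_card_pow_prime 2 hd
  refine ⟨K.map A.subtype, ?_, ?_, ?_⟩
  · rintro _ ⟨y, -, rfl⟩
    exact y.2
  · rw [Subgroup.card_map_of_injective A.subtype_injective, hK]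
    norm_num
  · rintro _ ⟨y, -, rfl⟩
    exact hA y.1 y.2

lemma comm_of_exp {A : Subgroup G} (hA : ∀ x ∈ A, x ^ 2 = 1) {x y : G} (hx : x ∈ A) (hy : y ∈ A) :
    x * y = y * x := by
  have h1 := hA _ (mul_mem hx hy)
  have h2 := hA _ hx
  have h3 := hA _ hy
  have hxi : x⁻¹ = x := by rw [inv_eq_iff_mul_eq_one, ← sq, h2]
  have hyi : y⁻¹ = y := by rw [inv_eq_iff_mul_eq_one, ← sq, h3]
  have h4 : (x * y)⁻¹ = x * y := by rw [inv_eq_iff_mul_eq_one, ← sq, h1]
  rw [mul_inv_rev, hxi, hyi] at h4
  exact h4.symm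

lemma lemmaB [Finite G] (T E : Subgroup G) (hET : E ≤ T) (hE8 : Nat.card E = 8)
    (hE2 : ∀ e ∈ E, e ^ 2 = 1) {W V : G} (hW1 : W ≠ 1) (hV1 : V ≠ 1) (hVW : V ≠ W)
    (hW2 : W ^ 2 = 1) (hV2 : V ^ 2 = 1) (hWT : ∀ g ∈ T, g * W = W * g)
    (hVT : ∀ g ∈ T, g * V * g⁻¹ = V ∨ g * V * g⁻¹ = V * W) (hVm : V ∈ T)
    {z : G} (hzT : z ∈ T) (hzV : z * V = V * z) (hz2 : z ^ 2 = 1) :
    ∃ E' : Subgroup G, E' ≤ Subgroup.centralizer ({z} : Set G) ∧ Nat.card E' = 8 ∧
      ∀ e ∈ E', e ^ 2 = 1 := by
  have mem_cent : ∀ {a b : G}, a * b = b * a → a ∈ Subgroup.centralizer ({b} : Set G) :=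
    fun h => Subgroup.mem_centralizer_singleton_iff.2 h
  obtain ⟨B1, -, hWB1, hB1u, hB1e, hB1c⟩ := exists_extend (⊥ : Subgroup G) W hW2 (by
    intro a ha
    rw [Subgroup.mem_bot] at ha
    rw [ha]; group)
  have hB1card : 2 ≤ Nat.card B1 := by
    have := hB1c (by rwa [Subgroup.mem_bot])
    simpa using this
  have hB1exp := hB1e (by
    intro a ha
    rw [Subgroup.mem_bot] at ha
    rw [ha]; group)
  have hB1C : B1 ≤ Subgroup.centralizer ({V} : Set G) :=
    hB1u _ bot_le (mem_cent (hWT V hVm).symm)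
  obtain ⟨B2, hB12, hVB2, hB2u, hB2e, hB2c⟩ := exists_extend B1 V hV2
    (fun a ha => Subgroup.mem_centralizer_singleton_iff.1 (hB1C ha))
  have hVB1 : V ∉ B1 := by
    intro h
    have h1 : B1 ≤ Subgroup.zpowers W := hB1u _ bot_le (Subgroup.mem_zpowers W)
    rcases NormalFour.mem_zpowers_of_sq hW2 (h1 h) with h2 | h2
    · exact hV1 h2
    · exact hVW h2
  have hB2card : 4 ≤ Nat.card B2 := by
    have := hB2c hVB1
    omega
  have hB2exp := hB2e hB1exp
  have hWB2 : W ∈ B2 := hB12 hWB1
  -- universal property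
  have hB2le : ∀ K : Subgroup G, W ∈ K → V ∈ K → B2 ≤ K := fun K h1 h2 =>
    hB2u K (hB1u K bot_le h1) h2
  by_cases hzB2 : z ∈ B2
  · -- z in the four-group
    let E0 : Subgroup G := Subgroup.centralizer ({V} : Set G) ⊓ E
    have hE0card : 4 ≤ Nat.card E0 := by
      have h := IndexTwo.card_le_two_mul_inf E (Subgroup.centralizer ({V} : Set G)) (by
        intro x hx y hy hxC hyC
        rw [Subgroup.mem_centralizer_singleton_iff] at hxC hyC ⊢
        have hx' : x * V * x⁻¹ = V * W := by
          rcases hVT x (hET hx) with h1 | h1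
          · exfalso
            apply hxC
            calc x * V = (x * V * x⁻¹) * x := by group
              _ = V * x := by rw [h1]
          · exact h1
        have hy' : y * V * y⁻¹ = V * W := by
          rcases hVT y (hET hy) with h1 | h1
          · exfalso
            apply hyC
            calc y * V = (y * V * y⁻¹) * y := by group
              _ = V * y := by rw [h1]
          · exact h1
        have h3 : x * V * x⁻¹ = y * V * y⁻¹ := hx'.trans hy'.symm
        calc y⁻¹ * x * V = y⁻¹ * (x * V * x⁻¹) * x := by group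
          _ = y⁻¹ * (y * V * y⁻¹) * x := by rw [h3]
          _ = V * (y⁻¹ * x) := by group)
      rw [hE8] at h
      change 4 ≤ Nat.card ↥(Subgroup.centralizer ({V} : Set G) ⊓ E)
      omega
    have hE0exp : ∀ a ∈ E0, a ^ 2 = 1 := fun a ha => hE2 a ha.2
    -- E0 centralizes B2
    have hE0B2 : ∀ a ∈ E0, ∀ x ∈ B2, a * x = x * a := by
      intro a ha x hx
      have h1 : B2 ≤ Subgroup.centralizer ({a} : Set G) := by
        apply hB2le
        · exact mem_cent (hWT a (hET ha.2)).symm
        · exact mem_cent (Subgroup.mem_centralizer_singleton_iff.1 ha.1).symm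
      exact (Subgroup.mem_centralizer_singleton_iff.1 (h1 hx)).symm
    by_cases hsub : B2 ≤ E0
    · refine ⟨E, ?_, hE8, hE2⟩
      intro e he
      rw [Subgroup.mem_centralizer_singleton_iff]
      exact comm_of_exp hE2 he (hsub hzB2).2
    · obtain ⟨u, huB2, huE0⟩ := SetLike.not_le_iff_exists.1 hsub
      obtain ⟨B3, hB3a, huB3, hB3u, hB3e, hB3c⟩ := exists_extend E0 u (hB2exp u huB2)
        (fun a ha => hE0B2 a ha u huB2)
      have hB3le : B3 ≤ Subgroup.centralizer ({z} : Set G) := by
        apply hB3u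
        · intro a ha
          rw [Subgroup.mem_centralizer_singleton_iff]
          exact hE0B2 a ha z hzB2
        · rw [Subgroup.mem_centralizer_singleton_iff]
          exact comm_of_exp hB2exp huB2 hzB2
      have h8 : 8 ≤ Nat.card B3 := by
        have := hB3c huE0
        omega
      obtain ⟨E', hE'le, hE'c, hE'e⟩ := exists_card_eight B3 h8 (hB3e hE0exp)
      exact ⟨E', hE'le.trans hB3le, hE'c, hE'e⟩
  · -- z outside: extend B2 by z
    have hB2C : B2 ≤ Subgroup.centralizer ({z} : Set G) := by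
      apply hB2le
      · exact mem_cent (hWT z hzT).symm
      · exact mem_cent hzV.symm
    obtain ⟨B3, hB3a, hzB3, hB3u, hB3e, hB3c⟩ := exists_extend B2 z hz2
      (fun a ha => Subgroup.mem_centralizer_singleton_iff.1 (hB2C ha))
    have hB3le : B3 ≤ Subgroup.centralizer ({z} : Set G) :=
      hB3u _ hB2C (mem_cent rfl)
    have h8 : 8 ≤ Nat.card B3 := by
      have := hB3c hzB2
      omega
    obtain ⟨E', hE'le, hE'c, hE'e⟩ := exists_card_eight B3 h8 (hB3e hB2exp)
    exact ⟨E', hE'le.trans hB3le, hE'c, hE'e⟩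

lemma conj_back [Finite G] {x a : G}
    (h : ∃ E : Subgroup G, E ≤ Subgroup.centralizer ({a⁻¹ * x * a} : Set G) ∧ Nat.card E = 8 ∧
      ∀ e ∈ E, e ^ 2 = 1) :
    ∃ E : Subgroup G, E ≤ Subgroup.centralizer ({x} : Set G) ∧ Nat.card E = 8 ∧
      ∀ e ∈ E, e ^ 2 = 1 := by
  obtain ⟨E, hE, h8, hexp⟩ := h
  refine ⟨E.map (MulAut.conj a).toMonoidHom, ?_, ?_, ?_⟩
  · rintro _ ⟨e, he, rfl⟩
    rw [Subgroup.mem_centralizer_singleton_iff]
    have h1 := Subgroup.mem_centralizer_singleton_iff.1 (hE he)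
    change a * e * a⁻¹ * x = x * (a * e * a⁻¹)
    have h2 : e * (a⁻¹ * x * a) = (a⁻¹ * x * a) * e := h1
    calc a * e * a⁻¹ * x = a * (e * (a⁻¹ * x * a)) * a⁻¹ := by group
      _ = a * ((a⁻¹ * x * a) * e) * a⁻¹ := by rw [h2]
      _ = x * (a * e * a⁻¹) := by group
  · rw [Subgroup.card_map_of_injective (MulAut.conj a).injective, h8]
  · rintro _ ⟨e, he, rfl⟩
    change (a * e * a⁻¹) ^ 2 = 1
    rw [conj_pow, hexp e he]
    group

end helpers


/-- Let G be a finite group with no subgroup of index 2 whose 2-rank is at least 3 (it contains an elementary abelian subgroup of order 8). Then the centralizer of every involution of G also contains an elementary abelian subgroup of order 8. -/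
theorem result {G : Type*} [Group G] [Finite G] (hno : ∀ H : Subgroup G, H.index ≠ 2) (hrank : ∃ E : Subgroup G, Nat.card E = 8 ∧ ∀ e ∈ E, e ^ 2 = 1) (x : G) (hx : orderOf x = 2) : ∃ E : Subgroup G, E ≤ Subgroup.centralizer ({x} : Set G) ∧ Nat.card E = 8 ∧ ∀ e ∈ E, e ^ 2 = 1 := by
  classical
  have hp : Fact (Nat.Prime 2) := ⟨Nat.prime_two⟩
  obtain ⟨E, hE8, hE2⟩ := hrank
  have hEp : IsPGroup 2 E := by
    rw [IsPGroup]
    intro y
    refine ⟨1, Subtype.ext ?_⟩
    simpa using hE2 y.1 y.2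
  obtain ⟨T, hET⟩ := hEp.exists_le_sylow
  have hcardT : 8 ≤ Nat.card (E.subgroupOf (T : Subgroup G)) := by
    have h1 : (E.subgroupOf (T : Subgroup G)).map (T : Subgroup G).subtype = E := by
      rw [Subgroup.subgroupOf_map_subtype]
      exact inf_eq_left.2 hET
    have h2 : Nat.card ((E.subgroupOf (T : Subgroup G)).map (T : Subgroup G).subtype) =
        Nat.card (E.subgroupOf (T : Subgroup G)) :=
      Subgroup.card_map_of_injective (T : Subgroup G).subtype_injective
    rw [h1, hE8] at h2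
    exact h2.le
  obtain ⟨w, v, hw1, hv1, hvw, hw2, hv2, hwc, hvg⟩ := NormalFour.exists_central_pair T.isPGroup'
    (E.subgroupOf (T : Subgroup G)) hcardT (by
      intro e he
      apply Subtype.ext
      simpa using hE2 e.1 (Subgroup.mem_subgroupOf.1 he))
  -- in `G`
  have hW1 : w.1 ≠ 1 := fun h => hw1 (Subtype.ext h)
  have hV1 : v.1 ≠ 1 := fun h => hv1 (Subtype.ext h)
  have hVW : v.1 ≠ w.1 := fun h => hvw (Subtype.ext h)
  have hW2 : w.1 ^ 2 = 1 := by
    have := congrArg Subtype.val hw2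
    simpa using this
  have hV2 : v.1 ^ 2 = 1 := by
    have := congrArg Subtype.val hv2
    simpa using this
  have hWT : ∀ g ∈ (T : Subgroup G), g * w.1 = w.1 * g := by
    intro g hg
    exact congrArg Subtype.val (hwc ⟨g, hg⟩)
  have hVT : ∀ g ∈ (T : Subgroup G), g * v.1 * g⁻¹ = v.1 ∨ g * v.1 * g⁻¹ = v.1 * w.1 := by
    intro g hg
    rcases hvg ⟨g, hg⟩ with h1 | h1
    · left
      exact congrArg Subtype.val h1
    · right
      exact congrArg Subtype.val h1
  have hb := fun z hzT hzV hz2 => lemmaB (T : Subgroup G) E hET hE8 hE2 hW1 hV1 hVW hW2 hV2 hWT hVT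
    v.2 (z := z) hzT hzV hz2
  -- conjugate x into T
  have hzx : IsPGroup 2 ↥(Subgroup.zpowers x) := by
    apply IsPGroup.of_card (n := 1)
    rw [Nat.card_zpowers, hx, pow_one]
  obtain ⟨S, hS⟩ := hzx.exists_le_sylow
  obtain ⟨a, rfl⟩ := MulAction.exists_smul_eq G T S
  have hxa : x ∈ (MulAut.conj a • (T : Subgroup G)) := by
    rw [← Sylow.coe_subgroup_smul]
    exact hS (Subgroup.mem_zpowers x)
  rw [Subgroup.mem_pointwise_smul_iff_inv_smul_mem] at hxa
  have hx1T : a⁻¹ * x * a ∈ (T : Subgroup G) := by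
    simpa [MulAut.conj_symm_apply] using hxa
  set x1 := a⁻¹ * x * a with hx1
  have hx12 : x1 ^ 2 = 1 := by
    have h1 : x ^ 2 = 1 := by rw [← hx]; exact pow_orderOf_eq_one x
    rw [hx1, sq]
    have : a⁻¹ * x * a * (a⁻¹ * x * a) = a⁻¹ * (x * x) * a := by group
    rw [this, ← sq, h1]
    group
  apply conj_back (a := a)
  by_cases hx1V : x1 * v.1 = v.1 * x1
  · exact hb x1 hx1T hx1V hx12
  -- the maximal subgroup
  have hcard := IndexTwo.card_le_two_mul_inf (T : Subgroup G)
    (Subgroup.centralizer ({v.1} : Set G)) (by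
      intro p hp' q hq hpC hqC
      rw [Subgroup.mem_centralizer_singleton_iff] at hpC hqC ⊢
      have hp'' : p * v.1 * p⁻¹ = v.1 * w.1 := by
        rcases hVT p hp' with h1 | h1
        · exfalso
          apply hpC
          calc p * v.1 = (p * v.1 * p⁻¹) * p := by group
            _ = v.1 * p := by rw [h1]
        · exact h1
      have hq'' : q * v.1 * q⁻¹ = v.1 * w.1 := by
        rcases hVT q hq with h1 | h1
        · exfalso
          apply hqC
          calc q * v.1 = (q * v.1 * q⁻¹) * q := by group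
            _ = v.1 * q := by rw [h1]
        · exact h1
      have h3 : p * v.1 * p⁻¹ = q * v.1 * q⁻¹ := hp''.trans hq''.symm
      calc q⁻¹ * p * v.1 = q⁻¹ * (p * v.1 * p⁻¹) * p := by group
        _ = q⁻¹ * (q * v.1 * q⁻¹) * p := by rw [h3]
        _ = v.1 * (q⁻¹ * p) := by group)
  set M : Subgroup G := Subgroup.centralizer ({v.1} : Set G) ⊓ (T : Subgroup G) with hM
  have hMT : M ≤ (T : Subgroup G) := inf_le_right
  have hx1M : x1 ∉ M := fun h =>
    hx1V (Subgroup.mem_centralizer_singleton_iff.1 h.1)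
  have hTM : Nat.card (T : Subgroup G) = 2 * Nat.card M := by
    obtain ⟨k, hk⟩ := Subgroup.card_dvd_of_le hMT
    have hpos : 0 < Nat.card M := Nat.card_pos
    have hk1 : k ≠ 1 := by
      rintro rfl
      rw [mul_one] at hk
      have : M = (T : Subgroup G) := Subgroup.eq_of_le_of_card_ge hMT hk.le
      exact hx1M (this ▸ hx1T)
    have hk0 : k ≠ 0 := by
      rintro rfl
      rw [mul_zero] at hk
      have : 0 < Nat.card (T : Subgroup G) := Nat.card_pos
      omega
    have hk2 : k ≤ 2 := by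
      rw [hk] at hcard
      by_contra hlt
      push Not at hlt
      have : Nat.card M * 3 ≤ Nat.card M * k := Nat.mul_le_mul_left _ hlt
      omega
    have : k = 2 := by omega
    rw [hk, this, mul_comm]
  have hidx : M.index = 2 * (T : Subgroup G).index := by
    have h1 := M.index_mul_card
    have h2 := (T : Subgroup G).index_mul_card
    rw [hTM] at h2
    have hpos : 0 < Nat.card M := Nat.card_pos
    have : M.index * Nat.card M = (2 * (T : Subgroup G).index) * Nat.card M := by
      rw [h1, ← h2]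
      ring
    exact Nat.eq_of_mul_eq_mul_right hpos this
  have hodd : Odd (M.index / 2) := by
    rw [hidx, Nat.mul_div_cancel_left _ (by norm_num : 0 < 2), ← Nat.not_even_iff_odd,
      even_iff_two_dvd]
    exact T.not_dvd_index
  by_cases hfree : ∀ g : G, g⁻¹ * x1 * g ∉ M
  · obtain ⟨H, hH⟩ := Sign.exists_index_two_of_free_involution M hx12 hfree hodd
    exact absurd hH (hno H)
  push Not at hfree
  obtain ⟨g, hg⟩ := hfree
  apply conj_back (a := g)
  have hx2 : (g⁻¹ * x1 * g) ^ 2 = 1 := by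
    rw [sq]
    have : g⁻¹ * x1 * g * (g⁻¹ * x1 * g) = g⁻¹ * (x1 * x1) * g := by group
    rw [this, ← sq, hx12]
    group
  exact hb _ hg.2 (Subgroup.mem_centralizer_singleton_iff.1 hg.1) hx2

end Cfsg.Agent.S0221
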