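import Cfsg.Statements.S0225
import Cfsg.Agent.Lib.ZStar.Cor

set_option autoImplicit false
open Cfsg

namespace Cfsg.Agent.S0225

/-- If a finite group G has even order but contains no Klein four-subgroup (2-rank 1), then some involution z of G is central modulo a normal subgroup of odd order: there is a normal subgroup N of odd order containing every commutator z g z⁻¹ g⁻¹. -/
theorem result {G : Type*} [Group G] [Finite G] (heven : Even (Nat.card G)) (hrank : ∀ E : Subgroup G, ¬ IsKleinFour E) : ∃ z : G, orderOf z = 2 ∧ ∃ N : Subgroup G, N.Normal ∧ Odd (Nat.card N) ∧ ∀ g : G, z * g * z⁻¹ * g⁻¹ ∈ N := by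
  haveI : Fact (Nat.Prime 2) := ⟨Nat.prime_two⟩
  obtain ⟨S⟩ : Nonempty (Sylow 2 G) := inferInstance
  obtain ⟨z, -, hz, h⟩ := Cfsg.Agent.Lib.ZStar.Cor.exists_unique_involution S heven hrank
  have hiso := Cfsg.Agent.Lib.ZStar.Quat.isolated_of_sylow_unique hz h
  exact ⟨z, hz, pPrimeCore 2 G, Cfsg.pPrimeCore_normal 2 G, Cfsg.Agent.Lib.ZStar.Cor.odd_card_core,
    fun g => Cfsg.Agent.Lib.ZStar.Cor.zstar' hiso g⟩

end Cfsg.Agent.S0225
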