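import Cfsg.Statements.S0228
import Cfsg.Agent.Lib.Involutions2.IndexTwo
import Mathlib

set_option autoImplicit false
open Cfsg

namespace Cfsg.Agent.S0228


/-- A group of order 12 in which no involution is central is isomorphic to the alternating group on four letters. -/
theorem result {G : Type*} [Group G] [Finite G] (hG : Nat.card G = 12) (hz : ∀ z : G, orderOf z = 2 → z ∉ Subgroup.center G) : Nonempty (G ≃* alternatingGroup (Fin 4)) := by
  have h2 : Fact (Nat.Prime 2) := ⟨Nat.prime_two⟩
  have h3 : Fact (Nat.Prime 3) := ⟨Nat.prime_three⟩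
  have hfact2 : (Nat.card G).factorization 2 = 2 := by
    rw [hG]
    apply le_antisymm
    · by_contra h
      push Not at h
      have h4 := (Nat.Prime.pow_dvd_iff_le_factorization Nat.prime_two (by norm_num : (12 : ℕ) ≠ 0)).2 h
      norm_num at h4
    · exact (Nat.Prime.pow_dvd_iff_le_factorization Nat.prime_two (by norm_num)).1 (by norm_num)
  have hfact3 : (Nat.card G).factorization 3 = 1 := by
    rw [hG]
    apply le_antisymm
    · by_contra h
      push Not at h
      have h4 := (Nat.Prime.pow_dvd_iff_le_factorization Nat.prime_three (by norm_num : (12 : ℕ) ≠ 0)).2 h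
      norm_num at h4
    · exact (Nat.Prime.pow_dvd_iff_le_factorization Nat.prime_three (by norm_num)).1 (by norm_num)
  have hcard3 : ∀ P : Sylow 3 G, Nat.card (P : Subgroup G) = 3 := by
    intro P
    rw [P.card_eq_multiplicity, hfact3, pow_one]
  have hcard2 : ∀ P : Sylow 2 G, Nat.card (P : Subgroup G) = 4 := by
    intro P
    rw [P.card_eq_multiplicity, hfact2]
    norm_num
  have hidx3 : ∀ P : Sylow 3 G, (P : Subgroup G).index = 4 := by
    intro P
    have := (P : Subgroup G).index_mul_card
    rw [hcard3, hG] at this
    omega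
  obtain P3 : Sylow 3 G := default
  have hn1 : Nat.card (Sylow 3 G) ∣ 4 := by
    rw [← hidx3 P3]
    exact P3.card_dvd_index
  have hn2 : Nat.card (Sylow 3 G) % 3 = 1 := card_sylow_modEq_one 3 G
  have hn3 : Nat.card (Sylow 3 G) = 1 ∨ Nat.card (Sylow 3 G) = 4 := by
    have := Nat.le_of_dvd (by norm_num) hn1
    interval_cases (Nat.card (Sylow 3 G)) <;> omega
  rcases hn3 with hn | hn
  · exfalso
    have hss : Subsingleton (Sylow 3 G) := (Nat.card_eq_one_iff_unique.1 hn).1
    have hnorm : (P3 : Subgroup G).Normal := Sylow.normal_of_subsingleton P3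
    set C : Subgroup G := (P3 : Subgroup G) with hC
    have hCcard : Nat.card C = 3 := hcard3 P3
    -- generator
    obtain ⟨c, hc⟩ := exists_prime_orderOf_dvd_card' (G := C) 3 (by rw [hCcard])
    have hc' : orderOf c.1 = 3 := by
      have : orderOf c.1 = orderOf c := by simp
      rw [this, hc]
    have hzp : Subgroup.zpowers c.1 = C := by
      apply Subgroup.eq_of_le_of_card_ge ((Subgroup.zpowers_le).2 c.2)
      rw [hCcard, Nat.card_zpowers, hc']
    have hcm : c.1 ∈ C := c.2
    -- the centralizer of c has index at most two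
    set K : Subgroup G := Subgroup.centralizer ({c.1} : Set G) with hK
    have hclass : ∀ g : G, g ∉ K → g * c.1 * g⁻¹ = c.1⁻¹ := by
      intro g hg
      have hmem : g * c.1 * g⁻¹ ∈ Subgroup.zpowers c.1 := by
        rw [hzp]
        exact hnorm.conj_mem _ hcm g
      obtain ⟨k, hk⟩ := Subgroup.mem_zpowers_iff.1 hmem
      have hk3 : k % 3 = 0 ∨ k % 3 = 1 ∨ k % 3 = 2 := by omega
      have hmod : c.1 ^ k = c.1 ^ (k % 3) := by
        have h5 : c.1 ^ (k % (orderOf c.1 : ℤ)) = c.1 ^ k := zpow_mod_orderOf _ _
        rw [hc'] at h5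
        exact h5.symm
      rw [hmod] at hk
      have hc3 : c.1 ^ 3 = 1 := by rw [← hc']; exact pow_orderOf_eq_one _
      rcases hk3 with h0 | h0 | h0
      · exfalso
        rw [h0, zpow_zero] at hk
        have h1 : c.1 = 1 := by
          have : g⁻¹ * (g * c.1 * g⁻¹) * g = 1 := by rw [← hk]; group
          simpa [mul_assoc] using this
        rw [h1, orderOf_one] at hc'
        omega
      · exfalso
        rw [h0, zpow_one] at hk
        apply hg
        rw [hK, Subgroup.mem_centralizer_singleton_iff]
        calc g * c.1 = (g * c.1 * g⁻¹) * g := by group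
          _ = c.1 * g := by rw [← hk]
      · rw [h0] at hk
        rw [← hk]
        have : c.1 ^ (2 : ℤ) * c.1 = 1 := by
          rw [← zpow_add_one]
          exact_mod_cast hc3
        exact eq_inv_of_mul_eq_one_left this
    have hidx : K.index ≤ 2 := by
      apply Cfsg.Agent.Lib.Involutions2.IndexTwo.index_le_two_of
      intro x y hxK hyK
      rw [hK, Subgroup.mem_centralizer_singleton_iff]
      have e1 := hclass x hxK
      have e2 := hclass y hyK
      have e3 : x * c.1 * x⁻¹ = y * c.1 * y⁻¹ := e1.trans e2.symm
      calc y⁻¹ * x * c.1 = y⁻¹ * (x * c.1 * x⁻¹) * x := by group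
        _ = y⁻¹ * (y * c.1 * y⁻¹) * x := by rw [e3]
        _ = c.1 * (y⁻¹ * x) := by group
    -- K has even order
    have hKcard : K.index * Nat.card K = 12 := by rw [K.index_mul_card, hG]
    have hK3 : 3 ∣ Nat.card K := by
      have hCK : C ≤ K := by
        rw [← hzp, Subgroup.zpowers_le, hK, Subgroup.mem_centralizer_singleton_iff]
      rw [← hCcard]
      exact Subgroup.card_dvd_of_le hCK
    have hKeven : 2 ∣ Nat.card K := by
      have hi0 : K.index ≠ 0 := Subgroup.index_ne_zero_of_finite
      have : K.index = 1 ∨ K.index = 2 := by omega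
      rcases this with h1 | h1 <;> rw [h1] at hKcard <;> omega
    obtain ⟨z, hzo⟩ := exists_prime_orderOf_dvd_card' (G := K) 2 hKeven
    have hzo' : orderOf z.1 = 2 := by
      have : orderOf z.1 = orderOf z := by simp
      rw [this, hzo]
    have hzz : IsPGroup 2 ↥(Subgroup.zpowers z.1) := by
      apply IsPGroup.of_card (n := 1)
      rw [Nat.card_zpowers, hzo', pow_one]
    obtain ⟨P2, hP2⟩ := hzz.exists_le_sylow
    have hzP : z.1 ∈ (P2 : Subgroup G) := hP2 (Subgroup.mem_zpowers _)
    have hP2comm : IsMulCommutative (P2 : Subgroup G) :=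
      IsPGroup.isMulCommutative_of_card_eq_prime_sq (p := 2) (by rw [hcard2 P2]; norm_num)
    -- the centralizer of z is everything
    have hCz : Subgroup.centralizer ({z.1} : Set G) = ⊤ := by
      apply Subgroup.eq_top_of_card_eq
      have hd4 : 4 ∣ Nat.card (Subgroup.centralizer ({z.1} : Set G)) := by
        rw [← hcard2 P2]
        apply Subgroup.card_dvd_of_le
        intro x hx
        rw [Subgroup.mem_centralizer_singleton_iff]
        have := mul_comm' (⟨x, hx⟩ : (P2 : Subgroup G)) ⟨z.1, hzP⟩
        exact congrArg Subtype.val this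
      have hd3 : 3 ∣ Nat.card (Subgroup.centralizer ({z.1} : Set G)) := by
        rw [← hCcard]
        apply Subgroup.card_dvd_of_le
        rw [← hzp, Subgroup.zpowers_le, Subgroup.mem_centralizer_singleton_iff]
        have h1 : z.1 ∈ Subgroup.centralizer ({c.1} : Set G) := z.2
        exact (Subgroup.mem_centralizer_singleton_iff.1 h1).symm
      have hd12 : 12 ∣ Nat.card (Subgroup.centralizer ({z.1} : Set G)) :=
        Nat.Coprime.mul_dvd_of_dvd_of_dvd (by norm_num) hd4 hd3
      have hle := Subgroup.card_le_card_group (Subgroup.centralizer ({z.1} : Set G))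
      rw [hG] at hle ⊢
      have hpos : 0 < Nat.card (Subgroup.centralizer ({z.1} : Set G)) := Nat.card_pos
      have := Nat.le_of_dvd hpos hd12
      omega
    apply hz z.1 hzo'
    rw [Subgroup.mem_center_iff]
    intro g
    have : g ∈ Subgroup.centralizer ({z.1} : Set G) := by rw [hCz]; trivial
    exact Subgroup.mem_centralizer_singleton_iff.1 this
  · -- four Sylow 3-subgroups: act on them
    let φ : G →* Equiv.Perm (Sylow 3 G) := MulAction.toPermHom G (Sylow 3 G)
    have hNP : ∀ P : Sylow 3 G, Subgroup.normalizer (P : Set G) = P := by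
      intro P
      symm
      apply Subgroup.eq_of_le_of_card_ge (Subgroup.le_normalizer (H := (P : Subgroup G)))
      have h1 := P.card_eq_index_normalizer
      rw [hn] at h1
      have h2 := (Subgroup.normalizer (P : Set G)).index_mul_card
      rw [← h1, hG] at h2
      have h4 : Nat.card (Subgroup.normalizer (P : Set G)) = 3 := by omega
      rw [hcard3]
      exact h4.le
    have hφ : Function.Injective φ := by
      rw [injective_iff_map_eq_one]
      intro g hg
      by_contra hg1
      have hmem : ∀ P : Sylow 3 G, g ∈ (P : Subgroup G) := by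
        intro P
        have h1 : g • P = P := by
          have : φ g P = P := by rw [hg]; rfl
          exact this
        rw [Sylow.smul_eq_iff_mem_normalizer, hNP] at h1
        exact h1
      have hzg : ∀ P : Sylow 3 G, (P : Subgroup G) = Subgroup.zpowers g := by
        intro P
        symm
        apply Subgroup.eq_of_le_of_card_ge ((Subgroup.zpowers_le).2 (hmem P))
        rw [hcard3, Nat.card_zpowers]
        have h1 : orderOf g ∣ Nat.card (P : Subgroup G) := (P : Subgroup G).orderOf_dvd_natCard (hmem P)
        rw [hcard3] at h1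
        have h2 := (Nat.dvd_prime Nat.prime_three).1 h1
        rcases h2 with h2 | h2
        · exact absurd (orderOf_eq_one_iff.1 h2) hg1
        · exact h2.ge
      have hsub : Subsingleton (Sylow 3 G) :=
        ⟨fun P Q => Sylow.ext ((hzg P).trans (hzg Q).symm)⟩
      have := Nat.card_of_subsingleton P3
      omega
    have hE : Sylow 3 G ≃ Fin 4 := Finite.equivFinOfCardEq hn
    let f : G →* Equiv.Perm (Fin 4) := (hE.permCongrHom.toMonoidHom).comp φ
    have hf : Function.Injective f :=
      (hE.permCongrHom.injective).comp hφ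
    have hcardR : Nat.card f.range = 12 := by
      rw [← hG]
      exact Nat.card_congr (MonoidHom.ofInjective hf).toEquiv.symm
    have hidxR : f.range.index = 2 := by
      have h1 := f.range.index_mul_card
      rw [hcardR, Nat.card_perm] at h1
      have h2 : Nat.card (Fin 4) = 4 := by simp
      rw [h2] at h1
      have h3 : Nat.factorial 4 = 24 := rfl
      rw [h3] at h1
      omega
    have hR := Equiv.Perm.eq_alternatingGroup_of_index_eq_two hidxR
    exact ⟨(MonoidHom.ofInjective hf).trans (MulEquiv.subgroupCongr hR)⟩

end Cfsg.Agent.S0228
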