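import Cfsg.Statements.S0229
import Cfsg.Agent.Lib.Involutions2.Basic

set_option autoImplicit false
open Cfsg

namespace Cfsg.Agent.S0229


/-- Let t be an involution of a Sylow 2-subgroup S of a finite group G, conjugate in G to no other element of S, and let s be an involution of G not conjugate to t. Then the order of st is twice an odd number. -/
theorem result {G : Type*} [Group G] [Finite G] (S : Sylow 2 G) (t : G) (ht : orderOf t = 2) (htS : t ∈ S) (hiso : ∀ g : G, g * t * g⁻¹ ∈ S → g * t * g⁻¹ = t) (s : G) (hs : orderOf s = 2) (hns : ¬ IsConj s t) : orderOf (s * t) % 4 = 2 := by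
  open Cfsg.Agent.Lib.Involutions2.Basic Cfsg.Agent.Lib.Involutions.Dihedral in
  have ht2 := sq_of_orderOf ht
  have hs2 := sq_of_orderOf hs
  have hne : ¬ Odd (orderOf (s * t)) := by
    intro hodd
    obtain ⟨d, -, hd⟩ := exists_conj_of_odd hs2 ht2 hodd
    apply hns
    rw [isConj_iff]
    exact ⟨d, hd⟩
  have heven : Even (orderOf (s * t)) := Nat.not_odd_iff_even.1 hne
  have hn4 : ¬ 4 ∣ orderOf (s * t) := by
    intro h4
    -- write t s for symmetry
    have heven' : Even (orderOf (t * s)) := by
      have : orderOf (t * s) = orderOf (s * t) := by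
        have h1 : t * s = (s * t)⁻¹ := by
          rw [mul_inv_rev, inv_of_orderOf ht, inv_of_orderOf hs]
        rw [h1, orderOf_inv]
      rwa [this]
    have h4' : 4 ∣ orderOf (t * s) := by
      have : orderOf (t * s) = orderOf (s * t) := by
        have h1 : t * s = (s * t)⁻¹ := by
          rw [mul_inv_rev, inv_of_orderOf ht, inv_of_orderOf hs]
        rw [h1, orderOf_inv]
      rwa [this]
    obtain ⟨d, -, hd⟩ := (conj_central_iff ht2 hs2 heven').2 h4'
    obtain ⟨hz, hzt, -⟩ := central_involution ht2 hs2 heven'
    set z := (t * s) ^ (orderOf (t * s) / 2) with hzdef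
    -- ⟨t, t z⟩ is a 2-group
    have hprod : t * (t * z) = z := by
      rw [← mul_assoc, mul_self_of_sq ht2, one_mul]
    have hsq : (t * z) ^ 2 = 1 := by
      have : (t * z) ^ 2 = t * t * (z * z) := by
        rw [sq]
        have := hzt.eq
        calc t * z * (t * z) = t * (z * t) * z := by group
          _ = t * (t * z) * z := by rw [this]
          _ = t * t * (z * z) := by group
      rw [this, mul_self_of_sq ht2, mul_self_of_sq (sq_of_orderOf hz), one_mul]
    have hpg : IsPGroup 2 ↥(Subgroup.closure ({t, t * z} : Set G)) :=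
      isPGroup_closure_pair ht2 hsq (k := 1) (by rw [hprod, pow_one]; exact sq_of_orderOf hz)
    have h := isolated_of_le S hiso _ hpg (Subgroup.subset_closure (by simp)) d
      (by rw [hd]; exact Subgroup.subset_closure (by simp))
    rw [hd] at h
    exact ne_one_of_orderOf hz (by simpa using h)
  have h2 := heven.two_dvd
  omega

end Cfsg.Agent.S0229
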