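import Cfsg.Statements.S0231
import Cfsg.Agent.Lib.Involutions2.Basic

set_option autoImplicit false
open scoped Pointwise
open Cfsg

namespace Cfsg.Agent.S0231


/-- Let T be a Sylow 2-subgroup of the finite group G which is not normal and which intersects every other Sylow 2-subgroup trivially. Then G has a single conjugacy class of involutions. -/
theorem result {G : Type*} [Group G] [Finite G] (T : Sylow 2 G) (hnn : ¬ (T : Subgroup G).Normal) (hTI : ∀ g : G, MulAut.conj g • (T : Subgroup G) ≠ T → MulAut.conj g • (T : Subgroup G) ⊓ T = ⊥) (s t : G) (hs : orderOf s = 2) (ht : orderOf t = 2) : IsConj s t := by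
  open Cfsg.Agent.Lib.Involutions2.Basic Cfsg.Agent.Lib.Involutions.Dihedral in
  have hp : Fact (Nat.Prime 2) := ⟨Nat.prime_two⟩
  -- every Sylow subgroup is T or meets T trivially
  have hS : ∀ S : Sylow 2 G, ∀ u : G, u ≠ 1 → u ∈ S → u ∈ T → (S : Subgroup G) = T := by
    intro S u hu huS huT
    obtain ⟨a, rfl⟩ := MulAction.exists_smul_eq G T S
    have huS' : u ∈ ((a • T : Sylow 2 G) : Subgroup G) := huS
    rw [Sylow.coe_subgroup_smul] at huS' ⊢
    by_contra hne
    have h0 := hTI a hne
    have : u ∈ MulAut.conj a • (T : Subgroup G) ⊓ T := ⟨huS', huT⟩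
    rw [h0, Subgroup.mem_bot] at this
    exact hu this
  -- commuting with an involution of T forces membership in T
  have hb : ∀ u z : G, orderOf u = 2 → orderOf z = 2 → u ∈ T → Commute u z → z ∈ T := by
    intro u z hu hz huT hc
    have hu2 := sq_of_orderOf hu
    have hz2 := sq_of_orderOf hz
    have hpg : IsPGroup 2 ↥(Subgroup.closure ({u, z} : Set G)) := by
      apply isPGroup_closure_pair hu2 hz2 (k := 1)
      rw [pow_one, hc.mul_pow, hu2, hz2, one_mul]
    obtain ⟨S, hS'⟩ := hpg.exists_le_sylow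
    have huS : u ∈ S := hS' (Subgroup.subset_closure (by simp))
    have hzS : z ∈ S := hS' (Subgroup.subset_closure (by simp))
    have heq := hS S u (ne_one_of_orderOf hu) huS huT
    have : z ∈ (S : Subgroup G) := hzS
    rw [heq] at this
    exact this
  -- odd product
  have hc : ∀ s x : G, orderOf s = 2 → orderOf x = 2 → s ∈ T → x ∉ T → IsConj s x := by
    intro s x hs hx hsT hxT
    have hs2 := sq_of_orderOf hs
    have hx2 := sq_of_orderOf hx
    by_cases hodd : Odd (orderOf (s * x))
    · obtain ⟨d, -, hd⟩ := exists_conj_of_odd hs2 hx2 hodd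
      exact isConj_iff.2 ⟨d, hd⟩
    · exfalso
      have heven := Nat.not_odd_iff_even.1 hodd
      obtain ⟨hz, hzs, hzx⟩ := central_involution hs2 hx2 heven
      have hzT := hb s _ hs hz hsT hzs.symm
      exact hxT (hb _ x hz hx hzT hzx)
  -- each involution is conjugate into T
  have hconjT : ∀ s : G, orderOf s = 2 → ∃ s' : G, orderOf s' = 2 ∧ s' ∈ T ∧ IsConj s s' := by
    intro s hs
    have hz : IsPGroup 2 ↥(Subgroup.zpowers s) := by
      apply IsPGroup.of_card (n := 1)
      rw [Nat.card_zpowers, hs, pow_one]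
    obtain ⟨S, hS'⟩ := hz.exists_le_sylow
    obtain ⟨a, rfl⟩ := MulAction.exists_smul_eq G T S
    have h1 : s ∈ (MulAut.conj a • (T : Subgroup G)) := by
      rw [← Sylow.coe_subgroup_smul]
      exact hS' (Subgroup.mem_zpowers s)
    rw [Subgroup.mem_pointwise_smul_iff_inv_smul_mem] at h1
    have h2 : a⁻¹ * s * a ∈ (T : Subgroup G) := by
      simpa [MulAut.conj_symm_apply] using h1
    refine ⟨a⁻¹ * s * a, ?_, h2, isConj_iff.2 ⟨a⁻¹, by simp⟩⟩
    have := MulEquiv.orderOf_eq (MulAut.conj a⁻¹) s
    rw [hs] at this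
    rw [← this]
    simp
  -- T is moved by some g
  have hex : ∃ g : G, MulAut.conj g • (T : Subgroup G) ≠ T := by
    by_contra hall
    push Not at hall
    apply hnn
    constructor
    intro n hn g
    have := hall g
    rw [← this]
    exact ⟨n, hn, rfl⟩
  obtain ⟨g, hg⟩ := hex
  have hTne : (T : Subgroup G) ≠ ⊥ := by
    intro h0
    apply hnn
    rw [h0]
    infer_instance
  obtain ⟨x0, hx0⟩ : ∃ x0 : (T : Subgroup G), orderOf x0 = 2 := by
    rcases T.isPGroup'.card_eq_or_dvd with h1 | h2
    · exact absurd (Subgroup.eq_bot_of_card_eq _ h1) hTne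
    · exact exists_prime_orderOf_dvd_card' 2 h2
  have hx0' : orderOf x0.1 = 2 := by
    have : orderOf x0.1 = orderOf x0 := by simp
    rw [this, hx0]
  set x := g * x0.1 * g⁻¹ with hx
  have hxord : orderOf x = 2 := by
    have := MulEquiv.orderOf_eq (MulAut.conj g) x0.1
    rw [hx0'] at this
    exact this
  have hxT : x ∉ T := by
    intro hxT
    have hmem : x ∈ MulAut.conj g • (T : Subgroup G) ⊓ T := by
      refine ⟨?_, hxT⟩
      exact ⟨x0.1, x0.2, rfl⟩
    rw [hTI g hg, Subgroup.mem_bot] at hmem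
    exact ne_one_of_orderOf hxord hmem
  obtain ⟨s', hs', hs'T, hss'⟩ := hconjT s hs
  obtain ⟨t', ht', ht'T, htt'⟩ := hconjT t ht
  exact (hss'.trans (hc s' x hs' hxord hs'T hxT)).trans
    ((htt'.trans (hc t' x ht' hxord ht'T hxT)).symm)

end Cfsg.Agent.S0231
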