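import Cfsg.Statements.S0234
import Cfsg.Agent.Lib.Involutions.BrauerFowler2

set_option autoImplicit false
open Cfsg

namespace Cfsg.Agent.S0234

/-- In a finite simple group G of even order greater than 2, the number n of involutions satisfies 3n < |G|. -/
theorem result {G : Type*} [Group G] [Finite G] [IsSimpleGroup G] (heven : Even (Nat.card G)) (hgt : 2 < Nat.card G) : 3 * Nat.card {t : G // orderOf t = 2} < Nat.card G := by
  exact Lib.Involutions.BrauerFowler2.three_mul_involutions_lt heven hgt

end Cfsg.Agent.S0234
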