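import Mathlib
import Cfsg.Statements.S0244
-- import your own Cfsg.Agent.* helpers here

set_option autoImplicit false
open Cfsg

namespace Cfsg.Agent.S0244

lemma det_eq {R : Type*} [CommRing R] (A : Matrix (Fin 1 ⊕ Fin 1) (Fin 1 ⊕ Fin 1) R) :
    A.det = A (Sum.inl 0) (Sum.inl 0) * A (Sum.inr 0) (Sum.inr 0)
      - A (Sum.inl 0) (Sum.inr 0) * A (Sum.inr 0) (Sum.inl 0) := by
  let e : Fin 2 ≃ Fin 1 ⊕ Fin 1 := (finSumFinEquiv (m := 1) (n := 1)).symm
  have := Matrix.det_submatrix_equiv_self e A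
  rw [← this, Matrix.det_fin_two]
  simp [e, finSumFinEquiv]
  rfl

/-- Sp_2 = SL_2: a matrix on Fin 1 ⊕ Fin 1 lies in Mathlib's symplectic group iff its determinant is 1. -/
theorem result {R : Type*} [CommRing R] (A : Matrix (Fin 1 ⊕ Fin 1) (Fin 1 ⊕ Fin 1) R) : A ∈ Matrix.symplecticGroup (Fin 1) R ↔ A.det = 1 := by
  rw [SymplecticGroup.mem_iff]
  constructor
  · intro h
    have h01 := congrFun (congrFun h (Sum.inl 0)) (Sum.inr 0)
    simp [Matrix.mul_apply, Matrix.J, Matrix.fromBlocks, Matrix.transpose_apply, Fintype.sum_sum_type] at h01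
    rw [det_eq]
    linear_combination -h01
  · intro h
    rw [det_eq] at h
    ext i j
    rcases i with i | i <;> rcases j with j | j <;> fin_cases i <;> fin_cases j <;>
      simp [Matrix.mul_apply, Matrix.J, Matrix.fromBlocks, Matrix.transpose_apply, Fintype.sum_sum_type] <;>
      first | ring1 | linear_combination -h | linear_combination h

end Cfsg.Agent.S0244
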