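import Mathlib
import Cfsg.Statements.S0247
import Cfsg.Agent.S0245
-- import your own Cfsg.Agent.* helpers here

set_option autoImplicit false
open Cfsg

namespace Cfsg.Agent.S0247

open Matrix

abbrev I4 := Fin 2 ⊕ Fin 2
abbrev ZZ := ZMod 2

/-- `E : 6×4`, columns are representatives of a symplectic basis of even vectors modulo all-ones. -/
def E : Matrix (Fin 6) I4 ZZ := fun k j => match j with
  | .inl 0 => ![1,1,0,0,0,0] k
  | .inl 1 => ![0,0,0,1,1,0] k
  | .inr 0 => ![0,1,1,0,0,0] k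
  | .inr 1 => ![0,0,0,0,1,1] k

/-- `D : 4×6`, the coordinates of even vectors modulo all-ones. -/
def D : Matrix I4 (Fin 6) ZZ := fun i k => match i with
  | .inl 0 => ![0,1,1,0,0,0] k
  | .inl 1 => ![0,0,0,0,1,1] k
  | .inr 0 => ![1,1,0,0,0,0] k
  | .inr 1 => ![0,0,0,1,1,0] k

/-- The action of a permutation on the four-dimensional module. -/
def f (σ : Equiv.Perm (Fin 6)) : Matrix I4 I4 ZZ := D * E.submatrix σ.symm id

lemma f_one : f 1 = 1 := by decide +kernel

lemma key : ∀ w : Fin 6 → ZZ, ∑ k, w k = 0 → ∃ c : ZZ, ∀ k, (E *ᵥ (D *ᵥ w)) k = w k + c := by decide +kernel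

lemma key2 : ∀ v : I4 → ZZ, ∑ k, (E *ᵥ v) k = 0 := by decide +kernel

lemma key3 : ∀ c : ZZ, D *ᵥ (fun _ => c) = 0 := by decide +kernel

lemma mem_sw : ∀ x y : Fin 6, x ≠ y → f (Equiv.swap x y) * Matrix.J (Fin 2) ZZ * (f (Equiv.swap x y))ᵀ = Matrix.J (Fin 2) ZZ := by decide +kernel

set_option maxRecDepth 100000 in
lemma inj : ∀ σ : Equiv.Perm (Fin 6), f σ = 1 → σ = 1 := by decide +kernel

lemma submatrix_mulVec (σ : Equiv.Perm (Fin 6)) (v : I4 → ZZ) :
    (E.submatrix σ.symm id) *ᵥ v = (E *ᵥ v) ∘ σ.symm := by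
  ext k
  simp [Matrix.mulVec, dotProduct]

lemma f_mulVec (σ : Equiv.Perm (Fin 6)) (v : I4 → ZZ) :
    f σ *ᵥ v = D *ᵥ ((E *ᵥ v) ∘ σ.symm) := by
  rw [f, ← Matrix.mulVec_mulVec, submatrix_mulVec]

lemma f_mul (σ τ : Equiv.Perm (Fin 6)) : f (σ * τ) = f σ * f τ := by
  apply Matrix.toLin'.injective
  apply LinearMap.ext
  intro v
  simp only [Matrix.toLin'_apply]
  rw [← Matrix.mulVec_mulVec, f_mulVec τ, f_mulVec σ, f_mulVec]
  set w := (E *ᵥ v) ∘ τ.symm with hw
  have hsum : ∑ k, w k = 0 := by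
    rw [hw]
    have := Equiv.sum_comp τ.symm (fun k => (E *ᵥ v) k)
    simp only [Function.comp]
    rw [this]
    exact key2 v
  obtain ⟨c, hc⟩ := key w hsum
  have h1 : (E *ᵥ (D *ᵥ w)) ∘ σ.symm = (w ∘ σ.symm) + (fun _ => c) := by
    ext k
    exact hc _
  rw [h1, Matrix.mulVec_add, key3, add_zero]
  congr 1

/-- The homomorphism to matrices. -/
def fHom : Equiv.Perm (Fin 6) →* Matrix I4 I4 ZZ where
  toFun := f
  map_one' := f_one
  map_mul' := f_mul

lemma f_mem (σ : Equiv.Perm (Fin 6)) : f σ ∈ Matrix.symplecticGroup (Fin 2) ZZ := by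
  induction σ using Equiv.Perm.swap_induction_on with
  | one => rw [f_one]; exact one_mem _
  | swap_mul g x y hxy ih =>
    rw [f_mul]
    exact mul_mem (SymplecticGroup.mem_iff.mpr (mem_sw x y hxy)) ih

lemma f_inj : Function.Injective f := by
  intro σ τ h
  have h1 : f (σ * τ⁻¹) = 1 := by
    rw [f_mul]
    have h2 : f τ * f τ⁻¹ = 1 := by rw [← f_mul, mul_inv_cancel, f_one]
    rw [h, h2]
  have := inj _ h1
  exact mul_inv_eq_one.mp this

/-- Sp_4(2) is isomorphic to the symmetric group S_6. -/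
theorem result {F : Type*} [Field F] [Fintype F] (hF : Fintype.card F = 2) : Nonempty (Matrix.symplecticGroup (Fin 2) F ≃* Equiv.Perm (Fin 6)) := by
  have hp : Nat.Prime 2 := by norm_num
  let e : ZMod 2 ≃+* F := ZMod.ringEquivOfPrime F hp hF
  let φ : Equiv.Perm (Fin 6) →* Matrix.symplecticGroup (Fin 2) F :=
    { toFun := fun σ => ⟨(f σ).map e, SymplecticGroup.map_mem (f_mem σ) e⟩
      map_one' := by
        apply Subtype.ext
        simp [f_one]
      map_mul' := fun σ τ => by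
        apply Subtype.ext
        simp [f_mul, Matrix.map_mul] }
  have hinj : Function.Injective φ := by
    intro σ τ h
    apply f_inj
    have h1 : (f σ).map e = (f τ).map e := congrArg Subtype.val h
    ext i j
    have := congrFun (congrFun h1 i) j
    exact e.injective this
  have hcard : Nat.card (Matrix.symplecticGroup (Fin 2) F) = Nat.card (Equiv.Perm (Fin 6)) := by
    rw [Cfsg.Agent.S0245.result hF 2, Nat.card_eq_fintype_card, Fintype.card_perm]
    decide
  have hfin : Finite (Matrix.symplecticGroup (Fin 2) F) := inferInstance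
  have hbij : Function.Bijective φ := by
    rw [Nat.bijective_iff_injective_and_card]
    exact ⟨hinj, hcard.symm⟩
  exact ⟨(MulEquiv.ofBijective φ hbij).symm⟩

end Cfsg.Agent.S0247
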