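import Mathlib
import Cfsg.Statements.S0250
import Cfsg.Agent.Lib.Classical.AltIso
-- import your own Cfsg.Agent.* helpers here

set_option autoImplicit false
open Cfsg

namespace Cfsg.Agent.S0250

/-- SL_2(2) is isomorphic to S_3. -/
theorem result {F : Type*} [Field F] [Fintype F] (hF : Fintype.card F = 2) : Nonempty (Matrix.SpecialLinearGroup (Fin 2) F ≃* Equiv.Perm (Fin 3)) := by
  open Cfsg.Agent.Lib.Classical in
  have hcenter : Subgroup.center (Matrix.SpecialLinearGroup (Fin 2) F) = ⊥ := by
    have h := SLBasic.card_center_sl (F := F) (ι := Fin 2)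
    rw [hF, Fintype.card_fin] at h
    exact Subgroup.eq_bot_of_card_eq _ (by simpa using h)
  have hinj : Function.Injective (MulAction.toPermHom (Matrix.SpecialLinearGroup (Fin 2) F) (Projectivization F (Fin 2 → F))) := by
    rw [injective_iff_map_eq_one]
    intro g hg
    have : g ∈ (MulAction.toPermHom (Matrix.SpecialLinearGroup (Fin 2) F) (Projectivization F (Fin 2 → F))).ker := hg
    rw [Projectivization.SL_mulAction_ker, hcenter] at this
    simpa using this
  refine AltIso.mulEquiv_perm_of_injective _ hinj (n := 3) ?_ ?_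
  · rw [AltIso.card_proj, hF]
  · rw [SL2Sylow.card_SL2, hF]
    rfl

end Cfsg.Agent.S0250
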