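import Mathlib
import Cfsg.Statements.S0252
import Cfsg.Agent.Lib.Classical.AltIso
-- import your own Cfsg.Agent.* helpers here

set_option autoImplicit false
open Cfsg

namespace Cfsg.Agent.S0252

/-- PSL_2(4) is isomorphic to A_5. -/
theorem result {F : Type*} [Field F] [Fintype F] (hF : Fintype.card F = 4) : Nonempty (Matrix.ProjectiveSpecialLinearGroup (Fin 2) F ≃* alternatingGroup (Fin 5)) := by
  open Cfsg.Agent.Lib.Classical in
  have h := AltIso.card_psl_two_mul (F := F)
  rw [hF] at h
  refine AltIso.mulEquiv_alt_of_injective AltIso.pslPerm AltIso.pslPerm_injective (n := 5) ?_ ?_ (by norm_num)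
  · rw [AltIso.card_proj, hF]
  · have : Nat.gcd (4 - 1) 2 = 1 := by norm_num
    rw [this] at h
    have e : Nat.factorial 5 = 120 := rfl
    omega

end Cfsg.Agent.S0252
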