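import Mathlib
import Cfsg.Statements.S0257
import Cfsg.Agent.Lib.Classical.FieldTransfer
import Cfsg.Agent.Lib.Classical.SLBasic
-- import your own Cfsg.Agent.* helpers here

set_option autoImplicit false
open Cfsg

namespace Cfsg.Agent.S0257

open scoped MatrixGroups

abbrev G₀ := Matrix.SpecialLinearGroup (Fin 2) (ZMod 3)

/-- The element of order 4. -/
def A : G₀ := ⟨!![0, -1; 1, 0], by decide +kernel⟩

/-- The second generator. -/
def X : G₀ := ⟨!![1, 1; 1, -1], by decide +kernel⟩

/-- The embedding of `Q₈`. -/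
def f₀ : QuaternionGroup 2 → G₀
  | .a i => A ^ i.val
  | .xa i => X * A ^ i.val

lemma f₀_mul : ∀ x y, f₀ (x * y) = f₀ x * f₀ y := by decide +kernel

/-- The embedding of `Q₈` as a homomorphism. -/
def f : QuaternionGroup 2 →* G₀ := MonoidHom.mk' f₀ f₀_mul

lemma f_apply (x) : f x = f₀ x := rfl

lemma f_inj : Function.Injective f := by
  have : ∀ x y, f₀ x = f₀ y → x = y := by decide +kernel
  exact fun x y h => this x y h

lemma f_normal : ∀ (g : G₀) (x : QuaternionGroup 2), ∃ y, f₀ y = g * f₀ x * g⁻¹ := by decide +kernel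

lemma card_G₀ : Nat.card G₀ = 24 := by
  rw [Nat.card_eq_fintype_card]; decide +kernel

/-- SL_2(3) has a normal subgroup of index 3 isomorphic to the quaternion group of order 8, and its centre has order 2. -/
theorem result {F : Type*} [Field F] [Fintype F] (hF : Fintype.card F = 3) : (∃ Q : Subgroup (Matrix.SpecialLinearGroup (Fin 2) F), Q.Normal ∧ Q.index = 3 ∧ Nonempty (Q ≃* QuaternionGroup 2)) ∧ Nat.card (Subgroup.center (Matrix.SpecialLinearGroup (Fin 2) F)) = 2 := by
  have hp : Nat.Prime 3 := by norm_num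
  let e : ZMod 3 ≃+* F := ZMod.ringEquivOfPrime F hp hF
  let E : G₀ ≃* Matrix.SpecialLinearGroup (Fin 2) F := Cfsg.Agent.Lib.Classical.FieldTransfer.slCongr e
  constructor
  · let f' : QuaternionGroup 2 →* Matrix.SpecialLinearGroup (Fin 2) F := E.toMonoidHom.comp f
    have hf' : Function.Injective f' := E.injective.comp f_inj
    refine ⟨f'.range, ⟨?_⟩, ?_, ⟨(MonoidHom.ofInjective hf').symm⟩⟩
    · rintro _ ⟨x, rfl⟩ g
      obtain ⟨g, rfl⟩ := E.surjective g
      obtain ⟨y, hy⟩ := f_normal g x
      refine ⟨y, ?_⟩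
      change E (f₀ y) = E g * E (f₀ x) * (E g)⁻¹
      rw [hy, map_mul, map_mul, map_inv]
    · have h1 := Subgroup.index_mul_card f'.range
      have h2 : Nat.card f'.range = Nat.card (QuaternionGroup 2) :=
        (Nat.card_congr (MonoidHom.ofInjective hf').toEquiv).symm
      have h3 : Nat.card (Matrix.SpecialLinearGroup (Fin 2) F) = 24 := by
        rw [← card_G₀]; exact (Nat.card_congr E.toEquiv).symm
      have h4 : Nat.card (QuaternionGroup 2) = 8 := by
        rw [Nat.card_eq_fintype_card]; decide +kernel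
      rw [h2, h3, h4] at h1
      omega
  · rw [Cfsg.Agent.Lib.Classical.SLBasic.card_center_sl, hF, Fintype.card_fin]
    norm_num

end Cfsg.Agent.S0257
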