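import Mathlib
import Cfsg.Statements.S0266
import Cfsg.Agent.Lib.Classical.ProjLine
-- import your own Cfsg.Agent.* helpers here

set_option autoImplicit false
open scoped MatrixGroups
open Cfsg

namespace Cfsg.Agent.S0266

variable {F : Type*} [Field F]

/-- The standard frame. -/
def frame : Fin 3 ↪ Projectivization F (Fin 2 → F) where
  toFun := ![Cfsg.Agent.Lib.Classical.ProjLine.ptInf, Cfsg.Agent.Lib.Classical.ProjLine.ptZero,
    Cfsg.Agent.Lib.Classical.ProjLine.ptOne]
  inj' := by
    intro i j h
    fin_cases i <;> fin_cases j <;> first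
      | rfl
      | (exfalso; simp at h; first
          | exact Cfsg.Agent.Lib.Classical.ProjLine.ptInf_ne_ptZero h
          | exact Cfsg.Agent.Lib.Classical.ProjLine.ptInf_ne_ptOne h
          | exact Cfsg.Agent.Lib.Classical.ProjLine.ptZero_ne_ptOne h
          | exact Cfsg.Agent.Lib.Classical.ProjLine.ptInf_ne_ptZero h.symm
          | exact Cfsg.Agent.Lib.Classical.ProjLine.ptInf_ne_ptOne h.symm
          | exact Cfsg.Agent.Lib.Classical.ProjLine.ptZero_ne_ptOne h.symm)

/-- PGL_2(F) is sharply 3-transitive on the projective line: it is 3-transitive and the stabiliser of three distinct points is trivial. -/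
theorem result {F : Type*} [Field F] : MulAction.IsMultiplyPretransitive (Matrix.ProjGenLinGroup (Fin 2) F) (Projectivization F (Fin 2 → F)) 3 ∧ ∀ (g : Matrix.ProjGenLinGroup (Fin 2) F) (a b c : Projectivization F (Fin 2 → F)), a ≠ b → a ≠ c → b ≠ c → g • a = a → g • b = b → g • c = c → g = 1 := by
  open Cfsg.Agent.Lib.Classical.ProjLine Matrix.ProjGenLinGroup in
  constructor
  · have key : ∀ x : Fin 3 ↪ Projectivization F (Fin 2 → F), ∃ g : GL (Fin 2) F,
        (Matrix.ProjGenLinGroup.mk g : Matrix.ProjGenLinGroup (Fin 2) F) • frame = x := by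
      intro x
      have hinj := x.injective
      obtain ⟨g, h0, h1, h2⟩ := exists_gl_triple (x 0) (x 1) (x 2)
        (fun h => by simpa using hinj h) (fun h => by simpa using hinj h) (fun h => by simpa using hinj h)
      refine ⟨g, ?_⟩
      ext i
      fin_cases i
      · exact h0
      · exact h1
      · exact h2
    refine ⟨fun x y => ?_⟩
    obtain ⟨g, hg⟩ := key x
    obtain ⟨h, hh⟩ := key y
    refine ⟨Matrix.ProjGenLinGroup.mk h * (Matrix.ProjGenLinGroup.mk g)⁻¹, ?_⟩
    rw [mul_smul, ← hg, inv_smul_smul, hh]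
  · intro g a b c hab hac hbc hga hgb hgc
    induction g using Matrix.ProjGenLinGroup.induction_on with | mk g =>
    obtain ⟨h, h0, h1, h2⟩ := exists_gl_triple a b c hab hac hbc
    have hfix := scalar_of_fix_frame (h⁻¹ * g * h)
      (by rw [mul_smul, mul_smul, h0, inv_smul_eq_iff, h0]; exact hga)
      (by rw [mul_smul, mul_smul, h1, inv_smul_eq_iff, h1]; exact hgb)
      (by rw [mul_smul, mul_smul, h2, inv_smul_eq_iff, h2]; exact hgc)
    obtain ⟨u, hu⟩ := hfix
    have hg : g = Matrix.GeneralLinearGroup.scalar (Fin 2) u := by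
      have hcomm : h * Matrix.GeneralLinearGroup.scalar (Fin 2) u * h⁻¹ = Matrix.GeneralLinearGroup.scalar (Fin 2) u := by
        have hc : Matrix.GeneralLinearGroup.scalar (Fin 2) u ∈ Subgroup.center (GL (Fin 2) F) := by
          rw [Matrix.GeneralLinearGroup.center_eq_range_scalar]
          exact ⟨u, rfl⟩
        rw [Subgroup.mem_center_iff] at hc
        rw [hc h, mul_assoc, mul_inv_cancel, mul_one]
      rw [← hcomm, ← hu]
      group
    rw [hg]
    exact Matrix.ProjGenLinGroup.mk_scalar u

end Cfsg.Agent.S0266
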