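import Mathlib
import Cfsg.Statements.S0267
import Cfsg.Agent.Lib.Classical.ProjLine
-- import your own Cfsg.Agent.* helpers here

set_option autoImplicit false
open Cfsg

namespace Cfsg.Agent.S0267

/-- The standard frame. -/
def e0 {F : Type*} [Field F] : Fin 3 ↪ Projectivization F (Fin 2 → F) :=
  ⟨![Cfsg.Agent.Lib.Classical.ProjLine.ptInf, Cfsg.Agent.Lib.Classical.ProjLine.ptZero,
    Cfsg.Agent.Lib.Classical.ProjLine.ptOne], by
    open Cfsg.Agent.Lib.Classical.ProjLine in
    intro i j h
    fin_cases i <;> fin_cases j <;> first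
      | rfl
      | (exfalso; simp at h; first
          | exact ptInf_ne_ptZero h
          | exact ptInf_ne_ptOne h
          | exact ptZero_ne_ptOne h
          | exact ptInf_ne_ptZero h.symm
          | exact ptInf_ne_ptOne h.symm
          | exact ptZero_ne_ptOne h.symm)⟩

/-- SL_2(q) is 3-transitive on the q+1 points of the projective line if and only if q is even. -/
theorem result {F : Type*} [Field F] [Fintype F] : MulAction.IsMultiplyPretransitive (Matrix.SpecialLinearGroup (Fin 2) F) (Projectivization F (Fin 2 → F)) 3 ↔ ringChar F = 2 := by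
  open Cfsg.Agent.Lib.Classical.ProjLine in
  constructor
  · intro htr
    by_contra hne
    obtain ⟨a, ha⟩ := FiniteField.exists_nonsquare hne
    have ha0 : a ≠ 0 := by
      rintro rfl
      exact ha (IsSquare.zero)
    -- the point [1 : a]
    have hv : (![1, a] : Fin 2 → F) ≠ 0 := by
      intro h; have := congrFun h 0; simp at this
    let pa : Projectivization F (Fin 2 → F) := Projectivization.mk F ![1, a] hv
    have hinf : (ptInf : Projectivization F (Fin 2 → F)) ≠ pa := by
      simp only [ptInf, pa, ne_eq, mk_eq_mk_iff_det2, det2]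
      simpa using ha0
    have hzero : (ptZero : Projectivization F (Fin 2 → F)) ≠ pa := by
      simp only [ptZero, pa, ne_eq, mk_eq_mk_iff_det2, det2]
      simp
    let e1 : Fin 3 ↪ Projectivization F (Fin 2 → F) :=
      ⟨![ptInf, ptZero, ptOne], by
        intro i j h
        fin_cases i <;> fin_cases j <;> first
          | rfl
          | (exfalso; simp at h; first
              | exact ptInf_ne_ptZero h
              | exact ptInf_ne_ptOne h
              | exact ptZero_ne_ptOne h
              | exact ptInf_ne_ptZero h.symm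
              | exact ptInf_ne_ptOne h.symm
              | exact ptZero_ne_ptOne h.symm)⟩
    let e2 : Fin 3 ↪ Projectivization F (Fin 2 → F) :=
      ⟨![ptInf, ptZero, pa], by
        intro i j h
        fin_cases i <;> fin_cases j <;> first
          | rfl
          | (exfalso; simp at h; first
              | exact ptInf_ne_ptZero h
              | exact hinf h
              | exact hzero h
              | exact ptInf_ne_ptZero h.symm
              | exact hinf h.symm
              | exact hzero h.symm)⟩
    obtain ⟨g, hg⟩ := htr.exists_smul_eq e1 e2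
    have h0 : g • (ptInf : Projectivization F (Fin 2 → F)) = ptInf := congrArg (· 0) hg
    have h1 : g • (ptZero : Projectivization F (Fin 2 → F)) = ptZero := congrArg (· 1) hg
    have h2 : g • (ptOne : Projectivization F (Fin 2 → F)) = pa := congrArg (· 2) hg
    simp only [ptInf, ptZero, ptOne, pa, Projectivization.smul_mk, mk_eq_mk_iff_det2, det2] at h0 h1 h2
    change ((g : Matrix (Fin 2) (Fin 2) F).mulVec _) 0 * _ - ((g : Matrix (Fin 2) (Fin 2) F).mulVec _) 1 * _ = 0 at h0 h1 h2
    simp [Matrix.mulVec, dotProduct, Fin.sum_univ_two] at h0 h1 h2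
    have hdet : (g : Matrix (Fin 2) (Fin 2) F).det = 1 := g.2
    rw [Matrix.det_fin_two, h0, h1] at hdet
    rw [h0, h1] at h2
    simp at hdet h2
    apply ha
    refine ⟨(g : Matrix (Fin 2) (Fin 2) F) 1 1, ?_⟩
    have hx : (g : Matrix (Fin 2) (Fin 2) F) 0 0 ≠ 0 := left_ne_zero_of_mul_eq_one hdet
    apply mul_left_cancel₀ hx
    linear_combination h2 - (g : Matrix (Fin 2) (Fin 2) F) 1 1 * hdet
  · intro hc
    have key : ∀ x : Fin 3 ↪ Projectivization F (Fin 2 → F), ∃ g : Matrix.SpecialLinearGroup (Fin 2) F,
        g • e0 = x := by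
      intro x
      have hinj := x.injective
      obtain ⟨g, h0, h1, h2⟩ := exists_gl_triple (x 0) (x 1) (x 2)
        (fun h => by simpa using hinj h) (fun h => by simpa using hinj h) (fun h => by simpa using hinj h)
      -- scale by a square root of the inverse determinant
      obtain ⟨s, hs⟩ := FiniteField.isSquare_of_char_two hc (Matrix.GeneralLinearGroup.det g : Fˣ).1⁻¹
      have hs0 : s ≠ 0 := by
        rintro rfl
        have hne : (Matrix.GeneralLinearGroup.det g : Fˣ).1⁻¹ ≠ 0 := inv_ne_zero (Units.ne_zero _)
        exact hne (by rw [hs]; simp)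
      have hscal : ∀ v : Fin 2 → F, ∀ hv : v ≠ 0, ∀ hv' : (s • (g : Matrix (Fin 2) (Fin 2) F)).mulVec v ≠ 0, ∀ hv'' : g • v ≠ 0,
          Projectivization.mk F ((s • (g : Matrix (Fin 2) (Fin 2) F)).mulVec v) hv' = Projectivization.mk F (g • v) hv'' := by
        intro v hv hv' hv''
        rw [Projectivization.mk_eq_mk_iff']
        refine ⟨s, ?_⟩
        rw [Matrix.smul_mulVec]
        rfl
      have hd : (s • (g : Matrix (Fin 2) (Fin 2) F)).det = 1 := by
        rw [Matrix.det_smul, Fintype.card_fin]
        have hdd : (g : Matrix (Fin 2) (Fin 2) F).det = (Matrix.GeneralLinearGroup.det g : Fˣ).1 := rfl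
        rw [hdd]
        have hne : (Matrix.GeneralLinearGroup.det g : Fˣ).1 ≠ 0 := Units.ne_zero _
        rw [pow_two, ← hs, inv_mul_cancel₀ hne]
      let g' : Matrix.SpecialLinearGroup (Fin 2) F := ⟨s • (g : Matrix (Fin 2) (Fin 2) F), hd⟩
      have hact : ∀ p : Projectivization F (Fin 2 → F), g' • p = g • p := by
        intro p
        induction p using Projectivization.ind with | _ v hv =>
        rw [Projectivization.smul_mk, Projectivization.smul_mk]
        exact hscal v hv _ _
      refine ⟨g', ?_⟩
      ext i
      fin_cases i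
      · exact (hact _).trans h0
      · exact (hact _).trans h1
      · exact (hact _).trans h2
    refine ⟨fun x y => ?_⟩
    obtain ⟨g, hg⟩ := key x
    obtain ⟨h, hh⟩ := key y
    refine ⟨h * g⁻¹, ?_⟩
    rw [mul_smul, ← hg, inv_smul_smul, hh]

end Cfsg.Agent.S0267
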