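import Mathlib
import Cfsg.Statements.S0273
import Cfsg.Agent.Lib.Classical.GL2Sylow
-- import your own Cfsg.Agent.* helpers here

set_option autoImplicit false
open Cfsg

namespace Cfsg.Agent.S0273

open Cfsg.Agent.Lib.Classical.GL2Sylow in
/-- Centralizers of conjugate elements have the same order. -/
lemma card_centralizer_conj {G : Type*} [Group G] (h x : G) :
    Nat.card (Subgroup.centralizer ({h * x * h⁻¹} : Set G)) = Nat.card (Subgroup.centralizer ({x} : Set G)) := by
  refine Nat.card_congr ?_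
  refine (Equiv.subtypeEquiv (MulAut.conj h⁻¹).toEquiv ?_)
  intro y
  simp only [Subgroup.mem_centralizer_singleton_iff]
  simp only [MulEquiv.toEquiv_eq_coe, EquivLike.coe_coe, MulAut.conj_apply, inv_inv]
  constructor
  · intro hy
    have : y * (h * x * h⁻¹) = (h * x * h⁻¹) * y := hy
    calc h⁻¹ * y * h * x = h⁻¹ * (y * (h * x * h⁻¹)) * h := by group
      _ = h⁻¹ * ((h * x * h⁻¹) * y) * h := by rw [this]
      _ = x * (h⁻¹ * y * h) := by group
  · intro hy
    have : (h⁻¹ * y * h) * x = x * (h⁻¹ * y * h) := hy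
    calc y * (h * x * h⁻¹) = h * ((h⁻¹ * y * h) * x) * h⁻¹ := by group
      _ = h * (x * (h⁻¹ * y * h)) * h⁻¹ := by rw [this]
      _ = h * x * h⁻¹ * y := by group

open Cfsg.Agent.Lib.Classical.GL2Sylow in
/-- The centralizer of a nontrivial `up t`. -/
lemma card_centralizer_up {F : Type*} [Field F] [Fintype F] {t : F} (ht : t ≠ 0) :
    Nat.card (Subgroup.centralizer ({up t} : Set (Matrix.GeneralLinearGroup (Fin 2) F))) =
      Fintype.card F * (Fintype.card F - 1) := by
  -- centralizer ≃ Fˣ × F : (x, y) ↦ [[x, y], [0, x]]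
  classical
  have hcard : Nat.card (Fˣ × F) = Fintype.card F * (Fintype.card F - 1) := by
    rw [Nat.card_prod, Nat.card_eq_fintype_card, Nat.card_eq_fintype_card, Fintype.card_units, mul_comm]
  rw [← hcard]
  refine Nat.card_congr (Equiv.symm ?_)
  refine Equiv.ofBijective (fun xy => ⟨Matrix.GeneralLinearGroup.mkOfDetNeZero !![(xy.1 : F), xy.2; 0, (xy.1 : F)]
    (by simp [Matrix.det_fin_two]), ?_⟩) ⟨?_, ?_⟩
  · rw [Subgroup.mem_centralizer_singleton_iff]
    apply Units.ext
    ext i j
    fin_cases i <;> fin_cases j <;>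
      simp [Matrix.mul_apply, Fin.sum_univ_two, mul_comm, add_comm]
  · rintro ⟨x, y⟩ ⟨x', y'⟩ h
    have h' := congrArg Subtype.val h
    have h00 := val_congr h' 0 0
    have h01 := val_congr h' 0 1
    simp at h00 h01
    exact Prod.ext (Units.ext h00) h01
  · rintro ⟨g, hg⟩
    rw [Subgroup.mem_centralizer_singleton_iff] at hg
    have hval : ∀ i j, ((g * up t : Matrix.GeneralLinearGroup (Fin 2) F) : Matrix (Fin 2) (Fin 2) F) i j =
      ((up t * g : Matrix.GeneralLinearGroup (Fin 2) F) : Matrix (Fin 2) (Fin 2) F) i j := fun i j => val_congr hg i j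
    have h0 := hval 0 1
    have h1 := hval 1 1
    simp [Matrix.mul_apply, Fin.sum_univ_two] at h0 h1
    have hc : (g : Matrix (Fin 2) (Fin 2) F) 1 0 = 0 := by
      rcases h1 with h | h
      · exact h
      · exact absurd h ht
    have had : (g : Matrix (Fin 2) (Fin 2) F) 0 0 = (g : Matrix (Fin 2) (Fin 2) F) 1 1 := by
      have : (g : Matrix (Fin 2) (Fin 2) F) 0 0 * t = t * (g : Matrix (Fin 2) (Fin 2) F) 1 1 := by
        linear_combination h0
      exact mul_right_cancel₀ ht (by rw [this, mul_comm])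
    have hdet : ((g : Matrix (Fin 2) (Fin 2) F)).det ≠ 0 :=
      (g.isUnit.map (Matrix.detMonoidHom (n := Fin 2) (R := F))).ne_zero
    rw [Matrix.det_fin_two, hc] at hdet
    simp only [mul_zero, sub_zero] at hdet
    have hx : (g : Matrix (Fin 2) (Fin 2) F) 0 0 ≠ 0 := left_ne_zero_of_mul hdet
    refine ⟨(Units.mk0 _ hx, (g : Matrix (Fin 2) (Fin 2) F) 0 1), ?_⟩
    apply Subtype.ext
    apply Units.ext
    ext i j
    fin_cases i <;> fin_cases j <;> simp [hc, had]

/-- In GL_2(q) the centraliser of a non-trivial element of a Sylow p-subgroup (p the characteristic) has order q (q-1): the Sylow subgroup times the scalars. -/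
theorem result {F : Type*} [Field F] [Fintype F] {q : ℕ} (hF : Fintype.card F = q) (p : ℕ) [Fact p.Prime] [CharP F p] (P : Sylow p (Matrix.GeneralLinearGroup (Fin 2) F)) (a : Matrix.GeneralLinearGroup (Fin 2) F) (ha : a ∈ P) (ha1 : a ≠ 1) : Nat.card (Subgroup.centralizer ({a} : Set (Matrix.GeneralLinearGroup (Fin 2) F))) = q * (q - 1) := by
  open Cfsg.Agent.Lib.Classical.GL2Sylow in
  subst hF
  obtain ⟨h, rfl⟩ := exists_conj_U p P
  obtain ⟨t, rfl⟩ := (mem_smul_sylowU_iff p h a).mp ha
  have ht0 : t ≠ 0 := by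
    rintro rfl
    apply ha1
    simp
  rw [card_centralizer_conj, card_centralizer_up ht0]

end Cfsg.Agent.S0273
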