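import Cfsg.Statements.S0274
import Cfsg.Agent.Lib.QuadAct.SL2p
import Cfsg.Agent.Lib.Classical.SL2Prime

set_option autoImplicit false
open Cfsg
open Cfsg.Agent.Lib.Classical.SL2Prime

namespace Cfsg.Agent.S0274

/-- Dickson's Theorem for SL_2: if p is odd and H is a subgroup of SL_2(q), q a power of p, with more than one Sylow p-subgroup, then H contains a copy of SL_2(p). -/
theorem result {F : Type*} [Field F] [Fintype F] (p : ℕ) [Fact p.Prime] [CharP F p] (hp : p ≠ 2) (H : Subgroup (Matrix.SpecialLinearGroup (Fin 2) F)) (hH : 1 < Nat.card (Sylow p H)) : ∃ K : Subgroup (Matrix.SpecialLinearGroup (Fin 2) F), K ≤ H ∧ Nonempty (K ≃* Matrix.SpecialLinearGroup (Fin 2) (ZMod p)) := by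
  classical
  -- two different Sylow subgroups
  have : Nontrivial (Sylow p H) := (Finite.one_lt_card_iff_nontrivial).mp hH
  obtain ⟨Q₁, Q₂, hne⟩ := exists_pair_ne (Sylow p H)
  by_cases hall : ∀ a ∈ Q₁, ∀ b ∈ Q₂,
      IsPGroup p (Subgroup.closure {(a : Matrix.SpecialLinearGroup (Fin 2) F), (b : Matrix.SpecialLinearGroup (Fin 2) F)})
  · exfalso
    have hcomm : ∀ a ∈ Q₁, ∀ b ∈ Q₂, a * b = b * a := by
      intro a ha b hb
      have hY := hall a ha b hb
      have ha' : (a : Matrix.SpecialLinearGroup (Fin 2) F) ∈ Subgroup.closure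
          {(a : Matrix.SpecialLinearGroup (Fin 2) F), (b : Matrix.SpecialLinearGroup (Fin 2) F)} :=
        Subgroup.subset_closure (by simp)
      have hb' : (b : Matrix.SpecialLinearGroup (Fin 2) F) ∈ Subgroup.closure
          {(a : Matrix.SpecialLinearGroup (Fin 2) F), (b : Matrix.SpecialLinearGroup (Fin 2) F)} :=
        Subgroup.subset_closure (by simp)
      obtain ⟨i, hi⟩ := hY ⟨_, ha'⟩
      obtain ⟨j, hj⟩ := hY ⟨_, hb'⟩
      obtain ⟨k, hk⟩ := hY ⟨_, Subgroup.mul_mem _ ha' hb'⟩
      have hi' := congrArg Subtype.val hi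
      have hj' := congrArg Subtype.val hj
      have hk' := congrArg Subtype.val hk
      simp only [Subgroup.coe_pow, Subgroup.coe_one] at hi' hj' hk'
      apply Subtype.ext
      exact commute_of_trace _ _ (trace_eq_two (p := p) _ hi') (trace_eq_two (p := p) _ hj')
        (trace_eq_two (p := p) _ hk')
    have hnorm : (Q₁ : Subgroup H) ≤ Subgroup.normalizer ((Q₂ : Subgroup H) : Set H) := by
      intro a ha
      rw [Subgroup.mem_normalizer_iff]
      intro h
      constructor
      · intro hh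
        have : a * h * a⁻¹ = h := by
          rw [hcomm a ha h hh]
          group
        rw [this]
        exact hh
      · intro hh
        have hinv : a⁻¹ ∈ (Q₁ : Subgroup H) := inv_mem ha
        have := hcomm a⁻¹ hinv _ hh
        have h2 : h = a * h * a⁻¹ := by
          have h3 : a⁻¹ * (a * h * a⁻¹) = h * a⁻¹ := by group
          rw [h3] at this
          exact mul_right_cancel this
        rw [h2]
        exact hh
    have hsup := IsPGroup.to_sup_of_normal_right' Q₁.isPGroup' Q₂.isPGroup' hnorm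
    have h1 := Q₁.is_maximal' hsup (le_sup_left)
    have h2 := Q₂.is_maximal' hsup (le_sup_right)
    exact hne (Sylow.ext (h1.symm.trans h2))
  · push Not at hall
    obtain ⟨a, ha, b, hb, hnp⟩ := hall
    have hpa : ∀ (Q : Sylow p H), ∀ x ∈ (Q : Subgroup H),
        ((x : H) : Matrix.SpecialLinearGroup (Fin 2) F) ^ p = 1 := by
      intro Q x hx
      obtain ⟨i, hi⟩ := Q.isPGroup' ⟨x, hx⟩
      have hi' := congrArg (fun y : Q => ((y : H) : Matrix.SpecialLinearGroup (Fin 2) F)) hi
      simp only [Subgroup.coe_pow, Subgroup.coe_one] at hi'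
      exact pow_p_eq_one (p := p) _ hi'
    obtain ⟨ψ, hψ, hr⟩ := Cfsg.Agent.Lib.QuadAct.SL2p.exists_embedding_of_closure hp
      (a := (a : Matrix.SpecialLinearGroup (Fin 2) F))
      (b := (b : Matrix.SpecialLinearGroup (Fin 2) F)) (hpa Q₁ a ha) (hpa Q₂ b hb) hnp
    refine ⟨ψ.range, hr.trans ?_, ⟨(MonoidHom.ofInjective hψ).symm⟩⟩
    rw [Subgroup.closure_le]
    rintro x (rfl | rfl)
    · exact a.2
    · exact b.2

end Cfsg.Agent.S0274
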