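import Cfsg.Statements.S0275
import Cfsg.Agent.S0274
import Cfsg.Agent.S0016
import Cfsg.Agent.Lib.Classical.SL2Quat
set_option autoImplicit false
open Cfsg
open Cfsg.Agent.Lib.Classical.SL2Prime

namespace Cfsg.Agent.S0275

theorem quat_one_comm (x y : QuaternionGroup (2 ^ 0)) : x * y = y * x := by
  revert x y
  decide

theorem quat_not_comm (k : ℕ) (hk : 1 ≤ k) : ¬ ∀ x y : QuaternionGroup (2 ^ k), x * y = y * x := by
  intro h
  have h1 := h (QuaternionGroup.xa 0) (QuaternionGroup.a 1)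
  simp only [QuaternionGroup.xa_mul_a, QuaternionGroup.a_mul_xa, QuaternionGroup.xa.injEq] at h1
  have h2 : ((2 : ℕ) : ZMod (2 * 2 ^ k)) = 0 := by
    push_cast
    linear_combination h1
  rw [ZMod.natCast_eq_zero_iff] at h2
  have h3 := Nat.le_of_dvd (by norm_num) h2
  have h4 : 2 ≤ 2 ^ k := by
    calc 2 = 2 ^ 1 := rfl
      _ ≤ 2 ^ k := Nat.pow_le_pow_right (by norm_num) hk
  omega

/-- If p is odd and H is a subgroup of SL_2(q), q a power of p, with more than one Sylow p-subgroup, then the Sylow 2-subgroups of H are generalised quaternion. -/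
theorem result {F : Type*} [Field F] [Fintype F] (p : ℕ) [Fact p.Prime] [CharP F p] (hp : p ≠ 2) (H : Subgroup (Matrix.SpecialLinearGroup (Fin 2) F)) (hH : 1 < Nat.card (Sylow p H)) (S : Sylow 2 H) : ∃ k : ℕ, 1 ≤ k ∧ Nonempty ((S : Subgroup H) ≃* QuaternionGroup (2 ^ k)) := by
  classical
  have hpp : p.Prime := Fact.out
  have hF2 : (2 : F) ≠ 0 := by
    intro h
    have h1 : p ∣ 2 := (CharP.cast_eq_zero_iff F p 2).mp (by exact_mod_cast h)
    exact hp ((Nat.prime_dvd_prime_iff_eq hpp Nat.prime_two).mp h1)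
  obtain ⟨K, hKH, ⟨e⟩⟩ := Cfsg.Agent.S0274.result p hp H hH
  -- `S` is not commutative
  have hnc : ¬ ∀ x y : (S : Subgroup H), x * y = y * x := by
    intro hcomm
    obtain ⟨P₀⟩ : Nonempty (Sylow 2 (Matrix.SpecialLinearGroup (Fin 2) (ZMod p))) := inferInstance
    obtain ⟨k, hk, ⟨f⟩⟩ := Cfsg.Agent.Lib.Classical.SL2Quat.sylow_two_quaternion (F := ZMod p)
      (by rw [ZMod.card]; exact hpp.odd_of_ne_two hp) P₀
    let ι : Matrix.SpecialLinearGroup (Fin 2) (ZMod p) →* H :=
      (Subgroup.inclusion hKH).comp e.symm.toMonoidHom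
    have hι : Function.Injective ι :=
      (Subgroup.inclusion_injective hKH).comp e.symm.injective
    have hP₁ : IsPGroup 2 ((P₀ : Subgroup _).map ι) := P₀.isPGroup'.map ι
    obtain ⟨S', hS'⟩ := hP₁.exists_le_sylow
    have hcomm' : ∀ x y : (S' : Subgroup H), x * y = y * x := by
      intro x y
      have := hcomm (S'.equiv S x) (S'.equiv S y)
      rw [← map_mul, ← map_mul] at this
      exact (S'.equiv S).injective this
    refine quat_not_comm k hk fun x y => ?_
    have h1 := hcomm' ⟨ι (f.symm x : _), hS' ⟨_, (f.symm x).2, rfl⟩⟩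
      ⟨ι (f.symm y : _), hS' ⟨_, (f.symm y).2, rfl⟩⟩
    have h2 : ι ((f.symm x : _) * (f.symm y : _)) = ι ((f.symm y : _) * (f.symm x : _)) := by
      rw [map_mul, map_mul]
      exact congrArg Subtype.val h1
    have h3 := hι h2
    have h4 : f.symm (x * y) = f.symm (y * x) := by
      apply Subtype.ext
      rw [map_mul, map_mul]
      exact h3
    exact f.symm.injective h4
  -- involutions
  have hinv : ∀ x : (S : Subgroup H), x ^ 2 = 1 → x ≠ 1 →
      (((x : H) : Matrix.SpecialLinearGroup (Fin 2) F) : Matrix (Fin 2) (Fin 2) F) = -1 := by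
    intro x h1 h2
    apply eq_neg_one_of_sq hF2
    · have := congrArg (fun y : (S : Subgroup H) => ((y : H) : Matrix.SpecialLinearGroup (Fin 2) F)) h1
      simpa using this
    · intro h
      apply h2
      exact Subtype.ext (Subtype.ext h)
  have hT : ∀ T : Subgroup (S : Subgroup H), Nat.card T = 2 → ∀ x ∈ T, x ≠ 1 →
      (((x : H) : Matrix.SpecialLinearGroup (Fin 2) F) : Matrix (Fin 2) (Fin 2) F) = -1 := by
    intro T hTc x hx hx1
    apply hinv x _ hx1
    have h1 : (⟨x, hx⟩ : T) ^ Nat.card T = 1 := pow_card_eq_one'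
    rw [hTc] at h1
    have := congrArg Subtype.val h1
    simpa using this
  have hT' : ∀ T : Subgroup (S : Subgroup H), Nat.card T = 2 → ∃ x ∈ T, x ≠ 1 := by
    intro T hTc
    have : Nontrivial T := Finite.one_lt_card_iff_nontrivial.mp (by omega)
    obtain ⟨x, hx⟩ := exists_ne (1 : T)
    exact ⟨x, x.2, fun h => hx (Subtype.ext h)⟩
  have hle : ∀ T₁ T₂ : Subgroup (S : Subgroup H), Nat.card T₁ = 2 → Nat.card T₂ = 2 → T₁ ≤ T₂ := by
    intro T₁ T₂ h1 h2 x hx
    by_cases hx1 : x = 1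
    · rw [hx1]; exact one_mem _
    obtain ⟨y, hy, hy1⟩ := hT' T₂ h2
    have h3 := hT T₁ h1 x hx hx1
    have h4 := hT T₂ h2 y hy hy1
    have h5 : x = y := Subtype.ext (Subtype.ext (Subtype.ext (h3.trans h4.symm)))
    rw [h5]
    exact hy
  rcases Cfsg.Agent.S0016.result (G := (S : Subgroup H)) 2 S.isPGroup'
      (fun T₁ T₂ h1 h2 => le_antisymm (hle _ _ h1 h2) (hle _ _ h2 h1)) with hc | ⟨-, n, ⟨f⟩⟩
  · exfalso
    apply hnc
    intro x y
    exact (IsCyclic.isMulCommutative (α := (S : Subgroup H))).is_comm.comm x y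
  · rcases Nat.eq_zero_or_pos n with rfl | hn
    · exfalso
      apply hnc
      intro x y
      apply f.injective
      rw [map_mul, map_mul]
      exact quat_one_comm _ _
    · exact ⟨n, hn, ⟨f⟩⟩

end Cfsg.Agent.S0275
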