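import Mathlib
import Cfsg.Statements.S0282
import Cfsg.Agent.S0280
import Cfsg.Agent.S0144
-- import your own Cfsg.Agent.* helpers here

set_option autoImplicit false
open Cfsg

namespace Cfsg.Agent.S0282

/-- PSU_3(2) is a solvable group of order 72. -/
theorem result {F : Type*} [Field F] [Fintype F] (hF : Fintype.card F = 4) : Nat.card (Cfsg.PSU 3 F 2) = 72 ∧ Group.IsSolvable (Cfsg.PSU 3 F 2) := by
  have h := Cfsg.Agent.S0280.result (F := F) (q := 2) (by rw [hF]; norm_num) 3 (by norm_num)
  have hc : Nat.card (Cfsg.PSU 3 F 2) = 72 := by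
    simp [Finset.prod_range_succ, Nat.even_iff] at h
    omega
  refine ⟨hc, ?_⟩
  have hfin : Finite (Cfsg.PSU 3 F 2) := Nat.finite_of_card_ne_zero (by rw [hc]; norm_num)
  exact Cfsg.Agent.S0144.result 2 3 3 2 Nat.prime_two Nat.prime_three (by rw [hc]; norm_num)

end Cfsg.Agent.S0282
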