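import Cfsg.Statements.S0286
import Cfsg.Agent.Lib.Classical.QuadOrders
-- import your own Cfsg.Agent.* helpers here

set_option autoImplicit false
open Cfsg

namespace Cfsg.Agent.S0286

/-- |GO_{2m+1}(q)| = 2 q^(m^2) prod_{i=1}^{m} (q^(2i) - 1) for q odd. -/
theorem result {F : Type*} [Field F] [Fintype F] {q : ℕ} (hF : Fintype.card F = q) (hodd : Odd q) (m : ℕ) : Nat.card (Cfsg.isometryGroup F (Cfsg.quadFormOdd m F)) = 2 * q ^ (m ^ 2) * ∏ i ∈ Finset.range m, (q ^ (2 * (i + 1)) - 1) := by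
  classical
  have hq : Nat.card F = q := by rw [Nat.card_eq_fintype_card, hF]
  have h2 : (2 : F) ≠ 0 := by
    intro h
    have : CharP F 2 := CharTwo.of_one_ne_zero_of_two_eq_zero one_ne_zero h
    obtain ⟨n, hp, hc⟩ := FiniteField.card F 2
    rw [hF] at hc
    rw [hc] at hodd
    exact (Nat.not_even_iff_odd.2 hodd) ((Nat.even_pow.2 ⟨even_two, n.ne_zero⟩))
  exact Cfsg.Agent.Lib.Classical.QuadOrders.card_isometry_odd hq h2 m

end Cfsg.Agent.S0286
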