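import Mathlib
import Cfsg.Statements.S0298
import Cfsg.Agent.Lib.Classical.LowOmega.Generic
import Cfsg.Agent.Lib.Classical.LowOmega.CenterPSL2
import Cfsg.Agent.Lib.Classical.CommutatorGL
import Cfsg.Agent.Lib.Classical.SL2Sylow
import Cfsg.Agent.Lib.Orth.Closure
import Cfsg.Agent.Lib.Orth.Forms
import Cfsg.Agent.S0286
-- import your own Cfsg.Agent.* helpers here

set_option autoImplicit false
open Cfsg

namespace Cfsg.Agent.S0298

open Matrix Cfsg Cfsg.Agent.Lib.Classical.LowOmega
open scoped MatrixGroups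

variable {F : Type*} [Field F]

/-- The conjugation action on `2 × 2` matrices. -/
noncomputable def tau : GL (Fin 2) F →* Module.End F (Matrix (Fin 2) (Fin 2) F) where
  toFun g :=
    { toFun := fun M => g.1 * M * (g⁻¹).1
      map_add' := fun A B => by simp [Matrix.mul_add, Matrix.add_mul]
      map_smul' := fun c A => by simp }
  map_one' := by
    ext M i j
    simp
  map_mul' a b := by
    apply LinearMap.ext
    intro M
    show (a * b).1 * M * ((a * b)⁻¹).1 = a.1 * (b.1 * M * (b⁻¹).1) * (a⁻¹).1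
    simp only [_root_.mul_inv_rev, Units.val_mul, Matrix.mul_assoc]

theorem tau_apply (g : GL (Fin 2) F) (M : Matrix (Fin 2) (Fin 2) F) :
    tau g M = g.1 * M * (g⁻¹).1 := rfl

/-- The section: trace zero matrices. -/
noncomputable def sec : (Unit ⊕ (Fin 1 ⊕ Fin 1) → F) →ₗ[F] Matrix (Fin 2) (Fin 2) F where
  toFun v := !![v (.inl ()), v (.inr (.inl 0)); v (.inr (.inr 0)), - v (.inl ())]
  map_add' u v := by
    ext i j
    fin_cases i <;> fin_cases j <;> simp
    ring
  map_smul' c v := by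
    ext i j
    fin_cases i <;> fin_cases j <;> simp

/-- The retraction. -/
noncomputable def ret : Matrix (Fin 2) (Fin 2) F →ₗ[F] (Unit ⊕ (Fin 1 ⊕ Fin 1) → F) where
  toFun M := Sum.elim (fun _ => M 0 0) (Sum.elim (fun _ => M 0 1) (fun _ => M 1 0))
  map_add' u v := by
    ext i
    rcases i with i | i | i <;> simp
  map_smul' c v := by
    ext i
    rcases i with i | i | i <;> simp

theorem ret_sec (v : Unit ⊕ (Fin 1 ⊕ Fin 1) → F) : ret (sec v) = v := by
  ext i
  rcases i with i | i | i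
  · simp [ret, sec]
  · fin_cases i
    simp [ret, sec]
  · fin_cases i
    simp [ret, sec]

theorem sec_ret {M : Matrix (Fin 2) (Fin 2) F} (h : M.trace = 0) : sec (ret M) = M := by
  have h' : M 1 1 = - M 0 0 := by
    rw [Matrix.trace_fin_two] at h
    linear_combination h
  ext i j
  fin_cases i <;> fin_cases j <;> simp [ret, sec, h']

theorem trace_tau (g : GL (Fin 2) F) (M : Matrix (Fin 2) (Fin 2) F) : (tau g M).trace = M.trace := by
  rw [tau_apply, Matrix.trace_mul_comm, ← Matrix.mul_assoc, ← Units.val_mul, inv_mul_cancel,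
    Units.val_one, Matrix.one_mul]

theorem trace_sec (v : Unit ⊕ (Fin 1 ⊕ Fin 1) → F) : (sec v).trace = 0 := by
  simp [sec, Matrix.trace_fin_two]

theorem det_tau (g : GL (Fin 2) F) (M : Matrix (Fin 2) (Fin 2) F) : (tau g M).det = M.det := by
  rw [tau_apply, Matrix.det_mul, Matrix.det_mul, mul_comm _ M.det, mul_assoc, ← Matrix.det_mul,
    ← Units.val_mul, mul_inv_cancel, Units.val_one, Matrix.det_one, mul_one]

/-- The representation on the three-dimensional space. -/
noncomputable def rho : GL (Fin 2) F →* ((Unit ⊕ (Fin 1 ⊕ Fin 1) → F) ≃ₗ[F] (Unit ⊕ (Fin 1 ⊕ Fin 1) → F)) :=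
  repOfSection tau sec ret ret_sec (fun g w => sec_ret (by rw [trace_tau, trace_sec]))

theorem sec_rho (g : GL (Fin 2) F) (v : Unit ⊕ (Fin 1 ⊕ Fin 1) → F) :
    sec (rho g v) = tau g (sec v) := by
  have : rho g v = ret (tau g (sec v)) := rfl
  rw [this]
  exact sec_ret (by rw [trace_tau, trace_sec])

theorem det_sec (v : Unit ⊕ (Fin 1 ⊕ Fin 1) → F) : - (sec v).det = quadFormOdd 1 F v := by
  simp [sec, quadFormOdd, Matrix.det_fin_two]
  ring

/-- The homomorphism from `GL₂` to the isometry group. -/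
noncomputable def Psi : GL (Fin 2) F →* isometryGroup F (quadFormOdd 1 F) :=
  homOfRep₀ (quadFormOdd 1 F) rho (fun g v => by
    rw [← det_sec, sec_rho, det_tau, det_sec])

/-- The homomorphism from `SL₂`. -/
noncomputable def phi : SL(2, F) →* isometryGroup F (quadFormOdd 1 F) :=
  Psi.comp SpecialLinearGroup.toGL

theorem mem_ker_phi {g : SL(2, F)} (hg : g ∈ (phi (F := F)).ker) (M : Matrix (Fin 2) (Fin 2) F)
    (hM : M.trace = 0) : g.1 * M = M * g.1 := by
  have h1 : SpecialLinearGroup.toGL g ∈ (Psi (F := F)).ker := hg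
  rw [Psi, mem_ker_homOfRep₀, MonoidHom.mem_ker] at h1
  have h2 := sec_rho (SpecialLinearGroup.toGL g) (ret M)
  rw [h1, sec_ret hM] at h2
  have h3 : M = g.1 * M * ((SpecialLinearGroup.toGL g)⁻¹).1 := by
    simpa [tau_apply, sec_ret hM] using h2
  have h4 : ((SpecialLinearGroup.toGL g)⁻¹).1 * g.1 = 1 := by
    have : (SpecialLinearGroup.toGL g).1 = g.1 := rfl
    rw [← this, ← Units.val_mul, inv_mul_cancel, Units.val_one]
  calc g.1 * M = g.1 * M * (((SpecialLinearGroup.toGL g)⁻¹).1 * g.1) := by rw [h4, Matrix.mul_one]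
    _ = (g.1 * M * ((SpecialLinearGroup.toGL g)⁻¹).1) * g.1 := by simp only [Matrix.mul_assoc]
    _ = M * g.1 := by rw [← h3]

/-- The element `-1` of `SL₂`. -/
noncomputable def neg1 : SL(2, F) := ⟨-1, by simp [Matrix.det_fin_two]⟩

theorem ker_phi {A : SL(2, F)} (hg : A ∈ (phi (F := F)).ker) : A = 1 ∨ A = neg1 := by
  have h := mem_ker_phi hg
  have h12 := h !![0, 1; 0, 0] (by simp [Matrix.trace_fin_two])
  have hdet : A.1 0 0 * A.1 1 1 - A.1 0 1 * A.1 1 0 = 1 := by
    have := A.2
    rwa [Matrix.det_fin_two] at this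
  have e00 := congrFun (congrFun h12 0) 0
  have e01 := congrFun (congrFun h12 0) 1
  have h21 := h !![0, 0; 1, 0] (by simp [Matrix.trace_fin_two])
  have f00 := congrFun (congrFun h21 0) 0
  simp [Matrix.mul_apply, Fin.sum_univ_two] at e00 e01 f00
  rw [← e00, f00, ← e01] at hdet
  have hs : (A.1 0 0 - 1) * (A.1 0 0 + 1) = 0 := by linear_combination hdet
  rcases mul_eq_zero.mp hs with h' | h'
  · left
    have ha : A.1 0 0 = 1 := sub_eq_zero.mp h'
    apply Subtype.ext
    ext i j
    fin_cases i <;> fin_cases j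
    · simpa using ha
    · simpa using f00
    · simpa using e00.symm
    · simpa [ha] using e01.symm
  · right
    have ha : A.1 0 0 = -1 := eq_neg_of_add_eq_zero_left h'
    apply Subtype.ext
    ext i j
    fin_cases i <;> fin_cases j
    · simpa [neg1] using ha
    · simpa [neg1] using f00
    · simpa [neg1] using e00.symm
    · simpa [neg1, ha] using e01.symm

theorem phi_neg : (neg1 : SL(2, F)) ∈ (phi (F := F)).ker := by
  show SpecialLinearGroup.toGL neg1 ∈ (Psi (F := F)).ker
  rw [Psi, mem_ker_homOfRep₀, MonoidHom.mem_ker]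
  apply LinearEquiv.ext
  intro v
  show ret ((-1 : Matrix (Fin 2) (Fin 2) F) * sec v * ((SpecialLinearGroup.toGL neg1)⁻¹).1) = v
  have h : ((SpecialLinearGroup.toGL (neg1 : SL(2, F)))⁻¹).1 = -1 := by
    have e : (SpecialLinearGroup.toGL (neg1 : SL(2, F))).1 * (-1) = 1 := by
      show (-1 : Matrix (Fin 2) (Fin 2) F) * (-1) = 1
      simp
    exact (Units.inv_eq_of_mul_eq_one_right e)
  rw [h]
  simp [ret_sec]

theorem neg1_center : (neg1 : SL(2, F)) ∈ Subgroup.center (SL(2, F)) := by
  rw [Subgroup.mem_center_iff]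
  intro x
  apply Subtype.ext
  show x.1 * (neg1 : SL(2, F)).1 = (neg1 : SL(2, F)).1 * x.1
  simp [neg1]

theorem numeric (q : ℕ) (hq : 2 ≤ q) :
    2 * q * (q ^ 2 - 1) = 2 * (q * ((q - 1) * (q + 1))) := by
  obtain ⟨s, rfl⟩ : ∃ s, q = s + 2 := ⟨q - 2, by omega⟩
  have e6 : 1 ≤ (s + 2) ^ 2 := Nat.one_le_pow _ _ (by omega)
  zify [e6, show 1 ≤ s + 2 by omega]
  ring

/-- PΩ_3(q) is isomorphic to PSL_2(q) for q odd. -/
theorem result {F : Type*} [Field F] [Fintype F] (hodd : Odd (Fintype.card F)) : Nonempty (Cfsg.POmega F (Cfsg.quadFormOdd 1 F) ≃* Matrix.ProjectiveSpecialLinearGroup (Fin 2) F) := by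
  classical
  have h2 : (2 : F) ≠ 0 := by
    intro h
    have : CharP F 2 := CharTwo.of_one_ne_zero_of_two_eq_zero one_ne_zero h
    obtain ⟨n, hp, hc⟩ := FiniteField.card F 2
    rw [hc] at hodd
    have : Even (2 ^ (n : ℕ)) := (Nat.even_pow.mpr ⟨even_two, n.ne_zero⟩)
    exact (Nat.not_even_iff_odd.mpr hodd) this
  have hex : ∃ a : F, a ≠ 0 ∧ a ≠ 1 := by
    refine ⟨-1, by simp, ?_⟩
    intro h
    exact h2 (by linear_combination -h)
  have hc := Cfsg.Agent.Lib.Classical.CommutatorGL.commutator_gl_eq_ker_det (F := F) 2 (fun _ => hex)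
  have hmem : ∀ g, phi (F := F) g ∈ commutator (isometryGroup F (quadFormOdd 1 F)) := by
    intro g
    show Psi (SpecialLinearGroup.toGL g) ∈ _
    apply map_mem_commutator
    rw [hc, MonoidHom.mem_ker]
    apply Units.ext
    exact g.2
  have hO : Nat.card (isometryGroup F (quadFormOdd 1 F)) = 2 * Nat.card (SL(2, F)) := by
    rw [Cfsg.Agent.S0286.result (F := F) rfl hodd 1, Cfsg.Agent.Lib.Classical.SL2Sylow.card_SL2]
    simpa [Finset.prod_range_succ] using numeric (Fintype.card F) Fintype.one_lt_card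
  refine commutator_quotient_equiv (phi (F := F)) (QuotientGroup.mk' _)
    (QuotientGroup.mk'_surjective _) (QuotientGroup.ker_mk' _) center_psl_two_eq_bot ?_ hmem ?_
  · intro g hg
    rw [QuotientGroup.ker_mk']
    rcases ker_phi hg with rfl | rfl
    · exact Subgroup.one_mem _
    · exact neg1_center
  · refine index_mul_card_range _ neg1 phi_neg (fun g hg => ker_phi hg) ?_ ?_ hO
    · intro _
      exact Cfsg.Agent.Lib.Orth.Closure.index_Omega_odd (Cfsg.Agent.Lib.Orth.Forms.oddForm 1 F) h2 (by simp)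
        (Cfsg.Agent.Lib.Orth.Forms.oddForm_nondeg 1 h2)
    · intro he
      exfalso
      have h1 : (-1 : F) = 1 := by
        have := congrArg (fun g : SL(2, F) => g.1 0 0) he
        simpa [neg1] using this
      exact h2 (by linear_combination -h1)

end Cfsg.Agent.S0298
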