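import Mathlib
import Cfsg.Statements.S0299
import Cfsg.Agent.Lib.Classical.LowOmega.Generic
import Cfsg.Agent.Lib.Classical.LowOmega.CenterPSL2
import Cfsg.Agent.Lib.Classical.CommutatorGL
import Cfsg.Agent.Lib.Classical.SL2Sylow
import Cfsg.Agent.Lib.Orth.Closure
import Cfsg.Agent.Lib.Orth.Forms
import Cfsg.Agent.S0287
-- import your own Cfsg.Agent.* helpers here

set_option autoImplicit false
open Cfsg

namespace Cfsg.Agent.S0299

open Matrix Cfsg Cfsg.Agent.Lib.Classical.LowOmega
open scoped MatrixGroups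

variable {F : Type*} [Field F]

/-- The coordinates. -/
noncomputable def coord : (Fin 2 ⊕ Fin 2 → F) ≃ₗ[F] Matrix (Fin 2) (Fin 2) F where
  toFun v := !![v (.inl 0), - v (.inl 1); v (.inr 1), v (.inr 0)]
  invFun M := Sum.elim ![M 0 0, - M 0 1] ![M 1 1, M 1 0]
  map_add' u v := by
    ext i j
    fin_cases i <;> fin_cases j <;> simp <;> ring
  map_smul' c v := by
    ext i j
    fin_cases i <;> fin_cases j <;> simp
  left_inv v := by
    ext i
    rcases i with i | i <;> fin_cases i <;> simp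
  right_inv M := by
    ext i j
    fin_cases i <;> fin_cases j <;> simp

theorem det_coord (v : Fin 2 ⊕ Fin 2 → F) : (coord v).det = quadFormPlus 2 F v := by
  simp [coord, quadFormPlus, Fin.sum_univ_two, Matrix.det_fin_two]

/-- The action `M ↦ X M Y⁻¹`. -/
noncomputable def rep : (GL (Fin 2) F × GL (Fin 2) F) →* (Matrix (Fin 2) (Fin 2) F ≃ₗ[F] Matrix (Fin 2) (Fin 2) F) where
  toFun p :=
    { toFun := fun M => p.1.1 * M * (p.2⁻¹).1
      invFun := fun M => (p.1⁻¹).1 * M * p.2.1
      map_add' := fun A B => by simp [Matrix.mul_add, Matrix.add_mul]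
      map_smul' := fun c A => by simp [Matrix.mul_smul, Matrix.smul_mul]
      left_inv := fun M => by
        show (p.1⁻¹).1 * (p.1.1 * M * (p.2⁻¹).1) * p.2.1 = M
        have h1 : (p.1⁻¹).1 * p.1.1 = 1 := by rw [← Units.val_mul, inv_mul_cancel, Units.val_one]
        have h2 : (p.2⁻¹).1 * p.2.1 = 1 := by rw [← Units.val_mul, inv_mul_cancel, Units.val_one]
        calc (p.1⁻¹).1 * (p.1.1 * M * (p.2⁻¹).1) * p.2.1
            = ((p.1⁻¹).1 * p.1.1) * M * ((p.2⁻¹).1 * p.2.1) := by simp only [Matrix.mul_assoc]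
          _ = M := by rw [h1, h2, Matrix.one_mul, Matrix.mul_one]
      right_inv := fun M => by
        show p.1.1 * ((p.1⁻¹).1 * M * p.2.1) * (p.2⁻¹).1 = M
        have h1 : p.1.1 * (p.1⁻¹).1 = 1 := by rw [← Units.val_mul, mul_inv_cancel, Units.val_one]
        have h2 : p.2.1 * (p.2⁻¹).1 = 1 := by rw [← Units.val_mul, mul_inv_cancel, Units.val_one]
        calc p.1.1 * ((p.1⁻¹).1 * M * p.2.1) * (p.2⁻¹).1
            = (p.1.1 * (p.1⁻¹).1) * M * (p.2.1 * (p.2⁻¹).1) := by simp only [Matrix.mul_assoc]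
          _ = M := by rw [h1, h2, Matrix.one_mul, Matrix.mul_one] }
  map_one' := by
    apply LinearEquiv.ext
    intro M
    simp
  map_mul' a b := by
    apply LinearEquiv.ext
    intro M
    show (a * b).1.1 * M * ((a * b).2⁻¹).1 = a.1.1 * (b.1.1 * M * (b.2⁻¹).1) * (a.2⁻¹).1
    simp only [Prod.fst_mul, Prod.snd_mul, _root_.mul_inv_rev, Units.val_mul, Matrix.mul_assoc]

theorem rep_apply (p : GL (Fin 2) F × GL (Fin 2) F) (M : Matrix (Fin 2) (Fin 2) F) :
    rep p M = p.1.1 * M * (p.2⁻¹).1 := rfl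

/-- The subgroup of pairs with equal determinant. -/
noncomputable def D (F : Type*) [Field F] : Subgroup (GL (Fin 2) F × GL (Fin 2) F) :=
  ((GeneralLinearGroup.det : GL (Fin 2) F →* Fˣ).comp (MonoidHom.fst _ _)).eqLocus
    ((GeneralLinearGroup.det : GL (Fin 2) F →* Fˣ).comp (MonoidHom.snd _ _))

theorem mem_D {p : GL (Fin 2) F × GL (Fin 2) F} : p ∈ D F ↔ p.1.1.det = p.2.1.det := by
  show (GeneralLinearGroup.det p.1 = GeneralLinearGroup.det p.2) ↔ _
  rw [Units.ext_iff]
  rfl

/-- The homomorphism to the isometry group. -/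
noncomputable def Psi : D F →* isometryGroup F (quadFormPlus 2 F) :=
  homOfRep (quadFormPlus 2 F) coord Matrix.det det_coord (rep.comp (D F).subtype) (fun g M => by
    have hg := mem_D.mp g.2
    show (rep (g : GL (Fin 2) F × GL (Fin 2) F) M).det = M.det
    rw [rep_apply, Matrix.det_mul, Matrix.det_mul, hg, mul_comm _ M.det, mul_assoc, ← Matrix.det_mul]
    have h2 : (g.1.2).1 * (g.1.2⁻¹).1 = 1 := by
      rw [← Units.val_mul, mul_inv_cancel, Units.val_one]
    rw [h2, Matrix.det_one, mul_one])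

/-- Diagonal matrices `diag(t, 1)`. -/
noncomputable def dg : Fˣ →* GL (Fin 2) F where
  toFun t :=
    { val := !![(t : F), 0; 0, 1]
      inv := !![((t⁻¹ : Fˣ) : F), 0; 0, 1]
      val_inv := by
        ext i j
        fin_cases i <;> fin_cases j <;> simp
      inv_val := by
        ext i j
        fin_cases i <;> fin_cases j <;> simp }
  map_one' := by
    apply Units.ext
    ext i j
    fin_cases i <;> fin_cases j <;> simp
  map_mul' a b := by
    apply Units.ext
    ext i j
    fin_cases i <;> fin_cases j <;> simp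

theorem det_dg (t : Fˣ) : (dg t : GL (Fin 2) F).1.det = t := by
  simp [dg, Matrix.det_fin_two]

/-- `X ↦ (X, diag(det X, 1))`. -/
noncomputable def j₁ : GL (Fin 2) F →* D F :=
  (MonoidHom.prod (MonoidHom.id _) (dg.comp GeneralLinearGroup.det)).codRestrict _ (fun X => by
    rw [mem_D]
    simp [det_dg])

/-- `Y ↦ (diag(det Y, 1), Y)`. -/
noncomputable def j₂ : GL (Fin 2) F →* D F :=
  (MonoidHom.prod (dg.comp GeneralLinearGroup.det) (MonoidHom.id _)).codRestrict _ (fun X => by
    rw [mem_D]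
    simp [det_dg])

/-- The inclusion of `SL₂ × SL₂`. -/
noncomputable def incl : (SL(2, F) × SL(2, F)) →* D F :=
  (MonoidHom.prodMap SpecialLinearGroup.toGL SpecialLinearGroup.toGL).codRestrict _ (fun X => by
    rw [mem_D]
    show X.1.1.det = X.2.1.det
    rw [X.1.2, X.2.2])

theorem det_toGL (A : SL(2, F)) : GeneralLinearGroup.det (SpecialLinearGroup.toGL A) = 1 := by
  apply Units.ext
  exact A.2

theorem incl_eq (A B : SL(2, F)) :
    incl (A, B) = j₁ (SpecialLinearGroup.toGL A) * j₂ (SpecialLinearGroup.toGL B) := by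
  apply Subtype.ext
  apply Prod.ext
  · show SpecialLinearGroup.toGL A = SpecialLinearGroup.toGL A * dg (GeneralLinearGroup.det (SpecialLinearGroup.toGL B))
    rw [det_toGL, map_one, mul_one]
  · show SpecialLinearGroup.toGL B = dg (GeneralLinearGroup.det (SpecialLinearGroup.toGL A)) * SpecialLinearGroup.toGL B
    rw [det_toGL, map_one, one_mul]

/-- The homomorphism `SL₂ × SL₂ → O⁺₄`. -/
noncomputable def phi : (SL(2, F) × SL(2, F)) →* isometryGroup F (quadFormPlus 2 F) :=
  Psi.comp incl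

theorem phi_mem (h : ∃ a : F, a ≠ 0 ∧ a ≠ 1) (g : SL(2, F) × SL(2, F)) :
    phi g ∈ commutator (isometryGroup F (quadFormPlus 2 F)) := by
  have hc := Cfsg.Agent.Lib.Classical.CommutatorGL.commutator_gl_eq_ker_det (F := F) 2 (fun _ => h)
  have hm : ∀ A : SL(2, F), SpecialLinearGroup.toGL A ∈ commutator (GL (Fin 2) F) := by
    intro A
    rw [hc, MonoidHom.mem_ker]
    exact det_toGL A
  obtain ⟨A, B⟩ := g
  show Psi (incl (A, B)) ∈ _
  rw [incl_eq, map_mul]
  apply Subgroup.mul_mem
  · exact map_mem_commutator (Psi.comp j₁) (hm A)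
  · exact map_mem_commutator (Psi.comp j₂) (hm B)

theorem mem_ker_phi {g : SL(2, F) × SL(2, F)} (hg : g ∈ (phi (F := F)).ker) :
    ∀ M : Matrix (Fin 2) (Fin 2) F, g.1.1 * M = M * g.2.1 := by
  intro M
  have h1 : incl g ∈ (Psi (F := F)).ker := hg
  rw [Psi, mem_ker_homOfRep, MonoidHom.mem_ker] at h1
  have h2 := congrArg (fun f => f M) h1
  have h3 : g.1.1 * M * ((SpecialLinearGroup.toGL g.2)⁻¹).1 = M := h2
  have h4 : ((SpecialLinearGroup.toGL g.2)⁻¹).1 * g.2.1 = 1 := by
    have : (SpecialLinearGroup.toGL g.2).1 = g.2.1 := rfl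
    rw [← this, ← Units.val_mul, inv_mul_cancel, Units.val_one]
  calc g.1.1 * M = g.1.1 * M * (((SpecialLinearGroup.toGL g.2)⁻¹).1 * g.2.1) := by rw [h4, Matrix.mul_one]
    _ = (g.1.1 * M * ((SpecialLinearGroup.toGL g.2)⁻¹).1) * g.2.1 := by simp only [Matrix.mul_assoc]
    _ = M * g.2.1 := by rw [h3]

/-- The element `-1` of `SL₂`. -/
noncomputable def neg1 : SL(2, F) := ⟨-1, by simp [Matrix.det_fin_two]⟩

theorem ker_phi {g : SL(2, F) × SL(2, F)} (hg : g ∈ (phi (F := F)).ker) :
    g = 1 ∨ g = (neg1, neg1) := by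
  have h := mem_ker_phi hg
  obtain ⟨A, B⟩ := g
  have h1 := h 1
  simp only [Matrix.mul_one, Matrix.one_mul] at h1
  have hAB : A = B := Subtype.ext h1
  subst hAB
  have h12 := h !![0, 1; 0, 0]
  have hdet : A.1 0 0 * A.1 1 1 - A.1 0 1 * A.1 1 0 = 1 := by
    have := A.2
    rwa [Matrix.det_fin_two] at this
  have e00 := congrFun (congrFun h12 0) 0
  have e01 := congrFun (congrFun h12 0) 1
  have h21 := h !![0, 0; 1, 0]
  have f00 := congrFun (congrFun h21 0) 0
  simp [Matrix.mul_apply, Fin.sum_univ_two] at e00 e01 f00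
  rw [← e00, f00, ← e01] at hdet
  have hs : (A.1 0 0 - 1) * (A.1 0 0 + 1) = 0 := by linear_combination hdet
  rcases mul_eq_zero.mp hs with h' | h'
  · left
    have ha : A.1 0 0 = 1 := sub_eq_zero.mp h'
    have hA : A = 1 := by
      apply Subtype.ext
      ext i j
      fin_cases i <;> fin_cases j
      · simpa using ha
      · simpa using f00
      · simpa using e00.symm
      · simpa [ha] using e01.symm
    rw [hA]
    rfl
  · right
    have ha : A.1 0 0 = -1 := eq_neg_of_add_eq_zero_left h'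
    have hA : A = neg1 := by
      apply Subtype.ext
      ext i j
      fin_cases i <;> fin_cases j
      · simpa [neg1] using ha
      · simpa [neg1] using f00
      · simpa [neg1] using e00.symm
      · simpa [neg1, ha] using e01.symm
    rw [hA]

theorem phi_neg : ((neg1, neg1) : SL(2, F) × SL(2, F)) ∈ (phi (F := F)).ker := by
  show incl (neg1, neg1) ∈ (Psi (F := F)).ker
  rw [Psi, mem_ker_homOfRep, MonoidHom.mem_ker]
  apply LinearEquiv.ext
  intro M
  show (-1 : Matrix (Fin 2) (Fin 2) F) * M * ((SpecialLinearGroup.toGL neg1)⁻¹).1 = M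
  have h : ((SpecialLinearGroup.toGL (neg1 : SL(2, F)))⁻¹).1 = -1 := by
    have e : (SpecialLinearGroup.toGL (neg1 : SL(2, F))).1 * (-1) = 1 := by
      show (-1 : Matrix (Fin 2) (Fin 2) F) * (-1) = 1
      simp
    exact (Units.inv_eq_of_mul_eq_one_right e)
  rw [h]
  simp

theorem neg1_center : (neg1 : SL(2, F)) ∈ Subgroup.center (SL(2, F)) := by
  rw [Subgroup.mem_center_iff]
  intro x
  apply Subtype.ext
  show x.1 * (neg1 : SL(2, F)).1 = (neg1 : SL(2, F)).1 * x.1
  simp [neg1]

/-- The projection to `PSL₂ × PSL₂`. -/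
noncomputable def piT : (SL(2, F) × SL(2, F)) →*
    (Matrix.ProjectiveSpecialLinearGroup (Fin 2) F × Matrix.ProjectiveSpecialLinearGroup (Fin 2) F) :=
  MonoidHom.prodMap (QuotientGroup.mk' _) (QuotientGroup.mk' _)

theorem numeric (q : ℕ) (hq : 2 ≤ q) :
    2 * q ^ 2 * (q ^ 2 - 1) * (q ^ 2 - 1) = 2 * ((q * ((q - 1) * (q + 1))) * (q * ((q - 1) * (q + 1)))) := by
  obtain ⟨s, rfl⟩ : ∃ s, q = s + 2 := ⟨q - 2, by omega⟩
  have e6 : 1 ≤ (s + 2) ^ 2 := Nat.one_le_pow _ _ (by omega)
  zify [e6, show 1 ≤ s + 2 by omega]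
  ring

/-- PΩ^+_4(q) is isomorphic to PSL_2(q) x PSL_2(q) for q at least 3. -/
theorem result {F : Type*} [Field F] [Fintype F] (hF : 3 ≤ Fintype.card F) : Nonempty (Cfsg.POmega F (Cfsg.quadFormPlus 2 F) ≃* Matrix.ProjectiveSpecialLinearGroup (Fin 2) F × Matrix.ProjectiveSpecialLinearGroup (Fin 2) F) := by
  classical
  have hex : ∃ a : F, a ≠ 0 ∧ a ≠ 1 := by
    by_contra hcon
    push Not at hcon
    have hle : Fintype.card F ≤ 2 := by
      have : (Finset.univ : Finset F) ⊆ {0, 1} := by
        intro x _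
        by_cases hx : x = 0
        · simp [hx]
        · simp [hcon x hx]
      calc Fintype.card F = (Finset.univ : Finset F).card := rfl
        _ ≤ ({0, 1} : Finset F).card := Finset.card_le_card this
        _ ≤ 2 := Finset.card_le_two
    omega
  have hπ : Function.Surjective (piT (F := F)) :=
    Function.Surjective.prodMap (QuotientGroup.mk'_surjective _) (QuotientGroup.mk'_surjective _)
  have hπker : (piT (F := F)).ker = Subgroup.center (SL(2, F) × SL(2, F)) := by
    rw [Subgroup.center_prod]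
    ext ⟨a, b⟩
    rw [MonoidHom.mem_ker, Subgroup.mem_prod]
    show (((a : Matrix.ProjectiveSpecialLinearGroup (Fin 2) F), (b : Matrix.ProjectiveSpecialLinearGroup (Fin 2) F)) = 1) ↔ _
    rw [Prod.ext_iff]
    exact and_congr (QuotientGroup.eq_one_iff _) (QuotientGroup.eq_one_iff _)
  have hT : Subgroup.center (Matrix.ProjectiveSpecialLinearGroup (Fin 2) F × Matrix.ProjectiveSpecialLinearGroup (Fin 2) F) = ⊥ := by
    rw [Subgroup.center_prod, center_psl_two_eq_bot, Subgroup.bot_prod_bot]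
  have hO : Nat.card (isometryGroup F (quadFormPlus 2 F)) = 2 * Nat.card (SL(2, F) × SL(2, F)) := by
    rw [Cfsg.Agent.S0287.result (F := F) rfl 2 (by norm_num), Nat.card_prod,
      Cfsg.Agent.Lib.Classical.SL2Sylow.card_SL2]
    simpa [Finset.prod_range_succ] using numeric (Fintype.card F) (by omega)
  refine commutator_quotient_equiv (phi (F := F)) piT hπ hπker hT ?_ (phi_mem hex) ?_
  · intro g hg
    rw [hπker]
    rcases ker_phi hg with rfl | rfl
    · exact Subgroup.one_mem _
    · rw [Subgroup.center_prod]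
      exact ⟨neg1_center, neg1_center⟩
  · refine index_mul_card_range _ (neg1, neg1) phi_neg (fun g hg => ker_phi hg) ?_ ?_ hO
    · intro hne
      have h2 : (2 : F) ≠ 0 := by
        intro h2
        apply hne
        have h1 : (-1 : F) = 1 := by linear_combination -h2
        have : (neg1 : SL(2, F)) = 1 := by
          apply Subtype.ext
          show (-1 : Matrix (Fin 2) (Fin 2) F) = 1
          ext i j
          simp only [Matrix.neg_apply, Matrix.one_apply]
          split_ifs <;> simp [h1]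
        rw [this]
        rfl
      exact Cfsg.Agent.Lib.Orth.Closure.index_Omega_odd (Cfsg.Agent.Lib.Orth.Forms.plusForm 2 F) h2 (by simp)
        (Cfsg.Agent.Lib.Orth.Forms.plusForm_nondeg 2)
    · intro he
      have h1 : (-1 : F) = 1 := by
        have := congrArg (fun g : SL(2, F) × SL(2, F) => g.1.1 0 0) he
        simpa [neg1] using this
      have h2 : (2 : F) = 0 := by linear_combination -h1
      have : CharP F 2 := CharTwo.of_one_ne_zero_of_two_eq_zero one_ne_zero h2
      exact Cfsg.Agent.Lib.Orth.Closure.index_Omega_char_two (Cfsg.Agent.Lib.Orth.Forms.plusForm 2 F) (by simp)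
        (Cfsg.Agent.Lib.Orth.Forms.plusForm_nondeg 2) (Or.inl (by omega))

end Cfsg.Agent.S0299
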