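import Mathlib
import Cfsg.Statements.S0300
import Cfsg.Agent.Lib.Classical.LowOmega.Generic
import Cfsg.Agent.Lib.Classical.LowOmega.CenterPSL2
import Cfsg.Agent.Lib.Classical.FieldTransfer
import Cfsg.Agent.Lib.Classical.QuadExt
import Cfsg.Agent.Lib.Classical.SL2Sylow
import Cfsg.Agent.Lib.Orth.Closure
import Cfsg.Agent.Lib.Orth.Forms
import Cfsg.Agent.S0288
-- import your own Cfsg.Agent.* helpers here

set_option autoImplicit false
open Cfsg

namespace Cfsg.Agent.S0300

open Matrix Cfsg QuadraticAlgebra Cfsg.Agent.Lib.Classical.LowOmega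
open scoped MatrixGroups

section model

variable {F : Type*} [Field F] {a b : F}

/-- The quadratic extension with norm `z₁² + a z₁ z₂ + b z₂²`. -/
abbrev KK (a b : F) := QuadraticAlgebra F (-b) a

/-- The action on `2 × 2` matrices. -/
noncomputable def tau [Fact (∀ r : F, r ^ 2 ≠ -b + a * r)] :
    SL(2, KK a b) →* Module.End F (Matrix (Fin 2) (Fin 2) (KK a b)) where
  toFun g :=
    { toFun := fun M => g.1 * M * g.1ᴴ
      map_add' := fun A B => by simp [Matrix.mul_add, Matrix.add_mul]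
      map_smul' := fun c A => by simp }
  map_one' := by
    apply LinearMap.ext
    intro M
    show (1 : SL(2, KK a b)).1 * M * ((1 : SL(2, KK a b)).1)ᴴ = M
    simp
  map_mul' x y := by
    apply LinearMap.ext
    intro M
    show (x * y).1 * M * ((x * y).1)ᴴ = x.1 * (y.1 * M * y.1ᴴ) * x.1ᴴ
    rw [Matrix.SpecialLinearGroup.coe_mul, Matrix.conjTranspose_mul]
    simp only [Matrix.mul_assoc]

theorem tau_apply [Fact (∀ r : F, r ^ 2 ≠ -b + a * r)] (g : SL(2, KK a b)) (M : Matrix (Fin 2) (Fin 2) (KK a b)) :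
    tau g M = g.1 * M * g.1ᴴ := rfl

/-- The off-diagonal coordinate. -/
def zc (v : (Fin 1 ⊕ Fin 1) ⊕ Fin 2 → F) : KK a b := ⟨v (.inr 0), v (.inr 1)⟩

/-- The section. -/
noncomputable def sec [Fact (∀ r : F, r ^ 2 ≠ -b + a * r)] :
    ((Fin 1 ⊕ Fin 1) ⊕ Fin 2 → F) →ₗ[F] Matrix (Fin 2) (Fin 2) (KK a b) where
  toFun v := !![- algebraMap F (KK a b) (v (.inl (.inl 0))), zc v;
    star (zc v), algebraMap F (KK a b) (v (.inl (.inr 0)))]
  map_add' u v := by
    refine Matrix.ext fun i j => ?_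
    fin_cases i <;> fin_cases j
    · simp [add_comm]
    · ext <;> simp [zc]
    · ext <;> simp [zc] <;> ring
    · ext <;> simp
  map_smul' c v := by
    refine Matrix.ext fun i j => ?_
    fin_cases i <;> fin_cases j
    · simp [Algebra.smul_def]
    · ext <;> simp [zc]
    · ext <;> simp [zc] <;> ring
    · simp [Algebra.smul_def]

/-- The retraction. -/
noncomputable def ret : Matrix (Fin 2) (Fin 2) (KK a b) →ₗ[F] ((Fin 1 ⊕ Fin 1) ⊕ Fin 2 → F) where
  toFun M := Sum.elim (Sum.elim (fun _ => - (M 0 0).re) (fun _ => (M 1 1).re)) ![(M 0 1).re, (M 0 1).im]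
  map_add' u v := by
    ext i
    rcases i with (i | i) | i
    · simp; ring
    · simp
    · fin_cases i <;> simp
  map_smul' c v := by
    ext i
    rcases i with (i | i) | i
    · simp
    · simp
    · fin_cases i <;> simp

variable [Fact (∀ r : F, r ^ 2 ≠ -b + a * r)]

theorem ret_sec (v : (Fin 1 ⊕ Fin 1) ⊕ Fin 2 → F) : ret (sec (a := a) (b := b) v) = v := by
  ext i
  rcases i with (i | i) | i
  · fin_cases i
    simp [ret, sec]
  · fin_cases i
    simp [ret, sec]
  · fin_cases i <;> simp [ret, sec, zc]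

/-- A `star`-fixed element lies in the base field. -/
theorem im_eq_zero_of_star (hD : 4 * b - a ^ 2 ≠ 0) {z : KK a b} (hz : star z = z) : z.im = 0 := by
  have h1 := congrArg QuadraticAlgebra.im hz
  have h2 := congrArg QuadraticAlgebra.re hz
  simp only [QuadraticAlgebra.im_star, QuadraticAlgebra.re_star] at h1 h2
  have h3 : a * z.im = 0 := by linear_combination h2
  have h4 : 2 * z.im = 0 := by linear_combination -h1
  by_contra hne
  apply hD
  have h5 : a = 0 := (mul_eq_zero.mp h3).resolve_right hne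
  have h6 : (2 : F) = 0 := (mul_eq_zero.mp h4).resolve_right hne
  rw [h5]
  linear_combination (2 * b) * h6

theorem sec_ret (hD : 4 * b - a ^ 2 ≠ 0) {M : Matrix (Fin 2) (Fin 2) (KK a b)} (h : Mᴴ = M) : sec (ret M) = M := by
  have e00 := congrFun (congrFun h 0) 0
  have e01 := congrFun (congrFun h 1) 0
  have e11 := congrFun (congrFun h 1) 1
  simp only [Matrix.conjTranspose_apply] at e00 e01 e11
  have h00 := im_eq_zero_of_star hD e00
  have h11 := im_eq_zero_of_star hD e11
  refine Matrix.ext fun i j => ?_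
  fin_cases i <;> fin_cases j
  · ext <;> simp [ret, sec, h00]
  · ext <;> simp [ret, sec, zc]
  · simp only [ret, sec, zc]
    show star (_ : KK a b) = M 1 0
    rw [← e01]
    rfl
  · ext <;> simp [ret, sec, h11]

theorem herm_sec (v : (Fin 1 ⊕ Fin 1) ⊕ Fin 2 → F) : (sec (a := a) (b := b) v)ᴴ = sec v := by
  refine Matrix.ext fun i j => ?_
  fin_cases i <;> fin_cases j
  · ext <;> simp [sec]
  · simp [sec]
  · simp [sec]
  · ext <;> simp [sec]

theorem herm_tau (g : SL(2, KK a b)) {M : Matrix (Fin 2) (Fin 2) (KK a b)} (h : Mᴴ = M) : (tau g M)ᴴ = tau g M := by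
  rw [tau_apply, Matrix.conjTranspose_mul, Matrix.conjTranspose_mul, Matrix.conjTranspose_conjTranspose, h,
    Matrix.mul_assoc]

/-- The representation on the four-dimensional space. -/
noncomputable def rho (hD : 4 * b - a ^ 2 ≠ 0) : SL(2, KK a b) →* (((Fin 1 ⊕ Fin 1) ⊕ Fin 2 → F) ≃ₗ[F] ((Fin 1 ⊕ Fin 1) ⊕ Fin 2 → F)) :=
  repOfSection tau sec ret ret_sec (fun g w => sec_ret hD (herm_tau g (herm_sec w)))

theorem sec_rho (hD : 4 * b - a ^ 2 ≠ 0) (g : SL(2, KK a b)) (v : (Fin 1 ⊕ Fin 1) ⊕ Fin 2 → F) :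
    sec (rho hD g v) = tau g (sec v) := by
  have : rho hD g v = ret (tau g (sec v)) := rfl
  rw [this]
  exact sec_ret hD (herm_tau g (herm_sec v))

theorem det_sec (v : (Fin 1 ⊕ Fin 1) ⊕ Fin 2 → F) :
    (sec (a := a) (b := b) v).det = - algebraMap F (KK a b) (quadFormMinus 1 F a b v) := by
  have h := QuadraticAlgebra.algebraMap_norm_eq_mul_star (zc (a := a) (b := b) v)
  rw [Matrix.det_fin_two]
  simp only [sec, LinearMap.coe_mk, AddHom.coe_mk, Matrix.of_apply, Matrix.cons_val', Matrix.cons_val_zero,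
    Matrix.cons_val_one, Matrix.cons_val_fin_one]
  rw [← h, quadFormMinus]
  simp only [QuadraticAlgebra.norm_def, zc, Fin.sum_univ_one, map_add, map_mul, map_pow]
  simp only [map_sub, map_add, map_mul, map_neg]
  ring

theorem det_tau (g : SL(2, KK a b)) (M : Matrix (Fin 2) (Fin 2) (KK a b)) : (tau g M).det = M.det := by
  rw [tau_apply, Matrix.det_mul, Matrix.det_mul, Matrix.det_conjTranspose, g.2]
  simp

/-- The homomorphism to the isometry group. -/
noncomputable def phi (hD : 4 * b - a ^ 2 ≠ 0) : SL(2, KK a b) →* isometryGroup F (quadFormMinus 1 F a b) :=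
  homOfRep₀ (quadFormMinus 1 F a b) (rho hD) (fun g v => by
    apply (algebraMap F (KK a b)).injective
    have h1 := det_sec (a := a) (b := b) (rho hD g v)
    have h2 := det_sec (a := a) (b := b) v
    rw [sec_rho, det_tau, h2] at h1
    exact (neg_inj.mp h1).symm)

theorem tau_sec_of_ker (hD : 4 * b - a ^ 2 ≠ 0) {g : SL(2, KK a b)} (hg : g ∈ (phi (a := a) (b := b) hD).ker)
    (v : (Fin 1 ⊕ Fin 1) ⊕ Fin 2 → F) : g.1 * sec v * g.1ᴴ = sec v := by
  rw [phi, mem_ker_homOfRep₀, MonoidHom.mem_ker] at hg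
  have h := sec_rho hD g v
  rw [hg] at h
  exact h.symm

/-- The element `-1`. -/
noncomputable def neg1 : SL(2, KK a b) := ⟨-1, by simp [Matrix.det_fin_two]⟩

theorem ker_phi (hD : 4 * b - a ^ 2 ≠ 0) {g : SL(2, KK a b)} (hg : g ∈ (phi (a := a) (b := b) hD).ker) :
    g = 1 ∨ g = neg1 := by
  have hdet : g.1 0 0 * g.1 1 1 - g.1 0 1 * g.1 1 0 = 1 := by
    have := g.2
    rwa [Matrix.det_fin_two] at this
  -- the three test matrices
  let v1 : (Fin 1 ⊕ Fin 1) ⊕ Fin 2 → F := Sum.elim (Sum.elim (fun _ => -1) (fun _ => 0)) ![0, 0]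
  let v2 : (Fin 1 ⊕ Fin 1) ⊕ Fin 2 → F := Sum.elim (Sum.elim (fun _ => 0) (fun _ => 1)) ![0, 0]
  let v3 : (Fin 1 ⊕ Fin 1) ⊕ Fin 2 → F := Sum.elim (Sum.elim (fun _ => 0) (fun _ => 0)) ![1, 0]
  have e1 : sec (a := a) (b := b) v1 = !![1, 0; 0, 0] := by
    refine Matrix.ext fun i j => ?_
    fin_cases i <;> fin_cases j
    · simp [sec, v1]
    · ext <;> simp [sec, v1, zc]
    · ext <;> simp [sec, v1, zc]
    · simp [sec, v1]
  have e2 : sec (a := a) (b := b) v2 = !![0, 0; 0, 1] := by
    refine Matrix.ext fun i j => ?_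
    fin_cases i <;> fin_cases j
    · simp [sec, v2]
    · ext <;> simp [sec, v2, zc]
    · ext <;> simp [sec, v2, zc]
    · simp [sec, v2]
  have e3 : sec (a := a) (b := b) v3 = !![0, 1; 1, 0] := by
    refine Matrix.ext fun i j => ?_
    fin_cases i <;> fin_cases j
    · simp [sec, v3]
    · ext <;> simp [sec, v3, zc]
    · ext <;> simp [sec, v3, zc]
    · simp [sec, v3]
  have h1 := tau_sec_of_ker hD hg v1
  have h2 := tau_sec_of_ker hD hg v2
  have h3 := tau_sec_of_ker hD hg v3
  rw [e1] at h1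
  rw [e2] at h2
  rw [e3] at h3
  have h1a := congrFun (congrFun h1 1) 1
  have h1b := congrFun (congrFun h1 0) 0
  have h2a := congrFun (congrFun h2 0) 0
  have h3a := congrFun (congrFun h3 0) 1
  simp [Matrix.mul_apply, Fin.sum_univ_two] at h1a h1b h2a h3a
  have hc : g.1 1 0 = 0 := by simpa using h1a
  have hb : g.1 0 1 = 0 := by simpa using h2a
  rw [hb, hc] at hdet h3a
  simp only [star_zero, zero_mul, mul_zero, add_zero, zero_add, sub_zero] at hdet h3a
  set α := g.1 0 0 with hα
  set δ := g.1 1 1 with hδ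
  have hα0 : α ≠ 0 := left_ne_zero_of_mul_eq_one hdet
  have hsδ : star δ = δ := by
    apply mul_left_cancel₀ hα0
    rw [h3a, hdet]
  have hsα : star α = α := by
    have h5 : star α * star δ = 1 := by
      rw [← star_mul', hdet, star_one]
    rw [hsδ] at h5
    have hδ0 : δ ≠ 0 := right_ne_zero_of_mul_eq_one hdet
    apply mul_right_cancel₀ hδ0
    rw [h5, hdet]
  rw [hsα] at h1b
  have hs : (α - 1) * (α + 1) = 0 := by linear_combination h1b
  have hd : δ = α := by
    apply mul_left_cancel₀ hα0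
    rw [hdet, h1b]
  rcases mul_eq_zero.mp hs with h' | h'
  · left
    have ha : α = 1 := sub_eq_zero.mp h'
    apply Subtype.ext
    refine Matrix.ext fun i j => ?_
    fin_cases i <;> fin_cases j
    · simpa using ha
    · simpa using hb
    · simpa using hc
    · simpa using hd.trans ha
  · right
    have ha : α = -1 := eq_neg_of_add_eq_zero_left h'
    apply Subtype.ext
    refine Matrix.ext fun i j => ?_
    fin_cases i <;> fin_cases j
    · simpa [neg1] using ha
    · simpa [neg1] using hb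
    · simpa [neg1] using hc
    · simpa [neg1] using hd.trans ha

theorem phi_neg (hD : 4 * b - a ^ 2 ≠ 0) : neg1 ∈ (phi (a := a) (b := b) hD).ker := by
  rw [phi, mem_ker_homOfRep₀, MonoidHom.mem_ker]
  apply LinearEquiv.ext
  intro v
  show ret ((-1 : Matrix (Fin 2) (Fin 2) (KK a b)) * sec v * (-1 : Matrix (Fin 2) (Fin 2) (KK a b))ᴴ) = v
  simp [Matrix.conjTranspose_neg, ret_sec]

theorem neg1_center : (neg1 : SL(2, KK a b)) ∈ Subgroup.center (SL(2, KK a b)) := by
  rw [Subgroup.mem_center_iff]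
  intro x
  apply Subtype.ext
  show x.1 * (neg1 : SL(2, KK a b)).1 = (neg1 : SL(2, KK a b)).1 * x.1
  simp [neg1]

theorem perfect : commutator (SL(2, KK a b)) = ⊤ := by
  have h0 : (ω : KK a b) ≠ 0 := by
    intro h
    have := congrArg QuadraticAlgebra.im h
    simp at this
  refine SL2.commutator_eq_top (a := (ω : KK a b)) h0 ?_
  intro h
  have h2 : ((ω : KK a b) - 1) * (ω + 1) = 0 := by linear_combination h
  rcases mul_eq_zero.mp h2 with h3 | h3
  · have := congrArg QuadraticAlgebra.im h3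
    simp at this
  · have := congrArg QuadraticAlgebra.im h3
    simp at this

theorem numeric (q : ℕ) (hq : 2 ≤ q) :
    2 * q ^ 2 * (q ^ 2 + 1) * (q ^ 2 - 1) = 2 * (q ^ 2 * ((q ^ 2 - 1) * (q ^ 2 + 1))) := by
  ring

variable [Fintype F]

/-- The main theorem over the model. -/
theorem model_equiv (hab : ∀ z₁ z₂ : F, z₁ ^ 2 + a * z₁ * z₂ + b * z₂ ^ 2 = 0 → z₁ = 0 ∧ z₂ = 0) :
    Nonempty (Cfsg.POmega F (Cfsg.quadFormMinus 1 F a b) ≃*
      Matrix.ProjectiveSpecialLinearGroup (Fin 2) (KK a b)) := by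
  classical
  have hD : 4 * b - a ^ 2 ≠ 0 := Cfsg.Agent.Lib.Orth.Forms.disc_ne_zero_of_anisotropic hab
  haveI : Fintype (KK a b) := Fintype.ofFinite _
  have hcardK : Fintype.card (KK a b) = Fintype.card F ^ 2 := by
    rw [← Nat.card_eq_fintype_card]
    exact Cfsg.Agent.Lib.Classical.QuadExt.card_K
  have hO : Nat.card (isometryGroup F (quadFormMinus 1 F a b)) = 2 * Nat.card (SL(2, KK a b)) := by
    have h1 := Cfsg.Agent.S0288.result (F := F) rfl 2 (by norm_num) a b hab
    have h2 : Nat.card (isometryGroup F (quadFormMinus 1 F a b)) = _ := h1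
    rw [h2, Cfsg.Agent.Lib.Classical.SL2Sylow.card_SL2, hcardK]
    simp [Finset.prod_range_succ]
    ring
  refine commutator_quotient_equiv (phi hD) (QuotientGroup.mk' _)
    (QuotientGroup.mk'_surjective _) (QuotientGroup.ker_mk' _) center_psl_two_eq_bot ?_
    (map_mem_commutator_of_perfect _ perfect) ?_
  · intro g hg
    rw [QuotientGroup.ker_mk']
    rcases ker_phi hD hg with rfl | rfl
    · exact Subgroup.one_mem _
    · exact neg1_center
  · refine index_mul_card_range _ neg1 (phi_neg hD) (fun g hg => ker_phi hD hg) ?_ ?_ hO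
    · intro hne
      have h2 : (2 : F) ≠ 0 := by
        intro h2
        apply hne
        have h1 : (-1 : KK a b) = 1 := by
          have h3 : (2 : KK a b) = 0 := by
            rw [← map_ofNat (algebraMap F (KK a b)) 2, h2, map_zero]
          linear_combination -h3
        apply Subtype.ext
        show (-1 : Matrix (Fin 2) (Fin 2) (KK a b)) = 1
        refine Matrix.ext fun i j => ?_
        simp only [Matrix.neg_apply, Matrix.one_apply]
        split_ifs <;> simp [h1]
      exact Cfsg.Agent.Lib.Orth.Closure.index_Omega_odd (Cfsg.Agent.Lib.Orth.Forms.minusForm 1 F a b) h2 (by simp)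
        (Cfsg.Agent.Lib.Orth.Forms.minusForm_nondeg 1 hab)
    · intro he
      refine index_commutator_eq_two (phi hD) ?_ (map_mem_commutator_of_perfect _ perfect) hO
      rw [eq_bot_iff]
      intro g hg
      rcases ker_phi hD hg with h | h
      · exact h
      · rw [h, he]; exact Subgroup.one_mem _

end model

/-- PΩ^-_4(q) is isomorphic to PSL_2(q^2). -/
theorem result {F K : Type*} [Field F] [Fintype F] [Field K] [Fintype K] {q : ℕ} (hF : Fintype.card F = q) (hK : Fintype.card K = q ^ 2) (a b : F) (hab : ∀ z₁ z₂ : F, z₁ ^ 2 + a * z₁ * z₂ + b * z₂ ^ 2 = 0 → z₁ = 0 ∧ z₂ = 0) : Nonempty (Cfsg.POmega F (Cfsg.quadFormMinus 1 F a b) ≃* Matrix.ProjectiveSpecialLinearGroup (Fin 2) K) := by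
  classical
  haveI hfact : Fact (∀ r : F, r ^ 2 ≠ -b + a * r) := ⟨fun r hr => by
    have := hab (-r) 1 (by linear_combination hr)
    exact one_ne_zero this.2⟩
  haveI : Fintype (KK a b) := Fintype.ofFinite _
  have hcardK : Fintype.card (KK a b) = Fintype.card K := by
    rw [← Nat.card_eq_fintype_card, hK, ← hF]
    exact Cfsg.Agent.Lib.Classical.QuadExt.card_K
  obtain ⟨e⟩ := model_equiv (a := a) (b := b) hab
  exact ⟨e.trans (Cfsg.Agent.Lib.Classical.FieldTransfer.pslCongr (FiniteField.ringEquivOfCardEq hcardK))⟩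

end Cfsg.Agent.S0300
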