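import Mathlib
import Cfsg.Statements.S0301
import Cfsg.Agent.Lib.Classical.LowOmega.Generic
import Cfsg.Agent.Lib.Classical.LowOmega.Klein
import Cfsg.Agent.Lib.Orth.Closure
import Cfsg.Agent.Lib.Orth.Forms
import Cfsg.Agent.S0245
import Cfsg.Agent.S0269
import Cfsg.Agent.S0270
import Cfsg.Agent.S0286
-- import your own Cfsg.Agent.* helpers here

set_option autoImplicit false
open Cfsg

namespace Cfsg.Agent.S0301

open Matrix Cfsg Cfsg.Agent.Lib.Classical.LowOmega Cfsg.Agent.Lib.Classical.LowOmega.Klein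

variable {F : Type*} [Field F]

/-- The relabelling of the basis. -/
def sf : Fin 4 ≃ Fin 2 ⊕ Fin 2 where
  toFun := ![.inl 0, .inl 1, .inr 0, .inr 1]
  invFun := Sum.elim ![0, 1] ![2, 3]
  left_inv := by decide
  right_inv := by decide

/-- The symplectic form in the new basis. -/
def J4 (F : Type*) [Field F] : Matrix (Fin 4) (Fin 4) F :=
  !![0, 0, -1, 0; 0, 0, 0, -1; 1, 0, 0, 0; 0, 1, 0, 0]

theorem J_submatrix : (Matrix.J (Fin 2) F).submatrix sf sf = J4 F := by
  ext i j
  fin_cases i <;> fin_cases j <;> simp [J4, Matrix.J, sf, Matrix.fromBlocks] <;> rfl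

/-- The matrix of an element of `Sp₄` in the new basis. -/
def mat4 (g : Matrix.symplecticGroup (Fin 2) F) : Matrix (Fin 4) (Fin 4) F :=
  (g : Matrix (Fin 2 ⊕ Fin 2) (Fin 2 ⊕ Fin 2) F).submatrix sf sf

theorem mat4_mul (g h : Matrix.symplecticGroup (Fin 2) F) : mat4 (g * h) = mat4 g * mat4 h := by
  exact (Matrix.submatrix_mul_equiv _ _ _ _ _).symm

theorem mat4_one : mat4 (1 : Matrix.symplecticGroup (Fin 2) F) = 1 := by
  simp [mat4]

theorem mat4_J (g : Matrix.symplecticGroup (Fin 2) F) :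
    mat4 g * J4 F * (mat4 g)ᵀ = J4 F := by
  have h := (SymplecticGroup.mem_iff (l := Fin 2) (R := F)).mp g.2
  rw [← J_submatrix]
  simp only [mat4, Matrix.transpose_submatrix]
  rw [Matrix.submatrix_mul_equiv, Matrix.submatrix_mul_equiv, h]

theorem neg_one_submatrix : (-1 : Matrix (Fin 2 ⊕ Fin 2) (Fin 2 ⊕ Fin 2) F).submatrix sf sf = -1 := by
  ext i j
  have : sf i = sf j ↔ i = j := sf.injective.eq_iff
  simp [Matrix.neg_apply, Matrix.one_apply, this]

/-- The vector of the symplectic form. -/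
def xJ (F : Type*) [Field F] : Fin 6 → F := ![0, -1, 0, 0, -1, 0]

theorem P_xJ {g : Matrix (Fin 4) (Fin 4) F} (h : g * J4 F * gᵀ = J4 F) : P g *ᵥ xJ F = xJ F := by
  have e : ∀ i j, (g * J4 F * gᵀ) i j = J4 F i j := fun i j => by rw [h]
  have e01 := e 0 1
  have e02 := e 0 2
  have e03 := e 0 3
  have e12 := e 1 2
  have e13 := e 1 3
  have e23 := e 2 3
  simp [J4, Matrix.mul_apply, Fin.sum_univ_four] at e01 e02 e03 e12 e13 e23
  ext a
  fin_cases a <;> simp [Matrix.mulVec, dotProduct, Fin.sum_univ_six, P_apply, idx, xJ]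
  · linear_combination e01
  · linear_combination e02
  · linear_combination e03
  · linear_combination e12
  · linear_combination e13
  · linear_combination e23

theorem det_mat4 (g : Matrix.symplecticGroup (Fin 2) F) : (mat4 g).det = 1 := by
  rw [mat4, Matrix.det_submatrix_equiv_self]
  exact SymplecticGroup.det_eq_one g.2

theorem perp_mulVec (g : Matrix.symplecticGroup (Fin 2) F) (y : Fin 6 → F) :
    (P (mat4 g) *ᵥ y) 1 + (P (mat4 g) *ᵥ y) 4 = y 1 + y 4 := by
  have h1 := pf_mulVec (mat4 g) (y + xJ F)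
  have h2 := pf_mulVec (mat4 g) y
  rw [Matrix.mulVec_add, P_xJ (mat4_J g), det_mat4, one_mul] at h1
  rw [det_mat4, one_mul] at h2
  simp only [pf, Pi.add_apply, xJ] at h1 h2
  simp at h1
  linear_combination h1 - h2

/-- The action on all of `F⁶`. -/
noncomputable def tau : Matrix.symplecticGroup (Fin 2) F →* Module.End F (Fin 6 → F) where
  toFun g := Matrix.mulVecLin (P (mat4 g))
  map_one' := by
    rw [mat4_one, P_one]
    ext x
    simp
  map_mul' a b := by
    rw [mat4_mul, P_mul]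
    ext x
    simp [Matrix.mulVec_mulVec]

/-- The section. -/
def sec : (Unit ⊕ (Fin 2 ⊕ Fin 2) → F) →ₗ[F] (Fin 6 → F) where
  toFun v := ![v (.inr (.inl 0)), v (.inl ()), v (.inr (.inl 1)), v (.inr (.inr 1)), - v (.inl ()),
    v (.inr (.inr 0))]
  map_add' u v := by
    ext i
    fin_cases i <;> simp <;> ring
  map_smul' c v := by
    ext i
    fin_cases i <;> simp

/-- The retraction. -/
def ret : (Fin 6 → F) →ₗ[F] (Unit ⊕ (Fin 2 ⊕ Fin 2) → F) where
  toFun x := Sum.elim (fun _ => x 1) (Sum.elim ![x 0, x 2] ![x 5, x 3])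
  map_add' u v := by
    ext i
    rcases i with i | i | i
    · simp
    · fin_cases i <;> simp
    · fin_cases i <;> simp
  map_smul' c v := by
    ext i
    rcases i with i | i | i
    · simp
    · fin_cases i <;> simp
    · fin_cases i <;> simp

theorem ret_sec (v : Unit ⊕ (Fin 2 ⊕ Fin 2) → F) : ret (sec v) = v := by
  ext i
  rcases i with i | i | i
  · simp [ret, sec]
  · fin_cases i <;> simp [ret, sec]
  · fin_cases i <;> simp [ret, sec]

theorem sec_ret {y : Fin 6 → F} (hy : y 1 + y 4 = 0) : sec (ret y) = y := by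
  have h4 : y 4 = - y 1 := by linear_combination hy
  ext i
  fin_cases i <;> simp [ret, sec, h4]

theorem pf_sec (v : Unit ⊕ (Fin 2 ⊕ Fin 2) → F) : pf (sec v) = quadFormOdd 2 F v := by
  simp [pf, sec, quadFormOdd, Fin.sum_univ_two]
  ring

/-- The representation on the five-dimensional space. -/
noncomputable def rho : Matrix.symplecticGroup (Fin 2) F →* ((Unit ⊕ (Fin 2 ⊕ Fin 2) → F) ≃ₗ[F] (Unit ⊕ (Fin 2 ⊕ Fin 2) → F)) :=
  repOfSection tau sec ret ret_sec (fun g w => by
    apply sec_ret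
    show (P (mat4 g) *ᵥ sec w) 1 + (P (mat4 g) *ᵥ sec w) 4 = 0
    rw [perp_mulVec]
    simp [sec])

theorem sec_rho (g : Matrix.symplecticGroup (Fin 2) F) (v : Unit ⊕ (Fin 2 ⊕ Fin 2) → F) :
    sec (rho g v) = P (mat4 g) *ᵥ sec v := by
  have : rho g v = ret (P (mat4 g) *ᵥ sec v) := rfl
  rw [this]
  apply sec_ret
  rw [perp_mulVec]
  simp [sec]

/-- The homomorphism to the orthogonal group. -/
noncomputable def phi : Matrix.symplecticGroup (Fin 2) F →* isometryGroup F (quadFormOdd 2 F) :=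
  homOfRep₀ (quadFormOdd 2 F) rho (fun g v => by
    rw [← pf_sec, sec_rho, pf_mulVec, det_mat4, one_mul, pf_sec])

theorem P_eq_one_of_ker (h2 : (2 : F) ≠ 0) {g : Matrix.symplecticGroup (Fin 2) F} (hg : g ∈ (phi (F := F)).ker) :
    P (mat4 g) = 1 := by
  rw [phi, mem_ker_homOfRep₀, MonoidHom.mem_ker] at hg
  have hfix : ∀ y : Fin 6 → F, y 1 + y 4 = 0 → P (mat4 g) *ᵥ y = y := by
    intro y hy
    have := sec_rho g (ret y)
    rw [hg, sec_ret hy] at this
    simpa [sec_ret hy] using this.symm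
  apply Matrix.toLin'.injective
  apply LinearMap.ext
  intro y
  simp only [Matrix.toLin'_apply, Matrix.toLin'_one, LinearMap.id_apply]
  set c : F := - (y 1 + y 4) / 2 with hc
  have hy' : (y - c • xJ F) 1 + (y - c • xJ F) 4 = 0 := by
    simp only [Pi.sub_apply, Pi.smul_apply, smul_eq_mul, xJ]
    simp
    rw [hc]
    field_simp
    ring
  have h1 := hfix _ hy'
  rw [Matrix.mulVec_sub, Matrix.mulVec_smul, P_xJ (mat4_J g)] at h1
  exact sub_left_injective h1

/-- The element `-1`. -/
def negOne (F : Type*) [Field F] : Matrix.symplecticGroup (Fin 2) F :=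
  ⟨-1, SymplecticGroup.neg_mem (Submonoid.one_mem _)⟩

theorem eq_of_mat4 {g h : Matrix.symplecticGroup (Fin 2) F} (e : mat4 g = mat4 h) : g = h := by
  apply Subtype.ext
  ext a b
  have := congrFun (congrFun e (sf.symm a)) (sf.symm b)
  simpa [mat4] using this

theorem scalar_of_ker (h2 : (2 : F) ≠ 0) {g : Matrix.symplecticGroup (Fin 2) F}
    (hg : g ∈ (phi (F := F)).ker) : g = 1 ∨ g = negOne F := by
  obtain ⟨h01, h02, h03, h10, h12, h13, h20, h21, h23, h30, h31, h32, h11, h22, h33, ht⟩ :=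
    scalar_of_P_eq_one _ (P_eq_one_of_ker h2 hg)
  have ht' : ((mat4 g) 0 0 - 1) * ((mat4 g) 0 0 + 1) = 0 := by linear_combination ht
  rcases mul_eq_zero.mp ht' with h1 | h1
  · left
    have h00 : (mat4 g) 0 0 = 1 := sub_eq_zero.mp h1
    apply eq_of_mat4
    rw [mat4_one]
    ext i j
    fin_cases i <;> fin_cases j <;> simp [*]
  · right
    have h00 : (mat4 g) 0 0 = -1 := eq_neg_of_add_eq_zero_left h1
    apply eq_of_mat4
    have : mat4 (negOne F) = -1 := neg_one_submatrix
    rw [this]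
    ext i j
    fin_cases i <;> fin_cases j <;> simp [*, Matrix.neg_apply, Matrix.one_apply]

theorem negOne_mem_ker : negOne F ∈ (phi (F := F)).ker := by
  rw [phi, mem_ker_homOfRep₀, MonoidHom.mem_ker]
  have hm : mat4 (negOne F) = -1 := neg_one_submatrix
  have hP : P (mat4 (negOne F)) = 1 := by
    rw [hm]
    ext a b
    fin_cases a <;> fin_cases b <;> simp [P, idx, Matrix.one_apply]
  apply LinearEquiv.ext
  intro v
  show ret (P (mat4 (negOne F)) *ᵥ sec v) = v
  rw [hP, Matrix.one_mulVec, ret_sec]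

theorem negOne_center : negOne F ∈ Subgroup.center (Matrix.symplecticGroup (Fin 2) F) := by
  rw [Subgroup.mem_center_iff]
  intro x
  apply Subtype.ext
  show x.1 * (negOne F).1 = (negOne F).1 * x.1
  simp [negOne]

/-- PΩ_5(q) is isomorphic to PSp_4(q) for q odd. -/
theorem result {F : Type*} [Field F] [Fintype F] (hodd : Odd (Fintype.card F)) : Nonempty (Cfsg.POmega F (Cfsg.quadFormOdd 2 F) ≃* Cfsg.PSp 2 F) := by
  classical
  have h2 : (2 : F) ≠ 0 := by
    intro h
    have : CharP F 2 := CharTwo.of_one_ne_zero_of_two_eq_zero one_ne_zero h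
    obtain ⟨n, hp, hc⟩ := FiniteField.card F 2
    rw [hc] at hodd
    have : Even (2 ^ (n : ℕ)) := (Nat.even_pow.mpr ⟨even_two, n.ne_zero⟩)
    exact (Nat.not_even_iff_odd.mpr hodd) this
  have hq3 : 3 ≤ Fintype.card F := by
    have : 2 ≤ Fintype.card F := Fintype.one_lt_card
    obtain ⟨k, hk⟩ := hodd
    omega
  have hperf : commutator (Matrix.symplecticGroup (Fin 2) F) = ⊤ :=
    Cfsg.Agent.S0269.result 2 (Or.inr (Or.inl ⟨rfl, hq3⟩))
  have hsimple : IsSimpleGroup (Cfsg.PSp 2 F) := Cfsg.Agent.S0270.result 2 le_rfl (fun _ => hq3)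
  have hperfT : commutator (Cfsg.PSp 2 F) = ⊤ := by
    have : Group.IsPerfect (Matrix.symplecticGroup (Fin 2) F) := ⟨hperf⟩
    have : Group.IsPerfect (Cfsg.PSp 2 F) := inferInstance
    exact this.commutator_eq_top
  have hO : Nat.card (isometryGroup F (quadFormOdd 2 F)) =
      2 * Nat.card (Matrix.symplecticGroup (Fin 2) F) := by
    rw [Cfsg.Agent.S0286.result (F := F) rfl hodd 2, Cfsg.Agent.S0245.result (F := F) rfl 2]
    ring
  refine commutator_quotient_equiv (phi (F := F)) (QuotientGroup.mk' _)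
    (QuotientGroup.mk'_surjective _) (QuotientGroup.ker_mk' _) (center_eq_bot_of_simple hperfT) ?_
    (map_mem_commutator_of_perfect _ hperf) ?_
  · intro g hg
    rw [QuotientGroup.ker_mk']
    rcases scalar_of_ker h2 hg with rfl | rfl
    · exact Subgroup.one_mem _
    · exact negOne_center
  · refine index_mul_card_range _ (negOne F) negOne_mem_ker (fun g hg => scalar_of_ker h2 hg) ?_ ?_ hO
    · intro _
      exact Cfsg.Agent.Lib.Orth.Closure.index_Omega_odd (Cfsg.Agent.Lib.Orth.Forms.oddForm 2 F) h2 (by simp)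
        (Cfsg.Agent.Lib.Orth.Forms.oddForm_nondeg 2 h2)
    · intro he
      exfalso
      have h1 : (-1 : F) = 1 := by
        have := congrArg (fun g : Matrix.symplecticGroup (Fin 2) F => g.1 (.inl 0) (.inl 0)) he
        simpa [negOne] using this
      exact h2 (by linear_combination -h1)

end Cfsg.Agent.S0301
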