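import Mathlib
import Cfsg.Statements.S0302
import Cfsg.Agent.Lib.Classical.LowOmega.Generic
import Cfsg.Agent.Lib.Classical.LowOmega.Klein
import Cfsg.Agent.Lib.Classical.SLBasic
import Cfsg.Agent.Lib.Classical.Transvections
import Cfsg.Agent.Lib.Orth.Closure
import Cfsg.Agent.Lib.Orth.Forms
import Cfsg.Agent.S0287
-- import your own Cfsg.Agent.* helpers here

set_option autoImplicit false
open Cfsg

namespace Cfsg.Agent.S0302

open Matrix Cfsg Cfsg.Agent.Lib.Classical.LowOmega Cfsg.Agent.Lib.Classical.LowOmega.Klein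

variable {F : Type*} [Field F]

/-- The action on the second exterior power as a homomorphism. -/
noncomputable def rho : Matrix.SpecialLinearGroup (Fin 4) F →* ((Fin 6 → F) ≃ₗ[F] (Fin 6 → F)) :=
  (Cfsg.Agent.Lib.Classical.MatrixBridge.glToLin (ι := Fin 6) (F := F)).toMonoidHom.comp
    { toFun := fun g =>
        { val := P (g : Matrix (Fin 4) (Fin 4) F)
          inv := P ((g⁻¹ : Matrix.SpecialLinearGroup (Fin 4) F) : Matrix (Fin 4) (Fin 4) F)
          val_inv := by
            rw [← P_mul, ← Matrix.SpecialLinearGroup.coe_mul, mul_inv_cancel,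
              Matrix.SpecialLinearGroup.coe_one, P_one]
          inv_val := by
            rw [← P_mul, ← Matrix.SpecialLinearGroup.coe_mul, inv_mul_cancel,
              Matrix.SpecialLinearGroup.coe_one, P_one] }
      map_one' := by
        apply Units.ext
        show P ((1 : Matrix.SpecialLinearGroup (Fin 4) F) : Matrix (Fin 4) (Fin 4) F) = 1
        rw [Matrix.SpecialLinearGroup.coe_one, P_one]
      map_mul' := fun a b => by
        apply Units.ext
        show P ((a * b : Matrix.SpecialLinearGroup (Fin 4) F) : Matrix (Fin 4) (Fin 4) F) = P a.1 * P b.1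
        rw [Matrix.SpecialLinearGroup.coe_mul, P_mul] }

theorem rho_apply (g : Matrix.SpecialLinearGroup (Fin 4) F) (x : Fin 6 → F) :
    rho g x = P (g : Matrix (Fin 4) (Fin 4) F) *ᵥ x := rfl

/-- The coordinate change. -/
noncomputable def coord : (Fin 3 ⊕ Fin 3 → F) ≃ₗ[F] (Fin 6 → F) where
  toFun v := ![v (.inl 0), v (.inl 1), v (.inl 2), v (.inr 2), - v (.inr 1), v (.inr 0)]
  invFun x := Sum.elim ![x 0, x 1, x 2] ![x 5, - x 4, x 3]
  map_add' u v := by
    ext i
    fin_cases i <;> simp <;> ring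
  map_smul' c v := by
    ext i
    fin_cases i <;> simp
  left_inv v := by
    ext i
    rcases i with i | i <;> fin_cases i <;> simp
  right_inv x := by
    ext i
    fin_cases i <;> simp

theorem pf_coord (v : Fin 3 ⊕ Fin 3 → F) : pf (coord v) = quadFormPlus 3 F v := by
  simp [pf, coord, quadFormPlus, Fin.sum_univ_three]

/-- The homomorphism to the orthogonal group. -/
noncomputable def phi : Matrix.SpecialLinearGroup (Fin 4) F →* isometryGroup F (quadFormPlus 3 F) :=
  homOfRep (quadFormPlus 3 F) coord pf pf_coord rho (fun g v => by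
    rw [rho_apply, pf_mulVec, g.2, one_mul])

theorem mem_ker_phi (g : Matrix.SpecialLinearGroup (Fin 4) F) :
    g ∈ (phi (F := F)).ker ↔ P (g : Matrix (Fin 4) (Fin 4) F) = 1 := by
  rw [phi, mem_ker_homOfRep, MonoidHom.mem_ker]
  constructor
  · intro h
    apply Matrix.toLin'.injective
    ext1 i
    apply LinearMap.ext_ring
    have := congrArg (fun f => f (Pi.single i 1)) h
    simpa [rho_apply] using this
  · intro h
    apply LinearEquiv.ext
    intro x
    rw [rho_apply, h, Matrix.one_mulVec]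
    rfl

/-- The element `-1`. -/
noncomputable def negOne : Matrix.SpecialLinearGroup (Fin 4) F :=
  ⟨-1, by rw [Matrix.det_neg]; norm_num⟩

theorem scalar_of_ker (g : Matrix.SpecialLinearGroup (Fin 4) F) (h : P (g : Matrix (Fin 4) (Fin 4) F) = 1) :
    g = 1 ∨ g = negOne := by
  obtain ⟨h01, h02, h03, h10, h12, h13, h20, h21, h23, h30, h31, h32, h11, h22, h33, ht⟩ :=
    scalar_of_P_eq_one _ h
  have ht' : (g.1 0 0 - 1) * (g.1 0 0 + 1) = 0 := by linear_combination ht
  rcases mul_eq_zero.mp ht' with h1 | h1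
  · left
    have h00 : g.1 0 0 = 1 := sub_eq_zero.mp h1
    apply Subtype.ext
    ext i j
    fin_cases i <;> fin_cases j <;> simp [*, Matrix.SpecialLinearGroup.coe_one] 
  · right
    have h00 : g.1 0 0 = -1 := eq_neg_of_add_eq_zero_left h1
    apply Subtype.ext
    ext i j
    fin_cases i <;> fin_cases j <;> simp [*, negOne]

theorem center_of_ker {g : Matrix.SpecialLinearGroup (Fin 4) F} (h : g = 1 ∨ g = negOne) :
    g ∈ Subgroup.center (Matrix.SpecialLinearGroup (Fin 4) F) := by
  rcases h with rfl | rfl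
  · exact Subgroup.one_mem _
  · rw [Subgroup.mem_center_iff]
    intro x
    apply Subtype.ext
    show x.1 * negOne.1 = negOne.1 * x.1
    simp [negOne]

theorem numeric (q : ℕ) (hq : 2 ≤ q) :
    (q - 1) * (2 * q ^ 6 * (q ^ 3 - 1) * ((q ^ 2 - 1) * (q ^ 4 - 1))) =
    2 * ((q ^ 4 - 1) * (q ^ 4 - q) * (q ^ 4 - q ^ 2) * (q ^ 4 - q ^ 3)) := by
  obtain ⟨s, rfl⟩ : ∃ s, q = s + 2 := ⟨q - 2, by omega⟩
  have e1 : 1 ≤ (s + 2) ^ 4 := Nat.one_le_pow _ _ (by omega)
  have e2 : (s + 2) ≤ (s + 2) ^ 4 := Nat.le_self_pow (by norm_num) _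
  have e3 : (s + 2) ^ 2 ≤ (s + 2) ^ 4 := Nat.pow_le_pow_right (by omega) (by norm_num)
  have e4 : (s + 2) ^ 3 ≤ (s + 2) ^ 4 := Nat.pow_le_pow_right (by omega) (by norm_num)
  have e5 : 1 ≤ (s + 2) ^ 3 := Nat.one_le_pow _ _ (by omega)
  have e6 : 1 ≤ (s + 2) ^ 2 := Nat.one_le_pow _ _ (by omega)
  zify [e1, e2, e3, e4, e5, e6, show 1 ≤ s + 2 by omega]
  ring

/-- |O⁺₆(q)| = 2 |SL₄(q)|. -/
theorem card_O [Fintype F] :
    Nat.card (isometryGroup F (quadFormPlus 3 F)) =
      2 * Nat.card (Matrix.SpecialLinearGroup (Fin 4) F) := by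
  have h1 := Cfsg.Agent.S0287.result (F := F) rfl 3 (by norm_num)
  have h2 := Cfsg.Agent.Lib.Classical.SLBasic.card_gl_eq_mul_card_sl (F := F) (ι := Fin 4)
  have h3 := Matrix.card_GL_field (𝔽 := F) 4
  rw [h3] at h2
  have hq : 2 ≤ Fintype.card F := Fintype.one_lt_card
  rw [h1]
  simp only [Fin.prod_univ_four, Finset.prod_range_succ, Finset.prod_range_zero] at h2 ⊢
  norm_num at h2 ⊢
  have hq1 : 0 < Fintype.card F - 1 := by omega
  apply Nat.eq_of_mul_eq_mul_left hq1
  rw [mul_left_comm (Fintype.card F - 1) 2, ← h2]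
  exact numeric _ hq

/-- PΩ^+_6(q) is isomorphic to PSL_4(q). -/
theorem result {F : Type*} [Field F] [Fintype F] : Nonempty (Cfsg.POmega F (Cfsg.quadFormPlus 3 F) ≃* Matrix.ProjectiveSpecialLinearGroup (Fin 4) F) := by
  classical
  have hperf : commutator (Matrix.SpecialLinearGroup (Fin 4) F) = ⊤ :=
    Cfsg.Agent.Lib.Classical.Transvections.commutator_sl_eq_top (by simp)
  have hsimple : IsSimpleGroup (Matrix.ProjectiveSpecialLinearGroup (Fin 4) F) :=
    Cfsg.Agent.Lib.Classical.Transvections.psl_isSimpleGroup (by simp)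
  have hperfT : commutator (Matrix.ProjectiveSpecialLinearGroup (Fin 4) F) = ⊤ := by
    have : Group.IsPerfect (Matrix.SpecialLinearGroup (Fin 4) F) := ⟨hperf⟩
    have : Group.IsPerfect (Matrix.ProjectiveSpecialLinearGroup (Fin 4) F) := inferInstance
    exact this.commutator_eq_top
  have hzker : negOne ∈ (phi (F := F)).ker := by
    rw [mem_ker_phi]
    ext a b
    fin_cases a <;> fin_cases b <;> simp [P, idx, negOne, Matrix.one_apply]
  refine commutator_quotient_equiv (phi (F := F)) (QuotientGroup.mk' _)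
    (QuotientGroup.mk'_surjective _) (QuotientGroup.ker_mk' _) (center_eq_bot_of_simple hperfT) ?_
    (map_mem_commutator_of_perfect _ hperf) ?_
  · intro g hg
    rw [QuotientGroup.ker_mk']
    exact center_of_ker (scalar_of_ker g ((mem_ker_phi g).mp hg))
  · refine index_mul_card_range _ negOne hzker (fun g hg => scalar_of_ker g ((mem_ker_phi g).mp hg)) ?_ ?_ card_O
    · intro hne
      have h2 : (2 : F) ≠ 0 := by
        intro h2
        apply hne
        apply Subtype.ext
        have : (-1 : F) = 1 := by linear_combination -h2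
        ext i j
        simp [negOne, Matrix.neg_apply, Matrix.one_apply]
        split_ifs <;> simp [this]
      exact Cfsg.Agent.Lib.Orth.Closure.index_Omega_odd (Cfsg.Agent.Lib.Orth.Forms.plusForm 3 F) h2 (by simp)
        (Cfsg.Agent.Lib.Orth.Forms.plusForm_nondeg 3)
    · intro he
      have h1 : (-1 : F) = 1 := by
        have := congrArg (fun g : Matrix.SpecialLinearGroup (Fin 4) F => g.1 0 0) he
        simpa [negOne] using this
      have h2 : (2 : F) = 0 := by linear_combination -h1
      have : CharP F 2 := CharTwo.of_one_ne_zero_of_two_eq_zero one_ne_zero h2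
      exact Cfsg.Agent.Lib.Orth.Closure.index_Omega_char_two (Cfsg.Agent.Lib.Orth.Forms.plusForm 3 F) (by simp)
        (Cfsg.Agent.Lib.Orth.Forms.plusForm_nondeg 3) (Or.inr (by simp))

end Cfsg.Agent.S0302
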