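import Mathlib
import Cfsg.Statements.S0304
import Cfsg.Agent.Lib.Classical.SympForm
-- import your own Cfsg.Agent.* helpers here

set_option autoImplicit false
set_option linter.unusedSectionVars false
open Cfsg

namespace Cfsg.Agent.S0304

open Matrix Cfsg
open Cfsg.Agent.Lib.Classical.SympForm

variable {m : ℕ} {F : Type*} [Field F]

/-- The hyperbolic quadratic form on the last `2m` coordinates. -/
def q (w : Fin m ⊕ Fin m → F) : F := ∑ i, w (.inl i) * w (.inr i)

lemma quadFormOdd_eq (v : Unit ⊕ (Fin m ⊕ Fin m) → F) :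
    quadFormOdd m F v = (v (.inl ())) ^ 2 + q (v ∘ Sum.inr) := rfl

lemma quadFormOdd_elim (x : Unit → F) (w : Fin m ⊕ Fin m → F) :
    quadFormOdd m F (Sum.elim x w) = (x ()) ^ 2 + q w := rfl

lemma q_add [CharP F 2] (u v : Fin m ⊕ Fin m → F) : q (u + v) = q u + q v + sympForm m F u v := by
  have h2 : (2 : F) = 0 := CharTwo.two_eq_zero
  rw [sympForm_eq_sum]
  simp only [q, Pi.add_apply, ← Finset.sum_add_distrib]
  refine Finset.sum_congr rfl fun i _ => ?_
  linear_combination (u (.inl i) * v (.inr i)) * h2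

lemma q_smul (c : F) (u : Fin m ⊕ Fin m → F) : q (c • u) = c ^ 2 * q u := by
  simp only [q, Pi.smul_apply, smul_eq_mul, Finset.mul_sum]
  refine Finset.sum_congr rfl fun i _ => ?_
  ring

lemma add_sq_two [CharP F 2] (a b : F) : (a + b) ^ 2 = a ^ 2 + b ^ 2 := by
  have h2 : (2 : F) = 0 := CharTwo.two_eq_zero
  linear_combination (a * b) * h2

lemma eq_of_sq_eq [CharP F 2] {a b : F} (h : a ^ 2 = b ^ 2) : a = b := by
  have h2 : (2 : F) = 0 := CharTwo.two_eq_zero
  have : (a + b) ^ 2 = 0 := by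
    rw [add_sq_two, h]; linear_combination (b ^ 2) * h2
  have h3 : a + b = 0 := pow_eq_zero_iff (two_ne_zero) |>.mp this
  rw [CharTwo.add_eq_zero] at h3
  exact h3

/-- The isometry group condition. -/
lemma mem_iso_iff (g : GL (Unit ⊕ (Fin m ⊕ Fin m)) F) :
    g ∈ isometryGroup F (quadFormOdd m F) ↔
      ∀ v, quadFormOdd m F ((g : Matrix _ _ F) *ᵥ v) = quadFormOdd m F v := by
  change (∀ u _v, quadFormOdd m F ((g : Matrix _ _ F) *ᵥ u) = quadFormOdd m F u) ↔ _
  exact ⟨fun h v => h v 0, fun h u _ => h u⟩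

/-- Structure of a matrix preserving the form: blocks. -/
lemma blocks_mulVec (M : Matrix (Unit ⊕ (Fin m ⊕ Fin m)) (Unit ⊕ (Fin m ⊕ Fin m)) F)
    (x : Unit → F) (w : Fin m ⊕ Fin m → F) :
    M *ᵥ (Sum.elim x w) = Sum.elim (M.toBlocks₁₁ *ᵥ x + M.toBlocks₁₂ *ᵥ w) (M.toBlocks₂₁ *ᵥ x + M.toBlocks₂₂ *ᵥ w) := by
  conv_lhs => rw [← Matrix.fromBlocks_toBlocks M]
  rw [Matrix.fromBlocks_mulVec]
  simp

lemma elim_comp (v : Unit ⊕ (Fin m ⊕ Fin m) → F) : Sum.elim (v ∘ Sum.inl) (v ∘ Sum.inr) = v := by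
  ext i; cases i <;> rfl

lemma sympForm_eq_zero_of_forall {γ : Fin m ⊕ Fin m → F} (h : ∀ y, sympForm m F γ y = 0) : γ = 0 := by
  have := (sympBilin_nondegenerate (m := m) (F := F))
  exact this.1 γ (fun y => by simpa using h y)

/-- `Sp` matrices have a surjective `mulVec`. -/
lemma sp_surj {A : Matrix (Fin m ⊕ Fin m) (Fin m ⊕ Fin m) F} (hA : A ∈ Matrix.symplecticGroup (Fin m) F)
    (y : Fin m ⊕ Fin m → F) : ∃ w, A *ᵥ w = y := by
  let a : Matrix.symplecticGroup (Fin m) F := ⟨A, hA⟩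
  refine ⟨(a⁻¹ : Matrix.symplecticGroup (Fin m) F).1 *ᵥ y, ?_⟩
  rw [Matrix.mulVec_mulVec]
  have : A * (a⁻¹ : Matrix.symplecticGroup (Fin m) F).1 = 1 := by
    have h := mul_inv_cancel a
    exact congrArg Subtype.val h
  rw [this, Matrix.one_mulVec]

section struct
variable [CharP F 2]

/-- Main structural lemma for an isometry. -/
lemma struct_of_mem (M : Matrix (Unit ⊕ (Fin m ⊕ Fin m)) (Unit ⊕ (Fin m ⊕ Fin m)) F)
    (hM : ∀ v, quadFormOdd m F (M *ᵥ v) = quadFormOdd m F v) :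
    M.toBlocks₂₂ ∈ Matrix.symplecticGroup (Fin m) F ∧ M.toBlocks₂₁ = 0 ∧ M.toBlocks₁₁ = 1 ∧
      ∀ w, (M.toBlocks₁₂ *ᵥ w) () ^ 2 + q (M.toBlocks₂₂ *ᵥ w) = q w := by
  set α := M.toBlocks₁₁ with hα
  set φ := M.toBlocks₁₂ with hφ
  set γ := M.toBlocks₂₁ with hγ
  set A := M.toBlocks₂₂ with hA
  have hh : ∀ (x : Unit → F) (w : Fin m ⊕ Fin m → F),
      ((α *ᵥ x + φ *ᵥ w) ()) ^ 2 + q (γ *ᵥ x + A *ᵥ w) = x () ^ 2 + q w := by
    intro x w
    have := hM (Sum.elim x w)
    rw [blocks_mulVec, quadFormOdd_elim, quadFormOdd_elim] at this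
    exact this
  -- (a)
  have ha : ∀ w, (φ *ᵥ w) () ^ 2 + q (A *ᵥ w) = q w := by
    intro w
    have := hh 0 w
    simpa using this
  -- (b) A is symplectic
  have hb : ∀ u v, sympForm m F (A *ᵥ u) (A *ᵥ v) = sympForm m F u v := by
    intro u v
    have h1 := ha (u + v)
    have h2 := ha u
    have h3 := ha v
    rw [q_add u v, Matrix.mulVec_add, Matrix.mulVec_add, q_add] at h1
    rw [Pi.add_apply, add_sq_two] at h1
    have h4 : (2 : F) = 0 := CharTwo.two_eq_zero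
    linear_combination h1 - h2 - h3
  have hsp : A ∈ Matrix.symplecticGroup (Fin m) F := (mem_symplecticGroup_iff A).mpr hb
  -- (d)
  have hd : ∀ w, ((α *ᵥ (fun _ => 1)) ()) ^ 2 + q (γ *ᵥ (fun _ => 1)) + sympForm m F (γ *ᵥ (fun _ => 1)) (A *ᵥ w) = 1 := by
    intro w
    have h1 := hh (fun _ => 1) w
    rw [Pi.add_apply, add_sq_two, q_add] at h1
    have h2 := ha w
    have h3 : (1 : F) ^ 2 = 1 := one_pow 2
    rw [h3] at h1
    linear_combination h1 - h2
  have h0 := hd 0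
  rw [Matrix.mulVec_zero] at h0
  have hsz : ∀ y : Fin m ⊕ Fin m → F, sympForm m F 0 y = 0 := by
    intro y; rw [sympForm_eq_sum]; simp
  have hsz2 : ∀ y : Fin m ⊕ Fin m → F, sympForm m F y 0 = 0 := by
    intro y; rw [sympForm_eq_sum]; simp
  rw [hsz2, add_zero] at h0
  have hγ0 : γ *ᵥ (fun _ => (1 : F)) = 0 := by
    apply sympForm_eq_zero_of_forall
    intro y
    obtain ⟨w, rfl⟩ := sp_surj hsp y
    have := hd w
    linear_combination this - h0
  have hγ1 : γ = 0 := by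
    ext r u
    have := congrFun hγ0 r
    simpa [Matrix.mulVec, dotProduct, Subsingleton.elim u ()] using this
  have hq0 : q (0 : Fin m ⊕ Fin m → F) = 0 := by simp [q]
  rw [hγ0, hq0, add_zero] at h0
  have hα1 : α = 1 := by
    have h1 : (α *ᵥ (fun _ => 1)) () = 1 := by
      have : ((α *ᵥ (fun _ => 1)) ()) ^ 2 = (1 : F) ^ 2 := by rw [h0, one_pow]
      exact eq_of_sq_eq this
    ext a b
    rw [Subsingleton.elim a (), Subsingleton.elim b ()]
    simpa [Matrix.mulVec, dotProduct] using h1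
  exact ⟨hsp, hγ1, hα1, ha⟩

/-- The block of an isometry. -/
def toSpVal (g : isometryGroup F (quadFormOdd m F)) : Matrix (Fin m ⊕ Fin m) (Fin m ⊕ Fin m) F :=
  Matrix.toBlocks₂₂ (g.1.1)

lemma toSpVal_mem (g : isometryGroup F (quadFormOdd m F)) : toSpVal g ∈ Matrix.symplecticGroup (Fin m) F :=
  (struct_of_mem g.1.1 ((mem_iso_iff g.1).mp g.2)).1

/-- The block of an isometry. -/
def toSp (g : isometryGroup F (quadFormOdd m F)) : Matrix.symplecticGroup (Fin m) F :=
  ⟨toSpVal g, toSpVal_mem g⟩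

lemma toSp_mul (g h : isometryGroup F (quadFormOdd m F)) : toSp (g * h) = toSp g * toSp h := by
  apply Subtype.ext
  change ((g * h : isometryGroup F (quadFormOdd m F)).1.1).toBlocks₂₂ =
    (g.1.1).toBlocks₂₂ * (h.1.1).toBlocks₂₂
  have hg := struct_of_mem _ ((mem_iso_iff g.1).mp g.2)
  have e : ((g * h : isometryGroup F (quadFormOdd m F)).1.1) = g.1.1 * h.1.1 := rfl
  rw [e]
  conv_lhs => rw [← Matrix.fromBlocks_toBlocks (g.1.1), ← Matrix.fromBlocks_toBlocks (h.1.1)]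
  rw [Matrix.fromBlocks_multiply, Matrix.toBlocks_fromBlocks₂₂, hg.2.1, Matrix.zero_mul, zero_add]

lemma toSp_inj : Function.Injective (toSp (m := m) (F := F)) := by
  intro g h hgh
  have hA : (g.1.1).toBlocks₂₂ = (h.1.1).toBlocks₂₂ := congrArg Subtype.val hgh
  have hg := struct_of_mem _ ((mem_iso_iff g.1).mp g.2)
  have hh := struct_of_mem _ ((mem_iso_iff h.1).mp h.2)
  have hφ : (g.1.1).toBlocks₁₂ = (h.1.1).toBlocks₁₂ := by
    ext a r
    rw [Subsingleton.elim a ()]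
    have h1 := hg.2.2.2 (Pi.single r 1)
    have h2 := hh.2.2.2 (Pi.single r 1)
    rw [← hA] at h2
    have h3 := eq_of_sq_eq (a := ((g.1.1).toBlocks₁₂ *ᵥ (Pi.single r 1)) ()) (b := ((h.1.1).toBlocks₁₂ *ᵥ (Pi.single r 1)) ()) (by
      linear_combination h1 - h2)
    simpa using h3
  apply Subtype.ext
  apply Units.ext
  rw [← Matrix.fromBlocks_toBlocks (g.1.1), ← Matrix.fromBlocks_toBlocks (h.1.1)]
  rw [hg.2.1, hg.2.2.1, hh.2.1, hh.2.2.1, hA, hφ]

variable [Fintype F]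

lemma toSp_surj : Function.Surjective (toSp (m := m) (F := F)) := by
  rintro ⟨A, hA⟩
  have h2 : (2 : F) = 0 := CharTwo.two_eq_zero
  have hb := (mem_symplecticGroup_iff A).mp hA
  -- square roots
  obtain ⟨ρ, hρ⟩ : ∃ ρ : F →+* F, ∀ x, ρ x ^ 2 = x := by
    have hfin : Function.Bijective (frobenius F 2) := ⟨(frobenius F 2).injective, Finite.surjective_of_injective (frobenius F 2).injective⟩
    let e : F ≃+* F := RingEquiv.ofBijective (frobenius F 2) hfin
    refine ⟨e.symm.toRingHom, fun x => ?_⟩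
    have : e (e.symm x) = x := e.apply_symm_apply x
    exact this
  let L : (Fin m ⊕ Fin m → F) →ₗ[F] (Unit → F) :=
    { toFun := fun w _ => ρ (q w + q (A *ᵥ w))
      map_add' := by
        intro u v
        ext _
        simp only [Pi.add_apply, ← map_add]
        congr 1
        rw [Matrix.mulVec_add, q_add, q_add, hb]
        linear_combination (sympForm m F u v) * h2
      map_smul' := by
        intro c u
        ext _
        simp only [RingHom.id_apply, Pi.smul_apply, smul_eq_mul]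
        apply eq_of_sq_eq
        rw [hρ, mul_pow, hρ, Matrix.mulVec_smul, q_smul, q_smul]
        ring }
  let Φ : Matrix Unit (Fin m ⊕ Fin m) F := LinearMap.toMatrix' L
  have hΦ : ∀ w, (Φ *ᵥ w) () ^ 2 = q w + q (A *ᵥ w) := by
    intro w
    have : Φ *ᵥ w = L w := LinearMap.toMatrix'_mulVec L w
    rw [this]
    exact hρ _
  let M : Matrix (Unit ⊕ (Fin m ⊕ Fin m)) (Unit ⊕ (Fin m ⊕ Fin m)) F := Matrix.fromBlocks 1 Φ 0 A
  have hdet : M.det ≠ 0 := by
    rw [Matrix.det_fromBlocks_zero₂₁, Matrix.det_one, one_mul]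
    exact (SymplecticGroup.symplectic_det hA).ne_zero
  let g : GL (Unit ⊕ (Fin m ⊕ Fin m)) F := Matrix.GeneralLinearGroup.mkOfDetNeZero M hdet
  have hg : g ∈ isometryGroup F (quadFormOdd m F) := by
    rw [mem_iso_iff]
    intro v
    rw [← elim_comp v]
    change quadFormOdd m F (M *ᵥ _) = _
    rw [Matrix.fromBlocks_mulVec, quadFormOdd_elim]
    simp only [Sum.elim_comp_inl, Sum.elim_comp_inr, Matrix.one_mulVec, Matrix.zero_mulVec, zero_add, Pi.add_apply]
    rw [quadFormOdd_elim, add_sq_two, hΦ]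
    simp only [Function.comp]
    linear_combination (q (A *ᵥ (v ∘ Sum.inr))) * h2
  refine ⟨⟨g, hg⟩, ?_⟩
  apply Subtype.ext
  exact Matrix.toBlocks_fromBlocks₂₂ _ _ _ _

end struct

/-- In characteristic 2, O_{2m+1}(q) is isomorphic to Sp_{2m}(q). -/
theorem result {F : Type*} [Field F] [Fintype F] [CharP F 2] (m : ℕ) : Nonempty (Cfsg.isometryGroup F (Cfsg.quadFormOdd m F) ≃* Matrix.symplecticGroup (Fin m) F) := by
  exact ⟨MulEquiv.ofBijective (MonoidHom.mk' toSp toSp_mul) ⟨toSp_inj, toSp_surj⟩⟩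

end Cfsg.Agent.S0304
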