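import Mathlib
import Cfsg.Statements.S0305
import Cfsg.Agent.Lib.Classical.SLBasic
-- import your own Cfsg.Agent.* helpers here

set_option autoImplicit false
open Cfsg

namespace Cfsg.Agent.S0305

variable {F : Type*} [Field F]

set_option linter.unusedSectionVars false

/-- The index set. -/
abbrev Idx := Fin 1 ⊕ Fin 1

/-- A matrix given by four entries. -/
def mat2 (a b c d : F) : Matrix Idx Idx F := fun i j =>
  match i, j with
  | .inl _, .inl _ => a
  | .inl _, .inr _ => b
  | .inr _, .inl _ => c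
  | .inr _, .inr _ => d

@[simp] lemma mat2_ll (a b c d : F) (i j) : mat2 a b c d (.inl i) (.inl j) = a := rfl
@[simp] lemma mat2_lr (a b c d : F) (i j) : mat2 a b c d (.inl i) (.inr j) = b := rfl
@[simp] lemma mat2_rl (a b c d : F) (i j) : mat2 a b c d (.inr i) (.inl j) = c := rfl
@[simp] lemma mat2_rr (a b c d : F) (i j) : mat2 a b c d (.inr i) (.inr j) = d := rfl

lemma mat2_mul (a b c d a' b' c' d' : F) :
    mat2 a b c d * mat2 a' b' c' d' = mat2 (a * a' + b * c') (a * b' + b * d') (c * a' + d * c') (c * b' + d * d') := by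
  ext i j
  rcases i with i | i <;> rcases j with j | j <;>
    simp [Matrix.mul_apply, Fintype.sum_sum_type]

lemma mat2_one : mat2 (1 : F) 0 0 1 = 1 := by
  ext i j
  rcases i with i | i <;> rcases j with j | j <;> simp [Matrix.one_apply, Subsingleton.elim i j]

lemma mat2_eta (M : Matrix Idx Idx F) : M = mat2 (M (.inl 0) (.inl 0)) (M (.inl 0) (.inr 0)) (M (.inr 0) (.inl 0)) (M (.inr 0) (.inr 0)) := by
  ext i j
  rcases i with i | i <;> rcases j with j | j <;> simp [Subsingleton.elim i 0, Subsingleton.elim j 0]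

/-- `diag(u, u⁻¹)`. -/
def dg (u : Fˣ) : GL Idx F :=
  ⟨mat2 (u : F) 0 0 ((u⁻¹ : Fˣ) : F), mat2 ((u⁻¹ : Fˣ) : F) 0 0 (u : F),
    by rw [mat2_mul, ← mat2_one]; simp, by rw [mat2_mul, ← mat2_one]; simp⟩

/-- `antidiag(u, u⁻¹)`. -/
def an (u : Fˣ) : GL Idx F :=
  ⟨mat2 0 (u : F) ((u⁻¹ : Fˣ) : F) 0, mat2 0 (u : F) ((u⁻¹ : Fˣ) : F) 0,
    by rw [mat2_mul, ← mat2_one]; simp, by rw [mat2_mul, ← mat2_one]; simp⟩

lemma val_congr {a b : GL Idx F} (h : a = b) (i j : Idx) : a.1 i j = b.1 i j := by rw [h]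

lemma dg_mul_dg (u v : Fˣ) : dg u * dg v = dg (u * v) := by
  apply Units.ext
  change mat2 _ _ _ _ * mat2 _ _ _ _ = mat2 _ _ _ _
  rw [mat2_mul]; simp [mul_comm]

lemma dg_mul_an (u v : Fˣ) : dg u * an v = an (u * v) := by
  apply Units.ext
  change mat2 _ _ _ _ * mat2 _ _ _ _ = mat2 _ _ _ _
  rw [mat2_mul]; simp [mul_comm]

lemma an_mul_dg (u v : Fˣ) : an u * dg v = an (u * v⁻¹) := by
  apply Units.ext
  change mat2 _ _ _ _ * mat2 _ _ _ _ = mat2 _ _ _ _
  rw [mat2_mul]; simp [mul_comm]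

lemma an_mul_an (u v : Fˣ) : an u * an v = dg (u * v⁻¹) := by
  apply Units.ext
  change mat2 _ _ _ _ * mat2 _ _ _ _ = mat2 _ _ _ _
  rw [mat2_mul]; simp [mul_comm]

lemma mem_iso_iff (g : GL Idx F) : g ∈ Cfsg.isometryGroup F (Cfsg.quadFormPlus 1 F) ↔
    ∀ x y : F, (g.1 (.inl 0) (.inl 0) * x + g.1 (.inl 0) (.inr 0) * y) * (g.1 (.inr 0) (.inl 0) * x + g.1 (.inr 0) (.inr 0) * y) = x * y := by
  change (∀ u _v, Cfsg.quadFormPlus 1 F (g.1.mulVec u) = Cfsg.quadFormPlus 1 F u) ↔ _
  constructor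
  · intro h x y
    have := h (fun i => match i with | .inl _ => x | .inr _ => y) 0
    simpa [Cfsg.quadFormPlus, Matrix.mulVec, dotProduct, Fintype.sum_sum_type] using this
  · intro h u _
    have := h (u (.inl 0)) (u (.inr 0))
    simpa [Cfsg.quadFormPlus, Matrix.mulVec, dotProduct, Fintype.sum_sum_type] using this

lemma dg_mem (u : Fˣ) : dg u ∈ Cfsg.isometryGroup F (Cfsg.quadFormPlus 1 F) := by
  rw [mem_iso_iff]
  intro x y
  simp only [dg, mat2_ll, mat2_lr, mat2_rl, mat2_rr]
  have : (u : F) * ((u⁻¹ : Fˣ) : F) = 1 := by simp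
  linear_combination (x * y) * this

lemma an_mem (u : Fˣ) : an u ∈ Cfsg.isometryGroup F (Cfsg.quadFormPlus 1 F) := by
  rw [mem_iso_iff]
  intro x y
  simp only [an, mat2_ll, mat2_lr, mat2_rl, mat2_rr]
  have : (u : F) * ((u⁻¹ : Fˣ) : F) = 1 := by simp
  linear_combination (x * y) * this

lemma classify (g : GL Idx F) (hg : g ∈ Cfsg.isometryGroup F (Cfsg.quadFormPlus 1 F)) :
    (∃ u, g = dg u) ∨ (∃ u, g = an u) := by
  rw [mem_iso_iff] at hg
  have h10 := hg 1 0
  have h01 := hg 0 1
  have h11 := hg 1 1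
  simp only [mul_one, mul_zero, add_zero, zero_add] at h10 h01 h11
  set a := g.1 (.inl 0) (.inl 0) with ha
  set b := g.1 (.inl 0) (.inr 0) with hb
  set c := g.1 (.inr 0) (.inl 0) with hc
  set d := g.1 (.inr 0) (.inr 0) with hd
  have heta : g.1 = mat2 a b c d := mat2_eta g.1
  have hs : a * d + b * c = 1 := by linear_combination h11 - h10 - h01
  by_cases ha0 : a = 0
  · -- antidiagonal
    right
    have hbc : b * c = 1 := by rw [ha0] at hs; simpa using hs
    have hb0 : b ≠ 0 := left_ne_zero_of_mul_eq_one hbc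
    have hd0 : d = 0 := (mul_eq_zero.mp h01).resolve_left hb0
    refine ⟨Units.mk0 b hb0, ?_⟩
    apply Units.ext
    rw [heta]
    change mat2 a b c d = mat2 0 b (Units.mk0 b hb0)⁻¹.val 0
    rw [ha0, hd0]
    congr 1
    simp only [Units.val_inv_eq_inv_val, Units.val_mk0]
    field_simp
    linear_combination hbc
  · left
    have hc0 : c = 0 := (mul_eq_zero.mp h10).resolve_left ha0
    rw [hc0] at hs
    have had : a * d = 1 := by simpa using hs
    have hd0 : d ≠ 0 := right_ne_zero_of_mul_eq_one had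
    have hb0 : b = 0 := (mul_eq_zero.mp h01).resolve_right hd0
    refine ⟨Units.mk0 a ha0, ?_⟩
    apply Units.ext
    rw [heta]
    change mat2 a b c d = mat2 a 0 0 (Units.mk0 a ha0)⁻¹.val
    rw [hb0, hc0]
    congr 1
    simp only [Units.val_inv_eq_inv_val, Units.val_mk0]
    field_simp
    linear_combination had

variable [Fintype F]

/-- The isomorphism, with `n` the order of the unit group. -/
theorem main : Nonempty (Cfsg.isometryGroup F (Cfsg.quadFormPlus 1 F) ≃* DihedralGroup (Nat.card Fˣ)) := by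
  classical
  have hcyc : IsCyclic Fˣ := inferInstance
  let e := zmodCyclicMulEquiv hcyc
  let ζ : ZMod (Nat.card Fˣ) → Fˣ := fun i => e (Multiplicative.ofAdd i)
  have hζadd : ∀ i j, ζ (i + j) = ζ i * ζ j := fun i j => by
    simp only [ζ, ofAdd_add, map_mul]
  have hζneg : ∀ i, ζ (-i) = (ζ i)⁻¹ := fun i => by
    simp only [ζ, ofAdd_neg, map_inv]
  let φ : DihedralGroup (Nat.card Fˣ) → Cfsg.isometryGroup F (Cfsg.quadFormPlus 1 F) := fun x =>
    match x with
    | .r i => ⟨dg (ζ i), dg_mem _⟩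
    | .sr i => ⟨an (ζ (-i)), an_mem _⟩
  have hmul : ∀ x y, φ (x * y) = φ x * φ y := by
    rintro (i | i) (j | j) <;> apply Subtype.ext <;> simp only [φ, DihedralGroup.r_mul_r, DihedralGroup.r_mul_sr, DihedralGroup.sr_mul_r, DihedralGroup.sr_mul_sr, MulMemClass.mk_mul_mk]
    · rw [dg_mul_dg, hζadd]
    · rw [dg_mul_an, neg_sub, sub_eq_add_neg, hζadd]
    · rw [an_mul_dg, neg_add, hζadd, hζneg j]
    · rw [an_mul_an, hζneg j, inv_inv, hζneg i, sub_eq_add_neg, hζadd, hζneg i]
      exact congrArg dg (mul_comm _ _)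
  have hinj : Function.Injective φ := by
    have hval : ∀ (u v : Fˣ), (dg u : GL Idx F) = dg v → u = v := by
      intro u v h
      have := val_congr h (.inl 0) (.inl 0)
      exact Units.ext this
    have hval2 : ∀ (u v : Fˣ), (an u : GL Idx F) = an v → u = v := by
      intro u v h
      have := val_congr h (.inl 0) (.inr 0)
      exact Units.ext this
    have hζinj : Function.Injective ζ := fun i j h => by
      have := e.injective h
      exact this
    rintro (i | i) (j | j) h
    · have := hζinj (hval _ _ (congrArg Subtype.val h))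
      rw [this]
    · exfalso
      have := val_congr (congrArg Subtype.val h) (.inl 0) (.inl 0)
      exact (Units.ne_zero (ζ i)) this
    · exfalso
      have := val_congr (congrArg Subtype.val h) (.inl 0) (.inl 0)
      exact (Units.ne_zero (ζ j)) this.symm
    · have := hζinj (hval2 _ _ (congrArg Subtype.val h))
      rw [neg_inj.mp this]
  have hsurj : Function.Surjective φ := by
    rintro ⟨g, hg⟩
    rcases classify g hg with ⟨u, rfl⟩ | ⟨u, rfl⟩
    · obtain ⟨i, hi⟩ := e.surjective u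
      refine ⟨.r (Multiplicative.toAdd i), Subtype.ext ?_⟩
      change dg (e i) = dg u
      rw [hi]
    · obtain ⟨i, hi⟩ := e.surjective u
      refine ⟨.sr (-(Multiplicative.toAdd i)), Subtype.ext ?_⟩
      change an (ζ (- -(Multiplicative.toAdd i))) = an u
      rw [neg_neg]
      change an (e i) = an u
      rw [hi]
  exact ⟨(MulEquiv.mk' (Equiv.ofBijective φ ⟨hinj, hsurj⟩) hmul).symm⟩

/-- GO^+_2(q) is dihedral of order 2(q-1). -/
theorem result {F : Type*} [Field F] [Fintype F] {q : ℕ} (hF : Fintype.card F = q) : Nonempty (Cfsg.isometryGroup F (Cfsg.quadFormPlus 1 F) ≃* DihedralGroup (q - 1)) := by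
  subst hF
  rw [← Cfsg.Agent.Lib.Classical.SLBasic.card_units_eq]
  exact main

end Cfsg.Agent.S0305
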