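import Mathlib
import Cfsg.Statements.S0306
import Cfsg.Agent.Lib.Classical.QuadExt
import Cfsg.Agent.Lib.Classical.MatrixBridge
-- import your own Cfsg.Agent.* helpers here

set_option autoImplicit false
open Cfsg

set_option linter.unusedSectionVars false
set_option linter.style.haveILetI false

namespace Cfsg.Agent.S0306

open QuadraticAlgebra Cfsg Cfsg.Agent.Lib.Classical Cfsg.Agent.Lib.Classical.QuadExt

variable {F : Type*} [Field F]

/-- The index set. -/
abbrev Idx := (Fin 0 ⊕ Fin 0) ⊕ Fin 2

lemma fact_of_hab {a b : F} (hab : ∀ z₁ z₂ : F, z₁ ^ 2 + a * z₁ * z₂ + b * z₂ ^ 2 = 0 → z₁ = 0 ∧ z₂ = 0) :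
    ∀ r : F, r ^ 2 ≠ (-b) + a * r := by
  intro r hr
  have := (hab (-r) 1 (by linear_combination hr)).2
  exact one_ne_zero this

/-- Coordinates. -/
def τ (a b : F) : (Idx → F) ≃ₗ[F] QuadraticAlgebra F (-b) a where
  toFun v := ⟨v (.inr 0), v (.inr 1)⟩
  invFun z := fun i => match i with
    | .inl x => Sum.elim Fin.elim0 Fin.elim0 x
    | .inr j => ![z.re, z.im] j
  map_add' _ _ := rfl
  map_smul' _ _ := rfl
  left_inv v := by
    funext i
    rcases i with (x | x) | j
    · exact x.elim0
    · exact x.elim0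
    · fin_cases j <;> rfl
  right_inv z := rfl

lemma τ_re (a b : F) (v : Idx → F) : (τ a b v).re = v (.inr 0) := rfl
lemma τ_im (a b : F) (v : Idx → F) : (τ a b v).im = v (.inr 1) := rfl

lemma quadForm_eq (a b : F) (v : Idx → F) : quadFormMinus 0 F a b v = norm (τ a b v) := by
  simp only [quadFormMinus, norm_def, τ_re, τ_im]
  simp
  ring

/-- The conjugation of `GL` to `K`-automorphisms. -/
noncomputable def Ψ (a b : F) : GL Idx F ≃* (QuadraticAlgebra F (-b) a ≃ₗ[F] QuadraticAlgebra F (-b) a) where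
  toFun g := (τ a b).symm ≪≫ₗ (MatrixBridge.glToLin g) ≪≫ₗ (τ a b)
  invFun f := MatrixBridge.glToLin.symm ((τ a b) ≪≫ₗ f ≪≫ₗ (τ a b).symm)
  left_inv g := by
    apply MatrixBridge.glToLin.injective
    ext x i
    simp
  right_inv f := by
    ext z <;> simp
  map_mul' g h := by
    ext z <;> simp

/-- The orthogonal group of the norm. -/
def OK (a b : F) [Fact (∀ r : F, r ^ 2 ≠ (-b) + a * r)] :
    Subgroup (QuadraticAlgebra F (-b) a ≃ₗ[F] QuadraticAlgebra F (-b) a) where
  carrier := {f | ∀ z, norm (f z) = norm z}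
  mul_mem' := by
    intro f g hf hg z
    rw [LinearEquiv.mul_apply, hf, hg]
  one_mem' := fun _ => rfl
  inv_mem' := by
    intro f hf z
    have := hf (f⁻¹ z)
    have e : f (f⁻¹ z) = z := LinearEquiv.apply_symm_apply f z
    rw [e] at this
    exact this.symm

lemma isometry_map (a b : F) [Fact (∀ r : F, r ^ 2 ≠ (-b) + a * r)] :
    (isometryGroup F (quadFormMinus 0 F a b)).map (Ψ a b).toMonoidHom = OK a b := by
  ext f
  constructor
  · rintro ⟨g, hg, rfl⟩ z
    have hg' : ∀ u, quadFormMinus 0 F a b ((g : Matrix Idx Idx F).mulVec u) = quadFormMinus 0 F a b u := fun u => hg u 0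
    have := hg' ((τ a b).symm z)
    rw [quadForm_eq, quadForm_eq, LinearEquiv.apply_symm_apply] at this
    exact this
  · intro hf
    refine ⟨(Ψ a b).symm f, ?_, by simp⟩
    intro u _
    change quadFormMinus 0 F a b (MatrixBridge.glToLin ((Ψ a b).symm f) u) = _
    change quadFormMinus 0 F a b (MatrixBridge.glToLin (MatrixBridge.glToLin.symm ((τ a b) ≪≫ₗ f ≪≫ₗ (τ a b).symm)) u) = quadFormMinus 0 F a b u
    rw [MulEquiv.apply_symm_apply]
    rw [quadForm_eq, quadForm_eq]
    simpa using hf (τ a b u)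

section main

variable [Fintype F] {a b : F} [hf : Fact (∀ r : F, r ^ 2 ≠ (-b) + a * r)]

abbrev C (a b : F) [Fact (∀ r : F, r ^ 2 ≠ (-b) + a * r)] := normOne F (-b) a

lemma val_mul_star (u : C a b) : (u.1 : QuadraticAlgebra F (-b) a) * star (u.1 : QuadraticAlgebra F (-b) a) = 1 := by
  have := (mem_normOne_iff _).mp u.2
  rw [← algebraMap_norm_eq_mul_star, this, map_one]

lemma star_val (u : C a b) : star (u.1 : QuadraticAlgebra F (-b) a) = ((u⁻¹ : C a b).1 : QuadraticAlgebra F (-b) a) := by
  have h := val_mul_star u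
  have h2 : (u.1 : QuadraticAlgebra F (-b) a) * ((u⁻¹ : C a b).1 : QuadraticAlgebra F (-b) a) = 1 := by
    have e : ((u * u⁻¹ : C a b).1 : (QuadraticAlgebra F (-b) a)ˣ) = 1 := by rw [mul_inv_cancel]; rfl
    have := congrArg Units.val e
    exact this
  have h3 : (u.1 : QuadraticAlgebra F (-b) a) ≠ 0 := u.1.ne_zero
  exact mul_left_cancel₀ h3 (h.trans h2.symm)

/-- Multiplication by a norm-one element. -/
def ρL (u : C a b) : QuadraticAlgebra F (-b) a ≃ₗ[F] QuadraticAlgebra F (-b) a where
  toFun z := (u.1 : QuadraticAlgebra F (-b) a) * z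
  invFun z := ((u⁻¹ : C a b).1 : QuadraticAlgebra F (-b) a) * z
  map_add' x y := mul_add _ _ _
  map_smul' c x := by simp
  left_inv z := by
    simp only
    rw [← star_val, ← mul_assoc, mul_comm (star _), val_mul_star, one_mul]
  right_inv z := by
    simp only
    rw [← star_val, ← mul_assoc, val_mul_star, one_mul]

/-- Multiplication by a norm-one element composed with the conjugation. -/
def σL (u : C a b) : QuadraticAlgebra F (-b) a ≃ₗ[F] QuadraticAlgebra F (-b) a where
  toFun z := (u.1 : QuadraticAlgebra F (-b) a) * star z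
  invFun z := star (((u⁻¹ : C a b).1 : QuadraticAlgebra F (-b) a) * z)
  map_add' x y := by simp [mul_add]
  map_smul' c x := by
    simp only [RingHom.id_apply]
    ext <;> simp <;> ring
  left_inv z := by
    simp only
    rw [← star_val]
    calc star (star (u.1 : QuadraticAlgebra F (-b) a) * ((u.1 : QuadraticAlgebra F (-b) a) * star z))
        = star (((u.1 : QuadraticAlgebra F (-b) a) * star (u.1 : QuadraticAlgebra F (-b) a)) * star z) := by
          congr 1; ring
      _ = z := by rw [val_mul_star, one_mul, star_star]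
  right_inv z := by
    simp only
    rw [star_star, ← star_val, ← mul_assoc, val_mul_star, one_mul]

lemma ρL_apply (u : C a b) (z) : ρL u z = (u.1 : QuadraticAlgebra F (-b) a) * z := rfl
lemma σL_apply (u : C a b) (z) : σL u z = (u.1 : QuadraticAlgebra F (-b) a) * star z := rfl

lemma ρL_mem (u : C a b) : ρL u ∈ OK a b := by
  intro z
  rw [ρL_apply, map_mul, (mem_normOne_iff _).mp u.2, one_mul]

lemma σL_mem (u : C a b) : σL u ∈ OK a b := by
  intro z
  rw [σL_apply, map_mul, (mem_normOne_iff _).mp u.2, one_mul, QuadraticAlgebra.norm_star]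

/-- Rotations. -/
def ρ (u : C a b) : OK a b := ⟨ρL u, ρL_mem u⟩
/-- Reflections. -/
def σ (u : C a b) : OK a b := ⟨σL u, σL_mem u⟩

lemma star_omega_ne : star (ω : QuadraticAlgebra F (-b) a) ≠ ω := by
  intro h
  obtain ⟨z, hz⟩ := exists_pow_q_ne (F := F) (a := -b) (b := a)
  apply hz
  rw [pow_q_eq_star]
  have h1 := congrArg QuadraticAlgebra.re h
  have h2 := congrArg QuadraticAlgebra.im h
  simp at h1 h2
  ext
  · simp [h1]
  · simp only [im_star]
    linear_combination (z.im) * h2

lemma classify (g : OK a b) : (∃ u, g = ρ u) ∨ (∃ u, g = σ u) := by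
  obtain ⟨g, hg⟩ := g
  have hg' : ∀ z, norm (g z) = norm z := hg
  -- u = g 1
  have hu1 : norm (g 1) = 1 := by rw [hg']; simp
  have hu0 : g 1 ≠ 0 := by
    intro h
    rw [h] at hu1
    simp at hu1
  let u : C a b := ⟨Units.mk0 (g 1) hu0, (mem_normOne_iff _).mpr hu1⟩
  have huval : (u.1 : QuadraticAlgebra F (-b) a) = g 1 := rfl
  -- w = g' ω
  set w := star (g 1) * g ω with hw
  have hstar1 : star (g 1) * g 1 = 1 := by
    rw [mul_comm, ← algebraMap_norm_eq_mul_star, hu1, map_one]
  have hnw : norm w = norm (ω : QuadraticAlgebra F (-b) a) := by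
    rw [hw, map_mul, QuadraticAlgebra.norm_star, hu1, one_mul, hg']
  have hnw1 : norm (w + 1) = norm ((ω : QuadraticAlgebra F (-b) a) + 1) := by
    have e : w + 1 = star (g 1) * g (ω + 1) := by
      rw [map_add, mul_add, hstar1]
    rw [e, map_mul, QuadraticAlgebra.norm_star, hu1, one_mul, hg']
  have htr : trace w = trace (ω : QuadraticAlgebra F (-b) a) := by
    have e : ∀ z : QuadraticAlgebra F (-b) a, norm (z + 1) = norm z + trace z + 1 := by
      intro z
      simp only [norm_def, trace_def]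
      simp
      ring
    rw [e, e, hnw] at hnw1
    linear_combination hnw1
  have hchar : w ^ 2 = trace (ω : QuadraticAlgebra F (-b) a) • w - algebraMap F _ (norm (ω : QuadraticAlgebra F (-b) a)) := by
    rw [sq_eq_trace_smul_sub_norm, htr, hnw]
  have hprod : (w - ω) * (w - star ω) = 0 := by
    have e1 : (w - ω) * (w - star ω) = w ^ 2 - (ω + star ω) * w + ω * star ω := by ring
    rw [e1, ← algebraMap_trace_eq_add_star, ← algebraMap_norm_eq_mul_star, hchar, Algebra.smul_def]
    ring
  have hlin : ∀ (z : QuadraticAlgebra F (-b) a), star (g 1) * g z = algebraMap F _ z.re + algebraMap F _ z.im * w := by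
    intro z
    have hz : z = z.re • (1 : QuadraticAlgebra F (-b) a) + z.im • ω := by
      ext <;> simp
    conv_lhs => rw [hz]
    rw [map_add, map_smul, map_smul, mul_add, Algebra.mul_smul_comm, Algebra.mul_smul_comm, hstar1, ← hw,
      Algebra.smul_def, Algebra.smul_def, mul_one]
  have hmul : ∀ z, g z = g 1 * (star (g 1) * g z) := by
    intro z
    rw [← mul_assoc, mul_comm (g 1), hstar1, one_mul]
  rcases mul_eq_zero.mp hprod with h | h
  · left
    have hw' : w = ω := sub_eq_zero.mp h
    refine ⟨u, Subtype.ext (LinearEquiv.ext fun z => ?_)⟩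
    change g z = g 1 * z
    rw [hmul z, hlin, hw']
    congr 1
    ext <;> simp
  · right
    have hw' : w = star ω := sub_eq_zero.mp h
    refine ⟨u, Subtype.ext (LinearEquiv.ext fun z => ?_)⟩
    change g z = g 1 * star z
    rw [hmul z, hlin, hw']
    congr 1
    ext <;> simp [mul_comm]

theorem main_OK : Nonempty (OK a b ≃* DihedralGroup (Nat.card (C a b))) := by
  refine dihedral_of_rel (zmodCyclicMulEquiv inferInstance) ρ σ ?_ ?_ ?_ ?_ ?_ ?_ ?_ classify
  · intro u v
    apply Subtype.ext
    apply LinearEquiv.ext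
    intro z
    change (u.1 : QuadraticAlgebra F (-b) a) * ((v.1 : QuadraticAlgebra F (-b) a) * z) = ((u * v).1 : QuadraticAlgebra F (-b) a) * z
    simp [mul_assoc]
  · intro u v
    apply Subtype.ext
    apply LinearEquiv.ext
    intro z
    change (u.1 : QuadraticAlgebra F (-b) a) * ((v.1 : QuadraticAlgebra F (-b) a) * star z) = ((u * v).1 : QuadraticAlgebra F (-b) a) * star z
    simp [mul_assoc]
  · intro u v
    apply Subtype.ext
    apply LinearEquiv.ext
    intro z
    change (u.1 : QuadraticAlgebra F (-b) a) * star ((v.1 : QuadraticAlgebra F (-b) a) * z) = ((u * v⁻¹).1 : QuadraticAlgebra F (-b) a) * star z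
    rw [star_mul, star_val]
    have e : ((u * v⁻¹ : C a b).1 : QuadraticAlgebra F (-b) a) = (u.1 : QuadraticAlgebra F (-b) a) * ((v⁻¹ : C a b).1 : QuadraticAlgebra F (-b) a) := rfl
    rw [e]
    ring
  · intro u v
    apply Subtype.ext
    apply LinearEquiv.ext
    intro z
    change (u.1 : QuadraticAlgebra F (-b) a) * star ((v.1 : QuadraticAlgebra F (-b) a) * star z) = ((u * v⁻¹).1 : QuadraticAlgebra F (-b) a) * z
    rw [star_mul, star_val, star_star]
    have e : ((u * v⁻¹ : C a b).1 : QuadraticAlgebra F (-b) a) = (u.1 : QuadraticAlgebra F (-b) a) * ((v⁻¹ : C a b).1 : QuadraticAlgebra F (-b) a) := rfl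
    rw [e]
    ring
  · intro u v h
    have := congrArg (fun g : OK a b => g.1 1) h
    change (u.1 : QuadraticAlgebra F (-b) a) * 1 = (v.1 : QuadraticAlgebra F (-b) a) * 1 at this
    rw [mul_one, mul_one] at this
    exact Subtype.ext (Units.ext this)
  · intro u v h
    have := congrArg (fun g : OK a b => g.1 1) h
    change (u.1 : QuadraticAlgebra F (-b) a) * star 1 = (v.1 : QuadraticAlgebra F (-b) a) * star 1 at this
    rw [star_one, mul_one, mul_one] at this
    exact Subtype.ext (Units.ext this)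
  · intro u v h
    have h1 := congrArg (fun g : OK a b => g.1 1) h
    change (u.1 : QuadraticAlgebra F (-b) a) * 1 = (v.1 : QuadraticAlgebra F (-b) a) * star 1 at h1
    rw [star_one, mul_one, mul_one] at h1
    have h2 := congrArg (fun g : OK a b => g.1 ω) h
    change (u.1 : QuadraticAlgebra F (-b) a) * ω = (v.1 : QuadraticAlgebra F (-b) a) * star ω at h2
    rw [h1] at h2
    exact star_omega_ne (mul_left_cancel₀ (v.1.ne_zero) h2).symm

end main

/-- GO^-_2(q) is dihedral of order 2(q+1). -/
theorem result {F : Type*} [Field F] [Fintype F] {q : ℕ} (hF : Fintype.card F = q) (a b : F) (hab : ∀ z₁ z₂ : F, z₁ ^ 2 + a * z₁ * z₂ + b * z₂ ^ 2 = 0 → z₁ = 0 ∧ z₂ = 0) : Nonempty (Cfsg.isometryGroup F (Cfsg.quadFormMinus 0 F a b) ≃* DihedralGroup (q + 1)) := by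
  subst hF
  haveI : Fact (∀ r : F, r ^ 2 ≠ (-b) + a * r) := ⟨fact_of_hab hab⟩
  obtain ⟨E⟩ := main_OK (F := F) (a := a) (b := b)
  have hc : Nat.card (C a b) = Fintype.card F + 1 := card_normOne
  rw [hc] at E
  exact ⟨((Ψ a b).subgroupMap _).trans ((MulEquiv.subgroupCongr (isometry_map a b)).trans E)⟩

end Cfsg.Agent.S0306
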