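import Cfsg.Statements.S0316
import Mathlib
import Cfsg.Agent.Lib.BNPair.Basic

set_option autoImplicit false
open Cfsg

namespace Cfsg.Agent.S0316

/-- The map `J ↦ P_J` is a lattice isomorphism from the power set of the set of distinguished generators onto the
subgroups containing `B`. -/
theorem result {G : Type*} [Group G] (P : Cfsg.BNPair G) :
    ∃ e : Set P.S ≃o {M : Subgroup G // P.B ≤ M},
      ∀ J : Set P.S, ((e J : {M : Subgroup G // P.B ≤ M}) : Subgroup G) = P.parabolic (Subtype.val '' J) := by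
  have hsub : ∀ J : Set P.S, Subtype.val '' J ⊆ P.S := by
    rintro J _ ⟨a, _, rfl⟩
    exact a.2
  let φ : Set P.S → {M : Subgroup G // P.B ≤ M} := fun J => ⟨P.parabolic (Subtype.val '' J), le_sup_left⟩
  have hφinj : Function.Injective φ := by
    intro J K h
    have h1 : P.parabolic (Subtype.val '' J) = P.parabolic (Subtype.val '' K) := congrArg Subtype.val h
    have h2 := Cfsg.Agent.Lib.BNPair.Basic.parabolic_injective (hsub J) (hsub K) h1
    exact Set.image_injective.mpr Subtype.val_injective h2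
  have hφsurj : Function.Surjective φ := by
    rintro ⟨M, hM⟩
    refine ⟨{s | (s : G) ∈ M}, Subtype.ext ?_⟩
    show P.parabolic (Subtype.val '' {s : P.S | (s : G) ∈ M}) = M
    have e : Subtype.val '' {s : P.S | (s : G) ∈ M} = {s | s ∈ P.S ∧ s ∈ M} := by
      ext x
      constructor
      · rintro ⟨a, ha, rfl⟩
        exact ⟨a.2, ha⟩
      · rintro ⟨h1, h2⟩
        exact ⟨⟨x, h1⟩, h2, rfl⟩
    rw [e]
    exact (Cfsg.Agent.Lib.BNPair.Basic.eq_parabolic hM).symm
  refine ⟨{ toEquiv := Equiv.ofBijective φ ⟨hφinj, hφsurj⟩, map_rel_iff' := ?_ }, fun J => rfl⟩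
  intro J K
  show P.parabolic (Subtype.val '' J) ≤ P.parabolic (Subtype.val '' K) ↔ J ≤ K
  rw [Cfsg.Agent.Lib.BNPair.Basic.parabolic_le_iff (hsub J) (hsub K)]
  exact Set.image_subset_image_iff Subtype.val_injective

end Cfsg.Agent.S0316
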