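import Cfsg.Statements.S0323
import Mathlib

set_option autoImplicit false
open scoped Pointwise
open Cfsg

namespace Cfsg.Agent.S0323

/-- A doubly transitive action on a set with at least three points yields a (B,N)-pair of rank one:
`B` is the stabiliser of a point `x`, `N` the setwise stabiliser of a pair `{x, y}`. -/
theorem result {G Ω : Type*} [Group G] [MulAction G Ω]
    (h2 : MulAction.IsMultiplyPretransitive G Ω 2) {x y z : Ω} (hxy : x ≠ y) (hyz : y ≠ z) (hxz : x ≠ z) :
    ∃ P : Cfsg.BNPair G, P.B = MulAction.stabilizer G x ∧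
      P.N = MulAction.stabilizer G ({x, y} : Set Ω) ∧ P.rank = 1 := by
  classical
  have tr : ∀ {a b c d : Ω}, a ≠ b → c ≠ d → ∃ g : G, g • a = c ∧ g • b = d :=
    fun {a b c d} h h' => MulAction.is_two_pretransitive_iff.mp h2 h h'
  obtain ⟨s, hsx, hsy⟩ := tr hxy hxy.symm
  -- membership in the setwise stabiliser
  have memN : ∀ g : G, g ∈ MulAction.stabilizer G ({x, y} : Set Ω) ↔
      (g • x = x ∧ g • y = y) ∨ (g • x = y ∧ g • y = x) := by
    intro g
    rw [MulAction.mem_stabilizer_iff, Set.smul_set_insert, Set.smul_set_singleton,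
      Set.pair_eq_pair_iff]
  have hsN : s ∈ MulAction.stabilizer G ({x, y} : Set Ω) := (memN s).mpr (Or.inr ⟨hsx, hsy⟩)
  have hsinvy : s⁻¹ • y = x := by rw [← hsx, inv_smul_smul]
  have hsinvx : s⁻¹ • x = y := by rw [← hsy, inv_smul_smul]
  -- `G = B ∪ B s B`
  have hdec : ∀ g : G, g • x = x ∨ ∃ b c : G, b • x = x ∧ c • x = x ∧ g = b * s * c := by
    intro g
    by_cases hg : g • x = x
    · exact Or.inl hg
    · right
      obtain ⟨b, hb1, hb2⟩ := tr (a := x) (b := g • x) (c := x) (d := y) (Ne.symm hg) hxy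
      refine ⟨b⁻¹, s⁻¹ * b * g, by rw [inv_smul_eq_iff, hb1], ?_, by group⟩
      rw [mul_smul, mul_smul, hb2, hsinvy]
  have hdc : ∀ {m g : G}, (∃ b ∈ MulAction.stabilizer G x, ∃ b' ∈ MulAction.stabilizer G x,
      g = b * m * b') → g ∈ DoubleCoset.doubleCoset m (MulAction.stabilizer G x : Set G)
        (MulAction.stabilizer G x) := by
    rintro m g ⟨b, hb, b', hb', rfl⟩
    rw [DoubleCoset.mem_doubleCoset]
    exact ⟨b, hb, b', hb', rfl⟩
  refine ⟨{ B := MulAction.stabilizer G x
            N := MulAction.stabilizer G ({x, y} : Set Ω)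
            S := {s}
            sup_eq_top := ?_
            conj_mem := ?_
            subset := ?_
            sq_mem := ?_
            inj := ?_
            closure_sup := ?_
            mul_mem_union := ?_
            conj_ne := ?_ }, rfl, rfl, ?_⟩
  · -- sup_eq_top
    rw [eq_top_iff]
    intro g _
    rcases hdec g with hg | ⟨b, c, hb, hc, rfl⟩
    · exact (le_sup_left : MulAction.stabilizer G x ≤ _) hg
    · have h1 : b ∈ MulAction.stabilizer G x ⊔ MulAction.stabilizer G ({x, y} : Set Ω) :=
        (le_sup_left : MulAction.stabilizer G x ≤ _) hb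
      have h2 : c ∈ MulAction.stabilizer G x ⊔ MulAction.stabilizer G ({x, y} : Set Ω) :=
        (le_sup_left : MulAction.stabilizer G x ≤ _) hc
      have h3 : s ∈ MulAction.stabilizer G x ⊔ MulAction.stabilizer G ({x, y} : Set Ω) :=
        (le_sup_right : MulAction.stabilizer G ({x, y} : Set Ω) ≤ _) hsN
      exact Subgroup.mul_mem _ (Subgroup.mul_mem _ h1 h3) h2
  · -- conj_mem
    intro n hn t ht
    rcases ht with ⟨ht1, ht2⟩
    have ht1' : t • x = x := ht1
    have hty : t • y = y := by
      rcases (memN t).mp ht2 with h | h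
      · exact h.2
      · exact absurd (ht1'.symm.trans h.1) hxy
    rw [MulAction.mem_stabilizer_iff, mul_smul, mul_smul]
    rcases (memN n).mp hn with h | h
    · have e : n⁻¹ • x = x := by rw [inv_smul_eq_iff, h.1]
      rw [e, ht1', h.1]
    · have e : n⁻¹ • x = y := by rw [inv_smul_eq_iff, h.2]
      rw [e, hty, h.2]
  · -- subset
    intro t ht
    rw [Set.mem_singleton_iff.mp ht]
    exact hsN
  · -- sq_mem
    intro t ht
    rw [Set.mem_singleton_iff.mp ht, MulAction.mem_stabilizer_iff, mul_smul, hsx, hsy]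
  · -- inj
    intro t ht t' ht' _
    rw [Set.mem_singleton_iff.mp ht, Set.mem_singleton_iff.mp ht']
  · -- closure_sup
    apply le_antisymm
    · refine sup_le ?_ inf_le_right
      rw [Subgroup.closure_le]
      intro t ht
      rw [Set.mem_singleton_iff.mp ht]
      exact hsN
    · intro n hn
      rcases (memN n).mp hn with h | h
      · exact (le_sup_right : _ ≤ Subgroup.closure {s} ⊔ _) ⟨h.1, hn⟩
      · have h1 : s⁻¹ * n ∈ MulAction.stabilizer G x ⊓ MulAction.stabilizer G ({x, y} : Set Ω) := by
          refine ⟨?_, Subgroup.mul_mem _ (Subgroup.inv_mem _ hsN) hn⟩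
          show (s⁻¹ * n) • x = x
          rw [mul_smul, h.1, hsinvy]
        have h2 : s⁻¹ * n ∈ Subgroup.closure {s} ⊔
            (MulAction.stabilizer G x ⊓ MulAction.stabilizer G ({x, y} : Set Ω)) :=
          (le_sup_right : _ ≤ Subgroup.closure {s} ⊔ _) h1
        have h3 : s ∈ Subgroup.closure {s} ⊔
            (MulAction.stabilizer G x ⊓ MulAction.stabilizer G ({x, y} : Set Ω)) :=
          (le_sup_left : Subgroup.closure {s} ≤ _) (Subgroup.subset_closure rfl)
        have e : n = s * (s⁻¹ * n) := by group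
        rw [e]
        exact Subgroup.mul_mem _ h3 h2
  · -- mul_mem_union
    intro t ht n hn b hb
    rw [Set.mem_singleton_iff.mp ht]
    have hb' : b • x = x := hb
    rcases (memN n).mp hn with h | h
    · -- `n` fixes `x`
      left
      apply hdc
      refine ⟨1, Subgroup.one_mem _, n⁻¹ * b * n, ?_, by group⟩
      have e : n⁻¹ • x = x := by rw [inv_smul_eq_iff, h.1]
      rw [MulAction.mem_stabilizer_iff, mul_smul, mul_smul, h.1, hb', e]
    · -- `n` swaps
      have hsn : (s * n) • x = x := by rw [mul_smul, h.1, hsy]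
      by_cases hg : (s * b * n) • x = x
      · left
        apply hdc
        refine ⟨s * b * n * (s * n)⁻¹, ?_, 1, Subgroup.one_mem _, by group⟩
        have e : (s * n)⁻¹ • x = x := by rw [inv_smul_eq_iff, hsn]
        rw [MulAction.mem_stabilizer_iff, mul_smul, e, hg]
      · right
        rcases hdec (s * b * n) with h' | ⟨c, d, hc, hd, e⟩
        · exact absurd h' hg
        · apply hdc
          -- `s * b * n = c * s * d`, and `n = s * (s⁻¹ * n)`
          have hn' : (s⁻¹ * n) • x = x := by rw [mul_smul, h.1, hsinvy]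
          refine ⟨c, hc, (s⁻¹ * n)⁻¹ * d, ?_, ?_⟩
          · refine Subgroup.mul_mem _ (Subgroup.inv_mem _ hn') hd
          · rw [e]; group
  · -- conj_ne
    intro t ht himg
    rw [Set.mem_singleton_iff.mp ht] at himg
    obtain ⟨g, hg1, hg2⟩ := tr (a := x) (b := y) (c := x) (d := z) hxy hxz
    have h1 : s * g * s ∈ (fun b : G => s * b * s) '' (MulAction.stabilizer G x : Set G) :=
      ⟨g, hg1, rfl⟩
    rw [himg] at h1
    have h2 : (s * g * s) • x = x := h1
    rw [mul_smul, mul_smul, hsx, hg2] at h2
    have h3 : s • z = s • y := h2.trans hsy.symm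
    exact hyz (smul_left_cancel s h3).symm
  · -- rank
    show Nat.card ({s} : Set G) = 1
    simp

end Cfsg.Agent.S0323
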