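import Cfsg.Statements.S0324
import Mathlib
import Cfsg.Agent.Lib.Suzuki.Simple

set_option autoImplicit false
open Cfsg

namespace Cfsg.Agent.S0324

/-- The Suzuki group over a field with `q = 2^(2m+1)` elements, `m ≥ 1`, has order `q² (q² + 1) (q - 1)`. -/
theorem result {F : Type*} [Field F] [Fintype F] {m : ℕ} (hm : 1 ≤ m)
    (hF : Fintype.card F = 2 ^ (2 * m + 1)) :
    Nat.card (Cfsg.Sz F m) = (2 ^ (2 * m + 1)) ^ 2 * ((2 ^ (2 * m + 1)) ^ 2 + 1) * (2 ^ (2 * m + 1) - 1) := by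
  haveI := Cfsg.Agent.Lib.Suzuki.Elements.charP_two_of_card hF
  exact Cfsg.Agent.Lib.Suzuki.Group.card_Sz (Cfsg.Agent.Lib.Suzuki.Stab.ctx_of_card hm hF)

end Cfsg.Agent.S0324
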