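import Cfsg.Statements.S0327
import Mathlib
import Cfsg.Agent.Lib.Suzuki.Simple

set_option autoImplicit false
open Cfsg

namespace Cfsg.Agent.S0327

/-- The Suzuki group (`m ≥ 1`) is a Zassenhaus group on the `q² + 1` points of the Suzuki–Tits ovoid. -/
theorem result {F : Type*} [Field F] [Fintype F] {m : ℕ} (hm : 1 ≤ m)
    (hF : Fintype.card F = 2 ^ (2 * m + 1)) :
    Cfsg.IsZassenhausGroup (Cfsg.Sz F m) (Cfsg.suzukiOvoid F m) := by
  haveI := Cfsg.Agent.Lib.Suzuki.Elements.charP_two_of_card hF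
  have hc := Cfsg.Agent.Lib.Suzuki.Stab.ctx_of_card hm hF
  open Cfsg.Agent.Lib.Suzuki.Group Cfsg.Agent.Lib.Suzuki.Simple Cfsg.Agent.Lib.Suzuki.Core in
  refine ⟨faithful hc, two_trans hc, no_three hc, ?_, ?_⟩
  · obtain ⟨l, hl⟩ := exists_unit_ne_one hc
    refine ⟨hS hc l, ?_, infO, ptO 0 0, ?_, ?_, ?_⟩
    · intro h
      rw [← hS_one hc] at h
      exact hl (hS_injective hc h)
    · intro h'
      exact pt_ne_inf (congrArg Subtype.val h').symm
    · exact Subtype.ext (hS_smul_inf hc l)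
    · exact Subtype.ext (hS_smul_zero hc l)
  · intro N hN _
    have hsimple := isSimpleGroup_Sz hc
    rcases hsimple.eq_bot_or_eq_top_of_normal N hN with h | h
    · exfalso
      subst h
      obtain ⟨g, hg⟩ := MulAction.exists_smul_eq (⊥ : Subgroup (Cfsg.Sz F m)) (infO : OO F m) (ptO 0 0)
      have hg1 : (g : Cfsg.Sz F m) = 1 := Subgroup.mem_bot.mp g.2
      rw [Subgroup.smul_def, hg1, one_smul] at hg
      exact pt_ne_inf (congrArg Subtype.val hg).symm
    · subst h
      refine ⟨infO, ?_⟩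
      intro hbot
      have hmem : (⟨uS hc 1 0, Subgroup.mem_top _⟩ : (⊤ : Subgroup (Cfsg.Sz F m))) ∈
          MulAction.stabilizer (⊤ : Subgroup (Cfsg.Sz F m)) (infO : OO F m) := by
        rw [MulAction.mem_stabilizer_iff]
        exact Subtype.ext (uS_smul_inf hc 1 0)
      rw [hbot] at hmem
      have h1 : uS hc (1 : F) 0 = 1 := congrArg Subtype.val (Subgroup.mem_bot.mp hmem)
      rw [← uS_zero hc] at h1
      exact one_ne_zero (uS_injective hc h1).1

end Cfsg.Agent.S0327
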