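import Cfsg.Statements.S0328
import Mathlib
import Cfsg.Agent.Lib.Suzuki.Simple

set_option autoImplicit false
open Cfsg

namespace Cfsg.Agent.S0328

/-- The stabiliser in the Suzuki group of the two ovoid points spanned by `(1,0,0,0)` and `(0,0,0,1)` is
isomorphic to the multiplicative group of the field (cyclic of order `q - 1`). -/
theorem result {F : Type*} [Field F] [Fintype F] {m : ℕ} (hm : 1 ≤ m)
    (hF : Fintype.card F = 2 ^ (2 * m + 1)) :
    Nonempty (↥(MulAction.stabilizer (Cfsg.Sz F m) (Cfsg.suzukiPointInfinity F) ⊓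
        MulAction.stabilizer (Cfsg.Sz F m) (Cfsg.suzukiPointZero F)) ≃* Fˣ) := by
  haveI := Cfsg.Agent.Lib.Suzuki.Elements.charP_two_of_card hF
  have hc := Cfsg.Agent.Lib.Suzuki.Stab.ctx_of_card hm hF
  open Cfsg.Agent.Lib.Suzuki.Group Cfsg.Agent.Lib.Suzuki.Simple Cfsg.Agent.Lib.Suzuki.Core in
  let φ : Fˣ →* ↥(MulAction.stabilizer (Cfsg.Sz F m) (Cfsg.suzukiPointInfinity F) ⊓
        MulAction.stabilizer (Cfsg.Sz F m) (Cfsg.suzukiPointZero F)) :=
    { toFun := fun l => ⟨hS hc l, hS_smul_inf hc l, by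
        show hS hc l • Cfsg.suzukiPointZero F = Cfsg.suzukiPointZero F
        rw [← pt_zero m]
        exact hS_smul_zero hc l⟩
      map_one' := Subtype.ext (hS_one hc)
      map_mul' := fun l l' => Subtype.ext (hS_mul hc l l').symm }
  have hφ : Function.Bijective φ := by
    constructor
    · intro l l' h
      exact hS_injective hc (congrArg Subtype.val h)
    · rintro ⟨g, hg1, hg2⟩
      have hg2' : g • pt m (0 : F) 0 = pt m (0 : F) 0 := by
        rw [pt_zero]; exact hg2
      obtain ⟨l, hl⟩ := eq_hS hc hg1 hg2'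
      exact ⟨l, Subtype.ext hl.symm⟩
  exact ⟨(MulEquiv.ofBijective φ hφ).symm⟩

end Cfsg.Agent.S0328
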