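import Cfsg.Statements.S0332
import Mathlib
import Cfsg.Agent.Lib.Suzuki.CN

set_option autoImplicit false
open Cfsg

namespace Cfsg.Agent.S0332

/-- The Suzuki group is a CN-group: every non-identity element has nilpotent centraliser. -/
theorem result {F : Type*} [Field F] [Fintype F] {m : ℕ} (hm : 1 ≤ m)
    (hF : Fintype.card F = 2 ^ (2 * m + 1)) : Cfsg.IsCNGroup (Cfsg.Sz F m) := by
  have := Cfsg.Agent.Lib.Suzuki.Elements.charP_two_of_card hF
  exact Cfsg.Agent.Lib.Suzuki.CN.isCN (Cfsg.Agent.Lib.Suzuki.Stab.ctx_of_card hm hF)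

end Cfsg.Agent.S0332
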