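import Cfsg.Statements.S0341
import Mathlib
import Cfsg.Agent.Lib.Zass.Pre
import Cfsg.Agent.Lib.Zass.RegField
import Cfsg.Agent.Lib.Coprime.ZGroup
import Cfsg.Agent.Lib.Frobenius.Normal

set_option autoImplicit false
set_option linter.style.haveILetI false
open Cfsg

namespace Cfsg.Agent.S0341

open scoped IsMulCommutative commutatorElement
open Cfsg.Agent.Lib.Zass.Pre Cfsg.Agent.Lib.Zass.RegField Cfsg.Agent.Lib.Frobenius.Theorem

/-- If a finite group acts faithfully and doubly transitively, no non-identity element fixes three points, some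
non-identity element fixes two points, and some normal subgroup acts regularly, then the number of points
is `2^p` with `p` prime. -/
theorem result {G Ω : Type*} [Group G]
    [MulAction G Ω] [Fintype Ω] [FaithfulSMul G Ω] (h2 : MulAction.IsMultiplyPretransitive G Ω 2)
    (h3 : ∀ g : G, ∀ a b c : Ω, a ≠ b → b ≠ c → a ≠ c → g • a = a → g • b = b → g • c = c → g = 1)
    (hfix : ∃ g : G, g ≠ 1 ∧ ∃ a b : Ω, a ≠ b ∧ g • a = a ∧ g • b = b)
    (N : Subgroup G) [N.Normal] (hNt : MulAction.IsPretransitive N Ω)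
    (hNr : ∀ a : Ω, MulAction.stabilizer N a = ⊥) :
    ∃ p : ℕ, p.Prime ∧ Fintype.card Ω = 2 ^ p := by
  classical
  have hZ : IsPreZass G Ω := ⟨‹_›, h2, h3, hfix, trivial⟩
  have h3fix := h3
  haveI hfaith : FaithfulSMul G Ω := ‹_›
  haveI hG : Finite G := Finite.of_injective (MulAction.toPermHom G Ω) MulAction.toPerm_injective
  obtain ⟨g₀, hg₀1, a, b, hab, hg₀a, hg₀b⟩ := hfix
  -- regularity of `N`
  have hNfix : ∀ n ∈ N, ∀ c : Ω, n • c = c → n = 1 := fun n hn c hc => by
    have h1 : (⟨n, hn⟩ : N) ∈ MulAction.stabilizer N c := hc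
    rw [hNr c] at h1
    exact congrArg Subtype.val (Subgroup.mem_bot.1 h1)
  have hNtr : ∀ c : Ω, ∃ n ∈ N, n • a = c := fun c => by
    obtain ⟨n, hn⟩ := hNt.exists_smul_eq a c
    exact ⟨n, n.2, hn⟩
  have hNeq : ∀ x ∈ N, ∀ y ∈ N, x • a = y • a → x = y := by
    intro x hx y hy hxy
    have h1 := hNfix (y⁻¹ * x) (N.mul_mem (N.inv_mem hy) hx) a (by
      rw [mul_smul, hxy, inv_smul_smul])
    exact (inv_mul_eq_one.1 h1).symm
  have hconj : ∀ g : G, g • a = a → ∀ n : G, (g * n * g⁻¹) • a = g • (n • a) := by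
    intro g hg n
    rw [mul_smul, mul_smul, inv_smul_eq_iff.2 hg.symm]
  obtain ⟨u, huN, hua⟩ := hNtr b
  have hgu : g₀ * u * g₀⁻¹ = u := by
    apply hNeq _ (Subgroup.Normal.conj_mem ‹_› u huN g₀) _ huN
    rw [hconj g₀ hg₀a, hua, hg₀b]
  have hub : u • b = a := by
    by_contra hne
    have hb' : u • b ≠ b := by
      intro h
      have h1 := hNfix u huN b h
      rw [h1, one_smul] at hua
      exact hab hua
    apply hg₀1
    refine h3 g₀ a b (u • b) hab (Ne.symm hb') (Ne.symm hne) hg₀a hg₀b ?_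
    have h1 : g₀ * u = u * g₀ := by
      calc g₀ * u = (g₀ * u * g₀⁻¹) * g₀ := by group
        _ = u * g₀ := by rw [hgu]
    rw [← mul_smul, h1, mul_smul, hg₀b]
  have huu : u * u = 1 := by
    apply hNfix _ (N.mul_mem huN huN) a
    rw [mul_smul, hua, hub]
  -- all elements are involutions
  have hinv : ∀ v ∈ N, v * v = 1 := by
    intro v hv
    by_cases hv1 : v = 1
    · rw [hv1, one_mul]
    have hc : v • a ≠ a := fun h => hv1 (hNfix v hv a h)
    obtain ⟨g, hga, hgb⟩ := trans2 hZ hab (c := a) (d := v • a) (Ne.symm hc)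
    have h1 : g * u * g⁻¹ = v := by
      apply hNeq _ (Subgroup.Normal.conj_mem ‹_› u huN g) _ hv
      rw [hconj g hga, hua, hgb]
    rw [← h1]
    calc g * u * g⁻¹ * (g * u * g⁻¹) = g * (u * u) * g⁻¹ := by group
      _ = 1 := by rw [huu]; group
  have hcommN : ∀ x ∈ N, ∀ y ∈ N, x * y = y * x := by
    intro x hx y hy
    have h1 := hinv _ (N.mul_mem hx hy)
    have h2 := hinv x hx
    have h3 := hinv y hy
    calc x * y = x * y * (y * x) * (y * x) := by
            have : y * x * (y * x) = 1 := hinv _ (N.mul_mem hy hx)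
            rw [mul_assoc (x * y), this, mul_one]
      _ = (x * (y * y) * x) * (y * x) := by group
      _ = y * x := by rw [h3, mul_one, h2, one_mul]
  haveI hNc : IsMulCommutative N := ⟨⟨fun x y => Subtype.ext (hcommN x x.2 y y.2)⟩⟩
  -- cardinality
  have hcardN : Nat.card N = Fintype.card Ω := by
    rw [← Nat.card_eq_fintype_card]
    refine Nat.card_eq_of_bijective (fun n : N => (n : G) • a) ⟨?_, ?_⟩
    · intro x y hxy
      exact Subtype.ext (hNeq _ x.2 _ y.2 hxy)
    · intro c
      obtain ⟨n, hn, hnc⟩ := hNtr c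
      exact ⟨⟨n, hn⟩, hnc⟩
  have hN2 : IsPGroup 2 N := fun x => ⟨1, by
    apply Subtype.ext
    simpa [pow_two] using hinv x x.2⟩
  obtain ⟨k, hk⟩ := IsPGroup.iff_card.1 hN2
  obtain ⟨c₀, hc₀a, hc₀b⟩ := exists_third hZ a b
  have hk2 : 2 ≤ k := by
    by_contra hlt
    have hle : Fintype.card Ω ≤ 2 := by
      rw [← hcardN, hk]
      calc 2 ^ k ≤ 2 ^ 1 := Nat.pow_le_pow_right (by norm_num) (by omega)
        _ = 2 := by norm_num
    have h1 : Finset.card ({a, b, c₀} : Finset Ω) = 3 := by
      rw [Finset.card_eq_three]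
      exact ⟨a, b, c₀, hab, Ne.symm hc₀a, Ne.symm hc₀b, rfl⟩
    have h2 := Finset.card_le_univ ({a, b, c₀} : Finset Ω)
    omega
  have hcardΩ : Fintype.card Ω = 2 ^ k := by rw [← hcardN, hk]
  have h4k : 4 ≤ 2 ^ k := by
    calc 4 = 2 ^ 2 := by norm_num
      _ ≤ 2 ^ k := Nat.pow_le_pow_right (by norm_num) hk2
  -- the Frobenius kernel of the point stabiliser
  let A : Subgroup G := MulAction.stabilizer G a
  have hH : IsFrobeniusComplement (compl (G := G) a b) :=
    isFrobeniusComplement_compl hZ hab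
  let K : Subgroup A := kernel (compl (G := G) a b)
  haveI hKn : K.Normal := kernel_normal _
  have hKreg : ∀ c : Ω, c ≠ a → ∃ x : K, ((x : A) : G) • b = c := by
    intro c hc
    obtain ⟨⟨_, x, hx, rfl⟩, hu, -⟩ := kernelAt_regular hZ hab (y := b) (z := c) (Ne.symm hab) hc
    exact ⟨⟨x, hx⟩, hu⟩
  have hKfree : ∀ x : K, ∀ c : Ω, c ≠ a → ((x : A) : G) • c = c → x = 1 := by
    intro x c hc hxc
    have hfree := kernelAt_regular hZ hab (y := c) (z := c) hc hc
    have hmem : ((x : A) : G) ∈ kernelAt (G := G) a b := ⟨x, x.2, rfl⟩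
    have h1 := hfree.unique (y₁ := ⟨((x : A) : G), hmem⟩) (y₂ := 1) hxc (by simp)
    apply Subtype.ext
    apply Subtype.ext
    exact congrArg (fun z : kernelAt (G := G) a b => (z : G)) h1
  have hcardK : Nat.card K = 2 ^ k - 1 := by
    have h1 : Nat.card K = Nat.card {c : Ω // c ≠ a} := by
      refine Nat.card_eq_of_bijective (fun x : K => (⟨((x : A) : G) • b, ?_⟩ : {c : Ω // c ≠ a}))
        ⟨?_, ?_⟩
      · intro h
        have h2 : ((x : A) : G) • a = a := (x : A).2
        exact hab (smul_left_cancel _ (h.trans h2.symm)).symm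
      · intro x y hxy
        have h2 : ((x : A) : G) • b = ((y : A) : G) • b := congrArg Subtype.val hxy
        have h3 := hKfree (y⁻¹ * x) b (Ne.symm hab) (by
          simp only [Subgroup.coe_mul, Subgroup.coe_inv, mul_smul]
          rw [h2, inv_smul_smul])
        exact (inv_mul_eq_one.1 h3).symm
      · rintro ⟨c, hc⟩
        obtain ⟨x, hx⟩ := hKreg c hc
        exact ⟨x, Subtype.ext hx⟩
    rw [h1, Nat.card_eq_fintype_card, Fintype.card_subtype_compl, Fintype.card_subtype_eq, hcardΩ]
  have hodd : Odd (Nat.card K) := by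
    rw [hcardK]
    obtain ⟨t, ht⟩ : ∃ t, k = t + 1 := ⟨k - 1, by omega⟩
    rw [ht, pow_succ]
    have : 2 ^ t * 2 - 1 = 2 * (2 ^ t - 1) + 1 := by
      have : 1 ≤ 2 ^ t := Nat.one_le_two_pow
      omega
    rw [this]
    exact odd_two_mul_add_one _
  -- the action
  let φA : A →* AddMonoid.End (Additive N) := (conjEnd N).comp A.subtype
  let φK : K →* AddMonoid.End (Additive N) := φA.comp K.subtype
  have hφAc : ∀ (t : A) (v : Additive N), (((φA t v).toMul : N) : G)
      = (t : G) * ((v.toMul : N) : G) * (t : G)⁻¹ := fun _ _ => rfl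
  haveI : Finite (Additive N) := inferInstanceAs (Finite N)
  have hfin : Fintype (Additive N) := Fintype.ofFinite _
  haveI : Nontrivial (Additive N) := by
    refine ⟨⟨0, Additive.ofMul ⟨u, huN⟩, ?_⟩⟩
    intro h
    have h1 : u = 1 := by
      have := congrArg (fun w : Additive N => ((w.toMul : N) : G)) h
      exact this.symm
    rw [h1, one_smul] at hua
    exact hab hua
  have hfpf : Cfsg.Agent.Lib.FPF.Basic.IsFPF φK := by
    intro x hx w hw
    by_contra hw0
    have hv1 : ((w.toMul : N) : G) ≠ 1 := by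
      intro h
      apply hw0
      apply Additive.toMul.injective
      exact Subtype.ext h
    set v : G := ((w.toMul : N) : G) with hv
    have hvN : v ∈ N := (w.toMul : N).2
    have h1 : ((x : A) : G) * v * ((x : A) : G)⁻¹ = v := by
      have := congrArg (fun w : Additive N => ((w.toMul : N) : G)) hw
      exact this
    have hca : v • a ≠ a := fun h => hv1 (hNfix v hvN a h)
    apply hx
    apply hKfree x (v • a) hca
    have hxa : ((x : A) : G) • a = a := (x : A).2
    have h2 : ((x : A) : G) * v = v * ((x : A) : G) := by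
      calc ((x : A) : G) * v = (((x : A) : G) * v * ((x : A) : G)⁻¹) * ((x : A) : G) := by group
        _ = _ := by rw [h1]
    rw [← mul_smul, h2, mul_smul, hxa]
  haveI hZK : IsZGroup K := Cfsg.Agent.Lib.Zass.RegField.isZGroup_of_fpf hfpf hodd
  -- the group element
  let h₀ : A := ⟨g₀, hg₀a⟩
  have hh₀ : h₀ ∈ compl (G := G) a b := mem_compl.mpr hg₀b
  have hh₀1 : h₀ ≠ 1 := fun h => hg₀1 (congrArg Subtype.val h)
  have hcomm : ⁅K, compl (G := G) a b⁆ = K := by
    apply le_antisymm
    · exact Subgroup.commutator_le_left _ _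
    · intro y hy
      obtain ⟨z, hz, hzy⟩ := Cfsg.Agent.Lib.Frobenius.Normal.exists_commutator_eq hH hh₀ hh₀1 y hy
      rw [← hzy]
      have : z * (h₀ * z⁻¹ * h₀⁻¹) = ⁅z, h₀⁆ := by
        simp [commutatorElement_def, mul_assoc]
      rw [this]
      exact Subgroup.commutator_mem_commutator hz hh₀
  have hKnorm : compl (G := G) a b ≤ Subgroup.normalizer (K : Set A) := by
    intro t _
    rw [Subgroup.mem_normalizer_iff]
    intro y
    constructor
    · intro hy
      exact hKn.conj_mem y hy t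
    · intro hy
      have := hKn.conj_mem _ hy t⁻¹
      simpa [mul_assoc] using this
  have hKcyc : IsCyclic K :=
    Cfsg.Agent.Lib.Coprime.ZGroup.isCyclic_of_commutator_eq hKnorm hcomm
  have hKcomm : ∀ x y : K, x * y = y * x := fun x y => by
    haveI := IsCyclic.isMulCommutative (α := K)
    exact mul_comm' x y
  -- regularity on vectors
  let w₀ : Additive N := Additive.ofMul ⟨u, huN⟩
  have hw₀ : w₀ ≠ 0 := by
    intro h
    have h1 : u = 1 := by
      have := congrArg (fun w : Additive N => ((w.toMul : N) : G)) h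
      exact this
    rw [h1, one_smul] at hua
    exact hab hua
  have hreg : ∀ w : Additive N, w ≠ 0 → ∃ x : K, φK x w₀ = w := by
    intro w hw
    have hv1 : ((w.toMul : N) : G) ≠ 1 := by
      intro h
      apply hw
      apply Additive.toMul.injective
      exact Subtype.ext h
    have hca : ((w.toMul : N) : G) • a ≠ a := fun h => hv1 (hNfix _ (w.toMul : N).2 a h)
    obtain ⟨x, hx⟩ := hKreg _ hca
    refine ⟨x, ?_⟩
    apply Additive.toMul.injective
    apply Subtype.ext
    apply hNeq _ ?_ _ (w.toMul : N).2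
    · change (((x : A) : G) * u * ((x : A) : G)⁻¹) • a = _
      rw [hconj _ (x : A).2, hua, hx]
    · exact ((φK x w₀).toMul : N).2
  obtain ⟨L, _, _, ι, hιbij, hιφ, hιun⟩ :=
    Cfsg.Agent.Lib.Zass.RegField.exists_field φK hKcomm hw₀ hreg
  have hι : Function.Injective ι := by
    intro l l' h
    apply hιbij.1
    change ι l w₀ = ι l' w₀
    rw [h]
  have hcardL : Fintype.card L = 2 ^ k := by
    rw [← Nat.card_eq_fintype_card, Nat.card_eq_of_bijective _ hιbij]
    change Nat.card N = _
    rw [hcardN, hcardΩ]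
  -- faithfulness
  have hφA1 : ∀ t : A, φA t = 1 → t = 1 := by
    intro t ht
    apply Subtype.ext
    apply FaithfulSMul.eq_of_smul_eq_smul (α := Ω)
    intro c
    obtain ⟨n, hn, rfl⟩ := hNtr c
    have h1 : ((t : G)) * n * (t : G)⁻¹ = n := by
      have h2 := DFunLike.congr_fun ht (Additive.ofMul ⟨n, hn⟩)
      exact congrArg (fun w : Additive N => ((w.toMul : N) : G)) h2
    have hta : (t : G) • a = a := t.2
    have h2 : (t : G) * n = n * (t : G) := by
      calc (t : G) * n = ((t : G) * n * (t : G)⁻¹) * (t : G) := by group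
        _ = _ := by rw [h1]
    simp only [OneMemClass.coe_one, one_smul]
    rw [← mul_smul, h2, mul_smul, hta]
  have hφAinj : ∀ s t : A, φA s = φA t → s = t := by
    intro s t hst
    have := hφA1 (t⁻¹ * s) (by rw [map_mul, hst, ← map_mul, inv_mul_cancel, map_one])
    exact (inv_mul_eq_one.1 this).symm
  -- stability of the field under conjugation
  have hstab : ∀ (t : A) (l : L), ∃ l', ι l' = φA t * ι l * φA t⁻¹ := by
    intro t l
    by_cases hl : l = 0
    · exact ⟨0, by rw [hl]; simp⟩
    · obtain ⟨x, hx⟩ := hιun l hl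
      obtain ⟨l', hl'⟩ := hιφ (⟨t * x * t⁻¹, hKn.conj_mem _ x.2 t⟩ : K)
      refine ⟨l', ?_⟩
      rw [hl', hx]
      change φA (t * x * t⁻¹) = φA t * φA x * φA t⁻¹
      rw [map_mul, map_mul]
  obtain ⟨σ, hσ⟩ := Cfsg.Agent.Lib.Zass.RegField.exists_ringEquiv ι hι (φA h₀) (φA h₀⁻¹)
    (by rw [← map_mul, mul_inv_cancel, map_one]) (by rw [← map_mul, inv_mul_cancel, map_one])
    (hstab h₀) (fun l => by simpa using hstab h₀⁻¹ l)
  have hσpow : ∀ (s : ℕ) (l : L), ι ((σ ^ s) l) = φA (h₀ ^ s) * ι l * φA (h₀ ^ s)⁻¹ := by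
    intro s
    induction s with
    | zero => intro l; simp
    | succ s ih =>
      intro l
      have h1 : (σ ^ (s + 1)) l = (σ ^ s) (σ l) := by
        rw [pow_succ]
        rfl
      rw [h1, ih, hσ, pow_succ h₀, mul_inv_rev, map_mul, map_mul]
      noncomm_ring
  have hkey : ∀ s : ℕ, (∃ l, l ≠ 0 ∧ l ≠ 1 ∧ (σ ^ s) l = l) → h₀ ^ s = 1 := by
    rintro s ⟨l, hl0, hl1, hl⟩
    obtain ⟨x, hx⟩ := hιun l hl0
    have hx1 : x ≠ 1 := by
      rintro rfl
      apply hl1
      apply hι
      rw [hx, map_one, map_one]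
    have h1 := hσpow s l
    rw [hl, hx] at h1
    have h2 : h₀ ^ s * x * (h₀ ^ s)⁻¹ = x := by
      apply hφAinj
      rw [map_mul, map_mul]
      exact h1.symm
    by_contra hne
    set t : A := h₀ ^ s with ht
    have htb : (t : G) • b = b := by
      have : t ∈ compl (G := G) a b := Subgroup.pow_mem _ hh₀ s
      exact mem_compl.mp this
    have hta : (t : G) • a = a := t.2
    have hxa : ((x : A) : G) • a = a := (x : A).2
    have hxb1 : ((x : A) : G) • b ≠ b := fun h => hx1 (hKfree x b (Ne.symm hab) h)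
    have hxb2 : ((x : A) : G) • b ≠ a := by
      intro h
      exact hab (smul_left_cancel _ (h.trans hxa.symm)).symm
    have h3 : (t : G) * ((x : A) : G) = ((x : A) : G) * (t : G) := by
      have h4 : t * (x : A) = (x : A) * t := by
        calc t * (x : A) = (t * x * t⁻¹) * t := by group
          _ = _ := by rw [h2]
      exact congrArg Subtype.val h4
    apply hne
    apply Subtype.ext
    refine h3fix (t : G) a b (((x : A) : G) • b) hab (Ne.symm hxb1) (Ne.symm hxb2) hta htb ?_
    rw [← mul_smul, h3, mul_smul, htb]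
  have hprime := Cfsg.Agent.Lib.Zass.RegField.prime_of_ringEquiv hk2 hcardL σ ?_ ?_
  · exact ⟨k, hprime, hcardΩ⟩
  · -- `σ ≠ 1`
    by_contra hall
    push Not at hall
    obtain ⟨l, hl0, hl1⟩ : ∃ l : L, l ≠ 0 ∧ l ≠ 1 := by
      by_contra hno
      push Not at hno
      have h1 : (Finset.univ : Finset L) ⊆ {0, 1} := by
        intro l _
        by_cases hl : l = 0
        · simp [hl]
        · simp [hno l hl]
      have h2 := Finset.card_le_card h1
      have h3 : Finset.card ({0, 1} : Finset L) ≤ 2 := Finset.card_le_two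
      rw [Finset.card_univ, hcardL] at h2
      omega
    have := hkey 1 ⟨l, hl0, hl1, by simpa using hall l⟩
    apply hh₀1
    simpa using this
  · intro s hs l
    have h1 := hkey s hs
    apply hι
    rw [hσpow, h1]
    simp

end Cfsg.Agent.S0341
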