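import Cfsg.Statements.S0345
import Cfsg.Agent.Lib.Zass.NoSharp
import Cfsg.Agent.Lib.Zass.Inv

set_option autoImplicit false
open Cfsg

namespace Cfsg.Agent.S0345

/-- In a finite simple Zassenhaus group the stabiliser `H` of two points `a ≠ b` is cyclic, and some involution
interchanging `a` and `b` inverts every element of `H`. -/
theorem result {G Ω : Type*} [Group G] [Finite G] [MulAction G Ω] [Finite Ω]
    (hZ : Cfsg.IsZassenhausGroup G Ω) [IsSimpleGroup G]
    {a b : Ω} (hab : a ≠ b) :
    IsCyclic ↥(MulAction.stabilizer G a ⊓ MulAction.stabilizer G b) ∧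
      ∃ v : G, orderOf v = 2 ∧ v • a = b ∧ v • b = a ∧ ∀ h ∈ MulAction.stabilizer G a ⊓ MulAction.stabilizer G b, v * h * v⁻¹ = h⁻¹ := by
  classical
  have _ : Fintype Ω := Fintype.ofFinite Ω
  rcases Nat.even_or_odd (Nat.card ↥(MulAction.stabilizer G a ⊓ MulAction.stabilizer G b)) with heven | hodd
  · have hn := Cfsg.Agent.Lib.Zass.NoSharp.two_of_even_simple hZ hab heven
    -- the involution in the stabiliser
    have := Fact.mk Nat.prime_two
    obtain ⟨z₀, hz₀⟩ := exists_prime_orderOf_dvd_card' (G := ↥(MulAction.stabilizer G a ⊓ MulAction.stabilizer G b))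
      2 heven.two_dvd
    set z : G := (z₀ : G) with hzdef
    have hzord : orderOf z = 2 := by rw [hzdef, Subgroup.orderOf_coe, hz₀]
    have hz1 : z ≠ 1 := Cfsg.Agent.Lib.Zass.Inv.invol_ne_one hzord
    have hz2 : z * z = 1 := Cfsg.Agent.Lib.Zass.Inv.invol_mul_self hzord
    have hsw : ∀ s : G, s • a = b → s • b = a → s * s = 1 := fun s h1 h2 =>
      (Cfsg.Agent.Lib.Zass.RootPSL.even_swappers hZ hab hz1 hz2 z₀.2.1 z₀.2.2 hn h1 h2).1
    obtain ⟨v, hva, hvb⟩ := Cfsg.Agent.Lib.Zass.Basic.trans2 hZ hab (Ne.symm hab)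
    have hvv := hsw v hva hvb
    have hv1 : v ≠ 1 := by
      rintro rfl
      rw [one_smul] at hva
      exact hab hva
    have hinv : ∀ h ∈ MulAction.stabilizer G a ⊓ MulAction.stabilizer G b, v * h * v⁻¹ = h⁻¹ := by
      intro h hh
      apply Cfsg.Agent.Lib.Zass.NoSharp.conj_of_swapper hvv
      apply hsw
      · have h1 : h • a = a := hh.1
        rw [mul_smul, h1, hva]
      · have h1 : h • b = b := hh.2
        rw [mul_smul, h1, hvb]
    refine ⟨?_, v, Cfsg.Agent.Lib.Zass.Inv.orderOf_eq_two_of hv1 hvv, hva, hvb, hinv⟩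
    -- commutativity
    have hcomm : ∀ x ∈ MulAction.stabilizer G a ⊓ MulAction.stabilizer G b,
        ∀ y ∈ MulAction.stabilizer G a ⊓ MulAction.stabilizer G b, x * y = y * x := by
      intro x hx y hy
      have h1 := hinv _ (Subgroup.mul_mem _ hx hy)
      have h2 := hinv x hx
      have h3 := hinv y hy
      have h4 : v * (x * y) * v⁻¹ = (v * x * v⁻¹) * (v * y * v⁻¹) := by group
      rw [h4, h2, h3] at h1
      have h5 := congrArg (fun t => t⁻¹) h1
      simpa using h5.symm
    -- the kernel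
    set F : Subgroup G := Cfsg.Agent.Lib.Zass.Basic.kernelAt a b with hF
    have hFle : F ≤ MulAction.stabilizer G a := Cfsg.Agent.Lib.Zass.Basic.kernelAt_le a b
    have hFn := Cfsg.Agent.Lib.Zass.Basic.kernelAt_normal (G := G) a b
    have hreg : ∀ y z : Ω, y ≠ a → z ≠ a → ∃! u : F, (u : G) • y = z :=
      fun y z hy hz => Cfsg.Agent.Lib.Zass.Basic.kernelAt_regular hZ hab hy hz
    obtain ⟨hFcomm, -⟩ := Cfsg.Agent.S0738.result hZ hab (by
      have := hn
      simp only [Cfsg.Agent.Lib.Zass.Stab.E] at this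
      omega) F hFle hFn hreg
    have hFcomm' : ∀ x ∈ F, ∀ y ∈ F, x * y = y * x := by
      intro x hx y hy
      have := hFcomm.is_comm.comm ⟨x, hx⟩ ⟨y, hy⟩
      exact congrArg Subtype.val this
    have hcardF := Cfsg.Agent.Lib.Zass.RootPSL.card_regular hab hFle (fun y hy => hreg b y (Ne.symm hab) hy)
    have hFne : F ≠ ⊥ := by
      intro h
      rw [h] at hcardF
      simp only [Subgroup.card_bot] at hcardF
      have hd0 : 0 < Nat.card ↥(MulAction.stabilizer G a ⊓ MulAction.stabilizer G b) := Nat.card_pos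
      simp only [Cfsg.Agent.Lib.Zass.Stab.E] at hn
      omega
    have hFn' : ∀ g : G, g • a = a → ∀ u ∈ F, g * u * g⁻¹ ∈ F := by
      intro g hg u hu
      have hu' : (⟨u, hFle hu⟩ : MulAction.stabilizer G a) ∈ F.subgroupOf (MulAction.stabilizer G a) := hu
      exact hFn.conj_mem _ hu' ⟨g, hg⟩
    refine Cfsg.Agent.Lib.FPF.Concrete.isCyclic_of_comm _ F hFcomm' hFne ?_ ?_ hcomm
    · intro e he
      rw [Subgroup.mem_normalizer_iff]
      intro u
      constructor
      · intro hu
        exact hFn' e he.1 u hu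
      · intro hu
        have h1 : e⁻¹ • a = a := by
          have h2 : e • a = a := he.1
          rw [inv_smul_eq_iff, h2]
        have h3 := hFn' e⁻¹ h1 _ hu
        simpa [mul_assoc] using h3
    · intro e he he1 u hu hc
      by_contra hu1
      -- `e` fixes `u • b`
      have h1 : e • (u • b) = u • b := by
        have h2 : e • b = b := he.2
        rw [← mul_smul, hc, mul_smul, h2]
      have h2 : u • b ≠ b := by
        intro h
        have h3 := (hreg b b (Ne.symm hab) (Ne.symm hab)).unique (y₁ := ⟨u, hu⟩) (y₂ := 1) h (by simp)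
        exact hu1 (congrArg Subtype.val h3)
      have h3 : u • b ≠ a := by
        intro h
        have h4 : u • a = a := hFle hu
        exact hab (smul_left_cancel u (h4.trans h.symm))
      exact he1 (Cfsg.Agent.Lib.Zass.Basic.fix3 hZ hab (Ne.symm h2) (Ne.symm h3) he.1 he.2 h1)
  · have hC := Cfsg.Agent.Lib.Zass.Inv.Ctx.of_simple hZ hab hodd
    obtain ⟨v, hv, hva, hvb⟩ := Cfsg.Agent.Lib.Zass.Inv.exists_swap hC hab
    exact ⟨hC.cyc hab, v, hv, hva, hvb, fun h hh => hC.inv hab v hva hvb h hh⟩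

end Cfsg.Agent.S0345
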