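import Cfsg.Statements.S0351

set_option autoImplicit false
open Cfsg

namespace Cfsg.Agent.S0351

/-- Derived design: removing a point p from the blocks through p of an S(t+1, k+1, v) yields an S(t, k, v-1) on the points other than p. -/
theorem result {α : Type*} [Fintype α] [DecidableEq α] {t k : ℕ} {B : Set (Finset α)} (hB : Cfsg.IsSteinerSystem (t + 1) (k + 1) B) (p : α) : Cfsg.IsSteinerSystem t k {b' : Finset {a : α // a ≠ p} | ∃ b ∈ B, p ∈ b ∧ b' = Finset.subtype (fun a => a ≠ p) b} := by
  constructor
  · rintro b' ⟨b, hb, hpb, rfl⟩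
    rw [Finset.card_subtype]
    have h1 : Finset.filter (fun a => a ≠ p) b = b.erase p := by
      ext a; simp [Finset.mem_erase, and_comm]
    rw [h1, Finset.card_erase_of_mem hpb, hB.1 b hb]
    simp
  · intro s hs
    have hps : p ∉ s.map (Function.Embedding.subtype _) := by
      intro h
      rw [Finset.mem_map] at h
      obtain ⟨a, _, ha⟩ := h
      exact a.2 (by simpa using ha)
    have hcard : (insert p (s.map (Function.Embedding.subtype _))).card = t + 1 := by
      rw [Finset.card_insert_of_notMem hps, Finset.card_map, hs]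
    obtain ⟨b, ⟨hb, hsb⟩, hu⟩ := hB.2 _ hcard
    have hpb : p ∈ b := hsb (Finset.mem_insert_self _ _)
    refine ⟨Finset.subtype (fun a => a ≠ p) b, ⟨⟨b, hb, hpb, rfl⟩, ?_⟩, ?_⟩
    · intro a ha
      rw [Finset.mem_subtype]
      apply hsb
      apply Finset.mem_insert_of_mem
      rw [Finset.mem_map]
      exact ⟨a, ha, rfl⟩
    · rintro b' ⟨⟨c, hc, hpc, rfl⟩, hsc⟩
      have hc' : c = b := by
        apply hu
        refine ⟨hc, ?_⟩
        intro a ha
        rw [Finset.mem_insert] at ha
        rcases ha with rfl | ha
        · exact hpc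
        · rw [Finset.mem_map] at ha
          obtain ⟨a', ha', rfl⟩ := ha
          have := hsc ha'
          rw [Finset.mem_subtype] at this
          exact this
      rw [hc']

end Cfsg.Agent.S0351
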