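import Cfsg.Statements.S0353
import Cfsg.Agent.S0352
import Cfsg.Agent.Lib.Steiner.Basic

set_option autoImplicit false
open Cfsg

namespace Cfsg.Agent.S0353

/-- In an S(5, 8, 24), the symmetric difference of two blocks meeting in four points is a block. -/
theorem result {α : Type*} [Fintype α] [DecidableEq α] (hα : Fintype.card α = 24) {B : Set (Finset α)} (hB : Cfsg.IsSteinerSystem 5 8 B) {b c : Finset α} (hb : b ∈ B) (hc : c ∈ B) (h4 : (b ∩ c).card = 4) : symmDiff b c ∈ B := by
  open Cfsg.Agent.Lib.Steiner.Basic in
  -- every block meets `E = b ∆ c` in an even number of points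
  have hb8 := hB.1 b hb
  have hc8 := hB.1 c hc
  have meet_even : ∀ d ∈ B, ∀ e ∈ B, Even (d ∩ e).card := by
    intro d hd e he
    by_cases hde : d = e
    · subst hde
      rw [Finset.inter_self, hB.1 d hd]
      decide
    · rcases Cfsg.Agent.S0352.result hα hB hd he hde with h | h | h <;> rw [h] <;> decide
  set E := symmDiff b c with hE
  have hEcard : E.card = 8 := by
    have h1 : E = (b \ c) ∪ (c \ b) := rfl
    have hd : Disjoint (b \ c) (c \ b) := disjoint_sdiff_sdiff
    rw [h1, Finset.card_union_of_disjoint hd, Finset.card_sdiff, Finset.card_sdiff, hb8, hc8]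
    rw [Finset.inter_comm c b, h4]
  have hEeven : ∀ d ∈ B, Even (d ∩ E).card := by
    intro d hd
    have h1 : d ∩ E = (d ∩ (b \ c)) ∪ (d ∩ (c \ b)) := by
      rw [← Finset.inter_union_distrib_left]
      rfl
    have hd1 : Disjoint (d ∩ (b \ c)) (d ∩ (c \ b)) :=
      (disjoint_sdiff_sdiff).mono Finset.inter_subset_right Finset.inter_subset_right
    have h2 : (d ∩ (b \ c)).card + (d ∩ (b ∩ c)).card = (d ∩ b).card := by
      rw [← Finset.card_union_of_disjoint]
      · congr 1
        rw [← Finset.inter_union_distrib_left, Finset.sdiff_union_inter]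
      · exact (Finset.disjoint_sdiff_inter b c).mono Finset.inter_subset_right Finset.inter_subset_right
    have h3 : (d ∩ (c \ b)).card + (d ∩ (b ∩ c)).card = (d ∩ c).card := by
      rw [Finset.inter_comm b c]
      rw [← Finset.card_union_of_disjoint]
      · congr 1
        rw [← Finset.inter_union_distrib_left, Finset.sdiff_union_inter]
      · exact (Finset.disjoint_sdiff_inter c b).mono Finset.inter_subset_right Finset.inter_subset_right
    have h4 := meet_even d hd b hb
    have h5 := meet_even d hd c hc
    rw [h1, Finset.card_union_of_disjoint hd1]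
    rw [Nat.even_iff] at h4 h5 ⊢
    omega
  -- double counting of the 5-subsets of `E`
  have hsum := sum_card_filter hB E ∅
  have hE56 : ((E.powerset).filter (fun S => (∅ : Finset α) ⊆ S ∧ S.card = 5)).card = 56 := by
    rw [card_between _ _ (Finset.empty_subset _) 5 (by simp), hEcard]
    rfl
  rw [hE56] at hsum
  by_contra hnot
  have hdvd : 6 ∣ ∑ d ∈ blocksF B,
      (((d ∩ E).powerset).filter (fun S => (∅ : Finset α) ⊆ S ∧ S.card = 5)).card := by
    apply Finset.dvd_sum
    intro d hd
    have hdB := mem_blocksF.mp hd
    rw [card_between _ _ (Finset.empty_subset _) 5 (by simp)]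
    have hle : (d ∩ E).card ≤ 8 := by
      rw [← hB.1 d hdB]
      exact Finset.card_le_card Finset.inter_subset_left
    have hne8 : (d ∩ E).card ≠ 8 := by
      intro h8
      apply hnot
      have h1 : d ∩ E = d :=
        Finset.eq_of_subset_of_card_le Finset.inter_subset_left (by rw [h8, hB.1 d hdB])
      have h2 : d ∩ E = E :=
        Finset.eq_of_subset_of_card_le Finset.inter_subset_right (by rw [h8, hEcard])
      rw [← h2, h1]
      exact hdB
    have hev := hEeven d hdB
    simp only [Finset.card_empty, Nat.sub_zero]
    generalize (d ∩ E).card = n at hle hne8 hev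
    interval_cases n <;> first | (exfalso; revert hev; decide) | (exfalso; exact hne8 rfl) | decide
  rw [hsum] at hdvd
  revert hdvd
  decide

end Cfsg.Agent.S0353
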