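import Cfsg.Statements.S0355
import Cfsg.Agent.Lib.Steiner.Basic

set_option autoImplicit false
open Cfsg

namespace Cfsg.Agent.S0355

/-- In a Steiner system S(4, 7, 23), two distinct blocks intersect in 1 or 3 points. -/
theorem result {α : Type*} [Fintype α] [DecidableEq α] (hα : Fintype.card α = 23) {B : Set (Finset α)} (hB : Cfsg.IsSteinerSystem 4 7 B) {b c : Finset α} (hb : b ∈ B) (hc : c ∈ B) (hbc : b ≠ c) : (b ∩ c).card = 1 ∨ (b ∩ c).card = 3 := by
  open Cfsg.Agent.Lib.Steiner.Basic in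
  have hk : ∀ i, (b ∩ c).card = i → i = 0 ∨ i = 2 ∨ i = 4 ∨ i = 5 ∨ i = 6 → False := by
    intro i hi h
    apply inter_card_ne_of_tri_eq_zero hB (by norm_num) hb hc
    rw [hi, hα]
    rcases h with rfl | rfl | rfl | rfl | rfl <;> decide +kernel
  have hle : (b ∩ c).card ≤ 7 := by
    rw [← hB.1 b hb]
    exact Finset.card_le_card Finset.inter_subset_left
  have h8 : (b ∩ c).card ≠ 7 := by
    intro h
    apply hbc
    have h1 : b ∩ c = b := Finset.eq_of_subset_of_card_le Finset.inter_subset_left (by rw [h, hB.1 b hb])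
    have h2 : b ∩ c = c := Finset.eq_of_subset_of_card_le Finset.inter_subset_right (by rw [h, hB.1 c hc])
    rw [← h1]; exact h2
  by_contra hne
  have h' : (b ∩ c).card = 0 ∨ (b ∩ c).card = 2 ∨ (b ∩ c).card = 4 ∨ (b ∩ c).card = 5 ∨ (b ∩ c).card = 6 := by
    omega
  exact hk _ rfl h'

end Cfsg.Agent.S0355
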