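import Cfsg.Statements.S0357
import Cfsg.Agent.Lib.Steiner.Basic

set_option autoImplicit false
open Cfsg

namespace Cfsg.Agent.S0357

/-- In a Steiner system S(5, 6, 12), the complement of every block is again a block. -/
theorem result {α : Type*} [Fintype α] [DecidableEq α] (hα : Fintype.card α = 12) {B : Set (Finset α)} (hB : Cfsg.IsSteinerSystem 5 6 B) {b : Finset α} (hb : b ∈ B) : bᶜ ∈ B := by
  open Cfsg.Agent.Lib.Steiner.Basic in
  have h := ncard_disjoint hB (by norm_num) hb
  rw [hα, show tri 12 6 5 0 6 = 1 by decide +kernel] at h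
  rw [Set.ncard_eq_one] at h
  obtain ⟨c, hc⟩ := h
  have hc' : c ∈ {c : Finset α | c ∈ B ∧ Disjoint b c} := by rw [hc]; rfl
  obtain ⟨hcB, hdisj⟩ := hc'
  have hsub : c ⊆ bᶜ := by
    intro x hx
    rw [Finset.mem_compl]
    intro hxb
    exact Finset.disjoint_left.mp hdisj hxb hx
  have hcard : bᶜ.card ≤ c.card := by
    rw [Finset.card_compl, hα, hB.1 b hb, hB.1 c hcB]
  rw [← Finset.eq_of_subset_of_card_le hsub hcard]
  exact hcB

end Cfsg.Agent.S0357
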