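import Cfsg.Statements.S0371
import Cfsg.Agent.Lib.Golay.Basic

set_option autoImplicit false
open Cfsg

namespace Cfsg.Agent.S0371

open Cfsg.Agent.Lib.Golay.Core Cfsg.Agent.Lib.Golay.Perm

/-- Multiplication by `k` on the residues, fixing the extra point, as a packed map. -/
def mulP (k : ℕ) : ℕ := pack (fun i => cond (Nat.beq i 23) 23 (Nat.mod (Nat.mul k i) 23)) 24

/-- The nonzero squares. -/
def sq : List ℕ := [1, 2, 3, 4, 6, 8, 9, 12, 13, 16, 18]

theorem check_sq : ∀ k ∈ sq, checkAut (mulP k) = true := by decide +kernel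

theorem val_sq : ∀ z : ZMod 23, z ≠ 0 → ZMod.val (z * z) ∈ sq := by decide +kernel

theorem act_sq : ∀ k ∈ sq, ∀ p : Cfsg.GolayPt,
    Option.map (fun x : ZMod 23 => (k : ZMod 23) * x) p = pt (img (mulP k) (idx p)) := by
  decide +kernel


/-- Multiplication by a nonzero square residue modulo 23, fixing the extra point, lies in the group of the length-24 code. -/
theorem result (u : (ZMod 23)ˣ) (hu : IsSquare u) : Equiv.optionCongr (Units.mulLeft u) ∈ Cfsg.M24 := by
  obtain ⟨r, hr⟩ := hu
  have h1 : ((u : ZMod 23)) = (r : ZMod 23) * (r : ZMod 23) := by rw [hr]; simp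
  have h2 : ZMod.val (u : ZMod 23) ∈ sq := by
    have : Fact (Nat.Prime 23) := ⟨by norm_num⟩
    rw [h1]; exact val_sq _ r.ne_zero
  refine mem_M24_of_check (check_sq _ h2) ?_
  intro p
  rw [← act_sq _ h2 p]
  cases p with
  | none => rfl
  | some x =>
    simp only [Option.map, ZMod.natCast_zmod_val]
    rfl

end Cfsg.Agent.S0371
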