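import Cfsg.Statements.S0374
import Cfsg.Agent.Lib.Golay.Basic
import Cfsg.Agent.Lib.PermComp.G24
import Cfsg.Agent.S0370
import Cfsg.Agent.S0372
import Cfsg.Agent.S0373

set_option autoImplicit false
open Cfsg

namespace Cfsg.Agent.S0374

/-- The group of the length-24 code is generated by x ↦ x+1, x ↦ -1/x and the cube-twist permutation. -/
theorem result : Subgroup.closure {Equiv.optionCongr (Equiv.addRight (1 : ZMod 23)), Cfsg.projInv, Cfsg.cubeTwist} = Cfsg.M24 := by
  apply Subgroup.eq_of_le_of_card_ge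
  · rw [Subgroup.closure_le]
    intro x hx
    rcases hx with rfl | rfl | rfl
    · exact Cfsg.Agent.S0370.result
    · exact Cfsg.Agent.S0372.result
    · exact Cfsg.Agent.S0373.result
  · have h1 := Cfsg.Agent.Lib.PermComp.G24.card_G24
    have h2 := Cfsg.Agent.Lib.Golay.M24.card_M24
    have h3 : Cfsg.Agent.Lib.PermComp.G24.G24 = Subgroup.closure {Equiv.optionCongr (Equiv.addRight (1 : ZMod 23)), Cfsg.projInv, Cfsg.cubeTwist} := rfl
    rw [h3] at h1
    rw [h1, h2]

end Cfsg.Agent.S0374
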