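import Cfsg.Statements.S0391
import Cfsg.Agent.Lib.Leech.Basic
import Cfsg.Agent.S0359

set_option autoImplicit false
open Cfsg

namespace Cfsg.Agent.S0391

/-- Nonzero lattice vectors have sum of squares ≥ 32 (no vectors of customary norm 2). -/
theorem result (x : Cfsg.GolayPt → ℤ) (hx : x ∈ Cfsg.leechLattice) (h0 : x ≠ 0) : 32 ≤ Cfsg.sqNorm x := by
  exact Cfsg.Agent.Lib.Leech.Basic.min_norm Cfsg.Agent.S0359.result x hx h0

end Cfsg.Agent.S0391
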