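-- Conway's characterisation of the rank-24 lattice by the number of its short vectors.
import Cfsg.Statements.S0406
import Cfsg.Agent.Lib.LeechChar.Frame

set_option autoImplicit false
open Matrix
open Cfsg

namespace Cfsg.Agent.S0406

open Cfsg.Agent.Lib.Lattice.EvenRootless Cfsg.Agent.Lib.LeechChar in
/-- A rank-24 even lattice with no roots and the stated numbers of vectors of norms 4, 6, 8 is isomorphic to the Leech lattice. -/
theorem result (B : Matrix (Fin 24) (Fin 24) ℤ) (hsymm : B.IsSymm) (hpos : ∀ x : Fin 24 → ℤ, x ≠ 0 → 0 < x ⬝ᵥ (B *ᵥ x)) (heven : ∀ x : Fin 24 → ℤ, (2 : ℤ) ∣ x ⬝ᵥ (B *ᵥ x)) (h2 : ∀ x : Fin 24 → ℤ, x ⬝ᵥ (B *ᵥ x) ≠ 2) (h4 : {x : Fin 24 → ℤ | x ⬝ᵥ (B *ᵥ x) = 4}.ncard = 196560) (h6 : {x : Fin 24 → ℤ | x ⬝ᵥ (B *ᵥ x) = 6}.ncard = 16773120) (h8 : {x : Fin 24 → ℤ | x ⬝ᵥ (B *ᵥ x) = 8}.ncard = 398034000) : ∃ f : (Fin 24 → ℤ) ≃+ Cfsg.leechLattice, ∀ x : Fin 24 →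 ℤ, Cfsg.sqNorm ((f x : Cfsg.leechLattice) : Cfsg.GolayPt → ℤ) = 8 * (x ⬝ᵥ (B *ᵥ x)) := by
  have h : Rootless B := ⟨hsymm, hpos, heven, h2⟩
  obtain ⟨f, hL, hcount, hsq, hinj⟩ := Frame.exists_coords h h4 h6 h8
  obtain ⟨g, hgb, hgn, hgm⟩ := Main.main hL hcount
  have hmem : ∀ x, g (f x) ∈ leechLattice := fun x => (hgm _).mp ⟨x, rfl⟩
  let F : (Fin 24 → ℤ) →+ leechLattice :=
    { toFun := fun x => ⟨g (f x), hmem x⟩
      map_zero' := by
        apply Subtype.ext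
        simp
      map_add' := fun x y => by
        apply Subtype.ext
        simp }
  have hbij : Function.Bijective F := by
    constructor
    · intro x y hxy
      have h1 : g (f x) = g (f y) := congrArg Subtype.val hxy
      exact hinj (hgb.1 h1)
    · rintro ⟨y, hy⟩
      obtain ⟨a, rfl⟩ := hgb.2 y
      obtain ⟨x, rfl⟩ := (hgm a).mpr hy
      exact ⟨x, rfl⟩
  refine ⟨AddEquiv.ofBijective F hbij, fun x => ?_⟩
  show sqNorm (g (f x)) = _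
  rw [hgn, hsq]
  rfl

end Cfsg.Agent.S0406
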