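-- Uniqueness of the strongly regular graph (77,16,0,4): certified exhaustive search.
import Cfsg.Statements.S0429
import Cfsg.Agent.Lib.SRGSearch.Transfer
import Cfsg.Agent.Lib.SRGSearch.G77.Main

set_option autoImplicit false
open Cfsg

namespace Cfsg.Agent.S0429

/-- Uniqueness of the strongly regular graph with parameters (77, 16, 0, 4). -/
theorem result {V W : Type*} [Fintype V] [Fintype W] {G : SimpleGraph V} {H : SimpleGraph W} [DecidableRel G.Adj] [DecidableRel H.Adj] (hG : G.IsSRGWith 77 16 0 4) (hH : H.IsSRGWith 77 16 0 4) : Nonempty (G ≃g H) :=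
  Cfsg.Agent.Lib.SRGSearch.Transfer.nonempty_iso_of_forall
    (h := fun _ hN => Cfsg.Agent.Lib.SRGSearch.G77.exists_perm hN) hG hH

end Cfsg.Agent.S0429
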