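import Cfsg.Statements.S0434
import Cfsg.Agent.Lib.Ord7920.Syl3
-- import your own Cfsg.Agent.* helpers here

set_option autoImplicit false
open Cfsg

namespace Cfsg.Agent.S0434

/-- Sylow 3-normalisers in a simple group of order 7920 have order 144 (so there are 55 Sylow 3-subgroups). -/
theorem result {G : Type*} [Group G] [Finite G] (hG : Cfsg.IsM11 G) (P : Sylow 3 G) : Nat.card (Subgroup.normalizer ((P : Subgroup G) : Set G)) = 144 := by
  classical
  letI : Fintype G := Fintype.ofFinite G
  haveI := Cfsg.Agent.Lib.Char.Ortho.finite_irrCharacter (G := G)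
  letI : Fintype (Cfsg.IrrCharacter G) := Fintype.ofFinite _
  haveI := hG.1
  obtain ⟨D⟩ := Cfsg.Agent.Lib.Ord7920.Data.exists_chars hG.2
  have hT := Cfsg.Agent.Lib.Small.Sieve.card_sylow_eq (k := 2) (m := 880) (hG.2.trans (by norm_num))
    (by norm_num) P
  exact Cfsg.Agent.Lib.Ord7920.Syl3.card_normalizer D hG.2 (T := (P : Subgroup G)) (by rw [hT]; norm_num)

end Cfsg.Agent.S0434
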