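import Cfsg.Statements.S0435
import Cfsg.Agent.Lib.Ord7920.InvolC
-- import your own Cfsg.Agent.* helpers here

set_option autoImplicit false
open Cfsg

namespace Cfsg.Agent.S0435

/-- Involution centralisers in a simple group of order 7920 have order 48. -/
theorem result {G : Type*} [Group G] [Finite G] (hG : Cfsg.IsM11 G) (x : G) (hx : orderOf x = 2) : Nat.card (Subgroup.centralizer ({x} : Set G)) = 48 := by
  classical
  letI : Fintype G := Fintype.ofFinite G
  haveI := Cfsg.Agent.Lib.Char.Ortho.finite_irrCharacter (G := G)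
  letI : Fintype (Cfsg.IrrCharacter G) := Fintype.ofFinite _
  haveI := hG.1
  obtain ⟨D⟩ := Cfsg.Agent.Lib.Ord7920.Data.exists_chars hG.2
  exact Cfsg.Agent.Lib.Ord7920.InvolC.card_centralizer_invol D hG.2 hx

end Cfsg.Agent.S0435
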