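import Cfsg.Statements.S0439

set_option autoImplicit false
open Cfsg

namespace Cfsg.Agent.S0439

open Equiv Equiv.Perm

theorem swap_prod {α : Type*} [DecidableEq α] [Fintype α] {a b c d : α} (hab : a ≠ b) (hcd : c ≠ d) :
    (swap a b * swap c d) ^ 2 = 1 ∨ (swap a b * swap c d) ^ 3 = 1 := by
  -- the case of a shared point, normalised to `swap a b * swap a c`
  have three : ∀ {x y z : α}, x ≠ y → x ≠ z → y ≠ z → (swap x y * swap x z) ^ 3 = 1 := by
    intro x y z hxy hxz hyz
    have := (isThreeCycle_swap_mul_swap_same hxy hxz hyz).orderOf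
    rw [← this]
    exact pow_orderOf_eq_one _
  by_cases hac : a = c
  · subst hac
    by_cases hbd : b = d
    · subst hbd
      left
      rw [swap_mul_self]; simp
    · right
      exact three hab hcd hbd
  by_cases had : a = d
  · subst had
    by_cases hbc : b = c
    · subst hbc
      left
      rw [swap_comm b a, swap_mul_self]; simp
    · right
      rw [swap_comm c a]
      exact three hab (Ne.symm hcd) hbc
  by_cases hbc : b = c
  · subst hbc
    right
    rw [swap_comm a b]
    exact three (Ne.symm hab) hcd (by tauto)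
  by_cases hbd : b = d
  · subst hbd
    right
    rw [swap_comm a b, swap_comm c b]
    exact three (Ne.symm hab) (Ne.symm hcd) (by tauto)
  -- disjoint
  left
  have hdisj : Disjoint (swap a b) (swap c d) := by
    intro x
    by_cases hxa : x = a
    · subst hxa
      right
      exact swap_apply_of_ne_of_ne hac had
    by_cases hxb : x = b
    · subst hxb
      right
      exact swap_apply_of_ne_of_ne hbc hbd
    left
    exact swap_apply_of_ne_of_ne hxa hxb
  rw [hdisj.commute.mul_pow, pow_two, pow_two, swap_mul_self, swap_mul_self, one_mul]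

/-- In the symmetric group of degree n ≥ 2, the set of transpositions is a conjugacy class of 3-transpositions which generates the group. -/
theorem result (n : ℕ) (hn : 2 ≤ n) : Cfsg.IsThreeTranspositionClass {σ : Equiv.Perm (Fin n) | σ.IsSwap} := by
  refine ⟨⟨?_, ?_⟩, ?_, closure_isSwap⟩
  · rintro d ⟨a, b, hab, rfl⟩
    apply orderOf_eq_prime
    · rw [pow_two, swap_mul_self]
    · intro h
      have : swap a b a = (1 : Perm (Fin n)) a := by rw [h]
      rw [swap_apply_left] at this
      exact hab this.symm
  · rintro d ⟨a, b, hab, rfl⟩ e ⟨c, f, hcf, rfl⟩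
    exact swap_prod hab hcf
  · have h01 : (⟨0, by omega⟩ : Fin n) ≠ ⟨1, by omega⟩ := by simp [Fin.ext_iff]
    refine ⟨swap ⟨0, by omega⟩ ⟨1, by omega⟩, ⟨_, _, h01, rfl⟩, ?_⟩
    ext σ
    change σ.IsSwap ↔ IsConj _ σ
    constructor
    · rintro ⟨a, b, hab, rfl⟩
      exact isConj_swap h01 hab
    · intro h
      obtain ⟨c, hc⟩ := isConj_iff.mp h
      refine ⟨c ⟨0, by omega⟩, c ⟨1, by omega⟩, ?_, ?_⟩
      · intro h'
        exact h01 (c.injective h')
      · rw [← hc, ← Equiv.swap_apply_apply]

end Cfsg.Agent.S0439
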