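import Cfsg.Statements.S0440
import Cfsg.Agent.Lib.Classical.SympForm

set_option autoImplicit false
open Cfsg

namespace Cfsg.Agent.S0440

open Matrix Cfsg.Agent.Lib.Classical.SympForm Cfsg.Agent.Lib.Classical.Alt

variable {n : ℕ}

/-- The form is symmetric in characteristic two. -/
theorem form_symm (u v : Fin n ⊕ Fin n → ZMod 2) :
    sympForm n (ZMod 2) u v = sympForm n (ZMod 2) v u := by
  have := alt_neg (sympBilin_isAlt (m := n) (F := ZMod 2)) u v
  simp only [sympBilin_apply] at this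
  rw [this, CharTwo.neg_eq]

theorem form_self (u : Fin n ⊕ Fin n → ZMod 2) : sympForm n (ZMod 2) u u = 0 :=
  sympBilin_isAlt u

theorem form_add_left (u v x : Fin n ⊕ Fin n → ZMod 2) :
    sympForm n (ZMod 2) (u + v) x = sympForm n (ZMod 2) u x + sympForm n (ZMod 2) v x := by
  simp only [← sympBilin_apply, map_add, LinearMap.add_apply]

theorem form_add_right (x u v : Fin n ⊕ Fin n → ZMod 2) :
    sympForm n (ZMod 2) x (u + v) = sympForm n (ZMod 2) x u + sympForm n (ZMod 2) x v := by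
  simp only [← sympBilin_apply, map_add]

theorem form_smul_left (a : ZMod 2) (u x : Fin n ⊕ Fin n → ZMod 2) :
    sympForm n (ZMod 2) (a • u) x = a * sympForm n (ZMod 2) u x := by
  simp only [← sympBilin_apply, map_smul, LinearMap.smul_apply, smul_eq_mul]

theorem form_smul_right (a : ZMod 2) (x u : Fin n ⊕ Fin n → ZMod 2) :
    sympForm n (ZMod 2) x (a • u) = a * sympForm n (ZMod 2) x u := by
  simp only [← sympBilin_apply, map_smul, smul_eq_mul]

theorem zmod2_cases (x : ZMod 2) : x = 0 ∨ x = 1 := by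
  revert x; decide

/-- Non-degeneracy in the form needed here. -/
theorem exists_form_eq_one {u : Fin n ⊕ Fin n → ZMod 2} (hu : u ≠ 0) :
    ∃ x, sympForm n (ZMod 2) x u = 1 := by
  by_contra hcon
  have hcon' : ∀ x, sympForm n (ZMod 2) x u ≠ 1 := fun x hx => hcon ⟨x, hx⟩
  apply hu
  have hnd := sympBilin_nondegenerate (m := n) (F := ZMod 2)
  have : ∀ x, sympForm n (ZMod 2) x u = 0 := fun x => by
    rcases zmod2_cases (sympForm n (ZMod 2) x u) with h | h
    · exact h
    · exact absurd h (hcon' x)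
  exact hnd.2 u (fun x => by simpa using this x)

/-- The symplectic transvection as a group element. -/
noncomputable def Tg (w : Fin n ⊕ Fin n → ZMod 2) : Matrix.symplecticGroup (Fin n) (ZMod 2) :=
  ⟨Cfsg.sympTransvection n w 1, sympTransvection_mem w 1⟩

@[simp] theorem Tg_coe (w : Fin n ⊕ Fin n → ZMod 2) :
    ((Tg w : Matrix.symplecticGroup (Fin n) (ZMod 2)) : Matrix (Fin n ⊕ Fin n) (Fin n ⊕ Fin n) (ZMod 2)) =
      Cfsg.sympTransvection n w 1 := rfl

theorem Tg_mulVec (w x : Fin n ⊕ Fin n → ZMod 2) :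
    (Tg w).1 *ᵥ x = x + sympForm n (ZMod 2) x w • w := by
  rw [Tg_coe, sympTransvection_mulVec, one_mul]

theorem Tg_mul_self (w : Fin n ⊕ Fin n → ZMod 2) : Tg w * Tg w = 1 := by
  apply Subtype.ext
  change Cfsg.sympTransvection n w 1 * Cfsg.sympTransvection n w 1 = 1
  rw [sympTransvection_mul, CharTwo.add_self_eq_zero, Cfsg.sympTransvection]
  simp

theorem Tg_ne_one {w : Fin n ⊕ Fin n → ZMod 2} (hw : w ≠ 0) : Tg w ≠ 1 := by
  intro h
  obtain ⟨x, hx⟩ := exists_form_eq_one hw
  have h1 := Tg_mulVec w x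
  rw [h, hx, one_smul] at h1
  have h2 : (1 : Matrix.symplecticGroup (Fin n) (ZMod 2)).1 *ᵥ x = x := by
    simp
  rw [h2] at h1
  apply hw
  simpa using h1.symm

theorem rank_Tg {w : Fin n ⊕ Fin n → ZMod 2} (hw : w ≠ 0) :
    (((Tg w : Matrix.symplecticGroup (Fin n) (ZMod 2)) : Matrix (Fin n ⊕ Fin n) (Fin n ⊕ Fin n) (ZMod 2)) - 1).rank = 1 := by
  have h : ((Tg w : Matrix.symplecticGroup (Fin n) (ZMod 2)) : Matrix (Fin n ⊕ Fin n) (Fin n ⊕ Fin n) (ZMod 2)) - 1 =
      Matrix.vecMulVec w (Matrix.J (Fin n) (ZMod 2) *ᵥ w) := by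
    rw [Tg_coe, Cfsg.sympTransvection]
    simp
  rw [h]
  apply le_antisymm (Matrix.rank_vecMulVec_le _ _)
  rw [Nat.one_le_iff_ne_zero]
  intro h0
  -- the matrix is non-zero as it moves a vector
  obtain ⟨x, hx⟩ := exists_form_eq_one hw
  have h1 : Matrix.vecMulVec w (Matrix.J (Fin n) (ZMod 2) *ᵥ w) *ᵥ x = w := by
    have h2 := Tg_mulVec w x
    rw [Tg_coe, Cfsg.sympTransvection, Matrix.add_mulVec, Matrix.one_mulVec, hx, one_smul, one_smul] at h2
    exact add_left_cancel h2
  have h3 : Matrix.vecMulVec w (Matrix.J (Fin n) (ZMod 2) *ᵥ w) = 0 := by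
    have h4 : (Matrix.vecMulVec w (Matrix.J (Fin n) (ZMod 2) *ᵥ w)).mulVecLin = 0 := by
      rw [Matrix.rank, Submodule.finrank_eq_zero] at h0
      exact LinearMap.range_eq_bot.mp h0
    ext i j
    have h5 := LinearMap.congr_fun h4 (Pi.single j 1)
    have h6 := congrFun h5 i
    simpa [Matrix.mulVec_single_one] using h6
  rw [h3, Matrix.zero_mulVec] at h1
  exact hw h1.symm

/-- Any rank one symplectic perturbation of the identity over `𝔽₂` is a transvection. -/
theorem exists_of_rank (g : Matrix.symplecticGroup (Fin n) (ZMod 2))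
    (h : ((g : Matrix (Fin n ⊕ Fin n) (Fin n ⊕ Fin n) (ZMod 2)) - 1).rank = 1) :
    ∃ w, w ≠ 0 ∧ g = Tg w := by
  set A : Matrix (Fin n ⊕ Fin n) (Fin n ⊕ Fin n) (ZMod 2) :=
    (g : Matrix (Fin n ⊕ Fin n) (Fin n ⊕ Fin n) (ZMod 2)) - 1 with hA
  rw [Matrix.rank, finrank_eq_one_iff'] at h
  obtain ⟨⟨u, hur⟩, hu0, hu⟩ := h
  have hu0' : u ≠ 0 := fun h0 => hu0 (Subtype.ext h0)
  -- every vector moves by a multiple of `u`
  have hmove : ∀ x, ∃ a : ZMod 2, g.1 *ᵥ x = x + a • u := by
    intro x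
    obtain ⟨a, ha⟩ := hu ⟨A.mulVecLin x, LinearMap.mem_range_self _ x⟩
    refine ⟨a, ?_⟩
    have ha' : a • u = A *ᵥ x := congrArg Subtype.val ha
    rw [ha', hA, Matrix.sub_mulVec, Matrix.one_mulVec]
    abel
  have hpres := (mem_symplecticGroup_iff (g : Matrix (Fin n ⊕ Fin n) (Fin n ⊕ Fin n) (ZMod 2))).mp g.2
  -- the key relation
  have hrel : ∀ x y (a b : ZMod 2), g.1 *ᵥ x = x + a • u → g.1 *ᵥ y = y + b • u →
      b * sympForm n (ZMod 2) x u = a * sympForm n (ZMod 2) y u := by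
    intro x y a b hx hy
    have h1 := hpres x y
    rw [hx, hy, form_add_left, form_add_right, form_add_right, form_smul_left, form_smul_left,
      form_smul_right, form_smul_right, form_self, mul_zero, mul_zero, add_zero, form_symm u y] at h1
    have h2 : sympForm n (ZMod 2) x y + (b * sympForm n (ZMod 2) x u + a * sympForm n (ZMod 2) y u) =
        sympForm n (ZMod 2) x y + 0 := by
      rw [add_zero, ← add_assoc]
      exact h1
    have h3 := add_left_cancel h2
    rw [CharTwo.add_eq_zero] at h3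
    exact h3
  -- a point actually moved
  obtain ⟨x0, a0, hx0, ha0⟩ : ∃ x0, ∃ a0 : ZMod 2, g.1 *ᵥ x0 = x0 + a0 • u ∧ a0 = 1 := by
    obtain ⟨y, hy⟩ : ∃ y, A *ᵥ y = u := by
      obtain ⟨y, hy⟩ := hur
      exact ⟨y, hy⟩
    refine ⟨y, 1, ?_, rfl⟩
    rw [one_smul, ← hy, hA, Matrix.sub_mulVec, Matrix.one_mulVec]
    abel
  subst ha0
  -- the form value at the moved point
  have hf0 : sympForm n (ZMod 2) x0 u = 1 := by
    obtain ⟨x1, hx1⟩ := exists_form_eq_one hu0'
    obtain ⟨a1, ha1⟩ := hmove x1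
    have := hrel x1 x0 a1 1 ha1 hx0
    rw [hx1, one_mul] at this
    rcases zmod2_cases a1 with h | h
    · rw [h, zero_mul] at this
      exact absurd this one_ne_zero
    · rw [h, one_mul] at this
      exact this.symm
  have hall : ∀ x, g.1 *ᵥ x = x + sympForm n (ZMod 2) x u • u := by
    intro x
    obtain ⟨a, ha⟩ := hmove x
    have := hrel x x0 a 1 ha hx0
    rw [hf0, one_mul, mul_one] at this
    rw [ha, this]
  refine ⟨u, hu0', ?_⟩
  apply Subtype.ext
  apply Matrix.ext_iff_mulVec.2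
  intro x
  rw [hall x]
  exact (Tg_mulVec u x).symm

theorem Tg_conj (A : Matrix.symplecticGroup (Fin n) (ZMod 2)) (w : Fin n ⊕ Fin n → ZMod 2) :
    A * Tg w * A⁻¹ = Tg (A.1 *ᵥ w) := by
  apply Subtype.ext
  exact sp_mul_sympTransvection_mul_inv A w 1

theorem Tg_cube_or_sq (u v : Fin n ⊕ Fin n → ZMod 2) :
    (Tg u * Tg v) ^ 2 = 1 ∨ (Tg u * Tg v) ^ 3 = 1 := by
  have hu := Tg_mul_self u
  have hv := Tg_mul_self v
  have hui : (Tg u)⁻¹ = Tg u := inv_eq_of_mul_eq_one_left hu
  have hvi : (Tg v)⁻¹ = Tg v := inv_eq_of_mul_eq_one_left hv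
  rcases zmod2_cases (sympForm n (ZMod 2) u v) with h | h
  · left
    have h1 := Tg_conj (Tg u) v
    rw [hui, Tg_mulVec, form_symm, h, zero_smul, add_zero] at h1
    calc (Tg u * Tg v) ^ 2 = (Tg u * Tg v * Tg u) * Tg v := by
          simp only [pow_succ, pow_zero, one_mul, mul_assoc]
      _ = 1 := by rw [h1, hv]
  · right
    have h1 := Tg_conj (Tg u) v
    have h2 := Tg_conj (Tg v) u
    rw [hui, Tg_mulVec, form_symm, h, one_smul] at h1
    rw [hvi, Tg_mulVec, h, one_smul, add_comm] at h2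
    calc (Tg u * Tg v) ^ 3 = (Tg u * Tg v * Tg u) * (Tg v * Tg u * Tg v) := by
          simp only [pow_succ, pow_zero, one_mul, mul_assoc]
      _ = 1 := by rw [h1, h2, Tg_mul_self]

/-- In the symplectic group in dimension 2n ≥ 2 over the field with two elements, the elements g for which g - 1 has rank one (the symplectic transvections) form a conjugacy class of 3-transpositions generating the group. -/
theorem result (n : ℕ) (hn : 1 ≤ n) : Cfsg.IsThreeTranspositionClass {g : Matrix.symplecticGroup (Fin n) (ZMod 2) | ((g : Matrix (Fin n ⊕ Fin n) (Fin n ⊕ Fin n) (ZMod 2)) - 1).rank = 1} := by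
  refine ⟨⟨?_, ?_⟩, ?_, ?_⟩
  · intro g hg
    obtain ⟨w, hw, rfl⟩ := exists_of_rank g hg
    apply orderOf_eq_prime
    · rw [pow_two, Tg_mul_self]
    · exact Tg_ne_one hw
  · intro g hg g' hg'
    obtain ⟨w, hw, rfl⟩ := exists_of_rank g hg
    obtain ⟨w', hw', rfl⟩ := exists_of_rank g' hg'
    exact Tg_cube_or_sq w w'
  · -- a base vector
    let w0 : Fin n ⊕ Fin n → ZMod 2 := Pi.single (Sum.inl ⟨0, by omega⟩) 1
    have hw0 : w0 ≠ 0 := by
      intro h
      have := congrFun h (Sum.inl ⟨0, by omega⟩)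
      simp [w0] at this
    refine ⟨Tg w0, rank_Tg hw0, ?_⟩
    ext g
    change ((g : Matrix (Fin n ⊕ Fin n) (Fin n ⊕ Fin n) (ZMod 2)) - 1).rank = 1 ↔ IsConj (Tg w0) g
    constructor
    · intro hg
      obtain ⟨w, hw, rfl⟩ := exists_of_rank g hg
      obtain ⟨A, -, hA⟩ := exists_closure_ne_zero (m := n) (F := ZMod 2) w0 w hw0 hw
      rw [isConj_iff]
      refine ⟨A, ?_⟩
      rw [Tg_conj, hA]
    · intro hg
      obtain ⟨A, rfl⟩ := isConj_iff.mp hg
      rw [Tg_conj]
      apply rank_Tg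
      intro h
      have hinv : A⁻¹.1 *ᵥ (A.1 *ᵥ w0) = w0 := by
        rw [Matrix.mulVec_mulVec]
        have : (A⁻¹).1 * A.1 = 1 := congrArg Subtype.val (inv_mul_cancel A)
        rw [this, Matrix.one_mulVec]
      rw [h, Matrix.mulVec_zero] at hinv
      exact hw0 hinv.symm
  · rw [eq_top_iff, ← closure_transvectionSet (m := n) (F := ZMod 2)]
    apply (Subgroup.closure_le _).mpr
    rintro A ⟨w, c, hA⟩
    by_cases hw : w = 0
    · have : A = 1 := by
        apply Subtype.ext
        rw [hA, hw, Cfsg.sympTransvection]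
        simp
      rw [this]
      exact one_mem _
    rcases zmod2_cases c with hc | hc
    · have : A = 1 := by
        apply Subtype.ext
        rw [hA, hc, Cfsg.sympTransvection]
        simp
      rw [this]
      exact one_mem _
    · apply Subgroup.subset_closure
      have : A = Tg w := by
        apply Subtype.ext
        rw [hA, hc]
        rfl
      rw [this]
      exact rank_Tg hw

end Cfsg.Agent.S0440
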