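import Cfsg.Statements.S0442
import Mathlib

set_option autoImplicit false
open Cfsg

namespace Cfsg.Agent.S0442

/-- An involution `a` inverts the product `a * b` of `a` with an involution `b`, hence `a` conjugates
any power `(a * b) ^ m` to `((a * b) ^ m)⁻¹`. -/
theorem invert_pow {G : Type*} [Group G] {a b : G} (ha : a * a = 1) (hb : b * b = 1) (m : ℕ) :
    a * (a * b) ^ m * a = ((a * b) ^ m)⁻¹ := by
  have hai : a⁻¹ = a := inv_eq_of_mul_eq_one_left ha
  have hbi : b⁻¹ = b := inv_eq_of_mul_eq_one_left hb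
  have h1 : a * (a * b) * a⁻¹ = (a * b)⁻¹ := by
    rw [mul_inv_rev, hbi, hai, ← mul_assoc, ha, one_mul]
  have h2 : a * (a * b) ^ m * a⁻¹ = ((a * b) ^ m)⁻¹ := by
    rw [← inv_pow, ← h1, conj_pow]
  rwa [hai] at h2

/-- A standard trick for producing elements of an involution centraliser: for an involution a and an element g, let b be the conjugate g⁻¹ * a * g. If a * b has odd order 2m + 1 then g * (a * b) ^ m commutes with a; if a * b has even order 2m then (a * b) ^ m and (a * (g * a * g⁻¹)) ^ m commute with a. -/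
theorem result {G : Type*} [Group G] (a g : G) (ha : orderOf a = 2) : (∀ m : ℕ, orderOf (a * (g⁻¹ * a * g)) = 2 * m + 1 → Commute (g * (a * (g⁻¹ * a * g)) ^ m) a) ∧ (∀ m : ℕ, orderOf (a * (g⁻¹ * a * g)) = 2 * m → Commute ((a * (g⁻¹ * a * g)) ^ m) a ∧ Commute ((a * (g * a * g⁻¹)) ^ m) a) := by
  have haa : a * a = 1 := by
    have := pow_orderOf_eq_one a
    rw [ha] at this
    simpa [pow_two] using this
  have hbb : (g⁻¹ * a * g) * (g⁻¹ * a * g) = 1 := by
    calc (g⁻¹ * a * g) * (g⁻¹ * a * g) = g⁻¹ * (a * a) * g := by group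
      _ = 1 := by rw [haa]; group
  have hcc : (g * a * g⁻¹) * (g * a * g⁻¹) = 1 := by
    calc (g * a * g⁻¹) * (g * a * g⁻¹) = g * (a * a) * g⁻¹ := by group
      _ = 1 := by rw [haa]; group
  -- comm from self-inverse power
  have comm_of_inv : ∀ y : G, a * y * a = y⁻¹ → y * y = 1 → Commute y a := fun y h hy => by
    have hyi : y⁻¹ = y := inv_eq_of_mul_eq_one_left hy
    rw [hyi] at h
    rw [Commute, SemiconjBy]
    calc y * a = (a * y * a) * a := by rw [h]
      _ = a * y * (a * a) := by group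
      _ = a * y := by rw [haa, mul_one]
  constructor
  · intro m hm
    set b := g⁻¹ * a * g with hb
    set x := a * b with hx
    have hpow : x ^ (2 * m + 1) = 1 := by
      rw [← hm]; exact pow_orderOf_eq_one _
    -- x ^ m conjugates a to b
    have h1 : x ^ m * a = a * (x ^ m)⁻¹ := by
      have := invert_pow haa hbb m
      rw [← hx] at this
      calc x ^ m * a = (a * a) * (x ^ m * a) := by rw [haa, one_mul]
        _ = a * (a * x ^ m * a) := by group
        _ = a * (x ^ m)⁻¹ := by rw [this]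
    have h2 : x ^ m * a * (x ^ m)⁻¹ = b := by
      rw [h1, mul_assoc, ← mul_inv_rev, ← pow_add]
      have : (x ^ (m + m))⁻¹ = x := by
        rw [inv_eq_iff_mul_eq_one]
        rw [← pow_succ, show m + m + 1 = 2 * m + 1 by ring, hpow]
      rw [this, hx, ← mul_assoc, haa, one_mul]
    have h3 : g * x ^ m * a * (g * x ^ m)⁻¹ = a := by
      calc g * x ^ m * a * (g * x ^ m)⁻¹ = g * (x ^ m * a * (x ^ m)⁻¹) * g⁻¹ := by group
        _ = g * b * g⁻¹ := by rw [h2]
        _ = a := by rw [hb]; group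
    rw [Commute, SemiconjBy]
    calc g * x ^ m * a = (g * x ^ m * a * (g * x ^ m)⁻¹) * (g * x ^ m) := by group
      _ = a * (g * x ^ m) := by rw [h3]
  · intro m hm
    -- first part
    have hpow : (a * (g⁻¹ * a * g)) ^ (2 * m) = 1 := by
      rw [← hm]; exact pow_orderOf_eq_one _
    have hy1 : (a * (g⁻¹ * a * g)) ^ m * (a * (g⁻¹ * a * g)) ^ m = 1 := by
      rw [← pow_add, ← two_mul, hpow]
    have part1 := comm_of_inv _ (invert_pow haa hbb m) hy1
    refine ⟨part1, ?_⟩
    -- second part: a * (g a g⁻¹) is conjugate to the inverse of a * (g⁻¹ a g)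
    have hconj : g * (a * (g⁻¹ * a * g)) * g⁻¹ = (a * (g * a * g⁻¹))⁻¹ := by
      have hai : a⁻¹ = a := inv_eq_of_mul_eq_one_left haa
      rw [mul_inv_rev, mul_inv_rev, mul_inv_rev, hai, inv_inv]
      group
    have hpow2 : (a * (g * a * g⁻¹)) ^ (2 * m) = 1 := by
      have : (g * (a * (g⁻¹ * a * g)) * g⁻¹) ^ (2 * m) = 1 := by
        rw [conj_pow, hpow]; group
      rw [hconj, inv_pow, inv_eq_one] at this
      exact this
    have hy2 : (a * (g * a * g⁻¹)) ^ m * (a * (g * a * g⁻¹)) ^ m = 1 := by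
      rw [← pow_add, ← two_mul, hpow2]
    exact comm_of_inv _ (invert_pow haa hcc m) hy2

end Cfsg.Agent.S0442
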