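import Cfsg.Statements.S0443

set_option autoImplicit false
open Cfsg

namespace Cfsg.Agent.S0443

/-- An element of order 2 whose centraliser contains a Sylow 2-subgroup lies in that subgroup. -/
theorem mem_sylow_of_le_centralizer {G : Type*} [Group G] [Finite G] (t : G) (ht : orderOf t = 2)
    (P : Sylow 2 G) (h : (P : Subgroup G) ≤ Subgroup.centralizer ({t} : Set G)) : t ∈ P := by
  have hp : IsPGroup 2 (Subgroup.zpowers t) := by
    rw [IsPGroup.iff_card, Nat.card_zpowers, ht]
    exact ⟨1, by simp⟩
  have hmem : t ∈ Subgroup.normalizer (P : Set G) := by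
    apply Subgroup.centralizer_le_normalizer
    rw [Subgroup.mem_centralizer_iff]
    intro x hx
    exact (Subgroup.mem_centralizer_iff.mp (h hx) t (Set.mem_singleton t)).symm
  have hin : t ∈ Subgroup.zpowers t ⊓ Subgroup.normalizer (P : Set G) :=
    ⟨Subgroup.mem_zpowers t, hmem⟩
  rw [hp.inf_normalizer_sylow P] at hin
  exact hin.2

/-- Two definitions of a 2-central involution agree: an element t of order 2 of a finite group lies in the centre of some Sylow 2-subgroup if and only if its centraliser contains some Sylow 2-subgroup. -/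
theorem result {G : Type*} [Group G] [Finite G] (t : G) (ht : orderOf t = 2) : Cfsg.IsTwoCentralInvolution t ↔ ∃ P : Sylow 2 G, (P : Subgroup G) ≤ Subgroup.centralizer ({t} : Set G) := by
  constructor
  · rintro ⟨-, P, -, hP⟩
    refine ⟨P, fun x hx => ?_⟩
    rw [Subgroup.mem_centralizer_iff]
    intro y hy
    rw [Set.mem_singleton_iff] at hy
    subst hy
    exact (hP x hx).symm
  · rintro ⟨P, hP⟩
    refine ⟨ht, P, mem_sylow_of_le_centralizer t ht P hP, fun x hx => ?_⟩
    exact (Subgroup.mem_centralizer_iff.mp (hP hx) t (Set.mem_singleton t)).symm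

end Cfsg.Agent.S0443
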