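import Cfsg.Statements.S0444
import Cfsg.Agent.Lib.Involutions.Dihedral

set_option autoImplicit false
open Cfsg

namespace Cfsg.Agent.S0444

open Cfsg.Agent.Lib.Involutions.Dihedral

/-- Two involutions whose product has order 3 generate a copy of the dihedral group of order 6. -/
theorem closure_equiv {G : Type*} [Group G] {x y : G} (hx : orderOf x = 2) (hy : orderOf y = 2)
    (h : orderOf (x * y) = 3) : Nonempty (Subgroup.closure ({x, y} : Set G) ≃* DihedralGroup 3) := by
  have hx2 : x ^ 2 = 1 := by rw [← hx]; exact pow_orderOf_eq_one x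
  have hy2 : y ^ 2 = 1 := by rw [← hy]; exact pow_orderOf_eq_one y
  have hne : NeZero (orderOf (x * y)) := ⟨by omega⟩
  have e := (MulEquiv.subgroupCongr (dihedralHom_range hx2 hy2).symm).trans
    (MonoidHom.ofInjective (dihedralHom_injective hx hy hx2 hy2)).symm
  revert e
  generalize orderOf (x * y) = m at h hne
  subst h
  exact fun e => ⟨e⟩

open Equiv in
/-- The symmetric group on three letters is dihedral of order 6. -/
theorem perm_equiv : Nonempty (Equiv.Perm (Fin 3) ≃* DihedralGroup 3) := by
  have ha : (swap (0 : Fin 3) 1).IsSwap := ⟨0, 1, by decide, rfl⟩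
  have hb : (swap (0 : Fin 3) 2).IsSwap := ⟨0, 2, by decide, rfl⟩
  have h3 := (Equiv.Perm.isThreeCycle_swap_mul_swap_same (a := (0 : Fin 3)) (b := 1) (c := 2)
    (by decide) (by decide) (by decide)).orderOf
  obtain ⟨e⟩ := closure_equiv ha.orderOf hb.orderOf h3
  have htop : Subgroup.closure ({swap (0 : Fin 3) 1, swap (0 : Fin 3) 2} : Set (Equiv.Perm (Fin 3))) = ⊤ := by
    apply Subgroup.eq_top_of_card_eq
    rw [Nat.card_congr e.toEquiv, DihedralGroup.nat_card, Nat.card_eq_fintype_card,
      Fintype.card_perm, Fintype.card_fin]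
    rfl
  rw [htop] at e
  exact ⟨Subgroup.topEquiv.symm.trans e⟩

/-- Two members of a set of 3-transpositions which do not commute generate a subgroup isomorphic to the symmetric group on three letters. -/
theorem result {G : Type*} [Group G] {E : Set G} (hE : Cfsg.IsThreeTranspositionSet E) {d e : G} (hd : d ∈ E) (he : e ∈ E) (h : ¬ Commute d e) : Nonempty (Subgroup.closure ({d, e} : Set G) ≃* Equiv.Perm (Fin 3)) := by
  have hd2 := hE.1 d hd
  have he2 := hE.1 e he
  have hdd : d ^ 2 = 1 := by rw [← hd2]; exact pow_orderOf_eq_one d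
  have hee : e ^ 2 = 1 := by rw [← he2]; exact pow_orderOf_eq_one e
  have hcube : (d * e) ^ 3 = 1 := by
    rcases hE.2 d hd e he with h2 | h3
    · exfalso
      apply h
      have h1 : (d * e) * (d * e) = 1 := by rw [← sq]; exact h2
      have : d * e = (d * e)⁻¹ := eq_inv_of_mul_eq_one_left h1
      rw [mul_inv_rev, inv_eq_of_sq hdd, inv_eq_of_sq hee] at this
      exact this
    · exact h3
  have hne : d * e ≠ 1 := by
    intro h1
    apply h
    have : d = e⁻¹ := eq_inv_of_mul_eq_one_left h1
    rw [inv_eq_of_sq hee] at this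
    rw [this]
  have hord : orderOf (d * e) = 3 := by
    have : Fact (Nat.Prime 3) := ⟨Nat.prime_three⟩
    exact orderOf_eq_prime hcube hne
  obtain ⟨f⟩ := closure_equiv hd2 he2 hord
  obtain ⟨g⟩ := perm_equiv
  exact ⟨f.trans g.symm⟩

end Cfsg.Agent.S0444
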