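import Cfsg.Statements.S0445
import Mathlib

set_option autoImplicit false
open Cfsg

namespace Cfsg.Agent.S0445

open Matrix

/-- The general shape of a matrix centralising the transvection `1 + E₀₁` over `𝔽₂`. -/
def build (v : Fin 7 → ZMod 2) (m : Matrix (Fin 3) (Fin 3) (ZMod 2)) :
    Matrix (Fin 5) (Fin 5) (ZMod 2) :=
  !![1, v 0, v 1, v 2, v 3;
     0, 1, 0, 0, 0;
     0, v 4, m 0 0, m 0 1, m 0 2;
     0, v 5, m 1 0, m 1 1, m 1 2;
     0, v 6, m 2 0, m 2 1, m 2 2]

theorem det_build (v : Fin 7 → ZMod 2) (m : Matrix (Fin 3) (Fin 3) (ZMod 2)) :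
    (build v m).det = m.det := by
  rw [Matrix.det_fin_three, build]
  rw [Matrix.det_succ_column_zero]
  simp [Fin.sum_univ_succ, Matrix.det_succ_row_zero, Fin.succAbove, Matrix.submatrix]
  simp only [CharTwo.sub_eq_add]
  ring

theorem build_comm (v : Fin 7 → ZMod 2) (m : Matrix (Fin 3) (Fin 3) (ZMod 2)) :
    build v m * Matrix.transvection (0 : Fin 5) 1 (1 : ZMod 2) =
      Matrix.transvection (0 : Fin 5) 1 (1 : ZMod 2) * build v m := by
  rw [Matrix.transvection, mul_add, add_mul, mul_one, one_mul]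
  congr 1
  ext i j
  fin_cases i <;> fin_cases j <;>
    simp [build, Matrix.mul_apply, Matrix.single_apply]

theorem entries_of_comm (A : Matrix (Fin 5) (Fin 5) (ZMod 2))
    (h : A * Matrix.transvection (0 : Fin 5) 1 (1 : ZMod 2) =
      Matrix.transvection (0 : Fin 5) 1 (1 : ZMod 2) * A) :
    A 1 0 = 0 ∧ A 2 0 = 0 ∧ A 3 0 = 0 ∧ A 4 0 = 0 ∧ A 1 2 = 0 ∧ A 1 3 = 0 ∧ A 1 4 = 0 ∧
      A 0 0 = A 1 1 := by
  rw [Matrix.transvection, mul_add, add_mul, mul_one, one_mul] at h
  have h2 := add_left_cancel h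
  have h' : ∀ i j : Fin 5, (A * Matrix.single (0 : Fin 5) (1 : Fin 5) (1 : ZMod 2)) i j =
      (Matrix.single (0 : Fin 5) (1 : Fin 5) (1 : ZMod 2) * A) i j := by
    intro i j; rw [h2]
  simp only [Matrix.mul_apply, Fin.sum_univ_five, Matrix.single_apply] at h'
  have e1 := h' 1 1
  have e2 := h' 2 1
  have e3 := h' 3 1
  have e4 := h' 4 1
  have e5 := h' 0 0
  have e6 := h' 0 2
  have e7 := h' 0 3
  have e8 := h' 0 4
  have e9 := h' 0 1
  simp at e1 e2 e3 e4 e5 e6 e7 e8 e9
  exact ⟨e1, e2, e3, e4, e6.symm, e7.symm, e8.symm, e9⟩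

theorem exists_build_of_comm (A : Matrix (Fin 5) (Fin 5) (ZMod 2))
    (h : A * Matrix.transvection (0 : Fin 5) 1 (1 : ZMod 2) =
      Matrix.transvection (0 : Fin 5) 1 (1 : ZMod 2) * A) (hd : A.det = 1) :
    A = build ![A 0 1, A 0 2, A 0 3, A 0 4, A 2 1, A 3 1, A 4 1]
      !![A 2 2, A 2 3, A 2 4; A 3 2, A 3 3, A 3 4; A 4 2, A 4 3, A 4 4] := by
  obtain ⟨h10, h20, h30, h40, h12, h13, h14, h00⟩ := entries_of_comm A h
  have h11 : A 1 1 = 1 := by
    by_contra hne
    have h110 : A 1 1 = 0 := by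
      have : ∀ x : ZMod 2, x ≠ 1 → x = 0 := by decide
      exact this _ hne
    have hrow : ∀ j, A 1 j = 0 := by
      intro j
      fin_cases j <;> simp_all
    have := Matrix.det_eq_zero_of_row_eq_zero (A := A) 1 hrow
    rw [hd] at this
    exact one_ne_zero this
  ext i j
  fin_cases i <;> fin_cases j <;> simp_all [build]

theorem det_unit (u : GL (Fin 3) (ZMod 2)) : (u : Matrix (Fin 3) (Fin 3) (ZMod 2)).det = 1 := by
  have h := (Matrix.isUnit_iff_isUnit_det (u : Matrix (Fin 3) (Fin 3) (ZMod 2))).mp u.isUnit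
  have h2 : (u : Matrix (Fin 3) (Fin 3) (ZMod 2)).det ≠ 0 := h.ne_zero
  have : ∀ x : ZMod 2, x ≠ 0 → x = 1 := by decide
  exact this _ h2

/-- The element of `SL₅(2)` attached to the parameters. -/
noncomputable def toSL (p : (Fin 7 → ZMod 2) × GL (Fin 3) (ZMod 2)) :
    Matrix.SpecialLinearGroup (Fin 5) (ZMod 2) :=
  ⟨build p.1 (p.2 : Matrix (Fin 3) (Fin 3) (ZMod 2)), by rw [det_build, det_unit]⟩

/-- The parametrisation of the centraliser. -/
noncomputable def param (s : Matrix.SpecialLinearGroup (Fin 5) (ZMod 2))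
    (hs : (s : Matrix (Fin 5) (Fin 5) (ZMod 2)) = Matrix.transvection 0 1 1)
    (p : (Fin 7 → ZMod 2) × GL (Fin 3) (ZMod 2)) :
    Subgroup.centralizer ({s} : Set (Matrix.SpecialLinearGroup (Fin 5) (ZMod 2))) :=
  ⟨toSL p, by
    rw [Subgroup.mem_centralizer_iff]
    intro h hh
    rw [Set.mem_singleton_iff] at hh
    subst hh
    apply Subtype.ext
    change (h : Matrix (Fin 5) (Fin 5) (ZMod 2)) * build _ _ = build _ _ * (h : Matrix (Fin 5) (Fin 5) (ZMod 2))
    rw [hs]
    exact (build_comm _ _).symm⟩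

theorem param_bijective (s : Matrix.SpecialLinearGroup (Fin 5) (ZMod 2))
    (hs : (s : Matrix (Fin 5) (Fin 5) (ZMod 2)) = Matrix.transvection 0 1 1) :
    Function.Bijective (param s hs) := by
  constructor
  · rintro ⟨v, u⟩ ⟨v', u'⟩ h
    have h1 : build v (u : Matrix (Fin 3) (Fin 3) (ZMod 2)) =
        build v' (u' : Matrix (Fin 3) (Fin 3) (ZMod 2)) :=
      congrArg (fun c : Subgroup.centralizer ({s} : Set (Matrix.SpecialLinearGroup (Fin 5) (ZMod 2))) =>
        ((c : Matrix.SpecialLinearGroup (Fin 5) (ZMod 2)) : Matrix (Fin 5) (Fin 5) (ZMod 2))) h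
    have ent : ∀ i j, build v (u : Matrix (Fin 3) (Fin 3) (ZMod 2)) i j =
        build v' (u' : Matrix (Fin 3) (Fin 3) (ZMod 2)) i j := fun i j => by rw [h1]
    have hv : v = v' := by
      funext k
      fin_cases k
      · simpa [build] using ent 0 1
      · simpa [build] using ent 0 2
      · simpa [build] using ent 0 3
      · simpa [build] using ent 0 4
      · simpa [build] using ent 2 1
      · simpa [build] using ent 3 1
      · simpa [build] using ent 4 1
    have hu : u = u' := by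
      apply Units.ext
      ext i j
      fin_cases i <;> fin_cases j
      · simpa [build] using ent 2 2
      · simpa [build] using ent 2 3
      · simpa [build] using ent 2 4
      · simpa [build] using ent 3 2
      · simpa [build] using ent 3 3
      · simpa [build] using ent 3 4
      · simpa [build] using ent 4 2
      · simpa [build] using ent 4 3
      · simpa [build] using ent 4 4
    rw [hv, hu]
  · rintro ⟨c, hc⟩
    have hcomm : (c : Matrix (Fin 5) (Fin 5) (ZMod 2)) * Matrix.transvection (0 : Fin 5) 1 (1 : ZMod 2) =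
        Matrix.transvection (0 : Fin 5) 1 (1 : ZMod 2) * (c : Matrix (Fin 5) (Fin 5) (ZMod 2)) := by
      rw [Subgroup.mem_centralizer_iff] at hc
      have := hc s (Set.mem_singleton s)
      have h2 := congrArg (fun c : Matrix.SpecialLinearGroup (Fin 5) (ZMod 2) =>
        (c : Matrix (Fin 5) (Fin 5) (ZMod 2))) this
      simp only [Matrix.SpecialLinearGroup.coe_mul, hs] at h2
      exact h2.symm
    have hd : (c : Matrix (Fin 5) (Fin 5) (ZMod 2)).det = 1 := c.2
    have hbuild := exists_build_of_comm _ hcomm hd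
    set v := ![(c : Matrix (Fin 5) (Fin 5) (ZMod 2)) 0 1, (c : Matrix (Fin 5) (Fin 5) (ZMod 2)) 0 2,
      (c : Matrix (Fin 5) (Fin 5) (ZMod 2)) 0 3, (c : Matrix (Fin 5) (Fin 5) (ZMod 2)) 0 4,
      (c : Matrix (Fin 5) (Fin 5) (ZMod 2)) 2 1, (c : Matrix (Fin 5) (Fin 5) (ZMod 2)) 3 1,
      (c : Matrix (Fin 5) (Fin 5) (ZMod 2)) 4 1] with hv
    set m : Matrix (Fin 3) (Fin 3) (ZMod 2) := !![(c : Matrix (Fin 5) (Fin 5) (ZMod 2)) 2 2, (c : Matrix (Fin 5) (Fin 5) (ZMod 2)) 2 3, (c : Matrix (Fin 5) (Fin 5) (ZMod 2)) 2 4;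
      (c : Matrix (Fin 5) (Fin 5) (ZMod 2)) 3 2, (c : Matrix (Fin 5) (Fin 5) (ZMod 2)) 3 3, (c : Matrix (Fin 5) (Fin 5) (ZMod 2)) 3 4;
      (c : Matrix (Fin 5) (Fin 5) (ZMod 2)) 4 2, (c : Matrix (Fin 5) (Fin 5) (ZMod 2)) 4 3, (c : Matrix (Fin 5) (Fin 5) (ZMod 2)) 4 4] with hm
    have hdm : m.det ≠ 0 := by
      rw [← det_build v m, ← hbuild, hd]
      exact one_ne_zero
    refine ⟨(v, Matrix.GeneralLinearGroup.mkOfDetNeZero m hdm), ?_⟩
    apply Subtype.ext
    apply Subtype.ext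
    exact hbuild.symm

/-- In the special linear group of dimension 5 over the field with two elements, the centraliser of a transvection has order 21504 = 2 ^ 7 · 168 (it is an extension of an extraspecial group of order 2 ^ 7 by the simple group of order 168). -/
theorem result (s : Matrix.SpecialLinearGroup (Fin 5) (ZMod 2)) (hs : (s : Matrix (Fin 5) (Fin 5) (ZMod 2)) = Matrix.transvection 0 1 1) : Nat.card (Subgroup.centralizer ({s} : Set (Matrix.SpecialLinearGroup (Fin 5) (ZMod 2)))) = 21504 := by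
  rw [← Nat.card_congr (Equiv.ofBijective _ (param_bijective s hs)), Nat.card_prod,
    Matrix.card_GL_field]
  simp [Fin.prod_univ_succ, ZMod.card]

end Cfsg.Agent.S0445
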