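import Cfsg.Statements.S0446

set_option autoImplicit false
open Cfsg

namespace Cfsg.Agent.S0446

/-- Every finite group of even order contains a 2-central involution, i.e. an element of order 2 in the centre of some Sylow 2-subgroup. -/
theorem result {G : Type*} [Group G] [Finite G] (h : Even (Nat.card G)) : ∃ t : G, Cfsg.IsTwoCentralInvolution t := by
  classical
  obtain ⟨P⟩ : Nonempty (Sylow 2 G) := inferInstance
  have h2 : 2 ∣ Nat.card G := h.two_dvd
  have : Fact (Nat.Prime 2) := ⟨Nat.prime_two⟩
  have h2P : 2 ∣ Nat.card (P : Subgroup G) := P.dvd_card_of_dvd_card h2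
  have hnt : Nontrivial (P : Subgroup G) := by
    rw [← Finite.one_lt_card_iff_nontrivial]
    have := Nat.le_of_dvd Nat.card_pos h2P
    omega
  have hcp : IsPGroup 2 (P : Subgroup G) := P.isPGroup'
  have hcnt := hcp.center_nontrivial
  have h2c : 2 ∣ Nat.card (Subgroup.center (P : Subgroup G)) := by
    have hc : IsPGroup 2 (Subgroup.center (P : Subgroup G)) := hcp.to_subgroup _
    obtain ⟨k, hk⟩ := IsPGroup.iff_card.mp hc
    rw [hk]
    rcases k with _ | k
    · have h1 : 1 < Nat.card (Subgroup.center (P : Subgroup G)) :=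
        Finite.one_lt_card_iff_nontrivial.mpr hcnt
      omega
    · exact dvd_pow_self 2 (by simp)
  obtain ⟨x, hx⟩ := exists_prime_orderOf_dvd_card' (G := Subgroup.center (P : Subgroup G)) 2 h2c
  refine ⟨((x : (P : Subgroup G)) : G), ?_, P, (x : (P : Subgroup G)).2, ?_⟩
  · rw [Subgroup.orderOf_coe, Subgroup.orderOf_coe]
    exact hx
  · intro y hy
    have := (Subgroup.mem_center_iff.mp x.2) ⟨y, hy⟩
    have h3 := congrArg (Subtype.val) this
    simpa using h3

end Cfsg.Agent.S0446
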