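import Cfsg.Statements.S0458
import Cfsg.Agent.Lib.CosetCert.D.J3.Final

set_option autoImplicit false
open Cfsg

namespace Cfsg.Agent.S0458

/-- Janko's third group exists as a transitive permutation group of degree 6156 with point stabiliser of order 8160: a simple group of order 50232960. -/
theorem result : ∃ H : Subgroup (Equiv.Perm (Fin 6156)), Cfsg.IsJ3 H ∧ MulAction.IsPretransitive H (Fin 6156) ∧ Nat.card (MulAction.stabilizer H (0 : Fin 6156)) = 8160 :=
  ⟨_, ⟨Cfsg.Agent.Lib.CosetCert.D.J3.Final.simple, Cfsg.Agent.Lib.CosetCert.D.J3.Final.card0⟩,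
    Cfsg.Agent.Lib.CosetCert.D.J3.Final.pretrans, Cfsg.Agent.Lib.CosetCert.D.J3.Final.stab⟩

end Cfsg.Agent.S0458
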