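import Cfsg.Statements.S0459
import Cfsg.Agent.Lib.CosetCert.D.Ru.Final
import Cfsg.Agent.Lib.CosetCert.D.RuT.Final
import Cfsg.Agent.Lib.CosetCert.D.RuT.Link

set_option autoImplicit false
open Cfsg

namespace Cfsg.Agent.S0459

open Cfsg.Agent.Lib.CosetCert

/-- The Rudvalis group exists as a transitive permutation group of degree 4060: simple of order 145926144000, with point stabiliser of order 35942400 containing a simple subgroup of order 17971200 (the order of the Tits group). -/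
theorem result : ∃ H : Subgroup (Equiv.Perm (Fin 4060)), Cfsg.IsRu H ∧ MulAction.IsPretransitive H (Fin 4060) ∧ Nat.card (MulAction.stabilizer H (0 : Fin 4060)) = 35942400 ∧ ∃ T : Subgroup (MulAction.stabilizer H (0 : Fin 4060)), Cfsg.IsTits T := by
  have hres := Cfsg.Agent.Lib.CosetCert.D.Ru.Lv0.Ok.result
  have htrans := LevelResult.transitive hres (fun _ _ => rfl)
  obtain ⟨T', ⟨e⟩⟩ := exists_subgroup_of_stabilizer Cfsg.Agent.Lib.CosetCert.D.RuT.Link.hle
    Cfsg.Agent.Lib.CosetCert.D.RuT.Link.hfix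
  refine ⟨Cfsg.Agent.Lib.CosetCert.D.Ru.Tbl.L0.G,
    ⟨Cfsg.Agent.Lib.CosetCert.D.Ru.Final.simple, Cfsg.Agent.Lib.CosetCert.D.Ru.Final.card0⟩,
    isPretransitive_of_transitive htrans, ?_, T', ?_, ?_⟩
  · have h := hres.card_stabilizer
    rw [Cfsg.Agent.Lib.CosetCert.D.Ru.Final.card1] at h
    exact h
  · exact e.isSimpleGroup_congr.2 Cfsg.Agent.Lib.CosetCert.D.RuT.Final.simple
  · rw [Nat.card_congr e.toEquiv]
    exact Cfsg.Agent.Lib.CosetCert.D.RuT.Final.card0

end Cfsg.Agent.S0459
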