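import Cfsg.Statements.S0460
import Cfsg.Agent.Lib.CosetCert.D.OnJ1.Sub
import Cfsg.Agent.Lib.CosetCert.D.OnM11.Sub

set_option autoImplicit false
open Cfsg

namespace Cfsg.Agent.S0460

open Cfsg.Agent.Lib.TC.Main Cfsg.Agent.Lib.TC.G.ON

/-- The O'Nan group exists as a transitive permutation group of degree 122760: simple of order 460815505920, point stabiliser of order 3753792, and containing simple subgroups of orders 175560 and 7920. -/
theorem result : ∃ H : Subgroup (Equiv.Perm (Fin 122760)), Cfsg.IsON H ∧ MulAction.IsPretransitive H (Fin 122760) ∧ Nat.card (MulAction.stabilizer H (0 : Fin 122760)) = 3753792 ∧ (∃ K : Subgroup H, Cfsg.IsJ1 K) ∧ (∃ K : Subgroup H, Cfsg.IsM11 K) := by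
  have hok := Cfsg.Agent.Lib.TC.D.ONa.Ok.ok
  have := hok.npos
  have hsc := Cfsg.Agent.Lib.TC.D.ONChain.Main.simple_card
  have := hsc.1
  obtain ⟨φ, hφ⟩ := hok.exists_action
  have htr := hok.trans φ hφ
  change PresentedGroup Rel →* Equiv.Perm (Fin 122760) at φ
  -- the action is faithful
  have hinj : Function.Injective φ := by
    rcases (inferInstance : φ.ker.Normal).eq_bot_or_eq_top with h | h
    · exact (MonoidHom.ker_eq_bot_iff φ).1 h
    · exfalso
      obtain ⟨g, hg⟩ := htr (1 : Fin 122760)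
      have hmem : g ∈ φ.ker := by rw [h]; trivial
      have h1 : φ g = 1 := hmem
      change φ g 0 = 1 at hg
      rw [h1] at hg
      exact absurd hg (by decide)
  let e : PresentedGroup Rel ≃* φ.range := MonoidHom.ofInjective hinj
  have hcardH : Nat.card φ.range = 460815505920 := by
    rw [← Nat.card_congr e.toEquiv]
    exact hsc.2
  have hpre : MulAction.IsPretransitive φ.range (Fin 122760) := by
    refine ⟨fun i j => ?_⟩
    obtain ⟨gi, hi⟩ := htr i
    obtain ⟨gj, hj⟩ := htr j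
    refine ⟨⟨φ (gj * gi⁻¹), ⟨_, rfl⟩⟩, ?_⟩
    change φ (gj * gi⁻¹) i = j
    change φ gi 0 = i at hi
    change φ gj 0 = j at hj
    rw [map_mul, map_inv, Equiv.Perm.mul_apply, ← hi]
    simpa using hj
  refine ⟨φ.range, ⟨e.isSimpleGroup_congr.1 inferInstance, hcardH⟩, hpre, ?_, ?_, ?_⟩
  · have h1 := Subgroup.card_mul_index (MulAction.stabilizer φ.range (0 : Fin 122760))
    rw [MulAction.index_stabilizer, MulAction.orbit_eq_univ, Set.ncard_univ, Nat.card_fin, hcardH] at h1
    omega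
  · obtain ⟨hs, hc⟩ := Cfsg.Agent.Lib.CosetCert.D.OnJ1.Sub.simple_card
    set T := Subgroup.closure (Cfsg.Agent.Lib.CosetCert.D.OnJ1.Sub.g '' {c | c < Cfsg.Agent.Lib.CosetCert.D.OnJ1.Tbl.L0.k})
    have e2 : T ≃* T.map e.toMonoidHom := e.subgroupMap T
    exact ⟨T.map e.toMonoidHom, e2.isSimpleGroup_congr.1 hs, by rw [← Nat.card_congr e2.toEquiv]; exact hc⟩
  · obtain ⟨hs, hc⟩ := Cfsg.Agent.Lib.CosetCert.D.OnM11.Sub.simple_card
    set T := Subgroup.closure (Cfsg.Agent.Lib.CosetCert.D.OnM11.Sub.g '' {c | c < Cfsg.Agent.Lib.CosetCert.D.OnM11.Tbl.L0.k})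
    have e2 : T ≃* T.map e.toMonoidHom := e.subgroupMap T
    exact ⟨T.map e.toMonoidHom, e2.isSimpleGroup_congr.1 hs, by rw [← Nat.card_congr e2.toEquiv]; exact hc⟩

end Cfsg.Agent.S0460
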