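import Cfsg.Statements.S0462
import Cfsg.Agent.Lib.CosetCert.D.HeN.Sub

set_option autoImplicit false
open Cfsg

namespace Cfsg.Agent.S0462

open Cfsg.Agent.Lib.CosetCert Cfsg.Agent.Lib.TC.Main Cfsg.Agent.Lib.TC.G.He Cfsg.Agent.Lib.TC.D.HeSp44.Tab Cfsg.Agent.Lib.CosetCert.D.HeN.Sub

/-- The Held group exists as a transitive permutation group of degree 2058: simple of order 4030387200, with point stabiliser containing, with index 2, a copy of the 4-dimensional symplectic group over the field with four elements. -/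
theorem result : ∃ H : Subgroup (Equiv.Perm (Fin 2058)), Cfsg.IsHe H ∧ MulAction.IsPretransitive H (Fin 2058) ∧ ∃ (F : Type) (_ : Field F) (_ : Fintype F), Fintype.card F = 4 ∧ ∃ N : Subgroup (MulAction.stabilizer H (0 : Fin 2058)), N.index = 2 ∧ Nonempty (N ≃* Matrix.symplecticGroup (Fin 2) F) := by
  have hok := Cfsg.Agent.Lib.TC.D.HeSp44.Ok.ok
  have := hok.npos
  have hsc := Cfsg.Agent.Lib.TC.D.HeChain.Main.simple_card
  have := hsc.1
  obtain ⟨φ, hφ⟩ := hok.exists_action
  have htr := hok.trans φ hφ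
  have hstab := hok.le_stab φ hφ
  change PresentedGroup Rel →* Equiv.Perm (Fin 2058) at φ
  -- the action is faithful
  have hinj : Function.Injective φ := by
    rcases (inferInstance : φ.ker.Normal).eq_bot_or_eq_top with h | h
    · exact (MonoidHom.ker_eq_bot_iff φ).1 h
    · exfalso
      obtain ⟨g, hg⟩ := htr (1 : Fin 2058)
      have hmem : g ∈ φ.ker := by rw [h]; trivial
      have h1 : φ g = 1 := hmem
      change φ g 0 = 1 at hg
      rw [h1] at hg
      exact absurd hg (by decide)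
  let e : PresentedGroup Rel ≃* φ.range := MonoidHom.ofInjective hinj
  have hcardH : Nat.card φ.range = 4030387200 := by
    rw [← Nat.card_congr e.toEquiv]
    exact hsc.2
  have hpre : MulAction.IsPretransitive φ.range (Fin 2058) := by
    refine ⟨fun i j => ?_⟩
    obtain ⟨gi, hi⟩ := htr i
    obtain ⟨gj, hj⟩ := htr j
    refine ⟨⟨φ (gj * gi⁻¹), ⟨_, rfl⟩⟩, ?_⟩
    change φ (gj * gi⁻¹) i = j
    change φ gi 0 = i at hi
    change φ gj 0 = j at hj
    rw [map_mul, map_inv, Equiv.Perm.mul_apply, ← hi]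
    simpa using hj
  have hcardS : Nat.card (MulAction.stabilizer φ.range (0 : Fin 2058)) = 1958400 := by
    have h1 := Subgroup.card_mul_index (MulAction.stabilizer φ.range (0 : Fin 2058))
    rw [MulAction.index_stabilizer, MulAction.orbit_eq_univ, Set.ncard_univ, Nat.card_fin, hcardH] at h1
    omega
  -- the subgroup
  let T : Subgroup (Equiv.Perm (Fin 2058)) := A.map φ
  have hTle : T ≤ φ.range := by
    rintro _ ⟨g, _, rfl⟩
    exact ⟨g, rfl⟩
  have hTfix : ∀ g ∈ T, g (0 : Fin 2058) = 0 := by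
    rintro _ ⟨g, hg, rfl⟩
    have h1 := (Cfsg.Agent.Lib.TC.Perm.mem_stab0 φ g).1 (hstab (hA_le hg))
    exact h1
  obtain ⟨T', ⟨e1⟩⟩ := exists_subgroup_of_stabilizer hTle hTfix
  have e2 : A ≃* T := A.equivMapOfInjective φ hinj
  obtain ⟨e3⟩ := exists_equiv_Sp
  have hcardT' : Nat.card T' = 979200 := by
    rw [Nat.card_congr e1.toEquiv, ← Nat.card_congr e2.toEquiv, card_A]
  have hindex : T'.index = 2 := by
    have h1 := Subgroup.card_mul_index T'
    rw [hcardT', hcardS] at h1
    omega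
  exact ⟨φ.range, ⟨e.isSimpleGroup_congr.1 inferInstance, hcardH⟩, hpre,
    Cfsg.Agent.Lib.PrimeGraph.G24Field.K4, inferInstance, inferInstance,
    Cfsg.Agent.Lib.PrimeGraph.G24Field.K4.card_eq, T', hindex, ⟨e1.trans (e2.symm.trans e3)⟩⟩

end Cfsg.Agent.S0462
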