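import Cfsg.Statements.S0463
import Cfsg.Agent.Lib.TC.D.HNA.Real
import Cfsg.Agent.Lib.TC.D.HNC.Ord
import Cfsg.Agent.Lib.TC.D.HNL.Simple
import Cfsg.Agent.Lib.TC.D.HNO.PtOk
import Cfsg.Agent.Lib.TC.D.HNO.Cnt

set_option autoImplicit false
open Cfsg

namespace Cfsg.Agent.S0463

/-- The Harada–Norton group exists as a transitive permutation group of degree 1140000: simple of order 273030912000000 with point stabiliser isomorphic to the alternating group of degree 12. -/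
theorem result : ∃ H : Subgroup (Equiv.Perm (Fin 1140000)), Cfsg.IsHN H ∧ MulAction.IsPretransitive H (Fin 1140000) ∧ Nonempty (MulAction.stabilizer H (0 : Fin 1140000) ≃* alternatingGroup (Fin 12)) := by
  obtain ⟨hs, hc⟩ := Cfsg.Agent.Lib.TC.D.HNL.Simple.simple_card Cfsg.Agent.Lib.TC.D.HNO.PtOk.hgood
    Cfsg.Agent.Lib.TC.D.HNC.Ord.card_KK3 Cfsg.Agent.Lib.TC.D.HNC.Ord.card_KK
    Cfsg.Agent.Lib.TC.D.HNO.Orb.hlab Cfsg.Agent.Lib.TC.D.HNO.Cnt.hb Cfsg.Agent.Lib.TC.D.HNO.Cnt.hsize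
  exact Cfsg.Agent.Lib.TC.D.HNA.Real.realization Cfsg.Agent.Lib.TC.D.HNO.PtOk.hgood hs hc

end Cfsg.Agent.S0463
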