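import Cfsg.Statements.S0481
import Cfsg.Agent.S0443

set_option autoImplicit false
open Cfsg

namespace Cfsg.Agent.S0481

/-- Large extraspecial subgroups: let z be an involution of a finite group G whose centraliser C contains a normal 2-subgroup Q with centre of order 2 and all squares central, such that every element of G centralising Q lies in Q. Then C contains a Sylow 2-subgroup of G, and any involution of G whose centraliser contains a Sylow 2-subgroup of G is conjugate to z. -/
theorem result {G : Type*} [Group G] [Finite G] (z : G) (hz : orderOf z = 2) (Q : Subgroup G) (hQC : Q ≤ Subgroup.centralizer ({z} : Set G)) (hQn : ∀ g ∈ Subgroup.centralizer ({z} : Set G), ∀ q ∈ Q, g * q * g⁻¹ ∈ Q) (hQ2 : IsPGroup 2 Q) (hZ : Nat.card (Subgroup.center Q) = 2) (hsq : ∀ x : Q, x ^ 2 ∈ Subgroup.center Q) (hlarge : Subgroup.centralizer (Q : Set G) ≤ Q) : (∃ P : Sylow 2 G, (P : Subgroup G) ≤ Subgroup.centralizer ({z} : Set G)) ∧ ∀ u : G, orderOf u = 2 → (∃ P : Sylow 2 G, (P : Subgroup G) ≤ Subgroup.centralizer ({u} : Set G)) → IsConj z u := by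
  classical
  have : Fact (Nat.Prime 2) := ⟨Nat.prime_two⟩
  have hz1 : z ≠ 1 := by
    rintro rfl
    simp at hz
  -- z is central in Q
  have hzQcent : z ∈ Subgroup.centralizer (Q : Set G) := by
    rw [Subgroup.mem_centralizer_iff]
    intro q hq
    exact (Subgroup.mem_centralizer_iff.mp (hQC hq) z (Set.mem_singleton z)).symm
  have hzQ : z ∈ Q := hlarge hzQcent
  -- the only nontrivial element of `Z(Q)` is `z`
  have hunique : ∀ x ∈ Subgroup.centralizer (Q : Set G), x ≠ 1 → x = z := by
    intro x hx hx1
    have hxQ : x ∈ Q := hlarge hx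
    have memc : ∀ y : G, ∀ hy : y ∈ Subgroup.centralizer (Q : Set G),
        (⟨y, hlarge hy⟩ : Q) ∈ Subgroup.center Q := by
      intro y hy
      rw [Subgroup.mem_center_iff]
      rintro ⟨q, hq⟩
      apply Subtype.ext
      exact Subgroup.mem_centralizer_iff.mp hy q hq
    let X : Subgroup.center Q := ⟨⟨x, hxQ⟩, memc x hx⟩
    let Z' : Subgroup.center Q := ⟨⟨z, hzQ⟩, memc z hzQcent⟩
    have hX1 : X ≠ 1 := by
      intro h
      apply hx1
      have := congrArg (fun w : Subgroup.center Q => ((w : Q) : G)) h
      simpa [X] using this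
    have hZ1 : Z' ≠ 1 := by
      intro h
      apply hz1
      have := congrArg (fun w : Subgroup.center Q => ((w : Q) : G)) h
      simpa [Z'] using this
    have hfin : Fintype (Subgroup.center Q) := Fintype.ofFinite _
    have hcard : Fintype.card (Subgroup.center Q) = 2 := by
      rw [← Nat.card_eq_fintype_card]; exact hZ
    have hXZ : X = Z' := by
      by_contra hne
      have h3 : 2 < Fintype.card (Subgroup.center Q) := by
        have : ({1, X, Z'} : Finset (Subgroup.center Q)).card ≤ Fintype.card (Subgroup.center Q) :=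
          Finset.card_le_univ _
        have h4 : ({1, X, Z'} : Finset (Subgroup.center Q)).card = 3 := by
          rw [Finset.card_insert_of_notMem, Finset.card_insert_of_notMem, Finset.card_singleton]
          · simpa using hne
          · simp only [Finset.mem_insert, Finset.mem_singleton, not_or]
            exact ⟨hX1.symm, hZ1.symm⟩
        omega
      omega
    have := congrArg (fun w : Subgroup.center Q => ((w : Q) : G)) hXZ
    simpa [X, Z'] using this
  -- a Sylow subgroup containing Q
  obtain ⟨P, hQP⟩ := hQ2.exists_le_sylow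
  -- every nontrivial element centralising `P` equals `z`
  have hcentP : ∀ x : G, x ∈ (P : Subgroup G) → (∀ y ∈ (P : Subgroup G), x * y = y * x) → x ≠ 1 →
      x = z := by
    intro x _ hx hx1
    apply hunique x _ hx1
    rw [Subgroup.mem_centralizer_iff]
    intro q hq
    exact (hx q (hQP hq)).symm
  -- `z` is central in `P`
  have hzcent : ∀ y ∈ (P : Subgroup G), z * y = y * z := by
    have hnt : Nontrivial (P : Subgroup G) := by
      refine ⟨⟨⟨z, hQP hzQ⟩, 1, ?_⟩⟩
      intro h
      exact hz1 (congrArg Subtype.val h)
    have hcp : IsPGroup 2 (P : Subgroup G) := P.isPGroup'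
    have hcnt := hcp.center_nontrivial
    obtain ⟨w, hw⟩ := exists_ne (1 : Subgroup.center (P : Subgroup G))
    have hwz : (((w : (P : Subgroup G)) : G)) = z := by
      apply hcentP _ (w : (P : Subgroup G)).2
      · intro y hy
        have := (Subgroup.mem_center_iff.mp w.2) ⟨y, hy⟩
        have h3 := congrArg (Subtype.val) this
        simpa using h3.symm
      · intro h
        apply hw
        apply Subtype.ext
        apply Subtype.ext
        simpa using h
    intro y hy
    rw [← hwz]
    have := (Subgroup.mem_center_iff.mp w.2) ⟨y, hy⟩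
    have h3 := congrArg (Subtype.val) this
    simpa using h3.symm
  refine ⟨⟨P, ?_⟩, ?_⟩
  · intro y hy
    rw [Subgroup.mem_centralizer_iff]
    intro s hs
    rw [Set.mem_singleton_iff] at hs
    subst hs
    exact hzcent y hy
  · rintro u hu ⟨P', hP'⟩
    have huP' : u ∈ (P' : Subgroup G) := Cfsg.Agent.S0443.mem_sylow_of_le_centralizer u hu P' hP'
    obtain ⟨g, hg⟩ := MulAction.exists_smul_eq G P' P
    have hu1 : u ≠ 1 := by
      rintro rfl
      simp at hu
    have hconjmem : ∀ y : G, y ∈ (P' : Subgroup G) → g * y * g⁻¹ ∈ (P : Subgroup G) := by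
      intro y hy
      rw [← hg, Sylow.coe_subgroup_smul]
      exact Subgroup.smul_mem_pointwise_smul y (MulAut.conj g) _ hy
    have hconjmem' : ∀ y : G, y ∈ (P : Subgroup G) → g⁻¹ * y * g ∈ (P' : Subgroup G) := by
      intro y hy
      rw [← hg, Sylow.coe_subgroup_smul, Subgroup.mem_pointwise_smul_iff_inv_smul_mem] at hy
      simpa [MulAut.smul_def] using hy
    have h1 : g * u * g⁻¹ = z := by
      apply hcentP _ (hconjmem u huP')
      · intro y hy
        have hy' := hconjmem' y hy
        have hcom : u * (g⁻¹ * y * g) = (g⁻¹ * y * g) * u :=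
          (Subgroup.mem_centralizer_iff.mp (hP' hy') u (Set.mem_singleton u))
        calc g * u * g⁻¹ * y = g * (u * (g⁻¹ * y * g)) * g⁻¹ := by group
          _ = g * ((g⁻¹ * y * g) * u) * g⁻¹ := by rw [hcom]
          _ = y * (g * u * g⁻¹) := by group
      · intro h
        apply hu1
        have : u = g⁻¹ * (g * u * g⁻¹) * g := by group
        rw [this, h]; group
    rw [isConj_comm, isConj_iff]
    exact ⟨g, h1⟩

end Cfsg.Agent.S0481
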