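-- Proof of S0499: the order of a non-abelian simple group of even order is divisible by 12, 16 or 56.
import Cfsg.Statements.S0499
import Cfsg.Agent.Lib.Transfer.Frobenius
import Cfsg.Agent.Lib.Small.Basic

set_option autoImplicit false
open Cfsg

namespace Cfsg.Agent.S0499

open Cfsg.Agent.Lib.Transfer.Frobenius Cfsg.Agent.Lib.Transfer.Basic

lemma q_element_centralizes {G : Type*} [Group G] [Finite G]
    (hc12 : ¬ 12 ∣ Nat.card G) (hc16 : ¬ 16 ∣ Nat.card G) (hc56 : ¬ 56 ∣ Nat.card G)
    (D : Subgroup G) (hD : IsPGroup 2 D) (a : G) (ha : a ∈ Subgroup.normalizer (D : Set G))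
    (q : ℕ) [hq : Fact q.Prime] (hq2 : q ≠ 2) (k : ℕ) (hak : a ^ (q ^ k) = 1) :
    a ∈ Subgroup.centralizer (D : Set G) := by
  classical
  by_contra hac
  have hqp : q.Prime := hq.out
  haveI : Fintype D := Fintype.ofFinite D
  have hmem : ∀ x : D, a * (x : G) * a⁻¹ ∈ D := fun x => (mem_normalizer_iff'.mp ha x).mp x.2
  let f : Function.End D := fun x => ⟨a * (x : G) * a⁻¹, hmem x⟩
  have hfj : ∀ (j : ℕ) (x : D), (((f ^ j) x : D) : G) = a ^ j * x * (a ^ j)⁻¹ := by
    intro j
    induction j with
    | zero =>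
      intro x
      change (x : G) = a ^ 0 * x * (a ^ 0)⁻¹
      simp
    | succ j ih =>
      intro x
      rw [pow_succ]
      change (((f ^ j) (f x) : D) : G) = _
      rw [ih]
      change a ^ j * (a * (x : G) * a⁻¹) * (a ^ j)⁻¹ = _
      rw [pow_succ]
      group
  have hf : f ^ (q ^ k) = 1 := by
    funext x
    apply Subtype.ext
    rw [hfj, hak]
    change 1 * (x : G) * 1⁻¹ = (x : G)
    simp
  have hmod := Equiv.Perm.card_fixedPoints_modEq hf
  let F : Subgroup D := (Subgroup.centralizer ({a} : Set G)).subgroupOf D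
  have hF : ∀ x : D, x ∈ F ↔ f x = x := by
    intro x
    simp only [F, Subgroup.mem_subgroupOf, Subgroup.mem_centralizer_singleton_iff]
    constructor
    · intro h
      apply Subtype.ext
      change a * (x : G) * a⁻¹ = x
      rw [← h]; group
    · intro h
      have h2 : a * (x : G) * a⁻¹ = x := congrArg Subtype.val h
      exact (mul_inv_eq_iff_eq_mul.mp h2).symm
  have hcardF : Fintype.card (Function.fixedPoints f) = Nat.card F := by
    rw [← Nat.card_eq_fintype_card]
    apply Nat.card_congr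
    exact Equiv.subtypeEquivRight (fun x => (hF x).symm)
  rw [hcardF, ← Nat.card_eq_fintype_card] at hmod
  obtain ⟨u, hu⟩ := IsPGroup.iff_card.mp hD
  have hFdvd : Nat.card F ∣ Nat.card D := Subgroup.card_subgroup_dvd_card F
  rw [hu] at hFdvd hmod
  obtain ⟨v, hvu, hv⟩ := (Nat.dvd_prime_pow Nat.prime_two).mp hFdvd
  rw [hv] at hmod
  have hFtop : F ≠ ⊤ := by
    intro h
    apply hac
    rw [mem_centralizer_iff']
    intro x hx
    have h1 : (⟨x, hx⟩ : D) ∈ F := by rw [h]; trivial
    have h2 := (hF _).mp h1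
    exact congrArg Subtype.val h2
  have hvlt : v < u := by
    rcases hvu.lt_or_eq with h | h
    · exact h
    · exfalso
      apply hFtop
      apply (Subgroup.card_eq_iff_eq_top F).mp
      rw [hv, hu, h]
  have hDG : 2 ^ u ∣ Nat.card G := by
    rw [← hu]
    exact Subgroup.card_subgroup_dvd_card D
  have hu3 : u ≤ 3 := by
    by_contra hlt
    rw [not_le] at hlt
    apply hc16
    have : (2 : ℕ) ^ 4 ∣ 2 ^ u := pow_dvd_pow 2 (by omega)
    exact this.trans hDG
  have ha1 : a ≠ 1 := by
    rintro rfl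
    apply hac
    rw [mem_centralizer_iff']
    intro x _
    simp
  have hqG : q ∣ Nat.card G := by
    have h1 : orderOf a ∣ q ^ k := orderOf_dvd_of_pow_eq_one hak
    obtain ⟨j, _, hj⟩ := (Nat.dvd_prime_pow hqp).mp h1
    have hj0 : j ≠ 0 := by
      rintro rfl
      rw [pow_zero] at hj
      exact ha1 (orderOf_eq_one_iff.mp hj)
    have h2 : q ∣ orderOf a := by
      rw [hj]; exact dvd_pow_self q hj0
    exact h2.trans (orderOf_dvd_natCard a)
  have hdiv : q ∣ 2 ^ u - 2 ^ v :=
    (Nat.modEq_iff_dvd' (Nat.pow_le_pow_right (by norm_num) hvu)).mp hmod.symm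
  have key3 : q = 3 → 4 ∣ 2 ^ u → False := by
    intro h3 h4
    apply hc12
    have h5 : 3 ∣ Nat.card G := h3 ▸ hqG
    have h6 : 4 ∣ Nat.card G := h4.trans hDG
    exact (by norm_num : Nat.Coprime 3 4).mul_dvd_of_dvd_of_dvd h5 h6
  have hp2 : ∀ j : ℕ, q ∣ 2 ^ j → False := by
    intro j h
    have := hqp.dvd_of_dvd_pow h
    exact hq2 ((Nat.prime_dvd_prime_iff_eq hqp Nat.prime_two).mp this)
  interval_cases u <;> interval_cases v
  · -- u = 1, v = 0
    have : q ∣ 1 := by simpa using hdiv
    exact hqp.one_lt.ne' (Nat.dvd_one.mp this)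
  · -- u = 2, v = 0
    have h3 : q ∣ 3 := by simpa using hdiv
    have : q = 3 := (Nat.prime_dvd_prime_iff_eq hqp Nat.prime_three).mp h3
    exact key3 this (by norm_num)
  · -- u = 2, v = 1
    have : q ∣ 2 ^ 1 := by simpa using hdiv
    exact hp2 1 this
  · -- u = 3, v = 0
    have h7 : q ∣ 7 := by simpa using hdiv
    have : q = 7 := (Nat.prime_dvd_prime_iff_eq hqp (by norm_num)).mp h7
    apply hc56
    have h5 : 7 ∣ Nat.card G := this ▸ hqG
    exact (by norm_num : Nat.Coprime 7 8).mul_dvd_of_dvd_of_dvd h5 hDG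
  · -- u = 3, v = 1
    have h6 : q ∣ 2 * 3 := by simpa using hdiv
    rcases (Nat.Prime.dvd_mul hqp).mp h6 with h | h
    · have : q ∣ 2 ^ 1 := by simpa using h
      exact hp2 1 this
    · have : q = 3 := (Nat.prime_dvd_prime_iff_eq hqp Nat.prime_three).mp h
      exact key3 this (by norm_num)
  · -- u = 3, v = 2
    have : q ∣ 2 ^ 2 := by simpa using hdiv
    exact hp2 2 this

lemma frobeniusCond_two {G : Type*} [Group G] [Finite G]
    (hc12 : ¬ 12 ∣ Nat.card G) (hc16 : ¬ 16 ∣ Nat.card G) (hc56 : ¬ 56 ∣ Nat.card G) :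
    FrobeniusCond 2 G := by
  intro D hD g hg hco
  have main : ∀ (n : ℕ) (g : G), orderOf g = n → g ∈ Subgroup.normalizer (D : Set G) →
      Nat.Coprime n 2 → g ∈ Subgroup.centralizer (D : Set G) := by
    intro n
    induction n using Nat.strong_induction_on with
    | _ n ih =>
      intro g hgn hgN hcop
      by_cases hn1 : n = 1
      · rw [hn1] at hgn
        rw [orderOf_eq_one_iff.mp hgn]
        exact Subgroup.one_mem _
      have hn0 : n ≠ 0 := by
        rw [← hgn]; exact (orderOf_pos g).ne'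
      haveI hq : Fact (n.minFac).Prime := ⟨Nat.minFac_prime hn1⟩
      have hqn : n.minFac ∣ n := Nat.minFac_dvd n
      have hq2 : n.minFac ≠ 2 := by
        intro h
        rw [h] at hqn
        have := Nat.Coprime.eq_one_of_dvd hcop.symm hqn
        omega
      obtain ⟨a, b, hab, -, haz, hbz, ⟨k, hk⟩, hbq⟩ :=
        exists_pPart_decomp (p := n.minFac) g
      have hzle : Subgroup.zpowers g ≤ Subgroup.normalizer (D : Set G) :=
        Subgroup.zpowers_le.mpr hgN
      have hac := q_element_centralizes hc12 hc16 hc56 D hD a (hzle haz) n.minFac hq2 k hk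
      have hbn : orderOf b ∣ n := by
        rw [← hgn]; exact orderOf_dvd_of_mem_zpowers hbz
      have hblt : orderOf b < n := by
        apply lt_of_le_of_ne (Nat.le_of_dvd (Nat.pos_of_ne_zero hn0) hbn)
        intro h
        rw [h] at hbq
        have := Nat.Coprime.eq_one_of_dvd hbq.symm hqn
        exact hq.out.one_lt.ne' this
      have hbc := ih _ hblt b rfl (hzle hbz) (Nat.Coprime.coprime_dvd_left hbn hcop)
      rw [hab]
      exact Subgroup.mul_mem _ hac hbc
  exact main _ g rfl hg hco

/-- A non-abelian finite simple group of even order has order divisible by 12, 16 or 56. -/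
theorem result {G : Type*} [Group G] [Finite G] [IsSimpleGroup G]
    (hG : ¬ IsMulCommutative G) (h2 : Even (Nat.card G)) :
    12 ∣ Nat.card G ∨ 16 ∣ Nat.card G ∨ 56 ∣ Nat.card G := by
  by_contra hcon
  rw [not_or, not_or] at hcon
  obtain ⟨hc12, hc16, hc56⟩ := hcon
  haveI : Fact (Nat.Prime 2) := ⟨Nat.prime_two⟩
  have h2d : 2 ∣ Nat.card G := even_iff_two_dvd.mp h2
  obtain ⟨P, N, hNn, hc⟩ :=
    hasNormalPComplement_of_frobeniusCond (frobeniusCond_two hc12 hc16 hc56)
  rcases IsSimpleGroup.eq_bot_or_eq_top_of_normal N hNn with h | h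
  · -- `N = ⊥`: `P` is everything
    have hind : (P : Subgroup G).index = 1 := by
      rw [hc.index_eq_card, h]; simp
    have hPtop : (P : Subgroup G) = ⊤ := Subgroup.index_eq_one.mp hind
    apply Cfsg.Agent.Lib.Small.Basic.sylow_not_normal hG 2 h2d P
    rw [hPtop]
    infer_instance
  · -- `N = ⊤`: `P` is trivial
    have hP1 : Nat.card P = 1 := by
      have := hc.symm.index_eq_card
      rw [h, Subgroup.index_top] at this
      exact this.symm
    have hind : (P : Subgroup G).index = Nat.card G := by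
      have := (P : Subgroup G).card_mul_index
      have h3 : Nat.card (P : Subgroup G) = 1 := hP1
      rw [h3, one_mul] at this
      exact this
    apply P.not_dvd_index
    rw [hind]
    exact h2d

end Cfsg.Agent.S0499
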