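import Cfsg.Statements.S0501
import Cfsg.Agent.Lib.MacW.Main

set_option autoImplicit false
open Cfsg

namespace Cfsg.Agent.S0501

/-- A finite 2-group in which every normal elementary abelian subgroup has order at most 4 has sectional rank at most
4: every quotient of every subgroup has no elementary abelian subgroup of order exceeding 16. -/
theorem result {P : Type*} [Group P] [Finite P] (hP : IsPGroup 2 P)
    (h : ∀ A : Subgroup P, A.Normal → IsMulCommutative A → (∀ a ∈ A, a ^ 2 = 1) → Nat.card A ≤ 4) :
    Cfsg.SectionalPRankLE 2 4 P := by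
  classical
  refine Cfsg.Agent.Lib.TwoFusion.SecRank.sectional_of_secBd
    (Cfsg.Agent.Lib.MacW.Main.main hP (fun F hFn hF2 => ?_))
  refine h F hFn ⟨⟨fun x y => Subtype.ext
    (Cfsg.Agent.Lib.TwoFusion.SelfCentE16.comm_of_el hF2 x.2 y.2)⟩⟩ (fun a ha => ?_)
  rw [sq]
  exact hF2 a ha

end Cfsg.Agent.S0501
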