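-- Proof of S0505: characteristic 2 type from solvable involution centralizers with trivial core.
import Cfsg.Statements.S0505
import Cfsg.Agent.Lib.CaseTh.SolvableCharP
import Cfsg.Agent.Lib.CharP.Basic

set_option autoImplicit false
open Cfsg

namespace Cfsg.Agent.S0505

open Cfsg.Agent.Lib.CharP.Basic

/-- Let G be a finite group of even order in which the centralizer of every involution is solvable and has trivial
core (no nontrivial normal subgroup of odd order). Then G is of characteristic 2 type. -/
theorem result {G : Type*} [Group G] [Finite G]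
    (h2 : Even (Nat.card G))
    (hs : ∀ t : G, orderOf t = 2 → Group.IsSolvable (Subgroup.centralizer ({t} : Set G)))
    (hc : ∀ t : G, orderOf t = 2 → Cfsg.oddCore (Subgroup.centralizer ({t} : Set G)) = ⊥) :
    Cfsg.IsCharacteristicTwoType G := by
  haveI : Fact (Nat.Prime 2) := ⟨Nat.prime_two⟩
  refine ⟨h2, fun T hT hT0 => ?_⟩
  obtain ⟨x, hxT, hxo, hxc⟩ := exists_central_order_p (p := 2) hT hT0
  haveI := hs x hxo
  have hC : CharPIn 2 (Subgroup.centralizer ({x} : Set G)) :=
    charPIn_iff.mpr (Cfsg.Agent.Lib.CaseTh.SolvableCharP.centralizer_pCore_le 2 (hc x hxo))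
  exact charPIn_iff.mp (charPIn_normalizer_of_centralizer hT hxT hxc hC)

end Cfsg.Agent.S0505
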