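import Cfsg.Statements.S0519
import Cfsg.Agent.Lib.PGroups.CyclicNormal

set_option autoImplicit false
open Cfsg

namespace Cfsg.Agent.S0519



/-- Let P be a finite p-group in which every abelian normal subgroup is cyclic, but which has a non-cyclic abelian
subgroup. Then p = 2 and P is generalized quaternion, dihedral of order at least 16, or quasi-dihedral. -/
theorem result {P : Type*} [Group P] [Finite P] (p : ℕ) [Fact p.Prime]
    (hP : IsPGroup p P) (hn : ∀ A : Subgroup P, A.Normal → IsMulCommutative A → IsCyclic A)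
    (hm : ∃ B : Subgroup P, IsMulCommutative B ∧ ¬ IsCyclic B) :
    p = 2 ∧ ((∃ n : ℕ, Nonempty (P ≃* QuaternionGroup n)) ∨ (∃ n : ℕ, 8 ≤ n ∧ Nonempty (P ≃* DihedralGroup n)) ∨
      Cfsg.IsQuasiDihedral P) := by
  classical
  have hnc : ¬ IsCyclic P := by
    intro hc
    obtain ⟨B, -, hB⟩ := hm
    exact hB inferInstance
  have hp2 : p = 2 := Cfsg.Agent.Lib.PGroups.CyclicNormal.eq_two_of_not_isCyclic hP hn hnc
  subst hp2
  refine ⟨rfl, ?_⟩
  obtain ⟨n, a, y, hn2, ha, hcard, hy, hidx, h⟩ :=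
    Cfsg.Agent.Lib.PGroups.CyclicNormal.classify hP hn hnc
  obtain ⟨m, rfl⟩ : ∃ m, n = m + 1 := ⟨n - 1, by omega⟩
  simp only [Nat.add_sub_cancel] at h
  rcases h with ⟨h1, h2⟩ | ⟨h0, h1, h2⟩ | ⟨h0, h1, h2⟩
  · left
    refine ⟨2 ^ m, ?_⟩
    obtain ⟨e⟩ := Cfsg.Agent.Lib.PGroups.Presentations.nonempty_quaternion_equiv (m := 2 ^ m)
      (a := a) (y := y) (by rw [ha]; ring) h1 h2 hy (by rw [hcard]; ring)
    exact ⟨e.symm⟩
  · right; left
    refine ⟨2 ^ (m + 1), ?_, ?_⟩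
    · calc 8 = 2 ^ 3 := by norm_num
        _ ≤ 2 ^ (m + 1) := Nat.pow_le_pow_right (by norm_num) h0
    · obtain ⟨e⟩ := Cfsg.Agent.Lib.PGroups.Presentations.nonempty_dihedral_equiv (m := 2 ^ (m + 1))
        (a := a) (y := y) ha h1 h2 hy (by rw [hcard]; ring)
      exact ⟨e.symm⟩
  · right; right
    refine ⟨m + 1, h0, hcard, a, y, ha, ?_, ?_⟩
    · apply orderOf_eq_prime h1
      rintro rfl
      exact hy (one_mem _)
    · simpa using h2

end Cfsg.Agent.S0519
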