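-- Proof of S0521: odd order solvable groups whose Sylow p-subgroup has cyclic derived subgroup have p-length at most 1.
import Cfsg.Statements.S0521
import Cfsg.Agent.Lib.CaseTh.SolvableCharP2
import Cfsg.Agent.Lib.CaseTh.TransvectionBridge
import Cfsg.Agent.Lib.Coprime.Action
import Cfsg.Agent.Lib.PGroups.Basic
import Cfsg.Agent.Lib.Transfer.Basic

set_option autoImplicit false
open Cfsg

namespace Cfsg.Agent.S0521

open Subgroup Cfsg.Agent.Lib.Core.Basic Cfsg.Agent.Lib.CaseTh.SolvableCharP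
  Cfsg.Agent.Lib.CaseTh.SolvableCharP2 Cfsg.Agent.Lib.CaseTh.TransvectionBridge
  Cfsg.Agent.Lib.Coprime.Action Cfsg.Agent.Lib.PGroups.Basic

open scoped commutatorElement

universe u

section Frattini

variable {Y : Type u} [Group Y] [Finite Y] (p : ℕ) [hp : Fact p.Prime]

/-- The Frattini quotient of `O_p(Y)`. -/
abbrev Vq (p : ℕ) (Y : Type u) [Group Y] : Type u := ↥(pCore p Y) ⧸ frattini ↥(pCore p Y)

/-- The conjugation action on the Frattini quotient of `O_p(Y)`. -/
noncomputable def conjQ (g : Y) : Vq p Y →* Vq p Y :=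
  QuotientGroup.map _ _ ((MulAut.conjNormal g : MulAut (pCore p Y)).toMonoidHom) (by
    intro a ha
    have h := (Subgroup.characteristic_iff_le_comap.mp
      (inferInstance : (frattini ↥(pCore p Y)).Characteristic)) (MulAut.conjNormal g)
    exact h ha)

lemma conjQ_mk (g : Y) (u : pCore p Y) :
    conjQ p g (QuotientGroup.mk u : Vq p Y) =
      (QuotientGroup.mk (MulAut.conjNormal g u) : Vq p Y) := rfl

lemma conjQ_one (u : Vq p Y) : conjQ p (1 : Y) u = u := by
  induction u using QuotientGroup.induction_on with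
  | H u =>
    rw [conjQ_mk]
    congr 1
    simp

lemma conjQ_mul (g h : Y) (u : Vq p Y) : conjQ p (g * h) u = conjQ p g (conjQ p h u) := by
  induction u using QuotientGroup.induction_on with
  | H u =>
    rw [conjQ_mk, conjQ_mk, conjQ_mk]
    congr 1
    simp

lemma vq_comm (a b : Vq p Y) : a * b = b * a := by
  induction a using QuotientGroup.induction_on with
  | H a =>
    induction b using QuotientGroup.induction_on with
    | H b =>
      rw [← QuotientGroup.mk_mul, ← QuotientGroup.mk_mul, QuotientGroup.eq]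
      have hc := commutator_le_frattini (G := ↥(pCore p Y)) (p := p) pCore_isPGroup
      have h1 := hc (Subgroup.commutator_mem_commutator (G := ↥(pCore p Y)) (mem_top b⁻¹) (mem_top a⁻¹))
      have e : ⁅b⁻¹, a⁻¹⁆ = (a * b)⁻¹ * (b * a) := by
        simp [commutatorElement_def, mul_assoc]
      rwa [e] at h1

lemma vq_pow (a : Vq p Y) : a ^ p = 1 := by
  induction a using QuotientGroup.induction_on with
  | H a =>
    rw [← QuotientGroup.mk_pow, QuotientGroup.eq_one_iff]
    exact pow_mem_frattini (G := ↥(pCore p Y)) pCore_isPGroup a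

/-- The commutative group structure on the Frattini quotient. -/
@[reducible] noncomputable def vqCommGroup : CommGroup (Vq p Y) :=
  { (inferInstance : Group (Vq p Y)) with mul_comm := vq_comm p }

/-- Elements acting trivially on the Frattini quotient. -/
noncomputable def kerQ : Subgroup Y where
  carrier := {g | ∀ u, conjQ p g u = u}
  mul_mem' := by
    intro g h hg hh u
    rw [conjQ_mul, hh, hg]
  one_mem' := conjQ_one p
  inv_mem' := by
    intro g hg u
    have h1 : conjQ p g⁻¹ (conjQ p g u) = u := by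
      rw [← conjQ_mul, inv_mul_cancel, conjQ_one]
    rwa [hg] at h1

lemma mem_kerQ {g : Y} : g ∈ kerQ p (Y := Y) ↔ ∀ u, conjQ p g u = u := Iff.rfl

lemma kerQ_normal : (kerQ p (Y := Y)).Normal := by
  constructor
  intro g hg h u
  have e : h * g * h⁻¹ = h * (g * h⁻¹) := by group
  rw [e, conjQ_mul, conjQ_mul, hg, ← conjQ_mul, mul_inv_cancel, conjQ_one]

/-- The Frattini subgroup of `O_p(Y)`, in `Y`. -/
noncomputable abbrev PhiY (p : ℕ) (Y : Type u) [Group Y] : Subgroup Y :=
  (frattini ↥(pCore p Y)).map (pCore p Y).subtype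

lemma phiY_normal : (PhiY p Y).Normal :=
  Cfsg.Agent.Lib.Core.Radical.normal_map_subtype_of_characteristic _

/-- **Burnside**: a `p'`-element acting trivially on the Frattini quotient of `O_p(Y)` centralizes
`O_p(Y)`. -/
lemma commute_of_coprime (b : Y) (hb : (orderOf b).Coprime p) (hker : b ∈ kerQ p (Y := Y))
    (k : Y) (hk : k ∈ pCore p Y) : b * k = k * b := by
  classical
  have hPn : (pCore p Y).Normal := pCore_normal p Y
  haveI hNn : (PhiY p Y).Normal := phiY_normal p
  let A : Subgroup Y := zpowers b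
  have hAle : A ≤ kerQ p (Y := Y) := (zpowers_le (H := kerQ p (Y := Y))).mpr hker
  have hAK : A ≤ normalizer ((pCore p Y : Subgroup Y) : Set Y) := by
    rw [normalizer_eq_top_iff.mpr hPn]; exact le_top
  have hAN : A ≤ normalizer ((PhiY p Y : Subgroup Y) : Set Y) := by
    rw [normalizer_eq_top_iff.mpr hNn]; exact le_top
  have hKN : pCore p Y ≤ normalizer ((PhiY p Y : Subgroup Y) : Set Y) := by
    rw [normalizer_eq_top_iff.mpr hNn]; exact le_top
  have hcop : (Nat.card A).Coprime (Nat.card (pCore p Y)) := by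
    obtain ⟨n, hn⟩ := exists_card_pCore (p := p) (G := Y)
    rw [hn, Nat.card_zpowers]
    exact Nat.Coprime.pow_right _ hb
  have hsolv : Group.IsSolvable A ∨ Group.IsSolvable (pCore p Y) := by
    left
    haveI : IsMulCommutative A := inferInstance
    exact inferInstance
  have hNK : PhiY p Y ≤ pCore p Y := Subgroup.map_subtype_le _
  -- fixed points modulo the Frattini subgroup
  have hfix : ∀ k ∈ pCore p Y, ∃ c ∈ pCore p Y ⊓ centralizer (A : Set Y), k⁻¹ * c ∈ PhiY p Y := by
    intro k hk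
    refine exists_fixed_of_fixed_mod (PhiY p Y) hAK hcop hsolv hNK hKN hAN hk ?_
    intro a ha
    have h1 : conjQ p a (QuotientGroup.mk (⟨k, hk⟩ : pCore p Y) : Vq p Y) = QuotientGroup.mk ⟨k, hk⟩ :=
      hAle ha _
    rw [conjQ_mk, QuotientGroup.eq_iff_div_mem] at h1
    refine ⟨_, h1, ?_⟩
    simp [div_eq_mul_inv, MulAut.conjNormal_apply]
  -- non-generation
  let H : Subgroup ↥(pCore p Y) := (centralizer (A : Set Y)).subgroupOf (pCore p Y)
  have hsup : H ⊔ frattini ↥(pCore p Y) = ⊤ := by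
    rw [eq_top_iff]
    rintro ⟨k, hk⟩ -
    obtain ⟨c, hc, hkc⟩ := hfix k hk
    obtain ⟨f, hf, hfe⟩ := hkc
    have h1 : (⟨c, hc.1⟩ : pCore p Y) ∈ H := hc.2
    have h2 : (⟨k, hk⟩ : pCore p Y) = ⟨c, hc.1⟩ * f⁻¹ := by
      apply Subtype.ext
      have h3 : (f : Y) = k⁻¹ * c := hfe
      simp [h3]
    rw [h2]
    exact mul_mem_sup h1 ((frattini _).inv_mem hf)
  have htop : H = ⊤ := frattini_nongenerating hsup
  have hkH : (⟨k, hk⟩ : pCore p Y) ∈ H := by rw [htop]; trivial
  have hkc : k ∈ centralizer (A : Set Y) := hkH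
  exact (Subgroup.mem_centralizer_iff.mp hkc b (mem_zpowers b))

/-- An element acting trivially on the Frattini quotient of `O_p(Y)` lies in `O_p(Y)`, when
`C_Y(O_p(Y)) ≤ O_p(Y)`. -/
lemma mem_core_of_mem_kerQ (hC : centralizer (pCore p Y : Set Y) ≤ pCore p Y) :
    kerQ p (Y := Y) ≤ pCore p Y := by
  apply le_pCore (kerQ_normal p)
  rintro ⟨g, hg⟩
  obtain ⟨a, b, hab, -, haz, hbz, ⟨k, hk⟩, hbq⟩ :=
    Cfsg.Agent.Lib.Transfer.Basic.exists_pPart_decomp (p := p) g
  have hzle : zpowers g ≤ kerQ p (Y := Y) := (zpowers_le (H := kerQ p (Y := Y))).mpr hg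
  have hbc : b ∈ centralizer (pCore p Y : Set Y) := by
    rw [Subgroup.mem_centralizer_iff]
    intro u hu
    exact (commute_of_coprime p b hbq (hzle hbz) u hu).symm
  have hb1 : b = 1 := by
    have hbP := hC hbc
    obtain ⟨j, hj⟩ := (pCore_isPGroup (p := p) (G := Y)) ⟨b, hbP⟩
    have h1 : b ^ (p ^ j) = 1 := congrArg Subtype.val hj
    have h2 : orderOf b ∣ p ^ j := orderOf_dvd_of_pow_eq_one h1
    exact orderOf_eq_one_iff.mp (Nat.Coprime.eq_one_of_dvd (hbq.pow_right j) h2)
  refine ⟨k, ?_⟩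
  apply Subtype.ext
  have : g = a := by rw [hab, hb1, mul_one]
  simpa [this] using hk

end Frattini

section Main

variable {Y : Type u} [Group Y] [Finite Y] {p : ℕ} [hp : Fact p.Prime]

/-- A subgroup of a cyclic subgroup has a generator. -/
lemma exists_gen_of_le {D E : Subgroup Y} (hD : IsCyclic D) (hE : E ≤ D) :
    ∃ a₀ ∈ E, ∀ z ∈ E, ∃ k : ℤ, z = a₀ ^ k := by
  haveI : IsCyclic (E.subgroupOf D) := inferInstance
  obtain ⟨g, hg⟩ := IsCyclic.exists_generator (α := E.subgroupOf D)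
  refine ⟨(g : D), g.2, ?_⟩
  intro z hz
  obtain ⟨k, hk⟩ := Subgroup.mem_zpowers_iff.mp (hg ⟨⟨z, hE hz⟩, hz⟩)
  refine ⟨k, ?_⟩
  have := congrArg (fun w : E.subgroupOf D => ((w : D) : Y)) hk
  simpa using this.symm

/-- The main theorem, in the quotient by `O_{p'}`. -/
theorem sylow_le_pCore [Group.IsSolvable Y] (hodd : Odd (Nat.card Y)) (hO : pPrimeCore p Y = ⊥)
    (S : Sylow p Y) (hS : IsCyclic (commutator (S : Subgroup Y))) :
    (S : Subgroup Y) ≤ pCore p Y := by
  classical
  intro x hxS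
  by_contra hxP
  obtain ⟨e, he⟩ := S.2 ⟨x, hxS⟩
  have hxe : x ^ (p ^ e) = 1 := congrArg Subtype.val he
  have hC : centralizer (pCore p Y : Set Y) ≤ pCore p Y := centralizer_pCore_le p hO
  have hx1 : x ≠ 1 := by
    rintro rfl
    exact hxP (one_mem _)
  have hp2 : p ≠ 2 := by
    intro h2
    have hdvd : orderOf x ∣ p ^ e := orderOf_dvd_of_pow_eq_one hxe
    obtain ⟨j, _, hj⟩ := (Nat.dvd_prime_pow hp.out).mp hdvd
    have hj0 : j ≠ 0 := by
      rintro rfl
      rw [pow_zero] at hj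
      exact hx1 (orderOf_eq_one_iff.mp hj)
    have h3 : p ∣ Nat.card Y := (dvd_pow_self p hj0).trans (hj ▸ orderOf_dvd_natCard x)
    rw [h2] at h3
    exact (Nat.not_even_iff_odd.mpr hodd) (even_iff_two_dvd.mpr h3)
  -- the quotient by `O_p(Y)`
  let q : Y →* Y ⧸ pCore p Y := QuotientGroup.mk' (pCore p Y)
  have hOZ : pCore p (Y ⧸ pCore p Y) = ⊥ := pCore_quotient_eq_bot
  have hRcent : centralizer (pPrimeCore p (Y ⧸ pCore p Y) : Set (Y ⧸ pCore p Y)) ≤
      pPrimeCore p (Y ⧸ pCore p Y) := by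
    apply centralizer_le_of_forall_pCore_le
    intro r hr
    by_cases hrp : r = p
    · rw [hrp, hOZ]; exact bot_le
    · haveI : Fact r.Prime := ⟨hr⟩
      apply le_pPrimeCore (pCore_normal _ _)
      obtain ⟨n, hn⟩ := exists_card_pCore (p := r) (G := Y ⧸ pCore p Y)
      rw [hn]
      exact Nat.Coprime.pow_left _ ((Nat.coprime_primes hr hp.out).mpr hrp)
  have hqx : q x ∉ pPrimeCore p (Y ⧸ pCore p Y) := by
    intro h
    have h1 := orderOf_coprime_of_mem_pPrimeCore h
    have h2 : (q x) ^ (p ^ e) = 1 := by rw [← map_pow, hxe, map_one]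
    have h3 : orderOf (q x) ∣ p ^ e := orderOf_dvd_of_pow_eq_one h2
    have h4 : q x = 1 :=
      orderOf_eq_one_iff.mp (Nat.Coprime.eq_one_of_dvd (h1.pow_right e) h3)
    exact hxP ((QuotientGroup.eq_one_iff x).mp h4)
  have hnot : q x ∉ centralizer (pPrimeCore p (Y ⧸ pCore p Y) : Set (Y ⧸ pCore p Y)) :=
    fun h => hqx (hRcent h)
  rw [Subgroup.mem_centralizer_iff] at hnot
  rw [not_forall] at hnot
  obtain ⟨rb, hnot⟩ := hnot
  rw [not_forall] at hnot
  obtain ⟨hrb, hne⟩ := hnot
  obtain ⟨r, hr⟩ := QuotientGroup.mk'_surjective (pCore p Y) rb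
  have hrq : q r = rb := hr
  set y : Y := r⁻¹ * x * r with hy
  have hye : y ^ (p ^ e) = 1 := by
    have e1 : y = (MulAut.conj r⁻¹) x := by simp [hy]
    rw [e1, ← map_pow, hxe, map_one]
  -- the cyclic subgroup
  let D : Subgroup Y := (commutator (S : Subgroup Y)).map (S : Subgroup Y).subtype
  have hDcyc : IsCyclic D := by
    haveI := hS
    exact isCyclic_of_surjective _
      ((S : Subgroup Y).subtype.subgroupMap_surjective (commutator (S : Subgroup Y)))
  obtain ⟨a₀, ha₀E, ha₀⟩ := exists_gen_of_le (E := D ⊓ pCore p Y) hDcyc inf_le_left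
  have hPS : pCore p Y ≤ S := pCore_le_sylow S
  have hPn : (pCore p Y).Normal := pCore_normal p Y
  have hcommx : ∀ u ∈ pCore p Y, ∃ k : ℤ, x * u * x⁻¹ * u⁻¹ = a₀ ^ k := by
    intro u hu
    refine ha₀ _ ⟨?_, ?_⟩
    · refine ⟨⁅(⟨x, hxS⟩ : (S : Subgroup Y)), ⟨u, hPS hu⟩⁆, ?_, ?_⟩
      · exact Subgroup.commutator_mem_commutator (mem_top _) (mem_top _)
      · simp [commutatorElement_def]
    · exact (pCore p Y).mul_mem (hPn.conj_mem u hu x) ((pCore p Y).inv_mem hu)
  -- the two centers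
  let a₁ : pCore p Y := ⟨a₀, ha₀E.2⟩
  let a₂ : pCore p Y := ⟨r⁻¹ * a₀ * r, by simpa using hPn.conj_mem a₀ ha₀E.2 r⁻¹⟩
  letI iV : CommGroup (Vq p Y) := vqCommGroup p
  have h1 : ∀ u : Vq p Y, ∃ k : ℤ, conjQ p x u * u⁻¹ = (QuotientGroup.mk a₁ : Vq p Y) ^ k := by
    intro u
    induction u using QuotientGroup.induction_on with
    | H u =>
      obtain ⟨k, hk⟩ := hcommx u u.2
      refine ⟨k, ?_⟩
      rw [conjQ_mk, ← QuotientGroup.mk_inv, ← QuotientGroup.mk_mul, ← QuotientGroup.mk_zpow]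
      congr 1
      apply Subtype.ext
      simp [MulAut.conjNormal_apply, hk, a₁]
  have h2 : ∀ u : Vq p Y, ∃ k : ℤ, conjQ p y u * u⁻¹ = (QuotientGroup.mk a₂ : Vq p Y) ^ k := by
    intro u
    induction u using QuotientGroup.induction_on with
    | H u =>
      obtain ⟨k, hk⟩ := hcommx (r * u * r⁻¹) (hPn.conj_mem u u.2 r)
      refine ⟨k, ?_⟩
      rw [conjQ_mk, ← QuotientGroup.mk_inv, ← QuotientGroup.mk_mul, ← QuotientGroup.mk_zpow]
      congr 1
      apply Subtype.ext
      have e2 : (r⁻¹ * a₀ * r) ^ k = r⁻¹ * a₀ ^ k * r := by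
        have := map_zpow (MulAut.conj r⁻¹) a₀ k
        simpa using this.symm
      have e3 : y * (u : Y) * y⁻¹ * (u : Y)⁻¹ =
          r⁻¹ * (x * (r * u * r⁻¹) * x⁻¹ * (r * u * r⁻¹)⁻¹) * r := by
        rw [hy]; group
      simp only [Subgroup.coe_mul, Subgroup.coe_inv, Subgroup.coe_zpow, MulAut.conjNormal_apply, a₂]
      rw [e2, e3, hk]
  have key : ∀ u : Vq p Y, conjQ p ((y * x⁻¹) ^ p) u = u :=
    bridge (V := Vq p Y) p hp2 (vq_pow p) (conjQ p) (conjQ_one p) (conjQ_mul p) x y e hxe hye _ _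
      h1 h2 (Nat.card Y) hodd (fun g => pow_card_eq_one')
  have hmem : (y * x⁻¹) ^ p ∈ pCore p Y := mem_core_of_mem_kerQ p hC key
  -- contradiction
  have h5 : (q (y * x⁻¹)) ^ p = 1 := by
    rw [← map_pow]
    exact (QuotientGroup.eq_one_iff _).mpr hmem
  have hRn : (pPrimeCore p (Y ⧸ pCore p Y)).Normal := pPrimeCore_normal p _
  have h6 : q (y * x⁻¹) ∈ pPrimeCore p (Y ⧸ pCore p Y) := by
    have e4 : q (y * x⁻¹) = rb⁻¹ * (q x * rb * (q x)⁻¹) := by
      rw [hy, ← hrq]
      simp only [map_mul, map_inv]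
      group
    rw [e4]
    exact mul_mem (inv_mem hrb) (hRn.conj_mem rb hrb (q x))
  have h7 : q (y * x⁻¹) = 1 := by
    have h8 := orderOf_coprime_of_mem_pPrimeCore h6
    have h9 : orderOf (q (y * x⁻¹)) ∣ p := orderOf_dvd_of_pow_eq_one h5
    exact orderOf_eq_one_iff.mp (Nat.Coprime.eq_one_of_dvd h8 h9)
  apply hne
  have e5 : q (y * x⁻¹) = rb⁻¹ * (q x * rb * (q x)⁻¹) := by
    rw [hy, ← hrq]
    simp only [map_mul, map_inv]
    group
  rw [e5] at h7
  have h10 : q x * rb * (q x)⁻¹ = rb := by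
    have := mul_left_cancel (a := rb⁻¹) (b := q x * rb * (q x)⁻¹) (c := rb) (by rw [h7]; simp)
    exact this
  have h11 : q x * rb = rb * q x := mul_inv_eq_iff_eq_mul.mp h10
  exact h11.symm

end Main

/-- Let X be a finite solvable group of odd order, p a prime and S a Sylow p-subgroup of X whose commutator subgroup is
cyclic. Then the product of the largest normal subgroup of X of order prime to p with S is a normal subgroup of X. -/
theorem result {X : Type*} [Group X] [Finite X] [Group.IsSolvable X]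
    (hX : Odd (Nat.card X)) (p : ℕ) [Fact p.Prime] (S : Sylow p X) (hS : IsCyclic (commutator (S : Subgroup X))) :
    (Cfsg.pPrimeCore p X ⊔ (S : Subgroup X)).Normal := by
  set N := pPrimeCore p X with hN
  haveI hNn : N.Normal := pPrimeCore_normal p X
  let π : X →* X ⧸ N := QuotientGroup.mk' N
  have hπs : Function.Surjective π := QuotientGroup.mk'_surjective N
  have hodd : Odd (Nat.card (X ⧸ N)) := by
    have h1 : Nat.card (X ⧸ N) ∣ Nat.card X := ⟨Nat.card N, by
      rw [mul_comm]; exact (Subgroup.card_mul_index N).symm⟩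
    exact Odd.of_dvd_nat hX h1
  have hO : pPrimeCore p (X ⧸ N) = ⊥ := pPrimeCore_quotient_eq_bot
  let T : Sylow p (X ⧸ N) := S.mapSurjective hπs
  have hTc : (T : Subgroup (X ⧸ N)) = (S : Subgroup X).map π := Sylow.coe_mapSurjective hπs S
  have hScyc : IsCyclic (commutator (T : Subgroup (X ⧸ N))) := by
    -- the map `S → T`
    let f : (S : Subgroup X) →* (T : Subgroup (X ⧸ N)) :=
      (π.comp (S : Subgroup X).subtype).codRestrict _ (fun a => by
        rw [hTc]; exact ⟨a, a.2, rfl⟩)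
    have hf : Function.Surjective f := by
      rintro ⟨t, ht⟩
      rw [hTc] at ht
      obtain ⟨s, hs, rfl⟩ := ht
      exact ⟨⟨s, hs⟩, rfl⟩
    have hmap : (commutator (S : Subgroup X)).map f = commutator (T : Subgroup (X ⧸ N)) := by
      rw [_root_.commutator_def, _root_.commutator_def, Subgroup.map_commutator, Subgroup.map_top_of_surjective _ hf]
    rw [← hmap]
    haveI := hS
    exact isCyclic_of_surjective _ (f.subgroupMap_surjective (commutator (S : Subgroup X)))
  have hle : (T : Subgroup (X ⧸ N)) ≤ pCore p (X ⧸ N) := sylow_le_pCore hodd hO T hScyc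
  have heq : (T : Subgroup (X ⧸ N)) = pCore p (X ⧸ N) := le_antisymm hle (pCore_le_sylow T)
  have hTn : (T : Subgroup (X ⧸ N)).Normal := by
    rw [heq]; exact pCore_normal p _
  have hcomap : (N ⊔ (S : Subgroup X)) = (T : Subgroup (X ⧸ N)).comap π := by
    rw [hTc, Subgroup.comap_map_eq, sup_comm]
    congr 1
    exact (QuotientGroup.ker_mk' N).symm
  rw [hcomap]
  exact Subgroup.Normal.comap hTn π

end Cfsg.Agent.S0521
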