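import Cfsg.Statements.S0522
import Cfsg.Agent.Lib.CaseTh.ThomTrans

set_option autoImplicit false
open Cfsg

namespace Cfsg.Agent.S0522

/-- Transitivity Theorem (odd-order setting). Let X be a finite group of odd order in which the normalizer of every
nontrivial p-subgroup is solvable, P a Sylow p-subgroup, and B an abelian subgroup of P, normalized by P, with
C_P(B) = B and containing an elementary abelian subgroup of order p^3. Then for every prime q ≠ p, any two q-subgroups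
that are maximal among the q-subgroups normalized by B are conjugate by an element of the centralizer of B. -/
theorem result {X : Type*} [Group X] [Finite X] (hX : Odd (Nat.card X)) (p : ℕ)
    [Fact p.Prime] (hloc : ∀ T : Subgroup X, IsPGroup p T → T ≠ ⊥ → Group.IsSolvable (Subgroup.normalizer (T : Set X)))
    (P : Sylow p X) (B : Subgroup X) (hBP : B ≤ (P : Subgroup X))
    (hBn : ∀ x ∈ (P : Subgroup X), ∀ b ∈ B, x * b * x⁻¹ ∈ B) (hBa : IsMulCommutative B)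
    (hBc : (P : Subgroup X) ⊓ Subgroup.centralizer (B : Set X) = B)
    (hB3 : ∃ E : Subgroup X, E ≤ B ∧ (∀ e ∈ E, e ^ p = 1) ∧ p ^ 3 ≤ Nat.card E)
    (q : ℕ) [Fact q.Prime] (hqp : q ≠ p) (Q₁ Q₂ : Subgroup X)
    (h₁ : IsPGroup q Q₁ ∧ B ≤ Subgroup.normalizer (Q₁ : Set X) ∧
      ∀ R : Subgroup X, IsPGroup q R → B ≤ Subgroup.normalizer (R : Set X) → Q₁ ≤ R → R = Q₁)
    (h₂ : IsPGroup q Q₂ ∧ B ≤ Subgroup.normalizer (Q₂ : Set X) ∧
      ∀ R : Subgroup X, IsPGroup q R → B ≤ Subgroup.normalizer (R : Set X) → Q₂ ≤ R → R = Q₂) :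
    ∃ c ∈ Subgroup.centralizer (B : Set X), Q₂ = Q₁.map (MulAut.conj c).toMonoidHom := by
  have hPB : (P : Subgroup X) ≤ Subgroup.normalizer (B : Set X) := Subgroup.le_normalizer_iff.mpr hBn
  have hBc' : ∀ a ∈ B, ∀ b ∈ B, a * b = b * a := by
    intro a ha b hb
    have h := mul_comm' (⟨a, ha⟩ : B) ⟨b, hb⟩
    exact congrArg Subtype.val h
  obtain ⟨E₀, hE₀B, hE₀, hE₀3⟩ := hB3
  obtain ⟨E, hEB, hEa, hPE, hEc⟩ := Cfsg.Agent.Lib.CaseTh.ThomTrans.exists_E (P : Subgroup X) B P.2 hBP hPB hBc'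
    E₀ hE₀B hE₀ hE₀3
  obtain ⟨c, hc, hcQ⟩ := Cfsg.Agent.Lib.CaseTh.ThomTrans.transitivity_aux hX hqp hloc P B hBP hPB hBc' hBc
    E hEB hEa hEc.ge
    (fun e he he1 => Cfsg.Agent.Lib.CaseTh.ThomTrans.index_bound (P : Subgroup X) E P.2 hPE hEc he he1)
    _ Q₁ Q₂ rfl h₁.1 h₁.2.1 h₁.2.2 h₂.1 h₂.2.1 h₂.2.2
  exact ⟨c, hc, hcQ.symm⟩

end Cfsg.Agent.S0522
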