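import Cfsg.Statements.S0525
import Cfsg.Agent.Lib.SolvStruct.Super

set_option autoImplicit false
open Cfsg

namespace Cfsg.Agent.S0525

/-- A direct product of two finite supersolvable groups is supersolvable. -/
theorem result {G H : Type*} [Group G] [Group H] [Finite G] [Finite H] (hG : Cfsg.IsSupersolvable G) (hH : Cfsg.IsSupersolvable H) : Cfsg.IsSupersolvable (G × H) := by
  exact Cfsg.Agent.Lib.SolvStruct.Super.isSupersolvable_prod hG hH

end Cfsg.Agent.S0525
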