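import Cfsg.Statements.S0529
import Cfsg.Agent.Lib.SolvStruct.Super3

set_option autoImplicit false
open Cfsg

namespace Cfsg.Agent.S0529

open Subgroup in
theorem aux {G : Type*} [Group G] [Finite G] (hG : Cfsg.IsSupersolvable G) : ∃ (n : ℕ) (H : Fin (n + 1) → Subgroup G), H 0 = ⊥ ∧ H (Fin.last n) = ⊤ ∧ (∀ i, (H i).Normal) ∧ (∀ i : Fin n, H i.castSucc ≤ H i.succ ∧ ((H i.castSucc).relIndex (H i.succ)).Prime) ∧ ∀ i j : Fin n, i ≤ j → (H j.castSucc).relIndex (H j.succ) ≤ (H i.castSucc).relIndex (H i.succ) := by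
  induction hn : Nat.card G using Nat.strong_induction_on generalizing G with
  | _ n ih =>
  subst hn
  rcases subsingleton_or_nontrivial G with hsub | hnt
  · refine ⟨0, fun _ => ⊥, rfl, Subsingleton.elim _ _, fun _ => inferInstance, fun i => i.elim0, fun i => i.elim0⟩
  · -- the largest prime
    have hne : (Nat.card G).primeFactors.Nonempty := by
      rw [Nat.nonempty_primeFactors]
      exact Finite.one_lt_card_iff_nontrivial.mpr hnt
    set p := (Nat.card G).primeFactors.max' hne with hp
    have hpmem : p ∈ (Nat.card G).primeFactors := Finset.max'_mem _ _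
    have hpp : p.Prime := Nat.prime_of_mem_primeFactors hpmem
    have hpG : p ∣ Nat.card G := Nat.dvd_of_mem_primeFactors hpmem
    have hmax : ∀ q : ℕ, q.Prime → q ∣ Nat.card G → q ≤ p := fun q hq hqd =>
      Finset.le_max' _ _ (Nat.mem_primeFactors.mpr ⟨hq, hqd, Nat.card_pos.ne'⟩)
    obtain ⟨N, hN, hNc⟩ := Cfsg.Agent.Lib.SolvStruct.Super3.exists_normal_card_eq_largest hG p hpp hpG hmax
    have hcard := Cfsg.Agent.Lib.SolvStruct.Super3.card_quotient_mul N
    have hlt : Nat.card (G ⧸ N) < Nat.card G := by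
      rw [← hcard, hNc]
      exact lt_mul_of_one_lt_left Nat.card_pos hpp.one_lt
    obtain ⟨n, H', hH0, hHl, hHn, hHs, hHm⟩ := ih _ hlt (Cfsg.Agent.Lib.SolvStruct.Super.isSupersolvable_of_surjective (QuotientGroup.mk' N)
      (QuotientGroup.mk'_surjective _) hG) rfl
    let f := QuotientGroup.mk' N
    have hf : Function.Surjective f := QuotientGroup.mk'_surjective _
    have hri : ∀ A B : Subgroup (G ⧸ N), (A.comap f).relIndex (B.comap f) = A.relIndex B := by
      intro A B
      rw [Subgroup.relIndex_comap, Subgroup.map_comap_eq_self_of_surjective hf]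
    have hstep : ∀ i : Fin n, (H' i.castSucc).relIndex (H' i.succ) ≤ p := by
      intro i
      have hq := (hHs i).2
      apply hmax _ hq
      have h1 : (H' i.castSucc).relIndex (H' i.succ) ∣ Nat.card (H' i.succ) := Subgroup.relIndex_dvd_card _ _
      have h2 : Nat.card (H' i.succ) ∣ Nat.card (G ⧸ N) := Subgroup.card_subgroup_dvd_card _
      have h3 : Nat.card (G ⧸ N) ∣ Nat.card G := ⟨Nat.card N, by rw [← hcard, mul_comm]⟩
      exact h1.trans (h2.trans h3)
    refine ⟨n + 1, Fin.cons ⊥ (fun i => (H' i).comap f), rfl, ?_, ?_, ?_, ?_⟩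
    · rw [← Fin.succ_last, Fin.cons_succ, hHl, Subgroup.comap_top]
    · intro i
      refine Fin.cases ?_ (fun j => ?_) i
      · rw [Fin.cons_zero]; exact inferInstance
      · rw [Fin.cons_succ]; haveI := hHn j; exact Subgroup.Normal.comap ‹_› _
    · intro i
      refine Fin.cases ?_ (fun j => ?_) i
      · rw [Fin.castSucc_zero, Fin.cons_zero, Fin.cons_succ, hH0]
        constructor
        · exact bot_le
        · rw [MonoidHom.comap_bot, QuotientGroup.ker_mk', Subgroup.relIndex_bot_left, hNc]
          exact hpp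
      · rw [← Fin.succ_castSucc, Fin.cons_succ, Fin.cons_succ, hri]
        exact ⟨Subgroup.comap_mono (hHs j).1, (hHs j).2⟩
    · intro i j hij
      have h0 : ((Fin.cons ⊥ (fun i => (H' i).comap f) : Fin (n + 2) → Subgroup G) (0 : Fin (n+1)).castSucc).relIndex ((Fin.cons ⊥ (fun i => (H' i).comap f) : Fin (n + 2) → Subgroup G) (0 : Fin (n+1)).succ) = p := by
        rw [Fin.castSucc_zero, Fin.cons_zero, Fin.cons_succ, hH0, MonoidHom.comap_bot, QuotientGroup.ker_mk', Subgroup.relIndex_bot_left, hNc]
      have hs : ∀ k : Fin n, ((Fin.cons ⊥ (fun i => (H' i).comap f) : Fin (n + 2) → Subgroup G) (k.succ : Fin (n+1)).castSucc).relIndex ((Fin.cons ⊥ (fun i => (H' i).comap f) : Fin (n + 2) → Subgroup G) (k.succ : Fin (n+1)).succ) = (H' k.castSucc).relIndex (H' k.succ) := by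
        intro k
        rw [← Fin.succ_castSucc, Fin.cons_succ, Fin.cons_succ, hri]
      revert hij
      refine Fin.cases ?_ (fun i' => ?_) i <;> refine Fin.cases ?_ (fun j' => ?_) j <;> intro hij
      · exact le_of_eq rfl
      · rw [h0, hs]; exact hstep j'
      · exact absurd hij (by simp)
      · rw [hs, hs]
        exact hHm i' j' (by simpa using hij)

/-- A finite supersolvable group has a chain of normal subgroups, from the trivial subgroup to the whole group, in which every step has prime index and the primes occurring are non-increasing as one goes up the chain. -/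
theorem result {G : Type*} [Group G] [Finite G] (hG : Cfsg.IsSupersolvable G) : ∃ (n : ℕ) (H : Fin (n + 1) → Subgroup G), H 0 = ⊥ ∧ H (Fin.last n) = ⊤ ∧ (∀ i, (H i).Normal) ∧ (∀ i : Fin n, H i.castSucc ≤ H i.succ ∧ ((H i.castSucc).relIndex (H i.succ)).Prime) ∧ ∀ i j : Fin n, i ≤ j → (H j.castSucc).relIndex (H j.succ) ≤ (H i.castSucc).relIndex (H i.succ) := by
  exact aux hG

end Cfsg.Agent.S0529
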