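import Cfsg.Statements.S0534
import Cfsg.Agent.Lib.SolvStruct.Super3
import Cfsg.Agent.Lib.Solvable.Hall

set_option autoImplicit false
open Cfsg

namespace Cfsg.Agent.S0534

/-- Let G be a finite solvable group and A a finite abelian group such that every prime dividing the order of A divides the order of G and, for each prime p dividing the order of G, the exponent of p in the order of A is one less than its exponent in the order of G. Then G × A has a subgroup of every order dividing its order. -/
theorem result {G A : Type*} [Group G] [CommGroup A] [Finite G] [Finite A] [Group.IsSolvable G] (hA : ∀ p : ℕ, p.Prime → p ∣ Nat.card A → p ∣ Nat.card G) (hexp : ∀ p : ℕ, p.Prime → p ∣ Nat.card G → (Nat.card A).factorization p + 1 = (Nat.card G).factorization p) : Cfsg.HasSubgroupOfEveryOrder (G × A) := by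
  classical
  intro d hd
  rw [Nat.card_prod] at hd
  set m := Nat.card G with hm
  set a := Nat.card A with ha
  have hm0 : m ≠ 0 := Nat.card_pos.ne'
  have ha0 : a ≠ 0 := Nat.card_pos.ne'
  have hd0 : d ≠ 0 := fun h => by
    rw [h, zero_dvd_iff] at hd
    exact (mul_ne_zero hm0 ha0) hd
  let f := m.factorization
  let P : ℕ → Prop := fun p => f p ≤ d.factorization p
  let m₂ := (f.filter P).prod (· ^ ·)
  let m₁ := (f.filter (fun p => ¬ P p)).prod (· ^ ·)
  have hprod : m₂ * m₁ = m := by
    have h := Finsupp.prod_filter_mul_prod_filter_not (g := fun (x : ℕ) (y : ℕ) => x ^ y) P f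
    rw [show f.prod (fun x y => x ^ y) = m from Nat.prod_factorization_pow_eq_self hm0] at h
    exact h
  have hsupp : ∀ p ∈ f.support, p.Prime := fun p hp => Nat.prime_of_mem_primeFactors hp
  have hf2 : m₂.factorization = f.filter P := Nat.prod_pow_factorization_eq_self (fun p hp => by
    rw [Finsupp.support_filter, Finset.mem_filter] at hp
    exact hsupp p hp.1)
  have hf1 : m₁.factorization = f.filter (fun p => ¬ P p) := Nat.prod_pow_factorization_eq_self (fun p hp => by
    rw [Finsupp.support_filter, Finset.mem_filter] at hp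
    exact hsupp p hp.1)
  have hm₂0 : m₂ ≠ 0 := fun h => hm0 (by rw [← hprod, h, zero_mul])
  have hm₁0 : m₁ ≠ 0 := fun h => hm0 (by rw [← hprod, h, mul_zero])
  have hcop : m₂.Coprime m₁ := by
    apply Nat.coprime_of_dvd
    intro k hk hk2 hk1
    have h2 : m₂.factorization k ≠ 0 := (Nat.Prime.factorization_pos_of_dvd hk hm₂0 hk2).ne'
    have h1 : m₁.factorization k ≠ 0 := (Nat.Prime.factorization_pos_of_dvd hk hm₁0 hk1).ne'
    rw [hf2] at h2
    rw [hf1] at h1
    by_cases hPk : P k
    · apply h1
      simp [hPk]
    · apply h2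
      simp [hPk]
  have hm₂d : m₂ ∣ d := by
    rw [← Nat.factorization_prime_le_iff_dvd hm₂0 hd0]
    intro p hp
    rw [hf2, Finsupp.filter_apply]
    split_ifs with h
    · exact h
    · exact Nat.zero_le _
  obtain ⟨e, he⟩ := hm₂d
  have he0 : e ≠ 0 := fun h => hd0 (by rw [he, h, mul_zero])
  have hea : e ∣ a := by
    rw [← Nat.factorization_prime_le_iff_dvd he0 ha0]
    intro p hp
    have h1 : d.factorization p = m₂.factorization p + e.factorization p := by
      rw [he, Nat.factorization_mul hm₂0 he0]; rfl
    have h2 : d.factorization p ≤ f p + a.factorization p := by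
      have := (Nat.factorization_le_iff_dvd hd0 (mul_ne_zero hm0 ha0)).mpr hd p
      rwa [Nat.factorization_mul hm0 ha0] at this
    by_cases hP : p ∣ m
    · have h3 := hexp p hp hP
      by_cases hPp : P p
      · have h4 : m₂.factorization p = f p := by
          rw [hf2, Finsupp.filter_apply, if_pos hPp]
        omega
      · have h4 : m₂.factorization p = 0 := by
          rw [hf2, Finsupp.filter_apply, if_neg hPp]
        have h5 : d.factorization p < f p := not_le.mp hPp
        have h6 : f p = a.factorization p + 1 := h3.symm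
        omega
    · have h3 : f p = 0 := Nat.factorization_eq_zero_of_not_dvd hP
      have h4 : a.factorization p = 0 := Nat.factorization_eq_zero_of_not_dvd (fun h => hP (hA p hp h))
      omega
  obtain ⟨H, hH⟩ := Cfsg.Agent.Lib.Solvable.Hall.exists_card_eq (G := G) m₂ m₁ hprod.symm hcop
  obtain ⟨B, hB⟩ := Cfsg.Agent.Lib.SolvStruct.Super2.hasSubgroupOfEveryOrder
    (Cfsg.Agent.Lib.SolvStruct.Super3.isSupersolvable_of_commGroup (A := A)) e hea
  refine ⟨H.prod B, ?_⟩
  rw [Nat.card_congr (Subgroup.prodEquiv H B).toEquiv, Nat.card_prod, hH, hB, he]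

end Cfsg.Agent.S0534
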