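import Cfsg.Statements.S0535
import Cfsg.Agent.Lib.HallConverse.Main
import Cfsg.Agent.Lib.Char.Burnside

set_option autoImplicit false
open Cfsg

namespace Cfsg.Agent.S0535

open Subgroup

theorem aux {G : Type*} [Group G] [Finite G] (h : ∀ H : Subgroup G, H ≠ ⊥ → ∀ p : ℕ, p.Prime → p ∣ Nat.card H → ∃ K : Subgroup H, K ≠ ⊤ ∧ ∃ k : ℕ, K.index = p ^ k) : Cfsg.Agent.Lib.HallConverse.Main.HasComplements G := by
  intro p hp
  have hwf : WellFoundedLT (Subgroup G) := inferInstance
  obtain ⟨H, ⟨k, hk⟩, hmin⟩ := hwf.wf.has_min {H : Subgroup G | ∃ k : ℕ, H.index = p ^ k} ⟨⊤, 0, by simp⟩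
  have hnd : ¬ p ∣ Nat.card H := by
    intro hd
    have hne : H ≠ ⊥ := by
      rintro rfl
      rw [Subgroup.card_bot] at hd
      exact hp.one_lt.ne' (Nat.dvd_one.mp hd)
    obtain ⟨K, hK, j, hj⟩ := h H hne p hp hd
    set K' : Subgroup G := K.map H.subtype with hK'
    have hle : K' ≤ H := by
      rintro _ ⟨x, -, rfl⟩
      exact x.2
    have hi : K'.index = p ^ (j + k) := by
      have h0 : K'.subgroupOf H = K := Subgroup.comap_map_eq_self_of_injective H.subtype_injective K
      rw [← Subgroup.relIndex_mul_index hle, hk, Subgroup.relIndex, h0, hj, pow_add]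
    apply hmin K' ⟨j + k, hi⟩
    refine lt_of_le_of_ne hle ?_
    intro heq
    apply hK
    rw [eq_top_iff]
    intro x _
    have hx : (x : G) ∈ K' := by rw [heq]; exact x.2
    obtain ⟨y, hy, hyx⟩ := hx
    have : y = x := Subtype.ext hyx
    rwa [← this]
  refine ⟨H, ?_⟩
  have hcard := H.card_mul_index
  rw [hk] at hcard ⊢
  congr 1
  rw [← hcard, Nat.factorization_mul Nat.card_pos.ne' (pow_pos hp.pos _).ne', Finsupp.add_apply,
    Nat.factorization_eq_zero_of_not_dvd hnd, Nat.factorization_pow, Finsupp.smul_apply,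
    hp.factorization_self]
  simp

/-- Suppose that for every nontrivial subgroup H of a finite group and every prime p dividing the order of H there is a proper subgroup of H whose index in H is a power of p. Then the group is solvable. -/
theorem result {G : Type*} [Group G] [Finite G] (h : ∀ H : Subgroup G, H ≠ ⊥ → ∀ p : ℕ, p.Prime → p ∣ Nat.card H → ∃ K : Subgroup H, K ≠ ⊤ ∧ ∃ k : ℕ, K.index = p ^ k) : Group.IsSolvable G := by
  exact Cfsg.Agent.Lib.HallConverse.Main.main (fun G _ _ p q a b hp hq _ hcard => Cfsg.Agent.Lib.Char.Burnside.isSolvable_of_card_eq p q a b hp hq hcard) _ G rfl (aux h)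

end Cfsg.Agent.S0535
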