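import Cfsg.Statements.S0537
import Cfsg.Agent.Lib.SolvStruct.Schmidt
import Cfsg.Agent.Lib.SolvStruct.Basic

set_option autoImplicit false
open Cfsg

namespace Cfsg.Agent.S0537

open Subgroup Cfsg.Agent.Lib.SolvStruct.Schmidt

theorem nilpotent_of_comm {G : Type*} [Group G] (h : IsMulCommutative G) : Group.IsNilpotent G := by
  letI : CommGroup G := { (inferInstance : Group G) with mul_comm := h.is_comm.comm }
  infer_instance

/-- Coprime action: an automorphism of order prime to `q` fixing the elements of order `q` of an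
abelian group fixes everything. -/
theorem conj_fix {G : Type*} [Group G] [Finite G] (q : ℕ) [hq : Fact q.Prime] (Q : Subgroup G)
    (hQn : Q.Normal) (hQc : ∀ a ∈ Q, ∀ b ∈ Q, a * b = b * a) (σ : G)
    (hσ : (orderOf σ).Coprime q)
    (hfix : ∀ y ∈ Q, y ^ q = 1 → σ * y * σ⁻¹ = y) :
    ∀ (k : ℕ) (y : G), y ∈ Q → y ^ (q ^ k) = 1 → σ * y * σ⁻¹ = y := by
  intro k
  induction k with
  | zero =>
    intro y _ hy
    rw [pow_zero, pow_one] at hy
    rw [hy]; group
  | succ k ih =>
    intro y hyQ hy
    have h1 : (y ^ q) ^ (q ^ k) = 1 := by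
      rw [← pow_mul, ← pow_succ']
      exact hy
    have h2 := ih (y ^ q) (Q.pow_mem hyQ q) h1
    set w := σ * y * σ⁻¹ with hw
    have hwQ : w ∈ Q := hQn.conj_mem y hyQ σ
    have hwq : w ^ q = y ^ q := by
      rw [hw, conj_pow, h2]
    set z := w * y⁻¹ with hz
    have hzQ : z ∈ Q := Q.mul_mem hwQ (Q.inv_mem hyQ)
    have hzq : z ^ q = 1 := by
      have hc : Commute w y⁻¹ := hQc w hwQ _ (Q.inv_mem hyQ)
      rw [hz, hc.mul_pow, hwq, inv_pow, mul_inv_cancel]
    have hzfix := hfix z hzQ hzq
    have hpow : ∀ n : ℕ, σ ^ n * y * (σ ^ n)⁻¹ = z ^ n * y := by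
      intro n
      induction n with
      | zero => simp
      | succ n ihn =>
        have h3 : σ ^ (n + 1) * y * (σ ^ (n + 1))⁻¹ = σ * (σ ^ n * y * (σ ^ n)⁻¹) * σ⁻¹ := by
          rw [pow_succ']; group
        rw [h3, ihn]
        have h4 : σ * (z ^ n * y) * σ⁻¹ = (σ * z * σ⁻¹) ^ n * (σ * y * σ⁻¹) := by
          rw [conj_pow]; group
        rw [h4, hzfix, ← hw, pow_succ]
        have : w = z * y := by rw [hz]; group
        rw [this]
        group
    have h5 := hpow (orderOf σ)
    rw [pow_orderOf_eq_one] at h5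
    have h6 : z ^ orderOf σ = 1 := by
      have : y = z ^ orderOf σ * y := by
        rw [← h5]; group
      exact (mul_eq_right.mp this.symm)
    have h7 : orderOf z ∣ orderOf σ := orderOf_dvd_of_pow_eq_one h6
    have h8 : orderOf z ∣ q := orderOf_dvd_of_pow_eq_one hzq
    have h9 : orderOf z = 1 := Nat.eq_one_of_dvd_coprimes hσ h7 h8
    have h10 : z = 1 := orderOf_eq_one_iff.mp h9
    have : w = y := by
      rw [hz] at h10
      exact mul_inv_eq_one.mp h10
    exact this

theorem aux {G : Type*} [Group G] [Finite G] (hna : ¬ IsMulCommutative G) (h : ∀ H : Subgroup G, H ≠ ⊤ → IsMulCommutative H) : (∃ p : ℕ, p.Prime ∧ IsPGroup p G) ∨ ∃ p q : ℕ, p.Prime ∧ q.Prime ∧ p ≠ q ∧ ∃ (P : Sylow p G) (Q : Sylow q G), IsCyclic P ∧ (Q : Subgroup G).Normal ∧ Cfsg.IsElementaryAbelian q (Q : Subgroup G) ∧ (P : Subgroup G) ⊔ Q = ⊤ := by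
  classical
  have hcommsub : ∀ H : Subgroup G, H ≠ ⊤ → ∀ a ∈ H, ∀ b ∈ H, a * b = b * a := by
    intro H hH a ha b hb
    have := (h H hH).is_comm.comm ⟨a, ha⟩ ⟨b, hb⟩
    exact congrArg Subtype.val this
  by_cases hnil : Group.IsNilpotent G
  · left
    have t := (Group.isNilpotent_of_finite_tfae (G := G)).out 0 3
    have hn := t.mp hnil
    by_contra hcon
    push Not at hcon
    apply hna
    -- the Sylow subgroups are central
    have hcent : center G = ⊤ := by
      apply Cfsg.Agent.Lib.Core.Basic.eq_top_of_forall_sylow_le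
      intro p hp
      obtain ⟨P⟩ : Nonempty (Sylow p G) := inferInstance
      refine ⟨P, ?_⟩
      intro x hx
      rw [Subgroup.mem_center_iff]
      intro g
      have hPne : (P : Subgroup G) ≠ ⊤ := by
        intro hPt
        apply hcon p hp.out
        have := P.isPGroup'
        rw [hPt] at this
        exact (IsPGroup.of_equiv this Subgroup.topEquiv)
      have : g ∈ Subgroup.centralizer ({x} : Set G) := by
        have htop : Subgroup.centralizer ({x} : Set G) = ⊤ := by
          apply Cfsg.Agent.Lib.Core.Basic.eq_top_of_forall_sylow_le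
          intro ℓ hℓ
          by_cases hℓp : ℓ = p
          · subst hℓp
            refine ⟨P, ?_⟩
            intro y hy
            rw [Subgroup.mem_centralizer_singleton_iff]
            exact hcommsub _ hPne y hy x hx
          · obtain ⟨L⟩ : Nonempty (Sylow ℓ G) := inferInstance
            refine ⟨L, ?_⟩
            intro y hy
            rw [Subgroup.mem_centralizer_singleton_iff]
            have hdis : Disjoint (L : Subgroup G) (P : Subgroup G) :=
              IsPGroup.disjoint_of_ne ℓ p hℓp _ _ L.isPGroup' P.isPGroup'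
            exact Subgroup.commute_of_normal_of_disjoint _ _ (hn ℓ hℓ L) (hn p hp P) hdis y x hy hx
        rw [htop]; trivial
      exact Subgroup.mem_centralizer_singleton_iff.mp this
    refine ⟨⟨fun a b => ?_⟩⟩
    have ha : a ∈ center G := by rw [hcent]; trivial
    exact (Subgroup.mem_center_iff.mp ha b).symm
  · right
    have hmin : Cfsg.IsMinimalNonNilpotent G := ⟨hnil, fun H hH => nilpotent_of_comm (h H hH)⟩
    obtain ⟨p, q, hp, hq, hpq, P, Q, hPc, hQn, hsup⟩ := schmidt hmin
    haveI : Fact p.Prime := ⟨hp⟩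
    haveI : Fact q.Prime := ⟨hq⟩
    have hQne : (Q : Subgroup G) ≠ ⊤ := by
      intro hQt
      have := Q.isPGroup'
      rw [hQt] at this
      exact hnil (IsPGroup.of_equiv this Subgroup.topEquiv).isNilpotent
    have hPne : (P : Subgroup G) ≠ ⊤ := by
      intro hPt
      have := P.isPGroup'
      rw [hPt] at this
      exact hnil (IsPGroup.of_equiv this Subgroup.topEquiv).isNilpotent
    have hQc := hcommsub _ hQne
    have hPc' := hcommsub _ hPne
    refine ⟨p, q, hp, hq, hpq, P, Q, hPc, hQn, ?_, hsup⟩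
    refine ⟨h _ hQne, ?_⟩
    -- the elements of order dividing `q`
    let Ω : Subgroup G :=
      { carrier := {x | x ∈ (Q : Subgroup G) ∧ x ^ q = 1}
        one_mem' := ⟨one_mem _, one_pow _⟩
        mul_mem' := fun {a b} ha hb => ⟨mul_mem ha.1 hb.1, by
          have hc : Commute a b := hQc a ha.1 b hb.1
          rw [hc.mul_pow, ha.2, hb.2, one_mul]⟩
        inv_mem' := fun {a} ha => ⟨inv_mem ha.1, by rw [inv_pow, ha.2, inv_one]⟩ }
    have hΩn : Ω.Normal := by
      constructor
      intro x hx g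
      refine ⟨hQn.conj_mem x hx.1 g, ?_⟩
      rw [conj_pow, hx.2]
      group
    have hΩQ : Ω ≤ (Q : Subgroup G) := fun x hx => hx.1
    by_cases hT : (P : Subgroup G) ⊔ Ω = ⊤
    · -- `Q = Ω`
      haveI := hΩn
      haveI := hQn
      have hc1 := Cfsg.Agent.Lib.Solvable.Hall.card_sup_mul_card_inf (P : Subgroup G) Ω
      have hc2 := Cfsg.Agent.Lib.Solvable.Hall.card_sup_mul_card_inf (P : Subgroup G) (Q : Subgroup G)
      have hdis : Disjoint (P : Subgroup G) (Q : Subgroup G) :=
        IsPGroup.disjoint_of_ne p q hpq _ _ P.isPGroup' Q.isPGroup'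
      have hdis' : Disjoint (P : Subgroup G) Ω := hdis.mono_right hΩQ
      rw [hdis.eq_bot, hsup, Subgroup.card_bot, mul_one] at hc2
      rw [hdis'.eq_bot, hT, Subgroup.card_bot, mul_one, hc2] at hc1
      have hcard : Nat.card Ω = Nat.card (Q : Subgroup G) :=
        (Nat.eq_of_mul_eq_mul_left Nat.card_pos hc1).symm
      have heq : Ω = (Q : Subgroup G) := Subgroup.eq_of_le_of_card_ge hΩQ hcard.ge
      intro a ha
      rw [← heq] at ha
      exact ha.2
    · -- otherwise `G` would be abelian
      exfalso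
      apply hna
      have hTc := hcommsub _ hT
      have hfix : ∀ σ ∈ (P : Subgroup G), ∀ y ∈ (Q : Subgroup G), σ * y * σ⁻¹ = y := by
        intro σ hσ y hy
        have hco : (orderOf σ).Coprime q := by
          obtain ⟨k, hk⟩ := orderOf_eq_pow_of_mem P.isPGroup' hσ
          rw [hk]
          exact Nat.Coprime.pow_left k ((Nat.coprime_primes hp hq).mpr hpq)
        obtain ⟨k, hk⟩ := orderOf_eq_pow_of_mem Q.isPGroup' hy
        apply conj_fix q (Q : Subgroup G) hQn hQc σ hco _ k y hy (by rw [← hk, pow_orderOf_eq_one])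
        intro z hzQ hzq
        have hzΩ : z ∈ Ω := ⟨hzQ, hzq⟩
        have hc := hTc σ (Subgroup.mem_sup_left hσ) z (Subgroup.mem_sup_right hzΩ)
        rw [hc]; group
      have hcomm : ∀ a ∈ (P : Subgroup G), ∀ b ∈ (Q : Subgroup G), a * b = b * a := by
        intro a ha b hb
        have := hfix a ha b hb
        calc a * b = (a * b * a⁻¹) * a := by group
          _ = b * a := by rw [this]
      haveI := hQn
      refine ⟨⟨fun x y => ?_⟩⟩
      obtain ⟨a, ha, b, hb, rfl⟩ := Cfsg.Agent.Lib.SolvStruct.Basic.forall_mul_of_sup_eq_top _ _ hsup x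
      obtain ⟨a', ha', b', hb', rfl⟩ := Cfsg.Agent.Lib.SolvStruct.Basic.forall_mul_of_sup_eq_top _ _ hsup y
      calc a * b * (a' * b') = a * (b * a') * b' := by group
        _ = a * (a' * b) * b' := by rw [hcomm a' ha' b hb]
        _ = (a * a') * (b * b') := by group
        _ = (a' * a) * (b' * b) := by rw [hPc' a ha a' ha', hQc b hb b' hb']
        _ = a' * (a * b') * b := by group
        _ = a' * (b' * a) * b := by rw [hcomm a ha b' hb']
        _ = a' * b' * (a * b) := by group

/-- A finite non-abelian group in which every proper subgroup is abelian is either of prime-power order, or is generated by a cyclic Sylow p-subgroup and a normal Sylow q-subgroup that is elementary abelian, for distinct primes p and q. -/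
theorem result {G : Type*} [Group G] [Finite G] (hna : ¬ IsMulCommutative G) (h : ∀ H : Subgroup G, H ≠ ⊤ → IsMulCommutative H) : (∃ p : ℕ, p.Prime ∧ IsPGroup p G) ∨ ∃ p q : ℕ, p.Prime ∧ q.Prime ∧ p ≠ q ∧ ∃ (P : Sylow p G) (Q : Sylow q G), IsCyclic P ∧ (Q : Subgroup G).Normal ∧ Cfsg.IsElementaryAbelian q (Q : Subgroup G) ∧ (P : Subgroup G) ⊔ Q = ⊤ := by
  exact aux hna h

end Cfsg.Agent.S0537
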