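import Cfsg.Statements.S0540
import Cfsg.Agent.Lib.SolvStruct.Zip

set_option autoImplicit false
open Pointwise
open Cfsg

namespace Cfsg.Agent.S0540

open Subgroup Cfsg.Agent.Lib.Subnormal.Basic Cfsg.Agent.Lib.SolvStruct.Zip
open scoped Pointwise

theorem aux {G : Type*} [Group G] [Finite G] (A : Subgroup G) (U : Set (Subgroup G)) (hU : U.Nonempty) (S : Subgroup G → Set (Subgroup G)) (hS : ∀ V B : Subgroup G, B ∈ S V ↔ (∃ g : G, B = MulAut.conj g • A) ∧ B ≤ V ∧ (B.subgroupOf V).IsSubnormal) (h1 : ∀ V ∈ U, A ∈ S V) (h2 : ∀ V ∈ U, ∀ W ∈ U, ∀ B ∈ S W, B ≤ V → B ∈ S V) (h3 : ∀ V ∈ U, ∀ W ∈ U, ∃ X ∈ U, Subgroup.normalizer ((sSup (S V ∩ S W) : Subgroup G) : Set G) ≤ X) : ∃ M ∈ U, ∀ V ∈ U, V ≤ M := by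
  classical
  have hSsn : ∀ V B, B ∈ S V → SN B V := by
    intro V B hB
    obtain ⟨-, h4, h5⟩ := (hS V B).mp hB
    exact SN_of_isSubnormal_subgroupOf h4 h5
  have hSle : ∀ V B, B ∈ S V → B ≤ V := fun V B hB => ((hS V B).mp hB).2.1
  have hSconj : ∀ V, ∀ B ∈ S V, ∀ t ∈ V, MulAut.conj t • B ∈ S V := by
    intro V B hB t ht
    obtain ⟨⟨g, hg⟩, h4, h5⟩ := (hS V B).mp hB
    rw [hS]
    refine ⟨⟨t * g, ?_⟩, conj_le_of_mem ht h4, ?_⟩
    · rw [hg, map_mul, mul_smul]
    · apply isSubnormal_subgroupOf_of_SN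
      have h6 := (hSsn V B hB).conj t
      rwa [conj_eq_of_mem_normalizer (Subgroup.le_normalizer ht)] at h6
  have hwf : WellFoundedGT (Subgroup G) := inferInstance
  by_contra hcon
  push Not at hcon
  let PP : Set (Subgroup G × Subgroup G) :=
    {p | p.1 ∈ U ∧ (∀ x ∈ U, ¬ p.1 < x) ∧ p.2 ∈ U ∧ ¬ p.2 ≤ p.1}
  have hPP : PP.Nonempty := by
    obtain ⟨M₀, hM₀, hmax⟩ := hwf.wf.has_min U hU
    obtain ⟨V₀, hV₀, hne⟩ := hcon M₀ hM₀
    exact ⟨(M₀, V₀), hM₀, fun x hx => hmax x hx, hV₀, hne⟩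
  obtain ⟨⟨M, V⟩, ⟨hM, hMmax, hV, hVM⟩, hbest⟩ :=
    Set.exists_max_image PP (fun p => (S p.2 ∩ S p.1).ncard) (Set.toFinite _) hPP
  simp only at hM hMmax hV hVM
  set T := S V ∩ S M with hT
  set D : Subgroup G := sSup T with hD
  have hTle : ∀ W ∈ T, W ≤ D := fun W hW => le_sSup hW
  obtain ⟨X, hX, hNX⟩ := h3 V hV M hM
  have hNM : normalizer (D : Set G) ≤ M := by
    by_cases hsub : S M ⊆ S V
    · have hTM : T = S M := Set.inter_eq_right.mpr hsub
      have hMN : M ≤ normalizer (D : Set G) := by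
        intro t ht
        apply mem_normalizer_sSup
        intro W hW
        apply le_sSup
        rw [hTM] at hW ⊢
        exact hSconj M W hW t ht
      have hXM : X = M := by
        by_contra hne
        exact hMmax X hX (lt_of_le_of_ne (hMN.trans hNX) (Ne.symm hne))
      rw [← hXM]
      exact hNX
    · have hss : T ⊂ S M := by
        refine ⟨Set.inter_subset_right, ?_⟩
        intro hc
        apply hsub
        intro W hW
        exact (hc hW).1
      obtain ⟨B, hB, hBT, hBN⟩ := exists_normalizes (K := M) (fun W hW => hSsn M W hW)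
        (fun W hW t ht => hSconj M W hW t ht) hss
      by_contra hNMne
      have hXM : ¬ X ≤ M := fun h => hNMne (hNX.trans h)
      have hpair : (M, X) ∈ PP := ⟨hM, hMmax, hX, hXM⟩
      have hle := hbest _ hpair
      simp only at hle
      have hTss : T ⊂ S X ∩ S M := by
        refine ⟨?_, ?_⟩
        · intro W hW
          exact ⟨h2 X hX M hM W hW.2 ((hTle W hW).trans (Subgroup.le_normalizer.trans hNX)), hW.2⟩
        · intro hc
          apply hBT
          apply hc
          exact ⟨h2 X hX M hM B hB (hBN.trans hNX), hB⟩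
      have hlt := Set.ncard_lt_ncard hTss (Set.toFinite _)
      omega
  by_cases hsub : S V ⊆ S M
  · have hTV : T = S V := Set.inter_eq_left.mpr hsub
    apply hVM
    refine le_trans ?_ hNM
    intro t ht
    apply mem_normalizer_sSup
    intro W hW
    apply le_sSup
    rw [hTV] at hW ⊢
    exact hSconj V W hW t ht
  · have hss : T ⊂ S V := by
      refine ⟨Set.inter_subset_left, ?_⟩
      intro hc
      apply hsub
      intro W hW
      exact (hc hW).2
    obtain ⟨C, hC, hCT, hCN⟩ := exists_normalizes (K := V) (fun W hW => hSsn V W hW)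
      (fun W hW t ht => hSconj V W hW t ht) hss
    apply hCT
    exact ⟨hC, h2 M hM V hV C hC (hCN.trans hNM)⟩

/-- A uniqueness lemma of zipper type. Let A be a subgroup of a finite group G and U a nonempty family of subgroups. For V in U write S(V) for the set of conjugates of A that lie in V and are subnormal in V. Assume: A belongs to S(V) for every V in U; a member of some S(W) that lies in V belongs to S(V); and for all V, W in U the normalizer of the join of S(V) ∩ S(W) lies in some member of U. Then U has a greatest element. -/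
theorem result {G : Type*} [Group G] [Finite G] (A : Subgroup G) (U : Set (Subgroup G)) (hU : U.Nonempty) (S : Subgroup G → Set (Subgroup G)) (hS : ∀ V B : Subgroup G, B ∈ S V ↔ (∃ g : G, B = MulAut.conj g • A) ∧ B ≤ V ∧ (B.subgroupOf V).IsSubnormal) (h1 : ∀ V ∈ U, A ∈ S V) (h2 : ∀ V ∈ U, ∀ W ∈ U, ∀ B ∈ S W, B ≤ V → B ∈ S V) (h3 : ∀ V ∈ U, ∀ W ∈ U, ∃ X ∈ U, Subgroup.normalizer ((sSup (S V ∩ S W) : Subgroup G) : Set G) ≤ X) : ∃ M ∈ U, ∀ V ∈ U, V ≤ M := by
  exact aux A U hU S hS h1 h2 h3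

end Cfsg.Agent.S0540
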