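import Cfsg.Statements.S0541
import Cfsg.Agent.Lib.SolvStruct.Zip
import Cfsg.Agent.Lib.PReduced.SubnormalClosure

set_option autoImplicit false
open Pointwise
open Cfsg

namespace Cfsg.Agent.S0541

open Subgroup Cfsg.Agent.Lib.Subnormal.Basic Cfsg.Agent.Lib.SolvStruct.Zip
open scoped Pointwise

theorem aux {G : Type*} [Group G] [Finite G] (p : ℕ) [Fact p.Prime] (Z Y : Subgroup G) (h : ∀ g : G, IsPGroup p ↥(⨆ y ∈ Y, MulAut.conj (y * g) • Z)) : ∃ P : Sylow p G, Y ≤ Subgroup.normalizer ((⨆ g ∈ {g : G | MulAut.conj g • Z ≤ (P : Subgroup G)}, MulAut.conj g • Z : Subgroup G) : Set G) := by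
  classical
  let ZZ : Set (Subgroup G) := {W | ∃ g : G, W = MulAut.conj g • Z}
  let Good : Set (Set (Subgroup G)) :=
    {O | O ⊆ ZZ ∧ (∀ y ∈ Y, ∀ U ∈ O, MulAut.conj y • U ∈ O) ∧ IsPGroup p ↥(sSup O)}
  have hgood : Good.Nonempty := by
    refine ⟨∅, Set.empty_subset _, fun y _ U hU => absurd hU (Set.notMem_empty U), ?_⟩
    rw [sSup_empty]
    exact IsPGroup.of_bot
  have hwf : WellFoundedGT (Set (Subgroup G)) := inferInstance
  obtain ⟨O, ⟨hOZ, hOinv, hOp⟩, hmax⟩ := hwf.wf.has_min Good hgood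
  set J : Subgroup G := sSup O with hJ
  have hYN : Y ≤ normalizer (J : Set G) := by
    intro y hy
    apply mem_normalizer_sSup
    intro U hU
    exact le_sSup (hOinv y hy U hU)
  obtain ⟨P, hJP⟩ := hOp.exists_le_sylow
  haveI hPnil : Group.IsNilpotent (P : Subgroup G) := P.isPGroup'.isNilpotent
  have hsn : ∀ W : Subgroup G, W ≤ P → SN W P := by
    intro W hW
    exact SN_of_isSubnormal_subgroupOf hW
      (Cfsg.Agent.Lib.PReduced.SubnormalClosure.isSubnormal_of_isNilpotent _)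
  let 𝓢 : Set (Subgroup G) := {U | U ∈ ZZ ∧ U ≤ P}
  let 𝓢₀ : Set (Subgroup G) := {U | U ∈ 𝓢 ∧ U ≤ J}
  have hO𝓢₀ : O ⊆ 𝓢₀ := fun U hU => ⟨⟨hOZ hU, (le_sSup hU).trans hJP⟩, le_sSup hU⟩
  have hsup : sSup 𝓢₀ = J := by
    apply le_antisymm
    · exact sSup_le fun U hU => hU.2
    · exact sSup_le_sSup hO𝓢₀
  have hkey : 𝓢 ⊆ 𝓢₀ := by
    by_contra hsub
    have hss : 𝓢₀ ⊂ 𝓢 := ⟨fun U hU => hU.1, hsub⟩
    obtain ⟨X, hX, hX0, hXN⟩ := exists_normalizes (K := (P : Subgroup G))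
      (fun U hU => hsn U hU.2)
      (by
        rintro U ⟨⟨g, rfl⟩, hU⟩ t ht
        refine ⟨⟨t * g, ?_⟩, conj_le_of_mem ht hU⟩
        rw [map_mul, mul_smul]) hss
    rw [hsup] at hXN
    obtain ⟨⟨g, hg⟩, hXP⟩ := hX
    have hXJ : ¬ X ≤ J := fun hle => hX0 ⟨⟨⟨g, hg⟩, hXP⟩, hle⟩
    let TT : Set (Subgroup G) := {W | ∃ y ∈ Y, W = MulAut.conj y • X}
    have hTle : sSup TT ≤ ⨆ y ∈ Y, MulAut.conj (y * g) • Z := by
      apply sSup_le
      rintro W ⟨y, hy, rfl⟩
      rw [hg, ← mul_smul, ← map_mul]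
      exact le_iSup₂_of_le y hy le_rfl
    have hTp : IsPGroup p ↥(sSup TT) := (h g).to_le hTle
    have hTN : sSup TT ≤ normalizer (J : Set G) := by
      apply sSup_le
      rintro W ⟨y, hy, rfl⟩
      intro x hx
      rw [mem_conj] at hx
      have h1 := hXN hx
      have h2 := hYN hy
      have h3 : x = y * (y⁻¹ * x * y) * y⁻¹ := by group
      rw [h3]
      exact mul_mem (mul_mem h2 h1) (inv_mem h2)
    have hOgood : (O ∪ TT) ∈ Good := by
      refine ⟨?_, ?_, ?_⟩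
      · rintro U (hU | ⟨y, hy, rfl⟩)
        · exact hOZ hU
        · refine ⟨y * g, ?_⟩
          rw [hg, ← mul_smul, ← map_mul]
      · rintro y hy U (hU | ⟨y', hy', rfl⟩)
        · exact Or.inl (hOinv y hy U hU)
        · refine Or.inr ⟨y * y', Y.mul_mem hy hy', ?_⟩
          rw [map_mul, mul_smul]
      · rw [sSup_union, sup_comm]
        exact hTp.to_sup_of_normal_right' hOp hTN
    refine hmax _ hOgood ?_
    refine ⟨Set.subset_union_left, ?_⟩
    intro hc
    have hX1 : X ∈ O ∪ TT := Or.inr ⟨1, Y.one_mem, by simp⟩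
    exact hXJ (le_sSup (hc hX1))
  refine ⟨P, ?_⟩
  have hC : (⨆ g ∈ {g : G | MulAut.conj g • Z ≤ (P : Subgroup G)}, MulAut.conj g • Z : Subgroup G) = J := by
    apply le_antisymm
    · apply iSup₂_le
      intro g hg
      exact (hkey ⟨⟨g, rfl⟩, hg⟩).2
    · apply sSup_le
      intro U hU
      obtain ⟨g, rfl⟩ := hOZ hU
      have : MulAut.conj g • Z ≤ (P : Subgroup G) := (le_sSup hU).trans hJP
      exact le_iSup₂_of_le g this le_rfl
  rw [hC]
  exact hYN

/-- Let Z and Y be subgroups of a finite group G and p a prime. Suppose that for every g in G the subgroup generated by the conjugates of g Z g⁻¹ under Y is a p-group. Then there is a Sylow p-subgroup P of G such that Y normalizes the subgroup generated by all conjugates of Z contained in P. -/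
theorem result {G : Type*} [Group G] [Finite G] (p : ℕ) [Fact p.Prime] (Z Y : Subgroup G) (h : ∀ g : G, IsPGroup p ↥(⨆ y ∈ Y, MulAut.conj (y * g) • Z)) : ∃ P : Sylow p G, Y ≤ Subgroup.normalizer ((⨆ g ∈ {g : G | MulAut.conj g • Z ≤ (P : Subgroup G)}, MulAut.conj g • Z : Subgroup G) : Set G) := by
  exact aux p Z Y h

end Cfsg.Agent.S0541
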