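import Cfsg.Statements.S0542
import Cfsg.Agent.Lib.Solvable.Hall
import Cfsg.Agent.Lib.SolvStruct.Basic
import Mathlib.GroupTheory.IsSubnormal

set_option autoImplicit false
open Cfsg

namespace Cfsg.Agent.S0542

open Subgroup

theorem index_step {X : Type*} [Group X] [Finite X] (T N : Subgroup X) [hN : N.Normal] :
    (T.subgroupOf N).index ∣ T.index := by
  have h1 := T.card_mul_index
  have h2 := (T ⊔ N).card_mul_index
  have h3 := Cfsg.Agent.Lib.Solvable.Hall.card_sup_mul_card_inf T N
  have h4 := (T.subgroupOf N).card_mul_index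
  rw [Cfsg.Agent.Lib.SolvStruct.Basic.card_subgroupOf, inf_comm] at h4
  refine ⟨(T ⊔ N).index, ?_⟩
  set c := Nat.card ↥(T ⊓ N)
  set i := (T.subgroupOf N).index
  have hc : 0 < c := Nat.card_pos
  have hT : 0 < Nat.card T := Nat.card_pos
  have h5 : Nat.card ↥(T ⊔ N) = Nat.card T * i := by
    apply Nat.eq_of_mul_eq_mul_right hc
    rw [h3, ← h4]
    ring
  apply Nat.eq_of_mul_eq_mul_left hT
  rw [h1, ← h2, h5]
  ring

theorem relIndex_step {G : Type*} [Group G] [Finite G] (S H K : Subgroup G) (hle : H ≤ K)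
    (hN : (H.subgroupOf K).Normal) : S.relIndex H ∣ S.relIndex K := by
  have h1 := index_step (S.subgroupOf K) (H.subgroupOf K)
  have h2 : ((S.subgroupOf K).subgroupOf (H.subgroupOf K)).index = S.relIndex H := by
    let e : ↥(H.subgroupOf K) ≃* ↥H := Subgroup.subgroupOfEquivOfLe hle
    have h3 : (S.subgroupOf K).subgroupOf (H.subgroupOf K) = (S.subgroupOf H).comap e.toMonoidHom := by
      ext x
      rfl
    rw [h3, Subgroup.index_comap_of_surjective _ e.surjective]
    rfl
  rw [h2] at h1
  exact h1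

theorem aux {G : Type*} [Group G] [Finite G] (p : ℕ) [Fact p.Prime] (H : Subgroup G) (hH : H.IsSubnormal) (S : Sylow p G) : ¬ p ∣ (S : Subgroup G).relIndex H := by
  induction hH with
  | top =>
    rw [Subgroup.relIndex_top_right]
    exact S.not_dvd_index
  | step H K h_le hSubn hN ih =>
    exact fun h => ih (h.trans (relIndex_step _ _ _ h_le hN))

/-- A Sylow p-subgroup of a finite group meets every subnormal subgroup H in a Sylow p-subgroup of H. -/
theorem result {G : Type*} [Group G] [Finite G] (p : ℕ) [Fact p.Prime] (H : Subgroup G) (hH : H.IsSubnormal) (S : Sylow p G) : ∃ Q : Sylow p H, (Q : Subgroup H) = (S : Subgroup G).subgroupOf H := by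
  have hp : IsPGroup p ↥((S : Subgroup G).subgroupOf H) := S.isPGroup'.comap_subtype
  exact ⟨hp.toSylow (aux p H hH S), IsPGroup.toSylow_coe hp _⟩

end Cfsg.Agent.S0542
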