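import Cfsg.Statements.S0547
import Cfsg.Agent.Lib.Solvable.Basic
import Cfsg.Agent.Lib.Perm.Normal

set_option autoImplicit false
open Cfsg

namespace Cfsg.Agent.S0547

open MulAction in
theorem aux {G : Type*} [Group G] [Finite G] [Group.IsSolvable G] {Ω : Type*} [Nonempty Ω] [MulAction G Ω] [FaithfulSMul G Ω] (hprim : MulAction.IsPreprimitive G Ω) (M : Subgroup G) [hMn : M.Normal] (hM : M ≠ ⊥) (hmin : ∀ K : Subgroup G, K.Normal → K ≤ M → K = ⊥ ∨ K = M) : MulAction.IsPretransitive M Ω ∧ (∀ ω : Ω, MulAction.stabilizer M ω = ⊥) ∧ ∃ p d : ℕ, p.Prime ∧ 0 < d ∧ Nat.card Ω = p ^ d ∧ Nat.card M = p ^ d := by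
  haveI htr : IsPretransitive M Ω := Cfsg.Agent.Lib.Perm.Normal.isPretransitive_of_normal_of_ne_bot hprim M hM
  have hMmin : Cfsg.Agent.Lib.Solvable.Basic.IsMinNormal M := ⟨hMn, hM, fun K hK hle => hmin K hK hle⟩
  have hcomm := Cfsg.Agent.Lib.Solvable.Basic.isMinNormal_comm hMmin
  obtain ⟨p, hp, hexp⟩ := Cfsg.Agent.Lib.Solvable.Basic.isMinNormal_exponent hMmin
  have hstab : ∀ ω : Ω, stabilizer M ω = ⊥ := by
    intro ω
    rw [eq_bot_iff]
    intro x hx
    rw [Subgroup.mem_bot]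
    apply Subtype.ext
    apply FaithfulSMul.eq_of_smul_eq_smul (α := Ω)
    intro a
    obtain ⟨m, rfl⟩ := htr.exists_smul_eq ω a
    have hx' : (x : G) • ω = ω := hx
    have hc := hcomm _ x.2 _ m.2
    change (x : G) • (m : G) • ω = ((1 : M) : G) • (m : G) • ω
    rw [← mul_smul, hc, mul_smul, hx']
    simp
  refine ⟨htr, hstab, p, ?_⟩
  obtain ⟨ω⟩ := ‹Nonempty Ω›
  have hbij : Function.Bijective (fun m : M => m • ω) := by
    constructor
    · intro m n hmn
      have h1 : (n⁻¹ * m) • ω = ω := by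
        rw [mul_smul]
        have : m • ω = n • ω := hmn
        rw [this, inv_smul_smul]
      have h2 : n⁻¹ * m ∈ stabilizer M ω := h1
      rw [hstab, Subgroup.mem_bot] at h2
      exact (inv_mul_eq_one.mp h2).symm
    · intro a
      exact htr.exists_smul_eq ω a
  have hcard : Nat.card M = Nat.card Ω := Nat.card_congr (Equiv.ofBijective _ hbij)
  have hMp : IsPGroup p M := Cfsg.Agent.Lib.Solvable.Basic.isPGroup_of_pow_eq_one hexp
  haveI : Fact p.Prime := ⟨hp⟩
  obtain ⟨d, hd⟩ := IsPGroup.iff_card.mp hMp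
  refine ⟨d, hp, ?_, ?_, hd⟩
  · rcases Nat.eq_zero_or_pos d with rfl | h
    · rw [pow_zero] at hd
      exact absurd (Subgroup.card_eq_one.mp hd) hM
    · exact h
  · rw [← hcard, hd]

/-- Let a finite solvable group G act faithfully and primitively on a set, and let M be a minimal normal subgroup of G. Then M is transitive with trivial point stabilizers, and the number of points equals the order of M, which is a prime power p ^ d with d ≥ 1. -/
theorem result {G : Type*} [Group G] [Finite G] [Group.IsSolvable G] {Ω : Type*} [Nonempty Ω] [MulAction G Ω] [FaithfulSMul G Ω] (hprim : MulAction.IsPreprimitive G Ω) (M : Subgroup G) [M.Normal] (hM : M ≠ ⊥) (hmin : ∀ K : Subgroup G, K.Normal → K ≤ M → K = ⊥ ∨ K = M) : MulAction.IsPretransitive M Ω ∧ (∀ ω : Ω, MulAction.stabilizer M ω = ⊥) ∧ ∃ p d : ℕ, p.Prime ∧ 0 < d ∧ Nat.card Ω = p ^ d ∧ Nat.card M = p ^ d := by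
  exact aux hprim M hM hmin

end Cfsg.Agent.S0547
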