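import Cfsg.Statements.S0548
import Cfsg.Agent.S0547

set_option autoImplicit false
open Cfsg

namespace Cfsg.Agent.S0548

open MulAction in
theorem aux {G : Type*} [Group G] [Finite G] [Group.IsSolvable G] {Ω : Type*} [MulAction G Ω] [FaithfulSMul G Ω] (hprim : MulAction.IsPreprimitive G Ω) (M : Subgroup G) [hMn : M.Normal] (hM : M ≠ ⊥) (hmin : ∀ K : Subgroup G, K.Normal → K ≤ M → K = ⊥ ∨ K = M) (ω : Ω) : Subgroup.IsComplement' M (MulAction.stabilizer G ω) ∧ MulAction.stabilizer G ω ⊓ Subgroup.centralizer (M : Set G) = ⊥ ∧ ∀ K : Subgroup G, K ≤ M → MulAction.stabilizer G ω ≤ Subgroup.normalizer (K : Set G) → K = ⊥ ∨ K = M := by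
  haveI : Nonempty Ω := ⟨ω⟩
  obtain ⟨htr, hstab, -⟩ := Cfsg.Agent.S0547.result hprim M hM hmin
  have hMmin : Cfsg.Agent.Lib.Solvable.Basic.IsMinNormal M := ⟨hMn, hM, fun K hK hle => hmin K hK hle⟩
  have hcomm := Cfsg.Agent.Lib.Solvable.Basic.isMinNormal_comm hMmin
  have hfac : ∀ g : G, ∃ m ∈ M, ∃ h ∈ stabilizer G ω, g = m * h := by
    intro g
    obtain ⟨m, hm⟩ := htr.exists_smul_eq ω (g • ω)
    refine ⟨m, m.2, (m : G)⁻¹ * g, ?_, by group⟩
    have hm' : (m : G) • ω = g • ω := hm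
    change ((m : G)⁻¹ * g) • ω = ω
    rw [mul_smul, ← hm', inv_smul_smul]
  refine ⟨?_, ?_, ?_⟩
  · apply Subgroup.isComplement'_of_disjoint_and_mul_eq_univ
    · rw [Subgroup.disjoint_def]
      intro x hxM hxs
      have h1 : (⟨x, hxM⟩ : M) ∈ stabilizer M ω := hxs
      rw [hstab, Subgroup.mem_bot] at h1
      exact congrArg Subtype.val h1
    · ext g
      simp only [Set.mem_mul, Set.mem_univ, iff_true]
      obtain ⟨m, hm, h, hh, rfl⟩ := hfac g
      exact ⟨m, hm, h, hh, rfl⟩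
  · rw [eq_bot_iff]
    rintro x ⟨hxs, hxc⟩
    rw [Subgroup.mem_bot]
    apply FaithfulSMul.eq_of_smul_eq_smul (α := Ω)
    intro a
    obtain ⟨m, rfl⟩ := htr.exists_smul_eq ω a
    have hx' : x • ω = ω := hxs
    have hc : (m : G) * x = x * (m : G) := (Subgroup.mem_centralizer_iff.mp hxc) m m.2
    change x • (m : G) • ω = (1 : G) • (m : G) • ω
    rw [← mul_smul, ← hc, mul_smul, hx']
    simp
  · intro K hKM hKn
    apply hmin K _ hKM
    constructor
    intro k hk g
    obtain ⟨m, hm, h, hh, rfl⟩ := hfac g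
    have h1 : h * k * h⁻¹ ∈ K := (Subgroup.mem_normalizer_iff.mp (hKn hh) k).mp hk
    have h2 : (m * h) * k * (m * h)⁻¹ = h * k * h⁻¹ := by
      have h3 := hcomm m hm _ (hKM h1)
      calc (m * h) * k * (m * h)⁻¹ = m * (h * k * h⁻¹) * m⁻¹ := by group
        _ = (h * k * h⁻¹) * m * m⁻¹ := by rw [h3]
        _ = h * k * h⁻¹ := by group
    rw [h2]
    exact h1

/-- Let a finite solvable group G act faithfully and primitively on a set, let M be a minimal normal subgroup and H the stabilizer of a point. Then H is a complement to M, no non-identity element of H centralizes M, and the only subgroups of M normalized by H are the trivial subgroup and M. -/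
theorem result {G : Type*} [Group G] [Finite G] [Group.IsSolvable G] {Ω : Type*} [MulAction G Ω] [FaithfulSMul G Ω] (hprim : MulAction.IsPreprimitive G Ω) (M : Subgroup G) [M.Normal] (hM : M ≠ ⊥) (hmin : ∀ K : Subgroup G, K.Normal → K ≤ M → K = ⊥ ∨ K = M) (ω : Ω) : Subgroup.IsComplement' M (MulAction.stabilizer G ω) ∧ MulAction.stabilizer G ω ⊓ Subgroup.centralizer (M : Set G) = ⊥ ∧ ∀ K : Subgroup G, K ≤ M → MulAction.stabilizer G ω ≤ Subgroup.normalizer (K : Set G) → K = ⊥ ∨ K = M := by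
  exact aux hprim M hM hmin ω

end Cfsg.Agent.S0548
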