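import Cfsg.Statements.S0549
import Cfsg.Agent.Lib.SolvStruct.Basic

set_option autoImplicit false
open Cfsg

namespace Cfsg.Agent.S0549

/-- Let U be a maximal subgroup of a finite group G whose normal core is trivial, and N a nontrivial normal subgroup with centralizer C. Then C ∩ U = 1, and either C = 1 or C is a minimal normal subgroup of G. -/
theorem result {G : Type*} [Group G] [Finite G] (U : Subgroup G) (hU : IsCoatom U) (hcore : U.normalCore = ⊥) (N : Subgroup G) [N.Normal] (hN : N ≠ ⊥) : Subgroup.centralizer (N : Set G) ⊓ U = ⊥ ∧ (Subgroup.centralizer (N : Set G) = ⊥ ∨ (Subgroup.centralizer (N : Set G) ≠ ⊥ ∧ ∀ K : Subgroup G, K.Normal → K ≤ Subgroup.centralizer (N : Set G) → K = ⊥ ∨ K = Subgroup.centralizer (N : Set G))) := by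
  set C := Subgroup.centralizer (N : Set G) with hC
  have hCn : C.Normal := Subgroup.normal_centralizer
  have hcore : ∀ K : Subgroup G, K.Normal → K ≤ U → K = ⊥ := by
    intro K hK hKU
    haveI := hK
    have := (Subgroup.normal_le_normalCore (N := K) (H := U)).mpr hKU
    rwa [hcore, le_bot_iff] at this
  have hNU : ¬ N ≤ U := fun h => hN (hcore N inferInstance h)
  have hsup : N ⊔ U = ⊤ := by
    rw [sup_comm]
    exact Cfsg.Agent.Lib.SolvStruct.Basic.sup_eq_top_of_coatom hU hNU
  have hprod := Cfsg.Agent.Lib.SolvStruct.Basic.forall_mul_of_sup_eq_top' N U hsup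
  have h1 : C ⊓ U = ⊥ := by
    apply hcore _ _ inf_le_right
    constructor
    intro x hx g
    obtain ⟨hxC, hxU⟩ := Subgroup.mem_inf.mp hx
    obtain ⟨a, ha, b, hb, rfl⟩ := hprod g
    have hbx : b * x * b⁻¹ ∈ C := hCn.conj_mem x hxC b
    have h2 : a * (b * x * b⁻¹) * a⁻¹ = b * x * b⁻¹ := by
      have := (Subgroup.mem_centralizer_iff.mp hbx) a ha
      rw [this]
      group
    have e : a * b * x * (a * b)⁻¹ = a * (b * x * b⁻¹) * a⁻¹ := by group
    rw [e, h2]
    exact Subgroup.mem_inf.mpr ⟨hbx, mul_mem (mul_mem hb hxU) (inv_mem hb)⟩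
  refine ⟨h1, ?_⟩
  by_cases hC0 : C = ⊥
  · exact Or.inl hC0
  · refine Or.inr ⟨hC0, ?_⟩
    intro K hK hKC
    by_cases hK0 : K = ⊥
    · exact Or.inl hK0
    · right
      refine le_antisymm hKC ?_
      have hKU : ¬ K ≤ U := fun h => hK0 (hcore K hK h)
      have hsup2 : U ⊔ K = ⊤ := Cfsg.Agent.Lib.SolvStruct.Basic.sup_eq_top_of_coatom hU hKU
      intro c hc
      haveI := hK
      obtain ⟨k, hk, u, hu, rfl⟩ :=
        Cfsg.Agent.Lib.SolvStruct.Basic.forall_mul_of_sup_eq_top' K U (by rwa [sup_comm]) c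
      have huC : u ∈ C := by
        have := mul_mem (inv_mem (hKC hk)) hc
        simpa using this
      have : u ∈ C ⊓ U := Subgroup.mem_inf.mpr ⟨huC, hu⟩
      rw [h1, Subgroup.mem_bot] at this
      rw [this, mul_one]
      exact hk

end Cfsg.Agent.S0549
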