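import Cfsg.Statements.S0550
import Cfsg.Agent.S0549

set_option autoImplicit false
open Cfsg

namespace Cfsg.Agent.S0550

open scoped commutatorElement

theorem nonempty_mulEquiv_of_complements {G : Type*} [Group G] (N H₁ H₂ : Subgroup G) [N.Normal]
    (h1 : H₁ ⊓ N = ⊥) (h2 : H₂ ⊓ N = ⊥) (h : H₁ ⊔ N = H₂ ⊔ N) : Nonempty (H₁ ≃* H₂) := by
  let f₁ : H₁ →* G ⧸ N := (QuotientGroup.mk' N).comp H₁.subtype
  let f₂ : H₂ →* G ⧸ N := (QuotientGroup.mk' N).comp H₂.subtype
  have hf₁ : Function.Injective f₁ := by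
    rw [injective_iff_map_eq_one]
    intro x hx
    have h3 : (x : G) ∈ N := (QuotientGroup.eq_one_iff _).mp hx
    have h4 : (x : G) ∈ H₁ ⊓ N := Subgroup.mem_inf.mpr ⟨x.2, h3⟩
    rw [h1, Subgroup.mem_bot] at h4
    exact Subtype.ext h4
  have hf₂ : Function.Injective f₂ := by
    rw [injective_iff_map_eq_one]
    intro x hx
    have h3 : (x : G) ∈ N := (QuotientGroup.eq_one_iff _).mp hx
    have h4 : (x : G) ∈ H₂ ⊓ N := Subgroup.mem_inf.mpr ⟨x.2, h3⟩
    rw [h2, Subgroup.mem_bot] at h4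
    exact Subtype.ext h4
  have key : ∀ (A B : Subgroup G), A ⊔ N = B ⊔ N → ∀ x ∈ A, (x : G ⧸ N) ∈ B.map (QuotientGroup.mk' N) := by
    intro A B hAB x hx
    have h3 : x ∈ ((B ⊔ N : Subgroup G) : Set G) := by
      rw [← hAB]
      exact (le_sup_left : A ≤ _) hx
    rw [Subgroup.mul_normal] at h3
    obtain ⟨b, hb, n, hn, rfl⟩ := h3
    refine ⟨b, hb, ?_⟩
    have : ((n : G) : G ⧸ N) = 1 := (QuotientGroup.eq_one_iff _).mpr hn
    change ((b : G) : G ⧸ N) = ((b * n : G) : G ⧸ N)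
    rw [QuotientGroup.mk_mul, this, mul_one]
  have hr : f₁.range = f₂.range := by
    apply le_antisymm
    · rintro _ ⟨x, rfl⟩
      obtain ⟨b, hb, hbx⟩ := key _ _ h x x.2
      exact ⟨⟨b, hb⟩, hbx⟩
    · rintro _ ⟨x, rfl⟩
      obtain ⟨b, hb, hbx⟩ := key _ _ h.symm x x.2
      exact ⟨⟨b, hb⟩, hbx⟩
  exact ⟨((MonoidHom.ofInjective hf₁).trans (MulEquiv.subgroupCongr hr)).trans
    (MonoidHom.ofInjective hf₂).symm⟩

/-- Let U be a maximal subgroup with trivial normal core in a finite group G, and A ≠ B two minimal normal subgroups. Then A is the centralizer of B and B that of A, U complements each of them, A and B are non-abelian, and A, B and (A ⊔ B) ∩ U are pairwise isomorphic. -/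
theorem result {G : Type*} [Group G] [Finite G] (U : Subgroup G) (hU : IsCoatom U) (hcore : U.normalCore = ⊥) (A B : Subgroup G) [A.Normal] [B.Normal] (hA : A ≠ ⊥) (hB : B ≠ ⊥) (hAmin : ∀ K : Subgroup G, K.Normal → K ≤ A → K = ⊥ ∨ K = A) (hBmin : ∀ K : Subgroup G, K.Normal → K ≤ B → K = ⊥ ∨ K = B) (hAB : A ≠ B) : Subgroup.centralizer (B : Set G) = A ∧ Subgroup.centralizer (A : Set G) = B ∧ Subgroup.IsComplement' A U ∧ Subgroup.IsComplement' B U ∧ ¬ IsMulCommutative A ∧ Nonempty (A ≃* B) ∧ Nonempty (A ≃* ↥((A ⊔ B) ⊓ U)) := by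
  have hprodcoat : ∀ X : Subgroup G, X ≠ ⊥ → X.Normal → X ⊔ U = ⊤ := by
    intro X hX hXn
    have : ¬ X ≤ U := by
      intro hle
      apply hX
      have := (Subgroup.normal_le_normalCore (N := X) (H := U)).mpr hle
      rwa [hcore, le_bot_iff] at this
    rw [sup_comm]
    exact Cfsg.Agent.Lib.SolvStruct.Basic.sup_eq_top_of_coatom hU this
  -- `A ⊓ B = ⊥`
  have hAB0 : A ⊓ B = ⊥ := by
    rcases hAmin (A ⊓ B) inferInstance inf_le_left with h | h
    · exact h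
    · exfalso
      have hle : A ≤ B := inf_eq_left.mp h
      rcases hBmin A inferInstance hle with h1 | h1
      · exact hA h1
      · exact hAB h1
  have hBcA : B ≤ Subgroup.centralizer (A : Set G) := by
    intro b hb
    rw [Subgroup.mem_centralizer_iff]
    intro a ha
    have hc : ⁅a, b⁆ ∈ A ⊓ B := Subgroup.commutator_le_inf A B (Subgroup.commutator_mem_commutator ha hb)
    rw [hAB0, Subgroup.mem_bot, commutatorElement_eq_one_iff_mul_comm] at hc
    exact hc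
  have hAcB : A ≤ Subgroup.centralizer (B : Set G) := by
    intro a ha
    rw [Subgroup.mem_centralizer_iff]
    intro b hb
    have hc : ⁅a, b⁆ ∈ A ⊓ B := Subgroup.commutator_le_inf A B (Subgroup.commutator_mem_commutator ha hb)
    rw [hAB0, Subgroup.mem_bot, commutatorElement_eq_one_iff_mul_comm] at hc
    exact hc.symm
  obtain ⟨hA1, hA2⟩ := Cfsg.Agent.S0549.result U hU hcore A hA
  obtain ⟨hB1, hB2⟩ := Cfsg.Agent.S0549.result U hU hcore B hB
  have hCA : Subgroup.centralizer (A : Set G) = B := by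
    rcases hA2 with h | ⟨h0, h⟩
    · exfalso
      rw [h, le_bot_iff] at hBcA
      exact hB hBcA
    · rcases h B inferInstance hBcA with h1 | h1
      · exact absurd h1 hB
      · exact h1.symm
  have hCB : Subgroup.centralizer (B : Set G) = A := by
    rcases hB2 with h | ⟨h0, h⟩
    · exfalso
      rw [h, le_bot_iff] at hAcB
      exact hA hAcB
    · rcases h A inferInstance hAcB with h1 | h1
      · exact absurd h1 hA
      · exact h1.symm
  rw [hCA] at hA1
  rw [hCB] at hB1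
  -- now `hA1 : B ⊓ U = ⊥`, `hB1 : A ⊓ U = ⊥`
  have hAU := hprodcoat A hA inferInstance
  have hBU := hprodcoat B hB inferInstance
  have hcompl : ∀ X : Subgroup G, X.Normal → X ⊓ U = ⊥ → X ⊔ U = ⊤ → Subgroup.IsComplement' X U := by
    intro X hX h1 h2
    refine Subgroup.isComplement'_of_disjoint_and_mul_eq_univ (disjoint_iff.mpr h1) ?_
    rw [← Subgroup.normal_mul, h2]
    rfl
  have hVle : (A ⊔ B) ⊓ U ≤ A ⊔ B := inf_le_left
  have hV1 : ((A ⊔ B) ⊓ U) ⊓ A = ⊥ := by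
    rw [eq_bot_iff, ← hB1]
    exact fun x hx => Subgroup.mem_inf.mpr ⟨(Subgroup.mem_inf.mp hx).2, (Subgroup.mem_inf.mp (Subgroup.mem_inf.mp hx).1).2⟩
  have hV2 : ((A ⊔ B) ⊓ U) ⊓ B = ⊥ := by
    rw [eq_bot_iff, ← hA1]
    exact fun x hx => Subgroup.mem_inf.mpr ⟨(Subgroup.mem_inf.mp hx).2, (Subgroup.mem_inf.mp (Subgroup.mem_inf.mp hx).1).2⟩
  -- `V ⊔ X = A ⊔ B` for `X = A, B`
  have hsupV : ∀ X Y : Subgroup G, X.Normal → X ⊔ U = ⊤ → X ⊔ Y = A ⊔ B → ((A ⊔ B) ⊓ U) ⊔ X = A ⊔ B := by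
    intro X Y hXn hXU hXY
    have hXle : X ≤ A ⊔ B := hXY ▸ le_sup_left
    apply le_antisymm (sup_le hVle hXle)
    intro g hg
    obtain ⟨x, hx, u, hu, rfl⟩ := Cfsg.Agent.Lib.SolvStruct.Basic.forall_mul_of_sup_eq_top' X U hXU g
    have hu' : u ∈ A ⊔ B := by
      have := mul_mem (inv_mem (hXle hx)) hg
      simpa using this
    have hmem : x * u = x * u * x⁻¹ * x := by group
    rw [hmem]
    refine mul_mem ?_ ((le_sup_right : X ≤ _) hx)
    -- `x * u * x⁻¹ = (x u x⁻¹ u⁻¹) u`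
    have e : x * u * x⁻¹ = (x * (u * x⁻¹ * u⁻¹)) * u := by group
    rw [e]
    have h1 : x * (u * x⁻¹ * u⁻¹) ∈ X := mul_mem hx (hXn.conj_mem _ (inv_mem hx) u)
    exact mul_mem ((le_sup_right : X ≤ _) h1) ((le_sup_left : (A ⊔ B) ⊓ U ≤ _) (Subgroup.mem_inf.mpr ⟨hu', hu⟩))
  have hVA := hsupV A B inferInstance hAU rfl
  have hVB := hsupV B A inferInstance hBU (sup_comm _ _)
  have hiso1 : Nonempty (A ≃* ↥((A ⊔ B) ⊓ U)) :=
    nonempty_mulEquiv_of_complements B A _ hAB0 hV2 (by rw [hVB])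
  have hiso2 : Nonempty (↥((A ⊔ B) ⊓ U) ≃* B) :=
    nonempty_mulEquiv_of_complements A _ B hV1 (by rw [inf_comm]; exact hAB0) (by rw [hVA, sup_comm])
  refine ⟨hCB, hCA, hcompl A inferInstance hB1 hAU, hcompl B inferInstance hA1 hBU, ?_, ?_, hiso1⟩
  · intro hcomm
    have hle : A ≤ Subgroup.centralizer (A : Set G) := by
      intro a ha
      rw [Subgroup.mem_centralizer_iff]
      intro b hb
      have := mul_comm' (⟨b, hb⟩ : A) ⟨a, ha⟩
      exact congrArg Subtype.val this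
    rw [hCA] at hle
    apply hA
    rw [eq_bot_iff, ← hAB0]
    exact le_inf le_rfl hle
  · obtain ⟨e1⟩ := hiso1
    obtain ⟨e2⟩ := hiso2
    exact ⟨e1.trans e2⟩

end Cfsg.Agent.S0550
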