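import Cfsg.Statements.S0552
import Cfsg.Agent.Lib.SolvStruct.Fit

set_option autoImplicit false
open Cfsg

namespace Cfsg.Agent.S0552

/-- Let σ be an automorphism of a finite solvable group G fixing every element of the Fitting subgroup. If σ is not the identity then the order of σ and the order of G have a common prime factor. -/
theorem result {G : Type*} [Group G] [Finite G] [Group.IsSolvable G] (σ : G ≃* G) (hσ : ∀ x ∈ Cfsg.fittingSubgroup G, σ x = x) (hne : σ ≠ MulEquiv.refl G) : ¬ (orderOf σ).Coprime (Nat.card G) := by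
  intro hcop
  apply hne
  ext x
  set z : G := x⁻¹ * σ x with hz
  -- `z` centralizes the Fitting subgroup
  have hFn : (Cfsg.fittingSubgroup G).Normal := Cfsg.Agent.Lib.Core.Basic.fittingSubgroup_normal
  have hzC : z ∈ Subgroup.centralizer (Cfsg.fittingSubgroup G : Set G) := by
    rw [Subgroup.mem_centralizer_iff]
    intro y hy
    have h1 : σ (x * y * x⁻¹) = x * y * x⁻¹ := hσ _ (hFn.conj_mem y hy x)
    rw [map_mul, map_mul, map_inv, hσ y hy] at h1
    rw [hz]
    have h2 : σ x = x * (x⁻¹ * σ x) := by group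
    calc y * (x⁻¹ * σ x) = x⁻¹ * (x * y * x⁻¹) * σ x := by group
      _ = x⁻¹ * (σ x * y * (σ x)⁻¹) * σ x := by rw [h1]
      _ = x⁻¹ * σ x * y := by group
  have hzF : z ∈ Cfsg.fittingSubgroup G := Cfsg.Agent.Lib.SolvStruct.Fit.centralizer_fitting_le hzC
  have hzfix : σ z = z := hσ z hzF
  have hpow : ∀ n : ℕ, (σ ^ n) x = x * z ^ n := by
    intro n
    induction n with
    | zero => simp
    | succ n ih =>
      have hxz : σ x = x * z := by rw [hz]; group
      rw [pow_succ', MulAut.mul_apply, ih, map_mul, map_pow, hzfix, hxz, pow_succ', mul_assoc]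
  have hord := hpow (orderOf σ)
  rw [pow_orderOf_eq_one] at hord
  have hzn : z ^ orderOf σ = 1 := by
    have : x = x * z ^ orderOf σ := hord
    simpa using this.symm
  have hzc : z ^ Nat.card G = 1 := pow_card_eq_one'
  have h1 : orderOf z ∣ orderOf σ := orderOf_dvd_of_pow_eq_one hzn
  have h2 : orderOf z ∣ Nat.card G := orderOf_dvd_of_pow_eq_one hzc
  have h3 : orderOf z = 1 := Nat.eq_one_of_dvd_coprimes hcop h1 h2
  have h4 : z = 1 := orderOf_eq_one_iff.mp h3
  rw [hz, inv_mul_eq_one] at h4
  simpa using h4.symm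

end Cfsg.Agent.S0552
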