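import Cfsg.Statements.S0553
import Cfsg.Agent.Lib.Solvable.Basic
import Cfsg.Agent.Lib.Solvable.Hall
import Cfsg.Agent.Lib.SolvStruct.Clt
import Cfsg.Agent.Lib.SolvStruct.Basic

set_option autoImplicit false
open Cfsg

namespace Cfsg.Agent.S0553

open Subgroup Cfsg.Agent.Lib.Solvable.Basic Cfsg.Agent.Lib.SolvStruct.Basic

theorem sylow_normal_of {G : Type*} [Group G] [Finite G] {p : ℕ} [Fact p.Prime] (N : Subgroup G) [hN : N.Normal]
    (hp : IsPGroup p N) (hi : ¬ p ∣ N.index) (P : Sylow p G) : (P : Subgroup G).Normal := by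
  let S := hp.toSylow hi
  have hS : (S : Subgroup G) = N := IsPGroup.toSylow_coe hp hi
  have hSn : (S : Subgroup G).Normal := by rw [hS]; exact hN
  letI := Sylow.unique_of_normal S hSn
  have : P = S := Subsingleton.elim _ _
  rw [this]
  exact hSn

theorem aux {G : Type*} [Group G] [Finite G] [Group.IsSolvable G] [Nontrivial G] (h : ∀ M : Subgroup G, IsCoatom M → (Nat.card M).Coprime M.index) : ∃ p : ℕ, p.Prime ∧ p ∣ Nat.card G ∧ ∀ P : Sylow p G, (P : Subgroup G).Normal := by
  induction hn : Nat.card G using Nat.strong_induction_on generalizing G with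
  | _ n ih =>
  subst hn
  obtain ⟨N, p, hp, hNmin, hcomm, hexp⟩ := exists_normal_elemAbelian (G := G)
  haveI : Fact p.Prime := ⟨hp⟩
  have hNp : IsPGroup p N := isPGroup_of_pow_eq_one hexp
  haveI hNn : N.Normal := hNmin.1
  have hpG : p ∣ Nat.card G := by
    obtain ⟨⟨x, hxN⟩, hx1⟩ := (Subgroup.ne_bot_iff_exists_ne_one.mp hNmin.2.1)
    have hx1' : x ≠ 1 := fun e => hx1 (Subtype.ext e)
    have := orderOf_eq_prime (hexp x hxN) hx1'
    rw [← this]
    exact orderOf_dvd_natCard x
  by_cases hNt : N = ⊤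
  · refine ⟨p, hp, hpG, sylow_normal_of N hNp ?_⟩
    rw [hNt, Subgroup.index_top]
    exact hp.one_lt.ne' ∘ Nat.dvd_one.mp
  have hQnt : Nontrivial (G ⧸ N) := QuotientGroup.nontrivial_iff.mpr hNt
  have hcard : Nat.card N * Nat.card (G ⧸ N) = Nat.card G := by
    have := N.card_mul_index
    rwa [Subgroup.index_eq_card] at this
  have hN1 : 1 < Nat.card N := by
    have : Nontrivial N := (Subgroup.nontrivial_iff_ne_bot N).mpr hNmin.2.1
    exact Finite.one_lt_card
  have hlt : Nat.card (G ⧸ N) < Nat.card G := by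
    rw [← hcard]
    exact lt_mul_of_one_lt_left Nat.card_pos hN1
  obtain ⟨r, hr, hrQ, hR⟩ := ih _ hlt (G := G ⧸ N) (fun M hM => by
    have h1 := h (M.comap (QuotientGroup.mk' N)) (isCoatom_comap_of_surjective (QuotientGroup.mk'_surjective _) hM)
    rw [Subgroup.index_comap_of_surjective _ (QuotientGroup.mk'_surjective _),
      Cfsg.Agent.Lib.Solvable.Hall.card_comap_mk'] at h1
    exact Nat.Coprime.coprime_dvd_left (Dvd.intro _ rfl) h1) rfl
  haveI : Fact r.Prime := ⟨hr⟩
  obtain ⟨R₀⟩ : Nonempty (Sylow r (G ⧸ N)) := inferInstance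
  have hR₀n := hR R₀
  set K : Subgroup G := (R₀ : Subgroup (G ⧸ N)).comap (QuotientGroup.mk' N) with hK
  haveI hKn : K.Normal := hR₀n.comap _
  have hKidx : K.index = (R₀ : Subgroup (G ⧸ N)).index :=
    Subgroup.index_comap_of_surjective _ (QuotientGroup.mk'_surjective _)
  have hrK : ¬ r ∣ K.index := by
    rw [hKidx]; exact R₀.not_dvd_index
  by_cases hrp : r = p
  · subst hrp
    refine ⟨r, hr, hpG, sylow_normal_of K ?_ hrK⟩
    rw [IsPGroup.iff_card]
    obtain ⟨a, ha⟩ := IsPGroup.iff_card.mp hNp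
    obtain ⟨b, hb⟩ := IsPGroup.iff_card.mp R₀.isPGroup'
    refine ⟨b + a, ?_⟩
    rw [hK, Cfsg.Agent.Lib.Solvable.Hall.card_comap_mk', hb, ha, pow_add]
  -- r ≠ p
  have hrG : r ∣ Nat.card G := by rw [← hcard]; exact Dvd.dvd.mul_left hrQ _
  obtain ⟨R⟩ : Nonempty (Sylow r G) := inferInstance
  have hRK : (R : Subgroup G) ≤ K := Cfsg.Agent.Lib.SolvStruct.Clt.sylow_le_of_normal_of_coprime_index K hrK R
  have hFr := Sylow.normalizer_sup_eq_top' R hRK
  have hKeq : K = (R : Subgroup G) ⊔ N := by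
    let R₁ := R.mapSurjective (QuotientGroup.mk'_surjective N)
    letI := Sylow.unique_of_normal R₀ hR₀n
    have h1 : R₁ = R₀ := Subsingleton.elim _ _
    have h2 : (R₁ : Subgroup (G ⧸ N)) = (R : Subgroup G).map (QuotientGroup.mk' N) := Sylow.coe_mapSurjective _ _
    rw [hK, ← h1, h2, Subgroup.comap_map_eq, QuotientGroup.ker_mk']
  have hsup : normalizer ((R : Subgroup G) : Set G) ⊔ N = ⊤ := by
    rw [eq_top_iff, ← hFr, hKeq]
    apply sup_le le_sup_left
    apply sup_le
    · exact Subgroup.le_normalizer.trans le_sup_left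
    · exact le_sup_right
  by_cases hRt : normalizer ((R : Subgroup G) : Set G) = ⊤
  · refine ⟨r, hr, hrG, fun P => ?_⟩
    have hRn : (R : Subgroup G).Normal := Subgroup.normalizer_eq_top_iff.mp hRt
    letI := Sylow.unique_of_normal R hRn
    rw [Subsingleton.elim P R]
    exact hRn
  obtain ⟨M, hM, hle⟩ := (eq_top_or_exists_le_coatom (normalizer ((R : Subgroup G) : Set G))).resolve_left hRt
  have hNM : ¬ N ≤ M := fun hNM => hM.1 (by
    rw [eq_top_iff, ← hsup]; exact sup_le hle hNM)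
  have hMN : M ⊔ N = ⊤ := sup_eq_top_of_coatom hM hNM
  have hi1 : M.relIndex N = M.index := relIndex_eq_index_of_sup_eq_top M N hMN
  have hi2 : N.relIndex M = N.index := relIndex_eq_index_of_forall_mul M N (forall_mul_of_sup_eq_top M N hMN)
  have hcop := h M hM
  -- `p` divides the index of `M`
  have hpM : p ∣ M.index := by
    have h1 : M.index ∣ Nat.card N := hi1 ▸ Subgroup.relIndex_dvd_card M N
    obtain ⟨a, ha⟩ := IsPGroup.iff_card.mp hNp
    rw [ha] at h1
    obtain ⟨b, hb, hb2⟩ := (Nat.dvd_prime_pow hp).mp h1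
    have hb0 : b ≠ 0 := by
      rintro rfl
      rw [pow_zero] at hb2
      exact hM.1 (Subgroup.index_eq_one.mp hb2)
    rw [hb2]
    exact dvd_pow_self p hb0
  refine ⟨p, hp, hpG, sylow_normal_of N hNp ?_⟩
  intro hpN
  have h1 : p ∣ Nat.card M := hpN.trans (hi2 ▸ Subgroup.relIndex_dvd_card N M)
  have := Nat.eq_one_of_dvd_coprimes hcop h1 hpM
  exact hp.one_lt.ne' this

/-- Let G be a nontrivial finite solvable group in which every maximal subgroup has order coprime to its index. Then for some prime p dividing the order of G the Sylow p-subgroups of G are normal. -/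
theorem result {G : Type*} [Group G] [Finite G] [Group.IsSolvable G] [Nontrivial G] (h : ∀ M : Subgroup G, IsCoatom M → (Nat.card M).Coprime M.index) : ∃ p : ℕ, p.Prime ∧ p ∣ Nat.card G ∧ ∀ P : Sylow p G, (P : Subgroup G).Normal := by
  exact aux h

end Cfsg.Agent.S0553
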