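import Cfsg.Statements.S0555
import Cfsg.Agent.Lib.SolvStruct.Super

set_option autoImplicit false
open Cfsg

namespace Cfsg.Agent.S0555

open scoped commutatorElement

/-- Let i ≥ 1. If in the derived series of a group the quotient of the i-th term by the (i+1)-st and the quotient of the (i+1)-st by the (i+2)-nd are both cyclic, then the (i+1)-st and (i+2)-nd terms coincide. -/
theorem result {G : Type*} [Group G] (i : ℕ) (hi : 1 ≤ i) (h₁ : IsCyclic (↥(derivedSeries G i) ⧸ (derivedSeries G (i + 1)).subgroupOf (derivedSeries G i))) (h₂ : IsCyclic (↥(derivedSeries G (i + 1)) ⧸ (derivedSeries G (i + 2)).subgroupOf (derivedSeries G (i + 1)))) : derivedSeries G (i + 1) = derivedSeries G (i + 2) := by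
  set H := derivedSeries G i with hH
  set A := derivedSeries G (i + 1) with hA
  set B := derivedSeries G (i + 2) with hB
  have hHn : H.Normal := derivedSeries_normal G i
  have hAn : A.Normal := derivedSeries_normal G (i + 1)
  have hBn : B.Normal := derivedSeries_normal G (i + 2)
  have hAH : A = ⁅H, H⁆ := derivedSeries_succ G i
  have hBA : B = ⁅A, A⁆ := derivedSeries_succ G (i + 1)
  have hAleH : A ≤ H := by rw [hAH]; exact Subgroup.commutator_le_self H
  have hBleA : B ≤ A := by rw [hBA]; exact Subgroup.commutator_le_self A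
  have hHle : H ≤ commutator G := by
    have : ∀ j, 1 ≤ j → derivedSeries G j ≤ commutator G := by
      intro j hj
      induction j, hj using Nat.le_induction with
      | base => rw [derivedSeries_one]
      | succ j hj ih =>
        rw [derivedSeries_succ]
        exact (Subgroup.commutator_le_self _).trans ih
    exact this i hi
  apply le_antisymm _ hBleA
  -- generator of `A / B`
  obtain ⟨gq, hq⟩ := IsCyclic.exists_generator (α := ↥A ⧸ B.subgroupOf A)
  obtain ⟨z, rfl⟩ := QuotientGroup.mk_surjective gq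
  set f := QuotientGroup.mk' B with hf
  have hAz : ∀ y ∈ A, ∃ k : ℤ, f y = f (z : G) ^ k := by
    intro y hy
    obtain ⟨k, hk⟩ := hq ((⟨y, hy⟩ : A) : ↥A ⧸ B.subgroupOf A)
    refine ⟨k, ?_⟩
    have h1 : ((z ^ k : A) : ↥A ⧸ B.subgroupOf A) = ((⟨y, hy⟩ : A) : ↥A ⧸ B.subgroupOf A) := hk
    have h2 := QuotientGroup.eq.mp h1
    have h3 := Subgroup.mem_subgroupOf.mp h2
    have h4 : f (((z ^ k)⁻¹ * ⟨y, hy⟩ : A) : G) = 1 := (QuotientGroup.eq_one_iff _).mpr h3
    simp only [Subgroup.coe_mul, Subgroup.coe_inv, Subgroup.coe_zpow, map_mul, map_inv, map_zpow] at h4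
    have h5 := inv_mul_eq_one.mp h4
    exact h5.symm
  have hmapA : A.map f = Subgroup.zpowers (f (z : G)) := by
    apply le_antisymm
    · rintro _ ⟨y, hy, rfl⟩
      obtain ⟨k, hk⟩ := hAz y hy
      exact ⟨k, hk.symm⟩
    · rw [Subgroup.zpowers_le]
      exact ⟨z, z.2, rfl⟩
  have hnorm : (Subgroup.zpowers (f (z : G))).Normal := by
    rw [← hmapA]
    exact hAn.map f (QuotientGroup.mk'_surjective B)
  -- `H` centralizes `A` modulo `B`
  have hHA : ∀ x ∈ H, ∀ y ∈ A, f x * f y = f y * f x := by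
    intro x hx y hy
    have hx' : f x ∈ commutator (G ⧸ B) := by
      have h1 : (commutator G).map f ≤ commutator (G ⧸ B) := by
        rw [_root_.commutator_def, Subgroup.map_commutator, _root_.commutator_def]
        exact Subgroup.commutator_mono le_top le_top
      exact h1 (Subgroup.mem_map_of_mem _ (hHle hx))
    have h2 := Cfsg.Agent.Lib.SolvStruct.Super.commutator_comm_of_zpowers_normal _ hnorm _ hx'
    obtain ⟨k, hk⟩ := hAz y hy
    rw [hk]
    exact (Commute.zpow_right h2 k)
  -- generator of `H / A`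
  obtain ⟨gq₂, hq₂⟩ := IsCyclic.exists_generator (α := ↥H ⧸ A.subgroupOf H)
  obtain ⟨x₀, rfl⟩ := QuotientGroup.mk_surjective gq₂
  have hHx : ∀ y ∈ H, ∃ (k : ℤ) (a : G), a ∈ A ∧ y = (x₀ : G) ^ k * a := by
    intro y hy
    obtain ⟨k, hk⟩ := hq₂ ((⟨y, hy⟩ : H) : ↥H ⧸ A.subgroupOf H)
    have h1 : ((x₀ ^ k : H) : ↥H ⧸ A.subgroupOf H) = ((⟨y, hy⟩ : H) : ↥H ⧸ A.subgroupOf H) := hk
    have h2 := QuotientGroup.eq.mp h1
    have h3 := Subgroup.mem_subgroupOf.mp h2
    refine ⟨k, _, h3, ?_⟩
    simp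
  -- conclude `[H,H] ≤ B`
  rw [hAH]
  rw [Subgroup.commutator_le]
  intro u hu v hv
  obtain ⟨k, a, ha, rfl⟩ := hHx u hu
  obtain ⟨l, c, hc, rfl⟩ := hHx v hv
  have hx₀ : (x₀ : G) ∈ H := x₀.2
  have h1 : Commute (f (x₀ : G)) (f a) := hHA _ hx₀ a ha
  have h2 : Commute (f (x₀ : G)) (f c) := hHA _ hx₀ c hc
  have h3 : Commute (f a) (f c) := by
    have hac := hHA a (hAleH ha) c hc
    exact hac
  apply (QuotientGroup.eq_one_iff _).mp
  change f _ = 1
  rw [map_commutatorElement, commutatorElement_eq_one_iff_commute]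
  simp only [map_mul, map_zpow]
  exact Commute.mul_left
    (Commute.mul_right (Commute.zpow_zpow_self _ _ _) (h2.zpow_left k))
    (Commute.mul_right (h1.zpow_left l).symm h3)

end Cfsg.Agent.S0555
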