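import Cfsg.Statements.S0556
import Cfsg.Agent.Lib.Frobenius.Conjugacy
import Cfsg.Agent.Lib.Solvable.Misc1
import Cfsg.Agent.Lib.SolvStruct.Frat2
import Cfsg.Agent.Lib.SolvStruct.Basic
import Cfsg.Agent.Lib.Solvable.HallRel

set_option autoImplicit false
open Cfsg

namespace Cfsg.Agent.S0556

open Subgroup Cfsg.Agent.Lib.SolvStruct.Basic
open scoped commutatorElement Pointwise

theorem mem_normalizer_of_commute {G : Type*} [Group G] {Y : Subgroup G} {x : G}
    (h : ∀ y ∈ Y, x * y = y * x) : x ∈ normalizer (Y : Set G) := by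
  rw [Subgroup.mem_normalizer_iff]
  intro y
  constructor
  · intro hy
    have : x * y * x⁻¹ = y := by rw [h y hy]; group
    rw [this]; exact hy
  · intro hy
    have h1 := h _ hy
    have h3 : x * y * x⁻¹ = y := mul_left_cancel (a := x) (by rw [h1]; group)
    rw [h3] at hy; exact hy

theorem aux {G : Type*} [Group G] [Finite G] (A : Subgroup G) (hA : IsCoatom A) (hAc : IsMulCommutative A) : derivedSeries G 3 = ⊥ := by
  classical
  have hcomm : ∀ a ∈ A, ∀ b ∈ A, a * b = b * a := by
    intro a ha b hb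
    exact congrArg Subtype.val (hAc.is_comm.comm ⟨a, ha⟩ ⟨b, hb⟩)
  have hcommA : ∀ X : Subgroup G, X ≤ A → ⁅X, X⁆ = ⊥ := by
    intro X hX
    rw [eq_bot_iff, Subgroup.commutator_le]
    intro a ha b hb
    rw [Subgroup.mem_bot, commutatorElement_eq_one_iff_mul_comm]
    exact hcomm a (hX ha) b (hX hb)
  have h3 : ∀ n : ℕ, derivedSeries G (n + 1) = ⁅derivedSeries G n, derivedSeries G n⁆ := fun n => rfl
  by_cases hAn : A.Normal
  · have h1 : derivedSeries G 1 ≤ A := by
      rw [h3, derivedSeries_zero]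
      exact Cfsg.Agent.Lib.SolvStruct.Frat2.commutator_le_of_coatom_normal A hA
    have h2 : derivedSeries G 2 = ⊥ := by
      rw [h3]; exact hcommA _ h1
    rw [h3, h2, Subgroup.commutator_bot_left]
  -- the non-normal case
  have hNA : normalizer (A : Set G) = A := by
    by_contra hne
    have hlt : A < normalizer (A : Set G) := lt_of_le_of_ne Subgroup.le_normalizer (Ne.symm hne)
    exact hAn (Subgroup.normalizer_eq_top_iff.mp (hA.2 _ hlt))
  set D := A.normalCore with hD
  haveI hDn : D.Normal := Subgroup.normalCore_normal A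
  have hDA : D ≤ A := Subgroup.normalCore_le A
  -- intersections with conjugates
  have hI : ∀ g : G, g ∉ A → A ⊓ (MulAut.conj g • A) ≤ D := by
    intro g hg
    have hconjcomm : ∀ a ∈ MulAut.conj g • A, ∀ b ∈ MulAut.conj g • A, a * b = b * a := by
      intro a ha b hb
      rw [Subgroup.mem_pointwise_smul_iff_inv_smul_mem] at ha hb
      have h1 := hcomm _ ha _ hb
      have h2 := congrArg (fun z => (MulAut.conj g) • z) h1
      simpa [MulAut.smul_def, mul_assoc] using h2
    have hnot : ¬ MulAut.conj g • A ≤ A := by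
      intro hle
      have hcard : Nat.card (MulAut.conj g • A : Subgroup G) = Nat.card A :=
        Nat.card_congr (Subgroup.equivSMul (MulAut.conj g) A).symm.toEquiv
      have heq : MulAut.conj g • A = A := Subgroup.eq_of_le_of_card_ge hle hcard.ge
      apply hg
      rw [← hNA]
      exact Cfsg.Agent.Lib.Solvable.HallRel.mem_normalizer_iff_conj.mpr heq
    have hsup : A ⊔ (MulAut.conj g • A) = ⊤ := sup_eq_top_of_coatom hA hnot
    have hInorm : (A ⊓ (MulAut.conj g • A)).Normal := by
      rw [← Subgroup.normalizer_eq_top_iff, eq_top_iff, ← hsup]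
      apply sup_le
      · intro a ha
        exact mem_normalizer_of_commute (fun y hy => hcomm a ha y hy.1)
      · intro a ha
        exact mem_normalizer_of_commute (fun y hy => hconjcomm a ha y hy.2)
    exact (Subgroup.normal_le_normalCore (hN := hInorm)).mpr inf_le_left
  -- the quotient
  let f := QuotientGroup.mk' D
  have hf : Function.Surjective f := QuotientGroup.mk'_surjective D
  set B : Subgroup (G ⧸ D) := A.map f with hB
  have hBco : IsCoatom B := Cfsg.Agent.Lib.Solvable.Misc1.isCoatom_map_mk' hA hDA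
  have hmemB : ∀ x : G, f x ∈ B ↔ x ∈ A := by
    intro x
    constructor
    · rintro ⟨a, ha, hax⟩
      have h1 : a⁻¹ * x ∈ D := (QuotientGroup.eq).mp hax
      have h2 : x = a * (a⁻¹ * x) := by group
      rw [h2]
      exact A.mul_mem ha (hDA h1)
    · intro hx
      exact ⟨x, hx, rfl⟩
  have hFr : Cfsg.IsFrobeniusComplement B := by
    refine ⟨?_, hBco.1, ?_⟩
    · intro h0
      apply hAn
      have : A = D := by
        apply le_antisymm _ hDA
        intro x hx
        have h1 : f x ∈ B := ⟨x, hx, rfl⟩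
        rw [h0, Subgroup.mem_bot] at h1
        exact (QuotientGroup.eq_one_iff x).mp h1
      rw [this]
      exact hDn
    · intro g' hg'
      obtain ⟨g, rfl⟩ := hf g'
      have hg : g ∉ A := fun h => hg' ((hmemB g).mpr h)
      rw [eq_bot_iff]
      rintro z ⟨hz1, hz2⟩
      obtain ⟨x, hx, rfl⟩ := hz1
      have hz2 : f x ∈ MulAut.conj (f g) • B := hz2
      rw [Subgroup.mem_pointwise_smul_iff_inv_smul_mem] at hz2
      have h1 : (MulAut.conj (f g))⁻¹ • f x = f (g⁻¹ * x * g) := by
        simp [MulAut.smul_def, f]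
      rw [h1, hmemB] at hz2
      have h2 : x ∈ A ⊓ (MulAut.conj g • A) := by
        refine Subgroup.mem_inf.mpr ⟨hx, ?_⟩
        rw [Subgroup.mem_pointwise_smul_iff_inv_smul_mem]
        simpa [MulAut.smul_def] using hz2
      have h3 := hI g hg h2
      rw [Subgroup.mem_bot]
      exact (QuotientGroup.eq_one_iff x).mpr h3
  obtain ⟨V, hVK, hV1, hVc, hVN⟩ := Cfsg.Agent.Lib.Frobenius.Conjugacy.exists_invariant_abelian hFr
  set K := Cfsg.Agent.Lib.Frobenius.Theorem.kernel B with hK
  haveI hKn : K.Normal := Cfsg.Agent.Lib.Frobenius.Theorem.kernel_normal B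
  have hKB : K ⊓ B = ⊥ := Cfsg.Agent.Lib.Frobenius.Theorem.kernel_inf_eq_bot hFr
  have hKcomp := Cfsg.Agent.Lib.Frobenius.Theorem.kernel_isComplement' hFr
  have hVB : ¬ V ≤ B := by
    intro hle
    apply hV1
    rw [eq_bot_iff, ← hKB]
    exact le_inf hVK hle
  have hsup : B ⊔ V = ⊤ := sup_eq_top_of_coatom hBco hVB
  have hVc' : ∀ a ∈ V, ∀ b ∈ V, a * b = b * a := by
    intro a ha b hb
    exact congrArg Subtype.val (hVc.is_comm.comm ⟨a, ha⟩ ⟨b, hb⟩)
  have hVn : V.Normal := by
    rw [← Subgroup.normalizer_eq_top_iff, eq_top_iff, ← hsup]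
    exact sup_le hVN Subgroup.le_normalizer
  haveI := hVn
  have hKV : K ≤ V := by
    intro k hk
    obtain ⟨a, ha, v, hv, rfl⟩ := forall_mul_of_sup_eq_top B V hsup k
    have h1 : a ∈ K := by
      have h2 : a = (a * v) * v⁻¹ := by group
      rw [h2]
      exact K.mul_mem hk (K.inv_mem (hVK hv))
    have h2 : a ∈ K ⊓ B := ⟨h1, ha⟩
    rw [hKB, Subgroup.mem_bot] at h2
    rw [h2, one_mul]
    exact hv
  have hKcomm : ∀ a ∈ K, ∀ b ∈ K, a * b = b * a := fun a ha b hb => hVc' a (hKV ha) b (hKV hb)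
  -- `B` is abelian
  have hBc : ∀ a ∈ B, ∀ b ∈ B, a * b = b * a := by
    rintro _ ⟨a, ha, rfl⟩ _ ⟨b, hb, rfl⟩
    rw [← map_mul, ← map_mul, hcomm a ha b hb]
  -- the derived group of the quotient lies in `K`
  have hder : commutator (G ⧸ D) ≤ K := by
    rw [_root_.commutator_def, Subgroup.commutator_le]
    intro x _ y _
    obtain ⟨⟨k, a⟩, hx⟩ := hKcomp.2 x
    obtain ⟨⟨k', b⟩, hy⟩ := hKcomp.2 y
    simp only at hx hy
    rw [← QuotientGroup.eq_one_iff]
    rw [← hx, ← hy]
    have hk1 : ((k : G ⧸ D) : (G ⧸ D) ⧸ K) = 1 := (QuotientGroup.eq_one_iff _).mpr k.2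
    have hk2 : ((k' : G ⧸ D) : (G ⧸ D) ⧸ K) = 1 := (QuotientGroup.eq_one_iff _).mpr k'.2
    have hab := hBc a a.2 b b.2
    have e : (((a : G ⧸ D) : (G ⧸ D) ⧸ K)) * ((b : G ⧸ D) : (G ⧸ D) ⧸ K) = ((b : G ⧸ D) : (G ⧸ D) ⧸ K) * ((a : G ⧸ D) : (G ⧸ D) ⧸ K) := by
      rw [← QuotientGroup.mk_mul, hab, QuotientGroup.mk_mul]
    simp only [commutatorElement_def, QuotientGroup.mk_mul, QuotientGroup.mk_inv, hk1, hk2, one_mul, mul_inv_rev, inv_one, mul_one]
    rw [e]
    group
  have hder2 : derivedSeries (G ⧸ D) 2 = ⊥ := by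
    rw [eq_bot_iff]
    change ⁅derivedSeries (G ⧸ D) 1, derivedSeries (G ⧸ D) 1⁆ ≤ ⊥
    rw [derivedSeries_one, Subgroup.commutator_le]
    intro a ha b hb
    rw [Subgroup.mem_bot, commutatorElement_eq_one_iff_mul_comm]
    exact hKcomm a (hder ha) b (hder hb)
  have h2D : derivedSeries G 2 ≤ D := by
    have h1 := map_derivedSeries_eq hf 2
    rw [hder2, Subgroup.map_eq_bot_iff, QuotientGroup.ker_mk'] at h1
    exact h1
  rw [h3, eq_bot_iff]
  rw [← hcommA D hDA]
  exact Subgroup.commutator_mono h2D h2D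

/-- If a finite group has a maximal subgroup that is abelian, then the third term of its derived series is trivial (so the group is solvable of derived length at most three). -/
theorem result {G : Type*} [Group G] [Finite G] (A : Subgroup G) (hA : IsCoatom A) [IsMulCommutative A] : derivedSeries G 3 = ⊥ := by
  exact aux A hA inferInstance

end Cfsg.Agent.S0556
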