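import Cfsg.Statements.S0558
import Cfsg.Agent.S0557
import Cfsg.Agent.Lib.SolvStruct.Schmidt

set_option autoImplicit false
open Cfsg

namespace Cfsg.Agent.S0558

open Subgroup
open scoped commutatorElement Pointwise
open Cfsg.Agent.Lib.SolvStruct.Schmidt

/-- Sylow subgroups of `H` with normalizer `H` are Sylow in `G`. -/
theorem exists_sylow_eq {G : Type*} [Group G] [Finite G] {H : Subgroup G} {p : ℕ} [hp : Fact p.Prime]
    (P : Sylow p H)
    (hN : normalizer (((P : Subgroup H).map H.subtype : Subgroup G) : Set G) = H) :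
    ∃ S : Sylow p G, (S : Subgroup G) = (P : Subgroup H).map H.subtype := by
  set PP := (P : Subgroup H).map H.subtype with hPP
  have hPPp : IsPGroup p PP := P.isPGroup'.map H.subtype
  obtain ⟨S, hS⟩ := hPPp.exists_le_sylow
  refine ⟨S, ?_⟩
  by_contra hne
  have hlt : PP < S := lt_of_le_of_ne hS (Ne.symm hne)
  haveI : Group.IsNilpotent (S : Subgroup G) := S.isPGroup'.isNilpotent
  obtain ⟨z, hzS, hzP, hzN⟩ := exists_mem_normalizer_of_lt (S : Subgroup G) PP hlt
  have hzH : z ∈ H := by rw [← hN]; exact hzN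
  let T : Subgroup H := (S : Subgroup G).subgroupOf H
  have hT : IsPGroup p T := S.isPGroup'.comap_of_injective H.subtype H.subtype_injective
  have hPT : (P : Subgroup H) ≤ T := fun a ha => hS ⟨a, ha, rfl⟩
  have heq := P.is_maximal' hT hPT
  apply hzP
  have h1 : (⟨z, hzH⟩ : H) ∈ T := hzS
  rw [heq] at h1
  exact ⟨_, h1, rfl⟩

/-- Fusion of elements of prime power order is controlled by `H`. -/
theorem exists_conj_of_prime_pow {G : Type*} [Group G] [Finite G] {H : Subgroup G}
    (hnot : ∀ p : ℕ, p.Prime → ∀ P : Sylow p G, (P : Subgroup G) ≠ H)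
    (hnorm : ∀ p : ℕ, p.Prime → p ∣ Nat.card H → ∀ P : Sylow p H,
      Subgroup.normalizer (((P : Subgroup H).map H.subtype : Subgroup G) : Set G) = H)
    (hnil : Group.IsNilpotent H)
    {p : ℕ} [hp : Fact p.Prime] {x : G} (hx : x ∈ H) (hord : ∃ k, orderOf x = p ^ k) (hx1 : x ≠ 1)
    (u : G) (hy : u * x * u⁻¹ ∈ H) : ∃ h ∈ H, u * x * u⁻¹ = h * x * h⁻¹ := by
  classical
  obtain ⟨k, hk⟩ := hord
  have hk0 : k ≠ 0 := by
    rintro rfl
    rw [pow_zero, orderOf_eq_one_iff] at hk
    exact hx1 hk
  have hpH : p ∣ Nat.card H := by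
    have h1 : orderOf x ∣ Nat.card H := Subgroup.orderOf_dvd_natCard H hx
    rw [hk] at h1
    exact (dvd_pow_self p hk0).trans h1
  have hq : ∃ q : ℕ, q.Prime ∧ q ∣ Nat.card H ∧ q ≠ p := by
    by_contra hcon
    push Not at hcon
    have hcard := Nat.eq_prime_pow_of_unique_prime_dvd Nat.card_pos.ne' (fun {d} hd hdvd => hcon d hd hdvd)
    have hHp : IsPGroup p H := IsPGroup.of_card hcard
    obtain ⟨P⟩ : Nonempty (Sylow p H) := inferInstance
    have htop : (⊤ : Subgroup H) = P := P.is_maximal' (hHp.to_subgroup ⊤) le_top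
    have hPH : (P : Subgroup H).map H.subtype = H := by
      rw [← htop, ← MonoidHom.range_eq_map, Subgroup.range_subtype]
    obtain ⟨S, hS⟩ := exists_sylow_eq P (hnorm p hp.out hpH P)
    exact hnot p hp.out S (hS.trans hPH)
  obtain ⟨q, hq, hqH, hqp⟩ := hq
  haveI hqf : Fact q.Prime := ⟨hq⟩
  obtain ⟨Q⟩ : Nonempty (Sylow q H) := inferInstance
  have hQN := hnorm q hq hqH Q
  obtain ⟨S, hS⟩ := exists_sylow_eq Q hQN
  set y := u * x * u⁻¹ with hydef
  have hyord : orderOf y = p ^ k := by
    rw [hydef, ← hk, ← MulAut.conj_apply]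
    exact MulEquiv.orderOf_eq (MulAut.conj u) x
  have hcommS : ∀ z ∈ (S : Subgroup G), ∀ t ∈ H, (∃ j, orderOf t = p ^ j) → t * z = z * t := by
    intro z hz t ht htord
    rw [hS] at hz
    obtain ⟨z', hz', rfl⟩ := hz
    have h1 : ∃ j, orderOf z' = q ^ j := orderOf_eq_pow_of_mem Q.isPGroup' hz'
    have h2 : ∃ j, orderOf (⟨t, ht⟩ : H) = p ^ j := by simpa [Subgroup.orderOf_mk] using htord
    have h3 : Commute (⟨t, ht⟩ : H) z' := commute_of_isNilpotent hnil hqp.symm h2 h1
    exact congrArg Subtype.val h3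
  let C : Subgroup G := Subgroup.centralizer ({y} : Set G)
  have hSC : (S : Subgroup G) ≤ C := by
    intro z hz
    rw [Subgroup.mem_centralizer_singleton_iff]
    exact (hcommS z hz y hy ⟨k, hyord⟩).symm
  have huS : ((u • S : Sylow q G) : Subgroup G) ≤ C := by
    intro w hw
    rw [Sylow.coe_subgroup_smul, Subgroup.mem_smul_pointwise_iff_exists] at hw
    obtain ⟨z, hz, rfl⟩ := hw
    rw [Subgroup.mem_centralizer_singleton_iff, MulAut.smul_def, MulAut.conj_apply]
    have h1 := hcommS z hz x hx ⟨k, hk⟩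
    rw [hydef]
    calc u * z * u⁻¹ * (u * x * u⁻¹) = u * (z * x) * u⁻¹ := by group
      _ = u * (x * z) * u⁻¹ := by rw [h1]
      _ = u * x * u⁻¹ * (u * z * u⁻¹) := by group
  obtain ⟨c, hc⟩ := MulAction.exists_smul_eq C ((u • S).subtype huS) (S.subtype hSC)
  rw [Sylow.smul_subtype] at hc
  have hc' := Sylow.subtype_injective hc
  have hmem : (c : G) * u ∈ normalizer (((S : Sylow q G) : Subgroup G) : Set G) := by
    apply (Sylow.smul_eq_iff_mem_normalizer).mp
    rw [mul_smul]
    exact hc'
  have hNH : normalizer (((S : Sylow q G) : Subgroup G) : Set G) = H := by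
    rw [hS]
    exact hQN
  rw [hNH] at hmem
  refine ⟨_, hmem, ?_⟩
  have hcy : (c : G) * y = y * c := Subgroup.mem_centralizer_singleton_iff.mp c.2
  calc y = (c : G) * y * (c : G)⁻¹ := by rw [hcy]; group
    _ = (c : G) * u * x * ((c : G) * u)⁻¹ := by rw [hydef]; group

/-- The key inclusion. -/
theorem mem_commutator_of_conj {G : Type*} [Group G] [Finite G] {H K : Subgroup G} (hKH : K ≤ H)
    (hfus : ∀ (p : ℕ) [Fact p.Prime] (x : G), x ∈ H → (∃ k, orderOf x = p ^ k) → x ≠ 1 →
      ∀ u : G, u * x * u⁻¹ ∈ H → ∃ h ∈ H, u * x * u⁻¹ = h * x * h⁻¹) :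
    ∀ (n : ℕ) (x u : G), orderOf x = n → x ∈ K → u * x * u⁻¹ ∈ K → x * (u * x * u⁻¹)⁻¹ ∈ ⁅K, H⁆ := by
  intro n
  induction n using Nat.strong_induction_on with
  | _ n ih =>
    intro x u hxn hxK hyK
    by_cases hx1 : x = 1
    · subst hx1
      simp
    have hn1 : n ≠ 1 := by
      rintro rfl
      exact hx1 (orderOf_eq_one_iff.mp hxn)
    have hnpos : 0 < n := hxn ▸ orderOf_pos x
    have hp : (n.minFac).Prime := Nat.minFac_prime hn1
    haveI hpf : Fact (n.minFac).Prime := ⟨hp⟩
    set p := n.minFac with hpdef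
    obtain ⟨a, m, hpm, hnm⟩ := Nat.exists_eq_pow_mul_and_not_dvd hnpos.ne' p hp.ne_one
    have ha : a ≠ 0 := by
      rintro rfl
      apply hpm
      rw [pow_zero, one_mul] at hnm
      rw [← hnm]
      exact Nat.minFac_dvd n
    by_cases hm1 : m = 1
    · subst hm1
      rw [mul_one] at hnm
      obtain ⟨h, hh, he⟩ := hfus p x (hKH hxK) ⟨a, hxn.trans hnm⟩ hx1 u (hKH hyK)
      rw [he]
      have e : x * (h * x * h⁻¹)⁻¹ = ⁅x, h⁆ := by
        rw [commutatorElement_def]; group
      rw [e]
      exact Subgroup.commutator_mem_commutator hxK hh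
    · -- Bezout
      have hmpos : 0 < m := by
        rcases Nat.eq_zero_or_pos m with h | h
        · subst h; simp at hnm; omega
        · exact h
      have hpa : 1 < p ^ a := Nat.one_lt_pow ha hp.one_lt
      have hm2 : 1 < m := by omega
      have hcop : (p ^ a).Coprime m := Nat.Coprime.pow_left a ((Nat.Prime.coprime_iff_not_dvd hp).mpr hpm)
      have hbez := Nat.gcd_eq_gcd_ab (p ^ a) m
      rw [hcop.gcd_eq_one] at hbez
      set A := (p ^ a).gcdA m
      set B := (p ^ a).gcdB m
      set v := x ^ (((p ^ a : ℕ) : ℤ) * A) with hv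
      set w := x ^ ((m : ℤ) * B) with hw
      have hxvw : x = v * w := by
        rw [hv, hw, ← zpow_add, ← hbez]
        simp
      have hx1' : x ^ n = 1 := by rw [← hxn]; exact pow_orderOf_eq_one x
      have hvm : v ^ m = 1 := by
        rw [hv, ← zpow_natCast, ← zpow_mul]
        have : ((p ^ a : ℕ) : ℤ) * A * (m : ℤ) = (n : ℤ) * A := by
          rw [hnm]; push_cast; ring
        rw [this, zpow_mul, zpow_natCast, hx1', one_zpow]
      have hwp : w ^ (p ^ a) = 1 := by
        rw [hw, ← zpow_natCast, ← zpow_mul]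
        have : (m : ℤ) * B * ((p ^ a : ℕ) : ℤ) = (n : ℤ) * B := by
          rw [hnm]; push_cast; ring
        rw [this, zpow_mul, zpow_natCast, hx1', one_zpow]
      have hvord : orderOf v < n := by
        have := Nat.le_of_dvd hmpos (orderOf_dvd_of_pow_eq_one hvm)
        rw [hnm]
        nlinarith
      have hword : orderOf w < n := by
        have := Nat.le_of_dvd (by omega) (orderOf_dvd_of_pow_eq_one hwp)
        rw [hnm]
        nlinarith
      have hvK : v ∈ K := zpow_mem hxK _
      have hwK : w ∈ K := zpow_mem hxK _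
      have hv'K : u * v * u⁻¹ ∈ K := by
        rw [hv, ← conj_zpow]
        exact zpow_mem hyK _
      have hw'K : u * w * u⁻¹ ∈ K := by
        rw [hw, ← conj_zpow]
        exact zpow_mem hyK _
      have h1 := ih _ hvord v u rfl hvK hv'K
      have h2 := ih _ hword w u rfl hwK hw'K
      set c := w * (u * w * u⁻¹)⁻¹ with hc
      have hcK : c ∈ K := K.mul_mem hwK (K.inv_mem hw'K)
      have h3 : ⁅c⁻¹, v⁆ ∈ ⁅K, H⁆ :=
        Subgroup.commutator_mem_commutator (K.inv_mem hcK) (hKH hvK)
      have e : x * (u * x * u⁻¹)⁻¹ = (c * ⁅c⁻¹, v⁆) * (v * (u * v * u⁻¹)⁻¹) := by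
        rw [commutatorElement_def]
        conv_lhs => rw [hxvw]
        rw [hc]
        group
      rw [e]
      exact Subgroup.mul_mem _ (Subgroup.mul_mem _ h2 h3) h1

/-- Let H be a subgroup of a finite group G that is not a Sylow subgroup of G for any prime, and suppose that for every prime p dividing the order of H and every Sylow p-subgroup P of H the normalizer of P in G is exactly H. Then some normal subgroup of G is a complement to H. -/
theorem result {G : Type*} [Group G] [Finite G] (H : Subgroup G) (hnot : ∀ p : ℕ, p.Prime → ∀ P : Sylow p G, (P : Subgroup G) ≠ H) (hnorm : ∀ p : ℕ, p.Prime → p ∣ Nat.card H → ∀ P : Sylow p H, Subgroup.normalizer (((P : Subgroup H).map H.subtype : Subgroup G) : Set G) = H) : ∃ N : Subgroup G, N.Normal ∧ Subgroup.IsComplement' N H := by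
  classical
  have hHn : Group.IsNilpotent H := by
    have t := (Group.isNilpotent_of_finite_tfae (G := H)).out 0 3
    rw [t]
    intro p hpf P
    by_cases hd : p ∣ Nat.card H
    · have h1 := hnorm p hpf.out hd P
      constructor
      intro n hn g
      have h2 : (g : G) ∈ normalizer (((P : Subgroup H).map H.subtype : Subgroup G) : Set G) := by
        rw [h1]; exact g.2
      have h3 := (Subgroup.mem_normalizer_iff.mp h2 n).mp ⟨n, hn, rfl⟩
      obtain ⟨n', hn', he⟩ := h3
      have : n' = g * n * g⁻¹ := Subtype.ext he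
      rwa [← this]
    · have h1 : (P : Subgroup H) = ⊥ := by
        have h2 := P.card_eq_multiplicity
        rw [Nat.factorization_eq_zero_of_not_dvd hd, pow_zero] at h2
        exact Subgroup.eq_bot_of_card_eq _ h2
      rw [h1]
      infer_instance
  have hHall : (Nat.card H).Coprime H.index := by
    apply Nat.coprime_of_dvd
    intro p hp hd hdi
    haveI := Fact.mk hp
    obtain ⟨P⟩ : Nonempty (Sylow p H) := inferInstance
    obtain ⟨S, hS⟩ := exists_sylow_eq P (hnorm p hp hd P)
    have hSH : (S : Subgroup G) ≤ H := by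
      rw [hS]
      exact Subgroup.map_subtype_le _
    exact S.not_dvd_index (hdi.trans (Subgroup.index_dvd_of_le hSH))
  have hfus : ∀ (p : ℕ) [Fact p.Prime] (x : G), x ∈ H → (∃ k, orderOf x = p ^ k) → x ≠ 1 →
      ∀ u : G, u * x * u⁻¹ ∈ H → ∃ h ∈ H, u * x * u⁻¹ = h * x * h⁻¹ := by
    intro p _ x hx hord hx1 u hy
    exact exists_conj_of_prime_pow hnot hnorm hHn hx hord hx1 u hy
  have hser : ∀ i : ℕ, (fun K : Subgroup G => Subgroup.focalSubgroup K)^[i] H ≤
      H.lowerCentralSeries i := by
    intro i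
    induction i with
    | zero => exact le_rfl
    | succ i ih =>
      rw [Function.iterate_succ_apply']
      set K := (fun K : Subgroup G => Subgroup.focalSubgroup K)^[i] H with hK
      have hKH : K ≤ H := ih.trans (H.lowerCentralSeries_antitone (Nat.zero_le i))
      have h1 : Subgroup.focalSubgroup K ≤ ⁅K, H⁆ := by
        rw [Subgroup.focalSubgroup_def, Subgroup.closure_le]
        rintro g ⟨hg, x, hx, u, rfl⟩
        have e : ⁅x, u⁆ = x * (u * x * u⁻¹)⁻¹ := by
          rw [commutatorElement_def]; group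
        have hy : u * x * u⁻¹ ∈ K := by
          have : u * x * u⁻¹ = (⁅x, u⁆)⁻¹ * x := by rw [e]; group
          rw [this]
          exact K.mul_mem (K.inv_mem hg) hx
        rw [SetLike.mem_coe, e]
        exact mem_commutator_of_conj hKH hfus _ x u rfl hx hy
      refine h1.trans ?_
      exact Subgroup.commutator_mono ih le_rfl
  obtain ⟨n, hn⟩ := (Subgroup.isNilpotent_iff_lowerCentralSeries H).mp hHn
  apply Cfsg.Agent.S0557.result H hHall n
  rw [eq_bot_iff, ← hn]
  exact hser n

end Cfsg.Agent.S0558
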