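import Cfsg.Statements.S0559
import Cfsg.Agent.Lib.Solvable.HallRel

set_option autoImplicit false
open Pointwise
open Cfsg

namespace Cfsg.Agent.S0559

/-- Let G = HK be a finite group (every element a product of an element of H and an element of K), and let A and B be conjugates of H and K. Then every element is a product of an element of A and one of B, and there is g with A = gHg⁻¹ and B = gKg⁻¹ simultaneously. -/
theorem result {G : Type*} [Group G] [Finite G] (H K A B : Subgroup G) (hHK : ∀ g : G, ∃ h ∈ H, ∃ k ∈ K, g = h * k) (hA : ∃ x : G, A = MulAut.conj x • H) (hB : ∃ y : G, B = MulAut.conj y • K) : (∀ g : G, ∃ a ∈ A, ∃ b ∈ B, g = a * b) ∧ ∃ g : G, A = MulAut.conj g • H ∧ B = MulAut.conj g • K := by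
  obtain ⟨x, rfl⟩ := hA
  obtain ⟨y, rfl⟩ := hB
  obtain ⟨h, hh, k, hk, hhk⟩ := hHK (x⁻¹ * y)
  set g := x * h with hg
  have hgy : g = y * k⁻¹ := by
    rw [hg]
    have : y = x * (h * k) := by rw [← hhk]; group
    rw [this]; group
  have hA' : MulAut.conj x • H = MulAut.conj g • H := by
    rw [hg, map_mul, mul_smul,
      Cfsg.Agent.Lib.Solvable.HallRel.mem_normalizer_iff_conj.mp (Subgroup.le_normalizer hh)]
  have hB' : MulAut.conj y • K = MulAut.conj g • K := by
    rw [hgy, map_mul, mul_smul,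
      Cfsg.Agent.Lib.Solvable.HallRel.mem_normalizer_iff_conj.mp
        (Subgroup.le_normalizer (inv_mem hk))]
  refine ⟨?_, g, hA', hB'⟩
  intro t
  obtain ⟨a, ha, b, hb, hab⟩ := hHK (g⁻¹ * t * g)
  refine ⟨g * a * g⁻¹, ?_, g * b * g⁻¹, ?_, ?_⟩
  · rw [hA', Cfsg.Agent.Lib.Solvable.Hall.mem_conj_smul_iff]
    simpa [mul_assoc] using ha
  · rw [hB', Cfsg.Agent.Lib.Solvable.Hall.mem_conj_smul_iff]
    simpa [mul_assoc] using hb
  · have : t = g * (a * b) * g⁻¹ := by rw [← hab]; group
    rw [this]; group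

end Cfsg.Agent.S0559
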