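import Cfsg.Statements.S0560
import Cfsg.Agent.Lib.SolvStruct.Fact

set_option autoImplicit false
open Pointwise
open Cfsg

namespace Cfsg.Agent.S0560

/-- Let the finite group G be the product HK of two subgroups and p a prime. Then there are Sylow p-subgroups P of H and Q of K and a Sylow p-subgroup R of G whose underlying set is the product set of P and Q. -/
theorem result {G : Type*} [Group G] [Finite G] (H K : Subgroup G) (hHK : ∀ g : G, ∃ h ∈ H, ∃ k ∈ K, g = h * k) (p : ℕ) [Fact p.Prime] : ∃ (P : Sylow p H) (Q : Sylow p K) (R : Sylow p G), ((R : Subgroup G) : Set G) = (((P : Subgroup H).map H.subtype : Subgroup G) : Set G) * (((Q : Subgroup K).map K.subtype : Subgroup G) : Set G) := by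
  obtain ⟨R, P, Q, hP, hQ⟩ := Cfsg.Agent.Lib.SolvStruct.Fact.exists_sylow_inf H K hHK p
  refine ⟨P, Q, R, ?_⟩
  ext x
  constructor
  · intro hx
    obtain ⟨a, ha, b, hb, rfl⟩ := Cfsg.Agent.Lib.SolvStruct.Fact.sylow_eq_mul_of_inf H K hHK p R P Q hP hQ x hx
    refine Set.mul_mem_mul ?_ ?_
    · refine ⟨⟨a, ha.2⟩, ?_, rfl⟩
      change _ ∈ (P : Subgroup H)
      rw [hP, Subgroup.mem_subgroupOf]
      exact ha.1
    · refine ⟨⟨b, hb.2⟩, ?_, rfl⟩
      change _ ∈ (Q : Subgroup K)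
      rw [hQ, Subgroup.mem_subgroupOf]
      exact hb.1
  · rintro ⟨a, ⟨a', ha', rfl⟩, b, ⟨b', hb', rfl⟩, rfl⟩
    have ha'' : a' ∈ (P : Subgroup H) := ha'
    have hb'' : b' ∈ (Q : Subgroup K) := hb'
    rw [hP, Subgroup.mem_subgroupOf] at ha''
    rw [hQ, Subgroup.mem_subgroupOf] at hb''
    exact (R : Subgroup G).mul_mem ha'' hb''

end Cfsg.Agent.S0560
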