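import Cfsg.Statements.S0561
import Cfsg.Agent.Lib.Solvable.HallSystem

set_option autoImplicit false
open Pointwise
open Cfsg

namespace Cfsg.Agent.S0561

open Subgroup
open scoped Pointwise
open Cfsg.Agent.Lib.Solvable.Hall Cfsg.Agent.Lib.Solvable.HallRel Cfsg.Agent.Lib.Solvable.HallSystem

theorem prod_dvd_of_pairwise_coprime {ι : Type*} (s : Finset ι) (f : ι → ℕ) (z : ℕ)
    (hc : ∀ i ∈ s, ∀ j ∈ s, i ≠ j → (f i).Coprime (f j)) (hd : ∀ i ∈ s, f i ∣ z) :
    ∏ i ∈ s, f i ∣ z := by
  classical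
  induction s using Finset.induction_on with
  | empty => simp
  | insert a s ha ih =>
    rw [Finset.prod_insert ha]
    apply Nat.Coprime.mul_dvd_of_dvd_of_dvd
    · apply Nat.Coprime.prod_right
      intro j hj
      apply hc a (Finset.mem_insert_self _ _) j (Finset.mem_insert_of_mem hj)
      rintro rfl
      exact ha hj
    · exact hd a (Finset.mem_insert_self _ _)
    · apply ih
      · intro i hi j hj
        exact hc i (Finset.mem_insert_of_mem hi) j (Finset.mem_insert_of_mem hj)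
      · intro i hi
        exact hd i (Finset.mem_insert_of_mem hi)

/-- The order of a Hall subgroup in terms of the `p`-parts. -/
theorem prod_ppart_filter {G : Type*} [Group G] [Finite G] (A : Subgroup G)
    (hA : (Nat.card A).Coprime A.index) :
    ∏ q ∈ (primesOf G).filter (fun q : Nat.Primes => (q : ℕ) ∣ Nat.card A), ppart G q = Nat.card A := by
  classical
  set m := Nat.card A with hm
  set n := A.index with hn
  have hN : m * n = Nat.card G := Subgroup.card_mul_index A
  have hmpos : 0 < m := Nat.card_pos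
  have hnpos : 0 < n := Nat.pos_of_ne_zero Subgroup.index_ne_zero_of_finite
  have h0 := prod_ppart (G := G)
  rw [← Finset.prod_filter_mul_prod_filter_not (primesOf G) (fun q : Nat.Primes => (q : ℕ) ∣ m)] at h0
  set m' := ∏ q ∈ (primesOf G).filter (fun q : Nat.Primes => (q : ℕ) ∣ m), ppart G q with hm'
  set n' := ∏ q ∈ (primesOf G).filter (fun q : Nat.Primes => ¬ (q : ℕ) ∣ m), ppart G q with hn'
  have hdvd : ∀ q : Nat.Primes, ppart G q ∣ Nat.card G := fun q => Nat.ordProj_dvd _ _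
  have hm'd : m' ∣ m := by
    apply prod_dvd_of_pairwise_coprime
    · intro i _ j _ hij
      exact ppart_coprime hij
    · intro q hq
      have hqm : (q : ℕ) ∣ m := (Finset.mem_filter.mp hq).2
      have h1 : ppart G q ∣ m * n := hN ▸ hdvd q
      apply Nat.Coprime.dvd_of_dvd_mul_right _ h1
      apply Nat.Coprime.pow_left
      exact Nat.Coprime.coprime_dvd_left hqm hA
  have hn'd : n' ∣ n := by
    apply prod_dvd_of_pairwise_coprime
    · intro i _ j _ hij
      exact ppart_coprime hij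
    · intro q hq
      have hqm : ¬ (q : ℕ) ∣ m := (Finset.mem_filter.mp hq).2
      have h1 : ppart G q ∣ m * n := hN ▸ hdvd q
      apply Nat.Coprime.dvd_of_dvd_mul_left _ h1
      apply Nat.Coprime.pow_left
      exact (Nat.Prime.coprime_iff_not_dvd q.2).mpr hqm
  have hle1 : m' ≤ m := Nat.le_of_dvd hmpos hm'd
  have hle2 : n' ≤ n := Nat.le_of_dvd hnpos hn'd
  have heq : m' * n' = m * n := h0.trans hN.symm
  by_contra hne
  have hlt : m' < m := lt_of_le_of_ne hle1 hne
  have h3 : m' * n' < m * n := by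
    calc m' * n' ≤ m' * n := Nat.mul_le_mul_left _ hle2
      _ < m * n := Nat.mul_lt_mul_of_pos_right hlt hnpos
  omega

/-- Two members of a Hall system permute. -/
theorem sysJ_mul_sysJ {G : Type*} [Group G] [Finite G] {K : Nat.Primes → Subgroup G}
    (hK : Cfsg.IsComplementSystem K) (σ τ : Finset Nat.Primes) :
    ((sysJ K σ : Subgroup G) : Set G) * (sysJ K τ : Subgroup G) = (sysJ K (σ ∪ τ) : Subgroup G) := by
  classical
  set J := sysJ K (σ ∪ τ) with hJ
  have hAJ : sysJ K σ ≤ J := sysJ_mono Finset.subset_union_left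
  have hBJ : sysJ K τ ≤ J := sysJ_mono Finset.subset_union_right
  have hJcard : Nat.card J = ∏ q ∈ σ ∪ τ, ppart G q := card_sysJ hK _
  have hpos : ∀ s : Finset Nat.Primes, 0 < ∏ q ∈ s, ppart G q := fun s =>
    Finset.prod_pos (fun q _ => Nat.pos_of_ne_zero (ppart_ne_zero q))
  have h1 : ((sysJ K σ).subgroupOf J).index = ∏ q ∈ τ \ σ, ppart G q := by
    have h2 := Subgroup.card_mul_index ((sysJ K σ).subgroupOf J)
    rw [card_subgroupOf_of_le hAJ, card_sysJ hK, hJcard] at h2
    have h3 : ∏ q ∈ σ ∪ τ, ppart G q = (∏ q ∈ σ, ppart G q) * ∏ q ∈ τ \ σ, ppart G q := by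
      rw [← Finset.union_sdiff_self_eq_union, Finset.prod_union Finset.disjoint_sdiff]
    rw [h3] at h2
    exact Nat.eq_of_mul_eq_mul_left (hpos _) h2
  have h1' : ((sysJ K τ).subgroupOf J).index = ∏ q ∈ σ \ τ, ppart G q := by
    have h2 := Subgroup.card_mul_index ((sysJ K τ).subgroupOf J)
    rw [card_subgroupOf_of_le hBJ, card_sysJ hK, hJcard] at h2
    have h3 : ∏ q ∈ σ ∪ τ, ppart G q = (∏ q ∈ τ, ppart G q) * ∏ q ∈ σ \ τ, ppart G q := by
      rw [Finset.union_comm, ← Finset.union_sdiff_self_eq_union, Finset.prod_union Finset.disjoint_sdiff]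
    rw [h3] at h2
    exact Nat.eq_of_mul_eq_mul_left (hpos _) h2
  have hcop : ((sysJ K σ).subgroupOf J).index.Coprime ((sysJ K τ).subgroupOf J).index := by
    rw [h1, h1']
    apply Nat.Coprime.prod_left
    intro i hi
    apply Nat.Coprime.prod_right
    intro j hj
    apply ppart_coprime
    rintro rfl
    exact (Finset.mem_sdiff.mp hi).2 (Finset.mem_sdiff.mp hj).1
  ext z
  constructor
  · rintro ⟨a, ha, b, hb, rfl⟩
    exact J.mul_mem (hAJ ha) (hBJ hb)
  · intro hz
    obtain ⟨u, hu, v, hv, huv⟩ := exists_mul_of_coprime_index _ _ hcop (⟨z, hz⟩ : J)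
    exact ⟨u, hu, v, hv, (congrArg Subtype.val huv).symm⟩

/-- Conjugates `xAx⁻¹` and `yBy⁻¹`, simultaneously. -/
theorem exists_conj_params {G : Type*} [Group G] [Finite G] (H K A B : Subgroup G)
    (hHK : ∀ g : G, ∃ h ∈ H, ∃ k ∈ K, g = h * k) (hA : A ≤ H) (hAn : (A.subgroupOf H).Normal)
    (hB : B ≤ K) (hBn : (B.subgroupOf K).Normal) (x y : G) :
    ∃ g : G, MulAut.conj x • A = MulAut.conj g • A ∧ MulAut.conj y • B = MulAut.conj g • B := by
  have hHA : H ≤ normalizer (A : Set G) := (normal_subgroupOf_iff_le_normalizer hA).mp hAn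
  have hKB : K ≤ normalizer (B : Set G) := (normal_subgroupOf_iff_le_normalizer hB).mp hBn
  obtain ⟨h, hh, k, hk, hhk⟩ := hHK (x⁻¹ * y)
  set g := x * h with hg
  have hgy : g = y * k⁻¹ := by
    rw [hg]
    have : y = x * (h * k) := by rw [← hhk]; group
    rw [this]; group
  refine ⟨g, ?_, ?_⟩
  · rw [hg, map_mul, mul_smul, mem_normalizer_iff_conj.mp (hHA hh)]
  · rw [hgy, map_mul, mul_smul, mem_normalizer_iff_conj.mp (hKB (inv_mem hk))]

theorem conj_mul_conj {G : Type*} [Group G] (g : G) (A B : Subgroup G) :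
    ((MulAut.conj g • A : Subgroup G) : Set G) * ((MulAut.conj g • B : Subgroup G) : Set G) =
      (fun z => g * z * g⁻¹) '' ((A : Set G) * (B : Set G)) := by
  ext z
  constructor
  · rintro ⟨u, hu, v, hv, rfl⟩
    have hu' := mem_conj_smul_iff.mp hu
    have hv' := mem_conj_smul_iff.mp hv
    refine ⟨_, ⟨_, hu', _, hv', rfl⟩, ?_⟩
    simp only
    group
  · rintro ⟨_, ⟨a, ha, b, hb, rfl⟩, rfl⟩
    refine ⟨g * a * g⁻¹, mem_conj_smul_iff.mpr ?_, g * b * g⁻¹, mem_conj_smul_iff.mpr ?_, ?_⟩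
    · simpa [mul_assoc] using ha
    · simpa [mul_assoc] using hb
    · simp only
      group

/-- Let the finite solvable group G be the product HK of subgroups, and let A be normal in H and B normal in K, where A and B are Hall subgroups of G (order coprime to index). Then for all x, y the product set of xAx⁻¹ and yBy⁻¹ is a subgroup of G. -/
theorem result {G : Type*} [Group G] [Finite G] [Group.IsSolvable G] (H K A B : Subgroup G) (hHK : ∀ g : G, ∃ h ∈ H, ∃ k ∈ K, g = h * k) (hA : A ≤ H) (hAn : (A.subgroupOf H).Normal) (hB : B ≤ K) (hBn : (B.subgroupOf K).Normal) (hAh : (Nat.card A).Coprime A.index) (hBh : (Nat.card B).Coprime B.index) (x y : G) : ∃ S : Subgroup G, (S : Set G) = ((MulAut.conj x • A : Subgroup G) : Set G) * ((MulAut.conj y • B : Subgroup G) : Set G) := by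
  classical
  obtain ⟨L, hL⟩ := exists_isComplementSystem (G := G)
  set σ := (primesOf G).filter (fun q : Nat.Primes => (q : ℕ) ∣ Nat.card A) with hσ
  set τ := (primesOf G).filter (fun q : Nat.Primes => (q : ℕ) ∣ Nat.card B) with hτ
  have h1 : Nat.card (sysJ L σ) = Nat.card A := by
    rw [card_sysJ hL]
    exact prod_ppart_filter A hAh
  have h2 : Nat.card (sysJ L τ) = Nat.card B := by
    rw [card_sysJ hL]
    exact prod_ppart_filter B hBh
  obtain ⟨u, hu⟩ := conj_of_card_eq A (sysJ L σ) hAh h1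
  obtain ⟨v, hv⟩ := conj_of_card_eq B (sysJ L τ) hBh h2
  obtain ⟨g₀, hg₀A, hg₀B⟩ := exists_conj_params H K A B hHK hA hAn hB hBn u v
  obtain ⟨g, hgA, hgB⟩ := exists_conj_params H K A B hHK hA hAn hB hBn x y
  have h3 : (fun z => g₀ * z * g₀⁻¹) '' ((A : Set G) * (B : Set G)) = (sysJ L (σ ∪ τ) : Subgroup G) := by
    rw [← conj_mul_conj, ← hg₀A, ← hg₀B, hu, hv]
    exact sysJ_mul_sysJ hL σ τ
  refine ⟨MulAut.conj (g * g₀⁻¹) • sysJ L (σ ∪ τ), ?_⟩
  rw [hgA, hgB, conj_mul_conj]
  ext z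
  rw [SetLike.mem_coe, mem_conj_smul_iff, ← SetLike.mem_coe, ← h3]
  constructor
  · rintro ⟨w, hw, he⟩
    refine ⟨w, hw, ?_⟩
    simp only at he ⊢
    have h4 : z = (g * g₀⁻¹) * ((g * g₀⁻¹)⁻¹ * z * (g * g₀⁻¹)) * (g * g₀⁻¹)⁻¹ := by group
    rw [h4, ← he]
    group
  · rintro ⟨w, hw, rfl⟩
    refine ⟨w, hw, ?_⟩
    simp only
    group

end Cfsg.Agent.S0561
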