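import Cfsg.Statements.S0562
import Cfsg.Agent.Lib.Solvable.HallRel

set_option autoImplicit false
open Cfsg

namespace Cfsg.Agent.S0562

open scoped Pointwise

/-- Let the finite group G be the product HK of subgroups, A normal in H, B normal in K, and L the normalizer of the subgroup generated by A and B. Then every element of L is a product of an element of L ∩ H and an element of L ∩ K. -/
theorem result {G : Type*} [Group G] [Finite G] (H K A B : Subgroup G) (hHK : ∀ g : G, ∃ h ∈ H, ∃ k ∈ K, g = h * k) (hA : A ≤ H) (hAn : (A.subgroupOf H).Normal) (hB : B ≤ K) (hBn : (B.subgroupOf K).Normal) : ∀ g ∈ Subgroup.normalizer ((A ⊔ B : Subgroup G) : Set G), ∃ h ∈ Subgroup.normalizer ((A ⊔ B : Subgroup G) : Set G) ⊓ H, ∃ k ∈ Subgroup.normalizer ((A ⊔ B : Subgroup G) : Set G) ⊓ K, g = h * k := by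
  intro g hg
  set J : Subgroup G := A ⊔ B with hJ
  obtain ⟨h, hh, k, hk, rfl⟩ := hHK g
  have hg' : MulAut.conj (h * k) • J = J :=
    Cfsg.Agent.Lib.Solvable.HallRel.mem_normalizer_iff_conj.mp hg
  have e : MulAut.conj k • J = MulAut.conj h⁻¹ • J := by
    have h1 : MulAut.conj h⁻¹ • (MulAut.conj (h * k) • J) = MulAut.conj h⁻¹ • J := by rw [hg']
    rw [← h1, Cfsg.Agent.Lib.Solvable.Hall.conj_smul_conj_smul]
    congr 2
    group
  have hAJ1 : A ≤ MulAut.conj k • J := by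
    rw [e]
    intro a ha
    rw [Cfsg.Agent.Lib.Solvable.Hall.mem_conj_smul_iff]
    have h2 : (⟨h, hh⟩ : H) * ⟨a, hA ha⟩ * (⟨h, hh⟩ : H)⁻¹ ∈ A.subgroupOf H :=
      hAn.conj_mem _ (Subgroup.mem_subgroupOf.mpr ha) _
    have h3 := Subgroup.mem_subgroupOf.mp h2
    apply (le_sup_left : A ≤ J)
    simpa using h3
  have hBJ1 : B ≤ MulAut.conj k • J := by
    intro b hb
    rw [Cfsg.Agent.Lib.Solvable.Hall.mem_conj_smul_iff]
    have h2 : (⟨k, hk⟩ : K)⁻¹ * ⟨b, hB hb⟩ * ((⟨k, hk⟩ : K)⁻¹)⁻¹ ∈ B.subgroupOf K :=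
      hBn.conj_mem _ (Subgroup.mem_subgroupOf.mpr hb) _
    have h3 := Subgroup.mem_subgroupOf.mp h2
    apply (le_sup_right : B ≤ J)
    simpa using h3
  have hle : J ≤ MulAut.conj k • J := sup_le hAJ1 hBJ1
  have heq : J = MulAut.conj k • J :=
    Subgroup.eq_of_le_of_card_ge hle (Cfsg.Agent.Lib.Solvable.Hall.card_conj_smul k J).le
  have hkN : k ∈ Subgroup.normalizer (J : Set G) :=
    Cfsg.Agent.Lib.Solvable.HallRel.mem_normalizer_iff_conj.mpr heq.symm
  have hhN : h⁻¹ ∈ Subgroup.normalizer (J : Set G) :=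
    Cfsg.Agent.Lib.Solvable.HallRel.mem_normalizer_iff_conj.mpr (e.symm.trans heq.symm)
  have hhN' : h ∈ Subgroup.normalizer (J : Set G) := by simpa using inv_mem hhN
  exact ⟨h, Subgroup.mem_inf.mpr ⟨hhN', hh⟩, k, Subgroup.mem_inf.mpr ⟨hkN, hk⟩, rfl⟩

end Cfsg.Agent.S0562
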