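import Cfsg.Statements.S0566
import Cfsg.Agent.S0559
import Cfsg.Agent.Lib.Solvable.HallRel

set_option autoImplicit false
open Pointwise
open Cfsg

namespace Cfsg.Agent.S0566

open Subgroup
open scoped Pointwise
open Cfsg.Agent.Lib.Solvable.Hall Cfsg.Agent.Lib.Solvable.HallRel

/-- A subgroup permuting with each member of a family of subgroups permutes with their join. -/
theorem exists_subgroup_mul_iSup {G : Type*} [Group G] {ι : Type*} (A : Subgroup G)
    (T : ι → Subgroup G) (h : ∀ i, ∃ S : Subgroup G, (S : Set G) = (A : Set G) * (T i : Set G)) :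
    ∃ S : Subgroup G, (S : Set G) = (A : Set G) * ((⨆ i, T i : Subgroup G) : Set G) := by
  set U : Subgroup G := ⨆ i, T i with hU
  have hT : ∀ i, T i ≤ U := fun i => le_iSup T i
  have key : ∀ t ∈ U, ∀ a ∈ A, ∃ a' ∈ A, ∃ u ∈ U, t * a = a' * u := by
    intro t ht
    refine Subgroup.iSup_induction T ht (C := fun t => ∀ a ∈ A, ∃ a' ∈ A, ∃ u ∈ U, t * a = a' * u)
      ?_ ?_ ?_
    · intro i x hx a ha
      obtain ⟨S, hS⟩ := h i
      have hAS : a ∈ (S : Set G) := by
        rw [hS]
        exact ⟨a, ha, 1, (T i).one_mem, by simp⟩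
      have hxS : x ∈ (S : Set G) := by
        rw [hS]
        exact ⟨1, A.one_mem, x, hx, by simp⟩
      have hm : x * a ∈ (S : Set G) := S.mul_mem hxS hAS
      rw [hS] at hm
      obtain ⟨a', ha', u, hu, he⟩ := hm
      exact ⟨a', ha', u, hT i hu, he.symm⟩
    · intro a ha
      exact ⟨a, ha, 1, U.one_mem, by simp⟩
    · intro x y hx hy a ha
      obtain ⟨a₁, ha₁, u₁, hu₁, h₁⟩ := hy a ha
      obtain ⟨a₂, ha₂, u₂, hu₂, h₂⟩ := hx a₁ ha₁
      refine ⟨a₂, ha₂, u₂ * u₁, U.mul_mem hu₂ hu₁, ?_⟩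
      rw [mul_assoc, h₁, ← mul_assoc, h₂, mul_assoc]
  refine ⟨{ carrier := (A : Set G) * (U : Set G)
            mul_mem' := ?_
            one_mem' := ⟨1, A.one_mem, 1, U.one_mem, by simp⟩
            inv_mem' := ?_ }, rfl⟩
  · rintro _ _ ⟨a, ha, u, hu, rfl⟩ ⟨a', ha', u', hu', rfl⟩
    obtain ⟨a₁, ha₁, u₁, hu₁, h₁⟩ := key u hu a' ha'
    refine ⟨a * a₁, A.mul_mem ha ha₁, u₁ * u', U.mul_mem hu₁ hu', ?_⟩
    simp only [mul_assoc]
    rw [← mul_assoc u a', h₁, mul_assoc]
  · rintro _ ⟨a, ha, u, hu, rfl⟩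
    obtain ⟨a₁, ha₁, u₁, hu₁, h₁⟩ := key u⁻¹ (U.inv_mem hu) a⁻¹ (A.inv_mem ha)
    refine ⟨a₁, ha₁, u₁, hu₁, ?_⟩
    simp only
    rw [mul_inv_rev, h₁]

/-- The hypotheses of Kegel's lemma for a pair of subgroups. -/
def KegelPair {G : Type*} [Group G] (A B : Subgroup G) : Prop :=
  (∀ x : G, ∃ S : Subgroup G, S ≠ ⊤ ∧ (S : Set G) = (A : Set G) * ((MulAut.conj x • B : Subgroup G) : Set G)) ∧
    (∀ N : Subgroup G, N.Normal → N ≠ ⊤ → ¬ A ≤ N ∧ ¬ B ≤ N)

theorem KegelPair.swap_conj {G : Type*} [Group G] {A B : Subgroup G} (h : KegelPair A B) (y : G) :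
    KegelPair (MulAut.conj y • B) A := by
  constructor
  · intro x
    obtain ⟨S, hS, hSe⟩ := h.1 (x⁻¹ * y)
    refine ⟨MulAut.conj x • S, ?_, ?_⟩
    · intro htop
      apply hS
      rw [eq_top_iff]
      intro g _
      have : x * g * x⁻¹ ∈ MulAut.conj x • S := by
        rw [htop]; exact Subgroup.mem_top _
      rw [mem_conj_smul_iff] at this
      simpa [mul_assoc] using this
    · ext z
      constructor
      · intro hz
        rw [SetLike.mem_coe, mem_conj_smul_iff] at hz
        have h1 : (x⁻¹ * z * x)⁻¹ ∈ (S : Set G) := S.inv_mem hz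
        rw [hSe] at h1
        obtain ⟨a, ha, c, hc, he⟩ := h1
        simp only at he
        rw [SetLike.mem_coe, mem_conj_smul_iff] at hc
        refine ⟨x * c⁻¹ * x⁻¹, ?_, x * a⁻¹ * x⁻¹, ?_, ?_⟩
        · rw [SetLike.mem_coe, mem_conj_smul_iff]
          have : y⁻¹ * (x * c⁻¹ * x⁻¹) * y = ((x⁻¹ * y)⁻¹ * c * (x⁻¹ * y))⁻¹ := by group
          rw [this]
          exact B.inv_mem hc
        · rw [SetLike.mem_coe, mem_conj_smul_iff]
          simpa [mul_assoc] using A.inv_mem ha
        · simp only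
          have h2 : z = x * (a * c)⁻¹ * x⁻¹ := by
            rw [he]; group
          rw [h2]; group
      · rintro ⟨u, hu, v, hv, rfl⟩
        rw [SetLike.mem_coe, mem_conj_smul_iff] at hu hv
        rw [SetLike.mem_coe, mem_conj_smul_iff]
        have h1 : (x⁻¹ * v⁻¹ * x) * (x⁻¹ * u⁻¹ * x) ∈ (S : Set G) := by
          rw [hSe]
          refine ⟨_, ?_, _, ?_, rfl⟩
          · have := A.inv_mem hv
            have e : x⁻¹ * v⁻¹ * x = (x⁻¹ * v * x)⁻¹ := by group
            rw [e]
            exact this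
          · rw [SetLike.mem_coe, mem_conj_smul_iff]
            have e : (x⁻¹ * y)⁻¹ * (x⁻¹ * u⁻¹ * x) * (x⁻¹ * y) = (y⁻¹ * u * y)⁻¹ := by group
            rw [e]
            exact B.inv_mem hu
        have h2 := S.inv_mem h1
        have e : x⁻¹ * (u * v) * x = ((x⁻¹ * v⁻¹ * x) * (x⁻¹ * u⁻¹ * x))⁻¹ := by group
        rw [e]
        exact h2
  · intro N hN hNt
    have h1 := h.2 N hN hNt
    refine ⟨?_, h1.1⟩
    intro hle
    apply h1.2
    intro b hb
    have h2 : y * b * y⁻¹ ∈ MulAut.conj y • B := by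
      rw [mem_conj_smul_iff]
      simpa [mul_assoc] using hb
    have h3 := hle h2
    have h4 := hN.conj_mem _ h3 y⁻¹
    simpa [mul_assoc] using h4

/-- The enlargement step of Kegel's lemma. -/
theorem KegelPair.conj_le {G : Type*} [Group G] [Finite G] {A B : Subgroup G} (h : KegelPair A B)
    (hmax : ∀ A' B' : Subgroup G, KegelPair A' B' → Nat.card A + Nat.card B < Nat.card A' + Nat.card B' → False)
    (a : G) (ha : a ∈ A) : MulAut.conj a • B ≤ B := by
  classical
  set B₁ : Subgroup G := ⨆ c : A, MulAut.conj (c : G) • B with hB₁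
  have hBB₁ : B ≤ B₁ := by
    have h1 : MulAut.conj ((1 : A) : G) • B ≤ B₁ := le_iSup (fun c : A => MulAut.conj (c : G) • B) 1
    simpa using h1
  have hle : ∀ c ∈ A, MulAut.conj c • B ≤ B₁ := fun c hc =>
    le_iSup (fun c : A => MulAut.conj (c : G) • B) ⟨c, hc⟩
  obtain ⟨S₀, hS₀, hS₀e⟩ := h.1 1
  have hconj1 : MulAut.conj (1 : G) • B = B := by simp
  rw [hconj1] at hS₀e
  have hAS₀ : A ≤ S₀ := by
    intro c hc
    have : c ∈ (S₀ : Set G) := by
      rw [hS₀e]
      exact ⟨c, hc, 1, B.one_mem, by simp⟩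
    exact this
  have hBS₀ : B ≤ S₀ := by
    intro c hc
    have : c ∈ (S₀ : Set G) := by
      rw [hS₀e]
      exact ⟨1, A.one_mem, c, hc, by simp⟩
    exact this
  have hB₁S₀ : B₁ ≤ S₀ := by
    apply iSup_le
    intro c z hz
    rw [mem_conj_smul_iff] at hz
    have h2 := S₀.mul_mem (S₀.mul_mem (hAS₀ c.2) (hBS₀ hz)) (S₀.inv_mem (hAS₀ c.2))
    simpa [mul_assoc] using h2
  have hP : KegelPair A B₁ := by
    constructor
    · intro x
      have he : MulAut.conj x • B₁ = ⨆ c : A, MulAut.conj (x * c) • B := by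
        have e : ∀ H : Subgroup G, MulAut.conj x • H = H.map (MulAut.conj x).toMonoidHom := fun _ => rfl
        rw [hB₁, e, Subgroup.map_iSup]
        congr 1
        ext c : 1
        rw [map_mul, mul_smul, e]
      obtain ⟨S, hS⟩ := exists_subgroup_mul_iSup A (fun c : A => MulAut.conj (x * c) • B)
        (fun c => by
          obtain ⟨S, -, hS⟩ := h.1 (x * c)
          exact ⟨S, hS⟩)
      refine ⟨S, ?_, ?_⟩
      · intro htop
        have hfac : ∀ g : G, ∃ u ∈ A, ∃ v ∈ MulAut.conj x • B₁, g = u * v := by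
          intro g
          have hg : g ∈ (S : Set G) := by rw [htop]; exact Set.mem_univ _
          rw [hS, ← he] at hg
          obtain ⟨u, hu, v, hv, hh⟩ := hg
          exact ⟨u, hu, v, hv, hh.symm⟩
        obtain ⟨hf, -⟩ := Cfsg.Agent.S0559.result A (MulAut.conj x • B₁) A B₁ hfac
          ⟨1, by simp⟩ ⟨x⁻¹, by
            rw [← mul_smul, ← map_mul]
            simp⟩
        apply hS₀
        rw [eq_top_iff]
        intro g _
        obtain ⟨u, hu, v, hv, rfl⟩ := hf g
        exact S₀.mul_mem (hAS₀ hu) (hB₁S₀ hv)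
      · rw [hS, he]
    · intro N hN hNt
      have h1 := h.2 N hN hNt
      exact ⟨h1.1, fun hle' => h1.2 (hBB₁.trans hle')⟩
  have hBeq : B = B₁ := by
    apply Subgroup.eq_of_le_of_card_ge hBB₁
    by_contra hc
    exact hmax A B₁ hP (by omega)
  have h5 := hle a ha
  rwa [← hBeq] at h5

/-- **Kegel's lemma**, the core. -/
theorem KegelPair.false {G : Type*} [Group G] [Finite G] : ∀ (n : ℕ) (A B : Subgroup G),
    2 * Nat.card G - (Nat.card A + Nat.card B) = n → KegelPair A B → False := by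
  intro n
  induction n using Nat.strong_induction_on with
  | _ n ih =>
    intro A B hn hP
    have hbound : ∀ A' B' : Subgroup G, Nat.card A' + Nat.card B' ≤ 2 * Nat.card G := by
      intro A' B'
      have h1 := Subgroup.card_le_card_group A'
      have h2 := Subgroup.card_le_card_group B'
      omega
    have hcard : ∀ y : G, Nat.card (MulAut.conj y • B : Subgroup G) = Nat.card B :=
      fun y => card_conj_smul y B
    have hnorm : ∀ y : G, MulAut.conj y • B ≤ normalizer (A : Set G) := by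
      intro y b hb
      have hP' := hP.swap_conj y
      have h1 : MulAut.conj b • A ≤ A := by
        apply KegelPair.conj_le hP' _ b hb
        intro A' B' hP'' hlt
        rw [hcard y] at hlt
        have := hbound A' B'
        have := hbound A B
        exact ih _ (by omega) A' B' rfl hP''
      have h2 : MulAut.conj b • A = A := by
        apply Subgroup.eq_of_le_of_card_ge h1
        rw [card_conj_smul]
      exact mem_normalizer_iff_conj.mpr h2
    have hclosure : normalClosure (B : Set G) ≤ normalizer (A : Set G) := by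
      rw [normalClosure, Subgroup.closure_le]
      intro z hz
      rw [Group.mem_conjugatesOfSet_iff] at hz
      obtain ⟨b, hb, hc⟩ := hz
      obtain ⟨c, rfl⟩ := isConj_iff.mp hc
      apply hnorm c
      rw [mem_conj_smul_iff]
      simpa [mul_assoc] using hb
    have htop : normalClosure (B : Set G) = ⊤ := by
      by_contra hne
      exact (hP.2 _ inferInstance hne).2 le_normalClosure
    have hAn : A.Normal := by
      rw [← Subgroup.normalizer_eq_top_iff, eq_top_iff, ← htop]
      exact hclosure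
    obtain ⟨S, hS, hSe⟩ := hP.1 1
    have hAS : A ≤ S := by
      intro c hc
      have : c ∈ (S : Set G) := by
        rw [hSe]
        exact ⟨c, hc, 1, Subgroup.one_mem _, by simp⟩
      exact this
    have hAt : A ≠ ⊤ := by
      rintro rfl
      exact hS (top_le_iff.mp hAS)
    exact (hP.2 A hAn hAt).1 le_rfl

/-- Let A and B be nontrivial subgroups of a finite group G such that for every x the product set of A and xBx⁻¹ is a proper subgroup of G. Then there is a proper normal subgroup of G containing A or containing B. -/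
theorem result {G : Type*} [Group G] [Finite G] (A B : Subgroup G) (hA : A ≠ ⊥) (hB : B ≠ ⊥) (h : ∀ x : G, ∃ S : Subgroup G, S ≠ ⊤ ∧ (S : Set G) = (A : Set G) * ((MulAut.conj x • B : Subgroup G) : Set G)) : ∃ N : Subgroup G, N.Normal ∧ N ≠ ⊤ ∧ (A ≤ N ∨ B ≤ N) := by
  by_contra hcon
  push Not at hcon
  refine KegelPair.false _ A B rfl ⟨h, ?_⟩
  intro N hN hNt
  exact ⟨fun hle => hcon N hN hNt |>.1 hle, fun hle => hcon N hN hNt |>.2 hle⟩

end Cfsg.Agent.S0566
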