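import Cfsg.Statements.S0567
import Mathlib.Tactic.Group

set_option autoImplicit false
open Cfsg

namespace Cfsg.Agent.S0567

open scoped commutatorElement

theorem commutator_conj_mem_right {G : Type*} [Group G] (A H : Subgroup G) {h : G} (hh : h ∈ H)
    {x : G} (hx : x ∈ ⁅A, H⁆) : h * x * h⁻¹ ∈ ⁅A, H⁆ := by
  rw [Subgroup.commutator_def] at hx ⊢
  induction hx using Subgroup.closure_induction with
  | mem x hx =>
    obtain ⟨a, ha, k, hk, rfl⟩ := hx
    -- `h [a,k] h⁻¹ = [a,h]⁻¹ [a, h k]`
    have e : h * ⁅a, k⁆ * h⁻¹ = ⁅a, h⁆⁻¹ * ⁅a, h * k⁆ := by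
      simp only [commutatorElement_def]
      group
    rw [e]
    exact mul_mem (inv_mem (Subgroup.subset_closure ⟨a, ha, h, hh, rfl⟩))
      (Subgroup.subset_closure ⟨a, ha, h * k, mul_mem hh hk, rfl⟩)
  | one => simp [one_mem]
  | mul x y _ _ ihx ihy =>
    have e : h * (x * y) * h⁻¹ = (h * x * h⁻¹) * (h * y * h⁻¹) := by group
    rw [e]
    exact mul_mem ihx ihy
  | inv x _ ihx =>
    have e : h * x⁻¹ * h⁻¹ = (h * x * h⁻¹)⁻¹ := by group
    rw [e]
    exact inv_mem ihx

theorem commutator_conj_mem_left {G : Type*} [Group G] (A H : Subgroup G) {a : G} (ha : a ∈ A)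
    {x : G} (hx : x ∈ ⁅A, H⁆) : a * x * a⁻¹ ∈ ⁅A, H⁆ := by
  rw [Subgroup.commutator_def] at hx ⊢
  induction hx using Subgroup.closure_induction with
  | mem x hx =>
    obtain ⟨b, hb, k, hk, rfl⟩ := hx
    -- `a [b,k] a⁻¹ = [a b, k] [a, k]⁻¹`
    have e : a * ⁅b, k⁆ * a⁻¹ = ⁅a * b, k⁆ * ⁅a, k⁆⁻¹ := by
      simp only [commutatorElement_def]
      group
    rw [e]
    exact mul_mem (Subgroup.subset_closure ⟨a * b, mul_mem ha hb, k, hk, rfl⟩)
      (inv_mem (Subgroup.subset_closure ⟨a, ha, k, hk, rfl⟩))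
  | one => simp [one_mem]
  | mul x y _ _ ihx ihy =>
    have e : a * (x * y) * a⁻¹ = (a * x * a⁻¹) * (a * y * a⁻¹) := by group
    rw [e]
    exact mul_mem ihx ihy
  | inv x _ ihx =>
    have e : a * x⁻¹ * a⁻¹ = (a * x * a⁻¹)⁻¹ := by group
    rw [e]
    exact inv_mem ihx

theorem le_normalizer_of_conj_mem {G : Type*} [Group G] {K Y : Subgroup G}
    (h : ∀ g ∈ K, ∀ y ∈ Y, g * y * g⁻¹ ∈ Y) : K ≤ Subgroup.normalizer (Y : Set G) := by
  intro g hg
  rw [Subgroup.mem_normalizer_iff]
  intro y
  constructor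
  · exact h g hg y
  · intro hy
    have := h g⁻¹ (inv_mem hg) _ hy
    simpa [mul_assoc] using this

theorem conj_mem_sup {G : Type*} [Group G] {g : G} {Y₁ Y₂ Y : Subgroup G}
    (h₁ : ∀ y ∈ Y₁, g * y * g⁻¹ ∈ Y) (h₂ : ∀ y ∈ Y₂, g * y * g⁻¹ ∈ Y) :
    ∀ y ∈ Y₁ ⊔ Y₂, g * y * g⁻¹ ∈ Y := by
  have h : Y₁ ⊔ Y₂ ≤ Y.comap (MulAut.conj g).toMonoidHom := by
    apply sup_le
    · intro y hy
      exact h₁ y hy
    · intro y hy
      exact h₂ y hy
  intro y hy
  exact h hy

theorem iterate_mono {G : Type*} [Group G] {H K : Subgroup G} (hHK : H ≤ K) (m : ℕ) :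
    (fun X : Subgroup G => ⁅X, H⁆)^[m] ⊤ ≤ (fun X : Subgroup G => ⁅X, K⁆)^[m] ⊤ := by
  induction m with
  | zero => exact le_rfl
  | succ m ih =>
    rw [Function.iterate_succ_apply', Function.iterate_succ_apply']
    exact Subgroup.commutator_mono ih hHK

/-- A subgroup H of a group G is subnormal exactly when, for some m, the subgroup obtained from G by taking the commutator with H m times in succession is contained in H. -/
theorem result {G : Type*} [Group G] (H : Subgroup G) : H.IsSubnormal ↔ ∃ m : ℕ, (fun K : Subgroup G => ⁅K, H⁆)^[m] ⊤ ≤ H := by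
  constructor
  · intro hH
    induction hH with
    | top => exact ⟨0, le_rfl⟩
    | step H K hle hSub hN ih =>
      obtain ⟨m, hm⟩ := ih
      refine ⟨m + 1, ?_⟩
      rw [Function.iterate_succ_apply']
      have h1 : (fun X : Subgroup G => ⁅X, H⁆)^[m] ⊤ ≤ K := (iterate_mono hle m).trans hm
      refine (Subgroup.commutator_mono h1 le_rfl).trans ?_
      rw [Subgroup.commutator_le]
      intro k hk h hh
      have h2 := hN.conj_mem ⟨h, hle hh⟩ (Subgroup.mem_subgroupOf.mpr hh) ⟨k, hk⟩
      have h3 := Subgroup.mem_subgroupOf.mp h2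
      rw [commutatorElement_def]
      have h4 : (((⟨k, hk⟩ : K) * ⟨h, hle hh⟩ * (⟨k, hk⟩ : K)⁻¹ : K) : G) = k * h * k⁻¹ := rfl
      rw [h4] at h3
      exact mul_mem h3 (inv_mem hh)
  · rintro ⟨m, hm⟩
    set X : ℕ → Subgroup G := fun i => (fun X : Subgroup G => ⁅X, H⁆)^[i] ⊤ with hX
    have hXs : ∀ i, X (i + 1) = ⁅X i, H⁆ := fun i => Function.iterate_succ_apply' _ _ _
    have hXanti : ∀ i, X (i + 1) ≤ X i := by
      intro i
      induction i with
      | zero => exact le_top
      | succ i ih =>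
        calc X (i + 1 + 1) = ⁅X (i + 1), H⁆ := hXs _
          _ ≤ ⁅X i, H⁆ := Subgroup.commutator_mono ih le_rfl
          _ = X (i + 1) := (hXs i).symm
    have hY : ∀ i, (H ⊔ X i).IsSubnormal := by
      intro i
      induction i with
      | zero =>
        have : H ⊔ X 0 = ⊤ := by simp [hX]
        rw [this]
        exact Subgroup.IsSubnormal.top
      | succ i ih =>
        refine Subgroup.IsSubnormal.step _ (H ⊔ X i) (sup_le_sup_left (hXanti i) H) ih ?_
        rw [Subgroup.normal_subgroupOf_iff_le_normalizer (sup_le_sup_left (hXanti i) H)]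
        -- `H ⊔ X (i+1)` is normalized by `H` and by `X i`.
        apply sup_le
        · apply le_normalizer_of_conj_mem
          intro g hg
          apply conj_mem_sup
          · intro y hy
            exact (le_sup_left : H ≤ _) (mul_mem (mul_mem hg hy) (inv_mem hg))
          · intro y hy
            apply (le_sup_right : X (i + 1) ≤ _)
            rw [hXs] at hy ⊢
            exact commutator_conj_mem_right _ _ hg hy
        · apply le_normalizer_of_conj_mem
          intro g hg
          apply conj_mem_sup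
          · intro y hy
            have e : g * y * g⁻¹ = ⁅g, y⁆ * y := by
              rw [commutatorElement_def]; group
            rw [e]
            refine mul_mem ((le_sup_right : X (i + 1) ≤ _) ?_) ((le_sup_left : H ≤ _) hy)
            rw [hXs]
            exact Subgroup.commutator_mem_commutator hg hy
          · intro y hy
            apply (le_sup_right : X (i + 1) ≤ _)
            rw [hXs] at hy ⊢
            exact commutator_conj_mem_left _ _ hg hy
    have hfin : H ⊔ X m = H := sup_eq_left.mpr hm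
    rw [← hfin]
    exact hY m

end Cfsg.Agent.S0567
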