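import Cfsg.Statements.S0572
import Mathlib.Tactic.Group

set_option autoImplicit false
open Cfsg

namespace Cfsg.Agent.S0572

open scoped commutatorElement

section
variable {G : Type*} [Group G]

theorem comm_mul_right_cancel (a b₁ a₁ : G) (hc : a * a₁ = a₁ * a) :
    ⁅a, b₁ * a₁⁆ = ⁅a, b₁⁆ := by
  simp only [commutatorElement_def]
  have : a * (b₁ * a₁) * a⁻¹ * (b₁ * a₁)⁻¹ = a * b₁ * (a₁ * a⁻¹) * a₁⁻¹ * b₁⁻¹ := by group
  rw [this]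
  have h2 : a₁ * a⁻¹ = a⁻¹ * a₁ := by
    calc a₁ * a⁻¹ = a⁻¹ * (a * a₁) * a⁻¹ := by group
      _ = a⁻¹ * (a₁ * a) * a⁻¹ := by rw [hc]
      _ = a⁻¹ * a₁ := by group
  rw [h2]
  group

theorem comm_mul_left_cancel (a₂ b₂ b : G) (hc : b₂ * b = b * b₂) :
    ⁅a₂ * b₂, b⁆ = ⁅a₂, b⁆ := by
  simp only [commutatorElement_def]
  have h2 : b₂ * b * b₂⁻¹ = b := by rw [hc]; group
  calc a₂ * b₂ * b * (a₂ * b₂)⁻¹ * b⁻¹ = a₂ * (b₂ * b * b₂⁻¹) * a₂⁻¹ * b⁻¹ := by group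
    _ = a₂ * b * a₂⁻¹ * b⁻¹ := by rw [h2]

end

/-- Itô's Theorem: if a group G is the product AB of two abelian subgroups, then the commutator subgroup of G is abelian, i.e. the second term of the derived series is trivial. -/
theorem result {G : Type*} [Group G] (A B : Subgroup G) [IsMulCommutative A] [IsMulCommutative B] (hAB : ∀ g : G, ∃ a ∈ A, ∃ b ∈ B, g = a * b) : derivedSeries G 2 = ⊥ := by
  have hcA : ∀ a ∈ A, ∀ a' ∈ A, a * a' = a' * a := by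
    intro a ha a' ha'
    have := mul_comm' (⟨a, ha⟩ : A) ⟨a', ha'⟩
    exact congrArg Subtype.val this
  have hcB : ∀ b ∈ B, ∀ b' ∈ B, b * b' = b' * b := by
    intro b hb b' hb'
    have := mul_comm' (⟨b, hb⟩ : B) ⟨b', hb'⟩
    exact congrArg Subtype.val this
  have hBA : ∀ g : G, ∃ b ∈ B, ∃ a ∈ A, g = b * a := by
    intro g
    obtain ⟨a, ha, b, hb, hab⟩ := hAB g⁻¹
    refine ⟨b⁻¹, inv_mem hb, a⁻¹, inv_mem ha, ?_⟩
    rw [← mul_inv_rev, ← hab, inv_inv]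
  -- conjugation by `a'`
  have hconjA : ∀ a' ∈ A, ∀ b ∈ B, ∃ b₁ ∈ B, ∀ a ∈ A, a' * ⁅a, b⁆ * a'⁻¹ = ⁅a, b₁⁆ := by
    intro a' ha' b hb
    obtain ⟨b₁, hb₁, a₁, ha₁, h1⟩ := hBA (a' * b * a'⁻¹)
    refine ⟨b₁, hb₁, fun a ha => ?_⟩
    have e : a' * ⁅a, b⁆ * a'⁻¹ = ⁅a, a' * b * a'⁻¹⁆ := by
      simp only [commutatorElement_def]
      have h2 : a' * a = a * a' := hcA a' ha' a ha
      have h3 : a' * a⁻¹ = a⁻¹ * a' := by
        calc a' * a⁻¹ = a⁻¹ * (a * a') * a⁻¹ := by group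
          _ = a⁻¹ * (a' * a) * a⁻¹ := by rw [h2]
          _ = a⁻¹ * a' := by group
      calc a' * (a * b * a⁻¹ * b⁻¹) * a'⁻¹ = (a' * a) * b * a⁻¹ * b⁻¹ * a'⁻¹ := by group
        _ = a * a' * b * a⁻¹ * b⁻¹ * a'⁻¹ := by rw [h2]
        _ = a * a' * b * (a'⁻¹ * (a' * a⁻¹)) * b⁻¹ * a'⁻¹ := by group
        _ = a * a' * b * (a'⁻¹ * (a⁻¹ * a')) * b⁻¹ * a'⁻¹ := by rw [h3]
        _ = a * (a' * b * a'⁻¹) * a⁻¹ * (a' * b * a'⁻¹)⁻¹ := by group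
    rw [e, h1]
    exact comm_mul_right_cancel a b₁ a₁ (hcA a ha a₁ ha₁)
  -- conjugation by `b'`
  have hconjB : ∀ b' ∈ B, ∀ a ∈ A, ∃ a₂ ∈ A, ∀ b ∈ B, b' * ⁅a, b⁆ * b'⁻¹ = ⁅a₂, b⁆ := by
    intro b' hb' a ha
    obtain ⟨a₂, ha₂, b₂, hb₂, h1⟩ := hAB (b' * a * b'⁻¹)
    refine ⟨a₂, ha₂, fun b hb => ?_⟩
    have e : b' * ⁅a, b⁆ * b'⁻¹ = ⁅b' * a * b'⁻¹, b⁆ := by
      simp only [commutatorElement_def]
      have h2 : b' * b = b * b' := hcB b' hb' b hb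
      have h3 : b' * b⁻¹ = b⁻¹ * b' := by
        calc b' * b⁻¹ = b⁻¹ * (b * b') * b⁻¹ := by group
          _ = b⁻¹ * (b' * b) * b⁻¹ := by rw [h2]
          _ = b⁻¹ * b' := by group
      calc b' * (a * b * a⁻¹ * b⁻¹) * b'⁻¹
          = b' * a * b'⁻¹ * (b' * b) * a⁻¹ * b⁻¹ * b'⁻¹ := by group
        _ = b' * a * b'⁻¹ * (b * b') * a⁻¹ * b⁻¹ * b'⁻¹ := by rw [h2]
        _ = b' * a * b'⁻¹ * b * (b' * a⁻¹ * b'⁻¹) * (b' * b⁻¹) * b'⁻¹ := by group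
        _ = b' * a * b'⁻¹ * b * (b' * a⁻¹ * b'⁻¹) * (b⁻¹ * b') * b'⁻¹ := by rw [h3]
        _ = (b' * a * b'⁻¹) * b * (b' * a * b'⁻¹)⁻¹ * b⁻¹ := by group
    rw [e, h1]
    exact comm_mul_left_cancel a₂ b₂ b (hcB b₂ hb₂ b hb)
  -- the two orders of conjugation agree
  have hkey : ∀ a' ∈ A, ∀ b' ∈ B, ∀ a ∈ A, ∀ b ∈ B,
      (a' * b') * ⁅a, b⁆ * (a' * b')⁻¹ = (b' * a') * ⁅a, b⁆ * (b' * a')⁻¹ := by
    intro a' ha' b' hb' a ha b hb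
    obtain ⟨b₁, hb₁, h1⟩ := hconjA a' ha' b hb
    obtain ⟨a₂, ha₂, h2⟩ := hconjB b' hb' a ha
    calc (a' * b') * ⁅a, b⁆ * (a' * b')⁻¹ = a' * (b' * ⁅a, b⁆ * b'⁻¹) * a'⁻¹ := by group
      _ = a' * ⁅a₂, b⁆ * a'⁻¹ := by rw [h2 b hb]
      _ = ⁅a₂, b₁⁆ := h1 a₂ ha₂
      _ = b' * ⁅a, b₁⁆ * b'⁻¹ := (h2 b₁ hb₁).symm
      _ = b' * (a' * ⁅a, b⁆ * a'⁻¹) * b'⁻¹ := by rw [h1 a ha]
      _ = (b' * a') * ⁅a, b⁆ * (b' * a')⁻¹ := by group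
  -- commutators commute
  have hcomm : ∀ a' ∈ A, ∀ b' ∈ B, ∀ a ∈ A, ∀ b ∈ B, ⁅a', b'⁆ * ⁅a, b⁆ = ⁅a, b⁆ * ⁅a', b'⁆ := by
    intro a' ha' b' hb' a ha b hb
    -- pull back `⁅a,b⁆` along `b' a'`
    obtain ⟨b₁, hb₁, h1⟩ := hconjA a'⁻¹ (inv_mem ha') b hb
    obtain ⟨a₂, ha₂, h2⟩ := hconjB b'⁻¹ (inv_mem hb') a ha
    obtain ⟨a₃, ha₃, b₃, hb₃, h3⟩ :
        ∃ a₃ ∈ A, ∃ b₃ ∈ B, (b' * a')⁻¹ * ⁅a, b⁆ * (b' * a') = ⁅a₃, b₃⁆ := by
      obtain ⟨a₃, ha₃, h4⟩ := hconjB b'⁻¹ (inv_mem hb') a ha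
      obtain ⟨b₃, hb₃, h5⟩ := hconjA a'⁻¹ (inv_mem ha') b hb
      refine ⟨a₃, ha₃, b₃, hb₃, ?_⟩
      calc (b' * a')⁻¹ * ⁅a, b⁆ * (b' * a') = a'⁻¹ * (b'⁻¹ * ⁅a, b⁆ * b'⁻¹⁻¹) * a'⁻¹⁻¹ := by group
        _ = a'⁻¹ * ⁅a₃, b⁆ * a'⁻¹⁻¹ := by rw [h4 b hb]
        _ = ⁅a₃, b₃⁆ := h5 a₃ ha₃
    have h4 := hkey a' ha' b' hb' a₃ ha₃ b₃ hb₃
    rw [← h3] at h4
    have h5 : (b' * a') * ((b' * a')⁻¹ * ⁅a, b⁆ * (b' * a')) * (b' * a')⁻¹ = ⁅a, b⁆ := by group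
    rw [h5] at h4
    -- `h4 : (a' b') c (a' b')⁻¹ = ⁅a, b⁆` where `c = (b' a')⁻¹ ⁅a,b⁆ (b' a')`.
    have e : ⁅a', b'⁆ = (a' * b') * (b' * a')⁻¹ := by
      rw [commutatorElement_def]; group
    rw [e]
    calc (a' * b') * (b' * a')⁻¹ * ⁅a, b⁆
        = ((a' * b') * ((b' * a')⁻¹ * ⁅a, b⁆ * (b' * a')) * (a' * b')⁻¹) * ((a' * b') * (b' * a')⁻¹) := by group
      _ = ⁅a, b⁆ * ((a' * b') * (b' * a')⁻¹) := by rw [h4]
  -- the commutator subgroup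
  set N : Subgroup G := ⁅A, B⁆ with hN
  set S : Set G := {g | ∃ g₁ ∈ A, ∃ g₂ ∈ B, ⁅g₁, g₂⁆ = g} with hS
  have hNS : N = Subgroup.closure S := Subgroup.commutator_def A B
  have hNcomm : N ≤ Subgroup.centralizer (N : Set G) := by
    rw [hNS, Subgroup.closure_le, Subgroup.centralizer_closure]
    intro x hx
    rw [SetLike.mem_coe, Subgroup.mem_centralizer_iff]
    intro y hy
    obtain ⟨a, ha, b, hb, rfl⟩ := hx
    obtain ⟨a', ha', b', hb', rfl⟩ := hy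
    exact hcomm a' ha' b' hb' a ha b hb
  -- `N` is normal
  have hNn : N.Normal := by
    constructor
    intro x hx g
    rw [hNS] at hx ⊢
    induction hx using Subgroup.closure_induction with
    | mem x hx =>
      obtain ⟨a, ha, b, hb, rfl⟩ := hx
      obtain ⟨a', ha', b', hb', rfl⟩ := hAB g
      obtain ⟨a₂, ha₂, h2⟩ := hconjB b' hb' a ha
      obtain ⟨b₁, hb₁, h1⟩ := hconjA a' ha' b hb
      have e : a' * b' * ⁅a, b⁆ * (a' * b')⁻¹ = a' * (b' * ⁅a, b⁆ * b'⁻¹) * a'⁻¹ := by group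
      rw [e, h2 b hb]
      obtain ⟨b₄, hb₄, h4⟩ := hconjA a' ha' b hb
      rw [h4 a₂ ha₂]
      exact Subgroup.subset_closure ⟨a₂, ha₂, b₄, hb₄, rfl⟩
    | one => simp [one_mem]
    | mul x y _ _ ihx ihy =>
      have e : g * (x * y) * g⁻¹ = (g * x * g⁻¹) * (g * y * g⁻¹) := by group
      rw [e]
      exact mul_mem ihx ihy
    | inv x _ ihx =>
      have e : g * x⁻¹ * g⁻¹ = (g * x * g⁻¹)⁻¹ := by group
      rw [e]
      exact inv_mem ihx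
  -- `G / N` is commutative
  have hquot : commutator G ≤ N := by
    rw [_root_.commutator_def, Subgroup.commutator_le]
    intro x _ y _
    obtain ⟨a, ha, b, hb, rfl⟩ := hAB x
    obtain ⟨c, hc, d, hd, rfl⟩ := hAB y
    apply (QuotientGroup.eq_one_iff _).mp
    change QuotientGroup.mk' N _ = 1
    have hab : ∀ a ∈ A, ∀ b ∈ B, Commute (QuotientGroup.mk' N a) (QuotientGroup.mk' N b) := by
      intro a ha b hb
      have h1 : ⁅a, b⁆ ∈ N := Subgroup.commutator_mem_commutator ha hb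
      have h2 : QuotientGroup.mk' N ⁅a, b⁆ = 1 := (QuotientGroup.eq_one_iff _).mpr h1
      rw [map_commutatorElement] at h2
      exact commutatorElement_eq_one_iff_commute.mp h2
    have haa : Commute (QuotientGroup.mk' N a) (QuotientGroup.mk' N c) := by
      show QuotientGroup.mk' N a * QuotientGroup.mk' N c = QuotientGroup.mk' N c * QuotientGroup.mk' N a
      rw [← map_mul, ← map_mul, hcA a ha c hc]
    have hbb : Commute (QuotientGroup.mk' N b) (QuotientGroup.mk' N d) := by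
      show QuotientGroup.mk' N b * QuotientGroup.mk' N d = QuotientGroup.mk' N d * QuotientGroup.mk' N b
      rw [← map_mul, ← map_mul, hcB b hb d hd]
    rw [map_commutatorElement, commutatorElement_eq_one_iff_commute, map_mul, map_mul]
    exact Commute.mul_left (Commute.mul_right haa (hab a ha d hd))
      (Commute.mul_right (hab c hc b hb).symm hbb)
  -- conclude
  have h2 : derivedSeries G 2 = ⁅commutator G, commutator G⁆ := by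
    have : derivedSeries G 1 = commutator G := by
      rw [derivedSeries_one]
    rw [show (2 : ℕ) = 1 + 1 from rfl, derivedSeries_succ, this]
  rw [h2, eq_bot_iff]
  calc ⁅commutator G, commutator G⁆ ≤ ⁅N, N⁆ := Subgroup.commutator_mono hquot hquot
    _ = ⊥ := (Subgroup.commutator_eq_bot_iff_le_centralizer).mpr hNcomm

end Cfsg.Agent.S0572
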