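import Cfsg.Statements.S0573
import Cfsg.Agent.S0572
import Cfsg.Agent.S0560
import Cfsg.Agent.Lib.Core.Residual
import Cfsg.Agent.Lib.SolvStruct.Schmidt
import Cfsg.Agent.Lib.PGroups.Basic

set_option autoImplicit false
open Cfsg

namespace Cfsg.Agent.S0573

open Subgroup
open scoped commutatorElement

universe u

/-- The `p`-elements of a commutative subgroup. -/
def pPart {G : Type u} [Group G] (W : Subgroup G) (hW : ∀ x ∈ W, ∀ y ∈ W, x * y = y * x) (p : ℕ) :
    Subgroup G where
  carrier := {w | w ∈ W ∧ ∃ k : ℕ, w ^ p ^ k = 1}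
  mul_mem' := by
    rintro a b ⟨ha, k, hk⟩ ⟨hb, l, hl⟩
    refine ⟨W.mul_mem ha hb, k + l, ?_⟩
    have hab : Commute a b := hW a ha b hb
    rw [hab.mul_pow, pow_add, pow_mul, hk, one_pow, one_mul, mul_comm, pow_mul, hl, one_pow]
  one_mem' := ⟨W.one_mem, 0, by simp⟩
  inv_mem' := by
    rintro a ⟨ha, k, hk⟩
    exact ⟨W.inv_mem ha, k, by rw [inv_pow, hk, inv_one]⟩

theorem mem_pPart {G : Type u} [Group G] {W : Subgroup G} {hW : ∀ x ∈ W, ∀ y ∈ W, x * y = y * x} {p : ℕ}
    {w : G} : w ∈ pPart W hW p ↔ w ∈ W ∧ ∃ k : ℕ, w ^ p ^ k = 1 := Iff.rfl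

theorem pPart_isPGroup {G : Type u} [Group G] (W : Subgroup G) (hW : ∀ x ∈ W, ∀ y ∈ W, x * y = y * x)
    (p : ℕ) : IsPGroup p (pPart W hW p) := by
  rintro ⟨g, hg, k, hk⟩
  exact ⟨k, Subtype.ext (by simpa using hk)⟩

theorem pPart_normal {G : Type u} [Group G] (W : Subgroup G) [hWn : W.Normal]
    (hW : ∀ x ∈ W, ∀ y ∈ W, x * y = y * x) (p : ℕ) : (pPart W hW p).Normal := by
  constructor
  rintro x ⟨hx, k, hk⟩ g
  refine ⟨hWn.conj_mem x hx g, k, ?_⟩
  rw [conj_pow, hk]
  simp

/-- In a commutative subgroup, a `p`-element lies in any Sylow `p`-subgroup. -/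
theorem mem_sylow_of_comm {G : Type u} [Group G] [Finite G] {p : ℕ} [Fact p.Prime] (W : Subgroup G)
    (hW : ∀ x ∈ W, ∀ y ∈ W, x * y = y * x) (P : Sylow p W) (w : G) (hw : w ∈ W)
    (hk : ∃ k : ℕ, w ^ p ^ k = 1) : w ∈ (P : Subgroup W).map W.subtype := by
  let Q : Subgroup W := (pPart W hW p).subgroupOf W
  have hQ : IsPGroup p Q := (pPart_isPGroup W hW p).comap_of_injective W.subtype W.subtype_injective
  have hPQ : (P : Subgroup W) ≤ Q := by
    intro x hx
    obtain ⟨k, hk⟩ := P.isPGroup' ⟨x, hx⟩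
    refine ⟨x.2, k, ?_⟩
    have := congrArg (fun y : (P : Subgroup W) => ((y : W) : G)) hk
    simpa using this
  have e := P.is_maximal' hQ hPQ
  have h1 : (⟨w, hw⟩ : W) ∈ Q := ⟨hw, hk⟩
  rw [e] at h1
  exact ⟨_, h1, rfl⟩

/-- Conjugation by an element of a commutative supplement of the commutator subgroup preserves a
Sylow subgroup containing its `p`-elements. -/
theorem conj_mem_sylow {G : Type u} [Group G] [Finite G] {p : ℕ} [hp : Fact p.Prime] (W : Subgroup G)
    (hV : ∀ x ∈ commutator G, ∀ y ∈ commutator G, x * y = y * x)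
    (hW : ∀ x ∈ W, ∀ y ∈ W, x * y = y * x)
    (hWV : ∀ g : G, ∃ w ∈ W, ∃ v ∈ commutator G, g = w * v) (R : Sylow p G)
    (hWR : ∀ w ∈ W, (∃ k : ℕ, w ^ p ^ k = 1) → w ∈ (R : Subgroup G)) (w₀ : G) (hw₀ : w₀ ∈ W) (r : G)
    (hr : r ∈ (R : Subgroup G)) : w₀ * r * w₀⁻¹ ∈ (R : Subgroup G) := by
  classical
  set T := pPart (commutator G) hV p with hT
  haveI hTn : T.Normal := pPart_normal _ hV p
  have hTp : IsPGroup p T := pPart_isPGroup _ hV p
  have hTR : T ≤ (R : Subgroup G) := by
    have h1 : IsPGroup p (((R : Subgroup G) ⊔ T : Subgroup G)) := R.isPGroup'.to_sup_of_normal_right hTp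
    have e := R.is_maximal' h1 le_sup_left
    rw [← e]
    exact le_sup_right
  have hRel : ∀ x ∈ (R : Subgroup G), ∃ k : ℕ, x ^ p ^ k = 1 := by
    intro x hx
    obtain ⟨k, hk⟩ := R.isPGroup' ⟨x, hx⟩
    exact ⟨k, by simpa using congrArg Subtype.val hk⟩
  obtain ⟨w, hw, v, hv, hrw⟩ := hWV r
  obtain ⟨a, b, hab, -, ⟨k, hk⟩, hb, haz, hbz⟩ := Cfsg.Agent.Lib.Core.Residual.exists_pPart_pPrimePart p w
    (isOfFinOrder_of_finite w)
  have haW : a ∈ W := (zpowers_le.mpr hw) haz
  have hbW : b ∈ W := (zpowers_le.mpr hw) hbz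
  -- `b` lies in the commutator subgroup
  have hbV : b ∈ commutator G := by
    obtain ⟨s, hs⟩ := hRel r hr
    rw [← Abelianization.ker_of, MonoidHom.mem_ker]
    set π : G →* Abelianization G := Abelianization.of with hπ
    have hv1 : π v = 1 := by
      have : v ∈ π.ker := by rw [hπ, Abelianization.ker_of]; exact hv
      exact this
    have h1 : π b = (π a)⁻¹ * π r := by
      rw [hrw, ← hab, map_mul, map_mul, hv1]
      group
    have h2 : (π b) ^ (p ^ (k + s)) = 1 := by
      rw [h1, mul_pow, inv_pow, pow_add, pow_mul, ← map_pow, hk, map_one, one_pow, inv_one, one_mul,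
        mul_comm, pow_mul, ← map_pow, hs, map_one, one_pow]
    have h3 : (π b) ^ orderOf b = 1 := by rw [← map_pow, pow_orderOf_eq_one, map_one]
    have hc : (p ^ (k + s)).Coprime (orderOf b) := Nat.Coprime.pow_left _ hb.symm
    exact orderOf_eq_one_iff.mp (Nat.eq_one_of_dvd_coprimes hc (orderOf_dvd_of_pow_eq_one h2)
      (orderOf_dvd_of_pow_eq_one h3))
  have haR : a ∈ (R : Subgroup G) := hWR a haW ⟨k, hk⟩
  set v' := b * v with hv'
  have hv'V : v' ∈ commutator G := mul_mem hbV hv
  have hra : r = a * v' := by rw [hrw, ← hab, hv', mul_assoc]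
  have hv'R : v' ∈ (R : Subgroup G) := by
    have : v' = a⁻¹ * r := by rw [hra]; group
    rw [this]
    exact mul_mem (inv_mem haR) hr
  have hv'T : v' ∈ T := ⟨hv'V, hRel v' hv'R⟩
  have e : w₀ * r * w₀⁻¹ = a * (w₀ * v' * w₀⁻¹) := by
    have h5 : w₀ * a = a * w₀ := hW _ hw₀ _ haW
    rw [hra]
    calc w₀ * (a * v') * w₀⁻¹ = (w₀ * a) * v' * w₀⁻¹ := by group
      _ = a * w₀ * v' * w₀⁻¹ := by rw [h5]
      _ = _ := by group
  rw [e]
  exact mul_mem haR (hTR (hTn.conj_mem _ hv'T _))

/-- If `G = AB` and both factors supplement the commutator subgroup then `G` is nilpotent. -/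
theorem isNilpotent_of_supplements {G : Type u} [Group G] [Finite G] (A B : Subgroup G)
    (hcA : ∀ x ∈ A, ∀ y ∈ A, x * y = y * x) (hcB : ∀ x ∈ B, ∀ y ∈ B, x * y = y * x)
    (hAB : ∀ g : G, ∃ a ∈ A, ∃ b ∈ B, g = a * b)
    (hV : ∀ x ∈ commutator G, ∀ y ∈ commutator G, x * y = y * x)
    (hAV : ∀ g : G, ∃ w ∈ A, ∃ v ∈ commutator G, g = w * v)
    (hBV : ∀ g : G, ∃ w ∈ B, ∃ v ∈ commutator G, g = w * v) : Group.IsNilpotent G := by
  have t := (Group.isNilpotent_of_finite_tfae (G := G)).out 0 3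
  rw [t]
  intro p hp S
  obtain ⟨P, Q, R, hR⟩ := Cfsg.Agent.S0560.result A B hAB p
  have hPR : ∀ w ∈ A, (∃ k : ℕ, w ^ p ^ k = 1) → w ∈ (R : Subgroup G) := by
    intro w hw hk
    have h1 := mem_sylow_of_comm A hcA P w hw hk
    have h2 : w ∈ ((R : Subgroup G) : Set G) := by
      rw [hR]
      exact ⟨w, h1, 1, Subgroup.one_mem _, by simp⟩
    exact h2
  have hQR : ∀ w ∈ B, (∃ k : ℕ, w ^ p ^ k = 1) → w ∈ (R : Subgroup G) := by
    intro w hw hk
    have h1 := mem_sylow_of_comm B hcB Q w hw hk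
    have h2 : w ∈ ((R : Subgroup G) : Set G) := by
      rw [hR]
      exact ⟨1, Subgroup.one_mem _, w, h1, by simp⟩
    exact h2
  have hRn : (R : Subgroup G).Normal := by
    constructor
    intro r hr g
    obtain ⟨a, ha, b, hb, rfl⟩ := hAB g
    have e : a * b * r * (a * b)⁻¹ = a * (b * r * b⁻¹) * a⁻¹ := by group
    rw [e]
    exact conj_mem_sylow A hV hcA hAV R hPR a ha _
      (conj_mem_sylow B hV hcB hBV R hQR b hb r hr)
  haveI := Sylow.unique_of_normal R hRn
  rw [Subsingleton.elim S R]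
  exact hRn

theorem subsingleton_of_nilpotent_of_center {G : Type u} [Group G] (hn : Group.IsNilpotent G)
    (hZ : Subgroup.center G = ⊥) : Subsingleton G := by
  have h1 : ∀ n, Subgroup.upperCentralSeries G n = ⊥ := by
    intro n
    induction n with
    | zero => exact Subgroup.upperCentralSeries_zero G
    | succ n ih =>
      rw [eq_bot_iff]
      intro x hx
      rw [Subgroup.mem_upperCentralSeries_succ_iff] at hx
      have hxc : x ∈ Subgroup.center G := by
        rw [Subgroup.mem_center_iff]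
        intro y
        have h2 := hx y
        rw [ih, Subgroup.mem_bot] at h2
        rw [commutatorElement_eq_one_iff_mul_comm] at h2
        exact h2.symm
      rwa [hZ] at hxc
  obtain ⟨n, hn'⟩ := hn.nilpotent
  rw [h1 n] at hn'
  refine ⟨fun x y => ?_⟩
  have hx : x ∈ (⊤ : Subgroup G) := Subgroup.mem_top x
  have hy : y ∈ (⊤ : Subgroup G) := Subgroup.mem_top y
  rw [← hn', Subgroup.mem_bot] at hx hy
  rw [hx, hy]

/-- The induction step when `A G' ≠ G`. -/
theorem step {G : Type u} [Group G] [Finite G] (A B : Subgroup G)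
    (hcA : ∀ x ∈ A, ∀ y ∈ A, x * y = y * x) (hcB : ∀ x ∈ B, ∀ y ∈ B, x * y = y * x)
    (hAB : ∀ g : G, ∃ a ∈ A, ∃ b ∈ B, g = a * b) (hZ : Subgroup.center G = ⊥)
    (hV : ∀ x ∈ commutator G, ∀ y ∈ commutator G, x * y = y * x) (hVne : commutator G ≠ ⊥)
    (hne : A ⊔ commutator G ≠ ⊤)
    (ih : ∀ (H : Type u) [Group H] [Finite H] [Nontrivial H] (A' B' : Subgroup H),
      (∀ x ∈ A', ∀ y ∈ A', x * y = y * x) → (∀ x ∈ B', ∀ y ∈ B', x * y = y * x) →
      (∀ g : H, ∃ a ∈ A', ∃ b ∈ B', g = a * b) → Nat.card H < Nat.card G →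
      ∃ N : Subgroup H, N.Normal ∧ N ≠ ⊥ ∧ (N ≤ A' ∨ N ≤ B')) :
    ∃ N : Subgroup G, N.Normal ∧ N ≠ ⊥ ∧ (N ≤ A ∨ N ≤ B) := by
  classical
  set V := commutator G with hVdef
  set M := A ⊔ V with hM
  have hAM : A ≤ M := le_sup_left
  have hVM : V ≤ M := le_sup_right
  haveI hMn : M.Normal := Cfsg.Agent.Lib.SolvStruct.Schmidt.normal_of_commutator_le M hVM
  have hMnt : Nontrivial M := by
    rw [Subgroup.nontrivial_iff_ne_bot]
    intro h
    apply hVne
    rw [eq_bot_iff, ← h]
    exact hVM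
  have hcard : Nat.card M < Nat.card G := by
    have h1 := Cfsg.Agent.Lib.PGroups.Basic.card_lt_of_lt (lt_top_iff_ne_top.mpr hne)
    rwa [Subgroup.card_top] at h1
  obtain ⟨K, hKn, hKne, hK⟩ := ih M (A.subgroupOf M) (B.subgroupOf M)
    (fun x hx y hy => Subtype.ext (hcA _ hx _ hy)) (fun x hx y hy => Subtype.ext (hcB _ hx _ hy))
    (by
      rintro ⟨m, hm⟩
      obtain ⟨a, ha, b, hb, rfl⟩ := hAB m
      have hbM : b ∈ M := by
        have := M.mul_mem (M.inv_mem (hAM ha)) hm
        simpa using this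
      exact ⟨⟨a, hAM ha⟩, ha, ⟨b, hbM⟩, hb, rfl⟩) hcard
  set K₁ : Subgroup G := K.map M.subtype with hK₁
  have hK₁conj : ∀ m ∈ M, ∀ x ∈ K₁, m * x * m⁻¹ ∈ K₁ := by
    rintro m hm _ ⟨x, hx, rfl⟩
    exact ⟨_, hKn.conj_mem x hx ⟨m, hm⟩, rfl⟩
  have hK₁ne : K₁ ≠ ⊥ := by
    intro h
    apply hKne
    rw [eq_bot_iff]
    intro x hx
    have h1 : (x : G) ∈ K₁ := ⟨x, hx, rfl⟩
    rw [h, Subgroup.mem_bot] at h1
    exact Subgroup.mem_bot.mpr (Subtype.ext h1)
  rcases hK with hKA | hKB
  · -- `K₁ ≤ A`: the centre of `M`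
    have hK₁A : K₁ ≤ A := by
      rintro _ ⟨x, hx, rfl⟩
      exact hKA hx
    let C : Subgroup G := M ⊓ Subgroup.centralizer (M : Set G)
    have hCn : C.Normal := by
      constructor
      rintro z ⟨hzM, hzc⟩ g
      refine ⟨hMn.conj_mem z hzM g, ?_⟩
      change g * z * g⁻¹ ∈ Subgroup.centralizer (M : Set G)
      have hzc' : z ∈ Subgroup.centralizer (M : Set G) := hzc
      rw [Subgroup.mem_centralizer_iff] at hzc' ⊢
      intro m hm
      have hm' : g⁻¹ * m * g ∈ M := by
        have := hMn.conj_mem m hm g⁻¹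
        simpa using this
      have h1 := hzc' _ hm'
      calc m * (g * z * g⁻¹) = g * ((g⁻¹ * m * g) * z) * g⁻¹ := by group
        _ = g * (z * (g⁻¹ * m * g)) * g⁻¹ := by rw [h1]
        _ = _ := by group
    have hCA : C ≤ A := by
      rintro z ⟨hzM, hzc⟩
      obtain ⟨a, ha, b, hb, rfl⟩ := hAB z
      have hbZ : b ∈ Subgroup.center G := by
        rw [Subgroup.mem_center_iff]
        intro g
        obtain ⟨a', ha', b', hb', rfl⟩ := hAB g
        have h1 : a' * b = b * a' := by
          have h2 := Subgroup.mem_centralizer_iff.mp hzc a' (hAM ha')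
          have h3 : a' * a = a * a' := hcA _ ha' _ ha
          have h4 : a * (a' * b) = a * (b * a') := by
            calc a * (a' * b) = (a * a') * b := by group
              _ = (a' * a) * b := by rw [h3]
              _ = a' * (a * b) := by group
              _ = (a * b) * a' := h2
              _ = a * (b * a') := by group
          exact mul_left_cancel h4
        have h5 : b' * b = b * b' := hcB _ hb' _ hb
        calc a' * b' * b = a' * (b' * b) := by group
          _ = a' * (b * b') := by rw [h5]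
          _ = (a' * b) * b' := by group
          _ = (b * a') * b' := by rw [h1]
          _ = b * (a' * b') := by group
      rw [hZ, Subgroup.mem_bot] at hbZ
      subst hbZ
      simpa using ha
    refine ⟨C, hCn, ?_, Or.inl hCA⟩
    -- `C` is nontrivial
    have hcentr : ∀ x ∈ A, (∀ v ∈ V, v * x = x * v) → x ∈ Subgroup.centralizer (M : Set G) := by
      intro x hx hxV
      have h1 : M ≤ Subgroup.centralizer ({x} : Set G) := by
        rw [hM, sup_le_iff]
        constructor
        · intro a ha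
          rw [Subgroup.mem_centralizer_singleton_iff]
          exact hcA _ ha _ hx
        · intro v hv
          rw [Subgroup.mem_centralizer_singleton_iff]
          exact hxV v hv
      rw [Subgroup.mem_centralizer_iff]
      intro m hm
      exact Subgroup.mem_centralizer_singleton_iff.mp (h1 hm)
    by_cases hKV : K₁ ⊓ V = ⊥
    · obtain ⟨x, hxK, hx1⟩ := (Subgroup.bot_or_exists_ne_one K₁).resolve_left hK₁ne
      intro hC
      apply hx1
      have hxM : x ∈ M := by
        obtain ⟨y, -, rfl⟩ := hxK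
        exact y.2
      have hxC : x ∈ C := by
        refine ⟨hxM, hcentr x (hK₁A hxK) ?_⟩
        intro v hv
        have h2 : x * (v * x⁻¹ * v⁻¹) ∈ K₁ :=
          K₁.mul_mem hxK (hK₁conj v (hVM hv) _ (K₁.inv_mem hxK))
        have h3 : (x * v * x⁻¹) * v⁻¹ ∈ V :=
          V.mul_mem (Subgroup.Normal.conj_mem inferInstance v hv x) (V.inv_mem hv)
        have h4 : x * (v * x⁻¹ * v⁻¹) = (x * v * x⁻¹) * v⁻¹ := by group
        rw [← h4] at h3
        have h5 : x * (v * x⁻¹ * v⁻¹) ∈ K₁ ⊓ V := ⟨h2, h3⟩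
        rw [hKV, Subgroup.mem_bot] at h5
        have h6 : x * v * x⁻¹ * v⁻¹ = 1 := by rw [← h5]; group
        have h7 : x * v = v * x := by
          have h8 : ⁅x, v⁆ = 1 := h6
          exact commutatorElement_eq_one_iff_mul_comm.mp h8
        exact h7.symm
      rw [hC, Subgroup.mem_bot] at hxC
      exact hxC
    · obtain ⟨x, hxK, hx1⟩ := (Subgroup.bot_or_exists_ne_one (K₁ ⊓ V)).resolve_left hKV
      intro hC
      apply hx1
      have hxC : x ∈ C := by
        refine ⟨hVM hxK.2, hcentr x (hK₁A hxK.1) ?_⟩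
        intro v hv
        exact hV _ hv _ hxK.2
      rw [hC, Subgroup.mem_bot] at hxC
      exact hxC
  · -- `K₁ ≤ B`
    have hK₁B : K₁ ≤ B := by
      rintro _ ⟨x, hx, rfl⟩
      exact hKB hx
    refine ⟨K₁, ?_, hK₁ne, Or.inr hK₁B⟩
    constructor
    intro x hx g
    obtain ⟨a, ha, b, hb, rfl⟩ := hAB g
    have h1 : b * x = x * b := hcB _ hb _ (hK₁B hx)
    have e : a * b * x * (a * b)⁻¹ = a * x * a⁻¹ := by
      calc a * b * x * (a * b)⁻¹ = a * (b * x) * b⁻¹ * a⁻¹ := by group
        _ = a * (x * b) * b⁻¹ * a⁻¹ := by rw [h1]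
        _ = _ := by group
    rw [e]
    exact hK₁conj a (hAM ha) x hx

/-- The main induction. -/
theorem main : ∀ (n : ℕ) (G : Type u) [Group G] [Finite G] [Nontrivial G] (A B : Subgroup G),
    (∀ x ∈ A, ∀ y ∈ A, x * y = y * x) → (∀ x ∈ B, ∀ y ∈ B, x * y = y * x) →
    (∀ g : G, ∃ a ∈ A, ∃ b ∈ B, g = a * b) → Nat.card G = n →
    ∃ N : Subgroup G, N.Normal ∧ N ≠ ⊥ ∧ (N ≤ A ∨ N ≤ B) := by
  intro n
  induction n using Nat.strong_induction_on with
  | _ n IH =>
    intro G _ _ _ A B hcA hcB hAB hn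
    have ih : ∀ (H : Type u) [Group H] [Finite H] [Nontrivial H] (A' B' : Subgroup H),
        (∀ x ∈ A', ∀ y ∈ A', x * y = y * x) → (∀ x ∈ B', ∀ y ∈ B', x * y = y * x) →
        (∀ g : H, ∃ a ∈ A', ∃ b ∈ B', g = a * b) → Nat.card H < Nat.card G →
        ∃ N : Subgroup H, N.Normal ∧ N ≠ ⊥ ∧ (N ≤ A' ∨ N ≤ B') := by
      intro H _ _ _ A' B' h1 h2 h3 h4
      exact IH _ (hn ▸ h4) H A' B' h1 h2 h3 rfl
    have hAB' : ∀ g : G, ∃ b ∈ B, ∃ a ∈ A, g = b * a := by
      intro g
      obtain ⟨a, ha, b, hb, e⟩ := hAB g⁻¹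
      exact ⟨b⁻¹, inv_mem hb, a⁻¹, inv_mem ha, by rw [← mul_inv_rev, ← e, inv_inv]⟩
    by_cases hZ : Subgroup.center G = ⊥
    · -- the commutator subgroup is abelian
      haveI : IsMulCommutative A := ⟨⟨fun x y => Subtype.ext (hcA _ x.2 _ y.2)⟩⟩
      haveI : IsMulCommutative B := ⟨⟨fun x y => Subtype.ext (hcB _ x.2 _ y.2)⟩⟩
      have hder : derivedSeries G 2 = ⊥ := Cfsg.Agent.S0572.result A B hAB
      have hV : ∀ x ∈ commutator G, ∀ y ∈ commutator G, x * y = y * x := by
        intro x hx y hy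
        have h1 : ⁅x, y⁆ ∈ derivedSeries G 2 := by
          rw [derivedSeries_succ, derivedSeries_one]
          exact Subgroup.commutator_mem_commutator hx hy
        rw [hder, Subgroup.mem_bot] at h1
        exact commutatorElement_eq_one_iff_mul_comm.mp h1
      have hVne : commutator G ≠ ⊥ := by
        intro h
        have h1 : ∀ x : G, x ∈ Subgroup.center G := by
          intro x
          rw [Subgroup.mem_center_iff]
          intro y
          have h2 : ⁅y, x⁆ ∈ commutator G :=
            Subgroup.commutator_mem_commutator (Subgroup.mem_top _) (Subgroup.mem_top _)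
          rw [h, Subgroup.mem_bot] at h2
          exact commutatorElement_eq_one_iff_mul_comm.mp h2
        obtain ⟨x, hx⟩ := exists_ne (1 : G)
        have h2 := h1 x
        rw [hZ, Subgroup.mem_bot] at h2
        exact hx h2
      by_cases h1 : A ⊔ commutator G = ⊤
      · by_cases h2 : B ⊔ commutator G = ⊤
        · exfalso
          have hsup : ∀ W : Subgroup G, W ⊔ commutator G = ⊤ →
              ∀ g : G, ∃ w ∈ W, ∃ v ∈ commutator G, g = w * v := by
            intro W hW g
            have h3 : g ∈ ((W ⊔ commutator G : Subgroup G) : Set G) := by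
              rw [hW]; exact Set.mem_univ _
            rw [Subgroup.mul_normal] at h3
            obtain ⟨w, hw, v, hv, e⟩ := h3
            exact ⟨w, hw, v, hv, e.symm⟩
          have hnil := isNilpotent_of_supplements A B hcA hcB hAB hV (hsup A h1) (hsup B h2)
          have hs := subsingleton_of_nilpotent_of_center hnil hZ
          exact not_subsingleton G hs
        · obtain ⟨N, hN, hNe, hNle⟩ := step B A hcB hcA hAB' hZ hV hVne h2 ih
          exact ⟨N, hN, hNe, hNle.symm⟩
      · exact step A B hcA hcB hAB hZ hV hVne h1 ih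
    · obtain ⟨z, hz, hz1⟩ := (Subgroup.bot_or_exists_ne_one (Subgroup.center G)).resolve_left hZ
      obtain ⟨a, ha, b, hb, rfl⟩ := hAB z
      have hzc : ∀ g : G, g * (a * b) = (a * b) * g := Subgroup.mem_center_iff.mp hz
      have haZ : a ∈ Subgroup.center G := by
        rw [Subgroup.mem_center_iff]
        intro g
        obtain ⟨a', ha', b', hb', rfl⟩ := hAB g
        have h1 : a' * a = a * a' := hcA _ ha' _ ha
        have h2 : b' * a = a * b' := by
          have h3 := hzc b'
          have h4 : b' * b = b * b' := hcB _ hb' _ hb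
          have h5 : (b' * a) * b = (a * b') * b := by
            calc (b' * a) * b = b' * (a * b) := by group
              _ = (a * b) * b' := h3
              _ = a * (b * b') := by group
              _ = a * (b' * b) := by rw [h4]
              _ = (a * b') * b := by group
          exact mul_right_cancel h5
        calc a' * b' * a = a' * (b' * a) := by group
          _ = a' * (a * b') := by rw [h2]
          _ = (a' * a) * b' := by group
          _ = (a * a') * b' := by rw [h1]
          _ = a * (a' * b') := by group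
      have hbZ : b ∈ Subgroup.center G := by
        have := (Subgroup.center G).mul_mem ((Subgroup.center G).inv_mem haZ) hz
        simpa using this
      have hnormal : ∀ W : Subgroup G, (Subgroup.center G ⊓ W).Normal := by
        intro W
        constructor
        rintro x ⟨hx1, hx2⟩ g
        have h1 : g * x = x * g := Subgroup.mem_center_iff.mp hx1 g
        have e : g * x * g⁻¹ = x := by rw [h1]; group
        rw [e]
        exact ⟨hx1, hx2⟩
      by_cases ha1 : a = 1
      · subst ha1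
        refine ⟨Subgroup.center G ⊓ B, hnormal B, ?_, Or.inr inf_le_right⟩
        intro h
        have h1 : b ∈ Subgroup.center G ⊓ B := ⟨hbZ, hb⟩
        rw [h, Subgroup.mem_bot] at h1
        apply hz1
        rw [h1]
        simp
      · refine ⟨Subgroup.center G ⊓ A, hnormal A, ?_, Or.inl inf_le_right⟩
        intro h
        have h1 : a ∈ Subgroup.center G ⊓ A := ⟨haZ, ha⟩
        rw [h, Subgroup.mem_bot] at h1
        exact ha1 h1

/-- If a nontrivial finite group G is the product AB of abelian subgroups A and B, then some nontrivial normal subgroup of G is contained in A or in B. -/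
theorem result {G : Type*} [Group G] [Finite G] [Nontrivial G] (A B : Subgroup G) [IsMulCommutative A] [IsMulCommutative B] (hAB : ∀ g : G, ∃ a ∈ A, ∃ b ∈ B, g = a * b) : ∃ N : Subgroup G, N.Normal ∧ N ≠ ⊥ ∧ (N ≤ A ∨ N ≤ B) := by
  have hcA : ∀ x ∈ A, ∀ y ∈ A, x * y = y * x := fun x hx y hy => by
    have := mul_comm' (⟨x, hx⟩ : A) ⟨y, hy⟩
    exact congrArg Subtype.val this
  have hcB : ∀ x ∈ B, ∀ y ∈ B, x * y = y * x := fun x hx y hy => by
    have := mul_comm' (⟨x, hx⟩ : B) ⟨y, hy⟩
    exact congrArg Subtype.val this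
  exact main _ G A B hcA hcB hAB rfl

end Cfsg.Agent.S0573
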