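import Cfsg.Statements.S0571
import Cfsg.Agent.S0573
import Cfsg.Agent.Lib.SolvStruct.Super
import Cfsg.Agent.Lib.SolvStruct.Super3

set_option autoImplicit false
open Cfsg

namespace Cfsg.Agent.S0571

open Subgroup

universe u

theorem main : ∀ (n : ℕ) (G : Type u) [Group G] [Finite G] (A B : Subgroup G) [IsCyclic A] [IsCyclic B],
    (∀ g : G, ∃ a ∈ A, ∃ b ∈ B, g = a * b) → Nat.card G = n → Cfsg.IsSupersolvable G := by
  intro n
  induction n using Nat.strong_induction_on with
  | _ n IH =>
    intro G _ _ A B _ _ hAB hn
    rcases subsingleton_or_nontrivial G with hs | hnt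
    · exact Cfsg.Agent.Lib.SolvStruct.Super.isSupersolvable_of_subsingleton
    · haveI hcA : IsMulCommutative A := ⟨⟨fun x y => by
        letI : CommGroup A := IsCyclic.commGroup
        exact mul_comm x y⟩⟩
      haveI hcB : IsMulCommutative B := ⟨⟨fun x y => by
        letI : CommGroup B := IsCyclic.commGroup
        exact mul_comm x y⟩⟩
      obtain ⟨N, hN, hNe, hle⟩ := Cfsg.Agent.S0573.result A B hAB
      haveI := hN
      haveI hNc : IsCyclic N := by
        rcases hle with h | h
        · exact Subgroup.isCyclic_of_le h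
        · exact Subgroup.isCyclic_of_le h
      apply Cfsg.Agent.Lib.SolvStruct.Super.isSupersolvable_of_cyclic_normal N
      have hlt : Nat.card (G ⧸ N) < n := by
        rw [← hn]
        have h1 := Cfsg.Agent.Lib.SolvStruct.Super3.card_quotient_mul N
        have h2 : 1 < Nat.card N := by
          rw [Finite.one_lt_card_iff_nontrivial]
          exact (Subgroup.nontrivial_iff_ne_bot N).mpr hNe
        have h3 : 0 < Nat.card (G ⧸ N) := Nat.card_pos
        nlinarith
      let π := QuotientGroup.mk' N
      haveI : IsCyclic (A.map π) := isCyclic_of_surjective (π.subgroupMap A) (π.subgroupMap_surjective A)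
      haveI : IsCyclic (B.map π) := isCyclic_of_surjective (π.subgroupMap B) (π.subgroupMap_surjective B)
      refine IH _ hlt (G ⧸ N) (A.map π) (B.map π) ?_ rfl
      intro g
      obtain ⟨x, rfl⟩ := QuotientGroup.mk'_surjective N g
      obtain ⟨a, ha, b, hb, rfl⟩ := hAB x
      exact ⟨π a, ⟨a, ha, rfl⟩, π b, ⟨b, hb, rfl⟩, map_mul π a b⟩

/-- If a finite group G is the product AB of two cyclic subgroups (every element is a product ab), then G is supersolvable. -/
theorem result {G : Type*} [Group G] [Finite G] (A B : Subgroup G) [IsCyclic A] [IsCyclic B] (hAB : ∀ g : G, ∃ a ∈ A, ∃ b ∈ B, g = a * b) : Cfsg.IsSupersolvable G := by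
  exact main _ G A B hAB rfl

end Cfsg.Agent.S0571
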