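import Cfsg.Statements.S0574
import Mathlib
import Cfsg.Agent.Lib.Perm.KWGen2

set_option autoImplicit false
open Cfsg

namespace Cfsg.Agent.S0574

open Subgroup
open scoped commutatorElement

section Core

variable {G : Type*} [Group G]

/-- Iterated commutator of a subgroup with itself. -/
private def dd (K : Subgroup G) : ℕ → Subgroup G
  | 0 => K
  | n + 1 => ⁅dd K n, dd K n⁆

private theorem dd_mono {K K' : Subgroup G} (h : K ≤ K') (n : ℕ) : dd K n ≤ dd K' n := by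
  induction n with
  | zero => exact h
  | succ n ih => exact Subgroup.commutator_mono ih ih

private theorem dd_add (K : Subgroup G) (m n : ℕ) : dd (dd K m) n = dd K (m + n) := by
  induction n with
  | zero => rfl
  | succ n ih =>
    show ⁅dd (dd K m) n, dd (dd K m) n⁆ = ⁅dd K (m + n), dd K (m + n)⁆
    rw [ih]

private theorem dd_bot (n : ℕ) : dd (⊥ : Subgroup G) n = ⊥ := by
  induction n with
  | zero => rfl
  | succ n ih =>
    show ⁅dd (⊥ : Subgroup G) n, dd (⊥ : Subgroup G) n⁆ = ⊥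
    rw [ih, Subgroup.commutator_bot_left]

private theorem dd_top (n : ℕ) : dd (⊤ : Subgroup G) n = derivedSeries G n := by
  induction n with
  | zero => rfl
  | succ n ih =>
    show ⁅dd (⊤ : Subgroup G) n, dd (⊤ : Subgroup G) n⁆ = ⁅derivedSeries G n, derivedSeries G n⁆
    rw [ih]

/-- The commutators `⁅a, z⁆`, `a ∈ A`, `z ∈ D`. -/
private def genM (A D : Subgroup G) : Set G := {x | ∃ a ∈ A, ∃ z ∈ D, x = ⁅a, z⁆}

private def bigM (A D : Subgroup G) : Subgroup G := closure (genM A D)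

/-- Hypotheses of the key computation. -/
private structure Ctx (A B D : Subgroup G) : Prop where
  commA : ∀ a ∈ A, ∀ a' ∈ A, a * a' = a' * a
  fac : ∀ g : G, ∃ a ∈ A, ∃ b ∈ B, g = a * b
  le : D ≤ B
  commD : ∀ z ∈ D, ∀ b ∈ B, z * b = b * z

private theorem Ctx.fac' {A B D : Subgroup G} (h : Ctx A B D) (g : G) :
    ∃ b ∈ B, ∃ a ∈ A, g = b * a := by
  obtain ⟨a, ha, b, hb, e⟩ := h.fac g⁻¹
  refine ⟨b⁻¹, B.inv_mem hb, a⁻¹, A.inv_mem ha, ?_⟩
  rw [← mul_inv_rev, ← e, inv_inv]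

private theorem comm_gen_left {A B D : Subgroup G} (h : Ctx A B D) {a₃ b₃ z : G} (hz : z ∈ D)
    (hb₃ : b₃ ∈ B) : ⁅a₃ * b₃, z⁆ = ⁅a₃, z⁆ := by
  have hc : z * b₃ = b₃ * z := h.commD z hz b₃ hb₃
  simp only [commutatorElement_def, mul_inv_rev]
  calc a₃ * b₃ * z * (b₃⁻¹ * a₃⁻¹) * z⁻¹ = a₃ * (b₃ * z * b₃⁻¹) * a₃⁻¹ * z⁻¹ := by group
    _ = a₃ * (z * b₃ * b₃⁻¹) * a₃⁻¹ * z⁻¹ := by rw [hc]
    _ = a₃ * z * a₃⁻¹ * z⁻¹ := by group

private theorem bigM_normal {A B D : Subgroup G} (h : Ctx A B D) : (bigM A D).Normal := by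
  constructor
  intro n hn g
  obtain ⟨a₀, ha₀, b₀, hb₀, rfl⟩ := h.fac g
  -- conjugation by elements of `B`
  have hB : ∀ b ∈ B, ∀ m ∈ bigM A D, b * m * b⁻¹ ∈ bigM A D := by
    intro b hb m hm
    induction hm using Subgroup.closure_induction with
    | mem x hx =>
      obtain ⟨a, ha, z, hz, rfl⟩ := hx
      obtain ⟨a₃, ha₃, b₃, hb₃, e⟩ := h.fac (b * a * b⁻¹)
      have hcz : b * z = z * b := (h.commD z hz b hb).symm
      have : b * ⁅a, z⁆ * b⁻¹ = ⁅b * a * b⁻¹, z⁆ := by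
        simp only [commutatorElement_def]
        calc b * (a * z * a⁻¹ * z⁻¹) * b⁻¹
            = (b * a * b⁻¹) * (b * z) * a⁻¹ * z⁻¹ * b⁻¹ := by group
          _ = (b * a * b⁻¹) * (z * b) * a⁻¹ * z⁻¹ * b⁻¹ := by rw [hcz]
          _ = (b * a * b⁻¹) * z * (b * a⁻¹ * b⁻¹) * (b * z⁻¹ * b⁻¹) := by group
          _ = (b * a * b⁻¹) * z * (b * a⁻¹ * b⁻¹) * z⁻¹ := by
              have : b * z⁻¹ * b⁻¹ = z⁻¹ := by
                have : z⁻¹ * b = b * z⁻¹ := by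
                  have e2 : z * b = b * z := hcz.symm
                  calc z⁻¹ * b = z⁻¹ * (b * z) * z⁻¹ := by group
                    _ = z⁻¹ * (z * b) * z⁻¹ := by rw [e2]
                    _ = b * z⁻¹ := by group
                rw [← this]; group
              rw [this]
          _ = (b * a * b⁻¹) * z * (b * a * b⁻¹)⁻¹ * z⁻¹ := by group
      rw [this, e, comm_gen_left h hz hb₃]
      exact subset_closure ⟨a₃, ha₃, z, hz, rfl⟩
    | one => simp [Subgroup.one_mem]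
    | mul x y _ _ hx hy =>
      have : b * (x * y) * b⁻¹ = (b * x * b⁻¹) * (b * y * b⁻¹) := by group
      rw [this]; exact mul_mem hx hy
    | inv x _ hx =>
      have : b * x⁻¹ * b⁻¹ = (b * x * b⁻¹)⁻¹ := by group
      rw [this]; exact inv_mem hx
  have hA : ∀ a ∈ A, ∀ m ∈ bigM A D, a * m * a⁻¹ ∈ bigM A D := by
    intro a ha m hm
    induction hm using Subgroup.closure_induction with
    | mem x hx =>
      obtain ⟨a₁, ha₁, z, hz, rfl⟩ := hx
      have : a * ⁅a₁, z⁆ * a⁻¹ = ⁅a * a₁, z⁆ * ⁅a, z⁆⁻¹ := by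
        simp only [commutatorElement_def]; group
      rw [this]
      exact mul_mem (subset_closure ⟨a * a₁, A.mul_mem ha ha₁, z, hz, rfl⟩)
        (inv_mem (subset_closure ⟨a, ha, z, hz, rfl⟩))
    | one => simp [Subgroup.one_mem]
    | mul x y _ _ hx hy =>
      have : a * (x * y) * a⁻¹ = (a * x * a⁻¹) * (a * y * a⁻¹) := by group
      rw [this]; exact mul_mem hx hy
    | inv x _ hx =>
      have : a * x⁻¹ * a⁻¹ = (a * x * a⁻¹)⁻¹ := by group
      rw [this]; exact inv_mem hx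
  have : a₀ * b₀ * n * (a₀ * b₀)⁻¹ = a₀ * (b₀ * n * b₀⁻¹) * a₀⁻¹ := by group
  rw [this]
  exact hA a₀ ha₀ _ (hB b₀ hb₀ n hn)

/-- The key computation. -/
private theorem key {A B D : Subgroup G} (h : Ctx A B D) {a a₁ z z₁ : G} (ha : a ∈ A) (ha₁ : a₁ ∈ A)
    (hz : z ∈ D) (hz₁ : z₁ ∈ D) :
    ∃ a₃ ∈ A, ∃ b₃ ∈ B, ∃ b₂ ∈ B,
      (z₁ * a₁) * ⁅a, z⁆ * (z₁ * a₁)⁻¹ * ((a₁ * z₁) * ⁅a, z⁆ * (a₁ * z₁)⁻¹)⁻¹
        = a₃ * ⁅b₃, b₂⁆ * a₃⁻¹ := by
  obtain ⟨b₂, hb₂, a₂, ha₂, e₂⟩ := h.fac' (a₁ * z * a₁⁻¹)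
  obtain ⟨a₃, ha₃, b₃, hb₃, e₃⟩ := h.fac (z₁ * a * z₁⁻¹)
  refine ⟨a₃, ha₃, b₃, hb₃, b₂, hb₂, ?_⟩
  -- conjugating a commutator `⁅c, z⁆`, `c ∈ A`, by `a₁`
  have conjA : ∀ c ∈ A, a₁ * ⁅c, z⁆ * a₁⁻¹ = ⁅c, b₂⁆ := by
    intro c hc
    have hcc : a₁ * c = c * a₁ := h.commA a₁ ha₁ c hc
    have hcc' : a₂ * c⁻¹ = c⁻¹ * a₂ := h.commA a₂ ha₂ _ (A.inv_mem hc)
    have e1 : a₁ * ⁅c, z⁆ * a₁⁻¹ = c * (a₁ * z * a₁⁻¹) * c⁻¹ * (a₁ * z * a₁⁻¹)⁻¹ := by
      simp only [commutatorElement_def]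
      calc a₁ * (c * z * c⁻¹ * z⁻¹) * a₁⁻¹
          = (a₁ * c) * z * c⁻¹ * z⁻¹ * a₁⁻¹ := by group
        _ = (c * a₁) * z * c⁻¹ * z⁻¹ * a₁⁻¹ := by rw [hcc]
        _ = c * (a₁ * z * a₁⁻¹) * (a₁ * c⁻¹ * a₁⁻¹) * (a₁ * z⁻¹ * a₁⁻¹) := by group
        _ = c * (a₁ * z * a₁⁻¹) * c⁻¹ * (a₁ * z * a₁⁻¹)⁻¹ := by
            have : a₁ * c⁻¹ * a₁⁻¹ = c⁻¹ := by
              have := h.commA a₁ ha₁ _ (A.inv_mem hc)
              rw [this]; group
            rw [this]; group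
    rw [e1, e₂]
    simp only [commutatorElement_def]
    calc c * (b₂ * a₂) * c⁻¹ * (b₂ * a₂)⁻¹
        = c * b₂ * (a₂ * c⁻¹) * a₂⁻¹ * b₂⁻¹ := by group
      _ = c * b₂ * (c⁻¹ * a₂) * a₂⁻¹ * b₂⁻¹ := by rw [hcc']
      _ = c * b₂ * c⁻¹ * b₂⁻¹ := by group
  -- conjugating a commutator with right entry commuting with `z₁`
  have conjZ : ∀ w, z₁ * w = w * z₁ → z₁ * ⁅a, w⁆ * z₁⁻¹ = ⁅z₁ * a * z₁⁻¹, w⁆ := by
    intro w hw
    simp only [commutatorElement_def]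
    have hwi : z₁ * w⁻¹ = w⁻¹ * z₁ := by
      calc z₁ * w⁻¹ = w⁻¹ * (w * z₁) * w⁻¹ := by group
        _ = w⁻¹ * (z₁ * w) * w⁻¹ := by rw [hw]
        _ = w⁻¹ * z₁ := by group
    calc z₁ * (a * w * a⁻¹ * w⁻¹) * z₁⁻¹
        = (z₁ * a * z₁⁻¹) * (z₁ * w) * a⁻¹ * w⁻¹ * z₁⁻¹ := by group
      _ = (z₁ * a * z₁⁻¹) * (w * z₁) * a⁻¹ * w⁻¹ * z₁⁻¹ := by rw [hw]
      _ = (z₁ * a * z₁⁻¹) * w * z₁ * a⁻¹ * (w⁻¹ * z₁⁻¹) := by group
      _ = (z₁ * a * z₁⁻¹) * w * z₁ * a⁻¹ * (z₁⁻¹ * w⁻¹) := by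
          have : w⁻¹ * z₁⁻¹ = z₁⁻¹ * w⁻¹ := by
            rw [← mul_inv_rev, ← mul_inv_rev, hw]
          rw [this]
      _ = (z₁ * a * z₁⁻¹) * w * (z₁ * a * z₁⁻¹)⁻¹ * w⁻¹ := by group
  have hz₁z : z₁ * z = z * z₁ := h.commD z₁ hz₁ z (h.le hz)
  have hz₁b₂ : z₁ * b₂ = b₂ * z₁ := h.commD z₁ hz₁ b₂ hb₂
  -- first conjugate
  have first : (z₁ * a₁) * ⁅a, z⁆ * (z₁ * a₁)⁻¹ = a₃ * ⁅b₃, b₂⁆ * a₃⁻¹ * ⁅a₃, b₂⁆ := by
    have e0 : (z₁ * a₁) * ⁅a, z⁆ * (z₁ * a₁)⁻¹ = z₁ * (a₁ * ⁅a, z⁆ * a₁⁻¹) * z₁⁻¹ := by group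
    rw [e0, conjA a ha, conjZ b₂ hz₁b₂, e₃]
    simp only [commutatorElement_def]; group
  have second : (a₁ * z₁) * ⁅a, z⁆ * (a₁ * z₁)⁻¹ = ⁅a₃, b₂⁆ := by
    have e0 : (a₁ * z₁) * ⁅a, z⁆ * (a₁ * z₁)⁻¹ = a₁ * (z₁ * ⁅a, z⁆ * z₁⁻¹) * a₁⁻¹ := by group
    rw [e0, conjZ z hz₁z, e₃, comm_gen_left h hz hb₃, conjA a₃ ha₃]
  rw [first, second]; group

end Core

section Core2

variable {G : Type*} [Group G]

private theorem commutator_closure_le {X : Set G} {T : Subgroup G} [T.Normal]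
    (h : ∀ x ∈ X, ∀ y ∈ X, ⁅x, y⁆ ∈ T) : ⁅closure X, closure X⁆ ≤ T := by
  let π := QuotientGroup.mk' T
  have hπ : ∀ x y : G, ⁅x, y⁆ ∈ T ↔ π x * π y = π y * π x := by
    intro x y
    rw [← QuotientGroup.eq_one_iff, ← commutatorElement_eq_one_iff_mul_comm]
    simp [π, commutatorElement_def]
  have h1 : ∀ y ∈ closure X, ∀ x ∈ X, π x * π y = π y * π x := by
    intro y hy x hx
    induction hy using Subgroup.closure_induction with
    | mem y hy => exact (hπ x y).1 (h x hx y hy)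
    | one => simp
    | mul u v _ _ hu hv =>
      rw [map_mul, ← mul_assoc, hu, mul_assoc, hv, mul_assoc]
    | inv u _ hu =>
      rw [map_inv]
      exact (Commute.inv_right (show Commute (π x) (π u) from hu)).eq
  have h2 : ∀ x ∈ closure X, ∀ y ∈ closure X, π x * π y = π y * π x := by
    intro x hx y hy
    induction hx using Subgroup.closure_induction with
    | mem x hx => exact h1 y hy x hx
    | one => simp
    | mul u v _ _ hu hv =>
      rw [map_mul, mul_assoc, hv, ← mul_assoc, hu, mul_assoc]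
    | inv u _ hu =>
      rw [map_inv]
      exact (Commute.inv_left (show Commute (π u) (π y) from hu)).eq
  rw [Subgroup.commutator_le]
  intro x hx y hy
  exact (hπ x y).2 (h2 x hx y hy)

/-- From the defect of the key computation being in `T`, the generators commute modulo `T`. -/
private theorem comm_of_defect {A B D : Subgroup G} {T : Subgroup G} [hT : T.Normal]
    {a a₁ z z₁ : G}
    (h : (z₁⁻¹ * a₁⁻¹) * ⁅a, z⁆ * (z₁⁻¹ * a₁⁻¹)⁻¹ * ((a₁⁻¹ * z₁⁻¹) * ⁅a, z⁆ * (a₁⁻¹ * z₁⁻¹)⁻¹)⁻¹ ∈ T) :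
    ⁅⁅a₁, z₁⁆, ⁅a, z⁆⁆ ∈ T := by
  set u := ⁅a, z⁆ with hu
  have h1 := hT.conj_mem _ h (z₁ * a₁)
  have e1 : (z₁ * a₁) * ((z₁⁻¹ * a₁⁻¹) * u * (z₁⁻¹ * a₁⁻¹)⁻¹ * ((a₁⁻¹ * z₁⁻¹) * u * (a₁⁻¹ * z₁⁻¹)⁻¹)⁻¹) * (z₁ * a₁)⁻¹
      = ⁅⁅z₁, a₁⁆, u⁆ := by
    simp only [commutatorElement_def]; group
  rw [e1] at h1
  have e2 : ⁅⁅a₁, z₁⁆, u⁆ = ⁅a₁, z₁⁆ * (⁅⁅z₁, a₁⁆, u⁆)⁻¹ * ⁅a₁, z₁⁆⁻¹ := by
    have : ⁅z₁, a₁⁆ = ⁅a₁, z₁⁆⁻¹ := (commutatorElement_inv a₁ z₁).symm
    rw [this]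
    simp only [commutatorElement_def]; group
  rw [e2]
  exact hT.conj_mem _ (inv_mem h1) _

private theorem defect_eq {a a₁ z z₁ : G} :
    (z₁⁻¹ * a₁⁻¹) * ⁅a, z⁆ * (z₁⁻¹ * a₁⁻¹)⁻¹ * ((a₁⁻¹ * z₁⁻¹) * ⁅a, z⁆ * (a₁⁻¹ * z₁⁻¹)⁻¹)⁻¹
      = ⁅⁅z₁⁻¹, a₁⁻¹⁆, (a₁⁻¹ * z₁⁻¹) * ⁅a, z⁆ * (a₁⁻¹ * z₁⁻¹)⁻¹⁆ := by
  simp only [commutatorElement_def]; group

/-- Commutators with a generator land in the quotient's centre. -/
private theorem central_mod {A B D M : Subgroup G} [hM : M.Normal] (h : Ctx A B D)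
    (hsub : ∀ a ∈ A, ∀ z ∈ D, ⁅a, z⁆ ∈ M) {z : G} (hz : z ∈ D) :
    z ∈ comap (QuotientGroup.mk' M) (center (G ⧸ M)) := by
  rw [mem_comap, Subgroup.mem_center_iff]
  intro q
  obtain ⟨g, rfl⟩ := QuotientGroup.mk'_surjective M q
  obtain ⟨a, ha, b, hb, rfl⟩ := h.fac g
  have h1 : (QuotientGroup.mk' M) a * (QuotientGroup.mk' M) z
      = (QuotientGroup.mk' M) z * (QuotientGroup.mk' M) a := by
    have := hsub a ha z hz
    rw [← QuotientGroup.eq_one_iff] at this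
    rw [← commutatorElement_eq_one_iff_mul_comm]
    simpa [commutatorElement_def] using this
  have h2 : (QuotientGroup.mk' M) b * (QuotientGroup.mk' M) z
      = (QuotientGroup.mk' M) z * (QuotientGroup.mk' M) b := by
    rw [← map_mul, ← map_mul, h.commD z hz b hb]
  rw [map_mul, mul_assoc, h2, ← mul_assoc, h1, mul_assoc]

/-- Itô's theorem. -/
private theorem ito {A B : Subgroup G} (hA : ∀ a ∈ A, ∀ a' ∈ A, a * a' = a' * a)
    (hB : ∀ b ∈ B, ∀ b' ∈ B, b * b' = b' * b) (fac : ∀ g : G, ∃ a ∈ A, ∃ b ∈ B, g = a * b) :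
    dd (⊤ : Subgroup G) 2 = ⊥ := by
  have h : Ctx A B B := ⟨hA, fac, le_rfl, hB⟩
  haveI hN : (bigM A B).Normal := bigM_normal h
  have hsub : ∀ a ∈ A, ∀ z ∈ B, ⁅a, z⁆ ∈ bigM A B :=
    fun a ha z hz => subset_closure ⟨a, ha, z, hz, rfl⟩
  have htop : ⁅(⊤ : Subgroup G), (⊤ : Subgroup G)⁆ ≤ bigM A B := by
    rw [Subgroup.commutator_le]
    intro x _ y _
    have hcen : ∀ g : G, QuotientGroup.mk' (bigM A B) g ∈ center (G ⧸ bigM A B) := by
      intro g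
      obtain ⟨a, ha, b, hb, rfl⟩ := fac g
      rw [map_mul]
      refine mul_mem ?_ (central_mod h hsub hb)
      rw [Subgroup.mem_center_iff]
      intro q
      obtain ⟨g', rfl⟩ := QuotientGroup.mk'_surjective _ q
      obtain ⟨a', ha', b', hb', rfl⟩ := fac g'
      have h1 : (QuotientGroup.mk' (bigM A B)) a' * (QuotientGroup.mk' (bigM A B)) a
          = (QuotientGroup.mk' (bigM A B)) a * (QuotientGroup.mk' (bigM A B)) a' := by
        rw [← map_mul, ← map_mul, hA a' ha' a ha]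
      have h2 : (QuotientGroup.mk' (bigM A B)) b' * (QuotientGroup.mk' (bigM A B)) a
          = (QuotientGroup.mk' (bigM A B)) a * (QuotientGroup.mk' (bigM A B)) b' := by
        have := (Subgroup.mem_center_iff.1 (central_mod h hsub hb')) (QuotientGroup.mk' (bigM A B) a)
        exact this.symm
      rw [map_mul, mul_assoc, h2, ← mul_assoc, h1, mul_assoc]
    have h3 := (Subgroup.mem_center_iff.1 (hcen x)) (QuotientGroup.mk' (bigM A B) y)
    rw [← QuotientGroup.eq_one_iff]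
    have h4 : (QuotientGroup.mk' (bigM A B)) ⁅x, y⁆ = 1 := by
      rw [map_commutatorElement, commutatorElement_eq_one_iff_mul_comm]
      exact h3.symm
    exact h4
  have hM' : ⁅bigM A B, bigM A B⁆ ≤ (⊥ : Subgroup G) := by
    haveI : (⊥ : Subgroup G).Normal := inferInstance
    apply commutator_closure_le
    rintro x ⟨a₁, ha₁, z₁, hz₁, rfl⟩ y ⟨a, ha, z, hz, rfl⟩
    apply comm_of_defect (A := A) (B := B) (D := B)
    obtain ⟨a₃, -, b₃, hb₃, b₂, hb₂, e⟩ :=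
      key h ha (A.inv_mem ha₁) hz (B.inv_mem hz₁)
    rw [e, commutatorElement_eq_one_iff_mul_comm.2 (hB b₃ hb₃ b₂ hb₂)]
    simp
  have : dd (⊤ : Subgroup G) 2 ≤ ⊥ := by
    show ⁅⁅(⊤ : Subgroup G), (⊤ : Subgroup G)⁆, ⁅(⊤ : Subgroup G), (⊤ : Subgroup G)⁆⁆ ≤ ⊥
    exact (Subgroup.commutator_mono htop htop).trans hM'
  exact le_bot_iff.1 this

private theorem map_dd {H : Type*} [Group H] (f : G →* H) (K : Subgroup G) (n : ℕ) :
    (dd K n).map f = dd (K.map f) n := by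
  induction n with
  | zero => rfl
  | succ n ih =>
    show (⁅dd K n, dd K n⁆ : Subgroup G).map f = ⁅dd (K.map f) n, dd (K.map f) n⁆
    rw [Subgroup.map_commutator, ih]

/-- Itô modulo a normal subgroup. -/
private theorem ito_mod {A B L : Subgroup G} [hL : L.Normal]
    (hA : ∀ a ∈ A, ∀ a' ∈ A, a * a' = a' * a)
    (hB : ∀ b ∈ B, ∀ b' ∈ B, ⁅b, b'⁆ ∈ L) (fac : ∀ g : G, ∃ a ∈ A, ∃ b ∈ B, g = a * b) :
    dd (⊤ : Subgroup G) 2 ≤ L := by
  let π := QuotientGroup.mk' L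
  have h := ito (A := A.map π) (B := B.map π) ?_ ?_ ?_
  · have e := map_dd π (⊤ : Subgroup G) 2
    have hs : (⊤ : Subgroup G).map π = ⊤ := by
      rw [Subgroup.map_top_of_surjective]; exact QuotientGroup.mk'_surjective L
    rw [hs, h] at e
    have : dd (⊤ : Subgroup G) 2 ≤ π.ker := (Subgroup.map_eq_bot_iff _).1 e
    rwa [QuotientGroup.ker_mk'] at this
  · rintro _ ⟨a, ha, rfl⟩ _ ⟨a', ha', rfl⟩
    rw [← map_mul, ← map_mul, hA a ha a' ha']
  · rintro _ ⟨b, hb, rfl⟩ _ ⟨b', hb', rfl⟩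
    have := hB b hb b' hb'
    rw [← QuotientGroup.eq_one_iff] at this
    rw [← commutatorElement_eq_one_iff_mul_comm, ← map_commutatorElement]
    exact this
  · intro q
    obtain ⟨g, rfl⟩ := QuotientGroup.mk'_surjective L q
    obtain ⟨a, ha, b, hb, rfl⟩ := fac g
    exact ⟨π a, ⟨a, ha, rfl⟩, π b, ⟨b, hb, rfl⟩, map_mul _ _ _⟩

private theorem len_lt {a b : ℕ} (hb : b ≠ 0) (hd : a ∣ b) (hne : a ≠ b) :
    a.primeFactorsList.length + 1 ≤ b.primeFactorsList.length := by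
  obtain ⟨c, rfl⟩ := hd
  have ha : a ≠ 0 := left_ne_zero_of_mul hb
  have hc : c ≠ 0 := right_ne_zero_of_mul hb
  have hc1 : c ≠ 1 := by
    rintro rfl
    exact hne (mul_one a).symm
  have hp := (Nat.perm_primeFactorsList_mul ha hc).length_eq
  rw [hp, List.length_append]
  have : c.primeFactorsList ≠ [] := by
    intro h0
    rcases Nat.primeFactorsList_eq_nil c |>.1 h0 with h | h
    · exact hc h
    · exact hc1 h
  have : 0 < c.primeFactorsList.length := List.length_pos_iff.2 this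
  omega

variable [Finite G]

set_option maxHeartbeats 1000000 in
/-- One step of the descent. -/
private theorem step [Group.IsSolvable G] {A B Dt K : Subgroup G} (h : Ctx A B Dt)
    (hD : ∀ b ∈ B, ∀ b' ∈ B, ⁅b, b'⁆ ∈ Dt) [hK : K.Normal] (hgen : K = normalClosure ((K ⊓ Dt : Subgroup G) : Set G))
    (hne : K ≠ ⊥) :
    ∃ T : Subgroup G, T.Normal ∧ T = normalClosure ((T ⊓ Dt : Subgroup G) : Set G) ∧
      (T ⊓ Dt : Subgroup G) < K ⊓ Dt ∧ dd K 2 ≤ T := by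
  set E : Subgroup G := K ⊓ Dt with hE
  have hctx : Ctx A B E := ⟨h.commA, h.fac, inf_le_right.trans h.le,
    fun z hz b hb => h.commD z (inf_le_right (a := K) hz) b hb⟩
  haveI hM : (bigM A E).Normal := bigM_normal hctx
  have hsub : ∀ a ∈ A, ∀ z ∈ E, ⁅a, z⁆ ∈ bigM A E :=
    fun a ha z hz => subset_closure ⟨a, ha, z, hz, rfl⟩
  -- `M ≤ K`
  have hMK : bigM A E ≤ K := by
    rw [bigM, Subgroup.closure_le]
    rintro _ ⟨a, ha, z, hz, rfl⟩
    have hzK : z ∈ K := inf_le_left (a := K) hz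
    have : ⁅a, z⁆ = (a * z * a⁻¹) * z⁻¹ := commutatorElement_def a z
    rw [SetLike.mem_coe, this]
    exact mul_mem (hK.conj_mem z hzK a) (inv_mem hzK)
  -- `K' ≤ M`
  have hKM : ⁅K, K⁆ ≤ bigM A E := by
    have hcen : K ≤ comap (QuotientGroup.mk' (bigM A E)) (center (G ⧸ bigM A E)) := by
      have e1 : K = normalClosure (E : Set G) := hgen
      rw [e1]
      have hnor : (comap (QuotientGroup.mk' (bigM A E)) (center (G ⧸ bigM A E))).Normal :=
        Subgroup.Normal.comap inferInstance _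
      refine Subgroup.normalClosure_le_normal ?_
      intro z hz
      exact central_mod hctx hsub hz
    rw [Subgroup.commutator_le]
    intro x hx y _
    have h3 := (Subgroup.mem_center_iff.1 (hcen hx)) (QuotientGroup.mk' (bigM A E) y)
    rw [← QuotientGroup.eq_one_iff]
    have h4 : (QuotientGroup.mk' (bigM A E)) ⁅x, y⁆ = 1 := by
      rw [map_commutatorElement, commutatorElement_eq_one_iff_mul_comm]
      exact h3.symm
    exact h4
  haveI hTn : (⁅bigM A E, bigM A E⁆ : Subgroup G).Normal := Subgroup.commutator_normal _ _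
  set T : Subgroup G := ⁅bigM A E, bigM A E⁆ with hT
  have hT1 : T ≤ normalClosure ((T ⊓ Dt : Subgroup G) : Set G) := by
    haveI : (normalClosure ((T ⊓ Dt : Subgroup G) : Set G)).Normal := Subgroup.normalClosure_normal
    apply commutator_closure_le
    rintro x ⟨a₁, ha₁, z₁, hz₁, rfl⟩ y ⟨a, ha, z, hz, rfl⟩
    apply comm_of_defect (A := A) (B := B) (D := E)
    obtain ⟨a₃, ha₃, b₃, hb₃, b₂, hb₂, e⟩ :=
      key hctx ha (A.inv_mem ha₁) hz (E.inv_mem hz₁)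
    have hmemT : ⁅⁅z₁⁻¹, a₁⁻¹⁆, (a₁⁻¹ * z₁⁻¹) * ⁅a, z⁆ * (a₁⁻¹ * z₁⁻¹)⁻¹⁆ ∈ T := by
      apply Subgroup.commutator_mem_commutator
      · have : ⁅z₁⁻¹, a₁⁻¹⁆ = ⁅a₁⁻¹, z₁⁻¹⁆⁻¹ := (commutatorElement_inv _ _).symm
        rw [this]
        exact inv_mem (hsub _ (A.inv_mem ha₁) _ (E.inv_mem hz₁))
      · exact hM.conj_mem _ (hsub a ha z hz) _
    rw [← defect_eq, e] at hmemT
    have hb : ⁅b₃, b₂⁆ ∈ (T ⊓ Dt : Subgroup G) := by
      refine ⟨?_, hD b₃ hb₃ b₂ hb₂⟩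
      have := hTn.conj_mem _ hmemT a₃⁻¹
      simpa [mul_assoc] using this
    rw [e]
    exact (Subgroup.normalClosure_normal).conj_mem _ (Subgroup.subset_normalClosure hb) _
  have hT2 : normalClosure ((T ⊓ Dt : Subgroup G) : Set G) ≤ T :=
    Subgroup.normalClosure_le_normal (fun x hx => hx.1)
  have hTK' : T ≤ ⁅K, K⁆ := Subgroup.commutator_mono hMK hMK
  refine ⟨T, hTn, le_antisymm hT1 hT2, ?_, ?_⟩
  · refine lt_of_le_of_ne (inf_le_inf_right _ (hTK'.trans (Subgroup.commutator_le_left K K))) ?_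
    intro heq
    -- then `K` is perfect
    have hKp : K ≤ ⁅K, K⁆ := by
      have hEle : (E : Set G) ⊆ ((⁅K, K⁆ : Subgroup G) : Set G) := by
        intro x hx
        have hx' : x ∈ (T ⊓ Dt : Subgroup G) := by rw [heq]; exact hx
        exact hTK' hx'.1
      have hnn : (⁅K, K⁆ : Subgroup G).Normal := Subgroup.commutator_normal _ _
      have e1 : K = normalClosure (E : Set G) := hgen
      calc K = normalClosure (E : Set G) := e1
        _ ≤ ⁅K, K⁆ := Subgroup.normalClosure_le_normal hEle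
    have hKall : ∀ n, K ≤ derivedSeries G n := by
      intro n
      induction n with
      | zero => exact le_top
      | succ n ih => exact hKp.trans (Subgroup.commutator_mono ih ih)
    obtain ⟨n, hn⟩ := (Group.isSolvable_def G).1 (inferInstance : Group.IsSolvable G) |>.imp fun _ h => h
    exact hne (le_bot_iff.1 ((hKall n).trans hn.le))
  · show ⁅⁅K, K⁆, ⁅K, K⁆⁆ ≤ T
    exact Subgroup.commutator_mono hKM hKM

/-- The descent. -/
private theorem descent [Group.IsSolvable G] {A B Dt : Subgroup G} (h : Ctx A B Dt)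
    (hD : ∀ b ∈ B, ∀ b' ∈ B, ⁅b, b'⁆ ∈ Dt) (n : ℕ) :
    ∀ K : Subgroup G, K.Normal → K = normalClosure ((K ⊓ Dt : Subgroup G) : Set G) →
      Nat.card ↥(K ⊓ Dt : Subgroup G) = n →
      dd K (2 * (Nat.card ↥(K ⊓ Dt : Subgroup G)).primeFactorsList.length) = ⊥ := by
  induction n using Nat.strong_induction_on with
  | _ n ih =>
    intro K hK hgen hn
    by_cases hK0 : K = ⊥
    · subst hK0; exact dd_bot _
    obtain ⟨T, hTn, hTg, hlt, hle⟩ := step h hD hgen hK0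
    have hdvd : Nat.card ↥(T ⊓ Dt : Subgroup G) ∣ Nat.card ↥(K ⊓ Dt : Subgroup G) :=
      Subgroup.card_dvd_of_le hlt.le
    have hcne : Nat.card ↥(T ⊓ Dt : Subgroup G) ≠ Nat.card ↥(K ⊓ Dt : Subgroup G) := by
      intro e
      have := Subgroup.eq_of_le_of_card_ge hlt.le e.ge
      exact hlt.ne this
    have hpos : Nat.card ↥(K ⊓ Dt : Subgroup G) ≠ 0 := Nat.card_pos.ne'
    have hlen := len_lt hpos hdvd hcne
    have hltn : Nat.card ↥(T ⊓ Dt : Subgroup G) < n := by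
      rw [← hn]
      exact lt_of_le_of_ne (Nat.le_of_dvd (Nat.pos_of_ne_zero hpos) hdvd) hcne
    have hT := ih _ hltn T hTn hTg rfl
    set mT := (Nat.card ↥(T ⊓ Dt : Subgroup G)).primeFactorsList.length
    set mK := (Nat.card ↥(K ⊓ Dt : Subgroup G)).primeFactorsList.length
    obtain ⟨k, hk⟩ : ∃ k, 2 * mK = 2 + 2 * mT + k := ⟨2 * mK - (2 + 2 * mT), by omega⟩
    rw [hk, ← dd_add, ← dd_add]
    have h1 : dd (dd K 2) (2 * mT) ≤ dd T (2 * mT) := dd_mono hle _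
    rw [hT, le_bot_iff] at h1
    rw [h1]
    exact dd_bot _

end Core2

/-- Let the finite group G be the product AB of an abelian subgroup A and a subgroup B of nilpotency class at most two, and let Ω be the number of prime factors, with multiplicity, of the order of the commutator subgroup of B. Then the term of index 2(1 + Ω) of the derived series of G is trivial. -/
theorem result {G : Type*} [Group G] [Finite G] (A B : Subgroup G) [IsMulCommutative A] (hB : commutator ↥B ≤ Subgroup.center ↥B) (hAB : ∀ g : G, ∃ a ∈ A, ∃ b ∈ B, g = a * b) : derivedSeries G (2 * (1 + (Nat.card ↥(commutator ↥B)).primeFactorsList.length)) = ⊥ := by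
  -- solvability (Kegel--Wielandt)
  have hAnil : Group.IsNilpotent A := by
    letI : CommGroup A := { (inferInstance : Group A) with mul_comm := fun x y => IsMulCommutative.is_comm.comm x y }
    exact CommGroup.isNilpotent
  have hBnil : Group.IsNilpotent B := by
    rw [Subgroup.nilpotent_iff_lowerCentralSeries]
    refine ⟨2, ?_⟩
    rw [Subgroup.lowerCentralSeries_succ, Subgroup.top_lowerCentralSeries_one, ← le_bot_iff]
    refine (Subgroup.commutator_mono hB le_rfl).trans ?_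
    rw [Subgroup.commutator_le]
    intro x hx y _
    rw [Subgroup.mem_bot, commutatorElement_eq_one_iff_mul_comm]
    exact ((Subgroup.mem_center_iff.1 hx) y).symm
  haveI hsolv : Group.IsSolvable G :=
    Cfsg.Agent.Lib.Perm.KWGen.isSolvable_of_nilpotent_fac A B hAnil hBnil hAB
  let Dt : Subgroup G := (commutator ↥B).map B.subtype
  have hDcard : Nat.card ↥Dt = Nat.card ↥(commutator ↥B) :=
    Subgroup.card_map_of_injective B.subtype_injective
  have hD : ∀ b ∈ B, ∀ b' ∈ B, ⁅b, b'⁆ ∈ Dt := by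
    intro b hb b' hb'
    refine ⟨⁅(⟨b, hb⟩ : B), (⟨b', hb'⟩ : B)⁆, ?_, rfl⟩
    exact Subgroup.commutator_mem_commutator (Subgroup.mem_top _) (Subgroup.mem_top _)
  have hctx : Ctx A B Dt := by
    refine ⟨?_, hAB, ?_, ?_⟩
    · intro a ha a' ha'
      have := IsMulCommutative.is_comm.comm (⟨a, ha⟩ : A) (⟨a', ha'⟩ : A)
      exact congrArg Subtype.val this
    · rintro _ ⟨x, -, rfl⟩
      exact x.2
    · rintro _ ⟨x, hx, rfl⟩ b hb
      have := (Subgroup.mem_center_iff.1 (hB hx)) (⟨b, hb⟩ : B)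
      exact (congrArg Subtype.val this).symm
  -- the normal closure of `B'`
  let L : Subgroup G := normalClosure (Dt : Set G)
  haveI hLn : L.Normal := Subgroup.normalClosure_normal
  have hLD : L ⊓ Dt = Dt := inf_eq_right.2 (fun x hx => Subgroup.subset_normalClosure hx)
  have hLg : L = normalClosure ((L ⊓ Dt : Subgroup G) : Set G) := by
    rw [hLD]
  have hdesc := descent hctx hD _ L hLn hLg rfl
  rw [hLD, hDcard] at hdesc
  have hito : dd (⊤ : Subgroup G) 2 ≤ L :=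
    ito_mod hctx.commA (fun b hb b' hb' => Subgroup.subset_normalClosure (hD b hb b' hb')) hAB
  rw [← dd_top]
  have e : 2 * (1 + (Nat.card ↥(commutator ↥B)).primeFactorsList.length)
      = 2 + 2 * (Nat.card ↥(commutator ↥B)).primeFactorsList.length := by ring
  rw [e, ← dd_add]
  exact le_bot_iff.1 ((dd_mono hito _).trans hdesc.le)

end Cfsg.Agent.S0574
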