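import Cfsg.Statements.S0576
import Cfsg.Agent.Lib.SolvStruct.Frat

set_option autoImplicit false
open Cfsg

namespace Cfsg.Agent.S0576

/-- Let H be a normal subgroup of a finite group G with H contained in the Frattini subgroup of G. Then the group of inner automorphisms of H is contained in the Frattini subgroup of the automorphism group of H. -/
theorem result {G : Type*} [Group G] [Finite G] (H : Subgroup G) [H.Normal] (hH : H ≤ frattini G) : (MulAut.conj : ↥H →* MulAut ↥H).range ≤ frattini (MulAut ↥H) := by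
  rw [Cfsg.Agent.Lib.SolvStruct.Frat.le_frattini_iff]
  intro M hM
  by_contra hle
  have hInnN : (MulAut.conj : ↥H →* MulAut ↥H).range.Normal := by
    constructor
    rintro _ ⟨h, rfl⟩ f
    refine ⟨f h, ?_⟩
    ext x
    simp [MulAut.mul_apply]
  have hsup : M ⊔ (MulAut.conj : ↥H →* MulAut ↥H).range = ⊤ :=
    Cfsg.Agent.Lib.SolvStruct.Basic.sup_eq_top_of_coatom hM hle
  let φ : G →* MulAut ↥H := MulAut.conjNormal
  let L : Subgroup G := M.comap φ
  have hφ : ∀ h : H, φ (h : G) = MulAut.conj h := by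
    intro h
    ext x
    simp [φ, MulAut.conjNormal_apply]
  have hLH : L ⊔ H = ⊤ := by
    rw [eq_top_iff]
    intro g _
    obtain ⟨m, hm, t, ht, hmt⟩ :=
      Cfsg.Agent.Lib.SolvStruct.Basic.forall_mul_of_sup_eq_top M _ hsup (φ g)
    obtain ⟨h, rfl⟩ := ht
    have h1 : g * (h : G)⁻¹ ∈ L := by
      change φ (g * (h : G)⁻¹) ∈ M
      rw [map_mul, map_inv, hmt, hφ]
      simpa using hm
    have h2 : g = (g * (h : G)⁻¹) * h := by group
    rw [h2]
    exact mul_mem ((le_sup_left : L ≤ _) h1) ((le_sup_right : H ≤ _) h.2)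
  have hL := Cfsg.Agent.Lib.SolvStruct.Frat.eq_top_of_sup_eq_top_of_le_frattini hLH hH
  apply hle
  rintro _ ⟨h, rfl⟩
  have : (h : G) ∈ L := by rw [hL]; trivial
  have h3 : φ (h : G) ∈ M := this
  rw [hφ] at h3
  exact h3

end Cfsg.Agent.S0576
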