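import Cfsg.Statements.S0577
import Cfsg.Agent.Lib.SolvStruct.Schmidt
import Cfsg.Agent.Lib.SolvStruct.Frat2
import Cfsg.Agent.Lib.Core.Residual

set_option autoImplicit false
open Cfsg

namespace Cfsg.Agent.S0577

open Subgroup Cfsg.Agent.Lib.SolvStruct.Schmidt
open scoped commutatorElement Pointwise

/-- `p`-elements of a nilpotent subgroup commute, if the Sylow `p`-subgroups of the group are
abelian. -/
theorem comm_p_elements {G : Type*} [Group G] [Finite G] {p : ℕ} [Fact p.Prime] (P : Sylow p G)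
    (hP : ∀ a ∈ (P : Subgroup G), ∀ b ∈ (P : Subgroup G), a * b = b * a) (K : Subgroup G)
    (hK : Group.IsNilpotent K) {a b : G} (ha : a ∈ K) (hb : b ∈ K) (hap : ∃ k, a ^ p ^ k = 1)
    (hbp : ∃ k, b ^ p ^ k = 1) : a * b = b * a := by
  have tK := (Group.isNilpotent_of_finite_tfae (G := K)).out 0 3
  have hn := tK.mp hK
  have hx : ∀ c ∈ K, (∃ k, c ^ p ^ k = 1) → ∀ (_ : c ∈ K), IsPGroup p (zpowers (⟨c, ‹c ∈ K›⟩ : K)) := by
    intro c hc ⟨k, hk⟩ hc'
    rw [IsPGroup.iff_card, Nat.card_zpowers]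
    have : orderOf (⟨c, hc⟩ : K) ∣ p ^ k := by
      apply orderOf_dvd_of_pow_eq_one
      apply Subtype.ext
      simpa using hk
    obtain ⟨j, -, hj⟩ := (Nat.dvd_prime_pow Fact.out).mp this
    exact ⟨j, hj⟩
  obtain ⟨R₁, hR₁⟩ := (hx a ha hap ha).exists_le_sylow
  obtain ⟨R₂, hR₂⟩ := (hx b hb hbp hb).exists_le_sylow
  letI := Sylow.unique_of_normal R₁ (hn p ‹_› R₁)
  have h12 : R₂ = R₁ := Subsingleton.elim _ _
  rw [h12] at hR₂
  have hRp : IsPGroup p ((R₁ : Subgroup K).map K.subtype) := R₁.isPGroup'.map _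
  obtain ⟨P', hP'⟩ := hRp.exists_le_sylow
  have ha' : a ∈ (P' : Subgroup G) := hP' ⟨⟨a, ha⟩, hR₁ (mem_zpowers _), rfl⟩
  have hb' : b ∈ (P' : Subgroup G) := hP' ⟨⟨b, hb⟩, hR₂ (mem_zpowers _), rfl⟩
  obtain ⟨g, hg⟩ := MulAction.exists_smul_eq G P' P
  have hmem : ∀ c ∈ (P' : Subgroup G), g * c * g⁻¹ ∈ (P : Subgroup G) := by
    intro c hc
    rw [← hg]
    change _ ∈ MulAut.conj g • (P' : Subgroup G)
    rw [Subgroup.mem_pointwise_smul_iff_inv_smul_mem]
    simpa [MulAut.smul_def, mul_assoc] using hc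
  have h1 := hP _ (hmem a ha') _ (hmem b hb')
  have h2 : g * (a * b) * g⁻¹ = g * (b * a) * g⁻¹ := by
    calc g * (a * b) * g⁻¹ = (g * a * g⁻¹) * (g * b * g⁻¹) := by group
      _ = (g * b * g⁻¹) * (g * a * g⁻¹) := h1
      _ = g * (b * a) * g⁻¹ := by group
  have h3 := mul_right_cancel h2
  exact mul_left_cancel h3

theorem aux {G : Type*} [Group G] [Finite G] (hG : Cfsg.IsMinimalNonNilpotent G) (q : ℕ) [hq' : Fact q.Prime] (hq : q ∣ Nat.card G) (Q : Sylow q G) (hQ : (Q : Subgroup G).Normal) (D : Subgroup G) [hDn : D.Normal] (hD : D = (commutator ↥(Q : Subgroup G)).map (Q : Subgroup G).subtype) : ¬ IsMulCommutative (G ⧸ D) ∧ ∀ K : Subgroup (G ⧸ D), K ≠ ⊤ → IsMulCommutative K := by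
  classical
  obtain ⟨p, q₀, hp, hq₀, hpq₀, P, Q₀, hPc, hQ₀, hsup⟩ := schmidt hG
  haveI : Fact p.Prime := ⟨hp⟩
  haveI : Fact q₀.Prime := ⟨hq₀⟩
  obtain ⟨hnil, hprop⟩ := id hG
  have hdis : Disjoint (P : Subgroup G) (Q₀ : Subgroup G) :=
    IsPGroup.disjoint_of_ne p q₀ hpq₀ _ _ P.isPGroup' Q₀.isPGroup'
  haveI := hQ₀
  have hcardG : Nat.card P * Nat.card Q₀ = Nat.card G := by
    have hc := Cfsg.Agent.Lib.Solvable.Hall.card_sup_mul_card_inf (P : Subgroup G) (Q₀ : Subgroup G)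
    rw [hdis.eq_bot, hsup, Subgroup.card_bot, mul_one, Subgroup.card_top] at hc
    exact hc.symm
  -- `P` is not normal
  have hPnn : ¬ (P : Subgroup G).Normal := by
    intro hPn
    apply hnil
    rw [← Cfsg.Agent.Lib.Core.Basic.fittingSubgroup_eq_top_iff, eq_top_iff, ← hsup]
    apply sup_le
    · exact Cfsg.Agent.Lib.Core.Basic.le_fittingSubgroup hPn P.isPGroup'.isNilpotent
    · exact Cfsg.Agent.Lib.Core.Basic.le_fittingSubgroup hQ₀ Q₀.isPGroup'.isNilpotent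
  -- `q = q₀`
  have hqq : q = q₀ := by
    have h1 : q ∣ Nat.card P * Nat.card Q₀ := hcardG ▸ hq
    obtain ⟨a, ha⟩ := IsPGroup.iff_card.mp P.isPGroup'
    obtain ⟨b, hb⟩ := IsPGroup.iff_card.mp Q₀.isPGroup'
    rw [ha, hb] at h1
    rcases (Nat.Prime.dvd_mul hq'.out).mp h1 with h2 | h2
    · have h3 := (Nat.prime_dvd_prime_iff_eq hq'.out hp).mp (Nat.Prime.dvd_of_dvd_pow hq'.out h2)
      subst h3
      exfalso
      letI := Sylow.unique_of_normal Q hQ
      rw [Subsingleton.elim P Q] at hPnn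
      exact hPnn hQ
    · exact (Nat.prime_dvd_prime_iff_eq hq'.out hq₀).mp (Nat.Prime.dvd_of_dvd_pow hq'.out h2)
  subst hqq
  have hQQ : Q = Q₀ := by
    letI := Sylow.unique_of_normal Q hQ
    exact Subsingleton.elim _ _
  subst hQQ
  haveI hQnil : Group.IsNilpotent (Q : Subgroup G) := Q.isPGroup'.isNilpotent
  have hDle : D ≤ frattini G := by
    rw [hD]
    refine le_trans ?_ (Cfsg.Agent.Lib.SolvStruct.Frat.map_frattini_le (Q : Subgroup G))
    exact Subgroup.map_mono (Cfsg.Agent.Lib.SolvStruct.Frat2.commutator_le_frattini_of_nilpotent)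
  have hDQ : ∀ a ∈ (Q : Subgroup G), ∀ b ∈ (Q : Subgroup G), ⁅a, b⁆ ∈ D := by
    intro a ha b hb
    rw [hD]
    refine ⟨⁅(⟨a, ha⟩ : (Q : Subgroup G)), (⟨b, hb⟩ : (Q : Subgroup G))⁆, ?_, rfl⟩
    exact Subgroup.commutator_mem_commutator (Subgroup.mem_top _) (Subgroup.mem_top _)
  have hmk : ∀ a b : G, ⁅a, b⁆ ∈ D → ((a : G ⧸ D)) * (b : G ⧸ D) = (b : G ⧸ D) * (a : G ⧸ D) := by
    intro a b hab
    have h1 : ((⁅a, b⁆ : G) : G ⧸ D) = 1 := (QuotientGroup.eq_one_iff _).mpr hab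
    have h2 : a * b = ⁅a, b⁆ * (b * a) := by
      rw [commutatorElement_def]; group
    rw [← QuotientGroup.mk_mul, h2, QuotientGroup.mk_mul, h1, one_mul, QuotientGroup.mk_mul]
  constructor
  · -- non-abelian
    intro hc
    apply hnil
    have t := (Group.isNilpotent_of_finite_tfae (G := G)).out 0 2
    apply t.mpr
    intro M hM
    apply normal_of_commutator_le M
    rw [commutator_def, Subgroup.commutator_le]
    intro a _ b _
    have h1 : ((⁅a, b⁆ : G) : G ⧸ D) = 1 := by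
      have h2 := hc.is_comm.comm (a : G ⧸ D) (b : G ⧸ D)
      simp only [commutatorElement_def, QuotientGroup.mk_mul, QuotientGroup.mk_inv]
      rw [h2]
      group
    have h3 : ⁅a, b⁆ ∈ D := (QuotientGroup.eq_one_iff _).mp h1
    exact frattini_le_coatom hM (hDle h3)
  · intro K hK
    set K' : Subgroup G := K.comap (QuotientGroup.mk' D) with hK'
    have hK'ne : K' ≠ ⊤ := by
      intro htop
      apply hK
      rw [eq_top_iff]
      intro q' _
      obtain ⟨z, rfl⟩ := QuotientGroup.mk'_surjective D q'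
      have : z ∈ K' := by rw [htop]; trivial
      exact this
    have hK'nil := hprop K' hK'ne
    -- the Sylow `p`-subgroup `P` is abelian
    have hPcomm : ∀ a ∈ (P : Subgroup G), ∀ b ∈ (P : Subgroup G), a * b = b * a := by
      intro a ha b hb
      have := (IsCyclic.isMulCommutative (α := (P : Subgroup G))).is_comm.comm ⟨a, ha⟩ ⟨b, hb⟩
      exact congrArg Subtype.val this
    -- decomposition of elements
    have hdec : ∀ x ∈ K', ∃ a b : G, x = a * b ∧ a ∈ K' ∧ b ∈ K' ∧ b ∈ (Q : Subgroup G) ∧ ∃ k, a ^ p ^ k = 1 := by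
      intro x hx
      obtain ⟨a, b, hab, -, hak, hbc, ha, hb⟩ := Cfsg.Agent.Lib.Core.Residual.exists_pPart_pPrimePart p x (isOfFinOrder_of_finite x)
      have hzK : zpowers x ≤ K' := (zpowers_le).mpr hx
      refine ⟨a, b, hab.symm, hzK ha, hzK hb, ?_, hak⟩
      -- the image of `b` in `G / Q` is trivial
      have h1 : orderOf b ∣ Nat.card P * Nat.card Q := hcardG ▸ orderOf_dvd_natCard b
      have h2 : orderOf b ∣ Nat.card Q := by
        obtain ⟨n, hn⟩ := IsPGroup.iff_card.mp P.isPGroup'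
        rw [hn] at h1
        exact (Nat.Coprime.pow_right n hbc).dvd_of_dvd_mul_left h1
      have h3 : ((b : G) : G ⧸ (Q : Subgroup G)) ^ Nat.card Q = 1 := by
        rw [← QuotientGroup.mk_pow, orderOf_dvd_iff_pow_eq_one.mp h2]
        rfl
      have h4 : ((b : G) : G ⧸ (Q : Subgroup G)) ^ (Q : Subgroup G).index = 1 := by
        rw [Subgroup.index_eq_card]
        exact pow_card_eq_one'
      have hco : (Nat.card Q).Coprime (Q : Subgroup G).index := by
        obtain ⟨n, hn⟩ := IsPGroup.iff_card.mp Q.isPGroup'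
        rw [hn]
        exact Nat.Coprime.pow_left n ((Nat.Prime.coprime_iff_not_dvd hq₀).mpr Q.not_dvd_index)
      have h5 : orderOf ((b : G) : G ⧸ (Q : Subgroup G)) = 1 :=
        Nat.eq_one_of_dvd_coprimes hco (orderOf_dvd_of_pow_eq_one h3) (orderOf_dvd_of_pow_eq_one h4)
      exact (QuotientGroup.eq_one_iff _).mp (orderOf_eq_one_iff.mp h5)
    refine ⟨⟨?_⟩⟩
    rintro ⟨x', hx'⟩ ⟨y', hy'⟩
    obtain ⟨x, rfl⟩ := QuotientGroup.mk'_surjective D x'
    obtain ⟨y, rfl⟩ := QuotientGroup.mk'_surjective D y'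
    apply Subtype.ext
    obtain ⟨a, b, rfl, haK, hbK, hbQ, hap⟩ := hdec x hx'
    obtain ⟨a', b', rfl, haK', hbK', hbQ', hap'⟩ := hdec y hy'
    -- commutations
    have haa : a * a' = a' * a := comm_p_elements P hPcomm K' hK'nil haK haK' hap hap'
    have hcomm : ∀ u ∈ K', (∃ k, u ^ p ^ k = 1) → ∀ v ∈ K', v ∈ (Q : Subgroup G) → u * v = v * u := by
      intro u hu hup v hv hvQ
      have hc := commute_of_isNilpotent hK'nil hpq₀ (x := ⟨u, hu⟩) (y := ⟨v, hv⟩)
        (by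
          rw [Subgroup.orderOf_mk]
          obtain ⟨k, hk⟩ := hup
          obtain ⟨j, -, hj⟩ := (Nat.dvd_prime_pow hp).mp (orderOf_dvd_of_pow_eq_one hk)
          exact ⟨j, hj⟩)
        (by rw [Subgroup.orderOf_mk]; exact orderOf_eq_pow_of_mem Q.isPGroup' hvQ)
      exact congrArg Subtype.val hc
    have h1 := hcomm a haK hap b' hbK' hbQ'
    have h2 := hcomm a' haK' hap' b hbK hbQ
    have hbb := hmk b b' (hDQ b hbQ b' hbQ')
    show ((a * b : G) : G ⧸ D) * ((a' * b' : G) : G ⧸ D) = ((a' * b' : G) : G ⧸ D) * ((a * b : G) : G ⧸ D)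
    simp only [QuotientGroup.mk_mul]
    have e1 : ((a' : G) : G ⧸ D) * (b : G ⧸ D) = (b : G ⧸ D) * (a' : G ⧸ D) := by
      rw [← QuotientGroup.mk_mul, h2, QuotientGroup.mk_mul]
    have e2 : ((a : G) : G ⧸ D) * (b' : G ⧸ D) = (b' : G ⧸ D) * (a : G ⧸ D) := by
      rw [← QuotientGroup.mk_mul, h1, QuotientGroup.mk_mul]
    have e3 : ((a : G) : G ⧸ D) * (a' : G ⧸ D) = (a' : G ⧸ D) * (a : G ⧸ D) := by
      rw [← QuotientGroup.mk_mul, haa, QuotientGroup.mk_mul]
    calc ((a : G) : G ⧸ D) * (b : G ⧸ D) * ((a' : G ⧸ D) * (b' : G ⧸ D))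
        = (a : G ⧸ D) * ((b : G ⧸ D) * (a' : G ⧸ D)) * (b' : G ⧸ D) := by group
      _ = (a : G ⧸ D) * ((a' : G ⧸ D) * (b : G ⧸ D)) * (b' : G ⧸ D) := by rw [e1]
      _ = ((a : G ⧸ D) * (a' : G ⧸ D)) * ((b : G ⧸ D) * (b' : G ⧸ D)) := by group
      _ = ((a' : G ⧸ D) * (a : G ⧸ D)) * ((b' : G ⧸ D) * (b : G ⧸ D)) := by rw [e3, hbb]
      _ = (a' : G ⧸ D) * ((a : G ⧸ D) * (b' : G ⧸ D)) * (b : G ⧸ D) := by group
      _ = (a' : G ⧸ D) * ((b' : G ⧸ D) * (a : G ⧸ D)) * (b : G ⧸ D) := by rw [e2]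
      _ = (a' : G ⧸ D) * (b' : G ⧸ D) * ((a : G ⧸ D) * (b : G ⧸ D)) := by group

/-- Let G be a finite minimal non-nilpotent group and Q a normal Sylow q-subgroup of G, and let D be the commutator subgroup of Q regarded in G (a normal subgroup). Then G modulo D is non-abelian and all its proper subgroups are abelian. -/
theorem result {G : Type*} [Group G] [Finite G] (hG : Cfsg.IsMinimalNonNilpotent G) (q : ℕ) [Fact q.Prime] (hq : q ∣ Nat.card G) (Q : Sylow q G) (hQ : (Q : Subgroup G).Normal) (D : Subgroup G) [D.Normal] (hD : D = (commutator ↥(Q : Subgroup G)).map (Q : Subgroup G).subtype) : ¬ IsMulCommutative (G ⧸ D) ∧ ∀ K : Subgroup (G ⧸ D), K ≠ ⊤ → IsMulCommutative K := by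
  exact aux hG q hq Q hQ D hD

end Cfsg.Agent.S0577
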