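import Cfsg.Statements.S0578
import Mathlib.GroupTheory.Transfer
import Mathlib.GroupTheory.Nilpotent
import Mathlib.GroupTheory.Sylow

set_option autoImplicit false
open Cfsg

namespace Cfsg.Agent.S0578

open Subgroup

theorem sylow_comm {G : Type*} [Group G] [Finite G] (h : ∀ A : Subgroup G, IsMulCommutative A → Subgroup.normalizer (A : Set G) = Subgroup.centralizer (A : Set G)) (P : Subgroup G) [hPn : Group.IsNilpotent P] : ∀ x ∈ P, ∀ y ∈ P, x * y = y * x := by
  -- a maximal abelian subgroup of `P`
  have hwf : WellFoundedGT (Subgroup G) := inferInstance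
  obtain ⟨A, ⟨hAP, hAc⟩, hmax⟩ := hwf.wf.has_min {A : Subgroup G | A ≤ P ∧ ∀ x ∈ A, ∀ y ∈ A, x * y = y * x} ⟨⊥, bot_le, fun x hx y hy => by
    rw [Subgroup.mem_bot] at hx hy
    rw [hx, hy]⟩
  have hAcomm : IsMulCommutative A := ⟨⟨fun a b => Subtype.ext (hAc _ a.2 _ b.2)⟩⟩
  have hA := h A hAcomm
  by_cases hAeq : A = P
  · subst hAeq
    exact hAc
  exfalso
  -- normalizer condition in `P`
  have hlt : A.subgroupOf P < ⊤ := by
    rw [lt_top_iff_ne_top]
    intro htop
    have : P ≤ A := by
      intro x hx
      have hx' : (⟨x, hx⟩ : P) ∈ A.subgroupOf P := by rw [htop]; trivial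
      exact hx'
    exact hAeq (le_antisymm hAP this)
  have hnc := Group.normalizerCondition_of_isNilpotent (G := P) (A.subgroupOf P) hlt
  obtain ⟨⟨x, hxP⟩, hx1, hx2⟩ := SetLike.exists_of_lt hnc
  have hxA : x ∉ A := fun hxA => hx2 hxA
  have hxN : x ∈ Subgroup.normalizer (A : Set G) := by
    rw [Subgroup.mem_normalizer_iff]
    intro y
    by_cases hy : y ∈ P
    · have := (Subgroup.mem_normalizer_iff.mp hx1) ⟨y, hy⟩
      exact this
    · constructor
      · intro hyA
        exact absurd (hAP hyA) hy
      · intro hyA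
        have : y ∈ P := by
          have h1 := hAP hyA
          have h2 : y = x⁻¹ * (x * y * x⁻¹) * x := by group
          rw [h2]
          exact P.mul_mem (P.mul_mem (P.inv_mem hxP) h1) hxP
        exact absurd this hy
  rw [hA] at hxN
  set T := A ⊔ zpowers x with hT
  have hAC : A ≤ Subgroup.centralizer (A : Set G) := by
    intro a ha
    rw [Subgroup.mem_centralizer_iff]
    intro b hb
    exact hAc _ hb _ ha
  have hzC : zpowers x ≤ Subgroup.centralizer (A : Set G) := by
    rw [Subgroup.zpowers_le]
    exact hxN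
  have hTC : T ≤ Subgroup.centralizer (A : Set G) := sup_le hAC hzC
  have hzz : zpowers x ≤ Subgroup.centralizer ((zpowers x : Subgroup G) : Set G) := by
    intro a ha
    rw [Subgroup.mem_centralizer_iff]
    intro b hb
    obtain ⟨i, rfl⟩ := ha
    obtain ⟨j, rfl⟩ := hb
    exact (Commute.refl x).zpow_zpow j i
  have hTC2 : T ≤ Subgroup.centralizer ((zpowers x : Subgroup G) : Set G) := by
    apply sup_le _ hzz
    exact Subgroup.le_centralizer_iff.mp hzC
  have hTT : T ≤ Subgroup.centralizer (T : Set G) := by
    rw [Subgroup.le_centralizer_iff]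
    apply sup_le
    · exact Subgroup.le_centralizer_iff.mp hTC
    · exact Subgroup.le_centralizer_iff.mp hTC2
  have hTP : T ≤ P := sup_le hAP ((Subgroup.zpowers_le).mpr hxP)
  have hTm : T ∈ {A : Subgroup G | A ≤ P ∧ ∀ x ∈ A, ∀ y ∈ A, x * y = y * x} := by
    refine ⟨hTP, ?_⟩
    intro a ha b hb
    exact (Subgroup.mem_centralizer_iff.mp (hTT hb)) a ha
  have hAT : A < T := by
    refine lt_of_le_of_ne le_sup_left ?_
    intro heq
    apply hxA
    rw [heq]
    exact Subgroup.mem_sup_right (mem_zpowers x)
  exact hmax T hTm hAT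

theorem aux {G : Type*} [Group G] [Finite G] (h : ∀ A : Subgroup G, IsMulCommutative A → Subgroup.normalizer (A : Set G) = Subgroup.centralizer (A : Set G)) : IsMulCommutative G := by
  induction hn : Nat.card G using Nat.strong_induction_on generalizing G with
  | _ n ih =>
  subst hn
  rcases subsingleton_or_nontrivial G with hsub | hnt
  · exact ⟨⟨fun a b => Subsingleton.elim _ _⟩⟩
  obtain ⟨p, hp, hpd⟩ := Nat.exists_prime_and_dvd (Finite.one_lt_card (α := G)).ne'
  haveI : Fact p.Prime := ⟨hp⟩
  obtain ⟨P⟩ : Nonempty (Sylow p G) := inferInstance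
  haveI hPnil : Group.IsNilpotent (P : Subgroup G) := P.isPGroup'.isNilpotent
  have hPc := sylow_comm h (P : Subgroup G)
  haveI hPcomm : IsMulCommutative (P : Subgroup G) := ⟨⟨fun a b => Subtype.ext (hPc _ a.2 _ b.2)⟩⟩
  have hNC : Subgroup.normalizer ((P : Subgroup G) : Set G) ≤ Subgroup.centralizer ((P : Subgroup G) : Set G) :=
    (h (P : Subgroup G) hPcomm).le
  have hcomp := MonoidHom.ker_transferSylow_isComplement' P hNC
  set N := (MonoidHom.transferSylow P hNC).ker with hN
  haveI hNn : N.Normal := MonoidHom.normal_ker _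
  have hcard := hcomp.card_mul_card
  have hP1 : 1 < Nat.card P := by
    rw [P.card_eq_multiplicity]
    have : (Nat.card G).factorization p ≠ 0 := (Nat.Prime.factorization_pos_of_dvd hp Nat.card_pos.ne' hpd).ne'
    exact Nat.one_lt_pow this hp.one_lt
  have hlt : Nat.card N < Nat.card G := by
    rw [← hcard]
    exact lt_mul_of_one_lt_right Nat.card_pos hP1
  -- the restriction of the hypothesis
  have hres : ∀ A : Subgroup N, IsMulCommutative A → Subgroup.normalizer (A : Set N) = Subgroup.centralizer (A : Set N) := by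
    intro A hAc
    have hAc' : IsMulCommutative (A.map N.subtype) := by
      refine ⟨⟨?_⟩⟩
      rintro ⟨_, a, ha, rfl⟩ ⟨_, b, hb, rfl⟩
      apply Subtype.ext
      have := hAc.is_comm.comm ⟨a, ha⟩ ⟨b, hb⟩
      exact congrArg (fun z : A => ((z : N) : G)) this
    have hh := h _ hAc'
    ext x
    constructor
    · intro hx
      have h1 : (x : G) ∈ Subgroup.normalizer ((A.map N.subtype : Subgroup G) : Set G) := by
        rw [Subgroup.mem_normalizer_iff]
        intro y
        constructor
        · rintro ⟨a, ha, rfl⟩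
          exact ⟨x * a * x⁻¹, (Subgroup.mem_normalizer_iff.mp hx a).mp ha, rfl⟩
        · rintro ⟨a, ha, hae⟩
          have hy : y ∈ N := by
            have h2 : y = (x : G)⁻¹ * (N.subtype a) * x := by rw [hae]; group
            rw [h2]
            exact N.mul_mem (N.mul_mem (N.inv_mem x.2) a.2) x.2
          refine ⟨⟨y, hy⟩, ?_, rfl⟩
          change _ ∈ A
          rw [Subgroup.mem_normalizer_iff.mp hx ⟨y, hy⟩]
          have : x * ⟨y, hy⟩ * x⁻¹ = a := by
            apply Subtype.ext
            exact hae.symm
          rw [this]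
          exact ha
      rw [hh] at h1
      rw [Subgroup.mem_centralizer_iff]
      intro a ha
      exact Subtype.ext ((Subgroup.mem_centralizer_iff.mp h1) _ ⟨a, ha, rfl⟩)
    · intro hx
      rw [Subgroup.mem_normalizer_iff]
      intro y
      have hc := Subgroup.mem_centralizer_iff.mp hx
      constructor
      · intro hy
        have h1 : x * y * x⁻¹ = y := by
          rw [← hc y hy]; group
        rw [h1]
        exact hy
      · intro hy
        have h1 := hc _ hy
        have h2 : x * y * x⁻¹ = y := by
          have h3 : x * y * x⁻¹ * x = x * y := by group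
          rw [h3] at h1
          have h4 : x * y * x⁻¹ = x⁻¹ * (x * (x * y * x⁻¹)) := by group
          rw [h4, ← h1]
          group
        rw [h2] at hy
        exact hy
  have hNcomm := ih _ hlt hres rfl
  have hcent : ∀ g : G, ∀ a ∈ N, a * g = g * a := by
    intro g a ha
    have h1 := h N hNcomm
    have h2 : g ∈ Subgroup.normalizer (N : Set G) := by
      rw [Subgroup.normalizer_eq_top]
      trivial
    rw [h1] at h2
    exact (Subgroup.mem_centralizer_iff.mp h2) a ha
  refine ⟨⟨fun x y => ?_⟩⟩
  obtain ⟨⟨n, a⟩, hx⟩ := hcomp.2 x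
  obtain ⟨⟨n', b⟩, hy⟩ := hcomp.2 y
  simp only at hx hy
  rw [← hx, ← hy]
  have h1 := hcent (a : G) n' n'.2
  have h2 := hcent (b : G) n n.2
  have h3 := hPc a a.2 b b.2
  have h4 := hcent (n' : G) n n.2
  calc (n : G) * a * (n' * b) = n * (a * n') * b := by group
    _ = n * (n' * a) * b := by rw [h1]
    _ = n * n' * (a * b) := by group
    _ = n' * n * (b * a) := by rw [h4, h3]
    _ = n' * (n * b) * a := by group
    _ = n' * (b * n) * a := by rw [h2]
    _ = (n' * b) * (n * a) := by group

/-- If in a finite group the normalizer of each abelian subgroup coincides with its centralizer, then the group is abelian. -/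
theorem result {G : Type*} [Group G] [Finite G] (h : ∀ A : Subgroup G, IsMulCommutative A → Subgroup.normalizer (A : Set G) = Subgroup.centralizer (A : Set G)) : IsMulCommutative G := by
  exact aux h

end Cfsg.Agent.S0578
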