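import Cfsg.Statements.S0585
import Cfsg.Agent.Lib.SolvStruct.Frat

set_option autoImplicit false
open Cfsg

namespace Cfsg.Agent.S0585

/-- If the Frattini subgroup of a finite group G is trivial, then every abelian normal subgroup of G has a complement in G. -/
theorem result {G : Type*} [Group G] [Finite G] (hΦ : frattini G = ⊥) (A : Subgroup G) [A.Normal] [IsMulCommutative A] : ∃ H : Subgroup G, Subgroup.IsComplement' A H := by
  classical
  -- a minimal supplement of `A`
  let S : Set (Subgroup G) := {H | A ⊔ H = ⊤}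
  have hS : (⊤ : Subgroup G) ∈ S := by simp [S]
  obtain ⟨H, -, hmin⟩ := (Set.toFinite S).exists_le_minimal hS
  have hsup : A ⊔ H = ⊤ := hmin.1
  have hH : ∀ K : Subgroup G, A ⊔ K = ⊤ → K ≤ H → K = H := by
    intro K hK hKH
    exact le_antisymm hKH (hmin.2 hK hKH)
  have hprod := Cfsg.Agent.Lib.SolvStruct.Basic.forall_mul_of_sup_eq_top' A H hsup
  -- `A ⊓ H` is normal in `G`
  have hcomm : ∀ a ∈ A, ∀ b ∈ A, a * b = b * a := by
    intro a ha b hb
    have := mul_comm' (⟨a, ha⟩ : A) ⟨b, hb⟩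
    simpa using congrArg Subtype.val this
  have hnorm : (A ⊓ H).Normal := by
    constructor
    intro x hx g
    obtain ⟨hxA, hxH⟩ := Subgroup.mem_inf.mp hx
    obtain ⟨a, ha, b, hb, rfl⟩ := hprod g
    have h1 : (a * b) * x * (a * b)⁻¹ = a * (b * x * b⁻¹) * a⁻¹ := by group
    have hbx : b * x * b⁻¹ ∈ A := ‹A.Normal›.conj_mem x hxA b
    have h2 : a * (b * x * b⁻¹) * a⁻¹ = b * x * b⁻¹ := by
      rw [hcomm a ha _ hbx]; group
    rw [h1, h2]
    exact Subgroup.mem_inf.mpr ⟨hbx, mul_mem (mul_mem hb hxH) (inv_mem hb)⟩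
  -- it lies in the Frattini subgroup
  have hle : A ⊓ H ≤ frattini G := by
    rw [Cfsg.Agent.Lib.SolvStruct.Frat.le_frattini_iff]
    intro M hM
    by_contra hnot
    have hsup2 : M ⊔ (A ⊓ H) = ⊤ := Cfsg.Agent.Lib.SolvStruct.Basic.sup_eq_top_of_coatom hM hnot
    have hprod2 := Cfsg.Agent.Lib.SolvStruct.Basic.forall_mul_of_sup_eq_top' (A ⊓ H) M (by rwa [sup_comm])
    have hH1 : A ⊔ (H ⊓ M) = ⊤ := by
      rw [eq_top_iff]
      intro g _
      obtain ⟨a, ha, b, hb, rfl⟩ := hprod g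
      obtain ⟨c, hc, d, hd, hcd⟩ := hprod2 b
      have hcH : c ∈ H := (Subgroup.mem_inf.mp hc).2
      have hdH : d ∈ H := by
        have : d = c⁻¹ * b := by rw [hcd]; group
        rw [this]
        exact mul_mem (inv_mem hcH) hb
      rw [hcd, ← mul_assoc]
      exact mul_mem ((le_sup_left : A ≤ _) (mul_mem ha (Subgroup.mem_inf.mp hc).1))
        ((le_sup_right : H ⊓ M ≤ _) (Subgroup.mem_inf.mpr ⟨hdH, hd⟩))
    have hH2 := hH _ hH1 inf_le_left
    apply hnot
    have : H ≤ M := by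
      rw [← hH2]
      exact inf_le_right
    exact inf_le_right.trans this
  rw [hΦ, le_bot_iff] at hle
  refine ⟨H, Subgroup.isComplement'_of_disjoint_and_mul_eq_univ (disjoint_iff.mpr hle) ?_⟩
  rw [← Subgroup.normal_mul, hsup]
  rfl

end Cfsg.Agent.S0585
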