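import Cfsg.Statements.S0586
import Cfsg.Agent.S0585
import Cfsg.Agent.Lib.SolvStruct.Frat2
import Cfsg.Agent.Lib.Core.Basic
import Cfsg.Agent.Lib.Solvable.Basic

set_option autoImplicit false
open Cfsg

namespace Cfsg.Agent.S0586

open Subgroup Cfsg.Agent.Lib.SolvStruct.Basic
open scoped commutatorElement

theorem aux {G : Type*} [Group G] [Finite G] (hΦ : frattini G = ⊥) : Cfsg.fittingSubgroup G = sSup {N : Subgroup G | N.Normal ∧ N ≠ ⊥ ∧ IsMulCommutative N ∧ ∀ K : Subgroup G, K.Normal → K ≤ N → K = ⊥ ∨ K = N} := by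
  set F := Cfsg.fittingSubgroup G with hF
  haveI hFn : F.Normal := Cfsg.Agent.Lib.Core.Basic.fittingSubgroup_normal'
  haveI hFnil : Group.IsNilpotent F := Cfsg.Agent.Lib.Core.Basic.fittingSubgroup_isNilpotent
  -- `F` is abelian
  have hFcomm : ∀ x ∈ F, ∀ y ∈ F, x * y = y * x := by
    have h1 : frattini ↥F = ⊥ := by
      have h2 := Cfsg.Agent.Lib.SolvStruct.Frat.map_frattini_le F
      rw [hΦ, le_bot_iff, Subgroup.map_eq_bot_iff_of_injective _ F.subtype_injective] at h2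
      exact h2
    have h3 := Cfsg.Agent.Lib.SolvStruct.Frat2.commutator_le_frattini_of_nilpotent (K := F)
    rw [h1, le_bot_iff] at h3
    intro x hx y hy
    have h4 : ⁅(⟨x, hx⟩ : F), (⟨y, hy⟩ : F)⁆ = 1 := by
      have : ⁅(⟨x, hx⟩ : F), (⟨y, hy⟩ : F)⁆ ∈ commutator F :=
        Subgroup.commutator_mem_commutator (Subgroup.mem_top _) (Subgroup.mem_top _)
      rw [h3] at this
      exact this
    have h5 := commutatorElement_eq_one_iff_mul_comm.mp h4
    exact congrArg Subtype.val h5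
  set S := {N : Subgroup G | N.Normal ∧ N ≠ ⊥ ∧ IsMulCommutative N ∧ ∀ K : Subgroup G, K.Normal → K ≤ N → K = ⊥ ∨ K = N} with hS
  have hNF : sSup S ≤ F := by
    apply sSup_le
    rintro N ⟨hNn, -, hNc, -⟩
    apply Cfsg.Agent.Lib.Core.Basic.le_fittingSubgroup hNn
    letI : CommGroup N := { (inferInstance : Group N) with mul_comm := hNc.is_comm.comm }
    exact inferInstance
  set N := sSup S with hN
  haveI hNn : N.Normal := Subgroup.sSup_normal _ (fun _ h => h.1)
  haveI hNc : IsMulCommutative N := ⟨⟨fun a b => Subtype.ext (hFcomm _ (hNF a.2) _ (hNF b.2))⟩⟩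
  obtain ⟨H, hH⟩ := Cfsg.Agent.S0585.result hΦ N
  refine le_antisymm ?_ hNF
  -- `F ⊓ H` is normal in `G`
  have hmul : ∀ g : G, ∃ a ∈ N, ∃ b ∈ H, g = a * b := by
    intro g
    obtain ⟨⟨a, b⟩, hab⟩ := hH.2 g
    exact ⟨a, a.2, b, b.2, hab.symm⟩
  have hdisj : N ⊓ H = ⊥ := by
    have := hH.disjoint
    exact this.eq_bot
  have hFHn : (F ⊓ H).Normal := by
    constructor
    intro x hx g
    obtain ⟨a, ha, b, hb, rfl⟩ := hmul g
    have hx1 := hx.1
    have hx2 := hx.2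
    have h1 : (a * b) * x * (a * b)⁻¹ = b * x * b⁻¹ := by
      have h2 : b * x * b⁻¹ ∈ F := hFn.conj_mem x hx1 b
      have h3 := hFcomm a (hNF ha) _ h2
      calc (a * b) * x * (a * b)⁻¹ = a * (b * x * b⁻¹) * a⁻¹ := by group
        _ = (b * x * b⁻¹) * a * a⁻¹ := by rw [h3]
        _ = b * x * b⁻¹ := by group
    rw [h1]
    exact ⟨hFn.conj_mem x hx1 b, H.mul_mem (H.mul_mem hb hx2) (H.inv_mem hb)⟩
  have hbot : F ⊓ H = ⊥ := by
    by_contra hne
    obtain ⟨L, hL, hLle⟩ := Cfsg.Agent.Lib.Solvable.Basic.exists_isMinNormal_le _ hFHn hne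
    have hLF : L ≤ F := hLle.trans inf_le_left
    have hLH : L ≤ H := hLle.trans inf_le_right
    have hLS : L ∈ S := by
      refine ⟨hL.1, hL.2.1, ⟨⟨fun a b => Subtype.ext (hFcomm _ (hLF a.2) _ (hLF b.2))⟩⟩, hL.2.2⟩
    have hLN : L ≤ N := le_sSup hLS
    have : L ≤ N ⊓ H := le_inf hLN hLH
    rw [hdisj, le_bot_iff] at this
    exact hL.2.1 this
  intro x hx
  obtain ⟨a, ha, b, hb, rfl⟩ := hmul x
  have hb' : b ∈ F := by
    have : a⁻¹ * (a * b) ∈ F := F.mul_mem (F.inv_mem (hNF ha)) hx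
    simpa using this
  have : b ∈ F ⊓ H := ⟨hb', hb⟩
  rw [hbot, Subgroup.mem_bot] at this
  rw [this, mul_one]
  exact ha

/-- If the Frattini subgroup of a finite group G is trivial, then the Fitting subgroup of G equals the join of all abelian minimal normal subgroups of G. -/
theorem result {G : Type*} [Group G] [Finite G] (hΦ : frattini G = ⊥) : Cfsg.fittingSubgroup G = sSup {N : Subgroup G | N.Normal ∧ N ≠ ⊥ ∧ IsMulCommutative N ∧ ∀ K : Subgroup G, K.Normal → K ≤ N → K = ⊥ ∨ K = N} := by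
  exact aux hΦ

end Cfsg.Agent.S0586
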