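import Cfsg.Statements.S0587
import Cfsg.Agent.Lib.Core.Basic
import Cfsg.Agent.Lib.SolvStruct.Basic
import Mathlib.GroupTheory.GroupAction.ConjAct
import Mathlib.GroupTheory.PGroup

set_option autoImplicit false
open Cfsg

namespace Cfsg.Agent.S0587

open Subgroup Cfsg.Agent.Lib.SolvStruct.Basic Cfsg.Agent.Lib.Core.Basic

theorem normal_of_fac {G : Type*} [Group G] (B M A : Subgroup G)
    (hfac : ∀ g : G, ∃ a ∈ A, ∃ m ∈ M, g = a * m)
    (hA : ∀ a ∈ A, ∀ b ∈ B, a * b * a⁻¹ ∈ B) (hM : ∀ m ∈ M, ∀ b ∈ B, m * b * m⁻¹ ∈ B) : B.Normal := by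
  constructor
  intro b hb g
  obtain ⟨a, ha, m, hm, rfl⟩ := hfac g
  have h1 := hA a ha _ (hM m hm b hb)
  have h2 : a * m * b * (a * m)⁻¹ = a * (m * b * m⁻¹) * a⁻¹ := by group
  rw [h2]
  exact h1

theorem aux {G : Type*} [Group G] [Finite G] (p : ℕ) [hp : Fact p.Prime] (hL : Cfsg.pCore p G ≠ ⊥) (M : Subgroup G) (hM : IsCoatom M) (hcore : M.normalCore = ⊥) : Cfsg.IsElementaryAbelian p (Cfsg.pCore p G) ∧ Subgroup.IsComplement' (Cfsg.pCore p G) M ∧ (∀ K : Subgroup G, K.Normal → K ≤ Cfsg.pCore p G → K = ⊥ ∨ K = Cfsg.pCore p G) ∧ Subgroup.centralizer ((Cfsg.pCore p G : Subgroup G) : Set G) = Cfsg.pCore p G ∧ ∀ (q : ℕ) [Fact q.Prime], Cfsg.pCore q ↥M ≠ ⊥ → Nat.card (Cfsg.pCore p G) % q = 1 % q ∧ q ≠ p := by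
  set L := Cfsg.pCore p G with hLdef
  haveI hLn : L.Normal := inferInstance
  have hLp : IsPGroup p L := pCore_isPGroup
  -- normal subgroups inside `M` are trivial
  have hcoreN : ∀ K : Subgroup G, K.Normal → K ≤ M → K = ⊥ := by
    intro K hK hKM
    rw [eq_bot_iff, ← hcore]
    exact (Subgroup.normal_le_normalCore (hN := hK)).mpr hKM
  have hfacN : ∀ K : Subgroup G, K.Normal → K ≠ ⊥ → ∀ g : G, ∃ a ∈ K, ∃ m ∈ M, g = a * m := by
    intro K hK hK1 g
    have h1 : ¬ K ≤ M := fun h => hK1 (hcoreN K hK h)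
    have h2 : M ⊔ K = ⊤ := sup_eq_top_of_coatom hM h1
    haveI := hK
    exact forall_mul_of_sup_eq_top' K M (by rwa [sup_comm]) g
  -- the centre of `L`
  haveI hLnt : Nontrivial L := (Subgroup.nontrivial_iff_ne_bot L).mpr hL
  set Z : Subgroup G := (center ↥L).map L.subtype with hZ
  haveI hZn : Z.Normal := inferInstance
  have hZL : Z ≤ L := by
    rintro _ ⟨x, -, rfl⟩
    exact x.2
  have hZ1 : Z ≠ ⊥ := by
    have hc := hLp.center_nontrivial
    rw [hZ, Ne, Subgroup.map_eq_bot_iff_of_injective _ L.subtype_injective]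
    exact (Subgroup.nontrivial_iff_ne_bot _).mp hc
  have hZcomm : ∀ z ∈ Z, ∀ x ∈ L, z * x = x * z := by
    rintro _ ⟨z, hz, rfl⟩ x hx
    have := (Subgroup.mem_center_iff.mp hz) ⟨x, hx⟩
    exact (congrArg Subtype.val this).symm
  -- `L ∩ M = 1`
  have hLM : L ⊓ M = ⊥ := by
    apply hcoreN _ _ inf_le_right
    apply normal_of_fac _ M Z (hfacN Z hZn hZ1)
    · intro z hz b hb
      have : z * b * z⁻¹ = b := by
        rw [hZcomm z hz b hb.1]; group
      rw [this]; exact hb
    · intro m hm b hb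
      exact ⟨hLn.conj_mem b hb.1 m, M.mul_mem (M.mul_mem hm hb.2) (M.inv_mem hm)⟩
  have hLmem : ∀ x ∈ L, ∀ a ∈ L, ∀ m ∈ M, x = a * m → m = 1 := by
    intro x hx a ha m hm hxe
    have h1 : m ∈ L := by
      have : m = a⁻¹ * x := by rw [hxe]; group
      rw [this]
      exact L.mul_mem (L.inv_mem ha) hx
    have h2 : m ∈ L ⊓ M := ⟨h1, hm⟩
    rw [hLM, Subgroup.mem_bot] at h2
    exact h2
  -- `L` is abelian
  have hLZ : L ≤ Z := by
    intro x hx
    obtain ⟨z, hz, m, hm, rfl⟩ := hfacN Z hZn hZ1 x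
    have := hLmem _ hx z (hZL hz) m hm rfl
    rw [this, mul_one]
    exact hz
  have hLcomm : ∀ x ∈ L, ∀ y ∈ L, x * y = y * x := fun x hx y hy => hZcomm x (hLZ hx) y hy
  -- minimality
  have hmin : ∀ K : Subgroup G, K.Normal → K ≤ L → K = ⊥ ∨ K = L := by
    intro K hK hKL
    by_cases hK1 : K = ⊥
    · exact Or.inl hK1
    · right
      apply le_antisymm hKL
      intro x hx
      obtain ⟨a, ha, m, hm, rfl⟩ := hfacN K hK hK1 x
      have := hLmem _ hx a (hKL ha) m hm rfl
      rw [this, mul_one]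
      exact ha
  -- elementary abelian
  have hpow : ∀ x ∈ L, x ^ p = 1 := by
    let K : Subgroup G :=
      { carrier := {x | x ∈ L ∧ x ^ p = 1}
        one_mem' := ⟨L.one_mem, one_pow _⟩
        mul_mem' := fun {a b} ha hb => ⟨L.mul_mem ha.1 hb.1, by
          have hc : Commute a b := hLcomm a ha.1 b hb.1
          rw [hc.mul_pow, ha.2, hb.2, one_mul]⟩
        inv_mem' := fun {a} ha => ⟨L.inv_mem ha.1, by rw [inv_pow, ha.2, inv_one]⟩ }
    have hKn : K.Normal := by
      constructor
      intro x hx g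
      refine ⟨hLn.conj_mem x hx.1 g, ?_⟩
      rw [conj_pow, hx.2]
      group
    have hKL : K ≤ L := fun x hx => hx.1
    have hK1 : K ≠ ⊥ := by
      have hpd : p ∣ Nat.card L := by
        obtain ⟨n, hn⟩ := IsPGroup.iff_card.mp hLp
        rw [hn]
        have hn0 : n ≠ 0 := by
          rintro rfl
          rw [pow_zero] at hn
          exact hL (Subgroup.card_eq_one.mp hn)
        exact dvd_pow_self p hn0
      obtain ⟨y, hy⟩ := exists_prime_orderOf_dvd_card' p hpd
      have hy1 : (y : G) ^ p = 1 := by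
        have := pow_orderOf_eq_one y
        rw [hy] at this
        simpa using congrArg Subtype.val this
      intro hbot
      have hy2 : (y : G) ∈ K := ⟨y.2, hy1⟩
      rw [hbot, Subgroup.mem_bot] at hy2
      have : y = 1 := Subtype.ext hy2
      rw [this, orderOf_one] at hy
      exact hp.out.one_lt.ne hy
    have hKeq := (hmin K hKn hKL).resolve_left hK1
    intro x hx
    rw [← hKeq] at hx
    exact hx.2
  -- the centralizer
  have hcent : Subgroup.centralizer (L : Set G) = L := by
    apply le_antisymm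
    · set C := Subgroup.centralizer (L : Set G) with hC
      have hCM : C ⊓ M = ⊥ := by
        apply hcoreN _ _ inf_le_right
        apply normal_of_fac _ M L (hfacN L hLn hL)
        · intro l hl b hb
          have h1 : l * b = b * l := (Subgroup.mem_centralizer_iff.mp hb.1) l hl
          have : l * b * l⁻¹ = b := by rw [h1]; group
          rw [this]; exact hb
        · intro m hm b hb
          refine Subgroup.mem_inf.mpr ⟨?_, M.mul_mem (M.mul_mem hm hb.2) (M.inv_mem hm)⟩
          rw [hC, Subgroup.mem_centralizer_iff]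
          intro l hl
          have h1 : m⁻¹ * l * m ∈ L := by
            have := hLn.conj_mem l hl m⁻¹
            simpa using this
          have h2 : (m⁻¹ * l * m) * b = b * (m⁻¹ * l * m) := (Subgroup.mem_centralizer_iff.mp hb.1) _ h1
          calc l * (m * b * m⁻¹) = m * ((m⁻¹ * l * m) * b) * m⁻¹ := by group
            _ = m * (b * (m⁻¹ * l * m)) * m⁻¹ := by rw [h2]
            _ = m * b * m⁻¹ * l := by group
      intro c hc
      obtain ⟨l, hl, m, hm, rfl⟩ := hfacN L hLn hL c
      have h1 : l ∈ C := by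
        rw [hC, Subgroup.mem_centralizer_iff]
        intro y hy
        exact hLcomm y hy l hl
      have h2 : m ∈ C := by
        have : m = l⁻¹ * (l * m) := by group
        rw [this]
        exact C.mul_mem (C.inv_mem h1) hc
      have h3 : m ∈ C ⊓ M := ⟨h2, hm⟩
      rw [hCM, Subgroup.mem_bot] at h3
      rw [h3, mul_one]
      exact hl
    · intro x hx
      rw [Subgroup.mem_centralizer_iff]
      intro y hy
      exact hLcomm y hy x hx
  refine ⟨⟨⟨⟨fun a b => Subtype.ext (hLcomm _ a.2 _ b.2)⟩⟩, hpow⟩, ?_, hmin, hcent, ?_⟩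
  · apply Subgroup.isComplement'_of_disjoint_and_mul_eq_univ
    · rw [Subgroup.disjoint_def]
      intro x hxL hxM
      have h2 : x ∈ L ⊓ M := ⟨hxL, hxM⟩
      rwa [hLM, Subgroup.mem_bot] at h2
    · ext g
      simp only [Set.mem_mul, Set.mem_univ, iff_true]
      obtain ⟨a, ha, m, hm, rfl⟩ := hfacN L hLn hL g
      exact ⟨a, ha, m, hm, rfl⟩
  · intro q _ hR
    have hq := (Fact.out : q.Prime)
    set R₀ := Cfsg.pCore q ↥M with hR₀
    set R : Subgroup G := R₀.map M.subtype with hRdef
    have hRp : IsPGroup q R := (pCore_isPGroup (p := q) (G := ↥M)).map M.subtype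
    have hRM : R ≤ M := by
      rintro _ ⟨x, -, rfl⟩
      exact x.2
    have hRnorm : ∀ m ∈ M, ∀ r ∈ R, m * r * m⁻¹ ∈ R := by
      rintro m hm _ ⟨x, hx, rfl⟩
      have h1 : (⟨m, hm⟩ : M) * x * (⟨m, hm⟩ : M)⁻¹ ∈ R₀ :=
        (inferInstance : R₀.Normal).conj_mem x hx ⟨m, hm⟩
      exact ⟨_, h1, rfl⟩
    have hR1 : R ≠ ⊥ := by
      rw [hRdef, Ne, Subgroup.map_eq_bot_iff_of_injective _ M.subtype_injective]
      exact hR
    -- fixed points
    set D : Subgroup G := L ⊓ Subgroup.centralizer (R : Set G) with hD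
    have hDn : D.Normal := by
      apply normal_of_fac _ M L (hfacN L hLn hL)
      · intro l hl d hd
        have : l * d * l⁻¹ = d := by rw [hLcomm l hl d hd.1]; group
        rw [this]; exact hd
      · intro m hm d hd
        refine Subgroup.mem_inf.mpr ⟨hLn.conj_mem d hd.1 m, ?_⟩
        rw [Subgroup.mem_centralizer_iff]
        intro r hr
        have h1 : m⁻¹ * r * m ∈ R := by
          have := hRnorm m⁻¹ (M.inv_mem hm) r hr
          simpa using this
        have h2 : (m⁻¹ * r * m) * d = d * (m⁻¹ * r * m) := (Subgroup.mem_centralizer_iff.mp hd.2) _ h1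
        calc r * (m * d * m⁻¹) = m * ((m⁻¹ * r * m) * d) * m⁻¹ := by group
          _ = m * (d * (m⁻¹ * r * m)) * m⁻¹ := by rw [h2]
          _ = m * d * m⁻¹ * r := by group
    have hDbot : D = ⊥ := by
      refine (hmin D hDn inf_le_left).resolve_right ?_
      intro hDL
      apply hR1
      rw [eq_bot_iff]
      intro r hr
      have h1 : r ∈ Subgroup.centralizer (L : Set G) := by
        rw [Subgroup.mem_centralizer_iff]
        intro l hl
        have h2 : l ∈ D := by rw [hDL]; exact hl
        exact ((Subgroup.mem_centralizer_iff.mp h2.2) r hr).symm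
      rw [hcent] at h1
      have h3 : r ∈ L ⊓ M := ⟨h1, hRM hr⟩
      rwa [hLM] at h3
    -- the count
    letI : MulAction R L := MulAction.compHom L ((MulAut.conjNormal (H := L)).comp R.subtype)
    have hsmul : ∀ (r : R) (x : L), ((r • x : L) : G) = (r : G) * x * (r : G)⁻¹ := by
      intro r x
      rfl
    have hcount := hRp.card_modEq_card_fixedPoints L
    have hfix : Nat.card (MulAction.fixedPoints R L) = 1 := by
      rw [Nat.card_eq_one_iff_unique]
      refine ⟨⟨?_⟩, ⟨⟨1, ?_⟩⟩⟩
      · rintro ⟨x, hx⟩ ⟨y, hy⟩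
        have key : ∀ z : L, z ∈ MulAction.fixedPoints R L → z = 1 := by
          intro z hz
          have h1 : (z : G) ∈ D := by
            refine Subgroup.mem_inf.mpr ⟨z.2, ?_⟩
            rw [Subgroup.mem_centralizer_iff]
            intro r hr
            have h2 := hz ⟨r, hr⟩
            have h3 := hsmul ⟨r, hr⟩ z
            rw [h2] at h3
            have h4 : (z : G) = r * z * r⁻¹ := h3
            calc r * (z : G) = (r * z * r⁻¹) * r := by group
              _ = z * r := by rw [← h4]
          rw [hDbot, Subgroup.mem_bot] at h1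
          exact Subtype.ext h1
        apply Subtype.ext
        exact (key x hx).trans (key y hy).symm
      · intro r
        apply Subtype.ext
        rw [hsmul]
        simp
    rw [hfix] at hcount
    refine ⟨hcount, ?_⟩
    rintro rfl
    obtain ⟨n, hn⟩ := IsPGroup.iff_card.mp hLp
    have hn0 : n ≠ 0 := by
      rintro rfl
      rw [pow_zero] at hn
      exact hL (Subgroup.card_eq_one.mp hn)
    rw [hn, Nat.ModEq] at hcount
    have h5 : q ^ n % q = 0 := Nat.mod_eq_zero_of_dvd (dvd_pow_self q hn0)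
    rw [h5, Nat.mod_eq_of_lt hq.one_lt] at hcount
    exact absurd hcount (by norm_num)

/-- Let G be a finite group whose largest normal p-subgroup L is nontrivial, and M a maximal subgroup of G with trivial normal core. Then L is elementary abelian, M is a complement to L, L is a minimal normal subgroup of G, the centralizer of L is L, and for every prime q such that the largest normal q-subgroup of M is nontrivial, the order of L is congruent to 1 modulo q and q ≠ p. -/
theorem result {G : Type*} [Group G] [Finite G] (p : ℕ) [Fact p.Prime] (hL : Cfsg.pCore p G ≠ ⊥) (M : Subgroup G) (hM : IsCoatom M) (hcore : M.normalCore = ⊥) : Cfsg.IsElementaryAbelian p (Cfsg.pCore p G) ∧ Subgroup.IsComplement' (Cfsg.pCore p G) M ∧ (∀ K : Subgroup G, K.Normal → K ≤ Cfsg.pCore p G → K = ⊥ ∨ K = Cfsg.pCore p G) ∧ Subgroup.centralizer ((Cfsg.pCore p G : Subgroup G) : Set G) = Cfsg.pCore p G ∧ ∀ (q : ℕ) [Fact q.Prime], Cfsg.pCore q ↥M ≠ ⊥ → Nat.card (Cfsg.pCore p G) % q = 1 % q ∧ q ≠ p := by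
  exact aux p hL M hM hcore

end Cfsg.Agent.S0587
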