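import Cfsg.Statements.S0588
import Cfsg.Agent.Lib.SolvStruct.Basic

set_option autoImplicit false
open Cfsg

namespace Cfsg.Agent.S0588

/-- If a subgroup H of a finite group G contains the centralizer of every non-identity element of H, then the order of H is coprime to its index. -/
theorem result {G : Type*} [Group G] [Finite G] (H : Subgroup G) (h : ∀ x ∈ H, x ≠ 1 → Subgroup.centralizer ({x} : Set G) ≤ H) : (Nat.card H).Coprime H.index := by
  apply Nat.coprime_of_dvd
  intro p hp hp1 hp2
  haveI : Fact p.Prime := ⟨hp⟩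
  -- an element of order `p` in `H`
  obtain ⟨x, hx⟩ := exists_prime_orderOf_dvd_card' (G := H) p hp1
  have hxne : (x : G) ≠ 1 := by
    intro h1
    have : x = 1 := Subtype.ext h1
    rw [this, orderOf_one] at hx
    exact hp.one_lt.ne hx
  have hxord : orderOf (x : G) = p := by
    rw [Subgroup.orderOf_coe]; exact hx
  -- a Sylow subgroup containing `x`
  have hpx : IsPGroup p (Subgroup.zpowers (x : G)) := by
    apply IsPGroup.of_card (n := 1)
    rw [Nat.card_zpowers, hxord, pow_one]
  obtain ⟨S, hS⟩ := hpx.exists_le_sylow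
  have hxS : (x : G) ∈ (S : Subgroup G) := hS (Subgroup.mem_zpowers _)
  -- the center of `S` is nontrivial
  haveI : Nontrivial (S : Subgroup G) := by
    refine ⟨⟨⟨x, hxS⟩, 1, ?_⟩⟩
    intro h
    exact hxne (congrArg Subtype.val h)
  haveI : Finite (S : Subgroup G) := inferInstance
  have hZ := S.isPGroup'.center_nontrivial
  obtain ⟨⟨y, hyZ⟩, hy1⟩ := exists_ne (1 : Subgroup.center (S : Subgroup G))
  have hyne : (y : G) ≠ 1 := by
    intro h1
    apply hy1
    exact Subtype.ext (Subtype.ext h1)
  have hycomm : ∀ s : (S : Subgroup G), (y : G) * s = s * y := by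
    intro s
    have := (Subgroup.mem_center_iff.mp hyZ) s
    exact (congrArg Subtype.val this).symm
  have hyH : (y : G) ∈ H := by
    apply h (x : G) x.2 hxne
    rw [Subgroup.mem_centralizer_iff]
    intro t ht
    rw [Set.mem_singleton_iff] at ht
    rw [ht]
    exact (hycomm ⟨x, hxS⟩).symm
  have hSH : (S : Subgroup G) ≤ H := by
    intro s hs
    apply h (y : G) hyH hyne
    rw [Subgroup.mem_centralizer_iff]
    intro t ht
    rw [Set.mem_singleton_iff] at ht
    rw [ht]
    exact hycomm ⟨s, hs⟩
  have hnd := S.not_dvd_index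
  apply hnd
  rw [← Subgroup.relIndex_mul_index hSH]
  exact Dvd.dvd.mul_left hp2 _

end Cfsg.Agent.S0588
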