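import Cfsg.Statements.S0602
import Cfsg.Agent.Lib.PLocal.Thompson

open Cfsg.Agent.Lib.PLocal.Thompson

set_option autoImplicit false
open Cfsg

namespace Cfsg.Agent.S0602

/-- The Thompson subgroup is characteristic, and nontrivial as soon as p divides the group order. -/
theorem result {G : Type*} [Group G] [Finite G] {p : ℕ} [Fact p.Prime] : (Cfsg.thompsonSubgroup p G).Characteristic ∧ (p ∣ Nat.card G → Cfsg.thompsonSubgroup p G ≠ ⊥) := by
  constructor
  · rw [Subgroup.characteristic_iff_map_eq]
    intro φ
    rw [thompsonSubgroup_eq, jOf_map_equiv, Subgroup.map_top_of_surjective _ φ.surjective]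
  · intro h hbot
    obtain ⟨x, hx⟩ := exists_prime_orderOf_dvd_card' p h
    have hxp : x ^ p = 1 := by rw [← hx]; exact pow_orderOf_eq_one x
    obtain ⟨A, hA⟩ := exists_isMaxIn p (⊤ : Subgroup G)
    have h1 := hA.2.2 (Subgroup.zpowers x) le_top (isAbExp_zpowers hxp)
    have h2 : A ≤ thompsonSubgroup p G := by
      rw [thompsonSubgroup_eq]
      exact hA.le_jOf
    rw [hbot, le_bot_iff] at h2
    rw [h2, Nat.card_zpowers, hx] at h1
    have hp := (Fact.out : p.Prime).two_le
    simp at h1
    omega

end Cfsg.Agent.S0602
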