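import Cfsg.Statements.S0609
import Cfsg.Agent.Lib.Core.ThompsonMap

set_option autoImplicit false
open Cfsg

namespace Cfsg.Agent.S0609

open Subgroup Cfsg.Agent.Lib.Core.Basic Cfsg.Agent.Lib.Core.CoprimeMap
  Cfsg.Agent.Lib.Core.ThompsonMap

universe u

theorem hO {G H : Type u} [Group G] [Group H] [Finite G] {p : ℕ} [Fact p.Prime] (f : G →* H)
    (hf : Function.Surjective f) (hker : (Nat.card f.ker).Coprime p) (S : Sylow p G) :
    centralizer
      ((omegaOne p ((S.mapSurjective hf : Subgroup H) ⊓
        centralizer ((S.mapSurjective hf : Subgroup H) : Set H)) : Subgroup H) : Set H) =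
        (centralizer (omegaOne p ((S : Subgroup G) ⊓ centralizer ((S : Subgroup G) : Set G)) : Set G)).map f := by
  have hS := S.isPGroup'
  have h1 : IsPGroup p (omegaOne p ((S : Subgroup G) ⊓ centralizer ((S : Subgroup G) : Set G))) :=
    hS.to_le (omegaOne_le inf_le_left)
  rw [map_centralizer_eq f hf h1 hker, map_omegaOne_center f hS hker, Sylow.coe_mapSurjective]

theorem hJ {G H : Type u} [Group G] [Group H] [Finite G] {p : ℕ} [Fact p.Prime] (f : G →* H)
    (hf : Function.Surjective f) (hker : (Nat.card f.ker).Coprime p) (S : Sylow p G) :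
    normalizer ((thompsonSubgroupOf p (S.mapSurjective hf : Subgroup H) : Subgroup H) : Set H) =
        (normalizer (thompsonSubgroupOf p (S : Subgroup G) : Set G)).map f := by
  have hS := S.isPGroup'
  have h1 : IsPGroup p (thompsonSubgroupOf p (S : Subgroup G)) :=
    hS.to_le (thompsonSubgroupOf_le _)
  rw [map_normalizer_eq f hf h1 hker, map_thompsonSubgroupOf f hS hker, Sylow.coe_mapSurjective]

/-- Thompson factorizability passes to and from the quotient by the largest normal subgroup of order prime to p. -/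
theorem result {G : Type*} [Group G] [Finite G] {p : ℕ} [Fact p.Prime] : Cfsg.IsThompsonFactorizable p G ↔ Cfsg.IsThompsonFactorizable p (G ⧸ Cfsg.pPrimeCore p G) := by
  let f : G →* G ⧸ pPrimeCore p G := QuotientGroup.mk' (pPrimeCore p G)
  have hf : Function.Surjective f := QuotientGroup.mk_surjective
  have hker : (Nat.card f.ker).Coprime p := by
    have : f.ker = pPrimeCore p G := QuotientGroup.ker_mk' _
    rw [this]
    exact pPrimeCore_coprime
  constructor
  · intro h Sb y
    obtain ⟨S, rfl⟩ := Sylow.mapSurjective_surjective hf p Sb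
    obtain ⟨g, rfl⟩ := hf y
    obtain ⟨x, hx, c, hc, n, hn, rfl⟩ := h S g
    refine ⟨1, Subgroup.one_mem _, f c, ?_, f n, ?_, ?_⟩
    · rw [hO f hf hker S]; exact ⟨c, hc, rfl⟩
    · rw [hJ f hf hker S]; exact ⟨n, hn, rfl⟩
    · have hx1 : f x = 1 := (QuotientGroup.eq_one_iff x).mpr hx
      simp [hx1]
  · intro h S g
    obtain ⟨x', hx', c', hc', n', hn', he⟩ := h (S.mapSurjective hf) (f g)
    have hx1 : x' = 1 := by
      have : pPrimeCore p (G ⧸ pPrimeCore p G) = ⊥ := pPrimeCore_quotient_eq_bot
      rw [this, Subgroup.mem_bot] at hx'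
      exact hx'
    rw [hO f hf hker S] at hc'
    rw [hJ f hf hker S] at hn'
    obtain ⟨c, hc, rfl⟩ := hc'
    obtain ⟨n, hn, rfl⟩ := hn'
    rw [hx1, one_mul, ← map_mul] at he
    have ht : (c * n)⁻¹ * g ∈ pPrimeCore p G := by
      have := QuotientGroup.eq.mp he.symm
      simpa using this
    refine ⟨(c * n) * ((c * n)⁻¹ * g) * (c * n)⁻¹,
      (pPrimeCore_normal p G).conj_mem _ ht _, c, hc, n, hn, ?_⟩
    group

end Cfsg.Agent.S0609
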