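import Cfsg.Statements.S0629
import Cfsg.Agent.Lib.Core.PSolvable
import Cfsg.Agent.Lib.Core.CoprimeMap

set_option autoImplicit false
open Cfsg

namespace Cfsg.Agent.S0629

open Subgroup Cfsg.Agent.Lib.Core.Basic Cfsg.Agent.Lib.Core.Constrained
  Cfsg.Agent.Lib.Core.PSolvable Cfsg.Agent.Lib.Core.CoprimeMap

/-- A group in which the centralizer of a Sylow p-subgroup of O_{p',p}(G) is p-solvable is p-constrained. -/
theorem result {G : Type*} [Group G] [Finite G] {p : ℕ} [Fact p.Prime] (P : Sylow p ↥(Cfsg.pPrimePCore p G)) (hsol : Cfsg.IsPSolvable p ↥(Subgroup.centralizer (((P : Subgroup ↥(Cfsg.pPrimePCore p G)).map (Cfsg.pPrimePCore p G).subtype : Subgroup G) : Set G))) : Cfsg.IsPConstrained p G := by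
  rw [isPConstrained_iff]
  refine isCharP_of_isPSolvable_centralizer pPrimeCore_quotient_eq_bot ?_
  let f : G →* G ⧸ pPrimeCore p G := QuotientGroup.mk' (pPrimeCore p G)
  have hf : Function.Surjective f := QuotientGroup.mk_surjective
  have hker : (Nat.card f.ker).Coprime p := by
    have : f.ker = pPrimeCore p G := QuotientGroup.ker_mk' _
    rw [this]
    exact pPrimeCore_coprime
  have h1 := map_centralizer_eq f hf (isPGroup_map_sylow P) hker
  have h2 : ((P : Subgroup ↥(pPrimePCore p G)).map (pPrimePCore p G).subtype).map f =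
      pCore p (G ⧸ pPrimeCore p G) := map_sylow_pPrimePCore P
  rw [h2] at h1
  rw [← h1]
  exact isPSolvable_of_surjective (f.subgroupMap _) (f.subgroupMap_surjective _) hsol

end Cfsg.Agent.S0629
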