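import Cfsg.Statements.S0632
import Cfsg.Agent.Lib.Core.CoprimeMap

set_option autoImplicit false
open Cfsg

namespace Cfsg.Agent.S0632

open Subgroup Cfsg.Agent.Lib.Core.Basic Cfsg.Agent.Lib.Core.Series
  Cfsg.Agent.Lib.Core.CoprimeMap

universe u

variable {p : ℕ} {G H : Type u} [Group G] [Group H] [Finite G] [Fact p.Prime]

/-- Lifting `p`-subgroups along a surjection. -/
theorem exists_lift (f : G →* H) (hf : Function.Surjective f) {Q : Subgroup H} (hQ : IsPGroup p Q) :
    ∃ Q' : Subgroup G, IsPGroup p Q' ∧ Q'.map f = Q := by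
  obtain ⟨S⟩ := (inferInstance : Nonempty (Sylow p (Q.comap f)))
  let g : Q.comap f →* Q := f.subgroupComap Q
  have hg : Function.Surjective g := f.subgroupComap_surjective_of_surjective Q hf
  let S' : Sylow p Q := S.mapSurjective hg
  have htop : (S' : Subgroup Q) = ⊤ := by
    have h1 : IsPGroup p (⊤ : Subgroup Q) := hQ.to_subgroup ⊤
    exact (S'.3 h1 le_top).symm
  refine ⟨(S : Subgroup (Q.comap f)).map (Q.comap f).subtype, S.2.map _, ?_⟩
  apply le_antisymm
  · rintro _ ⟨_, ⟨k, -, rfl⟩, rfl⟩
    exact k.2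
  · intro y hy
    have h1 : (⟨y, hy⟩ : Q) ∈ (S' : Subgroup Q) := by rw [htop]; trivial
    have h2 : (⟨y, hy⟩ : Q) ∈ (S : Subgroup (Q.comap f)).map g := h1
    obtain ⟨k, hk, hky⟩ := h2
    exact ⟨k.1, ⟨k, hk, rfl⟩, congrArg Subtype.val hky⟩

/-- The restriction of `f` to normalizers. -/
theorem exists_normMap (f : G →* H) (hf : Function.Surjective f) {P : Subgroup G}
    (hP : IsPGroup p P) (hker : (Nat.card f.ker).Coprime p) :
    ∃ g : normalizer (P : Set G) →* normalizer ((P.map f : Subgroup H) : Set H),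
      (∀ x, (g x : H) = f x) ∧ Function.Surjective g := by
  have hmap := map_normalizer_eq f hf hP hker
  refine ⟨(f.comp (normalizer (P : Set G)).subtype).codRestrict _ (fun x => ?_), fun x => rfl, ?_⟩
  · rw [← hmap]
    exact ⟨x, x.2, rfl⟩
  · rintro ⟨y, hy⟩
    rw [← hmap] at hy
    obtain ⟨x, hx, rfl⟩ := hy
    exact ⟨⟨x, hx⟩, rfl⟩

/-- The correspondence of the images in `N(P) / C(P)`. -/
theorem correspondence (f : G →* H) (hf : Function.Surjective f)
    (hker : (Nat.card f.ker).Coprime p) {P A : Subgroup G} (hP : IsPGroup p P)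
    (hA : A ≤ normalizer (P : Set G)) :
    (A.subgroupOf (normalizer (P : Set G))).map
        (QuotientGroup.mk' ((centralizer (P : Set G)).subgroupOf (normalizer (P : Set G))))
      ≤ pCore p _ ↔
    ((A.map f).subgroupOf (normalizer ((P.map f : Subgroup H) : Set H))).map
        (QuotientGroup.mk' ((centralizer ((P.map f : Subgroup H) : Set H)).subgroupOf
          (normalizer ((P.map f : Subgroup H) : Set H))))
      ≤ pCore p _ := by
  obtain ⟨g, hg, hgs⟩ := exists_normMap f hf hP hker
  have : Finite H := Finite.of_surjective f hf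
  set CX := (centralizer (P : Set G)).subgroupOf (normalizer (P : Set G)) with hCX
  set CY := (centralizer ((P.map f : Subgroup H) : Set H)).subgroupOf
    (normalizer ((P.map f : Subgroup H) : Set H)) with hCY
  let k := (QuotientGroup.mk' CY).comp g
  have hks : Function.Surjective k := QuotientGroup.mk_surjective.comp hgs
  have hkker : k.ker = CX := by
    ext x
    rw [MonoidHom.mem_ker, hCX, Subgroup.mem_subgroupOf]
    have h1 : k x = 1 ↔ g x ∈ CY := QuotientGroup.eq_one_iff (g x)
    rw [h1, hCY, Subgroup.mem_subgroupOf, hg]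
    constructor
    · intro h
      rw [Subgroup.mem_centralizer_iff]
      intro u hu
      -- the commutator lies in `P ⊓ ker f`
      have hxP := Subgroup.mem_normalizer_iff.mp x.2
      have h2 : u * (x : G) * u⁻¹ * (x : G)⁻¹ ∈ P := by
        have h3 : (x : G) * u⁻¹ * (x : G)⁻¹ ∈ P := (hxP u⁻¹).mp (P.inv_mem hu)
        have h4 := P.mul_mem hu h3
        simpa [mul_assoc] using h4
      have h3 : u * (x : G) * u⁻¹ * (x : G)⁻¹ ∈ f.ker := by
        rw [MonoidHom.mem_ker, map_mul, map_mul, map_mul, map_inv, map_inv]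
        have h4 := (Subgroup.mem_centralizer_iff.mp h) (f u) ⟨u, hu, rfl⟩
        rw [h4]
        group
      have h5 : u * (x : G) * u⁻¹ * (x : G)⁻¹ ∈ P ⊓ f.ker := ⟨h2, h3⟩
      rw [inf_ker_eq_bot f hP hker, Subgroup.mem_bot] at h5
      have h6 : u * (x : G) * u⁻¹ = x := mul_inv_eq_one.mp h5
      exact mul_inv_eq_iff_eq_mul.mp h6
    · intro h
      rw [Subgroup.mem_centralizer_iff]
      rintro _ ⟨u, hu, rfl⟩
      have := (Subgroup.mem_centralizer_iff.mp h) u hu
      rw [← map_mul, ← map_mul, this]
  let e : _ ⧸ CX ≃* _ ⧸ CY :=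
    (QuotientGroup.quotientMulEquivOfEq hkker.symm).trans
      (QuotientGroup.quotientKerEquivOfSurjective k hks)
  have he : ∀ x, e (QuotientGroup.mk' CX x) = QuotientGroup.mk' CY (g x) := fun x => rfl
  have hcore := map_pCore_equiv (p := p) e
  constructor
  · rintro h _ ⟨y, hy, rfl⟩
    obtain ⟨a, ha, hay⟩ := (Subgroup.mem_subgroupOf.mp hy)
    have hax : a ∈ normalizer (P : Set G) := hA ha
    have h1 : g ⟨a, hax⟩ = y := Subtype.ext (by rw [hg]; exact hay)
    rw [← h1, ← he, ← hcore]
    exact ⟨_, h ⟨⟨a, hax⟩, Subgroup.mem_subgroupOf.mpr ha, rfl⟩, rfl⟩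
  · rintro h _ ⟨x, hx, rfl⟩
    have h1 : QuotientGroup.mk' CY (g x) ∈ pCore p (_ ⧸ CY) :=
      h ⟨g x, Subgroup.mem_subgroupOf.mpr ⟨x, Subgroup.mem_subgroupOf.mp hx, (hg x).symm⟩, rfl⟩
    rw [← he, ← hcore] at h1
    obtain ⟨u, hu, hue⟩ := h1
    have : u = QuotientGroup.mk' CX x := e.injective hue
    rw [← this]
    exact hu

theorem pPrimePCore_eq_pCore_of_bot (h : pPrimeCore p G = ⊥) : pPrimePCore p G = pCore p G := by
  apply le_antisymm
  · apply le_pCore inferInstance
    rintro ⟨x, hx⟩
    obtain ⟨k, hk⟩ := exists_pow_mem_pPrimeCore hx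
    rw [h, Subgroup.mem_bot] at hk
    exact ⟨k, Subtype.ext hk⟩
  · intro x hx
    rw [mem_pPrimePCore_iff]
    have h1 := map_pCore_le_of_surjective (p := p) (QuotientGroup.mk' (pPrimeCore p G))
      QuotientGroup.mk_surjective
    exact h1 ⟨x, hx, rfl⟩

/-- For a group with a nontrivial normal p-subgroup, p-stability passes to and from the quotient by the largest normal subgroup of order prime to p. -/
theorem result {G : Type*} [Group G] [Finite G] {p : ℕ} [Fact p.Prime] (hO : Cfsg.pCore p G ≠ ⊥) : Cfsg.IsPStable p G ↔ Cfsg.IsPStable p (G ⧸ Cfsg.pPrimeCore p G) := by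
  set f : G →* G ⧸ pPrimeCore p G := QuotientGroup.mk' (pPrimeCore p G) with hfd
  have hf : Function.Surjective f := QuotientGroup.mk_surjective
  have hker : f.ker = pPrimeCore p G := QuotientGroup.ker_mk' _
  have hcop : (Nat.card f.ker).Coprime p := by rw [hker]; exact pPrimeCore_coprime
  have hbot : pPrimeCore p (G ⧸ pPrimeCore p G) = ⊥ := pPrimeCore_quotient_eq_bot
  have hle2 := pPrimePCore_eq_pCore_of_bot hbot
  constructor
  · rintro ⟨hodd, -, hst⟩
    refine ⟨hodd, ?_, ?_⟩
    · intro hc
      have h1 := map_pCore_le_of_surjective (p := p) f hf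
      rw [hc, le_bot_iff] at h1
      apply hO
      rw [eq_bot_iff]
      intro x hx
      have h2 : x ∈ f.ker := by
        rw [MonoidHom.mem_ker]
        have h3 : f x ∈ (pCore p G).map f := ⟨x, hx, rfl⟩
        rw [h1] at h3
        exact h3
      rw [hker] at h2
      have h3 := pCore_inf_pPrimeCore (p := p) (G := G)
      have h4 : x ∈ pCore p G ⊓ pPrimeCore p G := ⟨hx, h2⟩
      rw [h3] at h4
      exact h4
    · intro Ab Pb hAb hPb hconj hle hnorm hcomm
      rw [hbot, bot_sup_eq] at hnorm
      obtain ⟨P, hP, rfl⟩ := exists_lift f hf hPb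
      have hAble : Ab ≤ normalizer ((P.map f : Subgroup _) : Set _) := fun a ha =>
        mem_normalizer_of_forall_conj_mem (hconj a ha)
      obtain ⟨g, hg, hgs⟩ := exists_normMap f hf hP hcop
      have hAbP : IsPGroup p (Ab.subgroupOf (normalizer ((P.map f : Subgroup _) : Set _))) :=
        hAb.of_injective (Subgroup.subgroupOfEquivOfLe hAble).toMonoidHom (MulEquiv.injective _)
      obtain ⟨A', hA', hA'map⟩ := exists_lift g hgs hAbP
      let A : Subgroup G := A'.map (normalizer (P : Set G)).subtype
      have hAle : A ≤ normalizer (P : Set G) := by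
        rintro _ ⟨x, -, rfl⟩
        exact x.2
      have hAmap : A.map f = Ab := by
        apply le_antisymm
        · rintro _ ⟨_, ⟨x, hx, rfl⟩, rfl⟩
          have h1 : g x ∈ Ab.subgroupOf (normalizer ((P.map f : Subgroup _) : Set _)) := by
            rw [← hA'map]
            exact ⟨x, hx, rfl⟩
          have h2 := Subgroup.mem_subgroupOf.mp h1
          rwa [hg] at h2
        · intro a ha
          have h1 : (⟨a, hAble ha⟩ : normalizer ((P.map f : Subgroup _) : Set _)) ∈
              Ab.subgroupOf (normalizer ((P.map f : Subgroup _) : Set _)) :=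
            Subgroup.mem_subgroupOf.mpr ha
          rw [← hA'map] at h1
          obtain ⟨x, hx, hxa⟩ := h1
          refine ⟨x, ⟨x, hx, rfl⟩, ?_⟩
          have := congrArg Subtype.val hxa
          rw [hg] at this
          exact this
      rw [← hAmap]
      apply (correspondence f hf hcop hP hAle).mp
      apply hst A P (hA'.map _) hP
      · intro a ha x hx
        exact (Subgroup.mem_normalizer_iff.mp (hAle ha) x).mp hx
      · -- `P ≤ O_{p',p}(G)`
        intro x hx
        rw [hle2] at hle
        exact hle ⟨x, hx, rfl⟩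
      · -- `O_{p'}(G) ⊔ P` is normal
        have h1 : (P.map f).comap f = P ⊔ f.ker := Subgroup.comap_map_eq f P
        rw [hker] at h1
        rw [sup_comm, ← h1]
        exact hnorm.comap f
      · -- the commutator is trivial
        rw [← hAmap, ← Subgroup.map_commutator, ← Subgroup.map_commutator] at hcomm
        have hPA : ⁅P, A⁆ ≤ P := by
          rw [Subgroup.commutator_le]
          intro x hx a ha
          have h2 := (Subgroup.mem_normalizer_iff.mp (hAle ha) x⁻¹).mp (P.inv_mem hx)
          have h3 := P.mul_mem hx h2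
          rw [commutatorElement_def]
          simpa [mul_assoc] using h3
        have hPAA : ⁅⁅P, A⁆, A⁆ ≤ P := by
          rw [Subgroup.commutator_le]
          intro y hy a ha
          have hyP := hPA hy
          have h2 := (Subgroup.mem_normalizer_iff.mp (hAle ha) y⁻¹).mp (P.inv_mem hyP)
          have h3 := P.mul_mem hyP h2
          rw [commutatorElement_def]
          simpa [mul_assoc] using h3
        rw [eq_bot_iff]
        intro y hy
        have h4 : y ∈ f.ker := by
          rw [MonoidHom.mem_ker]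
          have h5 : f y ∈ (⁅⁅P, A⁆, A⁆ : Subgroup G).map f := ⟨y, hy, rfl⟩
          rw [hcomm] at h5
          exact h5
        have h5 : y ∈ P ⊓ f.ker := ⟨hPAA hy, h4⟩
        rw [inf_ker_eq_bot f hP hcop] at h5
        exact h5
  · rintro ⟨hodd, -, hst⟩
    refine ⟨hodd, hO, ?_⟩
    intro A P hA hP hconj hle hnorm hcomm
    have hAle : A ≤ normalizer (P : Set G) := fun a ha =>
      mem_normalizer_of_forall_conj_mem (hconj a ha)
    apply (correspondence f hf hcop hP hAle).mpr
    apply hst (A.map f) (P.map f) (hA.map f) (hP.map f)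
    · rintro _ ⟨a, ha, rfl⟩ _ ⟨x, hx, rfl⟩
      exact ⟨_, hconj a ha x hx, by simp⟩
    · rw [hle2]
      rintro _ ⟨x, hx, rfl⟩
      exact hle hx
    · rw [hbot, bot_sup_eq]
      have h1 := hnorm.map f hf
      rw [Subgroup.map_sup] at h1
      have h2 : (pPrimeCore p G).map f = ⊥ := by
        rw [Subgroup.map_eq_bot_iff, hker]
      rwa [h2, bot_sup_eq] at h1
    · rw [← Subgroup.map_commutator, ← Subgroup.map_commutator, hcomm, Subgroup.map_bot]

end Cfsg.Agent.S0632
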