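import Cfsg.Statements.S0633
import Cfsg.Agent.Lib.HallHigman.Reduction

set_option autoImplicit false
open Cfsg
open Module Cfsg.Agent.Lib.HallHigman

namespace Cfsg.Agent.S0633

/-- Theorem B of Hall and Higman on the minimal polynomial of a p-element of order p^n in a p-solvable linear group on a nonzero vector space in characteristic p with no nontrivial normal p-subgroup: its degree is p^n, except when some p^n₀ - 1 (n₀ ≤ n) is a power of a prime q for which the Sylow q-subgroups are non-abelian, in which case the degree is at least p^(n-n₀)(p^n₀ - 1). -/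
theorem result {F : Type*} [Field F] {p : ℕ} [Fact p.Prime] [CharP F p] {V : Type*} [AddCommGroup V] [Module F V] [FiniteDimensional F V] [Nontrivial V] (H : Subgroup (V ≃ₗ[F] V)) [Finite H] (hsol : Cfsg.IsPSolvable p H) (hOp : Cfsg.pCore p H = ⊥) (x : V ≃ₗ[F] V) (hx : x ∈ H) (n : ℕ) (hn : orderOf x = p ^ n) (r : ℕ) (hr : minpoly F (x : Module.End F V) = (Polynomial.X - 1) ^ r) : r = p ^ n ∨ ∃ n₀ q m : ℕ, 1 ≤ n₀ ∧ n₀ ≤ n ∧ q.Prime ∧ 1 ≤ m ∧ p ^ n₀ - 1 = q ^ m ∧ (∀ Q : Sylow q H, ¬ IsMulCommutative Q) ∧ p ^ (n - n₀) * (p ^ n₀ - 1) ≤ r := by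
  classical
    have hpp : p.Prime := Fact.out
    let K := AlgebraicClosure F
    let f : H →* End F V :=
      { toFun := fun h => (h.1 : V →ₗ[F] V)
        map_one' := rfl
        map_mul' := fun _ _ => rfl }
    let b := Module.End.baseChangeHom F K V
    let ρ : H →* End K (TensorProduct F K V) := (b.toMonoidHom).comp f
    have hρ : Function.Injective ρ := by
      intro h₁ h₂ h
      have h3 : (f h₁) = f h₂ := LinearMap.baseChangeHom_injective F V K h
      apply Subtype.ext
      apply LinearEquiv.toLinearMap_injective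
      exact h3
    set X : End F V := (x : End F V) with hX
    have h0 : (X - 1) ^ r = 0 := by
      have h1 := minpoly.aeval F X
      rw [hr] at h1
      simpa using h1
    have hXP : (X - 1) ^ p ^ n = 0 := by
      rw [Core.sub_one_pow (K := F) (p := p)]
      have h1 : x ^ p ^ n = 1 := by
        rw [← hn, pow_orderOf_eq_one]
      have h2 : X ^ p ^ n = ((x ^ p ^ n : V ≃ₗ[F] V) : End F V) := by
        have : ∀ j : ℕ, X ^ j = ((x ^ j : V ≃ₗ[F] V) : End F V) := by
          intro j
          induction j with
          | zero => rfl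
          | succ j ih =>
            rw [pow_succ, ih, pow_succ]
            rfl
        exact this _
      rw [h2, h1]
      exact sub_self _
    have hle : r ≤ p ^ n := by
      have h1 : minpoly F X ∣ (Polynomial.X - 1) ^ p ^ n := minpoly.dvd F X (by simpa using hXP)
      rw [hr] at h1
      have h2 : (Polynomial.X - 1 : Polynomial F) ≠ 0 := by
        have := Polynomial.X_sub_C_ne_zero (1 : F)
        simpa using this
      have h3 : ¬ IsUnit (Polynomial.X - 1 : Polynomial F) := by
        have := Polynomial.not_isUnit_X_sub_C (1 : F)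
        simpa using this
      exact (pow_dvd_pow_iff h2 h3).mp h1
    have hr0 : r ≠ 0 := by
      rintro rfl
      rw [pow_zero] at hr
      exact minpoly.ne_one F X hr
    cases n with
    | zero =>
      left
      simp only [pow_zero] at hle ⊢
      omega
    | succ n =>
      have hr' : (ρ ⟨x, hx⟩ - 1) ^ r = 0 := by
        have h1 := congrArg b h0
        rw [map_pow, map_sub, map_one, map_zero] at h1
        exact h1
      have hord : orderOf (⟨x, hx⟩ : H) = p ^ (n + 1) := by
        rw [Subgroup.orderOf_mk, hn]
      rcases Reduction.thmB_group hsol hOp ρ hρ ⟨x, hx⟩ n hord r hr' with h |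
        ⟨q, n₀, m, Q, hq, hqp, hQ, hnc, h1, h2, h3, h4, h5⟩
      · left
        omega
      · right
        haveI : Fact q.Prime := ⟨hq⟩
        refine ⟨n₀, q, m, h1, h2, hq, h3, h4, fun S => ?_, h5⟩
        exact Reduction.sylow_not_comm hQ hnc S

end Cfsg.Agent.S0633
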