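import Cfsg.Statements.S0634
import Cfsg.Agent.Lib.Core.PSolvable

set_option autoImplicit false
open Cfsg

namespace Cfsg.Agent.S0634

open Subgroup Cfsg.Agent.Lib.Core.Basic Cfsg.Agent.Lib.Core.Series Cfsg.Agent.Lib.Core.Constrained
  Cfsg.Agent.Lib.Core.PSolvable

universe u

/-- If the kernel of a surjection is the `p'`-core, the target has a trivial `p'`-core. -/
theorem pPrimeCore_eq_bot_of_surjective {X Y : Type u} [Group X] [Group Y] [Finite X] {p : ℕ}
    (g : X →* Y) (hg : Function.Surjective g) (hker : g.ker = pPrimeCore p X) :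
    pPrimeCore p Y = ⊥ := by
  let e : X ⧸ pPrimeCore p X ≃* Y :=
    (QuotientGroup.quotientMulEquivOfEq hker.symm).trans (QuotientGroup.quotientKerEquivOfSurjective g hg)
  have h := map_pPrimeCore_equiv (p := p) e
  rw [pPrimeCore_quotient_eq_bot, Subgroup.map_bot] at h
  exact h.symm

/-- The `p'`-core of `G / B` is trivial, if `B / A = O_{p'}(G / A)`. -/
theorem pPrimeCore_quotient_comap_eq_bot {G : Type u} [Group G] [Finite G] {p : ℕ} (A : Subgroup G)
    [A.Normal] : pPrimeCore p (G ⧸ (pPrimeCore p (G ⧸ A)).comap (QuotientGroup.mk' A)) = ⊥ := by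
  set B := (pPrimeCore p (G ⧸ A)).comap (QuotientGroup.mk' A) with hB
  have hAB : A ≤ B := by
    intro x hx
    have : QuotientGroup.mk' A x = 1 := (QuotientGroup.eq_one_iff x).mpr hx
    rw [hB, Subgroup.mem_comap, this]
    exact Subgroup.one_mem _
  let g : G ⧸ A →* G ⧸ B := QuotientGroup.map A B (MonoidHom.id G) hAB
  have hg : Function.Surjective g := by
    intro y
    obtain ⟨x, rfl⟩ := QuotientGroup.mk_surjective y
    exact ⟨(x : G ⧸ A), rfl⟩
  refine pPrimeCore_eq_bot_of_surjective g hg ?_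
  ext q
  obtain ⟨x, rfl⟩ := QuotientGroup.mk_surjective q
  rw [MonoidHom.mem_ker]
  have h1 : g (x : G ⧸ A) = (x : G ⧸ B) := rfl
  rw [h1, QuotientGroup.eq_one_iff]
  rfl

/-- In a p-soluble group each p-factor of the upper p-series contains its own centralizer in the corresponding quotient. -/
theorem result {G : Type*} [Group G] [Finite G] {p : ℕ} [Fact p.Prime] (hsol : Cfsg.IsPSolvable p G) (k : ℕ) : Subgroup.centralizer ((((Cfsg.upperPSeries p G (2 * k + 2)).1.map (QuotientGroup.mk' (Cfsg.upperPSeries p G (2 * k + 1)).1)) : Subgroup (G ⧸ (Cfsg.upperPSeries p G (2 * k + 1)).1)) : Set (G ⧸ (Cfsg.upperPSeries p G (2 * k + 1)).1)) ≤ (Cfsg.upperPSeries p G (2 * k + 2)).1.map (QuotientGroup.mk' (Cfsg.upperPSeries p G (2 * k + 1)).1) := by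
  have hbot : pPrimeCore p (G ⧸ (upperPSeries p G (2 * k + 1)).1) = ⊥ := by
    have key : ∀ (U : Subgroup G) [U.Normal] (A : Subgroup G) [A.Normal],
        U = (pPrimeCore p (G ⧸ A)).comap (QuotientGroup.mk' A) → pPrimeCore p (G ⧸ U) = ⊥ := by
      intro U _ A _ h
      subst h
      exact pPrimeCore_quotient_comap_eq_bot A
    exact key _ _ (upperPSeries_succ_of_even (2 * k) (by simp))
  have hmap : (upperPSeries p G (2 * k + 2)).1.map
      (QuotientGroup.mk' (upperPSeries p G (2 * k + 1)).1) =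
      pCore p (G ⧸ (upperPSeries p G (2 * k + 1)).1) := by
    have h1 := upperPSeries_succ_of_odd (p := p) (G := G) (2 * k + 1) (by simp [Nat.even_add_one])
    rw [h1]
    exact Subgroup.map_comap_eq_self_of_surjective QuotientGroup.mk_surjective _
  rw [hmap]
  exact centralizer_pCore_le_of_isPSolvable
    (isPSolvable_of_surjective (QuotientGroup.mk' (upperPSeries p G (2 * k + 1)).1)
      QuotientGroup.mk_surjective hsol) hbot


end Cfsg.Agent.S0634
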