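import Cfsg.Statements.S0635
import Cfsg.Agent.Lib.Core.PSolvable

set_option autoImplicit false
open Cfsg

namespace Cfsg.Agent.S0635

open Subgroup Cfsg.Agent.Lib.Core.Basic Cfsg.Agent.Lib.Core.Series Cfsg.Agent.Lib.Core.Constrained
  Cfsg.Agent.Lib.Core.PSolvable

universe u

/-- Comparison of upper `p`-series under a surjection whose kernel lies in an even term. -/
theorem comap_upperPSeries_le {G H : Type u} [Group G] [Group H] [Finite G] [Finite H] {p : ℕ}
    [Fact p.Prime] (f : G →* H) (hf : Function.Surjective f) (n : ℕ) (hn : Even n)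
    (hker : f.ker ≤ (upperPSeries p G n).1) (j : ℕ) :
    (upperPSeries p H j).1.comap f ≤ (upperPSeries p G (n + j)).1 := by
  induction j with
  | zero =>
    intro x hx
    apply hker
    rw [MonoidHom.mem_ker]
    have : f x ∈ (upperPSeries p H 0).1 := hx
    rw [upperPSeries_zero] at this
    exact (Subgroup.mem_bot).1 this
  | succ j ih =>
    by_cases hj : Even j
    · have hnj : Even (n + j) := hn.add hj
      rw [upperPSeries_succ_of_even j hj, ← add_assoc, upperPSeries_succ_of_even (n + j) hnj]
      rw [← Subgroup.map_le_iff_le_comap]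
      apply le_pPrimeCore_of_orderOf
      · apply Subgroup.Normal.map _ _ QuotientGroup.mk_surjective
        exact Subgroup.Normal.comap (Subgroup.Normal.comap (pPrimeCore_normal _ _) _) _
      · rintro _ ⟨x, hx, rfl⟩
        have h1 : (QuotientGroup.mk' (upperPSeries p H j).1 (f x)) ∈
            pPrimeCore p (H ⧸ (upperPSeries p H j).1) := hx
        have h2 := orderOf_coprime_of_mem_pPrimeCore h1
        refine Nat.Coprime.coprime_dvd_left ?_ h2
        apply orderOf_dvd_of_pow_eq_one
        have h3 := pow_orderOf_eq_one (QuotientGroup.mk' (upperPSeries p H j).1 (f x))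
        rw [← map_pow, ← map_pow] at h3
        have h4 : x ^ orderOf (QuotientGroup.mk' (upperPSeries p H j).1 (f x)) ∈
            (upperPSeries p G (n + j)).1 := ih ((QuotientGroup.eq_one_iff (f _)).mp h3)
        rw [← map_pow]
        exact (QuotientGroup.eq_one_iff _).mpr h4
    · have hnj : ¬ Even (n + j) := by
        rw [Nat.even_add]; tauto
      rw [upperPSeries_succ_of_odd j hj, ← add_assoc, upperPSeries_succ_of_odd (n + j) hnj]
      rw [← Subgroup.map_le_iff_le_comap]
      apply le_pCore
      · apply Subgroup.Normal.map _ _ QuotientGroup.mk_surjective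
        exact Subgroup.Normal.comap (Subgroup.Normal.comap (pCore_normal _ _) _) _
      · rintro ⟨_, x, hx, rfl⟩
        have h1 : (QuotientGroup.mk' (upperPSeries p H j).1 (f x)) ∈
            pCore p (H ⧸ (upperPSeries p H j).1) := hx
        obtain ⟨k, hk⟩ := (pCore_isPGroup (p := p) (G := H ⧸ (upperPSeries p H j).1)) ⟨_, h1⟩
        have hk' : (QuotientGroup.mk' (upperPSeries p H j).1 (f x)) ^ p ^ k = 1 :=
          congrArg Subtype.val hk
        rw [← map_pow, ← map_pow] at hk'
        have h4 : x ^ p ^ k ∈ (upperPSeries p G (n + j)).1 := ih ((QuotientGroup.eq_one_iff (f _)).mp hk')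
        refine ⟨k, Subtype.ext ?_⟩
        show (QuotientGroup.mk' (upperPSeries p G (n + j)).1 x) ^ p ^ k = 1
        rw [← map_pow]
        exact (QuotientGroup.eq_one_iff _).mpr h4

/-- The centre of a Sylow subgroup lies in `O_{p',p}(G)`, for `G` `p`-soluble. -/
theorem center_sylow_le {G : Type u} [Group G] [Finite G] {p : ℕ} [Fact p.Prime]
    (hsol : IsPSolvable p G) (S : Sylow p G) {x : G} (hx : x ∈ (S : Subgroup G))
    (hc : ∀ y ∈ (S : Subgroup G), y * x = x * y) : x ∈ pPrimePCore p G := by
  rw [mem_pPrimePCore_iff]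
  have hsol' : IsPSolvable p (G ⧸ pPrimeCore p G) :=
    isPSolvable_of_surjective (QuotientGroup.mk' _) QuotientGroup.mk_surjective hsol
  apply centralizer_pCore_le_of_isPSolvable hsol' pPrimeCore_quotient_eq_bot
  rw [Subgroup.mem_centralizer_iff]
  intro q hq
  let S' : Sylow p (G ⧸ pPrimeCore p G) :=
    S.mapSurjective (f := QuotientGroup.mk' (pPrimeCore p G)) QuotientGroup.mk_surjective
  have hqS : q ∈ (S' : Subgroup _) := pCore_le_sylow S' hq
  have hqS' : q ∈ (S : Subgroup G).map (QuotientGroup.mk' (pPrimeCore p G)) := by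
    rw [← Sylow.coe_mapSurjective (f := QuotientGroup.mk' (pPrimeCore p G)) QuotientGroup.mk_surjective]
    exact hqS
  obtain ⟨y, hy, rfl⟩ := hqS'
  have := hc y hy
  show (QuotientGroup.mk' _ y) * (x : G ⧸ pPrimeCore p G) = (x : G ⧸ pPrimeCore p G) * (QuotientGroup.mk' _ y)
  simp only [QuotientGroup.mk'_apply, ← QuotientGroup.mk_mul, this]

theorem main {p : ℕ} [Fact p.Prime] (c : ℕ) : ∀ {G : Type u} [Group G] [Finite G]
    (_ : IsPSolvable p G) (S : Sylow p G),
    Group.nilpotencyClass ↥(S : Subgroup G) ≤ c → (upperPSeries p G (2 * c + 1)).1 = ⊤ := by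
  induction c with
  | zero =>
    intro G _ _ hsol S hc
    have hnil : Group.IsNilpotent ↥(S : Subgroup G) := (S.isPGroup'.isNilpotent)
    have h1 : Subsingleton ↥(S : Subgroup G) :=
      Group.nilpotencyClass_zero_iff_subsingleton.mp (Nat.le_zero.mp hc)
    have h2 : (Nat.card G).Coprime p := by
      rw [Nat.coprime_comm, Nat.Prime.coprime_iff_not_dvd Fact.out]
      intro hd
      have := S.card_eq_multiplicity
      have h3 : Nat.card ↥(S : Subgroup G) = 1 := Nat.card_of_subsingleton (1 : ↥(S : Subgroup G))
      have h4 := Sylow.not_dvd_index S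
      rw [← Subgroup.card_mul_index (S : Subgroup G), h3, one_mul] at hd
      exact h4 hd
    rw [show 2 * 0 + 1 = 1 from rfl, upperPSeries_one]
    exact pPrimeCore_eq_top_iff.mpr h2
  | succ c ih =>
    intro G _ _ hsol S hc
    have hnil : Group.IsNilpotent ↥(S : Subgroup G) := (S.isPGroup'.isNilpotent)
    have hU2 := upperPSeries_two (p := p) (G := G)
    let U := (upperPSeries p G 2).1
    haveI : U.Normal := (upperPSeries p G 2).2
    let f : G →* G ⧸ U := QuotientGroup.mk' U
    have hf : Function.Surjective f := QuotientGroup.mk_surjective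
    let T : Sylow p (G ⧸ U) := S.mapSurjective hf
    have hsolH : IsPSolvable p (G ⧸ U) := isPSolvable_of_surjective f hf hsol
    have hclass : Group.nilpotencyClass ↥(T : Subgroup (G ⧸ U)) ≤ c := by
      -- a surjection `S / Z(S) → T`.
      let g : ↥(S : Subgroup G) →* ↥(T : Subgroup (G ⧸ U)) :=
        (f.comp (S : Subgroup G).subtype).codRestrict (T : Subgroup (G ⧸ U)) (fun x => by
          have : f x ∈ (S : Subgroup G).map f := ⟨x, x.2, rfl⟩
          exact this)
      have hg : Function.Surjective g := by
        rintro ⟨y, hy⟩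
        have hy' : y ∈ (S : Subgroup G).map f := hy
        obtain ⟨x, hx, rfl⟩ := hy'
        exact ⟨⟨x, hx⟩, rfl⟩
      have hker : center ↥(S : Subgroup G) ≤ g.ker := by
        rintro ⟨x, hx⟩ hxc
        rw [MonoidHom.mem_ker]
        apply Subtype.ext
        show f x = 1
        have hxU : x ∈ U := by
          show x ∈ (upperPSeries p G 2).1
          rw [hU2]
          apply center_sylow_le hsol S hx
          intro y hy
          have := (Subgroup.mem_center_iff.mp hxc) ⟨y, hy⟩
          exact congrArg Subtype.val this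
        exact (QuotientGroup.eq_one_iff x).mpr hxU
      let g' : ↥(S : Subgroup G) ⧸ center ↥(S : Subgroup G) →* ↥(T : Subgroup (G ⧸ U)) :=
        QuotientGroup.lift _ g (fun x hx => hker hx)
      have hg' : Function.Surjective g' := by
        intro y
        obtain ⟨x, rfl⟩ := hg y
        exact ⟨(x : _ ⧸ _), rfl⟩
      have h1 := Group.nilpotencyClass_le_of_surjective g' hg'
      rw [Group.nilpotencyClass_quotient_center] at h1
      omega
    have h3 := ih hsolH T hclass
    have h4 := comap_upperPSeries_le f hf 2 (by decide) (by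
      intro x hx
      have : f x = 1 := hx
      exact (QuotientGroup.eq_one_iff x).mp this) (2 * c + 1)
    rw [h3, Subgroup.comap_top] at h4
    rw [show 2 * (c + 1) + 1 = 2 + (2 * c + 1) by ring]
    exact top_le_iff.mp h4

/-- The p-length of a p-soluble group is at most the nilpotency class of its Sylow p-subgroups. -/
theorem result {G : Type*} [Group G] [Finite G] {p : ℕ} [Fact p.Prime] (hsol : Cfsg.IsPSolvable p G) (S : Sylow p G) : Cfsg.PLengthLE p (Group.nilpotencyClass ↥(S : Subgroup G)) G := by
  exact main _ hsol S le_rfl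

end Cfsg.Agent.S0635
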