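import Cfsg.Statements.S0636
import Cfsg.Agent.Lib.PGroups.NormalRankTwo

set_option autoImplicit false
open Cfsg

namespace Cfsg.Agent.S0636

open Subgroup Cfsg.Agent.Lib.PGroups.Basic Cfsg.Agent.Lib.PGroups.ClassTwo
  Cfsg.Agent.Lib.PGroups.MaxAbelian Cfsg.Agent.Lib.PGroups.NormalRankTwo
open scoped commutatorElement

universe u

theorem aux {p : ℕ} [hp : Fact p.Prime] (hp2 : p ≠ 2) (k : ℕ) : ∀ (R : Type u) [Group R] [Finite R],
    IsPGroup p R → ∀ (S : Subgroup R) [S.Normal], ¬ IsCyclic S → Nat.card S = k →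
    ∃ A : Subgroup R, A ≤ S ∧ A.Normal ∧ (∀ a ∈ A, a ^ p = 1) ∧ Nat.card A = p ^ 2 := by
  induction k using Nat.strong_induction_on with
  | _ k ih =>
  intro R _ _ hR S _ hS hk
  classical
  have hSne : S ≠ ⊥ := by
    rintro rfl
    exact hS inferInstance
  obtain ⟨z, hzS, hzZ, hzp⟩ := exists_central_orderOf_eq hR S hSne
  set Z := zpowers z with hZ
  have hZle : Z ≤ center R := by rw [hZ, zpowers_le]; exact hzZ
  have hZS : Z ≤ S := by rw [hZ, zpowers_le]; exact hzS
  have hZn : Z.Normal := by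
    constructor
    intro n hn g
    have := (mem_center_iff.mp (hZle hn)) g
    rw [this, mul_inv_cancel_right]
    exact hn
  have hZcard : Nat.card Z = p := by rw [hZ, Nat.card_zpowers, hzp]
  have hQ : IsPGroup p (R ⧸ Z) := hR.to_quotient Z
  set Sb : Subgroup (R ⧸ Z) := S.map (QuotientGroup.mk' Z) with hSb
  have hSbn : Sb.Normal := Subgroup.Normal.map inferInstance _ (QuotientGroup.mk'_surjective Z)
  have hmemS : ∀ x : R, (x : R ⧸ Z) ∈ Sb → x ∈ S := by
    rintro x ⟨y, hy, hxy⟩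
    have : y⁻¹ * x ∈ Z := by
      rw [← QuotientGroup.eq]
      exact hxy
    have h2 : x = y * (y⁻¹ * x) := by group
    rw [h2]
    exact mul_mem hy (hZS this)
  by_cases hcyc : IsCyclic Sb
  · -- `S` is abelian
    let f : S →* Sb := ((QuotientGroup.mk' Z).comp S.subtype).codRestrict Sb (fun x => mem_map_of_mem _ x.2)
    have hker : f.ker ≤ center S := by
      intro x hx
      have h1 : ((x : R) : R ⧸ Z) = 1 := by
        have := congrArg Subtype.val (MonoidHom.mem_ker.mp hx)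
        exact this
      have h2 : (x : R) ∈ Z := (QuotientGroup.eq_one_iff _).mp h1
      rw [mem_center_iff]
      intro g
      apply Subtype.ext
      exact (mem_center_iff.mp (hZle h2)) g
    have hcomm := MonoidHom.isMulCommutative_of_isCyclic_of_ker_le_center f hker
    have hcomm' : ∀ a b : S, a * b = b * a := hcomm.is_comm.comm
    obtain ⟨A₀, -, hA₀e, hA₀⟩ := exists_card_sq_of_comm (hR.to_subgroup S) hcomm' hS
    -- the subgroup of elements of `S` with `x^p = 1`
    let Ω : Subgroup R :=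
      { carrier := {x | x ∈ S ∧ x ^ p = 1}
        one_mem' := ⟨one_mem _, one_pow _⟩
        mul_mem' := by
          rintro a b ⟨ha, ha'⟩ ⟨hb, hb'⟩
          refine ⟨mul_mem ha hb, ?_⟩
          have hab : Commute a b := congrArg Subtype.val (hcomm' ⟨a, ha⟩ ⟨b, hb⟩)
          rw [hab.mul_pow, ha', hb', one_mul]
        inv_mem' := by
          rintro a ⟨ha, ha'⟩
          exact ⟨inv_mem ha, by rw [inv_pow, ha', inv_one]⟩ }
    have hΩn : Ω.Normal := by
      constructor
      rintro n ⟨hn, hn'⟩ g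
      refine ⟨‹S.Normal›.conj_mem n hn g, ?_⟩
      rw [conj_pow, hn']
      simp
    have hle : A₀.map S.subtype ≤ Ω := by
      rintro _ ⟨a, ha, rfl⟩
      exact ⟨a.2, by simpa using congrArg Subtype.val (hA₀e a ha)⟩
    have hdvd : p ^ 2 ∣ Nat.card Ω := by
      have h1 := Subgroup.card_dvd_of_le hle
      rw [Subgroup.card_map_of_injective S.subtype_injective, hA₀] at h1
      exact h1
    obtain ⟨L, hLn, hLK, hL⟩ := exists_normal_le_card_eq hR Ω 2 hdvd
    exact ⟨L, fun a ha => (hLK ha).1, hLn, fun a ha => (hLK ha).2, hL⟩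
  -- induction
  have hlt : Nat.card Sb < k := by
    have hcard : Z.relIndex S = Nat.card Sb := (card_map_mk_eq_relIndex (N := Z) (K := S)).symm
    have h1 := relIndex_mul_card hZS
    rw [hk, hZcard, hcard] at h1
    rw [← h1]
    have : 0 < Nat.card Sb := Nat.card_pos
    have := hp.out.one_lt
    nlinarith
  obtain ⟨A', hA'S, hA'n, hA'e, hA'⟩ := ih _ hlt (R ⧸ Z) hQ Sb hcyc rfl
  -- the preimage
  set K := A'.comap (QuotientGroup.mk' Z) with hK
  have hKS : K ≤ S := fun x hx => hmemS x (hA'S hx)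
  have hKn : K.Normal := Subgroup.Normal.comap hA'n _
  have hA'c : IsMulCommutative A' := IsPGroup.isMulCommutative_of_card_eq_prime_sq hA'
  have hKpow : ∀ k₁ ∈ K, k₁ ^ p ∈ Z := by
    intro k₁ hk₁
    rw [← QuotientGroup.eq_one_iff, QuotientGroup.mk_pow]
    exact hA'e _ hk₁
  have hKcomm : ∀ k₁ ∈ K, ∀ k₂ ∈ K, ⁅k₁, k₂⁆ ∈ Z := by
    intro k₁ hk₁ k₂ hk₂
    rw [← QuotientGroup.eq_one_iff]
    have h1 : (k₁ : R ⧸ Z) * k₂ = (k₂ : R ⧸ Z) * k₁ :=
      congrArg Subtype.val (hA'c.is_comm.comm ⟨_, hk₁⟩ ⟨_, hk₂⟩)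
    simp only [commutatorElement_def, QuotientGroup.mk_mul, QuotientGroup.mk_inv]
    rw [h1]
    group
  have hKcard : Nat.card K = p ^ 3 := by
    have hZK : Z ≤ K := by
      intro a ha
      rw [hK, mem_comap, QuotientGroup.mk'_apply, (QuotientGroup.eq_one_iff a).mpr ha]
      exact one_mem _
    have h1 := relIndex_mul_card hZK
    have h2 : Z.relIndex K = Nat.card A' := by
      rw [← card_map_mk_eq_relIndex, hK, map_comap_eq_self]
      rw [MonoidHom.range_eq_top.mpr (QuotientGroup.mk'_surjective Z)]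
      exact le_top
    rw [h2, hA', hZcard] at h1
    rw [← h1]
    ring
  -- the p-th power map on `K`
  have hcomm_pow : ∀ k₁ ∈ K, ∀ k₂ ∈ K, ⁅k₂, k₁⁆ ^ p = 1 := by
    intro k₁ hk₁ k₂ hk₂
    have hc : ⁅k₂, k₁⁆ ∈ center R := hZle (hKcomm k₂ hk₂ k₁ hk₁)
    rw [← comm_pow_right_of_comm ((mem_center_iff.mp hc) k₁).symm,
      commutatorElement_eq_one_iff_mul_comm]
    exact ((mem_center_iff.mp (hZle (hKpow k₁ hk₁))) k₂)
  let φ : K →* Z :=
    { toFun := fun a => ⟨(a : R) ^ p, hKpow a a.2⟩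
      map_one' := by ext; simp
      map_mul' := fun a b => by
        ext
        have hc : ⁅(b : R), (a : R)⁆ ∈ center R := hZle (hKcomm b b.2 a a.2)
        exact mul_pow_prime_of_comm hp.out hp2 ((mem_center_iff.mp hc) a).symm
          ((mem_center_iff.mp hc) b).symm (hcomm_pow a a.2 b b.2) }
  set K₁ : Subgroup R := (φ.ker).map K.subtype with hK₁
  have hmemK₁ : ∀ x : R, x ∈ K₁ ↔ x ∈ K ∧ x ^ p = 1 := by
    intro x
    constructor
    · rintro ⟨a, ha, rfl⟩
      refine ⟨a.2, ?_⟩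
      have := congrArg Subtype.val (MonoidHom.mem_ker.mp ha)
      exact this
    · rintro ⟨hx, hxp⟩
      refine ⟨⟨x, hx⟩, ?_, rfl⟩
      rw [SetLike.mem_coe, MonoidHom.mem_ker]
      exact Subtype.ext hxp
  have hK₁n : K₁.Normal := by
    constructor
    intro n hn g
    rw [hmemK₁] at hn ⊢
    refine ⟨hKn.conj_mem n hn.1 g, ?_⟩
    rw [conj_pow, hn.2]
    simp
  have hcardK₁ : Nat.card K₁ = Nat.card φ.ker := by
    rw [hK₁, Subgroup.card_map_of_injective K.subtype_injective]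
  have hle : p ^ 2 ≤ Nat.card K₁ := by
    have h1 := card_mul_index φ.ker
    rw [index_ker, hKcard, ← hcardK₁] at h1
    have h2 : Nat.card φ.range ≤ p := by
      rw [← hZcard]
      exact card_le_card_group _
    have h3 : p ^ 3 ≤ Nat.card K₁ * p := by
      rw [← h1]
      exact Nat.mul_le_mul_left _ h2
    have h4 : p ^ 3 = p ^ 2 * p := by ring
    rw [h4] at h3
    exact Nat.le_of_mul_le_mul_right h3 hp.out.pos
  obtain ⟨t, ht⟩ := IsPGroup.iff_card.mp (hR.to_subgroup K₁)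
  have ht2 : 2 ≤ t := by
    rw [ht] at hle
    exact (Nat.pow_le_pow_iff_right hp.out.one_lt).mp hle
  obtain ⟨L, hLn, hLK, hL⟩ := exists_normal_le_card_eq hR K₁ 2 (by
    rw [ht]; exact pow_dvd_pow p ht2)
  exact ⟨L, fun a ha => hKS ((hmemK₁ a).mp (hLK ha)).1, hLn, fun a ha => ((hmemK₁ a).mp (hLK ha)).2, hL⟩

/-- For odd p, every non-cyclic normal subgroup of a p-group contains a normal elementary abelian subgroup of the whole group of order p². -/
theorem result {R : Type*} [Group R] [Finite R] {p : ℕ} [Fact p.Prime] (hp : p ≠ 2) (hR : IsPGroup p R) (S : Subgroup R) [S.Normal] (hS : ¬ IsCyclic S) : ∃ A : Subgroup R, A ≤ S ∧ A.Normal ∧ Cfsg.IsElementaryAbelian p A ∧ Nat.card A = p ^ 2 := by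
  obtain ⟨A, hAS, hAn, hAe, hA⟩ := aux hp _ R hR S hS rfl
  exact ⟨A, hAS, hAn, ⟨IsPGroup.isMulCommutative_of_card_eq_prime_sq hA, hAe⟩, hA⟩

end Cfsg.Agent.S0636
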