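import Cfsg.Statements.S0637
import Cfsg.Agent.S0638
import Cfsg.Agent.S0639

set_option autoImplicit false
open Cfsg

namespace Cfsg.Agent.S0637

open Subgroup

theorem isMetacyclic_of_surjective {R Q : Type*} [Group R] [Group Q] (f : R →* Q)
    (hf : Function.Surjective f) (h : IsMetacyclic R) : IsMetacyclic Q := by
  obtain ⟨N, hNn, hNc, hQc⟩ := h
  have hN' : (N.map f).Normal := hNn.map f hf
  refine ⟨N.map f, hN', ?_, ?_⟩
  · exact isCyclic_of_surjective (f.subgroupMap N) (f.subgroupMap_surjective N)
  · refine isCyclic_of_surjective (QuotientGroup.map N (N.map f) f (Subgroup.le_comap_map f N)) ?_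
    intro y
    obtain ⟨y, rfl⟩ := QuotientGroup.mk_surjective y
    obtain ⟨x, rfl⟩ := hf y
    exact ⟨(x : R ⧸ N), rfl⟩

theorem card_omega_le_of_cyclic {C : Type*} [Group C] [Finite C] [IsCyclic C] (p : ℕ) (hp : 0 < p) :
    Nat.card (omegaOne p (⊤ : Subgroup C)) ≤ p := by
  classical
  have := Fintype.ofFinite C
  have hle : ∀ x ∈ omegaOne p (⊤ : Subgroup C), x ^ p = 1 := by
    intro x hx
    unfold omegaOne at hx
    induction hx using closure_induction with
    | mem y hy => exact hy.2
    | one => exact one_pow p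
    | mul y z _ _ h1 h2 =>
      have hc : Commute y z := (IsCyclic.isMulCommutative (α := C)).is_comm.comm y z
      rw [hc.mul_pow, h1, h2, one_mul]
    | inv y _ h1 => rw [inv_pow, h1, inv_one]
  have h1 := IsCyclic.card_pow_eq_one_le (α := C) hp
  let g : omegaOne p (⊤ : Subgroup C) → (Finset.univ.filter fun a : C => a ^ p = 1) :=
    fun x => ⟨x.1, Finset.mem_filter.mpr ⟨Finset.mem_univ _, hle x.1 x.2⟩⟩
  have hg : Function.Injective g := fun a b hab =>
    Subtype.ext (congrArg (fun z : (Finset.univ.filter fun a : C => a ^ p = 1) => (z : C)) hab)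
  have h2 := Nat.card_le_card_of_injective g hg
  rw [Nat.card_eq_fintype_card (α := (Finset.univ.filter fun a : C => a ^ p = 1)),
    Fintype.card_coe] at h2
  exact h2.trans h1

/-- For p greater than 3, the bound p² on the order of the subgroup generated by the elements of order dividing p passes from a p-group to all its quotients. -/
theorem result {R : Type*} [Group R] [Finite R] {p : ℕ} [Fact p.Prime] (hp : 3 < p) (hR : IsPGroup p R) (hO : Nat.card ↥(Cfsg.omegaOne p (⊤ : Subgroup R)) ≤ p ^ 2) (T : Subgroup R) [T.Normal] : Nat.card ↥(Cfsg.omegaOne p (⊤ : Subgroup (R ⧸ T))) ≤ p ^ 2 := by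
  have hpp : p.Prime := Fact.out
  have hM := Cfsg.Agent.S0639.result hp hR hO
  have hMQ : IsMetacyclic (R ⧸ T) :=
    isMetacyclic_of_surjective (QuotientGroup.mk' T) QuotientGroup.mk_surjective hM
  by_cases hc : IsCyclic (R ⧸ T)
  · refine (card_omega_le_of_cyclic p hpp.pos).trans ?_
    exact Nat.le_self_pow (by norm_num) p
  · exact (Cfsg.Agent.S0638.result (by omega) (hR.to_quotient T) hMQ hc).2.le

end Cfsg.Agent.S0637
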