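import Cfsg.Statements.S0641

set_option autoImplicit false
open Cfsg

namespace Cfsg.Agent.S0641

theorem map_powerClosure {G H : Type*} [Group G] [Group H] (f : G →* H) (p n : ℕ) (K : Subgroup G) :
    (powerClosure p n K).map f = powerClosure p n (K.map f) := by
  unfold powerClosure
  rw [MonoidHom.map_closure]
  congr 1
  ext y
  constructor
  · rintro ⟨z, ⟨x, hx, rfl⟩, rfl⟩
    exact ⟨f x, ⟨x, hx, rfl⟩, by simp⟩
  · rintro ⟨w, ⟨x, hx, rfl⟩, rfl⟩
    exact ⟨x ^ p ^ n, ⟨x, hx, rfl⟩, by simp⟩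

/-- Regularity of a p-group passes to quotient groups. -/
theorem result {G : Type*} [Group G] {p : ℕ} [Fact p.Prime] (hG : Cfsg.IsRegularPGroup p G) (N : Subgroup G) [N.Normal] : Cfsg.IsRegularPGroup p (G ⧸ N) := by
  obtain ⟨hp, hreg⟩ := hG
  refine ⟨hp.to_quotient N, ?_⟩
  intro a b n
  obtain ⟨a', rfl⟩ := QuotientGroup.mk'_surjective N a
  obtain ⟨b', rfl⟩ := QuotientGroup.mk'_surjective N b
  obtain ⟨c, hc, hcab⟩ := hreg a' b' n
  refine ⟨QuotientGroup.mk' N c, ?_, ?_⟩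
  · have h1 : (powerClosure p n ⁅Subgroup.closure ({a', b'} : Set G), Subgroup.closure ({a', b'} : Set G)⁆).map (QuotientGroup.mk' N)
        = powerClosure p n ⁅Subgroup.closure ({(QuotientGroup.mk' N) a', (QuotientGroup.mk' N) b'} : Set (G ⧸ N)), Subgroup.closure ({(QuotientGroup.mk' N) a', (QuotientGroup.mk' N) b'} : Set (G ⧸ N))⁆ := by
      rw [map_powerClosure, Subgroup.map_commutator, MonoidHom.map_closure]
      simp [Set.image_pair]
    rw [← h1]
    exact ⟨c, hc, rfl⟩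
  · simpa using congrArg (QuotientGroup.mk' N) hcab

end Cfsg.Agent.S0641
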