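import Cfsg.Statements.S0657
import Cfsg.Agent.Lib.QuadAct.SL2pNormal

set_option autoImplicit false
open Cfsg

namespace Cfsg.Agent.S0657

open Cfsg.Agent.Lib.QuadAct.SL2p Cfsg.Agent.Lib.QuadAct.SL2pNormal Cfsg.Agent.Lib.Core.Basic
open scoped commutatorElement

/-- For odd p, a group that fails to be p-stable modulo its largest normal subgroup of order prime to p, and whose upper p-series does not stop there, has a section isomorphic to SL(2, p). -/
theorem result {G : Type*} [Group G] [Finite G] {p : ℕ} [Fact p.Prime] (hp : p ≠ 2) (hO : Cfsg.pPrimeCore p G < Cfsg.pPrimePCore p G) (hns : ¬ Cfsg.IsPStable p (G ⧸ Cfsg.pPrimeCore p G)) : ∃ (K L : Subgroup G) (hL : (L.subgroupOf K).Normal), K ≤ ⊤ ∧ Nonempty ((K ⧸ L.subgroupOf K) ≃* Matrix.SpecialLinearGroup (Fin 2) (ZMod p)) := by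
  classical
  have hodd : Odd p := (Fact.out : p.Prime).odd_of_ne_two hp
  have hcore : Cfsg.pCore p (G ⧸ Cfsg.pPrimeCore p G) ≠ ⊥ := by
    intro h
    apply hO.ne
    unfold Cfsg.pPrimePCore
    rw [h]
    ext x
    rw [Subgroup.mem_comap, Subgroup.mem_bot]
    exact (QuotientGroup.eq_one_iff x).symm
  have hns' : ¬ (∀ A P : Subgroup (G ⧸ Cfsg.pPrimeCore p G), IsPGroup p A → IsPGroup p P →
      (∀ a ∈ A, ∀ x ∈ P, a * x * a⁻¹ ∈ P) → P ≤ Cfsg.pPrimePCore p (G ⧸ Cfsg.pPrimeCore p G) →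
      (Cfsg.pPrimeCore p (G ⧸ Cfsg.pPrimeCore p G) ⊔ P).Normal → ⁅⁅P, A⁆, A⁆ = ⊥ →
      (A.subgroupOf (Subgroup.normalizer (P : Set (G ⧸ Cfsg.pPrimeCore p G)))).map
          (QuotientGroup.mk' ((Subgroup.centralizer (P : Set (G ⧸ Cfsg.pPrimeCore p G))).subgroupOf
            (Subgroup.normalizer (P : Set (G ⧸ Cfsg.pPrimeCore p G)))))
        ≤ Cfsg.pCore p _) := fun h => hns ⟨hodd, hcore, h⟩
  push Not at hns'
  obtain ⟨A, P, -, hP, -, -, -, hq, hle⟩ := hns'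
  have h := hasSL2p_of_surjective (hasSL2p_of_quadratic_not_in_core hp A P hP hq hle)
    (QuotientGroup.mk' (Cfsg.pPrimeCore p G)) (QuotientGroup.mk'_surjective _)
  obtain ⟨K, L, hL, he⟩ := h
  exact ⟨K, L, hL, le_top, he⟩

end Cfsg.Agent.S0657
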