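import Cfsg.Statements.S0663
import Cfsg.Agent.Lib.PGroups.MaxAbelian

set_option autoImplicit false
open Cfsg

namespace Cfsg.Agent.S0663

open Subgroup Cfsg.Agent.Lib.PGroups.MaxAbelian
open scoped commutatorElement

variable {L : Type*} [Group L] [Finite L] {p : ℕ} [Fact p.Prime]

theorem le_normalizer_of_conj_mem {A B : Subgroup L} (h : ∀ x ∈ A, ∀ y ∈ B, x * y * x⁻¹ ∈ B) :
    A ≤ normalizer (B : Set L) := by
  intro x hx
  rw [mem_normalizer_iff]
  intro y
  refine ⟨h x hx y, fun hy => ?_⟩
  have := h x⁻¹ (A.inv_mem hx) _ hy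
  simpa [mul_assoc] using this

theorem conj_mem_of_le_normalizer {A B : Subgroup L} (h : A ≤ normalizer (B : Set L)) {x y : L}
    (hx : x ∈ A) (hy : y ∈ B) : x * y * x⁻¹ ∈ B :=
  (mem_normalizer_iff.mp (h hx) y).mp hy

/-- `[H, G] ≤ H` when `G` normalizes `H`. -/
theorem comm_le_left {H G : Subgroup L} (h : G ≤ normalizer (H : Set L)) : ⁅H, G⁆ ≤ H := by
  rw [Subgroup.commutator_le]
  intro x hx g hg
  have : g * x⁻¹ * g⁻¹ ∈ H := conj_mem_of_le_normalizer h hg (H.inv_mem hx)
  have h2 := H.mul_mem hx this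
  rw [commutatorElement_def]
  simpa [mul_assoc] using h2

/-- `[A, B]` is normalized by what normalizes `A` and `B`. -/
theorem normalized_comm {A B G : Subgroup L} (hA : G ≤ normalizer (A : Set L))
    (hB : G ≤ normalizer (B : Set L)) : G ≤ normalizer ((⁅A, B⁆ : Subgroup L) : Set L) := by
  apply le_normalizer_of_conj_mem
  intro g hg y hy
  have h1 : ⁅A, B⁆ ≤ (⁅A, B⁆ : Subgroup L).comap (MulAut.conj g).toMonoidHom := by
    rw [Subgroup.commutator_le]
    intro a ha b hb
    rw [Subgroup.mem_comap]
    have : (MulAut.conj g).toMonoidHom ⁅a, b⁆ = ⁅g * a * g⁻¹, g * b * g⁻¹⁆ := by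
      rw [map_commutatorElement]; rfl
    rw [this]
    exact Subgroup.commutator_mem_commutator (conj_mem_of_le_normalizer hA hg ha)
      (conj_mem_of_le_normalizer hB hg hb)
  exact h1 hy

/-- `[A, G]` is normalized by `A`. -/
theorem normalized_comm_left {A G : Subgroup L} : A ≤ normalizer ((⁅A, G⁆ : Subgroup L) : Set L) := by
  apply le_normalizer_of_conj_mem
  intro a ha y hy
  -- the set of such `y` forms a subgroup
  have h1 : ⁅A, G⁆ ≤ (⁅A, G⁆ : Subgroup L).comap (MulAut.conj a).toMonoidHom := by
    rw [Subgroup.commutator_le]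
    intro b hb g hg
    rw [Subgroup.mem_comap]
    have h2 : (MulAut.conj a).toMonoidHom ⁅b, g⁆ = ⁅a * b, g⁆ * ⁅a, g⁆⁻¹ := by
      simp [commutatorElement_def, mul_assoc]
    rw [h2]
    exact Subgroup.mul_mem _ (Subgroup.commutator_mem_commutator (A.mul_mem ha hb) hg)
      (Subgroup.inv_mem _ (Subgroup.commutator_mem_commutator ha hg))
  exact h1 hy

/-- The fundamental strict inclusion. -/
theorem comm_ne_self {H G : Subgroup L} (hH : IsPGroup p H) (hG : IsPGroup p G)
    (h : G ≤ normalizer (H : Set L)) (hne : H ≠ ⊥) : ⁅H, G⁆ ≠ H := by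
  intro heq
  apply hne
  have hX : IsPGroup p ((H ⊔ G : Subgroup L) : Subgroup L) :=
    IsPGroup.to_sup_of_normal_left' hH hG h
  have hnil : Group.IsNilpotent ↥(H ⊔ G) := hX.isNilpotent
  obtain ⟨c, hc⟩ := (Subgroup.isNilpotent_iff_lowerCentralSeries (H ⊔ G)).mp hnil
  have hle : ∀ i, H ≤ Subgroup.lowerCentralSeries (H ⊔ G) i := by
    intro i
    induction i with
    | zero => exact le_sup_left
    | succ i ih =>
      show H ≤ ⁅_, _⁆
      calc H = ⁅H, G⁆ := heq.symm
        _ ≤ _ := Subgroup.commutator_mono ih le_sup_right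
  have := hle c
  rw [hc] at this
  exact le_bot_iff.mp this

section chain

variable {N G : Subgroup L}

local notation "S" => iterCommutator N G

theorem iter_succ (i : ℕ) : S (i + 1) = ⁅S i, G⁆ := rfl

theorem iter_zero : S 0 = N := rfl

theorem iter_normalized (hGN : G ≤ normalizer (N : Set L)) (i : ℕ) :
    G ≤ normalizer (S i : Set L) := by
  induction i with
  | zero => exact hGN
  | succ i ih =>
    refine le_normalizer_of_conj_mem fun g hg y hy => ?_
    have h1 : ⁅S i, G⁆ ≤ (⁅S i, G⁆ : Subgroup L).comap (MulAut.conj g).toMonoidHom := by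
      rw [Subgroup.commutator_le]
      intro a ha b hb
      rw [Subgroup.mem_comap]
      have : (MulAut.conj g).toMonoidHom ⁅a, b⁆ = ⁅g * a * g⁻¹, g * b * g⁻¹⁆ := by
        rw [map_commutatorElement]; rfl
      rw [this]
      exact Subgroup.commutator_mem_commutator (conj_mem_of_le_normalizer ih hg ha)
        (G.mul_mem (G.mul_mem hg hb) (G.inv_mem hg))
    exact h1 hy

theorem iter_succ_le (hGN : G ≤ normalizer (N : Set L)) (i : ℕ) : S (i + 1) ≤ S i :=
  comm_le_left (iter_normalized hGN i)

theorem iter_antitone (hGN : G ≤ normalizer (N : Set L)) : Antitone S :=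
  antitone_nat_of_succ_le (iter_succ_le hGN)

theorem iter_le (hGN : G ≤ normalizer (N : Set L)) (i : ℕ) : S i ≤ N :=
  iter_antitone hGN (Nat.zero_le i)

theorem iter_isP (hN : IsPGroup p N) (hGN : G ≤ normalizer (N : Set L)) (i : ℕ) :
    IsPGroup p (S i) :=
  hN.to_le (iter_le hGN i)

theorem card_lt_of_lt' {A B : Subgroup L} (hAB : A ≤ B) (hne : A ≠ B) :
    Nat.card A < Nat.card B := by
  have h1 := Subgroup.card_le_of_le hAB
  refine lt_of_le_of_ne h1 fun h => hne ?_
  exact Subgroup.eq_of_le_of_card_ge hAB h.ge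

theorem card_iter_of_uniserial (hGN : G ≤ normalizer (N : Set L)) {n : ℕ}
    (hn : Nat.card N = p ^ n)
    (hU : ∀ H : Subgroup L, H ≤ N → G ≤ normalizer (H : Set L) → H ≠ ⊥ → (⁅H, G⁆).relIndex H = p) :
    ∀ i ≤ n, Nat.card (S i) = p ^ (n - i) := by
  have hp : p.Prime := Fact.out
  intro i
  induction i with
  | zero => intro _; exact hn
  | succ i ih =>
    intro hi
    have h1 := ih (by omega)
    have hne : S i ≠ ⊥ := by
      intro hb
      rw [hb, Subgroup.card_bot] at h1
      have : 1 < p ^ (n - i) := Nat.one_lt_pow (by omega) hp.one_lt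
      omega
    have h2 := hU (S i) (iter_le hGN i) (iter_normalized hGN i) hne
    have h3 := relIndex_mul_card (iter_succ_le hGN i)
    rw [iter_succ, h2, h1] at h3
    rw [iter_succ]
    have : n - i = n - (i + 1) + 1 := by omega
    rw [this, pow_succ, mul_comm] at h3
    exact Nat.eq_of_mul_eq_mul_right hp.pos h3

theorem card_iter_of_long (hN : IsPGroup p N) (hG : IsPGroup p G)
    (hGN : G ≤ normalizer (N : Set L)) {n : ℕ} (hn : Nat.card N = p ^ (n + 1)) (hne : S n ≠ ⊥) :
    ∀ i ≤ n + 1, Nat.card (S i) = p ^ (n + 1 - i) := by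
  have hp : p.Prime := Fact.out
  have hex : ∀ i, ∃ e, Nat.card (S i) = p ^ e := fun i => IsPGroup.iff_card.mp (iter_isP hN hGN i)
  choose e he using hex
  have hne' : ∀ i ≤ n, S i ≠ ⊥ := by
    intro i hi hb
    apply hne
    exact le_bot_iff.mp (hb ▸ iter_antitone hGN hi)
  have hlt : ∀ i ≤ n, e (i + 1) < e i := by
    intro i hi
    have h1 : S (i + 1) ≠ S i := comm_ne_self (iter_isP hN hGN i) hG (iter_normalized hGN i) (hne' i hi)
    have h2 := card_lt_of_lt' (iter_succ_le hGN i) h1
    rw [he, he] at h2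
    exact (Nat.pow_lt_pow_iff_right hp.one_lt).mp h2
  have he0 : e 0 = n + 1 := by
    have h1 := he 0
    rw [iter_zero, hn] at h1
    exact (Nat.pow_right_injective hp.two_le h1).symm
  have hup : ∀ i ≤ n + 1, e i + i ≤ n + 1 := by
    intro i
    induction i with
    | zero => intro _; omega
    | succ i ih =>
      intro hi
      have := ih (by omega)
      have := hlt i (by omega)
      omega
  have hdown : ∀ d ≤ n, d + 1 ≤ e (n - d) := by
    intro d
    induction d with
    | zero =>
      intro _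
      have h1 : Nat.card (S n) ≠ 1 := by
        intro h
        exact hne (Subgroup.card_eq_one.mp h)
      rw [he] at h1
      have h2 : e n ≠ 0 := by
        intro h
        rw [h] at h1
        simp at h1
      simpa using Nat.one_le_iff_ne_zero.mpr h2
    | succ d ih =>
      intro hd
      have h1 := ih (by omega)
      have h2 := hlt (n - (d + 1)) (by omega)
      have h3 : n - (d + 1) + 1 = n - d := by omega
      rw [h3] at h2
      omega
  intro i hi
  rw [he]
  congr 1
  rcases Nat.lt_or_ge i (n + 1) with hi' | hi'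
  · have h1 := hup i hi
    have h2 := hdown (n - i) (by omega)
    have h3 : n - (n - i) = i := by omega
    rw [h3] at h2
    omega
  · have h1 := hup i hi
    omega

/-- The commutator with a join. -/
theorem comm_sup_le {A B U : Subgroup L} (hA : ⁅A, G⁆ ≤ U) (hB : ⁅B, G⁆ ≤ U)
    (hnorm : A ⊔ B ≤ normalizer (U : Set L)) : ⁅A ⊔ B, G⁆ ≤ U := by
  let T : Subgroup L :=
    { carrier := {x | x ∈ normalizer (U : Set L) ∧ ∀ g ∈ G, ⁅x, g⁆ ∈ U}
      mul_mem' := by
        rintro x y ⟨hx, hx'⟩ ⟨hy, hy'⟩
        refine ⟨mul_mem hx hy, fun g hg => ?_⟩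
        have h1 : ⁅x * y, g⁆ = x * ⁅y, g⁆ * x⁻¹ * ⁅x, g⁆ := by
          simp [commutatorElement_def, mul_assoc]
        rw [h1]
        exact U.mul_mem ((mem_normalizer_iff.mp hx _).mp (hy' g hg)) (hx' g hg)
      one_mem' := ⟨one_mem _, fun g _ => by simp [commutatorElement_def, U.one_mem]⟩
      inv_mem' := by
        rintro x ⟨hx, hx'⟩
        refine ⟨inv_mem hx, fun g hg => ?_⟩
        have h1 : ⁅x⁻¹, g⁆ = x⁻¹ * ⁅x, g⁆⁻¹ * x⁻¹⁻¹ := by
          simp [commutatorElement_def, mul_assoc]
        rw [h1]
        exact (mem_normalizer_iff.mp (inv_mem hx) _).mp (U.inv_mem (hx' g hg)) }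
  have hAT : A ≤ T := fun x hx => ⟨hnorm (le_sup_left (a := A) hx),
    fun g hg => hA (Subgroup.commutator_mem_commutator hx hg)⟩
  have hBT : B ≤ T := fun x hx => ⟨hnorm (le_sup_right (a := A) hx),
    fun g hg => hB (Subgroup.commutator_mem_commutator hx hg)⟩
  rw [Subgroup.commutator_le]
  intro x hx g hg
  exact (sup_le hAT hBT hx).2 g hg

theorem uniserial_claim (hN : IsPGroup p N) (hG : IsPGroup p G)
    (hGN : G ≤ normalizer (N : Set L)) {m : ℕ}
    (hcard : ∀ i ≤ m, Nat.card (S i) = p ^ (m - i)) (d : ℕ) :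
    ∀ i, i + d = m → ∀ H : Subgroup L, H ≤ S i → G ≤ normalizer (H : Set L) →
      ∃ j, i ≤ j ∧ j ≤ m ∧ H = S j := by
  have hp : p.Prime := Fact.out
  induction d with
  | zero =>
    intro i hi H hH _
    have h1 := hcard i (by omega)
    have h2 : i = m := by omega
    subst h2
    rw [Nat.sub_self, pow_zero, Subgroup.card_eq_one] at h1
    refine ⟨i, le_rfl, le_rfl, ?_⟩
    rw [h1] at hH ⊢
    exact le_bot_iff.mp hH
  | succ d ih =>
    intro i hi H hH hHG
    by_cases hle : H ≤ S (i + 1)
    · obtain ⟨j, h1, h2, h3⟩ := ih (i + 1) (by omega) H hle hHG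
      exact ⟨j, by omega, h2, h3⟩
    · have hGi := iter_normalized hGN i
      have hGi1 := iter_normalized hGN (i + 1)
      have hPi := iter_isP hN hGN i
      have hPi1 := iter_isP hN hGN (i + 1)
      have hsi := iter_succ_le hGN i
      have hsi1 := iter_succ_le hGN (i + 1)
      have hnormi : S i ≤ normalizer (S (i + 1) : Set L) := normalized_comm_left
      have hci := hcard i (by omega)
      have hci1 := hcard (i + 1) (by omega)
      -- the index is `p`.
      have hidx : (S (i + 1)).relIndex (S i) = p := by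
        have h3 := relIndex_mul_card hsi
        rw [hci, hci1] at h3
        have : m - i = m - (i + 1) + 1 := by omega
        rw [this, pow_succ, mul_comm] at h3
        exact Nat.eq_of_mul_eq_mul_left (pow_pos hp.pos _) h3
      have hsup : H ⊔ S (i + 1) = S i := by
        apply le_antisymm (sup_le hH hsi)
        have h3 := Subgroup.relIndex_mul_relIndex (S (i + 1)) (H ⊔ S (i + 1)) (S i) le_sup_right
          (sup_le hH hsi)
        rw [hidx] at h3
        have h4 : (S (i + 1)).relIndex (H ⊔ S (i + 1)) ≠ 1 := by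
          intro h5
          rw [Subgroup.relIndex_eq_one] at h5
          exact hle (le_trans le_sup_left h5)
        have h5 : (H ⊔ S (i + 1)).relIndex (S i) = 1 := by
          rcases (Nat.dvd_prime hp).mp ⟨_, h3.symm⟩ with h6 | h6
          · exact absurd h6 h4
          · rw [h6] at h3
            exact Nat.eq_of_mul_eq_mul_left hp.pos (by rw [h3, mul_one])
        exact Subgroup.relIndex_eq_one.mp h5
      -- `[S (i+1), S i] ≤ S (i+2)`
      have hM : ⁅S (i + 1), S i⁆ ≤ S (i + 2) := by
        by_cases hbot : S (i + 1) = ⊥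
        · rw [hbot, Subgroup.commutator_bot_left]
          exact bot_le
        · have h3 : ⁅S (i + 1), S i⁆ ≤ S (i + 1) := comm_le_left hnormi
          have h4 : G ≤ normalizer ((⁅S (i + 1), S i⁆ : Subgroup L) : Set L) :=
            normalized_comm hGi1 hGi
          obtain ⟨j, h5, h6, h7⟩ := ih (i + 1) (by omega) _ h3 h4
          have h8 : ⁅S (i + 1), S i⁆ ≠ S (i + 1) := comm_ne_self hPi1 hPi hnormi hbot
          have h9 : j ≠ i + 1 := by
            rintro rfl
            exact h8 h7
          rw [h7]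
          exact iter_antitone hGN (by omega)
      have hnorm2 : S i ≤ normalizer (S (i + 2) : Set L) := by
        apply le_normalizer_of_conj_mem
        intro x hx y hy
        have h3 : ⁅y, x⁆ ∈ S (i + 2) := hM (Subgroup.commutator_mem_commutator (hsi1 hy) hx)
        have h4 : x * y * x⁻¹ = ⁅y, x⁆⁻¹ * y := by
          simp [commutatorElement_def, mul_assoc]
        rw [h4]
        exact Subgroup.mul_mem _ (Subgroup.inv_mem _ h3) hy
      have h3 : ⁅H, G⁆ ≤ S (i + 1) := Subgroup.commutator_mono hH le_rfl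
      have h4 : G ≤ normalizer ((⁅H, G⁆ : Subgroup L) : Set L) := by
        refine le_normalizer_of_conj_mem fun g hg y hy => ?_
        have h1 : ⁅H, G⁆ ≤ (⁅H, G⁆ : Subgroup L).comap (MulAut.conj g).toMonoidHom := by
          rw [Subgroup.commutator_le]
          intro a ha b hb
          rw [Subgroup.mem_comap]
          have : (MulAut.conj g).toMonoidHom ⁅a, b⁆ = ⁅g * a * g⁻¹, g * b * g⁻¹⁆ := by
            rw [map_commutatorElement]; rfl
          rw [this]
          exact Subgroup.commutator_mem_commutator (conj_mem_of_le_normalizer hHG hg ha)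
            (G.mul_mem (G.mul_mem hg hb) (G.inv_mem hg))
        exact h1 hy
      obtain ⟨j, h5, h6, h7⟩ := ih (i + 1) (by omega) _ h3 h4
      rcases Nat.eq_or_lt_of_le h5 with h8 | h8
      · -- `[H, G] = S (i + 1)`
        subst h8
        have h9 : S (i + 1) ≤ H := by
          rw [← h7]
          exact comm_le_left hHG
        refine ⟨i, le_rfl, by omega, ?_⟩
        rw [← hsup]
        exact (sup_eq_left.mpr h9).symm
      · exfalso
        have h9 : ⁅H, G⁆ ≤ S (i + 2) := by
          rw [h7]; exact iter_antitone hGN h8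
        have h10 : ⁅H ⊔ S (i + 1), G⁆ ≤ S (i + 2) :=
          comm_sup_le h9 le_rfl (by rw [hsup]; exact hnorm2)
        rw [hsup] at h10
        have h11 : Nat.card (S (i + 1)) ≤ Nat.card (S (i + 2)) := Subgroup.card_le_of_le h10
        have h12 := hcard (i + 2) (by omega)
        rw [hci1, h12] at h11
        have := (Nat.pow_le_pow_iff_right hp.one_lt).mp h11
        omega

theorem normalized_by_N (hN : IsPGroup p N) (hGN : G ≤ normalizer (N : Set L))
    (hall : ∀ H : Subgroup L, H ≤ N → G ≤ normalizer (H : Set L) → ∃ j, H = S j) (j : ℕ) :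
    N ≤ normalizer (S j : Set L) := by
  induction j with
  | zero => exact Subgroup.le_normalizer
  | succ j ih =>
    have hP := iter_isP hN hGN j
    have hM : ⁅S j, N⁆ ≤ S (j + 1) := by
      by_cases hbot : S j = ⊥
      · rw [hbot, Subgroup.commutator_bot_left]
        exact bot_le
      · have h3 : ⁅S j, N⁆ ≤ S j := comm_le_left ih
        have h4 : G ≤ normalizer ((⁅S j, N⁆ : Subgroup L) : Set L) :=
          normalized_comm (iter_normalized hGN j) hGN
        obtain ⟨k, hk⟩ := hall _ (le_trans h3 (iter_le hGN j)) h4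
        have h8 : ⁅S j, N⁆ ≠ S j := comm_ne_self hP hN ih hbot
        rcases Nat.lt_or_ge j k with h9 | h9
        · rw [hk]; exact iter_antitone hGN h9
        · exfalso
          apply h8
          apply le_antisymm h3
          rw [hk]
          exact iter_antitone hGN h9
    apply le_normalizer_of_conj_mem
    intro x hx y hy
    have hyj : y ∈ S j := iter_succ_le hGN j hy
    have h3 : ⁅y, x⁆ ∈ S (j + 1) := hM (Subgroup.commutator_mem_commutator hyj hx)
    have h4 : x * y * x⁻¹ = ⁅y, x⁆⁻¹ * y := by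
      simp [commutatorElement_def, mul_assoc]
    rw [h4]
    exact Subgroup.mul_mem _ (Subgroup.inv_mem _ h3) hy

end chain

/-- A p-group acts uniserially on a p-group N of order p^n exactly when the iterated commutator chain from N has length n; in that case the chain terms are all the invariant subgroups of N and they are normal in N. -/
theorem result {L : Type*} [Group L] [Finite L] {p : ℕ} [Fact p.Prime] (N G : Subgroup L) (hN : IsPGroup p N) (hG : IsPGroup p G) (hGN : G ≤ Subgroup.normalizer (N : Set L)) (n : ℕ) (hn : Nat.card N = p ^ n) : ((∀ H : Subgroup L, H ≤ N → G ≤ Subgroup.normalizer (H : Set L) → H ≠ ⊥ → (⁅H, G⁆).relIndex H = p) ↔ Cfsg.iterCommutator N G (n - 1) ≠ ⊥ ∨ n = 0) ∧ ((∀ H : Subgroup L, H ≤ N → G ≤ Subgroup.normalizer (H : Set L) → H ≠ ⊥ → (⁅H, G⁆).relIndex H = p) → ∀ H : Subgroup L, H ≤ N → G ≤ Subgroup.normalizer (H : Set L) → (∃ i ≤ n, H = Cfsg.iterCommutator N G i) ∧ N ≤ Subgroup.normalizer (H : Set L)) := by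
  have hp : p.Prime := Fact.out
  refine ⟨⟨fun hU => ?_, fun h H hHN hHG hne => ?_⟩, fun hU H hHN hHG => ?_⟩
  · rcases Nat.eq_zero_or_pos n with h0 | h0
    · exact Or.inr h0
    · left
      have h1 := card_iter_of_uniserial hGN hn hU (n - 1) (by omega)
      intro hb
      rw [hb, Subgroup.card_bot, show n - (n - 1) = 1 by omega, pow_one] at h1
      exact hp.one_lt.ne h1
  · rcases Nat.eq_zero_or_pos n with h0 | h0
    · exfalso
      subst h0
      rw [pow_zero, Subgroup.card_eq_one] at hn
      rw [hn] at hHN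
      exact hne (le_bot_iff.mp hHN)
    · obtain ⟨m, rfl⟩ : ∃ m, n = m + 1 := ⟨n - 1, by omega⟩
      have hne' : iterCommutator N G m ≠ ⊥ := by
        rcases h with h | h
        · simpa using h
        · omega
      have hcard := card_iter_of_long hN hG hGN hn hne'
      obtain ⟨j, -, hj, rfl⟩ := uniserial_claim hN hG hGN hcard (m + 1) 0 (by omega) H hHN hHG
      have hjm : j ≤ m := by
        by_contra hcon
        have : j = m + 1 := by omega
        subst this
        have h1 := hcard (m + 1) le_rfl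
        rw [Nat.sub_self, pow_zero, Subgroup.card_eq_one] at h1
        exact hne h1
      show (iterCommutator N G (j + 1)).relIndex (iterCommutator N G j) = p
      have h3 := relIndex_mul_card (iter_succ_le hGN j)
      rw [hcard j (by omega), hcard (j + 1) (by omega)] at h3
      have : m + 1 - j = m + 1 - (j + 1) + 1 := by omega
      rw [this, pow_succ, mul_comm] at h3
      exact Nat.eq_of_mul_eq_mul_left (pow_pos hp.pos _) h3
  · have hcard := card_iter_of_uniserial hGN hn hU
    have hall : ∀ H : Subgroup L, H ≤ N → G ≤ normalizer (H : Set L) →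
        ∃ j, j ≤ n ∧ H = iterCommutator N G j := by
      intro H hHN hHG
      obtain ⟨j, -, hj, h⟩ := uniserial_claim hN hG hGN hcard n 0 (by omega) H hHN hHG
      exact ⟨j, hj, h⟩
    obtain ⟨j, hj, rfl⟩ := hall H hHN hHG
    refine ⟨⟨j, hj, rfl⟩, normalized_by_N hN hGN ?_ j⟩
    intro H hHN hHG
    obtain ⟨j, -, h⟩ := hall H hHN hHG
    exact ⟨j, h⟩

end Cfsg.Agent.S0663
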