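import Cfsg.Statements.S0666
import Cfsg.Agent.Lib.Frobenius.FixedPoints

set_option autoImplicit false
open Cfsg

namespace Cfsg.Agent.S0666

/-- A Frobenius group acting on a nontrivial abelian group of order prime to that of its kernel, with the kernel acting without nontrivial fixed points, has a complement with a nontrivial fixed point. -/
theorem result {G : Type*} [Group G] [Finite G] (V F : Subgroup G) (hVab : IsMulCommutative V) (hV1 : V ≠ ⊥) (hFV : F ≤ Subgroup.normalizer (V : Set G)) (H : Subgroup ↥F) (hH : Cfsg.IsFrobeniusComplement H) (hcop : (Nat.card V).Coprime (Nat.card (Cfsg.frobeniusKernel H))) (hCK : V ⊓ Subgroup.centralizer (Subtype.val '' Cfsg.frobeniusKernel H : Set G) = ⊥) : V ⊓ Subgroup.centralizer ((H.map F.subtype : Subgroup G) : Set G) ≠ ⊥ := by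
  open Cfsg.Agent.Lib.Frobenius.FixedPoints Cfsg.Agent.Lib.Frobenius.Theorem Cfsg.Agent.Lib.Frobenius.Basic in
  intro hbot
  have hidx : H.index = Nat.card (Cfsg.frobeniusKernel H) := (card_frobeniusKernel hH).symm
  obtain ⟨v, hvV, hv1, hv⟩ := exists_fixed_conj V F hVab hV1 hFV hH (by
    intro v hvV hv
    have h1 : v ∈ V ⊓ Subgroup.centralizer (Subtype.val '' Cfsg.frobeniusKernel H : Set G) := by
      refine Subgroup.mem_inf.2 ⟨hvV, ?_⟩
      rw [Subgroup.mem_centralizer_iff]
      rintro x ⟨k, hk, rfl⟩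
      have hk' : k ∈ kernel H := (mem_kernel_iff hH).2 hk
      have := hv k hk'
      exact (mul_inv_eq_iff_eq_mul.1 this)
    rw [hCK] at h1
    exact h1) (by rw [hidx]; exact hcop)
  apply hv1
  have h1 : v ∈ V ⊓ Subgroup.centralizer ((H.map F.subtype : Subgroup G) : Set G) := by
    refine Subgroup.mem_inf.2 ⟨hvV, ?_⟩
    rw [Subgroup.mem_centralizer_iff]
    rintro x hx
    obtain ⟨h, hh, rfl⟩ := hx
    exact mul_inv_eq_iff_eq_mul.1 (hv h hh)
  rw [hbot] at h1
  exact h1

end Cfsg.Agent.S0666
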