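import Cfsg.Statements.S0668
import Cfsg.Agent.Lib.PermMod.Basic

set_option autoImplicit false
open Cfsg

namespace Cfsg.Agent.S0668

open Cfsg.Agent.Lib.PermMod.Basic MulAction

/-- The equivariant linear maps between the permutation modules of two finite `G`-sets form a space whose dimension is the number of `G`-orbits on the product of the two sets. -/
theorem result {G : Type*} [Group G] {K : Type*} [Field K] {Ω₁ Ω₂ : Type*} [Fintype Ω₁] [Fintype Ω₂] [MulAction G Ω₁] [MulAction G Ω₂] : Module.finrank K ((Cfsg.permRep K G Ω₁).linHom (Cfsg.permRep K G Ω₂)).invariants = Nat.card (MulAction.orbitRel.Quotient G (Ω₁ × Ω₂)) := by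
  classical
  let Q := MulAction.orbitRel.Quotient G (Ω₁ × Ω₂)
  have : Fintype Q := Fintype.ofFinite Q
  let proj : Ω₁ × Ω₂ → Q := Quotient.mk (orbitRel G (Ω₁ × Ω₂))
  have hproj : ∀ (g : G) x y, proj (g • x, g • y) = proj (x, y) := by
    intro g x y
    apply Quotient.sound (s := orbitRel G (Ω₁ × Ω₂))
    exact ⟨g, rfl⟩
  -- from functions on orbits to invariants
  let Φ : (Q → K) →ₗ[K] ((Cfsg.permRep K G Ω₁).linHom (Cfsg.permRep K G Ω₂)).invariants :=
    { toFun := fun c => ⟨kernelMap K (fun x y => c (proj (x, y))), by
        intro g
        rw [Representation.linHom_apply]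
        refine LinearMap.ext fun f => ?_
        simp only [LinearMap.comp_apply]
        rw [← kernelMap_equivariant (G := G) (fun g x y => by rw [hproj])]
        congr 1
        simp⟩
      map_add' := by
        intro a b
        apply Subtype.ext
        refine LinearMap.ext fun f => funext fun y => ?_
        simp [kernelMap_apply, add_mul, Finset.sum_add_distrib]
      map_smul' := by
        intro r a
        apply Subtype.ext
        refine LinearMap.ext fun f => funext fun y => ?_
        simp [kernelMap_apply, Finset.mul_sum, mul_assoc] }
  have hΦ : ∀ c x y, (Φ c).1 (Pi.single x 1) y = c (proj (x, y)) := by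
    intro c x y
    exact kernelMap_single _ x y
  have hbij : Function.Bijective Φ := by
    constructor
    · intro a b hab
      funext q
      induction q using Quotient.inductionOn with | _ p => ?_
      obtain ⟨x, y⟩ := p
      have h1 := hΦ a x y
      have h2 := hΦ b x y
      rw [hab] at h1
      exact h1.symm.trans h2
    · rintro ⟨φ, hφ⟩
      have hinv : ∀ (g : G) f, φ (permRep K G Ω₁ g f) = permRep K G Ω₂ g (φ f) := by
        intro g f
        have h1 := hφ g
        rw [Representation.linHom_apply] at h1
        have h2 := congrArg (fun l => l (permRep K G Ω₁ g f)) h1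
        simp only [LinearMap.comp_apply] at h2
        rw [← h2]
        congr 2
        simp
      let c : Q → K := Quotient.lift (s := orbitRel G (Ω₁ × Ω₂))
        (fun p => φ (Pi.single p.1 1) p.2) (by
          rintro ⟨x, y⟩ ⟨x', y'⟩ ⟨g, hg⟩
          have h1 : g • x' = x := congrArg Prod.fst hg
          have h2 : g • y' = y := congrArg Prod.snd hg
          subst h1 h2
          exact kernel_of_equivariant φ hinv g x' y')
      refine ⟨c, ?_⟩
      apply Subtype.ext
      exact (eq_kernelMap φ).symm
  have e := LinearEquiv.ofBijective Φ hbij
  rw [← LinearEquiv.finrank_eq e, Module.finrank_fintype_fun_eq_card, Nat.card_eq_fintype_card]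

end Cfsg.Agent.S0668
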