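import Cfsg.Statements.S0669

set_option autoImplicit false
open Cfsg

namespace Cfsg.Agent.S0669

open MulAction in
/-- The rank of a transitive action: orbits on ordered pairs correspond to orbits of a point stabiliser. -/
theorem result {G : Type*} [Group G] {Ω : Type*} [Finite Ω] [MulAction G Ω] [MulAction.IsPretransitive G Ω] (a : Ω) : Nat.card (MulAction.orbitRel.Quotient G (Ω × Ω)) = Nat.card (MulAction.orbitRel.Quotient (MulAction.stabilizer G a) Ω) := by
  symm
  refine Nat.card_congr (Equiv.ofBijective
    (Quotient.map (sa := orbitRel (stabilizer G a) Ω) (sb := orbitRel G (Ω × Ω)) (fun x => (a, x)) ?_) ?_)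
  · intro x y hxy
    obtain ⟨⟨g, hg⟩, rfl⟩ := hxy
    refine ⟨g, ?_⟩
    change (g • a, g • y) = (a, (⟨g, hg⟩ : stabilizer G a) • y)
    rw [mem_stabilizer_iff.mp hg]
    rfl
  · constructor
    · intro x y
      induction x using Quotient.inductionOn with | _ x => ?_
      induction y using Quotient.inductionOn with | _ y => ?_
      intro h
      have h' := Quotient.exact (s := orbitRel G (Ω × Ω)) h
      obtain ⟨g, hg⟩ := h'
      apply Quotient.sound (s := orbitRel (stabilizer G a) Ω)
      have h1 : g • a = a := congrArg Prod.fst hg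
      have h2 : g • y = x := congrArg Prod.snd hg
      exact ⟨⟨g, h1⟩, h2⟩
    · intro q
      induction q using Quotient.inductionOn with | _ p => ?_
      obtain ⟨u, v⟩ := p
      obtain ⟨g, hg⟩ := MulAction.exists_smul_eq G u a
      refine ⟨Quotient.mk (orbitRel (stabilizer G a) Ω) (g • v), ?_⟩
      apply Quotient.sound (s := orbitRel G (Ω × Ω))
      refine ⟨g, ?_⟩
      change (g • u, g • v) = (a, g • v)
      rw [hg]

end Cfsg.Agent.S0669
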