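import Cfsg.Statements.S0678
import Cfsg.Agent.Lib.PermMod.PrimeSmall
import Cfsg.Agent.S0676

set_option autoImplicit false
open Cfsg

namespace Cfsg.Agent.S0678

open MulAction Subgroup Cfsg.Agent.Lib.PermMod.PrimeSmall

/-- A non-solvable transitive permutation group on 7 points that does not contain the alternating group is a simple group of order 168. -/
theorem result {α : Type*} [Fintype α] [DecidableEq α] (hα : Fintype.card α = 7) (G : Subgroup (Equiv.Perm α)) [MulAction.IsPretransitive G α] (hG : ¬ Group.IsSolvable G) (hA : ¬ alternatingGroup α ≤ G) : Nat.card G = 168 ∧ IsSimpleGroup G := by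
  obtain ⟨K, hKG, hKA, htr, hKs, hcard⟩ := exists_even_part hα (by norm_num) G hG
  have hK : Nat.card K = 168 := card_eq_of_le_alternating hα K hKs hKA (fun h => hA (h.trans hKG))
  rw [hK] at hcard
  rcases hcard with hcard | hcard
  · have hGK : K = G := eq_of_le_of_card_ge hKG (by rw [hK, hcard])
    have hGA : G ≤ alternatingGroup α := hGK ▸ hKA
    exact ⟨hcard, isSimpleGroup_of_le_alternating hα G hG hGA hA⟩
  · exfalso
    obtain ⟨P⟩ : Nonempty (Sylow 7 G) := inferInstance
    have h1 : Nat.card (normalizer ((P : Subgroup G) : Set G)) * Nat.card (Sylow 7 G) = Nat.card G := by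
      rw [Sylow.card_eq_index_normalizer P]
      exact card_mul_index _
    have h2 : Nat.card (Sylow 7 G) % 7 = 1 := card_sylow_modEq_one 7 G
    have h3 := card_normalizer_dvd hα G P
    have h4 : Nat.card (normalizer ((P : Subgroup G) : Set G)) ≠ 7 := fun h =>
      hG (isSolvable_of_card_normalizer hα G P h)
    have h5 : 7 ∣ Nat.card (normalizer ((P : Subgroup G) : Set G)) := by
      have := card_dvd_of_le (le_normalizer (H := (P : Subgroup G)))
      rwa [Cfsg.Agent.Lib.PermMod.SylowPD.card_sylow hα G P] at this
    have heven : Even (Nat.card (normalizer ((P : Subgroup G) : Set G))) := by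
      rw [hcard] at h1
      generalize Nat.card (normalizer ((P : Subgroup G) : Set G)) = n at h1 h3 h4 h5 ⊢
      generalize Nat.card (Sylow 7 G) = m at h1 h2
      have hn : n ≤ 42 := Nat.le_of_dvd (by norm_num) h3
      have hm : m ∣ 336 := ⟨n, by rw [mul_comm m, h1]⟩
      obtain rfl : n = 42 := by
        obtain ⟨r, rfl⟩ := h5
        have hr : r ≤ 6 := by omega
        interval_cases r <;> omega
      decide
    have h3t := Cfsg.Agent.S0676.result hα G hG P heven
    have h6 := descFactorial_dvd_card h3t (by rw [hα]; norm_num)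
    rw [hα, hcard] at h6
    norm_num [Nat.descFactorial] at h6

end Cfsg.Agent.S0678
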