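import Cfsg.Statements.S0679
import Cfsg.Agent.Lib.Deg11.Core

set_option autoImplicit false
open Cfsg

namespace Cfsg.Agent.S0679

open Equiv Equiv.Perm Subgroup MulAction Cfsg.Agent.Lib.Deg11.Perms Cfsg.Agent.Lib.Deg11.Core

/-- A non-solvable transitive permutation group on 11 points that does not contain the alternating group is either sharply 4-transitive (of order 7920) or isomorphic to the projective special linear group of degree 2 over the field with 11 elements. -/
theorem result {α : Type*} [Fintype α] [DecidableEq α] (hα : Fintype.card α = 11) (G : Subgroup (Equiv.Perm α)) [MulAction.IsPretransitive G α] (hG : ¬ Group.IsSolvable G) (hA : ¬ alternatingGroup α ≤ G) : (MulAction.IsMultiplyPretransitive G α 4 ∧ ∀ x : Fin 4 ↪ α, MulAction.stabilizer G x = ⊥) ∨ Nonempty (G ≃* Matrix.ProjectiveSpecialLinearGroup (Fin 2) (ZMod 11)) := by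
  have : Nonempty α := Fintype.card_pos_iff.mp (by omega)
  obtain ⟨a⟩ := ‹Nonempty α›
  -- an element of order eleven
  have h11 : 11 ∣ Nat.card G := by
    have h1 : (stabilizer G a).index = (orbit G a).ncard := index_stabilizer G a
    rw [orbit_eq_univ, Set.ncard_univ, Nat.card_eq_fintype_card, hα] at h1
    rw [← h1]
    exact index_dvd_card _
  obtain ⟨c, hc⟩ := exists_prime_orderOf_dvd_card' (G := G) 11 h11
  have ho : orderOf (c : Perm α) = 11 := by rw [Subgroup.orderOf_coe]; exact hc
  have hcyc : (c : Perm α).IsCycle :=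
    isCycle_of_prime_order'' (by rw [hα]; norm_num) (by rw [ho, hα])
  have hsup : (c : Perm α).support = Finset.univ := by
    apply Finset.eq_univ_of_card
    rw [hα, ← hcyc.orderOf, ho]
  have hmove : ∀ y : α, (c : Perm α) y ≠ y := by
    intro y
    have : y ∈ (c : Perm α).support := by rw [hsup]; exact Finset.mem_univ y
    exact Equiv.Perm.mem_support.mp this
  -- the labelling of the points
  let e₀ : Om → α := fun i => ((c : Perm α) ^ i.val) a
  have he₀ : ∀ n : ℕ, e₀ (n : Om) = ((c : Perm α) ^ n) a := by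
    intro n
    change ((c : Perm α) ^ (n : Om).val) a = _
    rw [ZMod.val_natCast, ← ho, pow_mod_orderOf]
  have hsurj : Function.Surjective e₀ := by
    intro y
    obtain ⟨n, hn⟩ := hcyc.exists_pow_eq (hmove a) (hmove y)
    exact ⟨(n : Om), by rw [he₀, hn]⟩
  have hbij : Function.Bijective e₀ :=
    (Fintype.bijective_iff_surjective_and_card e₀).mpr ⟨hsurj, by rw [card_Om, hα]⟩
  let e : Om ≃ α := Equiv.ofBijective e₀ hbij
  have hes : ∀ x : Om, e (x + 1) = (c : Perm α) (e x) := by
    intro x
    change e₀ (x + 1) = (c : Perm α) (e₀ x)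
    have h1 : x + 1 = ((x.val + 1 : ℕ) : Om) := by
      push_cast
      rw [ZMod.natCast_zmod_val]
    rw [h1, he₀]
    change _ = (c : Perm α) (((c : Perm α) ^ x.val) a)
    rw [pow_succ', Perm.mul_apply]
  -- transport
  let φ : Perm α ≃* Perm Om := Equiv.permCongrHom e.symm
  have hφ : ∀ (g : Perm α) (x : Om), φ g x = e.symm (g (e x)) := fun g x => rfl
  have hφc : φ (c : Perm α) = cc := by
    apply Equiv.ext
    intro x
    rw [hφ, ← hes, Equiv.symm_apply_apply]
    rfl
  let H : Subgroup (Perm Om) := G.map φ.toMonoidHom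
  let E : G ≃* H := G.equivMapOfInjective φ.toMonoidHom φ.injective
  have hccH : cc ∈ H := ⟨c, c.2, hφc⟩
  have hSH : ¬ Group.IsSolvable H := by
    intro hs
    apply hG
    exact Group.isSolvable_of_isSolvable_injective (f := E.toMonoidHom) E.injective
  have hAH : ¬ alternatingGroup Om ≤ H := by
    intro hle
    apply hA
    intro y hy
    have h1 : φ y ∈ alternatingGroup Om := by
      rw [Equiv.Perm.mem_alternatingGroup] at hy ⊢
      have : φ y = e.symm.permCongr y := rfl
      rw [this, Equiv.Perm.sign_permCongr, hy]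
    obtain ⟨g, hg, hgy⟩ := hle h1
    have : g = y := φ.injective hgy
    rwa [← this]
  rcases main H hccH hSH hAH with ⟨hcard, htr⟩ | ⟨⟨F⟩⟩
  · left
    have hcardG : Nat.card G = 7920 := by
      rw [Nat.card_congr E.toEquiv, hcard]
    -- every embedding can be moved to the standard one
    have hstd : ∀ x : Fin 4 ↪ α, ∃ g ∈ G, ∀ i : Fin 4, g (x i) = e ((![0, 1, 2, 3] : Fin 4 → Om) i) := by
      intro x
      obtain ⟨g, ⟨g₀, hg₀, rfl⟩, h0, h1, h2, h3⟩ := htr (x.trans e.symm.toEmbedding)
      refine ⟨g₀, hg₀, ?_⟩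
      have key : ∀ (i : Fin 4) (v : Om),
          (φ g₀) ((x.trans e.symm.toEmbedding) i) = v → g₀ (x i) = e v := by
        intro i v hv
        rw [← hv]
        change g₀ (x i) = e (e.symm (g₀ (e (e.symm (x i)))))
        simp
      intro i
      fin_cases i
      · exact key 0 0 h0
      · exact key 1 1 h1
      · exact key 2 2 h2
      · exact key 3 3 h3
    have htrG : MulAction.IsPretransitive G (Fin 4 ↪ α) := by
      refine ⟨fun x y => ?_⟩
      obtain ⟨g₁, hg₁, h1⟩ := hstd x
      obtain ⟨g₂, hg₂, h2⟩ := hstd y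
      refine ⟨⟨g₂⁻¹ * g₁, mul_mem (inv_mem hg₂) hg₁⟩, ?_⟩
      ext i
      change (g₂⁻¹ * g₁) (x i) = y i
      rw [Perm.mul_apply, h1 i, ← h2 i]
      simp
    refine ⟨htrG, fun x => ?_⟩
    have := htrG
    have h1 : (stabilizer G x).index = (orbit G x).ncard := index_stabilizer G x
    have h0 : orbit G x = Set.univ := Set.eq_univ_of_forall fun y => by
      obtain ⟨g, hg⟩ := htrG.exists_smul_eq x y
      exact ⟨g, hg⟩
    rw [h0, Set.ncard_univ, Nat.card_eq_fintype_card, Fintype.card_embedding_eq, hα,
      Fintype.card_fin] at h1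
    have h2 := card_mul_index (stabilizer G x)
    rw [h1, hcardG] at h2
    have h3 : Nat.card (stabilizer G x) = 1 := by
      have h4 : Nat.descFactorial 11 4 = 7920 := by decide
      rw [h4] at h2
      omega
    exact Subgroup.eq_bot_of_card_eq _ h3
  · right
    exact ⟨E.trans F⟩

end Cfsg.Agent.S0679
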