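import Cfsg.Statements.S0681

set_option autoImplicit false
open Cfsg

namespace Cfsg.Agent.S0681

variable {F : Type*} [Cfsg.NearField F]

theorem zero_mul' (a : F) : (0 : F) * a = 0 := by
  have h := NearField.right_distrib (0 : F) 0 a
  rw [add_zero] at h
  exact left_eq_add.mp h

theorem neg_mul' (a c : F) : (-a) * c = -(a * c) := by
  have h := NearField.right_distrib (-a) a c
  rw [neg_add_cancel, zero_mul'] at h
  exact eq_neg_of_add_eq_zero_left h.symm

theorem sub_mul' (a b c : F) : (a + -b) * c = a * c + -(b * c) := by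
  rw [NearField.right_distrib, neg_mul']

theorem mul_eq_zero_right {a c : F} (ha : a ≠ 0) (h : a * c = 0) : c = 0 := by
  obtain ⟨b, -, hb⟩ := NearField.exists_inv a ha
  calc c = (b * a) * c := by rw [hb, one_mul]
    _ = b * (a * c) := mul_assoc _ _ _
    _ = 0 := by rw [h, NearField.mul_zero]

theorem one_ne_zero' : (1 : F) ≠ 0 := fun h => NearField.zero_ne_one (F := F) h.symm

theorem mul_ne_zero' {a c : F} (ha : a ≠ 0) (hc : c ≠ 0) : a * c ≠ 0 := fun h =>
  hc (mul_eq_zero_right ha h)

/-- The affine map as a permutation. -/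
noncomputable def affinePerm (a b : F) (ha : a ≠ 0) : Equiv.Perm F :=
  have hinv := NearField.exists_inv a ha
  { toFun := fun x => x * a + b
    invFun := fun y => (y + -b) * hinv.choose
    left_inv := by
      intro x
      simp only [add_neg_cancel_right]
      rw [mul_assoc, hinv.choose_spec.1, mul_one]
    right_inv := by
      intro y
      simp only
      rw [mul_assoc, hinv.choose_spec.2, mul_one, neg_add_cancel_right] }

@[simp] theorem affinePerm_apply (a b : F) (ha : a ≠ 0) (x : F) :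
    affinePerm a b ha x = x * a + b := rfl

/-- The group of affine maps. -/
def affineSubgroup (F : Type*) [Cfsg.NearField F] : Subgroup (Equiv.Perm F) where
  carrier := {σ | ∃ a b : F, a ≠ 0 ∧ ∀ x : F, σ x = x * a + b}
  one_mem' := ⟨1, 0, one_ne_zero', fun x => by simp⟩
  mul_mem' := by
    rintro σ τ ⟨a, b, ha, hσ⟩ ⟨c, d, hc, hτ⟩
    refine ⟨c * a, d * a + b, mul_ne_zero' hc ha, fun x => ?_⟩
    simp only [Equiv.Perm.coe_mul, Function.comp_apply, hτ, hσ, NearField.right_distrib, mul_assoc,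
      add_assoc]
  inv_mem' := by
    rintro σ ⟨a, b, ha, hσ⟩
    obtain ⟨a', h1, h2⟩ := NearField.exists_inv a ha
    have ha' : a' ≠ 0 := by
      rintro rfl
      rw [NearField.mul_zero] at h1
      exact NearField.zero_ne_one h1
    refine ⟨a', (-b) * a', ha', fun x => ?_⟩
    rw [Equiv.Perm.inv_eq_iff_eq, hσ, NearField.right_distrib, mul_assoc, mul_assoc, h2, mul_one,
      mul_one, neg_add_cancel_right]

theorem mem_affineSubgroup {σ : Equiv.Perm F} :
    σ ∈ affineSubgroup F ↔ ∃ a b : F, a ≠ 0 ∧ ∀ x : F, σ x = x * a + b := Iff.rfl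

/-- The affine maps `x ↦ x * a + b`, `a ≠ 0`, of a near-field form a sharply doubly transitive permutation group. -/
theorem result {F : Type*} [Cfsg.NearField F] : ∃ H : Subgroup (Equiv.Perm F), (∀ σ : Equiv.Perm F, σ ∈ H ↔ ∃ a b : F, a ≠ 0 ∧ ∀ x : F, σ x = x * a + b) ∧ MulAction.IsMultiplyPretransitive H F 2 ∧ ∀ x : Fin 2 ↪ F, MulAction.stabilizer H x = ⊥ := by
  refine ⟨affineSubgroup F, fun σ => mem_affineSubgroup, ?_, ?_⟩
  · rw [MulAction.is_two_pretransitive_iff]
    intro x₁ x₂ y₁ y₂ hx hy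
    have hu : x₁ + -x₂ ≠ 0 := fun h => hx (add_neg_eq_zero.mp h)
    have hv : y₁ + -y₂ ≠ 0 := fun h => hy (add_neg_eq_zero.mp h)
    obtain ⟨u', h1, h2⟩ := NearField.exists_inv _ hu
    have hu' : u' ≠ 0 := by
      rintro rfl
      rw [NearField.mul_zero] at h1
      exact NearField.zero_ne_one h1
    let a : F := u' * (y₁ + -y₂)
    have ha : a ≠ 0 := mul_ne_zero' hu' hv
    have hua : (x₁ + -x₂) * a = y₁ + -y₂ := by
      change (x₁ + -x₂) * (u' * (y₁ + -y₂)) = _
      rw [← mul_assoc, h1, one_mul]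
    let b : F := -(x₂ * a) + y₂
    refine ⟨⟨affinePerm a b ha, ⟨a, b, ha, fun x => rfl⟩⟩, ?_, ?_⟩
    · change x₁ * a + b = y₁
      change x₁ * a + (-(x₂ * a) + y₂) = y₁
      rw [sub_mul'] at hua
      rw [← add_assoc, hua, neg_add_cancel_right]
    · change x₂ * a + b = y₂
      change x₂ * a + (-(x₂ * a) + y₂) = y₂
      rw [add_neg_cancel_left]
  · intro x
    rw [eq_bot_iff]
    rintro ⟨σ, hσmem⟩ hσ
    rw [Subgroup.mem_bot]
    apply Subtype.ext
    obtain ⟨a, b, ha, hσa⟩ := hσmem
    have h0 : σ (x 0) = x 0 := by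
      have := congrArg (fun e : Fin 2 ↪ F => e 0) (MulAction.mem_stabilizer_iff.mp hσ)
      exact this
    have h1 : σ (x 1) = x 1 := by
      have := congrArg (fun e : Fin 2 ↪ F => e 1) (MulAction.mem_stabilizer_iff.mp hσ)
      exact this
    rw [hσa] at h0 h1
    have hne : x 0 ≠ x 1 := fun h => by
      have := x.injective h
      exact absurd this (by decide)
    have hu : x 0 + -x 1 ≠ 0 := fun h => hne (add_neg_eq_zero.mp h)
    obtain ⟨u', h2, h3⟩ := NearField.exists_inv _ hu
    have hua : (x 0 + -x 1) * a = x 0 + -x 1 := by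
      rw [sub_mul']
      calc x 0 * a + -(x 1 * a) = (x 0 * a + b) + -(x 1 * a + b) := by
            rw [neg_add_rev]; simp [add_assoc]
        _ = x 0 + -x 1 := by rw [h0, h1]
    have ha1 : a = 1 := by
      calc a = (u' * (x 0 + -x 1)) * a := by rw [h3, one_mul]
        _ = u' * ((x 0 + -x 1) * a) := mul_assoc _ _ _
        _ = 1 := by rw [hua, h3]
    have hb0 : b = 0 := by
      rw [ha1, mul_one] at h0
      exact left_eq_add.mp h0.symm
    ext z
    rw [hσa, ha1, hb0]
    simp

end Cfsg.Agent.S0681
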