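import Cfsg.Statements.S0682
import Mathlib.GroupTheory.PGroup
import Mathlib.GroupTheory.Perm.Cycle.Type
import Mathlib.GroupTheory.OrderOfElement

set_option autoImplicit false
open Cfsg

namespace Cfsg.Agent.S0682

variable {F : Type*} [Cfsg.NearField F]

theorem zero_mul' (a : F) : (0 : F) * a = 0 := by
  have h := NearField.right_distrib (0 : F) 0 a
  rw [add_zero] at h
  exact left_eq_add.mp h

theorem nsmul_mul' (n : ℕ) (a c : F) : (n • a) * c = n • (a * c) := by
  induction n with
  | zero => simp [zero_mul']
  | succ n ih => rw [succ_nsmul, NearField.right_distrib, ih, succ_nsmul]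

/-- Every non-zero element can be moved to every other by a right multiplication. -/
theorem exists_mul_eq {a b : F} (ha : a ≠ 0) : ∃ c : F, a * c = b := by
  obtain ⟨a', h1, -⟩ := NearField.exists_inv a ha
  exact ⟨a' * b, by rw [← mul_assoc, h1, one_mul]⟩

theorem exists_inv_mul {c : F} (hc : c ≠ 0) (w : F) : ∃ w' : F, w' * c = w := by
  obtain ⟨c', h1, h2⟩ := NearField.exists_inv c hc
  exact ⟨w * c', by rw [mul_assoc, h2, mul_one]⟩

theorem ne_zero_of_mul_eq {a c b : F} (h : a * c = b) (hb : b ≠ 0) : c ≠ 0 := by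
  rintro rfl
  rw [NearField.mul_zero] at h
  exact hb h.symm

/-- A finite near-field has prime-power order; its additive group is commutative of prime exponent. -/
theorem result {F : Type*} [Cfsg.NearField F] [Finite F] : ∃ p j : ℕ, p.Prime ∧ 1 ≤ j ∧ Nat.card F = p ^ j ∧ (∀ x y : F, x + y = y + x) ∧ ∀ x : F, p • x = 0 := by
  have hnt : Nontrivial F := ⟨⟨0, 1, NearField.zero_ne_one⟩⟩
  have hcard : 1 < Nat.card F := Finite.one_lt_card
  obtain ⟨p, hp, hpd⟩ := Nat.exists_prime_and_dvd hcard.ne'
  have : Fact p.Prime := ⟨hp⟩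
  -- an element of order `p`
  obtain ⟨x₀, hx₀⟩ := exists_prime_addOrderOf_dvd_card' p hpd
  have hx₀ne : x₀ ≠ 0 := by
    rintro rfl
    rw [addOrderOf_zero] at hx₀
    exact hp.one_lt.ne hx₀
  have hx₀p : p • x₀ = 0 := by rw [← hx₀]; exact addOrderOf_nsmul_eq_zero x₀
  have hpall : ∀ x : F, p • x = 0 := by
    intro x
    obtain ⟨c, rfl⟩ := exists_mul_eq (b := x) hx₀ne
    rw [← nsmul_mul', hx₀p, zero_mul']
  -- the additive group is a `p`-group
  have hpg : IsPGroup p (Multiplicative F) := by
    intro g
    refine ⟨1, ?_⟩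
    rw [pow_one]
    have : (Multiplicative.toAdd (g ^ p)) = p • Multiplicative.toAdd g := toAdd_pow g p
    apply Multiplicative.toAdd.injective
    rw [this, hpall]
    rfl
  obtain ⟨n, hn⟩ := IsPGroup.iff_card.mp hpg
  have hcard' : Nat.card F = p ^ n := by
    rw [← hn]
    rfl
  refine ⟨p, n, hp, ?_, hcard', ?_, hpall⟩
  · rcases Nat.eq_zero_or_pos n with rfl | h
    · rw [pow_zero] at hcard'
      omega
    · exact h
  · -- commutativity through the centre
    have : Nontrivial (Multiplicative F) := inferInstanceAs (Nontrivial F)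
    have hcenter : Nontrivial (Subgroup.center (Multiplicative F)) := hpg.center_nontrivial
    obtain ⟨z, hz⟩ := exists_ne (1 : Subgroup.center (Multiplicative F))
    have hz0 : Multiplicative.toAdd (z : Multiplicative F) ≠ 0 := by
      intro h
      apply hz
      apply Subtype.ext
      exact Multiplicative.toAdd.injective h
    have hzc : ∀ w : F, Multiplicative.toAdd (z : Multiplicative F) + w =
        w + Multiplicative.toAdd (z : Multiplicative F) := by
      intro w
      have := (Subgroup.mem_center_iff.mp z.2) (Multiplicative.ofAdd w)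
      exact (congrArg Multiplicative.toAdd this).symm
    intro x y
    by_cases hx : x = 0
    · subst hx; simp
    obtain ⟨c, hc⟩ := exists_mul_eq (b := x) hz0
    have hc0 : c ≠ 0 := ne_zero_of_mul_eq hc hx
    obtain ⟨w', hw'⟩ := exists_inv_mul hc0 y
    rw [← hc, ← hw', ← NearField.right_distrib, ← NearField.right_distrib, hzc]

end Cfsg.Agent.S0682
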