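import Cfsg.Statements.S0683
import Cfsg.Agent.Lib.Perm.SharplyTwo
import Mathlib.Algebra.Group.MinimalAxioms

set_option autoImplicit false
open Cfsg

namespace Cfsg.Agent.S0683

open MulAction Cfsg.Agent.Lib.Perm.SharplyTwo

variable {H : Type*} [Group H] {α : Type*} [MulAction H α]

theorem core [Finite H] [Fintype α] (S : Sharp2 H α) [Nontrivial α] :
    ∃ _ : Cfsg.NearField α, ∀ f : α → α,
      (∃ h : H, ∀ x, h • x = f x) ↔ ∃ a b : α, a ≠ 0 ∧ ∀ x, f x = x * a + b := by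
  classical
  obtain ⟨a₀, a₁, h01⟩ := exists_pair_ne α
  have hD := fpfSubgroup_normal S
  have hτ : ∀ y, ∃ t ∈ fpfSubgroup S, t • a₀ = y := by
    intro y
    haveI := fpfSubgroup_isPretransitive S
    obtain ⟨t, ht⟩ := MulAction.exists_smul_eq (fpfSubgroup S) a₀ y
    exact ⟨t, t.2, ht⟩
  choose τ hτD hτ0 using hτ
  have hDfix : ∀ d ∈ fpfSubgroup S, d • a₀ = a₀ → d = 1 := by
    intro d hd h
    rcases mem_fpfSubgroup S |>.mp hd with h1 | h1
    · exact h1
    · exact absurd h (h1 a₀)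
  have hτu : ∀ d ∈ fpfSubgroup S, τ (d • a₀) = d := by
    intro d hd
    have h1 : d⁻¹ * τ (d • a₀) = 1 := by
      apply hDfix _ ((fpfSubgroup S).mul_mem ((fpfSubgroup S).inv_mem hd) (hτD _))
      rw [mul_smul, hτ0, inv_smul_smul]
    exact (inv_mul_eq_one.mp h1).symm
  have hτmul : ∀ y z, τ (τ z • y) = τ z * τ y := by
    intro y z
    have := hτu (τ z * τ y) ((fpfSubgroup S).mul_mem (hτD z) (hτD y))
    rwa [mul_smul, hτ0] at this
  have hτzero : τ a₀ = 1 := by
    have := hτu 1 (fpfSubgroup S).one_mem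
    rwa [one_smul] at this
  have hμ : ∀ y, y ≠ a₀ → ∃ m : H, m • a₀ = a₀ ∧ m • a₁ = y :=
    fun y hy => S.trans a₀ a₁ a₀ y h01 hy.symm
  choose! μ hμ0 hμ1 using hμ
  have hne : ∀ (m : H) (y : α), m • a₀ = a₀ → y ≠ a₀ → m • y ≠ a₀ := by
    intro m y hm hy h
    apply hy
    apply smul_left_cancel m
    rw [h, hm]
  have hμu : ∀ m : H, m • a₀ = a₀ → μ (m • a₁) = m := by
    intro m hm
    have h1 : m • a₁ ≠ a₀ := hne m a₁ hm h01.symm
    have h2 : m⁻¹ * μ (m • a₁) = 1 := by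
      apply S.sharp _ a₀ a₁ h01
      · rw [mul_smul, hμ0 _ h1, inv_smul_eq_iff, hm]
      · rw [mul_smul, hμ1 _ h1, inv_smul_smul]
    exact (inv_mul_eq_one.mp h2).symm
  have hμone : μ a₁ = 1 := by
    have := hμu 1 (one_smul _ _)
    rwa [one_smul] at this
  let mulα : α → α → α := fun x y => if y = a₀ then a₀ else μ y • x
  have hmulα : ∀ x y, y ≠ a₀ → mulα x y = μ y • x := fun x y hy => if_neg hy
  have hmulα0 : ∀ x, mulα x a₀ = a₀ := fun x => if_pos rfl
  have hmulne : ∀ x y, x ≠ a₀ → y ≠ a₀ → mulα x y ≠ a₀ := by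
    intro x y hx hy
    rw [hmulα x y hy]
    exact hne _ _ (hμ0 y hy) hx
  have h0mul : ∀ y, mulα a₀ y = a₀ := by
    intro y
    by_cases hy : y = a₀
    · rw [hy, hmulα0]
    · rw [hmulα _ _ hy, hμ0 _ hy]
  have hmul_assoc : ∀ x y z, mulα (mulα x y) z = mulα x (mulα y z) := by
    intro x y z
    by_cases hz : z = a₀
    · rw [hz, hmulα0, hmulα0, hmulα0]
    by_cases hy : y = a₀
    · rw [hy, hmulα0, h0mul, hmulα0]
    rw [hmulα _ _ hz, hmulα _ _ hy, hmulα _ _ (hmulne y z hy hz), hmulα y z hz]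
    have h1 : μ (μ z • y) = μ z * μ y := by
      have := hμu (μ z * μ y) (by rw [mul_smul, hμ0 _ hy, hμ0 _ hz])
      rwa [mul_smul, hμ1 _ hy] at this
    rw [h1, mul_smul]
  have hone_mul : ∀ y, mulα a₁ y = y := by
    intro y
    by_cases hy : y = a₀
    · rw [hy, hmulα0]
    · rw [hmulα _ _ hy, hμ1 _ hy]
  have hmul_one : ∀ x, mulα x a₁ = x := by
    intro x
    rw [hmulα _ _ h01.symm, hμone, one_smul]
  have hdistrib : ∀ a b c, mulα (τ b • a) c = τ (mulα b c) • mulα a c := by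
    intro a b c
    by_cases hc : c = a₀
    · rw [hc, hmulα0, hmulα0, hmulα0, hτ0]
    rw [hmulα _ _ hc, hmulα _ _ hc, hmulα _ _ hc]
    have h1 : τ (μ c • b) = μ c * τ b * (μ c)⁻¹ := by
      have hmem : μ c * τ b * (μ c)⁻¹ ∈ fpfSubgroup S := hD.conj_mem _ (hτD b) _
      have := hτu _ hmem
      rw [mul_smul, mul_smul, inv_smul_eq_iff.mpr (hμ0 c hc).symm, hτ0] at this
      exact this
    rw [h1, mul_smul, mul_smul, inv_smul_smul]
  have hinv : ∀ a, a ≠ a₀ → ∃ b, mulα a b = a₁ ∧ mulα b a = a₁ := by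
    intro a ha
    have hμa := hμ0 a ha
    have hμinv : (μ a)⁻¹ • a₀ = a₀ := inv_smul_eq_iff.mpr hμa.symm
    have h1 : (μ a)⁻¹ • a₁ ≠ a₀ := hne _ _ hμinv h01.symm
    have h2 : μ ((μ a)⁻¹ • a₁) = (μ a)⁻¹ := hμu _ hμinv
    refine ⟨(μ a)⁻¹ • a₁, ?_, ?_⟩
    · rw [hmulα _ _ h1, h2, inv_smul_eq_iff, hμ1 a ha]
    · rw [hmulα _ _ ha, smul_inv_smul]
  let addα : Add α := ⟨fun x y => τ y • x⟩
  let zeroα : Zero α := ⟨a₀⟩
  let negα : Neg α := ⟨fun x => (τ x)⁻¹ • a₀⟩
  let addg : AddGroup α := AddGroup.ofLeftAxioms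
    (fun x y z => by
      change τ z • τ y • x = τ (τ z • y) • x
      rw [hτmul, mul_smul])
    (fun y => hτ0 y)
    (fun x => by
      change τ x • (τ x)⁻¹ • a₀ = a₀
      rw [smul_inv_smul])
  let mono : Monoid α :=
    { mul := mulα
      mul_assoc := hmul_assoc
      one := a₁
      one_mul := hone_mul
      mul_one := hmul_one }
  let inst : Cfsg.NearField α :=
    { toAddGroup := addg
      toMonoid := mono
      right_distrib := hdistrib
      mul_zero := hmulα0
      zero_ne_one := h01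
      exists_inv := hinv }
  refine ⟨inst, fun f => ⟨?_, ?_⟩⟩
  · rintro ⟨h, hf⟩
    set b := h • a₀ with hb
    let m := (τ b)⁻¹ * h
    have hm0 : m • a₀ = a₀ := by
      rw [mul_smul, inv_smul_eq_iff, hτ0]
    have ha : m • a₁ ≠ a₀ := hne m a₁ hm0 h01.symm
    refine ⟨m • a₁, b, ha, fun x => ?_⟩
    change f x = τ b • mulα x (m • a₁)
    rw [hmulα _ _ ha, hμu m hm0, ← hf, ← mul_smul]
    simp [m]
  · rintro ⟨a, b, ha, hf⟩
    refine ⟨τ b * μ a, fun x => ?_⟩
    rw [hf x, mul_smul]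
    change τ b • μ a • x = τ b • mulα x a
    rw [hmulα _ _ ha]

/-- A finite sharply doubly transitive permutation group is the affine group of a near-field: the permuted set carries a near-field structure for which the group consists exactly of the maps `x ↦ x * a + b` with `a ≠ 0`. -/
theorem result {α : Type*} [Fintype α] [DecidableEq α] (H : Subgroup (Equiv.Perm α)) [MulAction.IsMultiplyPretransitive H α 2] (hsharp : ∀ x : Fin 2 ↪ α, MulAction.stabilizer H x = ⊥) (h2 : 2 ≤ Fintype.card α) : ∃ _ : Cfsg.NearField α, ∀ σ : Equiv.Perm α, σ ∈ H ↔ ∃ a b : α, a ≠ 0 ∧ ∀ x : α, σ x = x * a + b := by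
  have S : Sharp2 H α := by
    constructor
    · intro a b c d hab hcd
      exact (MulAction.is_two_pretransitive_iff.mp inferInstance) hab hcd
    · intro x a b hab ha hb
      have h := hsharp (Function.Embedding.embFinTwo hab)
      have hx : x ∈ MulAction.stabilizer H (Function.Embedding.embFinTwo hab) := by
        rw [MulAction.mem_stabilizer_iff]
        ext i
        by_cases hi : i = 0
        · subst hi
          exact ha
        · rw [Fin.eq_one_of_ne_zero i hi]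
          exact hb
      rw [h, Subgroup.mem_bot] at hx
      exact hx
  haveI : Nontrivial α := Fintype.one_lt_card_iff_nontrivial.mp h2
  obtain ⟨inst, hinst⟩ := core S
  refine ⟨inst, fun σ => ?_⟩
  rw [← hinst σ]
  constructor
  · intro hσ
    exact ⟨⟨σ, hσ⟩, fun _ => rfl⟩
  · rintro ⟨h, hh⟩
    have : (h : Equiv.Perm α) = σ := Equiv.ext hh
    rw [← this]
    exact h.2

end Cfsg.Agent.S0683
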