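import Cfsg.Statements.S0690
import Cfsg.Agent.Lib.Zassen.Semi

set_option autoImplicit false

open Cfsg

namespace Cfsg.Agent.S0690

theorem result {K : Type*} [Group K] [Finite K] (G : Subgroup (MulAut K)) (hfpf : ∀ φ ∈ G, φ ≠ 1 → ∀ k : K, φ k = k → k = 1) (hperf : commutator G = ⊤) (hne : G ≠ ⊥) : Nonempty (G ≃* Matrix.SpecialLinearGroup (Fin 2) (ZMod 5)) := by
  haveI : Finite (MulAut K) := Finite.of_injective (fun σ : MulAut K => (σ.toEquiv : K ≃ K))
    (fun a b h => by ext x; exact congrArg (fun e : K ≃ K => e x) h)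
  haveI : Nontrivial G := (Subgroup.nontrivial_iff_ne_bot G).mpr hne
  haveI : Nontrivial K := by
    by_contra hK
    rw [not_nontrivial_iff_subsingleton] at hK
    apply hne
    rw [eq_bot_iff]
    intro φ _
    rw [Subgroup.mem_bot]
    ext x
    exact Subsingleton.elim _ _
  refine Cfsg.Agent.Lib.Zassen.Semi.perfect_core (K := K) G.subtype ?_ hperf
  intro g hg k hk
  exact hfpf g g.2 (fun h => hg (Subtype.ext h)) k hk

end Cfsg.Agent.S0690
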