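import Cfsg.Statements.S0691
import Cfsg.Agent.Lib.PermMod.LinReg
import Mathlib.Tactic.NormNum.Prime

set_option autoImplicit false
open Cfsg

namespace Cfsg.Agent.S0691

open Cfsg.Agent.Lib.PermMod.LinReg

/-- The generators as tuples. -/
def gensL : List Code := [(2,0,0,3),(0,4,1,0),(1,2,1,3)]

/-- The table of second columns. -/
def tbl : ℕ := 0x11b1d84854cb14f0970e57434257aa80

theorem chkE : gensL.all (checkEquiv 5 tbl 5) = true := by decide +kernel

theorem chkB : checkBasis 5 tbl 5 = true := by decide +kernel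

theorem chkO : bfs 5 gensL 1 (2 ^ 0 ||| 2 ^ 5) = 2 ^ (5 * 5) - 1 := by decide +kernel

theorem matA : toM 5 (2,0,0,3) = (!![2, 0; 0, -2] : Matrix (Fin 2) (Fin 2) (ZMod 5)) := by
  decide +kernel

theorem matB : toM 5 (0,4,1,0) = (!![0, -1; 1, 0] : Matrix (Fin 2) (Fin 2) (ZMod 5)) := by
  decide +kernel

theorem matC : toM 5 (1,2,1,3) = (!![1, 2; 1, -2] : Matrix (Fin 2) (Fin 2) (ZMod 5)) := by
  decide +kernel

/-- An exceptional sharply doubly transitive group of degree 5^2: the listed matrices generate a subgroup of GL(2,5) of order 24 acting regularly on the non-zero vectors. -/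
theorem result (A : Matrix.GeneralLinearGroup (Fin 2) (ZMod 5)) (B : Matrix.GeneralLinearGroup (Fin 2) (ZMod 5)) (C : Matrix.GeneralLinearGroup (Fin 2) (ZMod 5)) (hA : (A : Matrix (Fin 2) (Fin 2) (ZMod 5)) = !![2, 0; 0, -2]) (hB : (B : Matrix (Fin 2) (Fin 2) (ZMod 5)) = !![0, -1; 1, 0]) (hC : (C : Matrix (Fin 2) (Fin 2) (ZMod 5)) = !![1, 2; 1, -2]) : Nat.card (Subgroup.closure ({A, B, C} : Set (Matrix.GeneralLinearGroup (Fin 2) (ZMod 5)))) = 24 ∧ ∀ v w : Fin 2 → ZMod 5, v ≠ 0 → w ≠ 0 → ∃! h : Subgroup.closure ({A, B, C} : Set (Matrix.GeneralLinearGroup (Fin 2) (ZMod 5))), Matrix.mulVec ((h : Matrix.GeneralLinearGroup (Fin 2) (ZMod 5)) : Matrix (Fin 2) (Fin 2) (ZMod 5)) v = w := by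
  haveI : Fact (Nat.Prime 5) := ⟨by norm_num⟩
  have h := regular_of_check (p := 5) ({A, B, C} : Set (Matrix.GeneralLinearGroup (Fin 2) (ZMod 5))) gensL tbl 5 1
    (by
      intro g hg
      simp only [Set.mem_insert_iff, Set.mem_singleton_iff] at hg
      rcases hg with rfl | rfl | rfl
      · exact ⟨(2,0,0,3), by simp [gensL], by rw [hA, matA]⟩
      · exact ⟨(0,4,1,0), by simp [gensL], by rw [hB, matB]⟩
      · exact ⟨(1,2,1,3), by simp [gensL], by rw [hC, matC]⟩
    )
    (by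
      intro s hs
      simp only [gensL, List.mem_cons, List.not_mem_nil, or_false] at hs
      rcases hs with rfl | rfl | rfl
      · exact ⟨A, by simp, by rw [hA, matA]⟩
      · exact ⟨B, by simp, by rw [hB, matB]⟩
      · exact ⟨C, by simp, by rw [hC, matC]⟩
    )
    chkE chkB chkO
  exact h

end Cfsg.Agent.S0691
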