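import Cfsg.Statements.S0692
import Cfsg.Agent.Lib.PermMod.LinReg
import Mathlib.Tactic.NormNum.Prime

set_option autoImplicit false
open Cfsg

namespace Cfsg.Agent.S0692

open Cfsg.Agent.Lib.PermMod.LinReg

/-- The generators as tuples. -/
def gensL : List Code := [(0,10,1,0),(2,4,1,8)]

/-- The table of second columns. -/
def tbl : ℕ := 0x7718b29398960d25c82a866bdc5c430a61195633f2dce065ea45f14392110add1c63d81744efb69e8f274aba0951138bb473b4253ba6d2081bad2716da9d4b3352dc18e08feae08faca283ed796fc3b0341984d31e694d05fd48604b6537c0d022e32d579ced9aefb700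

theorem chkE : gensL.all (checkEquiv 11 tbl 7) = true := by decide +kernel

theorem chkB : checkBasis 11 tbl 7 = true := by decide +kernel

theorem chkO : bfs 11 gensL 6 (2 ^ 0 ||| 2 ^ 11) = 2 ^ (11 * 11) - 1 := by decide +kernel

theorem matA : toM 11 (0,10,1,0) = (!![0, -1; 1, 0] : Matrix (Fin 2) (Fin 2) (ZMod 11)) := by
  decide +kernel

theorem matB : toM 11 (2,4,1,8) = (!![2, 4; 1, -3] : Matrix (Fin 2) (Fin 2) (ZMod 11)) := by
  decide +kernel

/-- An exceptional sharply doubly transitive group of degree 11^2: the listed matrices generate a subgroup of GL(2,11) of order 120 acting regularly on the non-zero vectors. -/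
theorem result (A : Matrix.GeneralLinearGroup (Fin 2) (ZMod 11)) (B : Matrix.GeneralLinearGroup (Fin 2) (ZMod 11)) (hA : (A : Matrix (Fin 2) (Fin 2) (ZMod 11)) = !![0, -1; 1, 0]) (hB : (B : Matrix (Fin 2) (Fin 2) (ZMod 11)) = !![2, 4; 1, -3]) : Nat.card (Subgroup.closure ({A, B} : Set (Matrix.GeneralLinearGroup (Fin 2) (ZMod 11)))) = 120 ∧ ∀ v w : Fin 2 → ZMod 11, v ≠ 0 → w ≠ 0 → ∃! h : Subgroup.closure ({A, B} : Set (Matrix.GeneralLinearGroup (Fin 2) (ZMod 11))), Matrix.mulVec ((h : Matrix.GeneralLinearGroup (Fin 2) (ZMod 11)) : Matrix (Fin 2) (Fin 2) (ZMod 11)) v = w := by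
  haveI : Fact (Nat.Prime 11) := ⟨by norm_num⟩
  have h := regular_of_check (p := 11) ({A, B} : Set (Matrix.GeneralLinearGroup (Fin 2) (ZMod 11))) gensL tbl 7 6
    (by
      intro g hg
      simp only [Set.mem_insert_iff, Set.mem_singleton_iff] at hg
      rcases hg with rfl | rfl
      · exact ⟨(0,10,1,0), by simp [gensL], by rw [hA, matA]⟩
      · exact ⟨(2,4,1,8), by simp [gensL], by rw [hB, matB]⟩
    )
    (by
      intro s hs
      simp only [gensL, List.mem_cons, List.not_mem_nil, or_false] at hs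
      rcases hs with rfl | rfl
      · exact ⟨A, by simp, by rw [hA, matA]⟩
      · exact ⟨B, by simp, by rw [hB, matB]⟩
    )
    chkE chkB chkO
  exact h

end Cfsg.Agent.S0692
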