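import Cfsg.Statements.S0694
import Mathlib.NumberTheory.Multiplicity
import Mathlib.NumberTheory.Padics.PadicVal.Basic
import Mathlib.FieldTheory.Finite.Basic
import Mathlib.Algebra.IsPrimePow

set_option autoImplicit false
open Cfsg

namespace Cfsg.Agent.S0694

theorem dvd_iff_val {a b : ℕ} (ha : a ≠ 0) (hb : b ≠ 0) :
    a ∣ b ↔ ∀ t : ℕ, t.Prime → padicValNat t a ≤ padicValNat t b := by
  rw [← Nat.factorization_prime_le_iff_dvd ha hb]
  refine forall₂_congr fun t ht => ?_
  rw [Nat.factorization_def _ ht, Nat.factorization_def _ ht]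

theorem pow_sub_one_ne {q i : ℕ} (hq : 2 ≤ q) (hi : i ≠ 0) : q ^ i - 1 ≠ 0 := by
  have : 1 < q ^ i := Nat.one_lt_pow hi (by omega)
  omega

theorem target_iff {n q i : ℕ} (hn : n ≠ 0) (hq : 2 ≤ q) (hi : i ≠ 0) :
    q ^ i ≡ 1 [MOD n * (q - 1)] ↔ ∀ t : ℕ, t.Prime →
      padicValNat t n + padicValNat t (q - 1) ≤ padicValNat t (q ^ i - 1) := by
  have h1 : 1 ≤ q ^ i := Nat.one_le_pow _ _ (by omega)
  have h2 : q - 1 ≠ 0 := by omega
  rw [Nat.ModEq.comm, Nat.modEq_iff_dvd' h1, dvd_iff_val (mul_ne_zero hn h2) (pow_sub_one_ne hq hi)]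
  refine forall₂_congr fun t ht => ?_
  haveI := Fact.mk ht
  rw [padicValNat.mul hn h2]

theorem val_sub_one_le {q i t : ℕ} (ht : t.Prime) (hq : 2 ≤ q) (hi : i ≠ 0) :
    padicValNat t (q - 1) ≤ padicValNat t (q ^ i - 1) := by
  have h : q - 1 ∣ q ^ i - 1 := by
    have := Nat.sub_dvd_pow_sub_pow q 1 i
    simpa using this
  exact (dvd_iff_val (by omega) (pow_sub_one_ne hq hi)).mp h t ht

theorem val_odd {q i t : ℕ} (ht : t.Prime) (hodd : Odd t) (hq : 2 ≤ q) (hi : i ≠ 0)
    (htq : t ∣ q - 1) :
    padicValNat t (q ^ i - 1) = padicValNat t (q - 1) + padicValNat t i := by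
  haveI := Fact.mk ht
  have hx : ¬ t ∣ q := by
    intro h
    have h2 : t ∣ q - (q - 1) := Nat.dvd_sub h htq
    have h1 : q - (q - 1) = 1 := by omega
    rw [h1] at h2
    exact ht.one_lt.ne' (Nat.dvd_one.mp h2)
  have := padicValNat.pow_sub_pow hodd (x := q) (y := 1) (by omega) htq hx hi
  simpa using this

theorem val_two_four {q i : ℕ} (hq : 2 ≤ q) (hi : i ≠ 0) (h4 : 4 ∣ q - 1) :
    padicValNat 2 (q ^ i - 1) = padicValNat 2 (q - 1) + padicValNat 2 i := by
  have h1 : 1 ≤ q := by omega
  have h2 : 1 ≤ q ^ i := Nat.one_le_pow _ _ (by omega)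
  have e1 : ((q : ℤ) ^ i - 1) = ((q ^ i - 1 : ℕ) : ℤ) := by
    rw [Nat.cast_sub h2]; simp
  have e2 : ((q : ℤ) - 1) = ((q - 1 : ℕ) : ℤ) := by
    rw [Nat.cast_sub h1]; simp
  have hxy : (4 : ℤ) ∣ (q : ℤ) - 1 := by
    rw [e2]
    exact_mod_cast h4
  have hx : ¬ (2 : ℤ) ∣ (q : ℤ) := by
    intro h
    obtain ⟨c, hc⟩ := h
    obtain ⟨d, hd⟩ := hxy
    omega
  have key := Int.two_pow_sub_pow' (x := (q : ℤ)) (y := 1) i hxy hx
  rw [one_pow, e1, e2] at key
  have two : (2 : ℤ) = ((2 : ℕ) : ℤ) := rfl
  rw [two, Int.natCast_emultiplicity, Int.natCast_emultiplicity, Int.natCast_emultiplicity] at key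
  rw [← Nat.cast_inj (R := ℕ∞), Nat.cast_add, padicValNat_eq_emultiplicity (pow_sub_one_ne hq hi),
    padicValNat_eq_emultiplicity (by omega), padicValNat_eq_emultiplicity hi]
  exact key

/-- In the case `q ≡ 3 (mod 4)`, even exponents gain. -/
theorem val_two_three {q i : ℕ} (hq : 2 ≤ q) (hi : i ≠ 0) (hie : Even i) (h2 : 2 ∣ q - 1)
    (h4 : ¬ 4 ∣ q - 1) :
    padicValNat 2 (q - 1) + padicValNat 2 i + 1 ≤ padicValNat 2 (q ^ i - 1) := by
  have hq1 : 1 < q := by omega
  have hq2 : ¬ 2 ∣ q := by omega
  have h1 := padicValNat.pow_two_sub_one hq1 hq2 hi hie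
  have h3 : 2 ≤ padicValNat 2 (q + 1) := by
    rw [← padicValNat_dvd_iff_le (by omega)]
    omega
  omega

theorem forward {q n : ℕ} (hq : 2 ≤ q) (hn : 1 < n)
    (h1 : ∀ r : ℕ, r.Prime → r ∣ n → r ∣ q - 1) (h2 : 4 ∣ n → 4 ∣ q - 1) :
    q ^ n ≡ 1 [MOD n * (q - 1)] ∧
      ∀ i : ℕ, 0 < i → i < n → ¬ q ^ i ≡ 1 [MOD n * (q - 1)] := by
  have hn0 : n ≠ 0 := by omega
  constructor
  · rw [target_iff hn0 hq hn0]
    intro t ht
    haveI := Fact.mk ht
    by_cases htn : t ∣ n
    · have htq := h1 t ht htn
      rcases ht.eq_two_or_odd' with rfl | hodd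
      · by_cases h4 : 4 ∣ q - 1
        · rw [val_two_four hq hn0 h4]
          omega
        · have hne : Even n := even_iff_two_dvd.mpr htn
          have := val_two_three hq hn0 hne htq h4
          omega
      · rw [val_odd ht hodd hq hn0 htq]
        omega
    · rw [padicValNat.eq_zero_of_not_dvd htn, zero_add]
      exact val_sub_one_le ht hq hn0
  · intro i hi0 hin h
    have hi : i ≠ 0 := by omega
    rw [target_iff hn0 hq hi] at h
    have hdvd : n ∣ i := by
      rw [dvd_iff_val hn0 hi]
      intro t ht
      haveI := Fact.mk ht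
      have hh := h t ht
      by_cases htn : t ∣ n
      · have htq := h1 t ht htn
        rcases ht.eq_two_or_odd' with rfl | hodd
        · by_cases h4 : 4 ∣ q - 1
          · rw [val_two_four hq hi h4] at hh
            omega
          · -- `v₂(n) ≤ 1` and `i` even
            have hn4 : ¬ 4 ∣ n := fun h' => h4 (h2 h')
            have hv : padicValNat 2 n ≤ 1 := by
              by_contra hv
              apply hn4
              have : (2 : ℕ) ^ 2 ∣ n := by
                rw [padicValNat_dvd_iff_le hn0]
                omega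
              simpa using this
            have hie : Even i := by
              by_contra hodd'
              rw [Nat.not_even_iff_odd] at hodd'
              obtain ⟨k, rfl⟩ := hodd'
              -- `q ^ (2 k + 1) ≡ 3 mod 4`
              have h3 : q ≡ 3 [MOD 4] := by
                have : q % 4 = 3 := by omega
                exact this
              have h5 : q ^ (2 * k + 1) ≡ 3 [MOD 4] := by
                have h6 : q ^ (2 * k + 1) ≡ 3 ^ (2 * k + 1) [MOD 4] := h3.pow _
                have h7 : 3 ^ (2 * k + 1) ≡ 3 [MOD 4] := by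
                  rw [pow_succ, pow_mul]
                  have h8 : 3 ^ 2 ≡ 1 [MOD 4] := by decide
                  have h9 := (h8.pow k).mul_right 3
                  simpa using h9
                exact h6.trans h7
              have h10 : 2 ≤ padicValNat 2 (q ^ (2 * k + 1) - 1) := by
                have h11 : 1 ≤ padicValNat 2 n := by
                  rw [← padicValNat_dvd_iff_le hn0]
                  simpa using htn
                have h12 : 1 ≤ padicValNat 2 (q - 1) := by
                  rw [← padicValNat_dvd_iff_le (by omega)]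
                  simpa using htq
                omega
              rw [← padicValNat_dvd_iff_le (pow_sub_one_ne hq hi)] at h10
              have h13 : q ^ (2 * k + 1) % 4 = 3 := h5
              have h14 : 1 ≤ q ^ (2 * k + 1) := Nat.one_le_pow _ _ (by omega)
              omega
            have : 1 ≤ padicValNat 2 i := by
              rw [← padicValNat_dvd_iff_le hi]
              simpa using even_iff_two_dvd.mp hie
            omega
        · rw [val_odd ht hodd hq hi htq] at hh
          omega
      · rw [padicValNat.eq_zero_of_not_dvd htn]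
        exact Nat.zero_le _
    exact absurd (Nat.le_of_dvd hi0 hdvd) (by omega)

theorem backward {q n : ℕ} (hq : 2 ≤ q) (hn : 1 < n)
    (h1 : q ^ n ≡ 1 [MOD n * (q - 1)])
    (h2 : ∀ i : ℕ, 0 < i → i < n → ¬ q ^ i ≡ 1 [MOD n * (q - 1)]) :
    (∀ r : ℕ, r.Prime → r ∣ n → r ∣ q - 1) ∧ (4 ∣ n → 4 ∣ q - 1) := by
  have hn0 : n ≠ 0 := by omega
  have hdvd : n * (q - 1) ∣ q ^ n - 1 :=
    (Nat.modEq_iff_dvd' (Nat.one_le_pow _ _ (by omega))).mp h1.symm
  have hndvd : n ∣ q ^ n - 1 := (Dvd.intro _ rfl).trans hdvd
  have hC1 : ∀ r : ℕ, r.Prime → r ∣ n → r ∣ q - 1 := by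
    by_contra hcon
    -- the set of bad primes
    let T : Finset ℕ := n.primeFactors.filter (fun t => ¬ t ∣ q - 1)
    have hT : T.Nonempty := by
      push_neg at hcon
      obtain ⟨r, hr, hrn, hrq⟩ := hcon
      exact ⟨r, Finset.mem_filter.mpr ⟨Nat.mem_primeFactors.mpr ⟨hr, hrn, hn0⟩, hrq⟩⟩
    obtain ⟨r, hrT, hrmax⟩ := T.exists_max_image id hT
    simp only [id] at hrmax
    have hr' := Finset.mem_filter.mp hrT
    have hrp := (Nat.mem_primeFactors.mp hr'.1).1
    have hrn := (Nat.mem_primeFactors.mp hr'.1).2.1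
    obtain ⟨m, hm⟩ := hrn
    have hm0 : m ≠ 0 := by
      rintro rfl
      simp at hm
      omega
    have hmn : m < n := by
      rw [hm]
      have := hrp.two_le
      nlinarith [Nat.pos_of_ne_zero hm0]
    apply h2 m (Nat.pos_of_ne_zero hm0) hmn
    rw [target_iff hn0 hq hm0]
    intro t ht
    haveI := Fact.mk ht
    haveI := Fact.mk hrp
    have hval : padicValNat t n = padicValNat t r + padicValNat t m := by
      rw [hm, padicValNat.mul hrp.ne_zero hm0]
    by_cases htn : t ∣ n
    · by_cases htq : t ∣ q - 1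
      · have htr : t ≠ r := by
          rintro rfl
          exact hr'.2 htq
        have hvr : padicValNat t r = 0 := by
          apply padicValNat.eq_zero_of_not_dvd
          intro h
          exact htr ((Nat.prime_dvd_prime_iff_eq ht hrp).mp h)
        rw [hval, hvr, zero_add]
        rcases ht.eq_two_or_odd' with rfl | hodd
        · by_cases h4 : 4 ∣ q - 1
          · rw [val_two_four hq hm0 h4]
            omega
          · have hme : Even m := by
              rw [even_iff_two_dvd]
              have : 2 ∣ r * m := hm ▸ htn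
              exact ((Nat.Prime.dvd_mul ht).mp this).resolve_left
                (fun h => htr ((Nat.prime_dvd_prime_iff_eq ht hrp).mp h))
            have := val_two_three hq hm0 hme htq h4
            omega
        · rw [val_odd ht hodd hq hm0 htq]
          omega
      · -- `t` is a bad prime
        have htT : t ∈ T := Finset.mem_filter.mpr ⟨Nat.mem_primeFactors.mpr ⟨ht, htn, hn0⟩, htq⟩
        have htr : t ≤ r := hrmax t htT
        have hq1 : padicValNat t (q - 1) = 0 := padicValNat.eq_zero_of_not_dvd htq
        rw [hq1, add_zero]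
        have ht1 : t ∣ q ^ n - 1 := htn.trans hndvd
        have hpow : (q : ZMod t) ^ n = 1 := by
          have h1' : 1 ≤ q ^ n := Nat.one_le_pow _ _ (by omega)
          have h3 : ((q ^ n - 1 : ℕ) : ZMod t) = 0 := (ZMod.natCast_eq_zero_iff _ _).mpr ht1
          rw [Nat.cast_sub h1'] at h3
          simpa [sub_eq_zero] using h3
        have hq0 : (q : ZMod t) ≠ 0 := by
          intro h0
          rw [h0, zero_pow hn0] at hpow
          exact zero_ne_one hpow
        have hd1 : orderOf (q : ZMod t) ∣ n := orderOf_dvd_of_pow_eq_one hpow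
        have hd2 : orderOf (q : ZMod t) ∣ t - 1 := ZMod.orderOf_dvd_card_sub_one hq0
        set d := orderOf (q : ZMod t) with hd
        have ht2 : t ≠ 2 := by
          rintro rfl
          have hqeven : 2 ∣ q := by omega
          apply hq0
          exact (ZMod.natCast_eq_zero_iff _ _).mpr hqeven
        have hodd : Odd t := ht.odd_of_ne_two ht2
        have hd0 : 0 < d := Nat.pos_of_dvd_of_pos hd1 (by omega)
        have hdt : d < t := by
          have := Nat.le_of_dvd (Nat.sub_pos_of_lt ht.one_lt) hd2
          have := ht.one_lt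
          omega
        have hdr : Nat.Coprime d r := by
          rw [Nat.coprime_comm]
          apply (Nat.Prime.coprime_iff_not_dvd hrp).mpr
          intro h
          have := Nat.le_of_dvd hd0 h
          omega
        have hdm : d ∣ m := by
          rw [hm] at hd1
          exact hdr.dvd_of_dvd_mul_left hd1
        obtain ⟨m', hm'⟩ := hdm
        have hm'0 : m' ≠ 0 := by
          rintro rfl
          simp at hm'
          exact hm0 hm'
        have hd0' : d ≠ 0 := by omega
        have hx : 2 ≤ q ^ d := by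
          calc 2 ≤ q := hq
            _ = q ^ 1 := (pow_one q).symm
            _ ≤ q ^ d := Nat.pow_le_pow_right (by omega) hd0
        have hxsub : t ∣ q ^ d - 1 := by
          rw [← ZMod.natCast_eq_zero_iff, Nat.cast_sub (Nat.one_le_pow _ _ (by omega))]
          push_cast
          rw [hd, pow_orderOf_eq_one, sub_self]
        have hxt : ¬ t ∣ q ^ d := by
          intro h
          have : t ∣ q := ht.dvd_of_dvd_pow h
          exact hq0 ((ZMod.natCast_eq_zero_iff _ _).mpr this)
        have hlte := padicValNat.pow_sub_pow hodd (x := q ^ d) (y := 1) (by omega) hxsub hxt hm'0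
        rw [one_pow, ← pow_mul, ← hm'] at hlte
        rw [hlte]
        have hv1 : 1 ≤ padicValNat t (q ^ d - 1) := by
          rw [← padicValNat_dvd_iff_le (by omega)]
          simpa using hxsub
        have hv2 : padicValNat t m = padicValNat t m' := by
          rw [hm', padicValNat.mul hd0' hm'0, padicValNat.eq_zero_of_not_dvd, zero_add]
          intro h
          have := Nat.le_of_dvd hd0 h
          omega
        have hv3 : padicValNat t r ≤ 1 := by
          by_cases h : t = r
          · subst h
            rw [padicValNat_self]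
          · rw [padicValNat.eq_zero_of_not_dvd]
            · omega
            · intro h'
              exact h ((Nat.prime_dvd_prime_iff_eq ht hrp).mp h')
        omega
    · rw [padicValNat.eq_zero_of_not_dvd htn, zero_add]
      exact val_sub_one_le ht hq hm0
  refine ⟨hC1, fun h4n => ?_⟩
  by_contra h4
  obtain ⟨k, hk⟩ := h4n
  let m := 2 * k
  have hk0 : k ≠ 0 := by
    rintro rfl
    omega
  have hm0 : m ≠ 0 := by simp [m, hk0]
  have hnm : n = 2 * m := by simp only [m]; omega
  apply h2 m (by omega) (by omega)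
  rw [target_iff hn0 hq hm0]
  intro t ht
  haveI := Fact.mk ht
  have hval : padicValNat t n = padicValNat t 2 + padicValNat t m := by
    rw [hnm, padicValNat.mul (by norm_num) hm0]
  by_cases htn : t ∣ n
  · have htq := hC1 t ht htn
    rcases ht.eq_two_or_odd' with rfl | hodd
    · have hme : Even m := by simp [m]
      have := val_two_three hq hm0 hme htq h4
      rw [hval, padicValNat_self]
      omega
    · have ht2 : t ≠ 2 := by
        rintro rfl
        exact absurd hodd (by decide)
      have hvr : padicValNat t 2 = 0 := by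
        apply padicValNat.eq_zero_of_not_dvd
        intro h
        exact ht2 ((Nat.prime_dvd_prime_iff_eq ht Nat.prime_two).mp h)
      rw [hval, hvr, zero_add, val_odd ht hodd hq hm0 htq]
      omega
  · rw [padicValNat.eq_zero_of_not_dvd htn, zero_add]
    exact val_sub_one_le ht hq hm0

/-- The Dickson pair condition: for a prime power `q` and `n > 1`, (every prime factor of `n` divides `q - 1`, and `4 ∣ n → 4 ∣ q - 1`) holds exactly when `q ^ n ≡ 1` modulo `n * (q - 1)` but `q ^ i` is not, for `0 < i < n`. -/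
theorem result (q n : ℕ) (hq : IsPrimePow q) (hn : 1 < n) : ((∀ r : ℕ, r.Prime → r ∣ n → r ∣ q - 1) ∧ (4 ∣ n → 4 ∣ q - 1)) ↔ (q ^ n ≡ 1 [MOD n * (q - 1)] ∧ ∀ i : ℕ, 0 < i → i < n → ¬ q ^ i ≡ 1 [MOD n * (q - 1)]) := by
  have hq2 : 2 ≤ q := hq.two_le
  exact ⟨fun h => forward hq2 hn h.1 h.2, fun h => backward hq2 hn h.1 h.2⟩

end Cfsg.Agent.S0694
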