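import Cfsg.Statements.S0697
import Cfsg.Agent.Lib.Perm.Normal

set_option autoImplicit false
open Cfsg

namespace Cfsg.Agent.S0697

/-- In a `k`-primitive permutation group which is not the whole symmetric group, a non-trivial non-regular normal subgroup is `k`-transitive. -/
theorem result {α : Type*} [Fintype α] [DecidableEq α] (G : Subgroup (Equiv.Perm α)) {k : ℕ} (hk : 1 ≤ k) (hkn : k ≤ Fintype.card α) (hG : MulAction.IsMultiplyPreprimitive G α k) (htop : G ≠ ⊤) (H : Subgroup G) [H.Normal] (hH : H ≠ ⊥) (hnr : ∃ a : α, MulAction.stabilizer H a ≠ ⊥) : MulAction.IsMultiplyPretransitive H α k := by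
  obtain ⟨a, ha⟩ := hnr
  have hnr' : ∃ (a : α) (x : G), x ∈ H ∧ x ≠ 1 ∧ x • a = a := by
    obtain ⟨y, hy1⟩ := Subgroup.ne_bot_iff_exists_ne_one.mp ha
    refine ⟨a, y.1.1, y.1.2, ?_, y.2⟩
    intro h
    exact hy1 (Subtype.ext (Subtype.ext h))
  apply Cfsg.Agent.Lib.Perm.Normal.normal_transitive_of_primitive k hk
    (by rwa [Nat.card_eq_fintype_card]) hG _ H hH hnr'
  intro hs
  apply htop
  rw [eq_top_iff]
  intro σ _
  obtain ⟨g, hg⟩ := hs σ
  have : (g : Equiv.Perm α) = σ := by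
    ext b
    exact congrArg (fun τ : Equiv.Perm α => τ b) hg
  rw [← this]
  exact g.2

end Cfsg.Agent.S0697
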