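import Cfsg.Statements.S0701

set_option autoImplicit false
open Cfsg

namespace Cfsg.Agent.S0701

open MulAction

theorem smul_def' {α : Type*} (G : Subgroup (Equiv.Perm α)) (g : G) (x : α) :
    g • x = (g : Equiv.Perm α) x := rfl

/-- The centraliser in the full symmetric group of a transitive permutation group `G` is semiregular, and it is transitive if and only if `G` is regular. -/
theorem result {α : Type*} (G : Subgroup (Equiv.Perm α)) [MulAction.IsPretransitive G α] : (∀ c ∈ Subgroup.centralizer (G : Set (Equiv.Perm α)), ∀ a : α, c a = a → c = 1) ∧ (MulAction.IsPretransitive (Subgroup.centralizer (G : Set (Equiv.Perm α))) α ↔ ∀ a : α, MulAction.stabilizer G a = ⊥) := by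
  have hcomm : ∀ c ∈ Subgroup.centralizer (G : Set (Equiv.Perm α)), ∀ (g : G) (x : α),
      c ((g : Equiv.Perm α) x) = (g : Equiv.Perm α) (c x) := by
    intro c hc g x
    have := (Subgroup.mem_centralizer_iff.mp hc) (g : Equiv.Perm α) g.2
    have h2 := congrArg (fun f : Equiv.Perm α => f x) this
    exact h2.symm
  refine ⟨?_, ?_, ?_⟩
  · intro c hc a hca
    ext x
    obtain ⟨g, hg⟩ := MulAction.exists_smul_eq G a x
    rw [smul_def'] at hg
    rw [← hg, hcomm c hc, hca]
    simp
  · intro htr a
    rw [eq_bot_iff]
    intro g hg
    rw [Subgroup.mem_bot]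
    have hga : (g : Equiv.Perm α) a = a := hg
    apply Subtype.ext
    ext x
    obtain ⟨c, hc⟩ := htr.exists_smul_eq a x
    have hc' : (c : Equiv.Perm α) a = x := hc
    have := hcomm c c.2 g a
    rw [hga, hc'] at this
    simpa using this.symm
  · intro hreg
    refine ⟨fun x y => ?_⟩
    have hbij : ∀ z : α, Function.Bijective (fun g : G => g • z) := by
      intro z
      constructor
      · intro g h hgh
        have hgh' : g • z = h • z := hgh
        have : h⁻¹ * g ∈ stabilizer G z := by
          rw [mem_stabilizer_iff, mul_smul, hgh', inv_smul_smul]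
        rw [hreg z, Subgroup.mem_bot] at this
        exact (inv_mul_eq_one.mp this).symm
      · intro w
        exact MulAction.exists_smul_eq G z w
    let ex := Equiv.ofBijective _ (hbij x)
    let ey := Equiv.ofBijective _ (hbij y)
    let c : Equiv.Perm α := ex.symm.trans ey
    have hc : ∀ g : G, c (g • x) = g • y := by
      intro g
      change ey (ex.symm (ex g)) = g • y
      rw [Equiv.symm_apply_apply]
      rfl
    have hcmem : c ∈ Subgroup.centralizer (G : Set (Equiv.Perm α)) := by
      rw [Subgroup.mem_centralizer_iff]
      intro h hh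
      ext z
      obtain ⟨g, rfl⟩ := (hbij x).2 z
      simp only [Equiv.Perm.coe_mul, Function.comp_apply]
      have h1 := hc ((⟨h, hh⟩ : G) * g)
      have h2 := hc g
      rw [mul_smul] at h1
      simp only [smul_def'] at h1 h2 ⊢
      rw [h2]
      exact h1.symm
    refine ⟨⟨c, hcmem⟩, ?_⟩
    have := hc 1
    rw [one_smul, one_smul] at this
    exact this

end Cfsg.Agent.S0701
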