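import Cfsg.Statements.S0702
import Mathlib.GroupTheory.GroupAction.Quotient
import Mathlib.Data.Finite.Perm
import Mathlib.Tactic.Group

set_option autoImplicit false
open Cfsg

namespace Cfsg.Agent.S0702

open MulAction

variable {α : Type*} (G : Subgroup (Equiv.Perm α))

theorem smul_def' (g : G) (x : α) : g • x = (g : Equiv.Perm α) x := rfl

local notation "Stab" a => MulAction.stabilizer G a
local notation "Nrm" a => Subgroup.normalizer (((MulAction.stabilizer G a : Subgroup G)) : Set G)

variable {G} [MulAction.IsPretransitive G α] (a : α)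

theorem centr_comm {c : Equiv.Perm α} (hc : c ∈ Subgroup.centralizer (G : Set (Equiv.Perm α)))
    (g : G) (x : α) : c (g • x) = g • c x := by
  have := (Subgroup.mem_centralizer_iff.mp hc) (g : Equiv.Perm α) g.2
  have h2 := congrArg (fun f : Equiv.Perm α => f x) this
  exact h2.symm

/-- The section used to define `cmap`. -/
noncomputable def sect (x : α) : G := (MulAction.exists_smul_eq G a x).choose

theorem sect_spec (x : α) : sect (G := G) a x • a = x := (MulAction.exists_smul_eq G a x).choose_spec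

/-- The map `g a ↦ g n a`. -/
noncomputable def cmap (n : G) (x : α) : α := (sect (G := G) a x * n) • a

theorem cmap_smul {n : G} (hn : n ∈ Nrm a) (g : G) : cmap a n (g • a) = (g * n) • a := by
  unfold cmap
  set t := sect (G := G) a (g • a)
  have ht : t • a = g • a := sect_spec a _
  have hs : g⁻¹ * t ∈ Stab a := by
    rw [mem_stabilizer_iff, mul_smul, ht, inv_smul_smul]
  have hs' : n⁻¹ * (g⁻¹ * t) * n ∈ Stab a := by
    have hninv : n⁻¹ ∈ Nrm a := Subgroup.inv_mem _ hn
    have := (Subgroup.mem_normalizer_iff.mp hninv (g⁻¹ * t)).mp hs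
    simpa using this
  have hmem := mem_stabilizer_iff.mp hs'
  have : t * n = g * n * (n⁻¹ * (g⁻¹ * t) * n) := by group
  rw [this, mul_smul, hmem]

/-- The permutation attached to an element of the normaliser. -/
noncomputable def cperm (n : G) (hn : n ∈ Nrm a) : Equiv.Perm α where
  toFun := cmap a n
  invFun := cmap a n⁻¹
  left_inv := by
    intro x
    have hninv : n⁻¹ ∈ Nrm a := Subgroup.inv_mem _ hn
    obtain ⟨g, rfl⟩ := MulAction.exists_smul_eq G a x
    rw [cmap_smul a hn, cmap_smul a hninv]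
    simp
  right_inv := by
    intro x
    have hninv : n⁻¹ ∈ Nrm a := Subgroup.inv_mem _ hn
    obtain ⟨g, rfl⟩ := MulAction.exists_smul_eq G a x
    rw [cmap_smul a hninv, cmap_smul a hn]
    simp

theorem cperm_smul {n : G} (hn : n ∈ Nrm a) (g : G) : cperm a n hn (g • a) = (g * n) • a :=
  cmap_smul a hn g

theorem cperm_mem {n : G} (hn : n ∈ Nrm a) :
    cperm a n hn ∈ Subgroup.centralizer (G : Set (Equiv.Perm α)) := by
  rw [Subgroup.mem_centralizer_iff]
  intro h hh
  ext x
  obtain ⟨g, rfl⟩ := MulAction.exists_smul_eq G a x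
  simp only [Equiv.Perm.coe_mul, Function.comp_apply]
  have h1 : (h : Equiv.Perm α) (g • a) = ((⟨h, hh⟩ : G) * g) • a := by
    rw [mul_smul]; rfl
  rw [h1, cperm_smul a hn, cperm_smul a hn, mul_smul, mul_smul, mul_smul]
  rfl

theorem mem_normalizer_of_fix [Finite α] {m : G} (h : ∀ s ∈ Stab a, s • (m • a) = m • a) :
    m ∈ Nrm a := by
  have hfin : Finite G := inferInstance
  rw [Subgroup.mem_normalizer_iff]
  -- conjugation by `m⁻¹` maps the stabiliser into itself, hence onto itself
  have hinto : ∀ s ∈ Stab a, m⁻¹ * s * m ∈ Stab a := by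
    intro s hs
    rw [mem_stabilizer_iff, mul_smul, mul_smul, h s hs, inv_smul_smul]
  let f : (Stab a) → (Stab a) := fun s => ⟨m⁻¹ * s * m, hinto s s.2⟩
  have hfinj : Function.Injective f := by
    intro s t hst
    have : m⁻¹ * (s : G) * m = m⁻¹ * (t : G) * m := congrArg Subtype.val hst
    apply Subtype.ext
    simpa using this
  have hfsurj : Function.Surjective f := Finite.surjective_of_injective hfinj
  intro s
  constructor
  · intro hs
    obtain ⟨t, ht⟩ := hfsurj ⟨s, hs⟩
    have : m⁻¹ * (t : G) * m = s := congrArg Subtype.val ht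
    have h2 : m * s * m⁻¹ = t := by rw [← this]; group
    rw [h2]
    exact t.2
  · intro hs
    have := hinto _ hs
    have h2 : m⁻¹ * (m * s * m⁻¹) * m = s := by group
    rwa [h2] at this

theorem centr_eq_cperm [Finite α] {c : Equiv.Perm α}
    (hc : c ∈ Subgroup.centralizer (G : Set (Equiv.Perm α))) {m : G} (hm : m • a = c a) :
    ∃ hn : m ∈ Nrm a, c = cperm a m hn := by
  have hn : m ∈ Nrm a := by
    apply mem_normalizer_of_fix
    intro s hs
    rw [hm]
    rw [← centr_comm hc, mem_stabilizer_iff.mp hs]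
  refine ⟨hn, ?_⟩
  ext x
  obtain ⟨g, rfl⟩ := MulAction.exists_smul_eq G a x
  rw [cperm_smul a hn, centr_comm hc, ← hm, mul_smul]

/-- The homomorphism `N_G(G_a) → C`, `n ↦ c_{n⁻¹}`. -/
noncomputable def cHom : (Nrm a) →* Subgroup.centralizer (G : Set (Equiv.Perm α)) where
  toFun n := ⟨cperm a (n : G)⁻¹ (Subgroup.inv_mem _ n.2), cperm_mem a _⟩
  map_one' := by
    apply Subtype.ext
    ext x
    obtain ⟨g, rfl⟩ := MulAction.exists_smul_eq G a x
    have h1 : ((1 : (Nrm a)) : G)⁻¹ ∈ Nrm a := Subgroup.inv_mem _ (Subgroup.one_mem _)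
    change cperm a _ h1 (g • a) = g • a
    rw [cperm_smul a h1]
    simp
  map_mul' := by
    intro n m
    apply Subtype.ext
    ext x
    obtain ⟨g, rfl⟩ := MulAction.exists_smul_eq G a x
    have h1 : ((n * m : (Nrm a)) : G)⁻¹ ∈ Nrm a := Subgroup.inv_mem _ (n * m).2
    have h2 : (n : G)⁻¹ ∈ Nrm a := Subgroup.inv_mem _ n.2
    have h3 : (m : G)⁻¹ ∈ Nrm a := Subgroup.inv_mem _ m.2
    change cperm a _ h1 (g • a) = cperm a _ h2 (cperm a _ h3 (g • a))
    rw [cperm_smul a h1, cperm_smul a h3, cperm_smul a h2]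
    simp [mul_assoc]

theorem cHom_apply_smul (n : Nrm a) (g : G) :
    ((cHom (G := G) a n : Subgroup.centralizer (G : Set (Equiv.Perm α))) : Equiv.Perm α) (g • a)
      = (g * (n : G)⁻¹) • a :=
  cperm_smul a (Subgroup.inv_mem _ n.2) g

theorem cHom_ker : (cHom (G := G) a).ker = (Stab a).subgroupOf (Nrm a) := by
  ext n
  rw [MonoidHom.mem_ker, Subgroup.mem_subgroupOf, mem_stabilizer_iff]
  constructor
  · intro h
    have h1 := cHom_apply_smul a n 1
    rw [h] at h1
    simp only [one_smul, one_mul] at h1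
    have h2 : (1 : Subgroup.centralizer (G : Set (Equiv.Perm α))).1 a = a := rfl
    rw [h2] at h1
    -- `n⁻¹ a = a`
    have h3 : (n : G)⁻¹ • a = a := h1.symm
    rw [inv_smul_eq_iff] at h3
    exact h3.symm
  · intro h
    apply Subtype.ext
    ext x
    obtain ⟨g, rfl⟩ := MulAction.exists_smul_eq G a x
    rw [cHom_apply_smul]
    have h3 : (n : G)⁻¹ • a = a := by rw [inv_smul_eq_iff]; exact h.symm
    rw [mul_smul, h3]
    rfl

theorem cHom_surj [Finite α] : Function.Surjective (cHom (G := G) a) := by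
  rintro ⟨c, hc⟩
  obtain ⟨m, hm⟩ := MulAction.exists_smul_eq G a (c a)
  obtain ⟨hn, hceq⟩ := centr_eq_cperm a hc hm
  refine ⟨⟨m⁻¹, Subgroup.inv_mem _ hn⟩, ?_⟩
  apply Subtype.ext
  have h1 : (m⁻¹)⁻¹ ∈ Nrm a := by rwa [inv_inv]
  change cperm a (m⁻¹)⁻¹ h1 = c
  rw [hceq]
  ext x
  obtain ⟨g, rfl⟩ := MulAction.exists_smul_eq G a x
  rw [cperm_smul a h1, cperm_smul a hn, inv_inv]

/-- For a transitive permutation group `G` on a finite set, the centraliser of `G` in the symmetric group is isomorphic to `N_G(G_ω)/G_ω`, and its orbit of `ω` is the set of fixed points of `G_ω`. -/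
theorem result {α : Type*} [Finite α] (G : Subgroup (Equiv.Perm α)) [MulAction.IsPretransitive G α] (a : α) : Nonempty (Subgroup.centralizer (G : Set (Equiv.Perm α)) ≃* Subgroup.normalizer ((MulAction.stabilizer G a : Subgroup G) : Set G) ⧸ (MulAction.stabilizer G a).subgroupOf (Subgroup.normalizer ((MulAction.stabilizer G a : Subgroup G) : Set G))) ∧ MulAction.orbit (Subgroup.centralizer (G : Set (Equiv.Perm α))) a = MulAction.fixedPoints (MulAction.stabilizer G a) α := by
  constructor
  · refine ⟨((QuotientGroup.quotientMulEquivOfEq (cHom_ker a).symm).trans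
      (QuotientGroup.quotientKerEquivOfSurjective (cHom (G := G) a) (cHom_surj a))).symm⟩
  · ext x
    rw [MulAction.mem_orbit_iff, MulAction.mem_fixedPoints]
    constructor
    · rintro ⟨⟨c, hc⟩, rfl⟩ ⟨s, hs⟩
      change s • c a = c a
      rw [← centr_comm hc, mem_stabilizer_iff.mp hs]
    · intro hx
      obtain ⟨m, rfl⟩ := MulAction.exists_smul_eq G a x
      have hn : m ∈ Subgroup.normalizer ((MulAction.stabilizer G a : Subgroup G) : Set G) := by
        apply mem_normalizer_of_fix
        intro s hs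
        exact hx ⟨s, hs⟩
      refine ⟨⟨cperm a m hn, cperm_mem a hn⟩, ?_⟩
      change cperm a m hn a = m • a
      have := cperm_smul a hn 1
      simpa using this

end Cfsg.Agent.S0702
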