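import Cfsg.Statements.S0705
import Mathlib.Data.Fintype.Card

set_option autoImplicit false
open Cfsg

namespace Cfsg.Agent.S0705

open scoped Pointwise

variable {α : Type*} [Fintype α] [DecidableEq α]

/-- Two `k`-tuples inside one `(k+1)`-set are matched by an element of a generous group. -/
theorem step1 (G : Subgroup (Equiv.Perm α)) {k : ℕ}
    (hgen : ∀ s : Finset α, s.card = k + 1 → ∀ σ : Equiv.Perm ↥s, ∃ g ∈ G, ∀ x : ↥s, g (x : α) = σ x)
    (x y : Fin k ↪ α) (s : Finset α) (hs : s.card = k + 1) (hx : ∀ i, x i ∈ s) (hy : ∀ i, y i ∈ s) :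
    ∃ g ∈ G, ∀ i, g (x i) = y i := by
  let x' : Fin k ↪ ↥s := ⟨fun i => ⟨x i, hx i⟩, fun i j h => x.injective (congrArg Subtype.val h)⟩
  let y' : Fin k ↪ ↥s := ⟨fun i => ⟨y i, hy i⟩, fun i j h => y.injective (congrArg Subtype.val h)⟩
  obtain ⟨σ, hσ⟩ := Equiv.Perm.exists_smul_eq_embedding x' y'
  obtain ⟨g, hg, hgσ⟩ := hgen s hs σ
  refine ⟨g, hg, fun i => ?_⟩
  have h1 := hgσ (x' i)
  have h2 : σ (x' i) = y' i := by
    have := congrArg (fun e : Fin k ↪ ↥s => e i) hσ
    exact this
  rw [h2] at h1
  exact h1

theorem step2 (G : Subgroup (Equiv.Perm α)) {k : ℕ} (hk : k < Fintype.card α)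
    (hgen : ∀ s : Finset α, s.card = k + 1 → ∀ σ : Equiv.Perm ↥s, ∃ g ∈ G, ∀ x : ↥s, g (x : α) = σ x)
    (x y : Fin k ↪ α) (h : (Finset.univ.image x ∪ Finset.univ.image y).card ≤ k + 1) :
    ∃ g ∈ G, ∀ i, g (x i) = y i := by
  obtain ⟨s, hs, hcard⟩ := Finset.exists_superset_card_eq h hk
  refine step1 G hgen x y s hcard (fun i => hs ?_) (fun i => hs ?_)
  · exact Finset.mem_union_left _ (Finset.mem_image_of_mem _ (Finset.mem_univ i))
  · exact Finset.mem_union_right _ (Finset.mem_image_of_mem _ (Finset.mem_univ i))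

theorem card_image_emb {k : ℕ} (x : Fin k ↪ α) : (Finset.univ.image x).card = k := by
  rw [Finset.card_image_of_injective _ x.injective]
  simp

theorem main (G : Subgroup (Equiv.Perm α)) {k : ℕ} (hk : k < Fintype.card α)
    (hgen : ∀ s : Finset α, s.card = k + 1 → ∀ σ : Equiv.Perm ↥s, ∃ g ∈ G, ∀ x : ↥s, g (x : α) = σ x)
    (d : ℕ) : ∀ x y : Fin k ↪ α, (Finset.univ.image x \ Finset.univ.image y).card = d →
      ∃ g ∈ G, ∀ i, g (x i) = y i := by
  induction d with
  | zero =>
    intro x y hd
    apply step2 G hk hgen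
    have hsub : Finset.univ.image x ⊆ Finset.univ.image y := by
      rwa [Finset.card_eq_zero, Finset.sdiff_eq_empty_iff_subset] at hd
    rw [Finset.union_eq_right.mpr hsub, card_image_emb]
    omega
  | succ d ih =>
    intro x y hd
    have hd2 : (Finset.univ.image y \ Finset.univ.image x).card = d + 1 := by
      rw [← hd]
      apply Finset.card_sdiff_comm
      rw [card_image_emb, card_image_emb]
    obtain ⟨u, hu⟩ : (Finset.univ.image x \ Finset.univ.image y).Nonempty := by
      rw [← Finset.card_pos, hd]; omega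
    obtain ⟨v, hv⟩ : (Finset.univ.image y \ Finset.univ.image x).Nonempty := by
      rw [← Finset.card_pos, hd2]; omega
    rw [Finset.mem_sdiff] at hu hv
    obtain ⟨hu1, hu2⟩ := hu
    obtain ⟨hv1, hv2⟩ := hv
    rw [Finset.mem_image] at hu1
    obtain ⟨i, -, rfl⟩ := hu1
    -- replace the `i`th coordinate by `v`
    have hv3 : ∀ j, x j ≠ v := by
      intro j hj
      exact hv2 (Finset.mem_image.mpr ⟨j, Finset.mem_univ j, hj⟩)
    let x' : Fin k ↪ α := ⟨fun j => if j = i then v else x j, by
      intro a b hab
      simp only at hab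
      by_cases ha : a = i <;> by_cases hb : b = i
      · rw [ha, hb]
      · rw [if_pos ha, if_neg hb] at hab
        exact absurd hab.symm (hv3 b)
      · rw [if_neg ha, if_pos hb] at hab
        exact absurd hab (hv3 a)
      · rw [if_neg ha, if_neg hb] at hab
        exact x.injective hab⟩
    have hx'i : x' i = v := if_pos rfl
    have hx'j : ∀ j, j ≠ i → x' j = x j := fun j hj => if_neg hj
    have himage : Finset.univ.image x' = insert v ((Finset.univ.image x).erase (x i)) := by
      ext w
      simp only [Finset.mem_image, Finset.mem_univ, true_and, Finset.mem_insert, Finset.mem_erase]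
      constructor
      · rintro ⟨j, rfl⟩
        by_cases hj : j = i
        · left; rw [hj, hx'i]
        · right
          rw [hx'j j hj]
          exact ⟨fun h => hj (x.injective h), j, rfl⟩
      · rintro (rfl | ⟨h1, j, rfl⟩)
        · exact ⟨i, hx'i⟩
        · refine ⟨j, hx'j j ?_⟩
          rintro rfl
          exact h1 rfl
    have hd' : (Finset.univ.image x' \ Finset.univ.image y).card = d := by
      have : Finset.univ.image x' \ Finset.univ.image y
          = (Finset.univ.image x \ Finset.univ.image y).erase (x i) := by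
        ext w
        simp only [himage, Finset.mem_sdiff, Finset.mem_insert, Finset.mem_erase]
        constructor
        · rintro ⟨rfl | ⟨h1, h2⟩, h3⟩
          · exact absurd hv1 h3
          · exact ⟨h1, h2, h3⟩
        · rintro ⟨h1, h2, h3⟩
          exact ⟨Or.inr ⟨h1, h2⟩, h3⟩
      rw [this, Finset.card_erase_of_mem (Finset.mem_sdiff.mpr ⟨Finset.mem_image_of_mem _ (Finset.mem_univ i), hu2⟩), hd]
      rfl
    obtain ⟨g₁, hg₁, hg₁i⟩ := ih x' y hd'
    have hunion : (Finset.univ.image x ∪ Finset.univ.image x').card ≤ k + 1 := by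
      have hsub : Finset.univ.image x ∪ Finset.univ.image x' ⊆ insert v (Finset.univ.image x) := by
        intro w hw
        rw [Finset.mem_union] at hw
        rcases hw with hw | hw
        · exact Finset.mem_insert_of_mem hw
        · rw [himage, Finset.mem_insert, Finset.mem_erase] at hw
          rcases hw with rfl | ⟨-, hw⟩
          · exact Finset.mem_insert_self _ _
          · exact Finset.mem_insert_of_mem hw
      calc _ ≤ (insert v (Finset.univ.image x)).card := Finset.card_le_card hsub
        _ ≤ (Finset.univ.image x).card + 1 := Finset.card_insert_le _ _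
        _ = k + 1 := by rw [card_image_emb]
    obtain ⟨g₂, hg₂, hg₂i⟩ := step2 G hk hgen x x' hunion
    refine ⟨g₁ * g₂, G.mul_mem hg₁ hg₂, fun j => ?_⟩
    simp only [Equiv.Perm.coe_mul, Function.comp_apply]
    rw [hg₂i, hg₁i]

/-- A generously `k`-transitive permutation group (every `(k+1)`-subset has its full symmetric group induced by the setwise stabiliser) of degree greater than `k` is `k`-transitive, and for a `k`-subset the setwise and pointwise stabilisers have the same orbits outside it. -/
theorem result {α : Type*} [Fintype α] [DecidableEq α] (G : Subgroup (Equiv.Perm α)) {k : ℕ} (hk : k < Fintype.card α) (hgen : ∀ s : Finset α, s.card = k + 1 → ∀ σ : Equiv.Perm ↥s, ∃ g ∈ G, ∀ x : ↥s, g (x : α) = σ x) : MulAction.IsMultiplyPretransitive G α k ∧ ∀ s : Finset α, s.card = k → ∀ a b : α, a ∉ s → b ∉ s → (∃ g ∈ G, g • s = s ∧ g a = b) → ∃ g ∈ G, (∀ x ∈ s, g x = x) ∧ g a = b := by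
  constructor
  · rw [MulAction.isMultiplyPretransitive_iff]
    intro x y
    obtain ⟨g, hg, hgi⟩ := main G hk hgen _ x y rfl
    refine ⟨⟨g, hg⟩, ?_⟩
    ext i
    exact hgi i
  · rintro s hs a b ha hb ⟨g, hg, hgs, hgab⟩
    -- `g⁻¹` and `g` preserve `s`
    have hg1 : ∀ x ∈ s, g⁻¹ x ∈ s := by
      intro x hx
      have hx' : x ∈ g • s := by rwa [hgs]
      exact Finset.inv_smul_mem_iff.mpr hx'
    have hg2 : ∀ x ∈ s, g x ∈ s := by
      intro x hx
      have hx' : g • x ∈ g • s := Finset.smul_mem_smul_finset hx
      rw [hgs] at hx'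
      exact hx'
    let t : Finset α := insert a s
    have ht : t.card = k + 1 := by
      rw [Finset.card_insert_of_notMem ha, hs]
    have hmem : ∀ x : ↥t, (x : α) = a ∨ (x : α) ∈ s := fun x => Finset.mem_insert.mp x.2
    let σ : Equiv.Perm ↥t :=
      { toFun := fun x => if h : (x : α) = a then ⟨a, Finset.mem_insert_self _ _⟩
          else ⟨g⁻¹ x, Finset.mem_insert_of_mem (hg1 _ ((hmem x).resolve_left h))⟩
        invFun := fun x => if h : (x : α) = a then ⟨a, Finset.mem_insert_self _ _⟩
          else ⟨g x, Finset.mem_insert_of_mem (hg2 _ ((hmem x).resolve_left h))⟩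
        left_inv := by
          intro x
          by_cases h : (x : α) = a
          · simp [h]
            exact Subtype.ext h.symm
          · have hx : (x : α) ∈ s := (hmem x).resolve_left h
            have h2 : g.symm (x : α) ≠ a := fun h3 => ha (h3 ▸ hg1 _ hx)
            simp [h, h2]
        right_inv := by
          intro x
          by_cases h : (x : α) = a
          · simp [h]
            exact Subtype.ext h.symm
          · have hx : (x : α) ∈ s := (hmem x).resolve_left h
            have h2 : g (x : α) ≠ a := fun h3 => ha (h3 ▸ hg2 _ hx)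
            simp [h, h2] }
    obtain ⟨h, hh, hhσ⟩ := hgen t ht σ
    refine ⟨g * h, G.mul_mem hg hh, ?_, ?_⟩
    · intro x hx
      have hxa : x ≠ a := fun h3 => ha (h3 ▸ hx)
      have := hhσ ⟨x, Finset.mem_insert_of_mem hx⟩
      simp only [Equiv.Perm.coe_mul, Function.comp_apply]
      simp only at this
      rw [this]
      simp [σ, hxa]
    · have := hhσ ⟨a, Finset.mem_insert_self _ _⟩
      simp only [Equiv.Perm.coe_mul, Function.comp_apply]
      simp only at this
      rw [this]
      simp [σ, hgab]

end Cfsg.Agent.S0705
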