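import Cfsg.Statements.S0706
import Cfsg.Agent.S0705
import Mathlib.GroupTheory.Sylow

set_option autoImplicit false
open Cfsg

namespace Cfsg.Agent.S0706

open MulAction
open scoped Pointwise

theorem preserves_of_mapsTo {α : Type*} [DecidableEq α] (g : Equiv.Perm α) (W : Finset α)
    (h : ∀ x ∈ W, g x ∈ W) : g • W = W := by
  apply Finset.eq_of_subset_of_card_le
  · intro y hy
    obtain ⟨x, hx, rfl⟩ := Finset.mem_smul_finset.mp hy
    exact h x hx
  · rw [Finset.card_smul_finset]

/-- In a generously `k`-transitive permutation group, for a prime `p ≤ k` and a `k`-set `Γ`, there are no `p` points outside `Γ` lying in distinct orbits of the pointwise stabiliser of `Γ` all of length prime to `p` (at most `p - 1` such orbits). -/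
theorem result {α : Type*} [Fintype α] [DecidableEq α] (G : Subgroup (Equiv.Perm α)) {k : ℕ} (hk : k < Fintype.card α) (hgen : ∀ s : Finset α, s.card = k + 1 → ∀ σ : Equiv.Perm ↥s, ∃ g ∈ G, ∀ x : ↥s, g (x : α) = σ x) {p : ℕ} (hp : p.Prime) (hpk : p ≤ k) (Γ : Finset α) (hΓ : Γ.card = k) (f : Fin p → α) (hf : ∀ i, f i ∉ Γ) (hdist : ∀ i j, i ≠ j → f j ∉ MulAction.orbit (fixingSubgroup G (Γ : Set α)) (f i)) : ∃ i, p ∣ Nat.card (MulAction.orbit (fixingSubgroup G (Γ : Set α)) (f i)) := by
  classical
  by_contra hcon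
  push_neg at hcon
  haveI hpf : Fact p.Prime := ⟨hp⟩
  obtain ⟨hktrans, hsame⟩ := Cfsg.Agent.S0705.result G hk hgen
  obtain ⟨W, hWΓ, hWcard⟩ := Finset.exists_subset_card_eq (s := Γ) (n := p) (by rw [hΓ]; exact hpk)
  let i₀ : Fin p := ⟨0, hp.pos⟩
  have ha : f i₀ ∉ Γ := hf i₀
  have hs : (insert (f i₀) Γ).card = k + 1 := by rw [Finset.card_insert_of_notMem ha, hΓ]
  let F : Subgroup G := fixingSubgroup G (Γ : Set α)
  let L₀ : Subgroup G := fixingSubgroup G ((Γ \ W : Finset α) : Set α) ⊓ stabilizer G W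
  have hL₀fix : ∀ l ∈ L₀, ∀ x ∈ Γ \ W, (l : Equiv.Perm α) x = x := by
    intro l hl x hx
    exact (mem_fixingSubgroup_iff G).mp hl.1 x (by exact_mod_cast hx)
  have hL₀W : ∀ l ∈ L₀, ∀ x ∈ W, (l : Equiv.Perm α) x ∈ W := by
    intro l hl x hx
    have h1 : l • W = W := mem_stabilizer_iff.mp hl.2
    have h2 : l • x ∈ l • W := Finset.smul_mem_smul_finset hx
    rw [h1] at h2
    exact h2
  have hL₀Γ : ∀ l ∈ L₀, (l : Equiv.Perm α) • Γ = Γ := by
    intro l hl
    apply preserves_of_mapsTo
    intro x hx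
    by_cases hxW : x ∈ W
    · exact hWΓ (hL₀W l hl x hxW)
    · rw [hL₀fix l hl x (Finset.mem_sdiff.mpr ⟨hx, hxW⟩)]
      exact hx
  have hFL : F ≤ L₀ := by
    intro l hl
    have hl' : ∀ x ∈ Γ, (l : Equiv.Perm α) x = x := fun x hx =>
      (mem_fixingSubgroup_iff G).mp hl x (by exact_mod_cast hx)
    refine Subgroup.mem_inf.mpr ⟨?_, ?_⟩
    · rw [mem_fixingSubgroup_iff]
      intro x hx
      have hx' : x ∈ Γ \ W := by exact_mod_cast hx
      exact hl' x (Finset.mem_sdiff.mp hx').1
    · rw [mem_stabilizer_iff]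
      apply preserves_of_mapsTo (l : Equiv.Perm α)
      intro x hx
      rw [hl' x (hWΓ hx)]
      exact hx
  -- the orbit of `w`
  obtain ⟨w, hw⟩ : W.Nonempty := by rw [← Finset.card_pos, hWcard]; exact hp.pos
  have horb : orbit L₀ w = (W : Set α) := by
    ext y
    constructor
    · rintro ⟨l, rfl⟩
      exact hL₀W l l.2 w hw
    · intro hy
      have hy' : y ∈ W := by exact_mod_cast hy
      -- the transposition on `insert (f i₀) Γ`
      let s := insert (f i₀) Γ
      have hws : w ∈ s := Finset.mem_insert_of_mem (hWΓ hw)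
      have hys : y ∈ s := Finset.mem_insert_of_mem (hWΓ hy')
      obtain ⟨g, hg, hgσ⟩ := hgen s hs (Equiv.swap ⟨w, hws⟩ ⟨y, hys⟩)
      have hgw : g w = y := by
        have := hgσ ⟨w, hws⟩
        rw [Equiv.swap_apply_left] at this
        exact this
      have hgy : g y = w := by
        have := hgσ ⟨y, hys⟩
        rw [Equiv.swap_apply_right] at this
        exact this
      have hgo : ∀ x ∈ Γ \ W, g x = x := by
        intro x hx
        have hxΓ := (Finset.mem_sdiff.mp hx).1
        have hxW := (Finset.mem_sdiff.mp hx).2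
        have hxs : x ∈ s := Finset.mem_insert_of_mem hxΓ
        have := hgσ ⟨x, hxs⟩
        rw [Equiv.swap_apply_of_ne_of_ne] at this
        · exact this
        · intro h
          apply hxW
          have : x = w := congrArg Subtype.val h
          rw [this]; exact hw
        · intro h
          apply hxW
          have : x = y := congrArg Subtype.val h
          rw [this]; exact hy'
      have hgW : ∀ x ∈ W, g x ∈ W := by
        intro x hx
        by_cases h1 : x = w
        · rw [h1, hgw]; exact hy'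
        by_cases h2 : x = y
        · rw [h2, hgy]; exact hw
        have hxs : x ∈ s := Finset.mem_insert_of_mem (hWΓ hx)
        have := hgσ ⟨x, hxs⟩
        rw [Equiv.swap_apply_of_ne_of_ne] at this
        · rw [this]; exact hx
        · intro h
          exact h1 (congrArg Subtype.val h)
        · intro h
          exact h2 (congrArg Subtype.val h)
      let g' : G := ⟨g, hg⟩
      have hg'L : g' ∈ L₀ := by
        refine Subgroup.mem_inf.mpr ⟨?_, ?_⟩
        · rw [mem_fixingSubgroup_iff]
          intro x hx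
          exact hgo x (by exact_mod_cast hx)
        · rw [mem_stabilizer_iff]
          exact preserves_of_mapsTo g W hgW
      exact ⟨⟨g', hg'L⟩, hgw⟩
  have hcardorb : Nat.card (orbit L₀ w) = p := by
    rw [horb, Nat.card_coe_set_eq, Set.ncard_coe_finset, hWcard]
  have hcardL : p * Nat.card (stabilizer L₀ w) = Nat.card L₀ := by
    rw [← hcardorb]
    have := card_orbit_mul_card_stabilizer_eq_card_group L₀ w
    simpa only [Nat.card_eq_fintype_card] using this
  have hFdvd : Nat.card F ∣ Nat.card (stabilizer L₀ w) := by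
    have hle : F.subgroupOf L₀ ≤ stabilizer L₀ w := by
      intro l hl
      rw [mem_stabilizer_iff]
      have hl' : (l : G) ∈ F := hl
      exact (mem_fixingSubgroup_iff G).mp hl' w (by exact_mod_cast hWΓ hw)
    have h1 := Subgroup.card_dvd_of_le hle
    have h2 : Nat.card (F.subgroupOf L₀) = Nat.card F := by
      apply Nat.card_congr
      exact (Subgroup.subgroupOfEquivOfLe hFL).toEquiv
    rwa [h2] at h1
  have hpFdvd : p * Nat.card F ∣ Nat.card L₀ := by
    rw [← hcardL]
    exact Nat.mul_dvd_mul_left p hFdvd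
  -- the Sylow subgroup of `L₀`
  obtain ⟨R⟩ : Nonempty (Sylow p L₀) := Sylow.nonempty
  have hRcard := Sylow.card_eq_multiplicity R
  -- `R` preserves the `F`-orbits
  have hFout : ∀ (l : G), l ∈ F → ∀ x, x ∉ Γ → l • x ∉ Γ := by
    intro l hl x hx hlx
    have h1 : l • (l • x) = l • x := (mem_fixingSubgroup_iff G).mp hl _ (by exact_mod_cast hlx)
    exact hx (by simpa using (smul_left_cancel l h1).symm ▸ hlx)
  have horbout : ∀ i, ∀ x ∈ orbit F (f i), x ∉ Γ := by
    rintro i _ ⟨l, rfl⟩
    exact hFout l l.2 _ (hf i)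
  have hLorb : ∀ (l : L₀) (i : Fin p) (x : α), x ∈ orbit F (f i) → (l : G) • x ∈ orbit F (f i) := by
    intro l i x hx
    have hxΓ := horbout i x hx
    have hlΓ := hL₀Γ l l.2
    have hlxΓ : (l : G) • x ∉ Γ := by
      intro h
      apply hxΓ
      have h1 : ((l : G) : Equiv.Perm α) x ∈ ((l : G) : Equiv.Perm α) • Γ := by
        rw [hlΓ]; exact h
      obtain ⟨y, hy, hyx⟩ := Finset.mem_smul_finset.mp h1
      have : y = x := ((l : G) : Equiv.Perm α).injective hyx
      rwa [← this]
    obtain ⟨g, hg, hgfix, hgx⟩ := hsame Γ hΓ x ((l : G) • x) hxΓ hlxΓ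
      ⟨((l : G) : Equiv.Perm α), (l : G).2, hlΓ, rfl⟩
    have hgF : (⟨g, hg⟩ : G) ∈ F := by
      rw [mem_fixingSubgroup_iff]
      intro y hy
      exact hgfix y (by exact_mod_cast hy)
    have h2 : (l : G) • x ∈ orbit F x := ⟨⟨⟨g, hg⟩, hgF⟩, hgx⟩
    rwa [orbit_eq_iff.mpr hx] at h2
  -- fixed points
  have hfix : ∀ i, ∃ x ∈ orbit F (f i), ∀ r ∈ (R : Subgroup L₀), ((r : L₀) : G) • x = x := by
    intro i
    let Δ : SubMulAction (R : Subgroup L₀) α :=
      { carrier := orbit F (f i)
        smul_mem' := fun r x hx => hLorb (r : L₀) i x hx }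
    obtain ⟨x, hx⟩ := IsPGroup.nonempty_fixed_point_of_prime_not_dvd_card R.isPGroup' Δ (hcon i)
    refine ⟨x, x.2, fun r hr => ?_⟩
    have := hx ⟨r, hr⟩
    exact congrArg Subtype.val this
  choose x hxorb hxfix using hfix
  have hxΓ : ∀ i, x i ∉ Γ := fun i => horbout i _ (hxorb i)
  have hxinj : Function.Injective x := by
    intro i j hij
    by_contra hne
    apply hdist i j hne
    have h1 : x i ∈ orbit F (f j) := by rw [hij]; exact hxorb j
    rw [← orbit_eq_iff.mpr (hxorb i), orbit_eq_iff.mpr h1]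
    exact mem_orbit_self _
  -- the new `k`-set
  let T : Finset α := (Γ \ W) ∪ Finset.univ.image x
  have hTcard : T.card = k := by
    rw [Finset.card_union_of_disjoint, Finset.card_sdiff_of_subset hWΓ, hΓ, hWcard,
      Finset.card_image_of_injective _ hxinj, Finset.card_univ, Fintype.card_fin]
    · omega
    · rw [Finset.disjoint_left]
      intro y hy hy2
      obtain ⟨i, -, rfl⟩ := Finset.mem_image.mp hy2
      exact hxΓ i (Finset.mem_sdiff.mp hy).1
  have hRfixT : ∀ r ∈ (R : Subgroup L₀), ∀ y ∈ T, ((r : L₀) : G) • y = y := by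
    intro r hr y hy
    rcases Finset.mem_union.mp hy with hy | hy
    · exact hL₀fix r r.2 y hy
    · obtain ⟨i, -, rfl⟩ := Finset.mem_image.mp hy
      exact hxfix i r hr
  -- conjugate `T` to `Γ`
  let eΓ : Fin k ↪ α := (Finset.equivFinOfCardEq hΓ).symm.toEmbedding.trans (Function.Embedding.subtype _)
  let eT : Fin k ↪ α := (Finset.equivFinOfCardEq hTcard).symm.toEmbedding.trans (Function.Embedding.subtype _)
  obtain ⟨g, hg⟩ : ∃ g : G, g • eΓ = eT := hktrans.exists_smul_eq eΓ eT
  have hgi : ∀ i, g • eΓ i = eT i := fun i => congrArg (fun e : Fin k ↪ α => e i) hg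
  have hgΓ : ∀ y ∈ Γ, g • y ∈ T := by
    intro y hy
    let i := Finset.equivFinOfCardEq hΓ ⟨y, hy⟩
    have h1 : eΓ i = y := by
      simp [eΓ, i]
    rw [← h1, hgi]
    simp [eT]
  -- embed `R` into `F`
  let ψ : (R : Subgroup L₀) →* F :=
    { toFun := fun r => ⟨g⁻¹ * ((r : L₀) : G) * g, by
        rw [mem_fixingSubgroup_iff]
        intro y hy
        have hy' : y ∈ Γ := by exact_mod_cast hy
        rw [mul_smul, mul_smul, hRfixT r r.2 _ (hgΓ y hy'), inv_smul_smul]⟩
      map_one' := by
        apply Subtype.ext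
        simp
      map_mul' := by
        intro r r'
        apply Subtype.ext
        simp [mul_assoc] }
  have hψ : Function.Injective ψ := by
    intro r r' h
    have h1 : g⁻¹ * ((r : L₀) : G) * g = g⁻¹ * ((r' : L₀) : G) * g := congrArg Subtype.val h
    have h2 : ((r : L₀) : G) = ((r' : L₀) : G) := by
      simpa using h1
    exact Subtype.ext (Subtype.ext h2)
  have hRF : Nat.card (R : Subgroup L₀) ∣ Nat.card F := Subgroup.card_dvd_of_injective ψ hψ
  -- arithmetic
  have hLpos : Nat.card L₀ ≠ 0 := Nat.card_pos.ne'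
  have h1 : p ^ ((Nat.card L₀).factorization p + 1) ∣ Nat.card L₀ := by
    rw [pow_succ']
    refine dvd_trans (Nat.mul_dvd_mul_left p ?_) hpFdvd
    rw [← hRcard]
    exact hRF
  exact Nat.pow_succ_factorization_not_dvd hLpos hp h1

end Cfsg.Agent.S0706
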