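import Cfsg.Statements.S0707
import Mathlib.GroupTheory.SpecificGroups.Cyclic

set_option autoImplicit false
open Cfsg

namespace Cfsg.Agent.S0707

open MulAction

/-- In a primitive permutation group, distinct points have distinct stabilisers unless the group is regular of prime degree. -/
theorem result {α : Type*} (G : Subgroup (Equiv.Perm α)) [MulAction.IsPreprimitive G α] (h : ¬ (Nat.card α).Prime ∨ ∃ a : α, MulAction.stabilizer G a ≠ ⊥) {a b : α} (hab : a ≠ b) : MulAction.stabilizer G a ≠ MulAction.stabilizer G b := by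
  intro hEq
  have : Nontrivial α := ⟨⟨a, b, hab⟩⟩
  have hcoatom : IsCoatom (stabilizer G a) :=
    IsPreprimitive.isCoatom_stabilizer_of_isPreprimitive (G := G) (X := α) a
  obtain ⟨y, hy⟩ := MulAction.exists_smul_eq G a b
  have hyn : y ∉ stabilizer G a := by
    intro hmem
    rw [mem_stabilizer_iff] at hmem
    exact hab (hmem.symm.trans hy)
  -- `y` normalises the stabiliser of `a`
  have hyN : y ∈ Subgroup.normalizer ((stabilizer G a : Subgroup G) : Set G) := by
    rw [Subgroup.mem_normalizer_iff]
    intro s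
    have h1 : y * s * y⁻¹ ∈ stabilizer G b ↔ s ∈ stabilizer G a := by
      simp only [mem_stabilizer_iff, mul_smul]
      rw [← hy]
      simp
    rw [← hEq] at h1
    exact h1.symm
  have hle : stabilizer G a ≤ Subgroup.normalizer ((stabilizer G a : Subgroup G) : Set G) :=
    Subgroup.le_normalizer
  have hnorm : Subgroup.normalizer ((stabilizer G a : Subgroup G) : Set G) = ⊤ := by
    apply hcoatom.2
    refine lt_of_le_of_ne hle ?_
    intro heq
    apply hyn
    rw [heq]
    exact hyN
  -- hence the stabiliser of `a` is trivial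
  have hbot : stabilizer G a = ⊥ := by
    rw [eq_bot_iff]
    intro s hs
    rw [Subgroup.mem_bot]
    apply Subtype.ext
    ext x
    obtain ⟨g, hg⟩ := MulAction.exists_smul_eq G a x
    have hgN : g⁻¹ ∈ Subgroup.normalizer ((stabilizer G a : Subgroup G) : Set G) := by
      rw [hnorm]; trivial
    have h2 := (Subgroup.mem_normalizer_iff.mp hgN s).mp hs
    have h3 : (g⁻¹ * s * g⁻¹⁻¹) • a = a := h2
    rw [inv_inv, mul_smul, mul_smul, inv_smul_eq_iff] at h3
    rw [hg] at h3
    exact h3
  have hallbot : ∀ c : α, stabilizer G c = ⊥ := by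
    intro c
    obtain ⟨g, hg⟩ := MulAction.exists_smul_eq G a c
    rw [eq_bot_iff]
    intro s hs
    rw [Subgroup.mem_bot]
    have h2 : g⁻¹ * s * g ∈ stabilizer G a := by
      rw [mem_stabilizer_iff, mul_smul, mul_smul, hg]
      rw [mem_stabilizer_iff.mp hs, ← hg, inv_smul_smul]
    rw [hbot, Subgroup.mem_bot] at h2
    have h3 : s = g * (g⁻¹ * s * g) * g⁻¹ := by group
    rw [h3, h2]
    simp
  rw [hbot] at hcoatom
  have hntG : Nontrivial G := by
    rw [← Subgroup.nontrivial_iff]
    exact ⟨⟨⊥, ⊤, hcoatom.1⟩⟩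
  have hsimple : ∀ H : Subgroup G, H = ⊥ ∨ H = ⊤ := by
    intro H
    by_cases hH : H = ⊥
    · exact Or.inl hH
    · exact Or.inr (hcoatom.2 H (bot_lt_iff_ne_bot.mpr hH))
  have : IsSimpleGroup G := ⟨fun H _ => hsimple H⟩
  have hcyc : IsCyclic G := by
    obtain ⟨x, hx⟩ := exists_ne (1 : G)
    rw [isCyclic_iff_exists_zpowers_eq_top]
    refine ⟨x, (hsimple _).resolve_left ?_⟩
    simpa using hx
  have : IsMulCommutative G := IsCyclic.isMulCommutative
  have hpr : (Nat.card G).Prime := Group.is_simple_iff_prime_card.mp ‹IsSimpleGroup G›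
  have hcard : Nat.card G = Nat.card α := by
    refine Nat.card_congr (Equiv.ofBijective (fun g : G => g • a) ⟨?_, ?_⟩)
    · intro g g' hgg
      have hgg' : g • a = g' • a := hgg
      have : g'⁻¹ * g ∈ stabilizer G a := by
        rw [mem_stabilizer_iff, mul_smul, hgg', inv_smul_smul]
      rw [hbot, Subgroup.mem_bot] at this
      exact (inv_mul_eq_one.mp this).symm
    · intro x
      exact MulAction.exists_smul_eq G a x
  rw [hcard] at hpr
  rcases h with h | ⟨c, hc⟩
  · exact h hpr
  · exact hc (hallbot c)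

end Cfsg.Agent.S0707
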