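import Cfsg.Statements.S0708
import Mathlib

set_option autoImplicit false
open Cfsg

namespace Cfsg.Agent.S0708

open MulAction

variable {G Ω : Type*} [Group G] [MulAction G Ω]

/-- Four distinct points as an embedding. -/
def emb4 (a b c d : Ω) (h : a ≠ b ∧ a ≠ c ∧ a ≠ d ∧ b ≠ c ∧ b ≠ d ∧ c ≠ d) : Fin 4 ↪ Ω :=
  ⟨![a, b, c, d], by
    obtain ⟨h1, h2, h3, h4, h5, h6⟩ := h
    intro i j hij
    fin_cases i <;> fin_cases j <;>
      simp_all [Matrix.cons_val_zero, Matrix.cons_val_one]⟩

theorem trans4 (h4 : MulAction.IsMultiplyPretransitive G Ω 4) {a b c d a' b' c' d' : Ω}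
    (h : a ≠ b ∧ a ≠ c ∧ a ≠ d ∧ b ≠ c ∧ b ≠ d ∧ c ≠ d)
    (h' : a' ≠ b' ∧ a' ≠ c' ∧ a' ≠ d' ∧ b' ≠ c' ∧ b' ≠ d' ∧ c' ≠ d') :
    ∃ g : G, g • a = a' ∧ g • b = b' ∧ g • c = c' ∧ g • d = d' := by
  obtain ⟨g, hg⟩ := h4.exists_smul_eq (emb4 a b c d h) (emb4 a' b' c' d' h')
  refine ⟨g, ?_, ?_, ?_, ?_⟩
  · exact DFunLike.congr_fun hg 0
  · exact DFunLike.congr_fun hg 1
  · exact DFunLike.congr_fun hg 2
  · exact DFunLike.congr_fun hg 3

theorem fix4 (hsharp : ∀ x : Fin 4 ↪ Ω, MulAction.stabilizer G x = ⊥) {a b c d : Ω}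
    (h : a ≠ b ∧ a ≠ c ∧ a ≠ d ∧ b ≠ c ∧ b ≠ d ∧ c ≠ d) {g : G}
    (ha : g • a = a) (hb : g • b = b) (hc : g • c = c) (hd : g • d = d) : g = 1 := by
  have hmem : g ∈ MulAction.stabilizer G (emb4 a b c d h) := by
    rw [MulAction.mem_stabilizer_iff]
    ext i
    fin_cases i
    · exact ha
    · exact hb
    · exact hc
    · exact hd
  rw [hsharp] at hmem
  simpa using hmem

theorem uniq4 (hsharp : ∀ x : Fin 4 ↪ Ω, MulAction.stabilizer G x = ⊥) {a b c d : Ω}
    (h : a ≠ b ∧ a ≠ c ∧ a ≠ d ∧ b ≠ c ∧ b ≠ d ∧ c ≠ d) {g k : G}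
    (ha : g • a = k • a) (hb : g • b = k • b) (hc : g • c = k • c) (hd : g • d = k • d) :
    g = k := by
  have := fix4 hsharp h (g := k⁻¹ * g) (by rw [mul_smul, ha, inv_smul_smul])
    (by rw [mul_smul, hb, inv_smul_smul]) (by rw [mul_smul, hc, inv_smul_smul])
    (by rw [mul_smul, hd, inv_smul_smul])
  exact (inv_mul_eq_one.mp this).symm

/-- The main bound. -/
theorem main_bound (h4 : MulAction.IsMultiplyPretransitive G Ω 4)
    (hsharp : ∀ x : Fin 4 ↪ Ω, MulAction.stabilizer G x = ⊥) {a b c d : Ω}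
    (h : a ≠ b ∧ a ≠ c ∧ a ≠ d ∧ b ≠ c ∧ b ≠ d ∧ c ≠ d) {t : G}
    (htt : ∀ x : Ω, t • t • x = x) (hta : t • a = a) (htb : t • b = b) (htc : t • c = d)
    (F : Set Ω) (hF : F = {x | t • x = x}) (hFfin : F.Finite) :
    Finite Ω ∧ Nat.card Ω ≤ F.ncard + 2 + (F.ncard).factorial := by
  classical
  obtain ⟨hab, hac, had, hbc, hbd, hcd⟩ := h
  have htd : t • d = c := by rw [← htc, htt]
  let Δ : Set Ω := {y | t • y ≠ y ∧ y ≠ c ∧ y ≠ d}
  have huniv : (Set.univ : Set Ω) = F ∪ {c, d} ∪ Δ := by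
    ext x
    simp only [Set.mem_univ, Set.mem_union, Set.mem_insert_iff, Set.mem_singleton_iff, true_iff, hF,
      Set.mem_setOf_eq, Δ]
    tauto
  have hFsub : Finite F := hFfin
  -- bound on `Δ`
  have hΔ : Finite Δ ∧ Nat.card Δ ≤ (F.ncard).factorial := by
    by_cases hne : Δ.Nonempty
    swap
    · rw [Set.not_nonempty_iff_eq_empty] at hne
      rw [hne]
      refine ⟨inferInstance, ?_⟩
      simp only [Nat.card_eq_zero, Set.isEmpty_coe_sort, true_or, Nat.zero_le, Nat.card_of_isEmpty]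
    obtain ⟨y₀, hy₀, hy₀c, hy₀d⟩ := hne
    have hdist : ∀ y : Ω, y ∈ Δ → c ≠ d ∧ c ≠ y ∧ c ≠ t • y ∧ d ≠ y ∧ d ≠ t • y ∧ y ≠ t • y := by
      rintro y ⟨hy, hyc, hyd⟩
      refine ⟨hcd, Ne.symm hyc, ?_, Ne.symm hyd, ?_, Ne.symm hy⟩
      · intro h
        apply hyd
        have : t • c = y := by rw [h, htt]
        rw [← this, htc]
      · intro h
        apply hyc
        have : t • d = y := by rw [h, htt]
        rw [← this, htd]
    have hex : ∀ y : Δ, ∃ g : G, g • c = c ∧ g • d = d ∧ g • y₀ = y ∧ g • (t • y₀) = t • (y : Ω) :=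
      fun y => trans4 h4 (hdist y₀ ⟨hy₀, hy₀c, hy₀d⟩) (hdist y y.2)
    choose g hgc hgd hgy hgt using hex
    -- `g y` centralises `t`
    have hcomm : ∀ y : Δ, g y * t = t * g y := by
      intro y
      apply uniq4 hsharp (hdist y₀ ⟨hy₀, hy₀c, hy₀d⟩)
      · simp only [mul_smul]; rw [htc, hgd, hgc, htc]
      · simp only [mul_smul]; rw [htd, hgc, hgd, htd]
      · simp only [mul_smul]; rw [hgt, hgy]
      · simp only [mul_smul]; rw [htt, hgy, hgt, htt]
    have hcomm' : ∀ (y : Δ) (x : Ω), g y • t • x = t • g y • x := by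
      intro y x
      have := congrArg (fun k : G => k • x) (hcomm y)
      simpa [mul_smul] using this
    have hpres : ∀ (y : Δ) (x : Ω), (t • (g y • x) = g y • x) ↔ t • x = x := by
      intro y x
      rw [← hcomm' y x]
      exact smul_left_cancel_iff _
    let φ : Δ → Equiv.Perm F := fun y =>
      (MulAction.toPerm (g y)).subtypePerm (fun x => by
        rw [hF]
        exact (hpres y x))
    have hφ : Function.Injective φ := by
      intro y y' hyy
      have hF' : ∀ x ∈ F, g y • x = g y' • x := by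
        intro x hx
        have := congrArg (fun p : Equiv.Perm F => ((p ⟨x, hx⟩ : F) : Ω)) hyy
        simpa [φ] using this
      have haF : a ∈ F := by rw [hF]; exact hta
      have hbF : b ∈ F := by rw [hF]; exact htb
      have : g y = g y' := uniq4 hsharp ⟨hab, hac, had, hbc, hbd, hcd⟩ (hF' a haF) (hF' b hbF)
        (by rw [hgc, hgc]) (by rw [hgd, hgd])
      apply Subtype.ext
      rw [← hgy y, ← hgy y', this]
    have _ : Fintype F := Fintype.ofFinite F
    refine ⟨Finite.of_injective φ hφ, ?_⟩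
    have hle := Nat.card_le_card_of_injective φ hφ
    have hc : Nat.card (Equiv.Perm F) = (F.ncard).factorial := by
      rw [Nat.card_eq_fintype_card, Fintype.card_perm, ← Nat.card_eq_fintype_card]
      rfl
    omega
  obtain ⟨hΔfin, hΔcard⟩ := hΔ
  have hΔfin' : Δ.Finite := hΔfin
  have hunivfin : (Set.univ : Set Ω).Finite := by
    rw [huniv]
    exact (hFfin.union (Set.toFinite _)).union hΔfin'
  have hfin : Finite Ω := Set.finite_univ_iff.mp hunivfin
  refine ⟨hfin, ?_⟩
  have h1 : Nat.card Ω = (Set.univ : Set Ω).ncard := (Set.ncard_univ Ω).symm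
  rw [h1, huniv]
  have h2 : (F ∪ {c, d} ∪ Δ).ncard ≤ (F ∪ {c, d}).ncard + Δ.ncard :=
    Set.ncard_union_le _ _
  have h3 : (F ∪ {c, d}).ncard ≤ F.ncard + ({c, d} : Set Ω).ncard :=
    Set.ncard_union_le _ _
  have h4' : ({c, d} : Set Ω).ncard = 2 := Set.ncard_pair hcd
  have h5 : Δ.ncard = Nat.card Δ := rfl
  omega

/-- Tits' argument: a sharply 4-transitive group (no finiteness assumed) has finite degree at most 11, and at most 6 when the degree is even. -/
theorem result {G : Type*} [Group G] {Ω : Type*} [MulAction G Ω] (h4 : MulAction.IsMultiplyPretransitive G Ω 4) (hsharp : ∀ x : Fin 4 ↪ Ω, MulAction.stabilizer G x = ⊥) (hne : Nonempty (Fin 4 ↪ Ω)) : Finite Ω ∧ Nat.card Ω ≤ 11 ∧ (Even (Nat.card Ω) → Nat.card Ω ≤ 6) := by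
  classical
  obtain ⟨e⟩ := hne
  set a := e 0 with ha
  set b := e 1 with hb
  set c := e 2 with hc
  set d := e 3 with hd
  have hdist : a ≠ b ∧ a ≠ c ∧ a ≠ d ∧ b ≠ c ∧ b ≠ d ∧ c ≠ d := by
    refine ⟨?_, ?_, ?_, ?_, ?_, ?_⟩ <;> (intro h; have := e.injective h; simp at this)
  have hdist' : a ≠ b ∧ a ≠ d ∧ a ≠ c ∧ b ≠ d ∧ b ≠ c ∧ d ≠ c := by
    obtain ⟨h1, h2, h3, h4', h5, h6⟩ := hdist
    exact ⟨h1, h3, h2, h5, h4', h6.symm⟩
  obtain ⟨t, hta, htb, htc, htd⟩ := trans4 h4 hdist hdist'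
  have htt1 : t * t = 1 := by
    apply fix4 hsharp hdist
    · simp only [mul_smul]; rw [hta, hta]
    · simp only [mul_smul]; rw [htb, htb]
    · simp only [mul_smul]; rw [htc, htd]
    · simp only [mul_smul]; rw [htd, htc]
  have htt : ∀ x : Ω, t • t • x = x := by
    intro x
    rw [← mul_smul, htt1, one_smul]
  let F : Set Ω := {x | t • x = x}
  have hF : F = {x | t • x = x} := rfl
  have haF : a ∈ F := hta
  have hbF : b ∈ F := htb
  have hcF : c ∉ F := by
    intro h
    exact hdist.2.2.2.2.2 (h.symm.trans htc)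
  have ht1 : t ≠ 1 := by
    intro h
    apply hcF
    show t • c = c
    rw [h, one_smul]
  have hFcases : F = {a, b} ∨ ∃ r, r ≠ a ∧ r ≠ b ∧ F = {a, b, r} := by
    by_cases hr : ∃ r ∈ F, r ≠ a ∧ r ≠ b
    · obtain ⟨r, hrF, hra, hrb⟩ := hr
      right
      refine ⟨r, hra, hrb, ?_⟩
      ext u
      simp only [Set.mem_insert_iff, Set.mem_singleton_iff]
      constructor
      · intro hu
        by_contra hcon
        push Not at hcon
        obtain ⟨hua, hub, hur⟩ := hcon
        apply ht1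
        exact fix4 hsharp (a := a) (b := b) (c := r) (d := u)
          ⟨hdist.1, hra.symm, hua.symm, hrb.symm, hub.symm, hur.symm⟩ hta htb hrF hu
      · rintro (rfl | rfl | rfl)
        · exact haF
        · exact hbF
        · exact hrF
    · left
      push Not at hr
      ext u
      simp only [Set.mem_insert_iff, Set.mem_singleton_iff]
      constructor
      · intro hu
        by_cases hua : u = a
        · exact Or.inl hua
        · exact Or.inr (hr u hu hua)
      · rintro (rfl | rfl)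
        · exact haF
        · exact hbF
  have hFfin : F.Finite := by
    rcases hFcases with h | ⟨r, -, -, h⟩ <;> rw [h] <;> exact Set.toFinite _
  obtain ⟨hfin, hbound⟩ := main_bound h4 hsharp hdist htt hta htb htc F hF hFfin
  have hncard : F.ncard = 2 ∨ F.ncard = 3 := by
    rcases hFcases with h | ⟨r, hra, hrb, h⟩
    · left; rw [h]; exact Set.ncard_pair hdist.1
    · right; rw [h]; exact Set.ncard_eq_three.mpr ⟨a, b, r, hdist.1, hra.symm, hrb.symm, rfl⟩
  refine ⟨hfin, ?_, ?_⟩
  · rcases hncard with h | h <;> rw [h] at hbound <;> simp [Nat.factorial] at hbound <;> omega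
  · intro heven
    -- parity of the number of fixed points
    have hparity : (F.ncard + Nat.card Ω) % 2 = 0 := by
      have hord : orderOf t = 2 := by
        apply orderOf_eq_prime
        · rw [pow_two]; exact htt1
        · exact ht1
      have hpg : IsPGroup 2 (Subgroup.zpowers t) := by
        apply IsPGroup.of_card (n := 1)
        rw [Nat.card_zpowers, hord, pow_one]
      have := Fact.mk Nat.prime_two
      have hh := hpg.card_modEq_card_fixedPoints Ω
      have hfix : MulAction.fixedPoints (Subgroup.zpowers t) Ω = F := by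
        ext x
        simp only [MulAction.mem_fixedPoints]
        constructor
        · intro h
          exact h ⟨t, Subgroup.mem_zpowers t⟩
        · rintro h ⟨u, k, rfl⟩
          show t ^ k • x = x
          have hs : t ∈ MulAction.stabilizer G x := MulAction.mem_stabilizer_iff.mpr h
          exact MulAction.mem_stabilizer_iff.mp ((MulAction.stabilizer G x).zpow_mem hs k)
      rw [hfix, Nat.ModEq] at hh
      have hh' : F.ncard = Nat.card F := rfl
      omega
    rcases hncard with h | h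
    · rw [h] at hbound
      simp [Nat.factorial] at hbound
      omega
    · exfalso
      obtain ⟨m, hm⟩ := heven
      omega

end Cfsg.Agent.S0708
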