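import Cfsg.Statements.S0709
import Mathlib

set_option autoImplicit false
open Cfsg

namespace Cfsg.Agent.S0709

open MulAction Equiv

variable {α : Type*} [Fintype α] [DecidableEq α]

/-- The data of Witt's lemma. -/
structure Data (α : Type*) where
  t : ℕ
  ht : 2 ≤ t
  q : ℕ → α
  hq : ∀ i j : ℕ, 1 ≤ i → i ≤ t → 1 ≤ j → j ≤ t → q i = q j → i = j
  G : Subgroup (Perm α)
  hfix : ∀ g ∈ G, ∀ i : ℕ, 3 ≤ i → i ≤ t → g (q i) = q i
  h2 : ∀ a b c d : α, (∀ i, 3 ≤ i → i ≤ t → a ≠ q i ∧ b ≠ q i ∧ c ≠ q i ∧ d ≠ q i) → a ≠ b → c ≠ d →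
    ∃ g ∈ G, g a = c ∧ g b = d
  s : ℕ → Perm α
  hs1 : s 1 ∈ G
  hs1q : s 1 (q 1) = q 2 ∧ s 1 (q 2) = q 1
  hsq : ∀ i : ℕ, 2 ≤ i → i + 1 ≤ t → s i (q i) = q (i + 1) ∧ s i (q (i + 1)) = q i ∧
    ∀ j : ℕ, 1 ≤ j → j ≤ t → j ≠ i → j ≠ i + 1 → s i (q j) = q j
  H : Subgroup (Perm α)
  hH : H = G ⊓ stabilizer (Perm α) (q 1) ⊓ stabilizer (Perm α) (q 2)
  hsq2 : ∀ i : ℕ, 1 ≤ i → i + 1 ≤ t → s i ^ 2 ∈ H
  hbraid : ∀ i : ℕ, 1 ≤ i → i + 2 ≤ t → (s i * s (i + 1)) ^ 3 ∈ H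
  hcomm : ∀ i j : ℕ, 1 ≤ i → i + 2 ≤ j → j + 1 ≤ t → (s i * s j) ^ 2 ∈ H ∧ (s j * s i) ^ 2 ∈ H
  hnorm : ∀ i : ℕ, 2 ≤ i → i + 1 ≤ t → ∀ g ∈ G ⊓ stabilizer (Perm α) (q 2), s i * g * (s i)⁻¹ ∈ G ⊓ stabilizer (Perm α) (q 2)

namespace Data

variable (D : Data α)

/-- The point stabiliser `B = G_{q 2}`. -/
def B : Subgroup (Perm α) := D.G ⊓ stabilizer (Perm α) (D.q 2)

/-- The chain of subgroups. -/
def M (j : ℕ) : Subgroup (Perm α) :=
  Subgroup.closure ((D.B : Set (Perm α)) ∪ {x | ∃ i : ℕ, 1 ≤ i ∧ i + 1 ≤ j ∧ x = D.s i})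

lemma B_le_M (j : ℕ) : D.B ≤ D.M j := by
  refine le_trans ?_ (Subgroup.closure_mono Set.subset_union_left)
  rw [Subgroup.closure_eq]

lemma s_mem_M {i j : ℕ} (h1 : 1 ≤ i) (h2 : i + 1 ≤ j) : D.s i ∈ D.M j :=
  Subgroup.subset_closure (Or.inr ⟨i, h1, h2, rfl⟩)

lemma M_mono {j k : ℕ} (h : j ≤ k) : D.M j ≤ D.M k := by
  apply Subgroup.closure_mono
  apply Set.union_subset_union_right
  rintro x ⟨i, h1, h2, rfl⟩
  exact ⟨i, h1, by omega, rfl⟩

lemma H_le_B : D.H ≤ D.B := by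
  rw [D.hH]
  rintro x ⟨⟨h1, -⟩, h3⟩
  exact ⟨h1, h3⟩

lemma H_le_M (j : ℕ) : D.H ≤ D.M j := D.H_le_B.trans (D.B_le_M j)

lemma M_one : D.M 1 = D.B := by
  apply le_antisymm
  · rw [M, Subgroup.closure_le]
    apply Set.union_subset subset_rfl
    rintro x ⟨i, h1, h2, rfl⟩
    omega
  · exact D.B_le_M 1

lemma M_succ_le {j : ℕ} {K : Subgroup (Perm α)} (h1 : D.M j ≤ K) (hj : 1 ≤ j) (h2 : D.s j ∈ K) : D.M (j + 1) ≤ K := by
  rw [M, Subgroup.closure_le]
  apply Set.union_subset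
  · exact fun x hx => h1 (D.B_le_M j hx)
  · rintro x ⟨i, h3, h4, rfl⟩
    by_cases hij : i = j
    · rw [hij]
      exact h2
    · exact h1 (D.s_mem_M h3 (by omega))

/-- Elements of `B` fix `q 2`. -/
lemma B_fix_two {g : Perm α} (hg : g ∈ D.B) : g (D.q 2) = D.q 2 := hg.2

/-- Elements of `M j` fix `q l` for `l > j`. -/
lemma M_fix {j l : ℕ} (hj : 1 ≤ j) (hl : j < l) (hlt : l ≤ D.t) {g : Perm α} (hg : g ∈ D.M j) :
    g (D.q l) = D.q l := by
  have hsub : D.M j ≤ stabilizer (Perm α) (D.q l) := by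
    rw [M, Subgroup.closure_le]
    apply Set.union_subset
    · intro x hx
      by_cases hl2 : l = 2
      · rw [hl2]
        exact hx.2
      · exact D.hfix x hx.1 l (by omega) hlt
    · rintro x ⟨i, h1, h2, rfl⟩
      by_cases hi : i = 1
      · rw [hi]
        exact D.hfix _ D.hs1 l (by omega) hlt
      · exact (D.hsq i (by omega) (by omega)).2.2 l (by omega) hlt (by omega) (by omega)
  exact hsub hg

/-- Two-point transitivity gives the double coset decomposition of `G` over `B`. -/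
lemma G_decomp {g : Perm α} (hg : g ∈ D.G) : g ∈ D.B ∨ ∃ b₁ ∈ D.B, ∃ b₂ ∈ D.B, g = b₁ * D.s 1 * b₂ := by
  by_cases h : g (D.q 2) = D.q 2
  · exact Or.inl ⟨hg, h⟩
  · right
    have ht := D.ht
    have hq1 : ∀ i, 3 ≤ i → i ≤ D.t → D.q 1 ≠ D.q i := fun i h3 h4 h5 => by
      have := D.hq 1 i (by omega) (by omega) (by omega) h4 h5
      omega
    have hq2 : ∀ i, 3 ≤ i → i ≤ D.t → D.q 2 ≠ D.q i := fun i h3 h4 h5 => by
      have := D.hq 2 i (by omega) (by omega) (by omega) h4 h5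
      omega
    have hw : ∀ i, 3 ≤ i → i ≤ D.t → g (D.q 2) ≠ D.q i := fun i h3 h4 h5 => by
      apply hq2 i h3 h4
      apply g.injective
      rw [h5, D.hfix g hg i h3 h4]
    have h12 : D.q 1 ≠ D.q 2 := fun h5 => by
      have := D.hq 1 2 (by omega) (by omega) (by omega) ht h5
      omega
    obtain ⟨b, hb, hb1, hb2⟩ := D.h2 (D.q 1) (D.q 2) (g (D.q 2)) (D.q 2)
      (fun i h3 h4 => ⟨hq1 i h3 h4, hq2 i h3 h4, hw i h3 h4, hq2 i h3 h4⟩) h12 h
    have hbB : b ∈ D.B := ⟨hb, hb2⟩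
    refine ⟨b, hbB, (b * D.s 1)⁻¹ * g, ⟨?_, ?_⟩, by group⟩
    · exact D.G.mul_mem (D.G.inv_mem (D.G.mul_mem hb D.hs1)) hg
    · show ((b * D.s 1)⁻¹ * g) (D.q 2) = D.q 2
      rw [Perm.mul_apply, Perm.inv_eq_iff_eq]
      simp only [Perm.mul_apply, D.hs1q.2, hb1]

lemma M_two : D.M 2 = D.G := by
  apply le_antisymm
  · rw [M, Subgroup.closure_le]
    apply Set.union_subset
    · exact fun x hx => hx.1
    · rintro x ⟨i, h1, h2, rfl⟩
      have : i = 1 := by omega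
      rw [this]
      exact D.hs1
  · intro g hg
    rcases D.G_decomp hg with h | ⟨b₁, h1, b₂, h2, rfl⟩
    · exact D.B_le_M 2 h
    · exact (D.M 2).mul_mem ((D.M 2).mul_mem (D.B_le_M 2 h1) (D.s_mem_M le_rfl le_rfl)) (D.B_le_M 2 h2)

/-- Commutation modulo `H`. -/
lemma s_conj_mem {i j : ℕ} (hi : 1 ≤ i) (hij : i + 2 ≤ j) (hj : j + 1 ≤ D.t) :
    D.s j * D.s i * (D.s j)⁻¹ ∈ D.M (j - 1) := by
  have h1 := (D.hcomm i j hi hij hj).2
  have h2 := D.hsq2 j (by omega) hj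
  have h3 : D.s i ∈ D.M (j - 1) := D.s_mem_M hi (by omega)
  have h4 : D.s j * D.s i * (D.s j)⁻¹ = (D.s j * D.s i) ^ 2 * (D.s i)⁻¹ * (D.s j ^ 2)⁻¹ := by
    simp only [pow_two]
    group
  rw [h4]
  exact (D.M _).mul_mem ((D.M _).mul_mem (D.H_le_M _ h1) ((D.M _).inv_mem h3))
    ((D.M _).inv_mem (D.H_le_M _ h2))

/-- `s j` normalises `M (j - 1)`. -/
lemma conj_M {j : ℕ} (hj2 : 2 ≤ j) (hj : j + 1 ≤ D.t) {g : Perm α} (hg : g ∈ D.M (j - 1)) :
    D.s j * g * (D.s j)⁻¹ ∈ D.M (j - 1) := by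
  have hle : D.M (j - 1) ≤ (D.M (j - 1)).comap (MulAut.conj (D.s j)).toMonoidHom := by
    rw [M, Subgroup.closure_le]
    apply Set.union_subset
    · intro x hx
      have h1 := D.hnorm j hj2 hj x hx
      exact D.B_le_M _ h1
    · rintro x ⟨i, h1, h2, rfl⟩
      exact D.s_conj_mem h1 (by omega) hj
  exact hle hg

/-- The braid relation. -/
lemma braid {j : ℕ} (hj2 : 2 ≤ j) (hj : j + 1 ≤ D.t) :
    ∃ x ∈ D.M j, ∃ y ∈ D.M j, D.s j * D.s (j - 1) * (D.s j)⁻¹ = x * D.s j * y := by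
  obtain ⟨i, rfl⟩ : ∃ i, j = i + 1 := ⟨j - 1, by omega⟩
  simp only [Nat.add_sub_cancel]
  have h1 := D.hbraid i (by omega) (by omega)
  have h2 := D.hsq2 (i + 1) (by omega) hj
  have h3 : D.s i ∈ D.M (i + 1) := D.s_mem_M (by omega) le_rfl
  set a := D.s i
  set b := D.s (i + 1)
  refine ⟨a⁻¹, (D.M _).inv_mem h3, (b ^ 2)⁻¹ * a⁻¹ * (a * b) ^ 3 * (b ^ 2)⁻¹, ?_, ?_⟩
  · exact (D.M _).mul_mem ((D.M _).mul_mem ((D.M _).mul_mem ((D.M _).inv_mem (D.H_le_M _ h2))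
      ((D.M _).inv_mem h3)) (D.H_le_M _ h1)) ((D.M _).inv_mem (D.H_le_M _ h2))
  · simp only [pow_succ, pow_zero, one_mul]
    group

/-- The double coset decomposition of `M (j + 1)`. -/
theorem decomp {j : ℕ} (hj1 : 1 ≤ j) (hj : j + 1 ≤ D.t) {g : Perm α} (hg : g ∈ D.M (j + 1)) :
    g ∈ D.M j ∨ ∃ a ∈ D.M j, ∃ b ∈ D.M j, g = a * D.s j * b := by
  induction j, hj1 using Nat.le_induction generalizing g with
  | base =>
    rw [show (1 + 1) = 2 from rfl, D.M_two] at hg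
    rw [D.M_one]
    exact D.G_decomp hg
  | succ j hj1 ih =>
    set m := D.M (j + 1) with hm
    have hj2 : 2 ≤ j + 1 := by omega
    set s₀ := D.s (j + 1) with hs₀
    -- conjugates of `M (j + 1)`
    have hconj : ∀ x ∈ m, s₀ * x * s₀⁻¹ ∈ m ∨ ∃ a ∈ m, ∃ b ∈ m, s₀ * x * s₀⁻¹ = a * s₀ * b := by
      intro x hx
      have hsub : D.M j ≤ m := D.M_mono (by omega)
      rcases ih (by omega) hx with h | ⟨a, ha, b, hb, rfl⟩
      · left
        have := D.conj_M hj2 hj (g := x) (by simpa using h)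
        exact hsub (by simpa using this)
      · right
        have ha' := D.conj_M hj2 hj (g := a) (by simpa using ha)
        have hb' := D.conj_M hj2 hj (g := b) (by simpa using hb)
        obtain ⟨x', hx', y', hy', hxy⟩ := D.braid hj2 hj
        simp only [Nat.add_sub_cancel] at ha' hb' hxy
        refine ⟨s₀ * a * s₀⁻¹ * x', m.mul_mem (hsub ha') hx', y' * (s₀ * b * s₀⁻¹), m.mul_mem hy' (hsub hb'), ?_⟩
        have : s₀ * (a * D.s j * b) * s₀⁻¹ = (s₀ * a * s₀⁻¹) * (s₀ * D.s j * s₀⁻¹) * (s₀ * b * s₀⁻¹) := by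
          group
        rw [← hs₀] at hxy
        rw [this, hxy]
        simp only [mul_assoc]
    have hsq : s₀ ^ 2 ∈ m := D.H_le_M _ (D.hsq2 (j + 1) (by omega) hj)
    -- the set is stable under right multiplication
    let P : Perm α → Prop := fun g => g ∈ m ∨ ∃ a ∈ m, ∃ b ∈ m, g = a * s₀ * b
    have hPm : ∀ x y, y ∈ m → P x → P (x * y) := by
      intro x y hy hx
      rcases hx with hx | ⟨a, ha, b, hb, rfl⟩
      · exact Or.inl (m.mul_mem hx hy)
      · exact Or.inr ⟨a, ha, b * y, m.mul_mem hb hy, by group⟩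
    have hPs : ∀ x, P x → P (x * s₀) := by
      intro x hx
      rcases hx with hx | ⟨a, ha, b, hb, rfl⟩
      · exact Or.inr ⟨x, hx, 1, m.one_mem, by group⟩
      · have h1 : a * s₀ * b * s₀ = a * (s₀ * b * s₀⁻¹) * s₀ ^ 2 := by
          simp only [pow_two]
          group
        rw [h1]
        apply hPm _ _ hsq
        rcases hconj b hb with h2 | ⟨c, hc, d, hd, h2⟩
        · exact Or.inl (m.mul_mem ha h2)
        · rw [h2]
          exact Or.inr ⟨a * c, m.mul_mem ha hc, d, hd, by group⟩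
    have hgen : ∀ y ∈ (D.B : Set (Perm α)) ∪ {x | ∃ i : ℕ, 1 ≤ i ∧ i + 1 ≤ j + 1 + 1 ∧ x = D.s i},
        y ∈ m ∨ y = s₀ := by
      rintro y (hy | ⟨i, h1, h2, rfl⟩)
      · exact Or.inl (D.B_le_M _ hy)
      · by_cases hi : i = j + 1
        · right
          rw [hi]
        · left
          exact D.s_mem_M h1 (by omega)
    have hall : ∀ g ∈ D.M (j + 1 + 1), P g := by
      intro g hg
      induction hg using Subgroup.closure_induction_right with
      | one => exact Or.inl m.one_mem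
      | mul_right x hx y hy ih' =>
        rcases hgen y hy with h | h
        · exact hPm _ _ h ih'
        · rw [h]
          exact hPs _ ih'
      | mul_inv_cancel x hx y hy ih' =>
        rcases hgen y hy with h | h
        · exact hPm _ _ (m.inv_mem h) ih'
        · rw [h]
          have h1 : x * s₀⁻¹ = x * s₀ * (s₀ ^ 2)⁻¹ := by
            simp only [pow_two]
            group
          rw [h1]
          exact hPm _ _ (m.inv_mem hsq) (hPs _ ih')
    exact hall g hg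

/-- The stabiliser of `q (j + 1)` in `M (j + 1)` is `M j`. -/
theorem stab_step {j : ℕ} (hj1 : 1 ≤ j) (hj : j + 1 ≤ D.t) {g : Perm α} (hg : g ∈ D.M (j + 1))
    (hfix : g (D.q (j + 1)) = D.q (j + 1)) : g ∈ D.M j := by
  rcases D.decomp hj1 hj hg with h | ⟨a, ha, b, hb, rfl⟩
  · exact h
  · exfalso
    have hb1 : b (D.q (j + 1)) = D.q (j + 1) := D.M_fix hj1 (by omega) hj hb
    have ha1 : a (D.q (j + 1)) = D.q (j + 1) := D.M_fix hj1 (by omega) hj ha
    have hs : D.s j (D.q (j + 1)) = D.q j := by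
      by_cases hj' : j = 1
      · subst hj'
        exact D.hs1q.2
      · exact (D.hsq j (by omega) hj).2.1
    simp only [Perm.mul_apply, hb1, hs] at hfix
    have h1 : a (D.q j) = a (D.q (j + 1)) := by rw [hfix, ha1]
    have h2 := a.injective h1
    have h3 := D.hq j (j + 1) hj1 (by omega) (by omega) hj h2
    omega

/-- Transitivity of `M j` on the points other than `q l`, `l > j`. -/
theorem trans_M {j : ℕ} (hj1 : 1 ≤ j) (hj : j ≤ D.t) :
    ∀ w w' : α, (∀ l, j < l → l ≤ D.t → w ≠ D.q l) → (∀ l, j < l → l ≤ D.t → w' ≠ D.q l) →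
      ∃ g ∈ D.M j, g w = w' := by
  induction j, hj1 using Nat.le_induction with
  | base =>
    intro w w' hw hw'
    have ht := D.ht
    have hq2 : ∀ i, 3 ≤ i → i ≤ D.t → D.q 2 ≠ D.q i := fun i h3 h4 h5 => by
      have := D.hq 2 i (by omega) (by omega) (by omega) h4 h5
      omega
    obtain ⟨g, hg, h1, h2⟩ := D.h2 w (D.q 2) w' (D.q 2)
      (fun i h3 h4 => ⟨hw i (by omega) h4, hq2 i h3 h4, hw' i (by omega) h4, hq2 i h3 h4⟩)
      (hw 2 (by omega) ht) (hw' 2 (by omega) ht)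
    rw [D.M_one]
    exact ⟨g, ⟨hg, h2⟩, h1⟩
  | succ j hj1 ih =>
    intro w w' hw hw'
    have hjt : j ≤ D.t := by omega
    have hto : ∀ w, (∀ l, j + 1 < l → l ≤ D.t → w ≠ D.q l) → ∃ g ∈ D.M (j + 1), g w = D.q (j + 1) := by
      intro w hw
      by_cases h : w = D.q (j + 1)
      · exact ⟨1, (D.M _).one_mem, by simp [h]⟩
      · have hwj : ∀ l, j < l → l ≤ D.t → w ≠ D.q l := by
          intro l h1 h2
          by_cases hl : l = j + 1
          · rw [hl]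
            exact h
          · exact hw l (by omega) h2
        have hqj : ∀ l, j < l → l ≤ D.t → D.q j ≠ D.q l := by
          intro l h1 h2 h3
          have := D.hq j l hj1 hjt (by omega) h2 h3
          omega
        obtain ⟨g, hg, hg1⟩ := ih hjt w (D.q j) hwj hqj
        refine ⟨D.s j * g, (D.M _).mul_mem (D.s_mem_M hj1 le_rfl) (D.M_mono (by omega) hg), ?_⟩
        rw [Perm.mul_apply, hg1]
        by_cases hj' : j = 1
        · subst hj'
          exact D.hs1q.1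
        · exact (D.hsq j (by omega) hj).1
    obtain ⟨g₁, h1, h2⟩ := hto w hw
    obtain ⟨g₂, h3, h4⟩ := hto w' hw'
    refine ⟨g₂⁻¹ * g₁, (D.M _).mul_mem ((D.M _).inv_mem h3) h1, ?_⟩
    rw [Perm.mul_apply, h2, ← h4]
    simp

/-- Multiple transitivity. -/
theorem multi_trans {j : ℕ} (hj1 : 1 ≤ j) (hj : j ≤ D.t) :
    ∀ x y : Fin j → α, Function.Injective x → Function.Injective y →
      (∀ i l, j < l → l ≤ D.t → x i ≠ D.q l) → (∀ i l, j < l → l ≤ D.t → y i ≠ D.q l) →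
      ∃ g ∈ D.M j, ∀ i, g (x i) = y i := by
  induction j, hj1 using Nat.le_induction with
  | base =>
    intro x y _ _ hx hy
    obtain ⟨g, hg, h⟩ := D.trans_M le_rfl hj (x 0) (y 0) (hx 0) (hy 0)
    refine ⟨g, hg, fun i => ?_⟩
    have hi : i = 0 := Subsingleton.elim _ _
    rw [hi, h]
  | succ j hj1 ih =>
    intro x y hxi hyi hx hy
    have hjt : j ≤ D.t := by omega
    have hq1 : ∀ l, j + 1 < l → l ≤ D.t → D.q (j + 1) ≠ D.q l := by
      intro l h1 h2 h3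
      have := D.hq (j + 1) l (by omega) hj (by omega) h2 h3
      omega
    obtain ⟨g₁, h1, h2⟩ := D.trans_M (by omega) hj (x (Fin.last j)) (D.q (j + 1)) (hx _) hq1
    obtain ⟨g₂, h3, h4⟩ := D.trans_M (by omega) hj (y (Fin.last j)) (D.q (j + 1)) (hy _) hq1
    have hav : ∀ (z : Fin (j + 1) → α) (g : Perm α), Function.Injective z → g ∈ D.M (j + 1) →
        g (z (Fin.last j)) = D.q (j + 1) → (∀ i l, j + 1 < l → l ≤ D.t → z i ≠ D.q l) →
        ∀ (i : Fin j) l, j < l → l ≤ D.t → g (z i.castSucc) ≠ D.q l := by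
      intro z g hz hg hg1 hzq i l hl1 hl2 h5
      by_cases hl : l = j + 1
      · subst hl
        rw [← hg1] at h5
        have h6 := hz (g.injective h5)
        exact (Fin.castSucc_lt_last i).ne h6
      · have h7 : g (D.q l) = D.q l := D.M_fix (by omega) (by omega) hl2 hg
        rw [← h7] at h5
        exact hzq _ l (by omega) hl2 (g.injective h5)
    obtain ⟨m, hm, hm1⟩ := ih hjt (fun i => g₁ (x i.castSucc)) (fun i => g₂ (y i.castSucc))
      (fun a b hab => Fin.castSucc_injective _ (hxi (g₁.injective hab)))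
      (fun a b hab => Fin.castSucc_injective _ (hyi (g₂.injective hab)))
      (hav x g₁ hxi h1 h2 hx) (hav y g₂ hyi h3 h4 hy)
    refine ⟨g₂⁻¹ * m * g₁, (D.M _).mul_mem ((D.M _).mul_mem ((D.M _).inv_mem h3) (D.M_mono (by omega) hm)) h1, ?_⟩
    intro i
    refine Fin.lastCases ?_ (fun i => ?_) i
    · simp only [Perm.mul_apply]
      rw [h2, D.M_fix (by omega) (by omega) hj hm, ← h4]
      simp
    · simp only [Perm.mul_apply]
      rw [hm1 i]
      simp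

/-- Descending through the chain. -/
theorem descend {j : ℕ} (hj1 : 1 ≤ j) (hj : j ≤ D.t) {g : Perm α} (hg : g ∈ D.M j)
    (hfix : ∀ l, 1 ≤ l → l ≤ D.t → g (D.q l) = D.q l) : g ∈ D.M 1 := by
  induction j, hj1 using Nat.le_induction with
  | base => exact hg
  | succ j hj1 ih =>
    exact ih (by omega) (D.stab_step hj1 hj hg (hfix _ (by omega) hj))

end Data

/-- Witt's Lemma for constructing transitive extensions. Points `q 1, …, q t` (`t ≥ 2`) of a finite set are given; `G` fixes `q i` for `i ≥ 3` and is doubly transitive on the remaining points; `s 1 ∈ G` swaps `q 1, q 2`; for `2 ≤ i ≤ t-1`, `s i` swaps `q i, q (i+1)` and fixes the other `q j`; with `H` the stabiliser of `q 1, q 2` in `G`: `s i ^ 2 ∈ H`, `(s i * s (i+1)) ^ 3 ∈ H`, `(s i * s j) ^ 2 ∈ H` for `j ≥ i + 2`, and `s i` (`i ≥ 2`) normalises the stabiliser of `q 2` in `G`. Then `G` and the `s i` generate a `t`-transitive group whose pointwise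 stabiliser of the `q`'s is `H`. -/
theorem result {α : Type*} [Fintype α] [DecidableEq α] (t : ℕ) (ht : 2 ≤ t) (q : ℕ → α) (hq : ∀ i j : ℕ, 1 ≤ i → i ≤ t → 1 ≤ j → j ≤ t → q i = q j → i = j) (G : Subgroup (Equiv.Perm α)) (hfix : ∀ g ∈ G, ∀ i : ℕ, 3 ≤ i → i ≤ t → g (q i) = q i) (h2 : ∀ a b c d : α, (∀ i, 3 ≤ i → i ≤ t → a ≠ q i ∧ b ≠ q i ∧ c ≠ q i ∧ d ≠ q i) → a ≠ b → c ≠ d → ∃ g ∈ G, g a = c ∧ g b = d) (s : ℕ → Equiv.Perm α) (hs1 : s 1 ∈ G) (hs1q : s 1 (q 1) = q 2 ∧ s 1 (q 2) = q 1) (hsq : ∀ i : ℕ, 2 ≤ i → i + 1 ≤ t → s i (q i) = q (i + 1) ∧ s i (q (i + 1)) = q i ∧ ∀ j : ℕ, 1 ≤ j → j ≤ t → j ≠ i → j ≠ i + 1 → s i (q j) = q j) (H : Subgroup (Equiv.Perm α)) (hH : H = G ⊓ MulAction.stabilizer (Equiv.Perm α) (q 1) ⊓ MulAction.stabilizer (Equiv.Perm α) (q 2)) (hsq2 : ∀ i : ℕ, 1 ≤ i → i + 1 ≤ t → s i ^ 2 ∈ H) (hbraid : ∀ i : ℕ, 1 ≤ i → i + 2 ≤ t → (s i * s (i + 1)) ^ 3 ∈ H) (hcomm : ∀ i j : ℕ, 1 ≤ i → i + 2 ≤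 j → j + 1 ≤ t → (s i * s j) ^ 2 ∈ H ∧ (s j * s i) ^ 2 ∈ H) (hnorm : ∀ i : ℕ, 2 ≤ i → i + 1 ≤ t → ∀ g ∈ G ⊓ MulAction.stabilizer (Equiv.Perm α) (q 2), s i * g * (s i)⁻¹ ∈ G ⊓ MulAction.stabilizer (Equiv.Perm α) (q 2)) : MulAction.IsMultiplyPretransitive ↥(Subgroup.closure ((G : Set (Equiv.Perm α)) ∪ {x | ∃ i : ℕ, 2 ≤ i ∧ i + 1 ≤ t ∧ x = s i})) α t ∧ Subgroup.closure ((G : Set (Equiv.Perm α)) ∪ {x | ∃ i : ℕ, 2 ≤ i ∧ i + 1 ≤ t ∧ x = s i}) ⊓ fixingSubgroup (Equiv.Perm α) {x | ∃ i : ℕ, 1 ≤ i ∧ i ≤ t ∧ x = q i} = H := by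
  let D : Data α := ⟨t, ht, q, hq, G, hfix, h2, s, hs1, hs1q, hsq, H, hH, hsq2, hbraid, hcomm, hnorm⟩
  have hL : Subgroup.closure ((G : Set (Equiv.Perm α)) ∪ {x | ∃ i : ℕ, 2 ≤ i ∧ i + 1 ≤ t ∧ x = s i}) = D.M t := by
    apply le_antisymm
    · rw [Subgroup.closure_le]
      apply Set.union_subset
      · intro g hg
        have h3 : g ∈ D.M 2 := by
          rw [D.M_two]
          exact hg
        exact D.M_mono ht h3
      · rintro x ⟨i, h3, h4, rfl⟩
        exact D.s_mem_M (by omega) h4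
    · rw [Data.M, Subgroup.closure_le]
      apply Set.union_subset
      · intro g hg
        exact Subgroup.subset_closure (Or.inl hg.1)
      · rintro x ⟨i, h3, h4, rfl⟩
        by_cases hi : i = 1
        · rw [hi]
          exact Subgroup.subset_closure (Or.inl hs1)
        · exact Subgroup.subset_closure (Or.inr ⟨i, by omega, h4, rfl⟩)
  constructor
  · rw [hL]
    refine ⟨fun x y => ?_⟩
    obtain ⟨g, hg, hgxy⟩ := D.multi_trans (j := t) (by omega) le_rfl x y x.injective y.injective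
      (fun i l h3 h4 => by
        have : t < l := h3
        have : l ≤ t := h4
        omega)
      (fun i l h3 h4 => by
        have : t < l := h3
        have : l ≤ t := h4
        omega)
    refine ⟨⟨g, hg⟩, ?_⟩
    ext i
    exact hgxy i
  · rw [hL]
    apply le_antisymm
    · rintro g ⟨hg, hgf⟩
      have hgq : ∀ l, 1 ≤ l → l ≤ t → g (q l) = q l := by
        intro l h3 h4
        exact (mem_fixingSubgroup_iff (Equiv.Perm α)).mp hgf (q l) ⟨l, h3, h4, rfl⟩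
      have h3 : g ∈ D.M 1 := D.descend (j := t) (by omega) le_rfl hg hgq
      rw [D.M_one] at h3
      rw [hH]
      exact ⟨⟨h3.1, hgq 1 le_rfl (by omega)⟩, h3.2⟩
    · intro g hg
      refine ⟨D.H_le_M t hg, ?_⟩
      show g ∈ fixingSubgroup (Equiv.Perm α) _
      rw [mem_fixingSubgroup_iff]
      rintro _ ⟨l, h3, h4, rfl⟩
      rw [hH] at hg
      obtain ⟨⟨hg1, hg2⟩, hg3⟩ := hg
      by_cases hl1 : l = 1
      · rw [hl1]
        exact hg2
      · by_cases hl2 : l = 2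
        · rw [hl2]
          exact hg3
        · exact hfix g hg1 l (by omega) h4

end Cfsg.Agent.S0709
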