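import Cfsg.Statements.S0712
import Cfsg.Agent.Lib.Perm.Basic

set_option autoImplicit false
open Cfsg

namespace Cfsg.Agent.S0712

/-- Jordan: a primitive group in which the pointwise stabiliser of a set `s` is doubly transitive on the complement of `s` (which has at least 2 points) is `(|s| + 2)`-transitive. -/
theorem result {α : Type*} [Fintype α] [DecidableEq α] (G : Subgroup (Equiv.Perm α)) (hG : MulAction.IsPreprimitive G α) (s : Set α) {m : ℕ} (hsm : s.ncard = m) (hm : m + 2 ≤ Fintype.card α) (h2 : MulAction.IsMultiplyPretransitive (fixingSubgroup G s) (SubMulAction.ofFixingSubgroup G s) 2) : MulAction.IsMultiplyPretransitive G α (m + 2) := by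
  classical
  obtain ⟨t, rfl⟩ : ∃ t : Finset α, (t : Set α) = s := ⟨s.toFinite.toFinset, by simp⟩
  have htm : t.card = m := by simpa using hsm
  have hprim : MulAction.IsPreprimitive (fixingSubgroup G (t : Set α))
      (SubMulAction.ofFixingSubgroup G (t : Set α)) :=
    MulAction.isPreprimitive_of_is_two_pretransitive h2
  have hm0 : MulAction.IsMultiplyPretransitive G α m := by
    cases m with
    | zero => exact MulAction.is_zero_pretransitive'
    | succ n =>
      have hn : n + 2 < Nat.card α := by rw [Nat.card_eq_fintype_card]; omega
      have := hG.isMultiplyPreprimitive hsm hn hprim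
      have h2 : MulAction.IsMultiplyPretransitive G α (n + 2) := this.isMultiplyPretransitive
      exact MulAction.isMultiplyPretransitive_of_le' (Nat.le_succ _) (by
        rw [ENat.card_eq_coe_natCard]
        exact_mod_cast hn.le)
  exact Cfsg.Agent.Lib.Perm.Basic.of_fixing hm0 t htm h2

end Cfsg.Agent.S0712
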