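import Cfsg.Statements.S0714
import Mathlib

set_option autoImplicit false
set_option linter.unusedSectionVars false
open Cfsg

namespace Cfsg.Agent.S0714

variable {α : Type*} [Fintype α] [DecidableEq α]

/-- A three-cycle `a ↦ b ↦ c ↦ a`. -/
def c3 (a b c : α) : Equiv.Perm α := Equiv.swap a b * Equiv.swap b c

theorem c3_mem {a b c : α} (hab : a ≠ b) (hbc : b ≠ c) : c3 a b c ∈ alternatingGroup α := by
  rw [Equiv.Perm.mem_alternatingGroup, c3, map_mul, Equiv.Perm.sign_swap hab,
    Equiv.Perm.sign_swap hbc]
  simp

theorem c3_a {a b c : α} (hab : a ≠ b) (hac : a ≠ c) : c3 a b c a = b := by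
  simp [c3, Equiv.swap_apply_of_ne_of_ne hab hac]

theorem c3_b {a b c : α} (hbc : b ≠ c) (hac : a ≠ c) : c3 a b c b = c := by
  simp [c3, Equiv.swap_apply_of_ne_of_ne hac.symm hbc.symm]

theorem c3_c {a b c : α} : c3 a b c c = a := by
  simp [c3]

theorem c3_other {a b c x : α} (hxa : x ≠ a) (hxb : x ≠ b) (hxc : x ≠ c) : c3 a b c x = x := by
  simp [c3, Equiv.swap_apply_of_ne_of_ne hxb hxc, Equiv.swap_apply_of_ne_of_ne hxa hxb]

/-- The difference of two delta functions. -/
def D (K : Type*) [Field K] (x y : α) : α → K :=
  fun z => (if z = x then 1 else 0) - (if z = y then 1 else 0)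

/-- Over any field, the permutation module of the alternating group of degree at least 5 has exactly four invariant subspaces: zero, the constant functions, the functions with coordinate sum zero, and everything. -/
theorem result {α : Type*} [Fintype α] [DecidableEq α] (hα : 5 ≤ Fintype.card α) {K : Type*} [Field K] (W : Subrepresentation (Cfsg.permRep K (alternatingGroup α) α)) : W.toSubmodule = ⊥ ∨ W = Cfsg.permConstants K (alternatingGroup α) α ∨ W = Cfsg.permSumZero K (alternatingGroup α) α ∨ W.toSubmodule = ⊤ := by
  classical
  have hact : ∀ τ ∈ alternatingGroup α, ∀ f ∈ W.toSubmodule,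
      (fun x => f (τ x)) ∈ W.toSubmodule := by
    intro τ hτ f hf
    have := W.apply_mem_toSubmodule ((⟨τ, hτ⟩ : alternatingGroup α)⁻¹) hf
    convert this using 1
    funext x
    simp [Cfsg.permRep]
  have hsub : ∀ f g : α → K, f ∈ W.toSubmodule → g ∈ W.toSubmodule →
      (fun x => f x - g x) ∈ W.toSubmodule := fun f g hf hg => W.toSubmodule.sub_mem hf hg
  -- two-transitivity of the alternating group
  have h2 : MulAction.IsMultiplyPretransitive (alternatingGroup α) α 2 := by
    have h' : MulAction.IsMultiplyPretransitive (alternatingGroup α) α (Nat.card α - 2) :=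
      alternatingGroup.isMultiplyPretransitive α
    have hc : Nat.card α = Fintype.card α := Nat.card_eq_fintype_card
    exact MulAction.isMultiplyPretransitive_of_le (n := Nat.card α - 2) (by omega) (by omega)
  rw [MulAction.is_two_pretransitive_iff] at h2
  -- non constant functions generate the sum zero functions
  have hnonconst : ∀ f ∈ W.toSubmodule, ∀ a b : α, f a ≠ f b →
      (Cfsg.permSumZero K (alternatingGroup α) α).toSubmodule ≤ W.toSubmodule := by
    intro f hf a b hfab
    have hab : a ≠ b := fun h => hfab (by rw [h])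
    obtain ⟨c, hca, hcb⟩ : ∃ c : α, c ≠ a ∧ c ≠ b := by
      have : ({a, b} : Finset α).card < Fintype.card α := by
        have := Finset.card_le_two (a := a) (b := b)
        omega
      obtain ⟨c, -, hc⟩ := Finset.exists_mem_notMem_of_card_lt_card
        (s := ({a, b} : Finset α)) (t := Finset.univ) (by simpa using this)
      simp only [Finset.mem_insert, Finset.mem_singleton, not_or] at hc
      exact ⟨c, hc.1, hc.2⟩
    obtain ⟨d, e, hd, he, hde⟩ : ∃ d e : α, d ∉ ({a, b, c} : Finset α) ∧
        e ∉ ({a, b, c} : Finset α) ∧ d ≠ e := by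
      have hc3 : ({a, b, c} : Finset α).card ≤ 3 := Finset.card_le_three
      have : 1 < (Finset.univ \ ({a, b, c} : Finset α)).card := by
        rw [Finset.card_sdiff_of_subset (Finset.subset_univ _), Finset.card_univ]
        omega
      obtain ⟨d, hd, e, he, hde⟩ := Finset.one_lt_card.mp this
      simp only [Finset.mem_sdiff, Finset.mem_univ, true_and] at hd he
      exact ⟨d, e, hd, he, hde⟩
    simp only [Finset.mem_insert, Finset.mem_singleton, not_or] at hd he
    obtain ⟨hda, hdb, hdc⟩ := hd
    obtain ⟨hea, heb, hec⟩ := he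
    have hda' : d ≠ a := hda
    have hea' : e ≠ a := hea
    -- first difference
    let f₁ : α → K := fun x => f x - f (c3 a b c x)
    have hf₁ : f₁ ∈ W.toSubmodule :=
      hsub f _ hf (hact _ (c3_mem hab hcb.symm) f hf)
    have hf₁a : f₁ a ≠ 0 := by
      simp only [f₁]
      rw [c3_a hab hca.symm]
      exact sub_ne_zero.mpr hfab
    have hf₁0 : ∀ x, x ≠ a → x ≠ b → x ≠ c → f₁ x = 0 := by
      intro x h1 h2' h3
      simp only [f₁]
      rw [c3_other h1 h2' h3, sub_self]
    -- second difference
    let f₂ : α → K := fun x => f₁ x - f₁ (c3 a d e x)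
    have hf₂ : f₂ ∈ W.toSubmodule :=
      hsub f₁ _ hf₁ (hact _ (c3_mem hda'.symm hde) f₁ hf₁)
    have hD : D K a e ∈ W.toSubmodule := by
      have : D K a e = (f₁ a)⁻¹ • f₂ := by
        funext x
        simp only [D, Pi.smul_apply, smul_eq_mul, f₂]
        by_cases hxa : x = a
        · subst hxa
          rw [c3_a hda'.symm hea'.symm, hf₁0 d hda hdb hdc]
          simp [hea'.symm, hf₁a]
        by_cases hxd : x = d
        · subst hxd
          rw [c3_b hde (Ne.symm hea), hf₁0 x hda hdb hdc, hf₁0 e hea heb hec]
          simp [hxa, hde]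
        by_cases hxe : x = e
        · subst hxe
          rw [c3_c, hf₁0 x hea heb hec]
          simp [hxa, hf₁a]
        rw [c3_other hxa hxd hxe]
        simp [hxa, hxe]
      rw [this]
      exact W.toSubmodule.smul_mem _ hf₂
    have hDall : ∀ x y : α, D K x y ∈ W.toSubmodule := by
      intro x y
      by_cases hxy : x = y
      · have : D K x y = 0 := by
          funext z
          simp [D, hxy]
        rw [this]
        exact W.toSubmodule.zero_mem
      obtain ⟨τ, hτ1, hτ2⟩ := h2 hxy hea'.symm
      have : D K x y = fun z => D K a e ((τ : Equiv.Perm α) z) := by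
        funext z
        have h1 : (τ : Equiv.Perm α) z = a ↔ z = x := by
          rw [show a = τ • x from hτ1.symm]
          exact (MulAction.injective τ).eq_iff
        have h2' : (τ : Equiv.Perm α) z = e ↔ z = y := by
          rw [show e = τ • y from hτ2.symm]
          exact (MulAction.injective τ).eq_iff
        simp only [D, h1, h2']
      rw [this]
      exact hact _ τ.2 _ hD
    intro h hh
    have hsum : ∑ x, h x = 0 := hh
    have heq : h = ∑ x, h x • D K x a := by
      funext z
      simp only [Finset.sum_apply, Pi.smul_apply, D, smul_eq_mul, mul_sub, Finset.sum_sub_distrib,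
        ← Finset.sum_mul, hsum]
      simp
    rw [heq]
    exact W.toSubmodule.sum_mem fun x _ => W.toSubmodule.smul_mem _ (hDall x a)
  by_cases hconst : ∀ f ∈ W.toSubmodule, ∀ a b : α, f a = f b
  · -- constants
    by_cases hbot : W.toSubmodule = ⊥
    · exact Or.inl hbot
    right; left
    apply Subrepresentation.toSubmodule_injective
    obtain ⟨f, hf, hf0⟩ := (Submodule.ne_bot_iff _).mp hbot
    obtain ⟨x₀, hx₀⟩ : ∃ x, f x ≠ 0 := by
      by_contra hall
      push Not at hall
      exact hf0 (funext hall)
    apply le_antisymm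
    · intro g hg
      show g ∈ Submodule.span K {fun _ : α => (1 : K)}
      rw [Submodule.mem_span_singleton]
      refine ⟨g x₀, ?_⟩
      funext x
      simp [hconst g hg x x₀]
    · show Submodule.span K {fun _ : α => (1 : K)} ≤ W.toSubmodule
      rw [Submodule.span_singleton_le_iff_mem]
      have : (fun _ : α => (1 : K)) = (f x₀)⁻¹ • f := by
        funext x
        simp [hconst f hf x x₀, hx₀]
      rw [this]
      exact W.toSubmodule.smul_mem _ hf
  · right; right
    push Not at hconst
    obtain ⟨f, hf, a, b, hfab⟩ := hconst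
    have hle := hnonconst f hf a b hfab
    by_cases hW : W.toSubmodule ≤ (Cfsg.permSumZero K (alternatingGroup α) α).toSubmodule
    · left
      apply Subrepresentation.toSubmodule_injective
      exact le_antisymm hW hle
    · right
      rw [SetLike.not_le_iff_exists] at hW
      obtain ⟨h, hh, hh0⟩ := hW
      have hh0' : ∑ x, h x ≠ 0 := hh0
      rw [eq_top_iff]
      intro g _
      have hz : (fun x => g x - ((∑ y, g y) / (∑ y, h y)) * h x) ∈
          (Cfsg.permSumZero K (alternatingGroup α) α).toSubmodule := by
        show ∑ x, (g x - ((∑ y, g y) / (∑ y, h y)) * h x) = 0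
        rw [Finset.sum_sub_distrib, ← Finset.mul_sum]
        field_simp
        simp
      have h1 := hle hz
      have h2' := W.toSubmodule.smul_mem ((∑ y, g y) / (∑ y, h y)) hh
      have := W.toSubmodule.add_mem h1 h2'
      convert this using 1
      funext x
      simp

end Cfsg.Agent.S0714
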