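import Cfsg.Statements.S0721
import Mathlib

set_option autoImplicit false
open Cfsg

namespace Cfsg.Agent.S0721

universe u v

/-- Direct product of two normal subgroups which meet trivially. -/
lemma prodEquiv_sup {G : Type u} [Group G] (D S : Subgroup G) [D.Normal] [S.Normal] (hdisj : D ⊓ S = ⊥) :
    Nonempty (D × S ≃* ↥(D ⊔ S)) := by
  have hcomm : ∀ x ∈ D, ∀ y ∈ S, Commute x y := by
    intro x hx y hy
    exact Subgroup.commute_of_normal_of_disjoint D S inferInstance inferInstance
      (disjoint_iff.mpr hdisj) x y hx hy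
  let f : D × S →* G := MonoidHom.noncommCoprod D.subtype S.subtype
    (fun m n => hcomm m.1 m.2 n.1 n.2)
  have hf : ∀ p : D × S, f p = (p.1 : G) * (p.2 : G) := fun p => rfl
  have hinj : Function.Injective f := by
    rw [injective_iff_map_eq_one]
    rintro ⟨x, y⟩ hxy
    rw [hf] at hxy
    have h1 : (x : G) = (y : G)⁻¹ := eq_inv_of_mul_eq_one_left hxy
    have h2 : (x : G) ∈ D ⊓ S := ⟨x.2, by rw [h1]; exact S.inv_mem y.2⟩
    rw [hdisj, Subgroup.mem_bot] at h2
    have h3 : (y : G) = 1 := by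
      rw [h2, one_mul] at hxy
      exact hxy
    exact Prod.ext (Subtype.ext h2) (Subtype.ext h3)
  have hrange : f.range = D ⊔ S := by
    apply le_antisymm
    · rintro _ ⟨p, rfl⟩
      rw [hf]
      exact Subgroup.mul_mem_sup p.1.2 p.2.2
    · apply sup_le
      · intro x hx
        exact ⟨(⟨x, hx⟩, 1), by simp [hf]⟩
      · intro y hy
        exact ⟨(1, ⟨y, hy⟩), by simp [hf]⟩
  exact ⟨(MonoidHom.ofInjective hinj).trans (MulEquiv.subgroupCongr hrange)⟩

/-- `T^k × T ≃ T^(k+1)`. -/
def piSucc (T : Type u) [Group T] (k : ℕ) : (Fin k → T) × T ≃* (Fin (k + 1) → T) where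
  toFun p := Fin.cons p.2 p.1
  invFun f := (Fin.tail f, f 0)
  left_inv p := by simp
  right_inv f := by simp
  map_mul' p q := by
    ext i
    refine Fin.cases ?_ (fun j => ?_) i <;> simp

/-- A finite group generated by minimal normal subgroups isomorphic to `T` is a power of `T`. -/
lemma exists_pow_of_family {G : Type u} [Group G] [Finite G] {T : Type v} [Group T]
    (C : Set (Subgroup G)) (hnormal : ∀ S ∈ C, S.Normal)
    (hmin : ∀ S ∈ C, ∀ M : Subgroup G, M.Normal → M ≤ S → M = ⊥ ∨ M = S)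
    (hiso : ∀ S ∈ C, Nonempty (S ≃* T)) (htop : sSup C = ⊤) :
    ∃ m : ℕ, Nonempty (G ≃* (Fin m → T)) := by
  have main : ∀ D : Subgroup G, D.Normal → ∀ k : ℕ, Nonempty (D ≃* (Fin k → T)) →
      ∃ m : ℕ, Nonempty (G ≃* (Fin m → T)) := by
    intro D
    induction D using WellFoundedGT.induction with
    | ind D ih =>
      intro hD k ⟨e⟩
      by_cases hall : ∀ S ∈ C, S ≤ D
      · have hDtop : D = ⊤ := by
          rw [eq_top_iff, ← htop]
          exact sSup_le hall
        subst hDtop
        exact ⟨k, ⟨Subgroup.topEquiv.symm.trans e⟩⟩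
      · push Not at hall
        obtain ⟨S, hS, hSD⟩ := hall
        haveI := hnormal S hS
        haveI := hD
        have hinf : D ⊓ S = ⊥ := by
          rcases hmin S hS (D ⊓ S) inferInstance inf_le_right with h | h
          · exact h
          · exact absurd (inf_eq_right.mp h) hSD
        obtain ⟨e1⟩ := prodEquiv_sup D S hinf
        obtain ⟨e2⟩ := hiso S hS
        have hlt : D < D ⊔ S := by
          refine lt_of_le_of_ne le_sup_left ?_
          intro h
          apply hSD
          rw [h]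
          exact le_sup_right
        exact ih (D ⊔ S) hlt inferInstance (k + 1)
          ⟨e1.symm.trans ((MulEquiv.prodCongr e e2).trans (piSucc T k))⟩
  exact main ⊥ inferInstance 0 ⟨{
    toFun := fun _ => 1
    invFun := fun _ => 1
    left_inv := fun x => Subsingleton.elim _ _
    right_inv := fun x => Subsingleton.elim _ _
    map_mul' := fun x y => by simp }⟩

/-- A minimal normal subgroup in a group generated by minimal normal subgroups is simple. -/
lemma isSimple_of_family {G : Type u} [Group G] [Finite G]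
    (C : Set (Subgroup G)) (hnormal : ∀ S ∈ C, S.Normal)
    (hmin : ∀ S ∈ C, ∀ M : Subgroup G, M.Normal → M ≤ S → M = ⊥ ∨ M = S)
    (htop : sSup C = ⊤) (S : Subgroup G) (hS : S ∈ C) (hSne : S ≠ ⊥)
    (hne : ∀ S' ∈ C, S' ≠ ⊥) :
    IsSimpleGroup S := by
  rw [Subgroup.isSimpleGroup_iff]
  refine ⟨hSne, ?_⟩
  intro M hMS hMn
  haveI := hnormal S hS
  have hconj : ∀ S' ∈ C, ∀ y ∈ S', ∀ m ∈ M, y * m * y⁻¹ ∈ M := by
    intro S' hS' y hy m hm
    haveI := hnormal S' hS'
    rcases hmin S hS (S ⊓ S') inferInstance inf_le_left with h | h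
    · -- disjoint: `y` commutes with `S`
      have hcomm : Commute m y :=
        Subgroup.commute_of_normal_of_disjoint S S' inferInstance inferInstance
          (disjoint_iff.mpr h) m y (hMS hm) hy
      have : y * m * y⁻¹ = m := by
        rw [← hcomm.eq]
        group
      rwa [this]
    · have hSS' : S ≤ S' := inf_eq_left.mp h
      rcases hmin S' hS' S inferInstance hSS' with h' | h'
      · exact absurd h' hSne
      · have hyS : y ∈ S := by rw [h']; exact hy
        have := hMn.conj_mem ⟨m, hMS hm⟩ (Subgroup.mem_subgroupOf.mpr hm) ⟨y, hyS⟩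
        exact Subgroup.mem_subgroupOf.mp this
  have hnorm : ∀ S' ∈ C, S' ≤ Subgroup.normalizer (M : Set G) := by
    intro S' hS' y hy
    rw [Subgroup.mem_normalizer_iff]
    intro m
    constructor
    · exact hconj S' hS' y hy m
    · intro hm
      have := hconj S' hS' y⁻¹ (S'.inv_mem hy) _ hm
      simpa [mul_assoc] using this
  have htopn : Subgroup.normalizer (M : Set G) = ⊤ := by
    rw [eq_top_iff, ← htop]
    exact sSup_le hnorm
  have hMnormal : M.Normal := Subgroup.normalizer_eq_top_iff.mp htopn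
  exact hmin S hS M hMnormal hMS

/-- Existence of a minimal normal subgroup. -/
lemma exists_minimal_normal {G : Type u} [Group G] [Finite G] [Nontrivial G] :
    ∃ S : Subgroup G, S.Normal ∧ S ≠ ⊥ ∧ ∀ M : Subgroup G, M.Normal → M ≤ S → M = ⊥ ∨ M = S := by
  have hwf : WellFounded ((· < ·) : Subgroup G → Subgroup G → Prop) := wellFounded_lt
  let P : Set (Subgroup G) := {S | S.Normal ∧ S ≠ ⊥}
  have hP : P.Nonempty := ⟨⊤, inferInstance, top_ne_bot⟩
  obtain ⟨S, hS, hSmin⟩ := hwf.has_min P hP
  refine ⟨S, hS.1, hS.2, ?_⟩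
  intro M hM hMS
  by_cases hbot : M = ⊥
  · exact Or.inl hbot
  · right
    by_contra hne
    exact hSmin M ⟨hM, hbot⟩ (lt_of_le_of_ne hMS hne)

/-- A minimal normal subgroup of a finite group is isomorphic to a direct power `T ^ m` of a simple group `T` (possibly of prime order). -/
theorem result {H : Type*} [Group H] [Finite H] (N : Subgroup H) [N.Normal] (hN : N ≠ ⊥) (hmin : ∀ M : Subgroup H, M.Normal → M ≤ N → M = ⊥ ∨ M = N) : ∃ (T : Type) (_ : Group T) (m : ℕ), IsSimpleGroup T ∧ 0 < m ∧ Nonempty (N ≃* (Fin m → T)) := by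
  classical
  have hNnt : Nontrivial N := (Subgroup.nontrivial_iff_ne_bot N).mpr hN
  obtain ⟨S, hSn, hSne, hSmin⟩ := exists_minimal_normal (G := N)
  let φ : H → MulAut N := fun h => MulAut.conjNormal h
  let C : Set (Subgroup N) := Set.range fun h : H => S.map (φ h).toMonoidHom
  have hSC : S ∈ C := ⟨1, by
    simp only [φ, map_one]
    ext x
    simp⟩
  have hCnormal : ∀ S' ∈ C, S'.Normal := by
    rintro _ ⟨h, rfl⟩
    exact Subgroup.Normal.map hSn _ (φ h).surjective
  have hCmin : ∀ S' ∈ C, ∀ M : Subgroup N, M.Normal → M ≤ S' → M = ⊥ ∨ M = S' := by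
    rintro _ ⟨h, rfl⟩ M hM hMle
    have h1 : M.map (φ h).symm.toMonoidHom ≤ S := by
      rintro _ ⟨x, hx, rfl⟩
      obtain ⟨y, hy, rfl⟩ := hMle hx
      simpa using hy
    rcases hSmin _ (Subgroup.Normal.map hM _ (φ h).symm.surjective) h1 with h2 | h2
    · left
      rw [eq_bot_iff]
      intro x hx
      have h3 : (φ h).symm x ∈ M.map (φ h).symm.toMonoidHom := ⟨x, hx, rfl⟩
      rw [h2, Subgroup.mem_bot] at h3
      have := (φ h).symm.map_eq_one_iff.mp h3
      exact this ▸ Subgroup.one_mem _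
    · right
      rw [← h2]
      ext x
      constructor
      · intro hx
        exact ⟨(φ h).symm x, ⟨x, hx, rfl⟩, by simp⟩
      · rintro ⟨_, ⟨y, hy, rfl⟩, rfl⟩
        simpa using hy
  have hCiso : ∀ S' ∈ C, Nonempty (S' ≃* S) := by
    rintro _ ⟨h, rfl⟩
    exact ⟨(MulEquiv.subgroupMap (φ h) S).symm⟩
  have hCne : ∀ S' ∈ C, S' ≠ ⊥ := by
    rintro _ ⟨h, rfl⟩
    intro h1
    apply hSne
    have h2 : S.map (φ h).toMonoidHom = ⊥ := h1
    exact (Subgroup.map_eq_bot_iff_of_injective S (f := (φ h).toMonoidHom) (φ h).injective).mp h2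
  have htop : sSup C = ⊤ := by
    set K := sSup C with hK
    have hKinv : ∀ g : H, K.map (φ g).toMonoidHom ≤ K := by
      intro g
      rw [hK, Subgroup.map_le_iff_le_comap]
      apply sSup_le
      rintro _ ⟨h, rfl⟩
      rw [← Subgroup.map_le_iff_le_comap]
      apply le_sSup
      refine ⟨g * h, ?_⟩
      ext x
      simp only [φ, map_mul, Subgroup.mem_map, MulEquiv.coe_toMonoidHom, MulAut.mul_apply]
      constructor
      · rintro ⟨y, hy, rfl⟩
        exact ⟨_, ⟨y, hy, rfl⟩, rfl⟩
      · rintro ⟨_, ⟨y, hy, rfl⟩, rfl⟩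
        exact ⟨y, hy, rfl⟩
    have hnormal : (K.map N.subtype).Normal := by
      constructor
      rintro _ ⟨x, hx, rfl⟩ g
      have h1 : φ g x ∈ K := hKinv g ⟨x, hx, rfl⟩
      exact ⟨φ g x, h1, rfl⟩
    have hle : K.map N.subtype ≤ N := by
      rintro _ ⟨x, _, rfl⟩
      exact x.2
    rcases hmin _ hnormal hle with h | h
    · exfalso
      apply hSne
      have h1 : K = ⊥ := (Subgroup.map_eq_bot_iff_of_injective _ N.subtype_injective).mp h
      rw [eq_bot_iff, ← h1]
      exact le_sSup hSC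
    · rw [eq_top_iff]
      intro x _
      have hx : (x : H) ∈ K.map N.subtype := by
        rw [h]
        exact x.2
      obtain ⟨y, hy, hyx⟩ := hx
      have : y = x := Subtype.ext hyx
      rwa [← this]
  have hsimple : IsSimpleGroup S := isSimple_of_family C hCnormal hCmin htop S hSC hSne hCne
  obtain ⟨m, ⟨e⟩⟩ := exists_pow_of_family (T := S) C hCnormal hCmin hCiso htop
  let eS : S ≃ {i : ℕ // i < Nat.card S} := (Finite.equivFin S).trans Fin.equivSubtype
  letI gT : Group {i : ℕ // i < Nat.card S} := eS.symm.group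
  let eM : S ≃* {i : ℕ // i < Nat.card S} := (eS.symm.mulEquiv).symm
  have hsT : IsSimpleGroup {i : ℕ // i < Nat.card S} := eM.symm.isSimpleGroup
  refine ⟨{i : ℕ // i < Nat.card S}, gT, m, hsT, ?_, ⟨e.trans (MulEquiv.piCongrRight fun _ => eM)⟩⟩
  rcases Nat.eq_zero_or_pos m with rfl | hm
  · exfalso
    obtain ⟨x, hx⟩ := exists_ne (1 : N)
    apply hx
    apply e.injective
    exact funext fun i => i.elim0
  · exact hm

end Cfsg.Agent.S0721
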