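import Cfsg.Statements.S0722
import Mathlib

set_option autoImplicit false
open Cfsg

namespace Cfsg.Agent.S0722

/-- In a primitive group `H`, with `N` a minimal normal subgroup and `K` a point stabiliser, `K ⊓ N` is maximal among proper `K`-invariant subgroups of `N`. -/
theorem result {α : Type*} [Finite α] (H : Subgroup (Equiv.Perm α)) [MulAction.IsPreprimitive H α] (N : Subgroup H) [N.Normal] (hN : N ≠ ⊥) (hmin : ∀ M : Subgroup H, M.Normal → M ≤ N → M = ⊥ ∨ M = N) (a : α) (X : Subgroup H) (hX : X ≤ N) (hKX : MulAction.stabilizer H a ⊓ N ≤ X) (hinv : MulAction.stabilizer H a ≤ Subgroup.normalizer (X : Set H)) : X = MulAction.stabilizer H a ⊓ N ∨ X = N := by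
  classical
  rcases subsingleton_or_nontrivial α with hs | hnt
  · exfalso
    apply hN
    rw [eq_bot_iff]
    intro n _
    have : n = 1 := by
      apply Subtype.ext
      ext x
      exact Subsingleton.elim _ _
    simp [this]
  have hco : IsCoatom (MulAction.stabilizer H a) :=
    MulAction.IsPreprimitive.isCoatom_stabilizer_of_isPreprimitive H a
  set K := MulAction.stabilizer H a with hK
  -- the product `K X` as a subgroup
  let M : Subgroup H :=
    { carrier := {h | ∃ k ∈ K, ∃ x ∈ X, h = k * x}
      one_mem' := ⟨1, K.one_mem, 1, X.one_mem, by simp⟩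
      mul_mem' := by
        rintro _ _ ⟨k, hk, x, hx, rfl⟩ ⟨k', hk', x', hx', rfl⟩
        refine ⟨k * k', K.mul_mem hk hk', k'⁻¹ * x * k' * x', ?_, by group⟩
        apply X.mul_mem _ hx'
        have hn := hinv (K.inv_mem hk')
        have := (Subgroup.mem_normalizer_iff.mp hn x).mp hx
        simpa using this
      inv_mem' := by
        rintro _ ⟨k, hk, x, hx, rfl⟩
        refine ⟨k⁻¹, K.inv_mem hk, k * x⁻¹ * k⁻¹, ?_, by group⟩
        have hn := hinv hk
        exact (Subgroup.mem_normalizer_iff.mp hn x⁻¹).mp (X.inv_mem hx) }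
  have hKM : K ≤ M := fun k hk => ⟨k, hk, 1, X.one_mem, by simp⟩
  have hXM : X ≤ M := fun x hx => ⟨1, K.one_mem, x, hx, by simp⟩
  by_cases hMK : M ≤ K
  · left
    apply le_antisymm _ hKX
    intro x hx
    exact ⟨hMK (hXM hx), hX hx⟩
  · right
    have hlt : K < M := lt_of_le_not_ge hKM hMK
    have htop : M = ⊤ := hco.2 M hlt
    apply le_antisymm hX
    intro n hn
    have : n ∈ M := by rw [htop]; trivial
    obtain ⟨k, hk, x, hx, rfl⟩ := this
    have hkN : k ∈ N := by
      have := N.mul_mem hn (N.inv_mem (hX hx))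
      simpa using this
    exact X.mul_mem (hKX ⟨hk, hkN⟩) hx

end Cfsg.Agent.S0722
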