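import Cfsg.Statements.S0723
import Cfsg.Agent.Lib.Perm.ONan
import Cfsg.Agent.S0721
import Cfsg.Agent.S0722

set_option autoImplicit false
open Cfsg

namespace Cfsg.Agent.S0723

open Cfsg.Agent.Lib.Perm.ONan

set_option maxHeartbeats 1000000 in
/-- The core of the O'Nan–Scott Theorem. Let `H` be a primitive permutation group on a finite set whose unique minimal normal subgroup `N` is non-abelian, and `K` a point stabiliser. Then there are a non-abelian simple group `T` and an isomorphism `N ≃* T^m` (`m ≥ 1`) under which `K ⊓ N` becomes either a product `∏ K_i` of proper subgroups `K_i < T`, or the set of functions constant on each block of a partition of the index set into blocks of one common size `k ≥ 2`. -/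
theorem result {α : Type*} [Finite α] (H : Subgroup (Equiv.Perm α)) [MulAction.IsPreprimitive H α] (N : Subgroup H) [N.Normal] (hN : N ≠ ⊥) (hmin : ∀ M : Subgroup H, M.Normal → M ≤ N → M = ⊥ ∨ M = N) (huniq : ∀ L : Subgroup H, L.Normal → L ≠ ⊥ → (∀ M : Subgroup H, M.Normal → M ≤ L → M = ⊥ ∨ M = L) → L = N) (hnab : ¬ IsMulCommutative N) (a : α) : ∃ (T : Type) (_ : Group T) (m : ℕ) (e : N ≃* (Fin m → T)), IsSimpleGroup T ∧ ¬ IsMulCommutative T ∧ 0 < m ∧ ((∃ K : Fin m → Subgroup T, (∀ i, K i ≠ ⊤) ∧ ∀ n : N, (n : H) ∈ MulAction.stabilizer H a ↔ ∀ i, e n i ∈ K i) ∨ (∃ (k : ℕ) (c : Fin m → Fin m), 2 ≤ k ∧ (∀ j : Fin m, Nat.card {i : Fin m // c i = j} = k ∨ Nat.card {i : Fin m // c i = j} = 0) ∧ ∀ n : N, (n : H) ∈ MulAction.stabilizer H a ↔ ∀ i j : Fin m, c i = c j → e n i = e n j)) := by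
  classical
  haveI : Finite H := inferInstance
  obtain ⟨T, gT, m, hsT, hm, ⟨e₀⟩⟩ := Cfsg.Agent.S0721.result N hN hmin
  have hna : ¬ IsMulCommutative T := by
    intro hc
    apply hnab
    refine ⟨⟨fun x y => ?_⟩⟩
    apply e₀.injective
    rw [map_mul, map_mul]
    funext i
    exact hc.is_comm.comm _ _
  let Ψ : H →* MulAut (Fin m → T) := (MulAut.congr e₀).toMonoidHom.comp MulAut.conjNormal
  have hΨ : ∀ h f, Ψ h f = e₀ (MulAut.conjNormal h (e₀.symm f)) := fun _ _ => rfl
  set K := MulAction.stabilizer H a with hK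
  let L : Subgroup (Fin m → T) := (K.subgroupOf N).comap e₀.symm.toMonoidHom
  have hLmem : ∀ f, f ∈ L ↔ ((e₀.symm f : N) : H) ∈ K := fun f => Iff.rfl
  have hconj : ∀ (h : H) (n : N), ((MulAut.conjNormal h n : N) : H) = h * n * h⁻¹ := fun h n =>
    MulAut.conjNormal_apply h n
  have hL : ∀ k ∈ K, ∀ f ∈ L, Ψ k f ∈ L := by
    intro k hk f hf
    rw [hLmem, hΨ, MulEquiv.symm_apply_apply, hconj]
    exact K.mul_mem (K.mul_mem hk hf) (K.inv_mem hk)
  have hNK : ¬ N ≤ K := by
    intro hle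
    apply hN
    rw [eq_bot_iff]
    intro n hn
    rw [Subgroup.mem_bot]
    apply Subtype.ext
    ext x
    obtain ⟨h, rfl⟩ := MulAction.exists_smul_eq H a x
    have h1 : h⁻¹ * n * h ∈ N := by
      have := ‹N.Normal›.conj_mem n hn h⁻¹
      simpa using this
    have h2 : (h⁻¹ * n * h) • a = a := hle h1
    have h3 : n • (h • a) = h • a := by
      have : n • (h • a) = h • ((h⁻¹ * n * h) • a) := by
        simp [mul_smul]
      rw [this, h2]
    exact h3
  have hNtr : MulAction.IsPretransitive N α := by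
    apply MulAction.IsQuasiPreprimitive.isPretransitive_of_normal
    intro hfix
    apply hNK
    intro n hn
    have : a ∈ MulAction.fixedPoints N α := by rw [hfix]; trivial
    exact this ⟨n, hn⟩
  have hinner : ∀ h : H, ∃ k ∈ K, ∃ x : Fin m → T, ∀ f, Ψ h f = x * Ψ k f * x⁻¹ := by
    intro h
    obtain ⟨n, hn⟩ := hNtr.exists_smul_eq a (h • a)
    have hn' : (n : H) • a = h • a := hn
    have hk : (n : H)⁻¹ * h ∈ K := by
      show ((n : H)⁻¹ * h) • a = a
      rw [mul_smul, ← hn', inv_smul_smul]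
    refine ⟨_, hk, e₀ n, fun f => ?_⟩
    have h1 : h = (n : H) * ((n : H)⁻¹ * h) := by group
    nth_rw 1 [h1]
    rw [map_mul, MulAut.mul_apply, hΨ (n : H)]
    have h2 : MulAut.conjNormal (n : H) (e₀.symm (Ψ ((n : H)⁻¹ * h) f)) =
        n * e₀.symm (Ψ ((n : H)⁻¹ * h) f) * n⁻¹ := by
      apply Subtype.ext
      rw [hconj]
      rfl
    rw [h2, map_mul, map_mul, MulEquiv.apply_symm_apply, map_inv]
  have hmin' : ∀ P : Subgroup (Fin m → T), (∀ h, ∀ f ∈ P, Ψ h f ∈ P) → P = ⊥ ∨ P = ⊤ := by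
    intro P hP
    let P' : Subgroup H := (P.comap e₀.toMonoidHom).map N.subtype
    have hP'n : P'.Normal := by
      constructor
      rintro _ ⟨n, hn, rfl⟩ g
      refine ⟨MulAut.conjNormal g n, ?_, hconj g n⟩
      show e₀ (MulAut.conjNormal g n) ∈ P
      have := hP g (e₀ n) hn
      rwa [hΨ, MulEquiv.symm_apply_apply] at this
    have hP'N : P' ≤ N := by
      rintro _ ⟨n, -, rfl⟩
      exact n.2
    rcases hmin P' hP'n hP'N with h | h
    · left
      rw [eq_bot_iff]
      intro f hf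
      have h1 : ((e₀.symm f : N) : H) ∈ P' :=
        ⟨e₀.symm f, by
          show e₀ (e₀.symm f) ∈ P
          rwa [MulEquiv.apply_symm_apply], rfl⟩
      rw [h, Subgroup.mem_bot] at h1
      have h2 : e₀.symm f = 1 := Subtype.ext h1
      rw [Subgroup.mem_bot, ← e₀.apply_symm_apply f, h2, map_one]
    · right
      rw [eq_top_iff]
      intro f _
      have h1 : ((e₀.symm f : N) : H) ∈ P' := by
        rw [h]
        exact (e₀.symm f).2
      obtain ⟨n, hn, hnf⟩ := h1
      have h2 : n = e₀.symm f := Subtype.ext hnf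
      have h3 : e₀ n ∈ P := hn
      rwa [h2, MulEquiv.apply_symm_apply] at h3
  have hrel := rel_all hsT hna hinner hmin'
  by_cases hA : ∀ i t, ∃ f ∈ L, f i = t
  · obtain ⟨e', c, k₀, hc, hk, hiff⟩ := scott_final (Ψ := Ψ) (K := K) hsT hna hL hrel hA ⟨0, hm⟩
    refine ⟨T, gT, m, e₀.trans e', hsT, hna, hm, Or.inr ⟨k₀, c, ?_, hc, fun n => ?_⟩⟩
    · by_contra h2
      have h3 := hk (by omega)
      apply hNK
      intro n hn
      have h4 : e₀ ⟨n, hn⟩ ∈ L := by rw [h3]; trivial
      rw [hLmem] at h4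
      simpa using h4
    · have h4 := hiff (e₀ n)
      rw [hLmem, MulEquiv.symm_apply_apply] at h4
      exact h4
  · push Not at hA
    obtain ⟨i₁, t₁, h₁⟩ := hA
    let Ki : Fin m → Subgroup T := fun i => L.map (Pi.evalMonoidHom (fun _ => T) i)
    have hKi : ∀ i, Ki i ≠ ⊤ := by
      intro i htop
      obtain ⟨k, hk, β, hβ⟩ := hrel i i₁
      have h2 : β.symm t₁ ∈ Ki i := by rw [htop]; trivial
      obtain ⟨f, hf, hfi⟩ := h2
      apply h₁ (Ψ k f) (hL k hk f hf)
      rw [hβ]
      have : f i = β.symm t₁ := hfi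
      rw [this, MulEquiv.apply_symm_apply]
    let X : Subgroup (Fin m → T) :=
      { carrier := {f | ∀ i, f i ∈ Ki i}
        one_mem' := fun i => (Ki i).one_mem
        mul_mem' := fun hf hg i => (Ki i).mul_mem (hf i) (hg i)
        inv_mem' := fun hf i => (Ki i).inv_mem (hf i) }
    have hXinv : ∀ k ∈ K, ∀ f ∈ X, Ψ k f ∈ X := by
      intro k hk f hf j
      obtain ⟨i, β, hβ⟩ := coord_aut hsT hna (Ψ k) j
      rw [hβ]
      obtain ⟨g, hg, hgi⟩ := hf i
      have hgi' : g i = f i := hgi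
      rw [← hgi']
      exact proj_mem hL hk hβ hg
    let X' : Subgroup H := (X.comap e₀.toMonoidHom).map N.subtype
    have hX : X' ≤ N := by
      rintro _ ⟨n, -, rfl⟩
      exact n.2
    have hKX : K ⊓ N ≤ X' := by
      rintro y ⟨hyK, hyN⟩
      refine ⟨⟨y, hyN⟩, ?_, rfl⟩
      show e₀ ⟨y, hyN⟩ ∈ X
      intro i
      refine ⟨e₀ ⟨y, hyN⟩, ?_, rfl⟩
      show e₀ ⟨y, hyN⟩ ∈ L
      rw [hLmem, MulEquiv.symm_apply_apply]
      exact hyK
    have hone : ∀ k ∈ K, ∀ y ∈ X', k * y * k⁻¹ ∈ X' := by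
      rintro k hk _ ⟨n, hn, rfl⟩
      refine ⟨MulAut.conjNormal k n, ?_, hconj k n⟩
      show e₀ (MulAut.conjNormal k n) ∈ X
      have := hXinv k hk (e₀ n) hn
      rwa [hΨ, MulEquiv.symm_apply_apply] at this
    have hinv : K ≤ Subgroup.normalizer (X' : Set H) := by
      intro k hk
      rw [Subgroup.mem_normalizer_iff]
      intro y
      constructor
      · exact hone k hk y
      · intro hy
        have := hone k⁻¹ (K.inv_mem hk) _ hy
        have h2 : k⁻¹ * (k * y * k⁻¹) * k⁻¹⁻¹ = y := by group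
        rwa [h2] at this
    rcases Cfsg.Agent.S0722.result H N hN hmin a X' hX hKX hinv with h | h
    · refine ⟨T, gT, m, e₀, hsT, hna, hm, Or.inl ⟨Ki, hKi, fun n => ?_⟩⟩
      constructor
      · intro hn
        have h1 : (n : H) ∈ X' := by
          rw [h]
          exact ⟨hn, n.2⟩
        obtain ⟨n', hn', hnn⟩ := h1
        have h2 : n' = n := Subtype.ext hnn
        rw [← h2]
        exact hn'
      · intro hn
        have h1 : (n : H) ∈ X' := ⟨n, hn, rfl⟩
        rw [h] at h1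
        exact h1.1
    · exfalso
      have h1 : ((e₀.symm (Pi.mulSingle i₁ t₁) : N) : H) ∈ X' := by
        rw [h]
        exact (e₀.symm _).2
      obtain ⟨n, hn, hnf⟩ := h1
      have h2 : n = e₀.symm (Pi.mulSingle i₁ t₁) := Subtype.ext hnf
      have h3 : e₀ n ∈ X := hn
      rw [h2, MulEquiv.apply_symm_apply] at h3
      obtain ⟨g, hg, hgi⟩ := h3 i₁
      apply h₁ g hg
      have h4 : g i₁ = (Pi.mulSingle i₁ t₁ : Fin m → T) i₁ := hgi
      rw [h4]
      simp

end Cfsg.Agent.S0723
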