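import Cfsg.Statements.S0724
import Mathlib

set_option autoImplicit false
open Cfsg

namespace Cfsg.Agent.S0724

open Polynomial in
/-- Blichfeldt's Theorem: if a finite set `L` of natural numbers contains the number of fixed points of every non-identity element of a permutation group `G` of degree `n`, then the order of `G` divides `∏ (n - l)` over `l ∈ L`. -/
theorem result {α : Type*} [Fintype α] [DecidableEq α] (G : Subgroup (Equiv.Perm α)) (L : Finset ℕ) (hL : ∀ g ∈ G, g ≠ 1 → Nat.card (MulAction.fixedBy α g) ∈ L) : Nat.card G ∣ ∏ l ∈ L, (Fintype.card α - l) := by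
  classical
  -- if some `l ≥ n`, the product is zero
  by_cases hge : ∃ l ∈ L, Fintype.card α ≤ l
  · obtain ⟨l, hl, hle⟩ := hge
    rw [Finset.prod_eq_zero hl (Nat.sub_eq_zero_of_le hle)]
    exact dvd_zero _
  push Not at hge
  -- the polynomial over ℤ
  let P : ℤ[X] := ∏ l ∈ L, (X - C (l : ℤ))
  let fx : G → ℤ := fun g => (Nat.card (MulAction.fixedBy α (g : Equiv.Perm α)) : ℤ)
  have : Fintype G := Fintype.ofFinite _
  -- power sums are multiples of |G|
  have hpow : ∀ j : ℕ, (Nat.card G : ℤ) ∣ ∑ g : G, (fx g) ^ j := by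
    intro j
    -- Burnside for the action on `Fin j → α`
    have hb := MulAction.sum_card_fixedBy_eq_card_orbits_mul_card_group G (Fin j → α)
    have hcard : ∀ g : G, Fintype.card (MulAction.fixedBy (Fin j → α) g) = (Fintype.card (MulAction.fixedBy α (g : Equiv.Perm α))) ^ j := by
      intro g
      have e : (MulAction.fixedBy (Fin j → α) g) ≃ (Fin j → MulAction.fixedBy α (g : Equiv.Perm α)) :=
        { toFun := fun f i => ⟨f.1 i, by
            have := congrFun f.2 i
            exact this⟩
          invFun := fun f => ⟨fun i => (f i).1, by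
            funext i
            exact (f i).2⟩
          left_inv := fun f => by ext; rfl
          right_inv := fun f => by ext; rfl }
      rw [Fintype.card_congr e]
      simp
    have : (∑ g : G, (fx g) ^ j : ℤ) = ((Fintype.card (MulAction.orbitRel.Quotient G (Fin j → α)) * Fintype.card G : ℕ) : ℤ) := by
      rw [← hb]
      push_cast
      refine Finset.sum_congr rfl fun g _ => ?_
      rw [hcard g]
      simp [fx, Nat.card_eq_fintype_card]
    rw [this, Nat.card_eq_fintype_card]
    push_cast
    exact dvd_mul_left _ _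
  -- `∑ P(fx g)` is a multiple of `|G|`
  have hsum : (Nat.card G : ℤ) ∣ ∑ g : G, P.eval (fx g) := by
    have : ∀ g : G, P.eval (fx g) = ∑ j ∈ P.support, P.coeff j * (fx g) ^ j := by
      intro g
      rw [Polynomial.eval_eq_sum, Polynomial.sum]
    simp_rw [this]
    rw [Finset.sum_comm]
    refine Finset.dvd_sum fun j _ => ?_
    rw [← Finset.mul_sum]
    exact dvd_mul_of_dvd_right (hpow j) _
  -- `P(fx g) = 0` for `g ≠ 1`
  have hzero : ∀ g : G, g ≠ 1 → P.eval (fx g) = 0 := by
    intro g hg
    simp only [P, Polynomial.eval_prod]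
    apply Finset.prod_eq_zero (hL g.1 g.2 (by simpa using hg))
    simp only [Polynomial.eval_sub, Polynomial.eval_X, Polynomial.eval_C, fx, sub_self]
  have hone : P.eval (fx 1) = ∏ l ∈ L, ((Fintype.card α : ℤ) - l) := by
    simp only [P, Polynomial.eval_prod]
    refine Finset.prod_congr rfl fun l _ => ?_
    simp only [Polynomial.eval_sub, Polynomial.eval_X, Polynomial.eval_C, fx]
    congr 1
    have h1 : MulAction.fixedBy α ((1 : G) : Equiv.Perm α) = Set.univ := by
      ext x; simp
    rw [h1]
    simp
  have hs : ∑ g : G, P.eval (fx g) = P.eval (fx 1) := by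
    apply Finset.sum_eq_single_of_mem 1 (Finset.mem_univ _)
    intro g _ hg
    exact hzero g hg
  rw [hs, hone] at hsum
  have hcast : (∏ l ∈ L, ((Fintype.card α : ℤ) - l)) = ((∏ l ∈ L, (Fintype.card α - l) : ℕ) : ℤ) := by
    push_cast
    refine Finset.prod_congr rfl fun l hl => ?_
    rw [Nat.cast_sub (hge l hl).le]
  rw [hcast] at hsum
  exact_mod_cast hsum

end Cfsg.Agent.S0724
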