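import Cfsg.Statements.S0726

set_option autoImplicit false
open Cfsg

namespace Cfsg.Agent.S0726

theorem aux_mem_centralizer {G : Type*} [Group G] (σ : Equiv.Perm G)
    (hσ : σ ∈ Subgroup.centralizer ((MulAction.toPermHom G G).range : Set (Equiv.Perm G)))
    (g x : G) : σ (g * x) = g * σ x := by
  have h := (Subgroup.mem_centralizer_iff.mp hσ) (MulAction.toPermHom G G g) ⟨g, rfl⟩
  have h2 := congrArg (fun f : Equiv.Perm G => f x) h
  simpa [MulAction.toPermHom_apply, MulAction.toPerm_apply] using h2.symm

theorem aux_eq {G : Type*} [Group G] (σ τ : Equiv.Perm G)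
    (hσ : σ ∈ Subgroup.centralizer ((MulAction.toPermHom G G).range : Set (Equiv.Perm G)))
    (hτ : τ ∈ Subgroup.centralizer ((MulAction.toPermHom G G).range : Set (Equiv.Perm G)))
    (h1 : σ 1 = τ 1) : σ = τ := by
  ext x
  have a := aux_mem_centralizer σ hσ x 1
  have b := aux_mem_centralizer τ hτ x 1
  rw [mul_one] at a b
  rw [a, b, h1]

theorem aux_right_mem {G : Type*} [Group G] (c : Gᵐᵒᵖ) :
    (MulAction.toPermHom Gᵐᵒᵖ G c) ∈
      Subgroup.centralizer ((MulAction.toPermHom G G).range : Set (Equiv.Perm G)) := by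
  rw [Subgroup.mem_centralizer_iff]
  rintro _ ⟨g, rfl⟩
  ext x
  simp [MulAction.toPermHom_apply, MulAction.toPerm_apply, mul_assoc]

/-- The left and right regular permutation representations of a group are each other's centralisers in the symmetric group: the centraliser of the left regular image is the right regular image, and a transitive subgroup centralising the left regular image is the whole right regular image. -/
theorem result {G : Type*} [Group G] : Subgroup.centralizer ((MulAction.toPermHom G G).range : Set (Equiv.Perm G)) = (MulAction.toPermHom Gᵐᵒᵖ G).range ∧ ∀ H : Subgroup (Equiv.Perm G), H ≤ Subgroup.centralizer ((MulAction.toPermHom G G).range : Set (Equiv.Perm G)) → MulAction.IsPretransitive H G → H = (MulAction.toPermHom Gᵐᵒᵖ G).range := by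
  have key : Subgroup.centralizer ((MulAction.toPermHom G G).range : Set (Equiv.Perm G)) = (MulAction.toPermHom Gᵐᵒᵖ G).range := by
    apply le_antisymm
    · intro σ hσ
      refine ⟨MulOpposite.op (σ 1), ?_⟩
      apply aux_eq _ _ (aux_right_mem _) hσ
      simp [MulAction.toPermHom_apply, MulAction.toPerm_apply]
    · rintro _ ⟨c, rfl⟩
      exact aux_right_mem c
  refine ⟨key, fun H hH ht => ?_⟩
  apply le_antisymm
  · rw [← key]; exact hH
  · rintro _ ⟨c, rfl⟩
    obtain ⟨h, hh⟩ := ht.exists_smul_eq (1 : G) (MulAction.toPermHom Gᵐᵒᵖ G c (1 : G))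
    have hh' : (h : Equiv.Perm G) 1 = MulAction.toPermHom Gᵐᵒᵖ G c (1 : G) := hh
    have : (MulAction.toPermHom Gᵐᵒᵖ G c) = (h : Equiv.Perm G) :=
      aux_eq _ _ (aux_right_mem c) (hH h.2) hh'.symm
    rw [this]
    exact h.2

end Cfsg.Agent.S0726
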