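import Cfsg.Statements.S0728
import Mathlib

set_option autoImplicit false
set_option linter.style.haveILetI false
open Cfsg

namespace Cfsg.Agent.S0728

set_option maxHeartbeats 2000000 in
/-- In a sharply triply transitive group of even degree at least 6 (degree `q + 1`, `q` odd), a two-point stabiliser has at most one subgroup of order 3. -/
theorem result {α : Type*} [Fintype α] [DecidableEq α] (heven : Even (Fintype.card α)) (h6 : 6 ≤ Fintype.card α) (G : Subgroup (Equiv.Perm α)) (h3 : MulAction.IsMultiplyPretransitive G α 3) (hsharp : ∀ x : Fin 3 ↪ α, MulAction.stabilizer G x = ⊥) {a b : α} (hab : a ≠ b) (A B : Subgroup G) (hA : A ≤ MulAction.stabilizer G a ⊓ MulAction.stabilizer G b) (hB : B ≤ MulAction.stabilizer G a ⊓ MulAction.stabilizer G b) (hA3 : Nat.card A = 3) (hB3 : Nat.card B = 3) : A = B := by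
  classical
  have := Fact.mk Nat.prime_three
  haveI : Fintype G := Fintype.ofFinite G
  -- basic facts from sharp transitivity
  have key3 : ∀ (g : G) (x y z : α), x ≠ y → x ≠ z → y ≠ z → g • x = x → g • y = y → g • z = z →
      g = 1 := by
    intro g x y z hxy hxz hyz h1 h2 h3'
    let t : Fin 3 ↪ α := ⟨![x, y, z], by
      intro i j hij
      fin_cases i <;> fin_cases j <;> simp_all⟩
    have hg : g ∈ MulAction.stabilizer G t := by
      rw [MulAction.mem_stabilizer_iff]
      ext i
      fin_cases i
      · exact h1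
      · exact h2
      · exact h3'
    rw [hsharp t] at hg
    exact Subgroup.mem_bot.mp hg
  have trans3 : ∀ x y z x' y' z' : α, x ≠ y → x ≠ z → y ≠ z → x' ≠ y' → x' ≠ z' → y' ≠ z' →
      ∃ g : G, g • x = x' ∧ g • y = y' ∧ g • z = z' := by
    intro x y z x' y' z' hxy hxz hyz hxy' hxz' hyz'
    let t : Fin 3 ↪ α := ⟨![x, y, z], by
      intro i j hij
      fin_cases i <;> fin_cases j <;> simp_all⟩
    let t' : Fin 3 ↪ α := ⟨![x', y', z'], by
      intro i j hij
      fin_cases i <;> fin_cases j <;> simp_all⟩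
    haveI : MulAction.IsPretransitive G (Fin 3 ↪ α) := h3
    obtain ⟨g, hg⟩ := MulAction.exists_smul_eq G t t'
    refine ⟨g, ?_, ?_, ?_⟩
    · exact DFunLike.congr_fun hg (0 : Fin 3)
    · exact DFunLike.congr_fun hg (1 : Fin 3)
    · exact DFunLike.congr_fun hg (2 : Fin 3)
  -- the elements of order three
  let Y : Finset G := Finset.univ.filter fun w => w ≠ 1 ∧ w ^ 3 = 1
  have hmemY : ∀ w : G, w ∈ Y ↔ w ≠ 1 ∧ w ^ 3 = 1 := by
    intro w
    simp [Y]
  -- for `w ∈ Y`, orbits
  have hw3 : ∀ w ∈ Y, ∀ x : α, w • (w • (w • x)) = x := by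
    intro w hw x
    have h := ((hmemY w).mp hw).2
    rw [← mul_smul, ← mul_smul]
    have h' : w * w * w = 1 := by rw [← h, pow_succ, pow_two]
    rw [h', one_smul]
  have hmoved : ∀ w ∈ Y, ∀ x : α, w • x ≠ x → x ≠ w • x ∧ x ≠ w • (w • x) ∧ w • x ≠ w • (w • x) := by
    intro w hw x hx
    refine ⟨fun h => hx h.symm, ?_, ?_⟩
    · intro h
      apply hx
      have h3 := hw3 w hw x
      rw [← h] at h3
      exact h3
    · intro h
      exact hx (smul_left_cancel _ h).symm
  -- fixed point counts
  have hfixle : ∀ w ∈ Y, (Finset.univ.filter fun x : α => w • x = x).card ≤ 2 := by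
    intro w hw
    by_contra hlt
    rw [not_le, Finset.two_lt_card_iff] at hlt
    obtain ⟨x, y, z, hx, hy, hz, hxy, hxz, hyz⟩ := hlt
    simp only [Finset.mem_filter, Finset.mem_univ, true_and] at hx hy hz
    exact ((hmemY w).mp hw).1 (key3 w x y z hxy hxz hyz hx hy hz)
  have hfixmod : ∀ w ∈ Y, Fintype.card α ≡ (Finset.univ.filter fun x : α => w • x = x).card [MOD 3] := by
    intro w hw
    let f : Function.End α := fun x => w • x
    have hfpow : ∀ k : ℕ, ∀ x : α, (f ^ k) x = (w ^ k) • x := by
      intro k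
      induction k with
      | zero => intro x; rw [pow_zero, pow_zero, one_smul]; rfl
      | succ k ih =>
        intro x
        have h0 : (f ^ (k + 1)) x = f ((f ^ k) x) := by
          rw [pow_succ']
          rfl
        rw [h0, ih, pow_succ', mul_smul]
    have hfp : f ^ 3 ^ 1 = 1 := by
      rw [pow_one]
      funext x
      rw [hfpow 3 x, ((hmemY w).mp hw).2, one_smul]
      rfl
    have hmod := Equiv.Perm.card_fixedPoints_modEq (p := 3) (n := 1) (f := f) hfp
    have hc : Fintype.card (Function.fixedPoints f) = (Finset.univ.filter fun x : α => w • x = x).card := by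
      rw [Fintype.card_subtype]
      rfl
    rwa [hc] at hmod
  -- an element of `A`
  have hAne : ∃ w0 : G, w0 ∈ A ∧ w0 ≠ 1 := by
    have : Nontrivial A := by
      apply Finite.one_lt_card_iff_nontrivial.mp
      omega
    obtain ⟨x, hx⟩ := exists_ne (1 : A)
    exact ⟨x.1, x.2, fun h => hx (Subtype.ext h)⟩
  have hYorder : ∀ (C : Subgroup G), Nat.card C = 3 → ∀ w ∈ C, w ^ 3 = 1 := by
    intro C hC w hw
    have h := pow_card_eq_one' (x := (⟨w, hw⟩ : C))
    rw [hC] at h
    exact congrArg Subtype.val h
  obtain ⟨w0, hw0A, hw01⟩ := hAne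
  have hw0Y : w0 ∈ Y := (hmemY w0).mpr ⟨hw01, hYorder A hA3 w0 hw0A⟩
  have hw0a : w0 • a = a := (hA hw0A).1
  have hw0b : w0 • b = b := (hA hw0A).2
  have hfix0 : (Finset.univ.filter fun x : α => w0 • x = x).card = 2 := by
    apply le_antisymm (hfixle w0 hw0Y)
    have : ({a, b} : Finset α) ⊆ Finset.univ.filter fun x : α => w0 • x = x := by
      intro x hx
      simp only [Finset.mem_insert, Finset.mem_singleton] at hx
      rcases hx with rfl | rfl <;> simp [hw0a, hw0b]
    have h2 := Finset.card_le_card this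
    rwa [Finset.card_pair hab] at h2
  have hn2 : Fintype.card α ≡ 2 [MOD 3] := by
    have := hfixmod w0 hw0Y
    rwa [hfix0] at this
  have hfix2 : ∀ w ∈ Y, (Finset.univ.filter fun x : α => w • x = x).card = 2 := by
    intro w hw
    have h1 := hfixle w hw
    have h2 := hfixmod w hw
    have h3 := h2.symm.trans hn2
    unfold Nat.ModEq at h3
    omega
  set n := Fintype.card α with hn
  have hn0 : 2 ≤ n := by omega
  -- number of elements of `Y` moving `x`
  have hmovedcount : ∀ x : α, (Y.filter fun w => w • x ≠ x).card = (n - 1) * (n - 2) := by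
    intro x
    have hoff : ((Finset.univ.erase x).offDiag).card = (n - 1) * (n - 2) := by
      rw [Finset.offDiag_card, Finset.card_erase_of_mem (Finset.mem_univ x), Finset.card_univ, ← hn]
      obtain ⟨m, hm⟩ : ∃ m, n = m + 2 := ⟨n - 2, by omega⟩
      rw [hm]
      simp only [Nat.add_succ_sub_one, Nat.add_sub_cancel]
      have : (m + 1) * (m + 1) = (m + 1) * m + (m + 1) := by ring
      omega
    rw [← hoff]
    let φ : G → α × α := fun w => (w • x, w • (w • x))
    refine Finset.card_bij (fun (w : G) _ => φ w) ?_ ?_ ?_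
    · intro w hw
      rw [Finset.mem_filter] at hw
      obtain ⟨h1, h2, h3⟩ := hmoved w hw.1 x hw.2
      simp only [Finset.mem_offDiag, Finset.mem_erase, Finset.mem_univ, and_true, ne_eq]
      exact ⟨fun h => h1 h.symm, fun h => h2 h.symm, h3⟩
    · intro w hw w' hw' heq
      rw [Finset.mem_filter] at hw hw'
      have h1 : w • x = w' • x := congrArg Prod.fst heq
      have h2 : w • (w • x) = w' • (w' • x) := congrArg Prod.snd heq
      obtain ⟨h3, h4, h5⟩ := hmoved w hw.1 x hw.2
      have h6 := key3 (w'⁻¹ * w) x (w • x) (w • (w • x)) h3 h4 h5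
        (by rw [mul_smul, h1, inv_smul_smul])
        (by rw [mul_smul, h2]; nth_rw 1 [← h1]; rw [inv_smul_smul])
        (by
          rw [mul_smul, hw3 w hw.1 x]
          rw [inv_smul_eq_iff]
          rw [h2]
          exact (hw3 w' hw'.1 x).symm)
      exact (inv_mul_eq_one.mp h6).symm
    · rintro ⟨y, z⟩ hyz
      simp only [Finset.mem_offDiag, Finset.mem_erase, Finset.mem_univ, and_true, ne_eq] at hyz
      obtain ⟨hyx, hzx, hyz⟩ := hyz
      obtain ⟨g, h1, h2, h3⟩ := trans3 x y z y z x (Ne.symm hyx) (Ne.symm hzx) hyz hyz hyx hzx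
      have hg3 : g ^ 3 = 1 := by
        have h4 : g ^ 3 • x = x := by
          rw [pow_succ, pow_two, mul_smul, mul_smul, h1, h2, h3]
        have h5 : g ^ 3 • y = y := by
          rw [pow_succ, pow_two, mul_smul, mul_smul, h2, h3, h1]
        have h6 : g ^ 3 • z = z := by
          rw [pow_succ, pow_two, mul_smul, mul_smul, h3, h1, h2]
        exact key3 _ x y z (Ne.symm hyx) (Ne.symm hzx) hyz h4 h5 h6
      have hg1 : g ≠ 1 := by
        rintro rfl
        rw [one_smul] at h1
        exact hyx h1.symm
      refine ⟨g, ?_, ?_⟩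
      · rw [Finset.mem_filter]
        exact ⟨(hmemY g).mpr ⟨hg1, hg3⟩, by rw [h1]; exact hyx⟩
      · show (g • x, g • (g • x)) = (y, z)
        rw [h1, h2]
  -- conjugation
  have hthird : ∀ u v : α, ∃ c, c ≠ u ∧ c ≠ v := by
    intro u v
    by_contra hcon
    push Not at hcon
    have hsub : (Finset.univ : Finset α) ⊆ {u, v} := by
      intro c _
      by_cases hcu : c = u
      · simp [hcu]
      · simp [hcon c hcu]
    have h1 := Finset.card_le_card hsub
    have h2 : ({u, v} : Finset α).card ≤ 2 := Finset.card_le_two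
    rw [Finset.card_univ] at h1
    omega
  have hconjcount : ∀ u v : α, u ≠ v →
      (Y.filter fun w => w • u = u ∧ w • v = v).card = (Y.filter fun w => w • a = a ∧ w • b = b).card := by
    intro u v huv
    obtain ⟨c, hca, hcb⟩ := hthird a b
    obtain ⟨c', hcu, hcv⟩ := hthird u v
    obtain ⟨g, h1, h2, -⟩ := trans3 a b c u v c' hab (Ne.symm hca) (Ne.symm hcb) huv (Ne.symm hcu) (Ne.symm hcv)
    symm
    refine Finset.card_bij (fun (w : G) _ => g * w * g⁻¹) ?_ ?_ ?_
    · intro w hw
      rw [Finset.mem_filter] at hw ⊢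
      obtain ⟨hY, hwa, hwb⟩ := hw
      obtain ⟨hw1, hw3'⟩ := (hmemY w).mp hY
      refine ⟨(hmemY _).mpr ⟨?_, ?_⟩, ?_, ?_⟩
      · intro h
        apply hw1
        have : w = g⁻¹ * (g * w * g⁻¹) * g := by group
        rw [this, h]
        group
      · rw [conj_pow, hw3']
        group
      · rw [← h1]
        simp only [mul_smul, inv_smul_smul, hwa]
      · rw [← h2]
        simp only [mul_smul, inv_smul_smul, hwb]
    · intro w _ w' _ h
      exact mul_left_cancel (mul_right_cancel h)
    · intro w hw
      rw [Finset.mem_filter] at hw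
      obtain ⟨hY, hwa, hwb⟩ := hw
      obtain ⟨hw1, hw3'⟩ := (hmemY w).mp hY
      refine ⟨g⁻¹ * w * g, ?_, by group⟩
      rw [Finset.mem_filter]
      refine ⟨(hmemY _).mpr ⟨?_, ?_⟩, ?_, ?_⟩
      · intro h
        apply hw1
        have : w = g * (g⁻¹ * w * g) * g⁻¹ := by group
        rw [this, h]
        group
      · have := conj_pow (a := g⁻¹) (b := w) (i := 3)
        rw [inv_inv] at this
        rw [this, hw3']
        group
      · simp only [mul_smul, h1, hwa, inv_smul_smul]
        rw [← h1, inv_smul_smul]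
      · simp only [mul_smul, h2, hwb, inv_smul_smul]
        rw [← h2, inv_smul_smul]
  -- the count of `Y`
  have hmovedw : ∀ w ∈ Y, (Finset.univ.filter fun x : α => w • x ≠ x).card = n - 2 := by
    intro w hw
    have h1 := Finset.card_filter_add_card_filter_not (s := (Finset.univ : Finset α)) (fun x : α => w • x = x)
    rw [hfix2 w hw, Finset.card_univ] at h1
    simp only [ne_eq]
    omega
  have hYcard : Y.card * (n - 2) = n * ((n - 1) * (n - 2)) := by
    have h := Finset.sum_card_bipartiteAbove_eq_sum_card_bipartiteBelow (s := Y) (t := (Finset.univ : Finset α)) (fun (w : G) (x : α) => w • x ≠ x)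
    unfold Finset.bipartiteAbove Finset.bipartiteBelow at h
    rw [Finset.sum_congr rfl hmovedw, Finset.sum_congr rfl (fun x _ => hmovedcount x)] at h
    simpa [Finset.card_univ] using h
  have hn3 : 0 < n - 2 := by omega
  have hYcard' : Y.card = n * (n - 1) := by
    apply Nat.eq_of_mul_eq_mul_right hn3
    rw [hYcard]
    ring
  have hpairs : ∀ w ∈ Y, ((Finset.univ : Finset α).offDiag.filter fun p => w • p.1 = p.1 ∧ w • p.2 = p.2).card = 2 := by
    intro w hw
    have : ((Finset.univ : Finset α).offDiag.filter fun p => w • p.1 = p.1 ∧ w • p.2 = p.2) = (Finset.univ.filter fun x : α => w • x = x).offDiag := by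
      ext p
      simp only [Finset.mem_filter, Finset.mem_offDiag, Finset.mem_univ, true_and]
      tauto
    rw [this, Finset.offDiag_card, hfix2 w hw]
  set e := (Y.filter fun w => w • a = a ∧ w • b = b).card with he
  have hoffcount : ∀ p ∈ (Finset.univ : Finset α).offDiag, (Y.filter fun w => w • p.1 = p.1 ∧ w • p.2 = p.2).card = e := by
    intro p hp
    rw [Finset.mem_offDiag] at hp
    exact hconjcount p.1 p.2 hp.2.2
  have he2 : e = 2 := by
    have h := Finset.sum_card_bipartiteAbove_eq_sum_card_bipartiteBelow (s := Y) (t := (Finset.univ : Finset α).offDiag) (fun (w : G) (p : α × α) => w • p.1 = p.1 ∧ w • p.2 = p.2)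
    unfold Finset.bipartiteAbove Finset.bipartiteBelow at h
    rw [Finset.sum_congr rfl hpairs, Finset.sum_congr rfl hoffcount] at h
    simp only [Finset.sum_const, smul_eq_mul] at h
    rw [hYcard', Finset.offDiag_card, Finset.card_univ] at h
    have h1 : n * (n - 1) = n * n - n := by
      rw [Nat.mul_sub_one]
    rw [← hn, ← h1] at h
    have h2 : 0 < n * (n - 1) := Nat.mul_pos (by omega) (by omega)
    exact (Nat.eq_of_mul_eq_mul_left h2 h).symm
  -- conclusion
  have hsmall : (Y.filter fun w => w • a = a ∧ w • b = b) = {w0, w0⁻¹} := by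
    symm
    apply Finset.eq_of_subset_of_card_le
    · intro w hw
      simp only [Finset.mem_insert, Finset.mem_singleton] at hw
      rw [Finset.mem_filter]
      rcases hw with rfl | rfl
      · exact ⟨hw0Y, hw0a, hw0b⟩
      · refine ⟨(hmemY _).mpr ⟨?_, ?_⟩, ?_, ?_⟩
        · simpa using hw01
        · rw [inv_pow, ((hmemY w0).mp hw0Y).2, inv_one]
        · rw [inv_smul_eq_iff, hw0a]
        · rw [inv_smul_eq_iff, hw0b]
    · rw [← he, he2, Finset.card_pair]
      intro h
      have h1 : w0 ^ 2 = 1 := by
        rw [pow_two]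
        nth_rw 1 [h]
        group
      have h2 : w0 ^ 3 = 1 := ((hmemY w0).mp hw0Y).2
      apply hw01
      have h3 : w0 = w0 ^ 3 * (w0 ^ 2)⁻¹ := by group
      rw [h3, h1, h2]
      group
  have hBA : B ≤ A := by
    intro y hy
    by_cases hy1 : y = 1
    · rw [hy1]
      exact A.one_mem
    · have hmem : y ∈ (Y.filter fun w => w • a = a ∧ w • b = b) := by
        rw [Finset.mem_filter]
        exact ⟨(hmemY y).mpr ⟨hy1, hYorder B hB3 y hy⟩, (hB hy).1, (hB hy).2⟩
      rw [hsmall] at hmem
      simp only [Finset.mem_insert, Finset.mem_singleton] at hmem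
      rcases hmem with rfl | rfl
      · exact hw0A
      · exact A.inv_mem hw0A
  exact (Subgroup.eq_of_le_of_card_ge hBA (by omega)).symm

end Cfsg.Agent.S0728
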