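import Cfsg.Statements.S0732
import Cfsg.Agent.Lib.Zass.PrimeDeg

set_option autoImplicit false
open Cfsg

namespace Cfsg.Agent.S0732

/-- A transitive permutation group on `p + 1` points (`p` prime) of order `(p+1) p d` with `d < p` is isomorphic to `PGL(2,p)` with `d = p - 1`, or to `PSL(2,p)` with `2d = p - 1`, or else `p + 1 = 2^q` for a prime `q`, `d = 1` or `d = q`, and the group is permutation-isomorphic to a group of semi-affine maps `x ↦ a φ(x) + b` of the field with `2^q` elements. -/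
theorem result {α : Type*} [Fintype α] [DecidableEq α] {p d : ℕ} (hp : p.Prime) (hα : Fintype.card α = p + 1) (G : Subgroup (Equiv.Perm α)) [MulAction.IsPretransitive G α] (hG : Nat.card G = (p + 1) * p * d) (hd : d < p) : (d = p - 1 ∧ Nonempty (G ≃* Matrix.ProjGenLinGroup (Fin 2) (ZMod p))) ∨ (2 * d = p - 1 ∧ Nonempty (G ≃* Matrix.ProjectiveSpecialLinearGroup (Fin 2) (ZMod p))) ∨ (∃ q : ℕ, q.Prime ∧ p + 1 = 2 ^ q ∧ (d = 1 ∨ d = q) ∧ ∃ e : α ≃ GaloisField 2 q, ∀ g : G, (e.symm.trans (((g : Equiv.Perm α)).trans e)) ∈ Cfsg.semiaffineGroup (GaloisField 2 q)) := by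
  classical
  have D : Cfsg.Agent.Lib.Zass.PrimeDeg.PD G α p d :=
    { hp := hp
      card := hα
      trans := inferInstance
      faith := fun g g' h => Subtype.ext (Equiv.ext h)
      order := hG
      lt := hd }
  by_cases hd1 : d + 1 = p
  · left
    exact ⟨by omega, D.pgl_case hd1⟩
  have hp2 : p ≠ 2 := by
    rintro rfl
    have := D.d_pos
    omega
  by_cases hZ : IsZassenhausGroup G α
  · right
    left
    rcases Nat.even_or_odd d with h | h
    · obtain ⟨h1, h2⟩ := D.even_case h hd1 (fun a b hab => by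
        obtain ⟨⟨s, hso, hs1, hs2⟩, -, -⟩ := Cfsg.Agent.S0740.result hZ hab
        refine ⟨s, ?_, hs1, hs2⟩
        have := pow_orderOf_eq_one s
        rwa [hso, pow_two] at this)
      exact ⟨by omega, h2⟩
    · obtain ⟨h1, h2⟩ := Cfsg.Agent.Lib.Zass.PrimeDeg.PD.odd_case p d G D hZ h
      exact ⟨by omega, h2⟩
  · right
    right
    obtain ⟨N, hN, htr, hreg⟩ := D.exists_regular hZ
    obtain ⟨q, hq, hq2, hq3, e, he⟩ := D.regular_case hp2 N htr hreg
    refine ⟨q, hq, hq2, hq3, e, fun g => ?_⟩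
    obtain ⟨a', b', φ, h⟩ := he g
    exact ⟨a', b', φ, h⟩

end Cfsg.Agent.S0732
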