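import Cfsg.Statements.S0733
import Mathlib

set_option autoImplicit false
open Cfsg

namespace Cfsg.Agent.S0733

open scoped Pointwise

/-- A permutation group of affine type — generated by the translations of a finite vector space `V` over `ZMod p` together with a group `G₀` of linear automorphisms — is primitive on `V` if and only if `G₀` is irreducible on `V`. -/
theorem result {p : ℕ} [Fact p.Prime] {V : Type*} [AddCommGroup V] [Module (ZMod p) V] [Finite V] [Nontrivial V] (G₀ : Subgroup (V ≃ₗ[ZMod p] V)) (G : Subgroup (Equiv.Perm V)) (hG : ∀ σ : Equiv.Perm V, σ ∈ G ↔ ∃ g ∈ G₀, ∃ b : V, ∀ x : V, σ x = (g : V ≃ₗ[ZMod p] V) x + b) : MulAction.IsPreprimitive G V ↔ ∀ W : Submodule (ZMod p) V, (∀ g ∈ G₀, ∀ v ∈ W, (g : V ≃ₗ[ZMod p] V) v ∈ W) → W = ⊥ ∨ W = ⊤ := by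
  classical
  have _ : Fintype V := Fintype.ofFinite V
  -- translations lie in `G`
  have htr : ∀ b : V, (Equiv.addRight b) ∈ G := by
    intro b
    rw [hG]
    exact ⟨1, G₀.one_mem, b, fun x => by simp⟩
  have hsmul : ∀ (σ : G) (x : V), σ • x = (σ : Equiv.Perm V) x := fun _ _ => rfl
  have htrans : MulAction.IsPretransitive G V := by
    refine ⟨fun x y => ⟨⟨Equiv.addRight (y - x), htr _⟩, ?_⟩⟩
    rw [hsmul]
    simp
  constructor
  · intro hprim W hW
    -- `W` is a block
    have hblock : MulAction.IsBlock G (W : Set V) := by
      rw [MulAction.isBlock_iff_smul_eq_or_disjoint]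
      intro σ
      obtain ⟨g, hg, b, hσ⟩ := (hG σ.1).mp σ.2
      have hgW : ∀ v, v ∈ W ↔ (g : V ≃ₗ[ZMod p] V) v ∈ W := by
        intro v
        refine ⟨hW g hg v, fun hv => ?_⟩
        have := hW g⁻¹ (G₀.inv_mem hg) _ hv
        simpa using this
      by_cases hb : b ∈ W
      · left
        ext y
        rw [Set.mem_smul_set]
        constructor
        · rintro ⟨x, hx, rfl⟩
          rw [hsmul, hσ]
          exact W.add_mem (hW g hg x hx) hb
        · intro hy
          refine ⟨g.symm (y - b), ?_, ?_⟩
          · have := hW g⁻¹ (G₀.inv_mem hg) (y - b) (W.sub_mem hy hb)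
            simpa using this
          · rw [hsmul, hσ]
            simp
      · right
        rw [Set.disjoint_left]
        rintro y hy hyW
        obtain ⟨x, hx, rfl⟩ := hy
        have hyW' : (σ : Equiv.Perm V) x ∈ W := hyW
        rw [hσ] at hyW'
        apply hb
        have h1 := hW g hg x hx
        have := W.sub_mem hyW' h1
        simpa using this
    rcases hprim.isTrivialBlock_of_isBlock hblock with h | h
    · left
      rw [Submodule.eq_bot_iff]
      intro x hx
      exact h hx W.zero_mem
    · right
      rw [eq_top_iff]
      intro x _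
      have : x ∈ (W : Set V) := by rw [h]; trivial
      exact this
  · intro hirr
    have := htrans
    apply MulAction.IsPreprimitive.of_isTrivialBlock_base (0 : V)
    intro B h0 hB
    -- `B` is closed under addition
    have hadd : ∀ x ∈ B, ∀ y ∈ B, x + y ∈ B := by
      intro x hx y hy
      let τ : G := ⟨Equiv.addRight y, htr y⟩
      have hτ : τ • B = B := by
        apply MulAction.IsBlock.smul_eq_of_mem hB h0
        show τ • (0 : V) ∈ B
        rw [hsmul]; simpa [τ] using hy
      have : τ • x ∈ B := by
        rw [← hτ]
        exact Set.smul_mem_smul_set hx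
      rw [hsmul] at this
      simpa [τ] using this
    have hnsmul : ∀ (n : ℕ) (x : V), x ∈ B → n • x ∈ B := by
      intro n x hx
      induction n with
      | zero => simpa using h0
      | succ n ih =>
        rw [succ_nsmul]
        exact hadd _ ih _ hx
    let W : Submodule (ZMod p) V :=
      { carrier := B
        add_mem' := fun {a b} ha hb => hadd a ha b hb
        zero_mem' := h0
        smul_mem' := fun c x hx => by
          have := hnsmul c.val x hx
          have e : c • x = c.val • x := by
            conv_lhs => rw [← ZMod.natCast_zmod_val c]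
            rw [Nat.cast_smul_eq_nsmul]
          rw [e]
          exact this }
    have hinvW : ∀ g ∈ G₀, ∀ v ∈ W, (g : V ≃ₗ[ZMod p] V) v ∈ W := by
      intro g hg v hv
      let σ : G := ⟨(g : V ≃ₗ[ZMod p] V).toEquiv, by
        rw [hG]
        exact ⟨g, hg, 0, fun x => by simp⟩⟩
      have hσ : σ • B = B := by
        apply MulAction.IsBlock.smul_eq_of_mem hB h0
        rw [hsmul]
        simpa [σ] using h0
      have : σ • v ∈ B := by
        rw [← hσ]
        exact Set.smul_mem_smul_set hv
      rw [hsmul] at this
      exact this
    rcases hirr W hinvW with h | h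
    · left
      intro x hx y hy
      have hx' : x ∈ W := hx
      have hy' : y ∈ W := hy
      rw [h] at hx' hy'
      rw [(Submodule.mem_bot _).mp hx', (Submodule.mem_bot _).mp hy']
    · right
      ext x
      simp only [Set.mem_univ, iff_true]
      have : x ∈ W := by rw [h]; trivial
      exact this

end Cfsg.Agent.S0733
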