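import Cfsg.Statements.S0734
import Mathlib

set_option autoImplicit false
open Cfsg

namespace Cfsg.Agent.S0734

open scoped Pointwise

/-- Higman's criterion for primitivity: a transitive action on a finite set is primitive if and only if every non-trivial orbital graph (edges = images of a fixed pair of distinct points) is connected. -/
theorem result {G : Type*} [Group G] {Ω : Type*} [Finite Ω] [MulAction G Ω] [MulAction.IsPretransitive G Ω] [Nontrivial Ω] : MulAction.IsPreprimitive G Ω ↔ ∀ a b : Ω, a ≠ b → (SimpleGraph.fromRel fun x y : Ω => ∃ g : G, g • a = x ∧ g • b = y).Connected := by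
  classical
  constructor
  · intro hprim a b hab
    set Γ := SimpleGraph.fromRel fun x y : Ω => ∃ g : G, g • a = x ∧ g • b = y with hΓ
    -- adjacency is `G`-invariant
    have hadj : ∀ (g : G) (x y : Ω), Γ.Adj x y → Γ.Adj (g • x) (g • y) := by
      intro g x y h
      rw [hΓ, SimpleGraph.fromRel_adj] at h ⊢
      obtain ⟨hne, h⟩ := h
      refine ⟨fun h' => hne (MulAction.injective g h'), ?_⟩
      rcases h with ⟨k, rfl, rfl⟩ | ⟨k, rfl, rfl⟩
      · exact Or.inl ⟨g * k, by simp [mul_smul], by simp [mul_smul]⟩
      · exact Or.inr ⟨g * k, by simp [mul_smul], by simp [mul_smul]⟩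
    have hreach : ∀ (g : G) (x y : Ω), Γ.Reachable x y → Γ.Reachable (g • x) (g • y) := by
      intro g x y h
      obtain ⟨w⟩ := h
      induction w with
      | nil => exact SimpleGraph.Reachable.refl _
      | cons h _ ih => exact (SimpleGraph.Adj.reachable (hadj g _ _ h)).trans ih
    let B : Set Ω := {y | Γ.Reachable a y}
    have hblock : MulAction.IsBlock G B := by
      rw [MulAction.isBlock_iff_smul_eq_of_mem]
      intro g c hc hgc
      have hc' : Γ.Reachable a c := hc
      have hgc' : Γ.Reachable a (g • c) := hgc
      have hga : Γ.Reachable a (g • a) := hgc'.trans (hreach g a c hc').symm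
      ext y
      rw [Set.mem_smul_set]
      constructor
      · rintro ⟨x, hx, rfl⟩
        exact hga.trans (hreach g a x hx)
      · intro hy
        refine ⟨g⁻¹ • y, ?_, by simp⟩
        have hy' : Γ.Reachable a y := hy
        have h1 : Γ.Reachable (g⁻¹ • a) (g⁻¹ • y) := hreach g⁻¹ a y hy'
        have h2 : Γ.Reachable (g⁻¹ • a) a := by
          have := hreach g⁻¹ a (g • a) hga
          simpa using this
        exact h2.symm.trans h1
    have hab' : Γ.Adj a b := by
      rw [hΓ, SimpleGraph.fromRel_adj]
      exact ⟨hab, Or.inl ⟨1, by simp, by simp⟩⟩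
    have haB : a ∈ B := SimpleGraph.Reachable.refl _
    have hbB : b ∈ B := hab'.reachable
    rcases hprim.isTrivialBlock_of_isBlock hblock with h | h
    · exact absurd (h haB hbB) hab
    · have hall : ∀ y, Γ.Reachable a y := fun y => by
        have : y ∈ B := by rw [h]; trivial
        exact this
      rw [SimpleGraph.connected_iff]
      exact ⟨fun x y => (hall x).symm.trans (hall y), ⟨a⟩⟩
  · intro hconn
    refine ⟨?_⟩
    intro B hB
    by_cases hsub : B.Subsingleton
    · exact Or.inl hsub
    right
    rw [Set.not_subsingleton_iff] at hsub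
    obtain ⟨a, ha, b, hb, hab⟩ := hsub
    have hc := hconn a b hab
    set Γ := SimpleGraph.fromRel fun x y : Ω => ∃ g : G, g • a = x ∧ g • b = y with hΓ
    have hclosed : ∀ x y, Γ.Adj x y → x ∈ B → y ∈ B := by
      intro x y h hx
      rw [hΓ, SimpleGraph.fromRel_adj] at h
      obtain ⟨-, h⟩ := h
      rcases h with ⟨g, rfl, rfl⟩ | ⟨g, rfl, rfl⟩
      · have : g • B = B := MulAction.IsBlock.smul_eq_of_mem hB ha hx
        rw [← this]
        exact Set.smul_mem_smul_set hb
      · have : g • B = B := MulAction.IsBlock.smul_eq_of_mem hB hb hx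
        rw [← this]
        exact Set.smul_mem_smul_set ha
    rw [Set.eq_univ_iff_forall]
    intro y
    obtain ⟨w⟩ := hc.preconnected a y
    have : ∀ {u v : Ω} (w : Γ.Walk u v), u ∈ B → v ∈ B := by
      intro u v w
      induction w with
      | nil => exact id
      | cons h _ ih => exact fun hu => ih (hclosed _ _ h hu)
    exact this w ha

end Cfsg.Agent.S0734
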