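import Cfsg.Statements.S0742
import Cfsg.Agent.Lib.Zass.RootPSL
import Cfsg.Agent.S0738
import Cfsg.Agent.S0741

set_option autoImplicit false
open Cfsg

namespace Cfsg.Agent.S0742

/-- A finite Zassenhaus group of degree `n + 1` with two-point stabilisers of even order `d` satisfying `2d ≤ n - 1` has `n = p^f` for an odd prime `p` and is isomorphic to `PSL(2, p^f)`. -/
theorem result {G Ω : Type*} [Group G] [Finite G] [MulAction G Ω] [Fintype Ω] (hZ : Cfsg.IsZassenhausGroup G Ω) {a b : Ω} (hab : a ≠ b) (heven : Even (Nat.card ↥(MulAction.stabilizer G a ⊓ MulAction.stabilizer G b))) (hd : 2 * Nat.card ↥(MulAction.stabilizer G a ⊓ MulAction.stabilizer G b) ≤ Fintype.card Ω - 2) : ∃ (p f : ℕ) (K : Type) (_ : Field K) (_ : Fintype K), p.Prime ∧ p ≠ 2 ∧ Fintype.card K = p ^ f ∧ Fintype.card Ω = p ^ f + 1 ∧ Nonempty (G ≃* Matrix.ProjectiveSpecialLinearGroup (Fin 2) K) := by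
  classical
  have h41 := Cfsg.Agent.S0741.result hZ hab heven
  have hn : 2 * Nat.card ↥(MulAction.stabilizer G a ⊓ MulAction.stabilizer G b) + 2 = Fintype.card Ω := by
    have : 0 < Nat.card ↥(MulAction.stabilizer G a ⊓ MulAction.stabilizer G b) := Nat.card_pos
    omega
  set F : Subgroup G := Cfsg.Agent.Lib.Zass.Basic.kernelAt a b with hF
  have hFle : F ≤ MulAction.stabilizer G a := Cfsg.Agent.Lib.Zass.Basic.kernelAt_le a b
  have hFn := Cfsg.Agent.Lib.Zass.Basic.kernelAt_normal (G := G) a b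
  have hreg : ∀ y z : Ω, y ≠ a → z ≠ a → ∃! u : F, (u : G) • y = z :=
    fun y z hy hz => Cfsg.Agent.Lib.Zass.Basic.kernelAt_regular hZ hab hy hz
  obtain ⟨hcomm, p, f, hp, hexp, hcard⟩ := Cfsg.Agent.S0738.result hZ hab (by omega) F hFle hFn hreg
  have hcomm' : ∀ x ∈ F, ∀ y ∈ F, x * y = y * x := by
    intro x hx y hy
    have := hcomm.is_comm.comm ⟨x, hx⟩ ⟨y, hy⟩
    exact congrArg Subtype.val this
  have hFn' : ∀ g : G, g • a = a → ∀ u ∈ F, g * u * g⁻¹ ∈ F := by
    intro g hg u hu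
    have hu' : (⟨u, hFle hu⟩ : MulAction.stabilizer G a) ∈ F.subgroupOf (MulAction.stabilizer G a) := hu
    exact hFn.conj_mem _ hu' ⟨g, hg⟩
  obtain ⟨K, i1, i2, h1, h2, h3⟩ := Cfsg.Agent.Lib.Zass.RootPSL.psl_even hZ hab F hcomm' hFle hFn'
    (fun y hy => hreg b y (Ne.symm hab) hy) heven hn
  have hcardF := Cfsg.Agent.Lib.Zass.RootPSL.card_regular hab hFle (fun y hy => hreg b y (Ne.symm hab) hy)
  have hq : Nat.card F = p ^ f := by omega
  refine ⟨p, f, K, i1, i2, hp, ?_, h2.trans hq, hcard, h3⟩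
  rintro rfl
  have hd0 : 0 < Nat.card ↥(MulAction.stabilizer G a ⊓ MulAction.stabilizer G b) := Nat.card_pos
  have hf0 : f ≠ 0 := by
    rintro rfl
    simp at hcard
    omega
  have h4 : Even (2 ^ f) := (Nat.even_pow' hf0).mpr even_two
  obtain ⟨k, hk⟩ := h4
  omega

end Cfsg.Agent.S0742
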