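import Cfsg.Statements.S0746
import Cfsg.Agent.Lib.Perm.LWHomog
import Cfsg.Agent.S0736

set_option autoImplicit false
open Cfsg

namespace Cfsg.Agent.S0746

/-- The Livingstone–Wagner Theorem, first form: a `k`-homogeneous group of degree `n` with `4 ≤ 2k ≤ n` is `(k-1)`-transitive. -/
theorem result {α : Type*} [Fintype α] [DecidableEq α] (G : Subgroup (Equiv.Perm α)) {k : ℕ} (hk : 2 ≤ k) (hkn : 2 * k ≤ Fintype.card α) (hh : MulAction.IsPretransitive G (Set.powersetCard α k)) : MulAction.IsMultiplyPretransitive G α (k - 1) := by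
  classical
  induction k, hk using Nat.le_induction with
  | base =>
    have h1 := Cfsg.Agent.S0736.result G (k := 2) le_rfl hh (by
      intro q hq hq2
      have : q ≤ 2 := Nat.le_of_dvd (by norm_num) hq2
      omega)
    have h1' := Cfsg.Agent.Lib.Perm.Homogeneous.homog_iff.1 h1
    apply Cfsg.Agent.Lib.Perm.Basic.of_exists_agree
    intro s hs f _
    obtain ⟨a, rfl⟩ := Finset.card_eq_one.1 hs
    obtain ⟨g, hg⟩ := h1' {a} {f a} (by simp) (by simp)
    refine ⟨g, fun x hx => ?_⟩
    rw [Finset.mem_singleton] at hx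
    subst hx
    rw [Finset.smul_finset_singleton] at hg
    exact Finset.singleton_injective hg
  | succ k hk ih =>
    have h1 := Cfsg.Agent.S0736.result G (k := k + 1) (by omega) hh (by
      intro q hq hq2
      have : q ≤ k + 1 := Nat.le_of_dvd (by omega) hq2
      omega)
    have h2 := ih (by omega) h1
    by_contra hnt
    obtain ⟨t, rfl⟩ : ∃ t, k = t + 1 := ⟨k - 1, by omega⟩
    have := Cfsg.Agent.Lib.Perm.LWHomog.main (t := t) (G := G) (by omega) (by omega) h2 hnt h1 hh
    omega

end Cfsg.Agent.S0746
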