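import Cfsg.Statements.S0749
import Cfsg.Agent.Lib.Classical.Alt

set_option autoImplicit false
open Cfsg

namespace Cfsg.Agent.S0749

/-- Witt's Lemma for alternating forms. If B is a non-degenerate alternating bilinear form on a finite-dimensional vector space V (over any field) and φ is a linear equivalence between subspaces X and Y of V preserving B, then φ extends to a B-preserving linear automorphism of V. -/
theorem result {F V : Type*} [Field F] [AddCommGroup V] [Module F V] [FiniteDimensional F V] (B : LinearMap.BilinForm F V) (hB : B.Nondegenerate) (hA : B.IsAlt) (X Y : Submodule F V) (φ : X ≃ₗ[F] Y) (hφ : ∀ x x' : X, B (φ x : V) (φ x' : V) = B (x : V) (x' : V)) : ∃ g : V ≃ₗ[F] V, (∀ u v : V, B (g u) (g v) = B u v) ∧ ∀ x : X, g (x : V) = (φ x : V) := by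
  classical
  let b := Module.finBasis F X
  have hu : LinearIndependent F (fun i => (b i : V)) :=
    b.linearIndependent.map' X.subtype (Submodule.ker_subtype X)
  have hu' : LinearIndependent F (fun i => (φ (b i) : V)) :=
    (b.linearIndependent.map' (φ : X →ₗ[F] Y) (LinearEquiv.ker φ)).map' Y.subtype (Submodule.ker_subtype Y)
  obtain ⟨g, hg, hgb⟩ := Lib.Classical.Alt.witt_family hB hA (fun i => (b i : V)) (fun i => (φ (b i) : V)) hu hu'
    (fun i j => (hφ _ _).symm)
  refine ⟨g, fun u v => Lib.Classical.Alt.tGroup_le_isomGroup hA hg u v, fun x => ?_⟩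
  have h : (g : V →ₗ[F] V) ∘ₗ X.subtype = Y.subtype ∘ₗ (φ : X →ₗ[F] Y) := b.ext (fun i => hgb i)
  exact LinearMap.congr_fun h x

end Cfsg.Agent.S0749
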