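import Cfsg.Statements.S0755
import Cfsg.Agent.S0753
import Cfsg.Agent.Lib.Witt.Norm
import Cfsg.Agent.Lib.Witt.OrthStep

set_option autoImplicit false
open Cfsg

namespace Cfsg.Agent.S0755

open Cfsg.Agent.Lib.Witt

universe u v

theorem aux {F : Type u} [Field F] [Finite F] (σ : F →+* F) (hσ : σ ≠ RingHom.id F) (hσ2 : ∀ a : F, σ (σ a) = a)
    (n : ℕ) : ∀ (V : Type v) [AddCommGroup V] [Module F V] [FiniteDimensional F V]
    (B : V →ₛₗ[σ] V →ₗ[F] F) (_hS : B.IsSymm) (_hB : B.Nondegenerate) (_hn : Module.finrank F V = n),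
    ∃ b : Module.Basis (Fin n) F V, ∀ i j, B (b i) (b j) = if i = j then 1 else 0 := by
  induction n with
  | zero =>
    intro V _ _ _ B hS hB hn
    exact ⟨Module.finBasisOfFinrankEq F V hn, fun i => i.elim0⟩
  | succ n ih =>
    intro V _ _ _ B hS hB hn
    classical
    have : Fintype F := Fintype.ofFinite F
    have hnt : Nontrivial V := Module.nontrivial_of_finrank_pos (R := F) (by omega)
    obtain ⟨v, hv⟩ : ∃ v, B v v ≠ 0 := by
      by_contra hcon
      push Not at hcon
      have h0 := Cfsg.Agent.S0753.result σ hσ B hS hcon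
      obtain ⟨x, hx⟩ := exists_ne (0 : V)
      apply hx
      apply hB.1 x
      intro y
      rw [h0]
      rfl
    have hfix : σ (B v v) = B v v := hS.eq v v
    obtain ⟨l, hl⟩ := Norm.exists_norm_eq hσ hσ2 (B v v)⁻¹ (inv_ne_zero hv) (by rw [map_inv₀, hfix])
    have hl0 : l ≠ 0 := by
      rintro rfl
      simp at hl
      exact hv hl.symm
    set e := l • v with he
    have hee : B e e = 1 := by
      rw [he]
      simp only [map_smulₛₗ, LinearMap.smul_apply, smul_eq_mul, RingHom.id_apply]
      rw [show l * (σ l * B v v) = (l * σ l) * B v v by ring, hl]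
      field_simp
    have hee0 : B e e ≠ 0 := by rw [hee]; exact one_ne_zero
    have hfr := OrthStep.finrank_ker_add_one e hee0
    have hfr' : Module.finrank F (LinearMap.ker (B e)) = n := by omega
    obtain ⟨b, hb⟩ := ih (LinearMap.ker (B e)) (B.domRestrict₁₂ (LinearMap.ker (B e)) (LinearMap.ker (B e)))
      (LinearMap.IsSymm.domRestrict hS _) (OrthStep.restrict_nondeg hS hB e hee0) hfr'
    obtain ⟨b', h0, hs⟩ := OrthStep.exists_basis_cons e hee0 b
    refine ⟨b', fun i j => ?_⟩
    have hbe : ∀ i, B e (b i : V) = 0 := fun i => (b i).2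
    refine Fin.cases ?_ (fun i' => ?_) i <;> refine Fin.cases ?_ (fun j' => ?_) j
    · simp [h0, hee]
    · simp [h0, hs, hbe, (Fin.succ_ne_zero _).symm]
    · simp [h0, hs, OrthStep.form_flip_zero hS (hbe i')]
    · have := hb i' j'
      simp only [LinearMap.domRestrict₁₂_apply] at this
      simp [hs, this]

/-- Classification of Hermitian forms over finite fields: if σ is a non-identity involutive automorphism of the finite field F and B is a non-degenerate conjugate-symmetric σ-sesquilinear form on the finite-dimensional space V, then V has a B-orthonormal basis. -/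
theorem result {F V : Type*} [Field F] [Finite F] [AddCommGroup V] [Module F V] [FiniteDimensional F V] (σ : F →+* F) (hσ : σ ≠ RingHom.id F) (hσ2 : ∀ a : F, σ (σ a) = a) (B : V →ₛₗ[σ] V →ₗ[F] F) (hS : B.IsSymm) (hB : B.Nondegenerate) : ∃ b : Module.Basis (Fin (Module.finrank F V)) F V, ∀ i j, B (b i) (b j) = if i = j then 1 else 0 :=
  aux σ hσ hσ2 _ V B hS hB rfl

end Cfsg.Agent.S0755
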