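import Cfsg.Statements.S0756
import Cfsg.Agent.Lib.Witt.OrthStep

set_option autoImplicit false
open Cfsg

namespace Cfsg.Agent.S0756

open Cfsg.Agent.Lib.Witt

universe u v

variable {F : Type u} [Field F]

theorem symm_eq {V : Type v} [AddCommGroup V] [Module F V] {B : LinearMap.BilinForm F V} (hS : B.IsSymm) (x y : V) :
    B x y = B y x := hS.eq x y

/-- A non-zero form in characteristic not two takes a non-zero value on the diagonal. -/
theorem exists_aniso {V : Type v} [AddCommGroup V] [Module F V] (h2 : (2 : F) ≠ 0)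
    (B : LinearMap.BilinForm F V) (hS : B.IsSymm) (hB : B.Nondegenerate) [Nontrivial V] :
    ∃ v, B v v ≠ 0 := by
  by_contra hcon
  push Not at hcon
  obtain ⟨x, hx⟩ := exists_ne (0 : V)
  apply hx
  apply hB.1 x
  intro y
  have h := hcon (x + y)
  simp only [map_add, LinearMap.add_apply, hcon, zero_add, add_zero] at h
  rw [symm_eq hS y x] at h
  have h3 : 2 * B x y = 0 := by linear_combination h
  exact (mul_eq_zero.mp h3).resolve_left h2

/-- Two non-zero elements: `a x² + b y² = 1` is solvable. -/
theorem exists_binary [Finite F] (h2 : (2 : F) ≠ 0) (a b : F) (ha : a ≠ 0) (hb : b ≠ 0) :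
    ∃ x y : F, a * (x * x) + b * (y * y) = 1 := by
  classical
  have : Fintype F := Fintype.ofFinite F
  have hchar : ringChar F ≠ 2 := by
    intro h
    apply h2
    have := ringChar.Nat.cast_ringChar (R := F)
    rw [h] at this
    exact_mod_cast this
  have hodd : Fintype.card F % 2 = 1 := FiniteField.odd_card_of_char_ne_two hchar
  let f : Polynomial F := Polynomial.C a * Polynomial.X ^ 2
  let g : Polynomial F := Polynomial.C b * Polynomial.X ^ 2 - Polynomial.C 1
  have hf : f.degree = 2 := by
    simp only [f]
    rw [Polynomial.degree_C_mul ha, Polynomial.degree_X_pow]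
    rfl
  have hg : g.degree = 2 := by
    simp only [g]
    have h3 : (Polynomial.C b * Polynomial.X ^ 2 : Polynomial F).degree = 2 := by
      rw [Polynomial.degree_C_mul hb, Polynomial.degree_X_pow]
      rfl
    rw [Polynomial.degree_sub_eq_left_of_degree_lt, h3]
    rw [h3, Polynomial.degree_C one_ne_zero]
    norm_num
  obtain ⟨x, y, hxy⟩ := FiniteField.exists_root_sum_quadratic hf hg hodd
  refine ⟨x, y, ?_⟩
  simp only [f, g, Polynomial.eval_sub, Polynomial.eval_mul, Polynomial.eval_C, Polynomial.eval_pow, Polynomial.eval_X] at hxy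
  linear_combination hxy

/-- A unit vector exists in dimension at least two. -/
theorem exists_unit {V : Type v} [AddCommGroup V] [Module F V] [FiniteDimensional F V] [Finite F]
    (h2 : (2 : F) ≠ 0) (B : LinearMap.BilinForm F V) (hS : B.IsSymm) (hB : B.Nondegenerate)
    (hdim : 2 ≤ Module.finrank F V) : ∃ e, B e e = 1 := by
  have hnt : Nontrivial V := Module.nontrivial_of_finrank_pos (R := F) (by omega)
  obtain ⟨v, hv⟩ := exists_aniso h2 B hS hB
  have hfr := OrthStep.finrank_ker_add_one (σ := RingHom.id F) (B := B) v hv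
  have hnt' : Nontrivial (LinearMap.ker (B v)) := Module.nontrivial_of_finrank_pos (R := F) (by omega)
  have hS2 : LinearMap.IsSymm B := LinearMap.BilinForm.isSymm_iff.mp hS
  have hS' : LinearMap.BilinForm.IsSymm (B.domRestrict₁₂ (LinearMap.ker (B v)) (LinearMap.ker (B v))) :=
    LinearMap.BilinForm.isSymm_iff.mpr (LinearMap.IsSymm.domRestrict hS2 _)
  obtain ⟨w, hw⟩ := exists_aniso h2 (B.domRestrict₁₂ (LinearMap.ker (B v)) (LinearMap.ker (B v))) hS'
    (OrthStep.restrict_nondeg (σ := RingHom.id F) hS2 hB v hv)
  simp only [LinearMap.domRestrict₁₂_apply] at hw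
  obtain ⟨x, y, hxy⟩ := exists_binary h2 (B v v) (B w w) hv hw
  refine ⟨x • v + y • (w : V), ?_⟩
  have hvw : B v (w : V) = 0 := w.2
  have hwv : B (w : V) v = 0 := by rw [symm_eq hS, hvw]
  simp only [map_add, map_smul, LinearMap.add_apply, LinearMap.smul_apply, smul_eq_mul, hvw, hwv]
  linear_combination hxy

/-- Inductive form. -/
theorem aux [Finite F] (h2 : (2 : F) ≠ 0) (α : F) (hα : ¬ IsSquare α) (n : ℕ) :
    ∀ (V : Type v) [AddCommGroup V] [Module F V] [FiniteDimensional F V]
    (B : LinearMap.BilinForm F V) (_hS : B.IsSymm) (_hB : B.Nondegenerate) (_hn : Module.finrank F V = n + 1),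
    ∃ b : Module.Basis (Fin (n + 1)) F V, (∀ i j, i ≠ j → B (b i) (b j) = 0) ∧ (∀ i, i ≠ Fin.last n → B (b i) (b i) = 1) ∧ (B (b (Fin.last n)) (b (Fin.last n)) = 1 ∨ B (b (Fin.last n)) (b (Fin.last n)) = α) := by
  induction n with
  | zero =>
    intro V _ _ _ B hS hB hn
    classical
    have : Fintype F := Fintype.ofFinite F
    have hnt : Nontrivial V := Module.nontrivial_of_finrank_pos (R := F) (by omega)
    obtain ⟨v, hv⟩ := exists_aniso h2 B hS hB
    -- normalise
    obtain ⟨e, hee⟩ : ∃ e, B e e = 1 ∨ B e e = α := by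
      have hchar : ringChar F ≠ 2 := by
        intro h
        apply h2
        have := ringChar.Nat.cast_ringChar (R := F)
        rw [h] at this
        exact_mod_cast this
      by_cases hsq : IsSquare (B v v)
      · obtain ⟨s, hs⟩ := hsq
        have hs0 : s ≠ 0 := by
          rintro rfl
          apply hv
          rw [hs, mul_zero]
        refine ⟨s⁻¹ • v, Or.inl ?_⟩
        simp only [map_smul, LinearMap.smul_apply, smul_eq_mul, hs]
        field_simp
      · -- product of two non-squares is a square
        have hα0 : α ≠ 0 := by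
          rintro rfl
          exact hα IsSquare.zero
        have h1 : quadraticChar F (B v v) = -1 := quadraticChar_neg_one_iff_not_isSquare.mpr hsq
        have h3 : quadraticChar F α = -1 := quadraticChar_neg_one_iff_not_isSquare.mpr hα
        have h4 : quadraticChar F (B v v * α) = 1 := by rw [map_mul, h1, h3]; norm_num
        obtain ⟨t, ht⟩ := (quadraticChar_one_iff_isSquare (mul_ne_zero hv hα0)).mp h4
        have ht0 : t ≠ 0 := by
          rintro rfl
          exact mul_ne_zero hv hα0 (by rw [ht, mul_zero])
        refine ⟨(α / t) • v, Or.inr ?_⟩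
        simp only [map_smul, LinearMap.smul_apply, smul_eq_mul]
        have h5 : B v v = t * t / α := by
          field_simp
          linear_combination ht
        rw [h5]
        field_simp
    have hee0 : B e e ≠ 0 := by
      rcases hee with h | h
      · rw [h]; exact one_ne_zero
      · rw [h]
        rintro rfl
        exact hα IsSquare.zero
    have hfr := OrthStep.finrank_ker_add_one (σ := RingHom.id F) (B := B) e hee0
    have hfr0 : Module.finrank F (LinearMap.ker (B e)) = 0 := by omega
    obtain ⟨b', h0, hs⟩ := OrthStep.exists_basis_cons (σ := RingHom.id F) (B := B) e hee0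
      (Module.finBasisOfFinrankEq F _ hfr0)
    refine ⟨b', ?_, ?_, ?_⟩
    · intro i j hij
      exact absurd (Subsingleton.elim (α := Fin 1) i j) hij
    · intro i hi
      exact absurd (Subsingleton.elim (α := Fin 1) i _) hi
    · have hl : Fin.last 0 = (0 : Fin 1) := rfl
      rw [hl, h0]
      exact hee
  | succ n ih =>
    intro V _ _ _ B hS hB hn
    obtain ⟨e, hee⟩ := exists_unit h2 B hS hB (by omega)
    have hee0 : B e e ≠ 0 := by rw [hee]; exact one_ne_zero
    have hfr := OrthStep.finrank_ker_add_one (σ := RingHom.id F) (B := B) e hee0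
    have hfr' : Module.finrank F (LinearMap.ker (B e)) = n + 1 := by omega
    have hS2 : LinearMap.IsSymm B := LinearMap.BilinForm.isSymm_iff.mp hS
    obtain ⟨b, hb1, hb2, hb3⟩ := ih (LinearMap.ker (B e)) (B.domRestrict₁₂ (LinearMap.ker (B e)) (LinearMap.ker (B e)))
      (LinearMap.BilinForm.isSymm_iff.mpr (LinearMap.IsSymm.domRestrict hS2 _)) (OrthStep.restrict_nondeg (σ := RingHom.id F) hS2 hB e hee0) hfr'
    simp only [LinearMap.domRestrict₁₂_apply] at hb1 hb2 hb3
    obtain ⟨b', h0, hs⟩ := OrthStep.exists_basis_cons (σ := RingHom.id F) (B := B) e hee0 b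
    have hbe : ∀ i, B e (b i : V) = 0 := fun i => (b i).2
    have hbe' : ∀ i, B (b i : V) e = 0 := fun i => by rw [symm_eq hS]; exact hbe i
    have hlast : Fin.last (n + 1) = (Fin.last n).succ := (Fin.succ_last n).symm
    refine ⟨b', ?_, ?_, ?_⟩
    · intro i j
      refine Fin.cases ?_ (fun i' => ?_) i <;> refine Fin.cases ?_ (fun j' => ?_) j
      · intro h; exact absurd rfl h
      · intro _; rw [h0, hs]; exact hbe j'
      · intro _; rw [h0, hs]; exact hbe' i'
      · intro h
        rw [hs, hs]
        exact hb1 i' j' (fun hh => h (by rw [hh]))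
    · intro i
      refine Fin.cases ?_ (fun i' => ?_) i
      · intro _; rw [h0]; exact hee
      · intro h
        rw [hs]
        apply hb2
        intro hh
        apply h
        rw [hh, hlast]
    · rw [hlast, hs]
      exact hb3

/-- Classification of symmetric bilinear forms over finite fields of odd characteristic: if B is non-degenerate symmetric on V of dimension n + 1 and α is a fixed non-square of F, there is an orthogonal basis b_0, ..., b_n with B(b_i, b_i) = 1 for i < n and B(b_n, b_n) ∈ {1, α}. -/
theorem result {F V : Type*} [Field F] [Finite F] [AddCommGroup V] [Module F V] [FiniteDimensional F V] (h2 : (2 : F) ≠ 0) (B : LinearMap.BilinForm F V) (hS : B.IsSymm) (hB : B.Nondegenerate) {n : ℕ} (hn : Module.finrank F V = n + 1) (α : F) (hα : ¬ IsSquare α) : ∃ b : Module.Basis (Fin (n + 1)) F V, (∀ i j, i ≠ j → B (b i) (b j) = 0) ∧ (∀ i, i ≠ Fin.last n → B (b i) (b i) = 1) ∧ (B (b (Fin.last n)) (b (Fin.last n)) = 1 ∨ B (b (Fin.last n)) (b (Fin.last n)) = α) :=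
  aux h2 α hα n V B hS hB hn

end Cfsg.Agent.S0756
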