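import Cfsg.Statements.S0757

set_option autoImplicit false
open Cfsg

namespace Cfsg.Agent.S0757

open Matrix in
/-- The two diagonal forms Σ x_i^2 and Σ_(i<n) x_i^2 + α x_n^2 on F^(n+1), with α a non-square and 2 ≠ 0 in F, are inequivalent quadratic forms (so over a finite field of odd order there are exactly two classes of non-singular symmetric bilinear forms in each dimension). -/
theorem result {F : Type*} [Field F] (h2 : (2 : F) ≠ 0) (n : ℕ) (α : F) (hα : ¬ IsSquare α) : ¬ (QuadraticMap.weightedSumSquares F (fun _ : Fin (n + 1) => (1 : F))).Equivalent (QuadraticMap.weightedSumSquares F (fun i : Fin (n + 1) => if i = Fin.last n then α else (1 : F))) := by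
  classical
  rintro ⟨e⟩
  set w2 : Fin (n + 1) → F := fun i => if i = Fin.last n then α else 1 with hw2
  have hQ : ∀ x : Fin (n + 1) → F, ∑ i, w2 i * (e x i * e x i) = ∑ i, x i * x i := by
    intro x
    have := e.map_app x
    rw [QuadraticMap.weightedSumSquares_apply, QuadraticMap.weightedSumSquares_apply] at this
    simpa only [smul_eq_mul, one_mul] using this
  have hB : ∀ x y : Fin (n + 1) → F, ∑ i, w2 i * (e x i * e y i) = ∑ i, x i * y i := by
    intro x y
    have h1 := hQ (x + y)
    have hh2 := hQ x
    have h3 := hQ y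
    have hadd : e (x + y) = e x + e y := map_add e x y
    rw [hadd] at h1
    simp only [Pi.add_apply] at h1
    have e1 : ∑ i, w2 i * ((e x i + e y i) * (e x i + e y i)) = ∑ i, w2 i * (e x i * e x i) + 2 * ∑ i, w2 i * (e x i * e y i) + ∑ i, w2 i * (e y i * e y i) := by
      rw [Finset.mul_sum, ← Finset.sum_add_distrib, ← Finset.sum_add_distrib]
      exact Finset.sum_congr rfl (fun i _ => by ring)
    have e2 : ∑ i, ((x i + y i) * (x i + y i)) = ∑ i, x i * x i + 2 * ∑ i, x i * y i + ∑ i, y i * y i := by
      rw [Finset.mul_sum, ← Finset.sum_add_distrib, ← Finset.sum_add_distrib]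
      exact Finset.sum_congr rfl (fun i _ => by ring)
    rw [e1, e2, hh2, h3] at h1
    have h4 : 2 * ∑ i, w2 i * (e x i * e y i) = 2 * ∑ i, x i * y i := by linear_combination h1
    exact mul_left_cancel₀ h2 h4
  let A : Matrix (Fin (n + 1)) (Fin (n + 1)) F := Matrix.of fun k i => e (Pi.single i 1) k
  have hmat : Aᵀ * Matrix.diagonal w2 * A = 1 := by
    ext i j
    have := hB (Pi.single i 1) (Pi.single j 1)
    rw [Matrix.mul_assoc, Matrix.mul_apply]
    simp only [Matrix.diagonal_mul, Matrix.transpose_apply, A, Matrix.of_apply, Matrix.one_apply]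
    have h5 : ∑ k, (Pi.single i (1 : F) : Fin (n + 1) → F) k * (Pi.single j (1 : F) : Fin (n + 1) → F) k = if i = j then 1 else 0 := by
      simp [Pi.single_apply, eq_comm]
    rw [h5] at this
    rw [← this]
    exact Finset.sum_congr rfl (fun k _ => by ring)
  have hdet := congrArg Matrix.det hmat
  rw [Matrix.det_mul, Matrix.det_mul, Matrix.det_transpose, Matrix.det_one, Matrix.det_diagonal] at hdet
  have hprod : ∏ i, w2 i = α := by
    rw [Fin.prod_univ_castSucc]
    simp [hw2, Fin.castSucc_ne_last]
  rw [hprod] at hdet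
  apply hα
  have hA0 : A.det ≠ 0 := by
    intro h
    rw [h] at hdet
    simp at hdet
  refine ⟨(A.det)⁻¹, ?_⟩
  field_simp
  linear_combination hdet

end Cfsg.Agent.S0757
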