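import Cfsg.Statements.S0758

set_option autoImplicit false
open Cfsg

namespace Cfsg.Agent.S0758

/-- For a finite field F of odd order q and a non-square α: the form x² + y² is isotropic iff q ≡ 1 mod 4, and the form x² + α y² is isotropic iff q ≡ 3 mod 4. -/
theorem result {F : Type*} [Field F] [Fintype F] (h2 : (2 : F) ≠ 0) (α : F) (hα : ¬ IsSquare α) : ((∃ x y : F, (x ≠ 0 ∨ y ≠ 0) ∧ x ^ 2 + y ^ 2 = 0) ↔ Fintype.card F % 4 = 1) ∧ ((∃ x y : F, (x ≠ 0 ∨ y ≠ 0) ∧ x ^ 2 + α * y ^ 2 = 0) ↔ Fintype.card F % 4 = 3) := by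
  classical
  have hchar : ringChar F ≠ 2 := by
    intro h
    apply h2
    have := ringChar.Nat.cast_ringChar (R := F)
    rw [h] at this
    exact_mod_cast this
  have hodd : Fintype.card F % 2 = 1 := FiniteField.odd_card_of_char_ne_two hchar
  have hmod : Fintype.card F % 4 = 1 ∨ Fintype.card F % 4 = 3 := by omega
  have hneg : IsSquare (-1 : F) ↔ Fintype.card F % 4 ≠ 3 := FiniteField.isSquare_neg_one_iff
  have hne : ∀ x y : F, x ≠ 0 ∨ y ≠ 0 → ∀ c : F, c ≠ 0 → x ^ 2 + c * y ^ 2 = 0 → x ≠ 0 ∧ y ≠ 0 := by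
    intro x y hxy c hc h
    rcases hxy with hx | hy
    · refine ⟨hx, ?_⟩
      rintro rfl
      apply hx
      simpa using h
    · refine ⟨?_, hy⟩
      rintro rfl
      have : c * y ^ 2 = 0 := by simpa using h
      rcases mul_eq_zero.mp this with h' | h'
      · exact hc h'
      · exact hy (by simpa using h')
  have hα0 : α ≠ 0 := by
    rintro rfl
    exact hα (IsSquare.zero)
  -- quadratic character
  have hχ : ∀ a : F, a ≠ 0 → (¬ IsSquare a ↔ quadraticChar F a = -1) := by
    intro a ha
    exact (quadraticChar_neg_one_iff_not_isSquare).symm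
  have hχ1 : ∀ a : F, IsSquare a → a ≠ 0 → quadraticChar F a = 1 := by
    intro a ha ha0
    exact (quadraticChar_one_iff_isSquare ha0).mpr ha
  have hαχ : quadraticChar F α = -1 := quadraticChar_neg_one_iff_not_isSquare.mpr hα
  constructor
  · constructor
    · rintro ⟨x, y, hxy, h⟩
      obtain ⟨hx, hy⟩ := hne x y hxy 1 one_ne_zero (by simpa using h)
      have : IsSquare (-1 : F) := by
        refine ⟨x / y, ?_⟩
        field_simp
        linear_combination -h
      have := hneg.mp this
      omega
    · intro h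
      have : IsSquare (-1 : F) := hneg.mpr (by omega)
      obtain ⟨i, hi⟩ := this
      refine ⟨i, 1, Or.inr one_ne_zero, ?_⟩
      linear_combination -hi
  · constructor
    · rintro ⟨x, y, hxy, h⟩
      obtain ⟨hx, hy⟩ := hne x y hxy α hα0 h
      by_contra hc
      have hc1 : Fintype.card F % 4 ≠ 3 := hc
      have hn := hneg.mpr hc1
      -- α = -(x/y)^2
      apply hα
      obtain ⟨i, hi⟩ := hn
      refine ⟨i * (x / y), ?_⟩
      field_simp
      have : α * y ^ 2 = - x ^ 2 := by linear_combination h
      rw [this]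
      have h3 : i ^ 2 = -1 := by rw [pow_two]; exact hi.symm
      linear_combination (-x ^ 2) * h3
    · intro h
      have hn : ¬ IsSquare (-1 : F) := by
        intro h'
        exact (hneg.mp h') h
      have hχn : quadraticChar F (-1) = -1 := quadraticChar_neg_one_iff_not_isSquare.mpr hn
      have hmul : quadraticChar F (-α) = 1 := by
        have : (-α) = (-1) * α := by ring
        rw [this, map_mul, hχn, hαχ]; norm_num
      have hna0 : -α ≠ 0 := neg_ne_zero.mpr hα0
      obtain ⟨r, hr⟩ := (quadraticChar_one_iff_isSquare hna0).mp hmul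
      refine ⟨r, 1, Or.inr one_ne_zero, ?_⟩
      linear_combination -hr

end Cfsg.Agent.S0758
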