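import Cfsg.Statements.S0759

set_option autoImplicit false
open Cfsg

namespace Cfsg.Agent.S0759

open Matrix

variable {F : Type*} [Field F]

/-- Block construction of totally isotropic subspaces. -/
theorem exists_of_block {r d m k : ℕ} (h1 : k * r = m) (h2 : k * d = 2 * m)
    (T₀ : (Fin r → F) →ₗ[F] (Fin d → F)) (hinj : Function.Injective T₀)
    (hiso : ∀ x, ∑ i, (T₀ x i) ^ 2 = 0) :
    ∃ W : Submodule F (Fin (2 * m) → F), Module.finrank F W = m ∧ ∀ w ∈ W, ∑ i, w i ^ 2 = 0 := by
  classical
  let e₁ : Fin k × Fin r ≃ Fin m := finProdFinEquiv.trans (finCongr h1)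
  let e₂ : Fin k × Fin d ≃ Fin (2 * m) := finProdFinEquiv.trans (finCongr h2)
  let T : (Fin m → F) →ₗ[F] (Fin (2 * m) → F) :=
    { toFun := fun x i => T₀ (fun s => x (e₁ ((e₂.symm i).1, s))) (e₂.symm i).2
      map_add' := by
        intro x y
        funext i
        show T₀ ((fun s => x (e₁ ((e₂.symm i).1, s))) + (fun s => y (e₁ ((e₂.symm i).1, s)))) _ = _
        rw [map_add]
        rfl
      map_smul' := by
        intro c x
        funext i
        show T₀ (c • (fun s => x (e₁ ((e₂.symm i).1, s)))) _ = _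
        rw [map_smul]
        rfl }
  have hT : ∀ x j t, T x (e₂ (j, t)) = T₀ (fun s => x (e₁ (j, s))) t := by
    intro x j t
    show T₀ (fun s => x (e₁ ((e₂.symm (e₂ (j, t))).1, s))) (e₂.symm (e₂ (j, t))).2 = _
    simp
  have hTinj : Function.Injective T := by
    rw [← LinearMap.ker_eq_bot, LinearMap.ker_eq_bot']
    intro x hx
    funext i
    obtain ⟨⟨j, s⟩, rfl⟩ := e₁.surjective i
    have h3 : T₀ (fun s => x (e₁ (j, s))) = 0 := by
      funext t
      rw [← hT, hx]
      rfl
    have h4 : (fun s => x (e₁ (j, s))) = 0 := by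
      apply hinj
      rw [h3, map_zero]
    exact congrFun h4 s
  refine ⟨LinearMap.range T, ?_, ?_⟩
  · rw [LinearMap.finrank_range_of_inj hTinj, Module.finrank_fin_fun]
  · rintro _ ⟨x, rfl⟩
    rw [← Equiv.sum_comp e₂, Fintype.sum_prod_type]
    refine Finset.sum_eq_zero (fun j _ => ?_)
    simp only [hT]
    exact hiso _

/-- Existence of the isotropic subspace. -/
theorem exists_iso {F : Type*} [Field F] [Fintype F] (h2 : (2 : F) ≠ 0) (m : ℕ)
    (h : ¬ (Fintype.card F % 4 = 3 ∧ Odd m)) :
    ∃ W : Submodule F (Fin (2 * m) → F), Module.finrank F W = m ∧ ∀ w ∈ W, ∑ i, w i ^ 2 = 0 := by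
  classical
  have hchar : ringChar F ≠ 2 := by
    intro h
    apply h2
    have := ringChar.Nat.cast_ringChar (R := F)
    rw [h] at this
    exact_mod_cast this
  have hodd : Fintype.card F % 2 = 1 := FiniteField.odd_card_of_char_ne_two hchar
  by_cases h3 : Fintype.card F % 4 = 3
  · have hm : ¬ Odd m := fun hm => h ⟨h3, hm⟩
    obtain ⟨k, hk⟩ := Nat.not_odd_iff_even.mp hm
    -- a² + b² = -1
    obtain ⟨a, b, hab⟩ : ∃ a b : F, 1 + a ^ 2 + b ^ 2 = 0 := by
      let f : Polynomial F := Polynomial.X ^ 2
      let g : Polynomial F := Polynomial.X ^ 2 + Polynomial.C 1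
      have hf : f.degree = 2 := by simp [f]
      have hg : g.degree = 2 := by
        simp only [g]
        rw [Polynomial.degree_add_eq_left_of_degree_lt]
        · simp
        · simp
      obtain ⟨a, b, hab⟩ := FiniteField.exists_root_sum_quadratic hf hg hodd
      refine ⟨a, b, ?_⟩
      simp only [f, g, Polynomial.eval_add, Polynomial.eval_pow, Polynomial.eval_X, Polynomial.eval_C] at hab
      linear_combination hab
    let T₀ : (Fin 2 → F) →ₗ[F] (Fin 4 → F) :=
      { toFun := fun x => ![x 0, x 1, a * x 0 - b * x 1, b * x 0 + a * x 1]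
        map_add' := by
          intro x y
          funext i
          fin_cases i <;> simp <;> ring
        map_smul' := by
          intro c x
          funext i
          fin_cases i <;> simp <;> ring }
    refine exists_of_block (k := k) (r := 2) (d := 4) (by omega) (by omega) T₀ ?_ ?_
    · rw [← LinearMap.ker_eq_bot, LinearMap.ker_eq_bot']
      intro x hx
      funext i
      fin_cases i
      · exact congrFun hx 0
      · exact congrFun hx 1
    · intro x
      simp only [T₀, LinearMap.coe_mk, AddHom.coe_mk, Fin.sum_univ_four]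
      simp
      linear_combination (x 0 ^ 2 + x 1 ^ 2) * hab
  · have h4 : Fintype.card F % 4 ≠ 3 := h3
    obtain ⟨i, hi⟩ := FiniteField.isSquare_neg_one_iff.mpr h4
    let T₀ : (Fin 1 → F) →ₗ[F] (Fin 2 → F) :=
      { toFun := fun x => ![x 0, i * x 0]
        map_add' := by
          intro x y
          funext j
          fin_cases j <;> simp <;> ring
        map_smul' := by
          intro c x
          funext j
          fin_cases j <;> simp <;> ring }
    refine exists_of_block (k := m) (r := 1) (d := 2) (by omega) (by omega) T₀ ?_ ?_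
    · rw [← LinearMap.ker_eq_bot, LinearMap.ker_eq_bot']
      intro x hx
      funext j
      fin_cases j
      exact congrFun hx 0
    · intro x
      simp only [T₀, LinearMap.coe_mk, AddHom.coe_mk, Fin.sum_univ_two]
      simp
      linear_combination (-x 0 ^ 2) * hi

/-- Block determinant. -/
theorem det_block {m : ℕ} (C E : Matrix (Fin m) (Fin m) F) (D : Matrix (Fin m) (Fin m) F) :
    (Matrix.fromBlocks 0 C E D).det = (-1) ^ m * (E.det * C.det) := by
  have h1 : (Matrix.fromBlocks 0 C E D : Matrix (Fin m ⊕ Fin m) (Fin m ⊕ Fin m) F)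
      = Matrix.J (Fin m) F * Matrix.fromBlocks E D 0 (-C) := by
    rw [Matrix.J, Matrix.fromBlocks_multiply]
    simp
  have h2 : (Matrix.J (Fin m) F).det = 1 := SymplecticGroup.det_eq_one (SymplecticGroup.J_mem _ _)
  rw [h1, Matrix.det_mul, h2, one_mul, Matrix.det_fromBlocks_zero₂₁, Matrix.det_neg, Fintype.card_fin]
  ring

/-- Non-existence. -/
theorem isSquare_of_iso {F : Type*} [Field F] (h2 : (2 : F) ≠ 0) (m : ℕ) (hm : Odd m)
    (W : Submodule F (Fin (2 * m) → F)) (hWd : Module.finrank F W = m)
    (hW : ∀ w ∈ W, ∑ i, w i ^ 2 = 0) : IsSquare (-1 : F) := by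
  classical
  obtain ⟨W', hc⟩ := Submodule.exists_isCompl W
  have hdim := Submodule.finrank_add_eq_of_isCompl hc
  rw [Module.finrank_fin_fun, hWd] at hdim
  have hW' : Module.finrank F W' = m := by omega
  let b := Module.finBasisOfFinrankEq F W hWd
  let c := Module.finBasisOfFinrankEq F W' hW'
  let b' : Module.Basis (Fin m ⊕ Fin m) F (Fin (2 * m) → F) :=
    (b.prod c).map (Submodule.prodEquivOfIsCompl W W' hc)
  have hb1 : ∀ j, b' (Sum.inl j) = (b j : Fin (2 * m) → F) := by
    intro j
    simp [b']
  have hb2 : ∀ j, b' (Sum.inr j) = (c j : Fin (2 * m) → F) := by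
    intro j
    simp [b']
  -- bilinear vanishing on W
  have hbil : ∀ u ∈ W, ∀ v ∈ W, ∑ i, u i * v i = 0 := by
    intro u hu v hv
    have h3 := hW (u + v) (W.add_mem hu hv)
    have h4 := hW u hu
    have h5 := hW v hv
    have h6 : ∑ i, (u + v) i ^ 2 = ∑ i, u i ^ 2 + 2 * ∑ i, u i * v i + ∑ i, v i ^ 2 := by
      rw [Finset.mul_sum, ← Finset.sum_add_distrib, ← Finset.sum_add_distrib]
      exact Finset.sum_congr rfl (fun i _ => by simp only [Pi.add_apply]; ring)
    rw [h6, h4, h5] at h3
    have h7 : 2 * ∑ i, u i * v i = 0 := by linear_combination h3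
    exact (mul_eq_zero.mp h7).resolve_left h2
  let e : Fin m ⊕ Fin m ≃ Fin (2 * m) :=
    finSumFinEquiv.trans (finCongr (by omega))
  -- the matrix of the basis
  let b2 : Module.Basis (Fin (2 * m)) F (Fin (2 * m) → F) := b'.reindex e
  let P : Matrix (Fin (2 * m)) (Fin (2 * m)) F := (Pi.basisFun F (Fin (2 * m))).toMatrix b2
  have hP : ∀ i s, P i (e s) = b' s i := by
    intro i s
    simp [P, b2, Module.Basis.toMatrix_apply]
  have hPdet : P.det ≠ 0 := by
    have : IsUnit P.det := by
      have h3 := Module.Basis.toMatrix_mul_toMatrix_flip (Pi.basisFun F (Fin (2 * m))) b2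
      exact Matrix.isUnit_det_of_right_inverse h3
    exact this.ne_zero
  -- Gram matrix
  let C : Matrix (Fin m) (Fin m) F := Matrix.of fun j l => ∑ i, (b j : Fin (2 * m) → F) i * (c l : Fin (2 * m) → F) i
  let D : Matrix (Fin m) (Fin m) F := Matrix.of fun j l => ∑ i, (c j : Fin (2 * m) → F) i * (c l : Fin (2 * m) → F) i
  have hG : (Pᵀ * P).submatrix e e = Matrix.fromBlocks 0 C Cᵀ D := by
    ext s t
    rcases s with j | j <;> rcases t with l | l
    · simp only [Matrix.submatrix_apply, Matrix.mul_apply, Matrix.transpose_apply, hP, hb1,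
        Matrix.fromBlocks_apply₁₁, Matrix.zero_apply]
      exact hbil _ (b j).2 _ (b l).2
    · simp only [Matrix.submatrix_apply, Matrix.mul_apply, Matrix.transpose_apply, hP, hb1, hb2,
        Matrix.fromBlocks_apply₁₂]
      rfl
    · simp only [Matrix.submatrix_apply, Matrix.mul_apply, Matrix.transpose_apply, hP, hb1, hb2,
        Matrix.fromBlocks_apply₂₁, C, Matrix.of_apply]
      exact Finset.sum_congr rfl (fun i _ => mul_comm _ _)
    · simp only [Matrix.submatrix_apply, Matrix.mul_apply, Matrix.transpose_apply, hP, hb2,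
        Matrix.fromBlocks_apply₂₂]
      rfl
  have hdet := congrArg Matrix.det hG
  rw [Matrix.det_submatrix_equiv_self, Matrix.det_mul, Matrix.det_transpose, det_block,
    Matrix.det_transpose, hm.neg_one_pow] at hdet
  have hC : C.det ≠ 0 := by
    intro h
    rw [h] at hdet
    simp only [mul_zero] at hdet
    exact hPdet (mul_self_eq_zero.mp hdet)
  refine ⟨P.det / C.det, ?_⟩
  field_simp
  linear_combination -hdet

/-- Type of the orthonormal form: over a finite field of odd order q and for m ≥ 1, the quadratic form Σ_(i<2m) x_i² on F^(2m) admits an m-dimensional subspace on which it vanishes identically if and only if it is not the case that q ≡ 3 (mod 4) and m is odd. -/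
theorem result {F : Type*} [Field F] [Fintype F] (h2 : (2 : F) ≠ 0) (m : ℕ) (hm : 1 ≤ m) : (∃ W : Submodule F (Fin (2 * m) → F), Module.finrank F W = m ∧ ∀ w ∈ W, ∑ i, w i ^ 2 = 0) ↔ ¬ (Fintype.card F % 4 = 3 ∧ Odd m) := by
  constructor
  · rintro ⟨W, hWd, hW⟩ ⟨h3, hodd⟩
    have := isSquare_of_iso h2 m hodd W hWd hW
    exact (FiniteField.isSquare_neg_one_iff.mp this) h3
  · exact exists_iso h2 m

end Cfsg.Agent.S0759
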