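import Cfsg.Statements.S0760
import Cfsg.Agent.Lib.Witt.Quadratic

set_option autoImplicit false
open Cfsg

namespace Cfsg.Agent.S0760

open Cfsg.Agent.Lib.Witt.Quadratic

variable {F V : Type*} [Field F] [AddCommGroup V] [Module F V] [FiniteDimensional F V]

/-- `finrank W₁ ≤ finrank W₂` for maximal totally singular subspaces implies equality. -/
theorem finrank_le_imp_eq (Q : QuadraticForm F V) (hQ : (QuadraticMap.polarBilin Q).Nondegenerate)
    (W₁ W₂ : Submodule F V) (h₁ : ∀ w ∈ W₁, Q w = 0) (h₂ : ∀ w ∈ W₂, Q w = 0)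
    (hmax₁ : ∀ W : Submodule F V, W₁ ≤ W → (∀ w ∈ W, Q w = 0) → W = W₁)
    (hle : Module.finrank F W₁ ≤ Module.finrank F W₂) :
    Module.finrank F W₁ = Module.finrank F W₂ := by
  classical
  -- a subspace W₃ of W₂ of the same dimension as W₁
  obtain ⟨W₃, hW₃, hdim⟩ : ∃ W₃ : Submodule F V, W₃ ≤ W₂ ∧ Module.finrank F W₃ = Module.finrank F W₁ := by
    obtain ⟨f, hf⟩ := exists_linearIndependent_of_le_finrank hle
    have hf' : LinearIndependent F (fun i => (f i : V)) := hf.map' W₂.subtype (Submodule.ker_subtype W₂)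
    refine ⟨Submodule.span F (Set.range (fun i => (f i : V))), ?_, ?_⟩
    · rw [Submodule.span_le]
      rintro _ ⟨i, rfl⟩
      exact (f i).2
    · rw [finrank_span_eq_card hf']
      simp
  let e : W₁ ≃ₗ[F] W₃ := LinearEquiv.ofFinrankEq _ _ hdim.symm
  obtain ⟨g, hg, hge⟩ := witt_extension hQ W₁ W₃ e (by
    intro x
    rw [h₁ x x.2, h₂ _ (hW₃ (e x).2)])
  -- g⁻¹ W₂ contains W₁ and is totally singular
  have h3 : W₂.map (g.symm : V →ₗ[F] V) = W₁ := by
    apply hmax₁
    · intro x hx
      refine ⟨g x, ?_, by simp⟩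
      have := hge ⟨x, hx⟩
      simp only at this
      rw [SetLike.mem_coe, this]
      exact hW₃ (e ⟨x, hx⟩).2
    · rintro _ ⟨y, hy, rfl⟩
      have h4 := hg (g.symm y)
      simp only [LinearEquiv.apply_symm_apply] at h4
      show Q (g.symm y) = 0
      rw [← h4]
      exact h₂ y hy
  rw [← h3]
  exact LinearEquiv.finrank_map_eq g.symm W₂

/-- Witt index is well defined: if Q is a quadratic form on a finite-dimensional space V over a finite field with non-degenerate polar form, and W₁, W₂ are subspaces on which Q vanishes that are maximal with this property, then W₁ and W₂ have the same dimension, and twice this dimension is at most dim V. -/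
theorem result {F V : Type*} [Field F] [Finite F] [AddCommGroup V] [Module F V] [FiniteDimensional F V] (Q : QuadraticForm F V) (hQ : (QuadraticMap.polarBilin Q).Nondegenerate) (W₁ W₂ : Submodule F V) (h₁ : ∀ w ∈ W₁, Q w = 0) (h₂ : ∀ w ∈ W₂, Q w = 0) (hmax₁ : ∀ W : Submodule F V, W₁ ≤ W → (∀ w ∈ W, Q w = 0) → W = W₁) (hmax₂ : ∀ W : Submodule F V, W₂ ≤ W → (∀ w ∈ W, Q w = 0) → W = W₂) : Module.finrank F W₁ = Module.finrank F W₂ ∧ 2 * Module.finrank F W₁ ≤ Module.finrank F V := by
  constructor
  · rcases le_total (Module.finrank F W₁) (Module.finrank F W₂) with h | h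
    · exact finrank_le_imp_eq Q hQ W₁ W₂ h₁ h₂ hmax₁ h
    · exact (finrank_le_imp_eq Q hQ W₂ W₁ h₂ h₁ hmax₂ h).symm
  · -- W₁ is contained in its orthogonal
    have hB : LinearMap.BilinForm.Nondegenerate (QuadraticMap.polarBilin Q) := hQ
    have hdim := LinearMap.BilinForm.finrank_orthogonal hB W₁
    have hle : W₁ ≤ LinearMap.BilinForm.orthogonal (QuadraticMap.polarBilin Q) W₁ := by
      intro x hx
      rw [LinearMap.BilinForm.mem_orthogonal_iff]
      intro y hy
      show QuadraticMap.polar Q y x = 0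
      rw [QuadraticMap.polar, h₁ _ (W₁.add_mem hy hx), h₁ y hy, h₁ x hx]
      ring
    have h3 := Submodule.finrank_mono hle
    have h4 := Submodule.finrank_le W₁
    omega

end Cfsg.Agent.S0760
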