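import Cfsg.Statements.S0761

set_option autoImplicit false
open Cfsg

namespace Cfsg.Agent.S0761

/-- Hyperbolic partners: let B be a non-degenerate bilinear form on a finite-dimensional space, either alternating, or symmetric with 2 ≠ 0. If Z is a subspace on which B vanishes, x ∉ Z is isotropic and orthogonal to Z, then there is an isotropic y with B x y = 1 which is orthogonal to Z. -/
theorem result {F V : Type*} [Field F] [AddCommGroup V] [Module F V] [FiniteDimensional F V] (B : LinearMap.BilinForm F V) (hB : B.Nondegenerate) (hform : B.IsAlt ∨ (B.IsSymm ∧ (2 : F) ≠ 0)) (x : V) (Z : Submodule F V) (hxZ : x ∉ Z) (hx : B x x = 0) (hxz : ∀ z ∈ Z, B x z = 0) (hZ : ∀ z ∈ Z, ∀ z' ∈ Z, B z z' = 0) : ∃ y : V, B y y = 0 ∧ B x y = 1 ∧ ∀ z ∈ Z, B z y = 0 := by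
  classical
  -- a linear functional on V that is 1 at x and 0 on Z
  obtain ⟨ℓ, hℓx, hℓZ⟩ : ∃ ℓ : V →ₗ[F] F, ℓ x = 1 ∧ ∀ z ∈ Z, ℓ z = 0 := by
    obtain ⟨f, hf1, hf2⟩ := Submodule.exists_le_ker_of_notMem (p := Z) hxZ
    refine ⟨(f x)⁻¹ • f, ?_, ?_⟩
    · simp [hf1]
    · intro z hz
      have : f z = 0 := hf2 hz
      simp [this]
  -- nondegeneracy: representing ℓ by B
  obtain ⟨y0, hy0⟩ : ∃ y0 : V, ∀ v, B v y0 = ℓ v := by
    refine ⟨(B.flip.toDual hB.flip).symm ℓ, fun v => ?_⟩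
    have := LinearMap.BilinForm.apply_toDual_symm_apply (B := B.flip) (hB := hB.flip) ℓ v
    exact this
  rcases hform with halt | ⟨hsymm, h2⟩
  · refine ⟨y0, halt y0, ?_, fun z hz => ?_⟩
    · rw [hy0, hℓx]
    · rw [hy0, hℓZ z hz]
  · refine ⟨y0 - (B y0 y0 / 2) • x, ?_, ?_, fun z hz => ?_⟩
    · have h1 : B x y0 = 1 := by rw [hy0, hℓx]
      have h3 : B y0 x = 1 := by
        have := hsymm.eq x y0
        rw [← this, h1]
      simp only [map_sub, map_smul, LinearMap.sub_apply, LinearMap.smul_apply, smul_eq_mul, hx, h1, h3]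
      field_simp
      ring
    · have h1 : B x y0 = 1 := by rw [hy0, hℓx]
      simp [h1, hx]
    · have h1 : B z y0 = 0 := by rw [hy0, hℓZ z hz]
      have h3 : B z x = 0 := by
        have := hsymm.eq x z
        rw [← this, hxz z hz]
      simp [h1, h3]

end Cfsg.Agent.S0761
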