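import Cfsg.Statements.S0762

set_option autoImplicit false
open Cfsg

namespace Cfsg.Agent.S0762

/-- In characteristic two over a finite field, a quadratic form on a space of dimension at least 3 vanishes on some non-zero vector. -/
theorem result {F V : Type*} [Field F] [Finite F] [CharP F 2] [AddCommGroup V] [Module F V] [FiniteDimensional F V] (Q : QuadraticForm F V) (h3 : 3 ≤ Module.finrank F V) : ∃ v : V, v ≠ 0 ∧ Q v = 0 := by
  classical
  obtain ⟨e, hli⟩ := exists_linearIndependent_of_le_finrank h3
  have hli3 : ∀ a b c : F, a • e 0 + b • e 1 + c • e 2 = 0 → a = 0 ∧ b = 0 ∧ c = 0 := by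
    intro a b c h
    have := Fintype.linearIndependent_iff.mp hli ![a, b, c] (by simpa [Fin.sum_univ_three] using h)
    exact ⟨by simpa using this 0, by simpa using this 1, by simpa using this 2⟩
  have htwo : (2 : F) = 0 := CharTwo.two_eq_zero
  have hself : ∀ v : V, QuadraticMap.polar Q v v = 0 := by
    intro v
    rw [QuadraticMap.polar_self, two_nsmul, ← two_mul, htwo, zero_mul]
  have hne : ∀ i, e i ≠ 0 := fun i => hli.ne_zero i
  set a := QuadraticMap.polar Q (e 1) (e 2) with ha
  set b := QuadraticMap.polar Q (e 2) (e 0) with hb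
  set c := QuadraticMap.polar Q (e 0) (e 1) with hc
  have h10 : QuadraticMap.polar Q (e 1) (e 0) = c := QuadraticMap.polar_comm _ _ _
  have h21 : QuadraticMap.polar Q (e 2) (e 1) = a := QuadraticMap.polar_comm _ _ _
  have h02 : QuadraticMap.polar Q (e 0) (e 2) = b := QuadraticMap.polar_comm _ _ _
  -- a non-zero vector orthogonal to e 0, e 1, e 2
  obtain ⟨r, hr0, hr⟩ : ∃ r : V, r ≠ 0 ∧ ∀ i, QuadraticMap.polar Q (e i) r = 0 := by
    by_cases habc : a = 0 ∧ b = 0 ∧ c = 0
    · obtain ⟨h1, h2, h3'⟩ := habc
      refine ⟨e 0, hne 0, fun i => ?_⟩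
      fin_cases i
      · exact hself _
      · show QuadraticMap.polar Q (e 1) (e 0) = 0
        rw [h10, h3']
      · show QuadraticMap.polar Q (e 2) (e 0) = 0
        rw [← hb, h2]
    · refine ⟨a • e 0 + b • e 1 + c • e 2, ?_, fun i => ?_⟩
      · intro h
        exact habc (hli3 a b c h)
      · have hc2 : ∀ x : F, x + x = 0 := fun x => CharTwo.add_self_eq_zero x
        simp only [QuadraticMap.polar_add_right, QuadraticMap.polar_smul_right, smul_eq_mul]
        fin_cases i
        · show a * QuadraticMap.polar Q (e 0) (e 0) + b * QuadraticMap.polar Q (e 0) (e 1) + c * QuadraticMap.polar Q (e 0) (e 2) = 0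
          rw [hself, ← hc, h02]
          have := hc2 (b * c)
          linear_combination this
        · show a * QuadraticMap.polar Q (e 1) (e 0) + b * QuadraticMap.polar Q (e 1) (e 1) + c * QuadraticMap.polar Q (e 1) (e 2) = 0
          rw [hself, h10, ← ha]
          have := hc2 (a * c)
          linear_combination this
        · show a * QuadraticMap.polar Q (e 2) (e 0) + b * QuadraticMap.polar Q (e 2) (e 1) + c * QuadraticMap.polar Q (e 2) (e 2) = 0
          rw [hself, h21, ← hb]
          have := hc2 (a * b)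
          linear_combination this
  by_cases hQr : Q r = 0
  · exact ⟨r, hr0, hQr⟩
  -- choose a vector not proportional to r
  obtain ⟨i, hi⟩ : ∃ i, ∀ t : F, e i + t • r ≠ 0 := by
    by_contra hcon
    push Not at hcon
    obtain ⟨t0, ht0⟩ := hcon 0
    obtain ⟨t1, ht1⟩ := hcon 1
    have h := hli3 t1 (-t0) 0 (by
      have h1 : e 0 = -(t0 • r) := eq_neg_of_add_eq_zero_left ht0
      have h2 : e 1 = -(t1 • r) := eq_neg_of_add_eq_zero_left ht1
      rw [h1, h2]
      simp only [smul_neg, smul_smul, zero_smul, add_zero, neg_mul, neg_neg, neg_smul]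
      rw [mul_comm t0 t1]
      abel)
    have ht1' : t1 = 0 := h.1
    have ht0' : t0 = 0 := by simpa using h.2.1
    rw [ht0'] at ht0
    simp only [zero_smul, add_zero] at ht0
    exact hne 0 ht0
  obtain ⟨t, ht⟩ := FiniteField.isSquare_of_char_two (ringChar.eq F 2) (Q (e i) / Q r)
  refine ⟨e i + t • r, hi t, ?_⟩
  have hpol := hr i
  have h1 : QuadraticMap.polar Q (e i) (t • r) = 0 := by
    rw [QuadraticMap.polar_smul_right, hpol, smul_zero]
  rw [QuadraticMap.polar] at h1
  rw [QuadraticMap.map_smul] at h1
  have h2 : t * t * Q r = Q (e i) := by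
    rw [← ht]
    field_simp
  simp only [smul_eq_mul] at h1
  rw [h2] at h1
  have h3' : Q (e i + t • r) = Q (e i) + Q (e i) := by linear_combination h1
  rw [h3', CharTwo.add_self_eq_zero]

end Cfsg.Agent.S0762
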