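import Cfsg.Statements.S0763

set_option autoImplicit false
open Cfsg

namespace Cfsg.Agent.S0763

/-- Binary quadratic forms in characteristic two over a finite field: if Q is a quadratic form on a 2-dimensional space whose polar form is non-degenerate, then either there are vectors v, w with Q v = Q w = 0 and polar value 1 (Q is xy in these coordinates), or there are v, w and μ with Q v = 1, Q w = μ, polar value 1 and x² + x + μ without roots in F (Q is x² + xy + μy²). -/
theorem result {F V : Type*} [Field F] [Finite F] [CharP F 2] [AddCommGroup V] [Module F V] (Q : QuadraticForm F V) (h2 : Module.finrank F V = 2) (hQ : (QuadraticMap.polarBilin Q).Nondegenerate) : (∃ v w : V, LinearIndependent F ![v, w] ∧ Q v = 0 ∧ Q w = 0 ∧ QuadraticMap.polar Q v w = 1) ∨ (∃ (v w : V) (μ : F), LinearIndependent F ![v, w] ∧ (∀ x : F, x ^ 2 + x + μ ≠ 0) ∧ Q v = 1 ∧ Q w = μ ∧ QuadraticMap.polar Q v w = 1) := by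
  classical
  have htwo : (2 : F) = 0 := CharTwo.two_eq_zero
  have hself : ∀ v : V, QuadraticMap.polar Q v v = 0 := by
    intro v
    rw [QuadraticMap.polar_self, two_nsmul, ← two_mul, htwo, zero_mul]
  have hsep : ∀ u : V, u ≠ 0 → ∃ w, QuadraticMap.polar Q u w = 1 := by
    intro u hu
    by_contra hcon
    push Not at hcon
    apply hu
    apply hQ.1 u
    intro y
    by_contra hy
    have hy' : QuadraticMap.polar Q u y ≠ 0 := hy
    apply hcon ((QuadraticMap.polar Q u y)⁻¹ • y)
    rw [QuadraticMap.polar_smul_right, smul_eq_mul]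
    field_simp
  have hli : ∀ u w : V, u ≠ 0 → QuadraticMap.polar Q u w = 1 → LinearIndependent F ![u, w] := by
    intro u w hu huw
    rw [LinearIndependent.pair_iff]
    intro s t hst
    have h1 : QuadraticMap.polar Q u (s • u + t • w) = 0 := by rw [hst]; simp [QuadraticMap.polar]
    rw [QuadraticMap.polar_add_right, QuadraticMap.polar_smul_right, QuadraticMap.polar_smul_right, hself, huw] at h1
    simp only [smul_eq_mul, mul_zero, zero_add, mul_one] at h1
    rw [h1, zero_smul, add_zero] at hst
    have h3 : s • u = 0 := hst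
    exact ⟨(smul_eq_zero.mp h3).resolve_right hu, h1⟩
  by_cases hsing : ∃ u : V, u ≠ 0 ∧ Q u = 0
  · left
    obtain ⟨u, hu, hQu⟩ := hsing
    obtain ⟨w, hw⟩ := hsep u hu
    have hwu : QuadraticMap.polar Q w u = 1 := by rw [QuadraticMap.polar_comm]; exact hw
    have hpol : QuadraticMap.polar Q u (w + Q w • u) = 1 := by
      rw [QuadraticMap.polar_add_right, QuadraticMap.polar_smul_right, hself, hw]
      simp
    refine ⟨u, w + Q w • u, hli _ _ hu hpol, hQu, ?_, hpol⟩
    have h1 : QuadraticMap.polar Q w (Q w • u) = Q w := by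
      rw [QuadraticMap.polar_smul_right, hwu]
      simp
    rw [QuadraticMap.polar, QuadraticMap.map_smul, hQu] at h1
    simp only [smul_zero, sub_zero] at h1
    have h3 : Q (w + Q w • u) = Q w + Q w := by linear_combination h1
    rw [h3, CharTwo.add_self_eq_zero]
  · right
    push Not at hsing
    have : Nontrivial V := Module.nontrivial_of_finrank_pos (R := F) (by omega)
    obtain ⟨v0, hv0⟩ := exists_ne (0 : V)
    have hQv0 := hsing v0 hv0
    obtain ⟨s, hs⟩ := FiniteField.isSquare_of_char_two (ringChar.eq F 2) (Q v0)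
    have hs0 : s ≠ 0 := by
      rintro rfl
      apply hQv0
      rw [hs, mul_zero]
    set v := s⁻¹ • v0 with hv
    have hv1 : Q v = 1 := by
      rw [hv, QuadraticMap.map_smul, hs, smul_eq_mul]
      field_simp
    have hvne : v ≠ 0 := by
      intro h
      rw [h] at hv1
      simp at hv1
    obtain ⟨w, hw⟩ := hsep v hvne
    refine ⟨v, w, Q w, hli _ _ hvne hw, ?_, hv1, rfl, hw⟩
    intro x hx
    have hne : x • v + w ≠ 0 := by
      intro h
      have h1 : QuadraticMap.polar Q v (x • v + w) = 0 := by rw [h]; simp [QuadraticMap.polar]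
      rw [QuadraticMap.polar_add_right, QuadraticMap.polar_smul_right, hself, hw] at h1
      simp at h1
    apply hsing _ hne
    have h1 : QuadraticMap.polar Q (x • v) w = x := by
      rw [QuadraticMap.polar_smul_left, hw]
      simp
    rw [QuadraticMap.polar, QuadraticMap.map_smul, hv1] at h1
    simp only [smul_eq_mul, mul_one] at h1
    linear_combination h1 + hx

end Cfsg.Agent.S0763
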