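import Cfsg.Statements.S0769

set_option autoImplicit false
open Cfsg

namespace Cfsg.Agent.S0769

variable {F : Type*} [Field F]

/-- Determinant of a lower triangular matrix. -/
theorem det_lower {n : ℕ} (M : Matrix (Fin n) (Fin n) F) (h : ∀ i j : Fin n, i < j → M i j = 0) :
    M.det = ∏ i, M i i :=
  Matrix.det_of_isLowerTriangular M (fun i j hij => h i j hij)

/-- The matrix with given diagonal and strict lower part. -/
def mk {n : ℕ} (s : {p : Fin n × Fin n // p.2 < p.1} → F) (d : Fin n → Fˣ) : Matrix (Fin n) (Fin n) F :=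
  Matrix.of fun i j => if i = j then (d i : F) else if h : j < i then s ⟨(i, j), h⟩ else 0

theorem mk_lower {n : ℕ} (s : {p : Fin n × Fin n // p.2 < p.1} → F) (d : Fin n → Fˣ) (i j : Fin n)
    (hij : i < j) : mk s d i j = 0 := by
  simp [mk, hij.ne, not_lt.mpr hij.le]

theorem mk_det {n : ℕ} (s : {p : Fin n × Fin n // p.2 < p.1} → F) (d : Fin n → Fˣ) :
    (mk s d).det ≠ 0 := by
  rw [det_lower _ (mk_lower s d)]
  refine Finset.prod_ne_zero_iff.mpr (fun i _ => ?_)
  simp [mk]

noncomputable def equivTri (n : ℕ) :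
    {g : Matrix.GeneralLinearGroup (Fin n) F // ∀ i j : Fin n, i < j → (g : Matrix (Fin n) (Fin n) F) i j = 0} ≃
      ({p : Fin n × Fin n // p.2 < p.1} → F) × (Fin n → Fˣ) where
  toFun g := (fun p => (g.1 : Matrix (Fin n) (Fin n) F) p.1.1 p.1.2, fun i => Units.mk0 ((g.1 : Matrix (Fin n) (Fin n) F) i i) (by
    have h1 : (g.1 : Matrix (Fin n) (Fin n) F).det ≠ 0 := by
      have := g.1.isUnit
      exact ((Matrix.isUnit_iff_isUnit_det _).mp this).ne_zero
    rw [det_lower _ g.2] at h1
    exact Finset.prod_ne_zero_iff.mp h1 i (Finset.mem_univ i)))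
  invFun x := ⟨Matrix.GeneralLinearGroup.mkOfDetNeZero (mk x.1 x.2) (mk_det x.1 x.2), fun i j hij => mk_lower x.1 x.2 i j hij⟩
  left_inv g := by
    apply Subtype.ext
    apply Units.ext
    ext i j
    show mk _ _ i j = _
    simp only [mk, Matrix.of_apply]
    split_ifs with h1 h2
    · subst h1; rfl
    · rfl
    · exact (g.2 i j (lt_of_le_of_ne (not_lt.mp h2) h1)).symm
  right_inv x := by
    obtain ⟨s, d⟩ := x
    refine Prod.ext ?_ ?_
    · funext p
      obtain ⟨⟨i, j⟩, hp⟩ := p
      show mk s d i j = s _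
      simp [mk, hp, (ne_of_lt hp).symm]
    · funext i
      apply Units.ext
      show mk s d i i = _
      simp [mk]

/-- Order of the Borel subgroup of GL_n(q): the invertible lower-triangular n × n matrices over a field with q elements number q^(n(n-1)/2) (q-1)^n (unitriangular part times the diagonal torus). -/
theorem result {F : Type*} [Field F] [Fintype F] {q : ℕ} (hF : Fintype.card F = q) (n : ℕ) : Nat.card {g : Matrix.GeneralLinearGroup (Fin n) F // ∀ i j : Fin n, i < j → (g : Matrix (Fin n) (Fin n) F) i j = 0} = q ^ (n * (n - 1) / 2) * (q - 1) ^ n := by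
  classical
  rw [Nat.card_congr (equivTri n), Nat.card_prod, Nat.card_eq_fintype_card, Nat.card_eq_fintype_card, Fintype.card_fun, Fintype.card_fun, hF, Fintype.card_units, hF, Fintype.card_fin]
  congr 2
  rw [Fintype.card_subtype, Finset.card_filter, ← Finset.univ_product_univ, Finset.sum_product]
  have h1 : ∀ i : Fin n, (∑ j : Fin n, if j < i then 1 else 0) = (i : ℕ) := by
    intro i
    rw [← Finset.card_filter]
    have : (Finset.univ.filter fun j : Fin n => j < i) = Finset.Iio i := by
      ext j; simp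
    rw [this, Fin.card_Iio]
  simp only [h1]
  rw [Fin.sum_univ_eq_sum_range (fun i => i) n, Finset.sum_range_id]

end Cfsg.Agent.S0769
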