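import Cfsg.Statements.S0770

set_option autoImplicit false
open Cfsg

namespace Cfsg.Agent.S0770

open Matrix

variable {F : Type*} [Field F] {n : ℕ}

/-- The unit of `Fin n → F` attached to a nowhere zero function. -/
def unitOf (v : Fin n → F) (hv : ∀ i, v i ≠ 0) : (Fin n → F)ˣ :=
  ⟨v, fun i => (v i)⁻¹, by funext i; simp [hv i], by funext i; simp [hv i]⟩

/-- The diagonal subgroup. -/
abbrev diagSub (n : ℕ) (F : Type*) [Field F] : Subgroup (Matrix.GeneralLinearGroup (Fin n) F) :=
  (Units.map (Matrix.diagonalRingHom (Fin n) F).toMonoidHom).range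

/-- Diagonal element. -/
def mkD (v : Fin n → F) (hv : ∀ i, v i ≠ 0) : Matrix.GeneralLinearGroup (Fin n) F :=
  Units.map (Matrix.diagonalRingHom (Fin n) F).toMonoidHom (unitOf v hv)

theorem mkD_val (v : Fin n → F) (hv : ∀ i, v i ≠ 0) :
    ((mkD v hv : Matrix.GeneralLinearGroup (Fin n) F) : Matrix (Fin n) (Fin n) F) = Matrix.diagonal v := rfl

theorem mkD_mem (v : Fin n → F) (hv : ∀ i, v i ≠ 0) : mkD v hv ∈ diagSub n F := ⟨_, rfl⟩

theorem exists_of_mem {h : Matrix.GeneralLinearGroup (Fin n) F} (hh : h ∈ diagSub n F) :
    ∃ v : Fin n → F, ∃ hv : ∀ i, v i ≠ 0, h = mkD v hv := by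
  obtain ⟨u, rfl⟩ := hh
  refine ⟨(u : Fin n → F), fun i => ?_, ?_⟩
  · have := congrFun u.mul_inv i
    intro h0
    simp [h0] at this
  · apply Units.ext
    rfl

/-- For a field with at least 3 elements, an invertible matrix normalises the subgroup of invertible diagonal matrices of GL_n if and only if it is monomial (exactly one non-zero entry in each row). -/
theorem result {F : Type*} [Field F] (hF : ∃ a : F, a ≠ 0 ∧ a ≠ 1) (n : ℕ) (g : Matrix.GeneralLinearGroup (Fin n) F) : g ∈ Subgroup.normalizer ((Units.map (Matrix.diagonalRingHom (Fin n) F).toMonoidHom).range : Subgroup (Matrix.GeneralLinearGroup (Fin n) F)) ↔ ∀ i : Fin n, ∃! j : Fin n, (g : Matrix (Fin n) (Fin n) F) i j ≠ 0 := by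
  classical
  rw [Subgroup.mem_normalizer_iff]
  set A : Matrix (Fin n) (Fin n) F := (g : Matrix (Fin n) (Fin n) F) with hA
  have hAinv : ((g⁻¹ : Matrix.GeneralLinearGroup (Fin n) F) : Matrix (Fin n) (Fin n) F) * A = 1 := by
    rw [hA, ← Units.val_mul]; simp
  have hAinv' : A * ((g⁻¹ : Matrix.GeneralLinearGroup (Fin n) F) : Matrix (Fin n) (Fin n) F) = 1 := by
    rw [hA, ← Units.val_mul]; simp
  constructor
  · intro hnorm i
    -- existence: the row is non-zero
    obtain ⟨j, hj⟩ : ∃ j, A i j ≠ 0 := by
      by_contra hcon
      push Not at hcon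
      have := congrFun (congrFun hAinv' i) i
      simp [Matrix.mul_apply, hcon] at this
    refine ⟨j, hj, ?_⟩
    intro j' hj'
    by_contra hne
    obtain ⟨a, ha0, ha1⟩ := hF
    -- the diagonal element with `a` at position `j'`
    let v : Fin n → F := fun k => if k = j' then a else 1
    have hv : ∀ k, v k ≠ 0 := by
      intro k
      simp only [v]
      split_ifs
      · exact ha0
      · exact one_ne_zero
    obtain ⟨w, hw, hwv⟩ := exists_of_mem ((hnorm (mkD v hv)).mp (mkD_mem v hv))
    have hmul : g * mkD v hv = mkD w hw * g := by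
      rw [← hwv]
      group
    have hmat : A * Matrix.diagonal v = Matrix.diagonal w * A := congrArg Units.val hmul
    have h1 := congrFun (congrFun hmat i) j
    have h2 := congrFun (congrFun hmat i) j'
    simp only [Matrix.mul_diagonal, Matrix.diagonal_mul] at h1 h2
    have hvj : v j = 1 := by simp [v, (Ne.symm hne)]
    have hvj' : v j' = a := by simp [v]
    rw [hvj, mul_one] at h1
    rw [hvj'] at h2
    have hw1 : w i = 1 := by
      have : (w i - 1) * A i j = 0 := by linear_combination -h1
      exact sub_eq_zero.mp ((mul_eq_zero.mp this).resolve_right hj)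
    rw [hw1, one_mul] at h2
    apply ha1
    have : (a - 1) * A i j' = 0 := by linear_combination h2
    exact sub_eq_zero.mp ((mul_eq_zero.mp this).resolve_right hj')
  · intro hmono
    choose π hπ hπu using hmono
    simp only at hπ hπu
    have hsupp : ∀ i j, A i j ≠ 0 → j = π i := fun i j hij => hπu i j hij
    -- π is surjective
    have hsurj : Function.Surjective π := by
      intro j
      by_contra hcon
      push Not at hcon
      have h0 : ∀ i, A i j = 0 := by
        intro i
        by_contra h
        exact hcon i (hsupp i j h).symm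
      have := congrFun (congrFun hAinv j) j
      simp [Matrix.mul_apply, h0] at this
    have hbij : Function.Bijective π := ⟨Finite.injective_iff_surjective.mpr hsurj, hsurj⟩
    let e : Fin n ≃ Fin n := Equiv.ofBijective π hbij
    have he : ∀ i, e i = π i := fun i => rfl
    intro h
    constructor
    · intro hh
      obtain ⟨v, hv, rfl⟩ := exists_of_mem hh
      have hv' : ∀ i, v (π i) ≠ 0 := fun i => hv _
      have : g * mkD v hv * g⁻¹ = mkD (fun i => v (π i)) hv' := by
        rw [mul_inv_eq_iff_eq_mul]
        apply Units.ext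
        show A * Matrix.diagonal v = Matrix.diagonal (fun i => v (π i)) * A
        ext i j
        simp only [Matrix.mul_diagonal, Matrix.diagonal_mul]
        by_cases hij : A i j = 0
        · simp [hij]
        · rw [hsupp i j hij, mul_comm]
      rw [this]
      exact mkD_mem _ _
    · intro hh
      obtain ⟨w, hw, hwv⟩ := exists_of_mem hh
      have hw' : ∀ j, w (e.symm j) ≠ 0 := fun j => hw _
      have : h = mkD (fun j => w (e.symm j)) hw' := by
        have h3 : g * h = mkD w hw * g := by
          rw [← hwv]
          group
        have h4 : mkD w hw * g = g * mkD (fun j => w (e.symm j)) hw' := by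
          apply Units.ext
          show Matrix.diagonal w * A = A * Matrix.diagonal (fun j => w (e.symm j))
          ext i j
          simp only [Matrix.mul_diagonal, Matrix.diagonal_mul]
          by_cases hij : A i j = 0
          · simp [hij]
          · have h5 : e.symm j = i := by
              rw [Equiv.symm_apply_eq, he, hsupp i j hij]
            rw [h5, mul_comm]
        rw [h4] at h3
        exact mul_left_cancel h3
      rw [this]
      exact mkD_mem _ _

end Cfsg.Agent.S0770
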