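import Cfsg.Statements.S0771
import Cfsg.Agent.Lib.Parabolic.Basic

set_option autoImplicit false
open Cfsg

namespace Cfsg.Agent.S0771

open Matrix Cfsg.Agent.Lib.Parabolic.Basic

variable {F : Type*} [Field F]

/-- Index splitting. -/
def eIdx (n k : ℕ) (hk : k ≤ n) : Fin k ⊕ Fin (n - k) ≃ Fin n :=
  finSumFinEquiv.trans (finCongr (by omega))

@[simp] theorem eIdx_inl (n k : ℕ) (hk : k ≤ n) (i : Fin k) : ((eIdx n k hk (Sum.inl i) : Fin n) : ℕ) = i := by
  simp [eIdx]

@[simp] theorem eIdx_inr (n k : ℕ) (hk : k ≤ n) (i : Fin (n - k)) : ((eIdx n k hk (Sum.inr i) : Fin n) : ℕ) = k + i := by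
  simp [eIdx]

theorem block_lower {n k : ℕ} (hk : k ≤ n) (g : stab F n k) :
    ((g.1 : Matrix (Fin n) (Fin n) F).submatrix (eIdx n k hk) (eIdx n k hk)).toBlocks₂₁ = 0 := by
  ext i j
  simp only [Matrix.toBlocks₂₁, Matrix.of_apply, Matrix.submatrix_apply, Matrix.zero_apply]
  apply (mem_stab_iff g.1).mp g.2
  · simp
  · simp

theorem det_blocks {n k : ℕ} (hk : k ≤ n) (g : stab F n k) :
    ((g.1 : Matrix (Fin n) (Fin n) F).submatrix (eIdx n k hk) (eIdx n k hk)).toBlocks₁₁.det *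
    ((g.1 : Matrix (Fin n) (Fin n) F).submatrix (eIdx n k hk) (eIdx n k hk)).toBlocks₂₂.det ≠ 0 := by
  have h1 := Matrix.det_fromBlocks_zero₂₁ ((g.1 : Matrix (Fin n) (Fin n) F).submatrix (eIdx n k hk) (eIdx n k hk)).toBlocks₁₁
    ((g.1 : Matrix (Fin n) (Fin n) F).submatrix (eIdx n k hk) (eIdx n k hk)).toBlocks₁₂
    ((g.1 : Matrix (Fin n) (Fin n) F).submatrix (eIdx n k hk) (eIdx n k hk)).toBlocks₂₂
  rw [← block_lower hk g, Matrix.fromBlocks_toBlocks, Matrix.det_submatrix_equiv_self] at h1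
  rw [← h1]
  have : IsUnit (g.1 : Matrix (Fin n) (Fin n) F).det := (Matrix.isUnit_iff_isUnit_det _).mp g.1.isUnit
  exact this.ne_zero

/-- The block matrix attached to a triple. -/
def glue {n k : ℕ} (hk : k ≤ n) (a : Matrix (Fin k) (Fin k) F) (d : Matrix (Fin (n - k)) (Fin (n - k)) F)
    (b : Matrix (Fin k) (Fin (n - k)) F) : Matrix (Fin n) (Fin n) F :=
  (Matrix.fromBlocks a b 0 d).submatrix (eIdx n k hk).symm (eIdx n k hk).symm

theorem glue_det {n k : ℕ} (hk : k ≤ n) (a : Matrix (Fin k) (Fin k) F) (d : Matrix (Fin (n - k)) (Fin (n - k)) F)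
    (b : Matrix (Fin k) (Fin (n - k)) F) : (glue hk a d b).det = a.det * d.det := by
  rw [glue, Matrix.det_submatrix_equiv_self, Matrix.det_fromBlocks_zero₂₁]

/-- The equivalence with the product. -/
noncomputable def parEquiv {n k : ℕ} (hk : k ≤ n) :
    stab F n k ≃ (Matrix.GeneralLinearGroup (Fin k) F × Matrix.GeneralLinearGroup (Fin (n - k)) F) ×
      Matrix (Fin k) (Fin (n - k)) F where
  toFun g := ((Matrix.GeneralLinearGroup.mkOfDetNeZero _ (left_ne_zero_of_mul (det_blocks hk g)),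
    Matrix.GeneralLinearGroup.mkOfDetNeZero _ (right_ne_zero_of_mul (det_blocks hk g))),
    ((g.1 : Matrix (Fin n) (Fin n) F).submatrix (eIdx n k hk) (eIdx n k hk)).toBlocks₁₂)
  invFun x := ⟨Matrix.GeneralLinearGroup.mkOfDetNeZero (glue hk (x.1.1 : Matrix (Fin k) (Fin k) F) (x.1.2 : Matrix (Fin (n - k)) (Fin (n - k)) F) x.2) (by
      rw [glue_det]
      have h1 : IsUnit (x.1.1 : Matrix (Fin k) (Fin k) F).det := (Matrix.isUnit_iff_isUnit_det _).mp x.1.1.isUnit
      have h2 : IsUnit (x.1.2 : Matrix (Fin (n - k)) (Fin (n - k)) F).det := (Matrix.isUnit_iff_isUnit_det _).mp x.1.2.isUnit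
      exact mul_ne_zero h1.ne_zero h2.ne_zero), by
      rw [mem_stab_iff]
      intro i j hi hj
      show glue hk _ _ _ i j = 0
      rw [glue, Matrix.submatrix_apply]
      obtain ⟨i', rfl⟩ := (eIdx n k hk).surjective i
      obtain ⟨j', rfl⟩ := (eIdx n k hk).surjective j
      simp only [Equiv.symm_apply_apply]
      rcases i' with i' | i'
      · simp at hi
        omega
      · rcases j' with j' | j'
        · simp
        · simp at hj⟩
  left_inv g := by
    apply Subtype.ext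
    apply Units.ext
    show glue hk _ _ _ = _
    rw [glue]
    have h2 := block_lower hk g
    have h3 : Matrix.fromBlocks ((g.1 : Matrix (Fin n) (Fin n) F).submatrix (eIdx n k hk) (eIdx n k hk)).toBlocks₁₁
        ((g.1 : Matrix (Fin n) (Fin n) F).submatrix (eIdx n k hk) (eIdx n k hk)).toBlocks₁₂ 0
        ((g.1 : Matrix (Fin n) (Fin n) F).submatrix (eIdx n k hk) (eIdx n k hk)).toBlocks₂₂ =
        (g.1 : Matrix (Fin n) (Fin n) F).submatrix (eIdx n k hk) (eIdx n k hk) := by
      rw [← h2, Matrix.fromBlocks_toBlocks]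
    have h4 : ((g.1 : Matrix (Fin n) (Fin n) F).submatrix (eIdx n k hk) (eIdx n k hk)).submatrix (eIdx n k hk).symm (eIdx n k hk).symm
        = (g.1 : Matrix (Fin n) (Fin n) F) := by
      ext i j
      simp
    rw [← h4]
    congr 1
  right_inv x := by
    obtain ⟨⟨a, d⟩, b⟩ := x
    have h5 : ((glue hk (a : Matrix (Fin k) (Fin k) F) (d : Matrix (Fin (n - k)) (Fin (n - k)) F) b).submatrix (eIdx n k hk) (eIdx n k hk))
        = Matrix.fromBlocks (a : Matrix (Fin k) (Fin k) F) b 0 (d : Matrix (Fin (n - k)) (Fin (n - k)) F) := by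
      ext i j
      simp [glue]
    refine Prod.ext (Prod.ext ?_ ?_) ?_
    · apply Units.ext
      show (glue hk _ _ _ |>.submatrix _ _).toBlocks₁₁ = _
      rw [h5]
      rfl
    · apply Units.ext
      show (glue hk _ _ _ |>.submatrix _ _).toBlocks₂₂ = _
      rw [h5]
      rfl
    · show (glue hk _ _ _ |>.submatrix _ _).toBlocks₁₂ = _
      rw [h5]
      rfl

/-- Maximal parabolic of GL_n(q): the stabiliser of the coordinate subspace spanned by the first k basis vectors has order q^(k(n-k)) · |GL_k(q)| · |GL_(n-k)(q)| (unipotent radical of order q^(k(n-k)) and Levi complement GL_k × GL_(n-k)). -/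
theorem result {F : Type*} [Field F] [Fintype F] {q : ℕ} (hF : Fintype.card F = q) (n k : ℕ) (hk : k ≤ n) : Nat.card ↥(Cfsg.stabilizing (Cfsg.glToMat (Fin n) F) {v : Fin n → F | ∀ i : Fin n, k ≤ (i : ℕ) → v i = 0}) = q ^ (k * (n - k)) * (∏ i : Fin k, (q ^ k - q ^ (i : ℕ))) * ∏ i : Fin (n - k), (q ^ (n - k) - q ^ (i : ℕ)) := by
  classical
  rw [Nat.card_congr (parEquiv hk), Nat.card_prod, Nat.card_prod, Matrix.card_GL_field, Matrix.card_GL_field, hF]
  have hmat : Nat.card (Matrix (Fin k) (Fin (n - k)) F) = q ^ (k * (n - k)) := by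
    show Nat.card (Fin k → Fin (n - k) → F) = _
    rw [Nat.card_eq_fintype_card, Fintype.card_fun, Fintype.card_fun, hF, Fintype.card_fin, Fintype.card_fin,
      ← pow_mul, mul_comm]
  rw [hmat]
  ring

end Cfsg.Agent.S0771
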