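import Cfsg.Statements.S0773
import Cfsg.Agent.Lib.Parabolic.Basic

set_option autoImplicit false
open Cfsg

namespace Cfsg.Agent.S0773

open Matrix Cfsg.Agent.Lib.Parabolic.Basic

variable {F : Type*} [Field F] {n : ℕ}

/-- Inverse transpose followed by the reversal. -/
noncomputable def phiFun (g : Matrix.GeneralLinearGroup (Fin n) F) : Matrix.GeneralLinearGroup (Fin n) F :=
  ⟨(((g⁻¹ : Matrix.GeneralLinearGroup (Fin n) F) : Matrix (Fin n) (Fin n) F)ᵀ).submatrix Fin.revPerm Fin.revPerm,
    ((g : Matrix (Fin n) (Fin n) F)ᵀ).submatrix Fin.revPerm Fin.revPerm, by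
    rw [Matrix.submatrix_mul_equiv, ← Matrix.transpose_mul, coe_mul_inv]
    simp, by
    rw [Matrix.submatrix_mul_equiv, ← Matrix.transpose_mul, coe_inv_mul]
    simp⟩

theorem phiFun_val (g : Matrix.GeneralLinearGroup (Fin n) F) :
    (phiFun g : Matrix (Fin n) (Fin n) F) =
    (((g⁻¹ : Matrix.GeneralLinearGroup (Fin n) F) : Matrix (Fin n) (Fin n) F)ᵀ).submatrix Fin.revPerm Fin.revPerm := rfl

theorem phiFun_mul (g h : Matrix.GeneralLinearGroup (Fin n) F) : phiFun (g * h) = phiFun g * phiFun h := by
  apply Units.ext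
  rw [Units.val_mul, phiFun_val, phiFun_val, phiFun_val, Matrix.submatrix_mul_equiv, ← Matrix.transpose_mul,
    ← Units.val_mul]
  simp

theorem phiFun_phiFun (g : Matrix.GeneralLinearGroup (Fin n) F) : phiFun (phiFun g) = g := by
  apply Units.ext
  rw [phiFun_val]
  have : ((phiFun g)⁻¹ : Matrix.GeneralLinearGroup (Fin n) F).val = ((g : Matrix (Fin n) (Fin n) F)ᵀ).submatrix Fin.revPerm Fin.revPerm := rfl
  rw [this]
  ext i j
  simp

theorem phiFun_mem {k : ℕ} (hk : k ≤ n) (g : Matrix.GeneralLinearGroup (Fin n) F) (hg : g ∈ stab F n k) :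
    phiFun g ∈ stab F n (n - k) := by
  rw [mem_stab_iff]
  intro i j hi hj
  rw [phiFun_val]
  simp only [Matrix.submatrix_apply, Matrix.transpose_apply, Fin.revPerm_apply]
  apply (mem_stab_iff _).mp ((stab F n k).inv_mem hg)
  · simp only [Fin.val_rev]
    omega
  · simp only [Fin.val_rev]
    omega

/-- The isomorphism between the two stabilisers. -/
noncomputable def stabIso {k : ℕ} (hk : k ≤ n) : stab F n k ≃* stab F n (n - k) where
  toFun g := ⟨phiFun g.1, phiFun_mem hk g.1 g.2⟩
  invFun g := ⟨phiFun g.1, by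
    have := phiFun_mem (k := n - k) (by omega) g.1 g.2
    have h2 : n - (n - k) = k := by omega
    rwa [h2] at this⟩
  left_inv g := Subtype.ext (phiFun_phiFun g.1)
  right_inv g := Subtype.ext (phiFun_phiFun g.1)
  map_mul' g h := Subtype.ext (phiFun_mul g.1 h.1)

/-- Invariant subspaces of the stabiliser. -/
theorem invariant_cases {k : ℕ} (X : Submodule F (Fin n → F))
    (hX : ∀ h ∈ stab F n k, ∀ x ∈ X, (h : Matrix (Fin n) (Fin n) F) *ᵥ x ∈ X) :
    X = ⊥ ∨ X = coordSub F n k ∨ X = ⊤ := by
  classical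
  by_cases hbot : X = ⊥
  · exact Or.inl hbot
  right
  -- normalising a vector
  have hnorm : ∀ (x : Fin n → F) (l : Fin n), x l ≠ 0 → (k ≤ (l : ℕ) ∨ x ∈ coordSub F n k) → x ∈ X →
      (Pi.single l 1 : Fin n → F) ∈ X := by
    intro x l hxl hcase hx
    let z : Fin n → F := fun r => if r = l then 0 else - x r / x l
    have hz : z l = 0 := by simp [z]
    have hD : colTU l z hz ∈ stab F n k := by
      rcases hcase with h | h
      · exact colTU_mem_of_le l h z hz
      · apply colTU_mem_of_mem
        intro r hr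
        have h0 := h r hr
        by_cases hrl : r = l
        · subst hrl
          simp [z]
        · simp [z, hrl, h0]
    have h1 := hX _ hD x hx
    rw [colTU_val, colT_mulVec] at h1
    have h2 : x + x l • z = x l • Pi.single l 1 := by
      funext r
      by_cases hr : r = l
      · subst hr
        simp [z]
      · simp only [Pi.add_apply, Pi.smul_apply, smul_eq_mul, z, hr, if_false, Pi.single_apply]
        field_simp
        ring
    rw [h2] at h1
    have h3 := X.smul_mem (x l)⁻¹ h1
    rwa [smul_smul, inv_mul_cancel₀ hxl, one_smul] at h3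
  -- propagation
  have hprop : ∀ (l r : Fin n), (k ≤ (l : ℕ) ∨ (r : ℕ) < k) → (Pi.single l 1 : Fin n → F) ∈ X →
      (Pi.single r 1 : Fin n → F) ∈ X := by
    intro l r hcase hl
    by_cases hrl : r = l
    · rw [hrl]; exact hl
    have hz : (Pi.single r (1 : F) : Fin n → F) l = 0 := by simp [Ne.symm hrl]
    have hD : colTU l (Pi.single r (1 : F)) hz ∈ stab F n k := by
      rcases hcase with h | h
      · exact colTU_mem_of_le l h _ hz
      · apply colTU_mem_of_mem
        intro s hs
        have : s ≠ r := by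
          rintro rfl
          omega
        simp [this]
    have h1 := hX _ hD _ hl
    rw [colTU_val, colT_mulVec] at h1
    simp only [Pi.single_eq_same, one_smul] at h1
    have h2 := X.sub_mem h1 hl
    simpa using h2
  by_cases hsub : ∃ x ∈ X, x ∉ coordSub F n k
  · right
    obtain ⟨x, hx, hxk⟩ := hsub
    have : ∃ l : Fin n, k ≤ (l : ℕ) ∧ x l ≠ 0 := by
      by_contra hcon
      push Not at hcon
      exact hxk hcon
    obtain ⟨l, hl, hxl⟩ := this
    have hel := hnorm x l hxl (Or.inl hl) hx
    rw [eq_top_iff]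
    intro v _
    rw [pi_eq_sum_univ v]
    refine X.sum_mem (fun r _ => ?_)
    have := X.smul_mem (v r) (hprop l r (Or.inl hl) hel)
    convert this using 2
    funext s
    simp [Pi.single_apply, eq_comm]
  · left
    push Not at hsub
    apply le_antisymm hsub
    obtain ⟨x, hx, hx0⟩ := (Submodule.ne_bot_iff X).mp hbot
    have : ∃ l : Fin n, x l ≠ 0 := by
      by_contra hcon
      push Not at hcon
      exact hx0 (funext hcon)
    obtain ⟨l, hxl⟩ := this
    have hlk : (l : ℕ) < k := by
      by_contra hc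
      exact hxl (hsub x hx l (not_lt.mp hc))
    have hel := hnorm x l hxl (Or.inr (hsub x hx)) hx
    intro v hv
    rw [pi_eq_sum_univ v]
    refine X.sum_mem (fun r _ => ?_)
    by_cases hr : (r : ℕ) < k
    · have := X.smul_mem (v r) (hprop l r (Or.inr hr) hel)
      convert this using 2
      funext s
      simp [Pi.single_apply, eq_comm]
    · rw [hv r (not_lt.mp hr), zero_smul]
      exact X.zero_mem

/-- Dimension of the coordinate subspace. -/
theorem finrank_coordSub {k : ℕ} (hk : k ≤ n) : Module.finrank F (coordSub F n k) = k := by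
  classical
  let ι : (Fin k → F) →ₗ[F] (Fin n → F) :=
    { toFun := fun x i => if h : (i : ℕ) < k then x ⟨i, h⟩ else 0
      map_add' := by
        intro x y
        funext i
        by_cases h : (i : ℕ) < k <;> simp [h]
      map_smul' := by
        intro c x
        funext i
        by_cases h : (i : ℕ) < k <;> simp [h] }
  have hinj : Function.Injective ι := by
    rw [← LinearMap.ker_eq_bot, LinearMap.ker_eq_bot']
    intro x hx
    funext i
    have := congrFun hx ⟨i, by omega⟩
    simpa [ι] using this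
  have hrange : LinearMap.range ι = coordSub F n k := by
    ext v
    constructor
    · rintro ⟨x, rfl⟩ i hi
      simp [ι, not_lt.mpr hi]
    · intro hv
      refine ⟨fun i => v ⟨i, by omega⟩, ?_⟩
      funext i
      by_cases h : (i : ℕ) < k
      · simp [ι, h]
      · simp [ι, h, hv i (not_lt.mp h)]
  rw [← hrange, LinearMap.finrank_range_of_inj hinj, Module.finrank_fin_fun]

/-- The stabilisers in GL_n(F), F finite, of the coordinate subspaces of dimensions k and n − k are isomorphic groups, but when 2k ≠ n (and 0 < k < n) no element of GL_n conjugates one onto the other. -/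
theorem result {F : Type*} [Field F] [Finite F] (n k : ℕ) (hk0 : 0 < k) (hkn : k < n) (h2 : 2 * k ≠ n) : Nonempty (↥(Cfsg.stabilizing (Cfsg.glToMat (Fin n) F) {v : Fin n → F | ∀ i : Fin n, k ≤ (i : ℕ) → v i = 0}) ≃* ↥(Cfsg.stabilizing (Cfsg.glToMat (Fin n) F) {v : Fin n → F | ∀ i : Fin n, n - k ≤ (i : ℕ) → v i = 0})) ∧ ∀ g : Matrix.GeneralLinearGroup (Fin n) F, (Cfsg.stabilizing (Cfsg.glToMat (Fin n) F) {v : Fin n → F | ∀ i : Fin n, k ≤ (i : ℕ) → v i = 0}).map (MulAut.conj g).toMonoidHom ≠ Cfsg.stabilizing (Cfsg.glToMat (Fin n) F) {v : Fin n → F | ∀ i : Fin n, n - k ≤ (i : ℕ) → v i = 0} := by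
  refine ⟨⟨stabIso hkn.le⟩, ?_⟩
  intro g hg
  -- the image of the coordinate subspace
  let G : (Fin n → F) ≃ₗ[F] (Fin n → F) :=
    LinearEquiv.ofLinearMap (Matrix.mulVecLin (g : Matrix (Fin n) (Fin n) F))
      (Matrix.mulVecLin ((g⁻¹ : Matrix.GeneralLinearGroup (Fin n) F) : Matrix (Fin n) (Fin n) F))
      (LinearMap.ext fun x => by
        simp only [LinearMap.comp_apply, Matrix.mulVecLin_apply, Matrix.mulVec_mulVec, coe_mul_inv,
          Matrix.one_mulVec, LinearMap.id_apply])
      (LinearMap.ext fun x => by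
        simp only [LinearMap.comp_apply, Matrix.mulVecLin_apply, Matrix.mulVec_mulVec, coe_inv_mul,
          Matrix.one_mulVec, LinearMap.id_apply])
  have hG : ∀ x, G x = (g : Matrix (Fin n) (Fin n) F) *ᵥ x := fun x => rfl
  let X : Submodule F (Fin n → F) := (coordSub F n k).map (G : (Fin n → F) →ₗ[F] (Fin n → F))
  have hfr : Module.finrank F X = k := by
    rw [LinearEquiv.finrank_map_eq, finrank_coordSub hkn.le]
  have hinv : ∀ h ∈ stab F n (n - k), ∀ x ∈ X, (h : Matrix (Fin n) (Fin n) F) *ᵥ x ∈ X := by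
    intro h hh x hx
    obtain ⟨v, hv, rfl⟩ := hx
    have hh' : h ∈ (Cfsg.stabilizing (Cfsg.glToMat (Fin n) F) {v : Fin n → F | ∀ i : Fin n, k ≤ (i : ℕ) → v i = 0}).map (MulAut.conj g).toMonoidHom := by
      rw [hg]
      exact hh
    obtain ⟨p, hp, rfl⟩ := hh'
    refine ⟨(p : Matrix (Fin n) (Fin n) F) *ᵥ v, (hp v).mp hv, ?_⟩
    show G _ = (((MulAut.conj g).toMonoidHom p : Matrix.GeneralLinearGroup (Fin n) F) : Matrix (Fin n) (Fin n) F) *ᵥ (G v)
    rw [hG, hG]
    simp only [MulEquiv.coe_toMonoidHom, MulAut.conj_apply, Units.val_mul, Matrix.mulVec_mulVec]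
    congr 1
    rw [Matrix.mul_assoc, Matrix.mul_assoc, coe_inv_mul, Matrix.mul_one]
  rcases invariant_cases X hinv with h | h | h
  · rw [h, finrank_bot] at hfr
    omega
  · rw [h, finrank_coordSub (by omega)] at hfr
    omega
  · rw [h, finrank_top, Module.finrank_fin_fun] at hfr
    omega

end Cfsg.Agent.S0773
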