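import Cfsg.Statements.S0778

set_option autoImplicit false
open Cfsg

namespace Cfsg.Agent.S0778

open Matrix

variable {F : Type*} [Field F] {m : ℕ}

/-- The block diagonal matrix attached to `X`. -/
def blockMat (X : Matrix.GeneralLinearGroup (Fin m) F) : Matrix (Fin m ⊕ Fin m) (Fin m ⊕ Fin m) F :=
  Matrix.fromBlocks (X : Matrix (Fin m) (Fin m) F) 0 0 ((X⁻¹ : Matrix.GeneralLinearGroup (Fin m) F) : Matrix (Fin m) (Fin m) F)ᵀ

theorem blockMat_mem (X : Matrix.GeneralLinearGroup (Fin m) F) :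
    blockMat X ∈ Matrix.symplecticGroup (Fin m) F := by
  rw [blockMat, SymplecticGroup.fromBlocks_mem_iff]
  have h1 : ((X⁻¹ : Matrix.GeneralLinearGroup (Fin m) F) : Matrix (Fin m) (Fin m) F) * (X : Matrix (Fin m) (Fin m) F) = 1 := by
    rw [← Units.val_mul]; simp
  have h2 : (X : Matrix (Fin m) (Fin m) F)ᵀ * ((X⁻¹ : Matrix.GeneralLinearGroup (Fin m) F) : Matrix (Fin m) (Fin m) F)ᵀ = 1 := by
    rw [← Matrix.transpose_mul, h1, Matrix.transpose_one]
  refine ⟨by simp, by simp, ?_⟩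
  simpa using h2

theorem blockMat_mul (X Y : Matrix.GeneralLinearGroup (Fin m) F) :
    blockMat (X * Y) = blockMat X * blockMat Y := by
  rw [blockMat, blockMat, blockMat, Matrix.fromBlocks_multiply]
  simp [_root_.mul_inv_rev, Matrix.transpose_mul]

theorem blockMat_mulVec (X : Matrix.GeneralLinearGroup (Fin m) F) (v : Fin m ⊕ Fin m → F) (i : Fin m) :
    (blockMat X *ᵥ v) (Sum.inl i) = ((X : Matrix (Fin m) (Fin m) F) *ᵥ (v ∘ Sum.inl)) i ∧
    (blockMat X *ᵥ v) (Sum.inr i) = (((X⁻¹ : Matrix.GeneralLinearGroup (Fin m) F) : Matrix (Fin m) (Fin m) F)ᵀ *ᵥ (v ∘ Sum.inr)) i := by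
  rw [blockMat, Matrix.fromBlocks_mulVec]
  simp

theorem unit_mulVec_eq_zero_iff (X : Matrix (Fin m) (Fin m) F) (Y : Matrix (Fin m) (Fin m) F) (h : Y * X = 1) (w : Fin m → F) :
    (∀ i, (X *ᵥ w) i = 0) ↔ (∀ i, w i = 0) := by
  constructor
  · intro hw
    have h0 : X *ᵥ w = 0 := funext hw
    have : Y *ᵥ (X *ᵥ w) = w := by rw [Matrix.mulVec_mulVec, h, Matrix.one_mulVec]
    rw [h0, Matrix.mulVec_zero] at this
    intro i
    rw [← this]; rfl
  · intro hw
    have h0 : w = 0 := funext hw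
    intro i
    rw [h0, Matrix.mulVec_zero]; rfl

/-- The map from GL into the joint stabiliser. -/
noncomputable def toStab (X : Matrix.GeneralLinearGroup (Fin m) F) :
    ↥(Cfsg.stabilizing (Cfsg.spToMat m F) {v : Fin m ⊕ Fin m → F | ∀ i : Fin m, v (Sum.inr i) = 0} ⊓ Cfsg.stabilizing (Cfsg.spToMat m F) {v : Fin m ⊕ Fin m → F | ∀ i : Fin m, v (Sum.inl i) = 0}) :=
  ⟨⟨blockMat X, blockMat_mem X⟩, by
    have hX1 : ((X⁻¹ : Matrix.GeneralLinearGroup (Fin m) F) : Matrix (Fin m) (Fin m) F) * (X : Matrix (Fin m) (Fin m) F) = 1 := by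
      rw [← Units.val_mul]; simp
    have hX2 : (X : Matrix (Fin m) (Fin m) F) * ((X⁻¹ : Matrix.GeneralLinearGroup (Fin m) F) : Matrix (Fin m) (Fin m) F) = 1 := by
      rw [← Units.val_mul]; simp
    refine ⟨fun v => ?_, fun v => ?_⟩
    · show (∀ i, v (Sum.inr i) = 0) ↔ (∀ i, (blockMat X *ᵥ v) (Sum.inr i) = 0)
      simp only [fun i => (blockMat_mulVec X v i).2]
      rw [unit_mulVec_eq_zero_iff _ (X : Matrix (Fin m) (Fin m) F)ᵀ (by rw [← Matrix.transpose_mul, hX1, Matrix.transpose_one])]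
      rfl
    · show (∀ i, v (Sum.inl i) = 0) ↔ (∀ i, (blockMat X *ᵥ v) (Sum.inl i) = 0)
      simp only [fun i => (blockMat_mulVec X v i).1]
      rw [unit_mulVec_eq_zero_iff _ ((X⁻¹ : Matrix.GeneralLinearGroup (Fin m) F) : Matrix (Fin m) (Fin m) F) hX1]
      rfl⟩

noncomputable def toStabHom : Matrix.GeneralLinearGroup (Fin m) F →* ↥(Cfsg.stabilizing (Cfsg.spToMat m F) {v : Fin m ⊕ Fin m → F | ∀ i : Fin m, v (Sum.inr i) = 0} ⊓ Cfsg.stabilizing (Cfsg.spToMat m F) {v : Fin m ⊕ Fin m → F | ∀ i : Fin m, v (Sum.inl i) = 0}) where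
  toFun := toStab
  map_one' := by
    apply Subtype.ext
    apply Subtype.ext
    show blockMat (1 : Matrix.GeneralLinearGroup (Fin m) F) = 1
    simp [blockMat]
  map_mul' X Y := by
    apply Subtype.ext
    apply Subtype.ext
    exact blockMat_mul X Y

theorem toStabHom_bij : Function.Bijective (toStabHom (F := F) (m := m)) := by
  constructor
  · intro X Y h
    have h1 : blockMat X = blockMat Y := congrArg (fun z => ((z.1 : Matrix.symplecticGroup (Fin m) F) : Matrix (Fin m ⊕ Fin m) (Fin m ⊕ Fin m) F)) h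
    apply Units.ext
    ext i j
    have := congrFun (congrFun h1 (Sum.inl i)) (Sum.inl j)
    simpa [blockMat] using this
  · rintro ⟨⟨A, hA⟩, hA1, hA2⟩
    have h1 : ∀ v : Fin m ⊕ Fin m → F, (∀ i, v (Sum.inr i) = 0) → ∀ i, (A *ᵥ v) (Sum.inr i) = 0 :=
      fun v hv => (hA1 v).mp hv
    have h2 : ∀ v : Fin m ⊕ Fin m → F, (∀ i, v (Sum.inl i) = 0) → ∀ i, (A *ᵥ v) (Sum.inl i) = 0 :=
      fun v hv => (hA2 v).mp hv
    have hb21 : A.toBlocks₂₁ = 0 := by
      ext i j
      have := h1 (Pi.single (Sum.inl j) 1) (by intro k; simp) i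
      simpa [Matrix.toBlocks₂₁] using this
    have hb12 : A.toBlocks₁₂ = 0 := by
      ext i j
      have := h2 (Pi.single (Sum.inr j) 1) (by intro k; simp) i
      simpa [Matrix.toBlocks₁₂] using this
    have hA' : A = Matrix.fromBlocks A.toBlocks₁₁ 0 0 A.toBlocks₂₂ := by
      conv_lhs => rw [← Matrix.fromBlocks_toBlocks A]
      rw [hb21, hb12]
    set X := A.toBlocks₁₁ with hX
    set Y := A.toBlocks₂₂ with hY
    have hsymp : Xᵀ * Y = 1 := by
      have h3 := hA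
      rw [hA', SymplecticGroup.fromBlocks_mem_iff] at h3
      simpa using h3.2.2
    have h4 : Y * Xᵀ = 1 := mul_eq_one_comm.mp hsymp
    let u : Matrix.GeneralLinearGroup (Fin m) F := ⟨X, Yᵀ, by
      have := congrArg Matrix.transpose h4
      simpa [Matrix.transpose_mul] using this, by
      have := congrArg Matrix.transpose hsymp
      simpa [Matrix.transpose_mul] using this⟩
    refine ⟨u, ?_⟩
    apply Subtype.ext
    apply Subtype.ext
    show blockMat u = A
    rw [hA', blockMat]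
    simp [u, Units.inv_mk]

/-- The elements of Sp_2m(F) stabilising both W = ⟨e_1..e_m⟩ and U = ⟨f_1..f_m⟩ form a subgroup isomorphic to GL_m(F) (block-diagonal matrices diag(X, X^(−ᵀ)) up to the sign convention of J), for m ≥ 1 or m = 0 alike. -/
theorem result {F : Type*} [Field F] (m : ℕ) : Nonempty (↥(Cfsg.stabilizing (Cfsg.spToMat m F) {v : Fin m ⊕ Fin m → F | ∀ i : Fin m, v (Sum.inr i) = 0} ⊓ Cfsg.stabilizing (Cfsg.spToMat m F) {v : Fin m ⊕ Fin m → F | ∀ i : Fin m, v (Sum.inl i) = 0}) ≃* Matrix.GeneralLinearGroup (Fin m) F) :=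
  ⟨(MulEquiv.ofBijective toStabHom toStabHom_bij).symm⟩

end Cfsg.Agent.S0778
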