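import Cfsg.Statements.S0785
import Cfsg.Agent.Lib.Reflect.Basic

set_option autoImplicit false
open Cfsg

namespace Cfsg.Agent.S0785

open Matrix in
/-- det(I) = {±1}: for a quadratic form on F^n whose polar form is non-degenerate, every element of the isometry group has determinant 1 or −1, and as soon as Q takes a non-zero value some isometry has determinant −1. -/
theorem result {F : Type*} [Field F] {n : ℕ} (Q : QuadraticForm F (Fin n → F)) (hQ : (QuadraticMap.polarBilin Q).Nondegenerate) : (∀ g : ↥(Cfsg.isometryGroup F ⇑Q), ((g : Matrix.GeneralLinearGroup (Fin n) F) : Matrix (Fin n) (Fin n) F).det = 1 ∨ ((g : Matrix.GeneralLinearGroup (Fin n) F) : Matrix (Fin n) (Fin n) F).det = -1) ∧ ((∃ v, Q v ≠ 0) → ∃ g : ↥(Cfsg.isometryGroup F ⇑Q), ((g : Matrix.GeneralLinearGroup (Fin n) F) : Matrix (Fin n) (Fin n) F).det = -1) := by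
  constructor
  · rintro ⟨g, hg⟩
    have hg' : ∀ u : Fin n → F, Q ((g : Matrix (Fin n) (Fin n) F) *ᵥ u) = Q u := fun u => hg u u
    set A : Matrix (Fin n) (Fin n) F := (g : Matrix (Fin n) (Fin n) F) with hA
    set M := LinearMap.BilinForm.toMatrix' (QuadraticMap.polarBilin Q) with hM
    have hdet : M.det ≠ 0 := by
      have := (LinearMap.BilinForm.nondegenerate_toMatrix'_iff (B := QuadraticMap.polarBilin Q)).mpr hQ
      exact (Matrix.nondegenerate_iff_det_ne_zero).mp this
    have hcomp : LinearMap.BilinForm.comp (QuadraticMap.polarBilin Q) (Matrix.toLin' A) (Matrix.toLin' A) = QuadraticMap.polarBilin Q := by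
      refine LinearMap.BilinForm.ext fun x y => ?_
      simp only [LinearMap.BilinForm.comp_apply, QuadraticMap.polarBilin_apply_apply, Matrix.toLin'_apply,
        QuadraticMap.polar, ← Matrix.mulVec_add, hg']
    have hmat : Aᵀ * M * A = M := by
      have := LinearMap.BilinForm.toMatrix'_comp (QuadraticMap.polarBilin Q) (Matrix.toLin' A) (Matrix.toLin' A)
      rw [hcomp] at this
      simpa [hM] using this.symm
    have h2 := congrArg Matrix.det hmat
    rw [Matrix.det_mul, Matrix.det_mul, Matrix.det_transpose] at h2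
    have h3 : A.det * A.det = 1 := by
      apply mul_right_cancel₀ hdet
      rw [one_mul]
      linear_combination h2
    exact mul_self_eq_one_iff.mp h3
  · rintro ⟨v, hv⟩
    have hone : Cfsg.reflectionMatrix ⇑Q v * Cfsg.reflectionMatrix ⇑Q v = 1 := Lib.Reflect.Basic.reflection_sq Q v hv
    let u : Matrix.GeneralLinearGroup (Fin n) F :=
      ⟨Cfsg.reflectionMatrix ⇑Q v, Cfsg.reflectionMatrix ⇑Q v, hone, hone⟩
    refine ⟨⟨u, ?_⟩, Lib.Reflect.Basic.reflection_det Q v hv⟩
    intro x _
    exact Lib.Reflect.Basic.reflection_isometry Q v x hv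

end Cfsg.Agent.S0785
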