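import Cfsg.Statements.S0793
import Cfsg.Agent.Lib.QuadFn.Basic

set_option autoImplicit false
open Cfsg

namespace Cfsg.Agent.S0793

open Cfsg.Agent.Lib.QuadFn.Basic

/-- Root elements: if Q(u) = Q(v) = 0 and f(u, v) = 0 (f the polar form), then for every c the Siegel matrix T_(u,v)(c) preserves Q, fixes u and v, and T(c) T(d) = T(c + d). -/
theorem result {F : Type*} [Field F] {n : ℕ} (Q : QuadraticForm F (Fin n → F)) (u v : Fin n → F) (hu : Q u = 0) (hv : Q v = 0) (huv : QuadraticMap.polar ⇑Q u v = 0) : (∀ c x, Q ((Cfsg.siegelMatrix ⇑Q u v c).mulVec x) = Q x) ∧ (∀ c, (Cfsg.siegelMatrix ⇑Q u v c).mulVec u = u ∧ (Cfsg.siegelMatrix ⇑Q u v c).mulVec v = v) ∧ ∀ c d, Cfsg.siegelMatrix ⇑Q u v c * Cfsg.siegelMatrix ⇑Q u v d = Cfsg.siegelMatrix ⇑Q u v (c + d) := by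
  have huv' : QuadraticMap.polar ⇑Q v u = 0 := by rw [polar_symm]; exact huv
  have huu : QuadraticMap.polar ⇑Q u u = 0 := by
    rw [QuadraticMap.polar_self, hu, smul_zero]
  have hvv : QuadraticMap.polar ⇑Q v v = 0 := by
    rw [QuadraticMap.polar_self, hv, smul_zero]
  have hpol : ∀ (c : F) (x y : Fin n → F), QuadraticMap.polar ⇑Q x y = QuadraticMap.polar ⇑Q y x :=
    fun _ x y => polar_symm Q x y
  refine ⟨?_, ?_, ?_⟩
  · intro c x
    rw [siegelMatrix_mulVec, sub_eq_add_neg, add_assoc, QuadraticMap.map_add Q, QuadraticMap.map_add Q]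
    simp only [QuadraticMap.map_neg, QuadraticMap.map_smul, hu, hv, QuadraticMap.polar_add_right,
      QuadraticMap.polar_smul_right, QuadraticMap.polar_smul_left, QuadraticMap.polar_neg_right, smul_zero, smul_eq_mul, huv', hpol c x u, hpol c x v]
    ring
  · intro c
    rw [siegelMatrix_mulVec, siegelMatrix_mulVec, huu, huv, huv', hvv]
    simp
  · intro c d
    rw [Matrix.ext_iff_mulVec]
    intro x
    rw [← Matrix.mulVec_mulVec, siegelMatrix_mulVec, siegelMatrix_mulVec, siegelMatrix_mulVec]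
    have h1 : QuadraticMap.polar ⇑Q u (x + (d * QuadraticMap.polar ⇑Q u x) • v - (d * QuadraticMap.polar ⇑Q v x) • u) = QuadraticMap.polar ⇑Q u x := by
      simp [sub_eq_add_neg, QuadraticMap.polar_add_right, QuadraticMap.polar_smul_right, QuadraticMap.polar_neg_right, huv, huu]
    have h2 : QuadraticMap.polar ⇑Q v (x + (d * QuadraticMap.polar ⇑Q u x) • v - (d * QuadraticMap.polar ⇑Q v x) • u) = QuadraticMap.polar ⇑Q v x := by
      simp [sub_eq_add_neg, QuadraticMap.polar_add_right, QuadraticMap.polar_smul_right, QuadraticMap.polar_neg_right, huv', hvv]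
    rw [h1, h2, add_mul, add_mul, add_smul, add_smul]
    abel

end Cfsg.Agent.S0793
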