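import Cfsg.Statements.S0795
import Cfsg.Agent.S0794

set_option autoImplicit false

open Cfsg

namespace Cfsg.Agent.S0795

open Matrix Cfsg.Agent.Lib.Witt.Quadratic Cfsg.Agent.Lib.Orth.Refl Cfsg.Agent.Lib.Orth.Bridge
  Cfsg.Agent.Lib.OrthRefl.Basic Cfsg.Agent.Lib.OrthRefl.Eichler Cfsg.Agent.Lib.OrthRefl.Singular QuadraticMap

variable {F : Type*} [Field F] [Fintype F] {n : ℕ}

theorem card_ne_two (h2 : (2 : F) ≠ 0) : Fintype.card F ≠ 2 := by
  intro hcard
  apply h2
  have := FiniteField.cast_card_eq_zero F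
  rw [hcard] at this
  exact_mod_cast this

/-- The hyperplane `y^⊥` is spanned by its singular vectors. -/
theorem span_singular (hn : 5 ≤ n) (Q : QuadraticForm F (Fin n → F)) (hQ : (polarBilin Q).Nondegenerate)
    {y : Fin n → F} (hy : y ≠ 0) {t : Fin n → F} (ht : polar Q y t = 0) :
    t ∈ Submodule.span F {s | Q s = 0 ∧ polar Q y s = 0} := by
  obtain ⟨y', -, hy'⟩ := exists_partner hQ ⊥ y (by simpa using hy)
  let L : (Fin n → F) →ₗ[F] (Fin 2 → F) := LinearMap.pi ![polarBilin Q y, polarBilin Q y']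
  have hfr : 3 ≤ Module.finrank F (LinearMap.ker L) := by
    have h1 := LinearMap.finrank_range_add_finrank_ker L
    have h5 := Submodule.finrank_le (LinearMap.range L)
    simp only [Module.finrank_fin_fun] at h1 h5
    omega
  obtain ⟨e, heL, he0, hQe⟩ := exists_singular Q hQ (LinearMap.ker L) hfr
  have heL' : L e = 0 := heL
  have h1 : polar Q y e = 0 := congrFun heL' 0
  have h3 : polar Q y' e = 0 := congrFun heL' 1
  have hey : e ∉ Submodule.span F {y} := by
    intro h
    obtain ⟨k, rfl⟩ := Submodule.mem_span_singleton.mp h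
    rw [polar_smul_right, polar_comm, hy'] at h3
    apply he0
    simp only [smul_eq_mul, mul_one] at h3
    simp [h3]
  have hUe : ∀ x ∈ Submodule.span F {y}, polar Q x e = 0 := by
    intro x hx
    obtain ⟨k, rfl⟩ := Submodule.mem_span_singleton.mp hx
    rw [polar_smul_left, h1]
    simp
  obtain ⟨f, hQf, hef, hUf⟩ := exists_singular_partner Q hQ _ hey hQe hUe
  have hyf : polar Q y f = 0 := hUf y (Submodule.mem_span_singleton_self y)
  have hee : polar Q e e = 0 := by rw [polar_self_eq, hQe, mul_zero]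
  have hff : polar Q f f = 0 := by rw [polar_self_eq, hQf, mul_zero]
  have hfe : polar Q f e = 1 := by rw [polar_comm]; exact hef
  obtain ⟨α, hα⟩ : ∃ α, α = polar Q t f := ⟨_, rfl⟩
  obtain ⟨β, hβ⟩ : ∃ β, β = polar Q t e := ⟨_, rfl⟩
  obtain ⟨t', ht'⟩ : ∃ t', t' = t - α • e - β • f := ⟨_, rfl⟩
  have ht'e : polar Q t' e = 0 := by
    rw [ht', polar_sub_left, polar_sub_left, polar_smul_left, polar_smul_left, hee, hfe, ← hβ]
    simp
  have ht'f : polar Q t' f = 0 := by
    rw [ht', polar_sub_left, polar_sub_left, polar_smul_left, polar_smul_left, hef, hff, ← hα]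
    simp
  have hyt' : polar Q y t' = 0 := by
    rw [ht', polar_sub_right, polar_sub_right, polar_smul_right, polar_smul_right, ht, h1, hyf]
    simp
  obtain ⟨t'', ht''⟩ : ∃ t'', t'' = t' + (-(Q t')) • e + f := ⟨_, rfl⟩
  have hQt'' : Q t'' = 0 := by
    rw [ht'', Q_add, Q_add, QuadraticMap.map_smul, hQe, hQf, polar_add_left, polar_smul_left, polar_smul_right,
      ht'e, ht'f, hef]
    simp
  have hyt'' : polar Q y t'' = 0 := by
    rw [ht'', polar_add_right, polar_add_right, polar_smul_right, hyt', h1, hyf]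
    simp
  set S : Submodule F (Fin n → F) := Submodule.span F {s | Q s = 0 ∧ polar Q y s = 0} with hS
  have he : e ∈ S := Submodule.subset_span ⟨hQe, h1⟩
  have hf : f ∈ S := Submodule.subset_span ⟨hQf, hyf⟩
  have ht''S : t'' ∈ S := Submodule.subset_span ⟨hQt'', hyt''⟩
  have heq : t = t'' + (Q t' + α) • e + (β - 1) • f := by
    rw [ht'', ht']
    module
  rw [heq]
  exact S.add_mem (S.add_mem ht''S (S.smul_mem _ he)) (S.smul_mem _ hf)

/-- A singular vector in `y^⊥` outside `u^⊥`. -/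
theorem exists_sep (hn : 5 ≤ n) (Q : QuadraticForm F (Fin n → F)) (hQ : (polarBilin Q).Nondegenerate)
    {y u : Fin n → F} (hy : y ≠ 0) (hu : u ∉ Submodule.span F {y}) :
    ∃ x, Q x = 0 ∧ polar Q y x = 0 ∧ polar Q u x ≠ 0 := by
  by_contra hcon
  push Not at hcon
  obtain ⟨a, ha, hua⟩ := exists_partner hQ (Submodule.span F {y}) u hu
  have hya : polar Q y a = 0 := ha y (Submodule.mem_span_singleton_self y)
  have hmem := span_singular hn Q hQ hy hya
  have hle : Submodule.span F {s | Q s = 0 ∧ polar Q y s = 0} ≤ LinearMap.ker (polarBilin Q u) := by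
    rw [Submodule.span_le]
    rintro s ⟨h1, h3⟩
    exact hcon s h1 h3
  have := hle hmem
  have h0 : polar Q u a = 0 := this
  rw [hua] at h0
  exact one_ne_zero h0

/-- The group generated by the Siegel transformations. -/
def E (Q : QuadraticForm F (Fin n → F)) : Subgroup (isometryGroup F ⇑Q) :=
  Subgroup.closure {g : ↥(Cfsg.isometryGroup F ⇑Q) | ∃ (u v : Fin n → F) (c : F), Q u = 0 ∧ Q v = 0 ∧ QuadraticMap.polar ⇑Q u v = 0 ∧ ((g : Matrix.GeneralLinearGroup (Fin n) F) : Matrix (Fin n) (Fin n) F) = Cfsg.siegelMatrix ⇑Q u v c}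

omit [Fintype F] in
/-- Conjugates of Siegel transformations. -/
theorem conj_siegel (Q : QuadraticForm F (Fin n → F)) (h : isometryGroup F ⇑Q) {g : isometryGroup F ⇑Q}
    {u v : Fin n → F} {c : F} (hg : ((g : GL (Fin n) F) : Matrix (Fin n) (Fin n) F) = siegelMatrix ⇑Q u v c) :
    (((h * g * h⁻¹ : isometryGroup F ⇑Q) : GL (Fin n) F) : Matrix (Fin n) (Fin n) F) =
      siegelMatrix ⇑Q (((h : GL (Fin n) F) : Matrix (Fin n) (Fin n) F) *ᵥ u)
        (((h : GL (Fin n) F) : Matrix (Fin n) (Fin n) F) *ᵥ v) c := by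
  apply Matrix.mulVec_injective
  funext y
  -- write `y = h x`
  obtain ⟨x, rfl⟩ : ∃ x, y = ((h : GL (Fin n) F) : Matrix (Fin n) (Fin n) F) *ᵥ x := by
    refine ⟨((h⁻¹ : isometryGroup F ⇑Q) : GL (Fin n) F).val *ᵥ y, ?_⟩
    rw [← mul_mulVec]
    simp
  rw [← mul_mulVec]
  have h1 : h * g * h⁻¹ * h = h * g := by group
  rw [h1, mul_mulVec, hg, Cfsg.Agent.Lib.QuadFn.Basic.siegelMatrix_mulVec,
    Cfsg.Agent.Lib.QuadFn.Basic.siegelMatrix_mulVec]
  have hmem : (toIso Q h : isoGroup Q).1 ∈ isoGroup Q := (toIso Q h).2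
  have hpol : ∀ a b : Fin n → F, polar Q (((h : GL (Fin n) F) : Matrix (Fin n) (Fin n) F) *ᵥ a)
      (((h : GL (Fin n) F) : Matrix (Fin n) (Fin n) F) *ᵥ b) = polar Q a b := fun a b =>
    polar_eq_of_preserves (toIso Q h : isoGroup Q).1 hmem a b
  rw [hpol, hpol, Matrix.mulVec_sub, Matrix.mulVec_add, Matrix.mulVec_smul, Matrix.mulVec_smul]

omit [Fintype F] in
theorem conj_mem_E (Q : QuadraticForm F (Fin n → F)) (h : isometryGroup F ⇑Q) {g : isometryGroup F ⇑Q}
    (hg : g ∈ E Q) : h * g * h⁻¹ ∈ E Q := by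
  induction hg using Subgroup.closure_induction with
  | mem x hx =>
    obtain ⟨u, v, c, hu, hv, huv, hx⟩ := hx
    have hmem : (toIso Q h : isoGroup Q).1 ∈ isoGroup Q := (toIso Q h).2
    refine Subgroup.subset_closure ⟨_, _, c, ?_, ?_, ?_, conj_siegel Q h hx⟩
    · rw [← hu]
      exact hmem u
    · rw [← hv]
      exact hmem v
    · rw [← huv]
      exact polar_eq_of_preserves (toIso Q h : isoGroup Q).1 hmem u v
  | one => simp
  | mul a b _ _ ha hb =>
    have : h * (a * b) * h⁻¹ = (h * a * h⁻¹) * (h * b * h⁻¹) := by group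
    rw [this]
    exact Subgroup.mul_mem _ ha hb
  | inv a _ ha =>
    have : h * a⁻¹ * h⁻¹ = (h * a * h⁻¹)⁻¹ := by group
    rw [this]
    exact Subgroup.inv_mem _ ha

omit [Fintype F] in
instance E_normal (Q : QuadraticForm F (Fin n → F)) : (E Q).Normal :=
  ⟨fun _ hg h => conj_mem_E Q h hg⟩

/-- Eichler transformations lie in `E`. -/
theorem eG_mem_E (hn : 5 ≤ n) (Q : QuadraticForm F (Fin n → F)) (hQ : (polarBilin Q).Nondegenerate)
    {a b : Fin n → F} (h : EPair Q a b) : eG h ∈ E Q := by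
  by_cases ha : a = 0
  · subst ha
    have : eG h = 1 := by
      apply iso_ext
      intro x
      rw [eG_mulVec, eichLin_apply]
      simp
    rw [this]
    exact Subgroup.one_mem _
  have hb := span_singular hn Q hQ ha h.ab
  have hQa := h.Qa
  suffices key : polar Q a b = 0 ∧ ∀ (k : F) (c : Fin n → F) (h' : EPair Q a c), c = k • b → eG h' ∈ E Q from
    key.2 1 b h (by rw [one_smul])
  clear h
  induction hb using Submodule.span_induction with
  | mem s hs =>
    obtain ⟨hQs, has⟩ := hs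
    refine ⟨has, ?_⟩
    rintro k _ h' rfl
    refine Subgroup.subset_closure ⟨s, a, k, hQs, hQa, by rw [polar_comm]; exact has, ?_⟩
    apply Matrix.mulVec_injective
    funext x
    rw [eG_mulVec, eichLin_apply, Cfsg.Agent.Lib.QuadFn.Basic.siegelMatrix_mulVec, QuadraticMap.map_smul, hQs,
      polar_smul_right, polar_comm Q s x, polar_comm Q a x]
    simp only [smul_eq_mul, mul_zero, zero_mul, zero_smul, sub_zero]
    rw [mul_smul, mul_comm k, mul_smul]
  | zero =>
    refine ⟨by simp, ?_⟩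
    rintro k _ h' rfl
    have : eG h' = 1 := by
      apply iso_ext
      intro x
      rw [eG_mulVec, smul_zero, eichLin_zero]
      simp
    rw [this]
    exact Subgroup.one_mem _
  | add b₁ b₂ _ _ h1 h2 =>
    refine ⟨by rw [polar_add_right, h1.1, h2.1, add_zero], ?_⟩
    rintro k _ h' rfl
    have hp : ∀ d : Fin n → F, polar Q a d = 0 → polar Q a (k • d) = 0 := by
      intro d hd
      rw [polar_smul_right, hd]
      simp
    have h₁ : EPair Q a (k • b₁) := ⟨hQa, hp _ h1.1⟩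
    have h₂ : EPair Q a (k • b₂) := ⟨hQa, hp _ h2.1⟩
    have : eG h' = eG h₁ * eG h₂ := by
      apply iso_ext
      intro x
      rw [mul_mulVec, eG_mulVec, eG_mulVec, eG_mulVec, eichLin_comp h₁ h₂, smul_add]
    rw [this]
    exact Subgroup.mul_mem _ (h1.2 k _ h₁ rfl) (h2.2 k _ h₂ rfl)
  | smul l b₁ _ h1 =>
    refine ⟨by rw [polar_smul_right, h1.1]; simp, ?_⟩
    rintro k _ h' rfl
    exact h1.2 (k * l) _ h' (smul_smul _ _ _)

/-- Transitivity on vectors of the same norm. -/
theorem exists_transitive (hn : 5 ≤ n) (Q : QuadraticForm F (Fin n → F)) (hQ : (polarBilin Q).Nondegenerate)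
    {u v : Fin n → F} (huv : Q u = Q v) (hne : u - v ≠ 0) (hdep : u ∉ Submodule.span F {u - v}) :
    ∃ τ ∈ E Q, ((τ : GL (Fin n) F) : Matrix (Fin n) (Fin n) F) *ᵥ u = v := by
  obtain ⟨x, hQx, hyx, hux⟩ := exists_sep hn Q hQ hne hdep
  obtain ⟨l, hl⟩ : ∃ l, l = polar Q u x := ⟨_, rfl⟩
  have hl0 : l ≠ 0 := hl ▸ hux
  have hvx : polar Q v x = l := by
    rw [polar_sub_left, sub_eq_zero] at hyx
    rw [← hyx, hl]
  obtain ⟨w, hw⟩ : ∃ w, w = l⁻¹ • (u - v) := ⟨_, rfl⟩
  have hE : EPair Q x w := ⟨hQx, by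
    rw [hw, polar_smul_right, polar_comm, hyx]
    simp⟩
  refine ⟨eG hE, eG_mem_E hn Q hQ hE, ?_⟩
  rw [eG_mulVec, eichLin_apply, ← hl]
  have h1 : polar Q u w = l⁻¹ * (2 * Q u - polar Q u v) := by
    rw [hw, polar_smul_right, polar_sub_right, polar_self_eq]
    rfl
  have h2 : Q w = (l⁻¹) ^ 2 * (2 * Q u - polar Q u v) := by
    rw [hw, QuadraticMap.map_smul, Cfsg.Agent.Lib.Orth.Refl.Q_sub, ← huv]
    simp only [smul_eq_mul]
    ring
  have h3 : polar Q u w - Q w * l = 0 := by
    rw [h1, h2]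
    field_simp
    ring
  have h4 : u + polar Q u w • x - l • w - (Q w * l) • x = v + (polar Q u w - Q w * l) • x := by
    have h5 : l • w = u - v := by
      rw [hw, smul_smul, mul_inv_cancel₀ hl0, one_smul]
    rw [h5]
    module
  rw [h4, h3, zero_smul, add_zero]

/-- The key lemma: two reflections in vectors of the same norm are congruent modulo `E`. -/
theorem key (hn : 5 ≤ n) (Q : QuadraticForm F (Fin n → F)) (hQ : (polarBilin Q).Nondegenerate)
    {u v : Fin n → F} (hu : Q u ≠ 0) (huv : Q u = Q v) : rG Q u * rG Q v ∈ E Q := by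
  by_cases hne : u - v = 0
  · have : u = v := sub_eq_zero.mp hne
    rw [← this, rG_mul_self]
    exact Subgroup.one_mem _
  by_cases hdep : u ∈ Submodule.span F {u - v}
  · obtain ⟨k, hk⟩ := Submodule.mem_span_singleton.mp hdep
    have hv : Q v ≠ 0 := huv ▸ hu
    have hu0 : u ≠ 0 := by
      rintro rfl
      simp at hu
    have hk0 : k ≠ 0 := by
      rintro rfl
      apply hu0
      rw [← hk, zero_smul]
    have hv0 : v ≠ 0 := by
      rintro rfl
      simp at hv
    have hkv : ((k - 1) / k) • u = v := by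
      have h1 : (k - 1) • u = k • v := by
        have : k • u - k • v = u := by rw [← smul_sub]; exact hk
        rw [sub_smul, one_smul]
        rw [sub_eq_iff_eq_add] at this ⊢
        rw [this]
        abel
      rw [div_eq_inv_mul, mul_smul, h1, smul_smul, inv_mul_cancel₀ hk0, one_smul]
    have ht : (k - 1) / k ≠ 0 := by
      intro h
      rw [h, zero_smul] at hkv
      exact hv0 hkv.symm
    rw [← hkv, rG_smul Q u ht, rG_mul_self]
    exact Subgroup.one_mem _
  · obtain ⟨τ, hτ, hτu⟩ := exists_transitive hn Q hQ huv hne hdep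
    have h1 : rG Q v = τ * rG Q u * τ⁻¹ := by
      rw [conj_rG, hτu]
    have h2 : rG Q u * rG Q v = (rG Q u * τ * (rG Q u)⁻¹) * τ⁻¹ := by
      rw [h1, rG_inv]
      group
    rw [h2]
    exact Subgroup.mul_mem _ (conj_mem_E Q _ hτ) (Subgroup.inv_mem _ hτ)

theorem result {F : Type*} [Field F] [Fintype F] (h2 : (2 : F) ≠ 0) {n : ℕ} (hn : 5 ≤ n) (Q : QuadraticForm F (Fin n → F)) (hQ : (QuadraticMap.polarBilin Q).Nondegenerate) : Cfsg.Omega F ⇑Q = Subgroup.closure {g : ↥(Cfsg.isometryGroup F ⇑Q) | ∃ (u v : Fin n → F) (c : F), Q u = 0 ∧ Q v = 0 ∧ QuadraticMap.polar ⇑Q u v = 0 ∧ ((g : Matrix.GeneralLinearGroup (Fin n) F) : Matrix (Fin n) (Fin n) F) = Cfsg.siegelMatrix ⇑Q u v c} := by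
  apply le_antisymm
  · show commutator (isometryGroup F ⇑Q) ≤ E Q
    apply commutator_le_of_generators (E Q) {g | ∃ v, Q v ≠ 0 ∧ g = rG Q v}
    · rw [eq_top_iff]
      intro g _
      induction g using word_induction Q hQ (Or.inl (card_ne_two h2)) with
      | h1 => exact Subgroup.one_mem _
      | hm v g hv ih => exact Subgroup.mul_mem _ (Subgroup.subset_closure ⟨v, hv, rfl⟩) (ih trivial)
    · rintro _ ⟨u, hu, rfl⟩ _ ⟨v, hv, rfl⟩
      rw [conj_rG, rG_inv]
      have hmem : (toIso Q (rG Q u) : isoGroup Q).1 ∈ isoGroup Q := (toIso Q (rG Q u)).2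
      have hQ1 : Q (((rG Q u : GL (Fin n) F) : Matrix (Fin n) (Fin n) F) *ᵥ v) = Q v := hmem v
      exact key hn Q hQ (hQ1 ▸ hv) hQ1
  · rw [Subgroup.closure_le]
    rintro g ⟨u, v, c, hu, hv, huv, hg⟩
    exact (Cfsg.Agent.S0794.result h2 hn Q hQ u v hu hv huv c g hg).2

end Cfsg.Agent.S0795
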