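import Cfsg.Statements.S0796
-- import your own Cfsg.Agent.* helpers here

set_option autoImplicit false
open Cfsg

namespace Cfsg.Agent.S0796

open scoped Pointwise

/-- If G is finite and acts faithfully and primitively on X, H is the stabiliser of a point, A is a normal subgroup of H whose normal closure in G is G, then for every non-trivial normal subgroup K of G the quotient G ⧸ K is isomorphic to A ⧸ B for some normal subgroup B of A. -/
theorem result {G X : Type*} [Group G] [Finite G] [MulAction G X] [FaithfulSMul G X] (hprim : MulAction.IsPreprimitive G X) (x : X) (A : Subgroup G) (hA : A ≤ MulAction.stabilizer G x) (hAn : (A.subgroupOf (MulAction.stabilizer G x)).Normal) (hgen : Subgroup.normalClosure (A : Set G) = ⊤) (K : Subgroup G) [K.Normal] (hK : K ≠ ⊥) : ∃ (B : Subgroup A) (_ : B.Normal), Nonempty (G ⧸ K ≃* A ⧸ B) := by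
  classical
  have := hprim
  -- K acts transitively
  have hKtrans : MulAction.IsPretransitive K X := by
    apply MulAction.IsQuasiPreprimitive.isPretransitive_of_normal
    intro hfix
    apply hK
    rw [eq_bot_iff]
    intro k hk
    rw [Subgroup.mem_bot]
    apply (FaithfulSMul.eq_of_smul_eq_smul (α := X))
    intro y
    rw [one_smul]
    have hy : y ∈ MulAction.fixedPoints K X := by rw [hfix]; trivial
    exact hy ⟨k, hk⟩
  -- G = K * H
  have hGKH : ∀ g : G, ∃ k ∈ K, k⁻¹ * g ∈ MulAction.stabilizer G x := by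
    intro g
    obtain ⟨k, hk⟩ := hKtrans.exists_smul_eq x (g • x)
    refine ⟨k, k.2, ?_⟩
    rw [MulAction.mem_stabilizer_iff, mul_smul]
    have : (k : G) • x = g • x := hk
    rw [← this, inv_smul_smul]
  have hAK : ∀ y, y ∈ A ⊔ K ↔ ∃ a ∈ A, ∃ k ∈ K, a * k = y := by
    intro y
    have h := Subgroup.mul_normal A K
    have h' : y ∈ ((A ⊔ K : Subgroup G) : Set G) ↔ y ∈ (A : Set G) * (K : Set G) := by rw [h]
    simpa [Set.mem_mul] using h'
  -- A ⊔ K is normal
  have hnorm : (A ⊔ K).Normal := by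
    constructor
    intro n hn g
    obtain ⟨k, hk, hs⟩ := hGKH g
    have hg : g = k * (k⁻¹ * g) := by group
    generalize k⁻¹ * g = h at hg hs
    subst hg
    -- h normalises A, hence A ⊔ K
    have hA' : ∀ a ∈ A, h * a * h⁻¹ ∈ A := by
      intro a ha
      have h1 : (⟨a, hA ha⟩ : MulAction.stabilizer G x) ∈ A.subgroupOf (MulAction.stabilizer G x) := by
        rw [Subgroup.mem_subgroupOf]; exact ha
      have h2 := hAn.conj_mem _ h1 ⟨h, hs⟩
      rw [Subgroup.mem_subgroupOf] at h2
      exact h2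
    obtain ⟨a, ha, k', hk', rfl⟩ := (hAK n).mp hn
    have hkK : k ∈ A ⊔ K := (le_sup_right : K ≤ A ⊔ K) hk
    have h1 : h * a * h⁻¹ ∈ A ⊔ K := (le_sup_left : A ≤ A ⊔ K) (hA' a ha)
    have h2 : h * k' * h⁻¹ ∈ A ⊔ K :=
      (le_sup_right : K ≤ A ⊔ K) (Subgroup.Normal.conj_mem inferInstance k' hk' h)
    have : k * h * (a * k') * (k * h)⁻¹ = k * ((h * a * h⁻¹) * (h * k' * h⁻¹)) * k⁻¹ := by group
    rw [this]
    exact Subgroup.mul_mem _ (Subgroup.mul_mem _ hkK (Subgroup.mul_mem _ h1 h2)) (Subgroup.inv_mem _ hkK)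
  have htop : A ⊔ K = ⊤ := by
    rw [eq_top_iff, ← hgen]
    have := hnorm
    apply Subgroup.normalClosure_le_normal
    exact fun a ha => (le_sup_left : A ≤ A ⊔ K) ha
  -- second isomorphism theorem
  refine ⟨K.subgroupOf A, inferInstance, ?_⟩
  have hsurj : Function.Surjective ((QuotientGroup.mk' K).comp A.subtype) := by
    intro y
    obtain ⟨g, rfl⟩ := QuotientGroup.mk'_surjective K y
    have hg : g ∈ A ⊔ K := by rw [htop]; trivial
    obtain ⟨a, ha, k, hk, rfl⟩ := (hAK g).mp hg
    refine ⟨⟨a, ha⟩, ?_⟩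
    simp only [MonoidHom.comp_apply, Subgroup.subtype_apply, QuotientGroup.mk'_apply]
    rw [QuotientGroup.eq]
    simpa using hk
  have hker : ((QuotientGroup.mk' K).comp A.subtype).ker = K.subgroupOf A := by
    ext a
    simp [MonoidHom.mem_ker, Subgroup.mem_subgroupOf]
  have e1 := QuotientGroup.quotientKerEquivOfSurjective _ hsurj
  have e2 := QuotientGroup.quotientMulEquivOfEq hker
  exact ⟨(e2.symm.trans e1).symm⟩

end Cfsg.Agent.S0796
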