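import Cfsg.Statements.S0797
import Cfsg.Agent.Lib.OrthRefl.Basic
import Cfsg.Agent.Lib.OrthRefl.IndexTwo
import Cfsg.Agent.Lib.QuadDisc.Classify

set_option autoImplicit false

open Cfsg

namespace Cfsg.Agent.S0797

open Matrix Cfsg.Agent.Lib.OrthRefl.Basic Cfsg.Agent.Lib.OrthRefl.IndexTwo Cfsg.Agent.Lib.Orth.Bridge
  Cfsg.Agent.Lib.Orth.Omega Cfsg.Agent.Lib.Orth.Spin Cfsg.Agent.Lib.Orth.Refl Cfsg.Agent.Lib.Witt.Quadratic

theorem card_ne_two {F : Type*} [Field F] [Fintype F] (h2 : (2 : F) ≠ 0) : Fintype.card F ≠ 2 := by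
  intro hcard
  apply h2
  have := FiniteField.cast_card_eq_zero F
  rw [hcard] at this
  exact_mod_cast this

/-- A quadratic form with non-degenerate polar form in dimension at least two represents everything. -/
theorem exists_Q_eq {F : Type*} [Field F] [Fintype F] (h2 : (2 : F) ≠ 0) {n : ℕ} (hn : 2 ≤ n)
    (Q : QuadraticForm F (Fin n → F)) (hQ : (QuadraticMap.polarBilin Q).Nondegenerate) (a : F) :
    ∃ e, Q e = a := by
  obtain ⟨e, he⟩ := Cfsg.Agent.Lib.QuadDisc.Classify.exists_self_eq h2 (QuadraticMap.polarBilin Q) hQ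
    ⟨fun x y => by
      show QuadraticMap.polar Q x y = QuadraticMap.polar Q y x
      exact QuadraticMap.polar_comm Q x y⟩ (by simpa using hn) (2 * a)
  refine ⟨e, ?_⟩
  have h1 : QuadraticMap.polar Q e e = 2 * Q e := polar_self_eq Q e
  have h3 : QuadraticMap.polar Q e e = 2 * a := he
  rw [h1] at h3
  exact mul_left_cancel₀ h2 h3

theorem result {F : Type*} [Field F] [Fintype F] (h2 : (2 : F) ≠ 0) {n : ℕ} (hn : 2 ≤ n) (heven : Even n) (Q : QuadraticForm F (Fin n → F)) (hQ : (QuadraticMap.polarBilin Q).Nondegenerate) : Nat.card {H : Subgroup ↥(Cfsg.isometryGroup F ⇑Q) // H.index = 2} = 3 := by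
  classical
  have hg := hgen Q hQ (Or.inl (card_ne_two h2))
  let φ₀ : isoGroup Q →* A2 := (rpHom hQ hg).prod (snHom hQ hg)
  let φ : isometryGroup F ⇑Q →* A2 := φ₀.comp (toIso Q).toMonoidHom
  have hφ : ∀ g, φ g = (Multiplicative.ofAdd (rp ((toIso Q g : isoGroup Q) : (Fin n → F) ≃ₗ[F] (Fin n → F))),
      Multiplicative.ofAdd (sn Q ((toIso Q g : isoGroup Q) : (Fin n → F) ≃ₗ[F] (Fin n → F)))) := fun g => rfl
  have hr : ∀ v, Q v ≠ 0 → φ (rG Q v) = (Multiplicative.ofAdd 1, Multiplicative.ofAdd (sqc (Q v))) := by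
    intro v hv
    rw [hφ, toIso_rG]
    obtain ⟨_, h1, h2'⟩ := rp_word hQ [v] (by simpa using hv)
    simp only [List.map_cons, List.map_nil, List.prod_cons, List.prod_nil, mul_one, List.length_cons,
      List.length_nil, List.sum_cons, List.sum_nil, add_zero] at h1 h2'
    rw [h1, h2']
    simp
  apply card_index_two φ
  · -- surjective
    have hc : ringChar F ≠ 2 := by
      intro h
      apply h2
      have := ringChar.Nat.cast_ringChar (R := F)
      rw [h] at this
      exact_mod_cast this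
    obtain ⟨d, hd⟩ := FiniteField.exists_nonsquare hc
    have hd0 : d ≠ 0 := by
      rintro rfl
      exact hd IsSquare.zero
    obtain ⟨v₁, hv₁⟩ := exists_Q_eq h2 hn Q hQ 1
    obtain ⟨v₂, hv₂⟩ := exists_Q_eq h2 hn Q hQ d
    have h1 := hr v₁ (by rw [hv₁]; exact one_ne_zero)
    have h2' := hr v₂ (by rw [hv₂]; exact hd0)
    rw [hv₁, sqc_one] at h1
    rw [hv₂, sqc_eq_one_iff.mpr hd] at h2'
    have hcases : ∀ x : A2, x = 1 ∨ x = (Multiplicative.ofAdd 1, Multiplicative.ofAdd 0) ∨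
        x = (Multiplicative.ofAdd 1, Multiplicative.ofAdd 1) ∨
        x = (Multiplicative.ofAdd 1, Multiplicative.ofAdd 0) * (Multiplicative.ofAdd 1, Multiplicative.ofAdd 1) := by
      decide
    intro x
    rcases hcases x with rfl | rfl | rfl | rfl
    · exact ⟨1, map_one φ⟩
    · exact ⟨_, h1⟩
    · exact ⟨_, h2'⟩
    · exact ⟨rG Q v₁ * rG Q v₂, by rw [map_mul, h1, h2']⟩
  · ext g
    rw [MonoidHom.mem_ker, mem_commutator_equiv (toIso Q) g, mem_commutator_iff hQ hg, hφ]
    constructor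
    · intro h
      have h1 := congrArg Prod.fst h
      have h2' := congrArg Prod.snd h
      exact ⟨h1, h2'⟩
    · rintro ⟨h1, h2'⟩
      rw [h1, h2']
      rfl

end Cfsg.Agent.S0797
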