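import Cfsg.Statements.S0800

set_option autoImplicit false
open Cfsg

namespace Cfsg.Agent.S0800

open Matrix Polynomial

variable {F : Type*} [Field F]

/-- The characteristic polynomial of an element of `SL₂`. -/
noncomputable def cp (t : F) : F[X] := X ^ 2 - C t * X + 1

theorem cp_aeval (M : Matrix (Fin 2) (Fin 2) F) (hM : M.det = 1) :
    aeval M (cp M.trace) = 0 := by
  simp only [cp, map_add, map_sub, map_mul, map_pow, aeval_X, aeval_C, map_one]
  ext i j
  rw [Matrix.det_fin_two] at hM
  fin_cases i <;> fin_cases j <;>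
    simp [pow_two, Matrix.mul_apply, Fin.sum_univ_two, Matrix.trace_fin_two, Matrix.algebraMap_matrix_apply] <;>
    first
      | linear_combination -hM
      | linear_combination hM
      | ring

theorem cp_natDegree (t : F) : (cp t).natDegree = 2 := by
  unfold cp
  compute_degree!

theorem cp_monic (t : F) : (cp t).Monic := by
  unfold cp
  monicity!

theorem cp_aeval_eq {R : Type*} [CommRing R] [Algebra F R] (t : F) (x : R) :
    aeval x (cp t) = x ^ 2 - algebraMap F R t * x + 1 := by
  simp only [cp, map_add, map_sub, map_mul, map_pow, aeval_X, aeval_C, map_one]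

theorem pow_eq_one_of_dvd (M : Matrix (Fin 2) (Fin 2) F) (hM : M.det = 1) (k : ℕ)
    (h : cp M.trace ∣ X ^ k - 1) : M ^ k = 1 := by
  obtain ⟨f, hf⟩ := h
  have : aeval M ((X : F[X]) ^ k - 1) = 0 := by
    rw [hf, map_mul, cp_aeval M hM, zero_mul]
  simpa [sub_eq_zero] using this

variable [Fintype F]

/-- Irreducible case: the Frobenius sends a root to the other one. -/
theorem dvd_of_no_root (t : F) (hno : ∀ a : F, (cp t).eval a ≠ 0) :
    cp t ∣ X ^ (Fintype.card F + 1) - 1 := by
  have hdeg := cp_natDegree t
  have hirr : Irreducible (cp t) := by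
    rw [Polynomial.Monic.irreducible_iff_roots_eq_zero_of_degree_le_three (cp_monic t)
      (by omega) (by omega)]
    refine Multiset.eq_zero_of_forall_notMem fun a ha => ?_
    rw [Polynomial.mem_roots (cp_monic t).ne_zero] at ha
    exact hno a ha
  have : Fact (Irreducible (cp t)) := ⟨hirr⟩
  let α : AdjoinRoot (cp t) := AdjoinRoot.root (cp t)
  have hα : aeval α (cp t) = 0 := AdjoinRoot.aeval_eq (cp t) ▸ AdjoinRoot.mk_self
  have hα' : α ^ 2 - algebraMap F _ t * α + 1 = 0 := by
    rw [← cp_aeval_eq]; exact hα
  let φ := FiniteField.frobeniusAlgHom F (AdjoinRoot (cp t))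
  have hφ : φ α = α ^ Fintype.card F := rfl
  have hβ : aeval (φ α) (cp t) = 0 := by
    rw [Polynomial.aeval_algHom_apply, hα, map_zero]
  have hβ' : (α ^ Fintype.card F) ^ 2 - algebraMap F _ t * (α ^ Fintype.card F) + 1 = 0 := by
    rw [← hφ]
    rw [← cp_aeval_eq]; exact hβ
  have hprod : (α ^ Fintype.card F - α) * (α ^ Fintype.card F + α - algebraMap F _ t) = 0 := by
    linear_combination hβ' - hα'
  rw [← AdjoinRoot.mk_eq_zero, map_sub, map_pow, map_one, AdjoinRoot.mk_X]
  rcases mul_eq_zero.mp hprod with h | h
  · exfalso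
    have hX : cp t ∣ X ^ (Nat.card F) ^ 1 - X := by
      rw [← AdjoinRoot.mk_eq_zero, map_sub, map_pow, AdjoinRoot.mk_X, pow_one, Nat.card_eq_fintype_card]
      exact h
    have := hirr.natDegree_dvd_of_dvd_X_pow_card_pow_sub_X hX
    rw [hdeg] at this
    norm_num at this
  · have hY : α ^ Fintype.card F = algebraMap F _ t - α := by linear_combination h
    change α ^ (Fintype.card F + 1) - 1 = 0
    rw [pow_succ, hY]
    linear_combination -hα'

/-- Split case with distinct roots. -/
theorem dvd_of_roots (a : F) (ha : a ≠ 0) (haa : a ≠ a⁻¹) :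
    cp (a + a⁻¹) ∣ X ^ (Fintype.card F - 1) - 1 := by
  have hcop : IsCoprime (X - C a) (X - C a⁻¹) := by
    apply Polynomial.isCoprime_X_sub_C_of_isUnit_sub
    exact isUnit_iff_ne_zero.mpr (sub_ne_zero.mpr haa)
  have hcp : cp (a + a⁻¹) = (X - C a) * (X - C a⁻¹) := by
    unfold cp
    have : C a * C a⁻¹ = (1 : F[X]) := by rw [← C_mul, mul_inv_cancel₀ ha, C_1]
    rw [C_add]
    linear_combination -this
  rw [hcp]
  apply hcop.mul_dvd
  · rw [Polynomial.dvd_iff_isRoot]
    simp [IsRoot, FiniteField.pow_card_sub_one_eq_one a ha]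
  · rw [Polynomial.dvd_iff_isRoot]
    simp [IsRoot, FiniteField.pow_card_sub_one_eq_one a⁻¹ (inv_ne_zero ha)]

/-- Tori of SL_2(q): if g ∈ SL_2(q) has order coprime to the characteristic p, then the order of g divides q − 1 or q + 1. -/
theorem result {q : ℕ} (hF : Fintype.card F = q) (p : ℕ) [Fact p.Prime] [CharP F p] (g : Matrix.SpecialLinearGroup (Fin 2) F) (hg : Nat.Coprime (orderOf g) p) : orderOf g ∣ q - 1 ∨ orderOf g ∣ q + 1 := by
  subst hF
  set M : Matrix (Fin 2) (Fin 2) F := g.1 with hM
  have hdet : M.det = 1 := g.2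
  have hpow : ∀ k, M ^ k = 1 → orderOf g ∣ k := by
    intro k hk
    apply orderOf_dvd_of_pow_eq_one
    apply Subtype.ext
    rw [Matrix.SpecialLinearGroup.coe_pow]
    exact hk
  by_cases hroot : ∃ a : F, (cp M.trace).eval a = 0
  · obtain ⟨a, ha⟩ := hroot
    have ha0 : a ≠ 0 := by
      rintro rfl
      simp [cp] at ha
    have ht : M.trace = a + a⁻¹ := by
      simp only [cp, eval_add, eval_sub, eval_pow, eval_X, eval_mul, eval_C, eval_one] at ha
      field_simp
      linear_combination -ha
    by_cases haa : a = a⁻¹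
    · -- double root
      have hsq : a ^ 2 = 1 := by
        field_simp at haa
        rw [haa]
      have hM2 : (M - a • 1) ^ 2 = 0 := by
        have h1 := cp_aeval M hdet
        simp only [cp, map_add, map_sub, map_mul, map_pow, aeval_X, aeval_C, map_one] at h1
        rw [ht, ← haa] at h1
        have h2 : (M - a • 1) ^ 2 = M ^ 2 - (algebraMap F (Matrix (Fin 2) (Fin 2) F) (a + a)) * M + a ^ 2 • 1 := by
          rw [pow_two, pow_two]
          simp only [sub_mul, mul_sub, smul_mul_assoc, mul_smul_comm, one_mul, mul_one, map_add,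
            add_mul, Algebra.algebraMap_eq_smul_one, smul_sub]
          rw [pow_two a, mul_smul]
          abel
        rw [h2, hsq, one_smul, h1]
      have hpp : p.Prime := Fact.out
      have hchar : CharP (Matrix (Fin 2) (Fin 2) F) p := Matrix.charP p
      have hMp : M ^ p = a ^ p • 1 := by
        have h3 : M = (M - a • 1) + a • 1 := by abel
        have hcomm : Commute (M - a • 1) (a • (1 : Matrix (Fin 2) (Fin 2) F)) :=
          (Commute.one_right _).smul_right a
        rw [h3, add_pow_char_of_commute p hcomm]
        have h4 : (M - a • 1) ^ p = 0 := pow_eq_zero_of_le hpp.two_le hM2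
        rw [h4, zero_add, _root_.smul_pow, one_pow]
      have hord2p : orderOf g ∣ 2 * p := by
        apply hpow
        rw [mul_comm, pow_mul, hMp, _root_.smul_pow, one_pow, ← pow_mul, mul_comm p 2, pow_mul, hsq, one_pow, one_smul]
      have hord2 : orderOf g ∣ 2 := hg.dvd_of_dvd_mul_right hord2p
      left
      by_cases hp2 : p = 2
      · subst hp2
        have ha1 : a = 1 := by
          have : (a - 1) ^ 2 = 0 := by
            have h2 : (2 : F) = 0 := CharP.cast_eq_zero F 2
            linear_combination hsq + (1 - a) * h2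
          have := pow_eq_zero_iff (two_ne_zero) |>.mp this
          exact sub_eq_zero.mp this
        have hone : orderOf g = 1 := by
          have h6 : orderOf g ∣ 2 := by
            apply hpow
            rw [hMp, ha1]
            simp
          have h7 := Nat.Coprime.eq_one_of_dvd hg h6
          exact h7
        rw [hone]
        exact one_dvd _
      · have hodd : Fintype.card F % 2 = 1 := by
          apply FiniteField.odd_card_of_char_ne_two
          rw [ringChar.eq F p]
          exact hp2
        have h8 : 2 ∣ Fintype.card F - 1 := by omega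
        exact hord2.trans h8
    · left
      apply hpow
      apply pow_eq_one_of_dvd M hdet
      rw [ht]
      exact dvd_of_roots a ha0 haa
  · right
    push Not at hroot
    apply hpow
    exact pow_eq_one_of_dvd M hdet _ (dvd_of_no_root _ hroot)

end Cfsg.Agent.S0800
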