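import Cfsg.Statements.S0802
import Cfsg.Agent.Lib.Classical.SL2.A4S4

set_option autoImplicit false
open Cfsg

namespace Cfsg.Agent.S0802

/-- PSL_2(p^n) has a subgroup isomorphic to A_4 if and only if it is not the case that p = 2 and n is odd. -/
theorem result {F : Type*} [Field F] [Fintype F] (p n : ℕ) [Fact p.Prime] [CharP F p] (hF : Fintype.card F = p ^ n) : (∃ H : Subgroup (Matrix.ProjectiveSpecialLinearGroup (Fin 2) F), Nonempty (H ≃* alternatingGroup (Fin 4))) ↔ ¬ (p = 2 ∧ Odd n) := by
  exact Cfsg.Agent.Lib.Classical.SL2.A4S4.exists_A4_iff p n hF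

end Cfsg.Agent.S0802
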