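import Cfsg.Statements.S0810
import Cfsg.Agent.Lib.Classical.SL2.MinSimple

set_option autoImplicit false
open Cfsg

namespace Cfsg.Agent.S0810

/-- PSL_2(q) is minimal simple iff q is 2^r (r prime), 3^r (r an odd prime), a prime greater than 5 congruent to 2 or 3 mod 5, or 5. -/
theorem result {F : Type*} [Field F] [Fintype F] {q : ℕ} (hF : Fintype.card F = q) : Cfsg.IsMinimalSimple (Matrix.ProjectiveSpecialLinearGroup (Fin 2) F) ↔ ((∃ r : ℕ, r.Prime ∧ q = 2 ^ r) ∨ (∃ r : ℕ, r.Prime ∧ r ≠ 2 ∧ q = 3 ^ r) ∨ (q.Prime ∧ 5 < q ∧ (q % 5 = 2 ∨ q % 5 = 3)) ∨ q = 5) := by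
  subst hF
  classical
  constructor
  · rintro ⟨h1, h2, h3⟩
    refine Cfsg.Agent.Lib.Classical.SL2.MinSimple.list_of_min ?_ h3
    intro hc
    exact h2 ⟨⟨hc⟩⟩
  · intro h
    have h4 : 4 ≤ Fintype.card F := by
      rcases h with ⟨r, hr, hq⟩ | ⟨r, hr, -, hq⟩ | ⟨-, hq, -⟩ | hq
      · rw [hq]
        calc 4 = 2 ^ 2 := by norm_num
          _ ≤ 2 ^ r := Nat.pow_le_pow_right (by norm_num) hr.two_le
      · rw [hq]
        calc 4 ≤ 3 ^ 2 := by norm_num
          _ ≤ 3 ^ r := Nat.pow_le_pow_right (by norm_num) hr.two_le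
      · omega
      · omega
    refine ⟨Matrix.ProjectiveSpecialLinearGroup.rank_two_simple (by
      rw [Nat.card_eq_fintype_card]; exact h4), ?_,
      Cfsg.Agent.Lib.Classical.SL2.MinSimple.solvable_of_list h⟩
    intro hc
    apply Cfsg.Agent.Lib.Classical.SL2.MinSimple.psl_not_comm h4
    exact fun a b => mul_comm' a b

end Cfsg.Agent.S0810
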