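import Cfsg.Statements.S0839

set_option autoImplicit false
open Cfsg

namespace Cfsg.Agent.S0839

open Matrix

/-- Rank one matrices are of the shape `x yᵀ`. -/
theorem exists_vecMulVec {ι : Type} [Fintype ι] [DecidableEq ι] {F : Type*} [Field F]
    (N : Matrix ι ι F) (h : N.rank = 1) : ∃ x y : ι → F, N = Matrix.vecMulVec x y := by
  have hne : N ≠ 0 := by
    rintro rfl
    rw [Matrix.rank_zero] at h
    exact absurd h (by norm_num)
  obtain ⟨j0, hj0⟩ : ∃ j, N.mulVec (Pi.single j 1) ≠ 0 := by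
    by_contra hc
    push Not at hc
    apply hne
    ext i j
    have := congrFun (hc j) i
    simpa using this
  set c := N.mulVec (Pi.single j0 1) with hc
  have hr : Module.finrank F (LinearMap.range N.mulVecLin) = 1 := h
  have hcmem : (⟨c, ⟨_, rfl⟩⟩ : LinearMap.range N.mulVecLin) ≠ 0 := by
    intro h0
    apply hj0
    exact congrArg Subtype.val h0
  have key := (finrank_eq_one_iff_of_nonzero' _ hcmem).mp hr
  have hy : ∀ j, ∃ r : F, r • c = N.mulVec (Pi.single j 1) := by
    intro j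
    obtain ⟨r, hr⟩ := key ⟨N.mulVec (Pi.single j 1), ⟨_, rfl⟩⟩
    exact ⟨r, congrArg Subtype.val hr⟩
  choose y hy using hy
  refine ⟨c, y, ?_⟩
  ext i j
  have := congrFun (hy j) i
  simp only [Matrix.mulVec_single_one, Pi.smul_apply, smul_eq_mul] at this
  simp only [Matrix.vecMulVec_apply]
  have h2 : N i j = N.col j i := rfl
  rw [h2, ← this]
  ring

/-- There is a matrix of `SL` with a prescribed nonzero first row. -/
theorem exists_sl_first_row {F : Type*} [Field F] (n : ℕ) (y : Fin (n + 2) → F) (hy : y ≠ 0) :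
    ∃ h : Matrix (Fin (n + 2)) (Fin (n + 2)) F, h.det = 1 ∧ h 0 = y := by
  obtain ⟨k, hk⟩ : ∃ k, y k ≠ 0 := by
    by_contra hc
    push Not at hc
    exact hy (funext hc)
  let σ : Equiv.Perm (Fin (n + 2)) := Equiv.swap 0 k
  let B : Matrix (Fin (n + 2)) (Fin (n + 2)) F :=
    (1 : Matrix (Fin (n + 2)) (Fin (n + 2)) F).updateRow 0 (y ∘ σ)
  have hBdet : B.det = y k := by
    have h1 : B = ((1 : Matrix (Fin (n + 2)) (Fin (n + 2)) F).updateCol 0 (y ∘ σ))ᵀ := by
      simp only [B]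
      rw [← Matrix.updateRow_transpose, Matrix.transpose_one]
    rw [h1, Matrix.det_transpose]
    have h2 : ((1 : Matrix (Fin (n + 2)) (Fin (n + 2)) F)).cramer (y ∘ σ) 0 = (y ∘ σ) 0 := by
      rw [Matrix.cramer_one]
      rfl
    rw [Matrix.cramer_apply] at h2
    rw [h2]
    simp [σ]
  let h₀ : Matrix (Fin (n + 2)) (Fin (n + 2)) F := B.submatrix id σ
  have hh₀ : h₀ 0 = y := by
    ext j
    simp [h₀, B, σ]
  have hdet₀' : h₀.det ≠ 0 := by
    have h1 : h₀.det = (Equiv.Perm.sign σ : ℤ) * B.det := Matrix.det_permute' σ B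
    rw [h1, hBdet]
    rcases Int.units_eq_one_or (Equiv.Perm.sign σ) with h | h <;> simp [h, hk]
  refine ⟨h₀.updateRow 1 ((h₀.det)⁻¹ • h₀ 1), ?_, ?_⟩
  · rw [Matrix.det_updateRow_smul, Matrix.updateRow_eq_self]
    exact inv_mul_cancel₀ hdet₀'
  · rw [Matrix.updateRow_ne (by simp)]
    exact hh₀

/-- Every transvection t ∈ SL_(n+2)(F) (rank(t − 1) = 1, (t − 1)² = 0) is conjugate in SL_(n+2)(F) to 1 + v·e_0ᵀ for some column vector v with v_0 = 0 (the group A of matrices that are the identity except in the first column below the diagonal); the dimension is written n + 2 ≥ 2. -/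
theorem result {F : Type*} [Field F] (n : ℕ) (t : Matrix.SpecialLinearGroup (Fin (n + 2)) F) (ht : Cfsg.IsTransvection (t : Matrix (Fin (n + 2)) (Fin (n + 2)) F)) : ∃ (g : Matrix.SpecialLinearGroup (Fin (n + 2)) F) (v : Fin (n + 2) → F), v 0 = 0 ∧ ((g⁻¹ * t * g : Matrix.SpecialLinearGroup (Fin (n + 2)) F) : Matrix (Fin (n + 2)) (Fin (n + 2)) F) = 1 + Matrix.vecMulVec v (Pi.single 0 1) := by
  obtain ⟨hrank, hsq⟩ := ht
  obtain ⟨x, y, hN⟩ := exists_vecMulVec _ hrank
  have hne : (t : Matrix (Fin (n + 2)) (Fin (n + 2)) F) - 1 ≠ 0 := by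
    intro h0
    rw [h0, Matrix.rank_zero] at hrank
    exact absurd hrank (by norm_num)
  have hy : y ≠ 0 := by
    rintro rfl
    apply hne
    rw [hN]
    ext i j
    simp [Matrix.vecMulVec_apply]
  have hyx : y ⬝ᵥ x = 0 := by
    rw [hN, Matrix.vecMulVec_mul_vecMulVec] at hsq
    by_contra hc
    apply hne
    rw [hN]
    have h1 : Matrix.vecMulVec x ((y ⬝ᵥ x) • y) = (y ⬝ᵥ x) • Matrix.vecMulVec x y := by
      ext i j
      simp [Matrix.vecMulVec_apply]
      ring
    have h2 : (y ⬝ᵥ x) • Matrix.vecMulVec x y = 0 := by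
      rw [← h1]
      convert hsq using 1
    exact (smul_eq_zero.mp h2).resolve_left hc
  obtain ⟨h, hdet, hrow⟩ := exists_sl_first_row n y hy
  let H : Matrix.SpecialLinearGroup (Fin (n + 2)) F := ⟨h, hdet⟩
  have hinv : (H⁻¹ : Matrix.SpecialLinearGroup (Fin (n + 2)) F).1 * h = 1 := by
    have : ((H⁻¹ * H : Matrix.SpecialLinearGroup (Fin (n + 2)) F) : Matrix (Fin (n + 2)) (Fin (n + 2)) F) = 1 := by
      rw [inv_mul_cancel]; rfl
    exact this
  have hinv' : h * (H⁻¹ : Matrix.SpecialLinearGroup (Fin (n + 2)) F).1 = 1 := by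
    have : ((H * H⁻¹ : Matrix.SpecialLinearGroup (Fin (n + 2)) F) : Matrix (Fin (n + 2)) (Fin (n + 2)) F) = 1 := by
      rw [mul_inv_cancel]; rfl
    exact this
  have ht' : (t : Matrix (Fin (n + 2)) (Fin (n + 2)) F) = 1 + Matrix.vecMulVec x y := by
    rw [← hN]; abel
  refine ⟨H⁻¹, h.mulVec x, ?_, ?_⟩
  · simp only [Matrix.mulVec, hrow, hyx]
  · rw [inv_inv]
    change h * (t : Matrix (Fin (n + 2)) (Fin (n + 2)) F) * (H⁻¹ : Matrix.SpecialLinearGroup (Fin (n + 2)) F).1 = _
    rw [ht', mul_add, mul_one, add_mul, hinv']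
    congr 1
    ext i j
    simp only [Matrix.mul_apply, Matrix.vecMulVec_apply, Matrix.mulVec, dotProduct]
    have h3 := congrFun (congrFun hinv' 0) j
    simp only [Matrix.mul_apply, hrow, Matrix.one_apply] at h3
    have h4 : ∀ (a : Fin (n+2)), (∑ x_1, h i x_1 * (x x_1 * y a)) = (∑ x_1, h i x_1 * x x_1) * y a := by
      intro a
      rw [Finset.sum_mul]
      exact Finset.sum_congr rfl fun _ _ => by ring
    simp only [h4]
    calc _ = (∑ x_1, h i x_1 * x x_1) * ∑ a, y a * (H⁻¹ : Matrix.SpecialLinearGroup (Fin (n + 2)) F).1 a j := by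
          rw [Finset.mul_sum]
          exact Finset.sum_congr rfl fun _ _ => by ring
      _ = _ := by
          rw [h3]
          simp [Pi.single_apply, eq_comm]

end Cfsg.Agent.S0839
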