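import Cfsg.Statements.S0820
import Cfsg.Agent.S0839
import Cfsg.Agent.Lib.F4.Basic

set_option autoImplicit false
open Cfsg

namespace Cfsg.Agent.S0820

open Matrix

variable {F : Type*} [Field F]

local notation "SL3" => Matrix.SpecialLinearGroup (Fin 3) F

/-- The matrix `1 + x yᵀ`. -/
def T (x y : Fin 3 → F) : Matrix (Fin 3) (Fin 3) F := 1 + Matrix.vecMulVec x y

theorem rank_one_of_sq_zero (N : Matrix (Fin 3) (Fin 3) F) (hN : N ≠ 0) (h : N * N = 0) : N.rank = 1 := by
  have h1 : LinearMap.range N.mulVecLin ≤ LinearMap.ker N.mulVecLin := by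
    rintro _ ⟨v, rfl⟩
    simp [LinearMap.mem_ker, Matrix.mulVec_mulVec, h]
  have h2 := Submodule.finrank_mono h1
  have h3 := LinearMap.finrank_range_add_finrank_ker N.mulVecLin
  have h4 : Module.finrank F (Fin 3 → F) = 3 := by simp
  have h5 : N.rank = Module.finrank F (LinearMap.range N.mulVecLin) := rfl
  have h6 : N.rank ≠ 0 := by
    intro h0
    apply hN
    rw [Matrix.rank] at h0
    have := Submodule.finrank_eq_zero.mp h0
    rw [LinearMap.range_eq_bot] at this
    have h7 : N.mulVecLin = 0 := this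
    ext i j
    have := congrFun (congrArg (fun f => f (Pi.single j 1)) h7) i
    simpa using this
  omega

/-- Every transvection `T x y` is conjugate to `T e₁ e₀`. -/
theorem exists_conj_std (x y : Fin 3 → F) (hx : x ≠ 0) (hy : y ≠ 0) (hyx : y ⬝ᵥ x = 0) :
    ∃ g : SL3, g.1 * T x y = T (Pi.single 1 1) (Pi.single 0 1) * g.1 := by
  obtain ⟨h, hdet, hrow⟩ := Cfsg.Agent.S0839.exists_sl_first_row 1 y hy
  set v := h.mulVec x with hv
  have hv0 : v 0 = 0 := by
    simp only [hv, Matrix.mulVec, hrow, hyx]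
  have hv_ne : v ≠ 0 := by
    intro h0
    apply hx
    have hu : IsUnit h.det := by rw [hdet]; exact isUnit_one
    exact Matrix.mulVec_injective_of_isUnit ((Matrix.isUnit_iff_isUnit_det h).mpr hu) (by rw [← hv, h0, Matrix.mulVec_zero])
  -- second step
  obtain ⟨k, hkdet, hk0, hkv⟩ : ∃ k : Matrix (Fin 3) (Fin 3) F, k.det = 1 ∧ k 0 = Pi.single 0 1 ∧
      k.mulVec v = Pi.single 1 1 := by
    by_cases hv1 : v 1 = 0
    · have hv2 : v 2 ≠ 0 := by
        intro h2
        apply hv_ne
        ext i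
        fin_cases i
        · exact hv0
        · exact hv1
        · exact h2
      refine ⟨!![1, 0, 0; 0, 0, (v 2)⁻¹; 0, -(v 2), 0], ?_, ?_, ?_⟩
      · simp [Matrix.det_fin_three, hv2]
      · ext j
        fin_cases j <;> simp [Pi.single_apply]
      · ext i
        fin_cases i <;> simp [Matrix.mulVec, dotProduct, Fin.sum_univ_three, hv0, hv1, hv2, Pi.single_apply]
    · refine ⟨!![1, 0, 0; 0, (v 1)⁻¹, 0; 0, -(v 2), v 1], ?_, ?_, ?_⟩
      · simp [Matrix.det_fin_three, hv1]
      · ext j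
        fin_cases j <;> simp [Pi.single_apply]
      · ext i
        fin_cases i <;> simp [Matrix.mulVec, dotProduct, Fin.sum_univ_three, hv0, hv1, Pi.single_apply]
        ring
  refine ⟨⟨k * h, by rw [Matrix.det_mul, hkdet, hdet, one_mul]⟩, ?_⟩
  change (k * h) * T x y = T (Pi.single 1 1) (Pi.single 0 1) * (k * h)
  have key : ∀ (A : Matrix (Fin 3) (Fin 3) F) (w : Fin 3 → F),
      Matrix.vecMulVec w (Pi.single 0 1) * A = Matrix.vecMulVec w (A 0) := by
    intro A w
    rw [Matrix.vecMulVec_mul]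
    congr 1
    ext j
    simp [Matrix.vecMul, dotProduct, Pi.single_apply]
  have e1 : h * T x y = T v (Pi.single 0 1) * h := by
    simp only [T, mul_add, add_mul, mul_one, one_mul]
    rw [key, hrow, Matrix.mul_vecMulVec]
  have e2 : k * T v (Pi.single 0 1) = T (Pi.single 1 1) (Pi.single 0 1) * k := by
    simp only [T, mul_add, add_mul, mul_one, one_mul]
    rw [key, hk0, Matrix.mul_vecMulVec, hkv]
  rw [mul_assoc, e1, ← mul_assoc, e2, mul_assoc]

/-- The standard transvection. -/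
def stdT : SL3 := ⟨T (Pi.single 1 1) (Pi.single 0 1), by
  simp [T, Matrix.det_fin_three, Matrix.vecMulVec_apply, Pi.single_apply, Matrix.one_apply]⟩

/-- A nontrivial involution of `SL₃` in characteristic two is a transvection. -/
theorem exists_conj_of_sq (hchar : (2 : F) = 0) (h : SL3) (hh : h * h = 1) (hne : h ≠ 1) :
    ∃ g : SL3, g * h * g⁻¹ = stdT := by
  have hh' : h.1 * h.1 = 1 := by
    have := congrArg Subtype.val hh
    exact this
  set N : Matrix (Fin 3) (Fin 3) F := h.1 - 1 with hN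
  have hN0 : N ≠ 0 := by
    intro h0
    apply hne
    apply Subtype.ext
    exact sub_eq_zero.mp h0
  have hNN : N * N = 0 := by
    rw [hN]
    have h2 : (2 : Matrix (Fin 3) (Fin 3) F) = 0 := by
      have : (2 : Matrix (Fin 3) (Fin 3) F) = ((2 : F) • 1) := by
        rw [two_smul]; norm_num
      rw [this, hchar, zero_smul]
    have : (h.1 - 1) * (h.1 - 1) = h.1 * h.1 - 2 * h.1 + 1 := by
      simp only [sub_mul, mul_sub, one_mul, mul_one, two_mul]
      abel
    rw [this, hh', h2, zero_mul]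
    simp only [sub_zero]
    rw [← two_mul, mul_one, h2]
  obtain ⟨x, y, hxy⟩ := Cfsg.Agent.S0839.exists_vecMulVec N (rank_one_of_sq_zero N hN0 hNN)
  have hx : x ≠ 0 := by
    rintro rfl
    apply hN0
    rw [hxy]
    ext i j
    simp [Matrix.vecMulVec_apply]
  have hy : y ≠ 0 := by
    rintro rfl
    apply hN0
    rw [hxy]
    simp
  have hyx : y ⬝ᵥ x = 0 := by
    rw [hxy, Matrix.vecMulVec_mul_vecMulVec] at hNN
    by_contra hc
    apply hN0
    rw [hxy]
    have h1 : Matrix.vecMulVec x ((y ⬝ᵥ x) • y) = (y ⬝ᵥ x) • Matrix.vecMulVec x y := by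
      ext i j
      simp [Matrix.vecMulVec_apply]
      ring
    have h2 : (y ⬝ᵥ x) • Matrix.vecMulVec x y = 0 := by
      rw [← h1]
      convert hNN using 1
    exact (smul_eq_zero.mp h2).resolve_left hc
  obtain ⟨g, hg⟩ := exists_conj_std x y hx hy hyx
  refine ⟨g, ?_⟩
  rw [mul_inv_eq_iff_eq_mul]
  apply Subtype.ext
  change g.1 * h.1 = T (Pi.single 1 1) (Pi.single 0 1) * g.1
  rw [← hg]
  congr 1
  simp only [T, ← hxy, hN]
  abel

/-- Lift to an involution. -/
theorem exists_lift [Fintype F] (hF : Fintype.card F = 4) (x : Matrix.ProjectiveSpecialLinearGroup (Fin 3) F)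
    (hx : orderOf x = 2) : ∃ h : SL3, (QuotientGroup.mk h : Matrix.ProjectiveSpecialLinearGroup (Fin 3) F) = x ∧
      h * h = 1 ∧ h ≠ 1 := by
  obtain ⟨g, rfl⟩ := QuotientGroup.mk_surjective x
  have hx2 : ((QuotientGroup.mk (g * g) : Matrix.ProjectiveSpecialLinearGroup (Fin 3) F)) = 1 := by
    have := pow_orderOf_eq_one ((QuotientGroup.mk g : Matrix.ProjectiveSpecialLinearGroup (Fin 3) F))
    rw [hx, pow_two] at this
    exact this
  have hgg : g * g ∈ Subgroup.center SL3 := (QuotientGroup.eq_one_iff _).mp hx2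
  obtain ⟨r, hr3, hr⟩ := Matrix.SpecialLinearGroup.mem_center_iff.mp hgg
  simp only [Fintype.card_fin] at hr3
  let z : SL3 := ⟨Matrix.scalar (Fin 3) r, by simp [Matrix.scalar_apply, Matrix.det_diagonal, hr3]⟩
  have hzc : z ∈ Subgroup.center SL3 :=
    Matrix.SpecialLinearGroup.mem_center_iff.mpr ⟨r, by simpa using hr3, rfl⟩
  have hzz : z * z * z = 1 := by
    apply Subtype.ext
    change Matrix.scalar (Fin 3) r * Matrix.scalar (Fin 3) r * Matrix.scalar (Fin 3) r = 1
    have hr3' : r * r * r = 1 := by linear_combination hr3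
    rw [← map_mul, ← map_mul, hr3']
    simp
  have hgg' : g * g = z := by
    apply Subtype.ext
    exact hr.symm
  refine ⟨z * g, ?_, ?_, ?_⟩
  · rw [QuotientGroup.mk_mul]
    have : (QuotientGroup.mk z : Matrix.ProjectiveSpecialLinearGroup (Fin 3) F) = 1 :=
      (QuotientGroup.eq_one_iff _).mpr hzc
    rw [this, one_mul]
  · have hcomm : ∀ a : SL3, a * z = z * a := fun a => (Subgroup.mem_center_iff.mp hzc a)
    calc z * g * (z * g) = z * (g * z) * g := by group
      _ = z * (z * g) * g := by rw [hcomm g]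
      _ = z * z * (g * g) := by group
      _ = z * z * z := by rw [hgg']
      _ = 1 := hzz
  · intro h1
    have : (QuotientGroup.mk g : Matrix.ProjectiveSpecialLinearGroup (Fin 3) F) = 1 := by
      have h2 : z⁻¹ = g := by
        rw [inv_eq_iff_mul_eq_one]; exact h1
      rw [← h2, QuotientGroup.mk_inv]
      have : (QuotientGroup.mk z : Matrix.ProjectiveSpecialLinearGroup (Fin 3) F) = 1 :=
        (QuotientGroup.eq_one_iff _).mpr hzc
      rw [this, inv_one]
    rw [this, orderOf_one] at hx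
    omega

/-- Any two elements of order 2 of PSL_3(4) are conjugate. -/
theorem result {F : Type*} [Field F] [Fintype F] (hF : Fintype.card F = 4) (x y : Matrix.ProjectiveSpecialLinearGroup (Fin 3) F) (hx : orderOf x = 2) (hy : orderOf y = 2) : IsConj x y := by
  obtain ⟨h₁, rfl, hh₁, hne₁⟩ := exists_lift hF x hx
  obtain ⟨h₂, rfl, hh₂, hne₂⟩ := exists_lift hF y hy
  have hchar := Cfsg.Agent.Lib.F4.Basic.two_eq_zero hF
  obtain ⟨g₁, hg₁⟩ := exists_conj_of_sq hchar h₁ hh₁ hne₁
  obtain ⟨g₂, hg₂⟩ := exists_conj_of_sq hchar h₂ hh₂ hne₂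
  rw [isConj_iff]
  refine ⟨QuotientGroup.mk (g₂⁻¹ * g₁), ?_⟩
  rw [← QuotientGroup.mk_inv, ← QuotientGroup.mk_mul, ← QuotientGroup.mk_mul]
  congr 1
  have : g₂⁻¹ * g₁ * h₁ * (g₂⁻¹ * g₁)⁻¹ = g₂⁻¹ * (g₁ * h₁ * g₁⁻¹) * g₂ := by group
  rw [this, hg₁, ← hg₂]
  group

end Cfsg.Agent.S0820
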