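import Cfsg.Statements.S0821
import Cfsg.Agent.Lib.Witt.POmegaRank
import Cfsg.Agent.Lib.Witt.PSpRank
import Cfsg.Agent.Lib.Orth.Forms

set_option autoImplicit false
open Cfsg

namespace Cfsg.Agent.S0821

/-- PSp_2m(q) ≇ PΩ_(2m+1)(q) for q odd and m ≥ 3 (they have the same order). -/
theorem result {F : Type*} [Field F] [Fintype F] (hodd : Odd (Fintype.card F)) (m : ℕ) (hm : 3 ≤ m) : IsEmpty (Cfsg.PSp m F ≃* Cfsg.POmega F (Cfsg.quadFormOdd m F)) := by
  refine ⟨fun φ => ?_⟩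
  have h2 : (2 : F) ≠ 0 := by
    intro h
    have h' := (Cfsg.Agent.Lib.Classical.SympSimple.two_eq_zero_iff_even_card (F := F)).1 h
    exact (Nat.not_even_iff_odd.2 hodd) h'
  have hcard : Fintype.card F % 2 = 1 := Nat.odd_iff.1 hodd
  have hQ := Cfsg.Agent.Lib.Orth.Forms.oddForm_nondeg (F := F) m h2
  obtain ⟨E, hE, hEc⟩ := Cfsg.Agent.Lib.Witt.POmegaRank.exists_large_subgroup
    (Cfsg.Agent.Lib.Orth.Forms.oddForm m F) h2 hcard hQ m (by omega) (by simp; ring)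
  have hE' : ∀ x ∈ E.map φ.symm.toMonoidHom, x * x = 1 := by
    rintro x ⟨y, hy, rfl⟩
    rw [← map_mul]
    exact (congrArg φ.symm.toMonoidHom (hE y hy)).trans (map_one _)
  have h1 := Cfsg.Agent.Lib.Witt.PSpRank.card_elemAb_le hodd (by omega) _ hE'
  have h3 : Nat.card ↥(E.map φ.symm.toMonoidHom) = Nat.card E :=
    Nat.card_congr (E.equivMapOfInjective _ φ.symm.injective).toEquiv.symm
  rw [h3] at h1
  have h4 : 2 ^ (2 * m) ≤ 2 ^ (m + 1) * m := hEc.trans h1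
  obtain ⟨k, rfl⟩ : ∃ k, m = k + 3 := ⟨m - 3, by omega⟩
  have h5 : ∀ j : ℕ, j + 3 < 2 ^ (j + 2) := by
    intro j
    induction j with
    | zero => norm_num
    | succ j ih =>
      have : 2 ^ (j + 1 + 2) = 2 * 2 ^ (j + 2) := by ring
      omega
  have h6 : 2 ^ (2 * (k + 3)) = 2 ^ (k + 3 + 1) * 2 ^ (k + 2) := by
    rw [← pow_add]
    congr 1
    omega
  rw [h6] at h4
  have h7 := Nat.le_of_mul_le_mul_left h4 (by positivity)
  have h8 := h5 k
  omega

end Cfsg.Agent.S0821
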