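import Cfsg.Statements.S0822
import Cfsg.Agent.Lib.F4.Basic
import Cfsg.Agent.Lib.Classical.HermOrders
import Cfsg.Agent.Lib.Classical.HermTransv
import Cfsg.Agent.Lib.Classical.SympSimple
import Cfsg.Agent.Lib.Classical.SympCount
import Cfsg.Agent.S0819

set_option autoImplicit false
open Cfsg

namespace Cfsg.Agent.S0822

/-! ### The concrete certificate -/

/-- Concrete model of the field with four elements. -/
inductive C4 | o | i | w | v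
  deriving DecidableEq

/-- Concrete model of the field with three elements. -/
inductive C3 | o | i | m
  deriving DecidableEq

/-- Vectors of length four. -/
structure V4 (α : Type) where
  (x0 x1 x2 x3 : α)
  deriving DecidableEq

namespace C4

def add : C4 → C4 → C4
  | o, x => x
  | i, o => i | i, i => o | i, w => v | i, v => w
  | w, o => w | w, i => v | w, w => o | w, v => i
  | v, o => v | v, i => w | v, w => i | v, v => o

def mul : C4 → C4 → C4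
  | o, _ => o
  | i, x => x
  | w, o => o | w, i => w | w, w => v | w, v => i
  | v, o => o | v, i => v | v, w => i | v, v => w

def sq : C4 → C4
  | o => o | i => i | w => v | v => w

def beq : C4 → C4 → Bool
  | o, o => true | i, i => true | w, w => true | v, v => true | _, _ => false

theorem beq_iff (a b : C4) : beq a b = true ↔ a = b := by
  cases a <;> cases b <;> simp [beq]

def all4 (f : C4 → Bool) : Bool := f o && f i && f w && f v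

theorem all4_eq (f : C4 → Bool) (h : all4 f = true) (a : C4) : f a = true := by
  simp only [all4, Bool.and_eq_true] at h
  obtain ⟨⟨⟨h0, h1⟩, h2⟩, h3⟩ := h
  cases a <;> assumption

def toFin : C4 → Fin 4
  | o => 0 | i => 1 | w => 2 | v => 3

def vbeq (x y : V4 C4) : Bool :=
  beq x.x0 y.x0 && beq x.x1 y.x1 && beq x.x2 y.x2 && beq x.x3 y.x3

theorem vbeq_iff (x y : V4 C4) : vbeq x y = true ↔ x = y := by
  obtain ⟨a, b, c, d⟩ := x
  obtain ⟨e, f, g, h⟩ := y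
  simp only [vbeq, Bool.and_eq_true, beq_iff, V4.mk.injEq, and_assoc]

def vadd (x y : V4 C4) : V4 C4 :=
  ⟨add x.x0 y.x0, add x.x1 y.x1, add x.x2 y.x2, add x.x3 y.x3⟩

def smul (c : C4) (x : V4 C4) : V4 C4 :=
  ⟨mul c x.x0, mul c x.x1, mul c x.x2, mul c x.x3⟩

def herm (x y : V4 C4) : C4 :=
  add (add (add (mul x.x0 (sq y.x0)) (mul x.x1 (sq y.x1))) (mul x.x2 (sq y.x2)))
    (mul x.x3 (sq y.x3))

/-- The transvection `x ↦ x + h(x,w) w`. -/
def tv (w' x : V4 C4) : V4 C4 := vadd x (smul (herm x w') w')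

/-- Proportionality. -/
def prop (x y : V4 C4) : Bool :=
  vbeq x y || vbeq x (smul w y) || vbeq x (smul v y)

theorem smul_i (x : V4 C4) : smul i x = x := rfl

end C4

namespace C3

def add : C3 → C3 → C3
  | o, o => o | o, i => i | o, m => m
  | i, o => i | i, i => m | i, m => o
  | m, o => m | m, i => o | m, m => i

def mul : C3 → C3 → C3
  | o, _ => o
  | i, x => x
  | m, o => o | m, i => m | m, m => i

def neg : C3 → C3
  | o => o | i => m | m => i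

def beq : C3 → C3 → Bool
  | o, o => true | i, i => true | m, m => true | _, _ => false

theorem beq_iff (a b : C3) : beq a b = true ↔ a = b := by
  cases a <;> cases b <;> simp [beq]

def vbeq (x y : V4 C3) : Bool :=
  beq x.x0 y.x0 && beq x.x1 y.x1 && beq x.x2 y.x2 && beq x.x3 y.x3

theorem vbeq_iff (x y : V4 C3) : vbeq x y = true ↔ x = y := by
  obtain ⟨a, b, c, d⟩ := x
  obtain ⟨e, f, g, h⟩ := y
  simp only [vbeq, Bool.and_eq_true, beq_iff, V4.mk.injEq, and_assoc]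

def vneg (x : V4 C3) : V4 C3 := ⟨neg x.x0, neg x.x1, neg x.x2, neg x.x3⟩

def vadd (x y : V4 C3) : V4 C3 :=
  ⟨add x.x0 y.x0, add x.x1 y.x1, add x.x2 y.x2, add x.x3 y.x3⟩

/-- Proportionality. -/
def prop (x y : V4 C3) : Bool := vbeq x y || vbeq x (vneg y)

/-- The symplectic form `x₂ y₀ - x₀ y₂ + x₃ y₁ - x₁ y₃`. -/
def form (x y : V4 C3) : C3 :=
  add (add (add (mul x.x2 y.x0) (neg (mul x.x0 y.x2))) (mul x.x3 y.x1)) (neg (mul x.x1 y.x3))

end C3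

/-- `4 × 4` matrices over the three element field. -/
structure M4 where
  (a00 a01 a02 a03 a10 a11 a12 a13 a20 a21 a22 a23 a30 a31 a32 a33 : C3)

namespace M4

open C3

def mv (M : M4) (y : V4 C3) : V4 C3 :=
  ⟨add (add (add (mul M.a00 y.x0) (mul M.a01 y.x1)) (mul M.a02 y.x2)) (mul M.a03 y.x3),
   add (add (add (mul M.a10 y.x0) (mul M.a11 y.x1)) (mul M.a12 y.x2)) (mul M.a13 y.x3),
   add (add (add (mul M.a20 y.x0) (mul M.a21 y.x1)) (mul M.a22 y.x2)) (mul M.a23 y.x3),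
   add (add (add (mul M.a30 y.x0) (mul M.a31 y.x1)) (mul M.a32 y.x2)) (mul M.a33 y.x3)⟩

def e0 : V4 C3 := ⟨.i, .o, .o, .o⟩
def e1 : V4 C3 := ⟨.o, .i, .o, .o⟩
def e2 : V4 C3 := ⟨.o, .o, .i, .o⟩
def e3 : V4 C3 := ⟨.o, .o, .o, .i⟩

/-- The unit vectors indexed as in Mathlib's symplectic group. -/
def unit : Fin 2 ⊕ Fin 2 → V4 C3
  | .inl 0 => e0
  | .inl 1 => e1
  | .inr 0 => e2
  | .inr 1 => e3

/-- Preservation of the form on the basis. -/
def isSp (M : M4) : Bool :=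
  [e0, e1, e2, e3].all fun x => [e0, e1, e2, e3].all fun y =>
    C3.beq (form (mv M x) (mv M y)) (form x y)

end M4

/-- A line of the certificate. -/
structure Row where
  (M : M4) (pi : List Nat)

/-- Lookup in a list. -/
def nthD {α : Type} (d : α) : List α → Nat → α
  | [], _ => d
  | a :: _, 0 => a
  | _ :: l, n + 1 => nthD d l n

/-- Bounded universal quantifier. -/
def allBelow : Nat → (Nat → Bool) → Bool
  | 0, _ => true
  | n + 1, f => f n && allBelow n f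

theorem allBelow_spec (f : Nat → Bool) : ∀ n, allBelow n f = true → ∀ m, m < n → f m = true := by
  intro n
  induction n with
  | zero => intro _ m hm; omega
  | succ n ih =>
    intro h m hm
    simp only [allBelow, Bool.and_eq_true] at h
    rcases Nat.lt_succ_iff_lt_or_eq.mp hm with h1 | h1
    · exact ih h.2 m h1
    · subst h1; exact h.1

/-- Representatives of the forty non-isotropic points. -/
def Ptab : List (V4 C4) :=
  [⟨.o,.o,.o,.i⟩,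
   ⟨.o,.o,.i,.o⟩,
   ⟨.o,.i,.o,.o⟩,
   ⟨.i,.o,.o,.o⟩,
   ⟨.i,.i,.o,.i⟩,
   ⟨.i,.i,.o,.w⟩,
   ⟨.i,.i,.o,.v⟩,
   ⟨.i,.w,.o,.v⟩,
   ⟨.i,.w,.o,.i⟩,
   ⟨.i,.w,.o,.w⟩,
   ⟨.i,.v,.o,.w⟩,
   ⟨.i,.v,.o,.v⟩,
   ⟨.i,.v,.o,.i⟩,
   ⟨.i,.i,.i,.o⟩,
   ⟨.i,.w,.v,.o⟩,
   ⟨.i,.v,.w,.o⟩,
   ⟨.i,.i,.w,.o⟩,
   ⟨.i,.w,.i,.o⟩,
   ⟨.i,.v,.v,.o⟩,
   ⟨.i,.i,.v,.o⟩,
   ⟨.i,.w,.w,.o⟩,
   ⟨.i,.v,.i,.o⟩,
   ⟨.o,.i,.i,.i⟩,
   ⟨.o,.i,.i,.w⟩,
   ⟨.o,.i,.i,.v⟩,
   ⟨.o,.i,.w,.i⟩,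
   ⟨.o,.i,.w,.w⟩,
   ⟨.o,.i,.w,.v⟩,
   ⟨.o,.i,.v,.i⟩,
   ⟨.o,.i,.v,.w⟩,
   ⟨.o,.i,.v,.v⟩,
   ⟨.i,.o,.i,.i⟩,
   ⟨.i,.o,.i,.v⟩,
   ⟨.i,.o,.i,.w⟩,
   ⟨.i,.o,.w,.i⟩,
   ⟨.i,.o,.w,.v⟩,
   ⟨.i,.o,.w,.w⟩,
   ⟨.i,.o,.v,.i⟩,
   ⟨.i,.o,.v,.v⟩,
   ⟨.i,.o,.v,.w⟩]

/-- Representatives of the forty points of the symplectic space. -/
def Qtab : List (V4 C3) :=
  [⟨.o,.o,.o,.i⟩,
   ⟨.o,.o,.i,.o⟩,
   ⟨.o,.o,.i,.i⟩,
   ⟨.o,.o,.i,.m⟩,
   ⟨.o,.i,.o,.o⟩,
   ⟨.o,.i,.o,.i⟩,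
   ⟨.o,.i,.o,.m⟩,
   ⟨.o,.i,.i,.o⟩,
   ⟨.o,.i,.i,.i⟩,
   ⟨.o,.i,.i,.m⟩,
   ⟨.o,.i,.m,.o⟩,
   ⟨.o,.i,.m,.i⟩,
   ⟨.o,.i,.m,.m⟩,
   ⟨.i,.o,.o,.o⟩,
   ⟨.i,.o,.o,.i⟩,
   ⟨.i,.o,.o,.m⟩,
   ⟨.i,.o,.i,.o⟩,
   ⟨.i,.o,.i,.i⟩,
   ⟨.i,.o,.i,.m⟩,
   ⟨.i,.o,.m,.o⟩,
   ⟨.i,.o,.m,.i⟩,
   ⟨.i,.o,.m,.m⟩,
   ⟨.i,.i,.o,.o⟩,
   ⟨.i,.i,.o,.i⟩,
   ⟨.i,.i,.o,.m⟩,
   ⟨.i,.i,.i,.o⟩,
   ⟨.i,.i,.i,.i⟩,
   ⟨.i,.i,.i,.m⟩,
   ⟨.i,.i,.m,.o⟩,
   ⟨.i,.i,.m,.i⟩,
   ⟨.i,.i,.m,.m⟩,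
   ⟨.i,.m,.o,.o⟩,
   ⟨.i,.m,.o,.i⟩,
   ⟨.i,.m,.o,.m⟩,
   ⟨.i,.m,.i,.o⟩,
   ⟨.i,.m,.i,.i⟩,
   ⟨.i,.m,.i,.m⟩,
   ⟨.i,.m,.m,.o⟩,
   ⟨.i,.m,.m,.i⟩,
   ⟨.i,.m,.m,.m⟩]

/-- One symplectic matrix and one involution of the points for each isotropic point. -/
def rows : List Row :=
  [⟨⟨.o,.i,.o,.o,.i,.o,.o,.o,.o,.o,.o,.i,.o,.o,.i,.o⟩,
    [1,0,2,3,13,16,19,14,17,20,15,18,21,4,7,10,5,8,11,6,9,12,22,25,28,23,26,29,24,27,30,31,37,34,33,39,36,32,38,35]⟩,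
   ⟨⟨.o,.i,.o,.o,.i,.o,.o,.o,.o,.m,.o,.i,.i,.o,.i,.o⟩,
    [1,0,2,3,19,13,16,20,14,17,21,15,18,5,8,11,6,9,12,4,7,10,29,23,26,30,24,27,28,22,25,39,36,33,38,35,32,37,34,31]⟩,
   ⟨⟨.o,.i,.o,.o,.i,.o,.o,.o,.o,.i,.o,.i,.m,.o,.i,.o⟩,
    [1,0,2,3,16,19,13,17,20,14,18,21,15,6,9,12,4,7,10,5,8,11,27,30,24,25,28,22,26,29,23,35,32,38,34,31,37,36,33,39]⟩,
   ⟨⟨.i,.o,.o,.o,.m,.m,.o,.o,.o,.o,.i,.m,.o,.o,.o,.m⟩,
    [2,1,0,3,4,8,12,10,5,9,7,11,6,31,39,35,34,33,38,37,36,32,22,30,26,25,24,29,28,27,23,13,21,17,16,15,20,19,18,14]⟩,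
   ⟨⟨.i,.o,.o,.o,.m,.m,.o,.o,.o,.i,.i,.m,.m,.o,.o,.m⟩,
    [2,1,0,3,10,5,9,7,11,6,4,8,12,33,38,34,36,32,37,39,35,31,27,23,28,30,26,22,24,29,25,21,17,13,15,20,16,18,14,19]⟩,
   ⟨⟨.i,.o,.o,.o,.m,.m,.o,.o,.o,.m,.i,.m,.i,.o,.o,.m⟩,
    [2,1,0,3,7,11,6,4,8,12,10,5,9,32,37,36,35,31,39,38,34,33,29,25,24,23,28,27,26,22,30,17,13,21,20,16,15,14,19,18]⟩,
   ⟨⟨.i,.i,.o,.o,.o,.m,.o,.o,.o,.o,.i,.o,.o,.o,.i,.m⟩,
    [0,2,1,3,31,33,32,35,34,36,39,38,37,13,15,14,17,16,18,21,20,19,22,23,24,30,28,29,26,27,25,4,6,5,8,7,9,12,11,10]⟩,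
   ⟨⟨.i,.i,.o,.o,.o,.m,.o,.o,.o,.i,.i,.o,.m,.o,.i,.m⟩,
    [0,2,1,3,34,36,35,38,37,39,33,32,31,15,14,13,16,18,17,20,19,21,29,30,28,25,26,27,24,22,23,12,11,10,4,6,5,8,7,9]⟩,
   ⟨⟨.i,.i,.o,.o,.o,.m,.o,.o,.o,.m,.i,.o,.i,.o,.i,.m⟩,
    [0,2,1,3,37,39,38,32,31,33,36,35,34,14,13,15,18,17,16,19,21,20,27,25,26,23,24,22,28,29,30,8,7,9,12,11,10,4,6,5]⟩,
   ⟨⟨.i,.o,.o,.o,.i,.m,.o,.o,.o,.o,.i,.i,.o,.o,.o,.m⟩,
    [3,1,2,0,4,11,9,10,8,6,7,5,12,22,27,29,25,30,23,28,24,26,13,18,20,16,21,14,19,15,17,31,36,38,34,39,32,37,33,35]⟩,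
   ⟨⟨.i,.o,.o,.o,.i,.m,.o,.o,.o,.m,.i,.i,.i,.o,.o,.m⟩,
    [3,1,2,0,7,5,12,4,11,9,10,8,6,23,25,30,26,28,24,29,22,27,20,13,18,14,16,21,17,19,15,35,37,33,38,31,36,32,34,39]⟩,
   ⟨⟨.i,.o,.o,.o,.i,.m,.o,.o,.o,.i,.i,.i,.m,.o,.o,.m⟩,
    [3,1,2,0,10,8,6,7,5,12,4,11,9,24,26,28,27,29,22,30,23,25,18,20,13,21,14,16,15,17,19,39,32,34,33,35,37,36,38,31]⟩,
   ⟨⟨.i,.m,.o,.o,.o,.m,.o,.o,.o,.o,.i,.o,.o,.o,.m,.m⟩,
    [0,3,2,1,22,23,24,29,30,28,27,25,26,13,15,14,18,17,16,20,19,21,4,5,6,11,12,10,9,7,8,31,32,33,38,39,37,36,34,35]⟩,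
   ⟨⟨.i,.m,.o,.o,.o,.m,.o,.o,.o,.m,.i,.o,.i,.o,.m,.m⟩,
    [0,3,2,1,25,26,27,23,24,22,30,28,29,14,13,15,16,18,17,21,20,19,9,7,8,4,5,6,11,12,10,39,37,38,34,35,36,32,33,31]⟩,
   ⟨⟨.i,.m,.o,.o,.o,.m,.o,.o,.o,.i,.i,.o,.m,.o,.m,.m⟩,
    [0,3,2,1,28,29,30,26,27,25,24,22,23,15,14,13,17,16,18,19,21,20,11,12,10,9,7,8,4,5,6,35,36,34,33,31,32,37,38,39]⟩,
   ⟨⟨.i,.o,.o,.o,.o,.m,.o,.o,.o,.o,.i,.o,.o,.o,.o,.m⟩,
    [0,1,3,2,4,5,6,10,11,12,7,8,9,13,15,14,16,18,17,19,21,20,31,33,32,34,36,35,37,39,38,22,24,23,25,27,26,28,30,29]⟩,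
   ⟨⟨.o,.o,.o,.i,.o,.o,.m,.o,.o,.m,.o,.o,.i,.o,.o,.o⟩,
    [13,4,31,22,1,19,16,7,37,25,10,28,34,0,14,15,6,32,24,5,23,33,3,20,18,9,38,27,11,29,36,2,17,21,12,35,30,8,26,39]⟩,
   ⟨⟨.o,.m,.o,.i,.o,.o,.m,.o,.o,.m,.o,.o,.i,.o,.m,.o⟩,
    [13,5,33,23,16,1,19,26,8,39,36,11,29,0,14,15,4,31,22,6,24,32,18,3,20,25,7,37,35,12,30,17,21,2,34,28,10,27,38,9]⟩,
   ⟨⟨.o,.i,.o,.i,.o,.o,.m,.o,.o,.m,.o,.o,.i,.o,.i,.o⟩,
    [13,6,32,24,19,16,1,38,27,9,30,35,12,0,14,15,5,33,23,4,22,31,20,18,3,39,26,8,28,34,10,21,2,17,29,11,36,37,7,25]⟩,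
   ⟨⟨.o,.o,.o,.i,.i,.o,.m,.o,.o,.m,.o,.i,.i,.o,.o,.o⟩,
    [16,4,34,25,1,13,19,7,31,28,10,22,37,5,26,36,0,17,18,6,35,27,11,23,39,3,14,21,9,32,30,8,29,33,2,20,15,12,38,24]⟩,
   ⟨⟨.o,.m,.o,.i,.i,.o,.m,.o,.o,.i,.o,.i,.m,.o,.m,.o⟩,
    [16,5,36,26,19,1,13,29,8,33,39,11,23,6,27,35,0,17,18,4,34,25,38,12,24,21,3,14,28,7,31,30,32,9,20,15,2,37,22,10]⟩,
   ⟨⟨.o,.i,.o,.i,.i,.o,.m,.o,.o,.o,.o,.i,.o,.o,.i,.o⟩,
    [16,6,35,27,13,19,1,32,30,9,24,38,12,4,25,34,0,17,18,5,36,26,22,37,10,14,21,3,33,29,8,31,7,28,15,2,20,23,11,39]⟩,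
   ⟨⟨.o,.o,.o,.m,.i,.o,.i,.o,.o,.i,.o,.i,.m,.o,.o,.o⟩,
    [19,4,37,28,1,16,13,7,34,22,10,25,31,6,38,30,5,29,39,0,20,21,9,35,24,11,26,33,3,17,15,12,32,27,8,23,36,2,14,18]⟩,
   ⟨⟨.o,.i,.o,.m,.i,.o,.i,.o,.o,.o,.o,.i,.o,.o,.i,.o⟩,
    [19,5,39,29,13,1,16,23,8,36,33,11,26,4,37,28,6,30,38,0,20,21,22,7,34,32,12,27,15,3,17,31,25,10,24,35,9,14,18,2]⟩,
   ⟨⟨.o,.m,.o,.m,.i,.o,.i,.o,.o,.m,.o,.i,.i,.o,.m,.o⟩,
    [19,6,38,30,16,13,1,35,24,9,27,32,12,5,39,29,4,28,37,0,20,21,36,23,8,25,31,10,17,15,3,26,11,33,34,7,22,18,2,14]⟩,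
   ⟨⟨.i,.o,.o,.o,.o,.m,.o,.o,.o,.i,.i,.o,.m,.o,.o,.m⟩,
    [0,1,3,2,10,11,12,7,8,9,4,5,6,15,14,13,18,17,16,21,20,19,36,35,34,39,38,37,33,32,31,30,29,28,24,23,22,27,26,25]⟩,
   ⟨⟨.i,.i,.o,.m,.m,.m,.i,.o,.o,.i,.i,.m,.m,.o,.i,.m⟩,
    [17,8,31,30,34,5,27,20,1,14,24,11,37,33,9,28,16,0,18,29,7,32,38,23,10,25,36,6,15,19,3,2,21,13,4,35,26,12,22,39]⟩,
   ⟨⟨.i,.m,.o,.m,.m,.m,.i,.o,.o,.m,.i,.m,.i,.o,.m,.m⟩,
    [17,9,33,28,25,36,6,14,20,1,39,22,12,32,7,29,16,0,18,30,8,31,11,37,24,4,26,35,3,15,19,21,13,2,34,27,5,23,38,10]⟩,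
   ⟨⟨.i,.o,.o,.m,.m,.m,.i,.o,.o,.o,.i,.m,.o,.o,.o,.m⟩,
    [17,7,32,29,4,26,35,1,14,20,10,38,23,31,8,30,16,0,18,28,9,33,22,12,39,34,5,27,19,3,15,13,2,21,25,6,36,37,11,24]⟩,
   ⟨⟨.i,.i,.o,.m,.i,.m,.i,.o,.o,.m,.i,.i,.i,.o,.i,.m⟩,
    [20,8,34,24,37,5,30,14,1,17,27,11,31,23,7,35,36,9,22,19,0,21,18,13,3,32,26,10,28,39,6,12,25,33,2,15,16,4,38,29]⟩,
   ⟨⟨.i,.m,.o,.m,.i,.m,.i,.o,.o,.i,.i,.i,.m,.o,.m,.m⟩,
    [20,9,36,22,28,39,6,17,14,1,33,25,12,24,8,34,35,7,23,19,0,21,3,18,13,11,31,27,4,29,38,26,32,10,15,16,2,37,30,5]⟩,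
   ⟨⟨.i,.o,.o,.m,.i,.m,.i,.o,.o,.o,.i,.i,.o,.o,.o,.m⟩,
    [20,7,35,23,4,29,38,1,17,14,10,32,26,22,9,36,34,8,24,19,0,21,13,3,18,25,12,33,37,5,30,31,11,27,16,2,15,28,6,39]⟩,
   ⟨⟨.i,.i,.o,.m,.o,.m,.i,.o,.o,.o,.i,.o,.o,.o,.i,.m⟩,
    [14,8,37,27,31,5,24,17,1,20,30,11,34,13,0,15,26,7,38,39,9,25,22,33,6,21,16,3,35,29,10,4,32,23,12,28,36,2,18,19]⟩,
   ⟨⟨.i,.m,.o,.m,.o,.m,.i,.o,.o,.o,.i,.o,.o,.o,.m,.m⟩,
    [14,9,39,25,22,33,6,20,17,1,36,28,12,13,0,15,27,8,37,38,7,26,4,23,32,3,21,16,11,34,30,31,24,5,29,35,10,18,19,2]⟩,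
   ⟨⟨.i,.o,.o,.m,.o,.m,.i,.o,.o,.o,.i,.o,.o,.o,.o,.m⟩,
    [14,7,38,26,4,23,32,1,20,17,10,35,29,13,0,15,25,9,39,37,8,27,31,5,24,16,3,21,28,12,36,22,6,33,34,11,30,19,2,18]⟩,
   ⟨⟨.i,.o,.o,.o,.o,.m,.o,.o,.o,.m,.i,.o,.i,.o,.o,.m⟩,
    [0,1,3,2,7,8,9,4,5,6,10,11,12,14,13,15,17,16,18,20,19,21,38,37,39,32,31,33,35,34,36,26,25,27,29,28,30,23,22,24]⟩,
   ⟨⟨.i,.i,.o,.i,.m,.m,.m,.o,.o,.m,.i,.m,.i,.o,.i,.m⟩,
    [21,12,31,26,37,29,6,23,34,9,18,15,1,32,25,11,27,33,10,19,20,0,36,7,24,14,3,16,28,5,38,2,13,17,8,35,22,4,30,39]⟩,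
   ⟨⟨.i,.o,.o,.i,.m,.m,.m,.o,.o,.o,.i,.m,.o,.o,.o,.m⟩,
    [21,10,33,27,4,39,30,7,24,36,1,18,15,31,26,12,25,32,11,19,20,0,22,35,8,16,14,3,37,29,6,13,17,2,34,23,9,28,38,5]⟩,
   ⟨⟨.i,.m,.o,.i,.m,.m,.m,.o,.o,.i,.i,.m,.m,.o,.m,.m⟩,
    [21,11,32,25,28,5,38,35,8,22,15,1,18,33,27,10,26,31,12,19,20,0,9,23,34,3,16,14,4,39,30,17,2,13,24,7,36,37,6,29]⟩,
   ⟨⟨.i,.i,.o,.i,.o,.m,.m,.o,.o,.o,.i,.o,.o,.o,.i,.m⟩,
    [15,12,34,29,31,23,6,26,37,9,21,18,1,13,14,0,35,28,11,30,36,10,22,5,32,39,7,27,17,3,19,4,24,33,2,16,20,8,38,25]⟩,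
   ⟨⟨.i,.o,.o,.i,.o,.m,.m,.o,.o,.o,.i,.o,.o,.o,.o,.m⟩,
    [15,10,36,30,4,33,24,7,27,39,1,21,18,13,14,0,34,29,12,28,35,11,31,23,6,25,38,8,19,17,3,22,32,5,16,20,2,37,26,9]⟩,
   ⟨⟨.i,.m,.o,.i,.o,.m,.m,.o,.o,.o,.i,.o,.o,.o,.m,.m⟩,
    [15,11,35,28,22,5,32,38,8,25,18,1,21,13,14,0,36,30,10,29,34,12,4,33,24,9,26,37,3,19,17,31,6,23,20,2,16,27,7,39]⟩,
   ⟨⟨.i,.i,.o,.i,.i,.m,.m,.o,.o,.i,.i,.i,.m,.o,.i,.m⟩,
    [18,12,37,23,34,26,6,29,31,9,15,21,1,24,39,10,16,17,0,38,22,11,20,3,13,25,5,35,33,7,30,8,32,28,4,27,36,2,19,14]⟩,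
   ⟨⟨.i,.o,.o,.i,.i,.m,.m,.o,.o,.o,.i,.i,.o,.o,.o,.m⟩,
    [18,10,39,24,4,36,27,7,30,33,1,15,21,22,38,11,16,17,0,37,23,12,13,20,3,34,26,6,28,32,8,31,29,9,25,35,5,19,14,2]⟩,
   ⟨⟨.i,.m,.o,.i,.i,.m,.m,.o,.o,.m,.i,.i,.i,.o,.m,.m⟩,
    [18,11,38,22,25,5,35,32,8,28,21,1,15,23,37,12,16,17,0,39,24,10,3,13,20,4,36,27,9,29,31,30,7,33,34,6,26,14,2,19]⟩]

/-- Point representatives. -/
def P (n : Nat) : V4 C4 := nthD ⟨.o, .o, .o, .o⟩ Ptab n

/-- Point representatives. -/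
def Q (n : Nat) : V4 C3 := nthD ⟨.o, .o, .o, .o⟩ Qtab n

/-- The check for one transvection against one line. -/
def checkRow (w : V4 C4) (r : Row) : Bool :=
  allBelow 40 fun p =>
    Nat.blt (nthD 0 r.pi p) 40 && Nat.beq (nthD 0 r.pi (nthD 0 r.pi p)) p &&
      C4.prop (C4.tv w (P p)) (P (nthD 0 r.pi p)) &&
      C3.prop (M4.mv r.M (Q p)) (Q (nthD 0 r.pi p))

/-- The global properties of a line. -/
def rowOK (r : Row) : Bool :=
  M4.isSp r.M && !(allBelow 40 fun p => Nat.beq (nthD 0 r.pi p) p)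

theorem rows_ok : rows.all rowOK = true := by decide +kernel

/-- Every non-zero isotropic vector is matched by a line of the certificate. -/
theorem check_all :
    (C4.all4 fun a => C4.all4 fun b => C4.all4 fun c => C4.all4 fun d =>
      let w : V4 C4 := ⟨a, b, c, d⟩
      !(C4.beq (C4.herm w w) .o) || C4.vbeq w ⟨.o, .o, .o, .o⟩ || rows.any (checkRow w)) = true := by
  decide +kernel

theorem P_inj : (allBelow 40 fun p => allBelow 40 fun q =>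
    !(C4.prop (P p) (P q)) || Nat.beq p q) = true := by decide +kernel

theorem Q_inj : (allBelow 40 fun p => allBelow 40 fun q =>
    !(C3.prop (Q p) (Q q)) || Nat.beq p q) = true := by decide +kernel

theorem Q_e0 : Q 13 = M4.e0 := by decide +kernel
theorem Q_e1 : Q 4 = M4.e1 := by decide +kernel
theorem Q_e2 : Q 1 = M4.e2 := by decide +kernel
theorem Q_e3 : Q 0 = M4.e3 := by decide +kernel
theorem Q_e01 : Q 22 = C3.vadd M4.e0 M4.e1 := by decide +kernel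
theorem Q_e02 : Q 16 = C3.vadd M4.e0 M4.e2 := by decide +kernel
theorem Q_e03 : Q 14 = C3.vadd M4.e0 M4.e3 := by decide +kernel

/-! ### Transfer to the fields -/

section transfer

open C4 Matrix

variable {F : Type*} [Field F] [Fintype F] {ω : F}

/-- The embedding of the model. -/
def emb (ω : F) : C4 → F
  | .o => 0 | .i => 1 | .w => ω | .v => ω ^ 2

theorem emb_eq (a : C4) : emb ω a = Cfsg.Agent.Lib.F4.Basic.emb ω (toFin a) := by
  cases a <;> rfl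

theorem toFin_add (a b : C4) : toFin (add a b) = Cfsg.Agent.Lib.F4.Basic.add4 (toFin a) (toFin b) := by
  cases a <;> cases b <;> rfl

theorem toFin_mul (a b : C4) : toFin (mul a b) = Cfsg.Agent.Lib.F4.Basic.mul4 (toFin a) (toFin b) := by
  cases a <;> cases b <;> rfl

theorem toFin_surj (t : Fin 4) : ∃ a, toFin a = t := by
  fin_cases t
  · exact ⟨.o, rfl⟩
  · exact ⟨.i, rfl⟩
  · exact ⟨.w, rfl⟩
  · exact ⟨.v, rfl⟩

theorem toFin_inj {a b : C4} (h : toFin a = toFin b) : a = b := by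
  cases a <;> cases b <;> first | rfl | exact absurd h (by decide)

section
variable (hF : Fintype.card F = 4) (hω : ω ^ 2 + ω + 1 = 0)
include hF hω

theorem emb_add (a b : C4) : emb ω (add a b) = emb ω a + emb ω b := by
  rw [emb_eq, emb_eq, emb_eq, toFin_add, Cfsg.Agent.Lib.F4.Basic.emb_add hF hω]

theorem emb_mul (a b : C4) : emb ω (mul a b) = emb ω a * emb ω b := by
  rw [emb_eq, emb_eq, emb_eq, toFin_mul, Cfsg.Agent.Lib.F4.Basic.emb_mul hF hω]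

theorem emb_sq (a : C4) : emb ω (sq a) = emb ω a ^ 2 := by
  have h : sq a = mul a a := by cases a <;> rfl
  rw [h, emb_mul hF hω, pow_two]

theorem emb_inj {a b : C4} (h : emb ω a = emb ω b) : a = b := by
  rw [emb_eq, emb_eq] at h
  exact toFin_inj (Cfsg.Agent.Lib.F4.Basic.emb_injective hF hω h)

theorem emb_surj (x : F) : ∃ a, emb ω a = x := by
  obtain ⟨t, ht⟩ := (Cfsg.Agent.Lib.F4.Basic.emb_bijective hF hω).2 x
  obtain ⟨a, rfl⟩ := toFin_surj t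
  exact ⟨a, by rw [emb_eq, ht]⟩

end

/-- A vector over the field. -/
def ev (ω : F) (x : V4 C4) : Fin 4 → F :=
  ![emb ω x.x0, emb ω x.x1, emb ω x.x2, emb ω x.x3]

section
variable (hF : Fintype.card F = 4) (hω : ω ^ 2 + ω + 1 = 0)
include hF hω

theorem ev_vadd (x y : V4 C4) : ev ω (vadd x y) = ev ω x + ev ω y := by
  ext j
  fin_cases j <;> simp [ev, vadd, emb_add hF hω]

theorem ev_smul (c : C4) (x : V4 C4) : ev ω (smul c x) = emb ω c • ev ω x := by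
  ext j
  fin_cases j <;> simp [ev, C4.smul, emb_mul hF hω]

theorem ev_inj {x y : V4 C4} (h : ev ω x = ev ω y) : x = y := by
  obtain ⟨a, b, c, d⟩ := x
  obtain ⟨e, f, g, k⟩ := y
  have h0 := congrFun h 0
  have h1 := congrFun h 1
  have h2 := congrFun h 2
  have h3 := congrFun h 3
  simp only [ev, Matrix.cons_val] at h0 h1 h2 h3
  rw [emb_inj hF hω h0, emb_inj hF hω h1, emb_inj hF hω h2, emb_inj hF hω h3]

theorem ev_surj (v : Fin 4 → F) : ∃ x, ev ω x = v := by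
  obtain ⟨a, ha⟩ := emb_surj hF hω (v 0)
  obtain ⟨b, hb⟩ := emb_surj hF hω (v 1)
  obtain ⟨c, hc⟩ := emb_surj hF hω (v 2)
  obtain ⟨d, hd⟩ := emb_surj hF hω (v 3)
  refine ⟨⟨a, b, c, d⟩, ?_⟩
  ext j
  fin_cases j <;> simp [ev, ha, hb, hc, hd]

theorem herm_ev (x y : V4 C4) : Cfsg.hermForm 4 F 2 (ev ω x) (ev ω y) = emb ω (herm x y) := by
  simp only [Cfsg.hermForm, Fin.sum_univ_four, herm, emb_add hF hω, emb_mul hF hω, emb_sq hF hω, ev,
    Matrix.cons_val]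

end

/-- Proportionality of vectors. -/
def Rel {n K : Type*} [Field K] (x y : n → K) : Prop := ∃ c : K, c ≠ 0 ∧ x = c • y

theorem Rel.refl' {n K : Type*} [Field K] (x : n → K) : Rel x x := ⟨1, one_ne_zero, by simp⟩

theorem Rel.symm' {n K : Type*} [Field K] {x y : n → K} (h : Rel x y) : Rel y x := by
  obtain ⟨c, hc, rfl⟩ := h
  exact ⟨c⁻¹, inv_ne_zero hc, by rw [smul_smul, inv_mul_cancel₀ hc, one_smul]⟩

theorem Rel.trans' {n K : Type*} [Field K] {x y z : n → K} (h : Rel x y) (h' : Rel y z) : Rel x z := by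
  obtain ⟨c, hc, rfl⟩ := h
  obtain ⟨d, hd, rfl⟩ := h'
  exact ⟨c * d, mul_ne_zero hc hd, by rw [smul_smul]⟩

section
variable (hF : Fintype.card F = 4) (hω : ω ^ 2 + ω + 1 = 0)
include hF hω

theorem prop_spec {x y : V4 C4} (h : C4.prop x y = true) : Rel (ev ω x) (ev ω y) := by
  have hω0 := Cfsg.Agent.Lib.F4.Basic.ne_zero_of_root hω
  simp only [C4.prop, Bool.or_eq_true, vbeq_iff] at h
  rcases h with (h | h) | h
  · rw [h]; exact Rel.refl' _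
  · rw [h, ev_smul hF hω]; exact ⟨ω, hω0, rfl⟩
  · rw [h, ev_smul hF hω]; exact ⟨ω ^ 2, pow_ne_zero _ hω0, rfl⟩

theorem prop_of_rel {x y : V4 C4} (h : Rel (ev ω x) (ev ω y)) : C4.prop x y = true := by
  obtain ⟨c, hc, e⟩ := h
  obtain ⟨c', rfl⟩ := emb_surj hF hω c
  rw [← ev_smul hF hω] at e
  have e' := ev_inj hF hω e
  simp only [C4.prop, Bool.or_eq_true, vbeq_iff]
  cases c' with
  | o => exact absurd rfl hc
  | i => left; left; rw [e']; rfl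
  | w => left; right; exact e'
  | v => right; exact e'

end

/-! The three element field. -/

variable {K : Type*} [Field K] [Fintype K]

/-- The embedding of the model. -/
def emb3 (K : Type*) [Field K] : C3 → K
  | .o => 0 | .i => 1 | .m => -1

section
variable (hK : Fintype.card K = 3)
include hK

theorem three_eq_zero : (3 : K) = 0 := by
  have := FiniteField.cast_card_eq_zero K
  rw [hK] at this
  exact_mod_cast this

theorem one_ne_neg_one' : (1 : K) ≠ -1 := by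
  intro h
  have h3 := three_eq_zero hK
  have h1 : (1 : K) = 0 := by
    linear_combination h3 - h
  exact one_ne_zero h1

theorem emb3_add (a b : C3) : emb3 K (C3.add a b) = emb3 K a + emb3 K b := by
  have h3 := three_eq_zero hK
  cases a <;> cases b <;> simp only [C3.add, emb3] <;>
    first
      | simp
      | linear_combination h3
      | linear_combination (-1 : K) * h3

theorem emb3_mul (a b : C3) : emb3 K (C3.mul a b) = emb3 K a * emb3 K b := by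
  cases a <;> cases b <;> simp [C3.mul, emb3]

theorem emb3_neg (a : C3) : emb3 K (C3.neg a) = - emb3 K a := by
  cases a <;> simp [C3.neg, emb3]

theorem emb3_inj {a b : C3} (h : emb3 K a = emb3 K b) : a = b := by
  have h1 := one_ne_neg_one' hK
  have h0 : (1 : K) ≠ 0 := one_ne_zero
  have h2 : (-1 : K) ≠ 0 := neg_ne_zero.mpr one_ne_zero
  cases a <;> cases b <;> first
    | rfl
    | (exfalso; simp only [emb3] at h; first
        | exact h0 h | exact h0 h.symm | exact h1 h | exact h1 h.symm | exact h2 h | exact h2 h.symm)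

theorem emb3_surj (x : K) : ∃ a, emb3 K a = x := by
  classical
  have h1 := one_ne_neg_one' hK
  have h0 : (1 : K) ≠ 0 := one_ne_zero
  have h2 : (-1 : K) ≠ 0 := neg_ne_zero.mpr one_ne_zero
  have hc : ({0, 1, -1} : Finset K).card = 3 := by
    rw [Finset.card_insert_of_notMem, Finset.card_insert_of_notMem, Finset.card_singleton]
    · simpa using h1
    · simp only [Finset.mem_insert, Finset.mem_singleton, not_or]
      exact ⟨h0.symm, h2.symm⟩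
  have he : ({0, 1, -1} : Finset K) = Finset.univ :=
    Finset.eq_univ_of_card _ (by rw [hc, hK])
  have hx : x ∈ ({0, 1, -1} : Finset K) := by rw [he]; exact Finset.mem_univ x
  simp only [Finset.mem_insert, Finset.mem_singleton] at hx
  rcases hx with rfl | rfl | rfl
  · exact ⟨.o, rfl⟩
  · exact ⟨.i, rfl⟩
  · exact ⟨.m, rfl⟩

end

/-- A vector over the three element field. -/
def ev3 (K : Type*) [Field K] (x : V4 C3) : Fin 2 ⊕ Fin 2 → K :=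
  Sum.elim ![emb3 K x.x0, emb3 K x.x1] ![emb3 K x.x2, emb3 K x.x3]

/-- A matrix over the three element field. -/
def toMat3 (K : Type*) [Field K] (M : M4) : Matrix (Fin 2 ⊕ Fin 2) (Fin 2 ⊕ Fin 2) K :=
  Matrix.fromBlocks
    !![emb3 K M.a00, emb3 K M.a01; emb3 K M.a10, emb3 K M.a11]
    !![emb3 K M.a02, emb3 K M.a03; emb3 K M.a12, emb3 K M.a13]
    !![emb3 K M.a20, emb3 K M.a21; emb3 K M.a30, emb3 K M.a31]
    !![emb3 K M.a22, emb3 K M.a23; emb3 K M.a32, emb3 K M.a33]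

section
variable (hK : Fintype.card K = 3)
include hK

theorem ev3_vadd (x y : V4 C3) : ev3 K (C3.vadd x y) = ev3 K x + ev3 K y := by
  ext (j | j) <;> fin_cases j <;> simp [ev3, C3.vadd, emb3_add hK]

theorem ev3_vneg (x : V4 C3) : ev3 K (C3.vneg x) = (-1 : K) • ev3 K x := by
  ext (j | j) <;> fin_cases j <;> simp [ev3, C3.vneg, emb3_neg hK]

theorem ev3_inj {x y : V4 C3} (h : ev3 K x = ev3 K y) : x = y := by
  obtain ⟨a, b, c, d⟩ := x
  obtain ⟨e, f, g, k⟩ := y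
  have h0 := congrFun h (Sum.inl 0)
  have h1 := congrFun h (Sum.inl 1)
  have h2 := congrFun h (Sum.inr 0)
  have h3 := congrFun h (Sum.inr 1)
  simp only [ev3, Sum.elim_inl, Sum.elim_inr, Matrix.cons_val] at h0 h1 h2 h3
  rw [emb3_inj hK h0, emb3_inj hK h1, emb3_inj hK h2, emb3_inj hK h3]

theorem mv_ev3 (M : M4) (y : V4 C3) : toMat3 K M *ᵥ ev3 K y = ev3 K (M4.mv M y) := by
  ext (j | j) <;> fin_cases j <;>
    simp [toMat3, ev3, M4.mv, Matrix.mulVec, dotProduct, Fintype.sum_sum_type, Fin.sum_univ_two,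
      emb3_add hK, emb3_mul hK] <;> ring

theorem form_ev3 (x y : V4 C3) : Cfsg.sympForm 2 K (ev3 K x) (ev3 K y) = emb3 K (C3.form x y) := by
  rw [Cfsg.Agent.Lib.Classical.SympForm.sympForm_eq_sum, Fin.sum_univ_two]
  simp only [ev3, Sum.elim_inl, Sum.elim_inr, Matrix.cons_val, C3.form, emb3_add hK, emb3_mul hK,
    emb3_neg hK]
  ring

theorem prop3_spec {x y : V4 C3} (h : C3.prop x y = true) : Rel (ev3 K x) (ev3 K y) := by
  simp only [C3.prop, Bool.or_eq_true, C3.vbeq_iff] at h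
  rcases h with h | h
  · rw [h]; exact Rel.refl' _
  · rw [h, ev3_vneg hK]; exact ⟨-1, neg_ne_zero.mpr one_ne_zero, rfl⟩

theorem prop3_of_rel {x y : V4 C3} (h : Rel (ev3 K x) (ev3 K y)) : C3.prop x y = true := by
  obtain ⟨c, hc, e⟩ := h
  obtain ⟨c', rfl⟩ := emb3_surj hK c
  simp only [C3.prop, Bool.or_eq_true, C3.vbeq_iff]
  cases c' with
  | o => exact absurd rfl hc
  | i =>
    left
    apply ev3_inj hK
    rw [e]
    simp [emb3]
  | m =>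
    right
    apply ev3_inj hK
    rw [e, ev3_vneg hK]
    rfl

theorem ev3_unit (a : Fin 2 ⊕ Fin 2) : ev3 K (M4.unit a) = Pi.single a 1 := by
  rcases a with a | a <;> fin_cases a <;> ext (j | j) <;> fin_cases j <;>
    simp [ev3, M4.unit, M4.e0, M4.e1, M4.e2, M4.e3, emb3]

/-- The certificate matrices are symplectic. -/
theorem toMat3_mem (M : M4) (h : M4.isSp M = true) :
    toMat3 K M ∈ Matrix.symplecticGroup (Fin 2) K := by
  apply Cfsg.Agent.Lib.Classical.SympCount.mem_symplecticGroup_of_basis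
  intro k l
  rw [← Cfsg.Agent.Lib.Classical.SympCount.sympForm_single_single, ← ev3_unit hK k, ← ev3_unit hK l,
    mv_ev3 hK, mv_ev3 hK, form_ev3 hK, form_ev3 hK]
  have hall : ∀ x ∈ [M4.e0, M4.e1, M4.e2, M4.e3], ∀ y ∈ [M4.e0, M4.e1, M4.e2, M4.e3],
      C3.form (M4.mv M x) (M4.mv M y) = C3.form x y := by
    intro x hx y hy
    simp only [M4.isSp, List.all_eq_true] at h
    exact (C3.beq_iff _ _).mp (h x hx y hy)
  have hk : ∀ a : Fin 2 ⊕ Fin 2, M4.unit a ∈ [M4.e0, M4.e1, M4.e2, M4.e3] := by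
    intro a
    rcases a with a | a <;> fin_cases a <;> simp [M4.unit]
  rw [hall _ (hk k) _ (hk l)]

end

end transfer

/-! ### The group theoretic argument -/

section abstract

open Matrix

variable {A B : Type*} [Group A] [Group B] {m n : Type*} [Fintype m] [DecidableEq m] [Fintype n]
  [DecidableEq n] {F K : Type*} [Field F] [Field K] (matA : A →* Matrix m m F)
  (matB : B →* Matrix n n K) {N : Type*} (P' : N → m → F) (Q' : N → n → K)

/-- Pairs of elements inducing the same permutation of the index set. -/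
def Gam : Subgroup (A × B) where
  carrier := {x | ∃ π : Equiv.Perm N, ∀ p, Rel (matA x.1 *ᵥ P' p) (P' (π p)) ∧
    Rel (matB x.2 *ᵥ Q' p) (Q' (π p))}
  mul_mem' := by
    rintro ⟨g₁, h₁⟩ ⟨g₂, h₂⟩ ⟨π₁, H₁⟩ ⟨π₂, H₂⟩
    refine ⟨π₁ * π₂, fun p => ⟨?_, ?_⟩⟩
    · obtain ⟨c, hc, e⟩ := (H₂ p).1
      obtain ⟨d, hd, e'⟩ := (H₁ (π₂ p)).1
      refine ⟨c * d, mul_ne_zero hc hd, ?_⟩
      simp only [Prod.fst_mul, map_mul, ← mulVec_mulVec, e, mulVec_smul, e', smul_smul,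
        Equiv.Perm.mul_apply] at *
    · obtain ⟨c, hc, e⟩ := (H₂ p).2
      obtain ⟨d, hd, e'⟩ := (H₁ (π₂ p)).2
      refine ⟨c * d, mul_ne_zero hc hd, ?_⟩
      simp only [Prod.snd_mul, map_mul, ← mulVec_mulVec, e, mulVec_smul, e', smul_smul,
        Equiv.Perm.mul_apply] at *
  one_mem' := ⟨1, fun p => by
    simp only [Prod.fst_one, Prod.snd_one, map_one, one_mulVec, Equiv.Perm.one_apply]
    exact ⟨Rel.refl' _, Rel.refl' _⟩⟩
  inv_mem' := by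
    rintro ⟨g, h⟩ ⟨π, H⟩
    refine ⟨π⁻¹, fun p => ⟨?_, ?_⟩⟩
    · obtain ⟨c, hc, e⟩ := (H (π⁻¹ p)).1
      rw [show π (π⁻¹ p) = p by simp] at e
      refine ⟨c⁻¹, inv_ne_zero hc, ?_⟩
      have h1 : matA g⁻¹ *ᵥ (matA g *ᵥ P' (π⁻¹ p)) = P' (π⁻¹ p) := by
        rw [mulVec_mulVec, ← map_mul, inv_mul_cancel, map_one, one_mulVec]
      simp only at e
      rw [e, mulVec_smul] at h1
      simp only [Prod.fst_inv]
      rw [← h1, smul_smul, inv_mul_cancel₀ hc, one_smul]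
    · obtain ⟨c, hc, e⟩ := (H (π⁻¹ p)).2
      rw [show π (π⁻¹ p) = p by simp] at e
      refine ⟨c⁻¹, inv_ne_zero hc, ?_⟩
      have h1 : matB h⁻¹ *ᵥ (matB h *ᵥ Q' (π⁻¹ p)) = Q' (π⁻¹ p) := by
        rw [mulVec_mulVec, ← map_mul, inv_mul_cancel, map_one, one_mulVec]
      simp only at e
      rw [e, mulVec_smul] at h1
      simp only [Prod.snd_inv]
      rw [← h1, smul_smul, inv_mul_cancel₀ hc, one_smul]

theorem exists_Phi {S : Set A} (hS : Subgroup.closure S = ⊤)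
    (hgen : ∀ g ∈ S, ∃ h, (g, h) ∈ Gam matA matB P' Q')
    (huniq : ∀ h, ((1 : A), h) ∈ Gam matA matB P' Q' → h ∈ Subgroup.center B) :
    ∃ Φ : A →* B ⧸ Subgroup.center B, ∀ g h, (g, h) ∈ Gam matA matB P' Q' →
      Φ g = (QuotientGroup.mk h : B ⧸ Subgroup.center B) := by
  have hall : ∀ g : A, ∃ h, (g, h) ∈ Gam matA matB P' Q' := by
    intro g
    have hg : g ∈ Subgroup.closure S := by rw [hS]; trivial
    induction hg using Subgroup.closure_induction with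
    | mem x hx => exact hgen x hx
    | one => exact ⟨1, one_mem _⟩
    | mul x y _ _ hx hy =>
      obtain ⟨a, ha⟩ := hx
      obtain ⟨b, hb⟩ := hy
      exact ⟨a * b, mul_mem ha hb⟩
    | inv x _ hx =>
      obtain ⟨a, ha⟩ := hx
      exact ⟨a⁻¹, inv_mem ha⟩
  choose f hf using hall
  have key : ∀ g h, (g, h) ∈ Gam matA matB P' Q' →
      (QuotientGroup.mk (f g) : B ⧸ Subgroup.center B) = QuotientGroup.mk h := by
    intro g h hh
    rw [QuotientGroup.eq]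
    apply huniq
    have := mul_mem (inv_mem (hf g)) hh
    simpa using this
  refine ⟨MonoidHom.mk' (fun g => QuotientGroup.mk (f g)) ?_, ?_⟩
  · intro a b
    rw [key (a * b) (f a * f b) (mul_mem (hf a) (hf b))]
    rfl
  · intro g h hh
    exact key g h hh

/-- A matrix fixing the coordinate lines and the lines through sums is scalar. -/
theorem scalar_of_rel {ι : Type*} [Fintype ι] [DecidableEq ι] (M : Matrix ι ι K) (i0 : ι)
    (h1 : ∀ a, Rel (M *ᵥ Pi.single a 1) (Pi.single a (1 : K)))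
    (h2 : ∀ a, a ≠ i0 → Rel (M *ᵥ (Pi.single i0 1 + Pi.single a 1))
      (Pi.single i0 (1 : K) + Pi.single a 1)) :
    ∃ c : K, c ≠ 0 ∧ M = c • 1 := by
  choose c hc hcA using h1
  have hall : ∀ a, c a = c i0 := by
    intro a
    by_cases ha : a = i0
    · rw [ha]
    obtain ⟨d, hd, e⟩ := h2 a ha
    rw [mulVec_add, hcA, hcA] at e
    have e0 := congrFun e i0
    have e1 := congrFun e a
    simp [Pi.single_apply, ha, Ne.symm ha] at e0 e1
    rw [e0, e1]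
  refine ⟨c i0, hc i0, ?_⟩
  apply Matrix.ext_of_mulVec_single
  intro a
  rw [hcA, hall, Matrix.smul_mulVec, one_mulVec]

end abstract

section main

open Matrix

variable {F K : Type*} [Field F] [Fintype F] [Field K] [Fintype K] {ω : F}

/-- The matrix of an element of `SU`. -/
def matA (F : Type*) [Field F] : Cfsg.SU 4 F 2 →* Matrix (Fin 4) (Fin 4) F :=
  (Cfsg.slToMat 4 F).comp (Cfsg.SU 4 F 2).subtype

/-- The matrix of an element of `Sp`. -/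
def matB (K : Type*) [Field K] :
    Matrix.symplecticGroup (Fin 2) K →* Matrix (Fin 2 ⊕ Fin 2) (Fin 2 ⊕ Fin 2) K :=
  (Matrix.symplecticGroup (Fin 2) K).subtype

/-- The forty non-isotropic points. -/
def P' (ω : F) (p : Fin 40) : Fin 4 → F := ev ω (P p.val)

/-- The forty points of the symplectic space. -/
def Q' (K : Type*) [Field K] (p : Fin 40) : Fin 2 ⊕ Fin 2 → K := ev3 K (Q p.val)

theorem P'_inj (hF : Fintype.card F = 4) (hω : ω ^ 2 + ω + 1 = 0) {p q : Fin 40}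
    (h : Rel (P' ω p) (P' ω q)) : p = q := by
  have h1 := prop_of_rel hF hω h
  have h2 := allBelow_spec _ 40 (allBelow_spec _ 40 P_inj p p.2) q q.2
  rw [h1, Bool.not_true, Bool.false_or] at h2
  exact Fin.ext (Nat.eq_of_beq_eq_true h2)

theorem Q'_inj (hK : Fintype.card K = 3) {p q : Fin 40}
    (h : Rel (Q' K p) (Q' K q)) : p = q := by
  have h1 := prop3_of_rel hK h
  have h2 := allBelow_spec _ 40 (allBelow_spec _ 40 Q_inj p p.2) q q.2
  rw [h1, Bool.not_true, Bool.false_or] at h2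
  exact Fin.ext (Nat.eq_of_beq_eq_true h2)

/-- An element of `Sp` fixing all points is central. -/
theorem center_of_fix (hK : Fintype.card K = 3) (h : Matrix.symplecticGroup (Fin 2) K)
    (hfix : ∀ p, Rel (h.1 *ᵥ Q' K p) (Q' K p)) :
    h ∈ Subgroup.center (Matrix.symplecticGroup (Fin 2) K) := by
  have hunit : ∀ a : Fin 2 ⊕ Fin 2, ∃ p : Fin 40, Q' K p = Pi.single a 1 := by
    intro a
    rw [← ev3_unit hK a]
    rcases a with a | a <;> fin_cases a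
    · exact ⟨13, congrArg _ Q_e0⟩
    · exact ⟨4, congrArg _ Q_e1⟩
    · exact ⟨1, congrArg _ Q_e2⟩
    · exact ⟨0, congrArg _ Q_e3⟩
  have hsum : ∀ a : Fin 2 ⊕ Fin 2, a ≠ Sum.inl 0 → ∃ p : Fin 40, Q' K p =
      Pi.single (Sum.inl 0) 1 + Pi.single a 1 := by
    intro a ha
    rw [← ev3_unit hK a, ← ev3_unit hK (Sum.inl 0), ← ev3_vadd hK]
    rcases a with a | a <;> fin_cases a
    · exact absurd rfl ha
    · exact ⟨22, congrArg _ Q_e01⟩
    · exact ⟨16, congrArg _ Q_e02⟩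
    · exact ⟨14, congrArg _ Q_e03⟩
  obtain ⟨c, hc, e⟩ := scalar_of_rel h.1 (Sum.inl 0)
    (fun a => by
      obtain ⟨p, hp⟩ := hunit a
      rw [← hp]
      exact hfix p)
    (fun a ha => by
      obtain ⟨p, hp⟩ := hsum a ha
      rw [← hp]
      exact hfix p)
  rw [Cfsg.Agent.Lib.Classical.SympSimple.mem_center_symplecticGroup_iff (by norm_num)]
  obtain ⟨c', rfl⟩ := emb3_surj hK c
  cases c' with
  | o => exact absurd rfl hc
  | i =>
    left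
    apply Subtype.ext
    rw [e]
    simp [emb3]
  | m =>
    right
    apply Subtype.ext
    rw [e]
    simp [emb3, Cfsg.Agent.Lib.Classical.SympSimple.negOne]

/-- The certificate for a transvection. -/
theorem exists_row (hF : Fintype.card F = 4) (hω : ω ^ 2 + ω + 1 = 0) (hK : Fintype.card K = 3)
    (w : V4 C4) (hiso : C4.herm w w = .o) (hne : w ≠ ⟨.o, .o, .o, .o⟩) :
    ∃ (h : Matrix.symplecticGroup (Fin 2) K) (π : Equiv.Perm (Fin 40)), π ≠ 1 ∧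
      ∀ p, Rel (Cfsg.unitaryTransvection 4 2 (ev ω w) 1 *ᵥ P' ω p) (P' ω (π p)) ∧
        Rel (h.1 *ᵥ Q' K p) (Q' K (π p)) := by
  have h1 := C4.all4_eq _ (C4.all4_eq _ (C4.all4_eq _ (C4.all4_eq _ check_all w.x0) w.x1) w.x2) w.x3
  simp only at h1
  have hiso' : C4.beq (C4.herm w w) .o = true := (C4.beq_iff _ _).mpr hiso
  have hne' : C4.vbeq w ⟨.o, .o, .o, .o⟩ = false := by
    rw [Bool.eq_false_iff]
    intro h
    exact hne ((C4.vbeq_iff _ _).mp h)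
  have hw : (⟨w.x0, w.x1, w.x2, w.x3⟩ : V4 C4) = w := rfl
  rw [hw, hiso', Bool.not_true, Bool.false_or, hne', Bool.false_or, List.any_eq_true] at h1
  obtain ⟨r, hr, hcheck⟩ := h1
  have hok := (List.all_eq_true.mp rows_ok) r hr
  simp only [rowOK, Bool.and_eq_true, Bool.not_eq_true'] at hok
  obtain ⟨hsp, hmov⟩ := hok
  have hall : ∀ p, p < 40 → _ := allBelow_spec _ 40 hcheck
  simp only [Bool.and_eq_true] at hall
  have hlt : ∀ p, p < 40 → nthD 0 r.pi p < 40 := fun p hp =>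
    Nat.le_of_ble_eq_true (hall p hp).1.1.1
  have hinv : ∀ p, p < 40 → nthD 0 r.pi (nthD 0 r.pi p) = p := fun p hp =>
    Nat.eq_of_beq_eq_true (hall p hp).1.1.2
  let f : Fin 40 → Fin 40 := fun p => ⟨nthD 0 r.pi p.val, hlt p.val p.2⟩
  have hf : Function.Involutive f := fun p => Fin.ext (hinv p.val p.2)
  refine ⟨⟨toMat3 K r.M, toMat3_mem hK r.M hsp⟩, Function.Involutive.toPerm f hf, ?_, ?_⟩
  · intro h1
    have h2 : allBelow 40 (fun p => Nat.beq (nthD 0 r.pi p) p) = true := by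
      have : ∀ p, p < 40 → Nat.beq (nthD 0 r.pi p) p = true := by
        intro p hp
        have h3 : Function.Involutive.toPerm f hf ⟨p, hp⟩ = ⟨p, hp⟩ := by rw [h1]; rfl
        have h4 : nthD 0 r.pi p = p := congrArg Fin.val h3
        rw [h4]
        exact Nat.beq_refl p
      clear hall hmov
      have gen : ∀ n, n ≤ 40 → allBelow n (fun p => Nat.beq (nthD 0 r.pi p) p) = true := by
        intro n
        induction n with
        | zero => intro _; rfl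
        | succ n ih =>
          intro hn
          simp only [allBelow, Bool.and_eq_true]
          exact ⟨this n (by omega), ih (by omega)⟩
      exact gen 40 le_rfl
    rw [h2] at hmov
    exact Bool.noConfusion hmov
  · intro p
    constructor
    · have h5 := prop_spec hF hω (hall p.val p.2).1.2
      have h6 : Cfsg.unitaryTransvection 4 2 (ev ω w) 1 *ᵥ P' ω p = ev ω (C4.tv w (P p.val)) := by
        rw [Cfsg.Agent.Lib.Classical.HermTransv.transv_mulVec, P', C4.tv, ev_vadd hF hω,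
          ev_smul hF hω, herm_ev hF hω, one_mul]
      rw [h6]
      exact h5
    · have h5 := prop3_spec hK (hall p.val p.2).2
      change Rel (toMat3 K r.M *ᵥ ev3 K (Q p.val)) _
      rw [mv_ev3 hK]
      exact h5

end main

open Matrix in
theorem main_iso {F K : Type*} [Field F] [Fintype F] [Field K] [Fintype K] (hF : Fintype.card F = 4) (hK : Fintype.card K = 3) : Nonempty (Cfsg.PSU 4 F 2 ≃* Cfsg.PSp 2 K) := by
  classical
  obtain ⟨ω, hω⟩ := Cfsg.Agent.S0819.exists_omega hF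
  have hF' : Fintype.card F = 2 ^ 2 := by rw [hF]; norm_num
  have h2F := Cfsg.Agent.Lib.F4.Basic.two_eq_zero hF
  set Γ := Gam (matA F) (matB K) (P' ω) (Q' K) with hΓ
  set S : Set (Cfsg.SU 4 F 2) := {A | ∃ (v : Fin 4 → F) (c : F), Cfsg.hermForm 4 F 2 v v = 0 ∧
    ((A : Matrix.SpecialLinearGroup (Fin 4) F) : Matrix (Fin 4) (Fin 4) F) =
      Cfsg.unitaryTransvection 4 2 v c} with hS
  have hclosure : Subgroup.closure S = ⊤ :=
    Cfsg.Agent.Lib.Classical.HermTransv.closure_transv_SU hF' 4 (by norm_num) (by norm_num)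
  -- generators are either trivial or transvections with coefficient one
  have hshape : ∀ g ∈ S, g = 1 ∨ ∃ w : V4 C4, C4.herm w w = .o ∧ w ≠ ⟨.o, .o, .o, .o⟩ ∧
      ((g : Matrix.SpecialLinearGroup (Fin 4) F) : Matrix (Fin 4) (Fin 4) F) =
        Cfsg.unitaryTransvection 4 2 (ev ω w) 1 := by
    rintro g ⟨v, c, hv, hg⟩
    have hone : ((1 : Cfsg.SU 4 F 2) : Matrix.SpecialLinearGroup (Fin 4) F).val = 1 := rfl
    by_cases hv0 : v = 0
    · left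
      apply Subtype.ext
      apply Subtype.ext
      rw [hone, hg, hv0]
      ext i j
      simp [Cfsg.unitaryTransvection, Matrix.vecMulVec_apply]
    by_cases hc0 : c = 0
    · left
      apply Subtype.ext
      apply Subtype.ext
      rw [hone, hg, hc0]
      simp [Cfsg.unitaryTransvection]
    right
    have hiso := (Cfsg.Agent.Lib.Classical.HermTransv.transv_isometry_iff hF' 4 v hv0 hv c).mp (by
      rw [← hg]
      exact g.2)
    have hc1 : c = 1 := by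
      rcases hiso with h | h
      · exact absurd h hc0
      · norm_num at h
        rw [h]
        linear_combination (-1 : F) * h2F
    obtain ⟨w, hw⟩ := ev_surj hF hω v
    refine ⟨w, ?_, ?_, ?_⟩
    · apply emb_inj hF hω
      rw [← herm_ev hF hω, hw, hv]
      rfl
    · rintro rfl
      apply hv0
      rw [← hw]
      ext j
      fin_cases j <;> rfl
    · rw [hg, hc1, hw]
  have hgen : ∀ g ∈ S, ∃ h, (g, h) ∈ Γ := by
    intro g hg
    rcases hshape g hg with rfl | ⟨w, h1, h2, h3⟩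
    · exact ⟨1, one_mem _⟩
    · obtain ⟨h, π, -, hπ⟩ := exists_row (K := K) hF hω hK w h1 h2
      refine ⟨h, π, fun p => ?_⟩
      have e : (matA F g) = Cfsg.unitaryTransvection 4 2 (ev ω w) 1 := h3
      simp only [e]
      exact hπ p
  have huniq : ∀ h, ((1 : Cfsg.SU 4 F 2), h) ∈ Γ → h ∈ Subgroup.center _ := by
    rintro h ⟨π, hπ⟩
    have hπ1 : ∀ p, π p = p := by
      intro p
      have := (hπ p).1
      simp only [map_one, one_mulVec] at this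
      exact (P'_inj hF hω this).symm
    apply center_of_fix hK
    intro p
    have := (hπ p).2
    rw [hπ1] at this
    exact this
  obtain ⟨Φ, hΦ⟩ := exists_Phi (matA F) (matB K) (P' ω) (Q' K) hclosure hgen huniq
  -- the centre of `SU` is trivial
  have hZ : Nat.card (Subgroup.center (Cfsg.SU 4 F 2)) = 1 := by
    rw [Cfsg.Agent.Lib.Classical.HermOrders.card_center_SU hF' 4 (by norm_num)]
    norm_num
  have hZ1 : ∀ x ∈ Subgroup.center (Cfsg.SU 4 F 2), x = 1 := by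
    intro x hx
    have := (Subgroup.eq_bot_of_card_eq _ hZ)
    rw [this] at hx
    exact (Subgroup.mem_bot).mp hx
  let Ψ : Cfsg.PSU 4 F 2 →* Cfsg.PSp 2 K := QuotientGroup.lift _ Φ (fun x hx => by
    rw [hZ1 x hx]
    exact one_mem _)
  -- non-triviality
  have hsimple := Cfsg.Agent.Lib.Classical.HermBridge.isSimpleGroup_PSU hF' 4 (by norm_num)
    (by norm_num)
  have hcards : Nat.card (Cfsg.PSU 4 F 2) = 25920 ∧ Nat.card (Cfsg.PSp 2 K) = 25920 := by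
    constructor
    · have h3 := Cfsg.Agent.Lib.Classical.HermOrders.card_PSU hF' 4 (by norm_num)
      have e1 : (2 ^ (4 * (4 - 1) / 2) * ∏ i ∈ Finset.range 4,
          (if Even i then 2 ^ (i + 1) + 1 else 2 ^ (i + 1) - 1) : ℕ) = 77760 := by decide +kernel
      have e2 : Nat.gcd 4 (2 + 1) = 1 := by norm_num
      rw [e1, e2] at h3
      omega
    · have h1 := Cfsg.Agent.Lib.Classical.SympCount.card_symplecticGroup (F := K) (q := 3)
        (by rw [Nat.card_eq_fintype_card, hK]) 2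
      have h2 := Cfsg.Agent.Lib.Classical.SympSimple.card_center_symplecticGroup (F := K) hK
        (m := 2) (by norm_num)
      have h3 := Subgroup.card_eq_card_quotient_mul_card_subgroup
        (Subgroup.center (Matrix.symplecticGroup (Fin 2) K))
      have e1 : (3 ^ (2 ^ 2) * ∏ i ∈ Finset.range 2, (3 ^ (2 * (i + 1)) - 1) : ℕ) = 51840 := by
        decide +kernel
      have e2 : Nat.gcd 2 (3 - 1) = 2 := by norm_num
      rw [h1, h2, e1, e2] at h3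
      exact Nat.eq_of_mul_eq_mul_right (by norm_num : 0 < 2) h3.symm
  have hnontriv : ∃ g ∈ S, g ≠ 1 := by
    by_contra hcon
    push Not at hcon
    have h1 : Subgroup.closure S = ⊥ := by
      rw [Subgroup.closure_eq_bot_iff]
      intro g hg
      exact hcon g hg
    rw [hclosure] at h1
    have h2 : Nat.card (Cfsg.SU 4 F 2) = 1 := by
      rw [← Subgroup.card_top, h1, Subgroup.card_bot]
    have h3 := Subgroup.card_eq_card_quotient_mul_card_subgroup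
      (Subgroup.center (Cfsg.SU 4 F 2))
    rw [hcards.1, hZ, h2] at h3
    omega
  have hne : Ψ.ker ≠ ⊤ := by
    obtain ⟨g, hg, hg1⟩ := hnontriv
    rcases hshape g hg with rfl | ⟨w, h1, h2, h3⟩
    · exact absurd rfl hg1
    obtain ⟨h, π, hπ1, hπ⟩ := exists_row (K := K) hF hω hK w h1 h2
    have hmem : (g, h) ∈ Γ := by
      refine ⟨π, fun p => ?_⟩
      have e : (matA F g) = Cfsg.unitaryTransvection 4 2 (ev ω w) 1 := h3
      simp only [e]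
      exact hπ p
    intro htop
    have hk : Ψ (QuotientGroup.mk g) = 1 := by
      have : (QuotientGroup.mk g : Cfsg.PSU 4 F 2) ∈ Ψ.ker := by rw [htop]; trivial
      exact this
    have hk' : Φ g = 1 := hk
    rw [hΦ g h hmem, QuotientGroup.eq_one_iff] at hk'
    apply hπ1
    ext p
    rcases (Cfsg.Agent.Lib.Classical.SympSimple.mem_center_symplecticGroup_iff (by norm_num) h).mp
      hk' with rfl | rfl
    · have h4 := (hπ p).2
      have h5 := Q'_inj hK (by simpa using h4)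
      rw [← h5]
      rfl
    · have h4 := (hπ p).2
      have h6 : (Cfsg.Agent.Lib.Classical.SympSimple.negOne 2 K).1 *ᵥ Q' K p = (-1 : K) • Q' K p := by
        simp [Cfsg.Agent.Lib.Classical.SympSimple.negOne, Matrix.neg_mulVec]
      rw [h6] at h4
      have h7 : Rel (Q' K p) (Q' K (π p)) :=
        Rel.trans' ⟨-1, neg_ne_zero.mpr one_ne_zero, by simp⟩ h4
      have h5 := Q'_inj hK h7
      rw [← h5]
      rfl
  have hinj : Function.Injective Ψ := by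
    rw [injective_iff_map_eq_one]
    intro x hx
    rcases hsimple.eq_bot_or_eq_top_of_normal Ψ.ker (MonoidHom.normal_ker Ψ) with h | h
    · have : x ∈ Ψ.ker := hx
      rw [h] at this
      exact (Subgroup.mem_bot).mp this
    · exact absurd h hne
  have : Finite (Cfsg.PSp 2 K) := Nat.finite_of_card_ne_zero (by rw [hcards.2]; norm_num)
  have hbij : Function.Bijective Ψ := by
    apply hinj.bijective_of_nat_card_le
    rw [hcards.1, hcards.2]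
  exact ⟨MulEquiv.ofBijective Ψ hbij⟩

theorem result {F K : Type*} [Field F] [Fintype F] [Field K] [Fintype K] (hF : Fintype.card F = 4) (hK : Fintype.card K = 3) : Nonempty (Cfsg.PSU 4 F 2 ≃* Cfsg.PSp 2 K) :=
  main_iso hF hK

end Cfsg.Agent.S0822
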