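import Cfsg.Statements.S0823
import Cfsg.Agent.S0286
import Cfsg.Agent.Lib.PermRepO.Basic
import Cfsg.Agent.Lib.PermRepO.Transfer

set_option autoImplicit false

open Cfsg

namespace Cfsg.Agent.S0823

open Matrix Cfsg.Agent.Lib.PermRepO.Transfer Cfsg.Agent.Lib.PermRepO.Basic

abbrev I3 := Unit ⊕ (Fin 1 ⊕ Fin 1)

abbrev Z3 := ZMod 3

/-- coordinates of the embedding -/
def embFun (x : I3 → Z3) : Fin 4 → Z3 :=
  ![x (.inl ()) + x (.inr (.inl 0)) - x (.inr (.inr 0)),
    - x (.inl ()) + x (.inr (.inl 0)) - x (.inr (.inr 0)),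
    x (.inr (.inl 0)),
    - x (.inr (.inr 0))]

/-- The basis of the sum-zero vectors. -/
def emb : (I3 → Z3) →ₗ[Z3] (Fin 4 → Z3) where
  toFun := embFun
  map_add' x y := by
    funext i
    fin_cases i <;> simp [embFun] <;> ring
  map_smul' c x := by
    funext i
    fin_cases i <;> simp [embFun] <;> ring

/-- The coordinates of a sum-zero vector. -/
def proj : (Fin 4 → Z3) →ₗ[Z3] (I3 → Z3) where
  toFun v := Sum.elim (fun _ => v 0 - v 2 - v 3) (Sum.elim (fun _ => v 2) (fun _ => - v 3))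
  map_add' x y := by
    funext i
    rcases i with i | i | i
    · simp
      ring
    · rfl
    · simp
      ring
  map_smul' c x := by
    funext i
    rcases i with i | i | i
    · simp
      ring
    · rfl
    · simp

/-- The form on the sum-zero vectors. -/
def QX (v : Fin 4 → Z3) : Z3 := - ∑ i, v i ^ 2

theorem QX_P (σ : Equiv.Perm (Fin 4)) (v : Fin 4 → Z3) : QX (P σ v) = QX v := by
  unfold QX
  congr 1
  exact Equiv.sum_comp σ⁻¹ (fun i => v i ^ 2)

theorem QX_emb_aux : ∀ a b c : Z3, QX ![a + b - c, - a + b - c, b, - c] = a ^ 2 + b * c := by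
  decide

theorem QX_emb (x : I3 → Z3) : QX (emb x) = quadFormOdd 1 Z3 x := by
  have := QX_emb_aux (x (.inl ())) (x (.inr (.inl 0))) (x (.inr (.inr 0)))
  simpa [quadFormOdd, emb, embFun] using this

theorem emb_proj_aux : ∀ a b c d : Z3, a + b + c + d = 0 →
    ![a - c - d + c - - d, - (a - c - d) + c - - d, c, - - d] = ![a, b, c, d] := by
  decide

theorem emb_proj (v : Fin 4 → Z3) (hv : sumL v = 0) : emb (proj v) = v := by
  have h1 : v 0 + v 1 + v 2 + v 3 = 0 := by
    rw [sumL_apply, Fin.sum_univ_four] at hv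
    exact hv
  have h2 := emb_proj_aux _ _ _ _ h1
  have h3 : v = ![v 0, v 1, v 2, v 3] := by
    funext i
    fin_cases i <;> rfl
  conv_rhs => rw [h3, ← h2]
  funext i
  fin_cases i <;> rfl

theorem proj_emb (x : I3 → Z3) : proj (emb x) = x := by
  have h : ∀ a b c : Z3, a + b - c - b - - c = a := by decide
  funext i
  rcases i with i | i | i
  · exact h _ _ _
  · fin_cases i
    rfl
  · fin_cases i
    show - - x _ = x _
    simp

theorem sum_emb (x : I3 → Z3) : sumL (emb x) = 0 := by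
  have h : ∀ a b c : Z3, a + b - c + (- a + b - c) + b + - c = 0 := by decide
  rw [sumL_apply, Fin.sum_univ_four]
  exact h _ _ _

theorem exists_f : ∃ f : Equiv.Perm (Fin 4) →* isometryGroup Z3 (quadFormOdd 1 Z3), Function.Injective f ∧
    ∀ σ x, ((f σ : GL I3 Z3) : Matrix I3 I3 Z3) *ᵥ x = proj (P σ (emb x)) := by
  exact exists_hom (K := Z3) (G := Equiv.Perm (Fin 4)) permRep emb proj (LinearMap.ker sumL) ⊥
    sum_emb
    (fun σ v hv => by
      rw [LinearMap.mem_ker] at hv ⊢
      rw [permRep_apply, sumL_P, hv])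
    proj_emb
    (fun v hv => by
      rw [LinearMap.mem_ker] at hv
      rw [emb_proj v hv, sub_self]
      exact Submodule.zero_mem _)
    (fun σ l hl => by
      rw [Submodule.mem_bot] at hl ⊢
      rw [hl, map_zero])
    (fun l hl => by
      rw [Submodule.mem_bot] at hl
      rw [hl, map_zero])
    (quadFormOdd 1 Z3) QX QX_emb
    (fun σ v => QX_P σ v)
    (fun v _ l hl => by
      rw [Submodule.mem_bot] at hl
      rw [hl, add_zero])
    (fun σ h => eq_one_of_scalar (by norm_num) σ (1 : Z3) (fun v hv => by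
      have := h v hv
      rw [Submodule.mem_bot, sub_eq_zero] at this
      rw [one_smul]
      exact this))

/-- Scalars in `GL`. -/
noncomputable def scal : Z3ˣ →* GL I3 Z3 := Units.map (Matrix.scalar I3 : Z3 →+* Matrix I3 I3 Z3).toMonoidHom

theorem scal_val (c : Z3ˣ) : ((scal c : GL I3 Z3) : Matrix I3 I3 Z3) = Matrix.scalar I3 (c : Z3) := rfl

theorem scal_comm (c : Z3ˣ) (A : GL I3 Z3) : scal c * A = A * scal c := by
  apply Units.ext
  rw [Units.val_mul, Units.val_mul, scal_val]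
  exact Matrix.scalar_commute _ (fun b => Commute.all _ b) _

theorem scal_mul_val (c : Z3ˣ) (A : GL I3 Z3) :
    ((scal c * A : GL I3 Z3) : Matrix I3 I3 Z3) = (c : Z3) • (A : Matrix I3 I3 Z3) := by
  rw [Units.val_mul, scal_val, Matrix.scalar_apply, ← Matrix.smul_one_eq_diagonal, Matrix.smul_mul, one_mul]

theorem unit_sq : ∀ c : Z3ˣ, (c : Z3) ^ 2 = 1 := by decide

theorem Q_smul (c : Z3) (x : I3 → Z3) : quadFormOdd 1 Z3 (c • x) = c ^ 2 * quadFormOdd 1 Z3 x := by
  simp [quadFormOdd]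
  ring

theorem scal_mem (c : Z3ˣ) {A : GL I3 Z3} (hA : A ∈ isometryGroup Z3 (quadFormOdd 1 Z3)) :
    scal c * A ∈ isometryGroup Z3 (quadFormOdd 1 Z3) := by
  rw [Cfsg.Agent.Lib.Orth.Bridge.mem_isometryGroup_iff] at hA ⊢
  intro x
  rw [scal_mul_val, Matrix.smul_mulVec, Q_smul, unit_sq, one_mul, hA]

theorem det_scal_mul (c : Z3ˣ) (A : GL I3 Z3) :
    ((scal c * A : GL I3 Z3) : Matrix I3 I3 Z3).det = (c : Z3) ^ 3 * (A : Matrix I3 I3 Z3).det := by
  rw [scal_mul_val, Matrix.det_smul]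
  rfl

/-- The map `g ↦ det(g) g`. -/
noncomputable def d (A : isometryGroup Z3 (quadFormOdd 1 Z3)) : specialIsometryGroup Z3 (quadFormOdd 1 Z3) :=
  ⟨⟨scal (Matrix.GeneralLinearGroup.det A.1) * A.1, scal_mem _ A.2⟩, by
    rw [mem_so_iff]
    show ((scal (Matrix.GeneralLinearGroup.det A.1) * A.1 : GL I3 Z3) : Matrix I3 I3 Z3).det = 1
    rw [det_scal_mul]
    have h : ((A.1 : GL I3 Z3) : Matrix I3 I3 Z3).det = ((Matrix.GeneralLinearGroup.det A.1 : Z3ˣ) : Z3) := rfl
    rw [h, pow_succ, mul_assoc, ← sq, unit_sq, mul_one]⟩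

/-- As a homomorphism. -/
noncomputable def dHom : isometryGroup Z3 (quadFormOdd 1 Z3) →* specialIsometryGroup Z3 (quadFormOdd 1 Z3) :=
  MonoidHom.mk' d (fun a b => by
    apply Subtype.ext
    apply Subtype.ext
    show scal (Matrix.GeneralLinearGroup.det (a.1 * b.1)) * (a.1 * b.1) =
      (scal (Matrix.GeneralLinearGroup.det a.1) * a.1) * (scal (Matrix.GeneralLinearGroup.det b.1) * b.1)
    rw [map_mul, map_mul, mul_assoc, mul_assoc, ← mul_assoc a.1, ← scal_comm, mul_assoc])

theorem card_so_le : Nat.card (specialIsometryGroup Z3 (quadFormOdd 1 Z3)) ≤ 24 := by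
  have h1 := Cfsg.Agent.S0286.result (F := Z3) (q := 3) (ZMod.card 3) (by decide) 1
  have h2 : Nat.card (isometryGroup Z3 (quadFormOdd 1 Z3)) = 48 := by
    rw [h1]
    simp
  have h3 := Subgroup.card_mul_index (specialIsometryGroup Z3 (quadFormOdd 1 Z3))
  rw [h2] at h3
  have hne : (specialIsometryGroup Z3 (quadFormOdd 1 Z3)).index ≠ 1 := by
    intro h
    rw [Subgroup.index_eq_one] at h
    let m : isometryGroup Z3 (quadFormOdd 1 Z3) := ⟨scal (-1) * 1, scal_mem (-1) (Subgroup.one_mem _)⟩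
    have hm : m ∈ specialIsometryGroup Z3 (quadFormOdd 1 Z3) := by
      rw [h]
      trivial
    rw [mem_so_iff] at hm
    have : ((scal (-1) * 1 : GL I3 Z3) : Matrix I3 I3 Z3).det = 1 := hm
    rw [det_scal_mul, Units.val_one, Matrix.det_one, mul_one] at this
    exact absurd this (by decide)
  have hne0 : (specialIsometryGroup Z3 (quadFormOdd 1 Z3)).index ≠ 0 := by
    intro h
    rw [h] at h3
    omega
  have h4 : 2 ≤ (specialIsometryGroup Z3 (quadFormOdd 1 Z3)).index := by omega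
  nlinarith

theorem exists_iso : Nonempty (specialIsometryGroup Z3 (quadFormOdd 1 Z3) ≃* Equiv.Perm (Fin 4)) := by
  obtain ⟨f, hf, hact⟩ := exists_f
  have hinj : Function.Injective (dHom.comp f) := by
    rw [injective_iff_map_eq_one]
    intro σ hσ
    have h1 : scal (Matrix.GeneralLinearGroup.det (f σ).1) * (f σ).1 = 1 := by
      have := congrArg Subtype.val (congrArg Subtype.val hσ)
      exact this
    obtain ⟨c, hc⟩ : ∃ c : Z3ˣ, c = Matrix.GeneralLinearGroup.det (f σ).1 := ⟨_, rfl⟩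
    rw [← hc] at h1
    have h2 : ∀ x, (c : Z3) • proj (P σ (emb x)) = x := by
      intro x
      have h3 := congrArg (fun A : GL I3 Z3 => (A : Matrix I3 I3 Z3) *ᵥ x) h1
      simp only [scal_mul_val, Matrix.smul_mulVec, hact] at h3
      simpa using h3
    have hinv : ((c⁻¹ : Z3ˣ) : Z3) * (c : Z3) = 1 := Units.inv_mul c
    apply eq_one_of_scalar (by norm_num) σ ((c⁻¹ : Z3ˣ) : Z3)
    intro v hv
    have hw : sumL (P σ v) = 0 := by rw [sumL_P, hv]
    have h3 := h2 (proj v)
    rw [emb_proj v hv] at h3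
    have h4 : P σ v = emb (proj (P σ v)) := (emb_proj _ hw).symm
    rw [h4]
    have h5 : proj (P σ v) = ((c⁻¹ : Z3ˣ) : Z3) • proj v := by
      rw [← h3, smul_smul, hinv, one_smul]
    rw [h5, map_smul, emb_proj v hv]
  have hcard : Nat.card (Equiv.Perm (Fin 4)) = 24 := by
    simp [Nat.card_eq_fintype_card, Fintype.card_perm, Nat.factorial]
  have hb : Function.Bijective (dHom.comp f) := by
    refine (Nat.bijective_iff_injective_and_card _).mpr ⟨hinj, ?_⟩
    have h1 := Nat.card_le_card_of_injective _ hinj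
    have h2 := card_so_le
    omega
  exact ⟨(MulEquiv.ofBijective _ hb).symm⟩

theorem result {F : Type*} [Field F] [Fintype F] (hF : Fintype.card F = 3) : Nonempty (↥(Cfsg.specialIsometryGroup F (Cfsg.quadFormOdd 1 F)) ≃* Equiv.Perm (Fin 4)) := by
  classical
  have e : ZMod 3 ≃+* F := ZMod.ringEquivOfPrime F Nat.prime_three hF
  obtain ⟨E₂⟩ := exists_iso
  have E := soCongr e.symm (quadFormOdd 1 F) (quadFormOdd 1 (ZMod 3)) (by
    intro v
    simp [quadFormOdd, mapV, map_sum, map_mul])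
  exact ⟨E.trans E₂⟩

end Cfsg.Agent.S0823
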