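import Cfsg.Statements.S0825
import Cfsg.Agent.S2563
import Cfsg.Agent.S0287
import Cfsg.Agent.Lib.PermRepO.Transfer

set_option autoImplicit false

open Cfsg

namespace Cfsg.Agent.S0825

open Cfsg.Agent.Lib.PermRepO.Transfer

theorem result {F : Type*} [Field F] [Fintype F] (hF : Fintype.card F = 2) : Nonempty (↥(Cfsg.isometryGroup F (Cfsg.quadFormPlus 3 F)) ≃* Equiv.Perm (Fin 8)) := by
  classical
  have e : ZMod 2 ≃+* F := ZMod.ringEquivOfPrime F Nat.prime_two hF
  obtain ⟨φ, hφ⟩ := (Cfsg.Agent.S2563.result 1 le_rfl).1 odd_one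
  change Equiv.Perm (Fin 8) →* ↥(Cfsg.isometryGroup (ZMod 2) (Cfsg.quadFormPlus 3 (ZMod 2))) at φ
  have hc : Nat.card (isometryGroup (ZMod 2) (quadFormPlus 3 (ZMod 2))) = Nat.card (Equiv.Perm (Fin 8)) := by
    rw [Cfsg.Agent.S0287.result (F := ZMod 2) (q := 2) (ZMod.card 2) 3 (by norm_num)]
    simp [Nat.card_eq_fintype_card, Fintype.card_perm, Finset.prod_range_succ, Nat.factorial]
  have hb : Function.Bijective φ :=
    (Nat.bijective_iff_injective_and_card φ).mpr ⟨hφ, hc.symm⟩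
  have E := isoCongr e.symm (quadFormPlus 3 F) (quadFormPlus 3 (ZMod 2)) (by
    intro v
    simp [quadFormPlus, mapV, map_sum, map_mul])
  exact ⟨E.trans (MulEquiv.ofBijective φ hb).symm⟩

end Cfsg.Agent.S0825
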