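import Cfsg.Statements.S0826
import Cfsg.Agent.Lib.F2Quad.EvenSets
import Cfsg.Agent.Lib.Classical.SympForm

set_option autoImplicit false

open Cfsg

namespace Cfsg.Agent.S0826

open Cfsg.Agent.Lib.F2Quad.EvenSets Cfsg.Agent.Lib.F2Quad.Plus Cfsg.Agent.Lib.F2Quad.Basic
  Cfsg.Agent.Lib.Classical.SympForm Cfsg.Agent.Lib.Classical.Alt Cfsg.Agent.Lib.QuadFn.PlusForm

open scoped Matrix

variable {m : ℕ}

theorem dot_P (σ : Equiv.Perm (Pt m)) (x y : Vec m) : P σ x ⬝ᵥ P σ y = x ⬝ᵥ y :=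
  Equiv.sum_comp σ⁻¹ (fun p => x p * y p)

theorem sum_ones : ∑ p, ones m p = 0 := by
  rw [← ones_dot, ← bigE_last, dot_bigE_bigE]

theorem fm_T (σ : Equiv.Perm (Pt m)) (u v : Vm m) : fm m (T σ u) (T σ v) = fm m u v := by
  rw [← psi_dot_psi, ← psi_dot_psi]
  have hu : ∑ p, P σ (psi m u) p = 0 := by rw [sum_P]; exact sum_psi u
  have hv : ∑ p, P σ (psi m v) p = 0 := by rw [sum_P]; exact sum_psi v
  have hd1 : ones m ⬝ᵥ P σ (psi m v) = 0 := by rw [ones_dot, hv]
  have hd2 : P σ (psi m u) ⬝ᵥ ones m = 0 := by rw [dot_ones, hu]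
  have hd3 : ones m ⬝ᵥ ones m = 0 := by rw [ones_dot, sum_ones]
  rw [T_apply, T_apply]
  rcases psi_pi _ hu with h | h <;> rcases psi_pi _ hv with h' | h' <;> rw [h, h']
  · exact dot_P σ _ _
  · rw [dotProduct_add, hd2, add_zero]
    exact dot_P σ _ _
  · rw [add_dotProduct, hd1, add_zero]
    exact dot_P σ _ _
  · rw [add_dotProduct, dotProduct_add, dotProduct_add, hd1, hd2, hd3, add_zero, add_zero, add_zero]
    exact dot_P σ _ _

theorem sympForm_eq_fm (u v : Vm m) : sympForm m (ZMod 2) u v = fm m u v := by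
  rw [sympForm_eq_sum]
  simp only [fm, polarPlus_apply]
  refine Finset.sum_congr rfl fun i _ => ?_
  have h2 : ∀ a b : ZMod 2, b - a = a + b := by decide
  rw [h2]
  ring

theorem result (n : ℕ) (hn : 3 ≤ n) : ∃ f : Equiv.Perm (Fin (2 * n)) →* Matrix.symplecticGroup (Fin (n - 1)) (ZMod 2), Function.Injective f := by
  obtain ⟨m, rfl⟩ : ∃ m, n = m + 1 := ⟨n - 1, by omega⟩
  change ∃ f : Equiv.Perm (Fin (2 * (m + 1))) →* Matrix.symplecticGroup (Fin m) (ZMod 2), Function.Injective f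
  have hm : 2 ≤ m := by omega
  have hmem : ∀ σ, Thom m σ ∈ isomGroup (sympBilin m (ZMod 2)) := by
    intro σ x y
    rw [sympBilin_apply, sympBilin_apply, sympForm_eq_fm, sympForm_eq_fm, Thom_apply, Thom_apply, fm_T]
  let e : Fin (2 * (m + 1)) ≃ Pt m := (Fintype.equivFinOfCardEq (by simp; ring)).symm
  refine ⟨(spEquiv (m := m) (F := ZMod 2)).symm.toMonoidHom.comp (((Thom m).codRestrict _ hmem).comp
    (Equiv.permCongrHom e).toMonoidHom), ?_⟩
  intro a b hab
  have h1 := (spEquiv (m := m) (F := ZMod 2)).symm.injective hab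
  have h2 : Thom m (Equiv.permCongrHom e a) = Thom m (Equiv.permCongrHom e b) := congrArg Subtype.val h1
  exact (Equiv.permCongrHom e).injective (Thom_injective hm h2)

end Cfsg.Agent.S0826
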