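import Cfsg.Statements.S0828
import Cfsg.Agent.Lib.QuadFn.Incidence
import Cfsg.Agent.Lib.Classical.SympForm

set_option autoImplicit false
open Cfsg

namespace Cfsg.Agent.S0828

open Module Cfsg.Agent.Lib.QuadFn.Incidence Cfsg.Agent.Lib.Classical.SympForm

variable {F : Type*} [Field F] [Fintype F]

local notation "V" => (Fin 2 ⊕ Fin 2 → F)

/-- The totally isotropic planes. -/
def X (W : Submodule F V) : Prop := finrank F W = 2 ∧ ∀ u ∈ W, ∀ v ∈ W, Cfsg.sympForm 2 F u v = 0

theorem skew (u v : V) : Cfsg.sympForm 2 F u v = -Cfsg.sympForm 2 F v u :=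
  ((sympBilin_isAlt (m := 2) (F := F)).neg_eq v u).symm

theorem self_zero (u : V) : Cfsg.sympForm 2 F u u = 0 := sympBilin_isAlt (m := 2) (F := F) u

theorem finrank_V : finrank F V = 4 := by simp

/-- The orthogonal complement of a vector. -/
noncomputable def vperp (v : V) : Submodule F V := (sympBilin 2 F).orthogonal (Submodule.span F {v})

theorem mem_vperp (v w : V) : w ∈ vperp v ↔ Cfsg.sympForm 2 F v w = 0 := by
  rw [vperp, LinearMap.BilinForm.mem_orthogonal_iff]
  constructor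
  · intro h
    exact h v (Submodule.mem_span_singleton_self v)
  · intro h n hn
    obtain ⟨t, rfl⟩ := Submodule.mem_span_singleton.mp hn
    simp [h]

theorem finrank_vperp (v : V) (hv : v ≠ 0) : finrank F (vperp v) = 3 := by
  have h1 := LinearMap.BilinForm.finrank_orthogonal (sympBilin_nondegenerate (m := 2) (F := F)) (Submodule.span F {v})
  rw [finrank_span_singleton hv, finrank_V] at h1
  exact h1

/-- X(span{v,w}) for `w ∉ ⟨v⟩` iff `w` is orthogonal to `v`. -/
theorem X_span_iff (v w : V) (hv : v ≠ 0) (hw : w ∉ Submodule.span F {v}) :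
    X (Submodule.span F {v, w}) ↔ w ∈ vperp v := by
  rw [mem_vperp]
  constructor
  · rintro ⟨-, h⟩
    exact h v (Submodule.subset_span (by simp)) w (Submodule.subset_span (by simp))
  · intro h
    refine ⟨?_, ?_⟩
    · have h1 : Submodule.span F {v, w} = Submodule.span F {v} ⊔ Submodule.span F {w} :=
        Submodule.span_insert _ _
      have h2 := Submodule.finrank_sup_add_finrank_inf_eq (Submodule.span F {v}) (Submodule.span F {w})
      have h0 : w ≠ 0 := by
        rintro rfl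
        exact hw (Submodule.zero_mem _)
      rw [finrank_span_singleton h0, finrank_span_singleton hv] at h2
      have h3 : Submodule.span F {v} ⊓ Submodule.span F {w} = ⊥ := by
        rw [eq_bot_iff]
        rintro x ⟨hx1, hx2⟩
        obtain ⟨t, rfl⟩ := Submodule.mem_span_singleton.mp hx2
        by_cases ht : t = 0
        · simp [ht]
        · exfalso
          apply hw
          have := Submodule.smul_mem _ t⁻¹ hx1
          rwa [smul_smul, inv_mul_cancel₀ ht, one_smul] at this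
      rw [h3, finrank_bot] at h2
      rw [h1]
      omega
    · intro a ha b hb
      obtain ⟨x, y, rfl⟩ := Submodule.mem_span_pair.mp ha
      obtain ⟨s, t, rfl⟩ := Submodule.mem_span_pair.mp hb
      have h4 : ∀ a b : V, Cfsg.sympForm 2 F a b = sympBilin 2 F a b := fun _ _ => rfl
      simp only [h4, map_add, map_smul, LinearMap.add_apply, LinearMap.smul_apply]
      simp only [← h4, self_zero, h, skew w v]
      simp

theorem arith1 (q N : ℕ) (hq2 : 2 ≤ q) (h3 : N * (q ^ 2 - q) + q = q ^ 3) : N = q + 1 := by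
  obtain ⟨q', rfl⟩ : ∃ q', q = q' + 2 := ⟨q - 2, by omega⟩
  have h4 : (q' + 2) ^ 2 - (q' + 2) = (q' + 2) * (q' + 1) := by
    have : (q' + 2) ^ 2 = (q' + 2) * (q' + 1) + (q' + 2) := by ring
    omega
  rw [h4] at h3
  have h5 : N * ((q' + 2) * (q' + 1)) = (q' + 3) * ((q' + 2) * (q' + 1)) := by
    have : (q' + 3) * ((q' + 2) * (q' + 1)) + (q' + 2) = (q' + 2) ^ 3 := by ring
    omega
  exact Nat.eq_of_mul_eq_mul_right (by positivity) h5

theorem arith2 (q N Z : ℕ) (hq2 : 2 ≤ q) (h2 : Z + 1 = q ^ 4) (h1 : N * (q ^ 2 - 1) = Z * (q + 1)) :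
    N = (q + 1) * (q ^ 2 + 1) := by
  obtain ⟨q', rfl⟩ : ∃ q', q = q' + 2 := ⟨q - 2, by omega⟩
  have h3 : (q' + 2) ^ 2 - 1 = (q' + 3) * (q' + 1) := by
    have : (q' + 2) ^ 2 = (q' + 3) * (q' + 1) + 1 := by ring
    omega
  rw [h3] at h1
  have h4 : Z = (q' + 3) * (q' + 1) * ((q' + 2) ^ 2 + 1) := by
    have : (q' + 3) * (q' + 1) * ((q' + 2) ^ 2 + 1) + 1 = (q' + 2) ^ 4 := by ring
    omega
  rw [h4] at h1
  have h5 : N * ((q' + 3) * (q' + 1)) = ((q' + 2 + 1) * ((q' + 2) ^ 2 + 1)) * ((q' + 3) * (q' + 1)) := by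
    rw [h1]; ring
  exact Nat.eq_of_mul_eq_mul_right (by positivity) h5

theorem card_through_v (v : V) (hv : v ≠ 0) :
    Nat.card {W // X W ∧ v ∈ W} = Fintype.card F + 1 := by
  classical
  have h1 := card_through X (fun W hW => hW.1) v hv
  have e : {w // w ∉ Submodule.span F {v} ∧ X (Submodule.span F {v, w})} ≃
      {w // w ∈ vperp v ∧ w ∉ Submodule.span F {v}} := by
    refine Equiv.subtypeEquivRight ?_
    intro w
    constructor
    · rintro ⟨h2, h3⟩
      exact ⟨(X_span_iff v w hv h2).mp h3, h2⟩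
    · rintro ⟨h2, h3⟩
      exact ⟨h3, (X_span_iff v w hv h3).mpr h2⟩
  rw [Nat.card_congr e] at h1
  have hle : Submodule.span F {v} ≤ vperp v := by
    rw [Submodule.span_singleton_le_iff_mem, mem_vperp]
    exact self_zero v
  have h2 := card_diff hle
  rw [finrank_span_singleton hv, finrank_vperp v hv, pow_one] at h2
  rw [Nat.card_eq_fintype_card (α := F)] at h1 h2
  have hq2 : 2 ≤ Fintype.card F := Fintype.one_lt_card
  apply arith1 _ _ hq2
  rw [h1]
  exact h2

/-- The symplectic generalised quadrangle over a field with q elements: the number of 2-dimensional subspaces of F^4 on which the symplectic form vanishes is (q + 1)(q² + 1), and every non-zero vector lies in exactly q + 1 of them. -/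
theorem result {F : Type*} [Field F] [Fintype F] {q : ℕ} (hF : Fintype.card F = q) : Nat.card {W : Submodule F (Fin 2 ⊕ Fin 2 → F) // Module.finrank F W = 2 ∧ ∀ u ∈ W, ∀ v ∈ W, Cfsg.sympForm 2 F u v = 0} = (q + 1) * (q ^ 2 + 1) ∧ ∀ v : Fin 2 ⊕ Fin 2 → F, v ≠ 0 → Nat.card {W : Submodule F (Fin 2 ⊕ Fin 2 → F) // Module.finrank F W = 2 ∧ v ∈ W ∧ ∀ u ∈ W, ∀ w ∈ W, Cfsg.sympForm 2 F u w = 0} = q + 1 := by
  classical
  subst hF
  have hthrough : ∀ v : Fin 2 ⊕ Fin 2 → F, v ≠ 0 → Nat.card {W : Submodule F (Fin 2 ⊕ Fin 2 → F) // Module.finrank F W = 2 ∧ v ∈ W ∧ ∀ u ∈ W, ∀ w ∈ W, Cfsg.sympForm 2 F u w = 0} = Fintype.card F + 1 := by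
    intro v hv
    rw [← card_through_v v hv]
    apply Nat.card_congr
    refine Equiv.subtypeEquivRight ?_
    intro W
    simp only [X]
    tauto
  refine ⟨?_, hthrough⟩
  have h1 := card_flags (X (F := F)) (fun W hW => hW.1) (fun _ => True) (fun _ _ _ _ _ => trivial)
    (Fintype.card F + 1) (fun v _ hv => card_through_v v hv)
  have h2 : Nat.card {v : Fin 2 ⊕ Fin 2 → F // True ∧ v ≠ 0} + 1 = Fintype.card F ^ 4 := by
    have := card_diff (bot_le : (⊥ : Submodule F (Fin 2 ⊕ Fin 2 → F)) ≤ ⊤)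
    rw [finrank_bot, pow_zero, finrank_top, finrank_V, Nat.card_eq_fintype_card (α := F)] at this
    rw [← this]
    congr 1
  have hdef : Nat.card {W : Submodule F (Fin 2 ⊕ Fin 2 → F) // Module.finrank F W = 2 ∧ ∀ u ∈ W, ∀ v ∈ W, Cfsg.sympForm 2 F u v = 0} = Nat.card {W // X (F := F) W} := rfl
  rw [hdef]
  rw [Nat.card_eq_fintype_card (α := F)] at h1
  exact arith2 _ _ _ Fintype.one_lt_card h2 h1

end Cfsg.Agent.S0828
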