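import Cfsg.Statements.S0830
import Cfsg.Agent.Lib.HermCount.Lines

set_option autoImplicit false
open Cfsg

namespace Cfsg.Agent.S0830

open Cfsg.Agent.Lib.HermCount.Field Cfsg.Agent.Lib.HermCount.Space Cfsg.Agent.Lib.HermCount.Lines

/-- The unitary quadrangle of PSU_5(q): with |F| = q², the number of 2-dimensional subspaces of F^5 on which the Hermitian form vanishes is (q³ + 1)(q⁵ + 1). -/
theorem result {F : Type*} [Field F] [Fintype F] {q : ℕ} (hF : Fintype.card F = q ^ 2) : Nat.card {W : Submodule F (Fin 5 → F) // Module.finrank F W = 2 ∧ ∀ u ∈ W, ∀ v ∈ W, Cfsg.hermForm 5 F q u v = 0} = (q ^ 3 + 1) * (q ^ 5 + 1) := by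
  have hq2 := two_le hF
  have hqz : (2 : ℤ) ≤ q := by exact_mod_cast hq2
  have h1 := card_planes (V := Fin 5 → F) (herm_space 5 hF) hF 3 (by simp) (q ^ 3 + 1) (by
    simp only [A]
    push_cast
    ring)
  have hdef : Nat.card {W : Submodule F (Fin 5 → F) // Module.finrank F W = 2 ∧ ∀ u ∈ W, ∀ v ∈ W, Cfsg.hermForm 5 F q u v = 0} = Nat.card {W // X (Cfsg.hermForm 5 F q) W} := rfl
  rw [hdef]
  have hne : (q : ℤ) ^ 4 - 1 ≠ 0 := by
    have : (2 : ℤ) ^ 4 ≤ (q : ℤ) ^ 4 := pow_le_pow_left₀ (by norm_num) hqz 4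
    intro h0
    linarith
  have h2 : (Nat.card {W // X (Cfsg.hermForm 5 F q) W} : ℤ) = ((q ^ 3 + 1) * (q ^ 5 + 1) : ℕ) := by
    apply mul_right_cancel₀ hne
    rw [h1]
    simp only [A]
    push_cast
    ring
  exact_mod_cast h2

end Cfsg.Agent.S0830
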