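import Cfsg.Statements.S0831
import Cfsg.Agent.Lib.QuadFn.PlusForm

set_option autoImplicit false
open Cfsg

namespace Cfsg.Agent.S0831

open Module Cfsg.Agent.Lib.QuadFn.MaxSingular Cfsg.Agent.Lib.QuadFn.PlusForm

/-- The two families of maximal totally singular subspaces of the hyperbolic quadric: for the form Σ x_i y_i on F^(2m), m ≥ 1, and m-dimensional subspaces U, W, X on which it vanishes, the parities of m − dim(U ∩ W), m − dim(W ∩ X) and m − dim(U ∩ X) sum to an even number (so 'even codimension of the intersection' is an equivalence relation), and there exist two such subspaces meeting in codimension 1 (so there are exactly two classes). -/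
theorem result {F : Type*} [Field F] (m : ℕ) (hm : 1 ≤ m) : (∀ U W X : Submodule F (Fin m ⊕ Fin m → F), (Module.finrank F U = m ∧ ∀ w ∈ U, Cfsg.quadFormPlus m F w = 0) → (Module.finrank F W = m ∧ ∀ w ∈ W, Cfsg.quadFormPlus m F w = 0) → (Module.finrank F X = m ∧ ∀ w ∈ X, Cfsg.quadFormPlus m F w = 0) → Even ((m - Module.finrank F ↥(U ⊓ W)) + (m - Module.finrank F ↥(W ⊓ X)) + (m - Module.finrank F ↥(U ⊓ X)))) ∧ ∃ U W : Submodule F (Fin m ⊕ Fin m → F), (Module.finrank F U = m ∧ ∀ w ∈ U, Cfsg.quadFormPlus m F w = 0) ∧ (Module.finrank F W = m ∧ ∀ w ∈ W, Cfsg.quadFormPlus m F w = 0) ∧ Module.finrank F ↥(U ⊓ W) + 1 = m := by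
  have S := qspace F m
  have hdim := finrank_total F m
  constructor
  · rintro U W X ⟨hUm, hU⟩ ⟨hWm, hW⟩ ⟨hXm, hX⟩
    exact S.parity hdim (U := U) hU hUm _ W X hW hWm hX hXm rfl
  · -- a hyperplane of the standard subspace
    have hMm := stdM_finrank F m
    have hM := stdM_ts F m
    obtain ⟨c, hc⟩ : ∃ c, c ∉ stdM F m := by
      by_contra h
      push Not at h
      have h1 : (⊤ : Submodule F (Fin m ⊕ Fin m → F)) ≤ stdM F m := fun x _ => h x
      have h2 := Submodule.finrank_mono h1
      rw [finrank_top] at h2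
      omega
    have hc0 : c ≠ 0 := by
      rintro rfl
      exact hc (Submodule.zero_mem _)
    have h1 := S.finrank_inf_orth hdim hM hMm (Submodule.span F {c})
    have h2 : finrank F (Submodule.span F {c}) = 1 := finrank_span_singleton hc0
    have h3 : stdM F m ⊓ Submodule.span F {c} = ⊥ := by
      rw [eq_bot_iff]
      rintro x ⟨hx1, hx2⟩
      obtain ⟨t, rfl⟩ := Submodule.mem_span_singleton.mp hx2
      by_cases ht : t = 0
      · simp [ht]
      · exfalso
        apply hc
        have := Submodule.smul_mem _ t⁻¹ hx1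
        rwa [smul_smul, inv_mul_cancel₀ ht, one_smul] at this
    rw [h3, finrank_bot, h2] at h1
    set H : Submodule F (Fin m ⊕ Fin m → F) := stdM F m ⊓ (polarPlus F m).orthogonal (Submodule.span F {c}) with hH
    have hHts : TS (Cfsg.quadFormPlus m F) H := fun x hx => hM x hx.1
    obtain ⟨W₁, W₂, hW₁, hW₁m, hHW₁, hW₂, hW₂m, hHW₂, hne, -⟩ :=
      S.two_max hdim hM hMm hHts (by omega)
    refine ⟨W₁, W₂, ⟨hW₁m, hW₁⟩, ⟨hW₂m, hW₂⟩, ?_⟩
    have h4 : finrank F H ≤ finrank F (W₁ ⊓ W₂ : Submodule F _) := Submodule.finrank_mono (le_inf hHW₁ hHW₂)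
    have h5 : finrank F (W₁ ⊓ W₂ : Submodule F _) ≠ m := by
      intro h0
      have e1 : W₁ ⊓ W₂ = W₁ := Submodule.eq_of_le_of_finrank_le inf_le_left (by omega)
      have e2 : W₁ ⊓ W₂ = W₂ := Submodule.eq_of_le_of_finrank_le inf_le_right (by omega)
      exact hne (e1.symm.trans e2)
    have h6 : finrank F (W₁ ⊓ W₂ : Submodule F _) ≤ finrank F W₁ := Submodule.finrank_mono inf_le_left
    omega

end Cfsg.Agent.S0831
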