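import Cfsg.Statements.S0833
import Cfsg.Agent.Lib.QuadDisc.Tensor

set_option autoImplicit false

open Cfsg

namespace Cfsg.Agent.S0833

open Module TensorProduct

variable {F U W : Type*} [Field F] [AddCommGroup U] [Module F U] [FiniteDimensional F U]
  [AddCommGroup W] [Module F W] [FiniteDimensional F W]

theorem exists_ti (B : LinearMap.BilinForm F U) (h : B.Nondegenerate) (hA : B.IsAlt) (k : ℕ)
    (hU : finrank F U = 2 * k) (j : ℕ) (hj : j ≤ k) :
    ∃ L : Submodule F U, finrank F L = j ∧ ∀ x ∈ L, ∀ y ∈ L, B x y = 0 := by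
  induction j with
  | zero => exact ⟨⊥, by simp, by simp⟩
  | succ j ih =>
    obtain ⟨L, hL, hti⟩ := ih (by omega)
    have hrefl : B.IsRefl := hA.isRefl
    have hperp := LinearMap.BilinForm.finrank_orthogonal h L
    have hle : L ≤ B.orthogonal L := by
      intro x hx y hy
      exact hti y hy x hx
    have hlt : L < B.orthogonal L := by
      refine lt_of_le_of_ne hle ?_
      intro he
      rw [← he] at hperp
      omega
    obtain ⟨v, hv, hvL⟩ := SetLike.exists_of_lt hlt
    refine ⟨L ⊔ Submodule.span F {v}, ?_, ?_⟩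
    · rw [← hL]
      exact Submodule.finrank_sup_span_singleton hvL
    · intro x hx y hy
      obtain ⟨a, ha, c, hc, rfl⟩ := Submodule.mem_sup.mp hx
      obtain ⟨b, hb, d, hd, rfl⟩ := Submodule.mem_sup.mp hy
      obtain ⟨r, rfl⟩ := Submodule.mem_span_singleton.mp hc
      obtain ⟨s, rfl⟩ := Submodule.mem_span_singleton.mp hd
      have h1 : B a b = 0 := hti a ha b hb
      have h2 : B v b = 0 := by
        have := hv b hb
        exact hrefl _ _ this
      have h3 : B a v = 0 := hv a ha |> fun h => h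
      have h4 : B v v = 0 := hA v
      simp [h1, h2, h3, h4]

theorem tmul_symm (B₁ : LinearMap.BilinForm F U) (B₂ : LinearMap.BilinForm F W)
    (hA₁ : B₁.IsAlt) (hA₂ : B₂.IsAlt) (x y : TensorProduct F U W) :
    (B₁.tmul B₂) x y = (B₁.tmul B₂) y x := by
  induction x using TensorProduct.induction_on with
  | zero => simp
  | add a b iha ihb => simp [iha, ihb]
  | tmul u w =>
    induction y using TensorProduct.induction_on with
    | zero => simp
    | add a b iha ihb => simp [iha, ihb]
    | tmul u' w' =>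
      simp only [LinearMap.BilinForm.tensorDistrib_tmul, smul_eq_mul]
      have h1 : B₁ u' u = - B₁ u u' := hA₁.neg_eq _ _ |>.symm
      have h2 : B₂ w' w = - B₂ w w' := hA₂.neg_eq _ _ |>.symm
      rw [h1, h2]
      ring

theorem result {F U W : Type*} [Field F] [Fintype F] [AddCommGroup U] [Module F U] [FiniteDimensional F U] [AddCommGroup W] [Module F W] [FiniteDimensional F W] (B₁ : LinearMap.BilinForm F U) (B₂ : LinearMap.BilinForm F W) (h₁ : B₁.Nondegenerate) (h₂ : B₂.Nondegenerate) (hA₁ : B₁.IsAlt) (hA₂ : B₂.IsAlt) (k l : ℕ) (hU : Module.finrank F U = 2 * k) (hW : Module.finrank F W = 2 * l) : (B₁.tmul B₂).IsSymm ∧ (B₁.tmul B₂).Nondegenerate ∧ (∃ X : Submodule F (TensorProduct F U W), Module.finrank F X = 2 * k * l ∧ ∀ x ∈ X, ∀ y ∈ X, (B₁.tmul B₂) x y = 0) := by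
  refine ⟨?_, Cfsg.Agent.Lib.QuadDisc.Tensor.nondegenerate_tmul B₁ B₂ h₁ h₂, ?_⟩
  · exact ⟨fun x y => by simpa using tmul_symm B₁ B₂ hA₁ hA₂ x y⟩
  · obtain ⟨L, hL, hti⟩ := exists_ti B₁ h₁ hA₁ k hU k le_rfl
    let φ : TensorProduct F L W →ₗ[F] TensorProduct F U W := L.subtype.rTensor W
    have hφ : Function.Injective φ :=
      Module.Flat.rTensor_preserves_injective_linearMap _ L.injective_subtype
    refine ⟨LinearMap.range φ, ?_, ?_⟩
    · rw [LinearMap.finrank_range_of_inj hφ, Module.finrank_tensorProduct, hL, hW]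
      ring
    · rintro _ ⟨a, rfl⟩ _ ⟨b, rfl⟩
      induction a using TensorProduct.induction_on with
      | zero => simp
      | add a₁ a₂ h₁' h₂' => simp [h₁', h₂']
      | tmul u w =>
        induction b using TensorProduct.induction_on with
        | zero => simp
        | add a₁ a₂ h₁' h₂' => simp [h₁', h₂']
        | tmul u' w' =>
          simp only [φ, LinearMap.rTensor_tmul, Submodule.subtype_apply,
            LinearMap.BilinForm.tensorDistrib_tmul, smul_eq_mul]
          rw [hti _ u.2 _ u'.2]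
          simp

end Cfsg.Agent.S0833
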