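import Cfsg.Statements.S0835
import Cfsg.Agent.Lib.QuadDisc.Classify
import Cfsg.Agent.Lib.QuadDisc.Tensor

set_option autoImplicit false
open Cfsg

namespace Cfsg.Agent.S0835

open Module Cfsg.Agent.Lib.QuadDisc.Basic Cfsg.Agent.Lib.QuadDisc.Classify Cfsg.Agent.Lib.QuadDisc.Tensor

/-- Over a finite field with 2 ≠ 0: if B₁ on U (dim 2k, k ≥ 1) is non-degenerate symmetric of minus type (no totally isotropic k-subspace) and B₂ on W (dim 2l + 1) is non-degenerate symmetric, then B₁ ⊗ B₂ (dimension 2k(2l+1)) admits no totally isotropic subspace of dimension k(2l+1) (minus type). -/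
theorem result {F U W : Type*} [Field F] [Fintype F] [AddCommGroup U] [Module F U] [FiniteDimensional F U] [AddCommGroup W] [Module F W] [FiniteDimensional F W] (h2 : (2 : F) ≠ 0) (B₁ : LinearMap.BilinForm F U) (B₂ : LinearMap.BilinForm F W) (h₁ : B₁.Nondegenerate) (h₂ : B₂.Nondegenerate) (hS₁ : B₁.IsSymm) (hS₂ : B₂.IsSymm) (k l : ℕ) (hk : 1 ≤ k) (hU : Module.finrank F U = 2 * k) (hW : Module.finrank F W = 2 * l + 1) (hm₁ : ¬ (∃ X : Submodule F (U), Module.finrank F X = k ∧ ∀ x ∈ X, ∀ y ∈ X, (B₁) x y = 0)) : ¬ (∃ X : Submodule F (TensorProduct F U W), Module.finrank F X = k * (2 * l + 1) ∧ ∀ x ∈ X, ∀ y ∈ X, (B₁.tmul B₂) x y = 0) := by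
  rintro ⟨X, hX, hXt⟩
  apply hm₁
  let b₁ := finBasis F U
  let b₂ := finBasis F W
  have hS : LinearMap.BilinForm.IsSymm (B₁.tmul B₂) :=
    ⟨fun x y => ((LinearMap.BilinForm.isSymm_iff.mp hS₁).tmul (LinearMap.BilinForm.isSymm_iff.mp hS₂)).eq x y⟩
  have h1 := disc_of_exists_ti (B₁.tmul B₂) hS (k * (2 * l + 1))
    (by rw [Module.finrank_tensorProduct, hU, hW]; ring) (b₁.tensorProduct b₂) X hX hXt
  rw [det_gram_tmul] at h1
  simp only [Fintype.card_fin] at h1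
  change IsSquare ((-1) ^ (k * (2 * l + 1)) * ((LinearMap.BilinForm.toMatrix b₁ B₁).det ^ finrank F W * (LinearMap.BilinForm.toMatrix b₂ B₂).det ^ finrank F U)) at h1
  set d₁ := (LinearMap.BilinForm.toMatrix b₁ B₁).det with hd₁
  set d₂ := (LinearMap.BilinForm.toMatrix b₂ B₂).det with hd₂
  rw [hU, hW] at h1
  have hd₁0 : d₁ ≠ 0 := (nondegenerate_iff_det b₁ B₁).mp h₁
  have hd₂0 : d₂ ≠ 0 := (nondegenerate_iff_det b₂ B₂).mp h₂
  apply exists_ti_of_disc h2 B₁ h₁ hS₁ k hU b₁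
  -- simplify the square
  have hz : ((-1 : F) ^ (k * l) * d₁ ^ l * d₂ ^ k) ≠ 0 :=
    mul_ne_zero (mul_ne_zero (pow_ne_zero _ (by norm_num [neg_ne_zero])) (pow_ne_zero _ hd₁0)) (pow_ne_zero _ hd₂0)
  rw [← isSquare_mul_self_mul hz]
  convert h1 using 1
  have h3 : ((-1 : F) ^ (k * l)) * (-1) ^ (k * l) = 1 := by
    rw [← mul_pow]; simp
  have e1 : ((-1 : F)) ^ (k * (2 * l + 1)) = (-1) ^ k := by
    have : k * (2 * l + 1) = 2 * (k * l) + k := by ring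
    rw [this, pow_add, pow_mul, neg_one_sq, one_pow, one_mul]
  rw [e1]
  have e2 : d₁ ^ (2 * l + 1) = d₁ ^ l * d₁ ^ l * d₁ := by ring
  have e3 : d₂ ^ (2 * k) = d₂ ^ k * d₂ ^ k := by ring
  rw [e2, e3]
  linear_combination ((d₁ ^ l * d₁ ^ l * d₁) * (d₂ ^ k * d₂ ^ k) * (-1) ^ k) * h3

end Cfsg.Agent.S0835
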