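import Cfsg.Statements.S0838
import Cfsg.Agent.Lib.QuadDisc.Classify

set_option autoImplicit false
open Cfsg

namespace Cfsg.Agent.S0838

open Module Cfsg.Agent.Lib.QuadDisc.Basic Cfsg.Agent.Lib.QuadDisc.Classify

/-- Over a finite field with 2 ≠ 0 and n odd: two quadratic forms Q₁, Q₂ on F^n with non-degenerate polar forms are similar — there are an invertible linear map g and a scalar c ≠ 0 with Q₂ (g v) = c · Q₁ v for all v. -/
theorem result {F : Type*} [Field F] [Fintype F] (h2 : (2 : F) ≠ 0) {n : ℕ} (hn : Odd n) (Q₁ Q₂ : QuadraticForm F (Fin n → F)) (h₁ : (QuadraticMap.polarBilin Q₁).Nondegenerate) (h₂ : (QuadraticMap.polarBilin Q₂).Nondegenerate) : ∃ (g : (Fin n → F) ≃ₗ[F] (Fin n → F)) (c : F), c ≠ 0 ∧ ∀ v, Q₂ (g v) = c * Q₁ v := by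
  let b := finBasis F (Fin n → F)
  set B₁ : LinearMap.BilinForm F (Fin n → F) := QuadraticMap.polarBilin Q₁ with hB₁
  set B₂ : LinearMap.BilinForm F (Fin n → F) := QuadraticMap.polarBilin Q₂ with hB₂
  have hb1 : LinearMap.BilinForm.Nondegenerate B₁ := h₁
  have hb2 : LinearMap.BilinForm.Nondegenerate B₂ := h₂
  have hS₁ : LinearMap.BilinForm.IsSymm B₁ := ⟨fun x y => QuadraticMap.polar_comm _ x y⟩
  have hS₂ : LinearMap.BilinForm.IsSymm B₂ := ⟨fun x y => QuadraticMap.polar_comm _ x y⟩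
  set d₁ := (LinearMap.BilinForm.toMatrix b B₁).det with hd₁
  set d₂ := (LinearMap.BilinForm.toMatrix b B₂).det with hd₂
  have hd₁0 : d₁ ≠ 0 := (nondegenerate_iff_det b B₁).mp hb1
  have hd₂0 : d₂ ≠ 0 := (nondegenerate_iff_det b B₂).mp hb2
  set c := d₁ * d₂ with hc
  have hc0 : c ≠ 0 := mul_ne_zero hd₁0 hd₂0
  have hcardb : Fintype.card (Fin (finrank F (Fin n → F))) = n := by simp
  have hdet : (LinearMap.BilinForm.toMatrix b (c • B₁)).det = c ^ n * d₁ := by
    rw [map_smul, Matrix.det_smul, hcardb]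
  have hS : LinearMap.BilinForm.IsSymm (c • B₁) := hS₁.smul c
  have hnd : LinearMap.BilinForm.Nondegenerate (c • B₁) := by
    rw [nondegenerate_iff_det b, hdet]
    exact mul_ne_zero (pow_ne_zero _ hc0) hd₁0
  obtain ⟨g, hg⟩ := exists_isometry h2 (c • B₁) B₂ hnd hb2 hS hS₂ rfl (by
    obtain ⟨m, hm⟩ := hn
    have hb' : b = finBasis F (Fin n → F) := rfl
    rw [← hb', hdet, ← hd₂]
    refine ⟨c ^ (m + 1), ?_⟩
    rw [hm, mul_assoc, ← hc, pow_add, pow_one, pow_mul]
    ring)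
  refine ⟨g, c, hc0, ?_⟩
  intro v
  have h3 := hg v v
  simp only [LinearMap.smul_apply, smul_eq_mul] at h3
  have h4 : B₂ (g v) (g v) = 2 * Q₂ (g v) := by
    change QuadraticMap.polar Q₂ (g v) (g v) = _
    rw [QuadraticMap.polar_self]
    simp
  have h5 : B₁ v v = 2 * Q₁ v := by
    change QuadraticMap.polar Q₁ v v = _
    rw [QuadraticMap.polar_self]
    simp
  rw [h4, h5] at h3
  apply mul_left_cancel₀ h2
  linear_combination h3

end Cfsg.Agent.S0838
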