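import Cfsg.Statements.S0841
import Mathlib

set_option autoImplicit false
open Cfsg

namespace Cfsg.Agent.S0841

open scoped commutatorElement in
private lemma c_mem {G : Type*} [Group G] (x y : G) :
    y⁻¹ * x⁻¹ * y * x ∈ commutator G := by
  have : y⁻¹ * x⁻¹ * y * x = ⁅y⁻¹, x⁻¹⁆ := by simp [commutatorElement_def]
  rw [this]
  exact Subgroup.commutator_mem_commutator (Subgroup.mem_top _) (Subgroup.mem_top _)

/-- If the commutator subgroup of G lies in the centre, then for all x, y in G and every natural number n one has (x * y) ^ n = x ^ n * y ^ n * c ^ (n * (n - 1) / 2) with c = y⁻¹ * x⁻¹ * y * x. -/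
theorem result {G : Type*} [Group G] (hG : commutator G ≤ Subgroup.center G) (x y : G) (n : ℕ) : (x * y) ^ n = x ^ n * y ^ n * (y⁻¹ * x⁻¹ * y * x) ^ (n * (n - 1) / 2) := by
  set c : G := y⁻¹ * x⁻¹ * y * x with hc
  have hcc : c ∈ Subgroup.center G := by
    exact hG (c_mem x y)
  have hcomm : ∀ g : G, Commute c g := fun g => by
    rw [Subgroup.mem_center_iff] at hcc
    exact (hcc g).symm
  have hyx : y * x = x * y * c := by simp [hc]; group
  have hpow : ∀ m : ℕ, y ^ m * x = x * y ^ m * c ^ m := by
    intro m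
    induction m with
    | zero => simp
    | succ m ih =>
      calc y ^ (m + 1) * x = y ^ m * (y * x) := by rw [pow_succ]; group
        _ = y ^ m * (x * y * c) := by rw [hyx]
        _ = (y ^ m * x) * y * c := by group
        _ = x * y ^ m * c ^ m * y * c := by rw [ih]
        _ = x * y ^ m * (c ^ m * y) * c := by group
        _ = x * y ^ m * (y * c ^ m) * c := by rw [((hcomm y).pow_left m).eq]
        _ = x * y ^ (m + 1) * c ^ (m + 1) := by rw [pow_succ y, pow_succ c]; group
  have htri : ∀ m : ℕ, (m + 1) * m / 2 = m + m * (m - 1) / 2 := by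
    intro m
    have h2 : (m + 1) * m = 2 * m + m * (m - 1) := by
      cases m with
      | zero => simp
      | succ k => simp; ring
    rw [h2]
    omega
  induction n with
  | zero => simp
  | succ n ih =>
    have : (n + 1) * (n + 1 - 1) / 2 = n + n * (n - 1) / 2 := by
      simpa using htri n
    rw [this, pow_succ, ih, pow_add c]
    calc x ^ n * y ^ n * c ^ (n * (n - 1) / 2) * (x * y)
        = x ^ n * (y ^ n * (c ^ (n * (n - 1) / 2) * x)) * y := by group
      _ = x ^ n * (y ^ n * (x * c ^ (n * (n - 1) / 2))) * y := by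
          rw [((hcomm x).pow_left _).eq]
      _ = x ^ n * ((y ^ n * x) * c ^ (n * (n - 1) / 2)) * y := by group
      _ = x ^ n * ((x * y ^ n * c ^ n) * c ^ (n * (n - 1) / 2)) * y := by rw [hpow]
      _ = x ^ (n + 1) * y ^ n * c ^ n * (c ^ (n * (n - 1) / 2) * y) := by
          rw [pow_succ x]; group
      _ = x ^ (n + 1) * y ^ n * c ^ n * (y * c ^ (n * (n - 1) / 2)) := by
          rw [((hcomm y).pow_left _).eq]
      _ = x ^ (n + 1) * y ^ n * (c ^ n * y) * c ^ (n * (n - 1) / 2) := by group
      _ = x ^ (n + 1) * y ^ n * (y * c ^ n) * c ^ (n * (n - 1) / 2) := by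
          rw [((hcomm y).pow_left _).eq]
      _ = x ^ (n + 1) * y ^ (n + 1) * (c ^ n * c ^ (n * (n - 1) / 2)) := by
          rw [pow_succ y]; group

end Cfsg.Agent.S0841
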