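import Cfsg.Statements.S0845
import Cfsg.Agent.Lib.ZStar.QBig
import Cfsg.Agent.Lib.ZStar.Quat
import Cfsg.Agent.Lib.Blk89.Linear
import Cfsg.Agent.Lib.Char.Degree

set_option autoImplicit false
open Cfsg

namespace Cfsg.Agent.S0845

/-- Suppose a Sylow 2-subgroup S of the finite group G is generalized quaternion of order at least 16. Then G has a normal subgroup M of even order such that G / M is non-abelian, that is, M does not contain the commutator subgroup of G. -/
theorem result {G : Type*} [Group G] [Finite G] (S : Sylow 2 G) (n : ℕ) (e : (S : Subgroup G) ≃* QuaternionGroup (2 ^ (n + 2))) : ∃ M : Subgroup G, M.Normal ∧ Even (Nat.card M) ∧ ¬ commutator G ≤ M := by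
  classical
  letI := Fintype.ofFinite G
  haveI := Cfsg.Agent.Lib.Char.Ortho.finite_irrCharacter (G := G)
  letI := Fintype.ofFinite (Cfsg.IrrCharacter G)
  obtain ⟨χ₁, χ₂, h₁, h₂, h⟩ := Cfsg.Agent.Lib.ZStar.QBig.exists_pair' S e
  haveI : NeZero (2 ^ (n + 2)) := ⟨by positivity⟩
  obtain ⟨z, -, hz, -⟩ := Cfsg.Agent.Lib.ZStar.Quat.exists_isolated S e
  have hchar := Cfsg.Agent.Lib.Char.Basic.isCharacter_of_isIrrCharacter χ₁.2
  have hker : z ∈ Cfsg.Agent.Lib.Char.Degree.charKer hchar :=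
    Cfsg.Agent.Lib.ZStar.QBig.kernel_of_pair' hz h
  refine ⟨Cfsg.Agent.Lib.Char.Degree.charKer hchar, inferInstance, ?_, ?_⟩
  · have h2 : orderOf (⟨z, hker⟩ : Cfsg.Agent.Lib.Char.Degree.charKer hchar) = 2 := by
      rw [Subgroup.orderOf_mk]
      exact hz.1
    have h3 := orderOf_dvd_natCard (⟨z, hker⟩ : Cfsg.Agent.Lib.Char.Degree.charKer hchar)
    rw [h2] at h3
    exact even_iff_two_dvd.mpr h3
  · intro hle
    have hdeg := Cfsg.Agent.Lib.Blk89.Linear.deg_one_of_commutator_le χ₁.2 (fun x hx => hle hx)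
    have h1 := h 1 (by simp)
    obtain ⟨d₂, hd₂, hd₂'⟩ := Cfsg.Agent.Lib.Char.Complete.exists_pos_deg_of_isIrr χ₂.2
    rw [hdeg, hd₂'] at h1
    have h3 : (d₂ : ℂ) = 0 := by linear_combination -h1
    have h4 : d₂ = 0 := by exact_mod_cast h3
    omega

end Cfsg.Agent.S0845
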