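import Cfsg.Statements.S0848
import Cfsg.Agent.Lib.Invol8.Main

set_option autoImplicit false
set_option linter.style.haveILetI false
open Cfsg

namespace Cfsg.Agent.S0848

/-- If a finite group equals its own commutator subgroup and contains an involution whose centralizer is isomorphic to the dihedral group of order 8, then the group has order 168 or 360. -/
theorem result {G : Type*} [Group G] [Finite G] (hperf : commutator G = ⊤) (t : G) (ht : orderOf t = 2) (e : Subgroup.centralizer ({t} : Set G) ≃* DihedralGroup 4) : Nat.card G = 168 ∨ Nat.card G = 360 := by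
  refine Cfsg.Agent.Lib.Invol8.Main.card_eq_168_or_360 t e ht ?_
  intro H hH
  have hn : H.Normal := Subgroup.normal_of_index_eq_two hH
  have hle : commutator G ≤ H := by
    have h1 : Nat.card (G ⧸ H) = 2 := hH
    haveI : Fact (Nat.Prime 2) := ⟨Nat.prime_two⟩
    haveI : IsCyclic (G ⧸ H) := isCyclic_of_prime_card h1
    have hc : ∀ a b : G ⧸ H, a * b = b * a := fun a b => by
      have := IsCyclic.isMulCommutative (α := G ⧸ H)
      exact this.is_comm.comm a b
    rw [commutator_def, Subgroup.commutator_le]
    intro a _ b _
    rw [← QuotientGroup.eq_one_iff]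
    simp [commutatorElement_def, hc (a : G ⧸ H) b]
  rw [hperf] at hle
  have : H = ⊤ := top_le_iff.mp hle
  rw [this, Subgroup.index_top] at hH
  omega

end Cfsg.Agent.S0848
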