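import Cfsg.Statements.S0849
import Cfsg.Agent.Lib.Char.Induced
import Mathlib

set_option autoImplicit false
open Cfsg

namespace Cfsg.Agent.S0849

open Cfsg.Agent.Lib.Char.Induced

private lemma finsum_mem_eq_sum_ite {α : Type*} [Fintype α] (A : Set α) (f : α → ℂ) [DecidablePred (· ∈ A)] :
    ∑ᶠ p ∈ A, f p = ∑ p, if p ∈ A then f p else 0 := by
  rw [finsum_mem_def, finsum_eq_sum_of_fintype]
  refine Finset.sum_congr rfl fun p _ => ?_
  simp [Set.indicator_apply]

private lemma sq_of_conj {G : Type*} [Group G] {u x : G} (hu : orderOf u = 2) (h : IsConj u x) :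
    x * x = 1 := by
  obtain ⟨c, hc⟩ := isConj_iff.mp h
  have hu2 : u * u = 1 := by
    rw [← pow_two, ← hu]; exact pow_orderOf_eq_one u
  rw [← hc]
  calc c * u * c⁻¹ * (c * u * c⁻¹) = c * (u * u) * c⁻¹ := by group
    _ = 1 := by rw [hu2]; simp

/-- Let H be a subgroup of a finite group G and S a subset of H that is mapped to itself under conjugation by H, is disjoint from its conjugate by any element outside H, and is closed under inverses. Let φ be a class function of H vanishing on H away from S, and let u, v be involutions of G. Then the sum of the induced function of φ over all products a * b with a conjugate to u and b conjugate to v equals the index of H times the sum of φ (a * b) over such pairs with a and b in H. -/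
theorem result {G : Type*} [Group G] [Fintype G] (H : Subgroup G) (S : Set G) (hSH : S ⊆ H) (hHS : ∀ h ∈ H, ∀ s ∈ S, h * s * h⁻¹ ∈ S) (hTI : ∀ g : G, g ∉ H → ∀ s ∈ S, g * s * g⁻¹ ∉ S) (hinv : ∀ s ∈ S, s⁻¹ ∈ S) (φ : H → ℂ) (hφ : Cfsg.IsClassFunction H φ) (hφS : ∀ x : H, (x : G) ∉ S → φ x = 0) (u v : G) (hu : orderOf u = 2) (hv : orderOf v = 2) : ∑ᶠ p ∈ {p : G × G | IsConj u p.1 ∧ IsConj v p.2}, Cfsg.indFun H φ (p.1 * p.2) = (H.index : ℂ) * ∑ᶠ p ∈ {p : H × H | IsConj u (p.1 : G) ∧ IsConj v (p.2 : G)}, φ (p.1 * p.2) := by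
  classical
  have := Fintype.ofFinite H
  set A : Set (G × G) := {p : G × G | IsConj u p.1 ∧ IsConj v p.2} with hA
  set B : Set (H × H) := {p : H × H | IsConj u (p.1 : G) ∧ IsConj v (p.2 : G)} with hB
  rw [finsum_mem_eq_sum_ite A, finsum_mem_eq_sum_ite B]
  -- the inner sum is conjugation-invariant
  have hconjA : ∀ x : G, ∀ p : G × G, p ∈ A ↔ (x⁻¹ * p.1 * x, x⁻¹ * p.2 * x) ∈ A := by
    intro x p
    have h1 : ∀ y w : G, IsConj y (x⁻¹ * w * x) ↔ IsConj y w := by
      intro y w
      have : IsConj w (x⁻¹ * w * x) := by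
        rw [isConj_iff]
        exact ⟨x⁻¹, by group⟩
      exact ⟨fun h => h.trans this.symm, fun h => h.trans this⟩
    simp only [hA, Set.mem_ofPred_eq, h1]
  have hinner : ∀ x : G, (∑ p : G × G, if p ∈ A then extendByZero H φ (x⁻¹ * (p.1 * p.2) * x) else 0)
      = ∑ p : G × G, if p ∈ A then extendByZero H φ (p.1 * p.2) else 0 := by
    intro x
    let e : G × G ≃ G × G :=
      { toFun := fun p => (x⁻¹ * p.1 * x, x⁻¹ * p.2 * x)
        invFun := fun p => (x * p.1 * x⁻¹, x * p.2 * x⁻¹)
        left_inv := fun p => by ext <;> simp <;> group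
        right_inv := fun p => by ext <;> simp <;> group }
    refine Fintype.sum_equiv e _ _ ?_
    intro p
    have h1 : p ∈ A ↔ e p ∈ A := hconjA x p
    have h2 : (e p).1 * (e p).2 = x⁻¹ * (p.1 * p.2) * x := by
      simp only [e, Equiv.coe_fn_mk]
      group
    by_cases hp : p ∈ A
    · rw [if_pos hp, if_pos (h1.mp hp), h2]
    · rw [if_neg hp, if_neg (fun h => hp (h1.mpr h))]
  have hleft : (∑ p : G × G, if p ∈ A then indFun H φ (p.1 * p.2) else 0) =
      (H.index : ℂ) * ∑ p : G × G, if p ∈ A then extendByZero H φ (p.1 * p.2) else 0 := by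
    have h1 : ∀ p : G × G, (if p ∈ A then indFun H φ (p.1 * p.2) else 0) =
        (Nat.card H : ℂ)⁻¹ * ∑ x : G, if p ∈ A then extendByZero H φ (x⁻¹ * (p.1 * p.2) * x) else 0 := by
      intro p
      by_cases hp : p ∈ A
      · simp only [if_pos hp, indFun_apply]
      · simp only [if_neg hp, Finset.sum_const_zero, mul_zero]
    simp only [h1]
    rw [← Finset.mul_sum, Finset.sum_comm]
    simp only [hinner, Finset.sum_const, Finset.card_univ, nsmul_eq_mul]
    rw [← mul_assoc]
    congr 1
    have hcard : (Nat.card G : ℂ) = (Nat.card H : ℂ) * (H.index : ℂ) := by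
      rw [← Nat.cast_mul, Subgroup.card_mul_index]
    rw [← Nat.card_eq_fintype_card, hcard]
    have := card_subgroup_ne_zero H
    field_simp
  rw [hleft]
  congr 1
  symm
  refine Fintype.sum_of_injective (fun p : H × H => ((p.1 : G), (p.2 : G))) ?_ _ _ ?_ ?_
  · intro p q hpq
    simp only [Prod.mk.injEq] at hpq
    exact Prod.ext (Subtype.ext hpq.1) (Subtype.ext hpq.2)
  · -- vanishing outside H × H
    intro p hp
    by_cases hpA : p ∈ A
    · rw [if_pos hpA]
      by_contra hne
      have hmem : p.1 * p.2 ∈ H := by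
        by_contra hn
        exact hne (extendByZero_of_not_mem H φ hn)
      rw [extendByZero_of_mem H φ hmem] at hne
      have hsS : p.1 * p.2 ∈ S := by
        by_contra hn
        exact hne (hφS ⟨_, hmem⟩ hn)
      have h1 := sq_of_conj hu hpA.1
      have h2 := sq_of_conj hv hpA.2
      have hs' := hinv _ hsS
      have hp1inv : p.1⁻¹ = p.1 := (eq_inv_of_mul_eq_one_left h1).symm
      have hp2inv : p.2⁻¹ = p.2 := (eq_inv_of_mul_eq_one_left h2).symm
      have hp1H : p.1 ∈ H := by
        by_contra hn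
        apply hTI p.1 hn _ hsS
        have : p.1 * (p.1 * p.2) * p.1⁻¹ = (p.1 * p.2)⁻¹ := by
          rw [mul_inv_rev, hp1inv, hp2inv, ← mul_assoc, h1, one_mul]
        rw [this]
        exact hs'
      have hp2H : p.2 ∈ H := by
        by_contra hn
        apply hTI p.2 hn _ hsS
        have : p.2 * (p.1 * p.2) * p.2⁻¹ = (p.1 * p.2)⁻¹ := by
          rw [mul_inv_rev, hp1inv, hp2inv, mul_assoc, mul_assoc, h2, mul_one]
        rw [this]
        exact hs'
      exact hp ⟨(⟨p.1, hp1H⟩, ⟨p.2, hp2H⟩), rfl⟩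
    · rw [if_neg hpA]
  · intro p
    by_cases hp : p ∈ B
    · have hp' : ((p.1 : G), (p.2 : G)) ∈ A := hp
      rw [if_pos hp, if_pos hp']
      have hmem : (p.1 : G) * (p.2 : G) ∈ H := H.mul_mem p.1.2 p.2.2
      rw [extendByZero_of_mem H φ hmem]
      rfl
    · have hp' : ((p.1 : G), (p.2 : G)) ∉ A := hp
      rw [if_neg hp, if_neg hp']

end Cfsg.Agent.S0849
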