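import Cfsg.Statements.S0851
import Cfsg.Agent.Lib.CharDeep.TIFNRel
import Cfsg.Agent.Lib.Coh.EqualDeg

set_option autoImplicit false
open Cfsg

namespace Cfsg.Agent.S0851

open Cfsg.Agent.Lib.CharDeep.TIFNRel Cfsg.Agent.Lib.CharDeep.FrobRelevant Cfsg.Agent.Lib.Coh.FrobDeg
  Cfsg.Agent.Lib.Coh.Basic Cfsg.Agent.Lib.Char.GenLattice Cfsg.Agent.Lib.Char.Ortho
  Cfsg.Agent.Lib.Char.Induced Cfsg.Agent.Lib.Char.Basic Cfsg.Agent.Lib.Char.Degree
  Cfsg.Agent.Lib.Char.IndSpan Cfsg.Agent.Lib.Char.Linear Cfsg.Agent.Lib.Char.Complete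

/-- Let K be a subgroup of the finite group G that meets each conjugate by an element outside its normalizer N trivially, is properly contained in N, and contains the centralizer of each of its non-identity elements (a T.I. subgroup with Frobenius normalizer). Suppose K is abelian, let e be the index of K in N, and call an irreducible character of N relevant when it takes at some element of K a value different from its degree. Then either there is exactly one relevant character and K is an elementary abelian p-group of order e + 1 for some prime p, or there are a sign ε and an injective map f from the relevant characters to the irreducible characters of G such that inducing χ - ξ to G gives ε (f χ - f ξ) for all relevant χ and ξ. -/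
theorem result {G : Type*} [Group G] [Fintype G] (K : Subgroup G) (hTI : ∀ g : G, g ∉ Subgroup.normalizer (K : Set G) → ∀ k ∈ K, g * k * g⁻¹ ∈ K → k = 1) (hlt : K < Subgroup.normalizer (K : Set G)) (hC : ∀ k ∈ K, k ≠ 1 → Subgroup.centralizer ({k} : Set G) ≤ K) (hab : ∀ a ∈ K, ∀ b ∈ K, a * b = b * a) : (Nat.card {χ : Cfsg.IrrCharacter (Subgroup.normalizer (K : Set G)) // ∃ k : Subgroup.normalizer (K : Set G), (k : G) ∈ K ∧ (χ : ↥(Subgroup.normalizer (K : Set G)) → ℂ) k ≠ (χ : ↥(Subgroup.normalizer (K : Set G)) → ℂ) 1} = 1 ∧ ∃ p : ℕ, p.Prime ∧ Cfsg.IsElementaryAbelian p K ∧ Nat.card K = (K.subgroupOf (Subgroup.normalizer (K : Set G))).index + 1) ∨ ∃ (ε : ℂ) (f : {χ : Cfsg.IrrCharacter (Subgroup.normalizer (K : Set G)) // ∃ k : Subgroup.normalizer (K : Set G), (k : G) ∈ K ∧ (χ : ↥(Subgroup.normalizer (K : Set G)) → ℂ) k ≠ (χ : ↥(Subgroup.normalizer (K : Set G)) → ℂ) 1} → Cfsg.IrrCharacter G), (ε = 1 ∨ ε = -1) ∧ Function.Injective f ∧ ∀ χ ξ,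 Cfsg.indFun (Subgroup.normalizer (K : Set G)) ((χ.1 : ↥(Subgroup.normalizer (K : Set G)) → ℂ) - (ξ.1 : ↥(Subgroup.normalizer (K : Set G)) → ℂ)) = ε • ((f χ : G → ℂ) - (f ξ : G → ℂ)) := by
  classical
  right
  letI : Fintype ↥(Subgroup.normalizer (K : Set G)) := Fintype.ofFinite _
  have hN := normal_H (K := K)
  have hC' := centralizer_H hC
  set H := K.subgroupOf (Subgroup.normalizer (K : Set G)) with hHdef
  have hmem : ∀ χ : {χ : Cfsg.IrrCharacter (Subgroup.normalizer (K : Set G)) // ∃ k : Subgroup.normalizer (K : Set G), (k : G) ∈ K ∧ (χ : ↥(Subgroup.normalizer (K : Set G)) → ℂ) k ≠ (χ : ↥(Subgroup.normalizer (K : Set G)) → ℂ) 1},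
      (χ.1 : ↥(Subgroup.normalizer (K : Set G)) → ℂ) ∈ nontrivOn H :=
    fun χ => mem_nontrivOn_iff.mpr ⟨χ.1.2, χ.2⟩
  by_cases htwo : ∃ a ∈ nontrivOn H, ∃ b ∈ nontrivOn H, a ≠ b
  · -- equal degrees
    have hdeg0 : ∀ φ ∈ nontrivOn H, φ 1 = (H.index : ℂ) := by
      intro φ hφ
      obtain ⟨θ, hθ, -, rfl⟩ := exists_ind hN hC' hφ
      have hHab : ∀ a b : H, a * b = b * a := by
        intro a b
        apply Subtype.ext
        apply Subtype.ext
        have ha : ((a : ↥(Subgroup.normalizer (K : Set G))) : G) ∈ K := Subgroup.mem_subgroupOf.mp a.2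
        have hb : ((b : ↥(Subgroup.normalizer (K : Set G))) : G) ∈ K := Subgroup.mem_subgroupOf.mp b.2
        exact hab _ ha _ hb
      rw [indFun_one, isIrr_deg_one_of_comm hHab hθ, mul_one]
    have hirr : ∀ ξ ∈ (↑(nontrivOn H) : Set (↥(Subgroup.normalizer (K : Set G)) → ℂ)),
        Cfsg.IsIrrCharacter _ ξ := fun ξ hξ => (mem_nontrivOn.mp hξ).1
    have hτ : Cfsg.IsLinearIsometryOn (Cfsg.zspanOn (↑(nontrivOn H) : Set (↥(Subgroup.normalizer (K : Set G)) → ℂ)) {1}ᶜ)
        (Cfsg.indFun (Subgroup.normalizer (K : Set G))) := by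
      refine ⟨fun α _ β _ => indFun_add _ α β, fun α _ n => ?_, fun α hα β hβ => ?_, fun α hα => ?_⟩
      · rw [← Int.cast_smul_eq_zsmul ℂ, indFun_smul, Int.cast_smul_eq_zsmul]
      · exact inner_indFun hTI hC hα hβ.1
      · exact isGenChar_indFun _ (zspan_genChar hα.1)
    have hτ1 : ∀ α ∈ Cfsg.zspanOn (↑(nontrivOn H) : Set (↥(Subgroup.normalizer (K : Set G)) → ℂ)) {1}ᶜ,
        Cfsg.indFun (Subgroup.normalizer (K : Set G)) α 1 = 0 := by
      intro α hα
      rw [indFun_one, (mem_zspanOn_compl_one.mp hα).2, mul_zero]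
    obtain ⟨-, τ₁, hτ₁, hext⟩ := Cfsg.Agent.Lib.Coh.EqualDeg.coherent_of_equal_degree _ hirr
      (fun φ hφ ψ hψ => by rw [hdeg0 φ hφ, hdeg0 ψ hψ]) htwo _ hτ hτ1
    have hτ₁' : Cfsg.IsLinearIsometryOn ((zspanS (↑(nontrivOn H) :
      Set (↥(Subgroup.normalizer (K : Set G)) → ℂ)) :
        Submodule ℤ (↥(Subgroup.normalizer (K : Set G)) → ℂ)) :
      Set (↥(Subgroup.normalizer (K : Set G)) → ℂ)) τ₁ := hτ₁
    obtain ⟨χ₀, hχ₀, -, -, -⟩ := htwo
    have hnormS : ∀ ξ ∈ nontrivOn H, Cfsg.classInner (τ₁ ξ) (τ₁ ξ) = 1 := by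
      intro ξ hξ
      rw [iso_inner hτ₁ (subset_zspan hξ) (subset_zspan hξ),
        classInner_self_of_isIrr (mem_nontrivOn.mp hξ).1]
    have hvirt : ∀ ξ ∈ nontrivOn H, Cfsg.IsGeneralizedCharacter G (τ₁ ξ) := fun ξ hξ =>
      iso_virtual hτ₁ (subset_zspan hξ)
    -- the differences
    have hdiff : ∀ ξ ∈ nontrivOn H, ∀ ζ ∈ nontrivOn H,
        Cfsg.indFun (Subgroup.normalizer (K : Set G)) (ξ - ζ) = τ₁ ξ - τ₁ ζ := by
      intro ξ hξ ζ hζ
      rw [← iso_sub hτ₁' (subset_zspan hξ) (subset_zspan hζ)]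
      refine (hext _ (mem_zspanOn_compl_one.mpr ⟨Submodule.sub_mem _ (subset_zspan hξ)
        (subset_zspan hζ), ?_⟩)).symm
      rw [Pi.sub_apply, hdeg0 ξ hξ, hdeg0 ζ hζ, sub_self]
    have hone : ∀ ξ ∈ nontrivOn H, τ₁ ξ 1 = τ₁ χ₀ 1 := by
      intro ξ hξ
      have h1 := congrFun (hdiff ξ hξ χ₀ hχ₀) 1
      rw [Pi.sub_apply, indFun_one, Pi.sub_apply, hdeg0 ξ hξ, hdeg0 χ₀ hχ₀, sub_self, mul_zero] at h1
      exact (sub_eq_zero.mp h1.symm)
    obtain ⟨ε, hε, hε0⟩ : ∃ ε : ℂ, (ε = 1 ∨ ε = -1) ∧ Cfsg.IsIrrCharacter G (ε • τ₁ χ₀) := by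
      rcases norm_one (hvirt χ₀ hχ₀) (hnormS χ₀ hχ₀) with h | h
      · exact ⟨1, Or.inl rfl, by simpa using h⟩
      · exact ⟨-1, Or.inr rfl, by simpa using h⟩
    have hpos : ∀ {θ : G → ℂ}, Cfsg.IsIrrCharacter G θ → ∃ n : ℕ, 0 < n ∧ θ 1 = n := by
      intro θ hθ
      exact ⟨charDegree θ, charDegree_pos hθ, (charDegree_natCast (isCharacter_of_isIrrCharacter hθ)).symm⟩
    have hεsq : ε * ε = 1 := by
      rcases hε with rfl | rfl <;> norm_num
    have hεne : ε ≠ 0 := by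
      rcases hε with rfl | rfl <;> norm_num
    have hall : ∀ ξ ∈ nontrivOn H, Cfsg.IsIrrCharacter G (ε • τ₁ ξ) := by
      intro ξ hξ
      obtain ⟨n, hn, hn1⟩ := hpos hε0
      have hv : (ε • τ₁ ξ) 1 = (n : ℂ) := by
        rw [Pi.smul_apply, hone ξ hξ]
        exact hn1
      rcases norm_one (hvirt ξ hξ) (hnormS ξ hξ) with h | h
      · rcases hε with rfl | rfl
        · simpa using h
        · exfalso
          obtain ⟨m, hm, hm1⟩ := hpos h
          simp only [Pi.smul_apply, smul_eq_mul, neg_mul, one_mul] at hv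
          rw [hm1] at hv
          have h2 : ((m + n : ℕ) : ℂ) = 0 := by
            push_cast
            linear_combination -hv
          have h3 : m + n = 0 := by exact_mod_cast h2
          omega
      · rcases hε with rfl | rfl
        · exfalso
          obtain ⟨m, hm, hm1⟩ := hpos h
          simp only [Pi.smul_apply, smul_eq_mul, one_mul] at hv
          rw [Pi.neg_apply, hv] at hm1
          have h2 : ((m + n : ℕ) : ℂ) = 0 := by
            push_cast
            linear_combination -hm1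
          have h3 : m + n = 0 := by exact_mod_cast h2
          omega
        · simpa using h
    refine ⟨ε, fun χ => ⟨ε • τ₁ χ.1.1, hall _ (hmem χ)⟩, hε, ?_, fun χ ξ => ?_⟩
    · intro χ ξ hf
      have h1 : ε • τ₁ χ.1.1 = ε • τ₁ ξ.1.1 := congrArg Subtype.val hf
      have h2 : τ₁ χ.1.1 = τ₁ ξ.1.1 := smul_right_injective _ hεne h1
      have h3 := iso_inner hτ₁ (subset_zspan (hmem χ)) (subset_zspan (hmem ξ))
      rw [← h2, hnormS _ (hmem χ), classInner_irr χ.1.2 ξ.1.2] at h3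
      by_contra hne
      have h4 : (χ.1 : ↥(Subgroup.normalizer (K : Set G)) → ℂ) ≠ ξ.1 := fun h =>
        hne (Subtype.ext (Subtype.ext h))
      rw [if_neg h4] at h3
      exact one_ne_zero h3
    · rw [hdiff _ (hmem χ) _ (hmem ξ)]
      funext g
      simp only [Pi.sub_apply, Pi.smul_apply, smul_eq_mul]
      linear_combination (-(τ₁ χ.1.1 g) + τ₁ ξ.1.1 g) * hεsq
  · push Not at htwo
    have hirr1 := Cfsg.Agent.Lib.OddChar.FixedClass.isIrr_one_fun G
    refine ⟨1, fun _ => ⟨_, hirr1⟩, Or.inl rfl, ?_, fun χ ξ => ?_⟩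
    · intro χ ξ _
      exact Subtype.ext (Subtype.ext (htwo _ (hmem χ) _ (hmem ξ)))
    · rw [htwo _ (hmem χ) _ (hmem ξ), sub_self, indFun_zero]
      simp

end Cfsg.Agent.S0851
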