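import Cfsg.Statements.S0852
import Cfsg.Agent.Lib.CharDeep.TIFNRel

set_option autoImplicit false
open Cfsg

namespace Cfsg.Agent.S0852

open Cfsg.Agent.Lib.CharDeep.TIFNRel Cfsg.Agent.Lib.CharDeep.FrobRelevant Cfsg.Agent.Lib.Coh.FrobDeg
  Cfsg.Agent.Lib.Coh.Basic Cfsg.Agent.Lib.Char.GenLattice Cfsg.Agent.Lib.Char.Ortho

/-- Let K be a subgroup of the finite group G that meets each conjugate by an element outside its normalizer N trivially, is properly contained in N, and contains the centralizer of each of its non-identity elements (a T.I. subgroup with Frobenius normalizer). Let S be the set of irreducible characters of N taking at some element of K a value different from their degree, suppose S has at least two members, and let star be a linear isometry on the integer span of S into the generalized characters of G that agrees with induction on the members vanishing at the identity (so S is coherent, with star as the extending isometry). Then an irreducible character ψ of G is of the form star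 χ or -star χ for some χ in S if and only if ψ is not constant on the non-identity elements of K. -/
theorem result {G : Type*} [Group G] [Fintype G] (K : Subgroup G) (hTI : ∀ g : G, g ∉ Subgroup.normalizer (K : Set G) → ∀ k ∈ K, g * k * g⁻¹ ∈ K → k = 1) (hlt : K < Subgroup.normalizer (K : Set G)) (hC : ∀ k ∈ K, k ≠ 1 → Subgroup.centralizer ({k} : Set G) ≤ K) [Fintype ↥(Subgroup.normalizer (K : Set G))] (S : Set (↥(Subgroup.normalizer (K : Set G)) → ℂ)) (hS : S = {χ : ↥(Subgroup.normalizer (K : Set G)) → ℂ | Cfsg.IsIrrCharacter ↥(Subgroup.normalizer (K : Set G)) χ ∧ ∃ k : ↥(Subgroup.normalizer (K : Set G)), (k : G) ∈ K ∧ χ k ≠ χ 1}) (htwo : ∃ χ ∈ S, ∃ ξ ∈ S, χ ≠ ξ) (star : (↥(Subgroup.normalizer (K : Set G)) → ℂ) → (G → ℂ)) (hstar : Cfsg.IsLinearIsometryOn (Cfsg.zspan S) star) (hext : ∀ α ∈ Cfsg.zspanOn S ({1}ᶜ : Set ↥(Subgroup.normalizer (K : Set G))), star α = Cfsg.indFun (Subgroup.normalizer (K : Set G)) α) (ψ : G → ℂ) (hψ : Cfsg.IsIrrCharacter G ψ) : (∃ χ ∈ S, ψ = star χ ∨ ψ = -star χ) ↔ ∃ a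 ∈ K, ∃ b ∈ K, a ≠ 1 ∧ b ≠ 1 ∧ ψ a ≠ ψ b := by
  classical
  have hS' := set_eq hS
  have hmem : ∀ χ, χ ∈ S ↔ χ ∈ nontrivOn (K.subgroupOf (Subgroup.normalizer (K : Set G))) := by
    intro χ
    rw [hS', Finset.mem_coe]
  rw [hS'] at hstar hext
  have hN := normal_H (K := K)
  have hC' := centralizer_H hC
  obtain ⟨χ₁, hχ₁, χ₂, hχ₂, h12⟩ := htwo
  rw [hmem] at hχ₁ hχ₂
  constructor
  · rintro ⟨χ, hχ, h⟩
    rw [hmem] at hχ
    obtain ⟨m, hm⟩ := exists_m hTI hC hstar hext
    obtain ⟨ξ, hξ, hne⟩ : ∃ ξ ∈ nontrivOn (K.subgroupOf (Subgroup.normalizer (K : Set G))), χ ≠ ξ := by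
      by_cases h1 : χ = χ₁
      · exact ⟨χ₂, hχ₂, by rwa [h1]⟩
      · exact ⟨χ₁, hχ₁, h1⟩
    obtain ⟨a, ha, b, hb, ha1, hb1, hab⟩ := nonconst hN hC' hχ hξ hne
    rw [Subgroup.mem_subgroupOf] at ha hb
    refine ⟨a, ha, b, hb, fun h1 => ha1 (Subtype.ext h1), fun h1 => hb1 (Subtype.ext h1), ?_⟩
    have h3 := hm χ hχ a ha ha1
    have h4 := hm χ hχ b hb hb1
    have h5 : star χ a - star χ b = χ a - χ b := by
      linear_combination h3 - h4
    intro h6
    rcases h with h | h
    · rw [h] at h6
      apply hab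
      linear_combination h6 - h5
    · rw [h] at h6
      simp only [Pi.neg_apply, neg_inj] at h6
      apply hab
      linear_combination h6 - h5
  · rintro ⟨a, ha, b, hb, ha1, hb1, hab⟩
    by_contra hno
    push Not at hno
    have horth : ∀ ξ ∈ nontrivOn (K.subgroupOf (Subgroup.normalizer (K : Set G))),
        Cfsg.classInner ψ (star ξ) = 0 := by
      intro ξ hξ
      have hξz : ξ ∈ Cfsg.zspan (↑(nontrivOn (K.subgroupOf (Subgroup.normalizer (K : Set G)))) :
          Set (↥(Subgroup.normalizer (K : Set G)) → ℂ)) := subset_zspan hξ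
      have hnorm : Cfsg.classInner (star ξ) (star ξ) = 1 := by
        rw [iso_inner hstar hξz hξz, classInner_self_of_isIrr (mem_nontrivOn.mp hξ).1]
      obtain ⟨hn1, hn2⟩ := hno ξ ((hmem ξ).mpr hξ)
      rcases norm_one (iso_virtual hstar hξz) hnorm with h | h
      · rw [classInner_irr hψ h, if_neg hn1]
      · have h1 := classInner_irr hψ h
        rw [if_neg hn2, classInner_neg_right] at h1
        exact neg_eq_zero.mp h1
    obtain ⟨c, hc⟩ := const_of_orth_star hC hstar hext (isGenChar_of_isIrr hψ) horth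
    apply hab
    have h1 := hc ⟨a, Subgroup.le_normalizer ha⟩ ha (fun h => ha1 (congrArg Subtype.val h))
    have h2 := hc ⟨b, Subgroup.le_normalizer hb⟩ hb (fun h => hb1 (congrArg Subtype.val h))
    exact h1.trans h2.symm

end Cfsg.Agent.S0852
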