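import Cfsg.Statements.S0855
import Cfsg.Agent.Lib.CharDeep.ThompsonDeg
import Cfsg.Agent.Lib.CharDeg.SmallDegree
import Cfsg.Agent.Lib.Char.Ito
import Cfsg.Agent.Lib.Char.CliffordCorr

set_option autoImplicit false
open Cfsg

namespace Cfsg.Agent.S0855

open Cfsg.Agent.Lib.Char.Basic Cfsg.Agent.Lib.Char.Ortho Cfsg.Agent.Lib.Char.Complete
open Cfsg.Agent.Lib.Char.Linear Cfsg.Agent.Lib.Char.Degree Cfsg.Agent.Lib.Char.CliffordCorr
open Cfsg.Agent.Lib.CharDeep.ThompsonDeg

/-- For a finite group G and a prime p: every irreducible character of G has degree a power of p if and only if G has an abelian normal subgroup whose order is prime to p and whose index is a power of p. -/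
theorem result {G : Type*} [Group G] [Finite G] (p : ℕ) (hp : p.Prime) : (∀ χ : Cfsg.IrrCharacter G, ∃ k : ℕ, (χ : G → ℂ) 1 = (p : ℂ) ^ k) ↔ ∃ A : Subgroup G, A.Normal ∧ (∀ a ∈ A, ∀ b ∈ A, a * b = b * a) ∧ Nat.Coprime (Nat.card A) p ∧ ∃ k : ℕ, A.index = p ^ k := by
  classical
  haveI : Fact p.Prime := ⟨hp⟩
  let _ : Fintype G := Fintype.ofFinite G
  constructor
  · intro h
    have hdegp : ∀ χ : IrrCharacter G, ∃ k : ℕ, charDegree (χ : G → ℂ) = p ^ k := by
      intro χ
      obtain ⟨k, hk⟩ := h χ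
      refine ⟨k, charDegree_eq_of_eq_natCast (by rw [hk]; push_cast; rfl)⟩
    obtain ⟨L, hLn, hLidx, hLc⟩ := exists_normal_complement (p := p) (G := G) (by
      intro χ
      obtain ⟨k, hk⟩ := hdegp χ
      rcases Nat.eq_zero_or_pos k with rfl | hpos
      · left
        rw [← charDegree_natCast (isCharacter_of_isIrrCharacter χ.2), hk]
        simp
      · right
        rw [hk]
        exact dvd_pow_self p hpos.ne')
    refine ⟨L, hLn, ?_, (Nat.Prime.coprime_iff_not_dvd hp).mpr hLc |>.symm, hLidx⟩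
    let _ : Fintype L := Fintype.ofFinite L
    have hall : ∀ θ : IrrCharacter L, (θ : L → ℂ) 1 = 1 := by
      intro θ
      obtain ⟨χ, hχ, hcon⟩ := Cfsg.Agent.Lib.CharDeg.SmallDegree.exists_irr_constituent_restrict L θ.2
      have h1 := deg_eq_of_constituent hLn hχ θ.2 hcon
      obtain ⟨m, hm⟩ := exists_nat_classInner
        (isCharacter_restrict L (isCharacter_of_isIrrCharacter hχ))
        (isCharacter_of_isIrrCharacter θ.2)
      obtain ⟨k, hk⟩ := hdegp ⟨χ, hχ⟩
      simp only at hk
      have hθc := isCharacter_of_isIrrCharacter θ.2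
      have h2 : charDegree χ = m * (inertia hLn (θ : L → ℂ)).index * charDegree (θ : L → ℂ) := by
        have h3 : ((charDegree χ : ℕ) : ℂ) =
            ((m * (inertia hLn (θ : L → ℂ)).index * charDegree (θ : L → ℂ) : ℕ) : ℂ) := by
          push_cast
          rw [charDegree_natCast (isCharacter_of_isIrrCharacter hχ), h1, hm,
            charDegree_natCast hθc]
        exact_mod_cast h3
      have hdvd1 : charDegree (θ : L → ℂ) ∣ p ^ k := by
        rw [← hk, h2]
        exact Dvd.intro_left _ rfl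
      have hdvd2 : charDegree (θ : L → ℂ) ∣ Nat.card L := charDegree_dvd_card θ.2
      have hcop : Nat.Coprime (Nat.card L) (p ^ k) :=
        Nat.Coprime.pow_right k ((Nat.Prime.coprime_iff_not_dvd hp).mpr hLc).symm
      have h4 : charDegree (θ : L → ℂ) = 1 := Nat.eq_one_of_dvd_coprimes hcop hdvd2 hdvd1
      rw [← charDegree_natCast hθc, h4]
      simp
    have hcomm := comm_iff_all_deg_one.mpr hall
    intro a ha b hb
    have := hcomm ⟨a, ha⟩ ⟨b, hb⟩
    exact congrArg Subtype.val this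
  · rintro ⟨A, hAn, hab, -, k, hk⟩ ⟨χ, hχ⟩
    obtain ⟨n, ρ, hρ, rfl⟩ := hχ
    haveI : ρ.IsIrreducible := hρ
    have hdvd := Cfsg.Agent.Lib.Char.Ito.finrank_dvd_index_of_abelian_normal ρ A hab
    rw [hk] at hdvd
    obtain ⟨j, -, hj⟩ := (Nat.dvd_prime_pow hp).mp hdvd
    refine ⟨j, ?_⟩
    simp only [Representation.character, map_one, LinearMap.trace_one]
    rw [hj]
    push_cast
    rfl

end Cfsg.Agent.S0855
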