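import Cfsg.Statements.S0859
import Cfsg.Agent.Lib.Char.AbSylow

set_option autoImplicit false
open Cfsg

namespace Cfsg.Agent.S0859

/-- Let G be a finite solvable group and N a normal subgroup such that for every prime p every Sylow p-subgroup of N is abelian. Suppose every irreducible character of G is induced from an irreducible character of some subgroup containing N whose restriction to N is irreducible. Then every irreducible character of G is induced from a character of degree 1 of some subgroup. -/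
theorem result {G : Type*} [Group G] [Fintype G] [Group.IsSolvable G] (N : Subgroup G) [N.Normal] (hab : ∀ (p : ℕ) [Fact p.Prime] (P : Sylow p N), ∀ a ∈ P, ∀ b ∈ P, a * b = b * a) (hrel : ∀ χ : G → ℂ, Cfsg.IsIrrCharacter G χ → ∃ (H : Subgroup G) (hNH : N ≤ H) (ψ : H → ℂ), Cfsg.IsIrrCharacter H ψ ∧ Cfsg.indFun H ψ = χ ∧ Cfsg.IsIrrCharacter N (fun n : N => ψ ⟨(n : G), hNH n.2⟩)) (χ : G → ℂ) (hχ : Cfsg.IsIrrCharacter G χ) : ∃ (U : Subgroup G) (lam : U → ℂ), Cfsg.IsCharacter U lam ∧ lam 1 = 1 ∧ Cfsg.indFun U lam = χ := by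
  obtain ⟨U, lam, h⟩ := Cfsg.Agent.Lib.Char.AbSylow.exists_linear_of_relative inferInstance N inferInstance
    (fun p _ P a ha b hb => hab p P a ha b hb) hrel χ hχ
  refine ⟨U, fun u => (lam u : ℂ), ?_, by simp, h.symm⟩
  exact Cfsg.Agent.Lib.Char.Basic.isCharacter_of_isIrrCharacter
    (Cfsg.Agent.Lib.Char.Linear.isIrrCharacter_of_hom lam)

end Cfsg.Agent.S0859
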