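import Cfsg.Statements.S0860
import Cfsg.Agent.Lib.Char.BrauerPerm

set_option autoImplicit false
open Cfsg

namespace Cfsg.Agent.S0860

open Cfsg.Agent.Lib.Char.Basic Cfsg.Agent.Lib.Char.Ortho Cfsg.Agent.Lib.Char.Complete
open Cfsg.Agent.Lib.Char.BrauerPerm
open scoped ComplexConjugate

/-- Let a group A act on the set of irreducible characters and on the set of conjugacy classes of a finite group G in such a way that (a • χ) evaluated on the class a • C equals χ evaluated on C, for all a, χ and C. Then every element of A fixes exactly as many irreducible characters as it fixes conjugacy classes. -/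
theorem result {G : Type*} [Group G] [Finite G] {A : Type*} [Group A] [MulAction A (Cfsg.IrrCharacter G)] [MulAction A (ConjClasses G)] (hcompat : ∀ (a : A) (χ : Cfsg.IrrCharacter G) (g g' : G), ConjClasses.mk g' = a • ConjClasses.mk g → ((a • χ : Cfsg.IrrCharacter G) : G → ℂ) g' = (χ : G → ℂ) g) (a : A) : Nat.card {χ : Cfsg.IrrCharacter G // a • χ = χ} = Nat.card {C : ConjClasses G // a • C = C} := by
  classical
  let : Fintype G := Fintype.ofFinite G
  have := finite_irrCharacter (G := G)
  let := Fintype.ofFinite (IrrCharacter G)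
  let : Fintype (ConjClasses G) := Fintype.ofFinite _
  -- a representative of the class `a⁻¹ • mk g`
  have hτ : ∀ g : G, ∃ t : G, ConjClasses.mk t = a⁻¹ • ConjClasses.mk g := fun g =>
    ConjClasses.mk_surjective _
  choose τ hτ using hτ
  have hval : ∀ (χ : IrrCharacter G) (g : G), ((a • χ : IrrCharacter G) : G → ℂ) g = (χ : G → ℂ) (τ g) := by
    intro χ g
    apply hcompat a χ (τ g) g
    rw [hτ, smul_inv_smul]
  have h1 : ∀ χ : IrrCharacter G, classInner ((a • χ : IrrCharacter G) : G → ℂ) (χ : G → ℂ) =
      if a • χ = χ then 1 else 0 := by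
    intro χ
    rw [classInner_irr (a • χ).2 χ.2]
    by_cases h : a • χ = χ
    · simp [h]
    · rw [if_neg h, if_neg]
      intro h'
      exact h (Subtype.ext h')
  have h2 : ((Nat.card {χ : IrrCharacter G // a • χ = χ} : ℕ) : ℂ) =
      ∑ χ : IrrCharacter G, classInner ((a • χ : IrrCharacter G) : G → ℂ) (χ : G → ℂ) := by
    simp only [h1]
    rw [Finset.sum_boole, Nat.card_eq_fintype_card, Fintype.card_subtype]
  have h3 : ∑ χ : IrrCharacter G, classInner ((a • χ : IrrCharacter G) : G → ℂ) (χ : G → ℂ) =
      (Nat.card G : ℂ)⁻¹ * ∑ g : G, ∑ χ : IrrCharacter G,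
        (χ : G → ℂ) (τ g) * conj ((χ : G → ℂ) g) := by
    simp only [classInner, hval]
    rw [← Finset.mul_sum, Finset.sum_comm]
  have h4 : ∀ g : G, ∑ χ : IrrCharacter G, (χ : G → ℂ) (τ g) * conj ((χ : G → ℂ) g) =
      (if a • ConjClasses.mk g = ConjClasses.mk g then 1 else 0) *
        (Nat.card (Subgroup.centralizer ({g} : Set G)) : ℂ) := by
    intro g
    rw [sum_irr_mul_conj]
    have hiff : IsConj (τ g) g ↔ a • ConjClasses.mk g = ConjClasses.mk g := by
      rw [← ConjClasses.mk_eq_mk_iff_isConj, hτ, inv_smul_eq_iff]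
      exact eq_comm
    by_cases hc : IsConj (τ g) g
    · rw [if_pos hc, if_pos (hiff.mp hc), one_mul]
    · rw [if_neg hc, if_neg (fun h => hc (hiff.mpr h)), zero_mul]
  simp only [h4] at h3
  rw [h3] at h2
  rw [sum_class_mul_card_centralizer
    (fun K => if a • K = K then (1 : ℂ) else 0)] at h2
  rw [← mul_assoc, inv_mul_cancel₀ card_ne_zero_complex, one_mul, Finset.sum_boole] at h2
  have h5 : Nat.card {C : ConjClasses G // a • C = C} =
      (Finset.univ.filter (fun K : ConjClasses G => a • K = K)).card := by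
    rw [Nat.card_eq_fintype_card, Fintype.card_subtype]
  rw [h5]
  exact_mod_cast h2

end Cfsg.Agent.S0860
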