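import Cfsg.Statements.S0861
import Cfsg.Agent.Lib.CharDeep.PElt
import Cfsg.Agent.Lib.CharZeros.Amgm
import Cfsg.Agent.Lib.Char.Ito
import Cfsg.Agent.Lib.Char.Linear

set_option autoImplicit false
open Cfsg

namespace Cfsg.Agent.S0861

open Cfsg.Agent.Lib.Char.Basic Cfsg.Agent.Lib.Char.Ortho Cfsg.Agent.Lib.Char.Complete
open Cfsg.Agent.Lib.Char.Linear
open Cfsg.Agent.Lib.CharDeep.PElt Cfsg.Agent.Lib.CharZeros.Amgm
open scoped ComplexConjugate commutatorElement
open Module

/-- Let P be a normal abelian Sylow p-subgroup of the finite group G and suppose some element g of P has centralizer exactly P. Then the number of irreducible characters of G is at most the order of P, and if equality holds then G / P is abelian (the commutator subgroup lies in P). -/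
theorem result {G : Type*} [Group G] [Finite G] (p : ℕ) [Fact p.Prime] (P : Sylow p G) [(P : Subgroup G).Normal] (hab : ∀ a ∈ P, ∀ b ∈ P, a * b = b * a) (g : G) (hg : g ∈ P) (hC : Subgroup.centralizer ({g} : Set G) = P) : Nat.card (Cfsg.IrrCharacter G) ≤ Nat.card P ∧ (Nat.card (Cfsg.IrrCharacter G) = Nat.card P → commutator G ≤ P) := by
  classical
  have hpp : p.Prime := Fact.out
  let _ : Fintype G := Fintype.ofFinite G
  have := finite_irrCharacter (G := G)
  let _ : Fintype (IrrCharacter G) := Fintype.ofFinite _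
  -- the Galois stable set
  set A : Finset G := Finset.univ.filter (fun h => ∃ k : ℕ, k.Coprime (Nat.card G) ∧ h = g ^ k) with hA
  have hgA : g ∈ A := Finset.mem_filter.mpr ⟨Finset.mem_univ _, 1, by simp, by simp⟩
  have hApos : 0 < A.card := Finset.card_pos.mpr ⟨g, hgA⟩
  have hstable : ∀ k : ℕ, k.Coprime (Nat.card G) → ∀ h ∈ A, h ^ k ∈ A := by
    intro k hk h hh
    obtain ⟨m, hm, rfl⟩ := (Finset.mem_filter.mp hh).2
    refine Finset.mem_filter.mpr ⟨Finset.mem_univ _, m * k, Nat.Coprime.mul_left hm hk, ?_⟩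
    rw [pow_mul]
  have hAP : ∀ h ∈ A, h ∈ (P : Subgroup G) := by
    intro h hh
    obtain ⟨m, -, rfl⟩ := (Finset.mem_filter.mp hh).2
    exact Subgroup.pow_mem _ hg _
  -- centralizers
  have hAC : ∀ h ∈ A, Subgroup.centralizer ({h} : Set G) = P := by
    intro h hh
    obtain ⟨m, hm, rfl⟩ := (Finset.mem_filter.mp hh).2
    rw [← hC]
    apply le_antisymm
    · intro x hx
      rw [Subgroup.mem_centralizer_singleton_iff] at hx ⊢
      -- `g` is a power of `g ^ m`
      have hm' : (Nat.card G).Coprime m := hm.symm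
      have h1 : (powCoprime hm').symm (g ^ m) = g := (powCoprime hm').symm_apply_apply g
      rw [powCoprime_symm_apply] at h1
      rw [← h1]
      have hcomm : Commute x (g ^ m) := hx
      exact (hcomm.zpow_right _)
    · intro x hx
      rw [Subgroup.mem_centralizer_singleton_iff] at hx ⊢
      have hcomm : Commute x g := hx
      exact hcomm.pow_right m
  -- the sum over the irreducible characters
  have hcol : ∀ h ∈ A, ∑ χ : IrrCharacter G, ‖(χ : G → ℂ) h‖ ^ 2 = (Nat.card P : ℝ) := by
    intro h hh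
    have h1 := sum_irr_mul_conj (G := G) h h
    rw [if_pos (IsConj.refl h), hAC h hh] at h1
    have h2 : ∀ χ : IrrCharacter G, (χ : G → ℂ) h * conj ((χ : G → ℂ) h) =
        ((‖(χ : G → ℂ) h‖ ^ 2 : ℝ) : ℂ) := by
      intro χ
      rw [Complex.mul_conj, Complex.normSq_eq_norm_sq]
    simp only [h2] at h1
    rw [← Complex.ofReal_sum] at h1
    have h3 : ((Nat.card (P : Subgroup G) : ℕ) : ℂ) = ((Nat.card (P : Subgroup G) : ℝ) : ℂ) := by
      push_cast; rfl
    rw [h3] at h1
    exact Complex.ofReal_injective h1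
  -- nonvanishing
  have hne : ∀ χ : IrrCharacter G, ∀ h ∈ A, (χ : G → ℂ) h ≠ 0 := by
    rintro ⟨χ, hχ⟩ h hh
    obtain ⟨n, ρ, hρ, rfl⟩ := hχ
    haveI : ρ.IsIrreducible := hρ
    have hdvd := Cfsg.Agent.Lib.Char.Ito.finrank_dvd_index_of_abelian_normal ρ (P : Subgroup G) hab
    have hnd : ¬ p ∣ finrank ℂ (Fin n → ℂ) := fun hd => P.not_dvd_index (hd.trans hdvd)
    obtain ⟨a, ha⟩ := IsPGroup.iff_card.mp P.isPGroup'
    have hpow : h ^ p ^ a = 1 := by
      have h1 : (⟨h, hAP h hh⟩ : (P : Subgroup G)) ^ Nat.card (P : Subgroup G) = 1 := pow_card_eq_one'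
      rw [ha] at h1
      exact congrArg Subtype.val h1
    exact character_ne_zero ρ hpp a hpow hnd
  -- the inequality for one character
  have hone : ∀ χ : IrrCharacter G, (A.card : ℝ) ≤ ∑ h ∈ A, ‖(χ : G → ℂ) h‖ ^ 2 := by
    intro χ
    have h1 := card_filter_le_sum_norm_sq (isCharacter_of_isIrrCharacter χ.2) A hstable
    rwa [Finset.filter_true_of_mem (fun h hh => hne χ h hh)] at h1
  have hdouble : ∑ χ : IrrCharacter G, ∑ h ∈ A, ‖(χ : G → ℂ) h‖ ^ 2 =
      (A.card : ℝ) * (Nat.card P : ℝ) := by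
    rw [Finset.sum_comm, Finset.sum_congr rfl hcol]
    simp
  have hcardIrr : (Finset.univ : Finset (IrrCharacter G)).card = Nat.card (IrrCharacter G) := by
    rw [Finset.card_univ, Nat.card_eq_fintype_card]
  have hsumle : (Nat.card (IrrCharacter G) : ℝ) * (A.card : ℝ) ≤ (A.card : ℝ) * (Nat.card P : ℝ) := by
    rw [← hdouble, ← hcardIrr, ← nsmul_eq_mul, ← Finset.sum_const]
    exact Finset.sum_le_sum fun χ _ => hone χ
  have hApos' : (0 : ℝ) < A.card := by exact_mod_cast hApos
  constructor
  · have h1 : (Nat.card (IrrCharacter G) : ℝ) ≤ (Nat.card P : ℝ) := by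
      rw [mul_comm] at hsumle
      exact le_of_mul_le_mul_left hsumle hApos'
    exact_mod_cast h1
  · intro heq
    have heq' : (Nat.card (IrrCharacter G) : ℝ) = (Nat.card P : ℝ) := by exact_mod_cast heq
    -- each of the inequalities is an equality
    have hzero : ∑ χ : IrrCharacter G, (∑ h ∈ A, ‖(χ : G → ℂ) h‖ ^ 2 - (A.card : ℝ)) = 0 := by
      rw [Finset.sum_sub_distrib, hdouble, Finset.sum_const, hcardIrr, nsmul_eq_mul, heq']
      ring
    have heach := (Finset.sum_eq_zero_iff_of_nonneg (fun χ _ => sub_nonneg.mpr (hone χ))).mp hzero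
    -- `G / P` is abelian
    have hcomm : ∀ a b : G ⧸ (P : Subgroup G), a * b = b * a := by
      rw [comm_iff_all_deg_one]
      rintro ⟨φ, hφ⟩
      have h1 : IsIrrCharacter G (φ ∘ QuotientGroup.mk' (P : Subgroup G)) :=
        Cfsg.Agent.Lib.Char.Linear.isIrrCharacter_comp _ (QuotientGroup.mk'_surjective _) hφ
      have h2 := heach ⟨_, h1⟩ (Finset.mem_univ _)
      have h3 : ∀ h ∈ A, (φ ∘ QuotientGroup.mk' (P : Subgroup G)) h = φ 1 := by
        intro h hh
        simp only [Function.comp]
        have : QuotientGroup.mk' (P : Subgroup G) h = 1 := by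
          simpa using hAP h hh
        rw [this]
      simp only at h2
      rw [Finset.sum_congr rfl (fun h hh => by rw [h3 h hh]), Finset.sum_const, nsmul_eq_mul,
        sub_eq_zero] at h2
      have h4 : ‖φ 1‖ ^ 2 = 1 := by
        have := mul_left_cancel₀ hApos'.ne' (h2.trans (mul_one _).symm)
        exact this
      obtain ⟨m, hm, hm'⟩ := exists_pos_deg_of_isIrr hφ
      change φ 1 = 1
      rw [hm'] at h4 ⊢
      simp only [Complex.norm_natCast] at h4
      have h5 : ((m : ℝ)) = 1 := by
        nlinarith [(Nat.cast_pos (α := ℝ)).mpr hm, sq_nonneg ((m : ℝ) - 1)]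
      have h6 : m = 1 := by exact_mod_cast h5
      rw [h6]
      simp
    rw [commutator_def, Subgroup.commutator_le]
    intro a _ b _
    have h1 := hcomm (a : G ⧸ (P : Subgroup G)) (b : G ⧸ (P : Subgroup G))
    have h2 : ((a * b : G) : G ⧸ (P : Subgroup G)) = ((b * a : G) : G ⧸ (P : Subgroup G)) := h1
    have h3 := QuotientGroup.eq.mp h2
    have h4 : (b * a)⁻¹ * (a * b) ∈ (P : Subgroup G) := by
      have := (P : Subgroup G).inv_mem h3
      simpa using this
    have h5 := (inferInstance : (P : Subgroup G).Normal).conj_mem _ h3 (b * a)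
    have h6 : (b * a) * ((a * b)⁻¹ * (b * a)) * (b * a)⁻¹ = (b * a) * (a * b)⁻¹ := by group
    rw [h6] at h5
    have h7 : ⁅a, b⁆ = (a * b) * (b * a)⁻¹ := by
      rw [commutatorElement_def]; group
    rw [h7]
    have h8 := (P : Subgroup G).inv_mem h5
    simpa using h8

end Cfsg.Agent.S0861
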