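import Cfsg.Statements.S0864
import Cfsg.Agent.Lib.CharDeep.LinearChar

set_option autoImplicit false
open Cfsg

namespace Cfsg.Agent.S0864

open Cfsg.Agent.Lib.CharDeep.LinearChar

/-- Let N be a normal subgroup of the finite group G and λ a character of N of degree 1 invariant under conjugation by G. Suppose that for every prime p dividing the order of λ (in the group of functions under pointwise multiplication) there is a subgroup H containing N, of index prime to p and with the index of N in H a power of p, together with a character of H of degree 1 restricting to λ. Then λ is the restriction of a character of G of degree 1. -/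
theorem result {G : Type*} [Group G] [Finite G] (N : Subgroup G) [hN : N.Normal] (lam : N → ℂ) (hlam : Cfsg.IsCharacter N lam ∧ lam 1 = 1) (hinv : ∀ (g : G) (n : N), lam ⟨g * n * g⁻¹, hN.conj_mem (n : G) n.2 g⟩ = lam n) (hsyl : ∀ p : ℕ, p.Prime → p ∣ orderOf lam → ∃ (H : Subgroup G) (hNH : N ≤ H) (ν : H → ℂ), Nat.Coprime H.index p ∧ (∃ k : ℕ, N.relIndex H = p ^ k) ∧ Cfsg.IsCharacter H ν ∧ ν 1 = 1 ∧ ∀ n : N, ν ⟨(n : G), hNH n.2⟩ = lam n) : ∃ μ : G → ℂ, Cfsg.IsCharacter G μ ∧ μ 1 = 1 ∧ ∀ n : N, μ n = lam n := by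
  classical
  let f := toHom hlam.1 hlam.2
  have hfcoe : ∀ n : N, ((f n : ℂˣ) : ℂ) = lam n := fun n => rfl
  -- the subgroup of exponents
  let I : AddSubgroup ℤ :=
    { carrier := {k | ∃ χ : G →* ℂˣ, ∀ n : N, χ n = f n ^ k}
      zero_mem' := ⟨1, fun n => by simp⟩
      add_mem' := by
        rintro a b ⟨χ, hχ⟩ ⟨ψ, hψ⟩
        exact ⟨χ * ψ, fun n => by
          rw [MonoidHom.mul_apply, hχ, hψ, zpow_add]⟩
      neg_mem' := by
        rintro a ⟨χ, hχ⟩
        exact ⟨χ⁻¹, fun n => by
          rw [MonoidHom.inv_apply, hχ, zpow_neg]⟩ }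
  obtain ⟨d, hd⟩ := Int.subgroup_cyclic I
  have hmemI : ∀ k : ℤ, k ∈ I → d ∣ k := by
    intro k hk
    rw [hd, AddSubgroup.mem_closure_singleton] at hk
    obtain ⟨c, rfl⟩ := hk
    exact dvd_mul_left d c
  have hdI : d ∈ I := by rw [hd]; exact AddSubgroup.subset_closure rfl
  set o := orderOf lam with ho
  have hlamo : ∀ n : N, f n ^ o = 1 := by
    intro n
    ext
    have := congrFun (pow_orderOf_eq_one lam) n
    simpa [hfcoe] using this
  have hoI : (o : ℤ) ∈ I := ⟨1, fun n => by
    rw [zpow_natCast, hlamo]; simp⟩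
  have hopos : o ≠ 0 := by
    have h1 : lam ^ Nat.card N = 1 := by
      funext n
      have h2 : f n ^ Nat.card N = 1 := by
        rw [← map_pow, pow_card_eq_one', map_one]
      have h3 := congrArg (fun u : ℂˣ => (u : ℂ)) h2
      simpa [hfcoe] using h3
    intro h0
    have h2 := orderOf_dvd_of_pow_eq_one h1
    rw [← ho, h0] at h2
    exact Nat.card_pos.ne' (Nat.eq_zero_of_zero_dvd h2)
  have hd1 : d.natAbs = 1 := by
    by_contra hne
    obtain ⟨p, hp, hpd⟩ := Nat.exists_prime_and_dvd hne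
    have hpdZ : (p : ℤ) ∣ d := Int.natCast_dvd.mpr hpd
    have hpo : p ∣ o := by
      have := hpdZ.trans (hmemI _ hoI)
      exact Int.natCast_dvd_natCast.mp this
    obtain ⟨H, hNH, ν, hcop, -, hνc, hν1, hνN⟩ := hsyl p hp hpo
    have : H.FiniteIndex := Subgroup.finiteIndex_of_finite_quotient
    have hidx : (H.index : ℤ) ∈ I := by
      refine ⟨(toHom hνc hν1).transfer, fun n => ?_⟩
      rw [zpow_natCast]
      apply transfer_eq_pow_of_normal (toHom hνc hν1) N hNH n.2
      intro g h
      ext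
      show ν ⟨g⁻¹ * n * g, h⟩ = lam n
      have h1 := hνN ⟨g⁻¹ * n * g, by
        have := hN.conj_mem (n : G) n.2 g⁻¹
        simpa using this⟩
      have h2 := hinv g⁻¹ n
      simp only [inv_inv] at h2
      rw [← h2]
      exact h1
    have hpidx : p ∣ H.index :=
      Int.natCast_dvd_natCast.mp (hpdZ.trans (hmemI _ hidx))
    have := Nat.Coprime.eq_one_of_dvd hcop.symm hpidx
    exact hp.one_lt.ne' this
  -- 1 ∈ I
  have h1I : (1 : ℤ) ∈ I := by
    rcases Int.natAbs_eq d with h | h
    · rw [hd1] at h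
      rw [h] at hdI
      simpa using hdI
    · rw [hd1] at h
      rw [h] at hdI
      have := I.neg_mem hdI
      simpa using this
  obtain ⟨χ, hχ⟩ := h1I
  refine ⟨fun x => ((χ x : ℂˣ) : ℂ), isCharacter_of_hom χ, by simp, fun n => ?_⟩
  show ((χ n : ℂˣ) : ℂ) = lam n
  rw [hχ, zpow_one]
  rfl

end Cfsg.Agent.S0864
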