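import Cfsg.Statements.S0868
import Cfsg.Agent.Lib.CharDeep.GallagherExt

set_option autoImplicit false
open Cfsg

namespace Cfsg.Agent.S0868

open Cfsg.Agent.Lib.Char.Basic Cfsg.Agent.Lib.Char.Ortho Cfsg.Agent.Lib.Char.Complete
open Cfsg.Agent.Lib.Char.Linear
open Cfsg.Agent.Lib.CharDeep.GallagherExt
open scoped ComplexConjugate

/-- Let N be a normal subgroup of the finite group G, χ an irreducible character of G whose restriction ϑ to N is irreducible, and ψ an irreducible character of G. Define η on G by η g = (1 / order of N) * Σ over n in N of ψ (n * g) * conj (χ (n * g)). Then: if the restriction of ψ to N has nonzero inner product with ϑ, η is an irreducible character of G; if that inner product is zero, η vanishes identically; and if ψ = χ then η is identically 1. -/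
theorem result {G : Type*} [Group G] [Fintype G] (N : Subgroup G) [N.Normal] [Fintype N] (χ : G → ℂ) (hχ : Cfsg.IsIrrCharacter G χ) (hχN : Cfsg.IsIrrCharacter N (fun n : N => χ n)) (ψ : G → ℂ) (hψ : Cfsg.IsIrrCharacter G ψ) (η : G → ℂ) (hη : η = fun g => (Nat.card N : ℂ)⁻¹ * ∑ n : N, ψ ((n : G) * g) * conj (χ ((n : G) * g))) : (Cfsg.classInner (fun n : N => ψ n) (fun n : N => χ n) ≠ 0 → Cfsg.IsIrrCharacter G η) ∧ (Cfsg.classInner (fun n : N => ψ n) (fun n : N => χ n) = 0 → η = 0) ∧ (ψ = χ → η = fun _ => 1) := by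
  classical
  have hηe : η = eta N ψ χ := by
    rw [hη]
    rfl
  have hχc := isCharacter_of_isIrrCharacter hχ
  subst hηe
  clear hη
  -- the value when `ψ` factors
  have hfac : ∀ φ : G ⧸ N → ℂ, ψ = χ * (φ ∘ QuotientGroup.mk' N) →
      eta N ψ χ = φ ∘ QuotientGroup.mk' N := by
    intro φ hφ
    funext g
    rw [hφ, eta_mul_of_leftInv N χ (leftInv_comp N φ), eta_self_eq_one N hχc hχN, one_mul]
  refine ⟨?_, ?_, ?_⟩
  · intro hne
    obtain ⟨φ, hφ, he⟩ := exists_eq_mul_of_classInner_ne_zero N hχc hχN hψ hne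
    rw [hfac φ he]
    exact isIrrCharacter_comp _ (QuotientGroup.mk'_surjective N) hφ
  · intro h0
    have hz : eta N ψ χ 1 = 0 := by rw [eta_apply_one, h0]
    -- otherwise `ψ` factors, and `η 1 ≠ 0`
    let _ : Fintype (G ⧸ N) := Fintype.ofFinite _
    have hcfψ := isClassFunction_of_isIrrCharacter hψ
    have hcfχ := isClassFunction_of_isCharacter hχc
    have hfl : LeftInv N (eta N ψ χ) := fun m g => eta_mul_left N ψ χ m g
    have hne : ∀ φ : G ⧸ N → ℂ, IsIrrCharacter (G ⧸ N) φ → ψ ≠ χ * (φ ∘ QuotientGroup.mk' N) := by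
      intro φ hφ he
      rw [hfac φ he] at hz
      have h1 : φ 1 = 0 := by simpa using hz
      exact irr_one_ne_zero hφ h1
    exact eta_eq_zero_of_forall_ne N hχc hχN hψ hne
  · rintro rfl
    funext g
    exact eta_self_eq_one N hχc hχN g

end Cfsg.Agent.S0868
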