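import Cfsg.Statements.S0875
import Cfsg.Agent.Lib.CharDeep.BrauerChar
import Cfsg.Agent.Lib.Char.Eigen

set_option autoImplicit false
set_option linter.unusedSectionVars false
open Cfsg

namespace Cfsg.Agent.S0875

open Cfsg.Agent.Lib.Char.Basic Cfsg.Agent.Lib.Char.Ortho Cfsg.Agent.Lib.Char.Complete
open Cfsg.Agent.Lib.CharDeep.BrauerChar
open scoped ComplexConjugate

universe u

/-- The algebraic integers as an additive subgroup of `ℂ`. -/
noncomputable def algIntAdd : AddSubgroup ℂ := (Cfsg.AlgInt).toSubring.toAddSubgroup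

theorem mem_algIntAdd {z : ℂ} : z ∈ algIntAdd ↔ z ∈ Cfsg.AlgInt := Iff.rfl

/-- Values of characters are algebraic integers. -/
theorem char_mem {G : Type u} [Group G] {χ : G → ℂ} [Finite G] (hχ : IsCharacter G χ) (g : G) :
    χ g ∈ Cfsg.AlgInt := by
  obtain ⟨n, ρ, rfl⟩ := hχ
  exact Cfsg.Agent.Lib.Char.Eigen.character_mem_algInt ρ g

/-- Functions with values `0` and `n`, `|I|` dividing `n`, have algebraic integer coefficients. -/
theorem coef_indicator {I : Type u} [Group I] [Fintype I] (S : I → Prop) [DecidablePred S]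
    (n : ℕ) (hd : Nat.card I ∣ n) :
    Coef algIntAdd I (fun y => if S y then (n : ℂ) else 0) := by
  intro χ hχ
  obtain ⟨k, rfl⟩ := hd
  have hc := isCharacter_of_isIrrCharacter hχ
  have hcard : (Nat.card I : ℂ) ≠ 0 := by
    exact_mod_cast Nat.card_pos.ne'
  have h : classInner (fun y => if S y then ((Nat.card I * k : ℕ) : ℂ) else 0) χ =
      (k : ℂ) * ∑ g : I, if S g then χ g⁻¹ else 0 := by
    unfold classInner
    rw [Finset.mul_sum, Finset.mul_sum]
    refine Finset.sum_congr rfl fun g _ => ?_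
    rw [char_inv_eq_conj hc]
    by_cases hS : S g
    · simp only [hS, if_true]
      push_cast
      field_simp
    · simp [hS]
  rw [mem_algIntAdd, h]
  refine Subalgebra.mul_mem _ (natCast_mem _ k) (Subalgebra.sum_mem _ fun g _ => ?_)
  split_ifs
  · exact char_mem hc _
  · exact Subalgebra.zero_mem _

/-- The order of the image of `x ↦ x ^ a` divides `n`. -/
theorem card_range_dvd {E : Type u} [Group E] [Finite E] {m n a : ℕ}
    (hcard : Nat.card E ∣ m * n) (hcop : Nat.Coprime m n) (hm : m ∣ a)
    (f : E →* E) (hf : ∀ x, f x = x ^ a) : Nat.card f.range ∣ n := by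
  have hI : Nat.card f.range ∣ m * n :=
    (Subgroup.card_subgroup_dvd_card _).trans hcard
  have hpow : ∀ y ∈ f.range, y ^ n = 1 := by
    rintro _ ⟨x, rfl⟩
    rw [hf]
    obtain ⟨c, rfl⟩ := hm
    have : x ^ (m * n) = 1 := by
      obtain ⟨t, ht⟩ := hcard
      rw [ht, pow_mul, pow_card_eq_one', one_pow]
    calc (x ^ (m * c)) ^ n = (x ^ (m * n)) ^ c := by
            rw [← pow_mul, ← pow_mul]; congr 1; ring
      _ = 1 := by rw [this, one_pow]
  have hco : Nat.Coprime (Nat.card f.range) m := by
    rw [Nat.coprime_iff_gcd_eq_one] at *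
    by_contra hne
    obtain ⟨q, hq, hqd⟩ := Nat.exists_prime_and_dvd hne
    have hqI : q ∣ Nat.card f.range := hqd.trans (Nat.gcd_dvd_left _ _)
    have hqm : q ∣ m := hqd.trans (Nat.gcd_dvd_right _ _)
    have := Fact.mk hq
    obtain ⟨⟨y, hy⟩, hyo⟩ := exists_prime_orderOf_dvd_card' q hqI
    have hyo' : orderOf y = q := by
      rw [← hyo, Subgroup.orderOf_mk]
    have hqn : q ∣ n := hyo' ▸ orderOf_dvd_of_pow_eq_one (hpow y hy)
    have : q ∣ Nat.gcd m n := Nat.dvd_gcd hqm hqn
    rw [hcop] at this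
    exact hq.one_lt.ne' (Nat.dvd_one.mp this)
  exact hco.dvd_of_dvd_mul_left hI

/-- For an elementary subgroup, the function is a pull back along a homomorphism. -/
theorem coef_elementary {G : Type u} [Group G] {E : Type u} [Group E] [Fintype E]
    (ι : E →* G) {p m n a : ℕ} (hp : p.Prime)
    (hE : IsElementary p E) (hcard : Nat.card E ∣ m * n) (hcop : Nat.Coprime m n)
    (ha0 : a ≡ 0 [MOD m]) (ha1 : a ≡ 1 [MOD n]) (g : G) [DecidablePred fun x : G => IsConj (x ^ a) g] :
    Coef algIntAdd E (fun e : E => if IsConj ((ι e) ^ a) g then (n : ℂ) else 0) := by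
  classical
  obtain ⟨f, hf⟩ := exists_powHom hp hE hcard hcop ha0 ha1
  have hd := card_range_dvd hcard hcop (Nat.modEq_zero_iff_dvd.mp ha0) f hf
  let _ : Fintype f.range := Fintype.ofFinite _
  let S : f.range → Prop := fun y => IsConj (ι (y : E)) g
  have hc := coef_indicator S n hd
  have hcl : IsClassFunction f.range (fun y => if S y then (n : ℂ) else 0) := by
    intro y h
    have : S (h * y * h⁻¹) ↔ S y := by
      simp only [S, Subgroup.coe_mul, Subgroup.coe_inv, map_mul, map_inv]
      constructor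
      · intro h1
        refine IsConj.trans ?_ h1
        exact isConj_iff.mpr ⟨ι h, rfl⟩
      · intro h1
        refine IsConj.trans ?_ h1
        exact (isConj_iff.mpr ⟨ι h, rfl⟩).symm
    simp only [this]
  have := Coef.comp f.rangeRestrict f.rangeRestrict_surjective hcl hc
  convert this using 1
  funext e
  simp only [Function.comp, S, MonoidHom.coe_rangeRestrict, hf, map_pow]

/-- Let G be a finite group of order m * n with m and n coprime, and g an element whose order is coprime to m. Every x in G factors uniquely as x = u * v with u, v commuting, the order of u coprime to n and the order of v coprime to m; let ϑ be the function on G equal to n at those x whose factor v is conjugate to g and equal to 0 elsewhere. Then ϑ is a linear combination of the irreducible characters of G with algebraic-integer coefficients. -/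
theorem result {G : Type*} [Group G] [Fintype G] (m n : ℕ) (hmn : Nat.card G = m * n) (hcop : Nat.Coprime m n) (g : G) (hg : Nat.Coprime (orderOf g) m) (ϑ : G → ℂ) (hϑ1 : ∀ x : G, (∃ v : G, IsConj v g ∧ (∃ u : G, x = u * v ∧ Commute u v ∧ Nat.Coprime (orderOf u) n ∧ Nat.Coprime (orderOf v) m)) → ϑ x = n) (hϑ0 : ∀ x : G, (¬ ∃ v : G, IsConj v g ∧ (∃ u : G, x = u * v ∧ Commute u v ∧ Nat.Coprime (orderOf u) n ∧ Nat.Coprime (orderOf v) m)) → ϑ x = 0) : ∃ c : Cfsg.IrrCharacter G → ℂ, (∀ χ, c χ ∈ Cfsg.AlgInt) ∧ ϑ = ∑ᶠ χ : Cfsg.IrrCharacter G, c χ • (χ : G → ℂ) := by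
  classical
  obtain ⟨a, ha0, ha1⟩ := Nat.chineseRemainder hcop 0 1
  obtain ⟨b, hb1, hb0⟩ := Nat.chineseRemainder hcop 1 0
  have hxN : ∀ x : G, x ^ (m * n) = 1 := fun x => by rw [← hmn, pow_card_eq_one']
  have hab : a + b ≡ 1 [MOD m * n] := by
    rw [← Nat.modEq_and_modEq_iff_modEq_mul hcop]
    exact ⟨by simpa using ha0.add hb1, by simpa using ha1.add hb0⟩
  have hmdvd : m ∣ a := Nat.modEq_zero_iff_dvd.mp ha0
  have hndvd : n ∣ b := Nat.modEq_zero_iff_dvd.mp hb0
  have hchar : ∀ x : G, (∃ v : G, IsConj v g ∧ (∃ u : G, x = u * v ∧ Commute u v ∧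
      Nat.Coprime (orderOf u) n ∧ Nat.Coprime (orderOf v) m)) ↔ IsConj (x ^ a) g := by
    intro x
    constructor
    · rintro ⟨v, hv, u, rfl, hc, hu, hv'⟩
      have hu' : orderOf u ∣ m := by
        have : orderOf u ∣ m * n := orderOf_dvd_of_pow_eq_one (hxN u)
        exact hu.dvd_of_dvd_mul_right this
      have hv'' : orderOf v ∣ n := by
        have : orderOf v ∣ m * n := orderOf_dvd_of_pow_eq_one (hxN v)
        exact hv'.dvd_of_dvd_mul_left this
      have h1 : u ^ a = 1 := orderOf_dvd_iff_pow_eq_one.mp (hu'.trans hmdvd)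
      have h2 : v ^ a = v := by
        have h3 : v ^ a = v ^ 1 :=
          (pow_eq_pow_iff_modEq.mpr (ha1.of_dvd hv''))
        simpa using h3
      rw [hc.mul_pow, h1, h2, one_mul]
      exact hv
    · intro h
      refine ⟨x ^ a, h, x ^ b, ?_, ?_, ?_, ?_⟩
      · rw [← pow_add, add_comm]
        have h3 : x ^ (a + b) = x ^ 1 := by
          have := hab.of_dvd (orderOf_dvd_of_pow_eq_one (hxN x))
          exact pow_eq_pow_iff_modEq.mpr this
        rw [h3, pow_one]
      · exact (Commute.refl x).pow_pow b a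
      · apply Nat.Coprime.coprime_dvd_left (orderOf_dvd_of_pow_eq_one (n := m) _) hcop
        obtain ⟨c, hc⟩ := hndvd
        rw [hc, ← pow_mul]
        have : n * c * m = (m * n) * c := by ring
        rw [this, pow_mul, hxN, one_pow]
      · apply Nat.Coprime.coprime_dvd_left (orderOf_dvd_of_pow_eq_one (n := n) _) hcop.symm
        obtain ⟨c, hc⟩ := hmdvd
        rw [hc, ← pow_mul]
        have : m * c * n = (m * n) * c := by ring
        rw [this, pow_mul, hxN, one_pow]
  have hϑ : ∀ x, ϑ x = if IsConj (x ^ a) g then (n : ℂ) else 0 := by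
    intro x
    split_ifs with h
    · exact hϑ1 x ((hchar x).mpr h)
    · exact hϑ0 x (fun h' => h ((hchar x).mp h'))
  have hcl : IsClassFunction G ϑ := by
    intro x h
    rw [hϑ, hϑ]
    have h1 : (h * x * h⁻¹) ^ a = h * x ^ a * h⁻¹ := by
      exact conj_pow
    have h2 : IsConj ((h * x * h⁻¹) ^ a) g ↔ IsConj (x ^ a) g := by
      rw [h1]
      constructor
      · intro h3
        exact (isConj_iff.mpr ⟨h, rfl⟩).trans h3
      · intro h3
        exact (isConj_iff.mpr ⟨h, rfl⟩).symm.trans h3
    simp only [h2]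
  have hcoef : Coef algIntAdd G ϑ := by
    apply coef_of_elementary hcl
    intro p E _ hp hel
    have hcard : Nat.card E ∣ m * n := hmn ▸ Subgroup.card_subgroup_dvd_card E
    have := coef_elementary E.subtype hp hel hcard hcop ha0 ha1 g
    convert this using 1
    funext e
    rw [hϑ]
    rfl
  exact ⟨fun χ => classInner ϑ χ, fun χ => hcoef χ χ.2, classFunction_eq_finsum hcl⟩

end Cfsg.Agent.S0875
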