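import Cfsg.Statements.S0876
import Cfsg.Agent.S0875
import Cfsg.Agent.Lib.Blocks.Sections
import Cfsg.Agent.Lib.Blocks.PPart

set_option autoImplicit false
open Cfsg

namespace Cfsg.Agent.S0876

open Cfsg.Agent.Lib.Char.Basic Cfsg.Agent.Lib.Char.Ortho Cfsg.Agent.Lib.Char.Complete
open Cfsg.Agent.Lib.Blocks.Local Cfsg.Agent.Lib.Blocks.PPart

/-- Let G be a finite group, p a prime and M a maximal ideal of the ring of algebraic integers containing p. Let x, y be elements with p-parts a and b (so a⁻¹ * x and b⁻¹ * y are their p-regular parts). Then a⁻¹ * x and b⁻¹ * y are conjugate in G if and only if, for every irreducible character χ, the difference χ x - χ y lies in the local ideal at M. -/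
theorem result {G : Type*} [Group G] [Finite G] (p : ℕ) (M : Ideal Cfsg.AlgInt) (hM : Cfsg.IsPModular p M) (x y a b : G) (ha : Cfsg.IsPPart p x a) (hb : Cfsg.IsPPart p y b) : IsConj (a⁻¹ * x) (b⁻¹ * y) ↔ ∀ χ : Cfsg.IrrCharacter G, Cfsg.MemLocalIdeal M ((χ : G → ℂ) x - (χ : G → ℂ) y) := by
  classical
  let _ : Fintype G := Fintype.ofFinite G
  have hp : p.Prime := hM.1
  have := Fact.mk hp
  have hprime : M.IsPrime := hM.2.1.isPrime
  obtain ⟨y₁, hy₁, hca, ⟨k, hk⟩, hy₁p⟩ := ha
  obtain ⟨y₂, hy₂, hcb, ⟨l, hl⟩, hy₂p⟩ := hb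
  have h₁ : a⁻¹ * x = y₁ := by rw [← hy₁]; simp
  have h₂ : b⁻¹ * y = y₂ := by rw [← hy₂]; simp
  rw [h₁, h₂]
  subst hy₁ hy₂
  constructor
  · intro hconj χ
    have hc := isCharacter_of_isIrrCharacter χ.2
    have hcl := isClassFunction_of_isIrrCharacter χ.2
    have e₁ := Cfsg.Agent.Lib.Blocks.Sections.char_mul_sub_mem hM hc hca (n := k)
      (by rw [← hk, pow_orderOf_eq_one])
    have e₂ := Cfsg.Agent.Lib.Blocks.Sections.char_mul_sub_mem hM hc hcb (n := l)
      (by rw [← hl, pow_orderOf_eq_one])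
    have e₃ : (χ : G → ℂ) y₁ = (χ : G → ℂ) y₂ := by
      obtain ⟨c, hc'⟩ := isConj_iff.mp hconj
      rw [← hc', hcl]
    rw [← e₃] at e₂
    exact memLocalIdeal_sub_trans e₁ (memLocalIdeal_sub_comm e₂)
  · intro h
    by_contra hne
    set m := p ^ (Nat.card G).factorization p with hm
    set n := (Nat.card G) / p ^ (Nat.card G).factorization p with hn
    have hmn : Nat.card G = m * n := (Nat.ordProj_mul_ordCompl_eq_self _ _).symm
    have hcard0 : Nat.card G ≠ 0 := Nat.card_pos.ne'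
    have hpn : ¬ p ∣ n := Nat.not_dvd_ordCompl hp hcard0
    have hcop : Nat.Coprime m n := by
      apply Nat.Coprime.pow_left
      exact (Nat.Prime.coprime_iff_not_dvd hp).mpr hpn
    have hcoppow : ∀ t : ℕ, ¬ p ∣ t → Nat.Coprime t m := fun t ht =>
      (Nat.Coprime.pow_left _ ((Nat.Prime.coprime_iff_not_dvd hp).mpr ht)).symm
    let P : G → Prop := fun z => ∃ v : G, IsConj v y₁ ∧ (∃ u : G, z = u * v ∧ Commute u v ∧
      Nat.Coprime (orderOf u) n ∧ Nat.Coprime (orderOf v) m)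
    let ϑ : G → ℂ := fun z => if P z then (n : ℂ) else 0
    obtain ⟨c, hcm, he⟩ := Cfsg.Agent.S0875.result m n hmn hcop y₁ (hcoppow _ hy₁p) ϑ
      (fun z hz => if_pos hz) (fun z hz => if_neg hz)
    have := Cfsg.Agent.Lib.Char.Ortho.finite_irrCharacter (G := G)
    let _ : Fintype (IrrCharacter G) := Fintype.ofFinite _
    have hval : ∀ z, ϑ z = ∑ χ : IrrCharacter G, c χ * (χ : G → ℂ) z := by
      intro z
      conv_lhs => rw [he]
      rw [finsum_eq_sum_of_fintype]
      simp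
    have hx : ϑ (a * y₁) = n := by
      apply if_pos
      refine ⟨y₁, IsConj.refl _, a, rfl, hca, ?_, hcoppow _ hy₁p⟩
      rw [hk]
      exact Nat.Coprime.pow_left _ ((Nat.Prime.coprime_iff_not_dvd hp).mpr hpn)
    have hy : ϑ (b * y₂) = 0 := by
      apply if_neg
      rintro ⟨v, hv, u, huv, hcuv, hu, hv'⟩
      have hun : orderOf u ∣ m * n := orderOf_dvd_of_pow_eq_one (by
        rw [← hmn, pow_card_eq_one'])
      have hvn : orderOf v ∣ m * n := orderOf_dvd_of_pow_eq_one (by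
        rw [← hmn, pow_card_eq_one'])
      have hum : orderOf u ∣ m := hu.dvd_of_dvd_mul_right hun
      have hvd : orderOf v ∣ n := hv'.dvd_of_dvd_mul_left hvn
      have hpv : ¬ p ∣ orderOf v := fun h' => hpn (h'.trans hvd)
      obtain ⟨t, -, ht⟩ := (Nat.dvd_prime_pow hp).mp hum
      have h1 : IsPPart p (b * y₂) u := ⟨v, huv.symm, hcuv, ⟨t, ht⟩, hpv⟩
      have h2 : IsPPart p (b * y₂) b := ⟨y₂, rfl, hcb, ⟨l, hl⟩, hy₂p⟩
      have hub : u = b := isPPart_unique h1 h2
      subst hub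
      have hvy : v = y₂ := mul_left_cancel huv.symm
      subst hvy
      exact hne hv.symm
    have hdiff : (n : ℂ) = ∑ χ : IrrCharacter G, c χ * ((χ : G → ℂ) (a * y₁) - (χ : G → ℂ) (b * y₂)) := by
      have h3 : (n : ℂ) = ϑ (a * y₁) - ϑ (b * y₂) := by rw [hx, hy, sub_zero]
      rw [h3, hval, hval, ← Finset.sum_sub_distrib]
      exact Finset.sum_congr rfl fun χ _ => by ring
    have hmem : MemLocalIdeal M (n : ℂ) := by
      rw [hdiff]
      refine memLocalIdeal_sum _ _ fun χ _ => ?_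
      exact memLocalIdeal_mul_left (memLocalRing_of_isIntegral (hcm χ)) (h χ)
    exact hpn ((natCast_memLocalIdeal_iff hM n).mp hmem)

end Cfsg.Agent.S0876
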