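import Cfsg.Statements.S0877
import Cfsg.Agent.Lib.CharDeep.BrauerChar
import Cfsg.Agent.Lib.Char.BrauerPerm
import Cfsg.Agent.Lib.Char.Central
import Cfsg.Agent.Lib.Char.GenLattice
import Cfsg.Agent.Lib.Char.Degree
import Cfsg.Agent.S0875

set_option autoImplicit false
set_option linter.unusedSectionVars false
open Cfsg

namespace Cfsg.Agent.S0877

open Cfsg.Agent.Lib.Char.Basic Cfsg.Agent.Lib.Char.Ortho Cfsg.Agent.Lib.Char.Complete
open Cfsg.Agent.Lib.Char.GenLattice Cfsg.Agent.Lib.Char.Degree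
open Cfsg.Agent.Lib.CharDeep.BrauerChar
open scoped ComplexConjugate

universe u

/-- The integers as an additive subgroup of `ℂ`. -/
noncomputable def intAdd : AddSubgroup ℂ := (Int.castAddHom ℂ).range

theorem coef_char {E : Type u} [Group E] [Fintype E] {ψ : E → ℂ} (h : IsCharacter E ψ) :
    Coef intAdd E ψ := by
  intro χ hχ
  obtain ⟨n, hn⟩ := exists_nat_classInner h (isCharacter_of_isIrrCharacter hχ)
  rw [hn]
  exact ⟨n, by simp⟩

theorem isGenChar_of_coef {G : Type u} [Group G] [Fintype G] {θ : G → ℂ}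
    (hcl : IsClassFunction G θ) (h : Coef intAdd G θ) : IsGeneralizedCharacter G θ := by
  classical
  have := finite_irrCharacter (G := G)
  let _ := Fintype.ofFinite (IrrCharacter G)
  have hexp := classFunction_eq_sum hcl
  rw [hexp]
  refine isGenChar_sum _ _ fun χ _ => ?_
  obtain ⟨k, hk⟩ := h χ χ.2
  rw [← hk]
  have := isGenChar_zsmul (isGenChar_of_isIrr χ.2) k
  convert this using 1
  funext x
  simp

/-- Surjective images of elementary groups are elementary. -/
theorem elementary_of_surjective {E F : Type u} [Group E] [Group F] [Finite E] {p : ℕ} (hp : p.Prime)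
    (f : E →* F) (hf : Function.Surjective f) (hE : IsElementary p E) : IsElementary p F := by
  obtain ⟨x, hxc, hxq, k, hk⟩ := hE
  refine ⟨f x, ?_, ?_, ?_⟩
  · rw [Subgroup.mem_center_iff]
    intro g
    obtain ⟨e, rfl⟩ := hf g
    rw [← map_mul, ← map_mul, Subgroup.mem_center_iff.mp hxc e]
  · exact Nat.Coprime.coprime_dvd_left (orderOf_map_dvd f x) hxq
  · have h1 : (Subgroup.zpowers (f x)) = (Subgroup.zpowers x).map f := (MonoidHom.map_zpowers f x).symm
    have h2 : (Subgroup.zpowers (f x)).index ∣ p ^ k := by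
      rw [← hk, h1]
      exact Subgroup.index_map_dvd _ hf
    obtain ⟨j, -, hj⟩ := (Nat.dvd_prime_pow hp).mp h2
    exact ⟨j, hj⟩

/-- A subgroup of exponent dividing `n` in a group of order dividing `m * n`, `m, n` coprime, has
order dividing `n`. -/
theorem card_dvd_of_pow_eq_one {G : Type u} [Group G] [Finite G] {m n : ℕ}
    (hcard : Nat.card G ∣ m * n) (hcop : Nat.Coprime m n) (I : Subgroup G)
    (hpow : ∀ y ∈ I, y ^ n = 1) : Nat.card I ∣ n := by
  have hI : Nat.card I ∣ m * n := (Subgroup.card_subgroup_dvd_card _).trans hcard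
  have hco : Nat.Coprime (Nat.card I) m := by
    rw [Nat.coprime_iff_gcd_eq_one] at *
    by_contra hne
    obtain ⟨q, hq, hqd⟩ := Nat.exists_prime_and_dvd hne
    have hqI : q ∣ Nat.card I := hqd.trans (Nat.gcd_dvd_left _ _)
    have hqm : q ∣ m := hqd.trans (Nat.gcd_dvd_right _ _)
    have := Fact.mk hq
    obtain ⟨⟨y, hy⟩, hyo⟩ := exists_prime_orderOf_dvd_card' q hqI
    have hyo' : orderOf y = q := by
      rw [← hyo, Subgroup.orderOf_mk]
    have hqn : q ∣ n := hyo' ▸ orderOf_dvd_of_pow_eq_one (hpow y hy)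
    have : q ∣ Nat.gcd m n := Nat.dvd_gcd hqm hqn
    rw [hcop] at this
    exact hq.one_lt.ne' (Nat.dvd_one.mp this)
  exact hco.dvd_of_dvd_mul_left hI

section Main

variable {G : Type u} [Group G] [Fintype G] {H : Subgroup G} [Fintype H]
  {a : ℕ} {φ : G → H}

theorem star_eq (hφ : ∀ x, IsConj (x ^ a) (φ x : G))
    (hconj : ∀ u w : H, IsConj (u : G) (w : G) → IsConj u w) {ξ : H → ℂ} (hξ : IsClassFunction H ξ)
    {x : G} {h : H} (hx : IsConj (x ^ a) (h : G)) : ξ (φ x) = ξ h := by
  have h1 : IsConj (φ x) h := hconj _ _ ((hφ x).symm.trans hx)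
  exact isClassFunction_iff_isConj.mp hξ _ _ h1

theorem isClassFunction_star (hφ : ∀ x, IsConj (x ^ a) (φ x : G))
    (hconj : ∀ u w : H, IsConj (u : G) (w : G) → IsConj u w) {ξ : H → ℂ} (hξ : IsClassFunction H ξ) :
    IsClassFunction G (fun x => ξ (φ x)) := by
  intro x g
  apply star_eq hφ hconj hξ
  have h1 : (g * x * g⁻¹) ^ a = g * x ^ a * g⁻¹ := conj_pow
  rw [h1]
  exact (isConj_iff.mpr ⟨g, rfl⟩).symm.trans (hφ x)

theorem isGenChar_star {m n : ℕ} (hcardG : Nat.card G = m * n) (hn : Nat.card H = n)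
    (hcop : Nat.Coprime m n) (ha0 : a ≡ 0 [MOD m]) (ha1 : a ≡ 1 [MOD n])
    (helem : ∀ (E : Subgroup G) (p : ℕ), p.Prime → IsElementary p E → Nat.card E ∣ Nat.card H →
      ∃ g : G, E.map (MulAut.conj g).toMonoidHom ≤ H)
    (hφ : ∀ x, IsConj (x ^ a) (φ x : G))
    (hconj : ∀ u w : H, IsConj (u : G) (w : G) → IsConj u w) {ξ : H → ℂ} (hξ : IsCharacter H ξ) :
    IsGeneralizedCharacter G (fun x => ξ (φ x)) := by
  classical
  have hξcl := isClassFunction_of_isCharacter hξ
  have hcl := isClassFunction_star hφ hconj hξcl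
  apply isGenChar_of_coef hcl
  apply coef_of_elementary hcl
  intro p E _ hp hel
  have hcard : Nat.card E ∣ m * n := hcardG ▸ Subgroup.card_subgroup_dvd_card E
  obtain ⟨f, hf⟩ := exists_powHom hp hel hcard hcop ha0 ha1
  let J : Subgroup G := (E.subtype.comp f).range
  have hJel : IsElementary p J :=
    elementary_of_surjective hp (E.subtype.comp f).rangeRestrict
      (E.subtype.comp f).rangeRestrict_surjective hel
  have hxN : ∀ x : G, x ^ (m * n) = 1 := fun x => by rw [← hcardG, pow_card_eq_one']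
  have hJp : ∀ y ∈ J, y ^ n = 1 := by
    rintro _ ⟨e, rfl⟩
    obtain ⟨c, hc⟩ := Nat.modEq_zero_iff_dvd.mp ha0
    simp only [MonoidHom.comp_apply, Subgroup.subtype_apply, hf, Subgroup.coe_pow]
    rw [hc, ← pow_mul]
    have : m * c * n = (m * n) * c := by ring
    rw [this, pow_mul, hxN, one_pow]
  have hJcard : Nat.card J ∣ n := card_dvd_of_pow_eq_one (by rw [hcardG]) hcop J hJp
  obtain ⟨g, hg⟩ := helem J p hp hJel (hn ▸ hJcard)
  have hmem : ∀ e : E, g * (e : G) ^ a * g⁻¹ ∈ H := by
    intro e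
    apply hg
    refine Subgroup.mem_map.mpr ⟨(e : G) ^ a, ⟨e, by simp [hf]⟩, rfl⟩
  let ψ : E →* H := MonoidHom.codRestrict
    ((MulAut.conj g).toMonoidHom.comp (E.subtype.comp f)) H (fun e => by
      have := hmem e
      simpa [hf] using this)
  have hψ : ∀ e : E, ((ψ e : H) : G) = g * (e : G) ^ a * g⁻¹ := by
    intro e
    simp [ψ, hf]
  have h1 : (fun e : E => ξ (φ e)) = ξ ∘ ψ := by
    funext e
    apply star_eq hφ hconj hξcl
    rw [hψ]
    exact (isConj_iff.mpr ⟨g, rfl⟩)
  rw [h1]
  exact coef_char (isCharacter_comp ψ hξ)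

/-- The count. -/
noncomputable def cnt (H : Subgroup G) [Fintype H] (φ : G → H) (u : H) : ℕ :=
  open scoped Classical in (Finset.univ.filter fun x : G => IsConj (φ x) u).card

/-- Centralizer order. -/
noncomputable def cen (H : Subgroup G) (u : H) : ℕ := Nat.card (Subgroup.centralizer ({u} : Set H))

open scoped Classical in
theorem sum_cen (w : H) : ∑ u : H, (if IsConj w u then cen H u else 0) = Nat.card H := by
  classical
  have := Fintype.ofFinite (ConjClasses H)
  have h1 := Cfsg.Agent.Lib.Char.BrauerPerm.sum_class_mul_card_centralizer (G := H)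
    (fun K => if K = ConjClasses.mk w then (1 : ℂ) else 0)
  simp only [ite_mul, one_mul, zero_mul, Finset.sum_ite_eq', Finset.mem_univ, if_true, mul_one] at h1
  have h2 : ∑ u : H, (((if IsConj w u then cen H u else 0 : ℕ)) : ℂ) = Nat.card H := by
    rw [← h1]
    refine Finset.sum_congr rfl fun u _ => ?_
    have : ConjClasses.mk u = ConjClasses.mk w ↔ IsConj w u := by
      rw [ConjClasses.mk_eq_mk_iff_isConj]
      exact isConj_comm
    simp only [this]
    split_ifs <;> simp [cen]
  exact_mod_cast h2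

open scoped Classical in
theorem cen_mul_cnt_sum [Fintype (IrrCharacter H)] (u : H) :
    ∑ ξ : IrrCharacter H, (∑ x : G, (ξ : H → ℂ) (φ x)) * conj ((ξ : H → ℂ) u) =
      ((cen H u * cnt H φ u : ℕ) : ℂ) := by
  have h1 : ∀ x : G, ∑ ξ : IrrCharacter H, (ξ : H → ℂ) (φ x) * conj ((ξ : H → ℂ) u) =
      if IsConj (φ x) u then (cen H u : ℂ) else 0 := fun x => by
    convert sum_irr_mul_conj (φ x) u
    rfl
  calc ∑ ξ : IrrCharacter H, (∑ x : G, (ξ : H → ℂ) (φ x)) * conj ((ξ : H → ℂ) u)
      = ∑ x : G, ∑ ξ : IrrCharacter H, (ξ : H → ℂ) (φ x) * conj ((ξ : H → ℂ) u) := by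
        simp_rw [Finset.sum_mul]
        exact Finset.sum_comm
    _ = ∑ x : G, if IsConj (φ x) u then (cen H u : ℂ) else 0 := Finset.sum_congr rfl fun x _ => h1 x
    _ = _ := by
        rw [Finset.sum_ite, Finset.sum_const_zero, add_zero, Finset.sum_const, cnt]
        simp [mul_comm]

/-- The divisibility. -/
theorem card_dvd_cen_mul_cnt {m n : ℕ} (hcardG : Nat.card G = m * n) (hn : Nat.card H = n)
    (hcop : Nat.Coprime m n) (ha0 : a ≡ 0 [MOD m]) (ha1 : a ≡ 1 [MOD n])
    (helem : ∀ (E : Subgroup G) (p : ℕ), p.Prime → IsElementary p E → Nat.card E ∣ Nat.card H →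
      ∃ g : G, E.map (MulAut.conj g).toMonoidHom ≤ H)
    (hφ : ∀ x, IsConj (x ^ a) (φ x : G))
    (hconj : ∀ u w : H, IsConj (u : G) (w : G) → IsConj u w) (u : H) :
    Nat.card G ∣ cen H u * cnt H φ u := by
  classical
  have := finite_irrCharacter (G := H)
  let _ : Fintype (IrrCharacter H) := Fintype.ofFinite _
  have hG : (Nat.card G : ℂ) ≠ 0 := by exact_mod_cast Nat.card_pos.ne'
  apply Cfsg.Agent.Lib.Char.Central.nat_dvd_of_isIntegral_div Nat.card_pos.ne'
  have h1 : ((cen H u * cnt H φ u : ℕ) : ℂ) / (Nat.card G : ℂ) =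
      ∑ ξ : IrrCharacter H, classInner (fun x => (ξ : H → ℂ) (φ x)) (fun _ => (1 : ℂ)) *
        (ξ : H → ℂ) u⁻¹ := by
    rw [← cen_mul_cnt_sum, div_eq_inv_mul, Finset.mul_sum]
    refine Finset.sum_congr rfl fun ξ _ => ?_
    rw [char_inv_eq_conj (isCharacter_of_isIrrCharacter ξ.2)]
    simp only [classInner, map_one, mul_one]
    ring
  rw [h1]
  refine IsIntegral.sum _ fun ξ _ => IsIntegral.mul ?_ ?_
  · have h2 := isGenChar_star hcardG hn hcop ha0 ha1 helem hφ hconj
      (isCharacter_of_isIrrCharacter ξ.2)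
    obtain ⟨k, hk⟩ := exists_int_classInner h2 isGenChar_one
    rw [hk]
    simpa using isIntegral_algebraMap (x := k) (R := ℤ) (A := ℂ)
  · exact Cfsg.Agent.S0875.char_mem (isCharacter_of_isIrrCharacter ξ.2) _

open scoped Classical in
theorem sum_cen_mul_cnt : ∑ u : H, cen H u * cnt H φ u = Nat.card G * Nat.card H := by
  calc ∑ u : H, cen H u * cnt H φ u
      = ∑ u : H, ∑ x : G, (if IsConj (φ x) u then cen H u else 0) := by
        refine Finset.sum_congr rfl fun u _ => ?_
        rw [Finset.sum_ite, Finset.sum_const_zero, add_zero, Finset.sum_const, cnt]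
        simp [mul_comm]
    _ = ∑ x : G, ∑ u : H, (if IsConj (φ x) u then cen H u else 0) := Finset.sum_comm
    _ = ∑ x : G, Nat.card H := Finset.sum_congr rfl fun x _ => sum_cen (φ x)
    _ = _ := by
        rw [Finset.sum_const, Finset.card_univ, ← Nat.card_eq_fintype_card]
        simp

/-- The exact count of elements in each section. -/
theorem cen_mul_cnt_eq {m n : ℕ} (hcardG : Nat.card G = m * n) (hn : Nat.card H = n)
    (hcop : Nat.Coprime m n) (ha0 : a ≡ 0 [MOD m]) (ha1 : a ≡ 1 [MOD n])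
    (helem : ∀ (E : Subgroup G) (p : ℕ), p.Prime → IsElementary p E → Nat.card E ∣ Nat.card H →
      ∃ g : G, E.map (MulAut.conj g).toMonoidHom ≤ H)
    (hφ : ∀ x, IsConj (x ^ a) (φ x : G))
    (hconj : ∀ u w : H, IsConj (u : G) (w : G) → IsConj u w) (u : H) :
    cen H u * cnt H φ u = Nat.card G := by
  classical
  have hpowu : ∀ u : H, ((u : G)) ^ a = u := by
    intro u
    have h0 : (u : G) ^ n = 1 := by
      have : u ^ Nat.card H = 1 := pow_card_eq_one'
      rw [hn] at this
      simpa [Subtype.ext_iff] using this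
    have h1 : orderOf (u : G) ∣ n := orderOf_dvd_of_pow_eq_one h0
    have h2 : (u : G) ^ a = (u : G) ^ 1 := pow_eq_pow_iff_modEq.mpr (ha1.of_dvd h1)
    simpa using h2
  have hpos : ∀ u : H, 0 < cen H u * cnt H φ u := by
    intro u
    apply Nat.mul_pos
    · exact Nat.card_pos
    · unfold cnt
      apply Finset.card_pos.mpr
      refine ⟨u, ?_⟩
      simp only [Finset.mem_filter, Finset.mem_univ, true_and]
      apply hconj
      have := hφ u
      rw [hpowu] at this
      exact this.symm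
  have hle : ∀ u : H, Nat.card G ≤ cen H u * cnt H φ u := fun u =>
    Nat.le_of_dvd (hpos u) (card_dvd_cen_mul_cnt hcardG hn hcop ha0 ha1 helem hφ hconj u)
  have hsum : ∑ u : H, Nat.card G = ∑ u : H, cen H u * cnt H φ u := by
    rw [sum_cen_mul_cnt, Finset.sum_const, Finset.card_univ, ← Nat.card_eq_fintype_card]
    simp [mul_comm]
  have := (Finset.sum_eq_sum_iff_of_le (fun u _ => hle u)).mp hsum u (Finset.mem_univ _)
  exact this.symm

open scoped Classical in
/-- The distribution of `φ` on `H`. -/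
theorem sum_star (hcen : ∀ u : H, cen H u * cnt H φ u = Nat.card G) {ζ : H → ℂ}
    (hζ : IsClassFunction H ζ) :
    (Nat.card H : ℂ) * ∑ x : G, ζ (φ x) = (Nat.card G : ℂ) * ∑ u : H, ζ u := by
  have h1 : ∀ w : H, (Nat.card H : ℂ) * ζ w =
      ∑ u : H, (if IsConj w u then (cen H u : ℂ) * ζ u else 0) := by
    intro w
    have h2 := sum_cen w
    have h3 : (Nat.card H : ℂ) = ∑ u : H, ((if IsConj w u then cen H u else 0 : ℕ) : ℂ) := by
      rw [← h2]
      push_cast
      rfl
    rw [h3, Finset.sum_mul]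
    refine Finset.sum_congr rfl fun u _ => ?_
    by_cases h : IsConj w u
    · simp only [h, if_true]
      rw [isClassFunction_iff_isConj.mp hζ _ _ h]
    · rw [if_neg h, if_neg h]
      simp
  calc (Nat.card H : ℂ) * ∑ x : G, ζ (φ x)
      = ∑ x : G, ∑ u : H, (if IsConj (φ x) u then (cen H u : ℂ) * ζ u else 0) := by
        rw [Finset.mul_sum]
        exact Finset.sum_congr rfl fun x _ => h1 (φ x)
    _ = ∑ u : H, ∑ x : G, (if IsConj (φ x) u then (cen H u : ℂ) * ζ u else 0) := Finset.sum_comm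
    _ = ∑ u : H, (Nat.card G : ℂ) * ζ u := by
        refine Finset.sum_congr rfl fun u _ => ?_
        rw [Finset.sum_ite, Finset.sum_const_zero, add_zero, Finset.sum_const, ← hcen u]
        simp only [cnt, nsmul_eq_mul]
        push_cast
        ring
    _ = _ := by rw [Finset.mul_sum]

/-- The star of irreducible characters has the same inner products. -/
theorem classInner_star (hcen : ∀ u : H, cen H u * cnt H φ u = Nat.card G) {ξ η : H → ℂ}
    (hξ : IsClassFunction H ξ) (hη : IsClassFunction H η) :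
    classInner (fun x => ξ (φ x)) (fun x => η (φ x)) = classInner ξ η := by
  have hζ : IsClassFunction H (fun u => ξ u * conj (η u)) := by
    intro g h
    simp only [hξ g h, hη g h]
  have h1 := sum_star hcen hζ
  have hG : (Nat.card G : ℂ) ≠ 0 := by exact_mod_cast Nat.card_pos.ne'
  have hH : (Nat.card H : ℂ) ≠ 0 := by exact_mod_cast Nat.card_pos.ne'
  unfold classInner
  field_simp
  linear_combination h1

end Main

/-- Let H be a subgroup of the finite group G whose order is coprime to its index. Suppose that elements of H conjugate in G are conjugate in H, and that every subgroup E of G that is elementary for some prime (in the sense used for Brauer's characterisation of characters) and whose order divides the order of H is conjugate to a subgroup of H. Then there is a normal subgroup K with K ⊔ H = ⊤ and K ⊓ H trivial. -/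
theorem result {G : Type*} [Group G] [Finite G] (H : Subgroup G) (hHall : Nat.Coprime (Nat.card H) H.index) (hfus : ∀ x ∈ H, ∀ y ∈ H, IsConj x y → ∃ h ∈ H, h * x * h⁻¹ = y) (helem : ∀ (E : Subgroup G) (p : ℕ), p.Prime → Cfsg.IsElementary p E → Nat.card E ∣ Nat.card H → ∃ g : G, E.map (MulAut.conj g).toMonoidHom ≤ H) : ∃ K : Subgroup G, K.Normal ∧ K ⊔ H = ⊤ ∧ K ⊓ H = ⊥ := by
  classical
  let _ : Fintype G := Fintype.ofFinite G
  let _ : Fintype H := Fintype.ofFinite H
  have hcardG : Nat.card G = H.index * Nat.card H := (H.index_mul_card).symm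
  have hcop : Nat.Coprime H.index (Nat.card H) := hHall.symm
  obtain ⟨a, ha0, ha1⟩ := Nat.chineseRemainder hcop 0 1
  have hconj : ∀ u w : H, IsConj (u : G) (w : G) → IsConj u w := by
    intro u w h
    obtain ⟨g, hg, hgu⟩ := hfus u u.2 w w.2 h
    exact isConj_iff.mpr ⟨⟨g, hg⟩, Subtype.ext (by simpa using hgu)⟩
  have hinto : ∀ y : G, y ^ Nat.card H = 1 → ∃ h : H, IsConj y (h : G) := by
    intro y hy
    obtain ⟨p, hp1, hp⟩ := Nat.exists_infinite_primes (orderOf y + 1)
    have hpy : ¬ p ∣ orderOf y := fun hd => by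
      have := Nat.le_of_dvd (orderOf_pos y) hd
      omega
    have hel : IsElementary p (Subgroup.zpowers y) := by
      refine ⟨⟨y, Subgroup.mem_zpowers y⟩, ?_, ?_, 0, ?_⟩
      · rw [Subgroup.mem_center_iff]
        rintro ⟨z, k, rfl⟩
        ext
        exact (Commute.refl y).zpow_left k
      · rw [Subgroup.orderOf_mk]
        exact ((Nat.Prime.coprime_iff_not_dvd hp).mpr hpy).symm
      · rw [pow_zero, Subgroup.index_eq_one, eq_top_iff]
        rintro ⟨z, hz⟩ -
        obtain ⟨k, rfl⟩ := hz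
        refine ⟨k, ?_⟩
        ext
        simp
    have hcardE : Nat.card (Subgroup.zpowers y) ∣ Nat.card H := by
      rw [Nat.card_zpowers]
      exact orderOf_dvd_of_pow_eq_one hy
    obtain ⟨g, hg⟩ := helem _ p hp hel hcardE
    have hm : g * y * g⁻¹ ∈ H := hg (Subgroup.mem_map.mpr ⟨y, Subgroup.mem_zpowers y, rfl⟩)
    exact ⟨⟨_, hm⟩, isConj_iff.mpr ⟨g, rfl⟩⟩
  have hxN : ∀ x : G, x ^ (H.index * Nat.card H) = 1 := fun x => by
    rw [← hcardG, pow_card_eq_one']
  have hpow : ∀ x : G, (x ^ a) ^ Nat.card H = 1 := by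
    intro x
    obtain ⟨c, hc⟩ := Nat.modEq_zero_iff_dvd.mp ha0
    rw [hc, ← pow_mul]
    have : H.index * c * Nat.card H = (H.index * Nat.card H) * c := by ring
    rw [this, pow_mul, hxN, one_pow]
  choose φ hφ using fun x => hinto (x ^ a) (hpow x)
  have hcen := cen_mul_cnt_eq hcardG rfl hcop ha0 ha1 helem hφ hconj
  have hφ1 : φ 1 = 1 := by
    have h1 := hφ 1
    rw [one_pow, isConj_one_right] at h1
    exact Subtype.ext h1
  have hirr : ∀ ξ : IrrCharacter H, IsIrrCharacter G (fun x => (ξ : H → ℂ) (φ x)) := by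
    intro ξ
    have hc := isCharacter_of_isIrrCharacter ξ.2
    have hcl := isClassFunction_of_isCharacter hc
    have hg := isGenChar_star hcardG rfl hcop ha0 ha1 helem hφ hconj hc
    have hn := classInner_star hcen hcl hcl
    rw [classInner_irr ξ.2 ξ.2, if_pos rfl] at hn
    rcases norm_one hg hn with h | h
    · exact h
    · exfalso
      have h1 := Cfsg.Agent.Lib.Char.Degree.charDegree_natCast (isCharacter_of_isIrrCharacter h)
      have h2 := Cfsg.Agent.Lib.Char.Degree.charDegree_natCast hc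
      simp only [Pi.neg_apply, hφ1] at h1
      rw [← h2] at h1
      have h3 : ((charDegree (-fun x => (ξ : H → ℂ) (φ x)) + charDegree (ξ : H → ℂ) : ℕ) : ℂ) = 0 := by
        push_cast
        rw [h1]
        ring
      have h4 : charDegree (-fun x => (ξ : H → ℂ) (φ x)) + charDegree (ξ : H → ℂ) = 0 := by
        exact_mod_cast h3
      have h5 := Cfsg.Agent.Lib.Char.Degree.charDegree_pos ξ.2
      omega
  let K : Subgroup G := ⨅ ξ : IrrCharacter H, charKer (isCharacter_of_isIrrCharacter (hirr ξ))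
  have hK : ∀ x, x ∈ K ↔ ∀ ξ : IrrCharacter H, (ξ : H → ℂ) (φ x) = (ξ : H → ℂ) 1 := by
    intro x
    simp only [K, Subgroup.mem_iInf, mem_charKer, hφ1]
  have hKn : K.Normal := Subgroup.normal_iInf_normal fun ξ => charKer_normal _
  have hpowH : ∀ u : H, ((u : G)) ^ a = u := by
    intro u
    have h0 : (u : G) ^ Nat.card H = 1 := by
      rw [← Subgroup.coe_pow, pow_card_eq_one']
      rfl
    have h1 : orderOf (u : G) ∣ Nat.card H := orderOf_dvd_of_pow_eq_one h0
    have h2 : (u : G) ^ a = (u : G) ^ 1 := pow_eq_pow_iff_modEq.mpr (ha1.of_dvd h1)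
    simpa using h2
  have hinf : K ⊓ H = ⊥ := by
    rw [eq_bot_iff]
    rintro x ⟨hxK, hxH⟩
    have h1 := (hK x).mp hxK
    have h2 : IsConj x ((φ x : H) : G) := by
      have := hφ x
      rwa [hpowH ⟨x, hxH⟩] at this
    have h3 : IsConj (φ x) (⟨x, hxH⟩ : H) := hconj _ _ h2.symm
    have h4 : IsConj (φ x) (1 : H) := by
      rw [isConj_iff_forall_irr]
      exact h1
    have h5 : IsConj (⟨x, hxH⟩ : H) 1 := h3.symm.trans h4
    rw [isConj_one_left] at h5
    simpa [Subtype.ext_iff] using h5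
  have hcardK : Nat.card G ≤ Nat.card K * Nat.card H := by
    have h1 := hcen 1
    have h2 : cen H 1 = Nat.card H := by
      unfold cen
      have : Subgroup.centralizer ({(1 : H)} : Set H) = ⊤ := by
        ext z
        simp [Subgroup.mem_centralizer_iff]
      rw [this, Subgroup.card_top]
    rw [h2] at h1
    rw [← h1, mul_comm]
    apply Nat.mul_le_mul_right
    have h3 : Nat.card K = (Finset.univ.filter (· ∈ K)).card :=
      Nat.subtype_card _ (by simp)
    rw [cnt, h3]
    apply Finset.card_le_card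
    intro x hx
    simp only [Finset.mem_filter, Finset.mem_univ, true_and] at hx ⊢
    rw [isConj_one_left] at hx
    rw [hK]
    intro ξ
    rw [hx]
  have hsup : K ⊔ H = ⊤ := by
    apply Subgroup.eq_top_of_le_card
    refine hcardK.trans ?_
    rw [← Nat.card_prod]
    let f : K × H → ↥(K ⊔ H) := fun t =>
      ⟨(t.1 : G) * (t.2 : G), Subgroup.mul_mem _ (Subgroup.mem_sup_left t.1.2)
        (Subgroup.mem_sup_right t.2.2)⟩
    apply Nat.card_le_card_of_injective f
    rintro ⟨k₁, h₁⟩ ⟨k₂, h₂⟩ he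
    have h3 : (k₁ : G) * h₁ = k₂ * h₂ := congrArg Subtype.val he
    have h4 : (k₂ : G)⁻¹ * k₁ = h₂ * (h₁ : G)⁻¹ := by
      rw [inv_mul_eq_iff_eq_mul, ← mul_assoc, ← h3]
      simp
    have h5 : (k₂ : G)⁻¹ * k₁ ∈ K ⊓ H := by
      refine ⟨K.mul_mem (K.inv_mem k₂.2) k₁.2, ?_⟩
      rw [h4]
      exact H.mul_mem h₂.2 (H.inv_mem h₁.2)
    rw [hinf, Subgroup.mem_bot] at h5
    have h6 : (k₁ : G) = k₂ := by
      rw [inv_mul_eq_one] at h5
      exact h5.symm
    have h7 : (h₁ : G) = h₂ := by
      rw [h6] at h3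
      exact mul_left_cancel h3
    exact Prod.ext (Subtype.ext h6) (Subtype.ext h7)
  exact ⟨K, hKn, hsup, hinf⟩

end Cfsg.Agent.S0877
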