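import Cfsg.Statements.S0878
import Cfsg.Agent.Lib.CharDeep.Zassenhaus

set_option autoImplicit false
open Cfsg

namespace Cfsg.Agent.S0878

open Cfsg.Agent.Lib.CharDeep.Zassenhaus

/-- Let G be a Zassenhaus group on the finite set Ω, a a point, and let H be the subgroup of the stabilizer of a consisting of the identity and the elements fixing no point other than a (given here as a subgroup of the stabilizer of order one less than the number of points whose non-identity elements fix only a; it is the Frobenius kernel of the stabilizer). Then an element outside the stabilizer of a conjugates no non-identity element of H into H, and the normalizer of H is exactly the stabilizer of a. -/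
theorem result {G Ω : Type*} [Group G] [Finite G] [MulAction G Ω] [Fintype Ω] (hZ : Cfsg.IsZassenhausGroup G Ω) (a : Ω) (H : Subgroup G) (hHa : H ≤ MulAction.stabilizer G a) (hHcard : Nat.card H + 1 = Fintype.card Ω) (hHfix : ∀ u ∈ H, u ≠ 1 → ∀ c : Ω, u • c = c → c = a) : (∀ g : G, g ∉ MulAction.stabilizer G a → ∀ u ∈ H, g * u * g⁻¹ ∈ H → u = 1) ∧ Subgroup.normalizer (H : Set G) = MulAction.stabilizer G a := by
  obtain ⟨hfaith, h2, h3, ⟨g₀, hg₀, a₀, b₀, hab₀, hga₀, hgb₀⟩, -⟩ := hZ
  have hpart1 : ∀ g : G, g ∉ MulAction.stabilizer G a → ∀ u ∈ H, g * u * g⁻¹ ∈ H → u = 1 := by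
    intro g hg u hu hgu
    by_contra hu1
    apply hg
    have hne : g * u * g⁻¹ ≠ 1 := by
      intro h
      apply hu1
      have := congrArg (fun x => g⁻¹ * x * g) h
      simpa [mul_assoc] using this
    have hfix : (g * u * g⁻¹) • (g • a) = g • a := by
      have hu' : u • a = a := hHa hu
      rw [mul_smul, mul_smul, inv_smul_smul, hu']
    have := hHfix _ hgu hne _ hfix
    exact this
  refine ⟨hpart1, ?_⟩
  -- there is a nontrivial element of H
  obtain ⟨c₀, hc₀⟩ : ∃ c : Ω, g₀ • c ≠ c := by
    by_contra hcon
    push Not at hcon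
    apply hg₀
    apply hfaith.eq_of_smul_eq_smul
    intro c
    simp [hcon c]
  have hthree : 3 ≤ Fintype.card Ω := by
    have h1 : a₀ ≠ c₀ := fun h => hc₀ (h ▸ hga₀)
    have h2' : b₀ ≠ c₀ := fun h => hc₀ (h ▸ hgb₀)
    classical
    have : ({a₀, b₀, c₀} : Finset Ω).card = 3 := by
      rw [Finset.card_insert_of_notMem, Finset.card_insert_of_notMem, Finset.card_singleton]
      · simpa using h2'
      · simp [hab₀, h1]
    rw [← this]
    exact Finset.card_le_univ _
  have hHnt : 1 < Nat.card H := by omega
  have : Nontrivial H := (Finite.one_lt_card_iff_nontrivial).mp hHnt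
  obtain ⟨⟨u, hu⟩, hu1⟩ := exists_ne (1 : H)
  have hu1' : u ≠ 1 := fun h => hu1 (Subtype.ext h)
  ext g
  constructor
  · intro hg
    by_contra hgs
    exact hu1' (hpart1 g hgs u hu ((Subgroup.mem_normalizer_iff.mp hg u).mp hu))
  · intro hg
    rw [Subgroup.mem_normalizer_iff]
    intro h
    constructor
    · intro hh
      exact conj_mem_of_stabilizer h3 hHcard hHfix hHa hg hh
    · intro hh
      have hg' : g⁻¹ • a = a := (MulAction.stabilizer G a).inv_mem hg
      have := conj_mem_of_stabilizer h3 hHcard hHfix hHa hg' hh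
      simpa [mul_assoc] using this

end Cfsg.Agent.S0878
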