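import Cfsg.Statements.S0880
import Cfsg.Agent.Lib.Zass.InvCentral

set_option autoImplicit false
open Cfsg

namespace Cfsg.Agent.S0880

/-- Let G be a finite simple Zassenhaus group on Ω with n points whose two-point stabilizer E has odd order less than n - 2. Then there are two elements of G, each fixing no point of Ω, that are not conjugate. -/
theorem result {G Ω : Type*} [Group G] [Finite G] [MulAction G Ω] [Fintype Ω] (hZ : Cfsg.IsZassenhausGroup G Ω) {a b : Ω} (hab : a ≠ b) [IsSimpleGroup G] (hodd : Odd (Nat.card ↥(MulAction.stabilizer G a ⊓ MulAction.stabilizer G b : Subgroup G))) (hlt : Nat.card ↥(MulAction.stabilizer G a ⊓ MulAction.stabilizer G b : Subgroup G) < Fintype.card Ω - 2) : ∃ x y : G, (∀ c : Ω, x • c ≠ c) ∧ (∀ c : Ω, y • c ≠ c) ∧ ¬ IsConj x y := by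
  classical
  haveI := Fintype.ofFinite G
  have hC := Cfsg.Agent.Lib.Zass.Inv.Ctx.of_simple hZ hab hodd
  have h1 : Nat.card ↥(MulAction.stabilizer G a ⊓ MulAction.stabilizer G b : Subgroup G) + 1 ≤ _ :=
    Cfsg.Agent.Lib.Zass.InvCount.two_mul_card_fpfClasses (G := G) hC hab
  obtain ⟨g, hg1, hga, hgb⟩ := Cfsg.Agent.Lib.Zass.Basic.exists_ne_fix2 hZ hab
  have h3 : 1 < Nat.card ↥(MulAction.stabilizer G a ⊓ MulAction.stabilizer G b : Subgroup G) := by
    apply Finite.one_lt_card_iff_nontrivial.2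
    exact ⟨⟨⟨g, hga, hgb⟩, 1, fun h => hg1 (congrArg Subtype.val h)⟩⟩
  obtain ⟨k, hk⟩ := hodd
  have h2 : 1 < (Cfsg.Agent.Lib.Zass.InvCount.fpfClasses G Ω).card := by omega
  obtain ⟨C, hC1, D, hD1, hCD⟩ := Finset.one_lt_card.1 h2
  rw [Cfsg.Agent.Lib.Zass.InvCount.fpfClasses, Finset.mem_filter] at hC1 hD1
  obtain ⟨x, rfl⟩ := ConjClasses.mk_surjective C
  obtain ⟨y, rfl⟩ := ConjClasses.mk_surjective D
  refine ⟨x, y, hC1.2 x rfl, hD1.2 y rfl, fun hxy => hCD (ConjClasses.mk_eq_mk_iff_isConj.2 hxy)⟩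

end Cfsg.Agent.S0880
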