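import Cfsg.Statements.S0890
import Cfsg.Agent.Lib.CharDeep.MaxInd

set_option autoImplicit false
set_option linter.unusedSectionVars false
open Cfsg

namespace Cfsg.Agent.S0890

open Module
open Cfsg.Agent.Lib.Char.Basic Cfsg.Agent.Lib.Char.Ortho Cfsg.Agent.Lib.Char.Complete
open Cfsg.Agent.Lib.Char.Induced Cfsg.Agent.Lib.Char.Conj
open Cfsg.Agent.Lib.CharDeep.MaxInd
open scoped ComplexConjugate

universe u

section Main

variable {G : Type u} [Group G] [Fintype G] {L H : Subgroup G} [hL : L.Normal]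

theorem isIrr_sub (hLH : L ≤ H) {ϑ : H → ℂ} (hϑ : IsCharacter H ϑ)
    (hϑL : IsIrrCharacter L (fun x : L => ϑ ⟨x, hLH x.2⟩)) {S : Subgroup G} (hLS : L ≤ S)
    (hSH : S ≤ H) : IsIrrCharacter S (fun y : S => ϑ ⟨y, hSH y.2⟩) :=
  isIrr_of_le hLS (isCharacter_comp (Subgroup.inclusion hSH) hϑ) hϑL

theorem isIrr_conj_sub (hLH : L ≤ H) {ϑ : H → ℂ} (hϑ : IsCharacter H ϑ)
    (hϑL : IsIrrCharacter L (fun x : L => ϑ ⟨x, hLH x.2⟩)) {S : Subgroup G} (hLS : L ≤ S) (k : G)
    (hmem : ∀ y ∈ S, k⁻¹ * y * k ∈ H) :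
    IsIrrCharacter S (fun y : S => ϑ ⟨k⁻¹ * y * k, hmem y y.2⟩) := by
  let f : S →* H :=
    { toFun := fun y => ⟨k⁻¹ * y * k, hmem y y.2⟩
      map_one' := Subtype.ext (by simp)
      map_mul' := fun a b => Subtype.ext (by simp [mul_assoc]) }
  have hc : IsCharacter S (ϑ ∘ f) := isCharacter_comp f hϑ
  apply isIrr_of_le hLS hc
  let σ : L ≃* L := conjEquiv hL k⁻¹
  have h1 : (fun a : L => (ϑ ∘ f) ⟨a, hLS a.2⟩) = (fun x : L => ϑ ⟨x, hLH x.2⟩) ∘ σ := by
    funext a
    simp only [Function.comp]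
    congr 1
    apply Subtype.ext
    simp [f, σ]
  rw [h1]
  exact isIrrCharacter_comp_mulEquiv σ hϑL

/-- One summand of the norm. -/
theorem sum_T (hLH : L ≤ H) {ϑ : H → ℂ} (hϑ : IsCharacter H ϑ)
    (hϑL : IsIrrCharacter L (fun x : L => ϑ ⟨x, hLH x.2⟩)) {D : Subgroup G} [Fintype D]
    (hLD : L ≤ D) (hDH : D ≤ H) (k : G) (hk : ∀ y ∈ D, k⁻¹ * y * k ∈ H → k⁻¹ * y * k ∈ D) :
    ∃ c : ℕ, c ≤ Nat.card D ∧ (c = Nat.card D → ∀ y ∈ D, k⁻¹ * y * k ∈ D) ∧
      ∑ y : D, extendByZero H ϑ (k⁻¹ * y * k) * conj (ϑ ⟨y, hDH y.2⟩) = c := by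
  classical
  let S : Subgroup G := D ⊓ D.comap (MulAut.conj k⁻¹).toMonoidHom
  have hS : ∀ y, y ∈ S ↔ y ∈ D ∧ k⁻¹ * y * k ∈ D := by
    intro y
    simp [S, Subgroup.mem_inf, Subgroup.mem_comap]
  have hSD : S ≤ D := inf_le_left
  have hSH : S ≤ H := hSD.trans hDH
  have hLS : L ≤ S := by
    intro l hl
    rw [hS]
    refine ⟨hLD hl, hLD ?_⟩
    have := hL.conj_mem l hl k⁻¹
    simpa using this
  have hmem : ∀ y ∈ S, k⁻¹ * y * k ∈ H := fun y hy => hDH ((hS y).mp hy).2
  let _ : Fintype S := Fintype.ofFinite _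
  have ha := isIrr_conj_sub hLH hϑ hϑL hLS k hmem
  have hb := isIrr_sub hLH hϑ hϑL hLS hSH
  have hcard : (Nat.card S : ℂ) ≠ 0 := card_subgroup_ne_zero S
  have hsum : ∑ y : D, extendByZero H ϑ (k⁻¹ * y * k) * conj (ϑ ⟨y, hDH y.2⟩) =
      (Nat.card S : ℂ) * classInner (fun y : S => ϑ ⟨k⁻¹ * y * k, hmem y y.2⟩)
        (fun y : S => ϑ ⟨y, hSH y.2⟩) := by
    rw [sum_subgroup_eq hSD]
    · unfold classInner
      rw [← mul_assoc, mul_inv_cancel₀ hcard, one_mul]
      refine Finset.sum_congr rfl fun y _ => ?_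
      rw [extendByZero_of_mem H ϑ (hmem y y.2)]
    · intro t ht
      have h1 : k⁻¹ * (t : G) * k ∉ H := by
        intro h2
        exact ht ((hS t).mpr ⟨t.2, hk t t.2 h2⟩)
      rw [extendByZero_of_not_mem H ϑ h1, zero_mul]
  rw [classInner_irr ha hb] at hsum
  by_cases hab : (fun y : S => ϑ ⟨k⁻¹ * y * k, hmem y y.2⟩) = (fun y : S => ϑ ⟨y, hSH y.2⟩)
  · rw [if_pos hab, mul_one] at hsum
    refine ⟨Nat.card S, Subgroup.card_le_of_le hSD, ?_, hsum⟩
    intro hc y hy
    have h1 : S = D := Subgroup.eq_of_le_of_card_ge hSD hc.ge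
    have h2 : y ∈ S := h1 ▸ hy
    exact ((hS y).mp h2).2
  · rw [if_neg hab, mul_zero] at hsum
    refine ⟨0, Nat.zero_le _, ?_, by simpa using hsum⟩
    intro hc
    exact absurd hc.symm Nat.card_pos.ne'

/-- The norm on a normal subgroup containing the supplement. -/
theorem norm_formula (H K M : Subgroup G) [hK : K.Normal] [hM : M.Normal] (hKM : K ≤ M)
    (htop : H ⊔ K = ⊤) {ϑ : H → ℂ} (hcl : IsClassFunction H ϑ) [Fintype H] [Fintype K] [Fintype M]
    [Fintype ↥(H ⊓ M)] :
    ∑ x : M, indFun H ϑ x * conj (indFun H ϑ x) =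
      (Nat.card ↥(H ⊓ K) : ℂ)⁻¹ * (Nat.card ↥(H ⊓ K) : ℂ)⁻¹ * (Nat.card K : ℂ) *
        ∑ k : K, ∑ y : ↥(H ⊓ M), extendByZero H ϑ ((k : G)⁻¹ * y * k) *
          conj (ϑ ⟨y, y.2.1⟩) := by
  classical
  set c : ℂ := (Nat.card ↥(H ⊓ K) : ℂ)⁻¹ with hc
  have hval := indFun_eq_sum_normal H K htop hcl
  have hcl' := isClassFunction_indFun H ϑ
  have h1 : ∀ k : K, ∑ x : M, indFun H ϑ x * conj (extendByZero H ϑ ((k : G)⁻¹ * x * k)) =
      ∑ y : M, indFun H ϑ y * conj (extendByZero H ϑ y) := by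
    intro k
    refine Fintype.sum_equiv (conjEquiv hM (k : G)⁻¹).toEquiv _ _ fun x => ?_
    have h2 : (((conjEquiv hM (k : G)⁻¹).toEquiv x : M) : G) = (k : G)⁻¹ * x * k := by
      simp
    rw [h2]
    have h3 := hcl' (x : G) (k : G)⁻¹
    rw [inv_inv] at h3
    rw [h3]
  have h2 : ∑ x : M, indFun H ϑ x * conj (indFun H ϑ x) =
      c * ∑ k : K, ∑ x : M, indFun H ϑ x * conj (extendByZero H ϑ ((k : G)⁻¹ * x * k)) := by
    rw [Finset.sum_comm]
    rw [Finset.mul_sum]
    refine Finset.sum_congr rfl fun x _ => ?_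
    have h3 : conj (indFun H ϑ x) = c * ∑ k : K, conj (extendByZero H ϑ ((k : G)⁻¹ * x * k)) := by
      rw [hval (x : G), hc]
      simp only [map_mul, map_inv₀, map_natCast, map_sum]
    rw [h3, mul_left_comm, Finset.mul_sum]
  have h3 : ∑ y : M, indFun H ϑ y * conj (extendByZero H ϑ y) =
      ∑ y : ↥(H ⊓ M), indFun H ϑ y * conj (ϑ ⟨y, y.2.1⟩) := by
    rw [sum_subgroup_eq (S := H ⊓ M) (T := M) inf_le_right]
    · refine Finset.sum_congr rfl fun y _ => ?_
      rw [extendByZero_of_mem H ϑ y.2.1]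
    · intro t ht
      have h4 : (t : G) ∉ H := fun h => ht ⟨h, t.2⟩
      rw [extendByZero_of_not_mem H ϑ h4]
      simp
  have h4 : ∑ y : ↥(H ⊓ M), indFun H ϑ y * conj (ϑ ⟨y, y.2.1⟩) =
      c * ∑ k : K, ∑ y : ↥(H ⊓ M), extendByZero H ϑ ((k : G)⁻¹ * y * k) * conj (ϑ ⟨y, y.2.1⟩) := by
    rw [Finset.sum_comm, Finset.mul_sum]
    refine Finset.sum_congr rfl fun y _ => ?_
    rw [hval (y : G), ← Finset.sum_mul, mul_assoc]
  rw [h2, Finset.sum_congr rfl (fun k _ => h1 k), Finset.sum_const, Finset.card_univ,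
    ← Nat.card_eq_fintype_card, nsmul_eq_mul, h3, h4]
  ring

/-- If the norm on `M` is as large as it can be then `K` normalizes `H ⊓ M`. -/
theorem normalize_of_norm (hLH : L ≤ H) {ϑ : H → ℂ} (hϑ : IsCharacter H ϑ)
    (hϑL : IsIrrCharacter L (fun x : L => ϑ ⟨x, hLH x.2⟩)) (K M : Subgroup G) [hK : K.Normal]
    [hM : M.Normal] (hKM : K ≤ M) (htop : H ⊔ K = ⊤) (hLM : L ≤ M) [Fintype H] [Fintype K]
    [Fintype M] [Fintype ↥(H ⊓ M)] {r : ℕ}
    (hrC : r * Nat.card ↥(H ⊓ K) = Nat.card K)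
    (hMC : Nat.card M * Nat.card ↥(H ⊓ K) = Nat.card K * Nat.card ↥(H ⊓ M))
    (hN : ∑ x : M, indFun H ϑ x * conj (indFun H ϑ x) = (r : ℂ) * (Nat.card M : ℂ)) :
    ∀ k ∈ K, ∀ y ∈ H ⊓ M, k⁻¹ * y * k ∈ H ⊓ M := by
  classical
  have hcl := isClassFunction_of_isCharacter hϑ
  have hLD : L ≤ H ⊓ M := le_inf hLH hLM
  have hk : ∀ k : K, ∀ y ∈ H ⊓ M, (k : G)⁻¹ * y * k ∈ H → (k : G)⁻¹ * y * k ∈ H ⊓ M := by
    intro k y hy h
    refine ⟨h, ?_⟩
    have := hM.conj_mem y hy.2 (k : G)⁻¹
    simpa using this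
  choose n hn1 hn2 hn3 using fun k : K =>
    sum_T hLH hϑ hϑL (D := H ⊓ M) hLD inf_le_left (k : G) (hk k)
  have hf := norm_formula H K M hKM htop hcl
  simp only [hn3] at hf
  rw [hN] at hf
  have hC0 : (Nat.card ↥(H ⊓ K) : ℂ) ≠ 0 := card_subgroup_ne_zero _
  have hK0 : (Nat.card K : ℂ) ≠ 0 := card_subgroup_ne_zero _
  have hrC' : (r : ℂ) * (Nat.card ↥(H ⊓ K) : ℂ) = (Nat.card K : ℂ) := by exact_mod_cast hrC
  have hMC' : (Nat.card M : ℂ) * (Nat.card ↥(H ⊓ K) : ℂ) =
      (Nat.card K : ℂ) * (Nat.card ↥(H ⊓ M) : ℂ) := by exact_mod_cast hMC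
  have h1 : ((∑ k : K, n k : ℕ) : ℂ) = ((∑ _k : K, Nat.card ↥(H ⊓ M) : ℕ) : ℂ) := by
    have h2 : ((∑ _k : K, Nat.card ↥(H ⊓ M) : ℕ) : ℂ) =
        (Nat.card K : ℂ) * (Nat.card ↥(H ⊓ M) : ℂ) := by
      rw [Finset.sum_const, Finset.card_univ, ← Nat.card_eq_fintype_card]
      simp
    rw [h2, ← hMC']
    push_cast
    field_simp at hf
    have h3 : (∑ k : K, (n k : ℂ)) * (Nat.card K : ℂ) =
        (Nat.card M : ℂ) * (Nat.card ↥(H ⊓ K) : ℂ) * (Nat.card K : ℂ) := by
      rw [← hrC'] at hf ⊢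
      linear_combination -hf
    exact mul_right_cancel₀ hK0 h3
  have h2 : ∑ k : K, n k = ∑ _k : K, Nat.card ↥(H ⊓ M) := by exact_mod_cast h1
  have h3 := (Finset.sum_eq_sum_iff_of_le (fun k _ => hn1 k)).mp h2
  intro k hk' y hy
  exact hn2 ⟨k, hk'⟩ (h3 _ (Finset.mem_univ _)) y hy

end Main

/-- Let L ≤ H < G with L normal in G, H a maximal subgroup and G / L solvable. Let ϑ be an irreducible character of H whose restriction to L is irreducible and whose induction χ to G is irreducible. Then there is a normal subgroup M of G containing L such that the restriction of χ to M is not a natural-number multiple of a single irreducible character of M. -/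
theorem result {G : Type*} [Group G] [Fintype G] (L H : Subgroup G) [L.Normal] (hLH : L ≤ H) (hmax : IsCoatom H) (hsolv : Group.IsSolvable (G ⧸ L)) (ϑ : H → ℂ) (hϑ : Cfsg.IsIrrCharacter H ϑ) (hϑL : Cfsg.IsIrrCharacter L (fun x : L => ϑ ⟨(x : G), hLH x.2⟩)) (hind : Cfsg.IsIrrCharacter G (Cfsg.indFun H ϑ)) : ∃ M : Subgroup G, M.Normal ∧ L ≤ M ∧ ¬ ∃ (φ : M → ℂ) (e : ℕ), Cfsg.IsIrrCharacter M φ ∧ (fun m : M => Cfsg.indFun H ϑ m) = (e : ℂ) • φ := by
  classical
  by_contra hno
  push_neg at hno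
  have hϑc := isCharacter_of_isIrrCharacter hϑ
  have hϑcl := isClassFunction_of_isCharacter hϑc
  set χ := indFun H ϑ with hχdef
  have hχcl : IsClassFunction G χ := isClassFunction_indFun H ϑ
  let _ : Fintype H := Fintype.ofFinite _
  -- the core
  let C : Subgroup G := H.normalCore
  have hCH : C ≤ H := H.normalCore_le
  have hLC : L ≤ C := Subgroup.normal_le_normalCore.mpr hLH
  have hCn : C.Normal := inferInstance
  have hCtop : C ≠ ⊤ := by
    intro h
    apply hmax.1
    rw [eq_top_iff, ← h]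
    exact hCH
  obtain ⟨K, hKn, hCK, hchiefK⟩ := exists_minimal_normal_above C hCtop
  have hcommK : ⁅K, K⁆ ≤ C := commutator_le_of_chief hsolv hLC hCK hchiefK
  have hKH : ¬ K ≤ H := fun h => absurd (Subgroup.normal_le_normalCore.mpr h) (not_le_of_gt hCK)
  have htop : H ⊔ K = ⊤ := hmax.2 _ (lt_of_le_of_ne le_sup_left (fun h => hKH (by
    rw [h]
    exact le_sup_right)))
  have hGHK : ∀ g : G, ∃ h ∈ H, ∃ k ∈ K, g = h * k := by
    intro g
    have h1 : g ∈ ((H ⊔ K : Subgroup G) : Set G) := by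
      rw [htop]
      exact Subgroup.mem_top g
    rw [Subgroup.mul_normal] at h1
    obtain ⟨h, hh, k, hk, rfl⟩ := Set.mem_mul.mp h1
    exact ⟨h, hh, k, hk, rfl⟩
  have hinf : H ⊓ K = C := by
    apply le_antisymm _ (le_inf hCH hCK.le)
    haveI hn : (H ⊓ K).Normal := by
      constructor
      intro x hx g
      obtain ⟨h, hh, k, hk, rfl⟩ := hGHK g
      have h1 : k * x * k⁻¹ ∈ H ⊓ K := by
        refine ⟨?_, hKn.conj_mem x hx.2 k⟩
        have h2 : k * x * k⁻¹ * x⁻¹ ∈ C := hcommK (Subgroup.commutator_mem_commutator hk hx.2)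
        have h3 := H.mul_mem (hCH h2) hx.1
        simpa using h3
      have h2 : h * k * x * (h * k)⁻¹ = h * (k * x * k⁻¹) * h⁻¹ := by group
      rw [h2]
      exact ⟨H.mul_mem (H.mul_mem hh h1.1) (H.inv_mem hh), hKn.conj_mem _ h1.2 h⟩
    exact Subgroup.normal_le_normalCore.mpr inf_le_left
  -- cards
  set r := H.index with hr
  have hr1 : r ≠ 1 := by
    intro h
    exact hmax.1 (Subgroup.index_eq_one.mp h)
  have hr0 : r ≠ 0 := Subgroup.index_ne_zero_of_finite
  have hG : r * Nat.card H = Nat.card G := H.index_mul_card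
  have hH0 : Nat.card H ≠ 0 := Nat.card_pos.ne'
  have hcardK : Nat.card H * Nat.card K = Nat.card G * Nat.card C := by
    have h1 := card_formula H K
    rw [htop, Subgroup.index_top, one_mul, hinf] at h1
    exact h1
  have hrC : r * Nat.card C = Nat.card K := by
    have h1 : Nat.card H * (r * Nat.card C) = Nat.card H * Nat.card K := by
      rw [hcardK, ← hG]
      ring
    exact Nat.eq_of_mul_eq_mul_left (Nat.pos_of_ne_zero hH0) h1
  have hrel : C.relIndex K = r := by
    have h1 : (⊥ : Subgroup G).relIndex C * C.relIndex K = (⊥ : Subgroup G).relIndex K :=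
      Subgroup.relIndex_mul_relIndex _ _ _ bot_le hCK.le
    simp only [Subgroup.relIndex_bot_left] at h1
    have h2 : Nat.card C * C.relIndex K = Nat.card C * r := by
      rw [h1, ← hrC, mul_comm]
    exact Nat.eq_of_mul_eq_mul_left Nat.card_pos h2
  -- the restriction to the core
  let _ : Fintype C := Fintype.ofFinite _
  let _ : Fintype K := Fintype.ofFinite _
  have hηirr : IsIrrCharacter C (fun y : C => ϑ ⟨y, hCH y.2⟩) := isIrr_sub hLH hϑc hϑL hLC hCH
  have hχ1 : χ 1 = (r : ℂ) * ϑ 1 := indFun_one H ϑ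
  have hϑ1 : ϑ 1 ≠ 0 := irr_one_ne_zero hϑ
  have hχC : ∀ y : C, χ y = (r : ℂ) * ϑ ⟨y, hCH y.2⟩ := by
    obtain ⟨γ, e₀, hγ, hγe⟩ := hno C hCn hLC
    have hcon : classInner (fun y : C => χ y) (fun y : C => ϑ ⟨y, hCH y.2⟩) ≠ 0 := by
      have h1 : classInner (fun h : H => χ h) ϑ ≠ 0 := by
        rw [← classInner_indFun_right H ϑ χ hχcl, hχdef, classInner_self_of_isIrr hind]
        exact one_ne_zero
      have h2 := Cfsg.Agent.Lib.Char.Clifford.classInner_ne_zero_mono (Subgroup.inclusion hCH)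
        (isCharacter_restrict H (isCharacter_of_isIrrCharacter hind)) hϑ h1
        (isCharacter_of_isIrrCharacter hηirr) (by
          change classInner (fun y : C => ϑ ⟨y, hCH y.2⟩) _ ≠ 0
          rw [classInner_self_of_isIrr hηirr]
          exact one_ne_zero)
      exact h2
    rw [hγe, classInner_smul_left] at hcon
    have hγη : γ = fun y : C => ϑ ⟨y, hCH y.2⟩ := by
      by_contra hne
      exact hcon (by rw [classInner_eq_zero_of_isIrr_of_ne hγ hηirr hne, mul_zero])
    have he₀ : (e₀ : ℂ) = r := by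
      have h1 := congrFun hγe 1
      simp only [Subgroup.coe_one, Pi.smul_apply, smul_eq_mul, hγη] at h1
      have h2 : ϑ ⟨1, H.one_mem⟩ = ϑ 1 := rfl
      rw [h2, hχ1] at h1
      exact (mul_right_cancel₀ hϑ1 h1).symm
    intro y
    have h1 := congrFun hγe y
    simp only [Pi.smul_apply, smul_eq_mul, hγη, he₀] at h1
    exact h1
  have hχoff : ∀ x ∈ K, x ∉ C → χ x = 0 := by
    intro x hxK hxC
    rw [hχdef, indFun_apply]
    apply mul_eq_zero_of_right
    apply Finset.sum_eq_zero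
    intro g _
    apply extendByZero_of_not_mem
    intro h
    apply hxC
    have h1 : g⁻¹ * x * g ∈ H ⊓ K := by
      refine ⟨h, ?_⟩
      have := hKn.conj_mem x hxK g⁻¹
      simpa using this
    rw [hinf] at h1
    have h2 := hCn.conj_mem _ h1 g
    simpa [mul_assoc] using h2
  have hCnorm : ∑ y : C, ϑ ⟨y, hCH y.2⟩ * conj (ϑ ⟨y, hCH y.2⟩) = (Nat.card C : ℂ) := by
    have h1 := classInner_self_of_isIrr hηirr
    unfold classInner at h1
    have hC0 : (Nat.card C : ℂ) ≠ 0 := card_subgroup_ne_zero C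
    field_simp at h1
    exact h1
  have hKnorm : ∑ x : K, χ x * conj (χ x) = (r : ℂ) * (Nat.card K : ℂ) := by
    rw [sum_subgroup_eq hCK.le]
    · have h1 : ∀ y : C, χ y * conj (χ y) =
          (r : ℂ) * (r : ℂ) * (ϑ ⟨y, hCH y.2⟩ * conj (ϑ ⟨y, hCH y.2⟩)) := by
        intro y
        rw [hχC y]
        simp only [map_mul, map_natCast]
        ring
      simp only [h1]
      rw [← Finset.mul_sum, hCnorm, ← hrC]
      push_cast
      ring
    · intro t ht
      rw [hχoff t t.2 ht]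
      simp
  -- on `K`
  obtain ⟨β, e, hβ, hβe⟩ := hno K hKn (hLC.trans hCK.le)
  have hK0 : (Nat.card K : ℂ) ≠ 0 := card_subgroup_ne_zero K
  have hsq : e ^ 2 = r := by
    have h1 : ∑ x : K, χ x * conj (χ x) = (Nat.card K : ℂ) * ((e : ℂ) * e) := by
      have h2 := classInner_self_of_isIrr hβ
      unfold classInner at h2
      have h3 : ∀ x : K, χ x * conj (χ x) = (e : ℂ) * e * (β x * conj (β x)) := by
        intro x
        have h4 := congrFun hβe x
        simp only [Pi.smul_apply, smul_eq_mul] at h4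
        rw [h4]
        simp only [map_mul, map_natCast]
        ring
      simp only [h3]
      rw [← Finset.mul_sum]
      field_simp at h2
      rw [h2]
      ring
    rw [h1] at hKnorm
    have h2 : (e : ℂ) * e = r := by
      have := mul_left_cancel₀ hK0 (by rw [hKnorm]; ring : (Nat.card K : ℂ) * ((e : ℂ) * e) = (Nat.card K : ℂ) * r)
      exact this
    have h3 : ((e ^ 2 : ℕ) : ℂ) = r := by
      push_cast
      rw [sq]
      exact h2
    exact_mod_cast h3
  have hKtop : K ≠ ⊤ := by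
    intro hK
    have h1 : ∑ x : G, χ x * conj (χ x) = ∑ x : K, χ x * conj (χ x) :=
      sum_eq_sum_subgroup K _ (fun g hg => absurd (by rw [hK]; exact Subgroup.mem_top g) hg)
    have h2 := classInner_self_of_isIrr hind
    unfold classInner at h2
    rw [h1, hKnorm] at h2
    have h3 : Nat.card K = Nat.card G := by
      rw [hK, Subgroup.card_top]
    rw [h3] at h2
    have hG0 : (Nat.card G : ℂ) ≠ 0 := card_ne_zero_complex
    field_simp at h2
    apply hr1
    exact_mod_cast h2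
  obtain ⟨M, hMn, hKM, hchiefM⟩ := exists_minimal_normal_above K hKtop
  have hLK : L ≤ K := hLC.trans hCK.le
  have hcommM : ⁅M, M⁆ ≤ K := commutator_le_of_chief hsolv hLK hKM hchiefM
  obtain ⟨p, a, hp, hpa, ha⟩ := exists_prime_relIndex hcommK hCK hchiefK
  obtain ⟨q, b, hq, hqb, hb⟩ := exists_prime_relIndex hcommM hKM hchiefM
  have hrp : r = p ^ a := by rw [← hrel, hpa]
  have hnorm : ∀ k ∈ K, ∀ y ∈ H ⊓ M, k⁻¹ * y * k ∈ H ⊓ M := by
    by_cases hpq : p = q
    · subst hpq
      have hCM : C.relIndex M = p ^ (a + b) := by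
        rw [pow_add, ← hpa, ← hqb]
        exact (Subgroup.relIndex_mul_relIndex _ _ _ hCK.le hKM.le).symm
      have hcen := central_of_pgroup hCK hKM.le hchiefK hp hCM
      intro k hk y hy
      have h1 := hcen k⁻¹ (K.inv_mem hk) y hy.2
      rw [inv_inv] at h1
      refine ⟨?_, ?_⟩
      · have := H.mul_mem (hCH h1) hy.1
        simpa using this
      · have := hMn.conj_mem y hy.2 k⁻¹
        simpa using this
    · obtain ⟨ν, f, hν, hνf⟩ := hno M hMn (hLK.trans hKM.le)
      let _ : Fintype M := Fintype.ofFinite _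
      let _ : Fintype ↥(H ⊓ M) := Fintype.ofFinite _
      have hMK : ∀ n : M, χ n = (f : ℂ) * ν n := by
        intro n
        have := congrFun hνf n
        simpa only [Pi.smul_apply, smul_eq_mul] using this
      have hKK : ∀ n : K, χ n = (e : ℂ) * β n := by
        intro n
        have := congrFun hβe n
        simpa only [Pi.smul_apply, smul_eq_mul] using this
      have hK'n : (K.subgroupOf M).Normal := Subgroup.normal_subgroupOf
      let _ : Fintype ↥(K.subgroupOf M) := Fintype.ofFinite _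
      let σ : ↥(K.subgroupOf M) ≃* K := Subgroup.subgroupOfEquivOfLe hKM.le
      let β' : ↥(K.subgroupOf M) → ℂ := β ∘ σ
      have hβ' : IsIrrCharacter _ β' := isIrrCharacter_comp_mulEquiv σ hβ
      have he0 : (e : ℂ) ≠ 0 := by
        intro h
        have h1 : e = 0 := by exact_mod_cast h
        apply hr0
        rw [← hsq, h1]
        norm_num
      have hrel2 : ∀ n : ↥(K.subgroupOf M),
          (f : ℂ) * ν n = (e : ℂ) * β' n := by
        intro n
        have h1 := hMK n
        have h2 := hKK (σ n)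
        have h3 : (((σ n : K) : G)) = ((n : M) : G) := rfl
        rw [h3] at h2
        rw [← h1, h2]
        rfl
      have hf0 : (f : ℂ) ≠ 0 := by
        intro h
        have h1 := hrel2 1
        rw [h, zero_mul] at h1
        have h2 : β' 1 = β 1 := by
          simp [β']
        rw [h2] at h1
        exact (mul_ne_zero he0 (irr_one_ne_zero hβ)) h1.symm
      have hcon : classInner (fun n : ↥(K.subgroupOf M) => ν n) β' ≠ 0 := by
        intro h
        have h1 : classInner (fun n : ↥(K.subgroupOf M) => (f : ℂ) * ν n) β' =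
            classInner (fun n : ↥(K.subgroupOf M) => (e : ℂ) * β' n) β' := by
          simp only [hrel2]
        have h2 : (fun n : ↥(K.subgroupOf M) => (f : ℂ) * ν n) =
            (f : ℂ) • (fun n : ↥(K.subgroupOf M) => ν n) := rfl
        have h3 : (fun n : ↥(K.subgroupOf M) => (e : ℂ) * β' n) = (e : ℂ) • β' := rfl
        rw [h2, h3, classInner_smul_left, classInner_smul_left, h,
          classInner_self_of_isIrr hβ', mul_zero, mul_one] at h1
        exact he0 h1.symm
      obtain ⟨e', t', hν1, hdvd⟩ :=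
        Cfsg.Agent.Lib.Char.DegDvd.dvd_index_of_constituent hK'n hβ' hν hcon
      have hindex : (K.subgroupOf M).index = q ^ b := hqb
      rw [hindex] at hdvd
      have hβ'1 : β' 1 = β 1 := by
        simp [β']
      have hfg : f * (e' * t') = e := by
        have h1 := hrel2 1
        have h2 : ν ((1 : ↥(K.subgroupOf M)) : M) = ν 1 := rfl
        rw [h2, hν1, hβ'1] at h1
        have h3 : ((f * (e' * t') : ℕ) : ℂ) = (e : ℂ) := by
          apply mul_right_cancel₀ (irr_one_ne_zero hβ)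
          rw [← h1]
          push_cast
          ring
        exact_mod_cast h3
      have hg1 : e' * t' = 1 := by
        have hdvd1 : e' * t' ∣ p ^ a := by
          rw [← hrp, ← hsq]
          exact (Dvd.intro_left f hfg).trans (dvd_pow_self e two_ne_zero)
        have hcop : Nat.Coprime (p ^ a) (q ^ b) :=
          Nat.Coprime.pow _ _ ((Nat.coprime_primes hp hq).mpr hpq)
        exact Nat.eq_one_of_dvd_coprimes hcop hdvd1 hdvd
      have hfe : f = e := by
        rw [hg1, mul_one] at hfg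
        exact hfg
      have hN : ∑ x : M, indFun H ϑ x * conj (indFun H ϑ x) = (r : ℂ) * (Nat.card M : ℂ) := by
        have h2 := classInner_self_of_isIrr hν
        unfold classInner at h2
        have hM0 : (Nat.card M : ℂ) ≠ 0 := card_subgroup_ne_zero M
        have h3 : ∀ x : M, indFun H ϑ x * conj (indFun H ϑ x) =
            (e : ℂ) * e * (ν x * conj (ν x)) := by
          intro x
          have h4 : indFun H ϑ x = (e : ℂ) * ν x := by
            rw [← hfe]
            exact hMK x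
          rw [h4]
          simp only [map_mul, map_natCast]
          ring
        simp only [h3]
        rw [← Finset.mul_sum]
        field_simp at h2
        rw [h2]
        have h5 : (e : ℂ) * e = r := by
          have : ((e ^ 2 : ℕ) : ℂ) = r := by rw [hsq]
          push_cast at this
          rw [← this, sq]
        rw [h5]
      have hMC : Nat.card M * Nat.card ↥(H ⊓ K) = Nat.card K * Nat.card ↥(H ⊓ M) := by
        have h1 := card_formula H M
        have h2 : H ⊔ M = ⊤ := by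
          rw [eq_top_iff, ← htop]
          exact sup_le_sup_left hKM.le H
        rw [h2, Subgroup.index_top, one_mul] at h1
        rw [hinf]
        have hG0 : 0 < Nat.card G := Nat.card_pos
        apply Nat.eq_of_mul_eq_mul_left hG0
        calc Nat.card G * (Nat.card M * Nat.card C)
            = Nat.card M * (Nat.card G * Nat.card C) := by ring
          _ = Nat.card M * (Nat.card H * Nat.card K) := by rw [hcardK]
          _ = (Nat.card H * Nat.card M) * Nat.card K := by ring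
          _ = (Nat.card G * Nat.card ↥(H ⊓ M)) * Nat.card K := by rw [h1]
          _ = Nat.card G * (Nat.card K * Nat.card ↥(H ⊓ M)) := by ring
      have hrC' : r * Nat.card ↥(H ⊓ K) = Nat.card K := by
        rw [hinf]
        exact hrC
      exact normalize_of_norm hLH hϑc hϑL K M hKM.le htop (hLK.trans hKM.le) hrC' hMC hN
  -- the contradiction
  have hDn : (H ⊓ M).Normal := by
    constructor
    intro x hx g
    obtain ⟨h, hh, k, hk, rfl⟩ := hGHK g
    have h1 : k * x * k⁻¹ ∈ H ⊓ M := by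
      have := hnorm k⁻¹ (K.inv_mem hk) x hx
      simpa using this
    have h2 : h * k * x * (h * k)⁻¹ = h * (k * x * k⁻¹) * h⁻¹ := by group
    rw [h2]
    exact ⟨H.mul_mem (H.mul_mem hh h1.1) (H.inv_mem hh), hMn.conj_mem _ h1.2 h⟩
  have hDC : H ⊓ M ≤ C := Subgroup.normal_le_normalCore.mpr inf_le_left
  apply not_le_of_gt hKM
  intro x hx
  obtain ⟨h, hh, k, hk, rfl⟩ := hGHK x
  have hhM : h ∈ M := by
    have := M.mul_mem hx (M.inv_mem (hKM.le hk))
    simpa using this
  exact K.mul_mem (hCK.le (hDC ⟨hh, hhM⟩)) hk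

end Cfsg.Agent.S0890
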