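import Cfsg.Statements.S0893
import Cfsg.Agent.Lib.Char.IndRep
import Cfsg.Agent.Lib.Char.Complete
import Cfsg.Agent.Lib.CharDeep.LinearChar
import Cfsg.Agent.Lib.PGroups.Special

set_option autoImplicit false
open Cfsg

namespace Cfsg.Agent.S0893

open Cfsg.Agent.Lib.Char.Basic Cfsg.Agent.Lib.Char.Ortho Cfsg.Agent.Lib.Char.Complete
open Cfsg.Agent.Lib.Char.Induced Cfsg.Agent.Lib.Char.IndRep
open Cfsg.Agent.Lib.CharDeep.LinearChar
open Cfsg.Agent.Lib.PGroups.Special
open scoped ComplexConjugate commutatorElement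

/-- Let P be an extraspecial p-group of order p ^ (2 * n + 1), A an abelian subgroup of order p ^ (n + 1), and λ a character of A of degree 1 that is not identically 1 on the elements of A lying in the centre of P. Then the function induced from λ to P is an irreducible character of P and vanishes at every element outside the centre. -/
theorem result {P : Type*} [Group P] [Fintype P] (p n : ℕ) [Fact p.Prime] (hP : Cfsg.IsExtraspecial p P) (hcard : Nat.card P = p ^ (2 * n + 1)) (A : Subgroup P) (hab : ∀ a ∈ A, ∀ b ∈ A, a * b = b * a) (hA : Nat.card A = p ^ (n + 1)) (lam : A → ℂ) (hlam : Cfsg.IsCharacter A lam ∧ lam 1 = 1) (hZ : ∃ a : A, (a : P) ∈ Subgroup.center P ∧ lam a ≠ 1) : Cfsg.IsIrrCharacter P (Cfsg.indFun A lam) ∧ ∀ x : P, x ∉ Subgroup.center P → Cfsg.indFun A lam x = 0 := by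
  classical
  have hpp : p.Prime := Fact.out
  have hp0 : (p : ℂ) ≠ 0 := Nat.cast_ne_zero.mpr hpp.ne_zero
  obtain ⟨hlc, hl1⟩ := hlam
  have hE : ExtraLike p P := extraLike_of_isExtraspecial hP
  obtain ⟨a, haZ, hla⟩ := hZ
  have ha1 : (a : P) ≠ 1 := by
    intro h
    have : a = 1 := Subtype.ext h
    rw [this] at hla
    exact hla hl1
  have hza : Subgroup.zpowers (a : P) = Subgroup.center P := hE.zpowers_eq haZ ha1
  have hZA : Subgroup.center P ≤ A := by
    rw [← hza, Subgroup.zpowers_le]
    exact a.2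
  have hmul : ∀ x y : A, lam (x * y) = lam x * lam y := map_mul_of_linear hlc hl1
  -- `lam` nontrivial on nontrivial central elements
  have hc0 : ∀ c ∈ Subgroup.center P, ∀ hc : c ∈ A, c ≠ 1 → lam ⟨c, hc⟩ ≠ 1 := by
    intro c hcZ hc hc1 h1
    obtain ⟨k, hk⟩ := hE.exists_pow_eq hcZ hc1 haZ
    have h2 : a = (⟨c, hc⟩ : A) ^ k := Subtype.ext (by simpa using hk)
    have h3 : ∀ k : ℕ, lam ((⟨c, hc⟩ : A) ^ k) = 1 := by
      intro k
      induction k with
      | zero => simpa using hl1
      | succ m ih => rw [pow_succ, hmul, ih, h1, one_mul]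
    rw [h2, h3] at hla
    exact hla rfl
  -- vanishing
  have hvan : ∀ x : P, x ∉ Subgroup.center P → indFun A lam x = 0 := by
    intro x hx
    rw [Subgroup.mem_center_iff] at hx
    push Not at hx
    obtain ⟨y, hy⟩ := hx
    set c₀ : P := x⁻¹ * y⁻¹ * x * y with hc₀
    have hc₀Z : c₀ ∈ Subgroup.center P := by
      have := hE.comm_mem x⁻¹ y⁻¹
      rw [commutatorElement_def] at this
      simpa [hc₀] using this
    have hc₀1 : c₀ ≠ 1 := by
      intro h
      apply hy
      have : x⁻¹ * y⁻¹ * x * y = 1 := h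
      have h2 : x * y = y * x := by
        calc x * y = y * x * (x⁻¹ * y⁻¹ * x * y) := by group
          _ = y * x := by rw [this, mul_one]
      exact h2.symm
    have hc₀A : c₀ ∈ A := hZA hc₀Z
    set ν : ℂ := lam ⟨c₀, hc₀A⟩ with hν
    have hν1 : ν ≠ 1 := hc0 c₀ hc₀Z hc₀A hc₀1
    have hstep : ∀ g : P, extendByZero A lam ((g * y)⁻¹ * x * (g * y)) =
        ν * extendByZero A lam (g⁻¹ * x * g) := by
      intro g
      set x' : P := g⁻¹ * x * g with hx'
      -- `x' = x z`, `z` central
      have hz : x⁻¹ * x' ∈ Subgroup.center P := by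
        have := hE.comm_mem x⁻¹ g⁻¹
        rw [commutatorElement_def] at this
        simpa [hx', mul_assoc] using this
      have h1 : (g * y)⁻¹ * x * (g * y) = x' * c₀ := by
        have hzc := Subgroup.mem_center_iff.mp hz
        have hc₀c := Subgroup.mem_center_iff.mp hc₀Z
        have e1 : (g * y)⁻¹ * x * (g * y) = y⁻¹ * x' * y := by
          simp only [hx']; group
        rw [e1]
        have e2 : x' = x * (x⁻¹ * x') := by group
        calc y⁻¹ * x' * y = y⁻¹ * (x * (x⁻¹ * x')) * y := by rw [← e2]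
          _ = y⁻¹ * x * (y * (x⁻¹ * x')) := by rw [mul_assoc, mul_assoc, mul_assoc, hzc y]; group
          _ = x * (x⁻¹ * y⁻¹ * x * y) * (x⁻¹ * x') := by group
          _ = x * ((x⁻¹ * x') * c₀) := by rw [← hc₀, mul_assoc, hzc c₀]
          _ = x' * c₀ := by group
      rw [h1]
      by_cases hx'A : x' ∈ A
      · have hm : x' * c₀ ∈ A := A.mul_mem hx'A hc₀A
        rw [extendByZero_of_mem A lam hm, extendByZero_of_mem A lam hx'A, hν, ← hmul]
        exact congrArg lam (Subtype.ext (hab x' hx'A c₀ hc₀A))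
      · have hm : x' * c₀ ∉ A := fun h => hx'A (by
          have := A.mul_mem h (A.inv_mem hc₀A)
          simpa using this)
        rw [extendByZero_of_not_mem A lam hm, extendByZero_of_not_mem A lam hx'A, mul_zero]
    have hsum : ∑ g : P, extendByZero A lam (g⁻¹ * x * g) =
        ν * ∑ g : P, extendByZero A lam (g⁻¹ * x * g) := by
      rw [Finset.mul_sum]
      simp only [← hstep]
      exact (Fintype.sum_equiv (Equiv.mulRight y) _ _ (fun g => rfl)).symm
    have h0 : ∑ g : P, extendByZero A lam (g⁻¹ * x * g) = 0 := by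
      have : (1 - ν) * ∑ g : P, extendByZero A lam (g⁻¹ * x * g) = 0 := by
        rw [sub_mul, one_mul, ← hsum, sub_self]
      exact (mul_eq_zero.mp this).resolve_left (sub_ne_zero.mpr hν1.symm)
    rw [indFun_apply, h0, mul_zero]
  refine ⟨?_, hvan⟩
  -- norm one
  apply isIrrCharacter_of_classInner_self_eq_one (isCharacter_indFun A hlc)
  have hcardc : (Nat.card P : ℂ) = (p : ℂ) ^ (2 * n + 1) := by rw [hcard]; push_cast; rfl
  have hAc : (Nat.card A : ℂ) = (p : ℂ) ^ (n + 1) := by rw [hA]; push_cast; rfl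
  have hcen : ∀ z (hz : z ∈ Subgroup.center P), indFun A lam z = (p : ℂ) ^ n * lam ⟨z, hZA hz⟩ := by
    intro z hz
    rw [indFun_apply]
    have h1 : ∀ x : P, extendByZero A lam (x⁻¹ * z * x) = lam ⟨z, hZA hz⟩ := by
      intro x
      have : x⁻¹ * z * x = z := by
        rw [mul_assoc, ← Subgroup.mem_center_iff.mp hz x]; group
      rw [this, extendByZero_of_mem A lam (hZA hz)]
    simp only [h1]
    rw [Finset.sum_const, Finset.card_univ, nsmul_eq_mul, ← Nat.card_eq_fintype_card, hcardc, hAc]
    have : (p : ℂ) ^ (n + 1) ≠ 0 := pow_ne_zero _ hp0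
    field_simp
    ring
  -- values of `lam` on the centre have absolute value one
  have hfin : Finite A := inferInstance
  have hnorm : ∀ z : A, lam z * conj (lam z) = 1 := by
    intro z
    have h1 : (lam z) ^ (orderOf z) = 1 := by
      have h2 : ∀ k : ℕ, lam (z ^ k) = lam z ^ k := by
        intro k
        induction k with
        | zero => simpa using hl1
        | succ m ih => rw [pow_succ, hmul, ih, pow_succ]
      rw [← h2, pow_orderOf_eq_one, hl1]
    have h3 : ‖lam z‖ = 1 := Complex.norm_eq_one_of_pow_eq_one h1 (orderOf_pos z).ne'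
    rw [Complex.mul_conj, Complex.normSq_eq_norm_sq, h3]
    simp
  unfold classInner
  -- the sum over the centre
  let : Fintype (Subgroup.center P) := Fintype.ofFinite _
  have hterm : ∀ g : P, indFun A lam g * conj (indFun A lam g) =
      if g ∈ Subgroup.center P then (p : ℂ) ^ (2 * n) else 0 := by
    intro g
    by_cases hg : g ∈ Subgroup.center P
    · rw [if_pos hg, hcen g hg, map_mul, map_pow, Complex.conj_natCast]
      have := hnorm ⟨g, hZA hg⟩
      calc (p : ℂ) ^ n * lam ⟨g, hZA hg⟩ * ((p : ℂ) ^ n * conj (lam ⟨g, hZA hg⟩))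
          = (p : ℂ) ^ (2 * n) * (lam ⟨g, hZA hg⟩ * conj (lam ⟨g, hZA hg⟩)) := by ring
        _ = (p : ℂ) ^ (2 * n) := by rw [this, mul_one]
    · rw [if_neg hg, hvan g hg, zero_mul]
  simp only [hterm]
  rw [Finset.sum_ite, Finset.sum_const_zero, add_zero, Finset.sum_const, nsmul_eq_mul]
  have hcardZ : (Finset.univ.filter (fun g : P => g ∈ Subgroup.center P)).card = p := by
    rw [← hE.card_center, Nat.card_eq_fintype_card, Fintype.card_subtype]
  rw [hcardZ, hcardc]
  have : (p : ℂ) ^ (2 * n + 1) ≠ 0 := pow_ne_zero _ hp0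
  field_simp
  ring

end Cfsg.Agent.S0893
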