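import Cfsg.Statements.S0894
import Cfsg.Agent.Lib.Char.Complete
import Cfsg.Agent.Lib.Char.Linear
import Cfsg.Agent.Lib.Char.Central
import Cfsg.Agent.Lib.PGroups.Special

set_option autoImplicit false
open Cfsg

namespace Cfsg.Agent.S0894

open Cfsg.Agent.Lib.Char.Basic Cfsg.Agent.Lib.Char.Ortho Cfsg.Agent.Lib.Char.Complete
open Cfsg.Agent.Lib.Char.Linear Cfsg.Agent.Lib.Char.Central
open Cfsg.Agent.Lib.PGroups.Special
open Module
open scoped ComplexConjugate commutatorElement

section aux

variable {P : Type*} [Group P] [Finite P] (p n : ℕ) [Fact p.Prime]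

omit [Finite P] in
lemma trace_scalar {m : ℕ} (ρ : Representation ℂ P (Fin m → ℂ)) (x c : P) (ω : ℂ)
    (h : ρ c = ω • (1 : End ℂ (Fin m → ℂ))) :
    ρ.character (x * c) = ω * ρ.character x := by
  simp only [Representation.character, map_mul, h]
  rw [mul_smul_comm, mul_one, map_smul, smul_eq_mul]

lemma key (hP : IsExtraspecial p P) (hcard : Nat.card P = p ^ (2 * n + 1)) [Fintype P]
    (χ : IrrCharacter P) (h1 : (χ : P → ℂ) 1 ≠ 1) : (χ : P → ℂ) 1 = (p : ℂ) ^ n := by
  classical
  have hpp : p.Prime := Fact.out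
  have hp0 : (p : ℂ) ≠ 0 := Nat.cast_ne_zero.mpr hpp.ne_zero
  have hE : ExtraLike p P := extraLike_of_isExtraspecial hP
  obtain ⟨χ, hχ⟩ := χ
  have hχ' := hχ
  obtain ⟨m, ρ, hρ, rfl⟩ := hχ
  have : ρ.IsIrreducible := hρ
  simp only at h1 ⊢
  -- the centre acts nontrivially
  have hnt : ∃ c ∈ Subgroup.center P, ρ c ≠ 1 := by
    by_contra hall
    push Not at hall
    have hQ : ∀ a b : P ⧸ commutator P, a * b = b * a := by
      intro a b
      obtain ⟨a, rfl⟩ := QuotientGroup.mk_surjective a
      obtain ⟨b, rfl⟩ := QuotientGroup.mk_surjective b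
      rw [← QuotientGroup.mk_mul, ← QuotientGroup.mk_mul, QuotientGroup.eq]
      have : (a * b)⁻¹ * (b * a) = ⁅b⁻¹, a⁻¹⁆ := by
        rw [commutatorElement_def]; group
      rw [this]
      exact Subgroup.commutator_mem_commutator (Subgroup.mem_top _) (Subgroup.mem_top _)
    obtain ⟨φ, hφ, hcomp⟩ := isIrrCharacter_descend (QuotientGroup.mk' (commutator P))
      (QuotientGroup.mk'_surjective _) hχ' (by
        intro k hk
        have hk' : k ∈ commutator P := by simpa using hk
        rw [hP.1.2.2] at hk'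
        simp only [Representation.character, hall k hk', map_one])
    have h2 := isIrr_deg_one_of_comm hQ hφ
    apply h1
    rw [hcomp]
    simpa using h2
  -- nontrivial central elements act nontrivially
  have hne : ∀ c ∈ Subgroup.center P, c ≠ 1 → ρ c ≠ 1 := by
    intro c hc hc1 hρc
    obtain ⟨z, hz, hρz⟩ := hnt
    obtain ⟨k, rfl⟩ := hE.exists_pow_eq hc hc1 hz
    apply hρz
    rw [map_pow, hρc, one_pow]
  -- vanishing off the centre
  have hvan : ∀ x : P, x ∉ Subgroup.center P → ρ.character x = 0 := by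
    intro x hx
    rw [Subgroup.mem_center_iff] at hx
    push Not at hx
    obtain ⟨y, hy⟩ := hx
    set c₀ : P := x⁻¹ * y⁻¹ * x * y with hc₀
    have hc₀Z : c₀ ∈ Subgroup.center P := by
      have := hE.comm_mem x⁻¹ y⁻¹
      rw [commutatorElement_def] at this
      simpa [hc₀] using this
    have hc₀1 : c₀ ≠ 1 := by
      intro h
      apply hy
      have : x⁻¹ * y⁻¹ * x * y = 1 := h
      have h2 : x * y = y * x := by
        calc x * y = y * x * (x⁻¹ * y⁻¹ * x * y) := by group
          _ = y * x := by rw [this, mul_one]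
      exact h2.symm
    obtain ⟨ω, hω⟩ := center_acts_scalar ρ c₀ hc₀Z
    have hω1 : ω ≠ 1 := by
      rintro rfl
      apply hne c₀ hc₀Z hc₀1
      rw [hω, one_smul]
    have h2 : ρ.character (x * c₀) = ω * ρ.character x := trace_scalar ρ x c₀ ω hω
    have h3 : x * c₀ = y⁻¹ * x * y⁻¹⁻¹ := by
      rw [hc₀]; group
    rw [h3] at h2
    have h4 : ρ.character (y⁻¹ * x * y⁻¹⁻¹) = ρ.character x := Representation.char_conj ρ x y⁻¹
    rw [h4] at h2
    have h5 : (1 - ω) * ρ.character x = 0 := by
      rw [sub_mul, one_mul, ← h2, sub_self]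
    exact (mul_eq_zero.mp h5).resolve_left (sub_ne_zero.mpr hω1.symm)
  -- the norm
  obtain ⟨k, hk⟩ := exists_deg_of_isCharacter (isCharacter_of_isIrrCharacter hχ')
  have hterm : ∀ g : P, ρ.character g * conj (ρ.character g) =
      if g ∈ Subgroup.center P then (k : ℂ) ^ 2 else 0 := by
    intro g
    by_cases hg : g ∈ Subgroup.center P
    · rw [if_pos hg]
      obtain ⟨ω, hω⟩ := center_acts_scalar ρ g hg
      have h2 : ρ.character (1 * g) = ω * ρ.character 1 := trace_scalar ρ 1 g ω hω
      rw [one_mul, hk] at h2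
      have hωn : ω * conj ω = 1 := by
        have h3 : ω ^ (orderOf g) = 1 := by
          have h4 : ρ (g ^ orderOf g) = ω ^ (orderOf g) • (1 : End ℂ (Fin m → ℂ)) := by
            rw [map_pow, hω, smul_pow, one_pow]
          rw [pow_orderOf_eq_one, map_one] at h4
          have := nontrivial_of_isIrreducible hρ
          by_contra hne'
          obtain ⟨v, hv⟩ := exists_ne (0 : Fin m → ℂ)
          have hv' : v = ω ^ (orderOf g) • v := LinearMap.congr_fun h4 v
          have h5 : ((1 : ℂ) - ω ^ orderOf g) • v = 0 := by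
            rw [sub_smul, one_smul, ← hv', sub_self]
          rcases smul_eq_zero.mp h5 with h6 | h6
          · exact hne' (sub_eq_zero.mp h6).symm
          · exact hv h6
        have h3' : ‖ω‖ = 1 := Complex.norm_eq_one_of_pow_eq_one h3 (orderOf_pos g).ne'
        rw [Complex.mul_conj, Complex.normSq_eq_norm_sq, h3']
        simp
      rw [h2, map_mul, Complex.conj_natCast]
      calc ω * (k : ℂ) * (conj ω * (k : ℂ)) = (ω * conj ω) * (k : ℂ) ^ 2 := by ring
        _ = (k : ℂ) ^ 2 := by rw [hωn, one_mul]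
    · rw [if_neg hg, hvan g hg, zero_mul]
  have hnorm := classInner_self_of_isIrr hχ'
  unfold classInner at hnorm
  simp only [hterm] at hnorm
  rw [Finset.sum_ite, Finset.sum_const_zero, add_zero, Finset.sum_const, nsmul_eq_mul] at hnorm
  have hcardZ : (Finset.univ.filter (fun g : P => g ∈ Subgroup.center P)).card = p := by
    rw [← hE.card_center, Nat.card_eq_fintype_card, Fintype.card_subtype]
  rw [hcardZ, hcard] at hnorm
  push_cast at hnorm
  have hpn : (p : ℂ) ^ (2 * n + 1) ≠ 0 := pow_ne_zero _ hp0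
  field_simp at hnorm
  have h6 : ((k ^ 2 : ℕ) : ℂ) = ((p ^ n) ^ 2 : ℕ) := by
    push_cast
    apply mul_left_cancel₀ hp0
    rw [hnorm]
    ring
  have h7 : k ^ 2 = (p ^ n) ^ 2 := by exact_mod_cast h6
  have h8 : k = p ^ n := by
    exact Nat.pow_left_injective (n := 1) (by norm_num) (by simpa using h7)
  rw [hk, h8]
  push_cast
  rfl

end aux

/-- Let P be an extraspecial p-group of order p ^ (2 * n + 1). Then every irreducible character of P has degree 1 or p ^ n, and exactly p - 1 of them have degree p ^ n. -/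
theorem result {P : Type*} [Group P] [Finite P] (p n : ℕ) [Fact p.Prime] (hP : Cfsg.IsExtraspecial p P) (hcard : Nat.card P = p ^ (2 * n + 1)) : (∀ χ : Cfsg.IrrCharacter P, (χ : P → ℂ) 1 = 1 ∨ (χ : P → ℂ) 1 = (p : ℂ) ^ n) ∧ Nat.card {χ : Cfsg.IrrCharacter P // (χ : P → ℂ) 1 = (p : ℂ) ^ n} = p - 1 := by
  classical
  let _ : Fintype P := Fintype.ofFinite P
  have hpp : p.Prime := Fact.out
  have hp0 : (p : ℂ) ≠ 0 := Nat.cast_ne_zero.mpr hpp.ne_zero
  have hE : ExtraLike p P := extraLike_of_isExtraspecial hP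
  have hall : ∀ χ : IrrCharacter P, (χ : P → ℂ) 1 = 1 ∨ (χ : P → ℂ) 1 = (p : ℂ) ^ n := by
    intro χ
    by_cases h : (χ : P → ℂ) 1 = 1
    · exact Or.inl h
    · exact Or.inr (key p n hP hcard χ h)
  refine ⟨hall, ?_⟩
  -- `n ≠ 0`
  have hn : n ≠ 0 := by
    rintro rfl
    have h1 : Nat.card P = p := by simpa using hcard
    have h2 : Subgroup.center P = ⊤ := by
      apply Subgroup.eq_top_of_card_eq
      rw [hE.card_center, h1]
    have h3 : commutator P = ⊥ := by
      rw [commutator_eq_bot_iff_center_eq_top]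
      exact h2
    have h4 := hP.2
    rw [← hP.1.2.2, h3] at h4
    have := hpp.ne_one
    simp at h4
    exact this h4.symm
  have hpn1 : (p : ℂ) ^ n ≠ 1 := by
    intro h
    have h2 : p ^ n = 1 := by exact_mod_cast h
    rcases Nat.pow_eq_one.mp h2 with h3 | h3
    · exact hpp.ne_one h3
    · exact hn h3
  have := finite_irrCharacter (G := P)
  let _ : Fintype (IrrCharacter P) := Fintype.ofFinite (IrrCharacter P)
  have hsum := sum_deg_sq_eq_card (G := P)
  have hterm : ∀ χ : IrrCharacter P, (χ : P → ℂ) 1 ^ 2 =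
      (if (χ : P → ℂ) 1 = 1 then 1 else 0) +
        (if (χ : P → ℂ) 1 = (p : ℂ) ^ n then (p : ℂ) ^ (2 * n) else 0) := by
    intro χ
    rcases hall χ with h | h
    · rw [if_pos h, if_neg (by rw [h]; exact hpn1.symm), h]; simp
    · rw [if_neg (by rw [h]; exact hpn1), if_pos h, h, ← pow_mul]; ring_nf
  simp only [hterm] at hsum
  rw [Finset.sum_add_distrib, Finset.sum_boole, Finset.sum_ite, Finset.sum_const_zero, add_zero,
    Finset.sum_const, nsmul_eq_mul] at hsum
  have hA : (Finset.univ.filter (fun χ : IrrCharacter P => (χ : P → ℂ) 1 = 1)).card =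
      (commutator P).index := by
    rw [← card_linear_eq_index, Nat.card_eq_fintype_card, Fintype.card_subtype]
  have hB : Nat.card {χ : IrrCharacter P // (χ : P → ℂ) 1 = (p : ℂ) ^ n} =
      (Finset.univ.filter (fun χ : IrrCharacter P => (χ : P → ℂ) 1 = (p : ℂ) ^ n)).card := by
    rw [Nat.card_eq_fintype_card, Fintype.card_subtype]
  rw [hB]
  have hidx : (commutator P).index = p ^ (2 * n) := by
    have h1 := Subgroup.card_mul_index (commutator P)
    rw [hP.1.2.2, hE.card_center, hcard, pow_succ, mul_comm] at h1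
    have h2 : (Subgroup.center P).index = p ^ (2 * n) := Nat.eq_of_mul_eq_mul_right hpp.pos (by
      rw [mul_comm] at h1; linarith)
    rw [hP.1.2.2]; exact h2
  rw [hA, hidx, hcard] at hsum
  set b := (Finset.univ.filter (fun χ : IrrCharacter P => (χ : P → ℂ) 1 = (p : ℂ) ^ n)).card
  have h1 : p ^ (2 * n) + b * p ^ (2 * n) = p ^ (2 * n + 1) := by exact_mod_cast hsum
  have h2 : (1 + b) * p ^ (2 * n) = p * p ^ (2 * n) := by
    rw [add_mul, one_mul, h1, pow_succ, mul_comm]
  have h3 : 1 + b = p := Nat.eq_of_mul_eq_mul_right (pow_pos hpp.pos _) h2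
  omega

end Cfsg.Agent.S0894
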