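import Cfsg.Statements.S0896
import Cfsg.Agent.Lib.CharDeep.BrauerChar
import Cfsg.Agent.Lib.CharDeep.ThompsonDeg

set_option autoImplicit false
set_option linter.unusedSectionVars false
open Cfsg

namespace Cfsg.Agent.S0896

open Cfsg.Agent.Lib.Char.Basic Cfsg.Agent.Lib.Char.Ortho Cfsg.Agent.Lib.Char.Complete
open Cfsg.Agent.Lib.Char.Induced Cfsg.Agent.Lib.Char.Gallagher Cfsg.Agent.Lib.Char.Conj
open Cfsg.Agent.Lib.CharDeep.BrauerChar Cfsg.Agent.Lib.CharDeep.LocalBrauer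
open scoped ComplexConjugate

universe u v

theorem classInner_comp_equiv {D : Type u} [Group D] [Fintype D] (σ : D ≃* D) (f g : D → ℂ) :
    classInner (f ∘ σ) (g ∘ σ) = classInner f g := by
  unfold classInner
  congr 1
  exact Fintype.sum_equiv σ.toEquiv _ _ fun x => rfl

/-- The orbit step: an invariant character `θ` with `[ω θ, θ]` prime to `p` has an invariant
constituent with multiplicity prime to `p`. -/
theorem exists_invariant_constituent {p : ℕ} [Fact p.Prime] {Q : Type v} [Group Q] {D : Type u}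
    [Group D] [Fintype D] (hQ : IsPGroup p Q) (τ : Q →* MulAut D) {θ ω : D → ℂ}
    (hθ : IsCharacter D θ) (hω : IsCharacter D ω) (hθi : ∀ q x, θ (τ q x) = θ x)
    (hωi : ∀ q x, ω (τ q x) = ω x) {A : ℕ} (hA : classInner (ω * θ) θ = A) (hpA : ¬ p ∣ A) :
    ∃ l : IrrCharacter D, (∀ q x, (l : D → ℂ) (τ q x) = (l : D → ℂ) x) ∧
      ∃ m : ℕ, ¬ p ∣ m ∧ classInner θ (l : D → ℂ) = m := by
  classical
  have := finite_irrCharacter (G := D)
  let _ : Fintype (IrrCharacter D) := Fintype.ofFinite _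
  letI act : MulAction Q (IrrCharacter D) :=
    { smul := fun q l => ⟨(l : D → ℂ) ∘ (τ q⁻¹ : D ≃* D), isIrrCharacter_comp_mulEquiv _ l.2⟩
      one_smul := fun l => by
        apply Subtype.ext
        funext x
        change (l : D → ℂ) (τ 1⁻¹ x) = _
        simp
      mul_smul := fun q r l => by
        apply Subtype.ext
        funext x
        change (l : D → ℂ) (τ (q * r)⁻¹ x) = (l : D → ℂ) (τ r⁻¹ (τ q⁻¹ x))
        simp }
  have hsmul : ∀ (q : Q) (l : IrrCharacter D) (x : D),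
      ((q • l : IrrCharacter D) : D → ℂ) x = (l : D → ℂ) (τ q⁻¹ x) := fun _ _ _ => rfl
  have hchar : ∀ l : IrrCharacter D, IsCharacter D (l : D → ℂ) := fun l =>
    isCharacter_of_isIrrCharacter l.2
  choose a ha using fun l : IrrCharacter D => exists_nat_classInner hθ (hchar l)
  choose b hb using fun l : IrrCharacter D => exists_nat_classInner (isCharacter_mul hω (hchar l)) hθ
  have hainv : ∀ (q : Q) l, a (q • l) = a l := by
    intro q l
    have h1 : classInner θ ((q • l : IrrCharacter D) : D → ℂ) = classInner θ (l : D → ℂ) := by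
      have h2 : θ = θ ∘ (τ q⁻¹ : D ≃* D) := by
        funext x
        exact (hθi _ x).symm
      conv_lhs => rw [h2]
      exact classInner_comp_equiv _ _ _
    rw [ha, ha] at h1
    exact_mod_cast h1
  have hbinv : ∀ (q : Q) l, b (q • l) = b l := by
    intro q l
    have h1 : classInner (ω * ((q • l : IrrCharacter D) : D → ℂ)) θ =
        classInner (ω * (l : D → ℂ)) θ := by
      have h2 : θ = θ ∘ (τ q⁻¹ : D ≃* D) := by
        funext x
        exact (hθi _ x).symm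
      have h3 : ω * ((q • l : IrrCharacter D) : D → ℂ) = (ω * (l : D → ℂ)) ∘ (τ q⁻¹ : D ≃* D) := by
        funext x
        simp only [Pi.mul_apply, Function.comp, hsmul, hωi]
      conv_lhs => rw [h2, h3]
      exact classInner_comp_equiv _ _ _
    rw [hb, hb] at h1
    exact_mod_cast h1
  have hexp : θ = ∑ l : IrrCharacter D, (a l : ℂ) • (l : D → ℂ) := by
    conv_lhs => rw [classFunction_eq_sum (isClassFunction_of_isCharacter hθ)]
    exact Finset.sum_congr rfl fun l _ => by rw [ha]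
  have hmul : ω * θ = ∑ l : IrrCharacter D, (a l : ℂ) • (ω * (l : D → ℂ)) := by
    funext x
    have h1 : θ x = ∑ l : IrrCharacter D, (a l : ℂ) * (l : D → ℂ) x := by
      conv_lhs => rw [hexp]
      simp [Finset.sum_apply]
    simp only [Pi.mul_apply, h1, Finset.sum_apply, Pi.smul_apply, smul_eq_mul, Finset.mul_sum]
    exact Finset.sum_congr rfl fun l _ => by ring
  have hsum : (A : ℂ) = ∑ l : IrrCharacter D, (a l : ℂ) * b l := by
    rw [← hA, hmul, classInner_sum_left]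
    exact Finset.sum_congr rfl fun l _ => by rw [classInner_smul_left, hb]
  have hAeq : A = ∑ l : IrrCharacter D, a l * b l := by exact_mod_cast hsum
  let _ : Fintype (MulAction.fixedPoints Q (IrrCharacter D)) := Fintype.ofFinite _
  have hcong := Cfsg.Agent.Lib.CharDeep.ThompsonDeg.sum_modEq_sum_fixed hQ
    (fun l : IrrCharacter D => a l * b l) (fun q l => by simp only [hainv, hbinv])
  by_contra hno
  apply hpA
  rw [hAeq]
  refine (Nat.modEq_zero_iff_dvd.mp (hcong.trans ?_))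
  apply Nat.modEq_zero_iff_dvd.mpr
  refine Finset.dvd_sum fun l _ => ?_
  refine Dvd.dvd.mul_right ?_ _
  by_contra hal
  apply hno
  refine ⟨l.1, ?_, a l.1, hal, ha l.1⟩
  intro q x
  have h1 : q⁻¹ • l.1 = l.1 := l.2 q⁻¹
  have h2 := hsmul q⁻¹ l.1 x
  rw [h1, inv_inv] at h2
  exact h2.symm

section Main

variable {G : Type u} [Group G] [Fintype G] (N : Subgroup G) [hN : N.Normal]

/-- The norm squared of `ϑ` extended by zero. -/
noncomputable def xiFun (ϑ : N → ℂ) : G → ℂ := by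
  classical
  exact fun x => if h : x ∈ N then ϑ ⟨x, h⟩ * conj (ϑ ⟨x, h⟩) else 0

theorem xiFun_of_mem (ϑ : N → ℂ) {x : G} (h : x ∈ N) :
    xiFun N ϑ x = ϑ ⟨x, h⟩ * conj (ϑ ⟨x, h⟩) := dif_pos h

theorem xiFun_of_notMem (ϑ : N → ℂ) {x : G} (h : x ∉ N) : xiFun N ϑ x = 0 := dif_neg h

theorem isClassFunction_xiFun {ϑ : N → ℂ}
    (hinv : ∀ (g : G) (n : N), ϑ ⟨g * n * g⁻¹, hN.conj_mem (n : G) n.2 g⟩ = ϑ n) :
    IsClassFunction G (xiFun N ϑ) := by
  intro x g
  by_cases hx : x ∈ N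
  · have h1 : g * x * g⁻¹ ∈ N := hN.conj_mem x hx g
    rw [xiFun_of_mem N ϑ hx, xiFun_of_mem N ϑ h1]
    have := hinv g ⟨x, hx⟩
    simp only at this
    rw [this]
  · have h1 : g * x * g⁻¹ ∉ N := by
      intro h2
      apply hx
      have := hN.conj_mem _ h2 g⁻¹
      simpa [mul_assoc] using this
    rw [xiFun_of_notMem N ϑ hx, xiFun_of_notMem N ϑ h1]

theorem sum_eq_sum_inf (E N : Subgroup G) [Fintype E] [Fintype ↥(E ⊓ N)] (f : E → ℂ)
    (hf : ∀ e : E, (e : G) ∉ N → f e = 0) :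
    ∑ e : E, f e = ∑ x : ↥(E ⊓ N), f ⟨x, x.2.1⟩ := by
  symm
  apply Finset.sum_of_injOn (fun x : ↥(E ⊓ N) => (⟨x, x.2.1⟩ : E))
  · intro a _ b _ hab
    exact Subtype.ext (congrArg (fun e : E => (e : G)) hab)
  · intro a _
    exact Finset.mem_coe.mpr (Finset.mem_univ _)
  · intro e _ he
    apply hf
    intro h
    exact he ⟨⟨e, e.2, h⟩, by simp, rfl⟩
  · intro i _
    rfl

theorem sum_eq_sum_subgroup [Fintype N] (f : G → ℂ) (hf : ∀ e : G, e ∉ N → f e = 0) :
    ∑ e : G, f e = ∑ x : N, f x := by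
  symm
  apply Finset.sum_of_injOn (fun x : N => (x : G))
  · intro a _ b _ hab
    exact Subtype.ext hab
  · intro a _
    exact Finset.mem_coe.mpr (Finset.mem_univ _)
  · intro e _ he
    apply hf
    intro h
    exact he ⟨⟨e, h⟩, by simp, rfl⟩
  · intro i _
    rfl

theorem classInner_xiFun_one [Fintype N] {ϑ : N → ℂ} (hϑ : IsIrrCharacter N ϑ) :
    classInner (xiFun N ϑ) (fun _ => (1 : ℂ)) = (Nat.card N : ℂ) * (Nat.card G : ℂ)⁻¹ := by
  have h1 := classInner_self_of_isIrr hϑ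
  have hN0 : (Nat.card N : ℂ) ≠ 0 := by exact_mod_cast Nat.card_pos.ne'
  have h2 : ∑ x : N, ϑ x * conj (ϑ x) = Nat.card N := by
    unfold classInner at h1
    field_simp at h1
    rw [h1]
  unfold classInner
  simp only [map_one, mul_one]
  rw [sum_eq_sum_subgroup N _ (fun e he => xiFun_of_notMem N ϑ he), mul_comm]
  congr 1
  rw [← h2]
  refine Finset.sum_congr rfl fun x _ => ?_
  exact xiFun_of_mem N ϑ x.2

theorem classInner_ind_mul_xi (E : Subgroup G) [Fintype E] [Fintype ↥(E ⊓ N)] {ϑ : N → ℂ}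
    (hinv : ∀ (g : G) (n : N), ϑ ⟨g * n * g⁻¹, hN.conj_mem (n : G) n.2 g⟩ = ϑ n) (ψ : E → ℂ) :
    classInner (indFun E ψ * xiFun N ϑ) (fun _ => (1 : ℂ)) =
      (Nat.card E : ℂ)⁻¹ * (Nat.card ↥(E ⊓ N) : ℂ) *
        classInner ((fun x : ↥(E ⊓ N) => ψ ⟨x, x.2.1⟩) * fun x : ↥(E ⊓ N) => ϑ ⟨x, x.2.2⟩)
          (fun x : ↥(E ⊓ N) => ϑ ⟨x, x.2.2⟩) := by
  have hD0 : (Nat.card ↥(E ⊓ N) : ℂ) ≠ 0 := by exact_mod_cast Nat.card_pos.ne'
  rw [indFun_mul_of_isClassFunction _ _ (isClassFunction_xiFun N hinv),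
    classInner_indFun_left E _ _ (fun _ _ => rfl)]
  unfold classInner
  simp only [map_one, mul_one, Pi.mul_apply]
  rw [sum_eq_sum_inf E N _ (fun e he => by rw [xiFun_of_notMem N ϑ he, mul_zero])]
  rw [mul_assoc, ← mul_assoc (Nat.card ↥(E ⊓ N) : ℂ), mul_inv_cancel₀ hD0, one_mul]
  congr 1
  refine Finset.sum_congr rfl fun x _ => ?_
  rw [xiFun_of_mem N ϑ x.2.2]
  ring

theorem card_formula (E N : Subgroup G) [N.Normal] :
    (E ⊔ N).index * Nat.card E * Nat.card N = Nat.card G * Nat.card ↥(E ⊓ N) := by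
  have h1 : N.relIndex (E ⊔ N) = N.relIndex E := Subgroup.relIndex_sup_right E N
  have h2 : (⊥ : Subgroup G).relIndex N * N.relIndex (E ⊔ N) = (⊥ : Subgroup G).relIndex (E ⊔ N) :=
    Subgroup.relIndex_mul_relIndex _ _ _ bot_le le_sup_right
  have h3 : (⊥ : Subgroup G).relIndex (E ⊓ N) * (E ⊓ N).relIndex E = (⊥ : Subgroup G).relIndex E :=
    Subgroup.relIndex_mul_relIndex _ _ _ bot_le inf_le_left
  have h4 : (E ⊓ N).relIndex E = N.relIndex E := by
    rw [inf_comm]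
    exact Subgroup.inf_relIndex_right _ _
  simp only [Subgroup.relIndex_bot_left] at h2 h3
  rw [h1] at h2
  rw [h4] at h3
  have h5 := (E ⊔ N).index_mul_card
  rw [← h5, ← h2, ← h3]
  ring

/-- The global step: some elementary subgroup covering `G / N` detects `p`. -/
theorem exists_good {p : ℕ} (hp : p.Prime) (hind : ∃ k : ℕ, N.index = p ^ k) {ϑ : N → ℂ}
    (hϑ : IsIrrCharacter N ϑ)
    (hinv : ∀ (g : G) (n : N), ϑ ⟨g * n * g⁻¹, hN.conj_mem (n : G) n.2 g⟩ = ϑ n) :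
    ∃ (E : Subgroup G) (ψ : E → ℂ) (A : ℕ), IsElementary p E ∧ E ⊔ N = ⊤ ∧ IsCharacter E ψ ∧
      ¬ p ∣ A ∧ ∀ [Fintype ↥(E ⊓ N)],
        classInner ((fun x : ↥(E ⊓ N) => ψ ⟨x, x.2.1⟩) * fun x : ↥(E ⊓ N) => ϑ ⟨x, x.2.2⟩)
          (fun x : ↥(E ⊓ N) => ϑ ⟨x, x.2.2⟩) = A := by
  classical
  let _ : Fintype N := Fintype.ofFinite _
  by_contra hno
  push_neg at hno
  have hG0 : (Nat.card G : ℂ) ≠ 0 := by exact_mod_cast Nat.card_pos.ne'
  have hN0 : (Nat.card N : ℂ) ≠ 0 := by exact_mod_cast Nat.card_pos.ne'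
  let Good : (G → ℂ) → Prop := fun f => ∃ t : ℤ,
    (Nat.card G : ℂ) * (Nat.card N : ℂ)⁻¹ * classInner (f * xiFun N ϑ) (fun _ => (1 : ℂ)) = p * t
  have hind1 : ∀ (E : Subgroup G) (ψ : E → ℂ), IsElementary p E → IsCharacter E ψ →
      Good (indFun E ψ) := by
    intro E ψ hel hψ
    let _ : Fintype E := Fintype.ofFinite _
    let _ : Fintype ↥(E ⊓ N) := Fintype.ofFinite _
    have hE0 : (Nat.card E : ℂ) ≠ 0 := by exact_mod_cast Nat.card_pos.ne'
    have hchar : IsCharacter ↥(E ⊓ N) ((fun x : ↥(E ⊓ N) => ψ ⟨x, x.2.1⟩) *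
        fun x : ↥(E ⊓ N) => ϑ ⟨x, x.2.2⟩) := by
      apply isCharacter_mul
      · exact isCharacter_comp (Subgroup.inclusion inf_le_left) hψ
      · exact isCharacter_comp (Subgroup.inclusion inf_le_right) (isCharacter_of_isIrrCharacter hϑ)
    have hθ : IsCharacter ↥(E ⊓ N) (fun x : ↥(E ⊓ N) => ϑ ⟨x, x.2.2⟩) :=
      isCharacter_comp (Subgroup.inclusion inf_le_right) (isCharacter_of_isIrrCharacter hϑ)
    obtain ⟨A, hA⟩ := exists_nat_classInner hchar hθ
    have hcard := card_formula E N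
    have hcardC : ((E ⊔ N).index : ℂ) * (Nat.card E : ℂ) * (Nat.card N : ℂ) =
        (Nat.card G : ℂ) * (Nat.card ↥(E ⊓ N) : ℂ) := by exact_mod_cast hcard
    have hval : (Nat.card G : ℂ) * (Nat.card N : ℂ)⁻¹ *
        classInner (indFun E ψ * xiFun N ϑ) (fun _ => (1 : ℂ)) = (((E ⊔ N).index * A : ℕ) : ℂ) := by
      rw [classInner_ind_mul_xi N E hinv, hA]
      push_cast
      field_simp
      linear_combination (-(A : ℂ)) * hcardC
    have hdvd : p ∣ (E ⊔ N).index * A := by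
      by_cases htop : E ⊔ N = ⊤
      · refine Dvd.dvd.mul_left ?_ _
        by_contra hpA
        obtain ⟨_, hne⟩ := hno E ψ A hel htop hψ hpA
        apply hne
        convert hA
      · refine Dvd.dvd.mul_right ?_ _
        obtain ⟨k, hk⟩ := hind
        have h1 : (E ⊔ N).index ∣ p ^ k := hk ▸ Subgroup.index_dvd_of_le le_sup_right
        obtain ⟨j, -, hj⟩ := (Nat.dvd_prime_pow hp).mp h1
        rw [hj]
        apply dvd_pow_self
        rintro rfl
        apply htop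
        rw [← Subgroup.index_eq_one, hj, pow_zero]
    obtain ⟨c, hc⟩ := hdvd
    refine ⟨c, ?_⟩
    rw [hval, hc]
    push_cast
    rfl
  have hadd : ∀ f g, Good f → Good g → Good (f + g) := by
    rintro f g ⟨a, ha⟩ ⟨b, hb⟩
    refine ⟨a + b, ?_⟩
    rw [add_mul, classInner_add_left, mul_add, ha, hb]
    push_cast
    ring
  have hsmul : ∀ (c : ℤ) f, Good f → Good ((c : ℂ) • f) := by
    rintro c f ⟨a, ha⟩
    refine ⟨c * a, ?_⟩
    rw [smul_mul_assoc, classInner_smul_left, mul_left_comm, ha]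
    push_cast
    ring
  have hzero : Good 0 := ⟨0, by simp [classInner_zero_left]⟩
  obtain ⟨m, hm, l, hl, he⟩ := exists_inSpan_const p hp G
  have hlist : Good (l.map fun t => (t.2.2 : ℂ) • indFun t.1 t.2.1).sum := by
    clear he
    induction l with
    | nil => simpa using hzero
    | cons t l ih =>
      simp only [List.map_cons, List.sum_cons]
      apply hadd
      · apply hsmul
        obtain ⟨h1, h2⟩ := hl t (List.mem_cons_self ..)
        exact hind1 _ _ h1 h2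
      · exact ih fun t ht => hl t (List.mem_cons_of_mem _ ht)
  rw [← he] at hlist
  obtain ⟨t, ht⟩ := hlist
  have h1 : ((fun _ => (m : ℂ)) * xiFun N ϑ) = (m : ℂ) • xiFun N ϑ := by
    funext x
    simp
  rw [h1, classInner_smul_left, classInner_xiFun_one N hϑ] at ht
  have h2 : (m : ℂ) = p * t := by
    rw [← ht]
    field_simp
  have h3 : m = p * t := by exact_mod_cast h2
  exact hm ⟨t, h3⟩

end Main

/-- Conjugation action on `E ⊓ N`. -/
noncomputable def conjAut {G : Type u} [Group G] (E N : Subgroup G) [hN : N.Normal] :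
    E →* MulAut ↥(E ⊓ N) :=
  MonoidHom.mk' (fun g =>
    { toFun := fun x => ⟨(g : G) * x * (g : G)⁻¹, E.mul_mem (E.mul_mem g.2 x.2.1) (E.inv_mem g.2),
        hN.conj_mem (x : G) x.2.2 g⟩
      invFun := fun x => ⟨(g : G)⁻¹ * x * g, E.mul_mem (E.mul_mem (E.inv_mem g.2) x.2.1) g.2, by
        have := hN.conj_mem (x : G) x.2.2 (g : G)⁻¹
        simpa using this⟩
      left_inv := fun x => Subtype.ext (by simp [mul_assoc])
      right_inv := fun x => Subtype.ext (by simp [mul_assoc])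
      map_mul' := fun x y => Subtype.ext (by simp [mul_assoc]) })
    (fun g h => by
      ext x
      simp [mul_assoc])

@[simp] theorem coe_conjAut {G : Type u} [Group G] (E N : Subgroup G) [N.Normal] (g : E)
    (x : ↥(E ⊓ N)) : ((conjAut E N g x : ↥(E ⊓ N)) : G) = (g : G) * x * (g : G)⁻¹ := rfl

/-- Let N be a normal subgroup of the finite group G with the index of N a power of the prime p, and ϑ an irreducible character of N invariant under conjugation by G. Then there are a p-elementary subgroup E of G with E ⊔ N = ⊤ and an irreducible character φ of the subgroup E ⊓ N, invariant under conjugation by E, such that the inner product of the restriction of ϑ to E ⊓ N with φ is an integer not divisible by p. -/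
theorem result {G : Type*} [Group G] [Fintype G] (p : ℕ) (hp : p.Prime) (N : Subgroup G) [hN : N.Normal] (hind : ∃ k : ℕ, N.index = p ^ k) (ϑ : N → ℂ) (hϑ : Cfsg.IsIrrCharacter N ϑ) (hinv : ∀ (g : G) (n : N), ϑ ⟨g * n * g⁻¹, hN.conj_mem (n : G) n.2 g⟩ = ϑ n) : ∃ (E : Subgroup G) (φ : ↥(E ⊓ N) → ℂ), Cfsg.IsElementary p E ∧ E ⊔ N = ⊤ ∧ Cfsg.IsIrrCharacter ↥(E ⊓ N) φ ∧ (∀ (g : G) (hg : g ∈ E) (x : ↥(E ⊓ N)), φ ⟨g * x * g⁻¹, ⟨(E.mul_mem (E.mul_mem hg x.2.1) (E.inv_mem hg)), hN.conj_mem (x : G) x.2.2 g⟩⟩ = φ x) ∧ ∃ m : ℕ, ¬ p ∣ m ∧ (Nat.card ↥(E ⊓ N) : ℂ)⁻¹ * ∑ᶠ x : ↥(E ⊓ N), ϑ ⟨(x : G), x.2.2⟩ * conj (φ x) = (m : ℂ) := by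
  classical
  have := Fact.mk hp
  obtain ⟨E, ψ, A, hel, htop, hψ, hpA, hA⟩ := exists_good N hp hind hϑ hinv
  let _ : Fintype ↥(E ⊓ N) := Fintype.ofFinite _
  have hA' := @hA _
  obtain ⟨Z, P, k, hZ, hP, hdec⟩ := exists_elementary_decomp hp hel
  have hPp : IsPGroup p P := IsPGroup.of_card hP
  let τ : P →* MulAut ↥(E ⊓ N) := (conjAut E N).comp P.subtype
  have hτ : ∀ (q : P) (x : ↥(E ⊓ N)), ((τ q x : ↥(E ⊓ N)) : G) = ((q : E) : G) * x * ((q : E) : G)⁻¹ :=
    fun _ _ => rfl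
  have hθ : IsCharacter ↥(E ⊓ N) (fun x : ↥(E ⊓ N) => ϑ ⟨x, x.2.2⟩) :=
    isCharacter_comp (Subgroup.inclusion inf_le_right) (isCharacter_of_isIrrCharacter hϑ)
  have hω : IsCharacter ↥(E ⊓ N) (fun x : ↥(E ⊓ N) => ψ ⟨x, x.2.1⟩) :=
    isCharacter_comp (Subgroup.inclusion inf_le_left) hψ
  have hψcl := isClassFunction_of_isCharacter hψ
  obtain ⟨l, hl, m, hm, hlm⟩ := exists_invariant_constituent (p := p) hPp τ hθ hω
    (fun q x => hinv ((q : E) : G) ⟨x, x.2.2⟩)
    (fun q x => hψcl ⟨x, x.2.1⟩ (q : E)) hA' hpA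
  refine ⟨E, l, hel, htop, l.2, ?_, m, hm, ?_⟩
  · intro g hg x
    obtain ⟨z, hz, w, hw, hzw⟩ := hdec ⟨g, hg⟩
    have h1 := hl ⟨w, hw⟩ x
    rw [← h1]
    refine congrArg (l : ↥(E ⊓ N) → ℂ) (Subtype.ext ?_)
    rw [hτ]
    have hg' : g = (z : G) * (w : G) := by
      have := congrArg Subtype.val hzw
      simpa using this
    have hcomm : ∀ y : E, (z : G) * y = y * z := fun y =>
      congrArg Subtype.val ((Subgroup.mem_center_iff.mp (hZ hz) y).symm)
    have hmem : (w : G) * x * (w : G)⁻¹ ∈ E := E.mul_mem (E.mul_mem w.2 x.2.1) (E.inv_mem w.2)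
    have h2 := hcomm ⟨_, hmem⟩
    simp only at h2 ⊢
    rw [hg', mul_inv_rev, ← mul_assoc, mul_assoc (z : G), mul_assoc (z : G)]
    rw [h2]
    group
  · rw [finsum_eq_sum_of_fintype]
    exact hlm

end Cfsg.Agent.S0896
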