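import Cfsg.Statements.S0897
import Cfsg.Agent.S0896
import Cfsg.Agent.Lib.CharDeep.DadeExt

set_option autoImplicit false
set_option linter.unusedSectionVars false
open Cfsg

namespace Cfsg.Agent.S0897

open Module
open Cfsg.Agent.Lib.Char.Basic Cfsg.Agent.Lib.Char.Ortho Cfsg.Agent.Lib.Char.Complete
open Cfsg.Agent.Lib.Char.Linear Cfsg.Agent.Lib.Char.Conj Cfsg.Agent.Lib.Char.ProjExt
open Cfsg.Agent.Lib.Char.Extend
open Cfsg.Agent.Lib.CharDeep.BrauerChar Cfsg.Agent.Lib.CharDeep.DadeExt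
open Cfsg.Agent.Lib.CharDeep.LinearChar (toHom coe_toHom isCharacter_of_hom)
open scoped ComplexConjugate Pointwise

universe u

section Trans

variable {G : Type u} [Group G] [Finite G] {p : ℕ} [hp : Fact p.Prime] {N : Subgroup G} [hN : N.Normal]

/-- The hypotheses for the Sylow subgroup descend to each `p`-subgroup. -/
theorem descend (P : Sylow p G)
    (hcent : ∀ x ∈ (P : Subgroup G) ⊓ N, ∀ y ∈ (P : Subgroup G), x * y = y * x)
    (hlin : ∀ lam : ↥((P : Subgroup G) ⊓ N) → ℂ, Cfsg.IsCharacter ↥((P : Subgroup G) ⊓ N) lam →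
      lam 1 = 1 → ∃ μ : ↥(P : Subgroup G) → ℂ, Cfsg.IsCharacter ↥(P : Subgroup G) μ ∧ μ 1 = 1 ∧
        ∀ x : ↥((P : Subgroup G) ⊓ N), μ ⟨(x : G), x.2.1⟩ = lam x)
    (Q : Subgroup G) (hQ : IsPGroup p Q) :
    (∀ x ∈ Q ⊓ N, ∀ y ∈ Q, x * y = y * x) ∧
      ∀ lam : ↥(Q ⊓ N) →* ℂˣ, ∃ μ : ↥Q →* ℂˣ, ∀ x : ↥(Q ⊓ N), μ ⟨x, x.2.1⟩ = lam x := by
  classical
  obtain ⟨P', hQP'⟩ := hQ.exists_le_sylow
  obtain ⟨g, hg⟩ := MulAction.exists_smul_eq G P' P
  have hmem : ∀ y ∈ Q, g * y * g⁻¹ ∈ (P : Subgroup G) := by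
    intro y hy
    have h1 : y ∈ (P' : Subgroup G) := hQP' hy
    have h2 : (MulAut.conj g) • y ∈ (MulAut.conj g) • (P' : Subgroup G) :=
      Subgroup.smul_mem_pointwise_smul _ _ _ h1
    rw [← Sylow.coe_subgroup_smul, hg] at h2
    simpa [MulAut.smul_def] using h2
  have hmemN : ∀ x ∈ N, g * x * g⁻¹ ∈ N := fun x hx => hN.conj_mem x hx g
  refine ⟨?_, ?_⟩
  · rintro x ⟨hxQ, hxN⟩ y hy
    have h1 := hcent (g * x * g⁻¹) ⟨hmem x hxQ, hmemN x hxN⟩ (g * y * g⁻¹) (hmem y hy)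
    have h2 : g * (x * y) * g⁻¹ = g * (y * x) * g⁻¹ := by
      simpa [mul_assoc] using h1
    exact mul_left_cancel (mul_right_cancel h2)
  · intro lam
    let c : G →* G := (MulAut.conj g).toMonoidHom
    have hc : ∀ x, c x = g * x * g⁻¹ := fun _ => rfl
    have hcinj : Function.Injective c := (MulAut.conj g).injective
    let j : Q →* (P : Subgroup G) := (c.comp Q.subtype).codRestrict _ (fun y => hmem y y.2)
    let i : ↥(Q ⊓ N) →* ↥((P : Subgroup G) ⊓ N) :=
      (c.comp (Q ⊓ N).subtype).codRestrict _ (fun y => ⟨hmem y y.2.1, hmemN y y.2.2⟩)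
    have hi : Function.Injective i := by
      intro a b hab
      apply Subtype.ext
      apply hcinj
      exact congrArg Subtype.val hab
    let lam' : i.range →* ℂˣ := lam.comp (MonoidHom.ofInjective hi).symm.toMonoidHom
    have hA : ∀ a b : ↥((P : Subgroup G) ⊓ N), a * b = b * a := fun a b =>
      Subtype.ext (hcent a a.2 b b.2.1)
    obtain ⟨l, hl⟩ := exists_ext_of_comm hA i.range lam'
    obtain ⟨μ₁, hμ₁, h1, hext⟩ := hlin (fun x => (l x : ℂ))
      (isCharacter_of_isIrrCharacter (isIrrCharacter_of_hom l)) (by simp)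
    refine ⟨(toHom hμ₁ h1).comp j, fun x => ?_⟩
    apply Units.ext
    rw [MonoidHom.comp_apply, coe_toHom]
    have h2 := hext (i x)
    have h3 : (j ⟨x, x.2.1⟩ : (P : Subgroup G)) = ⟨(i x : G), (i x).2.1⟩ := rfl
    rw [h3, h2, hl ⟨i x, x, rfl⟩]
    have h4 : lam' ⟨i x, x, rfl⟩ = lam x := by
      simp only [lam', MonoidHom.comp_apply]
      congr 1
      exact (MonoidHom.ofInjective hi).symm_apply_apply x
    rw [h4]

/-- The structure of elementary subgroups covering `G / N`. -/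
theorem exists_linear_ext (hind : ∃ k : ℕ, N.index = p ^ k) (E : Subgroup G) (hel : IsElementary p E)
    (hdesc : ∀ Q : Subgroup G, IsPGroup p Q → (∀ x ∈ Q ⊓ N, ∀ y ∈ Q, x * y = y * x) ∧
      ∀ lam : ↥(Q ⊓ N) →* ℂˣ, ∃ μ : ↥Q →* ℂˣ, ∀ x : ↥(Q ⊓ N), μ ⟨x, x.2.1⟩ = lam x)
    (φ : ↥(E ⊓ N) → ℂ) (hφ : IsIrrCharacter ↥(E ⊓ N) φ) :
    (∀ d ∈ E ⊓ N, ∀ e ∈ E, e * d * e⁻¹ = d) ∧
      ∃ μ : E →* ℂˣ, ∀ x : ↥(E ⊓ N), ((μ ⟨x, x.2.1⟩ : ℂˣ) : ℂ) = φ x := by
  classical
  have hpp : p.Prime := hp.out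
  set M := Nat.card E with hMdef
  have hM0 : M ≠ 0 := Nat.card_pos.ne'
  set m := p ^ M.factorization p with hm
  set n := M / p ^ M.factorization p with hn
  have hM : M = m * n := (Nat.ordProj_mul_ordCompl_eq_self _ _).symm
  have hpn : ¬ p ∣ n := Nat.not_dvd_ordCompl hpp hM0
  have hcop : Nat.Coprime m n :=
    Nat.Coprime.pow_left _ ((Nat.Prime.coprime_iff_not_dvd hpp).mpr hpn)
  obtain ⟨a, ha0, ha1⟩ := Nat.chineseRemainder hcop 0 1
  obtain ⟨b, hb1, hb0⟩ := Nat.chineseRemainder hcop 1 0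
  have hcard : Nat.card E ∣ m * n := by rw [← hM]
  obtain ⟨fa, hfa⟩ := exists_powHom hpp hel hcard hcop ha0 ha1
  obtain ⟨fb, hfb⟩ := exists_powHom hpp hel (by rw [mul_comm]; exact hcard) hcop.symm hb0 hb1
  have hxN : ∀ x : E, x ^ (m * n) = 1 := fun x => by rw [← hM, hMdef, pow_card_eq_one']
  have hab : a + b ≡ 1 [MOD m * n] := by
    rw [← Nat.modEq_and_modEq_iff_modEq_mul hcop]
    exact ⟨by simpa using ha0.add hb1, by simpa using ha1.add hb0⟩
  have hsplit : ∀ x : E, fa x * fb x = x := by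
    intro x
    rw [hfa, hfb, ← pow_add]
    have h3 : x ^ (a + b) = x ^ 1 := by
      have := hab.of_dvd (orderOf_dvd_of_pow_eq_one (hxN x))
      exact pow_eq_pow_iff_modEq.mpr this
    rw [h3, pow_one]
  have hNmem : ∀ y : G, ¬ p ∣ orderOf y → y ∈ N := by
    intro y hy
    obtain ⟨k, hk⟩ := hind
    have h1 : y ^ N.index ∈ N := Subgroup.pow_index_mem N y
    have h2 : Nat.Coprime N.index (orderOf y) := by
      rw [hk]
      exact Nat.Coprime.pow_left _ ((Nat.Prime.coprime_iff_not_dvd hpp).mpr hy)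
    obtain ⟨t, ht⟩ := exists_pow_eq_self_of_coprime h2
    rw [← ht]
    exact N.pow_mem h1 t
  have hfaN : ∀ x : E, ((fa x : E) : G) ∈ N := by
    intro x
    apply hNmem
    intro hd
    apply hpn
    refine hd.trans ?_
    apply orderOf_dvd_of_pow_eq_one
    rw [← Subgroup.coe_pow, hfa, ← pow_mul]
    obtain ⟨c, hc⟩ := Nat.modEq_zero_iff_dvd.mp ha0
    rw [hc]
    have : m * c * n = (m * n) * c := by ring
    rw [this, pow_mul, hxN, one_pow]
    rfl
  have hfaZ : ∀ x y : E, Commute (fa x) y := by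
    obtain ⟨x₀, hx₀, -, k₀, hk₀⟩ := hel
    have hZc : Subgroup.zpowers x₀ ≤ Subgroup.center E := by
      rw [Subgroup.zpowers_le]
      exact hx₀
    have hZn : (Subgroup.zpowers x₀).Normal := by
      constructor
      intro z hz g
      have := Subgroup.mem_center_iff.mp (hZc hz) g
      rw [this, mul_inv_cancel_right]
      exact hz
    intro x y
    have h1 : x ^ (Subgroup.zpowers x₀).index ∈ Subgroup.zpowers x₀ := Subgroup.pow_index_mem _ x
    have h2 : (Subgroup.zpowers x₀).index ∣ M := Subgroup.index_dvd_card _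
    have h3 : p ^ k₀ ∣ m := by
      rw [hk₀, hM] at h2
      exact (Nat.Coprime.pow_left _ ((Nat.Prime.coprime_iff_not_dvd hpp).mpr hpn)).dvd_of_dvd_mul_right h2
    have h4 : (Subgroup.zpowers x₀).index ∣ a := by
      rw [hk₀]
      exact h3.trans (Nat.modEq_zero_iff_dvd.mp ha0)
    obtain ⟨c, hc⟩ := h4
    have h5 : fa x ∈ Subgroup.zpowers x₀ := by
      rw [hfa, hc, pow_mul]
      exact Subgroup.pow_mem _ h1 c
    exact (Subgroup.mem_center_iff.mp (hZc h5) y).symm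
  let Q : Subgroup G := (E.subtype.comp fb).range
  have hQE : Q ≤ E := by
    rintro _ ⟨x, rfl⟩
    exact (fb x).2
  have hQp : IsPGroup p Q := by
    rintro ⟨_, x, rfl⟩
    refine ⟨M.factorization p, ?_⟩
    apply Subtype.ext
    simp only [Subgroup.coe_pow, MonoidHom.comp_apply, Subgroup.subtype_apply, hfb, Subgroup.coe_one]
    rw [← pow_mul]
    obtain ⟨c, hc⟩ := Nat.modEq_zero_iff_dvd.mp hb0
    rw [hc]
    have h1 : n * c * m = M * c := by
      calc n * c * m = (m * n) * c := by ring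
        _ = M * c := by rw [← hM]
    rw [h1, pow_mul]
    have h2 : (x : G) ^ M = 1 := by
      rw [← Subgroup.coe_pow, hMdef, pow_card_eq_one']
      rfl
    rw [h2, one_pow]
  obtain ⟨hA1, hA2⟩ := hdesc Q hQp
  have hfbQ : ∀ x : E, ((fb x : E) : G) ∈ Q := fun x => ⟨x, rfl⟩
  have hfbN : ∀ x : E, (x : G) ∈ N → ((fb x : E) : G) ∈ N := by
    intro x hx
    have h1 : ((fb x : E) : G) = ((fa x : E) : G)⁻¹ * x := by
      have := congrArg Subtype.val (hsplit x)
      simp only [Subgroup.coe_mul] at this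
      rw [← this]
      simp
    rw [h1]
    exact N.mul_mem (N.inv_mem (hfaN x)) hx
  have hcen : ∀ d ∈ E ⊓ N, ∀ e ∈ E, e * d * e⁻¹ = d := by
    intro d hd e he
    let d' : E := ⟨d, hd.1⟩
    let e' : E := ⟨e, he⟩
    have h1 : Commute (fb d') (fb e') :=
      Subtype.ext (hA1 _ ⟨hfbQ d', hfbN d' hd.2⟩ _ (hfbQ e'))
    have h2 : Commute (fa d' * fb d') (fa e' * fb e') :=
      Commute.mul_left (hfaZ d' _) (Commute.mul_right (hfaZ e' _).symm h1)
    rw [hsplit, hsplit] at h2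
    have h3 : d * e = e * d := congrArg Subtype.val h2
    rw [← h3, mul_inv_cancel_right]
  refine ⟨hcen, ?_⟩
  have hA : ∀ x y : ↥(E ⊓ N), x * y = y * x := by
    intro x y
    apply Subtype.ext
    have h1 := hcen x x.2 y y.2.1
    simp only [Subgroup.coe_mul]
    calc (x : G) * y = ((y : G) * x * (y : G)⁻¹) * y := by rw [h1]
      _ = y * x := by group
  have h1 := isIrr_deg_one_of_comm hA hφ
  have hφc := isCharacter_of_isIrrCharacter hφ
  let φ₀ : ↥(E ⊓ N) →* ℂˣ := toHom hφc h1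
  let i : ↥(Q ⊓ N) →* ↥(E ⊓ N) := Subgroup.inclusion (inf_le_inf_right N hQE)
  obtain ⟨ν, hν⟩ := hA2 (φ₀.comp i)
  let fa' : E →* ↥(E ⊓ N) := (E.subtype.comp fa).codRestrict (E ⊓ N)
    (fun x => ⟨(fa x).2, hfaN x⟩)
  let fb' : E →* Q := (E.subtype.comp fb).rangeRestrict
  refine ⟨(φ₀.comp fa') * (ν.comp fb'), fun x => ?_⟩
  let x' : E := ⟨x, x.2.1⟩
  have hxN' : (x' : G) ∈ N := x.2.2
  have h2 : ν (fb' x') = φ₀ ⟨(fb x' : G), (fb x').2, hfbN x' hxN'⟩ :=
    hν ⟨(fb x' : G), hfbQ x', hfbN x' hxN'⟩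
  have h3 : fa' x' * ⟨(fb x' : G), (fb x').2, hfbN x' hxN'⟩ = x := by
    apply Subtype.ext
    change ((fa x' * fb x' : E) : G) = (x' : G)
    rw [hsplit]
  have h4 : ((φ₀.comp fa') * (ν.comp fb')) x' = φ₀ x := by
    rw [MonoidHom.mul_apply, MonoidHom.comp_apply, MonoidHom.comp_apply, h2, ← map_mul, h3]
  change ((((φ₀.comp fa') * (ν.comp fb')) x' : ℂˣ) : ℂ) = _
  rw [h4]
  rfl

end Trans

/-- Let N be a normal subgroup of the finite group G with the index of N a power of the prime p, and P a Sylow p-subgroup of G such that P ⊓ N lies in the centre of P and every character of degree 1 of P ⊓ N is the restriction of a character of degree 1 of P. Then every irreducible character of N invariant under conjugation by G is the restriction of an irreducible character of G. -/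
theorem result {G : Type*} [Group G] [Fintype G] (p : ℕ) [Fact p.Prime] (N : Subgroup G) [hN : N.Normal] (hind : ∃ k : ℕ, N.index = p ^ k) (P : Sylow p G) (hcent : ∀ x ∈ (P : Subgroup G) ⊓ N, ∀ y ∈ (P : Subgroup G), x * y = y * x) (hlin : ∀ lam : ↥((P : Subgroup G) ⊓ N) → ℂ, Cfsg.IsCharacter ↥((P : Subgroup G) ⊓ N) lam → lam 1 = 1 → ∃ μ : ↥(P : Subgroup G) → ℂ, Cfsg.IsCharacter ↥(P : Subgroup G) μ ∧ μ 1 = 1 ∧ ∀ x : ↥((P : Subgroup G) ⊓ N), μ ⟨(x : G), x.2.1⟩ = lam x) (ϑ : N → ℂ) (hϑ : Cfsg.IsIrrCharacter N ϑ) (hinv : ∀ (g : G) (n : N), ϑ ⟨g * n * g⁻¹, hN.conj_mem (n : G) n.2 g⟩ = ϑ n) : ∃ χ : G → ℂ, Cfsg.IsIrrCharacter G χ ∧ ∀ n : N, χ n = ϑ n := by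
  classical
  have hpp : p.Prime := Fact.out
  obtain ⟨E, φ, hel, htop, hφ, -, m, hm, hsum⟩ :=
    Cfsg.Agent.S0896.result p hpp N hind ϑ hϑ hinv
  obtain ⟨hcen, μ, hμ⟩ := exists_linear_ext hind E hel (descend P hcent hlin) φ hφ
  let _ : Fintype ↥(E ⊓ N) := Fintype.ofFinite _
  have hϑ' := hϑ
  obtain ⟨d, X, hX, rfl⟩ := hϑ
  have hinv' : ∀ g : G, conjOn hN g X.character = X.character := by
    intro g
    rw [conjOn_eq_comp]
    funext n
    simp only [Function.comp]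
    rw [← hinv g n]
    congr 1
  have hmem := finrank_mem_exponents_of_central hN X htop hcen μ
  have hmult := classInner_eq_finrank_eigen X μ
  have hW : finrank ℂ (eigen X E μ) = m := by
    have h1 : (finrank ℂ (eigen X E μ) : ℂ) = m := by
      rw [← hmult, ← hsum, finsum_eq_sum_of_fintype]
      unfold classInner
      congr 1
      refine Finset.sum_congr rfl fun x _ => ?_
      exact congrArg (fun z => X.character ⟨x, x.2.2⟩ * conj z) (hμ x)
    exact_mod_cast h1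
  have hone : (1 : ℤ) ∈ exponents hN X := by
    apply one_mem_exponents
    intro r hr
    by_cases hrp : r = p
    · subst hrp
      refine ⟨_, hmem, ?_⟩
      rw [hW]
      exact fun h => hm (Int.natCast_dvd_natCast.mp h)
    · refine ⟨_, index_mem_exponents hX hinv' (P := N) le_rfl X (fun _ => rfl), ?_⟩
      obtain ⟨k, hk⟩ := hind
      rw [hk]
      intro h
      have h1 : r ∣ p ^ k := Int.natCast_dvd_natCast.mp h
      have h2 : r ∣ p := hr.dvd_of_dvd_pow h1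
      exact hrp ((Nat.prime_dvd_prime_iff_eq hr hpp).mp h2)
  obtain ⟨σ, hσ⟩ := exists_ext_of_one_mem hX hinv' hone
  exact ⟨σ.character, isIrr_ext_of_rep hσ hϑ'⟩

end Cfsg.Agent.S0897
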