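import Cfsg.Statements.S0899
import Cfsg.Agent.Lib.CharDeep.BlichB

set_option autoImplicit false
open Cfsg

namespace Cfsg.Agent.S0899

open Cfsg.Agent.Lib.Char.Basic Cfsg.Agent.Lib.Char.Degree Cfsg.Agent.Lib.CharDeep.BlichB

/-- Let G be a finite group with a faithful complex representation of degree n (on Fin n → ℂ) and p a prime. Suppose either that (n + 1) ^ 2 ≤ p, or that n + 1 < p and every subgroup of G whose order is not divisible by p ^ 2 has a normal Sylow p-subgroup. Then every Sylow p-subgroup of G is normal. -/
theorem result {G : Type*} [Group G] [Finite G] (n : ℕ) (ρ : Representation ℂ G (Fin n → ℂ)) (hρ : Function.Injective ρ) (p : ℕ) [Fact p.Prime] (h : (n + 1) ^ 2 ≤ p ∨ (n + 1 < p ∧ ∀ K : Subgroup G, ¬ p ^ 2 ∣ Nat.card K → ∀ Q : Sylow p K, (Q : Subgroup K).Normal)) (P : Sylow p G) : (P : Subgroup G).Normal := by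
  classical
  have hp : p.Prime := Fact.out
  letI : Fintype G := Fintype.ofFinite _
  set τ : G → ℂ := ρ.character with hτdef
  have hτ : IsCharacter G τ := ⟨n, ρ, rfl⟩
  have hdeg : charDegree τ = n := by
    apply charDegree_eq_of_eq_natCast
    rw [hτdef, Representation.char_one]
    simp
  have hfaith : ∀ g, τ g = τ 1 → g = 1 := by
    intro g hg
    have h1 : ρ g = 1 := (character_eq_one_iff ρ g).mp hg
    exact hρ (h1.trans (map_one ρ).symm)
  have hn : n + 1 < p := by
    rcases h with h | h
    · have h2 : n + 1 ≤ (n + 1) ^ 2 := Nat.le_self_pow (by norm_num) _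
      by_cases hn0 : n = 0
      · subst hn0
        exact hp.one_lt
      · have h3 : n + 1 < (n + 1) ^ 2 := by
          have : 1 < n + 1 := by omega
          nlinarith
        omega
    · exact h.1
  have hclosed : ∀ L : Subgroup G, PClosed p L := by
    intro L
    induction L using WellFoundedLT.induction with
    | ind L ih =>
      letI : Fintype L := Fintype.ofFinite _
      set τL : L → ℂ := fun a => τ a with hτL
      have hτLc : IsCharacter L τL := isCharacter_restrict L hτ
      have hdegL : charDegree τL = n := by
        apply charDegree_eq_of_eq_natCast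
        change τ 1 = _
        rw [← hdeg, charDegree_natCast hτ]
      have hfaithL : ∀ g : L, τL g = τL 1 → g = 1 := fun g hg => Subtype.ext (hfaith _ hg)
      have hminL : ∀ L₁ : Subgroup L, L₁ ≠ ⊤ → PClosed p L₁ := by
        intro L₁ hL₁ S₁ S₂ h1 h2 h3 h4
        have hlt : L₁.map L.subtype < L := by
          refine lt_of_le_of_ne (Subgroup.map_subtype_le L₁) ?_
          intro he
          apply hL₁
          rw [eq_top_iff]
          intro c _
          have hc : (c : G) ∈ L₁.map L.subtype := by rw [he]; exact c.2
          obtain ⟨d, hd, hdc⟩ := hc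
          have : d = c := Subtype.ext hdc
          rwa [← this]
        have hS : IsPGroup p ↥(S₁.map L.subtype ⊔ S₂.map L.subtype) :=
          ih _ hlt _ _ (h1.map _) (h2.map _) (Subgroup.map_mono h3) (Subgroup.map_mono h4)
        rintro ⟨x, hx⟩
        have hx' : (x : G) ∈ S₁.map L.subtype ⊔ S₂.map L.subtype := by
          rw [← Subgroup.map_sup]
          exact ⟨x, hx, rfl⟩
        obtain ⟨k, hk⟩ := hS ⟨x, hx'⟩
        refine ⟨k, ?_⟩
        apply Subtype.ext
        apply Subtype.ext
        change (x : G) ^ (p ^ k) = 1
        exact congrArg Subtype.val hk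
      -- every Sylow subgroup of `L` is normal
      have hnormal : ∀ Q : Sylow p L, (Q : Subgroup L).Normal := by
        intro Q
        by_cases hsize : (n + 1) ^ 2 ≤ Nat.card Q
        · apply core hτLc hfaithL (by rw [hdegL]; exact hn) hminL Q
          rw [hdegL]
          exact hsize
        · push Not at hsize
          rcases h with h | ⟨h1, h2⟩
          · have hlt : Nat.card Q < p := lt_of_lt_of_le hsize h
            obtain ⟨k, hk⟩ := IsPGroup.iff_card.mp Q.isPGroup'
            have hk' : Nat.card Q = p ^ k := hk
            have hk0 : k = 0 := by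
              by_contra hne
              have : p ^ 1 ≤ p ^ k := Nat.pow_le_pow_right hp.pos (by omega)
              rw [pow_one] at this
              omega
            rw [hk0, pow_zero] at hk
            have hbot : (Q : Subgroup L) = ⊥ := Subgroup.card_eq_one.mp hk
            rw [hbot]
            infer_instance
          · apply h2 L
            intro hdvd
            have h3 := Q.pow_dvd_card_of_pow_dvd_card hdvd
            have h4 := Nat.le_of_dvd Nat.card_pos h3
            have h5 : (n + 1) ^ 2 ≤ p ^ 2 := Nat.pow_le_pow_left h1.le 2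
            have h6 : Nat.card (Q : Subgroup L) = Nat.card Q := rfl
            omega
      intro S₁ S₂ h1 h2 h3 h4
      obtain ⟨Q⟩ : Nonempty (Sylow p L) := inferInstance
      have hQn := hnormal Q
      have huniq : ∀ Q' : Sylow p L, Q' = Q := by
        letI := Sylow.unique_of_normal Q hQn
        exact fun Q' => Subsingleton.elim _ _
      have hsub : ∀ T : Subgroup G, IsPGroup p T → T ≤ L → T ≤ (Q : Subgroup L).map L.subtype := by
        intro T hT hTL
        have hT' : IsPGroup p (T.subgroupOf L) := by
          intro x
          obtain ⟨k, hk⟩ := hT ⟨x, Subgroup.mem_subgroupOf.mp x.2⟩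
          refine ⟨k, ?_⟩
          apply Subtype.ext
          apply Subtype.ext
          change ((x : L) : G) ^ (p ^ k) = 1
          exact congrArg Subtype.val hk
        obtain ⟨Q', hQ'⟩ := hT'.exists_le_sylow
        rw [huniq Q'] at hQ'
        intro t ht
        exact ⟨⟨t, hTL ht⟩, hQ' (Subgroup.mem_subgroupOf.mpr ht), rfl⟩
      exact (Q.isPGroup'.map L.subtype).to_le (sup_le (hsub S₁ h1 h3) (hsub S₂ h2 h4))
  refine ⟨fun x hx g => ?_⟩
  have hcl := hclosed ⊤ _ _ P.isPGroup' (g • P : Sylow p G).isPGroup' le_top le_top
  have e1 := P.is_maximal' hcl le_sup_left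
  have e2 := (g • P : Sylow p G).is_maximal' hcl le_sup_right
  have e3 : ((g • P : Sylow p G) : Subgroup G) = P := e2.symm.trans e1
  rw [← e3]
  refine mem_smul_sylow.mpr ?_
  have e : g⁻¹ * (g * x * g⁻¹) * g = x := by group
  rw [e]
  exact hx

end Cfsg.Agent.S0899
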