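import Cfsg.Statements.S0900
import Cfsg.Agent.Lib.Char.CliffordCorr

set_option autoImplicit false
open Cfsg

namespace Cfsg.Agent.S0900

open Cfsg.Agent.Lib.Char.Basic Cfsg.Agent.Lib.Char.Ortho Cfsg.Agent.Lib.Char.Complete
open Cfsg.Agent.Lib.Char.Induced Cfsg.Agent.Lib.Char.IndRep Cfsg.Agent.Lib.Char.Conj
open Cfsg.Agent.Lib.Char.Clifford
open scoped ComplexConjugate

section aux

open scoped Classical

variable {G : Type*} [Group G] [Fintype G] (N : Subgroup G) [hN : N.Normal] [Fintype N]

omit hN in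
lemma sum_split (a : G → ℂ) :
    ∑ g, a g = ∑ n : N, a n + ∑ g, (if g ∈ N then 0 else a g) := by
  rw [← sum_extendByZero N (fun n : N => a n), ← Finset.sum_add_distrib]
  refine Finset.sum_congr rfl fun g _ => ?_
  by_cases hg : g ∈ N
  · rw [extendByZero_of_mem N _ hg]; simp [hg]
  · rw [extendByZero_of_not_mem N _ hg]; simp [hg]

lemma restrict_eq {χ : G → ℂ} (hχ : IsIrrCharacter G χ) {ϑ : N → ℂ} (hϑ : IsIrrCharacter N ϑ)
    (hcon : classInner (fun n : N => χ n) ϑ ≠ 0)
    (hinv : ∀ (g : G) (n : N), ϑ ⟨g * n * g⁻¹, hN.conj_mem (n : G) n.2 g⟩ = ϑ n) :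
    (fun n : N => χ n) = classInner (fun n : N => χ n) ϑ • ϑ := by
  classical
  have h := clifford_restrict hN hχ hϑ hcon
  have horb : orbitFinset hN ϑ = {ϑ} := by
    ext φ
    rw [mem_orbitFinset, Finset.mem_singleton]
    constructor
    · rintro ⟨g, rfl⟩
      funext n
      exact hinv g n
    · rintro rfl
      exact ⟨1, conjOn_one hN _⟩
  rw [horb, Finset.sum_singleton] at h
  exact h

omit hN in
/-- the norm identity for a restriction -/
lemma norm_identity {χ : G → ℂ} (hχ : IsIrrCharacter G χ) {ϑ : N → ℂ} (hϑ : IsIrrCharacter N ϑ)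
    {e : ℂ} (h : (fun n : N => χ n) = e • ϑ) :
    (Nat.card N : ℂ) * (e * conj e) + ∑ g, (if g ∈ N then 0 else χ g * conj (χ g)) =
      (Nat.card G : ℂ) := by
  have h1 : classInner χ χ = 1 := classInner_self_of_isIrr hχ
  have h2 : ∑ g, χ g * conj (χ g) = (Nat.card G : ℂ) := by
    unfold classInner at h1
    have hG : (Nat.card G : ℂ) ≠ 0 := card_ne_zero_complex
    field_simp at h1
    exact h1
  have h3 : classInner ϑ ϑ = 1 := classInner_self_of_isIrr hϑ
  have h4 : ∑ n : N, ϑ n * conj (ϑ n) = (Nat.card N : ℂ) := by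
    unfold classInner at h3
    have hG : (Nat.card N : ℂ) ≠ 0 := card_ne_zero_complex
    field_simp at h3
    exact h3
  have h5 : ∑ n : N, χ n * conj (χ n) = (Nat.card N : ℂ) * (e * conj e) := by
    have : ∀ n : N, χ n = e * ϑ n := fun n => congrFun h n
    simp only [this, map_mul]
    rw [← h4, Finset.sum_mul]
    refine Finset.sum_congr rfl fun n _ => ?_
    ring
  rw [← h5, ← sum_split N (fun g => χ g * conj (χ g)), h2]

lemma eq_zero_of_sum_eq_zero {χ : G → ℂ}
    (h : ∑ g, (if g ∈ N then 0 else χ g * conj (χ g)) = 0) :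
    ∀ g : G, g ∉ N → χ g = 0 := by
  intro g hg
  have hterm : ∀ g : G, (if g ∈ N then 0 else χ g * conj (χ g)) =
      (((if g ∈ N then 0 else Complex.normSq (χ g)) : ℝ) : ℂ) := by
    intro g
    by_cases hg : g ∈ N
    · simp [hg]
    · simp [hg, Complex.mul_conj]
  simp only [hterm] at h
  rw [← Complex.ofReal_sum, Complex.ofReal_eq_zero] at h
  have hnn : ∀ i ∈ Finset.univ, (0 : ℝ) ≤ (if i ∈ N then 0 else Complex.normSq (χ i)) := by
    intro i _
    split_ifs
    · exact le_rfl
    · exact Complex.normSq_nonneg _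
  have := (Finset.sum_eq_zero_iff_of_nonneg hnn).mp h g (Finset.mem_univ _)
  rw [if_neg hg] at this
  exact Complex.normSq_eq_zero.mp this

lemma sum_vanish {χ ψ : G → ℂ} (h : ∀ g : G, g ∉ N → χ g = 0) :
    ∑ g, ψ g * conj (χ g) = ∑ n : N, ψ n * conj (χ n) := by
  rw [sum_split N (fun g => ψ g * conj (χ g))]
  have h0 : ∑ g, (if g ∈ N then (0 : ℂ) else ψ g * conj (χ g)) = 0 := by
    apply Finset.sum_eq_zero
    intro g _
    by_cases hg : g ∈ N
    · simp [hg]
    · simp [hg, h g hg]
  rw [h0, add_zero]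

end aux

/-- Let N be a normal subgroup of the finite group G, χ an irreducible character of G and ϑ an irreducible character of N having nonzero inner product with the restriction of χ. Consider: (a) the restriction of χ to N is e • ϑ for a natural number e with e ^ 2 equal to the index of N; (b) χ vanishes outside N and ϑ is invariant under conjugation by G; (c) ϑ is invariant and every irreducible character of G having nonzero inner product with the function induced from ϑ equals χ. Then (a) ↔ (b) and (a) ↔ (c). -/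
theorem result {G : Type*} [Group G] [Fintype G] (N : Subgroup G) [hN : N.Normal] [Fintype N] (χ : G → ℂ) (hχ : Cfsg.IsIrrCharacter G χ) (ϑ : N → ℂ) (hϑ : Cfsg.IsIrrCharacter N ϑ) (hcon : Cfsg.classInner (fun n : N => χ n) ϑ ≠ 0) : ((∃ e : ℕ, (fun n : N => χ n) = (e : ℂ) • ϑ ∧ e ^ 2 = N.index) ↔ ((∀ g : G, g ∉ N → χ g = 0) ∧ ∀ (g : G) (n : N), ϑ ⟨g * n * g⁻¹, hN.conj_mem (n : G) n.2 g⟩ = ϑ n)) ∧ ((∃ e : ℕ, (fun n : N => χ n) = (e : ℂ) • ϑ ∧ e ^ 2 = N.index) ↔ (∀ (g : G) (n : N), ϑ ⟨g * n * g⁻¹, hN.conj_mem (n : G) n.2 g⟩ = ϑ n ∧ ∀ ψ : G → ℂ, Cfsg.IsIrrCharacter G ψ → Cfsg.classInner (Cfsg.indFun N ϑ) ψ ≠ 0 → ψ = χ)) := by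
  classical
  have hNc : (Nat.card N : ℂ) ≠ 0 := card_ne_zero_complex
  have hGc : (Nat.card G : ℂ) = (Nat.card N : ℂ) * (N.index : ℂ) := by
    rw [← Subgroup.card_mul_index N]; push_cast; rfl
  have hindex : N.index ≠ 0 := Subgroup.index_ne_zero_of_finite
  have hϑ1 : ϑ 1 ≠ 0 := irr_one_ne_zero hϑ
  -- (a) implies (b)
  have ab : (∃ e : ℕ, (fun n : N => χ n) = (e : ℂ) • ϑ ∧ e ^ 2 = N.index) →
      ((∀ g : G, g ∉ N → χ g = 0) ∧ ∀ (g : G) (n : N),
        ϑ ⟨g * n * g⁻¹, hN.conj_mem (n : G) n.2 g⟩ = ϑ n) := by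
    rintro ⟨e, he, he2⟩
    have hne : (e : ℂ) ≠ 0 := by
      intro h0
      have : e = 0 := by exact_mod_cast h0
      subst this
      apply hindex
      rw [← he2]; simp
    constructor
    · apply eq_zero_of_sum_eq_zero N
      have := norm_identity N hχ hϑ he
      have hc : (e : ℂ) * conj (e : ℂ) = (N.index : ℂ) := by
        rw [Complex.conj_natCast, ← he2]; push_cast; ring
      rw [hc, ← hGc] at this
      exact left_eq_add.mp this.symm |>.trans rfl
    · intro g n
      have h1 : ∀ m : N, χ m = e * ϑ m := fun m => congrFun he m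
      have h2 := h1 ⟨g * n * g⁻¹, hN.conj_mem (n : G) n.2 g⟩
      have h3 : χ (g * n * g⁻¹) = χ n := isClassFunction_of_isIrrCharacter hχ _ _
      simp only at h2
      rw [h3, h1 n] at h2
      exact (mul_left_cancel₀ hne h2).symm
  -- (b) implies (a)
  have ba : ((∀ g : G, g ∉ N → χ g = 0) ∧ ∀ (g : G) (n : N),
        ϑ ⟨g * n * g⁻¹, hN.conj_mem (n : G) n.2 g⟩ = ϑ n) →
      (∃ e : ℕ, (fun n : N => χ n) = (e : ℂ) • ϑ ∧ e ^ 2 = N.index) := by
    rintro ⟨hv, hinv⟩
    have hres := restrict_eq N hχ hϑ hcon hinv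
    obtain ⟨e, he⟩ := exists_nat_classInner
      (isCharacter_restrict N (isCharacter_of_isIrrCharacter hχ))
      (isCharacter_of_isIrrCharacter hϑ)
    rw [he] at hres
    refine ⟨e, hres, ?_⟩
    have := norm_identity N hχ hϑ hres
    rw [Finset.sum_eq_zero, add_zero, hGc, Complex.conj_natCast] at this
    · have h := mul_left_cancel₀ hNc this
      have : ((e ^ 2 : ℕ) : ℂ) = (N.index : ℂ) := by push_cast; rw [← h]; ring
      exact_mod_cast this
    · intro g _
      by_cases hg : g ∈ N
      · simp [hg]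
      · simp [hg, hv g hg]
  refine ⟨⟨ab, ba⟩, ?_, ?_⟩
  · -- (a) implies (c)
    intro ha
    obtain ⟨hv, hinv⟩ := ab ha
    obtain ⟨e, he, he2⟩ := ha
    intro g n
    refine ⟨hinv g n, ?_⟩
    intro ψ hψ hψc
    rw [classInner_indFun_left N ϑ ψ (isClassFunction_of_isIrrCharacter hψ)] at hψc
    have hψc' : classInner (fun n : N => ψ n) ϑ ≠ 0 := classInner_ne_zero_comm hψc
    have hres := restrict_eq N hψ hϑ hψc' hinv
    by_contra hne
    have h0 : classInner ψ χ = 0 := classInner_eq_zero_of_isIrr_of_ne hψ hχ hne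
    unfold classInner at h0
    have hG0 : (Nat.card G : ℂ)⁻¹ ≠ 0 := inv_ne_zero card_ne_zero_complex
    have h1 : ∑ g, ψ g * conj (χ g) = 0 := (mul_eq_zero.mp h0).resolve_left hG0
    rw [sum_vanish N hv] at h1
    set f := classInner (fun n : N => ψ n) ϑ with hf
    have h3 : classInner ϑ ϑ = 1 := classInner_self_of_isIrr hϑ
    have h4 : ∑ n : N, ϑ n * conj (ϑ n) = (Nat.card N : ℂ) := by
      unfold classInner at h3
      field_simp at h3
      exact h3
    have h5 : ∑ n : N, ψ n * conj (χ n) = f * (e : ℂ) * (Nat.card N : ℂ) := by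
      have h6 : ∀ n : N, ψ n = f * ϑ n := fun n => congrFun hres n
      have h7 : ∀ n : N, χ n = e * ϑ n := fun n => congrFun he n
      simp only [h6, h7, map_mul, Complex.conj_natCast]
      rw [← h4, Finset.mul_sum]
      refine Finset.sum_congr rfl fun n _ => ?_
      ring
    rw [h5] at h1
    have hene : (e : ℂ) ≠ 0 := by
      intro h0
      have : e = 0 := by exact_mod_cast h0
      subst this
      apply hindex
      rw [← he2]; simp
    exact mul_ne_zero (mul_ne_zero hψc' hene) hNc h1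
  · -- (c) implies (a)
    intro hc
    have hinv : ∀ (g : G) (n : N), ϑ ⟨g * n * g⁻¹, hN.conj_mem (n : G) n.2 g⟩ = ϑ n :=
      fun g n => (hc g n).1
    have honly : ∀ ψ : G → ℂ, IsIrrCharacter G ψ → classInner (indFun N ϑ) ψ ≠ 0 → ψ = χ :=
      (hc 1 1).2
    have hres := restrict_eq N hχ hϑ hcon hinv
    obtain ⟨e, he⟩ := exists_nat_classInner
      (isCharacter_restrict N (isCharacter_of_isIrrCharacter hχ))
      (isCharacter_of_isIrrCharacter hϑ)
    rw [he] at hres
    refine ⟨e, hres, ?_⟩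
    have := finite_irrCharacter (G := G)
    let := Fintype.ofFinite (IrrCharacter G)
    have hexp := classFunction_eq_sum (isClassFunction_indFun N ϑ)
    have hexp1 := congrFun hexp 1
    rw [Finset.sum_apply, Finset.sum_eq_single (⟨χ, hχ⟩ : IrrCharacter G)] at hexp1
    · rw [indFun_one] at hexp1
      have h1 : classInner (indFun N ϑ) χ = classInner ϑ (fun n : N => χ n) :=
        classInner_indFun_left N ϑ χ (isClassFunction_of_isIrrCharacter hχ)
      have h2 : classInner ϑ (fun n : N => χ n) = conj (classInner (fun n : N => χ n) ϑ) := by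
        simp only [classInner, map_mul, map_inv₀, map_natCast, map_sum, Complex.conj_conj]
        congr 1
        refine Finset.sum_congr rfl fun n _ => ?_
        ring
      have h3 : χ 1 = e * ϑ 1 := by
        have := congrFun hres 1
        simpa using this
      simp only [Pi.smul_apply, smul_eq_mul] at hexp1
      rw [h1, h2, he, Complex.conj_natCast, h3] at hexp1
      have h4 : (N.index : ℂ) = (e : ℂ) * e := by
        apply mul_right_cancel₀ hϑ1
        rw [hexp1]; ring
      have : ((e ^ 2 : ℕ) : ℂ) = (N.index : ℂ) := by push_cast; rw [h4]; ring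
      exact_mod_cast this
    · intro ψ _ hψ
      have : classInner (indFun N ϑ) ψ = 0 := by
        by_contra h
        exact hψ (Subtype.ext (honly ψ ψ.2 h))
      rw [this]; simp
    · intro h
      exact absurd (Finset.mem_univ _) h

end Cfsg.Agent.S0900
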