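import Cfsg.Statements.S0903

set_option autoImplicit false
open Cfsg

namespace Cfsg.Agent.S0903

/-- Let P be a p-subgroup of the finite group G, let c centralize P and let g, h ∈ G. The number of pairs (x, y) with x conjugate to g, y conjugate to h and x * y = c is congruent modulo p to the number of such pairs in which x and y both centralize P. (This is why the Brauer map on class sums is multiplicative.) -/
theorem result {G : Type*} [Group G] [Finite G] (p : ℕ) [Fact p.Prime] (P : Subgroup G) (hP : IsPGroup p P) (c : G) (hc : c ∈ Subgroup.centralizer (P : Set G)) (g h : G) : Nat.card {xy : G × G // IsConj g xy.1 ∧ IsConj h xy.2 ∧ xy.1 * xy.2 = c} ≡ Nat.card {xy : G × G // IsConj g xy.1 ∧ IsConj h xy.2 ∧ xy.1 * xy.2 = c ∧ xy.1 ∈ Subgroup.centralizer (P : Set G) ∧ xy.2 ∈ Subgroup.centralizer (P : Set G)} [MOD p] := by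
  classical
  have hcomm : ∀ u : P, (u : G) * c * (u : G)⁻¹ = c := by
    intro u
    have := (Subgroup.mem_centralizer_iff.mp hc) (u : G) u.2
    rw [this]; simp
  let act : MulAction P {xy : G × G // IsConj g xy.1 ∧ IsConj h xy.2 ∧ xy.1 * xy.2 = c} :=
    { smul := fun u xy => ⟨((u : G) * xy.1.1 * (u : G)⁻¹, (u : G) * xy.1.2 * (u : G)⁻¹), by
        refine ⟨?_, ?_, ?_⟩
        · exact xy.2.1.trans (isConj_iff.mpr ⟨u, rfl⟩)
        · exact xy.2.2.1.trans (isConj_iff.mpr ⟨u, rfl⟩)
        · have := xy.2.2.2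
          calc (u : G) * xy.1.1 * (u : G)⁻¹ * ((u : G) * xy.1.2 * (u : G)⁻¹)
              = (u : G) * (xy.1.1 * xy.1.2) * (u : G)⁻¹ := by group
            _ = c := by rw [this, hcomm]⟩
      one_smul := fun xy => by
        apply Subtype.ext
        apply Prod.ext
        · show ((1 : P) : G) * xy.1.1 * ((1 : P) : G)⁻¹ = xy.1.1
          simp
        · show ((1 : P) : G) * xy.1.2 * ((1 : P) : G)⁻¹ = xy.1.2
          simp
      mul_smul := fun u v xy => by
        apply Subtype.ext
        apply Prod.ext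
        · show ((u * v : P) : G) * xy.1.1 * ((u * v : P) : G)⁻¹ = (u : G) * ((v : G) * xy.1.1 * (v : G)⁻¹) * (u : G)⁻¹
          simp only [Subgroup.coe_mul]; group
        · show ((u * v : P) : G) * xy.1.2 * ((u * v : P) : G)⁻¹ = (u : G) * ((v : G) * xy.1.2 * (v : G)⁻¹) * (u : G)⁻¹
          simp only [Subgroup.coe_mul]; group }
  have hsmul : ∀ (u : P) (xy : {xy : G × G // IsConj g xy.1 ∧ IsConj h xy.2 ∧ xy.1 * xy.2 = c}),
      ((u • xy).1 : G × G) = ((u : G) * xy.1.1 * (u : G)⁻¹, (u : G) * xy.1.2 * (u : G)⁻¹) := fun _ _ => rfl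
  refine (hP.card_modEq_card_fixedPoints _).trans ?_
  refine Eq.subst (motive := fun k => _ ≡ k [MOD p]) (Nat.card_congr ?_) (Nat.ModEq.refl _)
  refine
    { toFun := fun a => ⟨a.1.1, a.1.2.1, a.1.2.2.1, a.1.2.2.2, ?_, ?_⟩
      invFun := fun a => ⟨⟨a.1, a.2.1, a.2.2.1, a.2.2.2.1⟩, ?_⟩
      left_inv := fun a => rfl
      right_inv := fun a => rfl }
  · rw [Subgroup.mem_centralizer_iff]
    intro u hu
    have := a.2 ⟨u, hu⟩
    have h2 := congrArg (fun z => z.1.1) this
    simp only [hsmul] at h2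
    exact mul_inv_eq_iff_eq_mul.mp h2
  · rw [Subgroup.mem_centralizer_iff]
    intro u hu
    have := a.2 ⟨u, hu⟩
    have h2 := congrArg (fun z => z.1.2) this
    simp only [hsmul] at h2
    exact mul_inv_eq_iff_eq_mul.mp h2
  · rw [MulAction.mem_fixedPoints]
    intro u
    apply Subtype.ext
    rw [hsmul]
    apply Prod.ext
    · show (u : G) * a.1.1 * (u : G)⁻¹ = a.1.1
      rw [(Subgroup.mem_centralizer_iff.mp a.2.2.2.2.1) (u : G) u.2]; simp
    · show (u : G) * a.1.2 * (u : G)⁻¹ = a.1.2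
      rw [(Subgroup.mem_centralizer_iff.mp a.2.2.2.2.2) (u : G) u.2]; simp

end Cfsg.Agent.S0903
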