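import Cfsg.Statements.S0910
import Cfsg.Agent.Lib.Blocks.Central
import Cfsg.Agent.Lib.Char.Galois
import Cfsg.Agent.Lib.Char.Linear
import Cfsg.Agent.Lib.Char.Central

set_option autoImplicit false
open Cfsg

namespace Cfsg.Agent.S0910

/-- Let G be a non-abelian finite simple group and p a prime. If an irreducible character χ lies in the principal block (relative to a maximal ideal of the algebraic integers containing p) and χ 1 is a power of p, then χ is the principal character. -/
theorem result {G : Type*} [Group G] [Finite G] (p : ℕ) [Fact p.Prime] (M : Ideal Cfsg.AlgInt) (hM : Cfsg.IsPModular p M) [IsSimpleGroup G] (hna : ∃ a b : G, a * b ≠ b * a) (χ : Cfsg.IrrCharacter G) (hχ : χ ∈ Cfsg.principalBlock M G) (k : ℕ) (hdeg : (χ : G → ℂ) 1 = (p : ℂ) ^ k) : (χ : G → ℂ) = fun _ => 1 := by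
  classical
  cases nonempty_fintype G
  obtain ⟨χ, hirr⟩ := χ
  obtain ⟨n, ρ, hρ, rfl⟩ := id hirr
  haveI : ρ.IsIrreducible := hρ
  have hfin : ((Module.finrank ℂ (Fin n → ℂ) : ℕ) : ℂ) = ρ.character 1 := by
    simp [Representation.character]
  have hdeg' : Module.finrank ℂ (Fin n → ℂ) = p ^ k := by
    have h1 : ((Module.finrank ℂ (Fin n → ℂ) : ℕ) : ℂ) = ((p ^ k : ℕ) : ℂ) := by
      rw [hfin]
      push_cast
      exact hdeg
    exact_mod_cast h1
  rcases Nat.eq_zero_or_pos k with rfl | hk
  · -- degree one
    have h1 : ρ.character 1 = 1 := by simpa using hdeg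
    obtain ⟨lam, hlam⟩ := Cfsg.Agent.Lib.Char.Linear.exists_hom_of_deg_one
      (Cfsg.Agent.Lib.Char.Basic.isCharacter_of_isIrrCharacter hirr) h1
    show ρ.character = fun _ => 1
    have htriv : lam.ker = ⊤ := by
      rcases (MonoidHom.normal_ker lam).eq_bot_or_eq_top with h | h
      · exfalso
        obtain ⟨a, b, hab⟩ := hna
        apply hab
        have hinj : Function.Injective lam := (MonoidHom.ker_eq_bot_iff _).mp h
        apply hinj
        rw [map_mul, map_mul, mul_comm]
      · exact h
    funext g
    rw [hlam]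
    have : lam g = 1 := (MonoidHom.mem_ker).mp (htriv ▸ Subgroup.mem_top g)
    simp [this]
  · exfalso
    have hp := hM.1
    have hdvd : p ∣ Nat.card G := by
      have h1 := Cfsg.Agent.Lib.Char.Central.finrank_dvd_card ρ
      rw [hdeg'] at h1
      exact (dvd_pow_self p hk.ne').trans h1
    let P : Sylow p G := Classical.arbitrary _
    have hPnt : Nontrivial (P : Subgroup G) := by
      by_contra hnt
      rw [not_nontrivial_iff_subsingleton] at hnt
      have hbot : (P : Subgroup G) = ⊥ := Subgroup.eq_bot_of_subsingleton _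
      have h2 := P.not_dvd_index
      rw [hbot, Subgroup.index_bot] at h2
      exact h2 hdvd
    haveI : Nontrivial (Subgroup.center (P : Subgroup G)) := P.isPGroup'.center_nontrivial
    obtain ⟨x₀, hx₀⟩ := exists_ne (1 : Subgroup.center (P : Subgroup G))
    let x : G := ((x₀ : (P : Subgroup G)) : G)
    have hx1 : x ≠ 1 := by
      intro h
      apply hx₀
      apply Subtype.ext
      apply Subtype.ext
      exact h
    have hPC : (P : Subgroup G) ≤ Subgroup.centralizer ({x} : Set G) := by
      intro u hu
      rw [Subgroup.mem_centralizer_singleton_iff]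
      have := Subgroup.mem_center_iff.mp x₀.2 ⟨u, hu⟩
      exact congrArg Subtype.val this
    have hidx : ¬ p ∣ (Subgroup.centralizer ({x} : Set G)).index := fun h =>
      P.not_dvd_index (h.trans (Subgroup.index_dvd_of_le hPC))
    haveI := Cfsg.Agent.Lib.Blocks.Local.isPrime_of_pModular hM
    have hne : ρ.character x ≠ 0 := by
      intro h0
      have h1 : Cfsg.SameBlock M (fun _ : G => (1 : ℂ)) ρ.character := hχ
      have h2 := h1 x
      rw [Cfsg.centralChar, Cfsg.centralChar, h0] at h2
      simp only [mul_zero, zero_div, sub_zero, mul_one, div_one] at h2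
      exact hidx ((Cfsg.Agent.Lib.Blocks.Local.natCast_memLocalIdeal_iff hM _).mp h2)
    have hcop : Nat.Coprime (Module.finrank ℂ (Fin n → ℂ)) (Subgroup.centralizer ({x} : Set G)).index := by
      rw [hdeg']
      exact Nat.Coprime.pow_left k ((Nat.Prime.coprime_iff_not_dvd hp).mpr hidx)
    have hnorm := (Cfsg.Agent.Lib.Char.Galois.character_eq_zero_or_norm_eq_of_coprime ρ x hcop).resolve_left hne
    obtain ⟨ω, hω⟩ := (Cfsg.Agent.Lib.Char.Eigen.norm_character_eq_iff_scalar ρ x).mp hnorm
    let Z : Subgroup G :=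
      { carrier := {g | ∃ ω : ℂ, ρ g = ω • (1 : Module.End ℂ (Fin n → ℂ))}
        mul_mem' := by
          rintro a b ⟨u, hu⟩ ⟨v, hv⟩
          refine ⟨u * v, ?_⟩
          rw [map_mul, hu, hv, smul_mul_smul_comm, one_mul]
        one_mem' := ⟨1, by simp⟩
        inv_mem' := by
          rintro a ⟨u, hu⟩
          have h1 : u • ρ a⁻¹ = 1 := by
            have : ρ a * ρ a⁻¹ = 1 := by rw [← map_mul, mul_inv_cancel, map_one]
            rw [hu, smul_mul_assoc, one_mul] at this
            exact this
          have hnt : Nontrivial (Fin n → ℂ) := Cfsg.Agent.Lib.Char.Central.nontrivial_of_irreducible ρ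
          have hu0 : u ≠ 0 := by
            rintro rfl
            rw [zero_smul] at h1
            exact zero_ne_one h1
          refine ⟨u⁻¹, ?_⟩
          calc ρ a⁻¹ = u⁻¹ • (u • ρ a⁻¹) := by rw [smul_smul, inv_mul_cancel₀ hu0, one_smul]
            _ = _ := by rw [h1] }
    have hZn : Z.Normal := by
      constructor
      rintro a ⟨u, hu⟩ t
      refine ⟨u, ?_⟩
      rw [map_mul, map_mul, hu, mul_smul_comm, mul_one, smul_mul_assoc, ← map_mul, mul_inv_cancel, map_one]
    have hZtop : Z = ⊤ := by
      rcases hZn.eq_bot_or_eq_top with h | h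
      · exfalso
        have : x ∈ Z := ⟨ω, hω⟩
        rw [h, Subgroup.mem_bot] at this
        exact hx1 this
      · exact h
    have h3 := Cfsg.Agent.Lib.Char.Central.finrank_dvd_index_of_scalar ρ Z (fun z hz => hz)
    rw [hZtop, Subgroup.index_top, hdeg', Nat.dvd_one] at h3
    have := Nat.one_lt_pow hk.ne' hp.one_lt
    omega

end Cfsg.Agent.S0910
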