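import Cfsg.Statements.S0904
import Cfsg.Agent.S0910
import Cfsg.Agent.Lib.Blocks.Weak
import Cfsg.Agent.Lib.Blocks.Third
import Cfsg.Agent.Lib.Char.DefectZero
import Cfsg.Agent.Lib.Char.Degree
import Cfsg.Agent.Lib.BlockT.NormalP
import Cfsg.Agent.Lib.BlockH.Basic

set_option autoImplicit false
open Cfsg
open scoped ComplexConjugate
set_option linter.style.haveILetI false

namespace Cfsg.Agent.S0904

/-- An algebraic integer `A` with `1 + q A = 0` is impossible for `q ≥ 2`. -/
theorem not_integral_aux {q : ℕ} (hq : 2 ≤ q) {A : ℂ} (hA : IsIntegral ℤ A) (h : 1 + (q : ℂ) * A = 0) : False := by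
  have hq0 : (q : ℂ) ≠ 0 := by
    have : q ≠ 0 := by omega
    exact_mod_cast this
  have hAeq : A = (((-1 : ℚ) / (q : ℚ) : ℚ) : ℂ) := by
    push_cast
    field_simp
    linear_combination h
  rw [hAeq] at hA
  have h1 : IsIntegral ℤ ((-1 : ℚ) / (q : ℚ)) :=
    (isIntegral_algebraMap_iff (A := ℚ) (B := ℂ) (R := ℤ) (algebraMap ℚ ℂ).injective).mp hA
  obtain ⟨z, hz⟩ := IsIntegrallyClosed.isIntegral_iff.mp h1
  have hq0' : (q : ℚ) ≠ 0 := by
    have : q ≠ 0 := by omega
    exact_mod_cast this
  have h2 : (z : ℚ) * q = -1 := by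
    have : ((algebraMap ℤ ℚ) z : ℚ) = (z : ℚ) := rfl
    rw [← this, hz]
    field_simp
  have h3 : z * (q : ℤ) = -1 := by exact_mod_cast h2
  have h4 : (q : ℤ) ∣ 1 := ⟨-z, by linarith⟩
  have h5 : q ∣ 1 := by exact_mod_cast h4
  have := Nat.le_of_dvd one_pos h5
  omega

/-- The key step: elements of order `r` and `p` cannot commute. -/
theorem key {G : Type*} [Group G] [Fintype G] [IsSimpleGroup G] {p q r a b : ℕ} (hp : p.Prime)
    (hq : q.Prime) [Fact r.Prime] (hpq : p ≠ q) (hpr : p ≠ r) (hqr : q ≠ r)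
    (hcard : Nat.card G = p ^ a * q ^ b * r) (x y : G) (hxy : Commute x y) (hx : orderOf x = r)
    (hy : orderOf y = p) : False := by
  classical
  have hr : r.Prime := Fact.out
  haveI : Fact p.Prime := ⟨hp⟩
  have hna : ∃ a b : G, a * b ≠ b * a := by
    by_contra hne
    push Not at hne
    have hcomm : ∀ a b : G, a * b = b * a := hne
    letI : CommGroup G := { (inferInstance : Group G) with mul_comm := hcomm }
    have hprime : (Nat.card G).Prime := IsSimpleGroup.prime_card
    have h1 : r ∣ Nat.card G := by rw [← hx]; exact orderOf_dvd_natCard x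
    have h2 : p ∣ Nat.card G := by rw [← hy]; exact orderOf_dvd_natCard y
    have h3 := (Nat.prime_dvd_prime_iff_eq hr hprime).mp h1
    have h4 := (Nat.prime_dvd_prime_iff_eq hp hprime).mp h2
    exact hpr (h4.trans h3.symm)
  obtain ⟨M, hM⟩ := Cfsg.Agent.Lib.BlockH.Basic.exists_isPModular hp
  have hB : IsPBlock M (principalBlock M G) := Cfsg.Agent.Lib.Blocks.Third.isPBlock_principal M
  have hcop : Nat.Coprime (orderOf x) (orderOf y) := by
    rw [hx, hy]
    exact (Nat.coprime_primes hr hp).mpr hpr.symm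
  have hord : orderOf (x * y) = r * p := by
    rw [hxy.orderOf_mul_eq_mul_orderOf_of_coprime hcop, hx, hy]
  haveI := Cfsg.Agent.Lib.Char.Ortho.finite_irrCharacter (G := G)
  letI := Fintype.ofFinite (IrrCharacter G)
  have hsum := Cfsg.Agent.Lib.Blocks.Weak.sum_block_eq_zero hM hB 1 (x * y)
    (by
      rw [orderOf_one]
      intro h
      exact hp.one_lt.ne' (Nat.dvd_one.mp h)) (by rw [hord]; exact dvd_mul_left _ _)
  have hclaim : ∀ χ : IrrCharacter G, χ ≠ Cfsg.Agent.Lib.Blocks.Third.oneI G →
      ∃ γ : ℂ, IsIntegral ℤ γ ∧ (if χ ∈ principalBlock M G then (χ : G → ℂ) 1 * conj ((χ : G → ℂ) (x * y)) else 0)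
        = (q : ℂ) * γ := by
    intro χ hχ
    by_cases hmem : χ ∈ principalBlock M G
    · rw [if_pos hmem]
      have hdvd : charDegree (χ : G → ℂ) ∣ Nat.card G :=
        Cfsg.Agent.Lib.Char.Degree.charDegree_dvd_card χ.2
      have hdeg : ((charDegree (χ : G → ℂ) : ℕ) : ℂ) = (χ : G → ℂ) 1 :=
        Cfsg.Agent.Lib.Char.Degree.charDegree_natCast
          (Cfsg.Agent.Lib.Char.Basic.isCharacter_of_isIrrCharacter χ.2)
      by_cases hrd : r ∣ charDegree (χ : G → ℂ)
      · -- defect zero
        have hzero : (χ : G → ℂ) (x * y) = 0 := by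
          obtain ⟨χ', hirr⟩ := χ
          obtain ⟨n, ρ, hρ, rfl⟩ := id hirr
          haveI : ρ.IsIrreducible := hρ
          refine Cfsg.Agent.Lib.Char.DefectZero.character_eq_zero_of_defect_zero ρ r 1 hr
            (by rw [hcard, pow_one]; exact dvd_mul_left _ _) ?_ ?_ (x * y)
            (by rw [hord]; exact dvd_mul_right _ _)
          · rw [hcard, pow_succ, pow_one]
            intro h
            have h1 : r ∣ p ^ a * q ^ b := Nat.dvd_of_mul_dvd_mul_right hr.pos h
            rcases (Nat.Prime.dvd_mul hr).mp h1 with h2 | h2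
            · exact hpr ((Nat.prime_dvd_prime_iff_eq hr hp).mp (hr.dvd_of_dvd_pow h2)).symm
            · exact hqr ((Nat.prime_dvd_prime_iff_eq hr hq).mp (hr.dvd_of_dvd_pow h2)).symm
          · rw [pow_one]
            have := hrd
            rwa [Cfsg.Agent.Lib.Char.Degree.charDegree_character] at this
        refine ⟨0, isIntegral_zero, ?_⟩
        rw [hzero]
        simp
      · have hd1 : charDegree (χ : G → ℂ) ∣ p ^ a * q ^ b := by
          rw [hcard] at hdvd
          exact ((Nat.Prime.coprime_iff_not_dvd hr).mpr hrd).symm.dvd_of_dvd_mul_right hdvd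
        by_cases hqd : q ∣ charDegree (χ : G → ℂ)
        · obtain ⟨d, hd⟩ := hqd
          refine ⟨(d : ℂ) * conj ((χ : G → ℂ) (x * y)), ?_, ?_⟩
          · refine IsIntegral.mul (isIntegral_natCast d) ?_
            have h1 := Cfsg.Agent.Lib.BlockT.NormalP.isIntegral_irr χ (x * y)
            have h2 : conj ((χ : G → ℂ) (x * y)) = (χ : G → ℂ) (x * y)⁻¹ :=
              (Cfsg.Agent.Lib.Char.Ortho.char_inv_eq_conj
                (Cfsg.Agent.Lib.Char.Basic.isCharacter_of_isIrrCharacter χ.2) _).symm
            rw [h2]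
            exact Cfsg.Agent.Lib.BlockT.NormalP.isIntegral_irr χ _
          · rw [← hdeg, hd]
            push_cast
            ring
        · exfalso
          have hd2 : charDegree (χ : G → ℂ) ∣ p ^ a := by
            have hcop' : Nat.Coprime (charDegree (χ : G → ℂ)) (q ^ b) :=
              Nat.Coprime.pow_right _ ((Nat.Prime.coprime_iff_not_dvd hq).mpr hqd).symm
            exact hcop'.dvd_of_dvd_mul_right hd1
          obtain ⟨k, -, hk⟩ := (Nat.dvd_prime_pow hp).mp hd2
          have hdeg' : (χ : G → ℂ) 1 = (p : ℂ) ^ k := by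
            rw [← hdeg, hk]
            push_cast
            rfl
          have h1 := Cfsg.Agent.S0910.result p M hM hna χ hmem k hdeg'
          apply hχ
          apply Subtype.ext
          exact h1
    · rw [if_neg hmem]
      exact ⟨0, isIntegral_zero, by simp⟩
  choose γ hγ hγeq using hclaim
  have hsplit := Finset.add_sum_erase (Finset.univ : Finset (IrrCharacter G))
    (fun χ => if χ ∈ principalBlock M G then (χ : G → ℂ) 1 * conj ((χ : G → ℂ) (x * y)) else 0)
    (Finset.mem_univ (Cfsg.Agent.Lib.Blocks.Third.oneI G))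
  have hone : (Cfsg.Agent.Lib.Blocks.Third.oneI G) ∈ principalBlock M G := by
    rw [Cfsg.Agent.Lib.Blocks.Third.principalBlock_eq_blockOf]
    haveI := Cfsg.Agent.Lib.Blocks.Local.isPrime_of_pModular hM
    exact Cfsg.Agent.Lib.Blocks.Central.sameBlock_refl _
  have h1 : (∑ χ ∈ (Finset.univ : Finset (IrrCharacter G)).erase (Cfsg.Agent.Lib.Blocks.Third.oneI G),
      (if χ ∈ principalBlock M G then (χ : G → ℂ) 1 * conj ((χ : G → ℂ) (x * y)) else 0))
      = (q : ℂ) * ∑ χ ∈ ((Finset.univ : Finset (IrrCharacter G)).erase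
          (Cfsg.Agent.Lib.Blocks.Third.oneI G)).attach, γ χ.1 (Finset.ne_of_mem_erase χ.2) := by
    rw [Finset.mul_sum, ← Finset.sum_attach]
    exact Finset.sum_congr rfl fun χ _ => hγeq χ.1 (Finset.ne_of_mem_erase χ.2)
  have hA : IsIntegral ℤ (∑ χ ∈ ((Finset.univ : Finset (IrrCharacter G)).erase
          (Cfsg.Agent.Lib.Blocks.Third.oneI G)).attach, γ χ.1 (Finset.ne_of_mem_erase χ.2)) :=
    IsIntegral.sum _ fun χ _ => hγ χ.1 _
  refine not_integral_aux hq.two_le hA ?_
  rw [← h1]
  have h2 := hsplit.trans hsum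
  simp only [if_pos hone] at h2
  simpa using h2


/-- Let G be a finite simple group of order p ^ a * q ^ b * r with p, q, r distinct primes. Then every Sylow r-subgroup S of G satisfies C_G(S) = S. -/
theorem result {G : Type*} [Group G] [Finite G] [IsSimpleGroup G] (p q r a b : ℕ) (hp : p.Prime) (hq : q.Prime) [Fact r.Prime] (hpq : p ≠ q) (hpr : p ≠ r) (hqr : q ≠ r) (hcard : Nat.card G = p ^ a * q ^ b * r) (S : Sylow r G) : Subgroup.centralizer (S : Set G) = (S : Subgroup G) := by
  classical
  cases nonempty_fintype G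
  have hr : r.Prime := Fact.out
  have hrdvd : r ∣ Nat.card G := by rw [hcard]; exact dvd_mul_left _ _
  -- the order of `S`
  have hScard : Nat.card (S : Subgroup G) = r := by
    obtain ⟨k, hk⟩ := (IsPGroup.iff_card (p := r)).mp S.isPGroup'
    have h1 : Nat.card (S : Subgroup G) ∣ Nat.card G := Subgroup.card_subgroup_dvd_card _
    have h2 : r ^ 1 ∣ Nat.card (S : Subgroup G) := S.pow_dvd_card_of_pow_dvd_card (by simpa using hrdvd)
    rw [hk] at h1 h2
    have hk1 : 1 ≤ k := (Nat.pow_dvd_pow_iff_le_right hr.one_lt).mp h2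
    have hk2 : k ≤ 1 := by
      by_contra hk3
      have hk4 : r ^ 2 ∣ Nat.card G := (pow_dvd_pow r (by omega : 2 ≤ k)).trans h1
      rw [hcard, pow_succ, pow_one] at hk4
      have h3 : r ∣ p ^ a * q ^ b := Nat.dvd_of_mul_dvd_mul_right hr.pos hk4
      rcases (Nat.Prime.dvd_mul hr).mp h3 with h4 | h4
      · exact hpr ((Nat.prime_dvd_prime_iff_eq hr hp).mp (hr.dvd_of_dvd_pow h4)).symm
      · exact hqr ((Nat.prime_dvd_prime_iff_eq hr hq).mp (hr.dvd_of_dvd_pow h4)).symm
    have : k = 1 := le_antisymm hk2 hk1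
    rw [hk, this, pow_one]
  apply le_antisymm
  · intro c hc
    by_contra hcS
    -- a generator of `S`
    obtain ⟨x0, hx0⟩ := exists_prime_orderOf_dvd_card' (G := (S : Subgroup G)) r (by rw [hScard])
    have hxord : orderOf ((x0 : (S : Subgroup G)) : G) = r := by
      rw [Subgroup.orderOf_coe]; exact hx0
    set x : G := ((x0 : (S : Subgroup G)) : G) with hxdef
    have hxS : x ∈ (S : Subgroup G) := x0.2
    -- the `r'`-part of `c`
    obtain ⟨m, k, hmr, hn⟩ : ∃ m k : ℕ, ¬ r ∣ m ∧ orderOf c = r ^ k * m := by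
      have hn0 : orderOf c ≠ 0 := (orderOf_pos c).ne'
      obtain ⟨k, m, hm, hk⟩ := Nat.exists_eq_pow_mul_and_not_dvd hn0 r hr.ne_one
      exact ⟨m, k, hm, hk⟩
    have hcpow : orderOf (c ^ (r ^ k)) = m := by
      rw [orderOf_pow' c (pow_ne_zero _ hr.ne_zero), hn]
      rw [Nat.gcd_eq_right (dvd_mul_right _ _)]
      exact Nat.mul_div_cancel_left _ (pow_pos hr.pos _)
    have hm1 : m ≠ 1 := by
      intro hm
      -- then `c` is an `r`-element, so `c ∈ S`
      apply hcS
      have hcP : IsPGroup r (Subgroup.zpowers c) := by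
        rw [IsPGroup.iff_card (p := r)]
        refine ⟨k, ?_⟩
        rw [Nat.card_zpowers, hn, hm, mul_one]
      have hle : (S : Subgroup G) ≤ Subgroup.normalizer (Subgroup.zpowers c) := by
        intro s hs
        rw [Subgroup.mem_normalizer_iff]
        intro h
        have hsc : Commute s c := (Subgroup.mem_centralizer_iff.mp hc) s hs
        constructor
        · intro hh
          obtain ⟨t, rfl⟩ := Subgroup.mem_zpowers_iff.mp hh
          have hcomm := hsc.zpow_right t
          rw [hcomm.eq, mul_inv_cancel_right]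
          exact hh
        · intro hh
          obtain ⟨t, ht⟩ := Subgroup.mem_zpowers_iff.mp hh
          have hcomm := hsc.zpow_right t
          have h5 : h = c ^ t := by
            have h3 : s * h = c ^ t * s := by rw [ht]; group
            have h4 : s * h = s * c ^ t := by rw [h3, hcomm.eq]
            exact mul_left_cancel h4
          rw [h5]
          exact Subgroup.zpow_mem_zpowers _ _
      have hsup := IsPGroup.to_sup_of_normal_right' S.isPGroup' hcP hle
      have heq := S.is_maximal' hsup le_sup_left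
      have hcmem : c ∈ (S : Subgroup G) ⊔ Subgroup.zpowers c :=
        (le_sup_right : Subgroup.zpowers c ≤ _) (Subgroup.mem_zpowers c)
      rw [heq] at hcmem
      exact hcmem
    -- a prime divisor
    obtain ⟨s, hs, hsm⟩ := Nat.exists_prime_and_dvd hm1
    have hm0 : 0 < m := by
      rw [← hcpow]; exact orderOf_pos _
    obtain ⟨m', hm'⟩ := hsm
    have hm'0 : m' ≠ 0 := by
      rintro rfl
      simp at hm'
      omega
    have hyord : orderOf ((c ^ (r ^ k)) ^ m') = s := by
      rw [orderOf_pow' _ hm'0, hcpow, hm', Nat.gcd_eq_right (dvd_mul_left _ _)]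
      exact Nat.mul_div_cancel _ (Nat.pos_of_ne_zero hm'0)
    set y : G := (c ^ (r ^ k)) ^ m' with hydef
    have hyC : y ∈ Subgroup.centralizer ((S : Subgroup G) : Set G) :=
      Subgroup.pow_mem _ (Subgroup.pow_mem _ hc _) _
    have hxy : Commute x y := (Subgroup.mem_centralizer_iff.mp hyC) x hxS
    have hsG : s ∣ p ^ a * q ^ b * r := by
      rw [← hcard, ← hyord]; exact orderOf_dvd_natCard y
    have hsr : s ≠ r := by
      rintro rfl
      exact hmr (hm' ▸ dvd_mul_right _ _)
    rcases (Nat.Prime.dvd_mul hs).mp hsG with h1 | h1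
    · rcases (Nat.Prime.dvd_mul hs).mp h1 with h2 | h2
      · have : s = p := (Nat.prime_dvd_prime_iff_eq hs hp).mp (hs.dvd_of_dvd_pow h2)
        subst this
        exact key hs hq hpq hpr hqr hcard x y hxy hxord hyord
      · have : s = q := (Nat.prime_dvd_prime_iff_eq hs hq).mp (hs.dvd_of_dvd_pow h2)
        subst this
        refine key hs hp hpq.symm hqr hpr (a := b) (b := a) ?_ x y hxy hxord hyord
        rw [hcard]
        ring
    · exact hsr ((Nat.prime_dvd_prime_iff_eq hs hr).mp h1)
  · -- `S` is abelian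
    intro s hs
    rw [Subgroup.mem_centralizer_iff]
    intro t ht
    haveI : Fact (Nat.card (S : Subgroup G)).Prime := ⟨by rw [hScard]; exact hr⟩
    haveI : IsCyclic (S : Subgroup G) := isCyclic_of_prime_card rfl
    haveI : IsMulCommutative (S : Subgroup G) := IsCyclic.isMulCommutative
    have hcomm := (IsMulCommutative.is_comm (M := (S : Subgroup G))).comm ⟨t, ht⟩ ⟨s, hs⟩
    exact congrArg Subtype.val hcomm

end Cfsg.Agent.S0904
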