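import Cfsg.Statements.S0905
import Cfsg.Agent.Lib.BlockT.AugNilp
import Cfsg.Agent.Lib.Core.Basic
import Mathlib.Algebra.Algebra.ZMod

set_option autoImplicit false
open Cfsg
open Cfsg.Agent.Lib.BlockT.AugNilp

namespace Cfsg.Agent.S0905

/-- Let F be a field of characteristic p and let g be an element of the finite group G no conjugate of which centralizes O_p(G). Then the class sum of g is a nilpotent element of the group algebra F[G]. -/
theorem result {G : Type*} [Group G] [Finite G] (p : ℕ) [Fact p.Prime] (F : Type*) [Field F] [CharP F p] (g : G) (hg : ∀ x : G, IsConj g x → x ∉ Subgroup.centralizer (Cfsg.pCore p G : Set G)) : IsNilpotent (∑ᶠ x ∈ ConjClasses.carrier (ConjClasses.mk g), MonoidAlgebra.single x (1 : F) : MonoidAlgebra F G) := by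
  classical
  let _ : Fintype G := Fintype.ofFinite G
  have hN : (Cfsg.pCore p G).Normal := Cfsg.pCore_normal p G
  have hP : IsPGroup p (Cfsg.pCore p G) := Cfsg.Agent.Lib.Core.Basic.pCore_isPGroup
  have h1 := isNilpotent_of_mem_augRight hN hP (classSum_mem_augRight hN hP g hg)
  let f : ZMod p →+* F := ZMod.castHom (dvd_refl p) F
  have h2 := h1.map (MonoidAlgebra.mapRingHom G f)
  have hset : ConjClasses.carrier (ConjClasses.mk g) = {x : G | IsConj g x} := by
    ext x
    rw [ConjClasses.mem_carrier_iff_mk_eq, ConjClasses.mk_eq_mk_iff_isConj]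
    exact ⟨fun h => h.symm, fun h => h.symm⟩
  have heq : (∑ᶠ x ∈ ConjClasses.carrier (ConjClasses.mk g), MonoidAlgebra.single x (1 : F) : MonoidAlgebra F G)
      = MonoidAlgebra.mapRingHom G f (∑ x : {x : G // IsConj g x}, (MonoidAlgebra.single (x : G) (1 : ZMod p) : Ap p G)) := by
    rw [hset, map_sum]
    simp only [MonoidAlgebra.mapRingHom_single, map_one]
    rw [← finsum_eq_sum_of_fintype]
    exact (finsum_subtype_eq_finsum_cond _).symm
  rw [heq]
  exact h2

end Cfsg.Agent.S0905
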