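import Cfsg.Statements.S0911
import Cfsg.Agent.Lib.Blocks.Defect

set_option autoImplicit false
open Cfsg

namespace Cfsg.Agent.S0911

/-- The min–max Theorem for defect classes. Let B be a block of the finite group G relative to a maximal ideal M of the algebraic integers containing the prime p, let g represent a defect class of B and let D be a Sylow p-subgroup of the centralizer of g (viewed in G). For any h: (a) if the idempotent coefficient of B at h is a local integer outside the local ideal, then some conjugate of D contains a Sylow p-subgroup of the centralizer of h; (b) if the central character of some member of B at h is outside the local ideal, then some conjugate of D is contained in a Sylow p-subgroup of the centralizer of h. -/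
theorem result {G : Type*} [Group G] [Finite G] (p : ℕ) [Fact p.Prime] (M : Ideal Cfsg.AlgInt) (hM : Cfsg.IsPModular p M) (B : Set (Cfsg.IrrCharacter G)) (hB : Cfsg.IsPBlock M B) (g : G) (hg : Cfsg.IsDefectClass M B g) (D : Sylow p (Subgroup.centralizer ({g} : Set G))) (h : G) : (Cfsg.MemLocalRing M (Cfsg.blockCoeff B h) → ¬ Cfsg.MemLocalIdeal M (Cfsg.blockCoeff B h) → ∃ (x : G) (Q : Sylow p (Subgroup.centralizer ({h} : Set G))), (Q : Subgroup (Subgroup.centralizer ({h} : Set G))).map (Subgroup.centralizer ({h} : Set G)).subtype ≤ ((D : Subgroup (Subgroup.centralizer ({g} : Set G))).map (Subgroup.centralizer ({g} : Set G)).subtype).map (MulAut.conj x).toMonoidHom) ∧ ((∃ χ ∈ B, ¬ Cfsg.MemLocalIdeal M (Cfsg.centralChar (χ : G → ℂ) h)) → ∃ (x : G) (Q : Sylow p (Subgroup.centralizer ({h} : Set G))), ((D : Subgroup (Subgroup.centralizer ({g} : Set G))).map (Subgroup.centralizer ({g} : Set G)).subtype).map (MulAut.conj x).toMonoidHom ≤ (Q : Subgroup (Subgroup.centralizer ({h} : Set G))).map (Subgroup.centralizer ({h} : Set G)).subtype)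 := by
  classical
  cases nonempty_fintype G
  haveI := Cfsg.Agent.Lib.Blocks.Local.isPrime_of_pModular hM
  haveI := Cfsg.Agent.Lib.Char.Ortho.finite_irrCharacter (G := G)
  letI := Fintype.ofFinite (Cfsg.IrrCharacter G)
  obtain ⟨χ, hχ⟩ := Cfsg.Agent.Lib.Blocks.Central.isPBlock_nonempty hB
  constructor
  · intro _ hh
    obtain ⟨Q⟩ : Nonempty (Sylow p (Subgroup.centralizer ({h} : Set G))) := inferInstance
    obtain ⟨x, hx⟩ := Cfsg.Agent.Lib.Blocks.Defect.minmax_le hM hB hχ (hg.2.2 χ hχ) hh
      (D := (D : Subgroup (Subgroup.centralizer ({g} : Set G))).map (Subgroup.centralizer ({g} : Set G)).subtype)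
      (Q := (Q : Subgroup (Subgroup.centralizer ({h} : Set G))).map (Subgroup.centralizer ({h} : Set G)).subtype)
      ⟨D, rfl⟩ (Q.2.map _) (by
        rintro _ ⟨y, _, rfl⟩
        exact y.2)
    exact ⟨x, Q, hx⟩
  · rintro ⟨χ', hχ', hh⟩
    obtain ⟨x, hx⟩ := Cfsg.Agent.Lib.Blocks.Defect.minmax_conj_le hM hB hχ' hh hg.2.1
      (D := (D : Subgroup (Subgroup.centralizer ({g} : Set G))).map (Subgroup.centralizer ({g} : Set G)).subtype)
      (D.2.map _) (by
        rintro _ ⟨y, _, rfl⟩
        exact y.2)
    obtain ⟨E, hE, hDE⟩ := Cfsg.Agent.Lib.BlockT.SylowIn.exists_isSylowIn_ge hx ((D.2.map _).map _)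
    obtain ⟨Q, rfl⟩ := hE
    exact ⟨x, Q, hDE⟩

end Cfsg.Agent.S0911
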