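import Cfsg.Statements.S0915
import Cfsg.Agent.Lib.Blocks.Central
import Cfsg.Agent.Lib.BlockP.Reduce
import Cfsg.Agent.Lib.Core.PSolvable

set_option autoImplicit false
open Cfsg

namespace Cfsg.Agent.S0915

/-- Let G be a finite p-solvable group with trivial largest normal subgroup of order prime to p. Then any two irreducible characters of G lie in the same block relative to every maximal ideal M of the algebraic integers containing p: G has a single p-block. -/
theorem result {G : Type*} [Group G] [Finite G] (p : ℕ) [Fact p.Prime] (M : Ideal Cfsg.AlgInt) (hM : Cfsg.IsPModular p M) (hsolv : Cfsg.IsPSolvable p G) (hcore : Cfsg.pPrimeCore p G = ⊥) (χ ψ : Cfsg.IrrCharacter G) : Cfsg.SameBlock M (χ : G → ℂ) (ψ : G → ℂ) := by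
  classical
  cases nonempty_fintype G
  haveI := Cfsg.Agent.Lib.Blocks.Local.isPrime_of_pModular hM
  have hnorm : (Cfsg.pCore p G).Normal := Cfsg.pCore_normal p G
  have hpg : IsPGroup p (Cfsg.pCore p G) := Cfsg.Agent.Lib.Core.Basic.pCore_isPGroup
  have hC := Cfsg.Agent.Lib.Core.PSolvable.centralizer_pCore_le_of_isPSolvable hsolv hcore
  intro g
  by_cases h1 : ∃ x, IsConj g x ∧ x ∈ Subgroup.centralizer (Cfsg.pCore p G : Set G)
  · obtain ⟨x, hx, hxC⟩ := h1
    have hgC : g ∈ Cfsg.pCore p G := by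
      obtain ⟨c, rfl⟩ := isConj_iff.mp hx
      have := hnorm.conj_mem _ (hC hxC) c⁻¹
      simpa [mul_assoc] using this
    have h2 := Cfsg.Agent.Lib.BlockP.Reduce.centralChar_sub_mem_of_mem hM.1 hM χ.2 _ hnorm hpg g hgC
    have h3 := Cfsg.Agent.Lib.BlockP.Reduce.centralChar_sub_mem_of_mem hM.1 hM ψ.2 _ hnorm hpg g hgC
    exact Cfsg.Agent.Lib.Blocks.Local.memLocalIdeal_sub_trans h2 (Cfsg.Agent.Lib.Blocks.Local.memLocalIdeal_sub_comm h3)
  · push Not at h1
    exact Cfsg.Agent.Lib.Blocks.Local.memLocalIdeal_sub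
      (Cfsg.Agent.Lib.BlockP.Reduce.centralChar_mem_of_no_conj hM.1 hM χ.2 _ hnorm hpg g h1)
      (Cfsg.Agent.Lib.BlockP.Reduce.centralChar_mem_of_no_conj hM.1 hM ψ.2 _ hnorm hpg g h1)

end Cfsg.Agent.S0915
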