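import Cfsg.Statements.S0916
import Cfsg.Agent.Lib.BlockT.SylowIn

set_option autoImplicit false
open Cfsg
open Cfsg.Agent.Lib.BlockT.SylowIn

namespace Cfsg.Agent.S0916

/-- Let P be a p-subgroup of the finite group G, C its centralizer and N its normalizer. Say that a conjugacy class (of G, or of N) has defect group P when P is a Sylow p-subgroup of the centralizer (in G, respectively in N) of some element of the class. Then: (i) if the class of g in G has defect group P, the elements of that class lying in C form a single N-class, again with defect group P; (ii) every N-class with defect group P arises this way from exactly one G-class with defect group P. -/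
theorem result {G : Type*} [Group G] [Finite G] (p : ℕ) [Fact p.Prime] (P : Subgroup G) (hP : IsPGroup p P) : (∀ g : G, (∃ S : Sylow p (Subgroup.centralizer ({g} : Set G)), (S : Subgroup (Subgroup.centralizer ({g} : Set G))).map (Subgroup.centralizer ({g} : Set G)).subtype = P) → (∃ c : G, IsConj g c ∧ c ∈ Subgroup.centralizer (P : Set G)) ∧ (∀ c₁ c₂ : G, IsConj g c₁ → IsConj g c₂ → c₁ ∈ Subgroup.centralizer (P : Set G) → c₂ ∈ Subgroup.centralizer (P : Set G) → ∃ n ∈ Subgroup.normalizer (P : Set G), n * c₁ * n⁻¹ = c₂)) ∧ (∀ c : G, c ∈ Subgroup.centralizer (P : Set G) → (∃ S : Sylow p (Subgroup.centralizer ({c} : Set G) ⊓ Subgroup.normalizer (P : Set G) : Subgroup G), (S : Subgroup ↥(Subgroup.centralizer ({c} : Set G) ⊓ Subgroup.normalizer (P : Set G))).map (Subgroup.centralizer ({c} : Set G) ⊓ Subgroup.normalizer (P : Set G)).subtype = P) → ∃ S : Sylow p (Subgroup.centralizer ({c} : Set G)), (S : Subgroup (Subgroup.centralizer ({c} : Set G))).map (Subgroup.centralizer ({c} : Set G)).subtype = P) := by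
  have hle : ∀ c : G, c ∈ Subgroup.centralizer (P : Set G) → P ≤ Subgroup.centralizer ({c} : Set G) := by
    intro c hc u hu
    rw [Subgroup.mem_centralizer_singleton_iff]
    exact ((Subgroup.mem_centralizer_iff.mp hc) u hu)
  constructor
  · intro g hg
    have hS : IsSylowIn p P (Subgroup.centralizer ({g} : Set G)) := hg
    have hgc : g ∈ Subgroup.centralizer (P : Set G) := by
      rw [Subgroup.mem_centralizer_iff]
      intro u hu
      exact (Subgroup.mem_centralizer_singleton_iff.mp (hS.le hu))
    refine ⟨⟨g, IsConj.refl g, hgc⟩, ?_⟩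
    intro c₁ c₂ h1 h2 hc1 hc2
    have key : ∀ c, IsConj g c → c ∈ Subgroup.centralizer (P : Set G) →
        IsSylowIn p P (Subgroup.centralizer ({c} : Set G)) := by
      intro c hgc hc
      refine isSylowIn_of_card (hle c hc) ?_
      rw [← card_centralizer_of_isConj hgc]
      exact hS.card_eq
    obtain ⟨t, ht⟩ := isConj_iff.mp (h1.symm.trans h2)
    have h3 : IsSylowIn p (P.map (MulAut.conj t).toMonoidHom) (Subgroup.centralizer ({c₂} : Set G)) := by
      have := (key c₁ h1 hc1).conj t
      rwa [centralizer_conj, ht] at this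
    obtain ⟨w, hw, hwP⟩ := h3.exists_conj (key c₂ h2 hc2)
    refine ⟨w * t, ?_, ?_⟩
    · rw [Subgroup.mem_normalizer_iff_map_conj_eq]
      rw [Subgroup.map_map] at hwP
      convert hwP using 2
      ext x
      simp [MulAut.conj_apply, mul_assoc]
    · have hw' := Subgroup.mem_centralizer_singleton_iff.mp hw
      calc w * t * c₁ * (w * t)⁻¹ = w * (t * c₁ * t⁻¹) * w⁻¹ := by group
        _ = w * c₂ * w⁻¹ := by rw [ht]
        _ = c₂ := by rw [hw']; group
  · intro c hc hS
    exact isSylowIn_of_normalizer (hle c hc) hS

end Cfsg.Agent.S0916
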