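import Cfsg.Statements.S0927
import Cfsg.Agent.Lib.Blocks.Heights

set_option autoImplicit false
open Cfsg

namespace Cfsg.Agent.S0927

/-- Let B be a block of the finite group G relative to a maximal ideal M of the algebraic integers containing p, let y represent a defect class of B and let P be a Sylow p-subgroup of the centralizer of y. (a) If x ∈ P and χ ∈ B has height zero, then χ (x * y) is not in the local ideal at M. (b) If x lies in the centre of P, then for every χ ∈ B the central character of χ at x * y is not in the local ideal at M. -/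
theorem result {G : Type*} [Group G] [Finite G] (p : ℕ) [Fact p.Prime] (M : Ideal Cfsg.AlgInt) (hM : Cfsg.IsPModular p M) (B : Set (Cfsg.IrrCharacter G)) (hB : Cfsg.IsPBlock M B) (y : G) (hy : Cfsg.IsDefectClass M B y) (P : Sylow p (Subgroup.centralizer ({y} : Set G))) (x : Subgroup.centralizer ({y} : Set G)) (hx : x ∈ (P : Subgroup (Subgroup.centralizer ({y} : Set G)))) : (∀ χ ∈ B, Cfsg.blockHeight p B (χ : G → ℂ) = 0 → ¬ Cfsg.MemLocalIdeal M ((χ : G → ℂ) ((x : G) * y))) ∧ ((∀ w ∈ (P : Subgroup (Subgroup.centralizer ({y} : Set G))), x * w = w * x) → ∀ χ ∈ B, ¬ Cfsg.MemLocalIdeal M (Cfsg.centralChar (χ : G → ℂ) ((x : G) * y))) := by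
  classical
  cases nonempty_fintype G
  haveI := Cfsg.Agent.Lib.Blocks.Local.isPrime_of_pModular hM
  haveI := Cfsg.Agent.Lib.Char.Ortho.finite_irrCharacter (G := G)
  letI := Fintype.ofFinite (Cfsg.IrrCharacter G)
  have hs : Cfsg.Agent.Lib.BlockT.SylowIn.IsSylowIn p
      ((P : Subgroup (Subgroup.centralizer ({y} : Set G))).map (Subgroup.centralizer ({y} : Set G)).subtype)
      (Subgroup.centralizer ({y} : Set G)) := ⟨P, rfl⟩
  have hxD : (x : G) ∈ (P : Subgroup (Subgroup.centralizer ({y} : Set G))).map
      (Subgroup.centralizer ({y} : Set G)).subtype := ⟨x, hx, rfl⟩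
  have hc : Commute (x : G) y := by
    have := x.2
    simp only [Subgroup.mem_centralizer_singleton_iff] at this
    exact this
  refine ⟨?_, ?_⟩
  · intro χ hχ h0
    exact Cfsg.Agent.Lib.Blocks.Heights.notMem_value_mul_of_height_zero hM hB hy hχ h0 hs.isPGroup hxD hc
  · intro hcen χ hχ
    refine Cfsg.Agent.Lib.Blocks.Heights.notMem_centralChar_mul_of_central hM hB hy hs hxD ?_ hχ
    rintro _ ⟨w, hw, rfl⟩
    have := congrArg Subtype.val (hcen w hw)
    exact this

end Cfsg.Agent.S0927
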