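import Cfsg.Statements.S0934
import Cfsg.Agent.Lib.Blocks.Induced
import Cfsg.Agent.Lib.BlockT.Normal

set_option autoImplicit false
open Cfsg

namespace Cfsg.Agent.S0934

/-- Let H be a subgroup of the finite group G and fix a maximal ideal M of the algebraic integers containing the prime p. If the block b of H induces the block B of G and ξ ∈ b, then there is χ ∈ B whose restriction to H has nonzero inner product with ξ. -/
theorem result {G : Type*} [Group G] [Fintype G] (p : ℕ) [Fact p.Prime] (M : Ideal Cfsg.AlgInt) (hM : Cfsg.IsPModular p M) (H : Subgroup G) [Fintype H] (b : Set (Cfsg.IrrCharacter H)) (B : Set (Cfsg.IrrCharacter G)) (hind : Cfsg.IsInducedBlock M H b B) (ξ : Cfsg.IrrCharacter H) (hξ : ξ ∈ b) : ∃ χ ∈ B, Cfsg.classInner (fun h : H => (χ : G → ℂ) h) (ξ : H → ℂ) ≠ 0 := by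
  classical
  haveI := Cfsg.Agent.Lib.Blocks.Local.isPrime_of_pModular hM
  have := Cfsg.Agent.Lib.Char.Ortho.finite_irrCharacter (G := G)
  letI := Fintype.ofFinite (Cfsg.IrrCharacter G)
  obtain ⟨χ₀, hχ₀⟩ := Cfsg.Agent.Lib.Blocks.Central.isPBlock_nonempty hind.2.1
  have h1 := Cfsg.Agent.Lib.Blocks.Induced.IsInducedBlock.sub_mem H hind hξ hχ₀
    (Cfsg.Agent.Lib.Blocks.Central.idem_mem_localCenter hind.2.1)
  rw [Cfsg.Agent.Lib.Blocks.Central.omegaHom_idem, if_pos hχ₀] at h1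
  have h2 : Cfsg.Agent.Lib.Blocks.Induced.indHom H ξ (Cfsg.Agent.Lib.Blocks.Central.idem B) ≠ 0 := by
    intro h0
    rw [h0, zero_sub] at h1
    exact Cfsg.Agent.Lib.Blocks.Local.one_notMemLocalIdeal (M := M) (by simpa using Cfsg.Agent.Lib.Blocks.Local.memLocalIdeal_neg h1)
  rw [Cfsg.Agent.Lib.Blocks.Induced.indHom_apply, Cfsg.Agent.Lib.Blocks.Central.omegaHom_apply,
    Cfsg.Agent.Lib.Blocks.Central.lin_apply] at h2
  have h3 := left_ne_zero_of_mul (by simpa [div_eq_mul_inv] using h2 : (∑ h : H, _) * ((ξ : H → ℂ) 1)⁻¹ ≠ 0)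
  have h5 : ∑ h : H, Cfsg.blockCoeff B (h : G) * (ξ : H → ℂ) h ≠ 0 := h3
  by_contra hall
  push Not at hall
  apply h5
  have h6 : ∀ χ ∈ B, ∑ h : H, (ξ : H → ℂ) h * (starRingEnd ℂ) ((χ : G → ℂ) h) = 0 := by
    intro χ hχ
    have h7 : Cfsg.classInner (ξ : H → ℂ) (fun h : H => (χ : G → ℂ) h) = 0 := by
      by_contra hne
      exact (Cfsg.Agent.Lib.Char.Clifford.classInner_ne_zero_comm hne) (hall χ hχ)
    rw [Cfsg.classInner] at h7
    exact (mul_eq_zero.mp h7).resolve_left (inv_ne_zero (Cfsg.Agent.Lib.Char.Induced.card_subgroup_ne_zero H))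
  simp only [Cfsg.Agent.Lib.Blocks.Central.blockCoeff_eq_sum, mul_assoc, Finset.sum_mul]
  rw [← Finset.mul_sum]
  apply mul_eq_zero_of_right
  rw [Finset.sum_comm]
  apply Finset.sum_eq_zero
  intro χ _
  by_cases hχ : χ ∈ B
  · simp only [if_pos hχ, mul_assoc]
    rw [← Finset.mul_sum]
    apply mul_eq_zero_of_right
    rw [← h6 χ hχ]
    exact Finset.sum_congr rfl fun h _ => mul_comm _ _
  · simp [hχ]

end Cfsg.Agent.S0934
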