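import Cfsg.Statements.S0935
import Cfsg.Agent.Lib.BlockP.RegPair
import Cfsg.Agent.Lib.Char.Complete

set_option autoImplicit false
open Cfsg

namespace Cfsg.Agent.S0935

open Cfsg.Agent.Lib.BlockP.RegPair Cfsg.Agent.Lib.BlockP.Defect
open Cfsg.Agent.Lib.Blocks.Local Cfsg.Agent.Lib.Blocks.Central
open Cfsg.Agent.Lib.Char.Basic Cfsg.Agent.Lib.Char.Ortho Cfsg.Agent.Lib.Char.Complete
open scoped ComplexConjugate

set_option linter.style.haveILetI false
set_option linter.unusedVariables false

/-- A character of height zero in its block has `A(χ, χ)` outside the local ideal. -/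
theorem regA_self_notMem {G : Type*} [Group G] [Fintype G] [Fintype (IrrCharacter G)]
    [Fintype (ConjClasses G)] {p : ℕ} [Fact p.Prime] {M : Ideal AlgInt} (hM : IsPModular p M)
    (χ : IrrCharacter G) (h0 : blockHeight p (blockOf M (χ : G → ℂ)) (χ : G → ℂ) = 0) :
    ¬ MemLocalIdeal M (regA p (χ : G → ℂ) (χ : G → ℂ)) := by
  have hp := hM.1
  haveI hprime : M.IsPrime := isPrime_of_pModular hM
  have hχ : χ ∈ blockOf M (χ : G → ℂ) := mem_blockOf_self χ
  have h5 := minExp_le p hχ
  have h6 : (charDegree (χ : G → ℂ)).factorization p - minExp p (blockOf M (χ : G → ℂ)) = 0 := h0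
  have h4 : (charDegree (χ : G → ℂ)).factorization p = minExp p (blockOf M (χ : G → ℂ)) := by omega
  have h7 := Nat.not_dvd_ordCompl hp (Cfsg.Agent.Lib.Char.Degree.charDegree_pos χ.2).ne'
  rw [h4] at h7
  exact fun h => h7 ((regA_mem_iff hM ⟨χ, rfl⟩ hχ hχ).mp h)


/-- Let H be a subgroup of the finite group G and χ an irreducible character of G whose restriction to H is irreducible; fix a maximal ideal M of the algebraic integers containing the prime p and suppose χ and its restriction have height zero in their blocks B and b. If e is a block of H whose induced block is defined, then e induces B if and only if e = b. -/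
theorem result {G : Type*} [Group G] [Finite G] (p : ℕ) [Fact p.Prime] (M : Ideal Cfsg.AlgInt) (hM : Cfsg.IsPModular p M) (H : Subgroup G) (χ : Cfsg.IrrCharacter G) (hres : Cfsg.IsIrrCharacter H (fun h : H => (χ : G → ℂ) h)) (hχ0 : Cfsg.blockHeight p (Cfsg.blockOf M (χ : G → ℂ)) (χ : G → ℂ) = 0) (hψ0 : Cfsg.blockHeight p (Cfsg.blockOf M (fun h : H => (χ : G → ℂ) h)) (fun h : H => (χ : G → ℂ) h) = 0) (e : Set (Cfsg.IrrCharacter H)) (he : Cfsg.InducedBlockDefined M H e) : Cfsg.IsInducedBlock M H e (Cfsg.blockOf M (χ : G → ℂ)) ↔ e = Cfsg.blockOf M (fun h : H => (χ : G → ℂ) h) := by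
  classical
  cases nonempty_fintype G
  letI : Fintype H := Fintype.ofFinite H
  have hp := hM.1
  haveI hprime : M.IsPrime := isPrime_of_pModular hM
  haveI := finite_irrCharacter (G := G)
  letI := Fintype.ofFinite (IrrCharacter G)
  letI := Fintype.ofFinite (ConjClasses G)
  haveI := finite_irrCharacter (G := H)
  letI := Fintype.ofFinite (IrrCharacter H)
  letI := Fintype.ofFinite (ConjClasses H)
  set ξ : IrrCharacter H := ⟨fun h : H => (χ : G → ℂ) h, hres⟩ with hξ
  have hξv : ∀ h : H, (ξ : H → ℂ) h = (χ : G → ℂ) h := fun _ => rfl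
  have hform : ∀ ζ : IrrCharacter H, (∑ h : H, if p ∣ orderOf h then 0 else
      (χ : G → ℂ) h * conj ((ζ : H → ℂ) h)) / (ζ : H → ℂ) 1 = regA p (ξ : H → ℂ) (ζ : H → ℂ) := by
    intro ζ
    have h1 := sum_reg_eq p ξ ζ
    have hζ1 := irr_one_ne_zero ζ.2
    simp only [hξv] at h1
    rw [h1]
    field_simp
  constructor
  · intro hind
    obtain ⟨ζ, hζ⟩ := isPBlock_nonempty hind.1
    have h1 := sum_reg_subgroup_sub_mem p H hind χ hζ (mem_blockOf_self χ)
    rw [hform] at h1
    have hA := regA_self_notMem hM χ hχ0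
    have hsame : SameBlock M (ξ : H → ℂ) (ζ : H → ℂ) := by
      by_contra hne
      rw [regA_eq_zero hM hne, zero_sub] at h1
      exact hA (by simpa using memLocalIdeal_neg h1)
    rw [isPBlock_eq_blockOf hind.1 hζ]
    exact blockOf_eq_of_mem hsame
  · intro he'
    obtain ⟨B', hB'⟩ := he
    subst he'
    obtain ⟨χ', hχ'⟩ := isPBlock_nonempty hB'.2.1
    have h1 := sum_reg_subgroup_sub_mem p H hB' χ (mem_blockOf_self ξ) hχ'
    rw [hform] at h1
    have hA := regA_self_notMem hM ξ hψ0
    have hsame : SameBlock M (χ : G → ℂ) (χ' : G → ℂ) := by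
      by_contra hne
      rw [regA_eq_zero hM hne, sub_zero] at h1
      exact hA h1
    have hBB : B' = blockOf M (χ : G → ℂ) := by
      rw [isPBlock_eq_blockOf hB'.2.1 hχ']
      exact blockOf_eq_of_mem hsame
    rw [← hBB]
    exact hB'

end Cfsg.Agent.S0935
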