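import Cfsg.Statements.S0937
import Cfsg.Agent.Lib.BlockP.RegPair
import Cfsg.Agent.Lib.Char.Complete

set_option autoImplicit false
open Cfsg

namespace Cfsg.Agent.S0937

open Cfsg.Agent.Lib.BlockP.RegPair Cfsg.Agent.Lib.BlockP.Defect
open Cfsg.Agent.Lib.Blocks.Local Cfsg.Agent.Lib.Blocks.Central
open Cfsg.Agent.Lib.Char.Basic Cfsg.Agent.Lib.Char.Ortho Cfsg.Agent.Lib.Char.Complete
open scoped ComplexConjugate

set_option linter.style.haveILetI false
set_option linter.unusedVariables false


/-- Let H be a subgroup of the finite group G and fix a maximal ideal M of the algebraic integers containing the prime p. If the block b of H induces the block B of G and χ ∈ B has height zero, then there is ξ ∈ b of height zero whose multiplicity in the restriction of χ to H is a natural number not divisible by p. -/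
theorem result {G : Type*} [Group G] [Fintype G] (p : ℕ) [Fact p.Prime] (M : Ideal Cfsg.AlgInt) (hM : Cfsg.IsPModular p M) (H : Subgroup G) [Fintype H] (b : Set (Cfsg.IrrCharacter H)) (B : Set (Cfsg.IrrCharacter G)) (hind : Cfsg.IsInducedBlock M H b B) (χ : Cfsg.IrrCharacter G) (hχ : χ ∈ B) (h0 : Cfsg.blockHeight p B (χ : G → ℂ) = 0) : ∃ ξ ∈ b, Cfsg.blockHeight p b (ξ : H → ℂ) = 0 ∧ ∃ n : ℕ, Cfsg.classInner (fun h : H => (χ : G → ℂ) h) (ξ : H → ℂ) = (n : ℂ) ∧ ¬ p ∣ n := by
  classical
  have hp := hM.1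
  haveI hprime : M.IsPrime := isPrime_of_pModular hM
  haveI := finite_irrCharacter (G := G)
  letI := Fintype.ofFinite (IrrCharacter G)
  letI := Fintype.ofFinite (ConjClasses G)
  haveI := finite_irrCharacter (G := H)
  letI := Fintype.ofFinite (IrrCharacter H)
  letI := Fintype.ofFinite (ConjClasses H)
  have hb := hind.1
  have hBB := hind.2.1
  obtain ⟨ψ, hψ, -⟩ := exists_minExp p (isPBlock_nonempty hb)
  -- the key congruence
  have h1 := sum_reg_subgroup_sub_mem p H hind χ hψ hχ
  have hχh : ¬ p ∣ fDeg p B χ := by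
    have h5 := minExp_le p hχ
    have h6 : (charDegree (χ : G → ℂ)).factorization p - minExp p B = 0 := h0
    have h4 : (charDegree (χ : G → ℂ)).factorization p = minExp p B := by omega
    have h7 := Nat.not_dvd_ordCompl hp (Cfsg.Agent.Lib.Char.Degree.charDegree_pos χ.2).ne'
    rw [h4] at h7
    exact h7
  have hA : ¬ MemLocalIdeal M (regA p (χ : G → ℂ) (χ : G → ℂ)) := fun h =>
    hχh ((regA_mem_iff hM hBB hχ hχ).mp h)
  set S : ℂ := (∑ h : H, if p ∣ orderOf h then 0 else
        (χ : G → ℂ) h * conj ((ψ : H → ℂ) h)) / (ψ : H → ℂ) 1 with hS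
  have hSnot : ¬ MemLocalIdeal M S := by
    intro hmem
    have h2 := memLocalIdeal_sub hmem h1
    rw [sub_sub_cancel] at h2
    exact hA h2
  -- expansion of the restriction
  have hcf : IsClassFunction H (fun n : H => (χ : G → ℂ) n) :=
    isClassFunction_of_isCharacter (isCharacter_restrict H (isCharacter_of_isIrrCharacter χ.2))
  have hexp := classFunction_eq_sum hcf
  have hψ1 := irr_one_ne_zero ψ.2
  have hSexp : S = ∑ ζ : IrrCharacter H,
      classInner (fun n : H => (χ : G → ℂ) n) (ζ : H → ℂ) * regA p (ζ : H → ℂ) (ψ : H → ℂ) := by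
    have e1 : ∀ h : H, (χ : G → ℂ) h = ∑ ζ : IrrCharacter H,
        classInner (fun n : H => (χ : G → ℂ) n) (ζ : H → ℂ) * (ζ : H → ℂ) h := by
      intro h
      have := congrFun hexp h
      simpa [Finset.sum_apply] using this
    have e2 : ∀ ζ : IrrCharacter H, regA p (ζ : H → ℂ) (ψ : H → ℂ) =
        (∑ x : H, if p ∣ orderOf x then 0 else (ζ : H → ℂ) x * conj ((ψ : H → ℂ) x)) / (ψ : H → ℂ) 1 := by
      intro ζ
      rw [sum_reg_eq]
      field_simp
    rw [hS]
    simp only [e2]
    have e3 : ∀ ζ : IrrCharacter H, classInner (fun n : H => (χ : G → ℂ) n) (ζ : H → ℂ) *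
        ((∑ x : H, if p ∣ orderOf x then 0 else (ζ : H → ℂ) x * conj ((ψ : H → ℂ) x)) / (ψ : H → ℂ) 1) =
        (∑ x : H, if p ∣ orderOf x then 0 else
          classInner (fun n : H => (χ : G → ℂ) n) (ζ : H → ℂ) * (ζ : H → ℂ) x * conj ((ψ : H → ℂ) x)) / (ψ : H → ℂ) 1 := by
      intro ζ
      rw [mul_div_assoc', Finset.mul_sum]
      congr 1
      refine Finset.sum_congr rfl fun x _ => ?_
      split_ifs
      · simp
      · ring
    simp only [e3]
    rw [← Finset.sum_div]
    congr 1
    rw [Finset.sum_comm]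
    refine Finset.sum_congr rfl fun x _ => ?_
    split_ifs
    · simp
    · rw [e1 x, Finset.sum_mul]
  by_contra hno
  push Not at hno
  apply hSnot
  rw [hSexp]
  apply memLocalIdeal_sum
  intro ζ _
  by_cases hζ : ζ ∈ b
  · obtain ⟨n, hn⟩ := exists_nat_classInner (isCharacter_restrict H (isCharacter_of_isIrrCharacter χ.2))
      (isCharacter_of_isIrrCharacter ζ.2)
    by_cases hpn : p ∣ n
    · rw [hn]
      exact memLocalIdeal_mul_right ((natCast_memLocalIdeal_iff hM n).mpr hpn) (memLocalRing_regA p ζ ψ)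
    · have hht : blockHeight p b (ζ : H → ℂ) ≠ 0 := fun h => hpn (hno ζ hζ h n hn)
      have hdvd : p ∣ fDeg p b ζ := by
        by_contra hnd
        apply hht
        have hd := deg_eq_mul hM hζ
        have hfd0 : fDeg p b ζ ≠ 0 := fun h0 => hnd (h0 ▸ dvd_zero p)
        have hf : (charDegree (ζ : H → ℂ)).factorization p = minExp p b := by
          rw [hd, Nat.factorization_mul (pow_ne_zero _ hp.ne_zero) hfd0, Nat.factorization_pow]
          simp [Nat.factorization_eq_zero_of_not_dvd hnd, hp.factorization_self]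
        change (charDegree (ζ : H → ℂ)).factorization p - minExp p b = 0
        omega
      rw [hn]
      exact memLocalIdeal_mul_left (memLocalRing_natCast n) ((regA_mem_iff hM hb hζ hψ).mpr hdvd)
  · have hne : ¬ SameBlock M (ζ : H → ℂ) (ψ : H → ℂ) := by
      intro hsame
      apply hζ
      rw [isPBlock_eq_blockOf hb hψ]
      exact sameBlock_symm hsame
    rw [regA_eq_zero hM hne, mul_zero]
    exact memLocalIdeal_zero

end Cfsg.Agent.S0937
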