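import Cfsg.Statements.S0938
import Cfsg.Agent.Lib.BlockT.Inflate

set_option autoImplicit false
open Cfsg

open Cfsg.Agent.Lib.BlockT.Inflate Cfsg.Agent.Lib.Char.Basic Cfsg.Agent.Lib.Char.Linear Cfsg.Agent.Lib.Char.Conj

namespace Cfsg.Agent.S0938

/-- Let B be a block of the finite group G relative to a maximal ideal M of the algebraic integers containing the prime p, and let χ ∈ B. Then the kernel of B (the set of g with ψ g = ψ 1 for all ψ ∈ B) is a normal subgroup of order prime to p contained in the kernel of χ, and it contains every normal subgroup of order prime to p on which χ takes the value χ(1); that is, it is O_p' of the kernel of χ. -/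
theorem result {G : Type*} [Group G] [Finite G] (p : ℕ) [Fact p.Prime] (M : Ideal Cfsg.AlgInt) (hM : Cfsg.IsPModular p M) (B : Set (Cfsg.IrrCharacter G)) (hB : Cfsg.IsPBlock M B) (χ : Cfsg.IrrCharacter G) (hχ : χ ∈ B) : ∃ K : Subgroup G, K.Normal ∧ (K : Set G) = Cfsg.blockKer B ∧ ¬ p ∣ Nat.card K ∧ (∀ g ∈ K, (χ : G → ℂ) g = (χ : G → ℂ) 1) ∧ ∀ N : Subgroup G, N.Normal → ¬ p ∣ Nat.card N → (∀ g ∈ N, (χ : G → ℂ) g = (χ : G → ℂ) 1) → N ≤ K := by
  classical
  cases nonempty_fintype G
  haveI := Cfsg.Agent.Lib.Blocks.Local.isPrime_of_pModular hM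
  have := Cfsg.Agent.Lib.Char.Ortho.finite_irrCharacter (G := G)
  letI := Fintype.ofFinite (Cfsg.IrrCharacter G)
  let K : Subgroup G := ⨅ ψ : B, Cfsg.Agent.Lib.Char.Degree.charKer (isCharacter_of_isIrrCharacter ψ.1.2)
  have hmem : ∀ g, g ∈ K ↔ ∀ ψ ∈ B, (ψ : G → ℂ) g = (ψ : G → ℂ) 1 := by
    intro g
    simp only [K, Subgroup.mem_iInf, Cfsg.Agent.Lib.Char.Degree.mem_charKer, Subtype.forall]
  refine ⟨K, ?_, ?_, ?_, ?_, ?_⟩
  · exact Subgroup.normal_iInf_normal fun ψ => inferInstance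
  · ext g
    exact hmem g
  · intro hdvd
    haveI := Fact.mk hM.1
    obtain ⟨x, hx⟩ := exists_prime_orderOf_dvd_card' (G := K) p hdvd
    have hxK := (hmem x.1).mp x.2
    have hord : orderOf (x : G) = p := by
      rw [Subgroup.orderOf_coe, hx]
    have h0 := Cfsg.Agent.Lib.Blocks.Weak.sum_block_eq_zero hM hB (1 : G) (x : G)
      (by simpa using hM.1.one_lt.ne') (by rw [hord])
    have hterm : ∀ ψ : Cfsg.IrrCharacter G, (if ψ ∈ B then (ψ : G → ℂ) 1 * (starRingEnd ℂ) ((ψ : G → ℂ) (x : G)) else 0)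
        = (((if ψ ∈ B then Complex.normSq ((ψ : G → ℂ) 1) else 0 : ℝ)) : ℂ) := by
      intro ψ
      split_ifs with hψ
      · rw [hxK ψ hψ, Complex.mul_conj]
      · simp
    simp only [hterm] at h0
    rw [← Complex.ofReal_sum, Complex.ofReal_eq_zero] at h0
    have hpos : 0 < ∑ ψ : Cfsg.IrrCharacter G, (if ψ ∈ B then Complex.normSq ((ψ : G → ℂ) 1) else 0 : ℝ) := by
      apply Finset.sum_pos'
      · intro ψ _
        split_ifs
        · exact Complex.normSq_nonneg _
        · exact le_refl _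
      · refine ⟨χ, Finset.mem_univ _, ?_⟩
        rw [if_pos hχ]
        exact Complex.normSq_pos.mpr (Cfsg.Agent.Lib.Char.Complete.irr_one_ne_zero χ.2)
    exact hpos.ne' h0
  · intro g hg
    exact (hmem g).mp hg χ hχ
  · intro N hN hp h g hg
    letI : Fintype N := Fintype.ofFinite N
    rw [hmem]
    intro ψ hψ
    have hs : Cfsg.SameBlock M (χ : G → ℂ) (ψ : G → ℂ) := by
      have : ψ ∈ Cfsg.blockOf M (χ : G → ℂ) := by
        rw [← Cfsg.Agent.Lib.Blocks.Central.isPBlock_eq_blockOf hB hχ]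
        exact hψ
      exact this
    exact trivial_of_sameBlock hM hN hp hs (fun n => h n n.2) ⟨g, hg⟩

end Cfsg.Agent.S0938
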