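import Cfsg.Statements.S0939
import Cfsg.Agent.Lib.BlockT.Inflate
import Cfsg.Agent.Lib.Core.Basic

set_option autoImplicit false
open Cfsg

open Cfsg.Agent.Lib.BlockT.Inflate Cfsg.Agent.Lib.Char.Basic Cfsg.Agent.Lib.Char.Linear Cfsg.Agent.Lib.Char.Conj

namespace Cfsg.Agent.S0939

/-- Let G be a finite group with a normal p-complement (the largest normal subgroup O_p'(G) of order prime to p has p-power index). Then, relative to any maximal ideal M of the algebraic integers containing p, the principal block of G is the set of irreducible characters χ with χ n = χ 1 for every n ∈ O_p'(G). -/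
theorem result {G : Type*} [Group G] [Finite G] (p : ℕ) [Fact p.Prime] (M : Ideal Cfsg.AlgInt) (hM : Cfsg.IsPModular p M) (hnc : ∃ k : ℕ, (Cfsg.pPrimeCore p G).index = p ^ k) : Cfsg.principalBlock M G = {χ : Cfsg.IrrCharacter G | ∀ n ∈ Cfsg.pPrimeCore p G, (χ : G → ℂ) n = (χ : G → ℂ) 1} := by
  classical
  cases nonempty_fintype G
  have hN : (Cfsg.pPrimeCore p G).Normal := Cfsg.pPrimeCore_normal p G
  letI : Fintype (Cfsg.pPrimeCore p G) := Fintype.ofFinite _
  letI : Fintype (G ⧸ Cfsg.pPrimeCore p G) := Fintype.ofFinite _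
  haveI := Cfsg.Agent.Lib.Blocks.Local.isPrime_of_pModular hM
  have hp : ¬ p ∣ Nat.card (Cfsg.pPrimeCore p G) :=
    (Nat.Prime.coprime_iff_not_dvd hM.1).mp
      (Cfsg.Agent.Lib.Core.Basic.pPrimeCore_coprime (p := p) (G := G)).symm
  have hone : IsIrrCharacter G (fun _ => (1 : ℂ)) := Cfsg.Agent.Lib.Char.Burnside.isIrrCharacter_one
  ext χ
  constructor
  · intro hχ n hn
    have h1 : Cfsg.SameBlock M (((⟨fun _ => (1 : ℂ), hone⟩ : Cfsg.IrrCharacter G)) : G → ℂ) (χ : G → ℂ) := hχ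
    exact trivial_of_sameBlock hM hN hp h1 (fun _ => rfl) ⟨n, hn⟩
  · intro hχ
    have hsurj : Function.Surjective (QuotientGroup.mk' (Cfsg.pPrimeCore p G)) := QuotientGroup.mk'_surjective _
    have hker : ∀ k ∈ (QuotientGroup.mk' (Cfsg.pPrimeCore p G)).ker, (χ : G → ℂ) k = (χ : G → ℂ) 1 := by
      intro k hk
      rw [QuotientGroup.ker_mk'] at hk
      exact hχ k hk
    obtain ⟨φ, hφ, hχφ⟩ := isIrrCharacter_descend (QuotientGroup.mk' (Cfsg.pPrimeCore p G)) hsurj χ.2 hker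
    obtain ⟨k, hk⟩ := hnc
    have hpg : IsPGroup p (G ⧸ Cfsg.pPrimeCore p G) := IsPGroup.of_card (n := k) (by
      rw [← Subgroup.index_eq_card, hk])
    have hone' : IsIrrCharacter (G ⧸ Cfsg.pPrimeCore p G) (fun _ => (1 : ℂ)) :=
      Cfsg.Agent.Lib.Char.Burnside.isIrrCharacter_one
    have h1 := sameBlock_of_isPGroup hM hpg ⟨fun _ => (1 : ℂ), hone'⟩ ⟨φ, hφ⟩
    have h2 := sameBlock_comp (QuotientGroup.mk' (Cfsg.pPrimeCore p G)) hsurj
      (isClassFunction_of_isIrrCharacter hone') (isClassFunction_of_isIrrCharacter hφ) h1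
    show Cfsg.SameBlock M (fun _ : G => (1 : ℂ)) (χ : G → ℂ)
    rw [hχφ]
    exact h2

end Cfsg.Agent.S0939
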