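import Cfsg.Statements.S0943
import Cfsg.Agent.Lib.BlockT.CharSum

set_option autoImplicit false
open Cfsg

namespace Cfsg.Agent.S0943

/-- Let χ be an irreducible character of the finite group G and u, v ∈ G. If χ (x * y) = χ (u * v) whenever x is conjugate to u and y is conjugate to v, then χ u * χ v = χ 1 * χ (u * v). (Multiply the class sums of u and v and apply the central character of χ.) -/
theorem result {G : Type*} [Group G] [Finite G] (χ : Cfsg.IrrCharacter G) (u v : G) (hc : ∀ x y : G, IsConj u x → IsConj v y → (χ : G → ℂ) (x * y) = (χ : G → ℂ) (u * v)) : (χ : G → ℂ) u * (χ : G → ℂ) v = (χ : G → ℂ) 1 * (χ : G → ℂ) (u * v) := by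
  classical
  let _ : Fintype G := Fintype.ofFinite G
  have h := Cfsg.Agent.Lib.BlockT.CharSum.sum_conj χ.2 u v
  have h2 : ∀ t : G, (χ : G → ℂ) (u * (t * v * t⁻¹)) = (χ : G → ℂ) (u * v) := fun t =>
    hc _ _ (IsConj.refl u) (isConj_iff.mpr ⟨t, rfl⟩)
  rw [Finset.sum_congr rfl (fun t _ => h2 t), Finset.sum_const, Finset.card_univ, nsmul_eq_mul] at h
  have hG : (Fintype.card G : ℂ) ≠ 0 := Nat.cast_ne_zero.mpr Fintype.card_ne_zero
  apply mul_left_cancel₀ hG
  linear_combination -h

end Cfsg.Agent.S0943
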