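import Cfsg.Statements.S0944
import Cfsg.Agent.Lib.BlockT.CharSum

set_option autoImplicit false
open Cfsg

namespace Cfsg.Agent.S0944

/-- Let χ be an irreducible character of the finite group G and u an involution. Then χ u is a rational integer n with n ≡ χ 1 (mod 2). -/
theorem result {G : Type*} [Group G] [Finite G] (χ : Cfsg.IrrCharacter G) (u : G) (hu : orderOf u = 2) : ∃ n : ℤ, (χ : G → ℂ) u = (n : ℂ) ∧ (2 : ℤ) ∣ (Cfsg.charDegree (χ : G → ℂ) : ℤ) - n := by
  classical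
  obtain ⟨χ, m, ρ, hirr, rfl⟩ := χ
  obtain ⟨μ, h1, h2⟩ := Cfsg.Agent.Lib.Char.Eigen.character_eq_sum_roots' ρ u
  rw [hu] at h1
  have hν : ∀ i, ∃ ν : ℤ, μ i = (ν : ℂ) ∧ (ν = 1 ∨ ν = -1) := by
    intro i
    have h3 : (μ i - 1) * (μ i + 1) = 0 := by linear_combination h1 i
    rcases mul_eq_zero.mp h3 with h4 | h4
    · exact ⟨1, by push_cast; linear_combination h4, Or.inl rfl⟩
    · exact ⟨-1, by push_cast; linear_combination h4, Or.inr rfl⟩
  choose ν hν1 hν2 using hν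
  refine ⟨∑ i, ν i, ?_, ?_⟩
  · show ρ.character u = _
    rw [h2]; push_cast
    exact Finset.sum_congr rfl fun i _ => hν1 i
  · show (2 : ℤ) ∣ (Cfsg.charDegree ρ.character : ℤ) - _
    rw [Cfsg.Agent.Lib.BlockT.CharSum.charDegree_character]
    have h5 : (m : ℤ) = ∑ i : Fin (Module.finrank ℂ (Fin m → ℂ)), (1 : ℤ) := by
      simp
    rw [h5, ← Finset.sum_sub_distrib]
    apply Finset.dvd_sum
    intro i _
    rcases hν2 i with h | h <;> simp [h]

end Cfsg.Agent.S0944
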