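import Cfsg.Statements.S0951
import Cfsg.Agent.Lib.BlockT.Q8Block
import Cfsg.Agent.S0948
import Cfsg.Agent.S0201

set_option autoImplicit false
open Cfsg

namespace Cfsg.Agent.S0951

open Cfsg.Agent.Lib.BlockT.Q8Block Cfsg.Agent.Lib.BlockT.Q8
open Cfsg.Agent.Lib.Blocks.Third (oneI oneI_apply isPBlock_principal)
open Cfsg.Agent.Lib.Blocks.Local Cfsg.Agent.Lib.Blocks.Central Cfsg.Agent.Lib.Blocks.PPart
open Cfsg.Agent.Lib.Char.Basic Cfsg.Agent.Lib.Char.Ortho
open scoped ComplexConjugate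

set_option linter.style.haveILetI false
set_option linter.unusedVariables false

section Aux

variable {G : Type*} [Group G] [Finite G]

theorem conj_into (S : Sylow 2 G) {u : G} (hu : ∃ k : ℕ, orderOf u = 2 ^ k) :
    ∃ x : G, x * u * x⁻¹ ∈ (S : Subgroup G) := by
  obtain ⟨k, hk⟩ := hu
  have hpg : IsPGroup 2 (Subgroup.zpowers u) := by
    rw [IsPGroup.iff_card]
    exact ⟨k, by rw [Nat.card_zpowers, hk]⟩
  obtain ⟨Q, hQ⟩ := hpg.exists_le_sylow
  obtain ⟨x, hx⟩ := MulAction.exists_smul_eq G Q S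
  refine ⟨x, ?_⟩
  rw [← hx]
  change x * u * x⁻¹ ∈ ((x • Q : Sylow 2 G) : Subgroup G)
  rw [Sylow.coe_subgroup_smul]
  exact ⟨u, hQ (Subgroup.mem_zpowers u), rfl⟩

theorem core_of_central_sylow {H : Type*} [Group H] [Finite H] (T : Sylow 2 H)
    (hT : ∀ t ∈ (T : Subgroup H), ∀ h : H, t * h = h * t) :
    ∃ k : ℕ, (Cfsg.pPrimeCore 2 H).index = 2 ^ k := by
  classical
  have hnorm : Subgroup.normalizer ((T : Subgroup H) : Set H) ≤ Subgroup.centralizer ((T : Subgroup H) : Set H) := by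
    intro t _
    rw [Subgroup.mem_centralizer_iff]
    intro s hs
    exact hT s hs t
  have hcomp := MonoidHom.ker_transferSylow_isComplement' T hnorm
  have hnd := MonoidHom.not_dvd_card_ker_transferSylow T hnorm
  set K := (MonoidHom.transferSylow T hnorm).ker with hK
  have hcop : (Nat.card K).Coprime 2 := ((Nat.Prime.coprime_iff_not_dvd Nat.prime_two).mpr hnd).symm
  have hK2 : K ≤ Cfsg.pPrimeCore 2 H := Cfsg.Agent.Lib.Core.Basic.le_pPrimeCore inferInstance hcop
  have h1 : (Cfsg.pPrimeCore 2 H).index ∣ K.index := Subgroup.index_dvd_of_le hK2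
  have h2 : K.index = Nat.card T := hcomp.symm.index_eq_card
  rw [h2, T.card_eq_multiplicity] at h1
  obtain ⟨k, -, hk⟩ := (Nat.dvd_prime_pow Nat.prime_two).mp h1
  exact ⟨k, hk⟩

theorem q8b : ∀ x : QuaternionGroup 2, x ^ 2 ≠ 1 → ∃ c : QuaternionGroup 2, c * x * c⁻¹ = x⁻¹ := by
  decide

theorem q8c : ∀ x y : QuaternionGroup 2, x ^ 2 ≠ 1 → y * x = x * y →
    y = 1 ∨ y = x ∨ y = x ^ 2 ∨ y = x ^ 3 := by
  decide

theorem q8d : (QuaternionGroup.a 1 : QuaternionGroup 2) ^ 2 ≠ 1 := by
  decide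

variable {S : Sylow 2 G} (e : (S : Subgroup G) ≃* QuaternionGroup 2)

include e

theorem sq_ne_of {x : G} (hx : x ∈ (S : Subgroup G)) (hx2 : x ^ 2 ≠ 1) : (e ⟨x, hx⟩) ^ 2 ≠ 1 := by
  intro h
  apply hx2
  rw [← map_pow] at h
  have := e.injective (h.trans (map_one e).symm)
  simpa using congrArg Subtype.val this

theorem conj_inv_S {x : G} (hx : x ∈ (S : Subgroup G)) (hx2 : x ^ 2 ≠ 1) :
    ∃ c : G, c * x * c⁻¹ = x⁻¹ := by
  obtain ⟨c, hc⟩ := q8b _ (sq_ne_of e hx hx2)
  refine ⟨(e.symm c : G), ?_⟩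
  have h1 : e (e.symm c * ⟨x, hx⟩ * (e.symm c)⁻¹) = e (⟨x, hx⟩⁻¹) := by
    rw [map_mul, map_mul, map_inv, map_inv, MulEquiv.apply_symm_apply, hc]
  have := congrArg Subtype.val (e.injective h1)
  simpa using this

theorem cent_S {x y : G} (hx : x ∈ (S : Subgroup G)) (hx2 : x ^ 2 ≠ 1) (hy : y ∈ (S : Subgroup G))
    (hc : y * x = x * y) : y ∈ Subgroup.zpowers x := by
  have h0 : e ⟨y, hy⟩ * e ⟨x, hx⟩ = e ⟨x, hx⟩ * e ⟨y, hy⟩ := by
    rw [← map_mul, ← map_mul]
    congr 1
    exact Subtype.ext hc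
  have hmem : ∀ n : ℕ, x ^ n ∈ Subgroup.zpowers x := fun n => Subgroup.npow_mem_zpowers x n
  have key : ∀ n : ℕ, e ⟨y, hy⟩ = e ⟨x, hx⟩ ^ n → y ∈ Subgroup.zpowers x := by
    intro n h
    rw [← map_pow] at h
    have := congrArg Subtype.val (e.injective h)
    simp only [Subgroup.coe_pow] at this
    rw [this]
    exact hmem n
  rcases q8c _ _ (sq_ne_of e hx hx2) h0 with h | h | h | h
  · exact key 0 (by rw [h, pow_zero])
  · exact key 1 (by rw [h, pow_one])
  · exact key 2 h
  · exact key 3 h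

theorem exists_i : ∃ i ∈ (S : Subgroup G), i ^ 2 ≠ 1 := by
  refine ⟨(e.symm (QuaternionGroup.a 1) : G), (e.symm (QuaternionGroup.a 1)).2, fun h => q8d ?_⟩
  have h1 : (e.symm (QuaternionGroup.a 1)) ^ 2 = 1 := Subtype.ext h
  rw [← map_pow] at h1
  simpa using congrArg e h1

end Aux


/-- Let S be a Sylow 2-subgroup of the finite group G isomorphic to the quaternion group of order 8. Suppose G has no nontrivial normal subgroup of odd order and G ≠ S. Then, relative to any maximal ideal M of the algebraic integers containing 2, the principal block of G consists of exactly 7 irreducible characters. -/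
theorem result {G : Type*} [Group G] [Finite G] (M : Ideal Cfsg.AlgInt) (hM : Cfsg.IsPModular 2 M) (S : Sylow 2 G) (e : (S : Subgroup G) ≃* QuaternionGroup 2) (hO : ∀ N : Subgroup G, N.Normal → Odd (Nat.card N) → N = ⊥) (hG : (S : Subgroup G) ≠ ⊤) : Nat.card (Cfsg.principalBlock M G) = 7 := by
  classical
  cases nonempty_fintype G
  haveI : Fact (Nat.Prime 2) := ⟨Nat.prime_two⟩
  haveI := isPrime_of_pModular hM
  have := finite_irrCharacter (G := G)
  letI := Fintype.ofFinite (IrrCharacter G)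
  -- no normal complement
  have hnc : ∀ N : Subgroup G, N.Normal → ¬ Subgroup.IsComplement' N (S : Subgroup G) := by
    intro N hN hc
    have h1 : (S : Subgroup G).index = Nat.card N := hc.index_eq_card
    have h2 : ¬ 2 ∣ Nat.card N := by
      rw [← h1]
      exact S.not_dvd_index
    have h3 := hO N hN (Nat.not_even_iff_odd.mp (fun h => h2 h.two_dvd))
    apply hG
    have h4 := hc.card_mul_card
    rw [h3, Subgroup.card_bot, one_mul] at h4
    exact Subgroup.eq_top_of_card_eq _ h4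
  -- the central involution
  have hcen : Nat.card (Subgroup.center G) = 2 := Cfsg.Agent.S0201.result S 0 e hO
  obtain ⟨t, ht⟩ : ∃ t : Subgroup.center G, t ≠ 1 := by
    haveI : Nontrivial (Subgroup.center G) := by
      rw [← Finite.one_lt_card_iff_nontrivial, hcen]
      norm_num
    exact exists_ne 1
  have ht2 : t ^ 2 = 1 := by
    have := pow_card_eq_one' (x := t)
    rwa [hcen] at this
  set z : G := (t : G) with hzdef
  have hz : ∀ g : G, g * z = z * g := fun g => ((Subgroup.mem_center_iff.mp t.2) g)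
  have hz1 : z ≠ 1 := fun h => ht (Subtype.ext h)
  have hzsq : z ^ 2 = 1 := by
    have := congrArg Subtype.val ht2
    simpa using this
  have hzz : z * z = 1 := by rw [← sq, hzsq]
  have hzo : orderOf z = 2 := orderOf_eq_prime hzsq hz1
  have hzS : z ∈ (S : Subgroup G) := by
    obtain ⟨c, hc⟩ := conj_into S (u := z) ⟨1, by rw [hzo, pow_one]⟩
    rwa [hz c, mul_inv_cancel_right] at hc
  -- elements of `S`
  have hinv : ∀ x ∈ (S : Subgroup G), x ^ 2 = 1 → x = 1 ∨ x = z := by
    intro x hx hx2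
    by_cases h1 : x = 1
    · exact Or.inl h1
    · exact Or.inr (sq_unique e hx hzS hx2 h1 hzsq hz1)
  have hsq : ∀ x ∈ (S : Subgroup G), x ^ 2 ≠ 1 → x ^ 2 = z := by
    intro x hx hx2
    have h1 : (x ^ 2) ^ 2 = 1 := by
      rw [← pow_mul]
      exact pow4 e hx
    rcases hinv _ ((S : Subgroup G).pow_mem hx 2) h1 with h | h
    · exact absurd h hx2
    · exact h
  have hall : ∀ x ∈ (S : Subgroup G), ∀ x' ∈ (S : Subgroup G), x ^ 2 ≠ 1 → x' ^ 2 ≠ 1 → IsConj x x' := by
    intro x hx x' hx' hx2 hx'2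
    have hA : Subgroup.zpowers x ≤ (S : Subgroup G) := by
      rw [Subgroup.zpowers_le]
      exact hx
    have hB : Subgroup.zpowers x' ≤ (S : Subgroup G) := by
      rw [Subgroup.zpowers_le]
      exact hx'
    obtain ⟨n, -, hn⟩ := exists_conj_of_no_complement e hnc _ _ hA hB (card_zpowers_of_sq_ne e hx hx2)
      (card_zpowers_of_sq_ne e hx' hx'2)
    have h1 : n * x * n⁻¹ ∈ Subgroup.zpowers x' := by
      rw [hn]
      exact ⟨x, Subgroup.mem_zpowers x, rfl⟩
    have h2 : (n * x * n⁻¹) ^ 2 ≠ 1 := by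
      rw [conj_pow]
      intro h
      apply hx2
      have h3 : x ^ 2 = n⁻¹ * (n * x ^ 2 * n⁻¹) * n := by group
      rw [h3, h]
      group
    rcases eq_or_eq_inv_of_mem_zpowers (pow4 e hx') hx'2 h2 h1 with h | h
    · exact isConj_iff.mpr ⟨n, h⟩
    · refine (isConj_iff.mpr ⟨n, h⟩ : IsConj x x'⁻¹).trans ?_
      obtain ⟨c, hc⟩ := conj_inv_S e hx' hx'2
      exact isConj_iff.mpr ⟨c⁻¹, by
        rw [← hc]
        group⟩
  obtain ⟨i, hiS, hi2⟩ := exists_i e
  have hiz : i ^ 2 = z := hsq i hiS hi2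
  have hi4 : i ^ 4 = 1 := pow4 e hiS
  have hio : orderOf i = 4 := by
    have := orderOf_eq_prime_pow (p := 2) (n := 1) (x := i) (by simpa using hi2) (by simpa using hi4)
    simpa using this
  -- the representatives in `G`
  have hX : ∀ x ∈ ({1, z, i} : Finset G), ∃ k : ℕ, orderOf x = 2 ^ k := by
    intro x hx
    simp only [Finset.mem_insert, Finset.mem_singleton] at hx
    rcases hx with rfl | rfl | rfl
    · exact ⟨0, by simp⟩
    · exact ⟨1, by rw [hzo, pow_one]⟩
    · exact ⟨2, by rw [hio]; norm_num⟩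
  have hXrep : ∀ g : G, (∃ k : ℕ, orderOf g = 2 ^ k) → ∃! x, x ∈ ({1, z, i} : Finset G) ∧ IsConj g x := by
    intro g hg
    have huniq : ∀ x ∈ ({1, z, i} : Finset G), ∀ x' ∈ ({1, z, i} : Finset G), orderOf x = orderOf x' → x = x' := by
      intro x hx x' hx' ho
      simp only [Finset.mem_insert, Finset.mem_singleton] at hx hx'
      rcases hx with rfl | rfl | rfl <;> rcases hx' with rfl | rfl | rfl <;>
        simp only [orderOf_one, hzo, hio] at ho <;> first | rfl | omega
    obtain ⟨c, hc⟩ := conj_into S hg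
    have hgc : IsConj g (c * g * c⁻¹) := isConj_iff.mpr ⟨c, rfl⟩
    have hex : ∃ x, x ∈ ({1, z, i} : Finset G) ∧ IsConj g x := by
      by_cases h2 : (c * g * c⁻¹) ^ 2 = 1
      · rcases hinv _ hc h2 with h | h
        · exact ⟨1, by simp, h ▸ hgc⟩
        · exact ⟨z, by simp, h ▸ hgc⟩
      · exact ⟨i, by simp, hgc.trans (hall _ hc _ hiS h2 hi2)⟩
    obtain ⟨x, hx, hgx⟩ := hex
    refine ⟨x, ⟨hx, hgx⟩, ?_⟩
    rintro x' ⟨hx', hgx'⟩
    apply huniq _ hx' _ hx
    obtain ⟨a, ha⟩ := isConj_iff.mp hgx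
    obtain ⟨b, hb⟩ := isConj_iff.mp hgx'
    rw [← ha, ← hb, Cfsg.Agent.Lib.BlockT.Homocyclic.orderOf_conj, Cfsg.Agent.Lib.BlockT.Homocyclic.orderOf_conj]
  -- the centralizer of `i`
  have hicore : ∃ k : ℕ, (Cfsg.pPrimeCore 2 (Subgroup.centralizer ({i} : Set G))).index = 2 ^ k := by
    set C := Subgroup.centralizer ({i} : Set G) with hC
    have hiC : i ∈ C := by simp [hC, Subgroup.mem_centralizer_iff]
    have hpg : IsPGroup 2 (Subgroup.zpowers (⟨i, hiC⟩ : C)) := by
      rw [IsPGroup.iff_card]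
      refine ⟨2, ?_⟩
      rw [Nat.card_zpowers, Subgroup.orderOf_mk, hio]
      norm_num
    obtain ⟨T, hT⟩ := hpg.exists_le_sylow
    apply core_of_central_sylow T
    intro u hu h
    have hpg2 : IsPGroup 2 ((T : Subgroup C).map C.subtype) := T.isPGroup'.map _
    obtain ⟨Q, hQ⟩ := hpg2.exists_le_sylow
    obtain ⟨c, hc⟩ := MulAction.exists_smul_eq G Q S
    have hconj : ∀ v ∈ (T : Subgroup C), c * (v : G) * c⁻¹ ∈ (S : Subgroup G) := by
      intro v hv
      rw [← hc]
      change c * (v : G) * c⁻¹ ∈ ((c • Q : Sylow 2 G) : Subgroup G)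
      rw [Sylow.coe_subgroup_smul]
      exact ⟨v, hQ ⟨v, hv, rfl⟩, rfl⟩
    have hi' := hconj _ (hT (Subgroup.mem_zpowers (⟨i, hiC⟩ : C)))
    have hu' := hconj u hu
    have hi'2 : (c * i * c⁻¹) ^ 2 ≠ 1 := by
      rw [conj_pow]
      intro h0
      apply hi2
      have h3 : i ^ 2 = c⁻¹ * (c * i ^ 2 * c⁻¹) * c := by group
      rw [h3, h0]
      group
    have hcomm : (c * (u : G) * c⁻¹) * (c * i * c⁻¹) = (c * i * c⁻¹) * (c * (u : G) * c⁻¹) := by
      have h1 : (u : G) * i = i * (u : G) := Subgroup.mem_centralizer_singleton_iff.mp u.2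
      calc (c * (u : G) * c⁻¹) * (c * i * c⁻¹) = c * ((u : G) * i) * c⁻¹ := by group
        _ = c * (i * (u : G)) * c⁻¹ := by rw [h1]
        _ = _ := by group
    have h4 := cent_S e hi' hi'2 hu' hcomm
    obtain ⟨n, hn⟩ := Subgroup.mem_zpowers_iff.mp h4
    have h5 : (u : G) = i ^ n := by
      have h6 : (c * i * c⁻¹) ^ n = c * i ^ n * c⁻¹ := by
        rw [conj_zpow]
      rw [h6] at hn
      have h7 := mul_left_cancel (mul_right_cancel hn)
      exact h7.symm
    apply Subtype.ext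
    simp only [Subgroup.coe_mul]
    rw [h5]
    have h1 : Commute (h : G) i := Subgroup.mem_centralizer_singleton_iff.mp h.2
    exact (h1.zpow_right n).eq.symm
  -- the count in `G`
  have hcount : (Nat.card (principalBlock M G) : ℂ) = LL G M + LL G M + 1 := by
    rw [card_eq]
    rw [Cfsg.Agent.Lib.Blocks.Subsection.sum_eq_sum_sections (p := 2) _ hX hXrep (fB_class M)]
    have hne1 : (1 : G) ∉ ({z, i} : Finset G) := by
      simp only [Finset.mem_insert, Finset.mem_singleton, not_or]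
      refine ⟨hz1.symm, ?_⟩
      rintro rfl
      simp at hio
    have hne2 : z ∉ ({i} : Finset G) := by
      simp only [Finset.mem_singleton]
      intro h
      rw [h, hio] at hzo
      norm_num at hzo
    rw [Finset.sum_insert hne1, Finset.sum_insert hne2, Finset.sum_singleton]
    have t1 := section_central (x := (1 : G)) (fun g => by simp) (fun y => fB M (1 * y))
    have t2 := section_central (x := z) hz (fun y => fB M (z * y))
    have t3 := section_nilp M hM (x := i) ⟨2, by rw [hio]; norm_num⟩ hicore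
    rw [t3, t1, t2, add_assoc]
    simp only [one_mul, fB_central M hz hzz]
    rfl
  -- the quotient
  haveI hZn : (Subgroup.zpowers z).Normal := normal_zpowers hz
  letI : Fintype (G ⧸ Subgroup.zpowers z) := Fintype.ofFinite _
  have := finite_irrCharacter (G := G ⧸ Subgroup.zpowers z)
  letI := Fintype.ofFinite (IrrCharacter (G ⧸ Subgroup.zpowers z))
  have hπ := QuotientGroup.mk'_surjective (Subgroup.zpowers z)
  let Sb : Sylow 2 (G ⧸ Subgroup.zpowers z) := S.mapSurjective hπ
  have hmemSb : ∀ w, w ∈ (Sb : Subgroup (G ⧸ Subgroup.zpowers z)) ↔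
      ∃ x ∈ (S : Subgroup G), (QuotientGroup.mk x : G ⧸ Subgroup.zpowers z) = w := by
    intro w
    exact Subgroup.mem_map
  have hmk1 : ∀ x ∈ (S : Subgroup G), (QuotientGroup.mk x : G ⧸ Subgroup.zpowers z) = 1 ↔ x ^ 2 = 1 := by
    intro x hx
    rw [QuotientGroup.eq_one_iff]
    constructor
    · intro h
      rcases mem_zpowers_of_sq hzz h with rfl | rfl
      · simp
      · exact hzsq
    · intro h
      rcases hinv x hx h with rfl | rfl
      · exact Subgroup.one_mem _
      · exact Subgroup.mem_zpowers _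
  have hmksq : ∀ x ∈ (S : Subgroup G), (QuotientGroup.mk x : G ⧸ Subgroup.zpowers z) ^ 2 = 1 := by
    intro x hx
    rw [← QuotientGroup.mk_pow, QuotientGroup.eq_one_iff]
    by_cases h : x ^ 2 = 1
    · rw [h]
      exact Subgroup.one_mem _
    · rw [hsq x hx h]
      exact Subgroup.mem_zpowers _
  have hcardG : Nat.card G = Nat.card (G ⧸ Subgroup.zpowers z) * 2 := by
    have h1 := Subgroup.card_eq_card_quotient_mul_card_subgroup (Subgroup.zpowers z)
    rwa [card_zpowers' hzz hz1] at h1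
  have hSb4 : Nat.card (Sb : Subgroup (G ⧸ Subgroup.zpowers z)) = 4 := by
    have h1 : Nat.card (Sb : Subgroup (G ⧸ Subgroup.zpowers z)) = 2 ^ (Nat.card (G ⧸ Subgroup.zpowers z)).factorization 2 :=
      Sb.card_eq_multiplicity
    have h2 : Nat.card (S : Subgroup G) = 2 ^ (Nat.card G).factorization 2 := S.card_eq_multiplicity
    rw [card_S e, hcardG, Nat.factorization_mul Nat.card_pos.ne' (by norm_num), Finsupp.add_apply,
      Nat.prime_two.factorization_self] at h2
    have h3 : (Nat.card (G ⧸ Subgroup.zpowers z)).factorization 2 + 1 = 3 := by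
      have h4 : (2 : ℕ) ^ 3 = 2 ^ ((Nat.card (G ⧸ Subgroup.zpowers z)).factorization 2 + 1) := by
        rw [← h2]
        rfl
      exact (Nat.pow_right_injective (le_refl 2) h4).symm
    rw [h1, show (Nat.card (G ⧸ Subgroup.zpowers z)).factorization 2 = 2 by omega]
    norm_num
  have hklein : IsKleinFour (Sb : Subgroup (G ⧸ Subgroup.zpowers z)) := by
    haveI : Nontrivial (Sb : Subgroup (G ⧸ Subgroup.zpowers z)) := by
      rw [← Finite.one_lt_card_iff_nontrivial, hSb4]
      norm_num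
    refine ⟨hSb4, (Monoid.exponent_eq_prime_iff Nat.prime_two).mpr ?_⟩
    intro g hg
    apply orderOf_eq_prime _ hg
    obtain ⟨x, hx, hxg⟩ := (hmemSb _).mp g.2
    apply Subtype.ext
    simp only [Subgroup.coe_pow, Subgroup.coe_one]
    rw [← hxg]
    exact hmksq x hx
  -- the elements of order two
  have h2el : ∀ w : G ⧸ Subgroup.zpowers z, (∃ k : ℕ, orderOf w = 2 ^ k) → ∃ x ∈ (S : Subgroup G),
      IsConj w (QuotientGroup.mk x) := by
    intro w hw
    obtain ⟨c, hc⟩ := conj_into Sb hw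
    obtain ⟨x, hx, hxe⟩ := (hmemSb _).mp hc
    exact ⟨x, hx, isConj_iff.mpr ⟨c, hxe.symm⟩⟩
  have hone : ∀ s t : G ⧸ Subgroup.zpowers z, orderOf s = 2 → orderOf t = 2 → IsConj s t := by
    have aux : ∀ s : G ⧸ Subgroup.zpowers z, orderOf s = 2 → ∃ x ∈ (S : Subgroup G), x ^ 2 ≠ 1 ∧
        IsConj s (QuotientGroup.mk x) := by
      intro s hs
      obtain ⟨x, hx, hxc⟩ := h2el s ⟨1, by rw [hs, pow_one]⟩
      refine ⟨x, hx, fun h => ?_, hxc⟩
      have h1 := (hmk1 x hx).mpr h
      rw [h1, isConj_comm, isConj_one_right] at hxc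
      rw [hxc, orderOf_one] at hs
      norm_num at hs
    intro s t hs ht
    obtain ⟨x, hx, hx2, hxc⟩ := aux s hs
    obtain ⟨x', hx', hx'2, hxc'⟩ := aux t ht
    refine hxc.trans (((QuotientGroup.mk' (Subgroup.zpowers z)).map_isConj (hall x hx x' hx' hx2 hx'2)).trans hxc'.symm)
  obtain ⟨ζ₂, ζ₃, ζ₄, ε, hε, h21, h31, h23, h24, h34, hB, hval, -, -, -, -⟩ :=
    Cfsg.Agent.S0948.result M hM Sb hklein hone
  -- the class of `i`
  set ib : G ⧸ Subgroup.zpowers z := QuotientGroup.mk i with hib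
  have hib1 : ib ≠ 1 := fun h => hi2 ((hmk1 i hiS).mp h)
  have hib2 : ib ^ 2 = 1 := hmksq i hiS
  have hibo : orderOf ib = 2 := orderOf_eq_prime hib2 hib1
  have hibS : ib ∈ (Sb : Subgroup (G ⧸ Subgroup.zpowers z)) := (hmemSb _).mpr ⟨i, hiS, rfl⟩
  have h41 : ζ₄ ≠ oneI (G ⧸ Subgroup.zpowers z) := by
    intro h
    have h1 := (hval ib hibo).2.2
    rw [h, oneI_apply] at h1
    norm_num at h1
  have hcard4 : Nat.card (principalBlock M (G ⧸ Subgroup.zpowers z)) = 4 := by
    have hset : principalBlock M (G ⧸ Subgroup.zpowers z) =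
        ((({oneI (G ⧸ Subgroup.zpowers z), ζ₂, ζ₃, ζ₄} : Finset (IrrCharacter (G ⧸ Subgroup.zpowers z)))) :
          Set (IrrCharacter (G ⧸ Subgroup.zpowers z))) := by
      rw [hB]
      ext χ
      simp only [Set.mem_ofPred_eq, Finset.coe_insert, Finset.coe_singleton, Set.mem_insert_iff,
        Set.mem_singleton_iff]
      constructor
      · rintro (h | h | h | h)
        · left
          exact Subtype.ext h
        · exact Or.inr (Or.inl h)
        · exact Or.inr (Or.inr (Or.inl h))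
        · exact Or.inr (Or.inr (Or.inr h))
      · rintro (h | h | h | h)
        · left
          rw [h]
          rfl
        · exact Or.inr (Or.inl h)
        · exact Or.inr (Or.inr (Or.inl h))
        · exact Or.inr (Or.inr (Or.inr h))
    rw [hset, Nat.card_coe_set_eq, Set.ncard_coe_finset]
    rw [Finset.card_insert_of_notMem, Finset.card_insert_of_notMem, Finset.card_insert_of_notMem,
      Finset.card_singleton]
    · simpa using h34
    · simp only [Finset.mem_insert, Finset.mem_singleton, not_or]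
      exact ⟨h23, h24⟩
    · simp only [Finset.mem_insert, Finset.mem_singleton, not_or]
      refine ⟨fun h => h21 ?_, fun h => h31 ?_, h41.symm⟩
      · rw [← h]
        rfl
      · rw [← h]
        rfl
  have hcorei := (Cfsg.Agent.S0948.index_core Sb hklein hibS hib1).1
  have hXb : ∀ x ∈ ({1, ib} : Finset (G ⧸ Subgroup.zpowers z)), ∃ k : ℕ, orderOf x = 2 ^ k := by
    intro x hx
    simp only [Finset.mem_insert, Finset.mem_singleton] at hx
    rcases hx with rfl | rfl
    · exact ⟨0, by simp⟩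
    · exact ⟨1, by rw [hibo, pow_one]⟩
  have hXbrep : ∀ g : G ⧸ Subgroup.zpowers z, (∃ k : ℕ, orderOf g = 2 ^ k) →
      ∃! x, x ∈ ({1, ib} : Finset (G ⧸ Subgroup.zpowers z)) ∧ IsConj g x := by
    intro g hg
    obtain ⟨x, hx, hgx⟩ := h2el g hg
    have hex : ∃ t, t ∈ ({1, ib} : Finset (G ⧸ Subgroup.zpowers z)) ∧ IsConj g t := by
      by_cases h2 : x ^ 2 = 1
      · refine ⟨1, by simp, ?_⟩
        rwa [(hmk1 x hx).mpr h2] at hgx
      · exact ⟨ib, by simp, hgx.trans ((QuotientGroup.mk' (Subgroup.zpowers z)).map_isConj (hall x hx i hiS h2 hi2))⟩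
    obtain ⟨t', ht', hgt⟩ := hex
    refine ⟨t', ⟨ht', hgt⟩, ?_⟩
    rintro t'' ⟨ht'', hgt''⟩
    have hconj : IsConj t'' t' := hgt''.symm.trans hgt
    simp only [Finset.mem_insert, Finset.mem_singleton] at ht' ht''
    rcases ht' with rfl | rfl <;> rcases ht'' with rfl | rfl
    · rfl
    · rw [isConj_comm, isConj_one_right] at hconj
      exact hconj
    · rw [isConj_one_right] at hconj
      exact hconj.symm
    · rfl
  have hcountb : ((4 : ℕ) : ℂ) = LL (G ⧸ Subgroup.zpowers z) M + 1 := by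
    rw [← hcard4, card_eq]
    rw [Cfsg.Agent.Lib.Blocks.Subsection.sum_eq_sum_sections (p := 2) _ hXb hXbrep (fB_class M)]
    have hne1 : (1 : G ⧸ Subgroup.zpowers z) ∉ ({ib} : Finset (G ⧸ Subgroup.zpowers z)) := by
      simp only [Finset.mem_singleton]
      exact hib1.symm
    rw [Finset.sum_insert hne1, Finset.sum_singleton]
    have t1 := section_central (x := (1 : G ⧸ Subgroup.zpowers z)) (fun g => by simp) (fun y => fB M (1 * y))
    have t3 := section_nilp M hM (x := ib) ⟨1, by rw [hibo, pow_one]⟩ hcorei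
    rw [t3, t1]
    simp only [one_mul]
    rfl
  have hLb : LL (G ⧸ Subgroup.zpowers z) M = 3 := by
    push_cast at hcountb
    linear_combination -hcountb
  have hL : LL G M = 3 := by
    rw [LL_quot hz hzz hz1 hM, hLb]
  rw [hL] at hcount
  have h7 : (Nat.card (principalBlock M G) : ℂ) = ((7 : ℕ) : ℂ) := by
    rw [hcount]
    norm_num
  exact_mod_cast h7

end Cfsg.Agent.S0951
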