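import Cfsg.Statements.S0957

set_option autoImplicit false
open Cfsg

namespace Cfsg.Agent.S0957

lemma card_centralizer_of_isConj {G : Type*} [Group G] {g y : G} (h : IsConj g y) :
    Nat.card (Subgroup.centralizer ({g} : Set G)) = Nat.card (Subgroup.centralizer ({y} : Set G)) := by
  obtain ⟨u, rfl⟩ := isConj_iff.mp h
  apply Nat.card_congr
  refine
    { toFun := fun x => ⟨u * x * u⁻¹, ?_⟩
      invFun := fun x => ⟨u⁻¹ * x * u, ?_⟩
      left_inv := fun x => by ext; simp; group
      right_inv := fun x => by ext; simp; group }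
  · rw [Subgroup.mem_centralizer_singleton_iff]
    have := Subgroup.mem_centralizer_singleton_iff.mp x.2
    calc u * x * u⁻¹ * (u * g * u⁻¹) = u * ((x : G) * g) * u⁻¹ := by group
      _ = u * (g * x) * u⁻¹ := by rw [this]
      _ = _ := by group
  · rw [Subgroup.mem_centralizer_singleton_iff]
    have := Subgroup.mem_centralizer_singleton_iff.mp x.2
    have h2 : (x : G) * (u * g * u⁻¹) = (u * g * u⁻¹) * x := this
    calc u⁻¹ * x * u * g = u⁻¹ * ((x : G) * (u * g * u⁻¹)) * u := by group
      _ = u⁻¹ * ((u * g * u⁻¹) * x) * u := by rw [h2]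
      _ = _ := by group

/-- Let P be a Sylow p-subgroup of the finite group G, let g, h ∈ G and let p ^ d be the order of a Sylow p-subgroup of the centralizer of g. Then the number of pairs (y, z) with y conjugate to g, z conjugate to h and z * y⁻¹ ∈ P is divisible by the order of P divided by p ^ d. -/
theorem result {G : Type*} [Group G] [Finite G] (p : ℕ) [Fact p.Prime] (P : Sylow p G) (g h : G) (S : Sylow p (Subgroup.centralizer ({g} : Set G))) : Nat.card P / Nat.card S ∣ Nat.card {yz : G × G // IsConj g yz.1 ∧ IsConj h yz.2 ∧ yz.2 * yz.1⁻¹ ∈ (P : Subgroup G)} := by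
  classical
  let _ := Fintype.ofFinite G
  have hp := (Fact.out : p.Prime)
  let act : MulAction (P : Subgroup G) {yz : G × G // IsConj g yz.1 ∧ IsConj h yz.2 ∧ yz.2 * yz.1⁻¹ ∈ (P : Subgroup G)} :=
    { smul := fun u xy => ⟨((u : G) * xy.1.1 * (u : G)⁻¹, (u : G) * xy.1.2 * (u : G)⁻¹), by
        refine ⟨?_, ?_, ?_⟩
        · exact xy.2.1.trans (isConj_iff.mpr ⟨u, rfl⟩)
        · exact xy.2.2.1.trans (isConj_iff.mpr ⟨u, rfl⟩)
        · have := xy.2.2.2
          have e : (u : G) * xy.1.2 * (u : G)⁻¹ * ((u : G) * xy.1.1 * (u : G)⁻¹)⁻¹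
              = (u : G) * (xy.1.2 * xy.1.1⁻¹) * (u : G)⁻¹ := by group
          show (u : G) * xy.1.2 * (u : G)⁻¹ * ((u : G) * xy.1.1 * (u : G)⁻¹)⁻¹ ∈ (P : Subgroup G)
          rw [e]
          exact (P : Subgroup G).mul_mem ((P : Subgroup G).mul_mem u.2 this) ((P : Subgroup G).inv_mem u.2)⟩
      one_smul := fun xy => by
        apply Subtype.ext
        apply Prod.ext
        · show (((1 : (P : Subgroup G)) : G)) * xy.1.1 * (((1 : (P : Subgroup G)) : G))⁻¹ = xy.1.1
          simp
        · show (((1 : (P : Subgroup G)) : G)) * xy.1.2 * (((1 : (P : Subgroup G)) : G))⁻¹ = xy.1.2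
          simp
      mul_smul := fun u v xy => by
        apply Subtype.ext
        apply Prod.ext
        · show ((u * v : (P : Subgroup G)) : G) * xy.1.1 * ((u * v : (P : Subgroup G)) : G)⁻¹ = (u : G) * ((v : G) * xy.1.1 * (v : G)⁻¹) * (u : G)⁻¹
          simp only [Subgroup.coe_mul]; group
        · show ((u * v : (P : Subgroup G)) : G) * xy.1.2 * ((u * v : (P : Subgroup G)) : G)⁻¹ = (u : G) * ((v : G) * xy.1.2 * (v : G)⁻¹) * (u : G)⁻¹
          simp only [Subgroup.coe_mul]; group }
  have hsmul : ∀ (u : (P : Subgroup G)) (xy : {yz : G × G // IsConj g yz.1 ∧ IsConj h yz.2 ∧ yz.2 * yz.1⁻¹ ∈ (P : Subgroup G)}),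
      ((u • xy).1 : G × G) = ((u : G) * xy.1.1 * (u : G)⁻¹, (u : G) * xy.1.2 * (u : G)⁻¹) := fun _ _ => rfl
  -- numerics
  set a := (Nat.card G).factorization p with ha
  set d := (Nat.card (Subgroup.centralizer ({g} : Set G))).factorization p with hd
  have hPcard : Nat.card P = p ^ a := P.card_eq_multiplicity
  have hScard : Nat.card S = p ^ d := S.card_eq_multiplicity
  have hda : d ≤ a := by
    have : Nat.card (Subgroup.centralizer ({g} : Set G)) ∣ Nat.card G := Subgroup.card_subgroup_dvd_card _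
    exact (Nat.factorization_le_iff_dvd (Nat.card_pos.ne') (Nat.card_pos.ne')).mpr this p
  rw [hPcard, hScard, Nat.pow_div hda hp.pos]
  have key : ∀ x : {yz : G × G // IsConj g yz.1 ∧ IsConj h yz.2 ∧ yz.2 * yz.1⁻¹ ∈ (P : Subgroup G)}, p ^ (a - d) ∣ Nat.card (MulAction.orbit (P : Subgroup G) x) := by
    intro x
    have h1 := MulAction.card_orbit_mul_card_stabilizer_eq_card_group (P : Subgroup G) x
    simp only [← Nat.card_eq_fintype_card] at h1
    -- the stabilizer embeds in C(y)
    set St := MulAction.stabilizer (P : Subgroup G) x with hSt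
    set y := x.1.1 with hy
    have hk1 : Nat.card St ∣ p ^ a := by
      rw [← hPcard]; exact Subgroup.card_subgroup_dvd_card _
    have hk2 : Nat.card St ∣ Nat.card (Subgroup.centralizer ({y} : Set G)) := by
      have hle : St.map (P : Subgroup G).subtype ≤ Subgroup.centralizer ({y} : Set G) := by
        rintro _ ⟨u, hu, rfl⟩
        rw [Subgroup.mem_centralizer_singleton_iff]
        have h3 : u • x = x := hu
        have h4 : (u : G) * y * (u : G)⁻¹ = y := congrArg (fun z => z.1.1) h3
        exact mul_inv_eq_iff_eq_mul.mp h4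
      have h5 := Subgroup.card_dvd_of_le hle
      rwa [Subgroup.card_map_of_injective (Subgroup.subtype_injective _)] at h5
    rw [← card_centralizer_of_isConj x.2.1] at hk2
    obtain ⟨e, he, hk⟩ := (Nat.dvd_prime_pow hp).mp hk1
    have hed : e ≤ d := by
      rw [hk] at hk2
      have hCpos : Nat.card (Subgroup.centralizer ({g} : Set G)) ≠ 0 := Nat.card_pos.ne'
      exact (hp.pow_dvd_iff_le_factorization hCpos).mp hk2
    rw [hPcard, hk] at h1
    have h6 : Nat.card (MulAction.orbit (P : Subgroup G) x) = p ^ (a - e) := by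
      have h7 : p ^ a = p ^ (a - e) * p ^ e := by rw [← pow_add]; congr 1; omega
      rw [h7] at h1
      exact Nat.eq_of_mul_eq_mul_right (pow_pos hp.pos e) h1
    rw [h6]
    exact pow_dvd_pow p (by omega)
  let _ : Fintype {yz : G × G // IsConj g yz.1 ∧ IsConj h yz.2 ∧ yz.2 * yz.1⁻¹ ∈ (P : Subgroup G)} := Fintype.ofFinite _
  let _ : Fintype (MulAction.orbitRel.Quotient (P : Subgroup G) {yz : G × G // IsConj g yz.1 ∧ IsConj h yz.2 ∧ yz.2 * yz.1⁻¹ ∈ (P : Subgroup G)}) := Fintype.ofFinite _
  rw [Nat.card_congr (MulAction.selfEquivSigmaOrbits (P : Subgroup G) {yz : G × G // IsConj g yz.1 ∧ IsConj h yz.2 ∧ yz.2 * yz.1⁻¹ ∈ (P : Subgroup G)})]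
  rw [Nat.card_sigma]
  apply Finset.dvd_sum
  intro ω _
  exact key _

end Cfsg.Agent.S0957
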