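import Cfsg.Statements.S0961
import Cfsg.Agent.Lib.BlockT.NormalSylow
import Cfsg.Agent.Lib.Char.GenLattice
import Cfsg.Agent.Lib.Char.Burnside
import Cfsg.Agent.S0164

set_option autoImplicit false
open Cfsg

namespace Cfsg.Agent.S0961

open Cfsg.Agent.Lib.BlockT.NormalSylow
open Cfsg.Agent.Lib.Char.Basic Cfsg.Agent.Lib.Char.Induced Cfsg.Agent.Lib.Char.GenLattice

set_option linter.style.haveILetI false
set_option linter.unusedVariables false

section Aux

variable {E : Type*} [Group E] [Finite E] {p : ℕ} [hp : Fact p.Prime]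

/-- Elementary groups have a normal `p`-complement consisting of the `p`-regular elements. -/
theorem exists_complement {r : ℕ} (hr : r.Prime) (hel : IsElementary r E) :
    ∃ K : Subgroup E, K.Normal ∧ ∀ g : E, g ∈ K ↔ ¬ p ∣ orderOf g := by
  classical
  obtain ⟨x, hxc, hco, k, hk⟩ := hel
  have hcen : ∀ y ∈ Subgroup.zpowers x, ∀ t : E, t * y * t⁻¹ = y := by
    intro y hy t
    obtain ⟨n, rfl⟩ := Subgroup.mem_zpowers_iff.mp hy
    have h1 : Commute t (x ^ n) := by
      apply Commute.zpow_right
      exact (Subgroup.mem_center_iff.mp hxc t)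
    rw [h1.eq, mul_assoc, mul_inv_cancel, mul_one]
  have hAn : (Subgroup.zpowers x).Normal := ⟨fun y hy t => by
    rw [hcen y hy t]
    exact hy⟩
  by_cases hrp : r = p
  · subst hrp
    refine ⟨Subgroup.zpowers x, hAn, fun g => ⟨?_, ?_⟩⟩
    · intro hg hd
      have h1 : orderOf g ∣ orderOf x := by
        obtain ⟨n, rfl⟩ := Subgroup.mem_zpowers_iff.mp hg
        exact orderOf_dvd_of_pow_eq_one (by
          rw [← zpow_natCast, ← zpow_mul, mul_comm, zpow_mul, zpow_natCast, pow_orderOf_eq_one, one_zpow])
      have h2 := hd.trans h1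
      exact hr.one_lt.ne' (Nat.eq_one_of_dvd_coprimes hco h2 (dvd_refl r))
    · intro hreg
      have h1 : (QuotientGroup.mk g : E ⧸ Subgroup.zpowers x) ^ r ^ k = 1 := by
        rw [← hk, Subgroup.index_eq_card]
        exact pow_card_eq_one'
      have h2 : orderOf (QuotientGroup.mk g : E ⧸ Subgroup.zpowers x) ∣ r ^ k := orderOf_dvd_of_pow_eq_one h1
      have h3 : orderOf (QuotientGroup.mk g : E ⧸ Subgroup.zpowers x) ∣ orderOf g := by
        apply orderOf_dvd_of_pow_eq_one
        rw [← QuotientGroup.mk_pow, pow_orderOf_eq_one, QuotientGroup.mk_one]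
      have h4 : Nat.Coprime (r ^ k) (orderOf g) := Nat.Coprime.pow_left k ((Nat.Prime.coprime_iff_not_dvd hr).mpr hreg)
      have h5 := Nat.Coprime.eq_one_of_dvd (Nat.Coprime.coprime_dvd_left h2 h4) h3
      have h6 := orderOf_eq_one_iff.mp h5
      exact (QuotientGroup.eq_one_iff g).mp h6
  · -- a Sylow `p`-subgroup is central
    obtain ⟨S⟩ : Nonempty (Sylow p E) := inferInstance
    have hS : ∀ s ∈ S, s ∈ Subgroup.zpowers x := by
      intro s hs
      have h1 : (QuotientGroup.mk s : E ⧸ Subgroup.zpowers x) ^ r ^ k = 1 := by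
        rw [← hk, Subgroup.index_eq_card]
        exact pow_card_eq_one'
      have h2 : orderOf (QuotientGroup.mk s : E ⧸ Subgroup.zpowers x) ∣ r ^ k := orderOf_dvd_of_pow_eq_one h1
      obtain ⟨j, hj⟩ := S.isPGroup' ⟨s, hs⟩
      have hj' : s ^ p ^ j = 1 := by
        have := congrArg Subtype.val hj
        simpa using this
      have h3 : orderOf (QuotientGroup.mk s : E ⧸ Subgroup.zpowers x) ∣ p ^ j := by
        apply orderOf_dvd_of_pow_eq_one
        rw [← QuotientGroup.mk_pow, hj', QuotientGroup.mk_one]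
      have h4 : Nat.Coprime (r ^ k) (p ^ j) :=
        Nat.Coprime.pow _ _ ((Nat.coprime_primes hr hp.out).mpr hrp)
      have h5 := Nat.Coprime.eq_one_of_dvd (Nat.Coprime.coprime_dvd_left h2 h4) h3
      have h6 := orderOf_eq_one_iff.mp h5
      exact (QuotientGroup.eq_one_iff s).mp h6
    have hSn : (S : Subgroup E).Normal := ⟨fun s hs t => by
      rw [hcen s (hS s hs) t]
      exact hs⟩
    obtain ⟨K, hK⟩ := exists_regular_subgroup S hSn
    have hall : ∀ g : E, g ∈ Subgroup.centralizer ((S : Subgroup E) : Set E) := by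
      intro g
      rw [Subgroup.mem_centralizer_iff]
      intro s hs
      have h1 := hcen s (hS s hs) g
      have h2 : g * s * g⁻¹ * g = s * g := by rw [h1]
      rw [← h2]
      group
    exact ⟨K, normal_of_forall (S : Subgroup E) hSn hK, fun g => by
      rw [hK]
      exact ⟨fun h => h.2, fun h => ⟨hall g, h⟩⟩⟩

theorem exists_index_eq {K : Subgroup E} (hKn : K.Normal) (hK : ∀ g : E, g ∈ K ↔ ¬ p ∣ orderOf g) :
    ∃ k : ℕ, K.index = p ^ k := by
  classical
  haveI := hKn
  have h1 : IsPGroup p (E ⧸ K) := by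
    intro w
    obtain ⟨g, rfl⟩ := QuotientGroup.mk_surjective w
    obtain ⟨a, b, hab, -, -, -, ⟨k, hk⟩, hb⟩ := Cfsg.Agent.Lib.Transfer.Basic.exists_pPart_decomp (p := p) g
    have hb' : b ∈ K := (hK b).mpr ((Nat.Prime.coprime_iff_not_dvd hp.out).mp hb.symm)
    have h2 : (QuotientGroup.mk b : E ⧸ K) = 1 := (QuotientGroup.eq_one_iff b).mpr hb'
    refine ⟨k, ?_⟩
    rw [hab, QuotientGroup.mk_mul, h2, mul_one, ← QuotientGroup.mk_pow, hk, QuotientGroup.mk_one]
  obtain ⟨k, hk⟩ := IsPGroup.iff_card.mp h1
  exact ⟨k, hk⟩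

end Aux

section Ind

variable {E : Type*} [Group E] [Fintype E]

open Classical in
theorem indFun_one_normal {K : Subgroup E} [Fintype K] (hKn : K.Normal) (g : E) :
    indFun K (fun _ => (1 : ℂ)) g = if g ∈ K then (K.index : ℂ) else 0 := by
  classical
  rw [indFun_apply]
  by_cases hg : g ∈ K
  · rw [if_pos hg]
    have h1 : ∀ t : E, Cfsg.extendByZero K (fun _ => (1 : ℂ)) (t * g * t⁻¹) = 1 := by
      intro t
      rw [extendByZero_of_mem K _ (hKn.conj_mem g hg t)]
    have h2 : ∀ t : E, Cfsg.extendByZero K (fun _ => (1 : ℂ)) (t⁻¹ * g * t) = 1 := by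
      intro t
      have := hKn.conj_mem g hg t⁻¹
      rw [inv_inv] at this
      rw [extendByZero_of_mem K _ this]
    simp only [h1, h2, Finset.sum_const, Finset.card_univ, nsmul_eq_mul, mul_one]
    have h3 := card_eq_card_mul_index K
    rw [Nat.card_eq_fintype_card (α := E)] at h3
    rw [h3]
    push_cast
    have hne := card_subgroup_ne_zero K
    field_simp
  · rw [if_neg hg]
    have h1 : ∀ t : E, Cfsg.extendByZero K (fun _ => (1 : ℂ)) (t * g * t⁻¹) = 0 := by
      intro t
      apply extendByZero_of_not_mem K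
      intro hc
      apply hg
      have := hKn.conj_mem _ hc t⁻¹
      simpa [mul_assoc] using this
    have h2 : ∀ t : E, Cfsg.extendByZero K (fun _ => (1 : ℂ)) (t⁻¹ * g * t) = 0 := by
      intro t
      apply extendByZero_of_not_mem K
      intro hc
      apply hg
      have := hKn.conj_mem _ hc t
      simpa [mul_assoc] using this
    simp only [h1, h2, Finset.sum_const_zero, mul_zero]

end Ind

/-- Let χ be an irreducible character of the finite group G and let p ^ a be the largest power of the prime p dividing the order of G. Then the function equal to p ^ a * χ x at elements x of order prime to p and to 0 elsewhere is a generalized character (a difference of characters). -/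
theorem result {G : Type*} [Group G] [Finite G] (p : ℕ) [Fact p.Prime] (χ : Cfsg.IrrCharacter G) : Cfsg.IsGeneralizedCharacter G (fun x : G => if p ∣ orderOf x then 0 else ((p ^ (Nat.card G).factorization p : ℕ) : ℂ) * (χ : G → ℂ) x) := by
  classical
  cases nonempty_fintype G
  refine Cfsg.Agent.S0164.result _ ?_ ?_
  · intro g h
    have e1 : orderOf (h * g * h⁻¹) = orderOf g := by
      simpa using (MulAut.conj h).orderOf_eq g
    simp only [e1]
    rw [isClassFunction_of_isIrrCharacter χ.2 g h]
  · intro E r hr hel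
    letI : Fintype E := Fintype.ofFinite _
    obtain ⟨K, hKn, hK⟩ := exists_complement (p := p) hr hel
    letI : Fintype K := Fintype.ofFinite _
    obtain ⟨k, hk⟩ := exists_index_eq hKn hK
    have hle : k ≤ (Nat.card G).factorization p := by
      have h1 : p ^ k ∣ Nat.card G := by
        rw [← hk]
        exact (Subgroup.index_dvd_card K).trans (Subgroup.card_subgroup_dvd_card E)
      exact (Nat.Prime.pow_dvd_iff_le_factorization (Fact.out) Nat.card_pos.ne').mp h1
    set a := (Nat.card G).factorization p with ha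
    have hone : IsCharacter K (fun _ => (1 : ℂ)) :=
      isCharacter_of_isIrrCharacter Cfsg.Agent.Lib.Char.Burnside.isIrrCharacter_one
    have hind := Cfsg.Agent.Lib.Char.IndRep.isCharacter_indFun K hone
    have hres : IsCharacter E (fun e : E => (χ : G → ℂ) e) := isCharacter_restrict E (isCharacter_of_isIrrCharacter χ.2)
    have hmul := isCharacter_mul hind hres
    have hgen := isGenChar_nsmul (isGenChar_of_isCharacter hmul) (p ^ (a - k))
    convert hgen using 1
    funext e
    simp only [Pi.smul_apply, Pi.mul_apply, nsmul_eq_mul]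
    rw [indFun_one_normal hKn, hk]
    have e1 : orderOf (e : G) = orderOf e := Subgroup.orderOf_coe e
    rw [e1]
    by_cases hd : p ∣ orderOf e
    · have hnot : e ∉ K := fun h => ((hK e).mp h) hd
      rw [if_pos hd, if_neg hnot]
      simp
    · have hin : e ∈ K := (hK e).mpr hd
      rw [if_neg hd, if_pos hin]
      have e2 : ((p ^ a : ℕ) : ℂ) = ((p ^ (a - k) : ℕ) : ℂ) * ((p ^ k : ℕ) : ℂ) := by
        rw [← Nat.cast_mul, ← pow_add, Nat.sub_add_cancel hle]
      rw [e2]
      ring

end Cfsg.Agent.S0961
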