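import Cfsg.Statements.S0962
import Cfsg.Agent.Lib.BlockT.Count

set_option autoImplicit false
open Cfsg

namespace Cfsg.Agent.S0962

open Cfsg.Agent.Lib.BlockT.Count Cfsg.Agent.Lib.BlockT.Inflate2
open Cfsg.Agent.Lib.Blocks.Local Cfsg.Agent.Lib.Blocks.Central

set_option linter.style.haveILetI false

/-- Fix a maximal ideal M of the algebraic integers containing the prime p and a natural number d. The number of blocks of the finite group G of defect at least d is at most the number of conjugacy classes of p-regular elements of G of defect at least d, where the defect of a class is the exponent of p in the order of the centralizer of any of its elements. -/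
theorem result {G : Type*} [Group G] [Finite G] (p : ℕ) [Fact p.Prime] (M : Ideal Cfsg.AlgInt) (hM : Cfsg.IsPModular p M) (d : ℕ) : Nat.card {B : Set (Cfsg.IrrCharacter G) // Cfsg.IsPBlock M B ∧ d ≤ Cfsg.blockDefect p B} ≤ Nat.card {C : ConjClasses G // ∃ g : G, ConjClasses.mk g = C ∧ Cfsg.IsPRegular p g ∧ d ≤ (Nat.card (Subgroup.centralizer ({g} : Set G))).factorization p} := by
  classical
  cases nonempty_fintype G
  haveI := isPrime_of_pModular hM
  have := Cfsg.Agent.Lib.Char.Ortho.finite_irrCharacter (G := G)
  letI := Fintype.ofFinite (IrrCharacter G)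
  letI := Fintype.ofFinite (ConjClasses G)
  let ι := {B : Set (IrrCharacter G) // IsPBlock M B ∧ d ≤ blockDefect p B}
  let κ := {C : ConjClasses G // ∃ g : G, ConjClasses.mk g = C ∧ IsPRegular p g ∧
    d ≤ (Nat.card (Subgroup.centralizer ({g} : Set G))).factorization p}
  letI : Fintype ι := Fintype.ofFinite _
  letI : Fintype κ := Subtype.fintype _
  have hne : ∀ i : ι, ∃ χ : IrrCharacter G, χ ∈ i.1 := fun i => isPBlock_nonempty i.2.1
  choose χ hχ using hne
  let A : Matrix ι κ ℂ := fun i k => centralChar (χ i : G → ℂ) (k.1.out)
  let X : Matrix κ ι ℂ := fun k j => blockCoeff j.1 (k.1.out)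
  have key : ∀ i j : ι, MemLocalIdeal M ((A * X) i j - if χ i ∈ j.1 then 1 else 0) := by
    intro i j
    rw [← sum_classes_eq (χ i) j.1]
    have h1 := sum_subtype_sub_mem (M := M) (p := fun C : ConjClasses G => ∃ g : G, ConjClasses.mk g = C ∧
      IsPRegular p g ∧ d ≤ (Nat.card (Subgroup.centralizer ({g} : Set G))).factorization p)
      (fun C => centralChar (χ i : G → ℂ) C.out * blockCoeff j.1 C.out) (by
        intro C hC
        by_cases hreg : IsPRegular p C.out
        · refine memLocalIdeal_mul_right ?_ (memLocalRing_blockCoeff j.2.1 _)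
          by_contra hnot
          have h2 := Cfsg.Agent.Lib.BlockP.Defect.blockDefect_le_factorization_centralizer hM i.2.1 (hχ i) hnot
          exact hC ⟨C.out, out_isConj C, hreg, i.2.2.trans h2⟩
        · have hd : p ∣ orderOf C.out := by
            by_contra h
            exact hreg h
          rw [blockCoeff_eq_zero hM j.2.1 hd, mul_zero]
          exact memLocalIdeal_zero)
    rw [Matrix.mul_apply]
    exact h1
  have hmem : ∀ i j : ι, i ≠ j → χ i ∉ j.1 := by
    intro i j hij hin
    apply hij
    apply Subtype.ext
    have h1 := isPBlock_eq_blockOf i.2.1 (hχ i)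
    have h2 := isPBlock_eq_blockOf j.2.1 hin
    rw [h1, h2]
  have hle := card_le_of_mul_congr (M := M) A X
    (fun i j hij => by
      have := key i j
      rwa [if_neg (hmem i j hij), sub_zero] at this)
    (fun i => by
      have := key i i
      rwa [if_pos (hχ i)] at this)
  rw [Nat.card_eq_fintype_card, Nat.card_eq_fintype_card]
  exact hle

end Cfsg.Agent.S0962
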