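import Cfsg.Statements.S0966
import Cfsg.Agent.Lib.BlockT.NormalP

set_option autoImplicit false
open Cfsg

namespace Cfsg.Agent.S0966

/-- Let N be a normal subgroup of p-power index in the finite group G and b a block of N relative to a maximal ideal M of the algebraic integers containing p. Then there is exactly one block B of G containing a character whose restriction to N has a constituent in b. -/
theorem result {G : Type*} [Group G] [Fintype G] (p : ℕ) [Fact p.Prime] (M : Ideal Cfsg.AlgInt) (hM : Cfsg.IsPModular p M) (N : Subgroup G) [N.Normal] [Fintype N] (hidx : ∃ k : ℕ, N.index = p ^ k) (b : Set (Cfsg.IrrCharacter N)) (hb : Cfsg.IsPBlock M b) : ∃! B : Set (Cfsg.IrrCharacter G), Cfsg.IsPBlock M B ∧ ∃ χ ∈ B, ∃ θ ∈ b, Cfsg.classInner (fun n : N => (χ : G → ℂ) n) (θ : N → ℂ) ≠ 0 := by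
  classical
  haveI := Cfsg.Agent.Lib.Blocks.Local.isPrime_of_pModular hM
  obtain ⟨θ, hθ⟩ := Cfsg.Agent.Lib.Blocks.Central.isPBlock_nonempty hb
  obtain ⟨χ, hχ⟩ := Cfsg.Agent.Lib.BlockT.NormalP.exists_irr_over θ
  refine ⟨Cfsg.blockOf M (χ : G → ℂ), ⟨⟨χ, rfl⟩, χ, Cfsg.Agent.Lib.Blocks.Central.mem_blockOf_self χ, θ, hθ, hχ⟩, ?_⟩
  rintro B' ⟨hB', χ', hχ', θ', hθ', hcon'⟩
  have hs : Cfsg.SameBlock M (θ : N → ℂ) (θ' : N → ℂ) := by
    have : θ' ∈ Cfsg.blockOf M (θ : N → ℂ) := by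
      rw [← Cfsg.Agent.Lib.Blocks.Central.isPBlock_eq_blockOf hb hθ]
      exact hθ'
    exact this
  have h1 : Cfsg.SameBlock M (χ : G → ℂ) (χ' : G → ℂ) :=
    Cfsg.Agent.Lib.BlockT.NormalP.sameBlock_of_constituents hM ‹N.Normal› hidx hs hχ hcon'
  rw [Cfsg.Agent.Lib.Blocks.Central.isPBlock_eq_blockOf hB' hχ']
  exact Cfsg.Agent.Lib.Blocks.Central.blockOf_eq_of_mem h1

end Cfsg.Agent.S0966
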