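import Cfsg.Statements.S0967
import Cfsg.Agent.Lib.BlockT.Inflate

set_option autoImplicit false
open Cfsg

open Cfsg.Agent.Lib.BlockT.Inflate Cfsg.Agent.Lib.Char.Basic Cfsg.Agent.Lib.Char.Linear Cfsg.Agent.Lib.Char.Conj

namespace Cfsg.Agent.S0967

/-- Let N be a normal subgroup of the finite group G of order prime to p and fix a maximal ideal M of the algebraic integers containing p. If χ is an irreducible character of G ⧸ N and ψ lies in the block of its inflation χ ∘ (quotient map), then ψ is itself inflated from an irreducible character ψ' of G ⧸ N lying in the block of χ. (Over a normal p'-subgroup, blocks of the quotient are whole blocks of G.) -/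
theorem result {G : Type*} [Group G] [Finite G] (p : ℕ) [Fact p.Prime] (M : Ideal Cfsg.AlgInt) (hM : Cfsg.IsPModular p M) (N : Subgroup G) [N.Normal] (hN : ¬ p ∣ Nat.card N) (χ : Cfsg.IrrCharacter (G ⧸ N)) (ψ : Cfsg.IrrCharacter G) (hψ : ψ ∈ Cfsg.blockOf M ((χ : G ⧸ N → ℂ) ∘ QuotientGroup.mk)) : ∃ ψ' : Cfsg.IrrCharacter (G ⧸ N), (ψ : G → ℂ) = (ψ' : G ⧸ N → ℂ) ∘ QuotientGroup.mk ∧ Cfsg.SameBlock M (χ : G ⧸ N → ℂ) (ψ' : G ⧸ N → ℂ) := by
  classical
  cases nonempty_fintype G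
  letI : Fintype N := Fintype.ofFinite N
  letI : Fintype (G ⧸ N) := Fintype.ofFinite _
  have hsurj : Function.Surjective (QuotientGroup.mk' N) := QuotientGroup.mk'_surjective N
  let χt : Cfsg.IrrCharacter G := ⟨(χ : G ⧸ N → ℂ) ∘ QuotientGroup.mk' N, Cfsg.Agent.Lib.Char.Conj.isIrrCharacter_comp _ hsurj χ.2⟩
  have hsame : Cfsg.SameBlock M (χt : G → ℂ) (ψ : G → ℂ) := hψ
  have htriv : ∀ n : N, (χt : G → ℂ) n = (χt : G → ℂ) 1 := by
    intro n
    show (χ : G ⧸ N → ℂ) (QuotientGroup.mk' N n) = (χ : G ⧸ N → ℂ) (QuotientGroup.mk' N 1)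
    rw [map_one]
    have : QuotientGroup.mk' N (n : G) = 1 := (QuotientGroup.eq_one_iff _).mpr n.2
    rw [this]
  have hψt := trivial_of_sameBlock hM ‹N.Normal› hN hsame htriv
  have hker : ∀ k ∈ (QuotientGroup.mk' N).ker, (ψ : G → ℂ) k = (ψ : G → ℂ) 1 := by
    intro k hk
    rw [QuotientGroup.ker_mk'] at hk
    exact hψt ⟨k, hk⟩
  obtain ⟨φ, hφ, hψφ⟩ := isIrrCharacter_descend (QuotientGroup.mk' N) hsurj ψ.2 hker
  refine ⟨⟨φ, hφ⟩, hψφ, ?_⟩
  have hk : ¬ p ∣ Nat.card (QuotientGroup.mk' N).ker := by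
    rw [QuotientGroup.ker_mk']
    exact hN
  refine sameBlock_of_comp_coprime (QuotientGroup.mk' N) hsurj hM hk
    (isClassFunction_of_isIrrCharacter χ.2) (isClassFunction_of_isIrrCharacter hφ) ?_
  have : (φ ∘ QuotientGroup.mk' N) = (ψ : G → ℂ) := hψφ.symm
  rw [this]
  exact hsame

end Cfsg.Agent.S0967
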