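import Cfsg.Statements.S0970
import Cfsg.Agent.Lib.BlockT.Fong

set_option autoImplicit false
open Cfsg

namespace Cfsg.Agent.S0970

open Cfsg.Agent.Lib.BlockT.Fong Cfsg.Agent.Lib.BlockT.SylowIn
open Cfsg.Agent.Lib.Blocks.Local Cfsg.Agent.Lib.Blocks.Central
open Cfsg.Agent.Lib.Blocks.Defect Cfsg.Agent.Lib.Blocks.Defect2

/-- Let N be a normal subgroup of the finite group G and fix a maximal ideal M of the algebraic integers containing the prime p. Let b be a block of N that is invariant under conjugation by G, and B a block of G covering b (some χ ∈ B has a constituent in b) whose defect is at least that of every block covering b. If P is a defect group of B, then p does not divide the index of P ⊔ N, the subgroup P ∩ N of N is a defect group of b, and the defect of B equals the defect of b plus the exponent of p in the index of N. -/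
theorem result {G : Type*} [Group G] [Fintype G] (p : ℕ) [Fact p.Prime] (M : Ideal Cfsg.AlgInt) (hM : Cfsg.IsPModular p M) (N : Subgroup G) [hN : N.Normal] [Fintype N] (b : Set (Cfsg.IrrCharacter N)) (hb : Cfsg.IsPBlock M b) (hinv : ∀ g : G, ∀ θ ∈ b, ∀ θ' : Cfsg.IrrCharacter N, (∀ n : N, (θ' : N → ℂ) n = (θ : N → ℂ) ⟨g * n * g⁻¹, hN.conj_mem n n.2 g⟩) → θ' ∈ b) (B : Set (Cfsg.IrrCharacter G)) (hB : Cfsg.IsPBlock M B) (hcov : ∃ χ ∈ B, ∃ θ ∈ b, Cfsg.classInner (fun n : N => (χ : G → ℂ) n) (θ : N → ℂ) ≠ 0) (hmax : ∀ B' : Set (Cfsg.IrrCharacter G), Cfsg.IsPBlock M B' → (∃ χ ∈ B', ∃ θ ∈ b, Cfsg.classInner (fun n : N => (χ : G → ℂ) n) (θ : N → ℂ) ≠ 0) → Cfsg.blockDefect p B' ≤ Cfsg.blockDefect p B) (P : Subgroup G) (hP : Cfsg.IsDefectGroup p M B P) : ¬ p ∣ (P ⊔ N).index ∧ Cfsg.IsDefectGroup p M b ((P ⊓ N).subgroupOf N) ∧ Cfsg.blockDefect p B = Cfsg.blockDefect p b + N.index.factorization p := by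
  classical
  haveI := isPrime_of_pModular hM
  have := Cfsg.Agent.Lib.Char.Ortho.finite_irrCharacter (G := G)
  letI := Fintype.ofFinite (IrrCharacter G)
  have := Cfsg.Agent.Lib.Char.Ortho.finite_irrCharacter (G := N)
  letI := Fintype.ofFinite (IrrCharacter N)
  have hinv' : IsInv hN b := fun t θ hθ => hinv t θ hθ _ (fun n => rfl)
  obtain ⟨χ₀, hχ₀, θ₀, hθ₀, hc₀⟩ := id hcov
  obtain ⟨χ', hχ', hge⟩ := exists_defect_ge hN hM hinv' hb hθ₀ hc₀
  have hmax' := hmax (blockOf M (χ' : G → ℂ)) ⟨χ', rfl⟩ (by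
    obtain ⟨θ', h1, h2⟩ := hχ'
    exact ⟨χ', mem_blockOf_self χ', θ', h1, h2⟩)
  have hle := defect_le hN hM hinv' hb hB hcov
  have hdef : blockDefect p B = blockDefect p b + N.index.factorization p := by omega
  have hBcov : B ⊆ covers N b := by
    rw [isPBlock_eq_blockOf hB hχ₀]
    exact blockOf_subset_covers hN hinv' hb ⟨θ₀, hθ₀, hc₀⟩
  obtain ⟨y, hy, hs⟩ := isDefectGroup_isSylowIn hP
  set Q : Subgroup G := P ⊓ N with hQ
  have hQp : IsPGroup p Q := hs.isPGroup.to_le inf_le_left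
  have hQy : ∀ q ∈ Q, q * y = y * q := fun q hq =>
    Subgroup.mem_centralizer_singleton_iff.mp (hs.le hq.1)
  obtain ⟨n, hn1, hn2⟩ := exists_fixed hN hM hinv' hb hB hBcov hy.2.1 Q hQp hQy
  obtain ⟨θ₁, hθ₁⟩ := isPBlock_nonempty hb
  obtain ⟨n₁, hn₁⟩ := exists_isDefectClass hb
  obtain ⟨S⟩ : Nonempty (Sylow p (Subgroup.centralizer ({n₁} : Set N))) := inferInstance
  set D₁ : Subgroup N := (S : Subgroup (Subgroup.centralizer ({n₁} : Set N))).map
    (Subgroup.centralizer ({n₁} : Set N)).subtype with hD₁def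
  have hD₁ : IsSylowIn p D₁ (Subgroup.centralizer ({n₁} : Set N)) := ⟨S, rfl⟩
  have hQ'p : IsPGroup p (Q.subgroupOf N) := hQp.comap_of_injective _ (Subgroup.subtype_injective _)
  have hQ'le : Q.subgroupOf N ≤ Subgroup.centralizer ({n} : Set N) := by
    intro q hq
    rw [Subgroup.mem_centralizer_singleton_iff]
    apply Subtype.ext
    exact hn2 _ (Subgroup.mem_subgroupOf.mp hq)
  obtain ⟨x, hx⟩ := minmax_le hM hb hθ₁ (hn₁.2.2 θ₁ hθ₁) hn1 hD₁ hQ'p hQ'le
  -- cardinalities
  have hcD : Nat.card (D₁.map (MulAut.conj x).toMonoidHom) = p ^ blockDefect p b := by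
    rw [card_conj_eq, hD₁.card_eq, Cfsg.Agent.Lib.BlockP.Defect.factorization_centralizer_eq hM hb hn₁]
  have hcP : Nat.card P = p ^ blockDefect p B := by
    rw [hs.card_eq, Cfsg.Agent.Lib.BlockP.Defect.factorization_centralizer_eq hM hB hy]
  have hcQ' : Nat.card (Q.subgroupOf N) = Nat.card Q := card_subgroupOf_of_le inf_le_right
  have h1 : Nat.card Q * N.relIndex P = Nat.card P := by
    have h2 := (N.subgroupOf P).card_mul_index
    have h3 : Nat.card (N.subgroupOf P) = Nat.card Q := by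
      rw [← Subgroup.inf_subgroupOf_right, inf_comm]
      exact card_subgroupOf_of_le inf_le_left
    rw [h3] at h2
    exact h2
  have h4 : N.relIndex P * (P ⊔ N).index = N.index := by
    rw [← Subgroup.relIndex_sup_right]
    exact Subgroup.relIndex_mul_index le_sup_right
  have hr : N.relIndex P ∣ p ^ blockDefect p B := hcP ▸ Dvd.intro_left _ h1
  obtain ⟨s, -, hs'⟩ := (Nat.dvd_prime_pow (Fact.out : p.Prime)).mp hr
  have hq : Nat.card Q ∣ p ^ blockDefect p B := hcP ▸ Dvd.intro _ h1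
  obtain ⟨t, -, ht'⟩ := (Nat.dvd_prime_pow (Fact.out : p.Prime)).mp hq
  have hp : p.Prime := Fact.out
  have hts : t + s = blockDefect p B := by
    rw [hcP, ht', hs', ← pow_add] at h1
    exact Nat.pow_right_injective hp.two_le h1
  have hle2 : Nat.card Q ≤ p ^ blockDefect p b := by
    rw [← hcD, ← hcQ']
    exact Subgroup.card_le_of_le hx
  have htle : t ≤ blockDefect p b := by
    rw [ht'] at hle2
    exact (Nat.pow_le_pow_iff_right hp.one_lt).mp hle2
  have hi0 : (P ⊔ N).index ≠ 0 := Subgroup.index_ne_zero_of_finite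
  have hN0 : N.index ≠ 0 := Subgroup.index_ne_zero_of_finite
  have hf : N.index.factorization p = s + (P ⊔ N).index.factorization p := by
    rw [← h4, hs', Nat.factorization_mul (pow_ne_zero _ hp.ne_zero) hi0, Finsupp.add_apply,
      Nat.factorization_pow, Finsupp.smul_apply, hp.factorization_self]
    simp
  have hv : (P ⊔ N).index.factorization p = 0 := by omega
  have htd : t = blockDefect p b := by omega
  refine ⟨?_, ?_, hdef⟩
  · intro hdvd
    have := (hp.dvd_iff_one_le_factorization hi0).mp hdvd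
    omega
  · have heq : Q.subgroupOf N = D₁.map (MulAut.conj x).toMonoidHom := by
      apply Subgroup.eq_of_le_of_card_ge hx
      rw [hcD, hcQ', ht', htd]
    rw [heq]
    exact isDefectGroup_conj ⟨n₁, hn₁, S, rfl⟩ x

end Cfsg.Agent.S0970
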