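import Cfsg.Statements.S0971
import Cfsg.Agent.Lib.BlockT.NormalP
import Cfsg.Agent.Lib.BlockP.Reduce

set_option autoImplicit false
open Cfsg

namespace Cfsg.Agent.S0971

theorem aux {G : Type*} [Group G] [Fintype G] (p : ℕ) [Fact p.Prime] (M : Ideal Cfsg.AlgInt) (hM : Cfsg.IsPModular p M) (Q : Subgroup G) [Q.Normal] (hQ : IsPGroup p Q) {N : Subgroup G} [Fintype N] (hN : N.Normal) (hCN : Subgroup.centralizer (Q : Set G) ≤ N) (b : Set (Cfsg.IrrCharacter N)) (hb : Cfsg.IsPBlock M b) : Cfsg.InducedBlockDefined M N b ∧ ∀ B : Set (Cfsg.IrrCharacter G), Cfsg.IsPBlock M B → (∃ χ ∈ B, ∃ θ ∈ b, Cfsg.classInner (fun n : N => (χ : G → ℂ) n) (θ : N → ℂ) ≠ 0) → Cfsg.IsInducedBlock M N b B := by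
  classical
  haveI := Cfsg.Agent.Lib.Blocks.Local.isPrime_of_pModular hM
  have key : ∀ B : Set (Cfsg.IrrCharacter G), Cfsg.IsPBlock M B →
      (∃ χ ∈ B, ∃ θ ∈ b, Cfsg.classInner (fun n : N => (χ : G → ℂ) n) (θ : N → ℂ) ≠ 0) →
      Cfsg.IsInducedBlock M N b B := by
    intro B hB hcov
    refine ⟨hb, hB, fun ξ hξ χ hχ g => ?_⟩
    by_cases hg : g ∈ N
    · exact Cfsg.Agent.Lib.Blocks.Local.memLocalIdeal_sub_comm
        (Cfsg.Agent.Lib.BlockT.Normal.memLocalIdeal_of_constituent hN M hB hb hcov χ hχ ξ hξ ⟨g, hg⟩)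
    · have hno : ∀ x, IsConj g x → x ∉ Subgroup.centralizer (Q : Set G) := by
        intro x hx hxC
        apply hg
        obtain ⟨c, rfl⟩ := isConj_iff.mp hx
        have h1 : c * g * c⁻¹ ∈ N := hCN hxC
        have := hN.conj_mem _ h1 c⁻¹
        simpa [mul_assoc] using this
      have h0 : Cfsg.inducedCentralChar N (ξ : N → ℂ) g = 0 := by
        rw [Cfsg.inducedCentralChar]
        apply finsum_mem_eq_zero_of_forall_eq_zero
        intro h hh
        exfalso
        apply hg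
        obtain ⟨c, hc⟩ := isConj_iff.mp hh
        have := hN.conj_mem _ h.2 c⁻¹
        rw [← hc] at this
        simpa [mul_assoc] using this
      rw [h0, zero_sub]
      exact Cfsg.Agent.Lib.Blocks.Local.memLocalIdeal_neg
        (Cfsg.Agent.Lib.BlockP.Reduce.centralChar_mem_of_no_conj hM.1 hM χ.2 Q ‹Q.Normal› hQ g hno)
  refine ⟨?_, key⟩
  obtain ⟨θ, hθ⟩ := Cfsg.Agent.Lib.Blocks.Central.isPBlock_nonempty hb
  obtain ⟨χ, hχ⟩ := Cfsg.Agent.Lib.BlockT.NormalP.exists_irr_over θ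
  exact ⟨Cfsg.blockOf M (χ : G → ℂ), key _ ⟨χ, rfl⟩
    ⟨χ, Cfsg.Agent.Lib.Blocks.Central.mem_blockOf_self χ, θ, hθ, hχ⟩⟩

/-- Let Q be a normal p-subgroup of the finite group G, let N = Q ⊔ C_G(Q) (a normal subgroup) and let b be a block of N relative to a maximal ideal M of the algebraic integers containing p. Then b induces some block of G, and every block B of G containing a character whose restriction to N has a constituent in b is induced by b. -/
theorem result {G : Type*} [Group G] [Fintype G] (p : ℕ) [Fact p.Prime] (M : Ideal Cfsg.AlgInt) (hM : Cfsg.IsPModular p M) (Q : Subgroup G) [Q.Normal] (hQ : IsPGroup p Q) [Fintype ↥(Q ⊔ Subgroup.centralizer (Q : Set G))] (b : Set (Cfsg.IrrCharacter ↥(Q ⊔ Subgroup.centralizer (Q : Set G)))) (hb : Cfsg.IsPBlock M b) : Cfsg.InducedBlockDefined M (Q ⊔ Subgroup.centralizer (Q : Set G)) b ∧ ∀ B : Set (Cfsg.IrrCharacter G), Cfsg.IsPBlock M B → (∃ χ ∈ B, ∃ θ ∈ b, Cfsg.classInner (fun n :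 ↥(Q ⊔ Subgroup.centralizer (Q : Set G)) => (χ : G → ℂ) n) (θ : ↥(Q ⊔ Subgroup.centralizer (Q : Set G)) → ℂ) ≠ 0) → Cfsg.IsInducedBlock M (Q ⊔ Subgroup.centralizer (Q : Set G)) b B := by
  have hC : (Subgroup.centralizer (Q : Set G)).Normal := Subgroup.normal_centralizer
  exact aux p M hM Q hQ (Subgroup.sup_normal _ _) le_sup_right b hb

end Cfsg.Agent.S0971
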