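import Cfsg.Statements.S0972
import Cfsg.Agent.Lib.BlockT.Reynolds
import Cfsg.Agent.Lib.Char.Ito

set_option autoImplicit false
open Cfsg

namespace Cfsg.Agent.S0972

open Cfsg.Agent.Lib.BlockT.Reynolds Cfsg.Agent.Lib.BlockT.SylowIn Cfsg.Agent.Lib.BlockT.NormalP
open Cfsg.Agent.Lib.Blocks.Local Cfsg.Agent.Lib.Blocks.Central Cfsg.Agent.Lib.Blocks.Defect2
open Cfsg.Agent.Lib.Char.Basic Cfsg.Agent.Lib.Char.Ortho Cfsg.Agent.Lib.Char.CliffordCorr
open Cfsg.Agent.Lib.BlockP.Defect

set_option linter.style.haveILetI false
set_option linter.unusedVariables false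


/-- Let B be a block of the finite group G (relative to a maximal ideal M of the algebraic integers containing the prime p) with a defect group P that is normal in G. Then P is commutative if and only if every member of B has height zero. -/
theorem result {G : Type*} [Group G] [Finite G] (p : ℕ) [Fact p.Prime] (M : Ideal Cfsg.AlgInt) (hM : Cfsg.IsPModular p M) (B : Set (Cfsg.IrrCharacter G)) (hB : Cfsg.IsPBlock M B) (P : Subgroup G) [P.Normal] (hP : Cfsg.IsDefectGroup p M B P) : (∀ a ∈ P, ∀ c ∈ P, a * c = c * a) ↔ ∀ χ ∈ B, Cfsg.blockHeight p B (χ : G → ℂ) = 0 := by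
  classical
  cases nonempty_fintype G
  letI : Fintype P := Fintype.ofFinite P
  haveI := isPrime_of_pModular hM
  have hN : P.Normal := inferInstance
  obtain ⟨g, hg, hs⟩ := isDefectGroup_isSylowIn hP
  have hpg : IsPGroup p P := hs.isPGroup
  have hgC : g ∈ Subgroup.centralizer (P : Set G) := by
    rw [Subgroup.mem_centralizer_iff]
    intro x hx
    have := Subgroup.mem_centralizer_iff.mp (hs.le hx) g rfl
    exact this.symm
  -- numerics
  have hadd := factorization_centralizer_add hM hB hg
  have c1 := (Subgroup.centralizer ({g} : Set G)).card_mul_index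
  have c3 := P.card_mul_index
  have hcP : Nat.card P = p ^ (Nat.card (Subgroup.centralizer ({g} : Set G))).factorization p := hs.card_eq
  have f1 := congrArg (fun m => m.factorization p) c1
  have f3 := congrArg (fun m => m.factorization p) c3
  simp only [Nat.factorization_mul (Nat.card_pos).ne' (Subgroup.index_ne_zero_of_finite),
    Finsupp.add_apply] at f1 f3
  have hfP : (Nat.card P).factorization p = (Nat.card (Subgroup.centralizer ({g} : Set G))).factorization p := by
    rw [hcP, Nat.factorization_pow, Finsupp.smul_apply, hM.1.factorization_self]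
    simp
  have hidx : P.index.factorization p = minExp p B := by omega
  have hidx2 : (Subgroup.centralizer ({g} : Set G)).index.factorization p = minExp p B := by omega
  constructor
  · intro hab χ hχ
    have hdvd : charDegree (χ : G → ℂ) ∣ P.index := by
      obtain ⟨χ', n, ρ, hρ, rfl⟩ := χ
      haveI : ρ.IsIrreducible := hρ
      have h1 := Cfsg.Agent.Lib.Char.Ito.finrank_dvd_index_of_abelian_normal ρ P hab
      have h2 : ρ.character 1 = (n : ℂ) := by
        simp [Representation.character]
      have h3 : charDegree ρ.character = n := by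
        rw [charDegree, h2]
        simp
      rw [h3]
      simpa using h1
    have hle := (Nat.factorization_le_iff_dvd (Cfsg.Agent.Lib.Char.Degree.charDegree_pos χ.2).ne'
      (Subgroup.index_ne_zero_of_finite)).mpr hdvd p
    change (charDegree (χ : G → ℂ)).factorization p - minExp p B = 0
    omega
  · intro hh0 a ha c hc
    have hP' : ∀ a b : P, a * b = b * a := by
      rw [Cfsg.Agent.Lib.Char.Linear.comm_iff_all_deg_one]
      intro β
      obtain ⟨χ, hχB, hcon⟩ := exists_mem_block_over hM hpg hB β
      have hint := isIntegral_div_deg hN hcon hgC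
      have hh := hh0 χ hχB
      have hχ1 : (charDegree (χ : G → ℂ)).factorization p = minExp p B := by
        have hle := minExp_le p hχB
        have : (charDegree (χ : G → ℂ)).factorization p - minExp p B = 0 := hh
        omega
      -- degrees
      have hdeg := deg_eq_of_constituent hN χ.2 β.2 hcon
      obtain ⟨e, he⟩ := exists_nat_classInner (isCharacter_restrict P (isCharacter_of_isIrrCharacter χ.2))
        (isCharacter_of_isIrrCharacter β.2)
      set t := e * (inertia hN (β : P → ℂ)).index with ht
      have h1 : charDegree (χ : G → ℂ) = t * charDegree (β : P → ℂ) := by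
        have h2 := Cfsg.Agent.Lib.Char.Degree.charDegree_natCast (isCharacter_of_isIrrCharacter χ.2)
        have h3 := Cfsg.Agent.Lib.Char.Degree.charDegree_natCast (isCharacter_of_isIrrCharacter β.2)
        rw [← h2, ← h3, he] at hdeg
        rw [ht]
        exact_mod_cast hdeg
      have hχ0 := Cfsg.Agent.Lib.Char.Degree.charDegree_pos χ.2
      have hβ0 := Cfsg.Agent.Lib.Char.Degree.charDegree_pos β.2
      have ht0 : t ≠ 0 := by
        rintro h
        rw [h, zero_mul] at h1
        exact hχ0.ne' h1
      have hnd : ¬ p ∣ charDegree (β : P → ℂ) := by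
        intro hd
        have hpos : 0 < (charDegree (β : P → ℂ)).factorization p :=
          hM.1.factorization_pos_of_dvd hβ0.ne' hd
        have h2 : (charDegree (χ : G → ℂ)).factorization p =
            t.factorization p + (charDegree (β : P → ℂ)).factorization p := by
          rw [h1, Nat.factorization_mul ht0 hβ0.ne']
          rfl
        have hlt : t.factorization p < (Subgroup.centralizer ({g} : Set G)).index.factorization p := by
          omega
        have h3 := Cfsg.Agent.Lib.BlockP.InducedDeg.memLocalIdeal_div hM
          (Subgroup.index_ne_zero_of_finite) ht0 hlt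
        have h4 := memLocalIdeal_mul_right h3 (memLocalRing_of_isIntegral hint)
        apply hg.2.2 χ hχB
        have h5 : centralChar (χ : G → ℂ) g =
            ((Subgroup.centralizer ({g} : Set G)).index : ℂ) / t * ((χ : G → ℂ) g / (β : P → ℂ) 1) := by
          rw [centralChar]
          have h6 := Cfsg.Agent.Lib.Char.Degree.charDegree_natCast (isCharacter_of_isIrrCharacter χ.2)
          have h7 := Cfsg.Agent.Lib.Char.Degree.charDegree_natCast (isCharacter_of_isIrrCharacter β.2)
          have hβ1 := Cfsg.Agent.Lib.Char.Complete.irr_one_ne_zero β.2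
          have ht' : (t : ℂ) ≠ 0 := Nat.cast_ne_zero.mpr ht0
          have h8 : (χ : G → ℂ) 1 = t * (β : P → ℂ) 1 := by
            rw [← h6, ← h7, h1]
            push_cast
            rfl
          rw [h8]
          field_simp
        rw [h5]
        exact h4
      have hdvd := Cfsg.Agent.Lib.Char.Degree.charDegree_dvd_card β.2
      obtain ⟨n, hn⟩ := IsPGroup.iff_card.mp hpg
      rw [hn] at hdvd
      obtain ⟨j, -, hj⟩ := (Nat.dvd_prime_pow hM.1).mp hdvd
      have hj0 : j = 0 := by
        by_contra h
        exact hnd (hj ▸ dvd_pow_self p h)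
      rw [hj0, pow_zero] at hj
      have h7 := Cfsg.Agent.Lib.Char.Degree.charDegree_natCast (isCharacter_of_isIrrCharacter β.2)
      rw [← h7, hj]
      simp
    exact congrArg Subtype.val (hP' ⟨a, ha⟩ ⟨c, hc⟩)

end Cfsg.Agent.S0972
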