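import Cfsg.Statements.S0987
import Cfsg.Agent.Lib.Small.Sieve
import Cfsg.Agent.Lib.SmallSimple.Count
-- import your own Cfsg.Agent.* helpers here

set_option autoImplicit false
open Cfsg

namespace Cfsg.Agent.S0987

/-- If a finite group has order pqr for primes p < q < r, then its Sylow r-subgroups are normal. -/
theorem result {G : Type*} [Group G] [Finite G] (p q r : ℕ) (hp : p.Prime) (hq : q.Prime) [Fact r.Prime] (hpq : p < q) (hqr : q < r) (hG : Nat.card G = p * q * r) (R : Sylow r G) : (R : Subgroup G).Normal := by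
  classical
  have hr : r.Prime := Fact.out
  have : Fact q.Prime := ⟨hq⟩
  have hrpq : ¬ r ∣ p * q := by
    intro h
    rcases (Nat.Prime.dvd_mul hr).mp h with h1 | h1
    · have := Nat.le_of_dvd hp.pos h1; omega
    · have := Nat.le_of_dvd hq.pos h1; omega
  have hqpr : ¬ q ∣ p * r := by
    intro h
    rcases (Nat.Prime.dvd_mul hq).mp h with h1 | h1
    · have := Nat.le_of_dvd hp.pos h1; omega
    · have := (Nat.prime_dvd_prime_iff_eq hq hr).mp h1; omega
  have hG1 : Nat.card G = r ^ 1 * (p * q) := by rw [hG]; ring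
  have hG2 : Nat.card G = q ^ 1 * (p * r) := by rw [hG]; ring
  have hcardR : Nat.card (R : Subgroup G) = r := by
    simpa using Cfsg.Agent.Lib.Small.Sieve.card_sylow_eq hG1 hrpq R
  have hidxR : (R : Subgroup G).index = p * q := Cfsg.Agent.Lib.Small.Sieve.index_sylow_eq hG1 hrpq R
  have hnr : Nat.card (Sylow r G) ∣ p * q := by rw [← hidxR]; exact R.card_dvd_index
  have hmodr : Nat.card (Sylow r G) % r = 1 := by
    have h := card_sylow_modEq_one r G
    rwa [Nat.ModEq, Nat.mod_eq_of_lt hr.one_lt] at h
  by_cases h1 : Nat.card (Sylow r G) = 1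
  · have hsub : Subsingleton (Sylow r G) := (Nat.card_eq_one_iff_unique.mp h1).1
    exact Sylow.normal_of_subsingleton R
  exfalso
  have hnr2 : Nat.card (Sylow r G) = p * q := by
    rcases Cfsg.Agent.Lib.SmallSimple.Count.eq_of_dvd_mul_prime hp hq hnr with h2 | h2 | h2 | h2
    · exact absurd h2 h1
    · rw [h2, Nat.mod_eq_of_lt (by omega)] at hmodr
      have := hp.one_lt; omega
    · rw [h2, Nat.mod_eq_of_lt (by omega)] at hmodr
      have := hq.one_lt; omega
    · exact h2
  have hpq0 : 0 < p * q := Nat.mul_pos hp.pos hq.pos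
  have hN : Nat.card (Subgroup.normalizer ((R : Subgroup G) : Set G)) = r := by
    have h3 := Cfsg.Agent.Lib.SmallSimple.Count.card_sylow_mul_card_normalizer R
    rw [hnr2, hG] at h3
    exact Nat.eq_of_mul_eq_mul_left hpq0 h3
  have hNR : Subgroup.normalizer ((R : Subgroup G) : Set G) = R := by
    symm
    exact Subgroup.eq_of_le_of_card_ge Subgroup.le_normalizer (by rw [hN, hcardR])
  -- the Sylow `q`-subgroup
  obtain ⟨Q⟩ : Nonempty (Sylow q G) := inferInstance
  have hcardQ : Nat.card (Q : Subgroup G) = q := by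
    simpa using Cfsg.Agent.Lib.Small.Sieve.card_sylow_eq hG2 hqpr Q
  have hidxQ : (Q : Subgroup G).index = p * r := Cfsg.Agent.Lib.Small.Sieve.index_sylow_eq hG2 hqpr Q
  have hnq : Nat.card (Sylow q G) ∣ p * r := by rw [← hidxQ]; exact Q.card_dvd_index
  have hmodq : Nat.card (Sylow q G) % q = 1 := by
    have h := card_sylow_modEq_one q G
    rwa [Nat.ModEq, Nat.mod_eq_of_lt hq.one_lt] at h
  have hcount := Cfsg.Agent.Lib.SmallSimple.Count.card_orderOf_add_card_orderOf_add_one_le (G := G)
    (a := r) (b := q) (by omega) hr.one_lt.ne' hq.one_lt.ne'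
  rw [Cfsg.Agent.Lib.SmallSimple.Count.card_orderOf_eq_of_card_sylow R hcardR,
    Cfsg.Agent.Lib.SmallSimple.Count.card_orderOf_eq_of_card_sylow Q hcardQ, hnr2, hG] at hcount
  have hq2 := hq.two_le
  have hp2 := hp.two_le
  by_cases h1q : Nat.card (Sylow q G) = 1
  · -- `Q` is normal
    have hsub : Subsingleton (Sylow q G) := (Nat.card_eq_one_iff_unique.mp h1q).1
    have hQn : (Q : Subgroup G).Normal := Sylow.normal_of_subsingleton Q
    have hcyc : IsCyclic ↥(Q : Subgroup G) := isCyclic_of_prime_card hcardQ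
    have hAut : Nat.card (MulAut ↥(Q : Subgroup G)) = q - 1 := by
      rw [IsCyclic.card_mulAut, hcardQ, Nat.totient_prime hq]
    have hcop : Nat.gcd r (q - 1) = 1 := by
      apply (Nat.Prime.coprime_iff_not_dvd hr).mpr
      intro hd
      have := Nat.le_of_dvd (by omega) hd
      omega
    have htriv : ∀ y ∈ (R : Subgroup G), ∀ x ∈ (Q : Subgroup G), y * x * y⁻¹ = x := by
      intro y hy x hx
      have h2 : (MulAut.conjNormal (H := (Q : Subgroup G)) y) ^ r = 1 := by
        rw [← map_pow]
        have : y ^ r = 1 := by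
          have h3 := pow_card_eq_one' (x := (⟨y, hy⟩ : ↥(R : Subgroup G)))
          rw [hcardR] at h3
          simpa using congrArg Subtype.val h3
        rw [this, map_one]
      have h3 : (MulAut.conjNormal (H := (Q : Subgroup G)) y) ^ (q - 1) = 1 := by
        rw [← hAut]
        exact pow_card_eq_one'
      have h4 := pow_gcd_eq_one.mpr ⟨h2, h3⟩
      rw [hcop, pow_one] at h4
      have h5 := congrArg (fun e : MulAut ↥(Q : Subgroup G) => ((e ⟨x, hx⟩ : ↥(Q : Subgroup G)) : G)) h4
      simpa using h5
    have hQR : (Q : Subgroup G) ≤ R := by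
      intro x hx
      rw [← hNR, Subgroup.mem_set_normalizer_iff]
      intro y
      have hxy : ∀ y ∈ (R : Subgroup G), x * y * x⁻¹ = y := by
        intro y hy
        have := htriv y hy x hx
        have h6 : y * x = x * y := by
          calc y * x = y * x * y⁻¹ * y := by group
            _ = x * y := by rw [this]
        rw [← h6]; group
      constructor
      · intro hy
        rw [hxy y hy]; exact hy
      · intro hy
        have h7 := hxy _ hy
        have h8 : x * y * x⁻¹ = y := by
          have h9 : x * (x * y * x⁻¹) = (x * y * x⁻¹) * x := by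
            calc x * (x * y * x⁻¹) = (x * (x * y * x⁻¹) * x⁻¹) * x := by group
              _ = (x * y * x⁻¹) * x := by rw [h7]
          have h10 : x * y = y * x := by
            have : x * (x * y) * x⁻¹ = x * y * x⁻¹ * x := by
              calc x * (x * y) * x⁻¹ = x * (x * y * x⁻¹) := by group
                _ = _ := h9
            calc x * y = x⁻¹ * (x * (x * y) * x⁻¹) * x := by group
              _ = x⁻¹ * (x * y * x⁻¹ * x) * x := by rw [this]
              _ = y * x := by group
          rw [h10]; group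
        rwa [h8] at hy
    have h11 : q ∣ r := by
      rw [← hcardQ, ← hcardR]
      exact Subgroup.card_dvd_of_le hQR
    have := (Nat.prime_dvd_prime_iff_eq hq hr).mp h11
    omega
  · -- counting
    have hNq : r ≤ Nat.card (Sylow q G) := by
      rcases Cfsg.Agent.Lib.SmallSimple.Count.eq_of_dvd_mul_prime hp hr hnq with h2 | h2 | h2 | h2
      · exact absurd h2 h1q
      · rw [h2, Nat.mod_eq_of_lt (by omega)] at hmodq
        omega
      · omega
      · rw [h2]; exact Nat.le_mul_of_pos_left _ hp.pos
    obtain ⟨a, rfl⟩ : ∃ a, p = a + 1 := ⟨p - 1, by omega⟩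
    obtain ⟨b, rfl⟩ : ∃ b, q = b + 1 := ⟨q - 1, by omega⟩
    obtain ⟨c, rfl⟩ : ∃ c, r = c + 1 := ⟨r - 1, by omega⟩
    simp only [Nat.add_sub_cancel] at hcount
    have h12 : (c + 1) * b ≤ Nat.card (Sylow (b + 1) G) * b := Nat.mul_le_mul_right _ hNq
    have h13 : (a + 1) * (b + 1) ≤ b * (b + 1) := Nat.mul_le_mul_right _ (by omega)
    have h14 : (b + 2) * b ≤ (c + 1) * b := Nat.mul_le_mul_right _ (by omega)
    nlinarith

end Cfsg.Agent.S0987
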