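import Cfsg.Statements.S0988
import Cfsg.Agent.Lib.SmallSimple.P2QR
-- import your own Cfsg.Agent.* helpers here

set_option autoImplicit false
open Cfsg

namespace Cfsg.Agent.S0988

/-- If a finite simple group has order p^2 * q * r with p, q and r prime, then its order is 60. -/
theorem result {G : Type*} [Group G] [Finite G] [IsSimpleGroup G] (p q r : ℕ) (hp : p.Prime) (hq : q.Prime) (hr : r.Prime) (hG : Nat.card G = p ^ 2 * q * r) : Nat.card G = 60 := by
  exact Cfsg.Agent.Lib.SmallSimple.P2QR.main p q r hp hq hr hG

end Cfsg.Agent.S0988
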