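import Cfsg.Statements.S0989
import Cfsg.Agent.Lib.Small.Sieve
import Cfsg.Agent.Lib.SmallSimple.Count
-- import your own Cfsg.Agent.* helpers here

set_option autoImplicit false
open Cfsg

namespace Cfsg.Agent.S0989

/-- In the symmetric group on p or p + 1 letters, p a prime, the normalizer of a Sylow p-subgroup has order p * (p - 1). -/
theorem result {α : Type*} [Fintype α] [DecidableEq α] (p : ℕ) [Fact p.Prime] (hα : Fintype.card α = p ∨ Fintype.card α = p + 1) (P : Sylow p (Equiv.Perm α)) : Nat.card ↥(Subgroup.normalizer ((P : Subgroup (Equiv.Perm α)) : Set (Equiv.Perm α))) = p * (p - 1) := by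
  classical
  have hp := (Fact.out : p.Prime)
  have hp2 := hp.two_le
  set n := Fintype.card α with hn
  have hnp : n - p ≤ 1 := by omega
  have hpn : p ≤ n := by omega
  have hfact : n.factorial = p ^ 1 * (n.factorial / p) := by
    rw [pow_one, Nat.mul_div_cancel' ((Nat.Prime.dvd_factorial hp).mpr hpn)]
  have hnotdvd : ¬ p ∣ n.factorial / p := by
    intro hd
    have h1 : p * p ∣ n.factorial := by
      have := Nat.mul_dvd_mul_left p hd
      rwa [Nat.mul_div_cancel' ((Nat.Prime.dvd_factorial hp).mpr hpn)] at this
    rcases hα with h | h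
    · have h2 : n = p := h
      rw [h2, ← Nat.mul_factorial_pred (by omega : p ≠ 0)] at h1
      have h3 : p ∣ (p - 1).factorial := Nat.dvd_of_mul_dvd_mul_left hp.pos h1
      have := (Nat.Prime.dvd_factorial hp).mp h3
      omega
    · have h2 : n = p + 1 := h
      rw [h2, Nat.factorial_succ, ← Nat.mul_factorial_pred (by omega : p ≠ 0)] at h1
      have h3 : p * p ∣ p * ((p + 1) * (p - 1).factorial) := by
        have h4 : p * ((p + 1) * (p - 1).factorial) = (p + 1) * (p * (p - 1).factorial) := by ring
        rwa [h4]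
      have h5 : p ∣ (p + 1) * (p - 1).factorial := Nat.dvd_of_mul_dvd_mul_left hp.pos h3
      rcases (Nat.Prime.dvd_mul hp).mp h5 with h6 | h6
      · have h7 : p ∣ 1 := (Nat.dvd_add_right (dvd_refl p)).mp h6
        have := Nat.le_of_dvd (by norm_num) h7
        omega
      · have := (Nat.Prime.dvd_factorial hp).mp h6
        omega
  have hcardG : Nat.card (Equiv.Perm α) = p ^ 1 * (n.factorial / p) := by
    rw [Nat.card_eq_fintype_card, Fintype.card_perm, ← hfact]
  have hcardP : Nat.card (P : Subgroup (Equiv.Perm α)) = p := by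
    simpa using Cfsg.Agent.Lib.Small.Sieve.card_sylow_eq hcardG hnotdvd P
  have hcount := Cfsg.Agent.Lib.SmallSimple.Count.card_orderOf_eq_of_card_sylow P hcardP
  have hcycle : Nat.card {g : Equiv.Perm α // orderOf g = p} =
      (Finset.univ.filter (fun g : Equiv.Perm α => g.cycleType = {p})).card := by
    rw [Nat.card_eq_fintype_card, Fintype.card_subtype]
    congr 1
    ext g
    simp only [Finset.mem_filter, Finset.mem_univ, true_and]
    constructor
    · intro hg
      have h1 : g.IsCycle := Equiv.Perm.isCycle_of_prime_order' (by rw [hg]; exact hp) (by rw [hg, ← hn]; omega)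
      rw [h1.cycleType, ← h1.orderOf, hg]
    · intro hg
      rw [← Equiv.Perm.lcm_cycleType, hg]
      simp
  have hform := Equiv.Perm.card_of_cycleType_mul_eq α ({p} : Multiset ℕ)
  simp only [Multiset.sum_singleton, Multiset.prod_singleton, Multiset.mem_singleton, forall_eq,
    Multiset.toFinset_singleton, Finset.prod_singleton, Multiset.count_singleton_self,
    Nat.factorial_one, mul_one] at hform
  rw [if_pos ⟨hpn, hp2⟩] at hform
  have hfac1 : (n - p).factorial = 1 := by
    interval_cases h : n - p <;> rfl
  rw [hfac1, one_mul] at hform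
  have hnorm := Cfsg.Agent.Lib.SmallSimple.Count.card_sylow_mul_card_normalizer P
  rw [Nat.card_eq_fintype_card (α := Equiv.Perm α), Fintype.card_perm, ← hn] at hnorm
  rw [hcycle] at hcount
  rw [hcount] at hform
  rw [← hform] at hnorm
  have hpos : 0 < Nat.card (Sylow p (Equiv.Perm α)) := Nat.card_pos
  have h9 : Nat.card (Sylow p (Equiv.Perm α)) *
      Nat.card ↥(Subgroup.normalizer (((P : Subgroup (Equiv.Perm α)) : Set (Equiv.Perm α)))) =
      Nat.card (Sylow p (Equiv.Perm α)) * (p * (p - 1)) := by
    rw [hnorm]; ring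
  exact Nat.eq_of_mul_eq_mul_left hpos h9

end Cfsg.Agent.S0989
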