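import Cfsg.Statements.S0990
import Mathlib.Tactic
-- import your own Cfsg.Agent.* helpers here

set_option autoImplicit false
open Cfsg

namespace Cfsg.Agent.S0990

/-- Let p be an odd prime and P a Sylow p-subgroup of the symmetric group on a finite set with at least two elements. Then P is contained in the alternating group, and twice the order of the normalizer of P inside the alternating group equals the order of the normalizer of P in the symmetric group. -/
theorem result {α : Type*} [Fintype α] [DecidableEq α] (hα : 2 ≤ Fintype.card α) (p : ℕ) [Fact p.Prime] (hp : p ≠ 2) (P : Sylow p (Equiv.Perm α)) : (P : Subgroup (Equiv.Perm α)) ≤ alternatingGroup α ∧ 2 * Nat.card ↥(Subgroup.normalizer ((((P : Subgroup (Equiv.Perm α)).subgroupOf (alternatingGroup α) : Subgroup ↥(alternatingGroup α)) : Set ↥(alternatingGroup α)))) = Nat.card ↥(Subgroup.normalizer ((P : Subgroup (Equiv.Perm α)) : Set (Equiv.Perm α))) := by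
  classical
  have : Nontrivial α := Fintype.one_lt_card_iff_nontrivial.mp (by omega)
  have hpp := (Fact.out : p.Prime)
  have hP : (P : Subgroup (Equiv.Perm α)) ≤ alternatingGroup α := by
    intro g hg
    rw [Equiv.Perm.mem_alternatingGroup]
    obtain ⟨k, hk⟩ := (IsPGroup.iff_orderOf.mp P.isPGroup') ⟨g, hg⟩
    have h1 : g ^ (p ^ k) = 1 := by
      have := pow_orderOf_eq_one (⟨g, hg⟩ : (P : Subgroup (Equiv.Perm α)))
      rw [hk] at this
      simpa using congrArg Subtype.val this
    have h2 : (Equiv.Perm.sign g) ^ (p ^ k) = 1 := by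
      rw [← map_pow, h1, map_one]
    have hodd : Odd (p ^ k) := (hpp.odd_of_ne_two hp).pow
    rcases Int.units_eq_one_or (Equiv.Perm.sign g) with h3 | h3
    · exact h3
    · rw [h3, hodd.neg_one_pow] at h2
      exact absurd h2 (by decide)
  refine ⟨hP, ?_⟩
  set A := alternatingGroup α with hAdef
  set N := Subgroup.normalizer ((P : Subgroup (Equiv.Perm α)) : Set (Equiv.Perm α)) with hN
  have hA2 : A.index = 2 := alternatingGroup.index_eq_two
  have hAn : A.Normal := by rw [hAdef, alternatingGroup_eq_sign_ker]; infer_instance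
  have hfr : N ⊔ A = ⊤ := Sylow.normalizer_sup_eq_top' P hP
  have hrel : (A.subgroupOf N).index = 2 := by
    have h := Subgroup.relIndex_sup_right (H := N) (K := A)
    rw [hfr, Subgroup.relIndex_top_right, hA2] at h
    exact h.symm
  have hcard : Nat.card ↥(A.subgroupOf N) * 2 = Nat.card ↥N := by
    rw [← hrel, Subgroup.card_mul_index]
  rw [← hcard, mul_comm]
  congr 1
  refine Nat.card_congr ?_
  -- membership in the two normalizers
  have hmem : ∀ x : A, x ∈ Subgroup.normalizer
      ((((P : Subgroup (Equiv.Perm α)).subgroupOf A : Subgroup ↥A)) : Set ↥A) ↔ (x : Equiv.Perm α) ∈ N := by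
    intro x
    rw [Subgroup.mem_set_normalizer_iff, hN, Subgroup.mem_set_normalizer_iff]
    constructor
    · intro h y
      by_cases hy : y ∈ A
      · exact h ⟨y, hy⟩
      · constructor
        · intro hyP
          exact absurd (hP hyP) hy
        · intro hyP
          exfalso
          apply hy
          have h3 := hP hyP
          have h4 : (x : Equiv.Perm α)⁻¹ * ((x : Equiv.Perm α) * y * (x : Equiv.Perm α)⁻¹) * (x : Equiv.Perm α) = y := by group
          rw [← h4]
          exact A.mul_mem (A.mul_mem (A.inv_mem x.2) h3) x.2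
    · intro h y
      exact h (y : Equiv.Perm α)
  exact
    { toFun := fun x => ⟨⟨x.1.1, (hmem x.1).mp x.2⟩, x.1.2⟩
      invFun := fun x => ⟨⟨x.1.1, x.2⟩, (hmem ⟨x.1.1, x.2⟩).mpr x.1.2⟩
      left_inv := fun x => rfl
      right_inv := fun x => rfl }

end Cfsg.Agent.S0990
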