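import Cfsg.Statements.S0992
import Cfsg.Agent.Lib.Small.Sieve
-- import your own Cfsg.Agent.* helpers here

set_option autoImplicit false
open Cfsg

namespace Cfsg.Agent.S0992

/-- Let G be a non-abelian finite simple group of even order not divisible by 8, and T a Sylow 2-subgroup. Then T is a Klein four-group and the centralizer of T has index 3 in the normalizer of T. -/
theorem result {G : Type*} [Group G] [Finite G] [IsSimpleGroup G] (hG : ¬ IsMulCommutative G) (h2 : Even (Nat.card G)) (h8 : ¬ 8 ∣ Nat.card G) (T : Sylow 2 G) : IsKleinFour ↥(T : Subgroup G) ∧ (Subgroup.centralizer ((T : Subgroup G) : Set G)).relIndex (Subgroup.normalizer ((T : Subgroup G) : Set G)) = 3 := by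
  classical
  have hp2 : Nat.Prime 2 := Nat.prime_two
  have hdvd2 : 2 ∣ Nat.card G := h2.two_dvd
  have hcardT : ∃ k, Nat.card ↥(T : Subgroup G) = 2 ^ k ∧ 1 ≤ k ∧ k ≤ 2 := by
    refine ⟨(Nat.card G).factorization 2, T.card_eq_multiplicity, ?_, ?_⟩
    · exact (Nat.Prime.dvd_iff_one_le_factorization hp2 (Nat.card_pos.ne')).mp hdvd2
    · by_contra hcon
      apply h8
      have h3 : 3 ≤ (Nat.card G).factorization 2 := by omega
      have := (hp2.pow_dvd_iff_le_factorization (Nat.card_pos.ne')).mpr h3
      simpa using this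
  obtain ⟨k, hk, hk1, hk2⟩ := hcardT
  have hBurn := Cfsg.Agent.Lib.Small.Basic.normalizer_not_le_centralizer hG 2 hdvd2 T
  -- parity of the index
  have hodd : ¬ 2 ∣ (T : Subgroup G).relIndex (Subgroup.normalizer ((T : Subgroup G) : Set G)) := by
    intro hd
    apply T.not_dvd_index
    rw [← Subgroup.relIndex_mul_index (Subgroup.le_normalizer (H := (T : Subgroup G)))]
    exact Dvd.dvd.mul_right hd _
  have hnoncyc : ¬ IsCyclic ↥(T : Subgroup G) := by
    intro hcyc
    apply hBurn
    have htot : Nat.Coprime ((T : Subgroup G).relIndex (Subgroup.normalizer ((T : Subgroup G) : Set G)))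
        (Nat.totient (Nat.card ↥(T : Subgroup G))) := by
      rw [hk]
      have hpow : Nat.totient (2 ^ k) = 2 ^ (k - 1) := by
        rw [Nat.totient_prime_pow hp2 (by omega)]
        simp
      rw [hpow]
      apply Nat.Coprime.pow_right
      exact ((Nat.Prime.coprime_iff_not_dvd hp2).mpr hodd).symm
    apply Cfsg.Agent.Lib.Small.Sieve.normalizer_le_centralizer_of_coprime hcyc _ _ htot
    have h5 := ((T : Subgroup G).subgroupOf (Subgroup.normalizer ((T : Subgroup G) : Set G))).card_mul_index
    rw [Nat.card_congr (Subgroup.subgroupOfEquivOfLe Subgroup.le_normalizer).toEquiv] at h5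
    exact h5.symm
  have hk2' : k = 2 := by
    by_contra hne
    have hk1' : k = 1 := by omega
    subst hk1'
    apply hnoncyc
    apply isCyclic_of_prime_card (p := 2)
    simpa using hk
  subst hk2'
  have hcard4 : Nat.card ↥(T : Subgroup G) = 4 := by simpa using hk
  have hnontriv : Nontrivial ↥(T : Subgroup G) := by
    apply Finite.one_lt_card_iff_nontrivial.mp
    omega
  have hKlein : IsKleinFour ↥(T : Subgroup G) := by
    refine ⟨hcard4, ?_⟩
    rw [Monoid.exponent_eq_prime_iff hp2]
    intro g hg
    have h3 : orderOf g ∣ 4 := by rw [← hcard4]; exact orderOf_dvd_natCard g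
    have h4 : orderOf g ≠ 4 := by
      intro h5
      exact hnoncyc (isCyclic_of_orderOf_eq_card g (by rw [h5, hcard4]))
    have h5 : orderOf g ≠ 1 := by
      intro h6
      exact hg (orderOf_eq_one_iff.mp h6)
    have h6 : orderOf g ≤ 4 := Nat.le_of_dvd (by norm_num) h3
    interval_cases h7 : orderOf g <;> simp_all
  refine ⟨hKlein, ?_⟩
  -- automorphisms of a group of order four
  have hAut : Nat.card (MulAut ↥(T : Subgroup G)) ∣ 6 := by
    let K := ↥(T : Subgroup G)
    let φ : MulAut K →* Equiv.Perm {k : K // k ≠ 1} :=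
      { toFun := fun f => f.toEquiv.subtypeEquiv (fun a => by
          simp)
        map_one' := by ext; rfl
        map_mul' := fun f g => by ext; rfl }
    have hφ : Function.Injective φ := by
      intro f g hfg
      ext x
      by_cases hx : x = 1
      · subst hx; simp
      · have := congrArg (fun e => ((e ⟨x, hx⟩ : {k : K // k ≠ 1}) : K)) hfg
        exact congrArg Subtype.val this
    have h1 := Subgroup.card_dvd_of_injective φ hφ
    have h2 : Nat.card (Equiv.Perm {k : K // k ≠ 1}) = 6 := by
      have h3 : Nat.card {k : K // k ≠ 1} = 3 := by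
        have := Fintype.ofFinite K
        rw [Nat.card_eq_fintype_card, Fintype.card_subtype_compl]
        simp only [Fintype.card_unique]
        rw [← Nat.card_eq_fintype_card]
        show Nat.card ↥(T : Subgroup G) - 1 = 3
        omega
      rw [Nat.card_perm, h3]
      rfl
    rwa [h2] at h1
  set N := Subgroup.normalizer ((T : Subgroup G) : Set G) with hN
  set C := Subgroup.centralizer ((T : Subgroup G) : Set G) with hC
  have hdvd6 : C.relIndex N ∣ 6 := by
    have key := Subgroup.card_dvd_of_injective _
      (QuotientGroup.kerLift_injective (T : Subgroup G).normalizerMonoidHom)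
    rw [Subgroup.normalizerMonoidHom_ker, ← Subgroup.index, ← Subgroup.relIndex] at key
    exact key.trans hAut
  have hTC : (T : Subgroup G) ≤ C := by
    intro a ha
    rw [hC, Subgroup.mem_centralizer_iff]
    intro b hb
    have hc := hKlein.isMulCommutative
    have h1 : (⟨b, hb⟩ : ↥(T : Subgroup G)) * ⟨a, ha⟩ = ⟨a, ha⟩ * ⟨b, hb⟩ := mul_comm' _ _
    exact congrArg Subtype.val h1
  have hnot2 : ¬ 2 ∣ C.relIndex N := fun hd =>
    hodd (hd.trans (Subgroup.relIndex_dvd_of_le_left N hTC))
  have hne1 : C.relIndex N ≠ 1 := by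
    intro h1
    exact hBurn (Subgroup.relIndex_eq_one.mp h1)
  have hle := Nat.le_of_dvd (by norm_num) hdvd6
  have h0 : C.relIndex N ≠ 0 := by
    intro h0
    rw [h0] at hdvd6
    simp at hdvd6
  interval_cases h9 : C.relIndex N <;> simp_all <;> omega

end Cfsg.Agent.S0992
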