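import Cfsg.Statements.S0995
import Cfsg.Agent.Lib.SelfCent.Basic
import Mathlib.Tactic
-- import your own Cfsg.Agent.* helpers here

set_option autoImplicit false
open Cfsg

namespace Cfsg.Agent.S0995

/-- Let G be a finite perfect group containing an element z of prime order p whose centralizer is the cyclic group it generates. Let t be the number of conjugacy classes of elements of order p. Then t divides p - 1, the number of Sylow p-subgroups has the form 1 + n * p, and |G| * t = (p - 1) * p * (1 + n * p). -/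
theorem result {G : Type*} [Group G] [Finite G] (hperf : commutator G = ⊤) (p : ℕ) [Fact p.Prime] (z : G) (hz : orderOf z = p) (hC : Subgroup.centralizer ({z} : Set G) = Subgroup.zpowers z) : ∃ n t : ℕ, t = Nat.card {c : ConjClasses G // ∃ g : G, ConjClasses.mk g = c ∧ orderOf g = p} ∧ t ∣ p - 1 ∧ Nat.card (Sylow p G) = 1 + n * p ∧ Nat.card G * t = (p - 1) * p * (1 + n * p) := by
  classical
  have hp := (Fact.out : p.Prime)
  obtain ⟨P, hP⟩ := Cfsg.Agent.Lib.SelfCent.Basic.exists_sylow hp hz hC
  have h1 := Cfsg.Agent.Lib.SelfCent.Basic.card_classes_mul_relIndex hp hz hC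
  have ht : Nat.card {C : ConjClasses G // ∃ g ∈ C.carrier, orderOf g = p} =
      Nat.card {c : ConjClasses G // ∃ g : G, ConjClasses.mk g = c ∧ orderOf g = p} := by
    apply Nat.card_congr
    apply Equiv.subtypeEquivRight
    intro C
    constructor
    · rintro ⟨g, hg, hog⟩
      exact ⟨g, ConjClasses.mem_carrier_iff_mk_eq.mp hg, hog⟩
    · rintro ⟨g, hg, hog⟩
      exact ⟨g, ConjClasses.mem_carrier_iff_mk_eq.mpr hg, hog⟩
  rw [ht] at h1
  set t := Nat.card {c : ConjClasses G // ∃ g : G, ConjClasses.mk g = c ∧ orderOf g = p} with htdef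
  set N := Subgroup.normalizer ((Subgroup.zpowers z : Subgroup G) : Set G) with hN
  set r := (Subgroup.zpowers z).relIndex N with hr
  have hmod := card_sylow_modEq_one p G
  have hsyl : Nat.card (Sylow p G) = N.index := by
    rw [hN, ← hP]
    exact P.card_eq_index_normalizer
  have hNcard : Nat.card N = p * r := by
    have h2 := ((Subgroup.zpowers z).subgroupOf N).card_mul_index
    rw [Nat.card_congr (Subgroup.subgroupOfEquivOfLe Subgroup.le_normalizer).toEquiv,
      Cfsg.Agent.Lib.SelfCent.Basic.card_zpowers_eq hz] at h2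
    exact h2.symm
  have hG : Nat.card G = Nat.card (Sylow p G) * (p * r) := by
    rw [hsyl, ← hNcard, mul_comm]
    exact (Subgroup.card_mul_index N).symm
  -- the number `n`
  have hge : 1 ≤ Nat.card (Sylow p G) := Nat.card_pos
  have hdvd : p ∣ Nat.card (Sylow p G) - 1 := (Nat.modEq_iff_dvd' hge).mp hmod.symm
  obtain ⟨n, hn⟩ := hdvd
  have hsyl2 : Nat.card (Sylow p G) = 1 + n * p := by
    rw [mul_comm n p, ← hn]; omega
  refine ⟨n, t, rfl, ⟨r, h1.symm⟩, hsyl2, ?_⟩
  rw [hG, hsyl2, ← h1]
  ring

end Cfsg.Agent.S0995
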