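import Cfsg.Statements.S1001
import Cfsg.Agent.S0904
import Cfsg.Agent.S0144
-- import your own Cfsg.Agent.* helpers here

set_option autoImplicit false
open Cfsg

namespace Cfsg.Agent.S1001


open Cfsg



/-- In a finite simple group whose order has the form p * 3^a * 2^b with p prime, the centralizer of any element of order p is the cyclic group it generates. -/
theorem result {G : Type*} [Group G] [Finite G] [IsSimpleGroup G] (p a b : ℕ) (hp : p.Prime) (hG : Nat.card G = p * 3 ^ a * 2 ^ b) (x : G) (hx : orderOf x = p) : Subgroup.centralizer ({x} : Set G) = Subgroup.zpowers x := by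
  classical
  have h3 : Nat.Prime 3 := Nat.prime_three
  have h2 : Nat.Prime 2 := Nat.prime_two
  by_cases hp23 : p = 2 ∨ p = 3
  · -- the order has two prime factors: `G` is solvable, of prime order
    have hsol : Group.IsSolvable G := by
      rcases hp23 with rfl | rfl
      · exact Cfsg.Agent.S0144.result 3 2 a (b + 1) h3 h2 (by rw [hG]; ring)
      · exact Cfsg.Agent.S0144.result 3 2 (a + 1) b h3 h2 (by rw [hG]; ring)
    have hcomm : ∀ u v : G, u * v = v * u := by
      have := IsSimpleGroup.comm_iff_isSolvable (G := G)
      exact this.2 hsol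
    letI : CommGroup G := { (inferInstance : Group G) with mul_comm := hcomm }
    have hprime : (Nat.card G).Prime := IsSimpleGroup.prime_card
    have h1 : orderOf x = Nat.card G := by
      have hd : orderOf x ∣ Nat.card G := orderOf_dvd_natCard x
      rcases (Nat.dvd_prime hprime).1 hd with h | h
      · exact absurd (hx ▸ h) hp.one_lt.ne'
      · exact h
    have htop : Subgroup.zpowers x = ⊤ := by
      apply Subgroup.eq_top_of_card_eq
      rw [Nat.card_zpowers, h1]
    rw [htop, eq_top_iff]
    intro y _
    rw [Subgroup.mem_centralizer_singleton_iff]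
    exact hcomm y x
  · push Not at hp23
    obtain ⟨hp2, hp3⟩ := hp23
    haveI : Fact p.Prime := ⟨hp⟩
    have hz : IsPGroup p (Subgroup.zpowers x) := by
      refine IsPGroup.of_card (n := 1) ?_
      rw [Nat.card_zpowers, hx, pow_one]
    obtain ⟨S, hS⟩ := hz.exists_le_sylow
    have hcardS : Nat.card S = p := by
      have hcop : ¬ p ∣ 3 ^ a * 2 ^ b := by
        intro h
        rcases (Nat.Prime.dvd_mul hp).1 h with h | h
        · exact hp3 ((Nat.prime_dvd_prime_iff_eq hp h3).1 (hp.dvd_of_dvd_pow h))
        · exact hp2 ((Nat.prime_dvd_prime_iff_eq hp h2).1 (hp.dvd_of_dvd_pow h))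
      have hdvd : Nat.card S ∣ Nat.card G := Subgroup.card_subgroup_dvd_card _
      have hfact : (Nat.card G).factorization p = 1 := by
        rw [hG, mul_assoc, Nat.factorization_mul hp.ne_zero (by positivity)]
        simp only [Finsupp.coe_add, Pi.add_apply, hp.factorization_self]
        rw [Nat.factorization_eq_zero_of_not_dvd hcop]
      have := S.card_eq_multiplicity
      rw [this, hfact, pow_one]
    have hSeq : (S : Subgroup G) = Subgroup.zpowers x := by
      symm
      apply Subgroup.eq_of_le_of_card_ge hS
      rw [hcardS, Nat.card_zpowers, hx]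
    have hc := Cfsg.Agent.S0904.result 3 2 p a b h3 h2 (by norm_num) (Ne.symm hp3) (Ne.symm hp2) (by rw [hG]; ring) S
    rw [hSeq] at hc
    apply le_antisymm
    · rw [← hc]
      intro y hy
      rw [Subgroup.mem_centralizer_singleton_iff] at hy
      rw [Subgroup.mem_centralizer_iff]
      intro g hg
      have hg' : g ∈ (S : Subgroup G) := hg
      rw [hSeq] at hg'
      obtain ⟨k, rfl⟩ := Subgroup.mem_zpowers_iff.1 hg'
      exact ((Commute.zpow_right (show Commute y x from hy) k).eq).symm
    · rw [Subgroup.zpowers_le, Subgroup.mem_centralizer_singleton_iff]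

end Cfsg.Agent.S1001
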