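import Cfsg.Statements.S1002
import Cfsg.Agent.Lib.ExcP.KillSylow
-- import your own Cfsg.Agent.* helpers here

set_option autoImplicit false
open Cfsg

namespace Cfsg.Agent.S1002

/-- No finite simple group has order 1004913 = 3^3 * 7 * 13 * 409. -/
theorem result {G : Type*} [Group G] [Finite G] [IsSimpleGroup G] : Nat.card G ≠ 1004913 := by
  intro hN
  have hG : ¬ IsMulCommutative G := Cfsg.Agent.Lib.Small.Basic.not_comm_of_not_prime (by rw [hN]; norm_num)
  have : Fact (Nat.Prime 409) := ⟨by norm_num⟩
  have h1 := Cfsg.Agent.Lib.Small.Sieve.card_sylow_mem_candidates (G := G) (p := 409) hG hN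
    (N := 1004913) (k := 1) (m := 2457) (by norm_num) (by norm_num) (by norm_num)
  have h2 : Cfsg.Agent.Lib.Small.Sieve.candidates 1004913 409 1 2457 = [819] := by decide +kernel
  rw [h2, List.mem_singleton] at h1
  exact Cfsg.Agent.Lib.ExcP.KillSylow.false_of_prime_index (G := G) (p := 409) (e := 3) (m := 2457)
    hG hN (by norm_num) (by norm_num) (by rw [h1]) (by norm_num) (by norm_num) (by decide +kernel)

end Cfsg.Agent.S1002
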