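import Cfsg.Statements.S1009
import Mathlib.Tactic
-- import your own Cfsg.Agent.* helpers here

set_option autoImplicit false
open Cfsg

namespace Cfsg.Agent.S1009

/-- Brodkey's Theorem: if a finite group has abelian Sylow p-subgroups, then there are two Sylow p-subgroups whose intersection equals the intersection of all Sylow p-subgroups. -/
theorem result {G : Type*} [Group G] [Finite G] (p : ℕ) [Fact p.Prime] (hab : ∀ P : Sylow p G, IsMulCommutative ↥(P : Subgroup G)) : ∃ P Q : Sylow p G, (P : Subgroup G) ⊓ (Q : Subgroup G) = ⨅ R : Sylow p G, (R : Subgroup G) := by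
  classical
  have hc : ∀ (R : Sylow p G) (a b : G), a ∈ (R : Subgroup G) → b ∈ (R : Subgroup G) →
      a * b = b * a := by
    intro R a b ha hb
    have := (hab R).is_comm.comm ⟨a, ha⟩ ⟨b, hb⟩
    exact congrArg Subtype.val this
  -- a pair with the intersection of minimal order
  obtain ⟨⟨P₀, Q₀⟩, hmin⟩ := Finite.exists_min
    (fun x : Sylow p G × Sylow p G => Nat.card ↥((x.1 : Subgroup G) ⊓ (x.2 : Subgroup G)))
  have hmin' : ∀ A B : Sylow p G,
      Nat.card ↥((P₀ : Subgroup G) ⊓ (Q₀ : Subgroup G)) ≤
        Nat.card ↥((A : Subgroup G) ⊓ (B : Subgroup G)) := fun A B => hmin (A, B)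
  set m := Nat.card ↥((P₀ : Subgroup G) ⊓ (Q₀ : Subgroup G)) with hm
  -- the key claim
  have key : ∀ P Q T : Sylow p G, Nat.card ↥((P : Subgroup G) ⊓ (Q : Subgroup G)) = m →
      (P : Subgroup G) ⊓ (Q : Subgroup G) ≤ (T : Subgroup G) := by
    by_contra hcon
    push_neg at hcon
    obtain ⟨P₁, Q₁, T₁, h1, h2⟩ := hcon
    let X := {x : Sylow p G × Sylow p G × Sylow p G //
      Nat.card ↥((x.1 : Subgroup G) ⊓ (x.2.1 : Subgroup G)) = m ∧
        ¬ ((x.1 : Subgroup G) ⊓ (x.2.1 : Subgroup G) ≤ (x.2.2 : Subgroup G))}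
    haveI : Nonempty X := ⟨⟨(P₁, Q₁, T₁), h1, h2⟩⟩
    obtain ⟨⟨⟨P, Q, T⟩, hPQ, hT⟩, hmax⟩ := Finite.exists_max
      (fun x : X => Nat.card ↥((x.1.1 : Subgroup G) ⊓ (x.1.2.2 : Subgroup G)))
    simp only at hPQ hT hmax
    -- the three intersections
    set D : Subgroup G := (P : Subgroup G) ⊓ (Q : Subgroup G) with hD
    set B : Subgroup G := (P : Subgroup G) ⊓ (T : Subgroup G) with hB
    set E : Subgroup G := (Q : Subgroup G) ⊓ (T : Subgroup G) with hE
    have hDP : D ≤ P := inf_le_left
    have hDQ : D ≤ Q := inf_le_right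
    have hBP : B ≤ P := inf_le_left
    have hBT : B ≤ T := inf_le_right
    have hEQ : E ≤ Q := inf_le_left
    have hET : E ≤ T := inf_le_right
    -- `E` centralizes `D ⊔ B`
    have hcomm : (D ⊔ B : Subgroup G) ≤ P := sup_le hDP hBP
    have hEcent : E ≤ Subgroup.centralizer ((D ⊔ B : Subgroup G) : Set G) := by
      rw [Subgroup.le_centralizer_iff]
      have : (D ⊔ B : Subgroup G) ≤ Subgroup.centralizer ((E : Subgroup G) : Set G) := by
        apply sup_le
        · intro d hd
          rw [Subgroup.mem_centralizer_iff]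
          intro e he
          exact hc Q e d (hEQ he) (hDQ hd)
        · intro b hb
          rw [Subgroup.mem_centralizer_iff]
          intro e he
          exact hc T e b (hET he) (hBT hb)
      exact this
    have hF : IsPGroup p ((D ⊔ B) ⊔ E : Subgroup G) := by
      apply IsPGroup.to_sup_of_normal_left'
      · exact (P.isPGroup').to_le hcomm
      · exact (Q.isPGroup').to_le hEQ
      · exact hEcent.trans (Subgroup.centralizer_le_normalizer _)
    obtain ⟨S, hS⟩ := hF.exists_le_sylow
    have hDS : D ≤ S := (le_sup_left.trans le_sup_left).trans hS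
    have hBS : B ≤ S := (le_sup_right.trans le_sup_left).trans hS
    have hES : E ≤ S := le_sup_right.trans hS
    -- `S` and `P` are conjugate in the centralizer of `D`
    have hPC : (P : Subgroup G) ≤ Subgroup.centralizer (D : Set G) := by
      intro x hx
      rw [Subgroup.mem_centralizer_iff]
      intro d hd
      exact hc P d x (hDP hd) hx
    have hSC : (S : Subgroup G) ≤ Subgroup.centralizer (D : Set G) := by
      intro x hx
      rw [Subgroup.mem_centralizer_iff]
      intro d hd
      exact hc S d x (hDS hd) hx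
    obtain ⟨h, hh⟩ := MulAction.exists_smul_eq (Subgroup.centralizer (D : Set G))
      (P.subtype hPC) (S.subtype hSC)
    have hhS : ((h : G) • P) = S := by
      have := hh
      rw [Sylow.smul_subtype] at this
      exact Sylow.subtype_injective this
    -- the new pair
    let Q' : Sylow p G := (h : G) • Q
    have hconj : (S : Subgroup G) ⊓ (Q' : Subgroup G) = D := by
      have h1 : (S : Subgroup G) = (P : Subgroup G).map (MulAut.conj (h : G)).toMonoidHom := by
        rw [← hhS]; rfl
      have h2 : (Q' : Subgroup G) = (Q : Subgroup G).map (MulAut.conj (h : G)).toMonoidHom := rfl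
      rw [h1, h2, ← Subgroup.map_inf _ _ _ (MulEquiv.injective _)]
      ext x
      simp only [Subgroup.mem_map]
      constructor
      · rintro ⟨d, hd, rfl⟩
        have : (h : G) * d * (h : G)⁻¹ = d := by
          have := (Subgroup.mem_centralizer_iff.mp h.2) d hd
          rw [← this]; simp
        show (MulAut.conj (h : G)) d ∈ D
        rw [MulAut.conj_apply, this]
        exact hd
      · intro hx
        refine ⟨x, hx, ?_⟩
        have := (Subgroup.mem_centralizer_iff.mp h.2) x hx
        show (MulAut.conj (h : G)) x = x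
        rw [MulAut.conj_apply, ← this]; simp
    have hmax2 := hmax ⟨(S, Q', T), by simpa [hconj] using hPQ, by simpa [hconj] using hT⟩
    simp only at hmax2
    -- but `S ⊓ T` is bigger than `P ⊓ T`
    have hle : (B ⊔ E : Subgroup G) ≤ (S : Subgroup G) ⊓ (T : Subgroup G) :=
      sup_le (le_inf hBS hBT) (le_inf hES hET)
    have hnotle : ¬ E ≤ B := by
      intro hEB
      have h3 : E ≤ D ⊓ (T : Subgroup G) :=
        le_inf (le_inf (hEB.trans hBP) hEQ) hET
      have h4 : Nat.card ↥E ≤ Nat.card ↥(D ⊓ (T : Subgroup G)) := Subgroup.card_le_of_le h3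
      have h5 : m ≤ Nat.card ↥E := hmin' Q T
      have h6 : Nat.card ↥(D ⊓ (T : Subgroup G)) ≤ Nat.card ↥D :=
        Subgroup.card_le_of_le inf_le_left
      have h7 : D ⊓ (T : Subgroup G) = D := by
        apply Subgroup.eq_of_le_of_card_ge inf_le_left
        rw [hPQ]
        omega
      exact hT (inf_eq_left.mp h7)
    have hlt : Nat.card ↥B < Nat.card ↥(B ⊔ E : Subgroup G) := by
      refine lt_of_le_of_ne (Subgroup.card_le_of_le le_sup_left) ?_
      intro heq
      have h8 : B = B ⊔ E := Subgroup.eq_of_le_of_card_ge le_sup_left heq.ge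
      exact hnotle (h8 ▸ le_sup_right)
    have := Subgroup.card_le_of_le hle
    omega
  refine ⟨P₀, Q₀, le_antisymm ?_ ?_⟩
  · apply le_iInf
    intro R
    exact key P₀ Q₀ R rfl
  · exact le_inf (iInf_le _ P₀) (iInf_le _ Q₀)

end Cfsg.Agent.S1009
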