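import Cfsg.Statements.S1014
import Cfsg.Agent.Lib.SmallSimple.Sign
-- import your own Cfsg.Agent.* helpers here

set_option autoImplicit false
open Cfsg

namespace Cfsg.Agent.S1014

/-- No finite simple group has order 1104 = 2^4 * 3 * 23. -/
theorem result {G : Type*} [Group G] [Finite G] [IsSimpleGroup G] : Nat.card G ≠ 1104 := by
  intro h
  classical
  have hG := Cfsg.Agent.Lib.Small.Basic.not_comm_of_not_prime (G := G) (by rw [h]; norm_num)
  have h23 : Fact (Nat.Prime 23) := ⟨by norm_num⟩
  have hN : Nat.card G = 23 ^ 1 * 48 := by rw [h]; norm_num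
  have hc := Cfsg.Agent.Lib.Small.Sieve.card_sylow_mem_candidates hG h (p := 23) (k := 1) (m := 48)
    (by norm_num) (by norm_num) (by norm_num)
  have hcand : Cfsg.Agent.Lib.Small.Sieve.candidates 1104 23 1 48 = [24] := by decide +kernel
  rw [hcand, List.mem_singleton] at hc
  obtain ⟨P⟩ : Nonempty (Sylow 23 G) := inferInstance
  have hcardP : Nat.card (P : Subgroup G) = 23 := by
    simpa using Cfsg.Agent.Lib.Small.Sieve.card_sylow_eq hN (by norm_num) P
  have hnorm : Nat.card (Subgroup.normalizer ((P : Subgroup G) : Set G)) = 46 := by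
    have h3 := Cfsg.Agent.Lib.SmallSimple.Count.card_sylow_mul_card_normalizer P
    rw [hc, h] at h3
    omega
  have h2f : Fact (Nat.Prime 2) := ⟨Nat.prime_two⟩
  obtain ⟨t', ht'⟩ := exists_prime_orderOf_dvd_card' (G := Subgroup.normalizer ((P : Subgroup G) : Set G)) 2
    (by rw [hnorm]; norm_num)
  set t : G := (t' : G) with ht
  have htN : t ∈ Subgroup.normalizer ((P : Subgroup G) : Set G) := t'.2
  have htord : orderOf t = 2 := by rw [ht, Subgroup.orderOf_coe]; exact ht'
  have ht2 : t ^ 2 = 1 := by rw [← htord]; exact pow_orderOf_eq_one t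
  have hBurn := Cfsg.Agent.Lib.Small.Basic.normalizer_not_le_centralizer hG 23 (by rw [h]; norm_num) P
  have hPC : (P : Subgroup G) ≤ Subgroup.centralizer ((P : Subgroup G) : Set G) := by
    have hcyc : IsCyclic ↥(P : Subgroup G) := isCyclic_of_prime_card hcardP
    intro x hx
    rw [Subgroup.mem_centralizer_iff]
    intro y hy
    have := mul_comm' (⟨y, hy⟩ : ↥(P : Subgroup G)) ⟨x, hx⟩
    exact congrArg Subtype.val this
  have htC : t ∉ Subgroup.centralizer ((P : Subgroup G) : Set G) := by
    intro htC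
    apply hBurn
    set C := Subgroup.centralizer ((P : Subgroup G) : Set G) with hC
    set N := Subgroup.normalizer ((P : Subgroup G) : Set G) with hNdef
    have h23d : 23 ∣ Nat.card ↥(C ⊓ N) := by
      rw [← hcardP]
      exact Subgroup.card_dvd_of_le (le_inf hPC Subgroup.le_normalizer)
    have h2d : 2 ∣ Nat.card ↥(C ⊓ N) := by
      rw [← htord, ← Nat.card_zpowers]
      exact Subgroup.card_dvd_of_le (by
        rw [Subgroup.zpowers_le]
        exact ⟨htC, htN⟩)
    have h46 : 46 ∣ Nat.card ↥(C ⊓ N) := by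
      have := Nat.Coprime.mul_dvd_of_dvd_of_dvd (by norm_num : Nat.Coprime 23 2) h23d h2d
      simpa using this
    have hle : Nat.card N ≤ Nat.card ↥(C ⊓ N) := by
      rw [hnorm]
      exact Nat.le_of_dvd Nat.card_pos h46
    have := Subgroup.eq_of_le_of_card_ge (inf_le_right : C ⊓ N ≤ N) hle
    exact inf_eq_right.mp this
  have hle2 := Cfsg.Agent.Lib.SmallSimple.Sign.card_fixedBy_le_two P hcardP (by simpa using hc)
    (by norm_num) htN ht2 htC
  have hpos : 0 < Nat.card (MulAction.fixedBy (Sylow 23 G) t) := by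
    have : Nonempty (MulAction.fixedBy (Sylow 23 G) t) :=
      ⟨⟨P, Sylow.smul_eq_iff_mem_normalizer.mpr htN⟩⟩
    exact Nat.card_pos
  have h4 := Cfsg.Agent.Lib.SmallSimple.Sign.four_dvd_card_sub_fixedBy hG (Ω := Sylow 23 G) t ht2
  rw [hc] at h4
  omega

end Cfsg.Agent.S1014
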