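import Cfsg.Statements.S1015
import Cfsg.Agent.Lib.SmallSimple.Inter
import Cfsg.Agent.S0985
-- import your own Cfsg.Agent.* helpers here

set_option autoImplicit false
open Cfsg

namespace Cfsg.Agent.S1015

/-- No finite simple group has order 1200 = 2^4 * 3 * 5^2. -/
theorem result {G : Type*} [Group G] [Finite G] [IsSimpleGroup G] : Nat.card G ≠ 1200 := by
  intro h
  classical
  have hG := Cfsg.Agent.Lib.Small.Basic.not_comm_of_not_prime (G := G) (by rw [h]; norm_num)
  have h5 : Fact (Nat.Prime 5) := ⟨by norm_num⟩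
  have hN : Nat.card G = 5 ^ 2 * 48 := by rw [h]; norm_num
  have hc := Cfsg.Agent.Lib.Small.Sieve.card_sylow_mem_candidates hG h (p := 5) (k := 2) (m := 48)
    (by norm_num) (by norm_num) (by norm_num)
  have hcand : Cfsg.Agent.Lib.Small.Sieve.candidates 1200 5 2 48 = [16] := by decide +kernel
  rw [hcand, List.mem_singleton] at hc
  obtain ⟨P, R, hPR, hidx⟩ := Cfsg.Agent.S0985.result (G := G) 5 2 (by rw [hc]; decide)
  have hcardS : ∀ Q : Sylow 5 G, Nat.card (Q : Subgroup G) = 5 ^ 2 := by
    intro Q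
    exact Cfsg.Agent.Lib.Small.Sieve.card_sylow_eq hN (by norm_num) Q
  -- order of the intersections
  have hinter : ∀ A B : Sylow 5 G, A ≠ B → Nat.card ↥((A : Subgroup G) ⊓ (B : Subgroup G)) ≤ 5 := by
    intro A B hAB
    have := Cfsg.Agent.Lib.SmallSimple.Inter.card_inf_le_of_ne hAB (hcardS A)
    simpa using this
  have hDcard : Nat.card ↥((P : Subgroup G) ⊓ (R : Subgroup G)) = 5 := by
    have h1 := ((R : Subgroup G).subgroupOf (P : Subgroup G)).card_mul_index
    rw [hcardS P, Cfsg.Agent.Lib.SmallSimple.Inter.card_subgroupOf, inf_comm] at h1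
    have h2 := hinter P R hPR
    have hidx' : ((R : Subgroup G).subgroupOf (P : Subgroup G)).index ≤ 5 := by simpa using hidx
    set a := Nat.card ↥((P : Subgroup G) ⊓ (R : Subgroup G))
    set b := ((R : Subgroup G).subgroupOf (P : Subgroup G)).index
    have h3 : 5 * b ≥ a * b := Nat.mul_le_mul_right _ h2
    have h4 : a * 5 ≥ a * b := Nat.mul_le_mul_left _ hidx'
    have ha5 : a ≥ 5 := by
      by_contra hcon
      have : a * 5 ≤ 4 * 5 := Nat.mul_le_mul_right _ (by omega)
      omega
    omega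
  have hmax : ∀ P' Q' : Sylow 5 G, P' ≠ Q' →
      Nat.card ↥((P' : Subgroup G) ⊓ (Q' : Subgroup G)) ≤
        Nat.card ↥((P : Subgroup G) ⊓ (R : Subgroup G)) := by
    intro P' Q' h'
    rw [hDcard]
    exact hinter P' Q' h'
  have hDne : (P : Subgroup G) ⊓ (R : Subgroup G) ≠ ⊥ := by
    intro hb
    rw [hb] at hDcard
    simp at hDcard
  obtain ⟨N, hNne, hNdef, hn1, hnmod, hfac⟩ :=
    Cfsg.Agent.Lib.SmallSimple.Inter.exists_index_normalizer_inf hG P R hPR hmax hDne
  have hPN : (P : Subgroup G) ≤ N := by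
    rw [hNdef]
    have hab : IsMulCommutative ↥(P : Subgroup G) :=
      IsPGroup.isMulCommutative_of_card_eq_prime_sq (hcardS P)
    intro x hx
    apply Subgroup.centralizer_le_normalizer
    rw [Subgroup.mem_centralizer_iff]
    intro d hd
    have := mul_comm' (⟨d, hd.1⟩ : ↥(P : Subgroup G)) ⟨x, hx⟩
    exact congrArg Subtype.val this
  obtain ⟨c, hcard⟩ := Cfsg.Agent.Lib.SmallSimple.Inter.exists_card_eq_of_le P N hPN
  have hmul := N.card_mul_index
  rw [hcard, hcardS P, h] at hmul
  set n := Nat.card (Sylow 5 ↥N)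
  set I := N.index
  have hn6 : 6 ≤ n := by omega
  have hI : I * (n * c) = 48 := by
    have : 5 ^ 2 * (n * c) * I = 25 * (I * (n * c)) := by ring
    omega
  have hc0 : 1 ≤ c := by
    rcases Nat.eq_zero_or_pos c with h0 | h0
    · subst h0
      simp at hI
    · exact h0
  have hI8 : I ≤ 8 := by
    by_contra hcon
    have : 9 * 6 ≤ I * (n * c) := Nat.mul_le_mul (by omega) (by nlinarith)
    omega
  have h8 : I.factorial ∣ Nat.factorial 8 := Nat.factorial_dvd_factorial hI8
  rw [h] at hfac
  have := hfac.trans h8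
  revert this
  decide

end Cfsg.Agent.S1015
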