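import Cfsg.Statements.S1061
import Cfsg.Agent.Lib.Chev.OrderData.D4
import Cfsg.Agent.Lib.Chev.Diag
import Cfsg.Agent.Lib.Chev.Tables2
import Cfsg.Agent.Lib.Chev.Tables
import Cfsg.Agent.Lib.Lie.AxOf
-- import your own Cfsg.Agent.* helpers here

set_option autoImplicit false
open Cfsg

namespace Cfsg.Agent.S1061

/-- `gcd(2, q-1)² · |D₄(q)| = q¹² (q² - 1)(q⁴ - 1)(q⁴ - 1)(q⁶ - 1)`. -/
theorem result {F : Type*} [Field F] [Fintype F] {q : ℕ} (hq : Fintype.card F = q) : Nat.gcd 2 (q - 1) ^ 2 * Nat.card ↥(Cfsg.Lie.chevD4.group F) = q ^ 12 * (q ^ 2 - 1) * (q ^ 4 - 1) * (q ^ 4 - 1) * (q ^ 6 - 1) := by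
  have hD : Cfsg.Lie.chevD4 ∈ [Cfsg.Lie.chevG2, Cfsg.Lie.chevB2, Cfsg.Lie.chevD4, Cfsg.Lie.chevF4, Cfsg.Lie.chevE6, Cfsg.Lie.chevE7, Cfsg.Lie.chevE8] := by simp
  have ax := Cfsg.Agent.Lib.Lie.AxOf.ax_of_mem (F := F) hD
  have hd := Cfsg.Agent.Lib.Chev.Diag.card_diagonal_final hq (Cfsg.Lie.chevD4, Nat.gcd 2 (q - 1) ^ 2) (by simp) ax
  have key := Cfsg.Agent.Lib.Chev.Order3.card_of_cert (Cfsg.Agent.Lib.Chev.Tables.tab_of_mem hD)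
    (Cfsg.Agent.Lib.Chev.Tables2.tab2_of_mem hD) ax Cfsg.Agent.Lib.Chev.OrderData.D4.cert (by decide) hq hd
  have hN : Cfsg.Lie.chevD4.nroots / 2 = 12 := by decide
  rw [hN] at key
  simp only [List.map_cons, List.map_nil, List.prod_cons, List.prod_nil, mul_one] at key

  rw [key]
  ring

end Cfsg.Agent.S1061
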