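import Cfsg.Statements.S1097
import Cfsg.Agent.Lib.Steinberg.Present

set_option autoImplicit false
open Cfsg

namespace Cfsg.Agent.S1097

/-- Any homomorphism from the presented group to the Chevalley group with `x̄_r(t) ↦ x_r(t)` has kernel contained in `H̄ = ⟨h̄_p(t) : p fundamental, t ≠ 0⟩`. -/
theorem result {K : Type*} [Field K] (D : Cfsg.Lie.ChevalleyDatum) (hD : D ∈ [Cfsg.Lie.chevG2, Cfsg.Lie.chevB2, Cfsg.Lie.chevD4, Cfsg.Lie.chevF4, Cfsg.Lie.chevE6, Cfsg.Lie.chevE7, Cfsg.Lie.chevE8]) (θ : D.SteinbergGroup K →* ↥(D.group K))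
    (hθ : ∀ (r : ℕ) (t : K), r < D.nroots → ((θ (D.stGen K r t) : GL D.Idx K) : Matrix D.Idx D.Idx K) = D.x K r t) :
    θ.ker ≤ Subgroup.closure {h | ∃ (i : ℕ) (t : K), i < D.rank ∧ t ≠ 0 ∧ h = PresentedGroup.mk (D.steinbergRels K) (D.stH (D.simple i) t)} := by
  intro g hg
  have ax := Cfsg.Agent.Lib.Lie.AxOf.ax_of_mem (F := K) hD
  let θ' : D.SteinbergGroup K →* GL D.Idx K := (D.group K).subtype.comp θ
  have hθ' : ∀ r t, r < D.nroots → θ' (Cfsg.Agent.Lib.Steinberg.Present.ySt D K r t) =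
      Cfsg.Agent.Lib.Chev.AxBasic.xG ax r t := fun r t hr => Units.ext (hθ r t hr)
  have h1 : θ' g = 1 := by
    simp only [θ', MonoidHom.comp_apply, MonoidHom.mem_ker.mp hg]
    rfl
  have := (Cfsg.Agent.Lib.Steinberg.Exch.ker_le hD Cfsg.Agent.Lib.Steinberg.Present.stRel_St ax θ' hθ'
    Cfsg.Agent.Lib.Steinberg.Present.gen_St h1).1
  rwa [Cfsg.Agent.Lib.Steinberg.Present.Hb_St_eq] at this

end Cfsg.Agent.S1097
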