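import Cfsg.Statements.S1118
import Cfsg.Agent.Lib.RankOne.Basic

set_option autoImplicit false
open Cfsg

namespace Cfsg.Agent.S1118

/-- In the rank-one set-up (`G` finite and doubly transitive on `Ω`, `t` an involution moving `a`, `Q` normal in `G_a` with `G_a = Q D`, `Q ⊓ D = 1` for the two-point stabiliser `D = G_a ⊓ G_{t • a}`, `|Q|` even, `|D|` odd), the normaliser of a subset of `Q` containing a non-identity element lies in `G_a`; consequently `N_G(Q) = N_G(G_a) = G_a`. -/
theorem result {G Ω : Type*} [Group G] [Finite G] [MulAction G Ω] {a : Ω} {t : G} {Q : Subgroup G}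
    (hS : Cfsg.IsRankOneSetup G Ω a t Q) :
    (∀ X : Set G, X ⊆ (Q : Set G) → (∃ x ∈ X, x ≠ 1) → Subgroup.normalizer X ≤ MulAction.stabilizer G a) ∧
      Subgroup.normalizer (Q : Set G) = MulAction.stabilizer G a ∧
      Subgroup.normalizer (MulAction.stabilizer G a : Set G) = MulAction.stabilizer G a := by
  open Cfsg.Agent.Lib.RankOne.Basic in
  have h1 : ∀ X : Set G, X ⊆ (Q : Set G) → (∃ x ∈ X, x ≠ 1) →
      Subgroup.normalizer X ≤ MulAction.stabilizer G a := by
    rintro X hX ⟨x, hx, hx1⟩ g hg
    have h := (Subgroup.mem_set_normalizer_iff.1 hg x).1 hx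
    have h2 : g * x * g⁻¹ ∈ Q := hX h
    have h3 : g * x * g⁻¹ ≠ 1 := by
      intro h4
      apply hx1
      have : x = g⁻¹ * (g * x * g⁻¹) * g := by group
      rw [this, h4]; group
    have h4 : x • a = a := hS.le (hX hx)
    have h5 : (g * x * g⁻¹) • (g • a) = g • a := by
      simp [mul_smul, h4]
    exact eq_a_of_fix hS h2 h3 h5
  open Cfsg.Agent.Lib.RankOne.Basic in
  obtain ⟨x, hx, hx1, hx2⟩ := Q_ne_bot hS
  have h2 : Subgroup.normalizer (Q : Set G) = MulAction.stabilizer G a := by
    apply le_antisymm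
    · exact h1 Q subset_rfl ⟨x, hx, hx1⟩
    · intro g hg
      rw [Subgroup.mem_set_normalizer_iff]
      intro n
      constructor
      · intro hn
        exact hS.conj_mem g hg n hn
      · intro hn
        have := hS.conj_mem g⁻¹ (inv_mem hg) _ hn
        have h : g⁻¹ * (g * n * g⁻¹) * g⁻¹⁻¹ = n := by group
        rwa [h] at this
  refine ⟨h1, h2, ?_⟩
  apply le_antisymm
  · intro g hg
    have h := (Subgroup.mem_set_normalizer_iff.1 hg x).1 (hS.le hx)
    have h3 : g * x * g⁻¹ ≠ 1 := by
      intro h4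
      apply hx1
      have : x = g⁻¹ * (g * x * g⁻¹) * g := by group
      rw [this, h4]; group
    -- `x` fixes `a`, so the conjugate fixes `g • a` and `a`
    by_contra hga
    have hga' : g • a ≠ a := hga
    -- `g x g⁻¹` lies in `G_a`, squares? use its fixed points
    have h4 : x • a = a := hS.le hx
    have h5 : (g * x * g⁻¹) • a = a := h
    have h6 : (g * x * g⁻¹) • (g • a) = g • a := by
      simp [mul_smul, h4]
    -- decompose `g x g⁻¹ = r d`, which has involution
    have h7 : (g * x * g⁻¹) * (g * x * g⁻¹) = 1 := by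
      have : (g * x * g⁻¹) * (g * x * g⁻¹) = g * (x * x) * g⁻¹ := by group
      rw [this, hx2]; group
    open Cfsg.Agent.Lib.RankOne.Basic in
    exact hga' (eq_a_of_invol_fix hS h5 h3 h7 h6)
  · exact Subgroup.le_normalizer

end Cfsg.Agent.S1118
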