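import Cfsg.Statements.S1119
import Cfsg.Agent.Lib.RankOne.Canon

set_option autoImplicit false
open Cfsg

namespace Cfsg.Agent.S1119

open Cfsg.Agent.Lib.RankOne.Basic Cfsg.Agent.Lib.RankOne.Canon

/-- In the rank-one set-up (`G` finite and doubly transitive on `Ω`, `t` an involution moving `a`, `Q` normal in `G_a` with `G_a = Q D`, `Q ⊓ D = 1` for the two-point stabiliser `D = G_a ⊓ G_{t • a}`, `|Q|` even, `|D|` odd): `Q` acts regularly on `Ω` minus `a`; hence `|Ω| = |Q| + 1`, `|G| = |Q| |D| (|Q| + 1)`, some Sylow 2-subgroup of `G` lies in `Q`, and each `g ∉ G_a` is uniquely `x t y` with `x ∈ G_a`, `y ∈ Q` (canonical form). -/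
theorem result {G Ω : Type*} [Group G] [Finite G] [MulAction G Ω] {a : Ω} {t : G} {Q : Subgroup G}
    (hS : Cfsg.IsRankOneSetup G Ω a t Q) :
    (∀ b c : Ω, b ≠ a → c ≠ a → ∃! x : Q, (x : G) • b = c) ∧
      Nat.card Ω = Nat.card Q + 1 ∧
      Nat.card G = Nat.card Q * Nat.card ↥(MulAction.stabilizer G a ⊓ MulAction.stabilizer G (t • a)) * (Nat.card Q + 1) ∧
      (∃ P : Sylow 2 G, (P : Subgroup G) ≤ Q) ∧
      ∀ g : G, g ∉ MulAction.stabilizer G a → ∃! p : G × G, p.1 ∈ MulAction.stabilizer G a ∧ p.2 ∈ Q ∧ g = p.1 * t * p.2 := by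
  have hcardGa : Nat.card (MulAction.stabilizer G a) = Nat.card Q * Nat.card (DD G a t) := by
    have hmemQ : ∀ r ∈ Q, r ∈ MulAction.stabilizer G a := fun r hr => hS.le hr
    have hmemD : ∀ d ∈ DD G a t, d ∈ MulAction.stabilizer G a := fun d hd => hd.1
    rw [← Nat.card_prod]
    symm
    refine Nat.card_congr (Equiv.ofBijective
      (fun p : Q × DD G a t => (⟨(p.1 : G) * (p.2 : G), mul_mem (hmemQ _ p.1.2) (hmemD _ p.2.2)⟩ :
        MulAction.stabilizer G a)) ⟨?_, ?_⟩)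
    · rintro ⟨r, d⟩ ⟨r', d'⟩ h
      have h' : (r : G) * (d : G) = (r' : G) * (d' : G) := congrArg Subtype.val h
      obtain ⟨h1, h2⟩ := decomp_unique hS r.2 r'.2 d.2 d'.2 h'
      exact Prod.ext (Subtype.ext h1) (Subtype.ext h2)
    · rintro ⟨g, hg⟩
      obtain ⟨r, hr, d, hd, e⟩ := exists_decomp hS hg
      exact ⟨(⟨r, hr⟩, ⟨d, hd⟩), Subtype.ext e.symm⟩
  have hcardO : Nat.card Ω = Nat.card Q + 1 := card_omega hS
  have hindex : (MulAction.stabilizer G a).index = Nat.card Ω := by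
    rw [MulAction.index_stabilizer]
    have hfull : MulAction.orbit G a = Set.univ := by
      ext c
      simp only [Set.mem_univ, iff_true]
      by_cases hc : c = a
      · exact ⟨1, by simp [hc]⟩
      · obtain ⟨r, _, hr⟩ := exists_Q_smul hS hc
        exact ⟨r * t, by simp [mul_smul, hr]⟩
    rw [hfull, Set.ncard_univ]
  have hcardG : Nat.card G = Nat.card Q * Nat.card (DD G a t) * (Nat.card Q + 1) := by
    rw [← Subgroup.card_mul_index (MulAction.stabilizer G a), hindex, hcardGa, hcardO]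
  refine ⟨?_, hcardO, hcardG, ?_, ?_⟩
  · intro b c hb hc
    obtain ⟨r₁, hr₁, rfl⟩ := exists_Q_smul hS hb
    obtain ⟨r₂, hr₂, rfl⟩ := exists_Q_smul hS hc
    refine ⟨⟨r₂ * r₁⁻¹, mul_mem hr₂ (inv_mem hr₁)⟩, ?_, ?_⟩
    · simp [mul_smul]
    · rintro ⟨y, hy⟩ hy'
      apply Subtype.ext
      have hy'' : y • r₁ • t • a = r₂ • t • a := hy'
      rw [← mul_smul] at hy''
      have := Q_unique hS (mul_mem hy hr₁) hr₂ (ta_ne hS) hy''
      change y = r₂ * r₁⁻¹
      rw [← this]; group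
  · -- Sylow
    classical
    haveI : Fact (Nat.Prime 2) := ⟨Nat.prime_two⟩
    obtain ⟨P'⟩ : Nonempty (Sylow 2 Q) := inferInstance
    have hP' : Nat.card P' = 2 ^ (Nat.card Q).factorization 2 := Sylow.card_eq_multiplicity P'
    let H : Subgroup G := (P' : Subgroup Q).map Q.subtype
    have hHcard : Nat.card H = 2 ^ (Nat.card G).factorization 2 := by
      have h1 : Nat.card H = Nat.card P' := Subgroup.card_map_of_injective Q.subtype_injective
      have hQ0 : Nat.card Q ≠ 0 := Nat.card_pos.ne'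
      have hD0 : Nat.card (DD G a t) ≠ 0 := Nat.card_pos.ne'
      have hQ1 : ¬ 2 ∣ Nat.card Q + 1 := (hS.even_card.add_one).not_two_dvd_nat
      have hD1 : ¬ 2 ∣ Nat.card (DD G a t) := (show Odd (Nat.card (DD G a t)) from hS.odd_card).not_two_dvd_nat
      have h2 : (Nat.card G).factorization 2 = (Nat.card Q).factorization 2 := by
        rw [hcardG, Nat.factorization_mul (mul_ne_zero hQ0 hD0) (Nat.succ_ne_zero _),
          Nat.factorization_mul hQ0 hD0]
        rw [Finsupp.add_apply, Finsupp.add_apply, Nat.factorization_eq_zero_of_not_dvd hQ1,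
          Nat.factorization_eq_zero_of_not_dvd hD1]
        rfl
      rw [h1, hP', h2]
    refine ⟨Sylow.ofCard H hHcard, ?_⟩
    change H ≤ Q
    rintro _ ⟨x, _, rfl⟩
    exact x.2
  · intro g hg
    have hg' : g • a ≠ a := hg
    obtain ⟨x, y, hx, hy, e⟩ := canon_exists hS hg'
    refine ⟨(x, y), ⟨hx, hy, e⟩, ?_⟩
    rintro ⟨x', y'⟩ ⟨hx', hy', e'⟩
    obtain ⟨h1, h2⟩ := canon_unique hS hx' hx hy' hy (e'.symm.trans e)
    exact Prod.ext h1 h2

end Cfsg.Agent.S1119
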