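import Cfsg.Statements.S1120
import Cfsg.Agent.Lib.RankOne.Invol
import Cfsg.Agent.Lib.Core.Basic
import Cfsg.Agent.S0058

set_option autoImplicit false
open Cfsg

namespace Cfsg.Agent.S1120

open Cfsg.Agent.Lib.RankOne.Basic Cfsg.Agent.Lib.RankOne.Invol

/-- In the rank-one set-up (`G` finite and doubly transitive on `Ω`, `t` an involution moving `a`, `Q` normal in `G_a` with `G_a = Q D`, `Q ⊓ D = 1` for the two-point stabiliser `D = G_a ⊓ G_{t • a}`, `|Q|` even, `|D|` odd), if `G` has 2-rank at least 2 then `O_{2'}(G)` equals the normal core of `G_a`. -/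
theorem result {G Ω : Type*} [Group G] [Finite G] [MulAction G Ω] {a : Ω} {t : G} {Q : Subgroup G}
    (hS : Cfsg.IsRankOneSetup G Ω a t Q)
    (h2 : ∃ x y : G, x ≠ 1 ∧ y ≠ 1 ∧ x ≠ y ∧ x * x = 1 ∧ y * y = 1 ∧ x * y = y * x) :
    Cfsg.pPrimeCore 2 G = (MulAction.stabilizer G a).normalCore := by
  classical
  obtain ⟨x, y, hx1, hy1, hxy, hx2, hy2, hcomm⟩ := h2
  haveI : Fact (Nat.Prime 2) := ⟨Nat.prime_two⟩
  -- the four-group
  have hyx : y * x = x * y := hcomm.symm
  have e1 : x * (x * y) = y := by rw [← mul_assoc, hx2, one_mul]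
  have e2 : y * (x * y) = x := by rw [← mul_assoc, hyx, mul_assoc, hy2, mul_one]
  have e3 : (x * y) * x = y := by rw [mul_assoc, hyx, ← mul_assoc, hx2, one_mul]
  have e4 : (x * y) * y = x := by rw [mul_assoc, hy2, mul_one]
  have e5 : (x * y) * (x * y) = 1 := by rw [← mul_assoc, e3, hy2]
  let A : Subgroup G :=
    { carrier := {z | z = 1 ∨ z = x ∨ z = y ∨ z = x * y}
      mul_mem' := by
        rintro a b (rfl | rfl | rfl | rfl) (rfl | rfl | rfl | rfl) <;>
          simp [hx2, hy2, hyx, e1, e2, e3, e4, e5]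
      one_mem' := Or.inl rfl
      inv_mem' := by
        have hxi : x⁻¹ = x := inv_eq_of_mul_eq_one_left hx2
        have hyi : y⁻¹ = y := inv_eq_of_mul_eq_one_left hy2
        have hxyi : (x * y)⁻¹ = x * y := inv_eq_of_mul_eq_one_left e5
        rintro a (rfl | rfl | rfl | rfl)
        · simp
        · right; left; exact hxi
        · right; right; left; exact hyi
        · right; right; right; exact hxyi }
  have hAmem : ∀ z : G, z ∈ A ↔ (z = 1 ∨ z = x ∨ z = y ∨ z = x * y) := fun z => Iff.rfl
  have hAsq : ∀ z ∈ A, z * z = 1 := by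
    rintro z (rfl | rfl | rfl | rfl)
    · simp
    · exact hx2
    · exact hy2
    · exact e5
  haveI hAcomm : IsMulCommutative A := by
    refine ⟨⟨?_⟩⟩
    rintro ⟨a, ha⟩ ⟨b, hb⟩
    apply Subtype.ext
    change a * b = b * a
    rcases ha with rfl | rfl | rfl | rfl <;> rcases hb with rfl | rfl | rfl | rfl <;>
      simp [hyx, e1, e2, e3, e4, e5, hx2, hy2]
  have hAnc : ¬ IsCyclic A := by
    intro hc
    obtain ⟨⟨g, hg⟩, hgen⟩ := hc
    have hgg : g * g = 1 := hAsq g hg
    have key : ∀ z ∈ A, z = 1 ∨ z = g := by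
      intro z hz
      obtain ⟨n, hn⟩ := hgen ⟨z, hz⟩
      have hn' : g ^ n = z := congrArg Subtype.val hn
      rw [← hn']
      rcases Int.even_or_odd' n with ⟨k, rfl | rfl⟩
      · left
        rw [zpow_mul, zpow_two, hgg, one_zpow]
      · right
        rw [zpow_add, zpow_mul, zpow_two, hgg, one_zpow, one_mul, zpow_one]
    have hxA : x ∈ A := Or.inr (Or.inl rfl)
    have hyA : y ∈ A := Or.inr (Or.inr (Or.inl rfl))
    rcases key x hxA with h | h
    · exact hx1 h
    · rcases key y hyA with h' | h'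
      · exact hy1 h'
      · exact hxy (h.trans h'.symm)
  have hAp : IsPGroup 2 A := by
    intro z
    refine ⟨1, ?_⟩
    apply Subtype.ext
    change (z : G) ^ 2 ^ 1 = 1
    rw [pow_one, pow_two]
    exact hAsq z z.2
  set O := Cfsg.pPrimeCore 2 G with hO
  have hOn : O.Normal := by
    haveI := Cfsg.Agent.Lib.Core.Basic.pPrimeCore_characteristic (G := G) (p := 2)
    exact Subgroup.normal_of_characteristic _
  have hOc : (Nat.card O).Coprime 2 := Cfsg.Agent.Lib.Core.Basic.pPrimeCore_coprime (G := G) (p := 2)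
  have hcop : (Nat.card A).Coprime (Nat.card O) := by
    obtain ⟨k, hk⟩ := IsPGroup.iff_card.1 hAp
    rw [hk]
    exact (Nat.Coprime.pow_left _ hOc.symm)
  have hAN : A ≤ Subgroup.normalizer (O : Set G) := by
    have : Subgroup.normalizer (O : Set G) = ⊤ := by
      haveI := hOn
      exact Subgroup.normalizer_eq_top O
    rw [this]
    exact le_top
  have hgen := Cfsg.Agent.S0058.result A O hAnc hAN hcop
  -- the fixed point
  obtain ⟨c, hc⟩ := exists_fix hS hx2
  have hyc : y • c = c := fix_of_commute hS hx1 hx2 hcomm hc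
  have hxyc : (x * y) • c = c := by
    rw [mul_smul, hyc, hc]
  have hAfix : ∀ z ∈ A, z • c = c := by
    rintro z (rfl | rfl | rfl | rfl)
    · simp
    · exact hc
    · exact hyc
    · exact hxyc
  have hOc' : O ≤ MulAction.stabilizer G c := by
    rw [← hgen]
    apply iSup₂_le
    rintro z ⟨hzA, hz1⟩ g ⟨_, hg⟩
    have hg' : g * z = z * g := Subgroup.mem_centralizer_singleton_iff.1 hg
    exact fix_of_commute hS hz1 (hAsq z hzA) hg'.symm (hAfix z hzA)
  apply le_antisymm
  · -- `O ≤ G_a` by normality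
    haveI := hOn
    rw [Subgroup.normal_le_normalCore]
    intro o ho
    obtain ⟨g, hg⟩ : ∃ g : G, g • a = c := by
      by_cases h : c = a
      · exact ⟨1, by simp [h]⟩
      · obtain ⟨r, _, hr⟩ := exists_Q_smul hS h
        exact ⟨r * t, by rw [mul_smul, hr]⟩
    have h1 : g * o * g⁻¹ ∈ O := hOn.conj_mem o ho g
    have h2 : (g * o * g⁻¹) • c = c := hOc' h1
    change o • a = a
    rw [← hg] at h2
    simp only [mul_smul, inv_smul_smul] at h2
    exact MulAction.injective g h2
  · -- the core has odd order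
    apply Cfsg.Agent.Lib.Core.Basic.le_pPrimeCore (Subgroup.normalCore_normal _)
    by_contra hcop2
    have h2dvd : 2 ∣ Nat.card (MulAction.stabilizer G a).normalCore := by
      have := Nat.Prime.dvd_iff_not_coprime Nat.prime_two |>.2 (fun h => hcop2 h.symm)
      exact this
    obtain ⟨z, hz⟩ := exists_prime_orderOf_dvd_card' 2 h2dvd
    have hz1 : (z : G) ≠ 1 := by
      intro h
      have : z = 1 := Subtype.ext h
      rw [this, orderOf_one] at hz
      omega
    have hz2 : (z : G) * z = 1 := by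
      have := pow_orderOf_eq_one z
      rw [hz, pow_two] at this
      have h' := congrArg Subtype.val this
      simpa using h'
    -- `z` lies in every point stabiliser
    have hzfix : ∀ d : Ω, (z : G) • d = d := by
      intro d
      obtain ⟨g, hg⟩ : ∃ g : G, g • a = d := by
        by_cases h : d = a
        · exact ⟨1, by simp [h]⟩
        · obtain ⟨r, _, hr⟩ := exists_Q_smul hS h
          exact ⟨r * t, by rw [mul_smul, hr]⟩
      have h1 : g⁻¹ * (z : G) * g⁻¹⁻¹ ∈ (MulAction.stabilizer G a).normalCore :=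
        (Subgroup.normalCore_normal _).conj_mem (z : G) z.2 g⁻¹
      have h2 : (g⁻¹ * (z : G) * g⁻¹⁻¹) • a = a := Subgroup.normalCore_le _ h1
      rw [inv_inv] at h2
      rw [← hg]
      simp only [mul_smul] at h2
      have h3 := congrArg (fun c => g • c) h2
      simpa using h3
    exact ta_ne hS (fix_unique hS hz1 hz2 (hzfix (t • a)) (hzfix a))

end Cfsg.Agent.S1120
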