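import Cfsg.Statements.S1124
import Cfsg.Agent.Lib.RankOne.OddInvert

set_option autoImplicit false
open scoped Pointwise
open Cfsg

namespace Cfsg.Agent.S1124

open Cfsg.Agent.Lib.RankOne.OddInvert

/-- Let `t` be an element of order 2 of a finite group normalising a subgroup `X` of odd order, `Y = C_X(t)` and `Z` the set of elements of `X` inverted by `t`. Then `(y, z) ↦ y z` is a bijection `Y × Z → X`, so `|X| = |Y| |Z|`, and the subgroup generated by `Z` is normal in `X`. -/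
theorem result {M : Type*} [Group M] [Finite M]
    (t : M) (ht : orderOf t = 2) (X : Subgroup M) (hodd : Odd (Nat.card X))
    (hnorm : ∀ x ∈ X, t * x * t⁻¹ ∈ X) :
    (∀ x ∈ X, ∃! p : M × M, p.1 ∈ X ⊓ Subgroup.centralizer {t} ∧ p.2 ∈ Cfsg.invertedBy X t ∧ x = p.1 * p.2) ∧
      Nat.card X = Nat.card ↥(X ⊓ Subgroup.centralizer {t}) * Nat.card (Cfsg.invertedBy X t) ∧
      ∀ x ∈ X, MulAut.conj x • Subgroup.closure (Cfsg.invertedBy X t) = Subgroup.closure (Cfsg.invertedBy X t) := by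
  have ht2 : t * t = 1 := by
    have := pow_orderOf_eq_one t
    rwa [ht, pow_two] at this
  have hcent : ∀ y : M, y ∈ Subgroup.centralizer ({t} : Set M) ↔ t * y = y * t := by
    intro y
    rw [Subgroup.mem_centralizer_singleton_iff]
    exact eq_comm
  have hex : ∀ x ∈ X, ∃! p : M × M, p.1 ∈ X ⊓ Subgroup.centralizer {t} ∧ p.2 ∈ Cfsg.invertedBy X t ∧
      x = p.1 * p.2 := by
    intro x hx
    obtain ⟨y, z, hy, hyt, hz, hzt, e⟩ := exists_factor ht2 hodd hnorm hx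
    refine ⟨(y, z), ⟨⟨hy, (hcent y).2 hyt⟩, ⟨hz, hzt⟩, e⟩, ?_⟩
    rintro ⟨y', z'⟩ ⟨⟨hy', hyt'⟩, ⟨hz', hzt'⟩, e'⟩
    obtain ⟨h1, h2⟩ := factor_unique hodd ((hcent y').1 hyt') hz' hzt' hyt hz hzt (e'.symm.trans e)
    exact Prod.ext h1 h2
  refine ⟨hex, ?_, ?_⟩
  · rw [← Nat.card_prod]
    symm
    refine Nat.card_congr (Equiv.ofBijective
      (fun p : ↥(X ⊓ Subgroup.centralizer {t}) × (Cfsg.invertedBy X t) =>
        (⟨(p.1 : M) * (p.2 : M), mul_mem p.1.2.1 p.2.2.1⟩ : X)) ⟨?_, ?_⟩)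
    · rintro ⟨⟨y, hy⟩, ⟨z, hz⟩⟩ ⟨⟨y', hy'⟩, ⟨z', hz'⟩⟩ h
      have h' : y * z = y' * z' := congrArg Subtype.val h
      obtain ⟨h1, h2⟩ := factor_unique hodd ((hcent y).1 hy.2) hz.1 hz.2 ((hcent y').1 hy'.2) hz'.1 hz'.2 h'
      subst h1; subst h2
      rfl
    · rintro ⟨x, hx⟩
      obtain ⟨y, z, hy, hyt, hz, hzt, e⟩ := exists_factor ht2 hodd hnorm hx
      exact ⟨(⟨y, ⟨hy, (hcent y).2 hyt⟩⟩, ⟨z, ⟨hz, hzt⟩⟩), Subtype.ext e.symm⟩
  · -- closure is normal
    have hinv : t⁻¹ = t := t_inv_eq ht2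
    set C := Subgroup.closure (Cfsg.invertedBy X t) with hC
    have hA : ∀ y ∈ X, t * y = y * t → ∀ c ∈ C, y * c * y⁻¹ ∈ C := by
      intro y hy hyt c hc
      induction hc using Subgroup.closure_induction with
      | mem c hc =>
        apply Subgroup.subset_closure
        refine ⟨mul_mem (mul_mem hy hc.1) (inv_mem hy), ?_⟩
        have h2 : t * y⁻¹ = y⁻¹ * t := by
          have h3 : Commute t y := hyt
          exact h3.inv_right
        calc t * (y * c * y⁻¹) * t⁻¹ = (t * y) * c * y⁻¹ * t⁻¹ := by group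
          _ = y * (t * c * t⁻¹) * (t * y⁻¹) * t⁻¹ := by rw [hyt]; group
          _ = y * (t * c * t⁻¹) * y⁻¹ := by rw [h2]; group
          _ = y * c⁻¹ * y⁻¹ := by rw [hc.2]
          _ = (y * c * y⁻¹)⁻¹ := by group
      | one => simp
      | mul a b _ _ ha hb =>
        have : y * (a * b) * y⁻¹ = (y * a * y⁻¹) * (y * b * y⁻¹) := by group
        rw [this]
        exact mul_mem ha hb
      | inv a _ ha =>
        have : y * a⁻¹ * y⁻¹ = (y * a * y⁻¹)⁻¹ := by group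
        rw [this]
        exact inv_mem ha
    have hB : ∀ x ∈ X, ∀ c ∈ C, x * c * x⁻¹ ∈ C := by
      intro x hx c hc
      obtain ⟨y, z, hy, hyt, hz, hzt, e⟩ := exists_factor ht2 hodd hnorm hx
      have hzC : z ∈ C := Subgroup.subset_closure ⟨hz, hzt⟩
      have : x * c * x⁻¹ = y * (z * c * z⁻¹) * y⁻¹ := by rw [e]; group
      rw [this]
      exact hA y hy hyt _ (mul_mem (mul_mem hzC hc) (inv_mem hzC))
    intro x hx
    ext c
    rw [Subgroup.mem_smul_pointwise_iff_exists]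
    constructor
    · rintro ⟨c', hc', rfl⟩
      exact hB x hx c' hc'
    · intro hc
      refine ⟨x⁻¹ * c * x, ?_, ?_⟩
      · have := hB x⁻¹ (inv_mem hx) c hc
        simpa using this
      · rw [MulAut.smul_def, MulAut.conj_apply]
        group

end Cfsg.Agent.S1124
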