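import Cfsg.Statements.S1125
import Cfsg.Agent.Lib.RankOne.Struct

set_option autoImplicit false
open Cfsg

namespace Cfsg.Agent.S1125

open Cfsg.Agent.Lib.RankOne.Basic Cfsg.Agent.Lib.RankOne.Invol Cfsg.Agent.Lib.RankOne.Struct

/-- In the rank-one set-up (`G` finite and doubly transitive on `Ω`, `t` an involution moving `a`, `Q` normal in `G_a` with `G_a = Q D`, `Q ⊓ D = 1` for the two-point stabiliser `D = G_a ⊓ G_{t • a}`, `|Q|` even, `|D|` odd), let `X ⊆ D` fix at least three points of `Ω`. Then `C_G(X)` is doubly transitive on the fixed-point set of `X`, `|C_Q(X)|` is even, and `C_{G_a}(X) = C_Q(X) C_D(X)`. -/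
theorem result {G Ω : Type*} [Group G] [Finite G] [MulAction G Ω] {a : Ω} {t : G} {Q : Subgroup G}
    (hS : Cfsg.IsRankOneSetup G Ω a t Q)
    (X : Set G) (hX : X ⊆ ((MulAction.stabilizer G a ⊓ MulAction.stabilizer G (t • a)) : Set G))
    (h3 : ∃ b c d : Ω, b ≠ c ∧ b ≠ d ∧ c ≠ d ∧ ∀ x ∈ X, x • b = b ∧ x • c = c ∧ x • d = d) :
    (∀ b₁ b₂ c₁ c₂ : Ω, (∀ x ∈ X, x • b₁ = b₁ ∧ x • b₂ = b₂ ∧ x • c₁ = c₁ ∧ x • c₂ = c₂) →
        b₁ ≠ b₂ → c₁ ≠ c₂ → ∃ g ∈ Subgroup.centralizer X, g • b₁ = c₁ ∧ g • b₂ = c₂) ∧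
      Even (Nat.card ↥(Subgroup.centralizer X ⊓ Q)) ∧
      (Subgroup.centralizer X ⊓ Q) ⊔ (Subgroup.centralizer X ⊓ (MulAction.stabilizer G a ⊓ MulAction.stabilizer G (t • a))) = Subgroup.centralizer X ⊓ MulAction.stabilizer G a := by
  obtain ⟨b, c, d, hbc, hbd, hcd, hfix⟩ := h3
  obtain ⟨e, he, hea, heb⟩ := exists_third hS hbc hbd hcd
  have hXe : ∀ x ∈ X, x • e = e := by
    intro x hx
    obtain ⟨h1, h2, h3⟩ := hfix x hx
    rcases he with rfl | rfl | rfl <;> assumption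
  have hXD : X ⊆ (DD G a t : Set G) := hX
  have hcent : ∀ g : G, g ∈ Subgroup.centralizer X ↔ ∀ x ∈ X, x * g = g * x := fun g =>
    Subgroup.mem_centralizer_iff
  refine ⟨?_, ?_, ?_⟩
  · intro b₁ b₂ c₁ c₂ hfx hb hc
    obtain ⟨g₁, hg₁, e₁, e₂⟩ := exists_pair hS hXD hea heb hXe hb (fun x hx => (hfx x hx).1)
      (fun x hx => (hfx x hx).2.1)
    obtain ⟨g₂, hg₂, e₃, e₄⟩ := exists_pair hS hXD hea heb hXe hc (fun x hx => (hfx x hx).2.2.1)
      (fun x hx => (hfx x hx).2.2.2)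
    refine ⟨g₂ * g₁⁻¹, mul_mem hg₂ (inv_mem hg₁), ?_, ?_⟩
    · rw [mul_smul, ← e₁, inv_smul_smul, e₃]
    · rw [mul_smul, ← e₂, inv_smul_smul, e₄]
  · obtain ⟨s, hs, hsX⟩ := exists_invol_Q_comm hS hXD hea heb hXe
    have hsQ : s ∈ Q := mem_Q_of_sq hS hs.1 hs.2.2
    have hmem : s ∈ Subgroup.centralizer X ⊓ Q := ⟨(hcent s).2 hsX, hsQ⟩
    let y : ↥(Subgroup.centralizer X ⊓ Q) := ⟨s, hmem⟩
    have hy1 : y ≠ 1 := by
      intro h
      exact hs.2.1 (congrArg Subtype.val h)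
    have hy2 : y ^ 2 = 1 := by
      apply Subtype.ext
      change s ^ 2 = 1
      rw [pow_two]
      exact hs.2.2
    haveI : Fact (Nat.Prime 2) := ⟨Nat.prime_two⟩
    have hord : orderOf y = 2 := orderOf_eq_prime hy2 hy1
    have hdvd : orderOf y ∣ Nat.card ↥(Subgroup.centralizer X ⊓ Q) := orderOf_dvd_natCard y
    rw [hord] at hdvd
    exact even_iff_two_dvd.2 hdvd
  · apply le_antisymm
    · apply sup_le
      · exact inf_le_inf_left _ hS.le
      · exact inf_le_inf_left _ inf_le_left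
    · rintro g ⟨hg, hga⟩
      have hga' : g • a = a := hga
      have hp : g • t • a ≠ a := smul_ne_of_fix hga' (ta_ne hS)
      obtain ⟨r, hr, hre⟩ := exists_Q_smul hS hp
      have hgc := (hcent g).1 hg
      have hXr : ∀ x ∈ X, x * r = r * x := by
        intro x hx
        apply commute_Q_of_fix hS (hXD hx) hr
        rw [hre, ← mul_smul, hgc x hx, mul_smul]
        rw [(hXD hx).2]
      have hrc : r ∈ Subgroup.centralizer X := (hcent r).2 hXr
      have h1 : r⁻¹ * g ∈ DD G a t := by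
        rw [mem_DD]
        constructor
        · rw [mul_smul, hga']
          rw [inv_smul_eq_iff]
          exact (hS.le hr : r • a = a).symm
        · rw [mul_smul, ← hre, inv_smul_smul]
      have h2 : r⁻¹ * g ∈ Subgroup.centralizer X := mul_mem (inv_mem hrc) hg
      have h3 : g = r * (r⁻¹ * g) := by group
      rw [h3]
      exact mul_mem (Subgroup.mem_sup_left ⟨hrc, hr⟩) (Subgroup.mem_sup_right ⟨h2, h1⟩)

end Cfsg.Agent.S1125
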