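import Cfsg.Statements.S1126
import Cfsg.Agent.Lib.RankOne.Struct

set_option autoImplicit false
open Cfsg

namespace Cfsg.Agent.S1126

open Cfsg.Agent.Lib.RankOne.Basic Cfsg.Agent.Lib.RankOne.Invol Cfsg.Agent.Lib.RankOne.Struct

/-- In the rank-one set-up (`G` finite and doubly transitive on `Ω`, `t` an involution moving `a`, `Q` normal in `G_a` with `G_a = Q D`, `Q ⊓ D = 1` for the two-point stabiliser `D = G_a ⊓ G_{t • a}`, `|Q|` even, `|D|` odd), a subset `X ⊆ D` fixing at least three points of `Ω` is conjugate by an element of `D` into `V = C_D(t)`. -/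
theorem result {G Ω : Type*} [Group G] [Finite G] [MulAction G Ω] {a : Ω} {t : G} {Q : Subgroup G}
    (hS : Cfsg.IsRankOneSetup G Ω a t Q)
    (X : Set G) (hX : X ⊆ ((MulAction.stabilizer G a ⊓ MulAction.stabilizer G (t • a)) : Set G))
    (h3 : ∃ b c d : Ω, b ≠ c ∧ b ≠ d ∧ c ≠ d ∧ ∀ x ∈ X, x • b = b ∧ x • c = c ∧ x • d = d) :
    ∃ k ∈ (MulAction.stabilizer G a ⊓ MulAction.stabilizer G (t • a)), ∀ x ∈ X, (k * x * k⁻¹) * t = t * (k * x * k⁻¹) := by
  obtain ⟨b, c, d, hbc, hbd, hcd, hfix⟩ := h3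
  obtain ⟨e, he, hea, heb⟩ := exists_third hS hbc hbd hcd
  have hXe : ∀ x ∈ X, x • e = e := by
    intro x hx
    obtain ⟨h1, h2, h3⟩ := hfix x hx
    rcases he with rfl | rfl | rfl <;> assumption
  have hXD : X ⊆ (DD G a t : Set G) := hX
  obtain ⟨v, hv, hvx⟩ := exists_package hS hXD hea heb hXe
  exact ⟨v, hv.1, hvx⟩

end Cfsg.Agent.S1126
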