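import Cfsg.Statements.S1127
import Cfsg.Agent.Lib.RankOne.Struct

set_option autoImplicit false
open Cfsg

namespace Cfsg.Agent.S1127

open Cfsg.Agent.Lib.RankOne.Basic Cfsg.Agent.Lib.RankOne.Invol Cfsg.Agent.Lib.RankOne.Struct

/-- In the rank-one set-up (`G` finite and doubly transitive on `Ω`, `t` an involution moving `a`, `Q` normal in `G_a` with `G_a = Q D`, `Q ⊓ D = 1` for the two-point stabiliser `D = G_a ⊓ G_{t • a}`, `|Q|` even, `|D|` odd): if `s` is an involution of `G_a` and `r ∈ Q` satisfy `t s t = r⁻¹ t r`, then `C_D(t) = C_D(s)`; moreover `C_D(t) ⊓ C_D(K) = C_D(I ∩ G_a)`, where `K` is the set of elements of `D` inverted by `t` and `I ∩ G_a` the set of involutions of `G_a`. -/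
theorem result {G Ω : Type*} [Group G] [Finite G] [MulAction G Ω] {a : Ω} {t : G} {Q : Subgroup G}
    (hS : Cfsg.IsRankOneSetup G Ω a t Q) :
    (∀ s r : G, s ∈ Cfsg.involutionsIn (MulAction.stabilizer G a : Set G) → r ∈ Q → t * s * t = r⁻¹ * t * r →
        (MulAction.stabilizer G a ⊓ MulAction.stabilizer G (t • a)) ⊓ Subgroup.centralizer {t} = (MulAction.stabilizer G a ⊓ MulAction.stabilizer G (t • a)) ⊓ Subgroup.centralizer {s}) ∧
      (MulAction.stabilizer G a ⊓ MulAction.stabilizer G (t • a)) ⊓ Subgroup.centralizer {t} ⊓ Subgroup.centralizer (Cfsg.invertedBy (MulAction.stabilizer G a ⊓ MulAction.stabilizer G (t • a)) t) =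
        (MulAction.stabilizer G a ⊓ MulAction.stabilizer G (t • a)) ⊓ Subgroup.centralizer (Cfsg.involutionsIn (MulAction.stabilizer G a : Set G)) := by
  have hC : ∀ x y : G, x ∈ Subgroup.centralizer ({y} : Set G) ↔ x * y = y * x := fun x y => by
    rw [Subgroup.mem_centralizer_singleton_iff]
  refine ⟨?_, ?_⟩
  · intro s r hs hr e
    ext x
    constructor
    · rintro ⟨hx, hxt⟩
      exact ⟨hx, (hC x s).2 (commute_s_of_commute_t hS hs hr e hx ((hC x t).1 hxt))⟩
    · rintro ⟨hx, hxs⟩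
      exact ⟨hx, (hC x t).2 (commute_t_of_commute_s hS hs hr e hx ((hC x s).1 hxs))⟩
  · obtain ⟨s₀, r₀, hs₀, hr₀, e₀⟩ := exists_structure hS
    ext x
    simp only [Subgroup.mem_inf]
    constructor
    · rintro ⟨⟨hx₀, hxt⟩, hxK⟩
      have hx : x ∈ DD G a t := hx₀
      have hxt' := (hC x t).1 hxt
      have hxs₀ := commute_s_of_commute_t hS hs₀ hr₀ e₀ hx hxt'
      refine ⟨hx₀, ?_⟩
      rw [Subgroup.mem_centralizer_iff] at hxK ⊢
      intro s' hs'
      obtain ⟨k, hk, rfl⟩ := exists_K_conj hS hs₀ hs'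
      have h1 : k * x = x * k := hxK k hk
      have h2 : k⁻¹ * x = x * k⁻¹ := ((show Commute k x from h1).inv_left).eq
      calc k⁻¹ * s₀ * k * x = k⁻¹ * s₀ * (k * x) := by group
        _ = k⁻¹ * (s₀ * x) * k := by rw [h1]; group
        _ = k⁻¹ * (x * s₀) * k := by rw [hxs₀]
        _ = (k⁻¹ * x) * s₀ * k := by group
        _ = x * (k⁻¹ * s₀ * k) := by rw [h2]; group
    · rintro ⟨hx₀, hxI⟩
      have hx : x ∈ DD G a t := hx₀
      rw [Subgroup.mem_centralizer_iff] at hxI
      have hxs₀ : x * s₀ = s₀ * x := (hxI s₀ hs₀).symm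
      have hxt := commute_t_of_commute_s hS hs₀ hr₀ e₀ hx hxs₀
      refine ⟨⟨hx₀, (hC x t).2 hxt⟩, ?_⟩
      rw [Subgroup.mem_centralizer_iff]
      intro k hk
      -- `k x k⁻¹` commutes with `s₀`
      have hs' : k⁻¹ * s₀ * k ∈ IA G a := by
        obtain ⟨h1, h2, h3⟩ := hs₀
        refine ⟨?_, ?_, ?_⟩
        · exact mul_mem (mul_mem (inv_mem hk.1.1) h1) hk.1.1
        · have := conj_ne_one (g := k⁻¹) h2
          rwa [inv_inv] at this
        · have := conj_sq (g := k⁻¹) h3
          rwa [inv_inv] at this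
      have h1 := hxI _ hs'
      have h2 : (k * x * k⁻¹) * s₀ = s₀ * (k * x * k⁻¹) := by
        calc (k * x * k⁻¹) * s₀ = k * (x * (k⁻¹ * s₀ * k)) * k⁻¹ := by group
          _ = k * ((k⁻¹ * s₀ * k) * x) * k⁻¹ := by rw [h1]
          _ = _ := by group
      have hD : k * x * k⁻¹ ∈ DD G a t := mul_mem (mul_mem hk.1 hx) (inv_mem hk.1)
      have h3 := commute_t_of_commute_s hS hs₀ hr₀ e₀ hD h2
      -- apply `t`
      have hti : t⁻¹ = t := t_inv hS
      have hk' : t * k * t = k⁻¹ := by
        have := hk.2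
        rwa [hti] at this
      have hxt' : t * x * t = x := by
        rw [← hxt, mul_assoc, hS.mul_self, mul_one]
      have h4 : k * x * k⁻¹ = k⁻¹ * x * k := by
        have h5 : t * (k * x * k⁻¹) * t = k * x * k⁻¹ := by
          rw [← h3, mul_assoc, hS.mul_self, mul_one]
        rw [← h5]
        calc t * (k * x * k⁻¹) * t = t * k * (t * t) * x * (t * t) * k⁻¹ * t := by
              rw [hS.mul_self]; group
          _ = (t * k * t) * (t * x * t) * (t * k⁻¹ * t) := by group
          _ = k⁻¹ * x * k := by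
            rw [Cfsg.Agent.Lib.RankOne.Canon.t_conj_inv hS, hk', hxt']
            group
      have h5 : (k * k) * x = x * (k * k) := by
        calc (k * k) * x = k * (k * x * k⁻¹) * k := by group
          _ = k * (k⁻¹ * x * k) * k := by rw [h4]
          _ = _ := by group
      exact commute_of_sq_commute (odd_D hS) hk.1 h5

end Cfsg.Agent.S1127
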