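import Cfsg.Statements.S1134
import Cfsg.Agent.Lib.RankOne.Struct

set_option autoImplicit false
open Cfsg

namespace Cfsg.Agent.S1134

open Cfsg.Agent.Lib.RankOne.Basic Cfsg.Agent.Lib.RankOne.Invol Cfsg.Agent.Lib.RankOne.Struct

/-- In the rank-one set-up (`G` finite and doubly transitive on `Ω`, `t` an involution moving `a`, `Q` normal in `G_a` with `G_a = Q D`, `Q ⊓ D = 1` for the two-point stabiliser `D = G_a ⊓ G_{t • a}`, `|Q|` even, `|D|` odd), with the action faithful and `G` containing two distinct commuting involutions, with `V = C_D(t)`: subsets of `V` conjugate in `G` are conjugate in `V`. -/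
theorem result {G Ω : Type*} [Group G] [Finite G] [MulAction G Ω] [FaithfulSMul G Ω] {a : Ω} {t : G} {Q : Subgroup G}
    (hS : Cfsg.IsRankOneSetup G Ω a t Q)
    (h2 : ∃ x y : G, x ≠ 1 ∧ y ≠ 1 ∧ x ≠ y ∧ x * x = 1 ∧ y * y = 1 ∧ x * y = y * x)
    (X : Set G) (hX : X ⊆ (((MulAction.stabilizer G a ⊓ MulAction.stabilizer G (t • a)) ⊓ Subgroup.centralizer {t} : Subgroup G) : Set G)) (g : G)
    (hY : (fun x => g * x * g⁻¹) '' X ⊆ (((MulAction.stabilizer G a ⊓ MulAction.stabilizer G (t • a)) ⊓ Subgroup.centralizer {t} : Subgroup G) : Set G)) :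
    ∃ v ∈ (MulAction.stabilizer G a ⊓ MulAction.stabilizer G (t • a)) ⊓ Subgroup.centralizer {t}, (fun x => v * x * v⁻¹) '' X = (fun x => g * x * g⁻¹) '' X := by
  have hC : ∀ x y : G, x ∈ Subgroup.centralizer ({y} : Set G) ↔ x * y = y * x := fun x y => by
    rw [Subgroup.mem_centralizer_singleton_iff]
  have hXD : X ⊆ (DD G a t : Set G) := fun x hx => (hX hx).1
  have hti : t⁻¹ = t := t_inv hS
  -- the fixed point of `t`
  obtain ⟨e, he⟩ := exists_fix hS hS.mul_self
  have hea : e ≠ a := by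
    rintro rfl
    exact ta_ne hS he
  have heb : e ≠ t • a := by
    intro h
    apply hea
    have h2 := congrArg (fun c => t • c) h
    simp only [he, t_t_smul hS] at h2
    exact h2
  have hXe : ∀ x ∈ X, x • e = e := by
    intro x hx
    apply fix_of_commute hS hS.ne_one hS.mul_self _ he
    exact ((hC x t).1 (hX hx).2).symm
  set Y := (fun x => g * x * g⁻¹) '' X with hY_def
  have hYD : Y ⊆ (DD G a t : Set G) := fun y hy => (hY hy).1
  have hYe : ∀ y ∈ Y, y • e = e := by
    intro y hy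
    apply fix_of_commute hS hS.ne_one hS.mul_self _ he
    exact ((hC y t).1 (hY hy).2).symm
  have hp₁ : ∀ y ∈ Y, y • (g • a) = g • a := by
    rintro _ ⟨x, hx, rfl⟩
    have := (hXD hx).1
    have h4 : x • a = a := this
    simp [mul_smul, h4]
  have hp₂ : ∀ y ∈ Y, y • (g • t • a) = g • t • a := by
    rintro _ ⟨x, hx, rfl⟩
    have h4 : x • t • a = t • a := (hXD hx).2
    simp [mul_smul, h4]
  have hne : g • a ≠ g • t • a := by
    intro h
    exact ta_ne hS (MulAction.injective g h).symm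
  -- `c ∈ C(Y)` moving `g • a`, `g • t • a` back to `a`, `t • a`
  obtain ⟨c₀, hc₀, e₁, e₂⟩ := exists_pair hS hYD hea heb hYe hne hp₁ hp₂
  have hc₀Y : ∀ y ∈ Y, y * c₀ = c₀ * y := fun y hy => (Subgroup.mem_centralizer_iff.1 hc₀) y hy
  -- `g' = c₀⁻¹ g` lies in `D`
  set g' := c₀⁻¹ * g with hg'
  have hg'D : g' ∈ DD G a t := by
    rw [mem_DD, hg']
    constructor
    · rw [mul_smul, inv_smul_eq_iff, e₁]
    · rw [mul_smul, inv_smul_eq_iff, e₂]
  have hg'X : ∀ x ∈ X, g' * x * g'⁻¹ = g * x * g⁻¹ := by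
    intro x hx
    have hy : g * x * g⁻¹ ∈ Y := ⟨x, hx, rfl⟩
    have h1 := hc₀Y _ hy
    rw [hg']
    calc c₀⁻¹ * g * x * (c₀⁻¹ * g)⁻¹ = c₀⁻¹ * (g * x * g⁻¹) * c₀ := by group
      _ = c₀⁻¹ * (c₀ * (g * x * g⁻¹)) := by rw [mul_assoc, h1]
      _ = _ := by group
  obtain ⟨v, k, hv, hvt, hk, hfact⟩ := D_factor hS hg'D
  have hvt' : v * t = t * v := hvt.symm
  have hkX : ∀ x ∈ X, k * x * k⁻¹ = x := by
    intro x hx
    have hxt : x * t = t * x := (hC x t).1 (hX hx).2
    have h0 := hY ⟨x, hx, rfl⟩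
    have h1 : k * x * k⁻¹ ∈ Subgroup.centralizer ({t} : Set G) := by
      have h2 : k * x * k⁻¹ = v⁻¹ * (g * x * g⁻¹) * v := by
        rw [← hg'X x hx, hfact]; group
      rw [h2]
      have h3 : v ∈ Subgroup.centralizer ({t} : Set G) := (hC v t).2 hvt'
      exact mul_mem (mul_mem (inv_mem h3) h0.2) h3
    have h2 := (hC _ t).1 h1
    have hk' : t * k * t = k⁻¹ := by
      have := hk.2
      rwa [hti] at this
    have hxt' : t * x * t = x := by
      rw [← hxt, mul_assoc, hS.mul_self, mul_one]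
    have h4 : k * x * k⁻¹ = k⁻¹ * x * k := by
      have h5 : t * (k * x * k⁻¹) * t = k * x * k⁻¹ := by
        rw [← h2, mul_assoc, hS.mul_self, mul_one]
      rw [← h5]
      calc t * (k * x * k⁻¹) * t = t * k * (t * t) * x * (t * t) * k⁻¹ * t := by
            rw [hS.mul_self]; group
        _ = (t * k * t) * (t * x * t) * (t * k⁻¹ * t) := by group
        _ = k⁻¹ * x * k := by
          rw [Cfsg.Agent.Lib.RankOne.Canon.t_conj_inv hS, hk', hxt']
          group
    have h5 : (k * k) * x = x * (k * k) := by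
      calc (k * k) * x = k * (k * x * k⁻¹) * k := by group
        _ = k * (k⁻¹ * x * k) * k := by rw [h4]
        _ = _ := by group
    have h6 := commute_of_sq_commute (odd_D hS) hk.1 h5
    rw [h6]; group
  refine ⟨v, ⟨hv, (hC v t).2 hvt'⟩, ?_⟩
  apply Set.image_congr
  intro x hx
  rw [← hg'X x hx, hfact]
  have h1 := hkX x hx
  calc v * x * v⁻¹ = v * (k * x * k⁻¹) * v⁻¹ := by rw [h1]
    _ = _ := by group

end Cfsg.Agent.S1134
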