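import Cfsg.Statements.S1137
import Cfsg.Agent.Lib.SuzukiTwo.Central

set_option autoImplicit false
open Cfsg

namespace Cfsg.Agent.S1137

/-- In a Suzuki 2-group `P` (a finite non-abelian 2-group with more than one involution admitting a cyclic group of automorphisms regular on its involutions) the involutions are exactly the non-identity central elements, and `Z(P)` is elementary abelian. -/
theorem result {P : Type*} [Group P] (hP : Cfsg.IsSuzukiTwoGroup P) :
    (∀ x : P, (x ≠ 1 ∧ x * x = 1) ↔ (x ∈ Subgroup.center P ∧ x ≠ 1)) ∧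
      ∀ z ∈ Subgroup.center P, z * z = 1 := by
  obtain ⟨K, h⟩ := Cfsg.Agent.Lib.SuzukiTwo.Basic.exists_ctx hP
  have hnc : ∃ x y : P, x * y ≠ y * x := hP.2.2.1
  have hz : ∀ z ∈ Subgroup.center P, z * z = 1 := fun z hz =>
    Cfsg.Agent.Lib.SuzukiTwo.Central.center_sq h hnc hz
  refine ⟨fun x => ⟨fun hx => ⟨h.invol_center hx.2, hx.1⟩, fun hx => ⟨hx.2, hz x hx.1⟩⟩, hz⟩

end Cfsg.Agent.S1137
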