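import Cfsg.Statements.S1147
import Cfsg.Agent.Lib.Suz.TypeA.Main

set_option autoImplicit false
open Cfsg

namespace Cfsg.Agent.S1147

/-- Let a finite simple Zassenhaus group `G` on `Ω` have a normal subgroup `U` of `G_a`, regular on `Ω` minus `a`, which is a non-abelian 2-group. Then `|Ω| = 2^(2n) + 1` with `n` odd, `n > 1`, a two-point stabiliser `G_a ⊓ G_b` is cyclic of order `2^n - 1`, and `U` is isomorphic to the type-A group over a field with `2^n` elements for some field automorphism `φ`. -/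
theorem result {G Ω : Type*} [Group G] [Finite G] [MulAction G Ω] [Finite Ω]
    (hZ : Cfsg.IsZassenhausGroup G Ω) [IsSimpleGroup G] {a b : Ω} (hab : a ≠ b)
    (U : Subgroup G) (hUle : U ≤ MulAction.stabilizer G a)
    (hUn : ∀ h ∈ MulAction.stabilizer G a, ∀ u ∈ U, h * u * h⁻¹ ∈ U)
    (hreg : ∀ c d : Ω, c ≠ a → d ≠ a → ∃! u : U, (u : G) • c = d)
    (hU2 : IsPGroup 2 U) (hUna : ∃ u ∈ U, ∃ v ∈ U, u * v ≠ v * u) :
    ∃ n : ℕ, Odd n ∧ 1 < n ∧ Nat.card Ω = 2 ^ (2 * n) + 1 ∧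
      IsCyclic ↥(MulAction.stabilizer G a ⊓ MulAction.stabilizer G b) ∧
      Nat.card ↥(MulAction.stabilizer G a ⊓ MulAction.stabilizer G b) = 2 ^ n - 1 ∧
      ∃ (F : Type) (_ : Field F) (_ : Fintype F) (φ : F ≃+* F), Fintype.card F = 2 ^ n ∧
        Nonempty (U ≃* Cfsg.suzukiTypeA F (φ : F →+* F)) := by
  classical
  letI : Fintype G := Fintype.ofFinite G
  letI : Fintype Ω := Fintype.ofFinite Ω
  have hy : Cfsg.Agent.Lib.Suz.Setup.Hyp G a b U :=
    { hZ := hZ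
      hab := hab
      Qa := hUle
      Qn := hUn
      Q2 := hU2
      Qna := hUna
      hreg := hreg }
  obtain ⟨n, hodd, hn, hN, hH, F, instF, instFi, φ, hF, hφ⟩ := Cfsg.Agent.Lib.Suz.TypeA.Main.typeA hy
  refine ⟨n, hodd, hn, ?_, ?_, ?_, F, instF, instFi, φ, hF, hφ⟩
  · have h2 := Cfsg.Agent.Lib.Suz.Setup.Qcard hy
    rw [Nat.card_eq_fintype_card (α := Ω), ← h2, hN, two_mul, pow_add]
  · exact (Cfsg.Agent.Lib.Suz.Setup.ctx hy).cyc hab
  · have h3 : Nat.card ↥(MulAction.stabilizer G a ⊓ MulAction.stabilizer G b : Subgroup G) + 1 = 2 ^ n := hH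
    omega

end Cfsg.Agent.S1147
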