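import Cfsg.Statements.S1166
import Cfsg.Agent.Lib.RankOne.Canon

set_option autoImplicit false
open Cfsg

namespace Cfsg.Agent.S1166

open Cfsg.Agent.Lib.RankOne.Basic Cfsg.Agent.Lib.RankOne.Canon

/-- In the rank-one set-up (`G` finite and doubly transitive on `Ω`, `t` an involution moving `a`, `Q` normal in `G_a` with `G_a = Q D`, `Q ⊓ D = 1` for the two-point stabiliser `D = G_a ⊓ G_{t • a}`, `|Q|` even, `|D|` odd), with `t x t = g_x h_x t f_x` and `t y t = g_y h_y t f_y` (`g, f ∈ Q`, `h ∈ D`) for `x, y ∈ Q ∖ 1` with `x y ≠ 1`: then `z = f_x g_y ≠ 1`, and if `t z t = g_z h_z t f_z` and `t (x y) t = g' h' t f'` then `f' = (t h_y t)⁻¹ f_z (t h_y t) f_y` and `h' = h_x h_z h_y` (H6). -/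
theorem result {G Ω : Type*} [Group G] [Finite G] [MulAction G Ω] {a : Ω} {t : G} {Q : Subgroup G}
    (hS : Cfsg.IsRankOneSetup G Ω a t Q)
    (x y gx hx fx gy hy fy : G) (hxQ : x ∈ Q) (hx1 : x ≠ 1) (hyQ : y ∈ Q) (hy1 : y ≠ 1) (hxy : x * y ≠ 1)
    (hgx : gx ∈ Q) (hhx : hx ∈ (MulAction.stabilizer G a ⊓ MulAction.stabilizer G (t • a))) (hfx : fx ∈ Q) (ex : t * x * t = gx * hx * t * fx)
    (hgy : gy ∈ Q) (hhy : hy ∈ (MulAction.stabilizer G a ⊓ MulAction.stabilizer G (t • a))) (hfy : fy ∈ Q) (ey : t * y * t = gy * hy * t * fy) :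
    fx * gy ≠ 1 ∧
      ∀ gz hz fz g' h' f' : G, gz ∈ Q → hz ∈ (MulAction.stabilizer G a ⊓ MulAction.stabilizer G (t • a)) → fz ∈ Q → t * (fx * gy) * t = gz * hz * t * fz →
        g' ∈ Q → h' ∈ (MulAction.stabilizer G a ⊓ MulAction.stabilizer G (t • a)) → f' ∈ Q → t * (x * y) * t = g' * h' * t * f' →
          f' = (t * hy * t)⁻¹ * fz * (t * hy * t) * fy ∧ h' = hx * hz * hy := by
  have hprod : t * (x * y) * t = gx * hx * t * (fx * gy) * hy * t * fy := by
    rw [t_conj_mul hS, ex, ey]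
    group
  have hyD : t * hy * t ∈ DD G a t := t_conj_mem_DD hS hhy
  constructor
  · intro hz
    have h0 : t * (x * y) * t = gx * hx * (t * hy * t) * fy := by
      rw [hprod, hz]
      group
    have h1 : (t * (x * y) * t) • a = a := by
      rw [h0]
      have ha1 : gx • a = a := hS.le hgx
      have ha2 : hx • a = a := hhx.1
      have ha3 : (t * hy * t) • a = a := hyD.1
      have ha4 : fy • a = a := hS.le hfy
      simp only [mul_smul] at ha3 ⊢
      rw [ha4, ha3, ha2, ha1]
    exact t_conj_not_fix hS (mul_mem hxQ hyQ) hxy h1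
  · intro gz hz fz g' h' f' hgz hhz hfz ez hg' hh' hf' e'
    set c' := t * hy * t with hc'
    have htc : t * c' = hy * t := by
      rw [hc']
      calc t * (t * hy * t) = (t * t) * hy * t := by group
        _ = hy * t := by rw [hS.mul_self]; group
    have key : t * (x * y) * t
        = (gx * (hx * gz * hx⁻¹)) * (hx * hz * hy) * t * (c'⁻¹ * fz * c' * fy) := by
      have h0 : t * (x * y) * t = gx * hx * (t * (fx * gy) * t) * (t * hy * t) * fy := by
        rw [hprod]
        calc gx * hx * t * (fx * gy) * hy * t * fy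
            = gx * hx * t * (fx * gy) * 1 * hy * t * fy := by group
          _ = gx * hx * t * (fx * gy) * (t * t) * hy * t * fy := by rw [hS.mul_self]
          _ = _ := by group
      rw [h0, ez]
      calc gx * hx * (gz * hz * t * fz) * (t * hy * t) * fy
          = gx * hx * gz * hz * t * fz * c' * fy := by rw [← hc']; group
        _ = gx * hx * gz * hz * (t * c') * (c'⁻¹ * fz * c') * fy := by group
        _ = gx * hx * gz * hz * (hy * t) * (c'⁻¹ * fz * c') * fy := by rw [htc]
        _ = _ := by group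
    have h3 : gx * (hx * gz * hx⁻¹) ∈ Q := mul_mem hgx (hS.conj_mem hx hhx.1 gz hgz)
    have h4 : hx * hz * hy ∈ DD G a t := mul_mem (mul_mem hhx hhz) hhy
    have h5 : c'⁻¹ * fz * c' * fy ∈ Q := by
      refine mul_mem ?_ hfy
      have := hS.conj_mem c'⁻¹ (inv_mem hyD.1) fz hfz
      simpa using this
    obtain ⟨-, h6, h7⟩ := canon_unique' hS hg' hh' hf' h3 h4 h5 (e'.symm.trans key)
    exact ⟨h7, h6⟩

end Cfsg.Agent.S1166
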