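import Cfsg.Statements.S1167
import Cfsg.Agent.Lib.Zass.AbFinal

set_option autoImplicit false
open Cfsg

namespace Cfsg.Agent.S1167

/-- Let `G` be a finite simple Zassenhaus group on `Ω`, `U` a normal subgroup of `G_a` regular on `Ω` minus `a` which is an abelian 2-group, and `v` an involution with `v • a ≠ a`. Then there is a unique `u₀ ∈ U`, `u₀ ≠ 1`, with `v u₀ v = u₀ v u₀`. -/
theorem result {G Ω : Type*} [Group G] [Finite G] [MulAction G Ω] [Finite Ω]
    (hZ : Cfsg.IsZassenhausGroup G Ω) [IsSimpleGroup G] {a : Ω}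
    (U : Subgroup G) (hUle : U ≤ MulAction.stabilizer G a)
    (hUn : ∀ h ∈ MulAction.stabilizer G a, ∀ u ∈ U, h * u * h⁻¹ ∈ U)
    (hreg : ∀ c d : Ω, c ≠ a → d ≠ a → ∃! u : U, (u : G) • c = d)
    (hU2 : IsPGroup 2 U) (hUab : ∀ u ∈ U, ∀ u' ∈ U, u * u' = u' * u)
    (v : G) (hv1 : v ≠ 1) (hv2 : v * v = 1) (hva : v • a ≠ a) :
    ∃! u₀ : G, u₀ ∈ U ∧ u₀ ≠ 1 ∧ v * u₀ * v = u₀ * v * u₀ := by
  classical
  have _ : Fintype Ω := Fintype.ofFinite Ω
  have _ : Fintype G := Fintype.ofFinite G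
  set b := v • a with hb
  have hab : a ≠ b := Ne.symm hva
  have hvb : v • b = a := by rw [hb, ← mul_smul, hv2, one_smul]
  have hreg' : ∀ y, y ≠ a → ∃! u : U, (u : G) • b = y := fun y hy => hreg b y hva hy
  have hcard := Cfsg.Agent.Lib.Zass.RootPSL.card_regular hab hUle hreg'
  have D : Cfsg.Agent.Lib.Zass.Infl.Data a b U :=
    { hZ := hZ
      hab := hab
      hHa := hUle
      hHcard := hcard
      hHfix := by
        intro u hu hu1 c hc
        by_contra hcx
        have h1 := (hreg c c hcx hcx).unique (y₁ := ⟨u, hu⟩) (y₂ := 1) hc (by simp)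
        exact hu1 (congrArg Subtype.val h1) }
  obtain ⟨m, hm⟩ := IsPGroup.iff_card.mp hU2
  obtain ⟨c₀, hc₀a, hc₀b⟩ := Cfsg.Agent.Lib.Zass.Basic.exists_third hZ a b
  have hΩ3 : 3 ≤ Fintype.card Ω := by
    have : ({a, b, c₀} : Finset Ω).card = 3 := by
      rw [Finset.card_eq_three]
      exact ⟨a, b, c₀, hab, Ne.symm hc₀a, Ne.symm hc₀b, rfl⟩
    rw [← this]
    exact Finset.card_le_univ _
  have hm0 : m ≠ 0 := by
    rintro rfl
    simp only [pow_zero] at hm
    omega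
  have hhev : Even (Nat.card U) := by
    rw [hm]
    exact (Nat.even_pow' hm0).mpr even_two
  obtain ⟨R, hR⟩ := Cfsg.Agent.Lib.Zass.NoSharp.card_E_dvd hZ hab
  have hoddE : Odd (Nat.card (Cfsg.Agent.Lib.Zass.Stab.E (G := G) a b)) := by
    have h1 : Odd (Fintype.card Ω - 2) := by
      obtain ⟨k, hk⟩ := hhev
      exact ⟨k - 1, by omega⟩
    rw [hR] at h1
    exact (Nat.odd_mul.mp h1).1
  have hC := Cfsg.Agent.Lib.Zass.Inv.Ctx.of_simple hZ hab hoddE
  have hb2 := Cfsg.Agent.Lib.Zass.AbKernel.two_bound D hC hUab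
  -- elementary abelian
  have hFn : (U.subgroupOf (MulAction.stabilizer G a)).Normal := by
    constructor
    intro u hu g
    rw [Subgroup.mem_subgroupOf] at hu ⊢
    exact hUn g g.2 u hu
  obtain ⟨-, p, f, hp, hexp, -⟩ := Cfsg.Agent.S0738.result hZ hab (by
    simp only [Cfsg.Agent.Lib.Zass.Stab.E] at hb2
    omega) U hUle hFn hreg
  have hp2 : p = 2 := by
    -- a non-trivial element
    obtain ⟨u, hu, -⟩ := hreg b c₀ hva hc₀a
    have hu1 : (u : G) ≠ 1 := by
      intro h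
      rw [h, one_smul] at hu
      exact hc₀b hu.symm
    have h1 : u ^ p = 1 := Subtype.ext (by simpa using hexp u u.2)
    have := Fact.mk hp
    have hu1' : u ≠ 1 := fun h => hu1 (congrArg Subtype.val h)
    have h2 : orderOf u = p := orderOf_eq_prime h1 hu1'
    have := Fact.mk Nat.prime_two
    obtain ⟨k, hk⟩ := hU2 u
    have h3 : p ∣ 2 ^ k := h2 ▸ orderOf_dvd_of_pow_eq_one hk
    exact (Nat.prime_dvd_prime_iff_eq hp Nat.prime_two).mp (hp.dvd_of_dvd_pow h3)
  subst hp2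
  -- the fixed point
  have hvo : orderOf v = 2 := Cfsg.Agent.Lib.Zass.Inv.orderOf_eq_two_of hv1 hv2
  have hoddΩ : Odd (Fintype.card Ω) := by
    obtain ⟨k, hk⟩ := hhev
    exact ⟨k, by omega⟩
  obtain ⟨c, hc⟩ := Cfsg.Agent.Lib.Zass.Inv.exists_fix_of_odd hC hoddΩ hvo
  have hca : c ≠ a := by
    rintro rfl
    exact hva hc
  have hcb : c ≠ b := by
    intro h
    rw [h, hvb] at hc
    exact hab hc
  obtain ⟨u₀, hu₀, hu₀u⟩ := hreg b c hva hca
  have hu₀2 : (u₀ : G) * u₀ = 1 := by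
    have := hexp u₀ u₀.2
    rwa [pow_two] at this
  have hu₀c : (u₀ : G) • c = b := by
    rw [← hu₀, ← mul_smul, hu₀2, one_smul]
  have hu₀a : (u₀ : G) • a = a := hUle u₀.2
  have hu₀1 : (u₀ : G) ≠ 1 := by
    intro h
    rw [h, one_smul] at hu₀
    exact hcb hu₀.symm
  -- the order three element
  have h3 : ((u₀ : G) * v) * ((u₀ : G) * v) * ((u₀ : G) * v) = 1 := by
    apply Cfsg.Agent.Lib.Zass.Basic.fix3 hZ hab (Ne.symm hcb) (Ne.symm hca)
    · simp only [mul_smul]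
      rw [← hb, hu₀, hc, hu₀c, hvb, hu₀a]
    · simp only [mul_smul]
      rw [hvb, hu₀a, ← hb, hu₀, hc, hu₀c]
    · simp only [mul_smul]
      rw [hc, hu₀c, hvb, hu₀a, ← hb, hu₀]
  have hvi : v⁻¹ = v := inv_eq_of_mul_eq_one_left hv2
  have hui : (u₀ : G)⁻¹ = u₀ := inv_eq_of_mul_eq_one_left hu₀2
  refine ⟨u₀, ⟨u₀.2, hu₀1, ?_⟩, ?_⟩
  · -- the braid relation
    have h5 : ((u₀ : G) * v * u₀) * (v * (u₀ : G) * v) = 1 := by
      have : ((u₀ : G) * v * u₀) * (v * (u₀ : G) * v) =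
          ((u₀ : G) * v) * ((u₀ : G) * v) * ((u₀ : G) * v) := by group
      rw [this, h3]
    have h6 : (v * (u₀ : G) * v) * (v * (u₀ : G) * v) = 1 := by
      calc (v * (u₀ : G) * v) * (v * (u₀ : G) * v) = v * (u₀ * (v * v) * u₀) * v := by group
        _ = 1 := by rw [hv2, mul_one, hu₀2, mul_one, hv2]
    rw [eq_inv_of_mul_eq_one_left h5, inv_eq_of_mul_eq_one_left h6]
  · -- uniqueness
    rintro w ⟨hw, hw1, hw2⟩
    have h4 : v • ((w : G) • b) = w • b := by
      have hwa : w • a = a := hUle hw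
      calc v • (w • b) = (v * w * v) • a := by
            simp only [mul_smul]
            rw [← hb]
        _ = (w * v * w) • a := by rw [hw2]
        _ = w • b := by
            simp only [mul_smul]
            rw [hwa, ← hb]
    have h5 : w • b = c := Cfsg.Agent.Lib.Zass.Inv.fix_unique hC hvo h4 hc
    have h6 := hu₀u ⟨w, hw⟩ h5
    exact congrArg Subtype.val h6

end Cfsg.Agent.S1167
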