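import Cfsg.Statements.S1176
import Cfsg.Agent.Lib.Isolated.Basic

set_option autoImplicit false
open Cfsg

namespace Cfsg.Agent.S1176

open Cfsg.Agent.Lib.Isolated.Basic

open scoped commutatorElement in
lemma comm_fact {G : Type*} [Group G] {W : Subgroup G} {x y : G} (hx : x ∈ W) (hy : y ∈ W)
    (hW : ⁅⁅W, W⁆, W⁆ = ⊥) :
    (x * y * x⁻¹ * y⁻¹) * x * (x * y * x⁻¹ * y⁻¹)⁻¹ * x⁻¹ = 1 := by
  have h1 : ⁅x, y⁆ ∈ ⁅W, W⁆ := Subgroup.commutator_mem_commutator hx hy
  have h2 : ⁅⁅x, y⁆, x⁆ ∈ ⁅⁅W, W⁆, W⁆ := Subgroup.commutator_mem_commutator h1 hx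
  rw [hW, Subgroup.mem_bot] at h2
  exact h2


/-- Let x₀ be an involution of the finite group G and D its conjugacy class. Assume (a) for each x ∈ D the subgroup W(x) generated by the members of D commuting with x is a 2-group of nilpotency class at most 2, and (b) the product of two distinct commuting members of D again lies in D. Then for all x, y ∈ D, if xy has even order greater than 2, its order is 4. -/
theorem result {G : Type*} [Group G] [Finite G] (x₀ : G) (hx₀ : orderOf x₀ = 2) (ha : ∀ x : G, IsConj x₀ x → IsPGroup 2 ↥(Subgroup.closure {y : G | IsConj x₀ y ∧ Commute y x}) ∧ ⁅⁅Subgroup.closure {y : G | IsConj x₀ y ∧ Commute y x}, Subgroup.closure {y : G | IsConj x₀ y ∧ Commute y x}⁆, Subgroup.closure {y : G | IsConj x₀ y ∧ Commute y x}⁆ = ⊥) (hb : ∀ x y : G, IsConj x₀ x → IsConj x₀ y → x ≠ y → Commute x y → IsConj x₀ (x * y)) (x y : G) (hx : IsConj x₀ x) (hy : IsConj x₀ y) (heven : Even (orderOf (x * y))) (hgt : 2 < orderOf (x * y)) : orderOf (x *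 y) = 4 := by
  have hxinv : ∀ a : G, IsConj x₀ a → a * a = 1 := by
    intro a ha'
    obtain ⟨c, rfl⟩ := isConj_iff.mp ha'
    have h2 : x₀ * x₀ = 1 := by
      have := pow_orderOf_eq_one x₀
      rwa [hx₀, sq] at this
    have : c * x₀ * c⁻¹ * (c * x₀ * c⁻¹) = c * (x₀ * x₀) * c⁻¹ := by group
    rw [this, h2]
    simp
  have hxx := hxinv x hx
  have hyy := hxinv y hy
  have hxi : x⁻¹ = x := inv_eq_of_mul_eq_one_left hxx
  have hyi : y⁻¹ = y := inv_eq_of_mul_eq_one_left hyy
  set c := x * y with hc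
  have hcinv : c⁻¹ = y * x := by rw [hc, mul_inv_rev, hxi, hyi]
  have hxc : x * c * x = c⁻¹ := by
    rw [hcinv, hc, ← mul_assoc, hxx, one_mul]
  have hyc : y * c * y = c⁻¹ := by
    rw [hcinv, hc, mul_assoc, mul_assoc x, hyy, mul_one]
  obtain ⟨l, hl⟩ := heven
  have hlpos : 0 < l := by omega
  have hll : l < orderOf c := by omega
  set w := c ^ l with hw
  have hw1 : w ≠ 1 := pow_ne_one_of_lt_orderOf hlpos.ne' hll
  have hww : w * w = 1 := by
    rw [hw, ← pow_add, ← hl, pow_orderOf_eq_one]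
  have hwi : w⁻¹ = w := inv_eq_of_mul_eq_one_left hww
  have hxw : x * w * x = w := by
    rw [hw, conj_pow_inv hxx hxc, ← hw, hwi]
  have hyw : y * w * y = w := by
    rw [hw, conj_pow_inv hyy hyc, ← hw, hwi]
  have hxwc : x * w = w * x := by
    have e : x * w * x * x = w * x := by rw [hxw]
    rwa [mul_assoc, hxx, mul_one] at e
  have hywc : y * w = w * y := by
    have e : y * w * y * y = w * y := by rw [hyw]
    rwa [mul_assoc, hyy, mul_one] at e
  -- `w * x` is conjugate to `x₀`.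
  have key : IsConj x₀ (w * x) := by
    rcases Nat.even_or_odd' l with ⟨r, hr | hr⟩
    · refine hx.trans (isConj_iff.mpr ⟨c ^ r, ?_⟩)
      rw [conj_pow_of_inverts hxx hxc, ← hr]
    · refine hy.trans (isConj_iff.mpr ⟨c ^ (r + 1), ?_⟩)
      rw [conj_pow_of_inverts hyy hyc]
      have e2 : c * y = x := by
        rw [hc, mul_assoc, hyy, mul_one]
      have e3 : c ^ (2 * (r + 1)) = c ^ l * c := by
        rw [hr, ← pow_succ]
        congr 1
      rw [e3, mul_assoc, e2]
  have hne : x ≠ w * x := by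
    intro h
    apply hw1
    have : 1 * x = w * x := by rw [one_mul]; exact h
    exact (mul_right_cancel this).symm
  have hcomm : Commute x (w * x) := by
    show x * (w * x) = w * x * x
    rw [← mul_assoc, hxwc]
  have hwD : IsConj x₀ w := by
    have := hb x (w * x) hx key hne hcomm
    have e : x * (w * x) = w := by
      rw [← mul_assoc, hxwc, mul_assoc, hxx, mul_one]
    rwa [e] at this
  have hW := (ha w hwD).2
  set W := Subgroup.closure {y' : G | IsConj x₀ y' ∧ Commute y' w} with hWdef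
  have hxW : x ∈ W := Subgroup.subset_closure ⟨hx, hxwc⟩
  have hyW : y ∈ W := Subgroup.subset_closure ⟨hy, hywc⟩
  have h2 := comm_fact hxW hyW hW
  have e1 : x * y * x⁻¹ * y⁻¹ = c ^ 2 := by
    rw [hxi, hyi, sq, hc]
    group
  have e2 : c ^ 2 * x * (c ^ 2)⁻¹ * x⁻¹ = c ^ 4 := by
    rw [hxi]
    have := conj_pow_inv hxx hxc 2
    calc c ^ 2 * x * (c ^ 2)⁻¹ * x = c ^ 2 * (x * (c ^ 2)⁻¹ * x) := by group
      _ = c ^ 2 * (c ^ 2) := by
        have e3 : x * (c ^ 2)⁻¹ * x = ((x * c ^ 2 * x))⁻¹ := by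
          rw [mul_inv_rev, mul_inv_rev, hxi, mul_assoc]
        rw [e3, this, inv_inv]
      _ = c ^ 4 := by
        rw [← pow_add]
  rw [e1, e2] at h2
  have hdvd : orderOf c ∣ 4 := orderOf_dvd_of_pow_eq_one h2
  have hle := Nat.le_of_dvd (by norm_num) hdvd
  interval_cases h : orderOf c <;> first | rfl | omega

end Cfsg.Agent.S1176
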