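import Cfsg.Statements.S1177
import Cfsg.Agent.Lib.TwoFusion.Conj

set_option autoImplicit false
open Cfsg

namespace Cfsg.Agent.S1177

open Cfsg.Agent.Lib.TwoFusion.Conj


/-- Let A be a nontrivial elementary abelian 2-subgroup of a finite group G which is a T.I. set (each conjugate of A meets A trivially or equals A) and which does not commute elementwise with any conjugate of A other than A itself. Then for every a ∈ A, a ≠ 1, every conjugate of A contained in C_G(a) is equal to A (A is weakly closed in C_G(a)). -/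
theorem result {G : Type*} [Group G] [Finite G] (A : Subgroup G) (hA : Cfsg.IsElementaryAbelian 2 A) (hA1 : A ≠ ⊥) (hTI : ∀ g : G, A.map (MulAut.conj g).toMonoidHom ⊓ A = ⊥ ∨ A.map (MulAut.conj g).toMonoidHom = A) (hb : ∀ g : G, (∀ a ∈ A, ∀ b ∈ A.map (MulAut.conj g).toMonoidHom, a * b = b * a) → A.map (MulAut.conj g).toMonoidHom = A) (a : G) (ha : a ∈ A) (ha1 : a ≠ 1) (g : G) (hg : A.map (MulAut.conj g).toMonoidHom ≤ Subgroup.centralizer ({a} : Set G)) : A.map (MulAut.conj g).toMonoidHom = A := by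
  classical
  haveI : Fintype G := Fintype.ofFinite G
  set B := A.map (MulAut.conj g).toMonoidHom with hB
  by_contra hne
  have hdisj : B ⊓ A = ⊥ := (hTI g).resolve_right hne
  have hBa : ∀ b ∈ B, a * b = b * a := by
    intro b hb
    have := hg hb
    rw [Subgroup.mem_centralizer_iff] at this
    exact this a rfl
  -- every `b ∈ B` normalizes `A`
  have hnorm : ∀ b ∈ B, A.map (MulAut.conj b).toMonoidHom = A := by
    intro b hb
    rcases hTI b with h | h
    · exfalso
      have h1 : a ∈ A.map (MulAut.conj b).toMonoidHom := by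
        rw [mem_map_conj]
        have : b⁻¹ * a * b = a := by
          rw [mul_assoc, hBa b hb]
          group
        rwa [this]
      have h2 : a ∈ A.map (MulAut.conj b).toMonoidHom ⊓ A := ⟨h1, ha⟩
      rw [h, Subgroup.mem_bot] at h2
      exact ha1 h2
    · exact h
  have hbA : ∀ b ∈ B, ∀ x ∈ A, b * x * b⁻¹ ∈ A := by
    intro b hb x hx
    rw [← hnorm b hb]
    exact conj_mem_map_conj hx
  -- it suffices to show that `A` commutes with `B`.
  apply hne
  apply hb
  intro x hx b₀ hb₀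
  by_contra hcomm
  -- `f : B → A, b ↦ b x b⁻¹` is injective and misses `a`.
  have hinj : Function.Injective (fun b : B => (⟨(b : G) * x * (b : G)⁻¹, hbA b b.2 x hx⟩ : A)) := by
    intro b₁ b₂ h12
    have h12' : (b₁ : G) * x * (b₁ : G)⁻¹ = (b₂ : G) * x * (b₂ : G)⁻¹ := congrArg Subtype.val h12
    set b₃ := (b₁ : G)⁻¹ * (b₂ : G) with hb₃
    have hb₃B : b₃ ∈ B := mul_mem (inv_mem b₁.2) b₂.2
    have hcx : b₃ * x = x * b₃ := by
      have h3 : (b₁ : G)⁻¹ * ((b₁ : G) * x * (b₁ : G)⁻¹) * (b₂ : G) = (b₁ : G)⁻¹ * ((b₂ : G) * x * (b₂ : G)⁻¹) * (b₂ : G) := by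
        rw [h12']
      calc b₃ * x = (b₁ : G)⁻¹ * ((b₂ : G) * x * (b₂ : G)⁻¹) * (b₂ : G) := by
            rw [hb₃]; group
        _ = (b₁ : G)⁻¹ * ((b₁ : G) * x * (b₁ : G)⁻¹) * (b₂ : G) := h3.symm
        _ = x * b₃ := by rw [hb₃]; group
    by_cases hb31 : b₃ = 1
    · apply Subtype.ext
      have : (b₁ : G) = b₂ := by
        have h4 : (b₁ : G) * b₃ = b₁ := by rw [hb31, mul_one]
        rw [hb₃, ← mul_assoc, mul_inv_cancel, one_mul] at h4
        exact h4.symm
      exact this
    · exfalso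
      -- `x` normalizes `B`.
      have hTIB : B.map (MulAut.conj x).toMonoidHom = B := by
        rcases hTI (g⁻¹ * x * g) with h | h
        · exfalso
          -- `g⁻¹ b₃ g` lies in both.
          have h1 : g⁻¹ * b₃ * g ∈ A := by
            have := hb₃B
            rw [hB, mem_map_conj] at this
            exact this
          have h2 : g⁻¹ * b₃ * g ∈ A.map (MulAut.conj (g⁻¹ * x * g)).toMonoidHom := by
            rw [mem_map_conj]
            have e : (g⁻¹ * x * g)⁻¹ * (g⁻¹ * b₃ * g) * (g⁻¹ * x * g) = g⁻¹ * (x⁻¹ * b₃ * x) * g := by group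
            rw [e, show x⁻¹ * b₃ * x = b₃ by rw [mul_assoc, hcx]; group]
            exact h1
          have h3 : g⁻¹ * b₃ * g ∈ A.map (MulAut.conj (g⁻¹ * x * g)).toMonoidHom ⊓ A := ⟨h2, h1⟩
          rw [h, Subgroup.mem_bot] at h3
          apply hb31
          have e : b₃ = g * (g⁻¹ * b₃ * g) * g⁻¹ := by group
          rw [e, h3]
          group
        · -- conjugate by `g`
          have e : (A.map (MulAut.conj (g⁻¹ * x * g)).toMonoidHom).map (MulAut.conj g).toMonoidHom = B := by
            rw [h]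
          rw [map_conj_map_conj, show g * (g⁻¹ * x * g) = x * g by group, ← map_conj_map_conj] at e
          exact e
      -- hence `[x, b₀] ∈ A ∩ B = 1`.
      have h1 : x * b₀ * x⁻¹ ∈ B := by
        rw [← hTIB]
        exact conj_mem_map_conj hb₀
      have h2 : x * (b₀ * x⁻¹ * b₀⁻¹) ∈ A := mul_mem hx (hbA b₀ hb₀ _ (inv_mem hx))
      have h3 : x * b₀ * x⁻¹ * b₀⁻¹ ∈ B := mul_mem h1 (inv_mem hb₀)
      have h4 : x * b₀ * x⁻¹ * b₀⁻¹ ∈ B ⊓ A := ⟨h3, by
        have e : x * b₀ * x⁻¹ * b₀⁻¹ = x * (b₀ * x⁻¹ * b₀⁻¹) := by group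
        rw [e]; exact h2⟩
      rw [hdisj, Subgroup.mem_bot] at h4
      apply hcomm
      have e : x * b₀ = x * b₀ * x⁻¹ * b₀⁻¹ * (b₀ * x) := by group
      rw [e, h4, one_mul]
  have hnsurj : ¬ Function.Surjective (fun b : B => (⟨(b : G) * x * (b : G)⁻¹, hbA b b.2 x hx⟩ : A)) := by
    intro hsurj
    obtain ⟨b, hb⟩ := hsurj ⟨a, ha⟩
    have hb' : (b : G) * x * (b : G)⁻¹ = a := congrArg Subtype.val hb
    have hxa : x = a := by
      have e : x = (b : G)⁻¹ * ((b : G) * x * (b : G)⁻¹) * (b : G) := by group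
      rw [e, hb', mul_assoc, hBa b b.2]
      group
    apply hcomm
    rw [hxa]
    exact hBa b₀ hb₀
  have hcard : Nat.card B = Nat.card A := card_map_conj A g
  have hbij := (Nat.bijective_iff_injective_and_card _).mpr ⟨hinj, hcard⟩
  exact hnsurj hbij.2

end Cfsg.Agent.S1177
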