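import Cfsg.Statements.S1178
import Cfsg.Agent.Lib.TwoFusion.Conj

set_option autoImplicit false
open Cfsg

namespace Cfsg.Agent.S1178

open Cfsg.Agent.Lib.TwoFusion.Conj


/-- Let A be a subgroup of a Sylow 2-subgroup S of the finite group G which is weakly closed in S. If a conjugate g A g⁻¹ commutes elementwise with A, then g A g⁻¹ = A. -/
theorem result {G : Type*} [Group G] [Finite G] (S : Sylow 2 G) (A : Subgroup G) (hW : Cfsg.IsWeaklyClosed A (S : Subgroup G)) (g : G) (hc : ∀ a ∈ A, ∀ b ∈ A.map (MulAut.conj g).toMonoidHom, a * b = b * a) : A.map (MulAut.conj g).toMonoidHom = A := by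
  classical
  set B := A.map (MulAut.conj g).toMonoidHom with hB
  have hAS : A ≤ (S : Subgroup G) := hW.1
  have hAp : IsPGroup 2 A := IsPGroup.to_le S.isPGroup' hAS
  have hBp : IsPGroup 2 B := IsPGroup.map hAp _
  have hsup : IsPGroup 2 (A ⊔ B : Subgroup G) := isPGroup_sup_of_commute hAp hBp hc
  obtain ⟨h, hQ⟩ := exists_conj_le S hsup
  have hAS' : A.map (MulAut.conj h).toMonoidHom ≤ (S : Subgroup G) :=
    (Subgroup.map_mono le_sup_left).trans hQ
  have hBS' : (B.map (MulAut.conj h).toMonoidHom) ≤ (S : Subgroup G) :=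
    (Subgroup.map_mono le_sup_right).trans hQ
  rw [hB, map_conj_map_conj] at hBS'
  have h1 := hW.2 h hAS'
  have h2 := hW.2 (h * g) hBS'
  rw [← map_conj_map_conj] at h2
  -- `B^h = A = A^h` so `B = A`.
  have h3 : B.map (MulAut.conj h).toMonoidHom = A.map (MulAut.conj h).toMonoidHom := by
    rw [h1, hB, h2]
  have := congrArg (fun X => X.map (MulAut.conj h⁻¹).toMonoidHom) h3
  simpa only [map_conj_inv_map_conj] using this

end Cfsg.Agent.S1178
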