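import Cfsg.Statements.S1181
import Cfsg.Agent.Lib.Isolated.Quotient

set_option autoImplicit false
open Cfsg

namespace Cfsg.Agent.S1181

/-- Let z be an isolated involution of the finite group G and N a normal subgroup with z ∉ N. Then the centralizer of zN in G/N is the image of C_G(z), and zN is an isolated involution of G/N. -/
theorem result {G : Type*} [Group G] [Finite G] (z : G) (hz : Cfsg.IsIsolatedInvolution z) (N : Subgroup G) [N.Normal] (hzN : z ∉ N) : Subgroup.centralizer ({(QuotientGroup.mk z : G ⧸ N)} : Set (G ⧸ N)) = (Subgroup.centralizer ({z} : Set G)).map (QuotientGroup.mk' N) ∧ Cfsg.IsIsolatedInvolution (QuotientGroup.mk z : G ⧸ N) := by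
  have hz1 : ((QuotientGroup.mk' N) z) ≠ 1 := by
    intro h
    exact hzN ((QuotientGroup.eq_one_iff z).mp h)
  exact Cfsg.Agent.Lib.Isolated.Quotient.map_of_surjective hz (QuotientGroup.mk' N) (QuotientGroup.mk'_surjective N) hz1

end Cfsg.Agent.S1181
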