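import Cfsg.Statements.S1182
import Cfsg.Agent.Lib.Isolated.Basic

set_option autoImplicit false
open Cfsg

namespace Cfsg.Agent.S1182

/-- Let z be an isolated involution of the finite group G and H a subgroup normalized by z. If x, y ∈ H both commute with z and y = h x h⁻¹ for some h ∈ H, then y = c x c⁻¹ for some c ∈ H commuting with z. -/
theorem result {G : Type*} [Group G] [Finite G] (z : G) (hz : Cfsg.IsIsolatedInvolution z) (H : Subgroup G) (hzH : z ∈ Subgroup.normalizer (H : Set G)) (x y : G) (hx : x ∈ H) (hy : y ∈ H) (hxz : Commute x z) (hyz : Commute y z) (h : G) (hh : h ∈ H) (hconj : h * x * h⁻¹ = y) : ∃ c ∈ H, Commute c z ∧ c * x * c⁻¹ = y := by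
  obtain ⟨k, hk, -, -, hmid⟩ := Cfsg.Agent.Lib.Isolated.Basic.exists_midpoint hz h
  have hcH : z * (h * z * h⁻¹) ∈ H := by
    have h1 : z * h * z⁻¹ ∈ H := (Subgroup.mem_normalizer_iff.mp hzH h).mp hh
    have hzinv : z⁻¹ = z := Cfsg.Agent.Lib.Isolated.Basic.inv_eq hz
    have h2 : z * (h * z * h⁻¹) = (z * h * z⁻¹) * h⁻¹ := by
      rw [hzinv]
      group
    rw [h2]
    exact mul_mem h1 (inv_mem hh)
  have hkH : k ∈ H := (Subgroup.zpowers_le.mpr hcH) hk
  -- `y` commutes with `z` and with `z' = h z h⁻¹`.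
  have hyz' : Commute y (h * z * h⁻¹) := by
    rw [← hconj]
    show (h * x * h⁻¹) * (h * z * h⁻¹) = (h * z * h⁻¹) * (h * x * h⁻¹)
    have := hxz.eq
    calc (h * x * h⁻¹) * (h * z * h⁻¹) = h * (x * z) * h⁻¹ := by group
      _ = h * (z * x) * h⁻¹ := by rw [this]
      _ = (h * z * h⁻¹) * (h * x * h⁻¹) := by group
  have hyk : Commute y k := by
    obtain ⟨n, rfl⟩ := Subgroup.mem_zpowers_iff.mp hk
    exact ((hyz.mul_right hyz')).zpow_right n
  refine ⟨k⁻¹ * h, mul_mem (inv_mem hkH) hh, ?_, ?_⟩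
  · show k⁻¹ * h * z = z * (k⁻¹ * h)
    calc k⁻¹ * h * z = k⁻¹ * (h * z * h⁻¹) * h := by group
      _ = k⁻¹ * (k * z * k⁻¹) * h := by rw [hmid]
      _ = z * (k⁻¹ * h) := by group
  · calc k⁻¹ * h * x * (k⁻¹ * h)⁻¹ = k⁻¹ * (h * x * h⁻¹) * k := by group
      _ = k⁻¹ * y * k := by rw [hconj]
      _ = y := by
        rw [mul_assoc, hyk.eq]
        group

end Cfsg.Agent.S1182
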