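import Cfsg.Statements.S1187
import Cfsg.Agent.Lib.ZStar.Inv

set_option autoImplicit false
open Cfsg

namespace Cfsg.Agent.S1187

/-- Let z be an isolated involution of the finite group G and p a prime. If Q is a p-subgroup normalized by z that is maximal among p-subgroups normalized by z, then Q is a Sylow p-subgroup of G. -/
theorem result {G : Type*} [Group G] [Finite G] (z : G) (hz : Cfsg.IsIsolatedInvolution z) {p : ℕ} [Fact p.Prime] (Q : Subgroup G) (hQ : IsPGroup p Q) (hzQ : z ∈ Subgroup.normalizer (Q : Set G)) (hmax : ∀ R : Subgroup G, IsPGroup p R → z ∈ Subgroup.normalizer (R : Set G) → Q ≤ R → R = Q) : ∃ P : Sylow p G, (P : Subgroup G) = Q := by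
  classical
  have hzz : z * z = 1 := Cfsg.Agent.Lib.Isolated.Basic.mul_self hz
  have key : ∃ P : Sylow p G, Q ≤ P ∧ z ∈ Subgroup.normalizer ((P : Subgroup G) : Set G) := by
    by_cases hp : p = 2
    · subst hp
      have hpz : IsPGroup 2 (Subgroup.zpowers z) := by
        apply IsPGroup.of_card (n := 1)
        rw [Nat.card_zpowers, hz.1, pow_one]
      have hle : Subgroup.zpowers z ≤ Subgroup.normalizer (Q : Set G) :=
        (Subgroup.zpowers_le).mpr hzQ
      have hR := hpz.to_sup_of_normal_right' hQ hle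
      have hzn : z ∈ Subgroup.normalizer ((Subgroup.zpowers z ⊔ Q : Subgroup G) : Set G) := by
        exact Subgroup.le_normalizer (Subgroup.mem_sup_left (Subgroup.mem_zpowers z))
      have h1 := hmax _ hR hzn le_sup_right
      have hzQmem : z ∈ Q := by
        rw [← h1]
        exact Subgroup.mem_sup_left (Subgroup.mem_zpowers z)
      obtain ⟨P, hP⟩ := hQ.exists_le_sylow
      have hPC := Cfsg.Agent.Lib.Isolated.Fusion.le_centralizer_of_mem hz P.isPGroup' (hP hzQmem)
      refine ⟨P, hP, Subgroup.le_normalizer (hP hzQmem)⟩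
    · obtain ⟨P, hP, hPz⟩ := Cfsg.Agent.Lib.ZStar.Inv.exists_sylow_invBy hz hp hQ
        (Cfsg.Agent.Lib.ZStar.Inv.invBy_of_mem_normalizer hzQ)
      exact ⟨P, hP, Cfsg.Agent.Lib.ZStar.Inv.mem_normalizer_of_invBy hzz hPz⟩
  obtain ⟨P, hP, hPz⟩ := key
  exact ⟨P, hmax _ P.isPGroup' hPz hP⟩

end Cfsg.Agent.S1187
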