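import Cfsg.Statements.S1231
import Cfsg.Agent.Lib.StrongEmb.Basic
import Cfsg.Agent.Lib.Transfer.Frobenius

set_option autoImplicit false
open Cfsg

namespace Cfsg.Agent.S1231

open Cfsg.Agent.Lib.StrongEmb.Basic (mem_map_conj_iff)

private lemma rank_of_injective {K L : Type*} [Group K] [Group L] {p m : ℕ} (f : K →* L)
    (hf : Function.Injective f) (hL : Cfsg.PRankLE p m L) : Cfsg.PRankLE p m K := by
  intro A hA hexp
  have h1 : IsMulCommutative (A.map f) := by
    refine ⟨⟨?_⟩⟩
    rintro ⟨_, a, ha, rfl⟩ ⟨_, b, hb, rfl⟩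
    apply Subtype.ext
    have := hA.is_comm.comm ⟨a, ha⟩ ⟨b, hb⟩
    have h2 : a * b = b * a := congrArg Subtype.val this
    change f a * f b = f b * f a
    rw [← map_mul, ← map_mul, h2]
  have h2 := hL (A.map f) h1 (by
    rintro _ ⟨a, ha, rfl⟩
    rw [← map_pow, hexp a ha, map_one])
  rwa [Subgroup.card_map_of_injective hf] at h2

private lemma not_rank_mono {G : Type*} [Group G] {p m : ℕ} {X Y : Subgroup G} (h : X ≤ Y)
    (hX : ¬ Cfsg.PRankLE p m X) : ¬ Cfsg.PRankLE p m Y := fun hY =>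
  hX (rank_of_injective (Subgroup.inclusion h) (Subgroup.inclusion_injective h) hY)

private lemma not_rank_map {G : Type*} [Group G] {p m : ℕ} {X : Subgroup G} (e : G ≃* G)
    (hX : ¬ Cfsg.PRankLE p m X) : ¬ Cfsg.PRankLE p m (X.map e.toMonoidHom) := fun hY =>
  hX (rank_of_injective (X.equivMapOfInjective e.toMonoidHom e.injective).toMonoidHom
    (X.equivMapOfInjective e.toMonoidHom e.injective).injective hY)

private lemma map_conj_one {G : Type*} [Group G] (W : Subgroup G) :
    W.map (MulAut.conj (1 : G)).toMonoidHom = W := by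
  ext x
  simp [Subgroup.mem_map]

private lemma map_conj_map {G : Type*} [Group G] (W : Subgroup G) (a b : G) :
    (W.map (MulAut.conj a).toMonoidHom).map (MulAut.conj b).toMonoidHom
      = W.map (MulAut.conj (b * a)).toMonoidHom := by
  rw [Subgroup.map_map]
  congr 1
  ext x
  simp [mul_assoc]

private lemma map_conj_le_of_mem {G : Type*} [Group G] {H : Subgroup G} {h : G} (hh : h ∈ H) :
    H.map (MulAut.conj h).toMonoidHom ≤ H := by
  rintro _ ⟨x, hx, rfl⟩
  exact H.mul_mem (H.mul_mem hh hx) (H.inv_mem hh)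

private lemma card_map_conj {G : Type*} [Group G] (X : Subgroup G) (a : G) :
    Nat.card (X.map (MulAut.conj a).toMonoidHom) = Nat.card X :=
  Subgroup.card_map_of_injective (MulAut.conj a).injective

private lemma le_map_conj_iff {G : Type*} [Group G] {X H : Subgroup G} {c : G} :
    X ≤ H.map (MulAut.conj c).toMonoidHom ↔ X.map (MulAut.conj c⁻¹).toMonoidHom ≤ H := by
  constructor
  · rintro h _ ⟨x, hx, rfl⟩
    have := mem_map_conj_iff.mp (h hx)
    simpa using this
  · intro h x hx
    apply mem_map_conj_iff.mpr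
    have := h ⟨x, hx, rfl⟩
    simpa using this



/-- Let H be a subgroup of the finite group G, p a prime, k ≥ 1, and P a Sylow p-subgroup of H whose p-rank is at least k. Then N_G(X) ≤ H for every subgroup X of P of p-rank at least k if and only if H ∩ gHg⁻¹ has p-rank less than k for every g ∉ H. -/
theorem result {G : Type*} [Group G] [Finite G] {p : ℕ} [Fact p.Prime] (k : ℕ) (hk : 1 ≤ k) (H : Subgroup G) (P : Sylow p ↥H) (hP : ¬ Cfsg.PRankLE p (k - 1) ↥(P : Subgroup ↥H)) : (∀ X : Subgroup G, X ≤ (P : Subgroup ↥H).map H.subtype → ¬ Cfsg.PRankLE p (k - 1) ↥X → Subgroup.normalizer (X : Set G) ≤ H) ↔ (∀ g : G, g ∉ H → Cfsg.PRankLE p (k - 1) ↥(H ⊓ H.map (MulAut.conj g).toMonoidHom)) := by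
  set Q : Subgroup G := (P : Subgroup ↥H).map H.subtype with hQdef
  have hQH : Q ≤ H := by
    rintro _ ⟨x, -, rfl⟩
    exact x.2
  have hQp : IsPGroup p Q := P.2.map H.subtype
  -- each `p`-subgroup of `H` can be conjugated into `Q` by an element of `H`
  have hQmax : ∀ R : Subgroup G, R ≤ H → IsPGroup p R →
      ∃ h ∈ H, R.map (MulAut.conj h).toMonoidHom ≤ Q := by
    intro R hRH hR
    have hR' : IsPGroup p (R.comap H.subtype) := hR.comap_subtype
    obtain ⟨Z, hZ⟩ := hR'.exists_le_sylow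
    obtain ⟨h, hh⟩ := MulAction.exists_smul_eq H Z P
    refine ⟨h, h.2, ?_⟩
    rintro _ ⟨r, hr, rfl⟩
    have h1 : (⟨r, hRH hr⟩ : H) ∈ (Z : Subgroup H) := hZ hr
    have h2 : h * ⟨r, hRH hr⟩ * h⁻¹ ∈ (P : Subgroup H) := by
      rw [← hh, Sylow.coe_subgroup_smul]
      exact ⟨_, h1, rfl⟩
    exact ⟨_, h2, rfl⟩
  constructor
  · intro hA g hg
    by_contra hrank
    -- the family of admissible pairs
    let 𝓐 : Set (Subgroup G) := {R | ∃ c : G, c ∉ H ∧ R ≤ H ∧ R.map (MulAut.conj c⁻¹).toMonoidHom ≤ H ∧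
      IsPGroup p R ∧ ¬ Cfsg.PRankLE p (k - 1) R}
    have hne : 𝓐.Nonempty := by
      -- an elementary abelian subgroup witnessing the rank
      unfold Cfsg.PRankLE at hrank
      push Not at hrank
      obtain ⟨E, hEc, hEe, hEcard⟩ := hrank
      let R₀ : Subgroup G := E.map (H ⊓ H.map (MulAut.conj g).toMonoidHom).subtype
      refine ⟨R₀, g, hg, ?_, ?_, ?_, ?_⟩
      · rintro _ ⟨x, -, rfl⟩
        exact x.2.1
      · rw [← le_map_conj_iff]
        rintro _ ⟨x, -, rfl⟩
        exact x.2.2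
      · rw [isPGroup_iff_pow_pow_eq_one]
        rintro ⟨_, x, hx, rfl⟩
        refine ⟨1, ?_⟩
        apply Subtype.ext
        have h2 := congrArg Subtype.val (hEe x hx)
        simp only [pow_one, Subgroup.coe_pow, OneMemClass.coe_one, Subgroup.coe_subtype] at h2 ⊢
        exact h2
      · intro hR₀
        have h1 : Cfsg.PRankLE p (k - 1) E := rank_of_injective
          (E.equivMapOfInjective _ (Subgroup.subtype_injective _)).toMonoidHom
          (MulEquiv.injective _) hR₀
        have h2 := h1 ⊤ (by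
          refine ⟨⟨?_⟩⟩
          rintro ⟨a, -⟩ ⟨b, -⟩
          apply Subtype.ext
          exact hEc.is_comm.comm a b) (by
          rintro ⟨a, ha⟩ -
          apply Subtype.ext
          exact hEe a ha)
        rw [Subgroup.card_top] at h2
        omega
    obtain ⟨R, ⟨c, hcH, hRH, hRc, hRp, hRr⟩, hmax⟩ := Set.exists_max_image 𝓐 (fun R => Nat.card R) (Set.toFinite _) hne
    -- move `R` into `Q`
    obtain ⟨h₁, hh₁, hh₁Q⟩ := hQmax R hRH hRp
    let R₁ : Subgroup G := R.map (MulAut.conj h₁).toMonoidHom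
    let c₁ : G := h₁ * c * h₁⁻¹
    have hc₁ : c₁ ∉ H := by
      intro h
      apply hcH
      have := H.mul_mem (H.mul_mem (H.inv_mem hh₁) h) hh₁
      simpa [c₁, mul_assoc] using this
    have hR₁p : IsPGroup p R₁ := hRp.map _
    have hR₁r : ¬ Cfsg.PRankLE p (k - 1) R₁ := not_rank_map _ hRr
    have hR₁card : Nat.card R₁ = Nat.card R := card_map_conj R h₁
    have hR₁Q : R₁ ≤ Q := hh₁Q
    have hR₁H : R₁ ≤ H := hR₁Q.trans hQH
    have hR₁c : R₁.map (MulAut.conj c₁⁻¹).toMonoidHom ≤ H := by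
      have : R₁.map (MulAut.conj c₁⁻¹).toMonoidHom =
          (R.map (MulAut.conj c⁻¹).toMonoidHom).map (MulAut.conj h₁).toMonoidHom := by
        simp only [R₁]
        rw [map_conj_map, map_conj_map]
        congr 3
        simp only [c₁]
        group
      rw [this]
      exact (Subgroup.map_mono hRc).trans (map_conj_le_of_mem hh₁)
    -- move `c⁻¹ R c` into `Q`
    obtain ⟨h₂, hh₂, hh₂Q⟩ := hQmax _ hR₁c (hR₁p.map _)
    rw [map_conj_map] at hh₂Q
    let a : G := h₂ * c₁⁻¹
    have ha : a ∉ H := by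
      intro h
      apply hc₁
      have := H.mul_mem (H.inv_mem (H.mul_mem (H.inv_mem hh₂) h)) (H.one_mem)
      simpa [a, mul_assoc] using this
    let R₂ : Subgroup G := R₁.map (MulAut.conj a).toMonoidHom
    have hR₂Q : R₂ ≤ Q := hh₂Q
    have hR₂p : IsPGroup p R₂ := hR₁p.map _
    have hR₂r : ¬ Cfsg.PRankLE p (k - 1) R₂ := not_rank_map _ hR₁r
    have hR₂card : Nat.card R₂ = Nat.card R := (card_map_conj R₁ a).trans hR₁card
    have hR₂H : R₂ ≤ H := hR₂Q.trans hQH
    -- `a⁻¹ R₂ a = R₁ ≤ H`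
    have hR₂a : R₂.map (MulAut.conj a⁻¹).toMonoidHom = R₁ := by
      simp only [R₂]
      rw [map_conj_map, inv_mul_cancel, map_conj_one]
    -- maximality rules out `R₂ < Q`
    have hnormR₁ : Subgroup.normalizer (R₁ : Set G) ≤ H := hA R₁ hR₁Q hR₁r
    by_cases hlt : R₂ < Q
    · obtain ⟨x, hxQ, hxR₂, hxN⟩ := Cfsg.Agent.Lib.Transfer.Frobenius.exists_mem_normalizer_of_lt hQp hlt
      -- the group `Q ⊓ N(R₂)` is admissible
      let S₁ : Subgroup G := Q ⊓ Subgroup.normalizer (R₂ : Set G)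
      have hS₁Q : S₁ ≤ Q := inf_le_left
      have hR₂S₁ : R₂ ≤ S₁ := le_inf hR₂Q Subgroup.le_normalizer
      have hS₁p : IsPGroup p S₁ := hQp.to_le hS₁Q
      have hS₁a : S₁.map (MulAut.conj a⁻¹).toMonoidHom ≤ H := by
        refine le_trans ?_ hnormR₁
        rintro _ ⟨s, hs, rfl⟩
        rw [Subgroup.mem_normalizer_iff]
        intro y
        have hsN : s ∈ Subgroup.normalizer (R₂ : Set G) := hs.2
        have hyR' : ∀ w, w ∈ R₁ ↔ a * w * a⁻¹ ∈ R₂ := by
          intro w
          have := mem_map_conj_iff (H := R₁) (g := a) (x := a * w * a⁻¹)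
          rw [show a⁻¹ * (a * w * a⁻¹) * a = w by group] at this
          exact this.symm
        rw [hyR' y, hyR' _]
        have h3 := (Subgroup.mem_normalizer_iff.mp hsN) (a * y * a⁻¹)
        rw [h3]
        have h4 : s * (a * y * a⁻¹) * s⁻¹ =
            a * ((MulAut.conj a⁻¹).toMonoidHom s * y * ((MulAut.conj a⁻¹).toMonoidHom s)⁻¹) * a⁻¹ := by
          simp only [MulEquiv.toMonoidHom_eq_coe, MonoidHom.coe_coe, MulAut.conj_apply]
          group
        rw [h4]
      have hS₁mem : S₁ ∈ 𝓐 := ⟨a, ha, hS₁Q.trans hQH, hS₁a, hS₁p, not_rank_mono hR₂S₁ hR₂r⟩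
      have h5 : Nat.card S₁ ≤ Nat.card R := hmax S₁ hS₁mem
      have h6 : R₂ < S₁ := lt_of_le_of_ne hR₂S₁ (by
        intro h
        apply hxR₂
        rw [h]
        exact ⟨hxQ, hxN⟩)
      have h7 : Nat.card R₂ < Nat.card S₁ := Cfsg.Agent.Lib.Transfer.Frobenius.card_lt_card_of_lt h6
      omega
    · have hR₂eq : R₂ = Q := by
        by_contra h
        exact hlt (lt_of_le_of_ne hR₂Q h)
      -- so `R₁ = Q`
      have hR₁eq : R₁ = Q := by
        apply Subgroup.eq_of_le_of_card_ge hR₁Q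
        rw [← hR₂eq, hR₂card, hR₁card]
      have h8 : Q.map (MulAut.conj a).toMonoidHom = Q := by
        have h9 : R₁.map (MulAut.conj a).toMonoidHom = R₂ := rfl
        rw [hR₁eq, hR₂eq] at h9
        exact h9
      have haN : a ∈ Subgroup.normalizer (Q : Set G) := by
        rw [Subgroup.mem_normalizer_iff]
        intro x
        constructor
        · intro hx
          rw [← h8]
          exact ⟨x, hx, rfl⟩
        · intro hx
          rw [← h8] at hx
          obtain ⟨y, hy, hyx⟩ := hx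
          have : y = x := by
            have h10 : a * y * a⁻¹ = a * x * a⁻¹ := hyx
            simpa using h10
          exact this ▸ hy
      exact ha (hA Q le_rfl (hR₁eq ▸ hR₁r) haN)
  · intro hB X hX hrank g hg
    by_contra hgH
    have hXH : X ≤ H := hX.trans hQH
    have hXg : X ≤ H.map (MulAut.conj g).toMonoidHom := by
      intro x hx
      apply mem_map_conj_iff.mpr
      apply hXH
      have := (Subgroup.mem_normalizer_iff.mp ((Subgroup.normalizer _).inv_mem hg) x).mp hx
      simpa using this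
    exact not_rank_mono (le_inf hXH hXg) hrank (hB g hgH)

end Cfsg.Agent.S1231
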