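import Cfsg.Statements.S1233
import Cfsg.Agent.S1232
import Cfsg.Agent.Lib.SelfCentE8.Q8Q8

set_option autoImplicit false
open Cfsg

namespace Cfsg.Agent.S1233

/-- Let S be a finite 2-group and Q a subgroup of order 32 generated by two elementwise-commuting subgroups Q₁, Q₂ each isomorphic to the quaternion group of order 8 (so Q = Q₁ ∗ Q₂). If C_S(Q) ≤ Q, then every section of S has 2-rank at most 4. -/
theorem result {S : Type*} [Group S] [Finite S] (hS : IsPGroup 2 S) (Q Q₁ Q₂ : Subgroup S) (e₁ : Q₁ ≃* QuaternionGroup 2) (e₂ : Q₂ ≃* QuaternionGroup 2) (hcomm : ∀ a ∈ Q₁, ∀ b ∈ Q₂, a * b = b * a) (hQ : Q₁ ⊔ Q₂ = Q) (hQ32 : Nat.card Q = 32) (hC : Subgroup.centralizer (Q : Set S) ≤ Q) : Cfsg.SectionalPRankLE 2 4 S := by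
  obtain ⟨A, h1, h2, h3⟩ := Cfsg.Agent.Lib.SelfCentE8.Q8Q8.exists_selfCent hS Q Q₁ Q₂ e₁ e₂ hcomm hQ hQ32 hC
  exact Cfsg.Agent.S1232.result hS A h1 h2 h3

end Cfsg.Agent.S1233
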