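import Cfsg.Statements.S1234
import Cfsg.Agent.Lib.SelfCentE8.Main

set_option autoImplicit false
open Cfsg

namespace Cfsg.Agent.S1234

open Cfsg.Agent.Lib.TwoFusion.SecRank Cfsg.Agent.Lib.TwoFusion.SelfCentE16


/-- Let S be a finite 2-group and Q ≤ S a subgroup of order 32 having an elementary abelian subgroup E of order 16 and an involution s ∉ E whose centralizer in E has order 4 (so Q ≅ (Z₂ × Z₂) ≀ Z₂). If C_S(Z(Q)) = Q, then every section of S has 2-rank at most 4. -/
theorem result {S : Type*} [Group S] [Finite S] (hS : IsPGroup 2 S) (Q E : Subgroup S) (hEQ : E ≤ Q) (hE : Cfsg.IsElementaryAbelian 2 E) (hE16 : Nat.card E = 16) (hQ32 : Nat.card Q = 32) (s : S) (hsQ : s ∈ Q) (hsE : s ∉ E) (hs : orderOf s = 2) (hfix : Nat.card ↥(E ⊓ Subgroup.centralizer ({s} : Set S)) = 4) (hC : Subgroup.centralizer (((Subgroup.center Q).map Q.subtype : Subgroup S) : Set S) = Q) : Cfsg.SectionalPRankLE 2 4 S := by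
  classical
  have hss : s * s = 1 := by
    rw [← sq, ← hs]
    exact pow_orderOf_eq_one s
  have sinv : s⁻¹ = s := inv_eq_of_mul_eq_one_left hss
  have hE2 : ∀ e ∈ E, e * e = 1 := fun e he => by rw [← sq]; exact hE.2 e he
  have hEc : ∀ {x y : S}, x ∈ E → y ∈ E → x * y = y * x := fun hx hy => comm_of_el hE2 hx hy
  obtain ⟨Z, hZdef⟩ : ∃ Z : Subgroup S, Z = E ⊓ Subgroup.centralizer ({s} : Set S) := ⟨_, rfl⟩
  rw [← hZdef] at hfix
  have hZs : ∀ z ∈ Z, z * s = s * z := by
    intro z hz
    rw [hZdef] at hz
    exact (Subgroup.mem_centralizer_singleton_iff.1 hz.2)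
  have hZmem : ∀ x, x ∈ E → x * s = s * x → x ∈ Z := by
    intro x hx h
    rw [hZdef]
    exact ⟨hx, Subgroup.mem_centralizer_singleton_iff.2 h⟩
  have hZE : Z ≤ E := by
    rw [hZdef]
    exact inf_le_left
  let A : Subgroup S :=
    { carrier := {x | x ∈ Z ∨ s * x ∈ Z}
      mul_mem' := by
        rintro x y (hx | hx) (hy | hy)
        · exact Or.inl (Z.mul_mem hx hy)
        · right
          have e : s * (x * y) = x * (s * y) := by
            rw [← mul_assoc, ← hZs x hx, mul_assoc]
          rw [e]
          exact Z.mul_mem hx hy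
        · right
          rw [← mul_assoc]
          exact Z.mul_mem hx hy
        · left
          have e : x * y = (s * x) * (s * y) := by
            have h1 : (s * x) * s = s * (s * x) := hZs _ hx
            calc x * y = (s * s) * x * y := by rw [hss, one_mul]
              _ = (s * (s * x)) * y := by group
              _ = ((s * x) * s) * y := by rw [h1]
              _ = _ := by group
          rw [e]
          exact Z.mul_mem hx hy
      one_mem' := Or.inl (one_mem _)
      inv_mem' := by
        rintro x (hx | hx)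
        · exact Or.inl (Z.inv_mem hx)
        · right
          have h1 := Z.inv_mem hx
          have e : s * x⁻¹ = (s * x)⁻¹ := by
            have h2 : (s * x)⁻¹ * s = s * (s * x)⁻¹ := hZs _ h1
            calc s * x⁻¹ = s * ((s * x)⁻¹ * s) := by group
              _ = (s * (s * x)⁻¹) * s := by group
              _ = ((s * x)⁻¹ * s) * s := by rw [h2]
              _ = (s * x)⁻¹ * (s * s) := by group
              _ = _ := by rw [hss, mul_one]
          rw [e]
          exact h1 }
  have hZA : Z ≤ A := fun z hz => Or.inl hz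
  have hsA : s ∈ A := Or.inr (by
    rw [hss]
    exact one_mem _)
  have hsZ : s ∉ Z := fun h => hsE (hZE h)
  have hA2 : ∀ a ∈ A, a * a = 1 := by
    rintro x (hx | hx)
    · exact hE2 x (hZE hx)
    · have h1 : (s * x) * s = s * (s * x) := hZs _ hx
      have h2 := hE2 _ (hZE hx)
      calc x * x = (s * s) * x * x := by rw [hss, one_mul]
        _ = (s * (s * x)) * x := by group
        _ = ((s * x) * s) * x := by rw [h1]
        _ = (s * x) * (s * x) := by group
        _ = 1 := h2
  have hA8 : Nat.card A = 8 := by
    have hi : Z.relIndex A ≤ 2 := by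
      have := relIndex_le_of_fun Z A (X := Bool) (fun x => decide (x ∈ Z)) (by
        intro x hx y hy hf
        have hiff : x ∈ Z ↔ y ∈ Z := by simpa using hf
        by_cases h1 : x ∈ Z
        · exact Z.mul_mem (Z.inv_mem h1) (hiff.1 h1)
        · have h2 : y ∉ Z := fun h => h1 (hiff.2 h)
          have hx2 : s * x ∈ Z := hx.resolve_left h1
          have hy2 : s * y ∈ Z := hy.resolve_left h2
          have e : x⁻¹ * y = (s * x)⁻¹ * (s * y) := by group
          rw [e]
          exact Z.mul_mem (Z.inv_mem hx2) hy2)
      simpa using this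
    have hi1 : Z.relIndex A ≠ 1 := fun h => hsZ (Subgroup.relIndex_eq_one.1 h hsA)
    have hi0 : Z.relIndex A ≠ 0 := Subgroup.index_ne_zero_of_finite
    have h2 : Z.relIndex A = 2 := by omega
    rw [card_eq_relIndex_mul hZA, h2, hfix]
  have hAc : ∀ x, (∀ a ∈ A, x * a = a * x) → x ∈ A := by
    intro x hx
    have hQcard : Nat.card Q = 2 * Nat.card E := by rw [hQ32, hE16]
    have hxQ : x ∈ Q := by
      rw [← SetLike.mem_coe, ← hC, SetLike.mem_coe, Subgroup.mem_centralizer_iff]
      rintro _ ⟨q, hq, rfl⟩
      have hqc : ∀ y ∈ Q, y * (q : S) = (q : S) * y := by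
        intro y hy
        have h1 := (Subgroup.mem_center_iff.1 hq) ⟨y, hy⟩
        exact congrArg Subtype.val h1
      have hqs : (q : S) * s = s * (q : S) := (hqc s hsQ).symm
      have hqE : (q : S) ∈ E := by
        by_contra hqE
        have h1 : s * (q : S) ∈ E := Cfsg.Agent.Lib.SelfCentE8.Sel2.mul_mem_of_two hEQ hQcard hsQ q.2 hsE hqE
        have hall : ∀ e ∈ E, e * s = s * e := by
          intro e he
          have h2 := hqc e (hEQ he)
          have h3 : e * (s * (q : S)) = (s * (q : S)) * e := hEc he h1
          have h4 : (e * s) * (q : S) = (s * e) * (q : S) := by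
            calc (e * s) * (q : S) = e * (s * (q : S)) := by group
              _ = (s * (q : S)) * e := h3
              _ = s * ((q : S) * e) := by group
              _ = s * (e * (q : S)) := by rw [← h2]
              _ = _ := by group
          exact mul_right_cancel h4
        have hEZ : E ≤ Z := fun e he => hZmem e he (hall e he)
        have := Subgroup.card_le_of_le hEZ
        omega
      have hqZ := hZmem _ hqE hqs
      exact (hx _ (hZA hqZ)).symm
    have hxs : x * s = s * x := hx s hsA
    by_cases hxE : x ∈ E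
    · exact Or.inl (hZmem x hxE hxs)
    · right
      have h1 : s * x ∈ E := Cfsg.Agent.Lib.SelfCentE8.Sel2.mul_mem_of_two hEQ hQcard hsQ hxQ hsE hxE
      apply hZmem _ h1
      rw [mul_assoc, hxs, ← mul_assoc]
  exact Cfsg.Agent.Lib.SelfCentE8.Main.sectional_main hS A hA2 hA8 hAc

end Cfsg.Agent.S1234
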