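import Cfsg.Statements.S1235
import Mathlib
import Cfsg.Agent.Lib.TwoFusion.SelfCentE16

set_option autoImplicit false
open Cfsg

namespace Cfsg.Agent.S1235

open Cfsg.Agent.Lib.TwoFusion.SecRank Cfsg.Agent.Lib.TwoFusion.SelfCentE16

variable {G : Type*} [Group G]

private lemma exists_big_cyclic {D : Subgroup G}
    (hD : (∃ m : ℕ, 2 ≤ m ∧ Nonempty (D ≃* DihedralGroup m)) ∨ Cfsg.IsQuasiDihedral D) :
    ∃ c ∈ D, Nat.card D ≤ 2 * orderOf c := by
  rcases hD with ⟨m, hm, ⟨e⟩⟩ | ⟨n, hn, hcard, x, y, hx, _, _⟩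
  · have : NeZero m := ⟨by omega⟩
    refine ⟨(e.symm (DihedralGroup.r 1) : D), (e.symm _).2, ?_⟩
    rw [Nat.card_congr e.toEquiv, DihedralGroup.nat_card, Subgroup.orderOf_coe, MulEquiv.orderOf_eq,
      DihedralGroup.orderOf_r_one]
  · refine ⟨(x : D), x.2, ?_⟩
    rw [hcard, Subgroup.orderOf_coe, hx, pow_succ, mul_comm]

private lemma klein_of_comm {D : Subgroup G}
    (hD : (∃ m : ℕ, 2 ≤ m ∧ Nonempty (D ≃* DihedralGroup m)) ∨ Cfsg.IsQuasiDihedral D)
    (hab : ∀ a ∈ D, ∀ c ∈ D, a * c = c * a) : Nat.card D = 4 ∧ ∀ d ∈ D, d * d = 1 := by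
  rcases hD with ⟨m, hm, ⟨e⟩⟩ | ⟨n, hn, hcard, x, y, hx, hy, hrel⟩
  · have hm2 : m = 2 := by
      by_contra hne
      have hm3 : 3 ≤ m := by omega
      have : NeZero m := ⟨by omega⟩
      have hcomm : (DihedralGroup.r 1 : DihedralGroup m) * DihedralGroup.sr 0 =
          DihedralGroup.sr 0 * DihedralGroup.r 1 := by
        have h1 := hab _ (e.symm (DihedralGroup.r 1)).2 _ (e.symm (DihedralGroup.sr 0)).2
        have h2 : e.symm (DihedralGroup.r 1) * e.symm (DihedralGroup.sr 0) =
            e.symm (DihedralGroup.sr 0) * e.symm (DihedralGroup.r 1) := Subtype.ext h1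
        apply e.symm.injective
        rw [map_mul, map_mul, h2]
      rw [DihedralGroup.r_mul_sr, DihedralGroup.sr_mul_r] at hcomm
      have h3 : (0 : ZMod m) - 1 = 0 + 1 := DihedralGroup.sr.inj hcomm
      have h4 : ((2 : ℕ) : ZMod m) = 0 := by
        push_cast
        linear_combination -h3
      have h5 := (ZMod.natCast_eq_zero_iff 2 m).1 h4
      have := Nat.le_of_dvd (by norm_num) h5
      omega
    subst hm2
    constructor
    · rw [Nat.card_congr e.toEquiv, DihedralGroup.nat_card]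
    · intro d hd
      have h1 : ∀ z : DihedralGroup 2, z * z = 1 := by decide
      have h2 := h1 (e ⟨d, hd⟩)
      have h3 : e (⟨d, hd⟩ * ⟨d, hd⟩) = 1 := by rw [map_mul, h2]
      have h4 : (⟨d, hd⟩ * ⟨d, hd⟩ : D) = 1 := (map_eq_one_iff e e.injective).1 h3
      exact congrArg Subtype.val h4
  · exfalso
    have h1 : y * x = x * y := Subtype.ext (hab _ y.2 _ x.2)
    have h2 : y * x * y⁻¹ = x := by rw [h1]; group
    rw [h2] at hrel
    obtain ⟨k, rfl⟩ : ∃ k, n = k + 1 := ⟨n - 1, by omega⟩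
    have hk : 2 ≤ k := by omega
    simp only [Nat.add_sub_cancel] at hrel
    have h4 : 4 ≤ 2 ^ k := by
      calc 4 = 2 ^ 2 := by norm_num
        _ ≤ 2 ^ k := Nat.pow_le_pow_right (by norm_num) hk
    have h5 : x ^ (2 ^ k - 2) = 1 := by
      have h6 : x ^ (2 ^ k - 1) = x ^ (2 ^ k - 2) * x := by
        rw [← pow_succ]
        congr 1
        omega
      rw [h6] at hrel
      exact mul_eq_right.1 hrel.symm
    have h7 : orderOf x ∣ 2 ^ k - 2 := orderOf_dvd_of_pow_eq_one h5
    rw [hx, pow_succ] at h7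
    have := Nat.le_of_dvd (by omega) h7
    omega

private lemma central_in_cyclic {D : Subgroup G} [Finite G] (hna : ¬ ∀ a ∈ D, ∀ c ∈ D, a * c = c * a) {c : G}
    (hc : c ∈ D) (hcard : Nat.card D ≤ 2 * orderOf c) {d : G} (hd : d ∈ D)
    (hdc : ∀ a ∈ D, d * a = a * d) : d ∈ Subgroup.zpowers c := by
  have hCD : Subgroup.zpowers c ≤ D := (Subgroup.zpowers_le).2 hc
  have hrel : (Subgroup.zpowers c).relIndex D ≤ 2 := by
    have h1 := card_eq_relIndex_mul hCD
    rw [Nat.card_zpowers] at h1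
    have hpos : 0 < orderOf c := orderOf_pos c
    rw [h1] at hcard
    exact Nat.le_of_mul_le_mul_right hcard hpos
  have hne : (Subgroup.zpowers c).relIndex D ≠ 0 := Subgroup.index_ne_zero_of_finite
  have hdvd : (Subgroup.zpowers c).relIndex D ∣ 2 := by
    interval_cases h : (Subgroup.zpowers c).relIndex D
    · exact absurd rfl hne
    · exact one_dvd _
    · exact dvd_rfl
  obtain ⟨a₀, ha₀, hform⟩ := Subgroup.relIndex_dvd_two_iff.1 hdvd
  by_contra hdC
  have h1 : d * a₀ ∈ Subgroup.zpowers c := (hform d hd).resolve_right hdC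
  have hform' : ∀ b ∈ D, b ∈ Subgroup.zpowers c ∨ ∃ u ∈ Subgroup.zpowers c, b = u * d := by
    intro b hb
    rcases hform b hb with h2 | h2
    · right
      refine ⟨b * a₀ * (d * a₀)⁻¹, (Subgroup.zpowers c).mul_mem h2 ((Subgroup.zpowers c).inv_mem h1), ?_⟩
      group
    · exact Or.inl h2
  have hCc : ∀ u ∈ Subgroup.zpowers c, ∀ v ∈ Subgroup.zpowers c, u * v = v * u := by
    rintro _ ⟨i, rfl⟩ _ ⟨j, rfl⟩
    exact ((Commute.refl c).zpow_zpow i j).eq
  apply hna
  intro a ha e he
  rcases hform' a ha with h2 | ⟨u, hu, rfl⟩ <;> rcases hform' e he with h3 | ⟨v, hv, rfl⟩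
  · exact hCc a h2 e h3
  · calc a * (v * d) = (a * v) * d := by group
      _ = (v * a) * d := by rw [hCc a h2 v hv]
      _ = v * (a * d) := by group
      _ = v * (d * a) := by rw [hdc a ha]
      _ = v * d * a := by group
  · calc u * d * e = u * (d * e) := by group
      _ = u * (e * d) := by rw [hdc e he]
      _ = (u * e) * d := by group
      _ = (e * u) * d := by rw [hCc u hu e h3]
      _ = e * (u * d) := by group
  · have hdv := hdc v (hCD hv)
    have hdu := hdc u (hCD hu)
    calc u * d * (v * d) = u * (d * v) * d := by group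
      _ = u * (v * d) * d := by rw [hdv]
      _ = (u * v) * d * d := by group
      _ = (v * u) * d * d := by rw [hCc u hu v hv]
      _ = v * (u * d) * d := by group
      _ = v * (d * u) * d := by rw [hdu]
      _ = v * d * (u * d) := by group

private lemma unique_inv_in_cyclic [Finite G] {c u v : G} (hu : u ∈ Subgroup.zpowers c) (hv : v ∈ Subgroup.zpowers c)
    (huu : u * u = 1) (hvv : v * v = 1) (hu1 : u ≠ 1) (hv1 : v ≠ 1) : u = v := by
  classical
  by_contra hne
  have := Fintype.ofFinite (Subgroup.zpowers c)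
  have hle := IsCyclic.card_pow_eq_one_le (α := Subgroup.zpowers c) (n := 2) (by norm_num)
  let u' : Subgroup.zpowers c := ⟨u, hu⟩
  let v' : Subgroup.zpowers c := ⟨v, hv⟩
  have hsub : ({1, u', v'} : Finset (Subgroup.zpowers c)) ⊆
      Finset.univ.filter (fun a : Subgroup.zpowers c => a ^ 2 = 1) := by
    intro a ha
    simp only [Finset.mem_insert, Finset.mem_singleton] at ha
    simp only [Finset.mem_filter, Finset.mem_univ, true_and]
    rcases ha with rfl | rfl | rfl
    · simp
    · rw [sq]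
      exact Subtype.ext huu
    · rw [sq]
      exact Subtype.ext hvv
  have h3 : ({1, u', v'} : Finset (Subgroup.zpowers c)).card = 3 := by
    apply Finset.card_eq_three.2
    refine ⟨1, u', v', ?_, ?_, ?_, rfl⟩
    · intro h
      exact hu1 (congrArg Subtype.val h).symm
    · intro h
      exact hv1 (congrArg Subtype.val h).symm
    · intro h
      exact hne (congrArg Subtype.val h)
  have h4 := Finset.card_le_card hsub
  omega

private lemma card_prod_eq {D B T : Subgroup G} (hDT : D ≤ T) (hBT : B ≤ T)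
    (hcomm : ∀ a ∈ D, ∀ b ∈ B, a * b = b * a) (hdisj : D ⊓ B = ⊥) (hsup : D ⊔ B = T) :
    Nat.card T = Nat.card D * Nat.card B := by
  rw [← Nat.card_prod]
  symm
  apply Nat.card_eq_of_bijective
    (fun p : D × B => (⟨(p.1 : G) * p.2, T.mul_mem (hDT p.1.2) (hBT p.2.2)⟩ : T))
  constructor
  · rintro ⟨⟨d₁, hd₁⟩, ⟨b₁, hb₁⟩⟩ ⟨⟨d₂, hd₂⟩, ⟨b₂, hb₂⟩⟩ h
    have h' : d₁ * b₁ = d₂ * b₂ := congrArg Subtype.val h
    have h3 : d₂⁻¹ * d₁ = b₂ * b₁⁻¹ := by
      rw [inv_mul_eq_iff_eq_mul, ← mul_assoc, ← h']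
      group
    have h4 : b₂ * b₁⁻¹ ∈ D ⊓ B :=
      ⟨h3 ▸ D.mul_mem (D.inv_mem hd₂) hd₁, B.mul_mem hb₂ (B.inv_mem hb₁)⟩
    rw [hdisj, Subgroup.mem_bot] at h4
    have h5 : b₂ = b₁ := mul_inv_eq_one.1 h4
    subst h5
    have h6 : d₁ = d₂ := mul_right_cancel h'
    subst h6
    rfl
  · rintro ⟨t, ht⟩
    rw [← hsup] at ht
    obtain ⟨d, hd, b, hb, rfl⟩ := exists_mul_of_mem_sup hcomm ht
    exact ⟨(⟨d, hd⟩, ⟨b, hb⟩), rfl⟩

private lemma bound_prod [Finite G] {D B T H K : Subgroup G} (hDT : D ≤ T)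
    (hcard : Nat.card T = Nat.card D * Nat.card B) (hB4 : Nat.card B = 4) {c : G}
    (hc : c ∈ D) (hcc : Nat.card D ≤ 2 * orderOf c) (hHT : H ≤ T)
    (hs : ∀ x ∈ H, x * x ∈ K) : Nat.card H ≤ 2 ^ 4 * Nat.card K := by
  have hne : ∀ A C : Subgroup G, A.relIndex C ≠ 0 := fun A C => Subgroup.index_ne_zero_of_finite
  have h1 : D.relIndex T ≤ 4 := by
    have h := card_eq_relIndex_mul hDT
    rw [hcard, hB4, mul_comm] at h
    exact le_of_eq (Nat.eq_of_mul_eq_mul_right Nat.card_pos h).symm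
  have h1' : D.relIndex H ≤ 4 := le_trans (Subgroup.relIndex_le_of_le_right hHT (hne _ _)) h1
  have e1 := card_eq_relIndex_mul_inf D H
  have hCD : Subgroup.zpowers c ≤ D := (Subgroup.zpowers_le).2 hc
  have h2 : (Subgroup.zpowers c).relIndex D ≤ 2 := by
    have h := card_eq_relIndex_mul hCD
    rw [Nat.card_zpowers] at h
    rw [h] at hcc
    exact Nat.le_of_mul_le_mul_right hcc (orderOf_pos c)
  have h2' : (Subgroup.zpowers c).relIndex (D ⊓ H) ≤ 2 :=
    le_trans (Subgroup.relIndex_le_of_le_right inf_le_left (hne _ _)) h2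
  have e2 := card_eq_relIndex_mul_inf (Subgroup.zpowers c) (D ⊓ H)
  have h3 : K.relIndex (Subgroup.zpowers c ⊓ (D ⊓ H)) ≤ 2 :=
    relIndex_le_two_of_cyclic (c := c) inf_le_left (fun x hx => hs x hx.2.2)
  have e3 := card_eq_relIndex_mul_inf K (Subgroup.zpowers c ⊓ (D ⊓ H))
  have h4 : Nat.card (K ⊓ (Subgroup.zpowers c ⊓ (D ⊓ H)) : Subgroup G) ≤ Nat.card K :=
    Subgroup.card_le_of_le inf_le_left
  rw [e1, e2, e3]
  calc _ ≤ 4 * (2 * (2 * Nat.card K)) :=
        Nat.mul_le_mul h1' (Nat.mul_le_mul h2' (Nat.mul_le_mul h3 h4))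
    _ = _ := by ring


/-- Let G be a finite group, x an involution and T ≤ G a Sylow 2-subgroup of C_G(x) (T ≤ C_G(x) with |C_G(x) : T| odd) which is the internal direct product of a subgroup D that is dihedral (of order ≥ 4) or quasi-dihedral and a Klein four-subgroup B. Suppose that for every involution b ∈ B, T ≤ C_G(b) with |C_G(b) : T| odd. Then every section of G has 2-rank at most 4. -/
theorem result {G : Type*} [Group G] [Finite G] (x : G) (hx : orderOf x = 2) (T D B : Subgroup G) (hT : IsPGroup 2 T) (hTx : T ≤ Subgroup.centralizer ({x} : Set G)) (hTxi : Odd (T.relIndex (Subgroup.centralizer ({x} : Set G)))) (hprod : Cfsg.IsInternalDirectProduct D B T) (hD : (∃ m : ℕ, 2 ≤ m ∧ Nonempty (D ≃* DihedralGroup m)) ∨ Cfsg.IsQuasiDihedral D) (hB : IsKleinFour B) (hTb : ∀ b ∈ B, orderOf b = 2 → T ≤ Subgroup.centralizer ({b} : Set G) ∧ Odd (T.relIndex (Subgroup.centralizer ({b} : Set G)))) : Cfsg.SectionalPRankLE 2 4 G := by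
  classical
  have hf2 : Fact (Nat.Prime 2) := ⟨Nat.prime_two⟩
  obtain ⟨hDT, hBT, hcomm, hdisj, hsup⟩ := hprod
  obtain ⟨S, hTS⟩ := hT.exists_le_sylow
  have hB4 : Nat.card B = 4 := hB.card_four
  have hBel : ∀ b ∈ B, b * b = 1 := by
    intro b hb
    have h1 := Monoid.pow_exponent_eq_one (⟨b, hb⟩ : B)
    rw [hB.exponent_two, sq] at h1
    exact congrArg Subtype.val h1
  have hSp : IsPGroup 2 (S : Subgroup G) := S.isPGroup'
  -- elements of `B` have small centralizers in `S`
  have hgoodS : ∀ b ∈ B, b ≠ 1 → ∀ y ∈ (S : Subgroup G), y * b = b * y → y ∈ T := by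
    intro b hb hb1 y hy hyb
    have hord : orderOf b = 2 := orderOf_eq_prime (by rw [sq]; exact hBel b hb) hb1
    obtain ⟨hTC, hodd⟩ := hTb b hb hord
    set C := Subgroup.centralizer ({b} : Set G) with hCdef
    let U : Subgroup G := C ⊓ (S : Subgroup G)
    have hT₁ : T ≤ U := le_inf hTC hTS
    have h1 : T.relIndex U * U.relIndex C = T.relIndex C :=
      Subgroup.relIndex_mul_relIndex T U C hT₁ inf_le_left
    have hUp : IsPGroup 2 U := hSp.to_le inf_le_right
    obtain ⟨k, hk⟩ := IsPGroup.iff_card.1 hUp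
    have h2 : T.relIndex U ∣ 2 ^ k := hk ▸ Subgroup.relIndex_dvd_card T U
    obtain ⟨a, _, ha⟩ := (Nat.dvd_prime_pow Nat.prime_two).1 h2
    have h3 : Odd (T.relIndex U) := by
      rw [← h1] at hodd
      exact (Nat.odd_mul.1 hodd).1
    have h4 : T.relIndex U = 1 := by
      rw [ha] at h3 ⊢
      rcases Nat.eq_zero_or_pos a with rfl | hpos
      · simp
      · exfalso
        rw [Nat.odd_iff] at h3
        have : 2 ∣ 2 ^ a := dvd_pow_self 2 hpos.ne'
        omega
    have h5 : U ≤ T := Subgroup.relIndex_eq_one.1 h4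
    apply h5
    exact ⟨Subgroup.mem_centralizer_singleton_iff.2 hyb, hy⟩
  have hcardT := card_prod_eq hDT hBT hcomm hdisj hsup
  apply sectional_of_secBd
  apply secBd_of_sylow S
  intro H K hHS hKH hc hs
  by_cases hab : ∀ a ∈ D, ∀ c ∈ D, a * c = c * a
  · -- the elementary abelian case
    obtain ⟨hD4, hDel⟩ := klein_of_comm hD hab
    have hT16 : Nat.card T = 16 := by rw [hcardT, hD4, hB4]
    have hTel : ∀ t ∈ T, t * t = 1 := by
      intro t ht
      rw [← hsup] at ht
      obtain ⟨d, hd, b, hb, rfl⟩ := exists_mul_of_mem_sup hcomm ht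
      calc d * b * (d * b) = d * (b * d) * b := by group
        _ = d * (d * b) * b := by rw [hcomm d hd b hb]
        _ = (d * d) * (b * b) := by group
        _ = 1 := by rw [hDel d hd, hBel b hb, one_mul]
    refine bound_of_subtype (S : Subgroup G) ?_ hHS hKH hc hs
    apply secBd_of_selfCent (T := T.subgroupOf (S : Subgroup G)) (B := B.subgroupOf (S : Subgroup G))
      hSp
    · rw [Nat.card_congr (Subgroup.subgroupOfEquivOfLe hTS).toEquiv]
      exact hT16
    · intro t ht
      exact Subtype.ext (hTel _ ht)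
    · intro x hx
      rw [Subgroup.mem_subgroupOf] at hx ⊢
      exact hBT hx
    · rw [Nat.card_congr (Subgroup.subgroupOfEquivOfLe (hBT.trans hTS)).toEquiv]
      exact hB4
    · intro b hb hb1 y hy
      rw [Subgroup.mem_subgroupOf] at hb ⊢
      apply hgoodS _ hb (fun h => hb1 (Subtype.ext h)) _ y.2
      exact congrArg Subtype.val hy
  · -- the non-abelian case: `T` is Sylow
    obtain ⟨c, hcD, hcc⟩ := exists_big_cyclic hD
    suffices hST : (S : Subgroup G) ≤ T from
      bound_prod hDT hcardT hB4 hcD hcc (hHS.trans hST) hs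
    by_contra hnot
    have hT₁ne : T.subgroupOf (S : Subgroup G) ≠ ⊤ := by
      intro h
      apply hnot
      intro x hx
      have : (⟨x, hx⟩ : (S : Subgroup G)) ∈ T.subgroupOf (S : Subgroup G) := by
        rw [h]
        trivial
      exact this
    obtain ⟨g₁, hg₁T, hg₁N, hg₁g₁⟩ := exists_step hSp _ hT₁ne
    set g : G := (g₁ : G) with hgdef
    have hgS : g ∈ (S : Subgroup G) := g₁.2
    have hgT : g ∉ T := hg₁T
    have hgg : g * g ∈ T := hg₁g₁
    have hgN : ∀ t ∈ T, g * t * g⁻¹ ∈ T := by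
      intro t ht
      have h1 : (⟨t, hTS ht⟩ : (S : Subgroup G)) ∈ T.subgroupOf (S : Subgroup G) := ht
      exact (Subgroup.mem_normalizer_iff.1 hg₁N _).1 h1
    have hgN' : ∀ t ∈ T, g⁻¹ * t * g ∈ T := by
      intro t ht
      have h1 : (⟨t, hTS ht⟩ : (S : Subgroup G)) ∈ T.subgroupOf (S : Subgroup G) := ht
      have h2 := (Subgroup.mem_normalizer_iff.1 ((Subgroup.normalizer _).inv_mem hg₁N) _).1 h1
      have e : g⁻¹ * t * g = ((g₁⁻¹ * ⟨t, hTS ht⟩ * g₁⁻¹⁻¹ : (S : Subgroup G)) : G) := by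
        simp [hgdef]
      rw [e]
      exact h2
    -- `B` is central in `T`
    have hcen : ∀ b ∈ B, ∀ t ∈ T, t * b = b * t := by
      intro b hb t ht
      rw [← hsup] at ht
      obtain ⟨d, hd, b', hb', rfl⟩ := exists_mul_of_mem_sup hcomm ht
      have h1 : b' * b = b * b' := comm_of_el hBel hb' hb
      calc d * b' * b = d * (b' * b) := by group
        _ = d * (b * b') := by rw [h1]
        _ = (d * b) * b' := by group
        _ = (b * d) * b' := by rw [hcomm d hd b hb]
        _ = b * (d * b') := by group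
    -- decomposition of the conjugates
    have hdec : ∀ b ∈ B, ∃ d ∈ D, ∃ b' ∈ B, g * b * g⁻¹ = d * b' ∧ d * d = 1 ∧
        d ∈ Subgroup.zpowers c := by
      intro b hb
      have h1 : g * b * g⁻¹ ∈ D ⊔ B := by
        rw [hsup]
        exact hgN b (hBT hb)
      obtain ⟨d, hd, b', hb', hdb⟩ := exists_mul_of_mem_sup hcomm h1
      refine ⟨d, hd, b', hb', hdb, ?_, ?_⟩
      · have h2 : (g * b * g⁻¹) * (g * b * g⁻¹) = 1 := by
          calc (g * b * g⁻¹) * (g * b * g⁻¹) = g * (b * b) * g⁻¹ := by group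
            _ = 1 := by rw [hBel b hb]; group
        rw [hdb] at h2
        calc d * d = (d * b') * (d * b') * (b' * b')⁻¹ := by
              have h3 := hcomm d hd b' hb'
              calc d * d = d * d * (b' * b') * (b' * b')⁻¹ := by group
                _ = d * (d * b') * b' * (b' * b')⁻¹ := by group
                _ = d * (b' * d) * b' * (b' * b')⁻¹ := by rw [h3]
                _ = _ := by group
          _ = 1 := by rw [h2, hBel b' hb']; group
      · apply central_in_cyclic hab hcD hcc hd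
        intro a ha
        -- `a` commutes with the conjugate
        have h2 : a * (g * b * g⁻¹) = (g * b * g⁻¹) * a := by
          have h3 := hcen b hb (g⁻¹ * a * g) (hgN' a (hDT ha))
          calc a * (g * b * g⁻¹) = g * ((g⁻¹ * a * g) * b) * g⁻¹ := by group
            _ = g * (b * (g⁻¹ * a * g)) * g⁻¹ := by rw [h3]
            _ = _ := by group
        rw [hdb] at h2
        have h3 := hcomm a ha b' hb'
        have h4 : a * d * b' = d * a * b' := by
          calc a * d * b' = a * (d * b') := by group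
            _ = d * b' * a := h2
            _ = d * (b' * a) := by group
            _ = d * (a * b') := by rw [h3]
            _ = d * a * b' := by group
        exact (mul_right_cancel h4).symm
    -- two independent elements of `B`
    have := Fintype.ofFinite B
    have hFc : Fintype.card B = 4 := by rw [← Nat.card_eq_fintype_card, hB4]
    obtain ⟨⟨b₁, hb₁⟩, -, hb₁1⟩ := Finset.exists_mem_notMem_of_card_lt_card
      (s := ({1} : Finset B)) (t := Finset.univ) (by simp [Finset.card_univ, hFc])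
    obtain ⟨⟨b₂, hb₂⟩, -, hb₂1⟩ := Finset.exists_mem_notMem_of_card_lt_card
      (s := ({1, ⟨b₁, hb₁⟩} : Finset B)) (t := Finset.univ) (by
        refine lt_of_le_of_lt (Finset.card_insert_le _ _) ?_
        simp [Finset.card_univ, hFc])
    have hb₁ne : b₁ ≠ 1 := by
      intro h
      apply hb₁1
      simp only [Finset.mem_singleton]
      exact Subtype.ext h
    have hb₂ne : b₂ ≠ 1 := by
      intro h
      apply hb₂1
      simp only [Finset.mem_insert, Finset.mem_singleton]
      exact Or.inl (Subtype.ext h)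
    have hb₁₂ : b₂ ≠ b₁ := by
      intro h
      apply hb₂1
      simp only [Finset.mem_insert, Finset.mem_singleton]
      exact Or.inr (Subtype.ext h)
    have hb₁₂' : b₁ * b₂ ≠ 1 := by
      intro h
      have : b₁⁻¹ = b₂ := inv_eq_of_mul_eq_one_right h
      rw [inv_eq_of_mul_eq_one_right (hBel b₁ hb₁)] at this
      exact hb₁₂ this.symm
    -- a conjugate in `B`
    have hex : ∃ b ∈ B, b ≠ 1 ∧ g * b * g⁻¹ ∈ B := by
      obtain ⟨d₁, hd₁, e₁, he₁, h₁, hdd₁, hdC₁⟩ := hdec b₁ hb₁
      obtain ⟨d₂, hd₂, e₂, he₂, h₂, hdd₂, hdC₂⟩ := hdec b₂ hb₂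
      by_cases h01 : d₁ = 1
      · refine ⟨b₁, hb₁, hb₁ne, ?_⟩
        rw [h₁, h01, one_mul]
        exact he₁
      by_cases h02 : d₂ = 1
      · refine ⟨b₂, hb₂, hb₂ne, ?_⟩
        rw [h₂, h02, one_mul]
        exact he₂
      have heq := unique_inv_in_cyclic hdC₁ hdC₂ hdd₁ hdd₂ h01 h02
      refine ⟨b₁ * b₂, B.mul_mem hb₁ hb₂, hb₁₂', ?_⟩
      have e : g * (b₁ * b₂) * g⁻¹ = (g * b₁ * g⁻¹) * (g * b₂ * g⁻¹) := by group
      rw [e, h₁, h₂, ← heq]
      have h3 := hcomm d₁ hd₁ e₁ he₁
      have e' : d₁ * e₁ * (d₁ * e₂) = (d₁ * d₁) * (e₁ * e₂) := by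
        calc d₁ * e₁ * (d₁ * e₂) = d₁ * (e₁ * d₁) * e₂ := by group
          _ = d₁ * (d₁ * e₁) * e₂ := by rw [h3]
          _ = _ := by group
      rw [e', hdd₁, one_mul]
      exact B.mul_mem he₁ he₂
    obtain ⟨b, hb, hb1, hgb⟩ := hex
    -- conclusion
    set e := g * b * g⁻¹ with hedef
    by_cases hcase : e = b
    · apply hgT
      apply hgoodS b hb hb1 g hgS
      calc g * b = e * g := by rw [hedef]; group
        _ = b * g := by rw [hcase]
    · have h2 : g * e * g⁻¹ = b := by
        have h3 := hcen b hb (g * g) hgg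
        calc g * e * g⁻¹ = (g * g) * b * (g * g)⁻¹ := by rw [hedef]; group
          _ = b * (g * g) * (g * g)⁻¹ := by rw [h3]
          _ = b := by group
      have h3 : g * (e * b) * g⁻¹ = e * b := by
        calc g * (e * b) * g⁻¹ = (g * e * g⁻¹) * (g * b * g⁻¹) := by group
          _ = b * e := by rw [h2]
          _ = e * b := comm_of_el hBel hb hgb
      have h4 : e * b ≠ 1 := by
        intro h
        have h5 : e⁻¹ = b := inv_eq_of_mul_eq_one_right h
        rw [inv_eq_of_mul_eq_one_right (hBel e hgb)] at h5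
        exact hcase h5
      apply hgT
      apply hgoodS (e * b) (B.mul_mem hgb hb) h4 g hgS
      calc g * (e * b) = (g * (e * b) * g⁻¹) * g := by group
        _ = (e * b) * g := by rw [h3]

end Cfsg.Agent.S1235
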