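import Cfsg.Statements.S1236
import Cfsg.Agent.Lib.TwoFusion.Dih
import Cfsg.Agent.Lib.TwoGroups.QDKlein

set_option autoImplicit false
open Cfsg

namespace Cfsg.Agent.S1236

/-- Let R be a finite group, t a central involution of R such that R ⧸ ⟨t⟩ is dihedral (of order ≥ 4) or quasi-dihedral, and A ≤ R an elementary abelian subgroup of order 8 containing t. Then C_R(A) = A. -/
theorem result {R : Type*} [Group R] [Finite R] (t : R) (ht : orderOf t = 2) (htz : t ∈ Subgroup.center R) [(Subgroup.zpowers t).Normal] (hq : (∃ m : ℕ, 2 ≤ m ∧ Nonempty (R ⧸ Subgroup.zpowers t ≃* DihedralGroup m)) ∨ Cfsg.IsQuasiDihedral (R ⧸ Subgroup.zpowers t)) (A : Subgroup R) (hA : Cfsg.IsElementaryAbelian 2 A) (hA8 : Nat.card A = 8) (htA : t ∈ A) : Subgroup.centralizer (A : Set R) = A := by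
  classical
  haveI : Fact (Nat.Prime 2) := ⟨Nat.prime_two⟩
  set Z : Subgroup R := Subgroup.zpowers t with hZ
  have hZA : Z ≤ A := by
    rw [hZ, Subgroup.zpowers_le]
    exact htA
  let π : R →* R ⧸ Z := QuotientGroup.mk' Z
  have hπ : ∀ x y : R, π x = π y → x⁻¹ * y ∈ Z := by
    intro x y h
    exact QuotientGroup.eq.1 h
  -- Ā is Klein four
  have hAc : ∀ a ∈ A, ∀ b ∈ A, a * b = b * a := by
    intro a ha b hb
    have := hA.1.is_comm.comm ⟨a, ha⟩ ⟨b, hb⟩
    exact congrArg Subtype.val this
  have hKl : IsKleinFour (A.map π) := by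
    apply Cfsg.Agent.Lib.TwoFusion.Dih.isKleinFour_of_card_of_sq
    · let f : A →* R ⧸ Z := π.comp A.subtype
      have hr : f.range = A.map π := by
        rw [MonoidHom.range_comp, Subgroup.range_subtype]
      have hk : f.ker = Subgroup.zpowers (⟨t, htA⟩ : A) := by
        ext a
        rw [MonoidHom.mem_ker]
        constructor
        · intro h
          have h1 : (a : R) ∈ Z := (QuotientGroup.eq_one_iff _).1 h
          obtain ⟨k, hk⟩ := h1
          refine ⟨k, ?_⟩
          apply Subtype.ext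
          simpa using hk
        · rintro ⟨k, rfl⟩
          apply (QuotientGroup.eq_one_iff _).2
          exact ⟨k, by simp⟩
      have hc1 : Nat.card f.ker = 2 := by
        rw [hk, Nat.card_zpowers, Subgroup.orderOf_mk, ht]
      have hc2 : Nat.card f.ker * Nat.card f.range = 8 := by
        rw [← Subgroup.index_ker, Subgroup.card_mul_index, hA8]
      rw [hc1, hr] at hc2
      omega
    · rintro ⟨_, a, ha, rfl⟩
      apply Subtype.ext
      change π a ^ 2 = 1
      rw [← map_pow, hA.2 a ha, map_one]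
  have hC : Subgroup.centralizer ((A.map π : Subgroup (R ⧸ Z)) : Set (R ⧸ Z)) = A.map π := by
    rcases hq with ⟨m, hm, ⟨e⟩⟩ | hqd
    · haveI : NeZero m := ⟨by omega⟩
      exact Cfsg.Agent.Lib.TwoFusion.Dih.klein_centralizer_of_equiv e
        (fun U hU => Cfsg.Agent.Lib.TwoFusion.Dih.klein_centralizer U hU) _ hKl
    · obtain ⟨n, K, x, y, -, -, -, hd⟩ := Cfsg.Agent.Lib.TwoGroups.QD.exists_data hqd
      exact (hd.klein_props hKl).1
  apply le_antisymm
  · intro x hx
    rw [Subgroup.mem_centralizer_iff] at hx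
    have h1 : π x ∈ Subgroup.centralizer ((A.map π : Subgroup (R ⧸ Z)) : Set (R ⧸ Z)) := by
      rw [Subgroup.mem_centralizer_iff]
      rintro _ ⟨a, ha, rfl⟩
      rw [← map_mul, ← map_mul, hx a ha]
    rw [hC] at h1
    obtain ⟨a, ha, hax⟩ := h1
    have h2 := hZA (hπ _ _ hax)
    have h3 := A.mul_mem ha h2
    simpa using h3
  · intro x hx
    rw [Subgroup.mem_centralizer_iff]
    intro y hy
    exact hAc y hy x hx

end Cfsg.Agent.S1236
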