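import Cfsg.Statements.S1241
import Cfsg.Agent.Lib.Transfer.Focal

set_option autoImplicit false
open Cfsg

namespace Cfsg.Agent.S1241

/-- Let G be a finite group, p a prime, H a subgroup of index prime to p, K a subgroup of H normal in H with H/K commutative, and g ∈ H ∖ K an element of p-power order such that for all integers m and all a ∈ G with a g^m a⁻¹ ∈ H one has a g^m a⁻¹ ∈ g^m K. Then g ∉ G'. -/
theorem result {G : Type*} [Group G] [Finite G] {p : ℕ} [Fact p.Prime] (H K : Subgroup G) (hHK : K ≤ H) (hKn : (K.subgroupOf H).Normal) (hab : ∀ x ∈ H, ∀ y ∈ H, x * y * x⁻¹ * y⁻¹ ∈ K) (hidx : Nat.Coprime p H.index) (g : G) (hgH : g ∈ H) (hgK : g ∉ K) (hgp : ∃ k : ℕ, orderOf g = p ^ k) (hctrl : ∀ (m : ℤ) (a : G), a * g ^ m * a⁻¹ ∈ H → (a * g ^ m * a⁻¹) * (g ^ m)⁻¹ ∈ K) : g ∉ commutator G := by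
  classical
  let H' : Subgroup H := K.subgroupOf H
  haveI : H'.Normal := hKn
  letI instA : CommGroup (H ⧸ H') :=
    { (inferInstance : Group (H ⧸ H')) with
      mul_comm := by
        intro a b
        induction a using QuotientGroup.induction_on with
        | H x =>
          induction b using QuotientGroup.induction_on with
          | H y =>
            rw [← QuotientGroup.mk_mul, ← QuotientGroup.mk_mul, QuotientGroup.eq_iff_div_mem]
            have := hab x x.2 y y.2
            have h2 : x * y / (y * x) = ⟨(x : G) * y * (x : G)⁻¹ * (y : G)⁻¹, by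
                exact H.mul_mem (H.mul_mem (H.mul_mem x.2 y.2) (H.inv_mem x.2)) (H.inv_mem y.2)⟩ := by
              apply Subtype.ext
              simp [div_eq_mul_inv]
              group
            rw [h2]
            exact this }
  let ϕ : H →* (H ⧸ H') := QuotientGroup.mk' H'
  let g' : H := ⟨g, hgH⟩
  have hV : MonoidHom.transfer ϕ g' = ϕ g' ^ H.index := by
    apply Cfsg.Agent.Lib.Transfer.Focal.transfer_eq_pow_of_key
    intro k g₀ hmem
    have h1 := hctrl (k : ℤ) g₀⁻¹ (by simpa using hmem)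
    rw [← map_pow]
    apply (QuotientGroup.eq_iff_div_mem).mpr
    have h2 : (⟨g₀⁻¹ * (g' : G) ^ k * g₀, hmem⟩ : H) / g' ^ k = ⟨g₀⁻¹ * g ^ k * g₀ * (g ^ k)⁻¹, by
        exact H.mul_mem hmem (H.inv_mem (H.pow_mem hgH k))⟩ := by
      apply Subtype.ext
      simp [div_eq_mul_inv, g']
    rw [h2]
    have h3 : g₀⁻¹ * g ^ k * g₀ * (g ^ k)⁻¹ ∈ K := by
      simpa using h1
    exact h3
  intro hcomm
  have hker : MonoidHom.transfer ϕ g = 1 := by
    have hle : commutator G ≤ (MonoidHom.transfer ϕ).ker := by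
      have := Abelianization.commutator_subset_ker (MonoidHom.transfer ϕ)
      exact this
    exact hle hcomm
  have h1 : ϕ g' ^ H.index = 1 := by
    rw [← hV]
    exact hker
  obtain ⟨k, hk⟩ := hgp
  have h2 : ϕ g' ^ (p ^ k) = 1 := by
    rw [← map_pow]
    have : g' ^ (p ^ k) = 1 := by
      apply Subtype.ext
      have h3 : g ^ (p ^ k) = 1 := by rw [← hk]; exact pow_orderOf_eq_one g
      simpa [g'] using h3
    rw [this, map_one]
  have hcop : Nat.Coprime (p ^ k) H.index := Nat.Coprime.pow_left k hidx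
  have h3 : orderOf (ϕ g') = 1 := by
    have h4 := orderOf_dvd_of_pow_eq_one h1
    have h5 := orderOf_dvd_of_pow_eq_one h2
    exact Nat.eq_one_of_dvd_coprimes hcop h5 h4
  have h6 : ϕ g' = 1 := orderOf_eq_one_iff.mp h3
  have h7 : g' ∈ H' := (QuotientGroup.eq_one_iff g').mp h6
  exact hgK h7

end Cfsg.Agent.S1241
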