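import Cfsg.Statements.S1243

set_option autoImplicit false
open Cfsg

namespace Cfsg.Agent.S1243

private lemma map_conj_map {G : Type*} [Group G] (W : Subgroup G) (a b : G) :
    (W.map (MulAut.conj a).toMonoidHom).map (MulAut.conj b).toMonoidHom
      = W.map (MulAut.conj (b * a)).toMonoidHom := by
  rw [Subgroup.map_map]
  congr 1
  ext x
  simp [mul_assoc]

private lemma mem_normalizer_of_map_eq {G : Type*} [Group G] {W : Subgroup G} {h : G}
    (hh : W.map (MulAut.conj h).toMonoidHom = W) : h ∈ Subgroup.normalizer (W : Set G) := by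
  rw [Subgroup.mem_normalizer_iff]
  intro x
  constructor
  · intro hx
    rw [← hh]
    exact ⟨x, hx, rfl⟩
  · intro hx
    rw [← hh] at hx
    obtain ⟨y, hy, hyx⟩ := hx
    have : y = x := by
      have : h * y * h⁻¹ = h * x * h⁻¹ := hyx
      simpa using this
    exact this ▸ hy

/-- Two `p`-subgroups of `C` can be conjugated by an element of `C` into one Sylow of `G`. -/
private lemma exists_common_sylow {G : Type*} [Group G] [Finite G] {p : ℕ} [Fact p.Prime]
    (C X Y : Subgroup G) (hXC : X ≤ C) (hYC : Y ≤ C) (hX : IsPGroup p X) (hY : IsPGroup p Y) :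
    ∃ c ∈ C, ∃ P : Sylow p G, X ≤ P ∧ Y.map (MulAut.conj c).toMonoidHom ≤ P := by
  have hX' : IsPGroup p (X.comap C.subtype) := hX.comap_subtype
  have hY' : IsPGroup p (Y.comap C.subtype) := hY.comap_subtype
  obtain ⟨Q₁, hQ₁⟩ := hX'.exists_le_sylow
  obtain ⟨Q₂, hQ₂⟩ := hY'.exists_le_sylow
  obtain ⟨c, hc⟩ := MulAction.exists_smul_eq C Q₂ Q₁
  have hQ : IsPGroup p ((Q₁ : Subgroup C).map C.subtype) := Q₁.2.map C.subtype
  obtain ⟨P, hP⟩ := hQ.exists_le_sylow
  refine ⟨c, c.2, P, ?_, ?_⟩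
  · intro x hx
    apply hP
    exact ⟨⟨x, hXC hx⟩, hQ₁ hx, rfl⟩
  · rintro _ ⟨y, hy, rfl⟩
    apply hP
    have h1 : (⟨y, hYC hy⟩ : C) ∈ (Q₂ : Subgroup C) := hQ₂ hy
    have h2 : c * ⟨y, hYC hy⟩ * c⁻¹ ∈ (Q₁ : Subgroup C) := by
      rw [← hc, Sylow.coe_subgroup_smul]
      exact ⟨_, h1, rfl⟩
    exact ⟨_, h2, rfl⟩

/-- Let T be a Sylow p-subgroup of the finite group G and W ≤ T a subgroup weakly closed in T. If d and g d g⁻¹ both centralize W, then g d g⁻¹ = h d h⁻¹ for some h ∈ N_G(W). -/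
theorem result {G : Type*} [Group G] [Finite G] {p : ℕ} [Fact p.Prime] (T : Sylow p G) (W : Subgroup G) (hW : Cfsg.IsWeaklyClosed W (T : Subgroup G)) (d g : G) (hd : d ∈ Subgroup.centralizer (W : Set G)) (hgd : g * d * g⁻¹ ∈ Subgroup.centralizer (W : Set G)) : ∃ h ∈ Subgroup.normalizer (W : Set G), h * d * h⁻¹ = g * d * g⁻¹ := by
  obtain ⟨hWT, hcl⟩ := hW
  set e := g * d * g⁻¹ with he
  let C : Subgroup G := Subgroup.centralizer ({e} : Set G)
  -- `W` and `g W g⁻¹` lie in `C`
  have hW1 : W ≤ C := by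
    intro w hw
    rw [Subgroup.mem_centralizer_iff] at hgd ⊢
    intro y hy
    rw [Set.mem_singleton_iff] at hy
    subst hy
    exact (hgd w hw).symm
  have hW2 : W.map (MulAut.conj g).toMonoidHom ≤ C := by
    rintro _ ⟨w, hw, rfl⟩
    rw [Subgroup.mem_centralizer_iff] at hd ⊢
    intro y hy
    rw [Set.mem_singleton_iff] at hy
    subst hy
    have h := hd w hw
    simp only [MulEquiv.toMonoidHom_eq_coe, MonoidHom.coe_coe, MulAut.conj_apply, he]
    calc g * d * g⁻¹ * (g * w * g⁻¹) = g * (d * w) * g⁻¹ := by group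
      _ = g * (w * d) * g⁻¹ := by rw [← h]
      _ = g * w * g⁻¹ * (g * d * g⁻¹) := by group
  -- `W` is a `p`-group
  have hWp : IsPGroup p W := IsPGroup.to_le T.2 hWT
  have hWg : IsPGroup p (W.map (MulAut.conj g).toMonoidHom) := hWp.map _
  obtain ⟨c, hcC, P, hWP, hgP⟩ := exists_common_sylow C W _ hW1 hW2 hWp hWg
  obtain ⟨b, hb⟩ := MulAction.exists_smul_eq G P T
  have hPT : ∀ X : Subgroup G, X ≤ P → X.map (MulAut.conj b).toMonoidHom ≤ T := by
    intro X hX
    rw [← hb, Sylow.coe_subgroup_smul]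
    exact Subgroup.map_mono hX
  have h1 : W.map (MulAut.conj b).toMonoidHom = W := hcl b (hPT W hWP)
  have h2 : W.map (MulAut.conj (b * (c * g))).toMonoidHom = W := by
    apply hcl
    have := hPT _ hgP
    rw [map_conj_map, map_conj_map] at this
    rwa [mul_assoc] at this
  have hb' : b ∈ Subgroup.normalizer (W : Set G) := mem_normalizer_of_map_eq h1
  have hbcg : b * (c * g) ∈ Subgroup.normalizer (W : Set G) := mem_normalizer_of_map_eq h2
  refine ⟨c * g, ?_, ?_⟩
  · have := Subgroup.mul_mem _ (Subgroup.inv_mem _ hb') hbcg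
    simpa using this
  · have hce : c * e = e * c := by
      have := Subgroup.mem_centralizer_iff.mp hcC e (Set.mem_singleton e)
      exact this.symm
    calc c * g * d * (c * g)⁻¹ = c * e * c⁻¹ := by rw [he]; group
      _ = e := by rw [hce]; group

end Cfsg.Agent.S1243
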