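import Cfsg.Statements.S1244
import Cfsg.Agent.Lib.Transfer.Focal
import Cfsg.Agent.Lib.Involutions2.KleinSylow

set_option autoImplicit false
open Cfsg

namespace Cfsg.Agent.S1244

private lemma exists_index_two_of_hom {G A : Type*} [Group G] [Group A] [Finite A] (hA : IsPGroup 2 A)
    (f : G →* A) {x : G} (hx : f x ≠ 1) : ∃ H : Subgroup G, H.index = 2 := by
  haveI : Fact (Nat.Prime 2) := ⟨Nat.prime_two⟩
  have hR : IsPGroup 2 f.range := hA.of_injective f.range.subtype (Subgroup.subtype_injective _)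
  obtain ⟨n, hn⟩ := IsPGroup.iff_card.1 hR
  have hn0 : n ≠ 0 := by
    rintro rfl
    rw [pow_zero, Subgroup.card_eq_one] at hn
    exact hx (by
      have : f x ∈ f.range := ⟨x, rfl⟩
      rw [hn] at this
      exact this)
  obtain ⟨K, hK⟩ := Sylow.exists_subgroup_card_pow_prime (G := f.range) 2 (n := n - 1) (by
    rw [hn]
    exact pow_dvd_pow 2 (Nat.sub_le n 1))
  refine ⟨K.comap f.rangeRestrict, ?_⟩
  rw [Subgroup.index_comap_of_surjective _ f.rangeRestrict_surjective]
  have h1 := K.card_mul_index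
  rw [hK, hn] at h1
  have h2 : 2 ^ n = 2 ^ (n - 1) * 2 := by
    rw [← pow_succ]
    congr 1
    omega
  rw [h2] at h1
  exact Nat.eq_of_mul_eq_mul_left (by positivity) h1


/-- Let G be a finite group with no subgroup of index 2 whose Sylow 2-subgroup S is commutative, and let R ≤ S be a subgroup whose 2-rank is exactly one less than the 2-rank r of S. Then every involution of S is conjugate, by an element of N_G(S), to an element of R. -/
theorem result {G : Type*} [Group G] [Finite G] (hG : ∀ H : Subgroup G, H.index ≠ 2) (S : Sylow 2 G) (hS : IsMulCommutative (S : Subgroup G)) (r : ℕ) (hr1 : 1 ≤ r) (hSr : Cfsg.PRankLE 2 r (S : Subgroup G) ∧ ¬ Cfsg.PRankLE 2 (r - 1) (S : Subgroup G)) (R : Subgroup G) (hRS : R ≤ S) (hRr : Cfsg.PRankLE 2 (r - 1) R ∧ (r = 1 ∨ ¬ Cfsg.PRankLE 2 (r - 2) R)) (t : G) (ht : orderOf t = 2) (htS : t ∈ S) : ∃ n ∈ Subgroup.normalizer ((S : Subgroup G) : Set G), n * t * n⁻¹ ∈ R := by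
  classical
  by_contra hcon
  push Not at hcon
  have hSc : ∀ x ∈ (S : Subgroup G), ∀ y ∈ (S : Subgroup G), x * y = y * x := by
    intro x hx y hy
    have := hS.is_comm.comm ⟨x, hx⟩ ⟨y, hy⟩
    simpa using congrArg Subtype.val this
  letI instS : CommGroup (S : Subgroup G) :=
    { (inferInstance : Group (S : Subgroup G)) with
      mul_comm := fun a b => Subtype.ext (hSc a a.2 b b.2) }
  -- E, E₀
  let E : Subgroup (S : Subgroup G) :=
    { carrier := {x | x ^ 2 = 1}
      one_mem' := by simp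
      mul_mem' := by
        intro a b ha hb
        simp only [Set.mem_setOf_eq] at *
        rw [mul_pow, ha, hb, one_mul]
      inv_mem' := by
        intro a ha
        simp only [Set.mem_setOf_eq] at *
        rw [inv_pow, ha, inv_one] }
  let E₀ : Subgroup (S : Subgroup G) := E ⊓ R.subgroupOf (S : Subgroup G)
  have hE₀E : E₀ ≤ E := inf_le_left
  have hcardE : Nat.card E ≤ 2 ^ r := by
    apply hSr.1 E
    · exact IsMulCommutative.of_comm (fun a b => Subtype.ext (mul_comm (a : (S : Subgroup G)) b))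
    · intro a ha
      exact ha
  have hcardE₀ : 2 ^ (r - 1) ≤ Nat.card E₀ := by
    rcases hRr.2 with h1 | h2
    · subst h1
      simpa using Nat.succ_le_of_lt (Nat.card_pos (α := E₀))
    · unfold Cfsg.PRankLE at h2
      push Not at h2
      obtain ⟨A, hAc, hAe, hAcard⟩ := h2
      have hAp : IsPGroup 2 A :=
        S.isPGroup'.of_injective ((Subgroup.inclusion hRS).comp A.subtype) (by
          intro a b hab
          apply Subtype.ext
          apply Subtype.ext
          simpa using congrArg (fun x : (S : Subgroup G) => (x : G)) hab)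
      obtain ⟨a, ha⟩ := (IsPGroup.iff_card).1 hAp
      rw [ha] at hAcard
      have h4 : r - 2 < a := (Nat.pow_lt_pow_iff_right (by norm_num)).1 hAcard
      have h5 : 2 ^ (r - 1) ≤ Nat.card A := by
        rw [ha]
        apply Nat.pow_le_pow_right (by norm_num)
        omega
      refine h5.trans ?_
      have hf : ∀ a : A, (⟨((a : R) : G), hRS (a : R).2⟩ : (S : Subgroup G)) ∈ E₀ := by
        intro a
        refine ⟨?_, (a : R).2⟩
        change (⟨((a : R) : G), hRS (a : R).2⟩ : (S : Subgroup G)) ^ 2 = 1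
        apply Subtype.ext
        have := hAe a a.2
        simpa using congrArg (fun x : R => (x : G)) this
      let f : A → E₀ := fun a => ⟨⟨((a : R) : G), hRS (a : R).2⟩, hf a⟩
      refine Nat.card_le_card_of_injective f ?_
      intro a b hab
      apply Subtype.ext
      apply Subtype.ext
      simpa [f] using congrArg (fun x : E₀ => ((x : (S : Subgroup G)) : G)) hab
  have ht2 : t ^ 2 = 1 := by rw [← ht]; exact pow_orderOf_eq_one t
  let t' : (S : Subgroup G) := ⟨t, htS⟩
  have ht'E : t' ∈ E := by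
    change t' ^ 2 = 1
    apply Subtype.ext
    simpa [t'] using ht2
  have ht'E₀ : t' ∉ E₀ := by
    intro h
    have h1 : t ∈ R := h.2
    have := hcon 1 (Subgroup.one_mem _)
    simp only [one_mul, inv_one, mul_one] at this
    exact this h1
  -- index two
  have hidx : (E₀.subgroupOf E).index = 2 := by
    have hc := Subgroup.card_mul_index (E₀.subgroupOf E)
    have hc' : Nat.card (E₀.subgroupOf E) = Nat.card E₀ :=
      Nat.card_congr (Subgroup.subgroupOfEquivOfLe hE₀E).toEquiv
    rw [hc'] at hc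
    have hpos : 0 < Nat.card E₀ := Nat.card_pos
    have hle : (E₀.subgroupOf E).index ≤ 2 := by
      have h1 : Nat.card E₀ * (E₀.subgroupOf E).index ≤ 2 ^ r := hc ▸ hcardE
      have h2 : 2 ^ r = 2 * 2 ^ (r - 1) := by
        rw [← pow_succ']
        congr 1
        omega
      rw [h2] at h1
      have h3 : Nat.card E₀ * (E₀.subgroupOf E).index ≤ 2 * Nat.card E₀ :=
        h1.trans (Nat.mul_le_mul_left 2 hcardE₀)
      rw [mul_comm] at h3
      exact Nat.le_of_mul_le_mul_right h3 hpos
    have hne1 : (E₀.subgroupOf E).index ≠ 1 := by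
      intro h
      rw [Subgroup.index_eq_one] at h
      have : (⟨t', ht'E⟩ : E) ∈ E₀.subgroupOf E := by rw [h]; trivial
      exact ht'E₀ this
    have hne0 : (E₀.subgroupOf E).index ≠ 0 := Subgroup.index_ne_zero_of_finite
    omega
  -- the quotient
  let ϕ : (S : Subgroup G) →* ((S : Subgroup G) ⧸ E₀) := QuotientGroup.mk' E₀
  have hϕt : ϕ t' ≠ 1 := by
    intro h
    exact ht'E₀ ((QuotientGroup.eq_one_iff t').1 h)
  have hϕt2 : ϕ t' ^ 2 = 1 := by
    rw [← map_pow]
    have : t' ^ 2 = 1 := ht'E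
    rw [this, map_one]
  have hϕE : ∀ x : (S : Subgroup G), x ∈ E → x ∉ E₀ → ϕ x = ϕ t' := by
    intro x hx hx0
    have h1 := (Subgroup.mul_mem_iff_of_index_two hidx (a := (⟨x, hx⟩ : E)) (b := (⟨t', ht'E⟩ : E))).2
      (iff_of_false (fun h => hx0 h) (fun h => ht'E₀ h))
    have h2 : x * t' ∈ E₀ := h1
    have h3 : ϕ (x * t') = 1 := (QuotientGroup.eq_one_iff _).2 h2
    rw [map_mul] at h3
    have h4 : ϕ t' * ϕ t' = 1 := by rw [← sq]; exact hϕt2
    calc ϕ x = ϕ x * (ϕ t' * ϕ t') := by rw [h4, mul_one]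
      _ = (ϕ x * ϕ t') * ϕ t' := by rw [mul_assoc]
      _ = ϕ t' := by rw [h3, one_mul]
  have hV : MonoidHom.transfer ϕ t' = ϕ t' ^ (S : Subgroup G).index := by
    apply Cfsg.Agent.Lib.Transfer.Focal.transfer_eq_pow_of_key
    intro k g₀ hmem
    rcases Nat.even_or_odd k with hk | hk
    · obtain ⟨l, rfl⟩ := hk
      have h1 : (t' : G) ^ (l + l) = 1 := by
        rw [← two_mul, pow_mul]
        change (t ^ 2) ^ l = 1
        rw [ht2, one_pow]
      have h2 : (⟨g₀⁻¹ * (t' : G) ^ (l + l) * g₀, hmem⟩ : (S : Subgroup G)) = 1 := by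
        apply Subtype.ext
        simp [h1]
      rw [h2, map_one, ← two_mul, pow_mul, hϕt2, one_pow]
    · obtain ⟨l, rfl⟩ := hk
      have h0 : t ^ (2 * l + 1) = t := by
        rw [pow_succ, pow_mul, ht2, one_pow, one_mul]
      have h1 : (t' : G) ^ (2 * l + 1) = t := h0
      have h2 : ϕ t' ^ (2 * l + 1) = ϕ t' := by
        rw [pow_succ, pow_mul, hϕt2, one_pow, one_mul]
      rw [h2]
      have hmem' : g₀⁻¹ * t * g₀ ∈ (S : Subgroup G) := by
        have := hmem
        rwa [h1] at this
      obtain ⟨n, hn, hn'⟩ := Cfsg.Agent.Lib.Involutions2.KleinSylow.exists_normalizer_conj S hSc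
        (a := t) (b := g₀⁻¹ * t * g₀) (g := g₀⁻¹) htS hmem' (by simp)
      apply hϕE
      · change (⟨g₀⁻¹ * (t' : G) ^ (2 * l + 1) * g₀, hmem⟩ : (S : Subgroup G)) ^ 2 = 1
        apply Subtype.ext
        simp only [h1, SubmonoidClass.mk_pow, OneMemClass.coe_one]
        have : (g₀⁻¹ * t * g₀) ^ 2 = g₀⁻¹ * t ^ 2 * g₀ := by simp [sq, mul_assoc]
        rw [this, ht2]
        group
      · intro h
        have h3 : g₀⁻¹ * (t' : G) ^ (2 * l + 1) * g₀ ∈ R := h.2
        rw [h1, ← hn'] at h3
        exact hcon n hn h3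
  have hodd : Odd (S : Subgroup G).index := by
    rw [← Nat.not_even_iff_odd, even_iff_two_dvd]
    exact S.not_dvd_index
  have hVne : MonoidHom.transfer ϕ t ≠ 1 := by
    have h1 : MonoidHom.transfer ϕ t = ϕ t' ^ (S : Subgroup G).index := hV
    rw [h1]
    obtain ⟨l, hl⟩ := hodd
    rw [hl, pow_succ, pow_mul, hϕt2, one_pow, one_mul]
    exact hϕt
  -- index two subgroup
  have hAp : IsPGroup 2 ((S : Subgroup G) ⧸ E₀) := S.isPGroup'.to_quotient E₀
  obtain ⟨H, hH⟩ := Cfsg.Agent.S1244.exists_index_two_of_hom hAp (MonoidHom.transfer ϕ) hVne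
  exact hG H hH

end Cfsg.Agent.S1244
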