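import Cfsg.Statements.S1246
import Cfsg.Agent.Lib.CharP.Basic

set_option autoImplicit false
open Cfsg

namespace Cfsg.Agent.S1246

/-- Let V ≤ U be p-subgroups of the finite group G. If the generalized Fitting subgroup of C_G(V) is a p-group, then so is that of C_G(U). -/
theorem result {G : Type*} [Group G] [Finite G] {p : ℕ} [Fact p.Prime] (U V : Subgroup G) (hVU : V ≤ U) (hU : IsPGroup p U) (hV : IsPGroup p ↥(Cfsg.generalizedFittingSubgroup ↥(Subgroup.centralizer (V : Set G)))) : IsPGroup p ↥(Cfsg.generalizedFittingSubgroup ↥(Subgroup.centralizer (U : Set G))) := by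
  open Cfsg.Agent.Lib.CharP.Basic Cfsg.Agent.Lib.Components.Basic in
  have h0 : Cfsg.generalizedFittingSubgroup ↥(Subgroup.centralizer (V : Set G)) =
      Cfsg.pCore p ↥(Subgroup.centralizer (V : Set G)) := by
    apply le_antisymm
    · exact le_pCore inferInstance hV
    · refine le_trans ?_ fitting_le_generalizedFitting
      apply le_sSup
      exact ⟨inferInstance, (pCore_isPGroup p _).isNilpotent⟩
  have h1 := charPIn_centralizer_mono hU V hVU
    (charPIn_iff.mpr (charP_of_generalizedFitting_eq h0))
  rw [generalizedFitting_eq_of_charP (charPIn_iff.mp h1)]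
  exact pCore_isPGroup p _

end Cfsg.Agent.S1246
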