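import Cfsg.Statements.S1255
import Cfsg.Agent.Lib.TwoFusion.DihSylow

set_option autoImplicit false
open Cfsg

namespace Cfsg.Agent.S1255

open DihedralGroup Cfsg.Agent.Lib.TwoFusion.DihSylow

/-- Let X be a finite group whose Sylow 2-subgroup S is dihedral of order 2m ≥ 4. Then X has no subgroup of index 2 and no isolated involution if and only if either all involutions of X are conjugate, or for every Klein four-subgroup U ≤ S the index |N_X(U) : C_X(U)| equals 3 when |S| = 4 and equals 6 when |S| > 4. -/
theorem result {X : Type*} [Group X] [Finite X] (S : Sylow 2 X) (m : ℕ) (hm : 2 ≤ m) (eS : (S : Subgroup X) ≃* DihedralGroup m) : ((∀ H : Subgroup X, H.index ≠ 2) ∧ (∀ z : X, ¬ Cfsg.IsIsolatedInvolution z)) ↔ ((∀ a b : X, orderOf a = 2 → orderOf b = 2 → IsConj a b) ∨ (∀ U : Subgroup X, U ≤ S → IsKleinFour U → (Subgroup.centralizer (U : Set X)).relIndex (Subgroup.normalizer (U : Set X)) = (if Nat.card S = 4 then 3 else 6))) := by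
  classical
  haveI : Fact (Nat.Prime 2) := ⟨Nat.prime_two⟩
  obtain ⟨k, hk⟩ := exists_pow S eS hm
  have hm0 : m ≠ 0 := by omega
  haveI : NeZero m := ⟨hm0⟩
  have hev : Even m := by
    rw [hk, pow_succ]
    exact even_two.mul_left _
  set ι := iota (S : Subgroup X) eS with hι
  have hιinj : Function.Injective ι := iota_injective _ _
  set h := half m with hh
  have h2h : 2 * h = 0 := two_mul_half hev
  have hh0 : h ≠ 0 := half_ne_zero hev hm
  set z := ι (r h) with hz
  have hιo : ∀ y : DihedralGroup m, orderOf (ι y) = orderOf y := fun y =>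
    orderOf_injective ι hιinj y
  have hzo : orderOf z = 2 := by
    rw [hz, hιo]
    apply orderOf_eq_prime
    · rw [sq, r_mul_r, ← two_mul, h2h, r_zero]
    · intro h1
      exact hh0 (r.inj (h1.trans r_zero.symm))
  have hsro : ∀ i, orderOf (ι (sr i)) = 2 := by
    intro i
    rw [hιo, orderOf_sr]
  -- Step: conjugates in `S`
  have hconjS : ∀ t : X, orderOf t = 2 → ∃ g : X, g * t * g⁻¹ ∈ (S : Subgroup X) := by
    intro t ht
    have hp : IsPGroup 2 (Subgroup.zpowers t) := by
      apply IsPGroup.of_card (n := 1)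
      rw [Nat.card_zpowers, ht, pow_one]
    obtain ⟨g, hg⟩ := Cfsg.Agent.Lib.TwoFusion.Conj.exists_conj_le S hp
    refine ⟨g, hg ?_⟩
    exact ⟨t, Subgroup.mem_zpowers t, rfl⟩
  have hsq : ∀ t : X, orderOf t = 2 → t ^ 2 = 1 := by
    intro t ht
    rw [← ht]
    exact pow_orderOf_eq_one t
  have hne1 : ∀ t : X, orderOf t = 2 → t ≠ 1 := by
    rintro t ht rfl
    simp at ht
  -- Step B: all involutions conjugate implies the left-hand side
  have stepB : (∀ a b : X, orderOf a = 2 → orderOf b = 2 → IsConj a b) →
      ((∀ H : Subgroup X, H.index ≠ 2) ∧ (∀ z : X, ¬ Cfsg.IsIsolatedInvolution z)) := by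
    intro hA
    constructor
    · intro H hH
      haveI hN : H.Normal := Subgroup.normal_of_index_eq_two hH
      have hall : ∀ a b : X, orderOf a = 2 → orderOf b = 2 → a ∈ H → b ∈ H := by
        intro a b ha hb haH
        obtain ⟨c, hc⟩ := isConj_iff.1 (hA a b ha hb)
        rw [← hc]
        exact hN.conj_mem a haH c
      have hnotle : ¬ (S : Subgroup X) ≤ H := by
        intro hle
        have h1 : H.index ∣ (S : Subgroup X).index := Subgroup.index_dvd_of_le hle
        rw [hH] at h1
        exact S.not_dvd_index h1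
      by_cases hzH : z ∈ H
      · apply hnotle
        have hrefl : ∀ i, ι (sr i) ∈ H := fun i => hall z _ hzo (hsro i) hzH
        intro x hx
        obtain ⟨y, rfl⟩ := exists_iota _ eS hx
        cases y with
        | sr i => exact hrefl i
        | r a =>
          have h2 := H.mul_mem (hrefl 0) (hrefl a)
          rw [← map_mul, sr_mul_sr, sub_zero] at h2
          exact h2
      · have h1 : ι (sr 0) ∉ H := fun hh' => hzH (hall _ z (hsro 0) hzo hh')
        have h2 : ι (sr h) ∉ H := fun hh' => hzH (hall _ z (hsro h) hzo hh')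
        have h3 := (Subgroup.mul_mem_iff_of_index_two hH (a := ι (sr 0)) (b := ι (sr h))).2
          (iff_of_false h1 h2)
        rw [← map_mul, sr_mul_sr, sub_zero] at h3
        exact hzH h3
    · rintro w ⟨hw, hiso⟩
      have hzw := hA w z hw hzo
      have hsw := hA w (ι (sr 0)) hw (hsro 0)
      obtain ⟨c, hc⟩ := isConj_iff.1 hzw
      obtain ⟨d, hd⟩ := isConj_iff.1 hsw
      have hcomm : Commute w ((c⁻¹ * d) * w * (c⁻¹ * d)⁻¹) := by
        have e1 : (c⁻¹ * d) * w * (c⁻¹ * d)⁻¹ = c⁻¹ * (d * w * d⁻¹) * c := by group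
        rw [e1, hd]
        have e2 : w = c⁻¹ * z * c := by rw [← hc]; group
        have hzs : z * ι (sr 0) = ι (sr 0) * z := by
          rw [hz, ← map_mul, ← map_mul, r_mul_sr, sr_mul_r, zero_sub, zero_add, neg_half hev]
        change w * (c⁻¹ * ι (sr 0) * c) = (c⁻¹ * ι (sr 0) * c) * w
        calc w * (c⁻¹ * ι (sr 0) * c) = (c⁻¹ * z * c) * (c⁻¹ * ι (sr 0) * c) := by rw [← e2]
          _ = c⁻¹ * (z * ι (sr 0)) * c := by group
          _ = c⁻¹ * (ι (sr 0) * z) * c := by rw [hzs]
          _ = (c⁻¹ * ι (sr 0) * c) * (c⁻¹ * z * c) := by group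
          _ = _ := by rw [← e2]
      have h1 := hiso _ hcomm
      have e1 : (c⁻¹ * d) * w * (c⁻¹ * d)⁻¹ = c⁻¹ * (d * w * d⁻¹) * c := by group
      rw [e1, hd] at h1
      have h2 : ι (sr 0) = z := by
        have e3 : c * (c⁻¹ * ι (sr 0) * c) * c⁻¹ = c * w * c⁻¹ := by rw [h1]
        have e4 : c * (c⁻¹ * ι (sr 0) * c) * c⁻¹ = ι (sr 0) := by group
        rw [e4, hc] at e3
        exact e3
      have h3 := hιinj h2
      cases h3
  constructor
  · -- left to right: Thompson transfer
    rintro ⟨hidx, -⟩
    left
    let M : Subgroup X := Subgroup.zpowers (ι (r 1))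
    have hMcard : Nat.card M = m := by
      rw [Nat.card_zpowers, hιo, orderOf_r_one]
    have hScard : Nat.card (S : Subgroup X) = 2 * m := card_S _ eS
    have hMidx : M.index = 2 * (S : Subgroup X).index := by
      have h1 := M.card_mul_index
      have h2 := (S : Subgroup X).card_mul_index
      rw [hMcard, ← h2, hScard] at h1
      have hmpos : 0 < m := Nat.pos_of_ne_zero hm0
      have h3 : m * M.index = m * (2 * (S : Subgroup X).index) := by
        rw [h1]; ring
      exact Nat.eq_of_mul_eq_mul_left hmpos h3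
    have hodd : Odd (M.index / 2) := by
      rw [hMidx, Nat.mul_div_cancel_left _ (by norm_num), ← Nat.not_even_iff_odd, even_iff_two_dvd]
      exact S.not_dvd_index
    have hconjz : ∀ t : X, orderOf t = 2 → IsConj t z := by
      intro t ht
      by_contra hcon
      have hfree : ∀ g : X, g⁻¹ * t * g ∉ M := by
        rintro g ⟨a, ha⟩
        apply hcon
        rw [isConj_iff]
        refine ⟨g⁻¹, ?_⟩
        rw [inv_inv]
        have h1 : g⁻¹ * t * g = ι (r (a : ZMod m)) := by
          rw [← ha]
          change ι (r 1) ^ a = _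
          rw [← map_zpow, r_one_zpow]
        rw [h1]
        have hs : (r (a : ZMod m) : DihedralGroup m) ^ 2 = 1 := by
          apply hιinj
          rw [map_pow, ← h1, map_one]
          have : (g⁻¹ * t * g) ^ 2 = g⁻¹ * t ^ 2 * g := by simp [sq, mul_assoc]
          rw [this, hsq t ht]
          group
        have hn : (r (a : ZMod m) : DihedralGroup m) ≠ 1 := by
          intro h2
          apply hne1 t ht
          have h3 : g⁻¹ * t * g = 1 := by rw [h1, h2, map_one]
          have h4 : t = g * (g⁻¹ * t * g) * g⁻¹ := by group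
          rw [h4, h3]
          group
        rcases eq_of_sq hev hm hs hn with h5 | ⟨i, h5⟩
        · rw [h5]
        · cases h5
      obtain ⟨H, hH⟩ := Cfsg.Agent.Lib.Involutions2.Sign.exists_index_two_of_free_involution M
        (hsq t ht) hfree hodd
      exact hidx H hH
    intro a b ha hb
    exact (hconjz a ha).trans (hconjz b hb).symm
  · -- right to left
    rintro (hA | hB)
    · exact stepB hA
    · apply stepB
      have hconjz : ∀ t : X, orderOf t = 2 → IsConj t z := by
        intro t ht
        obtain ⟨g, hg⟩ := hconjS t ht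
        have h1 : IsConj t (g * t * g⁻¹) := isConj_iff.2 ⟨g, rfl⟩
        refine h1.trans ?_
        obtain ⟨y, hy⟩ := exists_iota _ eS hg
        have hy2 : y ^ 2 = 1 := by
          apply hιinj
          rw [map_pow, hy, map_one]
          have : (g * t * g⁻¹) ^ 2 = g * t ^ 2 * g⁻¹ := by simp [sq, mul_assoc]
          rw [this, hsq t ht]
          group
        have hy1 : y ≠ 1 := by
          rintro rfl
          apply hne1 t ht
          rw [map_one] at hy
          have h4 : t = g⁻¹ * (g * t * g⁻¹) * g := by group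
          rw [h4, ← hy]
          group
        rcases eq_of_sq hev hm hy2 hy1 with rfl | ⟨i, rfl⟩
        · rw [← hy]
        · let U : Subgroup X := (kl hev i).map ι
          have hUK : IsKleinFour U := Cfsg.Agent.Lib.TwoFusion.Dih.isKleinFour_map
            (isKleinFour_kl hev hm i) ι hιinj
          have hUS : U ≤ (S : Subgroup X) := by
            rintro _ ⟨a, -, rfl⟩
            exact iota_mem _ _ a
          have hdiv := hB U hUS hUK
          have h3 : 3 ∣ (Subgroup.centralizer (U : Set X)).relIndex (Subgroup.normalizer (U : Set X)) := by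
            rw [hdiv]
            split_ifs <;> norm_num
          rw [← hy]
          exact isConj_of_three_dvd_relIndex hUK h3 ⟨sr i, Or.inr (Or.inr (Or.inl rfl)), rfl⟩
            ⟨r h, Or.inr (Or.inl rfl), rfl⟩ (hne1 _ (hsro i)) (hne1 _ hzo)
      intro a b ha hb
      exact (hconjz a ha).trans (hconjz b hb).symm

end Cfsg.Agent.S1255
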