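import Cfsg.Statements.S1256
import Cfsg.Agent.Lib.TwoFusion.DihKlein
import Cfsg.Agent.Lib.Transfer.Basic

set_option autoImplicit false
open Cfsg

namespace Cfsg.Agent.S1256

open DihedralGroup Cfsg.Agent.Lib.TwoFusion.Dih Cfsg.Agent.Lib.TwoFusion.DihSylow
  Cfsg.Agent.Lib.TwoFusion.DihKlein Cfsg.Agent.Lib.TwoFusion.Conj Cfsg.Agent.Lib.Transfer.Basic

private lemma conj_of_complement {G : Type*} [Group G] (N P : Subgroup G) [hN : N.Normal]
    (hc : N.IsComplement' P) (x : G) :
    ∃ s ∈ P, ∀ u ∈ P, x * u * x⁻¹ ∈ P → s * u * s⁻¹ = x * u * x⁻¹ := by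
  have hxt : x ∈ N ⊔ P := by
    rw [hc.sup_eq_top]
    trivial
  obtain ⟨a, ha, s, hs, rfl⟩ := Subgroup.mem_sup_of_normal_left.1 hxt
  refine ⟨s, hs, ?_⟩
  intro u hu h1
  have h2 : s * u * s⁻¹ ∈ P := P.mul_mem (P.mul_mem hs hu) (P.inv_mem hs)
  set v := s * u * s⁻¹ with hv
  have h3 : (a * s) * u * (a * s)⁻¹ = a * v * a⁻¹ := by rw [hv]; group
  rw [h3] at h1 ⊢
  have h4 : (a * v * a⁻¹) * v⁻¹ ∈ N := by
    have h5 := hN.conj_mem a⁻¹ (N.inv_mem ha) v
    have e : a * v * a⁻¹ * v⁻¹ = a * (v * a⁻¹ * v⁻¹) := by group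
    rw [e]
    exact N.mul_mem ha h5
  have h5 : (a * v * a⁻¹) * v⁻¹ ∈ P := P.mul_mem h1 (P.inv_mem h2)
  have h6 := Subgroup.disjoint_def.1 hc.disjoint h4 h5
  exact (mul_inv_eq_one.1 h6).symm

private lemma hasNormal_of_cyclic {K : Type*} [Group K] [Finite K]
    (hP : ∀ P : Sylow 2 K, IsCyclic P) : Cfsg.HasNormalPComplement 2 K := by
  haveI : Fact (Nat.Prime 2) := ⟨Nat.prime_two⟩
  by_cases hev : 2 ∣ Nat.card K
  · have hmin : (Nat.card K).minFac = 2 := (Nat.minFac_eq_two_iff _).2 hev
    let P : Sylow 2 K := default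
    exact ⟨P, _, inferInstance, IsCyclic.isComplement' hmin (hP P)⟩
  · apply hasNormalPComplement_of_coprime
    exact ((Nat.Prime.coprime_iff_not_dvd Nat.prime_two).2 hev).symm

private lemma exists_conj_of_max {X : Type*} [Group X] [Finite X] (Y T₁ T₂ : Subgroup X) {d : ℕ}
    (h1 : T₁ ≤ Y) (h2 : T₂ ≤ Y) (p1 : IsPGroup 2 T₁) (p2 : IsPGroup 2 T₂)
    (c1 : Nat.card T₁ = d) (c2 : Nat.card T₂ = d)
    (hmax : ∀ T : Subgroup X, T ≤ Y → IsPGroup 2 T → Nat.card T ≤ d) :
    ∃ y ∈ Y, T₁.map (MulAut.conj y).toMonoidHom = T₂ := by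
  haveI : Fact (Nat.Prime 2) := ⟨Nat.prime_two⟩
  have key : ∀ T : Subgroup X, T ≤ Y → IsPGroup 2 T → Nat.card T = d →
      ∃ Q : Sylow 2 Y, (Q : Subgroup Y).map Y.subtype = T := by
    intro T hT hp hc
    have hp' : IsPGroup 2 (T.subgroupOf Y) := hp.comap_subtype
    obtain ⟨Q, hQ⟩ := hp'.exists_le_sylow
    refine ⟨Q, ?_⟩
    symm
    apply Subgroup.eq_of_le_of_card_ge
    · intro t ht
      exact ⟨⟨t, hT ht⟩, hQ ht, rfl⟩
    · rw [hc]
      apply hmax
      · rintro _ ⟨a, -, rfl⟩
        exact a.2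
      · exact Q.isPGroup'.map _
  obtain ⟨Q₁, hQ₁⟩ := key T₁ h1 p1 c1
  obtain ⟨Q₂, hQ₂⟩ := key T₂ h2 p2 c2
  obtain ⟨y, hy⟩ := MulAction.exists_smul_eq Y Q₁ Q₂
  refine ⟨y, y.2, ?_⟩
  apply Subgroup.eq_of_le_of_card_ge
  · rintro _ ⟨t, ht, rfl⟩
    rw [← hQ₁] at ht
    obtain ⟨a, ha, rfl⟩ := ht
    rw [← hQ₂, ← hy]
    refine ⟨y * a * y⁻¹, ?_, by simp⟩
    rw [Sylow.coe_subgroup_smul]
    exact ⟨a, ha, rfl⟩
  · rw [card_map_conj, c1, c2]

private lemma normal_complement_Y {X : Type*} [Group X] [Finite X] (S : Sylow 2 X) (c : X)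
    (A : Subgroup X) (hAc : IsCyclic A) (hc4 : orderOf c = 4)
    (h4 : ∀ x ∈ (S : Subgroup X), orderOf x = 4 → x = c ∨ x = c⁻¹)
    (hcA : ∀ x ∈ (S : Subgroup X), x * c = c * x → x ∈ A) :
    Cfsg.HasNormalPComplement 2 (Subgroup.normalizer ((Subgroup.zpowers c : Subgroup X) : Set X)) := by
  haveI : Fact (Nat.Prime 2) := ⟨Nat.prime_two⟩
  set Y := Subgroup.normalizer ((Subgroup.zpowers c : Subgroup X) : Set X) with hY
  let ψ : Y →* MulAut (Subgroup.zpowers c) := (Subgroup.zpowers c).normalizerMonoidHom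
  have hcp : IsPGroup 2 (Subgroup.zpowers c) := by
    apply IsPGroup.of_card (n := 2)
    rw [Nat.card_zpowers, hc4]
    norm_num
  have hMA : IsPGroup 2 (MulAut (Subgroup.zpowers c)) := by
    apply IsPGroup.of_card (n := 1)
    rw [IsCyclic.card_mulAut, Nat.card_zpowers, hc4]
    decide
  refine hasNormalPComplement_of_normal_of_isPGroup_quotient ψ.ker ?_ ?_
  · apply hasNormal_of_cyclic
    intro P
    let f : P →* X := Y.subtype.comp (ψ.ker.subtype.comp (P : Subgroup ψ.ker).subtype)
    have hfinj : Function.Injective f :=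
      Y.subtype_injective.comp (ψ.ker.subtype_injective.comp (Subgroup.subtype_injective _))
    have hfc : ∀ p : P, f p * c = c * f p := by
      intro p
      have h1 : ((p : ψ.ker) : Y) ∈ ψ.ker := (p : ψ.ker).2
      have h1' := (le_of_eq (Subgroup.normalizerMonoidHom_ker (Subgroup.zpowers c))) h1
      have h2 : f p ∈ Subgroup.centralizer ((Subgroup.zpowers c : Subgroup X) : Set X) := h1'
      rw [Subgroup.mem_centralizer_iff] at h2
      exact (h2 c (Subgroup.mem_zpowers c)).symm
    have hPX : IsPGroup 2 f.range := P.isPGroup'.of_surjective f.rangeRestrict f.rangeRestrict_surjective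
    have hsup : IsPGroup 2 (f.range ⊔ Subgroup.zpowers c : Subgroup X) := by
      apply isPGroup_sup_of_commute hPX hcp
      rintro _ ⟨p, rfl⟩ b ⟨k, rfl⟩
      have h3 : Commute (f p) c := hfc p
      exact (h3.zpow_right k)
    obtain ⟨g, hg⟩ := exists_conj_le S hsup
    have hc1S : g * c * g⁻¹ ∈ (S : Subgroup X) :=
      hg ⟨c, Subgroup.mem_sup_right (Subgroup.mem_zpowers c), rfl⟩
    have hc1o : orderOf (g * c * g⁻¹) = 4 := by
      have : g * c * g⁻¹ = MulAut.conj g c := rfl
      rw [this, MulEquiv.orderOf_eq, hc4]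
    have hpA : ∀ p : P, g * f p * g⁻¹ ∈ A := by
      intro p
      have hpS : g * f p * g⁻¹ ∈ (S : Subgroup X) :=
        hg ⟨f p, Subgroup.mem_sup_left ⟨p, rfl⟩, rfl⟩
      apply hcA _ hpS
      have hcomm : (g * f p * g⁻¹) * (g * c * g⁻¹) = (g * c * g⁻¹) * (g * f p * g⁻¹) := by
        calc (g * f p * g⁻¹) * (g * c * g⁻¹) = g * (f p * c) * g⁻¹ := by group
          _ = g * (c * f p) * g⁻¹ := by rw [hfc p]
          _ = _ := by group
      rcases h4 _ hc1S hc1o with h | h
      · rw [h] at hcomm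
        exact hcomm
      · rw [h] at hcomm
        have h5 : Commute (g * f p * g⁻¹) c⁻¹ := hcomm
        have h6 := h5.inv_right
        rwa [inv_inv] at h6
    let F : P →* A := ((MulAut.conj g).toMonoidHom.comp f).codRestrict A hpA
    have hFinj : Function.Injective F := by
      intro a b hab
      have h6 : g * f a * g⁻¹ = g * f b * g⁻¹ := congrArg Subtype.val hab
      have h7 : f a = f b := by
        have := mul_left_cancel (mul_right_cancel h6)
        exact this
      exact hfinj h7
    exact isCyclic_of_injective F hFinj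
  · exact hMA.of_injective _ (QuotientGroup.kerLift_injective ψ)



/-- Let X be a finite group whose Sylow 2-subgroup S is dihedral of order 2m ≥ 4. If |S| = 4, any two Klein four-subgroups of X are conjugate; if |S| > 4, there are Klein four-subgroups U₁, U₂ of X that are not conjugate, and every Klein four-subgroup of X is conjugate to U₁ or to U₂. -/
theorem result {X : Type*} [Group X] [Finite X] (S : Sylow 2 X) (m : ℕ) (hm : 2 ≤ m) (eS : (S : Subgroup X) ≃* DihedralGroup m) : (Nat.card S = 4 → ∀ U V : Subgroup X, IsKleinFour U → IsKleinFour V → (∃ x : X, U.map (MulAut.conj x).toMonoidHom = V)) ∧ (4 < Nat.card S → ∃ U₁ U₂ : Subgroup X, IsKleinFour U₁ ∧ IsKleinFour U₂ ∧ ¬ (∃ x : X, U₁.map (MulAut.conj x).toMonoidHom = U₂) ∧ ∀ V : Subgroup X, IsKleinFour V → (∃ x : X, V.map (MulAut.conj x).toMonoidHom = U₁) ∨ (∃ x : X, V.map (MulAut.conj x).toMonoidHom = U₂)) := by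
  classical
  haveI : Fact (Nat.Prime 2) := ⟨Nat.prime_two⟩
  obtain ⟨k, hk⟩ := exists_pow S eS hm
  have hm0 : m ≠ 0 := by omega
  haveI : NeZero m := ⟨hm0⟩
  have hev : Even m := by
    rw [hk, pow_succ]
    exact even_two.mul_left _
  set ι := iota (S : Subgroup X) eS with hι
  have hιinj : Function.Injective ι := iota_injective _ _
  -- Klein four-subgroups of `S`
  have hkleinS : ∀ V : Subgroup X, V ≤ (S : Subgroup X) → IsKleinFour V → ∃ j, V = (kl hev j).map ι := by
    intro V hVS hV
    have hrange : V ≤ ι.range := by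
      rw [hι, range_iota]
      exact hVS
    have hmapc : (V.comap ι).map ι = V := Subgroup.map_comap_eq_self hrange
    have hW : IsKleinFour (V.comap ι) := by
      apply isKleinFour_of_card_of_sq
      · have h1 : Nat.card ((V.comap ι).map ι) = Nat.card (V.comap ι) :=
          Subgroup.card_map_of_injective hιinj
        rw [← h1, hmapc]
        exact hV.card_four
      · rintro ⟨x, hx⟩
        apply Subtype.ext
        apply hιinj
        have h2 : (⟨ι x, hx⟩ : V) ^ 2 = 1 := by
          rw [sq]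
          exact IsKleinFour.mul_self _
        have h3 := congrArg Subtype.val h2
        simpa using h3
    obtain ⟨j, hj⟩ := eq_kl_of_klein hev hm _ hW
    exact ⟨j, by rw [← hj, hmapc]⟩
  have hklein2 : ∀ V : Subgroup X, IsKleinFour V → IsPGroup 2 V := by
    intro V hV
    apply IsPGroup.of_card (n := 2)
    rw [hV.card_four]
    norm_num
  constructor
  · -- the case |S| = 4
    intro h4 U V hU hV
    have key : ∀ W : Subgroup X, IsKleinFour W → ∃ g : X, W.map (MulAut.conj g).toMonoidHom = S := by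
      intro W hW
      obtain ⟨g, hg⟩ := exists_conj_le S (hklein2 W hW)
      refine ⟨g, Subgroup.eq_of_le_of_card_ge hg ?_⟩
      rw [card_map_conj, hW.card_four, h4]
    obtain ⟨g₁, hg₁⟩ := key U hU
    obtain ⟨g₂, hg₂⟩ := key V hV
    refine ⟨g₂⁻¹ * g₁, ?_⟩
    rw [← map_conj_map_conj, hg₁, ← hg₂, map_conj_map_conj, inv_mul_cancel, map_conj_one]
  · intro hcard
    rw [card_S _ eS] at hcard
    have h4 : 4 ∣ m := by
      rw [hk]
      cases k with
      | zero => simp at hk; omega
      | succ k =>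
        exact ⟨2 ^ k, by ring⟩
    set q := quarter m with hq
    have h4q : 4 * q = 0 := by
      have := two_mul_half hev
      rw [← two_mul_quarter h4] at this
      linear_combination this
    have hK : ∀ j, IsKleinFour ((kl hev j).map ι) := fun j =>
      isKleinFour_map (isKleinFour_kl hev hm j) ι hιinj
    refine ⟨(kl hev 0).map ι, (kl hev 1).map ι, hK 0, hK 1, ?_, ?_⟩
    · rintro ⟨x, hx⟩
      let D : ZMod m → Subgroup X := fun j => (nkl j).map ι
      set d := Nat.card (nkl (0 : ZMod m)) with hd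
      have hDcard : ∀ j, Nat.card (D j) = d := by
        intro j
        change Nat.card ((nkl j).map ι) = d
        rw [Subgroup.card_map_of_injective hιinj, card_nkl 0 j]
      have hDS : ∀ j, D j ≤ (S : Subgroup X) := by
        rintro j _ ⟨y, -, rfl⟩
        exact iota_mem _ _ y
      have hDp : ∀ j, IsPGroup 2 (D j) := fun j => S.isPGroup'.to_le (hDS j)
      have hbound : ∀ V T : Subgroup X, IsKleinFour V → T ≤ Subgroup.normalizer (V : Set X) →
          IsPGroup 2 T → Nat.card T ≤ d := by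
        intro V T hV hTN hT
        have hsup : IsPGroup 2 (T ⊔ V : Subgroup X) :=
          IsPGroup.to_sup_of_normal_right' hT (hklein2 V hV) hTN
        obtain ⟨g, hg⟩ := exists_conj_le S hsup
        have hV' : V.map (MulAut.conj g).toMonoidHom ≤ (S : Subgroup X) :=
          (Subgroup.map_mono le_sup_right).trans hg
        have hT' : T.map (MulAut.conj g).toMonoidHom ≤ (S : Subgroup X) :=
          (Subgroup.map_mono le_sup_left).trans hg
        obtain ⟨j, hj⟩ := hkleinS _ hV' (isKleinFour_map hV _ (MulAut.conj g).injective)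
        have hrange : T.map (MulAut.conj g).toMonoidHom ≤ ι.range := by
          rw [hι, range_iota]
          exact hT'
        set T₀ := (T.map (MulAut.conj g).toMonoidHom).comap ι with hT₀def
        have hT₀ : T₀.map ι = T.map (MulAut.conj g).toMonoidHom := Subgroup.map_comap_eq_self hrange
        have hcardT : Nat.card T = Nat.card T₀ := by
          rw [← card_map_conj T g, ← hT₀]
          exact Subgroup.card_map_of_injective hιinj
        rw [hcardT, hd, card_nkl j 0]
        have hle : T₀ ≤ nkl j := by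
          refine le_trans ?_ (normalizer_le_nkl hev hm j)
          intro y hy
          apply Cfsg.Agent.Lib.TwoGroups.QD.mem_normalizer_of_conj_mem
          intro u hu
          have hy' : ι y ∈ T.map (MulAut.conj g).toMonoidHom := hy
          obtain ⟨t, ht, hty⟩ := hy'
          have hu' : ι u ∈ V.map (MulAut.conj g).toMonoidHom := by
            rw [hj]
            exact ⟨u, hu, rfl⟩
          obtain ⟨v, hv, hvu⟩ := hu'
          have h1 : t * v * t⁻¹ ∈ V := (Subgroup.mem_normalizer_iff.1 (hTN ht) v).1 hv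
          have h2 : ι (y * u * y⁻¹) ∈ (kl hev j).map ι := by
            rw [← hj]
            refine ⟨t * v * t⁻¹, h1, ?_⟩
            rw [map_mul, map_mul, map_inv, hty, hvu, map_mul, map_mul, map_inv]
          obtain ⟨w, hw, hwe⟩ := h2
          rwa [← hιinj hwe]
        exact Subgroup.card_le_of_le hle
      have hDN : ∀ j, D j ≤ Subgroup.normalizer (((kl hev j).map ι : Subgroup X) : Set X) := by
        rintro j _ ⟨y, hy, rfl⟩
        apply Cfsg.Agent.Lib.TwoGroups.QD.mem_normalizer_of_conj_mem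
        rintro _ ⟨u, hu, rfl⟩
        have := (Subgroup.mem_normalizer_iff.1 (nkl_le_normalizer hev hm j hy) u).1 hu
        exact ⟨_, this, by rw [map_mul, map_mul, map_inv]⟩
      set U₂ := (kl hev 1).map ι with hU₂
      have hD₁x : (D 0).map (MulAut.conj x).toMonoidHom ≤ Subgroup.normalizer (U₂ : Set X) := by
        rintro _ ⟨d₀, hd₀, rfl⟩
        apply Cfsg.Agent.Lib.TwoGroups.QD.mem_normalizer_of_conj_mem
        intro u hu
        rw [← hx] at hu ⊢
        obtain ⟨u₁, hu₁, rfl⟩ := hu
        have h1 := (Subgroup.mem_normalizer_iff.1 (hDN 0 hd₀) u₁).1 hu₁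
        refine ⟨d₀ * u₁ * d₀⁻¹, h1, ?_⟩
        change x * (d₀ * u₁ * d₀⁻¹) * x⁻¹ = (x * d₀ * x⁻¹) * (x * u₁ * x⁻¹) * (x * d₀ * x⁻¹)⁻¹
        group
      obtain ⟨y, hyN, hy⟩ := exists_conj_of_max (Subgroup.normalizer (U₂ : Set X))
        ((D 0).map (MulAut.conj x).toMonoidHom) (D 1) hD₁x (hDN 1)
        ((hDp 0).map _) (hDp 1) (by rw [card_map_conj, hDcard]) (hDcard 1)
        (fun T hT hTp => hbound U₂ T (hK 1) hT hTp)
      have hD' : (D 0).map (MulAut.conj (y * x)).toMonoidHom = D 1 := by
        rw [← map_conj_map_conj]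
        exact hy
      set c := ι (r q) with hc
      have hcD : c ∈ D 0 := ⟨r q, ⟨q, h4q, Or.inl rfl⟩, rfl⟩
      have hc4 : orderOf c = 4 := by
        rw [hc, orderOf_injective ι hιinj]
        exact orderOf_r_quarter h4 hev hm
      have h4S : ∀ z ∈ (S : Subgroup X), orderOf z = 4 → z = c ∨ z = c⁻¹ := by
        intro z hz hzo
        obtain ⟨w, rfl⟩ := exists_iota _ eS hz
        rw [orderOf_injective _ (iota_injective _ eS)] at hzo
        rcases eq_of_orderOf_four h4 hev hm hzo with rfl | rfl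
        · left
          rfl
        · right
          rw [hc, ← map_inv, inv_r]
      let A : Subgroup X := Subgroup.zpowers (ι (r 1))
      have hcA : ∀ z ∈ (S : Subgroup X), z * c = c * z → z ∈ A := by
        intro z hz hzc
        obtain ⟨w, rfl⟩ := exists_iota _ eS hz
        have h1 : w * r q = r q * w := by
          apply hιinj
          rw [map_mul, map_mul]
          exact hzc
        obtain ⟨a, rfl⟩ := eq_r_of_commute h4 hev hm h1
        refine ⟨(a.val : ℤ), ?_⟩
        change ι (r 1) ^ (a.val : ℤ) = _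
        rw [← map_zpow, r_one_zpow]
        simp [hι]
      have hY := normal_complement_Y S c A inferInstance hc4 h4S hcA
      have hYmem : ∀ w, w * c * w⁻¹ ∈ (S : Subgroup X) →
          w ∈ Subgroup.normalizer ((Subgroup.zpowers c : Subgroup X) : Set X) := by
        intro w hw
        have ho : orderOf (w * c * w⁻¹) = 4 := by
          have : w * c * w⁻¹ = MulAut.conj w c := rfl
          rw [this, MulEquiv.orderOf_eq, hc4]
        apply Cfsg.Agent.Lib.TwoGroups.QD.mem_normalizer_of_conj_mem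
        rintro _ ⟨j, rfl⟩
        change w * c ^ j * w⁻¹ ∈ _
        rw [← conj_zpow]
        apply Subgroup.zpow_mem
        rcases h4S _ hw ho with h | h
        · rw [h]
          exact Subgroup.mem_zpowers c
        · rw [h]
          exact Subgroup.inv_mem _ (Subgroup.mem_zpowers c)
      have hcS : c ∈ (S : Subgroup X) := iota_mem _ _ _
      have hSY : (S : Subgroup X) ≤ Subgroup.normalizer ((Subgroup.zpowers c : Subgroup X) : Set X) := by
        intro s hs
        apply hYmem
        exact (S : Subgroup X).mul_mem ((S : Subgroup X).mul_mem hs hcS) ((S : Subgroup X).inv_mem hs)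
      have hx'Y : y * x ∈ Subgroup.normalizer ((Subgroup.zpowers c : Subgroup X) : Set X) := by
        apply hYmem
        apply hDS 1
        rw [← hD']
        exact ⟨c, hcD, rfl⟩
      let SY : Sylow 2 (Subgroup.normalizer ((Subgroup.zpowers c : Subgroup X) : Set X)) := S.subtype hSY
      obtain ⟨N, hN, hNc⟩ := hasNormalPComplement_iff_forall.1 hY SY
      obtain ⟨s, hs, hks⟩ := conj_of_complement N (SY : Subgroup _) hNc ⟨y * x, hx'Y⟩
      have hs' : (s : X) ∈ (S : Subgroup X) := hs
      obtain ⟨w, hw⟩ := exists_iota _ eS hs'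
      have h0 : ι (sr 0) ∈ (S : Subgroup X) := iota_mem _ _ _
      have h6 : (y * x) * ι (sr 0) * (y * x)⁻¹ ∈ U₂ := by
        have h7 : x * ι (sr 0) * x⁻¹ ∈ U₂ := by
          rw [← hx]
          exact ⟨_, ⟨sr 0, Or.inr (Or.inr (Or.inl rfl)), rfl⟩, rfl⟩
        have h8 := (Subgroup.mem_normalizer_iff.1 hyN _).1 h7
        have e : (y * x) * ι (sr 0) * (y * x)⁻¹ = y * (x * ι (sr 0) * x⁻¹) * y⁻¹ := by group
        rw [e]
        exact h8
      have h5 := hks ⟨ι (sr 0), hSY h0⟩ h0 (by
        apply hDS 1 |>.trans le_rfl |> fun _ => ?_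
        have : (y * x) * ι (sr 0) * (y * x)⁻¹ ∈ (S : Subgroup X) := by
          obtain ⟨v, -, hv⟩ := h6
          rw [← hv]
          exact iota_mem _ _ v
        exact this)
      have h5' : (s : X) * ι (sr 0) * (s : X)⁻¹ = (y * x) * ι (sr 0) * (y * x)⁻¹ :=
        congrArg Subtype.val h5
      rw [← h5', ← hw, ← map_mul, ← map_inv, ← map_mul] at h6
      obtain ⟨v, hv, hve⟩ := h6
      have hve' := iota_injective _ eS hve
      rw [hve'] at hv
      exact not_conj_kl_one h4 hev w hv
    · intro V hV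
      obtain ⟨g, hg⟩ := exists_conj_le S (hklein2 V hV)
      obtain ⟨j, hj⟩ := hkleinS _ hg (isKleinFour_map hV _ (MulAut.conj g).injective)
      have hconj : ∀ a : ZMod m, ((kl hev j).map ι).map (MulAut.conj (ι (r a))).toMonoidHom =
          (kl hev (j - 2 * a)).map ι := by
        intro a
        rw [← map_conj_kl hev hm j a]
        ext x
        constructor
        · rintro ⟨_, ⟨u, hu, rfl⟩, rfl⟩
          refine ⟨_, ⟨u, hu, rfl⟩, ?_⟩
          change ι (r a * u * (r a)⁻¹) = ι (r a) * ι u * (ι (r a))⁻¹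
          rw [map_mul, map_mul, map_inv]
        · rintro ⟨_, ⟨u, hu, rfl⟩, rfl⟩
          refine ⟨_, ⟨u, hu, rfl⟩, ?_⟩
          change ι (r a) * ι u * (ι (r a))⁻¹ = ι (r a * u * (r a)⁻¹)
          rw [map_mul, map_mul, map_inv]
      have hpar : ∃ a : ZMod m, j - 2 * a = 0 ∨ j - 2 * a = 1 := by
        refine ⟨((j.val / 2 : ℕ) : ZMod m), ?_⟩
        have h1 : j = ((j.val : ℕ) : ZMod m) := by simp
        rcases Nat.mod_two_eq_zero_or_one j.val with h | h
        · left
          have h2 : j.val = 2 * (j.val / 2) := by omega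
          nth_rw 1 [h1, h2]
          push_cast
          ring
        · right
          have h2 : j.val = 2 * (j.val / 2) + 1 := by omega
          nth_rw 1 [h1, h2]
          push_cast
          ring
      obtain ⟨a, ha | ha⟩ := hpar
      · left
        refine ⟨ι (r a) * g, ?_⟩
        rw [← map_conj_map_conj, hj, hconj, ha]
      · right
        refine ⟨ι (r a) * g, ?_⟩
        rw [← map_conj_map_conj, hj, hconj, ha]

end Cfsg.Agent.S1256
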