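import Cfsg.Statements.S1262
import Cfsg.Agent.Lib.Components.Basic

set_option autoImplicit false
open Cfsg

namespace Cfsg.Agent.S1262

/-- Let L be a component of the finite group G and H a solvable subgroup normalized by L. Then ⁅L, H⁆ = 1. -/
theorem result {G : Type*} [Group G] [Finite G] (L H : Subgroup G) (hL : Cfsg.IsComponent L) (hsolv : Group.IsSolvable ↥H) (hinv : L ≤ Subgroup.normalizer (H : Set G)) : ⁅L, H⁆ = ⊥ := by
  rcases Cfsg.Agent.Lib.Components.Basic.component_le_or_commutator_eq_bot_of_le_normalizer hL hinv with h | h
  · exfalso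
    have hs : Group.IsSolvable L := by
      have : Group.IsSolvable (L.subgroupOf H) := inferInstance
      exact Group.isSolvable_of_surjective (f := (Subgroup.subgroupOfEquivOfLe h).toMonoidHom)
        (Subgroup.subgroupOfEquivOfLe h).surjective
    exact Cfsg.Agent.Lib.Components.Basic.quasisimple_not_solvable hL.2 hs
  · exact h

end Cfsg.Agent.S1262
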