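import Cfsg.Statements.S1263
import Cfsg.Agent.Lib.Components.Basic

set_option autoImplicit false
open Cfsg

namespace Cfsg.Agent.S1263

/-- For a finite group G, Z(E(G)) is the subgroup generated by the centres Z(L) of the components L of G (all viewed as subgroups of G). -/
theorem result {G : Type*} [Group G] [Finite G] : (Subgroup.center ↥(Cfsg.layer G)).map (Cfsg.layer G).subtype = ⨆ L : {K : Subgroup G // Cfsg.IsComponent K}, (Subgroup.center ↥(L : Subgroup G)).map (L : Subgroup G).subtype := by
  classical
  open Cfsg.Agent.Lib.Components.Basic Subgroup in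
  apply le_antisymm
  · -- the main inclusion
    rintro _ ⟨⟨z, hz⟩, hzc, rfl⟩
    have : Fintype (Subgroup G) := Fintype.ofFinite _
    let S : Finset (Subgroup G) := Finset.univ.filter (fun K => Cfsg.IsComponent K)
    have hS : (S : Set (Subgroup G)) = {K | Cfsg.IsComponent K} := by
      ext K; simp [S]
    have hlay : Cfsg.layer G = sSup (S : Set (Subgroup G)) := by
      rw [hS]; rfl
    have hz' : z ∈ sSup (S : Set (Subgroup G)) := hlay ▸ hz
    have hzc' : z ∈ centralizer ((sSup (S : Set (Subgroup G)) : Subgroup G) : Set G) := by
      rw [mem_centralizer_iff]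
      intro y hy
      rw [← hlay] at hy
      have := mem_center_iff.mp hzc ⟨y, hy⟩
      exact congrArg Subtype.val this
    have hmem := mem_center_iSup_of_pairwise_commute S ?_ hz' hzc'
    · have hle : (⨆ K ∈ S, (center (K : Subgroup G)).map K.subtype) ≤
          ⨆ L : {K : Subgroup G // Cfsg.IsComponent K},
            (center (L : Subgroup G)).map (L : Subgroup G).subtype := by
        refine iSup_le fun K => iSup_le fun hK => ?_
        have hK' : Cfsg.IsComponent K := by simpa [S] using hK
        exact le_iSup_of_le (⟨K, hK'⟩ : {K : Subgroup G // Cfsg.IsComponent K}) le_rfl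
      exact hle hmem
    · intro K hK L hL hne
      have hK' : Cfsg.IsComponent K := by simpa [S] using hK
      have hL' : Cfsg.IsComponent L := by simpa [S] using hL
      exact (component_eq_or_commutator_eq_bot hK' hL').resolve_left hne
  · refine iSup_le ?_
    rintro ⟨L, hL⟩
    rintro _ ⟨⟨z, hz⟩, hzc, rfl⟩
    have hzE : z ∈ Cfsg.layer G := le_layer_of_isComponent hL hz
    refine ⟨⟨z, hzE⟩, ?_, rfl⟩
    rw [SetLike.mem_coe, mem_center_iff]
    rintro ⟨y, hy⟩
    apply Subtype.ext
    show y * z = z * y
    -- `z` centralizes the layer: it commutes with every component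
    have : Cfsg.layer G ≤ centralizer ({z} : Set G) := by
      apply sSup_le
      intro K hK
      rcases component_eq_or_commutator_eq_bot hL hK with rfl | hc
      · intro x hx
        rw [mem_centralizer_singleton_iff]
        have := mem_center_iff.mp hzc ⟨x, hx⟩
        exact congrArg Subtype.val this
      · intro x hx
        have h1 : z ∈ centralizer (K : Set G) := commutator_eq_bot_iff_le_centralizer.mp hc hz
        have h2 := mem_centralizer_iff.mp h1 x hx
        rw [mem_centralizer_singleton_iff]
        exact h2
    have h3 := this hy
    rw [mem_centralizer_singleton_iff] at h3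
    exact h3

end Cfsg.Agent.S1263
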