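import Cfsg.Statements.S1264
import Cfsg.Agent.Lib.Core.Basic
import Cfsg.Agent.Lib.Signal.Basic

set_option autoImplicit false
open Cfsg

namespace Cfsg.Agent.S1264

open Subgroup Cfsg.Agent.Lib.Core.Basic Cfsg.Agent.Lib.Core.Radical

universe u

def solvClass (X : Type u) [Group X] : Prop := Group.IsSolvable X

theorem isRadicalClass_solv : IsRadicalClass solvClass where
  trivial _ := by
    show Group.IsSolvable _
    infer_instance
  of_injective f hf h := by
    haveI : Group.IsSolvable _ := h
    exact Group.isSolvable_of_isSolvable_injective hf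
  sup A B hA hB hA' hB' := by
    haveI : Group.IsSolvable A := hA'
    haveI : Group.IsSolvable B := hB'
    exact Cfsg.Agent.Lib.Signal.Basic.isSolvable_sup_of_le_normalizer
      (le_normalizer_iff.mpr fun a _ x hx => hA.conj_mem x hx a) hA' hB'

variable {G : Type u} [Group G] [Finite G]

/-- A normal solvable subgroup centralizing `F(G)` lies in `F(G)`. -/
theorem le_fitting (T : Subgroup G) (hT : T.Normal) (hC : T ≤ centralizer (fittingSubgroup G : Set G))
    (hs : Group.IsSolvable T) : T ≤ fittingSubgroup G := by
  induction' hn : Nat.card T using Nat.strong_induction_on with n ih generalizing T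
  by_cases hb : T = ⊥
  · rw [hb]; exact bot_le
  have hnt : Nontrivial T := (Subgroup.nontrivial_iff_ne_bot T).mpr hb
  have hlt : commutator T < ⊤ := IsSolvable.commutator_lt_top_of_nontrivial T
  have hT1 : ⁅T, T⁆ ≤ T := Subgroup.commutator_le_self T
  have hcard : Nat.card (⁅T, T⁆ : Subgroup G) < n := by
    rw [← hn]
    apply lt_of_le_of_ne (Subgroup.card_le_of_le hT1)
    intro hc
    have h : (⁅T, T⁆ : Subgroup G) = T := Subgroup.eq_of_le_of_card_ge hT1 hc.ge
    apply hlt.ne
    rw [eq_top_iff]
    intro k _
    have : (k : G) ∈ (commutator T).map T.subtype := by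
      rw [Subgroup.map_subtype_commutator, h]; exact k.2
    obtain ⟨l, hl, e⟩ := this
    have : l = k := Subtype.ext e
    rwa [← this]
  have h1 : ⁅T, T⁆ ≤ fittingSubgroup G := by
    refine ih _ hcard ⁅T, T⁆ (Subgroup.commutator_normal T T) (hT1.trans hC) ?_ rfl
    haveI := hs
    exact Cfsg.Agent.Lib.Coprime.SchurZassenhaus.isSolvable_of_le hT1
  apply le_fittingSubgroup hT
  have h2 : commutator T ≤ center T := by
    intro x hx
    rw [mem_center_iff]
    intro y
    have hx' : (x : G) ∈ ⁅T, T⁆ := by
      rw [← Subgroup.map_subtype_commutator]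
      exact ⟨x, hx, rfl⟩
    exact Subtype.ext (mem_centralizer_iff.mp (hC y.2) x (h1 hx')).symm
  exact _root_.isNilpotent_of_ker_le_center (Abelianization.of (G := T)) (by
    rw [Abelianization.ker_of]; exact h2)

/-- Let G be finite, C = C_G(F(G)) the centralizer of the Fitting subgroup, and N a solvable subgroup of C normalized by C. Then N ≤ Z(F(G)). -/
theorem result {G : Type*} [Group G] [Finite G] (N : Subgroup G) (hN : N ≤ Subgroup.centralizer (Cfsg.fittingSubgroup G : Set G)) (hnorm : Subgroup.centralizer (Cfsg.fittingSubgroup G : Set G) ≤ Subgroup.normalizer (N : Set G)) (hsolv : Group.IsSolvable ↥N) : N ≤ (Subgroup.center ↥(Cfsg.fittingSubgroup G)).map (Cfsg.fittingSubgroup G).subtype := by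
  set F := fittingSubgroup G with hF
  haveI hFn : F.Normal := fittingSubgroup_normal
  set C := centralizer (F : Set G) with hC
  haveI hCn : C.Normal := Subgroup.normal_centralizer
  let R : Subgroup C := radical solvClass C
  haveI : R.Characteristic := radical_characteristic isRadicalClass_solv
  have hT : (R.map C.subtype).Normal := inferInstance
  have hTC : R.map C.subtype ≤ C := map_subtype_le R
  have hTs : Group.IsSolvable (R.map C.subtype) := by
    have h1 : Group.IsSolvable R := radical_prop isRadicalClass_solv
    exact Group.isSolvable_of_isSolvable_injective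
      (f := (R.equivMapOfInjective C.subtype C.subtype_injective).symm.toMonoidHom)
      (MulEquiv.injective _)
  have hTF := le_fitting _ hT hTC hTs
  have hNR : N.subgroupOf C ≤ R := by
    apply le_radical
    · exact (Subgroup.normal_subgroupOf_iff_le_normalizer hN).mpr hnorm
    · show Group.IsSolvable _
      haveI := hsolv
      exact Cfsg.Agent.Lib.Coprime.SchurZassenhaus.isSolvable_subgroupOf le_rfl
  have hNT : N ≤ R.map C.subtype := by
    intro x hx
    exact ⟨⟨x, hN hx⟩, hNR (by rwa [mem_subgroupOf]), rfl⟩
  intro x hx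
  have hxF : x ∈ F := hTF (hNT hx)
  refine ⟨⟨x, hxF⟩, ?_, rfl⟩
  rw [SetLike.mem_coe, mem_center_iff]
  intro y
  exact Subtype.ext (mem_centralizer_iff.mp (hN hx) y y.2)

end Cfsg.Agent.S1264
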