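import Cfsg.Statements.S1267
import Cfsg.Agent.Lib.Signal.Balance

set_option autoImplicit false
open Cfsg

namespace Cfsg.Agent.S1267

open Subgroup Cfsg Cfsg.Agent.Lib.Signal.Balance Cfsg.Agent.Lib.Components.Basic Cfsg.Agent.Lib.Core.Basic


/-- Let G be finite and P ≤ O_p(G). Then E(N_G(P)) = E(G). -/
theorem result {G : Type*} [Group G] [Finite G] (p : ℕ) [Fact p.Prime] (P : Subgroup G) (hP : P ≤ Cfsg.pCore p G) : (Cfsg.layer ↥(Subgroup.normalizer ((P : Subgroup G) : Set G))).map (Subgroup.normalizer ((P : Subgroup G) : Set G)).subtype = Cfsg.layer G := by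
  set N := normalizer ((P : Subgroup G) : Set G) with hN
  set Q := pCore p G with hQ
  haveI hQn : Q.Normal := by rw [hQ]; infer_instance
  have hQp : IsPGroup p Q := pCore_isPGroup
  haveI hCn : (centralizer (Q : Set G)).Normal := Subgroup.normal_centralizer
  have hCN : centralizer (Q : Set G) ≤ N := by
    intro c hc
    apply mem_normalizer_fintype
    intro u hu
    have := mem_centralizer_iff.mp hc u (hP hu)
    rw [← this]
    simpa using hu
  apply le_antisymm
  · rw [Subgroup.map_le_iff_le_comap, layer]
    apply sSup_le
    intro K hK
    rw [← Subgroup.map_le_iff_le_comap]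
    have hK' : IsQuasisimple (K.map N.subtype) := (quasisimple_map_subtype_iff K).2 hK.2
    -- `K` centralizes `Q`
    have h1 : K.map N.subtype ≤ centralizer (Q : Set G) := by
      apply le_of_forall_coprime (p := p) (D := ⊥) bot_le (by simp)
      · rw [sup_bot_eq, commutator_self_of_quasisimple hK']
      · rintro _ ⟨x, hx, rfl⟩ hc
        rw [Subgroup.coe_subtype] at *
        have h2 := centralizes_of_normalizer (W := Q) (P := P) (x := (x : G)) hQp hP
          (fun w hw => hQn.conj_mem w hw x) ?_ (by rwa [Subgroup.orderOf_coe] at hc ⊢)
        · rw [mem_centralizer_iff]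
          intro q hq
          have := h2 q hq
          rw [mul_inv_eq_iff_eq_mul] at this
          exact this.symm
        · intro c hcQ hcP
          have hcN : c ∈ N := mem_normalizer_fintype hcP
          have h3 := component_commutator_normal_nilpotent hK (hQn.subgroupOf N)
            (hQp.comap_subtype (K := N)).isNilpotent
          rw [commutator_eq_bot_iff_le_centralizer] at h3
          have h4 := mem_centralizer_iff.mp (h3 hx) ⟨c, hcN⟩ (by rwa [SetLike.mem_coe, mem_subgroupOf])
          have h5 : c * (x : G) = x * c := congrArg Subtype.val h4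
          rw [← h5]
          group
    have hs : (K.map N.subtype).IsSubnormal := by
      refine IsSubnormal.trans h1 ?_ hCn.isSubnormal
      have : (K.map N.subtype).subgroupOf (centralizer (Q : Set G)) =
          K.comap (inclusion hCN) := by
        ext ⟨x, hx⟩
        rw [mem_subgroupOf, mem_comap]
        constructor
        · rintro ⟨y, hy, e⟩
          have : y = inclusion hCN ⟨x, hx⟩ := Subtype.ext e
          rw [← this]; exact hy
        · intro h
          exact ⟨_, h, rfl⟩
      rw [this]
      exact hK.1.comap _
    exact le_layer_of_isComponent ⟨hs, hK'⟩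
  · rw [layer]
    apply sSup_le
    intro L hL
    have hLC : L ≤ centralizer (Q : Set G) := by
      have h := component_commutator_normal_nilpotent hL hQn hQp.isNilpotent
      rw [commutator_eq_bot_iff_le_centralizer] at h
      exact h
    have hLN : L ≤ N := hLC.trans hCN
    have h1 : IsComponent (L.subgroupOf N) :=
      ⟨hL.1.subgroupOf, (quasisimple_subgroupOf_iff hLN).2 hL.2⟩
    have h2 := le_layer_of_isComponent h1
    have h3 := Subgroup.map_mono (f := N.subtype) h2
    rwa [map_subgroupOf_eq_of_le hLN] at h3

end Cfsg.Agent.S1267
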