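import Cfsg.Statements.S1273
import Cfsg.Agent.Lib.Signal.PComp

set_option autoImplicit false
open Cfsg

namespace Cfsg.Agent.S1273

open Subgroup Cfsg Cfsg.Agent.Lib.Components.Basic Cfsg.Agent.Lib.Core.Basic Cfsg.Agent.Lib.PCStage.Basic Cfsg.Agent.Lib.Signal.PComp


/-- Let K be a p-component of the finite group X and N a normal subgroup of K whose index in K is prime to p. Then N = K. -/
theorem result {X : Type*} [Group X] [Finite X] (p : ℕ) [Fact p.Prime] (K : Subgroup X) (hK : Cfsg.IsPComponent p K) (N : Subgroup ↥K) [N.Normal] (hidx : (N.index).Coprime p) : N = ⊤ := by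
  have hp : p.Prime := Fact.out
  have hs : (N.map K.subtype).IsSubnormal := (Subgroup.Normal.isSubnormal inferInstance).trans' hK.1
  have hsub : (N.map K.subtype).subgroupOf K = N :=
    comap_map_eq_self_of_injective K.subtype_injective N
  have h1 := eq_of_not_dvd_index hp hK hs (map_subtype_le N) (by
    rw [hsub]
    intro hd
    have := Nat.Coprime.coprime_dvd_left hd hidx
    exact hp.one_lt.ne' (by simpa using this))
  rw [← hsub, h1]
  exact subgroupOf_self K

end Cfsg.Agent.S1273
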