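import Cfsg.Statements.S1278
import Cfsg.Agent.Lib.Signal.PComp

set_option autoImplicit false
open Cfsg

namespace Cfsg.Agent.S1278

open Subgroup Cfsg Cfsg.Agent.Lib.Components.Basic Cfsg.Agent.Lib.Core.Basic Cfsg.Agent.Lib.PCStage.Basic Cfsg.Agent.Lib.Signal.PComp


/-- Let K ≠ L be 2-components of the finite group X. Then ⁅K, L⁆ ≤ O(K) ⊓ O(L), and if K is quasisimple then ⁅K, L⁆ = 1. -/
theorem result {X : Type*} [Group X] [Finite X] (K L : Subgroup X) (hK : Cfsg.IsPComponent 2 K) (hL : Cfsg.IsPComponent 2 L) (hne : K ≠ L) : ⁅K, L⁆ ≤ ((Cfsg.oddCore ↥K).map K.subtype) ⊓ ((Cfsg.oddCore ↥L).map L.subtype) ∧ (Cfsg.IsQuasisimple ↥K → ⁅K, L⁆ = ⊥) := by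
  have hp : Nat.Prime 2 := Nat.prime_two
  have h1 := commutator_le_inf_core hp hK hL hne
  refine ⟨h1, fun hQ => ?_⟩
  apply commutator_eq_bot_of_perfect (commutator_self hK)
  have h2 := commutator_core_eq_bot hp hK hQ
  rw [Subgroup.commutator_comm, eq_bot_iff]
  refine le_trans (Subgroup.commutator_mono le_rfl (h1.trans inf_le_left)) ?_
  rw [h2]

end Cfsg.Agent.S1278
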