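import Cfsg.Statements.S1286

set_option autoImplicit false
open Cfsg

namespace Cfsg.Agent.S1286

open Subgroup

abbrev X9 := Equiv.Perm (Fin 9)

def mk9 (f g : Fin 9 → Fin 9) (h₁ : ∀ i, g (f i) = i) (h₂ : ∀ i, f (g i) = i) : X9 :=
  ⟨f, g, h₁, h₂⟩

def px : X9 := mk9 ![3,4,5,6,7,8,0,1,2] ![6,7,8,0,1,2,3,4,5] (by decide) (by decide)
def py : X9 := mk9 ![0,1,2,4,5,3,8,6,7] ![0,1,2,5,3,4,7,8,6] (by decide) (by decide)
def pa : X9 := mk9 ![0,2,1,3,5,4,6,8,7] ![0,2,1,3,5,4,6,8,7] (by decide) (by decide)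
def pb : X9 := mk9 ![0,2,1,6,8,7,3,5,4] ![0,2,1,6,8,7,3,5,4] (by decide) (by decide)

theorem e1 : pa * pa = 1 := by ext i; revert i; decide
theorem e2 : pb * pb = 1 := by ext i; revert i; decide
theorem e3 : pa * pb = pb * pa := by ext i; revert i; decide
theorem e4 : px * px * px = 1 := by ext i; revert i; decide
theorem e5 : py * py * py = 1 := by ext i; revert i; decide
theorem e6 : pa * px = px * pa := by ext i; revert i; decide
theorem e7 : pb * px * pb = px * px := by ext i; revert i; decide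
theorem e8 : pa * py * pa = py * py := by ext i; revert i; decide
theorem e9 : pb * py = py * pb := by ext i; revert i; decide
theorem e10 : pa ≠ 1 := by decide
theorem e11 : pb ≠ 1 := by decide
theorem e12 : pa ≠ pb := by decide
theorem e13 : pa * pb ≠ 1 := by decide
theorem e14 : px ≠ 1 := by decide
theorem e15 : py ≠ 1 := by decide
theorem e16 : px * py ≠ py * px := by decide
theorem e17 : (pa * pb) * (px * py * px⁻¹ * py⁻¹) = (px * py * px⁻¹ * py⁻¹) * (pa * pb) := by
  ext i; revert i; decide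

section abstract
variable {X : Type} [Group X] [Finite X] {a b x y : X}

theorem conj_inv_zpowers {h x : X} (hx3 : x * x * x = 1) (hi : h * x * h⁻¹ = x⁻¹) :
    ∀ u ∈ zpowers x, h * u * u * h⁻¹ = h * u * h⁻¹ * (h * u * h⁻¹) ∧ h * u * h⁻¹ = u⁻¹ ∧ u * u * u = 1 := by
  intro u hu
  obtain ⟨k, rfl⟩ := mem_zpowers_iff.mp hu
  have h1 : h * x ^ k * h⁻¹ = (x ^ k)⁻¹ := by
    have := MulAut.conj h |>.toMonoidHom.map_zpow x k
    simp only [MulEquiv.toMonoidHom_eq_coe, MonoidHom.coe_coe, MulAut.conj_apply] at this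
    rw [this, hi, inv_zpow]
  refine ⟨by group, h1, ?_⟩
  have h3 : x ^ 3 = 1 := by rw [pow_succ, pow_two]; exact hx3
  have : (x ^ k) ^ 3 = 1 := by rw [← zpow_natCast, zpow_comm, zpow_natCast, h3, one_zpow]
  rw [pow_succ, pow_two] at this
  exact this

theorem eq_one_of_comm {h x u : X} (hx3 : x * x * x = 1) (hi : h * x * h⁻¹ = x⁻¹) (hu : u ∈ zpowers x)
    (hc : u ∈ centralizer {h}) : u = 1 := by
  obtain ⟨-, h1, h2⟩ := conj_inv_zpowers hx3 hi u hu
  have h3 : h * u = u * h := mem_centralizer_iff.mp hc h (Set.mem_singleton h)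
  have h4 : h * u * h⁻¹ = u := by rw [h3]; group
  rw [h4] at h1
  have h5 : u * u = 1 := by
    calc u * u = u * u⁻¹ := by rw [← h1]
      _ = 1 := mul_inv_cancel u
  rw [h5, one_mul] at h2
  exact h2

theorem abstract_example (e1 : a * a = 1) (e2 : b * b = 1) (e3 : a * b = b * a)
    (e4 : x * x * x = 1) (e5 : y * y * y = 1) (e6 : a * x = x * a) (e7 : b * x * b = x * x)
    (e8 : a * y * a = y * y) (e9 : b * y = y * b) (e10 : a ≠ 1) (e11 : b ≠ 1) (e12 : a ≠ b)
    (e13 : a * b ≠ 1) (e14 : x ≠ 1) (e15 : y ≠ 1) (e16 : x * y ≠ y * x)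
    (e17 : (a * b) * (x * y * x⁻¹ * y⁻¹) = (x * y * x⁻¹ * y⁻¹) * (a * b)) :
    ∃ (A : Subgroup X) (θ : X → Subgroup X), Cfsg.IsElementaryAbelian 2 A ∧ Nat.card ↥A = 4 ∧
      Cfsg.IsSolvableSignalizerFunctor 2 A θ ∧ ¬ Cfsg.IsCompleteSignalizerFunctor 2 A θ := by
  classical
  have ai : a⁻¹ = a := inv_eq_of_mul_eq_one_left e1
  have bi : b⁻¹ = b := inv_eq_of_mul_eq_one_left e2
  have xi : x⁻¹ = x * x := inv_eq_of_mul_eq_one_left e4
  have yi : y⁻¹ = y * y := inv_eq_of_mul_eq_one_left e5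
  have p1 : a * (a * b) = b := by rw [← mul_assoc, e1, one_mul]
  have p2 : b * (a * b) = a := by rw [e3, ← mul_assoc, e2, one_mul]
  have p3 : a * b * a = b := by rw [e3, mul_assoc, e1, mul_one]
  have p4 : a * b * b = a := by rw [mul_assoc, e2, mul_one]
  have p5 : a * b * (a * b) = 1 := by
    rw [← mul_assoc, p3, e2]
  have p6 : (a * b)⁻¹ = a * b := inv_eq_of_mul_eq_one_left p5
  let A : Subgroup X :=
    { carrier := {1, a, b, a * b}
      mul_mem' := by
        rintro u v (rfl | rfl | rfl | rfl) (rfl | rfl | rfl | rfl) <;>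
          simp [e1, e2, ← e3, p1, p2, p3, p4, p5]
      one_mem' := by simp
      inv_mem' := by
        rintro u (rfl | rfl | rfl | rfl) <;> simp [ai, bi, p6] }
  have hAmem : ∀ {g : X}, g ∈ A ↔ g = 1 ∨ g = a ∨ g = b ∨ g = a * b := Iff.rfl
  let θ : X → Subgroup X := fun g => if g = a then zpowers x else if g = b then zpowers y else ⊥
  have t1 : θ a = zpowers x := if_pos rfl
  have t2 : θ b = zpowers y := by
    show (if b = a then zpowers x else if b = b then zpowers y else ⊥) = _
    rw [if_neg e12.symm, if_pos rfl]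
  have n1 : a * b ≠ a := fun h => e11 (mul_left_cancel (h.trans (mul_one a).symm))
  have n2 : a * b ≠ b := fun h => e10 (mul_right_cancel (h.trans (one_mul b).symm))
  have t3 : θ (a * b) = ⊥ := by
    show (if a * b = a then zpowers x else if a * b = b then zpowers y else ⊥) = _
    rw [if_neg n1, if_neg n2]
  have hA2 : ∀ g ∈ A, g ^ 2 = 1 := by
    rintro g (rfl | rfl | rfl | rfl)
    · simp
    · rw [pow_two, e1]
    · rw [pow_two, e2]
    · rw [pow_two, p5]
  have hAc : ∀ g ∈ A, ∀ h ∈ A, g * h = h * g := by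
    rintro g (rfl | rfl | rfl | rfl) h (rfl | rfl | rfl | rfl) <;>
      simp [← e3, ← mul_assoc, e1, e2, p3, p4]
  have hEA : Cfsg.IsElementaryAbelian 2 A := by
    refine ⟨⟨⟨?_⟩⟩, hA2⟩
    rintro ⟨u, hu⟩ ⟨v, hv⟩
    exact Subtype.ext (hAc u hu v hv)
  have hcard : Nat.card ↥A = 4 := by
    have : ((A : Set X)) = (({1, a, b, a * b} : Finset X) : Set X) := by
      ext g
      simp [hAmem]
    show Nat.card ((A : Set X)) = 4
    rw [this, Nat.card_eq_card_toFinset, Finset.toFinset_coe]
    rw [Finset.card_insert_of_notMem, Finset.card_insert_of_notMem, Finset.card_insert_of_notMem,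
      Finset.card_singleton]
    · simp [n2.symm]
    · simp [n1.symm, e12]
    · simp [e10.symm, e11.symm, e13.symm]
  -- conjugation facts
  have cb : b * x * b⁻¹ = x⁻¹ := by rw [bi, e7, xi]
  have cax : a * x⁻¹ * a⁻¹ = x⁻¹ := by
    have h : a * x⁻¹ = x⁻¹ * a := (Commute.inv_right e6)
    rw [h]; group
  have cab : (a * b) * x * (a * b)⁻¹ = x⁻¹ := by
    calc (a * b) * x * (a * b)⁻¹ = a * (b * x * b⁻¹) * a⁻¹ := by group
      _ = a * x⁻¹ * a⁻¹ := by rw [cb]
      _ = x⁻¹ := cax
  have ca : a * x * a⁻¹ = x := by rw [e6]; group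
  have cya : a * y * a⁻¹ = y⁻¹ := by rw [ai, e8, yi]
  have cby : b * y * b⁻¹ = y := by rw [e9]; group
  have cyab : (a * b) * y * (a * b)⁻¹ = y⁻¹ := by
    calc (a * b) * y * (a * b)⁻¹ = a * (b * y * b⁻¹) * a⁻¹ := by group
      _ = a * y * a⁻¹ := by rw [cby]
      _ = y⁻¹ := cya
  have norm_zp : ∀ {h z w : X}, h * z * h⁻¹ = w → w ∈ zpowers z → ∀ u ∈ zpowers z,
      h * u * h⁻¹ ∈ zpowers z := by
    intro h z w hw hwz u hu
    obtain ⟨k, rfl⟩ := mem_zpowers_iff.mp hu
    have := (MulAut.conj h).toMonoidHom.map_zpow z k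
    simp only [MulEquiv.toMonoidHom_eq_coe, MonoidHom.coe_coe, MulAut.conj_apply] at this
    rw [this, hw]
    exact zpow_mem hwz k
  have hx_inv : x⁻¹ ∈ zpowers x := inv_mem (mem_zpowers x)
  have hy_inv : y⁻¹ ∈ zpowers y := inv_mem (mem_zpowers y)
  have hFun : Cfsg.IsSignalizerFunctor 2 A θ := by
    refine ⟨?_, ?_, ?_, ?_⟩
    · rintro g (rfl | rfl | rfl | rfl) hg
      · exact absurd rfl hg
      · rw [t1, zpowers_le, mem_centralizer_iff]
        intro t ht; rw [Set.mem_singleton_iff] at ht; subst ht; exact e6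
      · rw [t2, zpowers_le, mem_centralizer_iff]
        intro t ht; rw [Set.mem_singleton_iff] at ht; subst ht; exact e9
      · rw [t3]; exact bot_le
    · have hx3 : Nat.card (zpowers x) = 3 := by
        rw [Nat.card_zpowers]
        haveI : Fact (Nat.Prime 3) := ⟨by norm_num⟩
        exact orderOf_eq_prime (by rw [pow_succ, pow_two]; exact e4) e14
      have hy3 : Nat.card (zpowers y) = 3 := by
        rw [Nat.card_zpowers]
        haveI : Fact (Nat.Prime 3) := ⟨by norm_num⟩
        exact orderOf_eq_prime (by rw [pow_succ, pow_two]; exact e5) e15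
      rintro g (rfl | rfl | rfl | rfl) hg
      · exact absurd rfl hg
      · rw [t1, hx3]; decide
      · rw [t2, hy3]; decide
      · rw [t3, Subgroup.card_bot]; decide
    · have nx : ∀ h ∈ A, ∀ u ∈ zpowers x, h * u * h⁻¹ ∈ zpowers x := by
        rintro h (rfl | rfl | rfl | rfl) u hu
        · simpa using hu
        · exact norm_zp ca (mem_zpowers x) u hu
        · exact norm_zp cb hx_inv u hu
        · exact norm_zp cab hx_inv u hu
      have ny : ∀ h ∈ A, ∀ u ∈ zpowers y, h * u * h⁻¹ ∈ zpowers y := by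
        rintro h (rfl | rfl | rfl | rfl) u hu
        · simpa using hu
        · exact norm_zp cya hy_inv u hu
        · exact norm_zp cby (mem_zpowers y) u hu
        · exact norm_zp cyab hy_inv u hu
      rintro g (rfl | rfl | rfl | rfl) hg h hh u hu
      · exact absurd rfl hg
      · rw [t1] at hu ⊢; exact nx h hh u hu
      · rw [t2] at hu ⊢; exact ny h hh u hu
      · rw [t3] at hu ⊢
        rw [mem_bot] at hu ⊢
        rw [hu]; simp
    · rintro g (rfl | rfl | rfl | rfl) hg h (rfl | rfl | rfl | rfl) hh u ⟨hu1, hu2⟩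
      · exact absurd rfl hg
      · exact absurd rfl hg
      · exact absurd rfl hg
      · exact absurd rfl hg
      · exact absurd rfl hh
      · exact hu1
      · rw [t1] at hu1
        rw [eq_one_of_comm e4 cb hu1 hu2]; exact one_mem _
      · rw [t1] at hu1
        rw [eq_one_of_comm e4 cab hu1 hu2]; exact one_mem _
      · exact absurd rfl hh
      · rw [t2] at hu1
        rw [eq_one_of_comm e5 cya hu1 hu2]; exact one_mem _
      · exact hu1
      · rw [t2] at hu1
        rw [eq_one_of_comm e5 cyab hu1 hu2]; exact one_mem _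
      · exact absurd rfl hh
      · rw [t3] at hu1
        rw [mem_bot.mp hu1]; exact one_mem _
      · rw [t3] at hu1
        rw [mem_bot.mp hu1]; exact one_mem _
      · exact hu1
  refine ⟨A, θ, hEA, hcard, ⟨hFun, ?_⟩, ?_⟩
  · rintro g (rfl | rfl | rfl | rfl) hg
    · exact absurd rfl hg
    · rw [t1]; infer_instance
    · rw [t2]; infer_instance
    · rw [t3]; infer_instance
  · rintro ⟨-, Y, -, -, hY⟩
    have haA : a ∈ A := Or.inr (Or.inl rfl)
    have hbA : b ∈ A := Or.inr (Or.inr (Or.inl rfl))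
    have habA : a * b ∈ A := Or.inr (Or.inr (Or.inr rfl))
    have hxY : x ∈ Y := by
      have : x ∈ Y ⊓ centralizer {a} := by
        rw [hY a haA e10, t1]; exact mem_zpowers x
      exact this.1
    have hyY : y ∈ Y := by
      have : y ∈ Y ⊓ centralizer {b} := by
        rw [hY b hbA e11, t2]; exact mem_zpowers y
      exact this.1
    have hz : x * y * x⁻¹ * y⁻¹ ∈ Y ⊓ centralizer {a * b} := by
      refine mem_inf.mpr ⟨mul_mem (mul_mem (mul_mem hxY hyY) (inv_mem hxY)) (inv_mem hyY),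
        mem_centralizer_iff.mpr ?_⟩
      intro t ht; rw [Set.mem_singleton_iff] at ht; subst ht; exact e17
    rw [hY _ habA e13, t3, mem_bot] at hz
    apply e16
    have h1 : x * y * x⁻¹ = y := by
      rw [mul_inv_eq_one] at hz
      exact hz
    rw [mul_inv_eq_iff_eq_mul] at h1
    exact h1
end abstract

/-- There exist a finite group X, an elementary abelian subgroup A of order 4 and a solvable A-signalizer functor θ on X for the prime 2 which is not complete. -/
theorem result : ∃ (X : Type) (_ : Group X) (_ : Finite X) (A : Subgroup X) (θ : X → Subgroup X), Cfsg.IsElementaryAbelian 2 A ∧ Nat.card ↥A = 4 ∧ Cfsg.IsSolvableSignalizerFunctor 2 A θ ∧ ¬ Cfsg.IsCompleteSignalizerFunctor 2 A θ :=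
  ⟨X9, inferInstance, inferInstance, abstract_example e1 e2 e3 e4 e5 e6 e7 e8 e9 e10 e11 e12 e13 e14 e15 e16 e17⟩

end Cfsg.Agent.S1286
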