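import Cfsg.Statements.S1298
import Cfsg.Agent.Lib.Signal.KBalance

set_option autoImplicit false
open Cfsg

namespace Cfsg.Agent.S1298

open Subgroup Cfsg Cfsg.Agent.Lib.Core.Basic Cfsg.Agent.Lib.Core.PSolvable2 Cfsg.Agent.Lib.Signal.KBalance


/-- Let G be finite and k ≥ 1. Suppose that for every x of order p, writing C = C_G(x), every component K of C / O_{p'}(C) has K / Z(K) locally k-balanced for p. Then G is k-balanced for p. -/
theorem result {G : Type*} [Group G] [Finite G] (p k : ℕ) [Fact p.Prime] (hk : 1 ≤ k) (h : ∀ x : G, orderOf x = p → ∀ K : Subgroup (↥(Subgroup.centralizer ({x} : Set G)) ⧸ Cfsg.pPrimeCore p ↥(Subgroup.centralizer ({x} : Set G))), Cfsg.IsComponent K → Cfsg.IsLocallyKBalanced p k (↥K ⧸ Subgroup.center ↥K)) : Cfsg.IsKBalanced p k G := by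
  have hp : p.Prime := Fact.out
  intro A hA hcardA b hb hAb
  set C := centralizer ({b} : Set G) with hC
  set O := pPrimeCore p C with hO
  set π := QuotientGroup.mk' O with hπ
  have hπs : Function.Surjective π := QuotientGroup.mk'_surjective _
  have hAC : A ≤ C := by
    intro a ha
    rw [hC, mem_centralizer_iff]
    intro t ht
    rw [Set.mem_singleton_iff] at ht
    subst ht
    exact (hAb a ha).symm
  have hcO : ∀ x ∈ O, (orderOf x).Coprime p := (coprime_card_iff_forall_orderOf O).mp pPrimeCore_coprime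
  have hApow : ∀ a ∈ A, a ^ p = 1 := hA.2
  -- `π` is injective on `A`
  have hπA : ∀ a : C, (a : G) ∈ A → (a : G) ≠ 1 → π a ≠ 1 := by
    intro a ha ha1 h1
    have h2 : a ∈ O := by
      rw [hπ, QuotientGroup.mk'_apply, QuotientGroup.eq_one_iff] at h1
      exact h1
    have h3 := hcO a h2
    have h4 : a ^ p = 1 := Subtype.ext (hApow _ ha)
    have h5 : orderOf a = p := orderOf_eq_prime h4 (fun e => ha1 (congrArg Subtype.val e))
    rw [h5] at h3
    exact hp.one_lt.ne' (by simpa using h3)
  let A₁ : Subgroup C := A.subgroupOf C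
  let Ab : Subgroup (C ⧸ O) := A₁.map π
  have hAc : ∀ a ∈ A, ∀ b ∈ A, a * b = b * a := by
    intro a ha b hb
    have := hA.1
    exact congrArg Subtype.val (mul_comm' (⟨a, ha⟩ : A) ⟨b, hb⟩)
  have hEA : IsElementaryAbelian p Ab := by
    refine ⟨⟨⟨?_⟩⟩, ?_⟩
    · rintro ⟨_, a, ha, rfl⟩ ⟨_, c, hc, rfl⟩
      apply Subtype.ext
      show π a * π c = π c * π a
      rw [← map_mul, ← map_mul]
      congr 1
      exact Subtype.ext (hAc _ ha _ hc)
    · rintro _ ⟨a, ha, rfl⟩
      rw [← map_pow]
      have : a ^ p = 1 := Subtype.ext (hApow _ ha)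
      rw [this, map_one]
  have hcard' : Nat.card Ab = p ^ k := by
    rw [← hcardA]
    have h1 : Nat.card Ab = Nat.card A₁ := by
      symm
      apply Nat.card_congr
      refine Equiv.ofBijective (π.subgroupMap A₁) ⟨?_, MonoidHom.subgroupMap_surjective π A₁⟩
      rw [injective_iff_map_eq_one]
      rintro ⟨a, ha⟩ ha1
      have h2 : π a = 1 := congrArg Subtype.val ha1
      apply Subtype.ext
      by_contra h3
      exact hπA a ha (fun e => h3 (Subtype.ext e)) h2
    rw [h1]
    exact Nat.card_congr (subgroupOfEquivOfLe hAC).toEquiv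
  have hDelta : signalizerDelta p Ab = ⊥ :=
    signalizerDelta_eq_bot pPrimeCore_quotient_eq_bot hk (h b hb) hEA hcard'
  rintro d ⟨hd1, hd2⟩
  have hdC : d ∈ C := hd2
  have hd3 : d ∈ signalizerDelta p A := hd1
  rw [signalizerDelta, mem_iInf] at hd3
  have hmem : π ⟨d, hdC⟩ ∈ signalizerDelta p Ab := by
    rw [signalizerDelta, mem_iInf]
    rintro ⟨_, ⟨a, ha, rfl⟩, ha1⟩
    have ha2 : (a : G) ∈ A := ha
    have ha3 : (a : G) ≠ 1 := by
      intro h3
      apply ha1
      have : a = 1 := Subtype.ext h3
      rw [this, map_one]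
    have hoa : orderOf (a : G) = p := orderOf_eq_prime (hApow _ ha2) ha3
    set Da := centralizerPPrimeCore p (a : G) with hDa
    let W : Subgroup (C ⧸ O) := (Da.subgroupOf C).map π
    have hW : W ≤ centralizerPPrimeCore p (π a) := by
      apply le_centralizerCore
      · rintro _ ⟨x, hx, rfl⟩
        rw [mem_centralizer_iff]
        intro t ht
        rw [Set.mem_singleton_iff] at ht
        subst ht
        rw [← map_mul, ← map_mul]
        congr 1
        apply Subtype.ext
        exact mem_centralizer_iff.mp (centralizerPPrimeCore_le_centralizer _ hx) _ (Set.mem_singleton _)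
      · rw [coprime_card_iff_forall_orderOf]
        rintro _ ⟨x, hx, rfl⟩
        have h2 : (orderOf (x : G)).Coprime p :=
          (coprime_card_iff_forall_orderOf _).mp (coprime_card_centralizerPPrimeCore (a : G)) _ hx
        rw [Subgroup.orderOf_coe] at h2
        exact Nat.Coprime.coprime_dvd_left (orderOf_map_dvd π x) h2
      · intro y hy w hw
        -- lift `y` to `C_C(a)`
        have hPa : IsPGroup p (zpowers a) :=
          Cfsg.Agent.Lib.Signal.Basic.isPGroup_zpowers_of_pow_eq_one (Subtype.ext (hApow _ ha2))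
        have h1 := Cfsg.Agent.Lib.Coprime.Quotient.centralizer_map_mk_eq O pPrimeCore_coprime
          (zpowers a) hPa
        have hy' : y ∈ centralizer (((zpowers a).map (QuotientGroup.mk' O) : Subgroup (C ⧸ O)) :
            Set (C ⧸ O)) := by
          rw [mem_centralizer_iff]
          rintro _ ⟨z, hz, rfl⟩
          obtain ⟨n, rfl⟩ := mem_zpowers_iff.mp hz
          rw [map_zpow]
          have h2 : π a * y = y * π a := mem_centralizer_iff.mp hy (π a) (Set.mem_singleton _)
          exact Commute.zpow_left h2 n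
        rw [h1] at hy'
        obtain ⟨c, hc, rfl⟩ := hy'
        obtain ⟨x, hx, rfl⟩ := hw
        refine ⟨c * x * c⁻¹, ?_, by
          show π (c * x * c⁻¹) = _
          rw [map_mul, map_mul, map_inv]⟩
        rw [SetLike.mem_coe, mem_subgroupOf]
        have hcG : (c : G) ∈ centralizer ({(a : G)} : Set G) := by
          rw [mem_centralizer_iff]
          intro t ht
          rw [Set.mem_singleton_iff] at ht
          subst ht
          have h2 := mem_centralizer_iff.mp hc a (mem_zpowers a)
          exact congrArg Subtype.val h2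
        exact conj_mem_centralizerPPrimeCore hcG hx
    apply hW
    exact ⟨⟨d, hdC⟩, mem_subgroupOf.mpr (hd3 ⟨_, ha2, ha3⟩), rfl⟩
  rw [hDelta, mem_bot, hπ, QuotientGroup.mk'_apply, QuotientGroup.eq_one_iff] at hmem
  exact ⟨⟨d, hdC⟩, hmem, rfl⟩

end Cfsg.Agent.S1298
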