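import Cfsg.Statements.S1300

set_option autoImplicit false
open Cfsg

namespace Cfsg.Agent.S1300

variable {G : Type*} [Group G]

theorem coreC_le (x : G) : Cfsg.centralizerPPrimeCore 2 x ≤ Subgroup.centralizer ({x} : Set G) := by
  rintro _ ⟨y, -, rfl⟩
  exact y.2

theorem mem_zpowers_of_order_two {x a : G} (hx : orderOf x = 2) (ha : a ∈ Subgroup.zpowers x)
    (ha1 : a ≠ 1) : a = x := by
  have hfin : Subgroup.zpowers x = _ := rfl
  obtain ⟨k, rfl⟩ := ha
  have : x ^ (2 : ℤ) = 1 := by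
    have := pow_orderOf_eq_one x
    rw [hx] at this
    exact_mod_cast this
  rcases Int.even_or_odd' k with ⟨m, rfl | rfl⟩
  · exfalso
    apply ha1
    simp only [zpow_mul, this, one_zpow]
  · simp only [zpow_add, zpow_mul, this, one_zpow, one_mul, zpow_one]

/-- One-way inclusion from one-balance. -/
theorem le_of_oneBalanced (h : Cfsg.IsKBalanced 2 1 G) {x y : G} (hx : orderOf x = 2)
    (hy : orderOf y = 2) (hxy : x * y = y * x) :
    Cfsg.centralizerPPrimeCore 2 x ⊓ Subgroup.centralizer {y} ≤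
      Cfsg.centralizerPPrimeCore 2 y ⊓ Subgroup.centralizer {x} := by
  rintro t ⟨ht1, ht2⟩
  refine ⟨?_, coreC_le x ht1⟩
  have hA : Cfsg.IsElementaryAbelian 2 (Subgroup.zpowers x) := by
    refine ⟨inferInstance, ?_⟩
    rintro a ⟨k, rfl⟩
    show (x ^ k) ^ 2 = 1
    rw [← zpow_natCast, ← zpow_mul, mul_comm, zpow_mul]
    have : x ^ (2 : ℕ) = 1 := by rw [← hx]; exact pow_orderOf_eq_one x
    simp [this]
  have hcard : Nat.card (Subgroup.zpowers x) = 2 ^ 1 := by
    rw [Nat.card_zpowers, hx]; rfl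
  refine h (Subgroup.zpowers x) hA hcard y hy ?_ ⟨?_, ht2⟩
  · rintro a ⟨k, rfl⟩
    have hc : Commute x y := hxy
    exact (hc.zpow_left k).eq
  · show t ∈ Cfsg.signalizerDelta 2 (Subgroup.zpowers x)
    rw [Cfsg.signalizerDelta, Subgroup.mem_iInf]
    rintro ⟨a, ha, ha1⟩
    have e := mem_zpowers_of_order_two hx ha ha1
    subst e
    exact ht1

theorem result {G : Type*} [Group G] [Finite G] : Cfsg.IsBalanced G ↔ Cfsg.IsKBalanced 2 1 G := by
  constructor
  · intro h A hA hcard b hb hcomm t ⟨ht1, ht2⟩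
    have hn : ∃ a : A, a ≠ 1 := by
      have h2 : 1 < Nat.card A := by rw [hcard]; norm_num
      have : Nontrivial A := by
        rw [← Finite.one_lt_card_iff_nontrivial]; exact h2
      exact exists_ne 1
    obtain ⟨⟨a, haA⟩, ha1⟩ := hn
    have ha1' : a ≠ 1 := fun e => ha1 (Subtype.ext e)
    have ha2 : orderOf a = 2 := orderOf_eq_prime (hA.2 a haA) ha1'
    change t ∈ Cfsg.signalizerDelta 2 A at ht1
    rw [Cfsg.signalizerDelta, Subgroup.mem_iInf] at ht1
    have hta := ht1 ⟨a, haA, ha1'⟩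
    have := h a b ha2 hb (hcomm a haA)
    have hmem : t ∈ Cfsg.centralizerPPrimeCore 2 a ⊓ Subgroup.centralizer {b} := ⟨hta, ht2⟩
    rw [this] at hmem
    exact hmem.1
  · intro h x y hx hy hxy
    exact le_antisymm (le_of_oneBalanced h hx hy hxy) (le_of_oneBalanced h hy hx hxy.symm)

end Cfsg.Agent.S1300
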