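import Cfsg.Statements.S1297
import Cfsg.Agent.S1298
import Cfsg.Agent.S1300

set_option autoImplicit false
open Cfsg

namespace Cfsg.Agent.S1297

open Subgroup Cfsg


/-- Let G be finite. Suppose that for every involution x, writing C = C_G(x), every component K of C / O(C) has K / Z(K) locally balanced. Then G is balanced. -/
theorem result {G : Type*} [Group G] [Finite G] (h : ∀ x : G, orderOf x = 2 → ∀ K : Subgroup (↥(Subgroup.centralizer ({x} : Set G)) ⧸ Cfsg.oddCore ↥(Subgroup.centralizer ({x} : Set G))), Cfsg.IsComponent K → Cfsg.IsLocallyBalanced (↥K ⧸ Subgroup.center ↥K)) : Cfsg.IsBalanced G := by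
  have hk : IsKBalanced 2 1 G := by
    apply Cfsg.Agent.S1298.result 2 1 le_rfl
    intro x hx K hK H hH A hA hcard
    have h1 := h x hx K hK H hH
    -- `A = ⟨a⟩` has a unique non-identity element
    have hn : ∃ a : A, a ≠ 1 := by
      have h2 : 1 < Nat.card A := by rw [hcard]; norm_num
      have : Nontrivial A := by
        rw [← Finite.one_lt_card_iff_nontrivial]; exact h2
      exact exists_ne 1
    obtain ⟨⟨a, haA⟩, ha1⟩ := hn
    have ha1' : a ≠ 1 := fun e => ha1 (Subtype.ext e)
    have ha2 : orderOf a = 2 := orderOf_eq_prime (hA.2 a haA) ha1'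
    rw [eq_bot_iff, ← h1 a ha2]
    intro t ht
    rw [signalizerDelta, mem_iInf] at ht
    exact ht ⟨a, haA, ha1'⟩
  exact (Cfsg.Agent.S1300.result).mpr hk

end Cfsg.Agent.S1297
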