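import Cfsg.Statements.S1303
import Cfsg.Agent.Lib.Core.Basic

set_option autoImplicit false
open Cfsg

namespace Cfsg.Agent.S1303

open Subgroup Cfsg.Agent.Lib.Core.Basic

abbrev SL23 := Matrix.SpecialLinearGroup (Fin 2) (ZMod 3)

set_option maxRecDepth 100000 in
theorem d2 : ∀ g h : SL23, g ^ 4 = 1 → h ^ 4 = 1 → (g * h) ^ 4 = 1 := by decide +kernel
set_option maxRecDepth 100000 in
theorem d4 : ∀ g : SL23, (∀ v : SL23, v ^ 4 = 1 → g * v = v * g) → g ^ 4 = 1 := by decide +kernel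
set_option maxRecDepth 100000 in
theorem d5 : ∀ u : SL23, u ≠ 1 → u ^ 3 = 1 → ∃ g : SL23, (u * g * u⁻¹ * g⁻¹) ^ 3 ≠ 1 := by decide +kernel
set_option maxRecDepth 100000 in
theorem d6 : ∀ t g : SL23, t ^ 2 = 1 → g * t = t * g := by decide +kernel
set_option maxRecDepth 100000 in
theorem d7 : ∃ u : SL23, u ≠ 1 ∧ u ^ 3 = 1 := by decide +kernel
set_option maxRecDepth 100000 in
theorem d1 : Nat.card SL23 = 24 := by
  rw [Nat.card_eq_fintype_card]; decide +kernel

/-- The quaternion subgroup of order eight. -/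
def V : Subgroup SL23 where
  carrier := {g | g ^ 4 = 1}
  mul_mem' := fun {g h} hg hh => d2 g h hg hh
  one_mem' := one_pow 4
  inv_mem' := fun {g} hg => by
    show g⁻¹ ^ 4 = 1
    rw [inv_pow, show g ^ 4 = 1 from hg, inv_one]

instance V_normal : V.Normal where
  conj_mem g hg h := by
    show (h * g * h⁻¹) ^ 4 = 1
    rw [conj_pow, show g ^ 4 = 1 from hg]
    simp

theorem V_isPGroup : IsPGroup 2 V := by
  rintro ⟨g, hg⟩
  refine ⟨2, Subtype.ext ?_⟩
  show g ^ (2 ^ 2) = 1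
  exact hg

theorem core_eq_bot : pPrimeCore 2 SL23 = ⊥ := by
  rw [pPrimeCore, eq_bot_iff]
  apply sSup_le
  rintro N ⟨hN, hc⟩
  have h1 : Nat.card N ∣ 24 := by
    rw [← d1]; exact Subgroup.card_subgroup_dvd_card N
  have h2 : Nat.card N ∣ 3 := by
    have hc8 : (Nat.card N).Coprime 8 := by
      have : (8 : ℕ) = 2 ^ 3 := by norm_num
      rw [this]
      exact Nat.Coprime.pow_right 3 hc
    exact hc8.dvd_of_dvd_mul_left (by simpa using h1)
  have h3 : ∀ u ∈ N, u ^ 3 = 1 := by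
    intro u hu
    have h4 : (⟨u, hu⟩ : N) ^ Nat.card N = 1 := pow_card_eq_one'
    have h5 : u ^ Nat.card N = 1 := congrArg Subtype.val h4
    exact orderOf_dvd_iff_pow_eq_one.mp (dvd_trans (orderOf_dvd_of_pow_eq_one h5) h2)
  intro u hu
  rw [mem_bot]
  by_contra hu1
  obtain ⟨g, hg⟩ := d5 u hu1 (h3 u hu)
  apply hg
  apply h3
  have : u * g * u⁻¹ * g⁻¹ = u * (g * u⁻¹ * g⁻¹) := by group
  rw [this]
  exact mul_mem hu (hN.conj_mem _ (inv_mem hu) g)

/-- The group X = SL(2, 3): it is 2-constrained, O_{2'}(X) = 1, its centre A = Z(X) contains every involution of X = C_X(A), and X has a subgroup of order 3 (normalized by A) not contained in O_{2'}(X). -/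
theorem result : Cfsg.IsPConstrained 2 (Matrix.SpecialLinearGroup (Fin 2) (ZMod 3)) ∧ Cfsg.pPrimeCore 2 (Matrix.SpecialLinearGroup (Fin 2) (ZMod 3)) = ⊥ ∧ (∀ t : Matrix.SpecialLinearGroup (Fin 2) (ZMod 3), orderOf t = 2 → t ∈ Subgroup.center (Matrix.SpecialLinearGroup (Fin 2) (ZMod 3))) ∧ ∃ Q : Subgroup (Matrix.SpecialLinearGroup (Fin 2) (ZMod 3)), Nat.card ↥Q = 3 ∧ ¬ (Q ≤ Cfsg.pPrimeCore 2 (Matrix.SpecialLinearGroup (Fin 2) (ZMod 3))) := by
  refine ⟨?_, core_eq_bot, ?_, ?_⟩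
  · intro P
    have hR : IsPGroup 2 (pPrimePCore 2 SL23) := by
      rintro ⟨x, hx⟩
      have hx' : QuotientGroup.mk' (pPrimeCore 2 SL23) x ∈ pCore 2 (SL23 ⧸ pPrimeCore 2 SL23) := hx
      obtain ⟨k, hk⟩ := pCore_isPGroup (p := 2) (G := SL23 ⧸ pPrimeCore 2 SL23) ⟨_, hx'⟩
      refine ⟨k, Subtype.ext ?_⟩
      have h1 : QuotientGroup.mk' (pPrimeCore 2 SL23) x ^ (2 ^ k) = 1 := congrArg Subtype.val hk
      rw [← map_pow, QuotientGroup.mk'_apply, QuotientGroup.eq_one_iff, core_eq_bot, mem_bot] at h1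
      exact h1
    have hVR : V ≤ pPrimePCore 2 SL23 := by
      rw [pPrimePCore, ← Subgroup.map_le_iff_le_comap]
      apply le_pCore
      · exact V_normal.map _ (QuotientGroup.mk'_surjective _)
      · exact V_isPGroup.map _
    have hP : (P : Subgroup ↥(pPrimePCore 2 SL23)) = ⊤ := (P.is_maximal' (hR.to_subgroup ⊤) le_top).symm
    rw [hP, ← MonoidHom.range_eq_map, range_subtype]
    intro g hg
    apply hVR
    apply d4
    intro v hv
    exact mem_centralizer_iff.mp hg v (hVR hv) |>.symm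
  · intro t ht
    rw [Subgroup.mem_center_iff]
    intro g
    exact d6 t g (orderOf_dvd_iff_pow_eq_one.mp (dvd_of_eq ht))
  · obtain ⟨u, hu1, hu3⟩ := d7
    haveI : Fact (Nat.Prime 3) := ⟨by norm_num⟩
    have hcard : Nat.card (zpowers u) = 3 := by
      rw [Nat.card_zpowers]
      exact orderOf_eq_prime hu3 hu1
    refine ⟨zpowers u, hcard, ?_⟩
    rw [core_eq_bot, le_bot_iff]
    intro h
    rw [h, Subgroup.card_bot] at hcard
    omega

end Cfsg.Agent.S1303
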