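import Cfsg.Statements.S1304
import Mathlib.Tactic.Group
-- import your own Cfsg.Agent.* helpers here

set_option autoImplicit false
open Cfsg

namespace Cfsg.Agent.S1304

open scoped commutatorElement

/-- Let X be a perfect group and α an automorphism of X with α(x) x⁻¹ central for every x. Then α is the identity. -/
theorem result {X : Type*} [Group X] (hperf : commutator X = ⊤) (α : X ≃* X) (h : ∀ x : X, α x * x⁻¹ ∈ Subgroup.center X) : ∀ x : X, α x = x := by
  -- the fixed points of α form a subgroup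
  let K : Subgroup X :=
    { carrier := {x | α x = x}
      mul_mem' := by
        intro a b ha hb
        show α (a * b) = a * b
        have ha' : α a = a := ha
        have hb' : α b = b := hb
        rw [map_mul, ha', hb']
      one_mem' := by simp
      inv_mem' := by
        intro a ha
        show α a⁻¹ = a⁻¹
        have ha' : α a = a := ha
        rw [map_inv, ha'] }
  have hcomm : commutator X ≤ K := by
    rw [commutator_def, Subgroup.commutator_le]
    intro x _ y _
    show α ⁅x, y⁆ = ⁅x, y⁆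
    have hx := h x
    have hy := h y
    rw [Subgroup.mem_center_iff] at hx hy
    -- write α x = z x, α y = w y with z, w central
    set z := α x * x⁻¹ with hz
    set w := α y * y⁻¹ with hw
    have hzx : α x = z * x := by rw [hz]; group
    have hwy : α y = w * y := by rw [hw]; group
    have hzc : ∀ g, z * g = g * z := fun g => (hx g).symm
    have hwc : ∀ g, w * g = g * w := fun g => (hy g).symm
    rw [map_commutatorElement, hzx, hwy, commutatorElement_def, commutatorElement_def]
    simp only [mul_inv_rev]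
    have e1 : z * x * (w * y) * (x⁻¹ * z⁻¹) * (y⁻¹ * w⁻¹) =
        (z * (w * x)) * y * x⁻¹ * z⁻¹ * y⁻¹ * w⁻¹ := by
      have : x * w = w * x := (hwc x).symm
      calc z * x * (w * y) * (x⁻¹ * z⁻¹) * (y⁻¹ * w⁻¹)
          = z * (x * w) * y * x⁻¹ * z⁻¹ * y⁻¹ * w⁻¹ := by group
        _ = _ := by rw [this]
    rw [e1]
    have hzi : ∀ g, z⁻¹ * g = g * z⁻¹ := by
      intro g
      have := hzc g
      calc z⁻¹ * g = z⁻¹ * (g * z) * z⁻¹ := by group
        _ = z⁻¹ * (z * g) * z⁻¹ := by rw [this]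
        _ = g * z⁻¹ := by group
    have hwi : ∀ g, w⁻¹ * g = g * w⁻¹ := by
      intro g
      have := hwc g
      calc w⁻¹ * g = w⁻¹ * (g * w) * w⁻¹ := by group
        _ = w⁻¹ * (w * g) * w⁻¹ := by rw [this]
        _ = g * w⁻¹ := by group
    calc z * (w * x) * y * x⁻¹ * z⁻¹ * y⁻¹ * w⁻¹
        = z * (w * (x * y * x⁻¹)) * (z⁻¹ * y⁻¹) * w⁻¹ := by group
      _ = z * (w * (x * y * x⁻¹)) * (y⁻¹ * z⁻¹) * w⁻¹ := by rw [hzi]
      _ = z * (w * (x * y * x⁻¹ * y⁻¹)) * z⁻¹ * w⁻¹ := by group
      _ = (w * (x * y * x⁻¹ * y⁻¹)) * z * z⁻¹ * w⁻¹ := by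
          rw [hzc (w * (x * y * x⁻¹ * y⁻¹))]
      _ = w * (x * y * x⁻¹ * y⁻¹) * w⁻¹ := by group
      _ = x * y * x⁻¹ * y⁻¹ := by rw [hwc (x * y * x⁻¹ * y⁻¹)]; group
      _ = x * y * x⁻¹ * y⁻¹ := rfl
  rw [hperf] at hcomm
  intro x
  exact hcomm (Subgroup.mem_top x)

end Cfsg.Agent.S1304
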