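import Cfsg.Statements.S1306
import Cfsg.Agent.Lib.Components.Central

set_option autoImplicit false
open Cfsg

namespace Cfsg.Agent.S1306

open scoped Pointwise in
open Subgroup Cfsg.Agent.Lib.Components.Basic Cfsg.Agent.Lib.Components.Rel
  Cfsg.Agent.Lib.Subnormal.Basic in
theorem key_aux {G : Type*} [Group G] [Finite G] (L : Subgroup G)
    (hne : ∀ y : G, orderOf y = 2 → y ∈ centralizer (L : Set G) →
      L ≤ centralizer ({y} : Set G) ∧ IsComponent (L.subgroupOf (centralizer ({y} : Set G))))
    (hnc : ∀ g : G, L.map (MulAut.conj g).toMonoidHom ≠ L → ⁅L, L.map (MulAut.conj g).toMonoidHom⁆ ≠ ⊥)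
    (y g : G) (hy : orderOf y = 2) (h1 : y ∈ centralizer (L : Set G))
    (h2 : g⁻¹ * y * g ∈ centralizer (L : Set G)) : L.map (MulAut.conj g).toMonoidHom = L := by
  have hcomp : ∀ y, orderOf y = 2 → y ∈ centralizer (L : Set G) → IsCompIn L (centralizer {y}) :=
    fun y hy hyc => (isCompIn_iff_subgroupOf (hne y hy hyc).1).2 (hne y hy hyc).2
  by_contra hcon
  have hy' : orderOf (g⁻¹ * y * g) = 2 := by
    have e : g⁻¹ * y * g = MulAut.conj g⁻¹ y := by simp
    rw [e, MulEquiv.orderOf_eq]; exact hy
  have c1 := hcomp y hy h1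
  have c2 := (hcomp _ hy' h2).conj g
  have e : MulAut.conj g • centralizer ({g⁻¹ * y * g} : Set G) = centralizer {y} := by
    ext z
    rw [mem_conj, mem_centralizer_iff, mem_centralizer_iff]
    simp only [Set.mem_singleton_iff, forall_eq]
    constructor
    · intro h
      have : y * z = z * y := by
        have e2 : y * z = g * ((g⁻¹ * y * g) * (g⁻¹ * z * g)) * g⁻¹ := by group
        rw [e2, h]; group
      exact this
    · intro h
      have e2 : g⁻¹ * y * g * (g⁻¹ * z * g) = g⁻¹ * (y * z) * g := by group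
      rw [e2, h]; group
  rw [e] at c2
  have e2 : MulAut.conj g • L = L.map (MulAut.conj g).toMonoidHom := rfl
  rw [e2] at c2
  rcases c1.eq_or_commutator c2 with h | h
  · exact hcon h.symm
  · exact hnc g hcon h

/-- Let G be finite, x an involution and L ≤ C_G(x) a component of C_G(x). Suppose L is a component of C_G(y) for every involution y ∈ C_G(L), and ⁅L, g L g⁻¹⁆ ≠ 1 whenever g L g⁻¹ ≠ L. Then L is a standard subgroup of G. -/
theorem result {G : Type*} [Group G] [Finite G] (x : G) (hx : orderOf x = 2) (L : Subgroup G) (hLx : L ≤ Subgroup.centralizer ({x} : Set G)) (hL : Cfsg.IsComponent (L.subgroupOf (Subgroup.centralizer ({x} : Set G)))) (hne : ∀ y : G, orderOf y = 2 → y ∈ Subgroup.centralizer (L : Set G) → L ≤ Subgroup.centralizer ({y} : Set G) ∧ Cfsg.IsComponent (L.subgroupOf (Subgroup.centralizer ({y} : Set G)))) (hnc : ∀ g : G, L.map (MulAut.conj g).toMonoidHom ≠ L → ⁅L, L.map (MulAut.conj g).toMonoidHom⁆ ≠ ⊥) : Cfsg.IsStandardSubgroup L := by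
  open Subgroup Cfsg.Agent.Lib.Components.Basic Cfsg.Agent.Lib.Components.Rel in
  have hQ : IsQuasisimple L := (quasisimple_subgroupOf_iff hLx).1 hL.2
  have hxL : x ∈ Subgroup.centralizer (L : Set G) := by
    rw [Subgroup.mem_centralizer_iff]
    intro l hl
    have := Subgroup.mem_centralizer_iff.mp (hLx hl) x rfl
    exact this.symm
  have key := key_aux L hne hnc
  have hfact : Fact (Nat.Prime 2) := ⟨Nat.prime_two⟩
  have hNN : Subgroup.normalizer (L : Set G) ≤ Subgroup.normalizer (Subgroup.centralizer (L : Set G) : Set G) := by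
    intro g hg
    rw [Subgroup.mem_normalizer_iff] at hg ⊢
    intro h
    rw [Subgroup.mem_centralizer_iff, Subgroup.mem_centralizer_iff]
    constructor
    · intro hh l hl
      have h1 := hh (g⁻¹ * l * g) (by
        by_contra hcon
        have h3 : g * (g⁻¹ * l * g) * g⁻¹ = l := by group
        have := (hg (g⁻¹ * l * g)).not.1 hcon
        rw [h3] at this
        exact this hl)
      have e1 : l * (g * h * g⁻¹) = g * ((g⁻¹ * l * g) * h) * g⁻¹ := by group
      rw [e1, h1]; group
    · intro hh l hl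
      have h1 := hh (g * l * g⁻¹) ((hg l).1 hl)
      have e1 : l * h = g⁻¹ * ((g * l * g⁻¹) * (g * h * g⁻¹)) * g := by group
      rw [e1, h1]; group
  refine ⟨hQ, ⟨?_, ?_⟩, hnc, ?_⟩
  · -- even order
    have h2 : 2 ∣ Nat.card (Subgroup.centralizer (L : Set G)) := by
      have := orderOf_dvd_natCard (⟨x, hxL⟩ : Subgroup.centralizer (L : Set G))
      rwa [Subgroup.orderOf_mk, hx] at this
    exact even_iff_two_dvd.mpr h2
  · intro g hg
    by_contra hodd
    rw [Nat.not_odd_iff_even, even_iff_two_dvd] at hodd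
    obtain ⟨y, hy⟩ := exists_prime_orderOf_dvd_card' 2 hodd
    rw [← Subgroup.orderOf_coe] at hy
    obtain ⟨hy1, z, hz, hzy⟩ := y.2
    apply hg
    apply hNN
    rw [Subgroup.mem_normalizer_iff_map_conj_eq]
    apply key (y : G) g hy hy1
    have : g⁻¹ * (y : G) * g = z := by
      rw [← hzy]; simp [MulAut.conj_apply, mul_assoc]
    rw [this]
    exact hz
  · apply le_antisymm hNN
    intro g hg
    rw [Subgroup.mem_normalizer_iff_map_conj_eq]
    apply key x g hx hxL
    have := (Subgroup.mem_normalizer_iff.mp (inv_mem hg) x).1 hxL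
    simpa using this

end Cfsg.Agent.S1306
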