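import Cfsg.Statements.S1307
import Cfsg.Agent.S0016
import Cfsg.Agent.Lib.ZStar.Main
import Cfsg.Agent.Lib.ZStar.Quat
import Cfsg.Agent.Lib.Zassen.Unique
import Cfsg.Agent.Lib.StdForm.Basic

set_option autoImplicit false
open Cfsg

namespace Cfsg.Agent.S1307

open Subgroup Cfsg.Agent.Lib.Components.Basic



/-- Let G be finite, x an involution and L ≤ C_G(x) a component of C_G(x) of even order and 2-rank 1, such that L is a component of C_G(y) for every involution y ∈ C_G(L). Then some involution of L is a classical involution of G. -/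
theorem result {G : Type*} [Group G] [Finite G] (x : G) (hx : orderOf x = 2) (L : Subgroup G) (hLx : L ≤ Subgroup.centralizer ({x} : Set G)) (hL : Cfsg.IsComponent (L.subgroupOf (Subgroup.centralizer ({x} : Set G)))) (heven : Even (Nat.card ↥L)) (hrk : Cfsg.PRankLE 2 1 ↥L) (hne : ∀ y : G, orderOf y = 2 → y ∈ Subgroup.centralizer (L : Set G) → L ≤ Subgroup.centralizer ({y} : Set G) ∧ Cfsg.IsComponent (L.subgroupOf (Subgroup.centralizer ({y} : Set G)))) : ∃ t ∈ L, Cfsg.IsClassicalInvolution t := by
  classical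
  haveI hp2 : Fact (Nat.Prime 2) := ⟨Nat.prime_two⟩
  have hq : IsQuasisimple L := (quasisimple_subgroupOf_iff hLx).mp hL.2
  -- an involution of `L`
  obtain ⟨z₀, hz₀⟩ := exists_prime_orderOf_dvd_card' (G := L) 2 (even_iff_two_dvd.mp heven)
  have hpz : IsPGroup 2 (zpowers z₀) :=
    IsPGroup.of_card (n := 1) (by rw [Nat.card_zpowers, hz₀, pow_one])
  obtain ⟨S, hS⟩ := hpz.exists_le_sylow
  have hz₀S : z₀ ∈ (S : Subgroup L) := hS (mem_zpowers z₀)
  have hz₀1 : z₀ ≠ 1 := by
    intro h
    rw [h, orderOf_one] at hz₀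
    omega
  -- a central involution `c` of `S`
  have hSnt : Nontrivial (S : Subgroup L) :=
    ⟨⟨⟨z₀, hz₀S⟩, 1, fun h => hz₀1 (congrArg Subtype.val h)⟩⟩
  have hZnt : Nontrivial (center (S : Subgroup L)) := S.isPGroup'.center_nontrivial
  have hZp : IsPGroup 2 (center (S : Subgroup L)) := S.isPGroup'.to_subgroup _
  have hZ2 : 2 ∣ Nat.card (center (S : Subgroup L)) := by
    rcases hZp.card_eq_or_dvd with h2 | h2
    · exact absurd h2 Finite.one_lt_card.ne'
    · exact h2
  obtain ⟨c', hc'⟩ := exists_prime_orderOf_dvd_card' 2 hZ2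
  set c : L := ((c' : (S : Subgroup L)) : L) with hc
  have hco : orderOf c = 2 := by
    rw [hc, Subgroup.orderOf_coe, Subgroup.orderOf_coe]
    exact hc'
  have hcS : c ∈ (S : Subgroup L) := (c' : (S : Subgroup L)).2
  have hcc : ∀ y ∈ (S : Subgroup L), y * c = c * y := by
    intro y hy
    have := mem_center_iff.mp c'.2 ⟨y, hy⟩
    exact congrArg Subtype.val this
  have hco1 : c * c = 1 := by rw [← pow_two, ← hco, pow_orderOf_eq_one]
  have hc1 : c ≠ 1 := by
    intro h
    rw [h, orderOf_one] at hco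
    omega
  -- `c` is the only involution of `S`
  have huniq : ∀ y ∈ (S : Subgroup L), orderOf y = 2 → y = c := by
    intro y hy hyo
    have hy2 : y * y = 1 := by rw [← pow_two, ← hyo, pow_orderOf_eq_one]
    have hy1 : y ≠ 1 := by
      intro h
      rw [h, orderOf_one] at hyo
      omega
    have h1 := Cfsg.Agent.Lib.StdForm.Basic.eq_of_prank_le_one (C := L) hrk
      (a := (y : G)) (b := (c : G)) y.2 c.2 (congrArg Subtype.val hy2) (congrArg Subtype.val hco1)
      (congrArg Subtype.val (hcc y hy)) (fun h => hy1 (Subtype.ext h)) (fun h => hc1 (Subtype.ext h))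
    exact Subtype.ext h1
  have hiso : IsIsolatedInvolution c := Cfsg.Agent.Lib.ZStar.Quat.isolated_of_sylow_unique hco huniq
  have hZS := Cfsg.Agent.Lib.ZStar.Main.zstar L c hiso
  -- the odd core of `L` is central
  have hOc : pPrimeCore 2 L ≤ center L := by
    rcases normal_eq_top_or_le_center hq (pPrimeCore 2 L) with h | h
    · exfalso
      have h1 : c ∈ pPrimeCore 2 L := by rw [h]; trivial
      have h2 := Cfsg.Agent.Lib.Core.Basic.orderOf_coprime_of_mem_pPrimeCore h1
      rw [hco] at h2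
      exact absurd h2 (by decide)
    · exact h
  -- `c` is central in `L`
  have hcZ : ∀ x ∈ L, x * (c : G) = c * x := by
    apply Cfsg.Agent.Lib.StdForm.Basic.commute_of_commutator_central hq c.2
    intro x hx
    have h1 := hOc (hZS ⟨x, hx⟩)
    rw [mem_center_iff] at h1
    rw [mem_centralizer_iff]
    intro y hy
    have h2 := congrArg Subtype.val (h1 ⟨y, hy⟩)
    simp only [Subgroup.coe_mul, Subgroup.coe_inv] at h2
    have h3 : x * (c : G) * x⁻¹ * (c : G)⁻¹ = ((c : G) * x * (c : G)⁻¹ * x⁻¹)⁻¹ := by group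
    rw [h3]
    have h4 : Commute y ((c : G) * x * (c : G)⁻¹ * x⁻¹) := h2
    exact h4.inv_right.eq
  have hcG : orderOf (c : G) = 2 := by rw [Subgroup.orderOf_coe]; exact hco
  have hcC : (c : G) ∈ centralizer (L : Set G) := by
    rw [mem_centralizer_iff]
    intro y hy
    exact hcZ y hy
  obtain ⟨hle, hcomp⟩ := hne c hcG hcC
  -- the Sylow subgroup is quaternion
  have hS2 : ∀ H K : Subgroup (S : Subgroup L), Nat.card H = 2 → Nat.card K = 2 → H = K := by
    have key : ∀ H : Subgroup (S : Subgroup L), Nat.card H = 2 →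
        H = zpowers (⟨c, hcS⟩ : (S : Subgroup L)) := by
      intro H hH
      obtain ⟨y, hy⟩ := exists_prime_orderOf_dvd_card' (G := H) 2 (by rw [hH])
      have hy2 : orderOf ((y : (S : Subgroup L)) : L) = 2 := by
        rw [Subgroup.orderOf_coe, Subgroup.orderOf_coe]
        exact hy
      have hyc := huniq _ (y : (S : Subgroup L)).2 hy2
      have hyc' : (y : (S : Subgroup L)) = ⟨c, hcS⟩ := Subtype.ext hyc
      symm
      apply Subgroup.eq_of_le_of_card_ge
      · rw [zpowers_le, ← hyc']
        exact y.2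
      · rw [hH, Nat.card_zpowers, Subgroup.orderOf_mk, hco]
    intro H K hH hK
    rw [key H hH, key K hK]
  have hcycF : ¬ IsCyclic (S : Subgroup L) := by
    intro hcy
    have hcomm : ∀ u ∈ (S : Subgroup L), ∀ v ∈ (S : Subgroup L), u * v = v * u := by
      intro u hu v hv
      exact congrArg Subtype.val (mul_comm' (⟨u, hu⟩ : (S : Subgroup L)) ⟨v, hv⟩)
    refine Cfsg.Agent.Lib.Zassen.Unique.false_of_central (quasisimple_perfect hq) S hcomm hcS ?_ hc1
    intro g
    exact Subtype.ext (hcZ g g.2)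
  rcases Cfsg.Agent.S0016.result (G := (S : Subgroup L)) 2 S.isPGroup' hS2 with hcy | ⟨-, n, ⟨e⟩⟩
  · exact absurd hcy hcycF
  · rcases n with _ | n
    · exfalso
      apply hcycF
      haveI := QuaternionGroup.quaternionGroup_one_isCyclic
      exact isCyclic_of_surjective e.symm.toMonoidHom e.symm.surjective
    · exact ⟨c, c.2, hcG, L, hle, c.2, hcomp.1, S, n, ⟨e⟩⟩

end Cfsg.Agent.S1307
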