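import Cfsg.Statements.S1314
import Cfsg.Agent.Lib.Components.Basic
import Mathlib.Tactic.Group
-- import your own Cfsg.Agent.* helpers here

set_option autoImplicit false
open Cfsg

namespace Cfsg.Agent.S1314

open Cfsg.Agent.Lib.Components.Basic
open scoped commutatorElement

/-- Let x be an involution of a group G and L a perfect subgroup with ⁅L, x L x⁻¹⁆ = 1. Then l ↦ l (x l x⁻¹) is a group homomorphism π from L to G whose kernel is central in L and whose image lies in C_G(x); and the commutator subgroup of C_{L ⊔ xLx⁻¹}(x) equals the image of π. -/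
theorem result {G : Type*} [Group G] [Finite G] (x : G) (hx : orderOf x = 2) (L : Subgroup G) (hperf : ⁅L, L⁆ = L) (hcomm : ⁅L, L.map (MulAut.conj x).toMonoidHom⁆ = ⊥) : ∃ π : ↥L →* G, (∀ l : ↥L, π l = (l : G) * (x * (l : G) * x⁻¹)) ∧ π.ker ≤ Subgroup.center ↥L ∧ π.range ≤ Subgroup.centralizer ({x} : Set G) ∧ ⁅(L ⊔ L.map (MulAut.conj x).toMonoidHom) ⊓ Subgroup.centralizer ({x} : Set G), (L ⊔ L.map (MulAut.conj x).toMonoidHom) ⊓ Subgroup.centralizer ({x} : Set G)⁆ = π.range := by
  classical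
  have hx2 : x * x = 1 := by
    have := pow_orderOf_eq_one x
    rw [hx, pow_two] at this
    exact this
  have hxi : x⁻¹ = x := by
    rw [inv_eq_iff_mul_eq_one]; exact hx2
  -- notation
  set σ : G → G := fun g => x * g * x⁻¹ with hσ
  have hσ_mul : ∀ a b, σ (a * b) = σ a * σ b := by
    intro a b; simp only [hσ]; group
  have hσσ : ∀ a, σ (σ a) = a := by
    intro a
    simp only [hσ]
    rw [hxi]
    calc x * (x * a * x) * x = (x * x) * a * (x * x) := by group
      _ = a := by rw [hx2]; group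
  have hσ_inv : ∀ a, σ a⁻¹ = (σ a)⁻¹ := by
    intro a; simp only [hσ]; group
  have hσmem : ∀ a ∈ L, σ a ∈ L.map (MulAut.conj x).toMonoidHom := by
    intro a ha
    exact ⟨a, ha, rfl⟩
  have hcm : ∀ a ∈ L, ∀ b ∈ L, a * σ b = σ b * a := by
    intro a ha b hb
    have := Subgroup.commutator_eq_bot_iff_le_centralizer.mp hcomm ha
    exact (Subgroup.mem_centralizer_iff.mp this (σ b) (hσmem b hb)).symm
  -- the hom
  let π : ↥L →* G :=
    { toFun := fun l => (l : G) * σ l
      map_one' := by simp [hσ]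
      map_mul' := by
        rintro ⟨a, ha⟩ ⟨b, hb⟩
        show a * b * σ (a * b) = a * σ a * (b * σ b)
        rw [hσ_mul]
        calc a * b * (σ a * σ b) = a * (b * σ a) * σ b := by group
          _ = a * (σ a * b) * σ b := by rw [hcm b hb a ha]
          _ = a * σ a * (b * σ b) := by group }
  have hπ : ∀ l : ↥L, π l = (l : G) * σ l := fun _ => rfl
  have hπcomm : ∀ l : ↥L, x * π l = π l * x := by
    intro l
    rw [hπ]
    have h1 : x * ((l : G) * σ l) * x⁻¹ = (l : G) * σ l := by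
      calc x * ((l : G) * σ l) * x⁻¹ = σ ((l : G) * σ l) := rfl
        _ = σ l * σ (σ l) := hσ_mul _ _
        _ = σ l * l := by rw [hσσ]
        _ = (l : G) * σ l := (hcm l l.2 l l.2).symm
    calc x * ((l : G) * σ l) = x * ((l : G) * σ l) * x⁻¹ * x := by group
      _ = (l : G) * σ l * x := by rw [h1]
  refine ⟨π, fun l => rfl, ?_, ?_, ?_⟩
  · -- the kernel is central
    intro l hl
    rw [MonoidHom.mem_ker, hπ] at hl
    have hl' : σ l = (l : G)⁻¹ := eq_inv_of_mul_eq_one_right hl
    rw [Subgroup.mem_center_iff]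
    rintro ⟨m, hm⟩
    apply Subtype.ext
    show m * l = l * m
    have := hcm m hm l l.2
    rw [hl'] at this
    -- m l⁻¹ = l⁻¹ m
    calc m * (l : G) = (l : G) * ((l : G)⁻¹ * m) * l := by group
      _ = (l : G) * (m * (l : G)⁻¹) * l := by rw [this]
      _ = (l : G) * m := by group
  · rintro _ ⟨l, rfl⟩
    rw [Subgroup.mem_centralizer_iff]
    intro g hg
    rw [Set.mem_singleton_iff] at hg
    subst hg
    exact hπcomm l
  · -- the commutator
    set D := L ⊔ L.map (MulAut.conj x).toMonoidHom with hD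
    have hσL : ∀ a ∈ L.map (MulAut.conj x).toMonoidHom, ∃ b ∈ L, σ b = a := by
      rintro _ ⟨b, hb, rfl⟩
      exact ⟨b, hb, rfl⟩
    -- elements of D ⊓ C are central times image of π
    have key : ∀ g ∈ D ⊓ Subgroup.centralizer ({x} : Set G), ∃ (m : ↥L) (z : G), g = z * π m ∧
        z ∈ L ∧ ∀ y ∈ D, z * y = y * z := by
      rintro g ⟨hgD, hgC⟩
      obtain ⟨l, hl, t, ht, rfl⟩ := mem_sup_of_commutator_eq_bot hcomm hgD
      obtain ⟨m, hm, rfl⟩ := hσL t ht
      -- l σ m commutes with x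
      have hfix : σ (l * σ m) = l * σ m := by
        have := Subgroup.mem_centralizer_iff.mp hgC x (Set.mem_singleton x)
        simp only [hσ] at this ⊢
        calc x * (l * (x * m * x⁻¹)) * x⁻¹ = (x * (l * (x * m * x⁻¹))) * x⁻¹ := rfl
          _ = (l * (x * m * x⁻¹) * x) * x⁻¹ := by rw [this]
          _ = l * (x * m * x⁻¹) := by group
      rw [hσ_mul, hσσ] at hfix
      -- hfix : σ l * m = l * σ m
      set z := m⁻¹ * l with hz
      have hzL : z ∈ L := L.mul_mem (L.inv_mem hm) hl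
      have hzσ : z = σ (l * m⁻¹) := by
        rw [hσ_mul, hσ_inv]
        have e1 : σ l * m = m * σ l := (hcm m hm l hl).symm
        rw [e1] at hfix
        -- m σ l = l σ m
        calc z = m⁻¹ * (l * σ m) * (σ m)⁻¹ := by rw [hz]; group
          _ = m⁻¹ * (m * σ l) * (σ m)⁻¹ := by rw [hfix]
          _ = σ l * (σ m)⁻¹ := by group
      have hzcL : ∀ y ∈ L, z * y = y * z := by
        intro y hy
        rw [hzσ]
        exact (hcm y hy _ (L.mul_mem hl (L.inv_mem hm))).symm
      have hzcσ : ∀ y ∈ L.map (MulAut.conj x).toMonoidHom, z * y = y * z := by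
        intro y hy
        obtain ⟨b, hb, rfl⟩ := hσL y hy
        exact hcm z hzL b hb
      have hzD : ∀ y ∈ D, z * y = y * z := by
        intro y hy
        obtain ⟨a, ha, c, hc, rfl⟩ := mem_sup_of_commutator_eq_bot hcomm hy
        calc z * (a * c) = (z * a) * c := by group
          _ = (a * z) * c := by rw [hzcL a ha]
          _ = a * (z * c) := by group
          _ = a * (c * z) := by rw [hzcσ c hc]
          _ = a * c * z := by group
      refine ⟨⟨m, hm⟩, z, ?_, hzL, hzD⟩
      rw [hπ]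
      show l * σ m = z * (m * σ m)
      have e2 : l = m * z := by rw [hz]; group
      have e3 : z * m = m * z := hzcL m hm
      calc l * σ m = m * z * σ m := by rw [← e2]
        _ = z * m * σ m := by rw [e3]
        _ = z * (m * σ m) := by group
    have hπD : ∀ m : ↥L, π m ∈ D := by
      intro m
      rw [hπ]
      exact D.mul_mem (Subgroup.mem_sup_left m.2) (Subgroup.mem_sup_right (hσmem _ m.2))
    have hπDC : ∀ m : ↥L, π m ∈ D ⊓ Subgroup.centralizer ({x} : Set G) := by
      intro m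
      refine ⟨hπD m, ?_⟩
      refine Subgroup.mem_centralizer_iff.mpr ?_
      intro g hg
      rw [Set.mem_singleton_iff] at hg
      subst hg
      exact hπcomm m
    apply le_antisymm
    · rw [Subgroup.commutator_le]
      intro g hg h hh
      obtain ⟨m, z, rfl, hzL, hzD⟩ := key g hg
      obtain ⟨n, w, rfl, hwL, hwD⟩ := key h hh
      refine ⟨⁅m, n⁆, ?_⟩
      rw [map_commutatorElement]
      have hzD' : z ∈ D := Subgroup.mem_sup_left hzL
      have hwD' : w ∈ D := Subgroup.mem_sup_left hwL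
      have c1 : z * π n = π n * z := hzD _ (hπD n)
      have c2 : z * w = w * z := hzD _ hwD'
      have c3 : π m * w = w * π m := (hwD _ (hπD m)).symm
      simp only [commutatorElement_def, mul_inv_rev]
      have hzi : z⁻¹ * π n = π n * z⁻¹ := by
        calc z⁻¹ * π n = z⁻¹ * (π n * z) * z⁻¹ := by group
          _ = z⁻¹ * (z * π n) * z⁻¹ := by rw [c1]
          _ = π n * z⁻¹ := by group
      have hzw : z⁻¹ * w = w * z⁻¹ := by
        calc z⁻¹ * w = z⁻¹ * (w * z) * z⁻¹ := by group
          _ = z⁻¹ * (z * w) * z⁻¹ := by rw [c2]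
          _ = w * z⁻¹ := by group
      have hwi : w⁻¹ * π m = π m * w⁻¹ := by
        calc w⁻¹ * π m = w⁻¹ * (π m * w) * w⁻¹ := by group
          _ = w⁻¹ * (w * π m) * w⁻¹ := by rw [c3]
          _ = π m * w⁻¹ := by group
      -- reduce using centrality
      have hw_all : ∀ y ∈ D, w * y = y * w := hwD
      have hzi_all : ∀ y ∈ D, z * y = y * z := hzD
      have hmD := hπD m
      have hnD := hπD n
      have hA : π m * π n * (π m)⁻¹ * (π n)⁻¹ ∈ D :=
        D.mul_mem (D.mul_mem (D.mul_mem hmD hnD) (D.inv_mem hmD)) (D.inv_mem hnD)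
      have step1 : z * π m * (w * π n) * ((π m)⁻¹ * z⁻¹) * ((π n)⁻¹ * w⁻¹) =
          z * w * (π m * π n * (π m)⁻¹ * (π n)⁻¹) * z⁻¹ * w⁻¹ := by
        have e : z * π m * (w * π n) = z * w * (π m * π n) := by
          calc z * π m * (w * π n) = z * (π m * w) * π n := by group
            _ = z * (w * π m) * π n := by rw [c3]
            _ = z * w * (π m * π n) := by group
        rw [e]
        have e2 : z⁻¹ * ((π n)⁻¹ * w⁻¹) = (π n)⁻¹ * z⁻¹ * w⁻¹ := by
          have hci : z⁻¹ * (π n)⁻¹ = (π n)⁻¹ * z⁻¹ := by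
            rw [← mul_inv_rev, ← mul_inv_rev, c1]
          calc z⁻¹ * ((π n)⁻¹ * w⁻¹) = (z⁻¹ * (π n)⁻¹) * w⁻¹ := by group
            _ = (π n)⁻¹ * z⁻¹ * w⁻¹ := by rw [hci]
        calc z * w * (π m * π n) * ((π m)⁻¹ * z⁻¹) * ((π n)⁻¹ * w⁻¹)
            = z * w * (π m * π n) * (π m)⁻¹ * (z⁻¹ * ((π n)⁻¹ * w⁻¹)) := by group
          _ = z * w * (π m * π n) * (π m)⁻¹ * ((π n)⁻¹ * z⁻¹ * w⁻¹) := by rw [e2]
          _ = _ := by group
      rw [step1]
      set A := π m * π n * (π m)⁻¹ * (π n)⁻¹ with hAdef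
      have eA1 : w * A = A * w := hw_all A hA
      have eA2 : z * A = A * z := hzi_all A hA
      symm
      calc z * w * A * z⁻¹ * w⁻¹ = z * (w * A) * z⁻¹ * w⁻¹ := by group
        _ = z * (A * w) * z⁻¹ * w⁻¹ := by rw [eA1]
        _ = (z * A) * (w * z⁻¹) * w⁻¹ := by group
        _ = (A * z) * (w * z⁻¹) * w⁻¹ := by rw [eA2]
        _ = A * (z * (w * z⁻¹) * w⁻¹) := by group
        _ = A * (z * (z⁻¹ * w) * w⁻¹) := by rw [hzw]
        _ = A := by group
    · rintro _ ⟨l, rfl⟩
      have hl : l ∈ (⊤ : Subgroup ↥L) := Subgroup.mem_top l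
      have htop : (⊤ : Subgroup ↥L) = ⁅(⊤ : Subgroup ↥L), (⊤ : Subgroup ↥L)⁆ := by
        have h1 : ⁅(⊤ : Subgroup ↥L), (⊤ : Subgroup ↥L)⁆.map L.subtype = ⁅L, L⁆ := by
          rw [Subgroup.map_commutator, ← MonoidHom.range_eq_map, Subgroup.range_subtype]
        have h2 : ⁅(⊤ : Subgroup ↥L), (⊤ : Subgroup ↥L)⁆.map L.subtype = (⊤ : Subgroup ↥L).map L.subtype := by
          rw [h1, hperf, ← MonoidHom.range_eq_map, Subgroup.range_subtype]
        exact (Subgroup.map_injective L.subtype_injective h2).symm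
      rw [htop] at hl
      have : π l ∈ (⁅(⊤ : Subgroup ↥L), (⊤ : Subgroup ↥L)⁆).map π := ⟨l, hl, rfl⟩
      rw [Subgroup.map_commutator] at this
      refine Subgroup.commutator_mono ?_ ?_ this
      · rintro _ ⟨m, _, rfl⟩
        exact hπDC m
      · rintro _ ⟨m, _, rfl⟩
        exact hπDC m

end Cfsg.Agent.S1314
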