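import Cfsg.Statements.S1315
import Cfsg.Agent.Lib.IntrSL.Main

set_option autoImplicit false
open Cfsg

namespace Cfsg.Agent.S1315

open Cfsg.Agent.Lib.IntrSL.Main Cfsg.Agent.Lib.IntrSL.Defs in
/-- Let G be finite and J ≠ K subgroups, each containing exactly one involution, z(J) resp. z(K), each a 2-component of the centralizer of its involution, with J / O(J) and K / O(K) both isomorphic to SL(2, F) for one finite field F of odd order, or both non-split double covers of A7. Then (i) every 2-element of K of order at least 4 centralizing z(J) normalizes J; (ii) if z(J) normalizes K then z(K) normalizes J. -/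
theorem result {G : Type*} [Group G] [Finite G] (J K : Subgroup G) (hJK : J ≠ K) (zJ zK : G) (hzJ : zJ ∈ J ∧ orderOf zJ = 2 ∧ ∀ t ∈ J, orderOf t = 2 → t = zJ) (hzK : zK ∈ K ∧ orderOf zK = 2 ∧ ∀ t ∈ K, orderOf t = 2 → t = zK) (hJ : J ≤ Subgroup.centralizer ({zJ} : Set G) ∧ Cfsg.IsPComponent 2 (J.subgroupOf (Subgroup.centralizer ({zJ} : Set G)))) (hK : K ≤ Subgroup.centralizer ({zK} : Set G) ∧ Cfsg.IsPComponent 2 (K.subgroupOf (Subgroup.centralizer ({zK} : Set G)))) (htype : (∃ (F : Type) (_ : Field F) (_ : Fintype F), Odd (Fintype.card F) ∧ Nonempty (↥J ⧸ Cfsg.oddCore ↥J ≃* Matrix.SpecialLinearGroup (Fin 2) F) ∧ Nonempty (↥K ⧸ Cfsg.oddCore ↥K ≃* Matrix.SpecialLinearGroup (Fin 2) F)) ∨ (Cfsg.IsNonsplitDoubleCover (↥J ⧸ Cfsg.oddCore ↥J) ↥(alternatingGroup (Fin 7)) ∧ Cfsg.IsNonsplitDoubleCover (↥K ⧸ Cfsg.oddCore ↥K) ↥(alternatingGroup (Fin 7)))) : (∀ y ∈ K, IsPGroup 2 ↥(Subgroup.zpowers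 y) → 4 ≤ orderOf y → y * zJ = zJ * y → y ∈ Subgroup.normalizer (J : Set G)) ∧ (zJ ∈ Subgroup.normalizer (K : Set G) → zK ∈ Subgroup.normalizer (J : Set G)) := by
  have hqsJ := Cfsg.Agent.Lib.PTerm.Rel.PT.quasisimple_quot (pt_of hJ)
  have hqsK := Cfsg.Agent.Lib.PTerm.Rel.PT.quasisimple_quot (pt_of hK)
  have key : (QType (QuotientGroup.mk' (oddCore ↥J) (⟨zJ, hzJ.1⟩ : ↥J)) ∧
      QType (QuotientGroup.mk' (oddCore ↥K) (⟨zK, hzK.1⟩ : ↥K))) ∧ qcard J = qcard K := by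
    rcases htype with ⟨F, _, _, hodd, ⟨e1⟩, ⟨e2⟩⟩ | ⟨h1, h2⟩
    · refine ⟨⟨Cfsg.Agent.Lib.IntrSL.QTSL2.sltype hodd e1 hqsJ (ord_mk hzJ),
        Cfsg.Agent.Lib.IntrSL.QTSL2.sltype hodd e2 hqsK (ord_mk hzK)⟩, ?_⟩
      exact (Nat.card_congr e1.toEquiv).trans (Nat.card_congr e2.toEquiv).symm
    · have hu : ∀ {A : Subgroup G} {x : G} (hx : x ∈ A ∧ orderOf x = 2 ∧ ∀ t ∈ A, orderOf t = 2 → t = x),
          ∀ b : ↥A ⧸ oddCore ↥A, orderOf b = 2 → b = QuotientGroup.mk' (oddCore ↥A) ⟨x, hx.1⟩ := by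
        intro A x hx b hb
        refine uniq_mk (fun t ht => ?_) b hb
        apply Subtype.ext
        exact hx.2.2 _ t.2 (by rwa [Subgroup.orderOf_mk] at ht)
      refine ⟨⟨Cfsg.Agent.Lib.IntrSL.QTA7.dctype h1 hqsJ (ord_mk hzJ) (hu hzJ),
        Cfsg.Agent.Lib.IntrSL.QTA7.dctype h2 hqsK (ord_mk hzK) (hu hzK)⟩, ?_⟩
      exact (card_of_dc h1).trans (card_of_dc h2).symm
  exact (main hJK (slcomp_of_type hzJ hJ key.1.1) (slcomp_of_type hzK hK key.1.2) key.2)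

end Cfsg.Agent.S1315
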