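import Cfsg.Statements.S1316
import Cfsg.Agent.Lib.Components.Layer

set_option autoImplicit false
open Cfsg

namespace Cfsg.Agent.S1316

/-- For a finite group X, E(X) equals the intersection of the derived series of F*(X) (its last term). -/
theorem result {X : Type*} [Group X] [Finite X] : (⨅ n : ℕ, (derivedSeries ↥(Cfsg.generalizedFittingSubgroup X) n).map (Cfsg.generalizedFittingSubgroup X).subtype) = Cfsg.layer X := by
  open Cfsg.Agent.Lib.Components.Basic Cfsg.Agent.Lib.Core.Basic Subgroup in
  classical
  set Fs := Cfsg.generalizedFittingSubgroup X with hFs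
  have hELe : Cfsg.layer X ≤ Fs := le_sup_left
  -- the layer lies in each derived term
  have h1 : ∀ n : ℕ, Cfsg.layer X ≤ (derivedSeries Fs n).map Fs.subtype := by
    intro n
    induction n with
    | zero =>
      simp only [derivedSeries_zero, ← MonoidHom.range_eq_map, range_subtype]
      exact hELe
    | succ n ih =>
      rw [derivedSeries_succ, map_commutator, ← layer_perfect (G := X)]
      exact commutator_mono ih ih
  -- the quotient is solvable
  let N : Subgroup Fs := (Cfsg.layer X).subgroupOf Fs
  have hN : N.Normal := inferInstance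
  have hsurj : Function.Surjective
      ((QuotientGroup.mk' N).comp (Subgroup.inclusion (le_sup_right : Cfsg.fittingSubgroup X ≤ Fs))) := by
    intro y
    obtain ⟨⟨x, hx⟩, rfl⟩ := QuotientGroup.mk'_surjective N y
    have hx' : x ∈ Cfsg.fittingSubgroup X ⊔ Cfsg.layer X := by
      rw [sup_comm]; exact hx
    rw [mem_sup_of_normal_right] at hx'
    obtain ⟨f, hf, e, he, rfl⟩ := hx'
    refine ⟨⟨f, hf⟩, ?_⟩
    simp only [MonoidHom.comp_apply, QuotientGroup.mk'_apply]
    rw [QuotientGroup.eq]
    show ((⟨f, _⟩ : Fs)⁻¹ * ⟨f * e, hx⟩ : Fs) ∈ N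
    rw [mem_subgroupOf]
    simpa using he
  have hnil := fittingSubgroup_isNilpotent (G := X)
  have hsol : Group.IsSolvable (Fs ⧸ N) := by
    have : Group.IsSolvable (Cfsg.fittingSubgroup X) := inferInstance
    exact Group.isSolvable_of_surjective hsurj
  obtain ⟨n, hn⟩ := hsol.solvable
  have h2 : (derivedSeries Fs n).map Fs.subtype ≤ Cfsg.layer X := by
    have h3 := map_derivedSeries_eq (QuotientGroup.mk'_surjective N) n
    rw [hn, Subgroup.map_eq_bot_iff, QuotientGroup.ker_mk'] at h3
    have h4 := map_mono (f := Fs.subtype) h3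
    refine h4.trans ?_
    rw [subgroupOf_map_subtype]
    exact inf_le_left
  apply le_antisymm
  · exact (iInf_le _ n).trans h2
  · exact le_iInf h1

end Cfsg.Agent.S1316
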