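import Cfsg.Statements.S1319
import Cfsg.Agent.Lib.Components.Layer

set_option autoImplicit false
open Cfsg

namespace Cfsg.Agent.S1319

/-- Let A be a subnormal subgroup of the finite group X with E(A) = A. Then A ≤ E(X) and A is normal in E(X). -/
theorem result {X : Type*} [Group X] [Finite X] (A : Subgroup X) (hsn : A.IsSubnormal) (hA : Cfsg.layer ↥A = ⊤) : A ≤ Cfsg.layer X ∧ (A.subgroupOf (Cfsg.layer X)).Normal := by
  open Cfsg.Agent.Lib.Components.Basic Cfsg.Agent.Lib.Components.Layer Subgroup in
  have h1 : A ≤ Cfsg.layer X := by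
    have := map_layer_le_of_isSubnormal hsn
    rw [hA, ← MonoidHom.range_eq_map, range_subtype] at this
    exact this
  refine ⟨h1, ?_⟩
  rw [normal_subgroupOf_iff_le_normalizer h1]
  apply sSup_le
  intro K hK
  rcases component_le_or_commutator_eq_bot hK hsn with h | h
  · exact h.trans (le_normalizer (H := A))
  · exact le_normalizer_of_commutator_eq_bot h

end Cfsg.Agent.S1319
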