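import Cfsg.Statements.S1325
import Cfsg.Agent.Lib.Components.GenFitting

set_option autoImplicit false
open Cfsg

namespace Cfsg.Agent.S1325

/-- Let X be finite and Y a normal subgroup containing F(X) with C_X(Y) ≤ Y. Then F*(X) ≤ Y. -/
theorem result {X : Type*} [Group X] [Finite X] (Y : Subgroup X) [Y.Normal] (hF : Cfsg.fittingSubgroup X ≤ Y) (hC : Subgroup.centralizer (Y : Set X) ≤ Y) : Cfsg.generalizedFittingSubgroup X ≤ Y := by
  open Cfsg.Agent.Lib.Components.Basic Subgroup in
  refine sup_le ?_ hF
  apply sSup_le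
  intro K hK
  rcases component_le_or_commutator_eq_bot hK (Subgroup.Normal.isSubnormal ‹Y.Normal›) with h | h
  · exact h
  · exact (commutator_eq_bot_iff_le_centralizer.mp h).trans hC

end Cfsg.Agent.S1325
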