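import Cfsg.Statements.S1326
import Cfsg.Agent.Lib.Components.GenFitting

set_option autoImplicit false
open Cfsg

namespace Cfsg.Agent.S1326

/-- For a finite group X: the Fitting subgroup contains its centralizer if and only if the layer of X is trivial. -/
theorem result {X : Type*} [Group X] [Finite X] : Subgroup.centralizer (Cfsg.fittingSubgroup X : Set X) ≤ Cfsg.fittingSubgroup X ↔ Cfsg.layer X = ⊥ := by
  open Cfsg.Agent.Lib.Components.Basic Cfsg.Agent.Lib.Components.GenFitting Subgroup in
  constructor
  · intro h
    rw [eq_bot_iff]
    apply sSup_le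
    intro K hK
    exfalso
    have h1 : K ≤ Subgroup.centralizer (Cfsg.fittingSubgroup X : Set X) := by
      rw [← commutator_eq_bot_iff_le_centralizer, eq_bot_iff, ← commutator_layer_fitting (G := X)]
      exact commutator_mono (le_layer_of_isComponent hK) le_rfl
    have h2 : K ≤ Cfsg.fittingSubgroup X := h1.trans h
    have h3 : Group.IsNilpotent (Cfsg.fittingSubgroup X) :=
      Cfsg.Agent.Lib.Core.Basic.fittingSubgroup_isNilpotent
    exact quasisimple_not_nilpotent hK.2 (nilpotent_of_subgroup_le h2 h3)
  · intro h
    have := centralizer_generalizedFitting_le (G := X)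
    rw [Cfsg.generalizedFittingSubgroup, h, bot_sup_eq] at this
    exact this

end Cfsg.Agent.S1326
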