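import Cfsg.Statements.S1327
import Cfsg.Agent.Lib.Core.Constrained
import Cfsg.Agent.S1326

set_option autoImplicit false
open Cfsg

namespace Cfsg.Agent.S1327

open Subgroup Cfsg.Agent.Lib.Core.Basic Cfsg.Agent.Lib.Core.Series Cfsg.Agent.Lib.Core.Constrained

variable {X Y : Type*} [Group X] [Group Y]

theorem comap_isSubnormal {f : X →* Y} (hf : Function.Surjective f) {H : Subgroup Y}
    (hH : H.IsSubnormal) : (H.comap f).IsSubnormal := by
  induction hH with
  | top => simp
  | step A B hAB _ hN ih =>
    refine IsSubnormal.step _ (B.comap f) (Subgroup.comap_mono hAB) ih ?_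
    rw [Subgroup.normal_subgroupOf_iff_le_normalizer (Subgroup.comap_mono hAB)]
    have hle := (Subgroup.normal_subgroupOf_iff_le_normalizer hAB).mp hN
    intro x hx
    rw [Subgroup.mem_normalizer_iff]
    intro h
    have hfx : f x ∈ Subgroup.normalizer (A : Set Y) := hle hx
    rw [Subgroup.mem_normalizer_iff] at hfx
    have := hfx (f h)
    simpa [Subgroup.mem_comap] using this

theorem not_isComponent_bot (G : Type*) [Group G] : ¬ IsComponent (⊥ : Subgroup G) := by
  rintro ⟨-, -, h⟩
  have : Nontrivial (↥(⊥ : Subgroup G) ⧸ Subgroup.center ↥(⊥ : Subgroup G)) := h.toNontrivial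
  have h2 : Subsingleton (↥(⊥ : Subgroup G) ⧸ Subgroup.center ↥(⊥ : Subgroup G)) := inferInstance
  exact not_subsingleton _ h2

/-- The `p`-layer is trivial iff the layer of `X / O_{p'}(X)` is. -/
theorem pLayer_eq_bot_iff {X : Type*} [Group X] [Finite X] (p : ℕ) :
    pLayer p X = ⊥ ↔ layer (X ⧸ pPrimeCore p X) = ⊥ := by
  constructor
  · intro h
    rw [layer, sSup_eq_bot]
    intro K hK
    -- choose a minimal subnormal subgroup of the preimage mapping onto `K`
    let f := QuotientGroup.mk' (pPrimeCore p X)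
    have hf : Function.Surjective f := QuotientGroup.mk_surjective
    let S : Set (Subgroup X) := {H | H.IsSubnormal ∧ H.map f = K}
    have hS : S.Nonempty :=
      ⟨K.comap f, comap_isSubnormal hf hK.1, Subgroup.map_comap_eq_self_of_surjective hf K⟩
    obtain ⟨H, hHmin⟩ := S.toFinite.exists_minimalFor (fun H : Subgroup X => H) S hS
    have hHS := hHmin.1
    have hpc : IsPComponent p H := by
      refine ⟨hHS.1, ?_, ?_⟩
      · have : H.map (QuotientGroup.mk' (pPrimeCore p X)) = K := hHS.2
        rw [this]; exact hK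
      · intro H' hH' hle himg
        have : H' ∈ S := ⟨hH', himg.trans hHS.2⟩
        exact le_antisymm hle (hHmin.2 this hle)
    have hbot : H ≤ pLayer p X := le_sSup hpc
    rw [h, le_bot_iff] at hbot
    have := hHS.2
    rw [hbot, Subgroup.map_bot] at this
    exact this.symm
  · intro h
    rw [pLayer, sSup_eq_bot]
    intro K hK
    have h1 : K.map (QuotientGroup.mk' (pPrimeCore p X)) ≤ layer (X ⧸ pPrimeCore p X) :=
      le_sSup hK.2.1
    rw [h, le_bot_iff] at h1
    have h2 := hK.2.1
    rw [h1] at h2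
    exact absurd h2 (not_isComponent_bot _)

/-- `F(Q) = O_p(Q)` when `O_{p'}(Q) = 1`. -/
theorem fittingSubgroup_eq_pCore_of_bot {Q : Type*} [Group Q] [Finite Q] (p : ℕ) [Fact p.Prime]
    (h : pPrimeCore p Q = ⊥) : fittingSubgroup Q = pCore p Q := by
  apply le_antisymm
  · rw [fittingSubgroup_eq_iSup_pCore]
    refine iSup_le fun q => ?_
    by_cases hq : (q : ℕ) = p
    · rw [hq]
    · haveI : Fact (q : ℕ).Prime := ⟨q.2⟩
      have hp : p.Prime := Fact.out
      have hle : pCore (q : ℕ) Q ≤ pPrimeCore p Q := by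
        refine le_pPrimeCore (pCore_normal _ _) ?_
        obtain ⟨n, hn⟩ := exists_card_pCore (p := (q : ℕ)) (G := Q)
        rw [hn]
        exact Nat.Coprime.pow_left _ ((Nat.coprime_primes q.2 hp).mpr hq)
      rw [h, le_bot_iff] at hle
      rw [hle]; exact bot_le
  · exact pCore_le_fittingSubgroup p

/-- A finite group X is p-constrained if and only if its p-layer L_{p'}(X) is trivial (equivalently X / O_{p'}(X) has trivial layer). -/
theorem result {X : Type*} [Group X] [Finite X] (p : ℕ) [Fact p.Prime] : Cfsg.IsPConstrained p X ↔ Cfsg.pLayer p X = ⊥ := by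
  rw [isPConstrained_iff, pLayer_eq_bot_iff, ← Cfsg.Agent.S1326.result,
    fittingSubgroup_eq_pCore_of_bot p pPrimeCore_quotient_eq_bot]
  rfl

end Cfsg.Agent.S1327
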