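import Cfsg.Statements.S1331
import Cfsg.Agent.Lib.CoprimeGen.Basic
-- import your own Cfsg.Agent.* helpers here

set_option autoImplicit false
open Cfsg

namespace Cfsg.Agent.S1331

/-- Let θ be a solvable A-signalizer functor on the finite group G for the prime p, A elementary abelian of rank at least 3, X a member of the family of θ, and B ≤ A with |B| ≥ p². Then X is generated by the subgroups X ∩ ⋂_{d ∈ D, d ≠ 1} θ d, D ranging over the subgroups of index p in B. -/
theorem result {G : Type*} [Group G] [Finite G] (p : ℕ) [Fact p.Prime] (A : Subgroup G) (hA : Cfsg.IsElementaryAbelian p A) (hA3 : p ^ 3 ≤ Nat.card ↥A) (θ : G → Subgroup G) (hθ : Cfsg.IsSolvableSignalizerFunctor p A θ) (X : Subgroup G) (hX : X ∈ Cfsg.signalizerFamily p A θ) (B : Subgroup G) (hB : B ≤ A) (hB2 : p ^ 2 ≤ Nat.card ↥B) : X = ⨆ D : {D : Subgroup G // D ≤ B ∧ D.relIndex B = p}, X ⊓ Cfsg.signalizerInf (D : Subgroup G) θ := by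
  classical
  obtain ⟨hXs, hXp, hXinv, hXθ⟩ := hX
  have hBEA : Cfsg.IsElementaryAbelian p B := by
    refine ⟨?_, fun a ha => hA.2 a (hB ha)⟩
    constructor
    constructor
    rintro ⟨x, hx⟩ ⟨y, hy⟩
    apply Subtype.ext
    have hc : ((⟨x, hB hx⟩ * ⟨y, hB hy⟩ : ↥A) : G) = ((⟨y, hB hy⟩ * ⟨x, hB hx⟩ : ↥A) : G) :=
      congrArg Subtype.val (hA.1.is_comm.comm ⟨x, hB hx⟩ ⟨y, hB hy⟩)
    exact hc
  have hBX : B ≤ Subgroup.normalizer (X : Set G) := by
    rw [Subgroup.le_normalizer_iff]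
    intro b hb x hx
    exact hXinv b (hB hb) x hx
  have hBp : IsPGroup p ↥B := by
    intro a
    refine ⟨1, ?_⟩
    apply Subtype.ext
    simpa using hBEA.2 a a.2
  -- for D of index p
  have hkey : ∀ D : Subgroup G, D ≤ B → X ⊓ Subgroup.centralizer (D : Set G) ≤ X ⊓ Cfsg.signalizerInf D θ := by
    intro D hD x hx
    refine Subgroup.mem_inf.mpr ⟨hx.1, ?_⟩
    unfold Cfsg.signalizerInf
    rw [Subgroup.mem_iInf]
    rintro ⟨d, hd, hd1⟩
    apply hXθ d (hB (hD hd)) hd1
    refine Subgroup.mem_inf.mpr ⟨hx.1, ?_⟩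
    refine Subgroup.mem_centralizer_iff.mpr ?_
    intro y hy
    rw [Set.mem_singleton_iff] at hy
    subst hy
    exact Subgroup.mem_centralizer_iff.mp hx.2 _ hd
  -- a hyperplane of B exists
  obtain ⟨D₀, hD₀B, hD₀⟩ : ∃ D₀ : Subgroup G, D₀ ≤ B ∧ D₀.relIndex B = p := by
    obtain ⟨n, hn⟩ := IsPGroup.iff_card.mp hBp
    have hn0 : n ≠ 0 := by
      rintro rfl
      rw [pow_zero] at hn
      rw [hn] at hB2
      have : 1 < p ^ 2 := Nat.one_lt_pow (by norm_num) (Fact.out : p.Prime).one_lt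
      omega
    obtain ⟨m, rfl⟩ := Nat.exists_eq_succ_of_ne_zero hn0
    have hd : p ^ m ∣ Nat.card ↥B := by
      rw [hn]
      exact pow_dvd_pow p (Nat.le_succ m)
    obtain ⟨K, hK⟩ := Sylow.exists_subgroup_card_pow_prime (G := ↥B) p hd
    refine ⟨K.map B.subtype, Subgroup.map_subtype_le _, ?_⟩
    have e1 : (K.map B.subtype).relIndex B = K.index := by
      show ((K.map B.subtype).comap B.subtype).index = _
      rw [Subgroup.comap_map_eq_self_of_injective B.subtype_injective]
    rw [e1]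
    have e2 := K.card_mul_index
    rw [hK, hn, pow_succ] at e2
    exact Nat.eq_of_mul_eq_mul_left (pow_pos (Fact.out : p.Prime).pos m) e2
  apply le_antisymm
  · -- X ≤ join
    refine (Cfsg.Agent.Lib.CoprimeGen.Basic.eq_hyperJoin hBEA hXp hBX).le.trans ?_
    unfold Cfsg.Agent.Lib.CoprimeGen.Basic.hyperJoin
    set Y := ⨆ D : {D : Subgroup G // D ≤ B ∧ D.relIndex B = p}, X ⊓ Cfsg.signalizerInf (D : Subgroup G) θ with hY
    have hle : ∀ D : {D : Subgroup G // D ≤ B ∧ D.relIndex B = p},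
        X ⊓ Cfsg.signalizerInf (D : Subgroup G) θ ≤ Y := fun D =>
      le_iSup (fun D : {D : Subgroup G // D ≤ B ∧ D.relIndex B = p} =>
        X ⊓ Cfsg.signalizerInf (D : Subgroup G) θ) D
    apply iSup_le
    rintro ⟨D, hD, hDi⟩
    -- the index of D in B is 1 or p
    have hdvd : D.relIndex B ∣ Nat.card ↥B := Subgroup.relIndex_dvd_card D B
    obtain ⟨n, hn⟩ := IsPGroup.iff_card.mp hBp
    rw [hn] at hdvd
    obtain ⟨j, hj, hje⟩ := (Nat.dvd_prime_pow (Fact.out : p.Prime)).mp hdvd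
    rcases Nat.eq_zero_or_pos j with rfl | hjpos
    · -- D = B, use D₀
      rw [pow_zero] at hje
      have hBD : B ≤ D := Subgroup.relIndex_eq_one.mp hje
      have h1 : X ⊓ Subgroup.centralizer (D : Set G) ≤ X ⊓ Subgroup.centralizer (D₀ : Set G) := by
        apply inf_le_inf_left
        exact Subgroup.centralizer_le (show (D₀ : Set G) ⊆ D from fun x hx => hBD (hD₀B hx))
      exact h1.trans ((hkey D₀ hD₀B).trans (hle ⟨D₀, hD₀B, hD₀⟩))
    · -- index exactly p
      have hjp : D.relIndex B = p := by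
        rw [hje] at hDi ⊢
        have hp1 := (Fact.out : p.Prime).one_lt
        have : j ≤ 1 := by
          by_contra hj2
          have : p ^ 2 ≤ p ^ j := Nat.pow_le_pow_right (by omega) (by omega)
          have hp2 : p < p ^ 2 := by nlinarith
          omega
        have : j = 1 := by omega
        rw [this, pow_one]
      exact (hkey D hD).trans (hle ⟨D, hD, hjp⟩)
  · exact iSup_le fun _ => inf_le_left

end Cfsg.Agent.S1331
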