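import Cfsg.Statements.S1335
import Mathlib.GroupTheory.Nilpotent
import Mathlib.GroupTheory.PGroup
import Mathlib.GroupTheory.Sylow
import Mathlib.GroupTheory.SpecificGroups.Cyclic
import Mathlib.Tactic.Group
-- import your own Cfsg.Agent.* helpers here

set_option autoImplicit false
open Cfsg

namespace Cfsg.Agent.S1335

/-- `PRankLE` is transported backwards along an injective hom. -/
theorem pRankLE_of_injective {X Y : Type*} [Group X] [Group Y] (f : X →* Y)
    (hf : Function.Injective f) {p k : ℕ} (h : Cfsg.PRankLE p k Y) : Cfsg.PRankLE p k X := by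
  intro A hA hexp
  have h1 : IsMulCommutative (A.map f) := by
    constructor
    constructor
    rintro ⟨_, a, ha, rfl⟩ ⟨_, b, hb, rfl⟩
    apply Subtype.ext
    show f a * f b = f b * f a
    have := congrArg Subtype.val (hA.is_comm.comm ⟨a, ha⟩ ⟨b, hb⟩)
    have h' : a * b = b * a := this
    rw [← map_mul, ← map_mul, h']
  have h2 : ∀ a ∈ A.map f, a ^ p = 1 := by
    rintro _ ⟨a, ha, rfl⟩
    rw [← map_pow, hexp a ha, map_one]
  have := h (A.map f) h1 h2
  rwa [Subgroup.card_map_of_injective hf] at this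

/-- Let H be a subgroup of the finite group G, p a prime, k ≥ 1, P a Sylow p-subgroup of H of p-rank at least k, and suppose N_G(X) ≤ H for every subgroup X ≤ P of p-rank at least k. Then P is a Sylow p-subgroup of G. -/
theorem result {G : Type*} [Group G] [Finite G] {p : ℕ} [Fact p.Prime] (k : ℕ) (hk : 1 ≤ k) (H : Subgroup G) (P : Sylow p ↥H) (hP : ¬ Cfsg.PRankLE p (k - 1) ↥(P : Subgroup ↥H)) (hΓ : (∀ X : Subgroup G, X ≤ (P : Subgroup ↥H).map H.subtype → ¬ Cfsg.PRankLE p (k - 1) ↥X → Subgroup.normalizer (X : Set G) ≤ H)) : ∃ Q : Sylow p G, (Q : Subgroup G) = (P : Subgroup ↥H).map H.subtype := by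
  classical
  set P' : Subgroup G := (P : Subgroup ↥H).map H.subtype with hP'
  have hPp : IsPGroup p ↥P' := P.isPGroup'.map H.subtype
  have hrank : ¬ Cfsg.PRankLE p (k - 1) ↥P' := by
    intro h
    apply hP
    exact pRankLE_of_injective ((P : Subgroup ↥H).equivMapOfInjective H.subtype H.subtype_injective).toMonoidHom
      (MulEquiv.injective _) h
  have hN : Subgroup.normalizer (P' : Set G) ≤ H := hΓ P' le_rfl hrank
  obtain ⟨Q, hQ⟩ := hPp.exists_le_sylow
  refine ⟨Q, ?_⟩
  by_contra hne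
  have hlt : P' < (Q : Subgroup G) := lt_of_le_of_ne hQ (Ne.symm hne)
  -- normalizer growth in Q
  have hnil : Group.IsNilpotent ↥(Q : Subgroup G) := Q.isPGroup'.isNilpotent
  have hR : P'.subgroupOf (Q : Subgroup G) < ⊤ := by
    rw [lt_top_iff_ne_top]
    intro h
    rw [Subgroup.subgroupOf_eq_top] at h
    exact absurd (le_antisymm h hQ) (ne_of_gt hlt)
  have hgrow := Group.normalizerCondition_of_isNilpotent _ hR
  obtain ⟨y, hy1, hy2⟩ := SetLike.exists_of_lt hgrow
  have hyN : (y : G) ∈ Subgroup.normalizer (P' : Set G) := by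
    rw [Subgroup.mem_normalizer_iff]
    intro z
    constructor
    · intro hz
      have hzQ : z ∈ (Q : Subgroup G) := hQ hz
      have := (Subgroup.mem_normalizer_iff.mp hy1 ⟨z, hzQ⟩).mp (by rw [Subgroup.mem_subgroupOf]; exact hz)
      rw [Subgroup.mem_subgroupOf] at this
      exact this
    · intro hz
      have hzQ' : (y : G) * z * (y : G)⁻¹ ∈ (Q : Subgroup G) := hQ hz
      have hzQ : z ∈ (Q : Subgroup G) := by
        have h1 : (y : G)⁻¹ * ((y : G) * z * (y : G)⁻¹) * (y : G) ∈ (Q : Subgroup G) :=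
          Subgroup.mul_mem _ (Subgroup.mul_mem _ (Subgroup.inv_mem _ y.2) hzQ') y.2
        have h2 : (y : G)⁻¹ * ((y : G) * z * (y : G)⁻¹) * (y : G) = z := by group
        rwa [h2] at h1
      have := (Subgroup.mem_normalizer_iff.mp hy1 ⟨z, hzQ⟩).mpr (by rw [Subgroup.mem_subgroupOf]; exact hz)
      rw [Subgroup.mem_subgroupOf] at this
      exact this
  have hyH : (y : G) ∈ H := hN hyN
  -- a bigger p-subgroup of H
  set T : Subgroup ↥H := ((Subgroup.normalizer (P' : Set G) ⊓ (Q : Subgroup G))).subgroupOf H with hT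
  have hTp : IsPGroup p ↥T := by
    have h1 : IsPGroup p ↥(Subgroup.normalizer (P' : Set G) ⊓ (Q : Subgroup G)) :=
      Q.isPGroup'.to_le inf_le_right
    have hinj : Function.Injective ((Subgroup.normalizer (P' : Set G) ⊓ (Q : Subgroup G)).subtype.comp
        (Subgroup.subgroupOfEquivOfLe (inf_le_left.trans hN)).toMonoidHom) :=
      (Subgroup.subtype_injective _).comp (MulEquiv.injective _)
    exact h1.of_equiv (Subgroup.subgroupOfEquivOfLe (inf_le_left.trans hN)).symm
  have hPT : (P : Subgroup ↥H) ≤ T := by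
    intro z hz
    rw [hT, Subgroup.mem_subgroupOf]
    have hz' : (z : G) ∈ P' := ⟨z, hz, rfl⟩
    exact ⟨Subgroup.le_normalizer hz', hQ hz'⟩
  have hEq := P.is_maximal' hTp hPT
  have hyT : (⟨y, hyH⟩ : ↥H) ∈ T := by
    rw [hT, Subgroup.mem_subgroupOf]
    exact ⟨hyN, y.2⟩
  have hyP : (⟨y, hyH⟩ : ↥H) ∈ (P : Subgroup ↥H) := by rw [← hEq]; exact hyT
  apply hy2
  rw [Subgroup.mem_subgroupOf]
  exact ⟨_, hyP, rfl⟩

end Cfsg.Agent.S1335
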