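import Cfsg.Statements.S1336
import Mathlib.GroupTheory.Sylow
import Mathlib.GroupTheory.SpecificGroups.Cyclic
import Mathlib.GroupTheory.PGroup
import Mathlib.Tactic.Group
-- import your own Cfsg.Agent.* helpers here

set_option autoImplicit false
open Cfsg

namespace Cfsg.Agent.S1336

open Subgroup

variable {G : Type*} [Group G]

/-- The vertices of the commuting graph. -/
def Vtx (p : ℕ) (A : Subgroup G) : Prop :=
  Cfsg.IsElementaryAbelian p A ∧ p ^ 1 ≤ Nat.card ↥A

/-- The edge relation of the commuting graph. -/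
def Adj (p : ℕ) (A B : Subgroup G) : Prop :=
  Cfsg.IsElementaryAbelian p A ∧ p ^ 1 ≤ Nat.card ↥A ∧ Cfsg.IsElementaryAbelian p B ∧
    p ^ 1 ≤ Nat.card ↥B ∧ ∀ a ∈ A, ∀ b ∈ B, a * b = b * a

theorem adj_symm {p : ℕ} {A B : Subgroup G} (h : Adj p A B) : Adj p B A := by
  obtain ⟨h1, h2, h3, h4, h5⟩ := h
  exact ⟨h3, h4, h1, h2, fun b hb a ha => (h5 a ha b hb).symm⟩

/-- conjugate of a subgroup -/
abbrev cj (g : G) (A : Subgroup G) : Subgroup G := A.map (MulAut.conj g).toMonoidHom

theorem mem_cj {g x : G} {A : Subgroup G} : x ∈ cj g A ↔ g⁻¹ * x * g ∈ A := by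
  constructor
  · rintro ⟨a, ha, rfl⟩
    have : g⁻¹ * ((MulAut.conj g).toMonoidHom a) * g = a := by
      simp [MulAut.conj_apply]; group
    rw [this]; exact ha
  · intro h
    refine ⟨_, h, ?_⟩
    simp [MulAut.conj_apply]; group

theorem conj_mem_cj {g a : G} {A : Subgroup G} (h : a ∈ A) : g * a * g⁻¹ ∈ cj g A :=
  ⟨a, h, rfl⟩

theorem cj_one (A : Subgroup G) : cj 1 A = A := by
  ext x
  rw [mem_cj]; simp

theorem cj_mul (g h : G) (A : Subgroup G) : cj (g * h) A = cj g (cj h A) := by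
  ext x
  rw [mem_cj, mem_cj, mem_cj]
  have : (g * h)⁻¹ * x * (g * h) = h⁻¹ * (g⁻¹ * x * g) * h := by group
  rw [this]

theorem card_cj (g : G) (A : Subgroup G) : Nat.card ↥(cj g A) = Nat.card ↥A :=
  Subgroup.card_map_of_injective (MulEquiv.injective _)

theorem ea_cj {p : ℕ} (g : G) {A : Subgroup G} (h : Cfsg.IsElementaryAbelian p A) :
    Cfsg.IsElementaryAbelian p (cj g A) := by
  refine ⟨?_, ?_⟩
  · constructor
    constructor
    rintro ⟨_, a, ha, rfl⟩ ⟨_, b, hb, rfl⟩
    apply Subtype.ext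
    show (MulAut.conj g).toMonoidHom a * (MulAut.conj g).toMonoidHom b =
      (MulAut.conj g).toMonoidHom b * (MulAut.conj g).toMonoidHom a
    have h' : a * b = b * a := congrArg Subtype.val (h.1.is_comm.comm ⟨a, ha⟩ ⟨b, hb⟩)
    rw [← map_mul, ← map_mul, h']
  · rintro _ ⟨a, ha, rfl⟩
    rw [← map_pow, h.2 a ha, map_one]

theorem adj_cj {p : ℕ} (g : G) {A B : Subgroup G} (h : Adj p A B) : Adj p (cj g A) (cj g B) := by
  obtain ⟨h1, h2, h3, h4, h5⟩ := h
  refine ⟨ea_cj g h1, by rwa [card_cj], ea_cj g h3, by rwa [card_cj], ?_⟩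
  rintro _ ⟨a, ha, rfl⟩ _ ⟨b, hb, rfl⟩
  rw [← map_mul, ← map_mul, h5 a ha b hb]

/-- connectedness -/
abbrev Conn (p : ℕ) (A B : Subgroup G) : Prop := Relation.ReflTransGen (Adj p) A B

theorem conn_symm {p : ℕ} {A B : Subgroup G} (h : Conn p A B) : Conn p B A := by
  induction h with
  | refl => exact Relation.ReflTransGen.refl
  | tail _ hbc ih => exact Relation.ReflTransGen.head (adj_symm hbc) ih

theorem sylow_conj_mem {H : Type*} [Group H] {p : ℕ} (g : H) (Q : Sylow p H) {x : H}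
    (hx : x ∈ (Q : Subgroup H)) : g * x * g⁻¹ ∈ ((g • Q : Sylow p H) : Subgroup H) := by
  rw [Sylow.coe_subgroup_smul]
  exact Subgroup.smul_mem_pointwise_smul x (MulAut.conj g) (Q : Subgroup H) hx

theorem cj_self_of_mem {a : G} {E : Subgroup G} (ha : a ∈ E) : cj a E = E := by
  ext x
  rw [mem_cj]
  constructor
  · intro h
    have : x = a * (a⁻¹ * x * a) * a⁻¹ := by group
    rw [this]
    exact E.mul_mem (E.mul_mem ha h) (E.inv_mem ha)
  · intro h
    exact E.mul_mem (E.mul_mem (E.inv_mem ha) h) ha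

theorem conn_cj {p : ℕ} (g : G) {A B : Subgroup G} (h : Conn p A B) : Conn p (cj g A) (cj g B) := by
  induction h with
  | refl => exact Relation.ReflTransGen.refl
  | tail _ hbc ih => exact ih.tail (adj_cj g hbc)

theorem vtx_zpowers {p : ℕ} [Fact p.Prime] {y : G} (hy : orderOf y = p) : Vtx p (zpowers y) := by
  refine ⟨⟨inferInstance, ?_⟩, ?_⟩
  · intro a ha
    obtain ⟨k, rfl⟩ := mem_zpowers_iff.mp ha
    rw [← zpow_natCast, ← zpow_mul, mul_comm, zpow_mul, zpow_natCast, ← hy, pow_orderOf_eq_one]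
    simp
  · rw [Nat.card_zpowers, hy, pow_one]

theorem exists_order_p_of_vtx {p : ℕ} [hp : Fact p.Prime] {A : Subgroup G} (h : Vtx p A) :
    ∃ a ∈ A, orderOf a = p := by
  have hp1 : 1 < Nat.card ↥A := by
    have : 1 < p := hp.out.one_lt
    have h2 := h.2
    rw [pow_one] at h2
    omega
  haveI : Finite ↥A := Nat.finite_of_card_ne_zero (by omega)
  haveI : Nontrivial ↥A := (Finite.one_lt_card_iff_nontrivial).mp hp1
  obtain ⟨⟨a, ha⟩, hne⟩ := exists_ne (1 : ↥A)
  refine ⟨a, ha, ?_⟩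
  apply orderOf_eq_prime (h.1.2 a ha)
  intro h1
  apply hne
  exact Subtype.ext h1

/-- Two vertices in one finite `p`-subgroup are connected. -/
theorem conn_of_le_pgroup {p : ℕ} [hp : Fact p.Prime] [Finite G] {S A B : Subgroup G}
    (hS : IsPGroup p ↥S) (hA : Vtx p A) (hB : Vtx p B) (hAS : A ≤ S) (hBS : B ≤ S) : Conn p A B := by
  obtain ⟨a, ha, hao⟩ := exists_order_p_of_vtx hA
  have hS1 : Nontrivial ↥S := by
    refine ⟨⟨⟨a, hAS ha⟩, 1, ?_⟩⟩
    intro h
    have : a = 1 := congrArg Subtype.val h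
    rw [this, orderOf_one] at hao
    exact hp.out.one_lt.ne hao
  haveI := hS.center_nontrivial
  have hdvd : p ∣ Nat.card ↥(center ↥S) := by
    have hc : IsPGroup p ↥(center ↥S) := hS.to_subgroup _
    obtain ⟨n, hn⟩ := IsPGroup.iff_card.mp hc
    rw [hn]
    have : n ≠ 0 := by
      rintro rfl
      rw [pow_zero] at hn
      exact (Finite.one_lt_card (α := ↥(center ↥S))).ne' hn
    exact dvd_pow_self p this
  obtain ⟨z, hz⟩ := exists_prime_orderOf_dvd_card' p hdvd
  have hzo : orderOf (((z : ↥S) : G)) = p := by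
    rw [← hz]
    have h1 : orderOf ((z : ↥S) : G) = orderOf (z : ↥S) := Subgroup.orderOf_coe _
    rw [h1, Subgroup.orderOf_coe]
  have hzv : Vtx p (zpowers (((z : ↥S) : G))) := vtx_zpowers hzo
  have hcomm : ∀ x ∈ S, ∀ w ∈ zpowers (((z : ↥S) : G)), x * w = w * x := by
    intro x hx w hw
    obtain ⟨k, rfl⟩ := mem_zpowers_iff.mp hw
    have h1 : Commute x (((z : ↥S) : G)) := by
      have := mem_center_iff.mp z.2 ⟨x, hx⟩
      exact congrArg Subtype.val this
    exact (h1.zpow_right k).eq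
  have h1 : Adj p A (zpowers (((z : ↥S) : G))) :=
    ⟨hA.1, hA.2, hzv.1, hzv.2, fun a ha w hw => hcomm a (hAS ha) w hw⟩
  have h2 : Adj p (zpowers (((z : ↥S) : G))) B :=
    ⟨hzv.1, hzv.2, hB.1, hB.2, fun w hw b hb => (hcomm b (hBS hb) w hw).symm⟩
  exact (Relation.ReflTransGen.single h1).tail h2

/-- the stabilizer of the connected component of `E` -/
def stab (p : ℕ) (E : Subgroup G) : Subgroup G where
  carrier := {g | Conn p E (cj g E)}
  one_mem' := by
    show Conn p E (cj 1 E)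
    rw [cj_one]
  mul_mem' := by
    intro a b ha hb
    show Conn p E (cj (a * b) E)
    rw [cj_mul]
    exact Relation.ReflTransGen.trans ha (conn_cj a hb)
  inv_mem' := by
    intro a ha
    show Conn p E (cj a⁻¹ E)
    have h1 : Conn p (cj a⁻¹ E) (cj a⁻¹ (cj a E)) := conn_cj a⁻¹ ha
    rw [← cj_mul, inv_mul_cancel, cj_one] at h1
    exact conn_symm h1

/-- Let G be finite and p prime. Then G has a proper subgroup H with p ∣ |H| and p ∤ |H ∩ gHg⁻¹| for every g ∉ H (a strongly p-embedded subgroup) if and only if G is not 1-connected for p. -/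
theorem result {G : Type*} [Group G] [Finite G] (p : ℕ) [Fact p.Prime] : (∃ H : Subgroup G, H ≠ ⊤ ∧ p ∣ Nat.card ↥H ∧ ∀ g : G, g ∉ H → ¬ p ∣ Nat.card ↥(H ⊓ H.map (MulAut.conj g).toMonoidHom)) ↔ ¬ Cfsg.IsKConnected p 1 G := by
  classical
  constructor
  · rintro ⟨H, hH, hdvd, hemb⟩ hconn
    -- C_G(a) ≤ H for a ∈ H of order p
    have hcent : ∀ a ∈ H, orderOf a = p → ∀ b : G, a * b = b * a → b ∈ H := by
      intro a ha hao b hab
      by_contra hb
      apply hemb b hb
      have hmem : a ∈ H ⊓ H.map (MulAut.conj b).toMonoidHom := by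
        refine ⟨ha, a, ha, ?_⟩
        show b * a * b⁻¹ = a
        rw [← hab]; group
      have : orderOf (⟨a, hmem⟩ : ↥(H ⊓ H.map (MulAut.conj b).toMonoidHom)) = p := by
        rw [Subgroup.orderOf_mk]; exact hao
      rw [← this]
      exact orderOf_dvd_natCard _
    -- a chain from H stays in H
    have hchain : ∀ {A B : Subgroup G}, Conn p A B → A ≤ H → Vtx p A → B ≤ H ∧ Vtx p B := by
      intro A B hAB hAH hA
      induction hAB with
      | refl => exact ⟨hAH, hA⟩
      | tail _ hbc ih =>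
        obtain ⟨hbH, hbV⟩ := ih
        obtain ⟨_, _, h3, h4, h5⟩ := hbc
        obtain ⟨a, ha, hao⟩ := exists_order_p_of_vtx hbV
        refine ⟨fun c hc => hcent a (hbH ha) hao c (h5 a ha c hc), ⟨h3, h4⟩⟩
    obtain ⟨y, hy⟩ := exists_prime_orderOf_dvd_card' p hdvd
    have hyo : orderOf ((y : ↥H) : G) = p := by
      rw [← hy, Subgroup.orderOf_coe]
    obtain ⟨g, hg⟩ : ∃ g, g ∉ H := by
      by_contra hall
      push Not at hall
      exact hH (eq_top_iff.mpr fun x _ => hall x)
    have hyv : Vtx p (zpowers ((y : ↥H) : G)) := vtx_zpowers hyo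
    have hyle : zpowers ((y : ↥H) : G) ≤ H := by
      rw [Subgroup.zpowers_le]; exact y.2
    have hyv' : Vtx p (cj g (zpowers ((y : ↥H) : G))) :=
      ⟨ea_cj g hyv.1, by rw [card_cj]; exact hyv.2⟩
    have hc := hconn _ _ hyv.1 hyv.2 hyv'.1 hyv'.2
    obtain ⟨hle, _⟩ := hchain hc hyle hyv
    have hmem : g * (y : G) * g⁻¹ ∈ H ⊓ H.map (MulAut.conj g).toMonoidHom :=
      ⟨hle (conj_mem_cj (mem_zpowers _)), (y : G), y.2, rfl⟩
    apply hemb g hg
    have hord : orderOf (⟨_, hmem⟩ : ↥(H ⊓ H.map (MulAut.conj g).toMonoidHom)) = p := by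
      rw [Subgroup.orderOf_mk]
      have : orderOf (g * (y : G) * g⁻¹) = orderOf ((y : ↥H) : G) := by
        rw [← MulAut.conj_apply, MulEquiv.orderOf_eq]
      rw [this, hyo]
    rw [← hord]
    exact orderOf_dvd_natCard _
  · intro hnc
    unfold Cfsg.IsKConnected at hnc
    push Not at hnc
    obtain ⟨E, E', hE1, hE2, hE'1, hE'2, hnot⟩ := hnc
    have hnot' : ¬ Conn p E E' := hnot
    have hEv : Vtx p E := ⟨hE1, hE2⟩
    have hE'v : Vtx p E' := ⟨hE'1, hE'2⟩
    have hvcj : ∀ g : G, ∀ {A : Subgroup G}, Vtx p A → Vtx p (cj g A) := fun g A hA =>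
      ⟨ea_cj g hA.1, by rw [card_cj]; exact hA.2⟩
    have hpg : ∀ {A : Subgroup G}, Vtx p A → IsPGroup p ↥A := by
      intro A hA
      intro a
      refine ⟨1, ?_⟩
      apply Subtype.ext
      simpa using hA.1.2 a a.2
    refine ⟨stab p E, ?_, ?_, ?_⟩
    · -- proper
      classical
      obtain ⟨Q, hQ⟩ := (hpg hEv).exists_le_sylow
      obtain ⟨Q', hQ'⟩ := (hpg hE'v).exists_le_sylow
      obtain ⟨g, hg⟩ : ∃ g : G, g • Q = Q' := MulAction.exists_smul_eq G Q Q'
      intro htop
      have hgmem : g ∈ stab p E := by rw [htop]; trivial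
      have hgc : Conn p E (cj g E) := hgmem
      have hle : cj g E ≤ (Q' : Subgroup G) := by
        rintro _ ⟨a, ha, rfl⟩
        rw [← hg]
        exact sylow_conj_mem g Q (hQ ha)
      exact hnot' (hgc.trans (conn_of_le_pgroup Q'.isPGroup' (hvcj g hEv) hE'v hle hQ'))
    · -- p divides |H|
      obtain ⟨a, ha, hao⟩ := exists_order_p_of_vtx hEv
      have hamem : a ∈ stab p E := by
        show Conn p E (cj a E)
        rw [cj_self_of_mem ha]
      have : orderOf (⟨a, hamem⟩ : ↥(stab p E)) = p := by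
        rw [Subgroup.orderOf_mk]; exact hao
      have hd : orderOf (⟨a, hamem⟩ : ↥(stab p E)) ∣ Nat.card ↥(stab p E) := orderOf_dvd_natCard _
      rwa [this] at hd
    · -- strong embedding
      have hEstab : E ≤ stab p E := by
        intro a ha
        show Conn p E (cj a E)
        rw [cj_self_of_mem ha]
      -- every element of order p of H is in the component of E
      have hE : ∀ y ∈ stab p E, orderOf y = p → Conn p E (zpowers y) := by
        intro y hy hyo
        set K := stab p E with hK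
        let y₀ : ↥K := ⟨y, hy⟩
        have hy₀p : IsPGroup p ↥(zpowers y₀) := by
          refine IsPGroup.iff_card.mpr ⟨1, ?_⟩
          rw [Nat.card_zpowers, pow_one, ← hyo]
          exact Subgroup.orderOf_mk y hy
        obtain ⟨Q₁, hQ₁⟩ := hy₀p.exists_le_sylow
        have hE₀p : IsPGroup p ↥(E.subgroupOf K) := by
          have := hpg hEv
          exact this.of_equiv (subgroupOfEquivOfLe hEstab).symm
        obtain ⟨Q₀, hQ₀⟩ := hE₀p.exists_le_sylow
        obtain ⟨h, hh⟩ : ∃ h : ↥K, h • Q₀ = Q₁ := MulAction.exists_smul_eq _ Q₀ Q₁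
        have hM : IsPGroup p ↥((Q₁ : Subgroup ↥K).map K.subtype) := Q₁.isPGroup'.map K.subtype
        have hle1 : cj (h : G) E ≤ (Q₁ : Subgroup ↥K).map K.subtype := by
          rintro _ ⟨a, ha, rfl⟩
          have ha' : (⟨a, hEstab ha⟩ : ↥K) ∈ (Q₀ : Subgroup ↥K) := hQ₀ (by
            rw [mem_subgroupOf]; exact ha)
          have := sylow_conj_mem h Q₀ ha'
          rw [hh] at this
          exact ⟨_, this, rfl⟩
        have hle2 : zpowers y ≤ (Q₁ : Subgroup ↥K).map K.subtype := by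
          rw [Subgroup.zpowers_le]
          exact ⟨y₀, hQ₁ (mem_zpowers y₀), rfl⟩
        have hc1 : Conn p (cj (h : G) E) (zpowers y) :=
          conn_of_le_pgroup hM (hvcj h hEv) (vtx_zpowers hyo) hle1 hle2
        have hc2 : Conn p E (cj (h : G) E) := h.2
        exact hc2.trans hc1
      intro g hg hdvd
      apply hg
      obtain ⟨y, hy⟩ := exists_prime_orderOf_dvd_card' p hdvd
      have hyo : orderOf ((y : ↥(stab p E ⊓ (stab p E).map (MulAut.conj g).toMonoidHom)) : G) = p := by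
        have := Subgroup.orderOf_coe y
        rw [hy] at this
        exact this
      obtain ⟨hy1, y', hy', hy'e⟩ := y.2
      have hy'o : orderOf y' = p := by
        rw [← hyo, ← hy'e]
        exact (MulEquiv.orderOf_eq (MulAut.conj g) y').symm
      have hc1 := hE _ hy1 hyo
      have hc2 : Conn p (cj g E) (cj g (zpowers y')) := conn_cj g (hE y' hy' hy'o)
      have hzp : cj g (zpowers y') = zpowers ((y : ↥(stab p E ⊓ (stab p E).map (MulAut.conj g).toMonoidHom)) : G) := by
        rw [← hy'e]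
        exact MonoidHom.map_zpowers _ _
      rw [hzp] at hc2
      exact hc1.trans (conn_symm hc2)

end Cfsg.Agent.S1336
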