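import Cfsg.Statements.S1337
import Mathlib.Tactic.Group
import Cfsg.Agent.Lib.PGroups.NormalRankTwo

set_option autoImplicit false
set_option linter.unusedSectionVars false
open Cfsg

namespace Cfsg.Agent.S1337

open Subgroup

variable {P : Type*} [Group P] [Finite P]

theorem int_dvd_aux (n : ℕ) (u : ℤ) (h : (2:ℤ)^(n+1) ∣ (u-1)*(u+1)) :
    (2:ℤ)^n ∣ u - 1 ∨ (2:ℤ)^n ∣ u + 1 := by
  rcases Int.even_or_odd u with hev | hodd
  · -- if `u` is even, `(u-1)(u+1)` is odd
    have hc : IsCoprime (2:ℤ) ((u-1)*(u+1)) := by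
      obtain ⟨m, rfl⟩ := hev
      refine ⟨2 * m * m, -1, ?_⟩
      ring
    by_cases hn : n = 0
    · subst hn; simp
    · exfalso
      have h2 : (2:ℤ) ∣ (u-1)*(u+1) := Dvd.dvd.trans ⟨2^n, by ring⟩ h
      have := hc.isUnit_of_dvd' (dvd_refl 2) h2
      rw [Int.isUnit_iff] at this
      omega
  · obtain ⟨m, rfl⟩ := hodd
    have h1 : ((2:ℤ)^(n+1)) ∣ 2 * (2*m*(2*m+2)/2) := by
      have : (2 * m + 1 - 1) * (2 * m + 1 + 1) = 2 * (2*m*(m+1)) := by ring
      rw [this] at h
      have h3 : 2*m*(2*m+2)/2 = 2*m*(m+1) := by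
        have : 2*m*(2*m+2) = 2*(2*m*(m+1)) := by ring
        rw [this]; simp
      rw [h3]
      exact h
    have h2 : (2:ℤ)^n ∣ 2*m*(m+1) := by
      have : (2 * m + 1 - 1) * (2 * m + 1 + 1) = 2 * (2*m*(m+1)) := by ring
      rw [this, pow_succ', ] at h
      exact (mul_dvd_mul_iff_left (by norm_num : (2:ℤ) ≠ 0)).mp h
    rcases Int.even_or_odd m with hev | hodd
    · obtain ⟨j, rfl⟩ := hev
      left
      have hc : IsCoprime ((2:ℤ)^n) (j+j+1) := by
        refine IsCoprime.pow_left ?_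
        exact ⟨-j, 1, by ring⟩
      have h3 := hc.dvd_of_dvd_mul_right h2
      have : 2 * (j + j) + 1 - 1 = 2 * (j + j) := by ring
      rw [this]
      exact h3
    · obtain ⟨j, rfl⟩ := hodd
      right
      have hc : IsCoprime ((2:ℤ)^n) (2*j+1) := by
        refine IsCoprime.pow_left ?_
        exact ⟨-j, 1, by ring⟩
      have h3 : (2:ℤ)^n ∣ (2*(2*j+2))*(2*j+1) := by
        have : 2 * (2 * j + 1) * (2 * j + 1 + 1) = (2*(2*j+2))*(2*j+1) := by ring
        rw [this] at h2
        exact h2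
      have h4 := hc.dvd_of_dvd_mul_right h3
      have : 2 * (2 * j + 1) + 1 + 1 = 2 * (2 * j + 2) := by ring
      rw [this]
      exact h4


theorem exists_normal_E4 (hP : IsPGroup 2 P) (a : P) (hn : (zpowers a).Normal)
    (hc : centralizer (zpowers a : Set P) = zpowers a) (E : Subgroup P)
    (hE : IsMulCommutative E) (hE2 : ∀ e ∈ E, e ^ 2 = 1) (hcard : 4 < Nat.card E) :
    ∃ V : Subgroup P, V.Normal ∧ IsElementaryAbelian 2 V ∧ Nat.card V = 2 ^ 2 := by
  classical
  have : Fact (Nat.Prime 2) := ⟨Nat.prime_two⟩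
  -- Centralizer membership
  have hcent : ∀ w : P, w * a = a * w → ∃ k : ℤ, w = a ^ k := by
    intro w hw
    have : w ∈ centralizer (zpowers a : Set P) := by
      refine mem_centralizer_iff.mpr ?_
      intro h hh
      obtain ⟨k, rfl⟩ := mem_zpowers_iff.mp hh
      exact (Commute.zpow_left (Commute.symm (show Commute w a from hw)) k).eq
    rw [hc] at this
    obtain ⟨k, hk⟩ := mem_zpowers_iff.mp this
    exact ⟨k, hk.symm⟩
  -- the order of `a`
  have ha1 : a ≠ 1 := by
    rintro rfl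
    have htop : ∀ e : P, e = 1 := by
      intro e
      obtain ⟨k, hk⟩ := hcent e (by simp)
      rw [hk]; simp
    have : Nat.card E = 1 := by
      rw [Nat.card_eq_one_iff_unique]
      exact ⟨⟨fun x y => Subtype.ext (by rw [htop x, htop y])⟩, ⟨1⟩⟩
    omega
  obtain ⟨k₀, hk₀⟩ := (IsPGroup.iff_orderOf.mp hP) a
  obtain ⟨n, rfl⟩ : ∃ n, k₀ = n + 1 := by
    cases k₀ with
    | zero => simp at hk₀; exact absurd hk₀ ha1
    | succ n => exact ⟨n, rfl⟩
  set z := a ^ (2 ^ n) with hz
  have hz2 : z * z = 1 := by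
    rw [hz, ← pow_add, ← two_mul, ← pow_succ', ← hk₀, pow_orderOf_eq_one]
  have hz1 : z ≠ 1 := by
    refine pow_ne_one_of_lt_orderOf (by positivity) ?_
    rw [hk₀, pow_succ]
    have : 0 < 2 ^ n := by positivity
    omega
  have hzpow : ∀ j : ℤ, z ^ j = 1 ∨ z ^ j = z := by
    have hz3 : z ^ 2 = 1 := by rw [sq]; exact hz2
    intro j
    rcases Int.even_or_odd j with ⟨i, rfl⟩ | ⟨i, rfl⟩
    · left
      rw [← two_mul, zpow_mul]
      have : z ^ (2:ℤ) = 1 := by exact_mod_cast hz3
      rw [this, one_zpow]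
    · right
      rw [zpow_add, zpow_mul]
      have : z ^ (2:ℤ) = 1 := by exact_mod_cast hz3
      rw [this, one_zpow]
      simp
  -- the involutions of `⟨a⟩`
  have hΩ : ∀ k : ℤ, (a ^ k) * (a ^ k) = 1 → a ^ k = 1 ∨ a ^ k = z := by
    intro k hk
    have h1 : a ^ (k * 2) = 1 := by
      rw [mul_two, zpow_add]; exact hk
    have h2 : (orderOf a : ℤ) ∣ k * 2 := orderOf_dvd_iff_zpow_eq_one.mpr h1
    rw [hk₀] at h2
    have h3 : ((2:ℤ) ^ n) ∣ k := by
      have : ((2 ^ (n + 1) : ℕ) : ℤ) = (2:ℤ) ^ n * 2 := by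
        push_cast; ring
      rw [this] at h2
      exact (mul_dvd_mul_iff_right (by norm_num : (2:ℤ) ≠ 0)).mp h2
    obtain ⟨j, rfl⟩ := h3
    rw [zpow_mul]
    have : a ^ ((2:ℤ) ^ n) = z := by
      rw [hz]
      have : ((2:ℤ) ^ n) = ((2 ^ n : ℕ) : ℤ) := by push_cast; rfl
      rw [this, zpow_natCast]
    rw [this]
    exact hzpow j
  -- `z` is central
  have hzcen : ∀ g : P, g * z = z * g := by
    intro g
    have h1 : g * z * g⁻¹ ∈ zpowers a :=
      hn.conj_mem z (mem_zpowers_iff.mpr ⟨2 ^ n, by rw [hz]; norm_cast⟩) g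
    obtain ⟨k, hk⟩ := mem_zpowers_iff.mp h1
    have h2 : (a ^ k) * (a ^ k) = 1 := by
      rw [hk]
      calc g * z * g⁻¹ * (g * z * g⁻¹) = g * (z * z) * g⁻¹ := by group
        _ = 1 := by rw [hz2]; group
    rcases hΩ k h2 with h3 | h3
    · exfalso
      rw [hk] at h3
      apply hz1
      have := congrArg (fun t => g⁻¹ * t * g) h3
      simpa [mul_assoc] using this
    · rw [hk] at h3
      calc g * z = g * z * g⁻¹ * g := by group
        _ = z * g := by rw [h3]
  have hzz : a ^ ((2:ℤ) ^ n) = z := by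
    rw [hz]
    have : ((2:ℤ) ^ n) = ((2 ^ n : ℕ) : ℤ) := by push_cast; rfl
    rw [this, zpow_natCast]
  -- conjugation is a power map
  have hu : ∀ w : P, ∃ u : ℤ, w * a * w⁻¹ = a ^ u := by
    intro w
    obtain ⟨u, hu⟩ := mem_zpowers_iff.mp (hn.conj_mem a (mem_zpowers a) w)
    exact ⟨u, hu.symm⟩
  choose u hu using hu
  have hconj : ∀ (w : P) (k : ℤ), w * a ^ k * w⁻¹ = a ^ (u w * k) := by
    intro w k
    rw [← conj_zpow, hu, zpow_mul]
  -- every involution acts as `a ↦ a^(±1) z^i`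
  have htype : ∀ w : P, w * w = 1 → (w * a * w⁻¹ = a ∨ w * a * w⁻¹ = a * z) ∨
      (w * a * w⁻¹ = a⁻¹ ∨ w * a * w⁻¹ = a⁻¹ * z) := by
    intro w hw
    have hwi : w⁻¹ = w := inv_eq_of_mul_eq_one_right hw
    have h1 : a ^ (u w * u w) = a := by
      have := hconj w (u w)
      rw [← hu] at this
      rw [← this]
      calc w * (w * a * w⁻¹) * w⁻¹ = (w * w) * a * (w⁻¹ * w⁻¹) := by group
      _ = a := by rw [hwi, hw]; simp
    have h2 : a ^ ((u w - 1) * (u w + 1)) = 1 := by
      have : (u w - 1) * (u w + 1) = u w * u w - 1 := by ring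
      rw [this, zpow_sub, h1]; simp
    have h3 : (orderOf a : ℤ) ∣ ((u w - 1) * (u w + 1)) := orderOf_dvd_iff_zpow_eq_one.mpr h2
    rw [hk₀] at h3
    have h4 : (2:ℤ) ^ (n + 1) ∣ ((u w - 1) * (u w + 1)) := by exact_mod_cast h3
    rcases int_dvd_aux n _ h4 with ⟨j, hj⟩ | ⟨j, hj⟩
    · left
      have h5 : u w = 1 + 2 ^ n * j := by linarith
      rw [hu, h5, zpow_add, zpow_one, zpow_mul, hzz]
      rcases hzpow j with h | h <;> rw [h]
      · left; simp
      · right; rfl
    · right
      have h5 : u w = -1 + 2 ^ n * j := by linarith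
      rw [hu, h5, zpow_add, zpow_mul, hzz]
      rcases hzpow j with h | h <;> rw [h]
      · left; simp
      · right; simp
  -- choosing elements of `E`
  have hexists : ∀ (s : Finset P), s.card ≤ 4 → ∃ x ∈ E, x ∉ s := by
    intro s hs
    by_contra hcon
    push Not at hcon
    have h1 : ((E : Set P)) ⊆ (s : Set P) := fun x hx => by
      exact_mod_cast hcon x hx
    have h2 := Set.ncard_le_ncard h1 (Finset.finite_toSet s)
    rw [Set.ncard_coe_finset] at h2
    have h3 : Nat.card E = (E : Set P).ncard := (Nat.card_coe_set_eq _)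
    omega
  have hEinv : ∀ w ∈ E, w * w = 1 := by
    intro w hw
    have := hE2 w hw
    rwa [sq] at this
  have hEcomm : ∀ w ∈ E, ∀ v ∈ E, w * v = v * w := by
    intro w hw v hv
    exact congrArg Subtype.val (hE.is_comm.comm ⟨w, hw⟩ ⟨v, hv⟩)
  have hnotcomm : ∀ w ∈ E, w ≠ 1 → w ≠ z → w * a * w⁻¹ ≠ a := by
    intro w hw h1 h2 hcon
    have hwa : w * a = a * w := by
      calc w * a = w * a * w⁻¹ * w := by group
        _ = a * w := by rw [hcon]
    obtain ⟨k, hk⟩ := hcent w hwa
    have := hEinv w hw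
    rw [hk] at this
    rcases hΩ k this with h3 | h3
    · exact h1 (hk.trans h3)
    · exact h2 (hk.trans h3)
  obtain ⟨x, hxE, hxs⟩ := hexists {1, z} (by
    exact (Finset.card_le_two).trans (by norm_num))
  obtain ⟨y, hyE, hys⟩ := hexists {1, z, x, x * z} (Finset.card_le_four)
  simp only [Finset.mem_insert, Finset.mem_singleton, not_or] at hxs hys
  obtain ⟨hx1, hxz⟩ := hxs
  obtain ⟨hy1, hyz, hyx, hyxz⟩ := hys
  have hxi : x⁻¹ = x := inv_eq_of_mul_eq_one_right (hEinv x hxE)
  have hxyE : x * y ∈ E := E.mul_mem hxE hyE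
  have hxy1 : x * y ≠ 1 := by
    intro h
    apply hyx
    have := eq_inv_of_mul_eq_one_right h
    rw [hxi] at this
    exact this
  have hxyz : x * y ≠ z := by
    intro h
    apply hyxz
    have : y = x⁻¹ * z := by rw [← h]; group
    rw [hxi] at this
    exact this
  have hcx := hnotcomm x hxE hx1 hxz
  have hcy := hnotcomm y hyE hy1 hyz
  have hcxy := hnotcomm (x * y) hxyE hxy1 hxyz
  have hzi : z⁻¹ = z := inv_eq_of_mul_eq_one_right hz2
  have hazc : a * z = z * a := (hzcen a)
  have hprod : ∀ w v : P, (w * v) * a * (w * v)⁻¹ = w * (v * a * v⁻¹) * w⁻¹ := by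
    intro w v; group
  -- the conjugation of `a * z`, `a⁻¹`, `a⁻¹ * z`
  have hcz : ∀ w t : P, w * (t * z) * w⁻¹ = w * t * w⁻¹ * z := by
    intro w t
    calc w * (t * z) * w⁻¹ = w * t * (z * w⁻¹) := by group
      _ = w * t * (w⁻¹ * z) := by rw [hzcen w⁻¹]
      _ = w * t * w⁻¹ * z := by group
  have hci : ∀ w t : P, w * t⁻¹ * w⁻¹ = (w * t * w⁻¹)⁻¹ := by
    intro w t; group
  -- the main selection
  have hmain : ∃ e ∈ E, e ≠ 1 ∧ e ≠ z ∧ e * a * e⁻¹ = a * z ∧ a * a * (a * a) ≠ 1 := by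
    have hf : ∀ f ∈ E, f * a * f⁻¹ ≠ a → f * a * f⁻¹ ≠ a * z → a * a * (a * a) ≠ 1 := by
      intro f hfE h1 h2 h4
      have h5 : a ^ (2:ℤ) * a ^ (2:ℤ) = 1 := by
        rw [zpow_two]; exact h4
      have h6 : a * a = 1 ∨ a * a = z := by
        have := hΩ 2 h5
        rwa [zpow_two] at this
      have h7 : a⁻¹ = a ∨ a⁻¹ = a * z := by
        rcases h6 with h6 | h6
        · left
          exact inv_eq_of_mul_eq_one_right h6
        · right
          rw [← h6]
          apply inv_eq_of_mul_eq_one_right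
          simpa [mul_assoc] using h4
      rcases htype f (hEinv f hfE) with (h | h) | (h | h)
      · exact h1 h
      · exact h2 h
      · rcases h7 with h7 | h7 <;> rw [h7] at h
        · exact h1 h
        · exact h2 h
      · rcases h7 with h7 | h7 <;> rw [h7] at h
        · exact h2 h
        · apply h1
          rw [h, mul_assoc, hz2, mul_one]
    by_cases hTx : x * a * x⁻¹ = a * z
    · by_cases hTy : y * a * y⁻¹ = a * z
      · exfalso
        apply hcxy
        rw [hprod, hTy, hcz, hTx, mul_assoc, hz2, mul_one]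
      · exact ⟨x, hxE, hx1, hxz, hTx, hf y hyE hcy hTy⟩
    · by_cases hTy : y * a * y⁻¹ = a * z
      · exact ⟨y, hyE, hy1, hyz, hTy, hf x hxE hcx hTx⟩
      · refine ⟨x * y, hxyE, hxy1, hxyz, ?_, hf x hxE hcx hTx⟩
        have hx' : x * a * x⁻¹ = a⁻¹ ∨ x * a * x⁻¹ = a⁻¹ * z := by
          rcases htype x (hEinv x hxE) with (h | h) | h
          · exact absurd h hcx
          · exact absurd h hTx
          · exact h
        have hy' : y * a * y⁻¹ = a⁻¹ ∨ y * a * y⁻¹ = a⁻¹ * z := by
          rcases htype y (hEinv y hyE) with (h | h) | h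
          · exact absurd h hcy
          · exact absurd h hTy
          · exact h
        rcases hx' with hx' | hx' <;> rcases hy' with hy' | hy'
        · exfalso
          apply hcxy
          rw [hprod, hy', hci, hx', inv_inv]
        · rw [hprod, hy', hcz, hci, hx', inv_inv]
        · rw [hprod, hy', hci, hx', mul_inv_rev, hzi, inv_inv, hazc]
        · exfalso
          apply hcxy
          rw [hprod, hy', hcz, hci, hx', mul_inv_rev, hzi, inv_inv, ← hazc, mul_assoc, hz2, mul_one]
  obtain ⟨e, heE, he1, hez', heconj, ha4⟩ := hmain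
  have hee := hEinv e heE
  have hei : e⁻¹ = e := inv_eq_of_mul_eq_one_right hee
  have hzcc : z * e = e * z := (hzcen e).symm
  -- conjugates of `e`
  have hge : ∀ g : P, g * e * g⁻¹ = e ∨ g * e * g⁻¹ = e * z := by
    intro g
    set b := e⁻¹ * (g * e * g⁻¹) with hb
    have hba : b * a * b⁻¹ = a := by
      have h1 : b * a * b⁻¹ = e⁻¹ * (g * (e * (g⁻¹ * a * g⁻¹⁻¹) * e⁻¹) * g⁻¹) * e⁻¹⁻¹ := by
        rw [hb]; group
      have h2 : a ^ (u e⁻¹ * u e) = a := by
        have := hconj e⁻¹ (u e)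
        rw [← hu] at this
        rw [← this]
        group
      have h3 : a ^ (u g * u g⁻¹) = a := by
        have := hconj g (u g⁻¹)
        rw [← hu] at this
        rw [← this]
        group
      rw [h1, hu, hconj, hconj, hconj]
      have h4 : u e⁻¹ * (u g * (u e * u g⁻¹)) = (u e⁻¹ * u e) * (u g * u g⁻¹) := by ring
      rw [h4, zpow_mul, h2, h3]
    have hbc : b * a = a * b := by
      calc b * a = b * a * b⁻¹ * b := by group
        _ = a * b := by rw [hba]
    obtain ⟨k, hk⟩ := hcent b hbc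
    have hg : g * e * g⁻¹ = e * a ^ k := by
      rw [← hk, hb]; group
    have hsq : (e * a ^ k) * (e * a ^ k) = 1 := by
      rw [← hg]
      calc g * e * g⁻¹ * (g * e * g⁻¹) = g * (e * e) * g⁻¹ := by group
        _ = 1 := by rw [hee]; group
    have hak : e * a ^ k * e⁻¹ = a ^ k * z ^ k := by
      rw [← conj_zpow, heconj]
      exact (show Commute a z from hazc).mul_zpow k
    have h1 : a ^ k * z ^ k * a ^ k = 1 := by
      rw [← hak, hei]
      rw [← hsq]
      group
    have hzk : Commute (z ^ k) (a ^ k) := ((show Commute a z from hazc).symm.zpow_zpow k k)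
    have h2 : a ^ k * a ^ k * z ^ k = 1 := by
      rw [mul_assoc, ← hzk.eq, ← mul_assoc]; exact h1
    rcases Int.even_or_odd k with ⟨i, hi⟩ | ⟨i, hi⟩
    · have hz0 : z ^ k = 1 := by
        rw [hi, ← two_mul, zpow_mul]
        have : z ^ (2:ℤ) = 1 := by rw [zpow_two]; exact hz2
        rw [this, one_zpow]
      rw [hz0, mul_one] at h2
      rcases hΩ k h2 with h3 | h3
      · left; rw [hg, h3, mul_one]
      · right; rw [hg, h3]
    · exfalso
      have hz0 : z ^ k = z := by
        rw [hi, zpow_add, zpow_mul]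
        have : z ^ (2:ℤ) = 1 := by rw [zpow_two]; exact hz2
        rw [this, one_zpow]
        simp
      rw [hz0] at h2
      have h3 : a ^ k * a ^ k = z := by
        have := eq_inv_of_mul_eq_one_left h2
        rwa [hzi] at this
      have h4 : a ^ (4 * k) = 1 := by
        have : (4 * k) = k + k + (k + k) := by ring
        rw [this, zpow_add, zpow_add, h3, hz2]
      have h5 : (orderOf a : ℤ) ∣ 4 * k := orderOf_dvd_iff_zpow_eq_one.mpr h4
      have h6 : (orderOf a : ℤ) ∣ 4 := by
        rw [hk₀] at h5 ⊢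
        have hc : IsCoprime (((2 ^ (n + 1) : ℕ) : ℤ)) k := by
          push_cast
          refine IsCoprime.pow_left ?_
          rw [hi]
          exact ⟨-i, 1, by ring⟩
        exact hc.dvd_of_dvd_mul_right h5
      have h7 : a ^ (4:ℤ) = 1 := orderOf_dvd_iff_zpow_eq_one.mp h6
      apply ha4
      rw [← h7]
      have : (4:ℤ) = ((4:ℕ):ℤ) := rfl
      rw [this, zpow_natCast]
      simp [pow_succ, mul_assoc]
  have hez1 : e * z ≠ 1 := by
    intro h
    apply hez'
    have := eq_inv_of_mul_eq_one_left h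
    rwa [hzi] at this
  have hez2 : e * z ≠ e := by
    intro h
    exact hz1 (by simpa using h)
  have hez3 : e * z ≠ z := by
    intro h
    exact he1 (by simpa using h)
  let V : Subgroup P :=
    { carrier := {1, e, z, e * z}
      one_mem' := by simp
      inv_mem' := by
        rintro _ (rfl | rfl | rfl | rfl)
        · simp
        · simp [hei]
        · simp [hzi]
        · right; right; right
          simp only [mul_inv_rev, hei, hzi]
          rw [hzcc]
          rfl
      mul_mem' := by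
        have h1' : ∀ t, e * (e * t) = t := fun t => by rw [← mul_assoc, hee, one_mul]
        have h2' : ∀ t, z * (z * t) = t := fun t => by rw [← mul_assoc, hz2, one_mul]
        have h3' : ∀ t, z * (e * t) = e * (z * t) := fun t => by
          rw [← mul_assoc, hzcc, mul_assoc]
        rintro _ _ (rfl | rfl | rfl | rfl) (rfl | rfl | rfl | rfl) <;>
          simp only [Set.mem_insert_iff, Set.mem_singleton_iff, mul_assoc, mul_one, one_mul, hee,
            hz2, hzcc, h1', h3', true_or, or_true] }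
  have hV : ∀ w : P, w ∈ V ↔ w = 1 ∨ w = e ∨ w = z ∨ w = e * z := fun w => Iff.rfl
  refine ⟨V, ?_, ⟨⟨⟨?_⟩⟩, ?_⟩, ?_⟩
  · refine ⟨?_⟩
    intro w hw g
    have hgz : g * z * g⁻¹ = z := by rw [hzcen g]; group
    rw [hV] at hw ⊢
    rcases hw with rfl | rfl | rfl | rfl
    · left; group
    · rcases hge g with h | h
      · right; left; exact h
      · right; right; right; exact h
    · right; right; left; exact hgz
    · have : g * (e * z) * g⁻¹ = (g * e * g⁻¹) * (g * z * g⁻¹) := by group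
      rw [this, hgz]
      rcases hge g with h | h <;> rw [h]
      · right; right; right; rfl
      · right; left; rw [mul_assoc, hz2, mul_one]
  · rintro ⟨w, hw⟩ ⟨v, hv⟩
    apply Subtype.ext
    show w * v = v * w
    have h3' : ∀ t, z * (e * t) = e * (z * t) := fun t => by
      rw [← mul_assoc, hzcc, mul_assoc]
    rw [hV] at hw hv
    rcases hw with rfl | rfl | rfl | rfl <;> rcases hv with rfl | rfl | rfl | rfl <;>
      simp [mul_assoc, hzcc, h3']
  · intro w hw
    rw [sq]
    rw [hV] at hw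
    rcases hw with rfl | rfl | rfl | rfl
    · simp
    · exact hee
    · exact hz2
    · calc e * z * (e * z) = e * (z * e) * z := by group
        _ = (e * e) * (z * z) := by rw [hzcc]; group
        _ = 1 := by rw [hee, hz2]; simp
  · have h1 : Nat.card V = (V : Set P).ncard := (Nat.card_coe_set_eq _)
    have h2 : (V : Set P) = (({1, e, z, e * z} : Finset P) : Set P) := by
      ext w
      simp [hV]
    rw [h1, h2, Set.ncard_coe_finset]
    have c1 : z ∉ ({e * z} : Finset P) := by
      simp only [Finset.mem_singleton]; exact hez3.symm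
    have c2 : e ∉ ({z, e * z} : Finset P) := by
      simp only [Finset.mem_insert, Finset.mem_singleton, not_or]; exact ⟨hez', hez2.symm⟩
    have c3 : (1 : P) ∉ ({e, z, e * z} : Finset P) := by
      simp only [Finset.mem_insert, Finset.mem_singleton, not_or]
      exact ⟨he1.symm, hz1.symm, hez1.symm⟩
    rw [Finset.card_insert_of_notMem c3, Finset.card_insert_of_notMem c2,
      Finset.card_insert_of_notMem c1, Finset.card_singleton]
    norm_num


/-- A 2-group of 2-rank at least 3 has a normal four-subgroup. -/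
theorem exists_normal_E4' (hP : IsPGroup 2 P) (E : Subgroup P)
    (hE : IsMulCommutative E) (hE2 : ∀ e ∈ E, e ^ 2 = 1) (hcard : 4 < Nat.card E) :
    ∃ V : Subgroup P, V.Normal ∧ IsElementaryAbelian 2 V ∧ Nat.card V = 2 ^ 2 := by
  classical
  have : Fact (Nat.Prime 2) := ⟨Nat.prime_two⟩
  -- a maximal normal abelian subgroup
  let S : Set (Subgroup P) := {B | B.Normal ∧ IsMulCommutative B}
  have hSne : S.Nonempty := ⟨⊥, inferInstance, inferInstance⟩
  obtain ⟨A, hA⟩ := (Set.toFinite S).exists_maximal hSne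
  obtain ⟨hAn, hAc⟩ := hA.1
  have hcent : centralizer (A : Set P) = A := by
    refine Cfsg.Agent.Lib.PGroups.MaxAbelian.centralizer_eq_of_maximal hP A hAc ?_
    intro B hB hBc hAB
    exact le_antisymm (hA.2 ⟨hB, hBc⟩ hAB) hAB
  -- elements of order 2 of `A`
  let Ω : Subgroup P :=
    { carrier := {w | w ∈ A ∧ w ^ 2 = 1}
      one_mem' := ⟨A.one_mem, by simp⟩
      inv_mem' := fun {w} hw => ⟨A.inv_mem hw.1, by rw [inv_pow, hw.2, inv_one]⟩
      mul_mem' := fun {w v} hw hv => ⟨A.mul_mem hw.1 hv.1, by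
        have hc : w * v = v * w := congrArg Subtype.val (hAc.is_comm.comm ⟨w, hw.1⟩ ⟨v, hv.1⟩)
        have : Commute w v := hc
        rw [this.mul_pow, hw.2, hv.2, one_mul]⟩ }
  have hΩ : ∀ w : P, w ∈ Ω ↔ w ∈ A ∧ w ^ 2 = 1 := fun w => Iff.rfl
  have hΩn : Ω.Normal := by
    refine ⟨fun w hw g => ?_⟩
    rw [hΩ] at hw ⊢
    refine ⟨hAn.conj_mem w hw.1 g, ?_⟩
    rw [conj_pow, hw.2]; group
  by_cases h4 : 2 ^ 2 ∣ Nat.card Ω
  · obtain ⟨L, hLn, hLΩ, hL⟩ :=
      Cfsg.Agent.Lib.PGroups.NormalRankTwo.exists_normal_le_card_eq hP Ω 2 h4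
    refine ⟨L, hLn, ⟨IsPGroup.isMulCommutative_of_card_eq_prime_sq hL, ?_⟩, hL⟩
    intro w hw
    exact ((hΩ w).mp (hLΩ hw)).2
  -- `A` is cyclic
  have hcyc : IsCyclic A := by
    by_contra hnc
    have hAp : IsPGroup 2 A := hP.to_subgroup A
    obtain ⟨x, y, hx, hy, hyx⟩ :=
      Cfsg.Agent.Lib.PGroups.NormalRankTwo.exists_two_independent_of_comm hAp
        (fun w v => hAc.is_comm.comm w v) hnc
    apply h4
    have hxΩ : (x : P) ∈ Ω := by
      refine ⟨x.2, ?_⟩
      rw [← hx]
      have := pow_orderOf_eq_one x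
      exact_mod_cast congrArg Subtype.val this
    have hyΩ : (y : P) ∈ Ω := by
      refine ⟨y.2, ?_⟩
      exact_mod_cast congrArg Subtype.val hy
    obtain ⟨t, ht⟩ := IsPGroup.iff_card.mp (hP.to_subgroup Ω)
    rw [ht]
    apply pow_dvd_pow
    by_contra hlt
    have ht1 : t ≤ 1 := by omega
    have hle : Nat.card Ω ≤ 2 := by
      rw [ht]
      calc 2 ^ t ≤ 2 ^ 1 := Nat.pow_le_pow_right (by norm_num) ht1
        _ = 2 := by norm_num
    -- `1, x, y` are three elements of `Ω`
    have h3 : ({⟨1, Ω.one_mem⟩, ⟨x, hxΩ⟩, ⟨y, hyΩ⟩} : Finset Ω).card = 3 := by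
      have hx1 : (x : P) ≠ 1 := by
        intro h
        have : x = 1 := Subtype.ext h
        rw [this, orderOf_one] at hx
        omega
      have hy1 : (y : P) ≠ 1 := by
        intro h
        have : y = 1 := Subtype.ext h
        rw [this] at hyx
        exact hyx (one_mem _)
      have hyx' : (y : P) ≠ x := by
        intro h
        have : y = x := Subtype.ext h
        rw [this] at hyx
        exact hyx (mem_zpowers x)
      rw [Finset.card_insert_of_notMem, Finset.card_insert_of_notMem, Finset.card_singleton]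
      · simp only [Finset.mem_singleton, Subtype.mk.injEq]
        exact hyx'.symm
      · simp only [Finset.mem_insert, Finset.mem_singleton, Subtype.mk.injEq, not_or]
        exact ⟨hx1.symm, hy1.symm⟩
    have : Fintype Ω := Fintype.ofFinite Ω
    have h5 := Finset.card_le_univ ({⟨1, Ω.one_mem⟩, ⟨x, hxΩ⟩, ⟨y, hyΩ⟩} : Finset Ω)
    rw [h3, ← Nat.card_eq_fintype_card] at h5
    omega
  obtain ⟨g, hg⟩ := hcyc.exists_generator
  have hAz : A = zpowers (g : P) := by
    apply le_antisymm
    · intro w hw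
      obtain ⟨k, hk⟩ := mem_zpowers_iff.mp (hg ⟨w, hw⟩)
      refine mem_zpowers_iff.mpr ⟨k, ?_⟩
      have := congrArg Subtype.val hk
      simpa using this
    · exact zpowers_le.mpr g.2
  rw [hAz] at hcent hAn
  exact exists_normal_E4 hP g hAn hcent E hE hE2 hcard


/-- Two commuting elementary abelian subgroups lie in a common elementary abelian subgroup
centralizing the first. -/
theorem exists_join {p : ℕ} (A B : Subgroup P) (hA : IsElementaryAbelian p A)
    (hB : IsElementaryAbelian p B) (hcomm : ∀ a ∈ A, ∀ b ∈ B, a * b = b * a) :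
    ∃ T : Subgroup P, A ≤ T ∧ B ≤ T ∧ IsElementaryAbelian p T ∧
      T ≤ centralizer (A : Set P) := by
  have hAc : ∀ a ∈ A, ∀ b ∈ A, a * b = b * a := fun a ha b hb =>
    congrArg Subtype.val (hA.1.is_comm.comm ⟨a, ha⟩ ⟨b, hb⟩)
  have hBc : ∀ a ∈ B, ∀ b ∈ B, a * b = b * a := fun a ha b hb =>
    congrArg Subtype.val (hB.1.is_comm.comm ⟨a, ha⟩ ⟨b, hb⟩)
  let T : Subgroup P :=
    { carrier := {x | ∃ a ∈ A, ∃ b ∈ B, x = a * b}
      one_mem' := ⟨1, A.one_mem, 1, B.one_mem, by simp⟩
      inv_mem' := by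
        rintro _ ⟨a, ha, b, hb, rfl⟩
        refine ⟨a⁻¹, A.inv_mem ha, b⁻¹, B.inv_mem hb, ?_⟩
        rw [mul_inv_rev]
        exact (hcomm a⁻¹ (A.inv_mem ha) b⁻¹ (B.inv_mem hb)).symm
      mul_mem' := by
        rintro _ _ ⟨a, ha, b, hb, rfl⟩ ⟨c, hc, d, hd, rfl⟩
        refine ⟨a * c, A.mul_mem ha hc, b * d, B.mul_mem hb hd, ?_⟩
        calc a * b * (c * d) = a * (b * c) * d := by group
          _ = a * (c * b) * d := by rw [hcomm c hc b hb]
          _ = a * c * (b * d) := by group }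
  have hT : ∀ x, x ∈ T ↔ ∃ a ∈ A, ∃ b ∈ B, x = a * b := fun x => Iff.rfl
  have hTc : ∀ x ∈ T, ∀ y ∈ T, x * y = y * x := by
    rintro _ ⟨a, ha, b, hb, rfl⟩ _ ⟨c, hc, d, hd, rfl⟩
    calc a * b * (c * d) = a * (b * c) * d := by group
      _ = a * (c * b) * d := by rw [hcomm c hc b hb]
      _ = (a * c) * (b * d) := by group
      _ = (c * a) * (d * b) := by rw [hAc a ha c hc, hBc b hb d hd]
      _ = c * (a * d) * b := by group
      _ = c * (d * a) * b := by rw [hcomm a ha d hd]
      _ = c * d * (a * b) := by group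
  refine ⟨T, fun a ha => ⟨a, ha, 1, B.one_mem, by simp⟩, fun b hb => ⟨1, A.one_mem, b, hb, by simp⟩,
    ⟨⟨⟨fun x y => Subtype.ext (hTc x x.2 y y.2)⟩⟩, ?_⟩, ?_⟩
  · rintro _ ⟨a, ha, b, hb, rfl⟩
    have hc : Commute a b := hcomm a ha b hb
    rw [hc.mul_pow, hA.2 a ha, hB.2 b hb, one_mul]
  · intro x hx
    refine mem_centralizer_iff.mpr ?_
    intro a ha
    exact hTc a ⟨a, ha, 1, B.one_mem, by simp⟩ x hx

theorem rank_iff {p : ℕ} (X : Subgroup P) :
    ¬ Cfsg.PRankLE p 2 ↥(centralizer (X : Set P)) ↔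
      ∃ F : Subgroup P, F ≤ centralizer (X : Set P) ∧ IsElementaryAbelian p F ∧
        p ^ 2 < Nat.card F := by
  unfold PRankLE
  push Not
  constructor
  · rintro ⟨A, hAc, hAe, hAcard⟩
    refine ⟨A.map (centralizer (X : Set P)).subtype, ?_, ⟨⟨⟨?_⟩⟩, ?_⟩, ?_⟩
    · rintro _ ⟨a, _, rfl⟩
      exact a.2
    · rintro ⟨_, a, ha, rfl⟩ ⟨_, b, hb, rfl⟩
      apply Subtype.ext
      have := congrArg (fun t : A => ((t : ↥(centralizer (X : Set P))) : P))
        (hAc.is_comm.comm ⟨a, ha⟩ ⟨b, hb⟩)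
      exact this
    · rintro _ ⟨a, ha, rfl⟩
      have := congrArg Subtype.val (hAe a ha)
      exact this
    · rw [Subgroup.card_map_of_injective (subtype_injective _)]
      exact hAcard
  · rintro ⟨F, hFC, hFe, hFcard⟩
    refine ⟨F.subgroupOf _, ⟨⟨?_⟩⟩, ?_, ?_⟩
    · rintro ⟨a, ha⟩ ⟨b, hb⟩
      apply Subtype.ext
      apply Subtype.ext
      have := congrArg Subtype.val (hFe.1.is_comm.comm ⟨a.1, mem_subgroupOf.mp ha⟩ ⟨b.1, mem_subgroupOf.mp hb⟩)
      exact this
    · intro a ha
      apply Subtype.ext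
      exact hFe.2 a.1 (mem_subgroupOf.mp ha)
    · rw [Nat.card_congr (Subgroup.subgroupOfEquivOfLe hFC).toEquiv]
      exact hFcard

/-- Let P be a finite p-group of p-rank greater than 2. Then P has a normal elementary abelian subgroup U of order p², and for every elementary abelian X ≤ P with |X| ≥ p²: X is joined to U by a chain of pairwise commuting elementary abelian subgroups of order ≥ p² if and only if C_P(X) has p-rank greater than 2. -/
theorem result {P : Type*} [Group P] [Finite P] (p : ℕ) [Fact p.Prime] (hP : IsPGroup p P) (hrk : ¬ Cfsg.PRankLE p 2 P) : ∃ U : Subgroup P, U.Normal ∧ Cfsg.IsElementaryAbelian p U ∧ Nat.card ↥U = p ^ 2 ∧ ∀ X : Subgroup P, Cfsg.IsElementaryAbelian p X → p ^ 2 ≤ Nat.card ↥X → (Relation.ReflTransGen (fun A B : Subgroup P => Cfsg.IsElementaryAbelian p A ∧ p ^ 2 ≤ Nat.card ↥A ∧ Cfsg.IsElementaryAbelian p B ∧ p ^ 2 ≤ Nat.card ↥B ∧ ∀ a ∈ A, ∀ b ∈ B, a * b = b * a) X U ↔ ¬ Cfsg.PRankLE p 2 ↥(Subgroup.centralizer (X : Set P))) := by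
  classical
  have hpp : p.Prime := Fact.out
  obtain ⟨E, hEc, hEe, hEcard⟩ : ∃ E : Subgroup P, IsMulCommutative E ∧ (∀ a ∈ E, a ^ p = 1) ∧
      p ^ 2 < Nat.card E := by
    unfold PRankLE at hrk
    push Not at hrk
    exact hrk
  obtain ⟨U, hUn, hUe, hUcard⟩ : ∃ U : Subgroup P, U.Normal ∧ IsElementaryAbelian p U ∧
      Nat.card U = p ^ 2 := by
    by_cases hp2 : p = 2
    · subst hp2
      exact exists_normal_E4' hP E hEc hEe (by simpa using hEcard)
    · refine Cfsg.Agent.Lib.PGroups.NormalRankTwo.exists_normal_elementaryAbelian_sq hp2 hP ?_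
      intro hcyc
      have := Fintype.ofFinite P
      have h1 : (Finset.univ.filter (fun a : P => a ^ p = 1)).card ≤ p :=
        IsCyclic.card_pow_eq_one_le hpp.pos
      have h2 : Nat.card E ≤ (Finset.univ.filter (fun a : P => a ^ p = 1)).card := by
        have h4 : Nat.card E = (Finset.univ.filter (fun a : P => a ∈ E)).card := by
          rw [Nat.card_eq_fintype_card]
          exact Fintype.card_subtype _
        rw [h4]
        exact Finset.card_le_card (by
          intro a ha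
          simp only [Finset.mem_filter, Finset.mem_univ, true_and] at ha ⊢
          exact hEe a ha)
      have h3 : p ≤ p ^ 2 := Nat.le_self_pow (by norm_num) p
      omega
  refine ⟨U, hUn, hUe, hUcard, ?_⟩
  -- the centralizer of `U` has index at most `p`
  have hidx : (centralizer (U : Set P)).index ≤ p := by
    have := Cfsg.Agent.Lib.PGroups.MaxAbelian.index_centralizer_le hP 2 U hUe.1 hUcard
    simpa using this
  -- large elementary abelian groups meet `C(U)` in a subgroup of order at least `p^2`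
  have hbig : ∀ F : Subgroup P, IsElementaryAbelian p F → p ^ 2 < Nat.card F →
      p ^ 2 ≤ Nat.card ↥(F ⊓ centralizer (U : Set P)) := by
    intro F hFe hFcard
    have hrel : (F ⊓ centralizer (U : Set P)).relIndex F ≤ p := by
      rw [inf_relIndex_left]
      refine le_trans (Nat.le_of_dvd ?_ (relIndex_dvd_index_of_normal _ _)) hidx
      exact Nat.pos_of_ne_zero index_ne_zero_of_finite
    have h1 := Cfsg.Agent.Lib.PGroups.MaxAbelian.relIndex_mul_card
      (inf_le_left : F ⊓ centralizer (U : Set P) ≤ F)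
    obtain ⟨s, hs⟩ := IsPGroup.iff_card.mp (hP.to_subgroup (F ⊓ centralizer (U : Set P)))
    rw [hs] at h1 ⊢
    apply Nat.pow_le_pow_right hpp.pos
    by_contra hlt
    have hs1 : s ≤ 1 := by omega
    have h2 : p ^ s ≤ p ^ 1 := Nat.pow_le_pow_right hpp.pos hs1
    have h3 : Nat.card F ≤ p * p := by
      rw [← h1]
      exact Nat.mul_le_mul hrel (by simpa using h2)
    rw [sq] at hFcard
    omega
  have hsub : ∀ F : Subgroup P, ∀ G : Subgroup P, G ≤ F → IsElementaryAbelian p F →
      IsElementaryAbelian p G := by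
    intro F G hGF hF
    refine ⟨⟨⟨fun x y => Subtype.ext ?_⟩⟩, fun a ha => hF.2 a (hGF ha)⟩
    have := congrArg Subtype.val (hF.1.is_comm.comm ⟨x, hGF x.2⟩ ⟨y, hGF y.2⟩)
    exact this
  -- the step of the chain
  have hstep : ∀ A B : Subgroup P, IsElementaryAbelian p A → p ^ 2 ≤ Nat.card A →
      IsElementaryAbelian p B → p ^ 2 ≤ Nat.card B → (∀ a ∈ A, ∀ b ∈ B, a * b = b * a) →
      (∃ F : Subgroup P, F ≤ centralizer (B : Set P) ∧ IsElementaryAbelian p F ∧
        p ^ 2 < Nat.card F) →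
      (∃ F : Subgroup P, F ≤ centralizer (A : Set P) ∧ IsElementaryAbelian p F ∧
        p ^ 2 < Nat.card F) := by
    intro A B hA hAc hB hBc hcomm hQ
    by_cases hAB : A = B
    · rw [hAB]; exact hQ
    obtain ⟨T, hAT, hBT, hTe, hTC⟩ := exists_join A B hA hB hcomm
    refine ⟨T, hTC, hTe, ?_⟩
    by_contra hle
    push Not at hle
    have h1 : A = T := eq_of_le_of_card_ge hAT (hle.trans hAc)
    have h2 : B = T := eq_of_le_of_card_ge hBT (hle.trans hBc)
    exact hAB (h1.trans h2.symm)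
  have hbase : ∃ F : Subgroup P, F ≤ centralizer (U : Set P) ∧ IsElementaryAbelian p F ∧
      p ^ 2 < Nat.card F := by
    set F₀ := E ⊓ centralizer (U : Set P) with hF₀
    have hF₀e : IsElementaryAbelian p F₀ := hsub E F₀ inf_le_left ⟨hEc, hEe⟩
    have hF₀c := hbig E ⟨hEc, hEe⟩ hEcard
    refine hstep U F₀ hUe hUcard.ge hF₀e hF₀c ?_ ⟨E, ?_, ⟨hEc, hEe⟩, hEcard⟩
    · intro a ha b hb
      exact ((mem_centralizer_iff.mp (mem_inf.mp hb).2) a ha)
    · intro e he
      refine mem_centralizer_iff.mpr ?_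
      intro b hb
      exact congrArg Subtype.val (hEc.is_comm.comm ⟨b, (mem_inf.mp hb).1⟩ ⟨e, he⟩)
  intro X hXe hXcard
  rw [rank_iff]
  constructor
  · intro h
    induction h using Relation.ReflTransGen.head_induction_on with
    | refl => exact hbase
    | head hac _ ih =>
      obtain ⟨h1, h2, h3, h4, h5⟩ := hac
      exact hstep _ _ h1 h2 h3 h4 h5 (ih h3 h4)
  · rintro ⟨F, hFC, hFe, hFcard⟩
    set F₀ := F ⊓ centralizer (U : Set P) with hF₀
    have hF₀e : IsElementaryAbelian p F₀ := hsub F F₀ inf_le_left hFe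
    have hF₀c := hbig F hFe hFcard
    refine Relation.ReflTransGen.head (b := F) ?_ (Relation.ReflTransGen.head (b := F₀) ?_
      (Relation.ReflTransGen.single ?_))
    · exact ⟨hXe, hXcard, hFe, hFcard.le, fun a ha b hb =>
        (mem_centralizer_iff.mp (hFC hb) a ha)⟩
    · refine ⟨hFe, hFcard.le, hF₀e, hF₀c, fun a ha b hb => ?_⟩
      exact congrArg Subtype.val (hFe.1.is_comm.comm ⟨a, ha⟩ ⟨b, (mem_inf.mp hb).1⟩)
    · refine ⟨hF₀e, hF₀c, hUe, hUcard.ge, fun a ha b hb => ?_⟩
      exact ((mem_centralizer_iff.mp (mem_inf.mp ha).2) b hb).symm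

end Cfsg.Agent.S1337
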