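import Cfsg.Statements.S1338
import Mathlib.Tactic.Group
import Cfsg.Agent.Lib.PGroups.NormalRankTwo

set_option autoImplicit false
set_option linter.unusedSectionVars false
open Cfsg

namespace Cfsg.Agent.S1338

open Subgroup
open scoped commutatorElement
open Cfsg.Agent.Lib.PGroups.MaxAbelian Cfsg.Agent.Lib.PGroups.NormalRankTwo
open Cfsg.Agent.Lib.PGroups.Basic Cfsg.Agent.Lib.PGroups.ClassTwo Cfsg.Agent.Lib.PGroups.Special

variable {P : Type*} [Group P]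

instance factThree : Fact (Nat.Prime 3) := ⟨Nat.prime_three⟩

theorem comm_mul_right_eq (v w w' : P) : ⁅v, w * w'⁆ = ⁅v, w⁆ * (w * ⁅v, w'⁆ * w⁻¹) := by
  simp only [commutatorElement_def]; group

/-- The map `w ↦ ⁅v, w⁆` as a homomorphism. -/
def cHom (v : P) (W : Subgroup P) (hc : ∀ w ∈ W, ∀ w' ∈ W, ⁅v, w'⁆ * w = w * ⁅v, w'⁆) : W →* P where
  toFun w := ⁅v, (w : P)⁆
  map_one' := by simp
  map_mul' := by
    rintro ⟨a, ha⟩ ⟨b, hb⟩
    show ⁅v, a * b⁆ = ⁅v, a⁆ * ⁅v, b⁆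
    rw [comm_mul_right_eq, ← hc a ha b hb]; group

theorem mem_cent_singleton {v x : P} : x ∈ centralizer ({v} : Set P) ↔ v * x = x * v := by
  rw [mem_centralizer_iff]; simp

theorem card_eq_mul_range [Finite P] (v : P) (W : Subgroup P)
    (hc : ∀ w ∈ W, ∀ w' ∈ W, ⁅v, w'⁆ * w = w * ⁅v, w'⁆) :
    Nat.card W = Nat.card ↥(W ⊓ centralizer ({v} : Set P)) * Nat.card (cHom v W hc).range := by
  have h1 : Nat.card W = Nat.card (cHom v W hc).ker * Nat.card (cHom v W hc).range := by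
    rw [← Subgroup.index_ker, Subgroup.card_mul_index]
  have h2 : Nat.card (cHom v W hc).ker = Nat.card ↥(W ⊓ centralizer ({v} : Set P)) := by
    apply Nat.card_congr
    refine ⟨fun x => ⟨x.1.1, x.1.2, ?_⟩, fun x => ⟨⟨x.1, x.2.1⟩, ?_⟩, ?_, ?_⟩
    · have := x.2
      rw [MonoidHom.mem_ker] at this
      refine mem_cent_singleton.mpr ?_
      exact commutatorElement_eq_one_iff_mul_comm.mp this
    · rw [MonoidHom.mem_ker]
      exact commutatorElement_eq_one_iff_mul_comm.mpr (mem_cent_singleton.mp x.2.2)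
    · intro x; rfl
    · intro x; rfl
  rw [h1, h2]

/-- A subgroup strictly between `D` and `V`, `|V : D| = 3`, is `V`. -/
theorem eq_of_between [Finite P] (D S V : Subgroup P) (hDS : D ≤ S) (hSV : S ≤ V)
    (hV : Nat.card V = 3 * Nat.card D) (s : P) (hs : s ∈ S) (hsD : s ∉ D) : S = V := by
  obtain ⟨a, ha⟩ := card_dvd_of_le hDS
  obtain ⟨b, hb⟩ := card_dvd_of_le hSV
  have hDpos : 0 < Nat.card D := Nat.card_pos
  have h1 : a * b = 3 := by
    have : Nat.card D * (a * b) = Nat.card D * 3 := by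
      rw [← mul_assoc, ← ha, ← hb, hV, mul_comm]
    exact Nat.eq_of_mul_eq_mul_left hDpos this
  have h2 : a = 1 ∨ a = 3 := by
    have : a ∣ 3 := ⟨b, h1.symm⟩
    exact (Nat.dvd_prime Nat.prime_three).mp this
  rcases h2 with rfl | rfl
  · exfalso
    apply hsD
    have : D = S := eq_of_le_of_card_ge hDS (by omega)
    rwa [this]
  · apply eq_of_le_of_card_ge hSV
    rw [hV, ha]; ring_nf; omega

/-- An element commuting with `D` and with some `v ∈ V \ D`, centralizes `V`. -/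
theorem mem_cent_of_gen [Finite P] (D V : Subgroup P) (hDV : D ≤ V)
    (hV : Nat.card V = 3 * Nat.card D) (v : P) (hv : v ∈ V) (hvD : v ∉ D) (x : P)
    (hxD : ∀ d ∈ D, d * x = x * d) (hxv : v * x = x * v) : x ∈ centralizer (V : Set P) := by
  have h : V ⊓ centralizer ({x} : Set P) = V := by
    apply eq_of_between D _ V _ inf_le_left hV v ⟨hv, ?_⟩ hvD
    · intro d hd
      refine ⟨hDV hd, ?_⟩
      refine mem_cent_singleton.mpr ?_
      exact (hxD d hd).symm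
    · refine mem_cent_singleton.mpr ?_; exact hxv.symm
  rw [mem_centralizer_iff]
  intro y hy
  have : y ∈ V ⊓ centralizer ({x} : Set P) := by rw [h]; exact hy
  exact (mem_cent_singleton.mp this.2).symm

theorem comm_of_isMulComm {A : Subgroup P} (hA : IsMulCommutative A) {a b : P} (ha : a ∈ A)
    (hb : b ∈ A) : a * b = b * a :=
  congrArg Subtype.val (hA.is_comm.comm ⟨a, ha⟩ ⟨b, hb⟩)

/-- Lemma B. -/
theorem card_le_nine_mul [Finite P] (hP : IsPGroup 3 P) (V : Subgroup P) [V.Normal]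
    (hVc : IsMulCommutative V) (hV : Nat.card V = 27) (E : Subgroup P) (hE : IsMulCommutative E) :
    Nat.card E ≤ 9 * Nat.card ↥(E ⊓ centralizer (V : Set P)) := by
  obtain ⟨Z, hZn, hZV, hZc⟩ := exists_normal_le_card_eq hP V 2 (by rw [hV]; norm_num)
  have hZab : IsMulCommutative Z := ⟨⟨fun a b => Subtype.ext (comm_of_isMulComm hVc (hZV a.2) (hZV b.2))⟩⟩
  have hCi : (centralizer (Z : Set P)).index ≤ 3 := by
    simpa using index_centralizer_le hP 2 Z hZab hZc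
  have hZlt : Z < V := by
    refine lt_of_le_of_ne hZV ?_
    rintro rfl
    omega
  obtain ⟨v, hv, hvZ⟩ := SetLike.exists_of_lt hZlt
  have hi : Z.relIndex V = 3 := by
    have := relIndex_mul_card hZV
    rw [hV, hZc] at this
    omega
  have hvy : ∀ y, ⁅v, y⁆ ∈ Z := fun y => comm_mem_of_relIndex_eq hP hi hv y
  have hVZ : Nat.card V = 3 * Nat.card Z := by rw [hV, hZc]; norm_num
  set C := centralizer (Z : Set P) with hC
  set E₁ := E ⊓ C with hE₁
  have hcZ : ∀ c ∈ C, ∀ z ∈ Z, z * c = c * z := fun c hc z hz => mem_centralizer_iff.mp hc z hz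
  have hc : ∀ w ∈ E₁, ∀ w' ∈ E₁, ⁅v, w'⁆ * w = w * ⁅v, w'⁆ := fun w hw w' _ =>
    hcZ w hw.2 _ (hvy _)
  have hcard := card_eq_mul_range v E₁ hc
  have hker : Nat.card ↥(E₁ ⊓ centralizer ({v} : Set P)) ≤ Nat.card ↥(E ⊓ centralizer (V : Set P)) := by
    apply card_le_of_le
    rintro x ⟨⟨hxE, hxC⟩, hxv⟩
    refine ⟨hxE, ?_⟩
    exact mem_cent_of_gen Z V hZV hVZ v hv hvZ x (hcZ x hxC) (mem_cent_singleton.mp hxv)
  have hrange : (cHom v E₁ hc).range ≤ Z := by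
    rintro _ ⟨w, rfl⟩
    exact hvy _
  by_cases hEC : E ≤ C
  · have hE₁E : E₁ = E := by rw [hE₁]; exact inf_eq_left.mpr hEC
    have hr : Nat.card (cHom v E₁ hc).range ≤ 9 := by
      have := card_le_of_le hrange
      omega
    have : Nat.card E = Nat.card E₁ := by rw [hE₁E]
    rw [this, hcard, mul_comm]
    exact Nat.mul_le_mul hr hker
  · obtain ⟨e₀, he₀, he₀C⟩ := SetLike.not_le_iff_exists.mp hEC
    have hrT : (cHom v E₁ hc).range ≤ Z ⊓ centralizer ({e₀} : Set P) := by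
      rintro _ ⟨⟨e, heE, heC⟩, rfl⟩
      refine ⟨hvy _, ?_⟩
      refine mem_cent_singleton.mpr ?_
      show e₀ * ⁅v, e⁆ = ⁅v, e⁆ * e₀
      have he₀e : e₀ * e = e * e₀ := comm_of_isMulComm hE he₀ heE
      have hz : ⁅e₀, v⁆ ∈ Z := by
        have : ⁅e₀, v⁆ = ⁅v, e₀⁆⁻¹ := (commutatorElement_inv v e₀).symm
        rw [this]
        exact Z.inv_mem (hvy _)
      have hu : ⁅v, e⁆ ∈ Z := hvy _
      set z := ⁅e₀, v⁆ with hzdef
      set u := ⁅v, e⁆ with hudef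
      have h1 : e₀ * v = z * v * e₀ := by rw [hzdef, commutatorElement_def]; group
      have h2 : v * e = u * e * v := by rw [hudef, commutatorElement_def]; group
      have h3 : z * e = e * z := hcZ e heC z hz
      have h4 : z * u = u * z := comm_of_isMulComm hZab hz hu
      have h5 : e₀ * (v * e) = (z * u * e) * (v * e₀) := by
        calc e₀ * (v * e) = (e₀ * v) * e := by group
          _ = z * v * e₀ * e := by rw [h1]
          _ = z * (v * (e₀ * e)) := by group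
          _ = z * (v * (e * e₀)) := by rw [he₀e]
          _ = z * ((v * e) * e₀) := by group
          _ = z * (u * e * v * e₀) := by rw [h2]
          _ = (z * u * e) * (v * e₀) := by group
      have h6 : (v * e) * e₀ = (u * e) * (v * e₀) := by rw [h2]; group
      -- `u = v e v⁻¹ e⁻¹`, i.e. `u * (e * v) = v * e`
      have h7 : u * (e * v) = v * e := by rw [h2]; group
      have h8 : e₀ * (e * v) = (e * z) * (v * e₀) := by
        calc e₀ * (e * v) = (e₀ * e) * v := by group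
          _ = (e * e₀) * v := by rw [he₀e]
          _ = e * (e₀ * v) := by group
          _ = e * (z * v * e₀) := by rw [h1]
          _ = (e * z) * (v * e₀) := by group
      have h9 : (e₀ * u) * (e * v) = (u * e₀) * (e * v) := by
        calc (e₀ * u) * (e * v) = e₀ * (u * (e * v)) := by group
          _ = e₀ * (v * e) := by rw [h7]
          _ = (z * u * e) * (v * e₀) := h5
          _ = (u * z * e) * (v * e₀) := by rw [h4]
          _ = (u * (z * e)) * (v * e₀) := by group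
          _ = (u * (e * z)) * (v * e₀) := by rw [h3]
          _ = u * ((e * z) * (v * e₀)) := by group
          _ = u * (e₀ * (e * v)) := by rw [h8]
          _ = (u * e₀) * (e * v) := by group
      exact mul_right_cancel h9
    have hTne : Z ⊓ centralizer ({e₀} : Set P) ≠ Z := by
      intro h
      apply he₀C
      rw [hC, mem_centralizer_iff]
      intro z hz
      have : z ∈ Z ⊓ centralizer ({e₀} : Set P) := by rw [h]; exact hz
      exact (mem_cent_singleton.mp this.2).symm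
    have hTcard : Nat.card ↥(Z ⊓ centralizer ({e₀} : Set P)) ≤ 3 := by
      have h1 := card_dvd_of_le (inf_le_left : Z ⊓ centralizer ({e₀} : Set P) ≤ Z)
      rw [hZc] at h1
      obtain ⟨k, hk, h2⟩ := (Nat.dvd_prime_pow Nat.prime_three).mp h1
      have hk2 : k ≠ 2 := by
        rintro rfl
        exact hTne (eq_of_le_of_card_ge inf_le_left (by rw [hZc, h2]))
      have : k ≤ 1 := by omega
      rw [h2]
      calc 3 ^ k ≤ 3 ^ 1 := Nat.pow_le_pow_right (by norm_num) this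
        _ = 3 := by norm_num
    have hr : Nat.card (cHom v E₁ hc).range ≤ 3 := (card_le_of_le hrT).trans hTcard
    have hEi : Nat.card E ≤ 3 * Nat.card E₁ := by
      have h1 : C.relIndex E * Nat.card ↥(C ⊓ E) = Nat.card E := by
        rw [← inf_relIndex_right]
        exact relIndex_mul_card inf_le_right
      have h2 : C.relIndex E ≤ C.index := by
        have hCn : C.Normal := inferInstance
        exact Nat.le_of_dvd (Nat.pos_of_ne_zero index_ne_zero_of_finite) (relIndex_dvd_index_of_normal C E)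
      have h3 : Nat.card ↥(C ⊓ E) = Nat.card E₁ := by rw [hE₁, inf_comm]
      rw [← h1, h3]
      exact Nat.mul_le_mul_right _ (h2.trans hCi)
    calc Nat.card E ≤ 3 * Nat.card E₁ := hEi
      _ = 3 * (Nat.card ↥(E₁ ⊓ centralizer ({v} : Set P)) * Nat.card (cHom v E₁ hc).range) := by rw [← hcard]
      _ ≤ 3 * (Nat.card ↥(E ⊓ centralizer (V : Set P)) * 3) := by gcongr
      _ = 9 * Nat.card ↥(E ⊓ centralizer (V : Set P)) := by ring

/-- The configuration of `V`. -/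
structure VConf (V : Subgroup P) : Prop where
  normal : V.Normal
  comm : IsMulCommutative V
  exp : ∀ v ∈ V, v ^ 3 = 1
  card : Nat.card V = 27
  omega : ∀ c, c ∈ centralizer (V : Set P) → c ^ 3 = 1 → c ∈ V

/-- The configuration of `W` relative to `V`. -/
structure WConf (V W : Subgroup P) : Prop where
  comm : IsMulCommutative W
  exp : ∀ w ∈ W, w ^ 3 = 1
  card : Nat.card W = 81
  nor : ∀ v ∈ V, ∀ w ∈ W, v * w * v⁻¹ ∈ W

theorem inter_card [Finite P] (hP : IsPGroup 3 P) {V W : Subgroup P} (hV : VConf V)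
    (hWc : IsMulCommutative W) (hWe : ∀ w ∈ W, w ^ 3 = 1) (hWcard : Nat.card W = 81) :
    Nat.card ↥(W ⊓ V) = 9 := by
  have := hV.normal
  have h1 := card_le_nine_mul hP V hV.comm hV.card W hWc
  have hle : W ⊓ centralizer (V : Set P) ≤ W ⊓ V := fun x hx => ⟨hx.1, hV.omega x hx.2 (hWe x hx.1)⟩
  have h2 := card_le_of_le hle
  rw [hWcard] at h1
  have h3 : 9 ≤ Nat.card ↥(W ⊓ V) := by omega
  have h4 := card_dvd_of_le (inf_le_right : W ⊓ V ≤ V)
  rw [hV.card] at h4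
  obtain ⟨k, hk, h5⟩ := (Nat.dvd_prime_pow Nat.prime_three).mp (show _ ∣ 3 ^ 3 from h4)
  interval_cases k
  · rw [h5] at h3; norm_num at h3
  · rw [h5] at h3; norm_num at h3
  · rw [h5]; norm_num
  · exfalso
    have h6 : W ⊓ V = V := eq_of_le_of_card_ge inf_le_right (by rw [h5, hV.card]; norm_num)
    have hVW : V ≤ W := inf_eq_right.mp h6
    have hWV : W ≤ V := fun x hx => hV.omega x
      (mem_centralizer_iff.mpr fun y hy => comm_of_isMulComm hWc (hVW hy) hx) (hWe x hx)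
    have := card_le_of_le hWV
    rw [hWcard, hV.card] at this
    omega

theorem comm_mem {V W : Subgroup P} (hV : VConf V) (hW : WConf V W) {v w : P} (hv : v ∈ V)
    (hw : w ∈ W) : ⁅v, w⁆ ∈ W ⊓ V := by
  have hVn := hV.normal
  refine ⟨?_, ?_⟩
  · rw [commutatorElement_def]
    exact W.mul_mem (hW.nor v hv w hw) (W.inv_mem hw)
  · rw [commutatorElement_def, mul_assoc, mul_assoc, ← mul_assoc w]
    exact V.mul_mem hv (hVn.conj_mem _ (V.inv_mem hv) w)

theorem lam_surj [Finite P] (hP : IsPGroup 3 P) {V W : Subgroup P} (hV : VConf V) (hW : WConf V W)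
    {v : P} (hv : v ∈ V) (hvW : v ∉ W) {d : P} (hd : d ∈ W ⊓ V) : ∃ w ∈ W, ⁅v, w⁆ = d := by
  have hc : ∀ w ∈ W, ∀ w' ∈ W, ⁅v, w'⁆ * w = w * ⁅v, w'⁆ := fun w hw w' hw' =>
    comm_of_isMulComm hW.comm (comm_mem hV hW hv hw').1 hw
  have hcard := card_eq_mul_range v W hc
  have hinter := inter_card hP hV hW.comm hW.exp hW.card
  have hVD : Nat.card V = 3 * Nat.card ↥(W ⊓ V) := by rw [hV.card, hinter]
  have hker : W ⊓ centralizer ({v} : Set P) = W ⊓ V := by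
    apply le_antisymm
    · rintro x ⟨hxW, hxv⟩
      refine ⟨hxW, hV.omega x ?_ (hW.exp x hxW)⟩
      exact mem_cent_of_gen (W ⊓ V) V inf_le_right hVD v hv (fun h => hvW h.1) x
        (fun d hd => comm_of_isMulComm hW.comm hd.1 hxW) (mem_cent_singleton.mp hxv)
    · rintro x ⟨hxW, hxV⟩
      exact ⟨hxW, mem_cent_singleton.mpr (comm_of_isMulComm hV.comm hv hxV)⟩
  rw [hker, hinter, hW.card] at hcard
  have hr : Nat.card (cHom v W hc).range = 9 := by omega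
  have hle : (cHom v W hc).range ≤ W ⊓ V := by
    rintro _ ⟨w, rfl⟩
    exact comm_mem hV hW hv w.2
  have heq : (cHom v W hc).range = W ⊓ V := eq_of_le_of_card_ge hle (by rw [hr, hinter])
  have hd' : d ∈ (cHom v W hc).range := by rw [heq]; exact hd
  obtain ⟨w, hw⟩ := hd'
  exact ⟨w.1, w.2, hw⟩

theorem inter_le [Finite P] (hP : IsPGroup 3 P) {V W₀ W₁ : Subgroup P} (hV : VConf V)
    (h0 : WConf V W₀) (h1 : WConf V W₁) (h01 : ∀ a ∈ W₀, ∀ b ∈ W₁, a * b * a⁻¹ ∈ W₁) :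
    W₁ ⊓ V ≤ W₀ ⊓ V := by
  intro v₁ hv₁
  by_contra hn
  have hv₁0 : v₁ ∉ W₀ := fun h => hn ⟨h, hv₁.2⟩
  have hle : W₀ ⊓ V ≤ W₁ ⊓ V := by
    intro d hd
    obtain ⟨w, hw, hwd⟩ := lam_surj hP hV h0 hv₁.2 hv₁0 hd
    refine ⟨?_, hd.2⟩
    rw [← hwd, commutatorElement_def, mul_assoc, mul_assoc, ← mul_assoc w]
    exact W₁.mul_mem hv₁.1 (h01 w hw v₁⁻¹ (W₁.inv_mem hv₁.1))
  have heq : W₀ ⊓ V = W₁ ⊓ V := eq_of_le_of_card_ge hle (by
    rw [inter_card hP hV h0.comm h0.exp h0.card, inter_card hP hV h1.comm h1.exp h1.card])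
  exact hn (heq ▸ hv₁)

theorem half [Finite P] (hP : IsPGroup 3 P) {V W₀ W₁ : Subgroup P} (hV : VConf V)
    (h0 : WConf V W₀) (h1 : WConf V W₁) (h01 : ∀ a ∈ W₀, ∀ b ∈ W₁, a * b * a⁻¹ ∈ W₁)
    (h10 : ∀ a ∈ W₁, ∀ b ∈ W₀, a * b * a⁻¹ ∈ W₀) (hL : W₀ ⊓ V = W₁ ⊓ V) {w₁ : P} (hw₁ : w₁ ∈ W₁) :
    ∃ w₀ ∈ W₀, ∃ c ∈ V, w₁ = w₀ * c := by
  have hinter := inter_card hP hV h0.comm h0.exp h0.card
  have hlt : W₀ ⊓ V < V := by
    refine lt_of_le_of_ne inf_le_right ?_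
    intro h
    have h2 : Nat.card ↥(W₀ ⊓ V) = Nat.card V := by rw [h]
    rw [hinter, hV.card] at h2
    omega
  obtain ⟨v₀, hv₀, hv₀L⟩ := SetLike.exists_of_lt hlt
  have hv₀W : v₀ ∉ W₀ := fun h => hv₀L ⟨h, hv₀⟩
  have hd : ⁅v₀, w₁⁆ ∈ W₀ ⊓ V := by rw [hL]; exact comm_mem hV h1 hv₀ hw₁
  obtain ⟨w₀, hw₀, he⟩ := lam_surj hP hV h0 hv₀ hv₀W hd
  refine ⟨w₀, hw₀, w₀⁻¹ * w₁, ?_, by group⟩
  apply hV.omega
  · apply mem_cent_of_gen (W₀ ⊓ V) V inf_le_right (by rw [hV.card, hinter]) v₀ hv₀ hv₀L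
    · intro d hd
      have hd1 : d ∈ W₁ := (hL ▸ hd : d ∈ W₁ ⊓ V).1
      have h2 : d * w₁ = w₁ * d := comm_of_isMulComm h1.comm hd1 hw₁
      have h3 : d * w₀⁻¹ = w₀⁻¹ * d := comm_of_isMulComm h0.comm hd.1 (W₀.inv_mem hw₀)
      rw [← mul_assoc, h3, mul_assoc, h2, mul_assoc]
    · have h2 := comm_mul_right_eq v₀ w₀ (w₀⁻¹ * w₁)
      rw [mul_inv_cancel_left, ← he] at h2
      have h3 : w₀ * ⁅v₀, w₀⁻¹ * w₁⁆ * w₀⁻¹ = 1 := left_eq_mul.mp h2
      have h4 : ⁅v₀, w₀⁻¹ * w₁⁆ = 1 := by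
        have : w₀⁻¹ * (w₀ * ⁅v₀, w₀⁻¹ * w₁⁆ * w₀⁻¹) * w₀ = ⁅v₀, w₀⁻¹ * w₁⁆ := by group
        rw [← this, h3]; group
      exact commutatorElement_eq_one_iff_mul_comm.mp h4
  · have hm0 : ⁅w₁, w₀⁻¹⁆ ∈ W₀ := by
      rw [commutatorElement_def, inv_inv]
      exact W₀.mul_mem (h10 w₁ hw₁ _ (W₀.inv_mem hw₀)) hw₀
    have hm1 : ⁅w₁, w₀⁻¹⁆ ∈ W₁ := by
      have : ⁅w₁, w₀⁻¹⁆ = w₁ * (w₀⁻¹ * w₁⁻¹ * w₀⁻¹⁻¹) := by
        rw [commutatorElement_def]; group
      rw [this]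
      exact W₁.mul_mem hw₁ (h01 _ (W₀.inv_mem hw₀) _ (W₁.inv_mem hw₁))
    have hpow := mul_pow_prime_of_comm (x := w₀⁻¹) (y := w₁) Nat.prime_three (by norm_num)
      (comm_of_isMulComm h0.comm hm0 (W₀.inv_mem hw₀)) (comm_of_isMulComm h1.comm hm1 hw₁)
      (h0.exp _ hm0)
    rw [hpow, h0.exp _ (W₀.inv_mem hw₀), h1.exp _ hw₁, one_mul]

/-- The core lemma. -/
theorem core [Finite P] (hP : IsPGroup 3 P) {V W₀ W₁ : Subgroup P} (hV : VConf V)
    (h0 : WConf V W₀) (h1 : WConf V W₁) (h01 : ∀ a ∈ W₀, ∀ b ∈ W₁, a * b * a⁻¹ ∈ W₁)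
    (h10 : ∀ a ∈ W₁, ∀ b ∈ W₀, a * b * a⁻¹ ∈ W₀) : W₁ = W₀ := by
  have hVn := hV.normal
  have hi0 := inter_card hP hV h0.comm h0.exp h0.card
  have hi1 := inter_card hP hV h1.comm h1.exp h1.card
  have hL : W₀ ⊓ V = W₁ ⊓ V := eq_of_le_of_card_ge (inter_le hP hV h1 h0 h10) (by rw [hi0, hi1])
  suffices h : W₁ ≤ W₀ from eq_of_le_of_card_ge h (by rw [h0.card, h1.card])
  intro w₁ hw₁
  obtain ⟨w₀, hw₀, c, hc, rfl⟩ := half hP hV h0 h1 h01 h10 hL hw₁
  suffices hcW : c ∈ W₀ from W₀.mul_mem hw₀ hcW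
  by_contra hcW
  have hmV : ∀ y ∈ V, ⁅w₀, y⁆ ∈ V := fun y hy => by
    rw [commutatorElement_def]
    exact V.mul_mem (hVn.conj_mem _ hy _) (V.inv_mem hy)
  have hcV : ∀ y ∈ V, ∀ y' ∈ V, ⁅w₀, y'⁆ * y = y * ⁅w₀, y'⁆ := fun y hy y' hy' =>
    comm_of_isMulComm hV.comm (hmV y' hy') hy
  have hcard := card_eq_mul_range w₀ V hcV
  have hk : W₀ ⊓ V ≤ V ⊓ centralizer ({w₀} : Set P) := fun x hx =>
    ⟨hx.2, mem_cent_singleton.mpr (comm_of_isMulComm h0.comm hw₀ hx.1)⟩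
  have hk9 := card_le_of_le hk
  rw [hi0] at hk9
  have hLr : W₀ ⊓ V ≤ (cHom w₀ V hcV).range := by
    intro d hd
    obtain ⟨w₀', hw₀', hd'⟩ := lam_surj hP hV h0 hc hcW hd
    obtain ⟨w₁', hw₁', c'', hc'', hw⟩ := half hP hV h1 h0 h10 h01 hL.symm hw₀'
    set c' := c''⁻¹ with hc'def
    have hc' : c' ∈ V := V.inv_mem hc''
    have hw₁'' : w₀' * c' ∈ W₁ := by
      have : w₀' * c' = w₁' := by rw [hw, hc'def]; group
      rw [this]; exact hw₁'
    have hcomm := comm_of_isMulComm h1.comm hw₁ hw₁''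
    have hu := comm_mem hV h0 hc hw₀'
    have hu' := comm_mem hV h0 hc' hw₀
    set u := ⁅c, w₀'⁆ with hudef
    set u' := ⁅c', w₀⁆ with hu'def
    have e1 : c * w₀' = u * w₀' * c := by rw [hudef, commutatorElement_def]; group
    have e2 : c' * w₀ = u' * w₀ * c' := by rw [hu'def, commutatorElement_def]; group
    have e3 : w₀ * u = u * w₀ := comm_of_isMulComm h0.comm hw₀ hu.1
    have e4 : w₀' * u' = u' * w₀' := comm_of_isMulComm h0.comm hw₀' hu'.1
    have e5 : w₀' * w₀ = w₀ * w₀' := comm_of_isMulComm h0.comm hw₀' hw₀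
    have e6 : c' * c = c * c' := comm_of_isMulComm hV.comm hc' hc
    have huu : u = u' := by
      have h2 : u * (w₀ * w₀' * (c * c')) = u' * (w₀ * w₀' * (c * c')) := by
        calc u * (w₀ * w₀' * (c * c')) = (u * w₀) * w₀' * c * c' := by group
          _ = (w₀ * u) * w₀' * c * c' := by rw [e3]
          _ = w₀ * (u * w₀' * c) * c' := by group
          _ = w₀ * (c * w₀') * c' := by rw [e1]
          _ = (w₀ * c) * (w₀' * c') := by group
          _ = (w₀' * c') * (w₀ * c) := hcomm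
          _ = w₀' * (c' * w₀) * c := by group
          _ = w₀' * (u' * w₀ * c') * c := by rw [e2]
          _ = (w₀' * u') * w₀ * (c' * c) := by group
          _ = (u' * w₀') * w₀ * (c * c') := by rw [e4, e6]
          _ = u' * (w₀' * w₀) * (c * c') := by group
          _ = u' * (w₀ * w₀') * (c * c') := by rw [e5]
          _ = u' * (w₀ * w₀' * (c * c')) := by group
      exact mul_right_cancel h2
    rw [← hd', huu, hu'def]
    have : ⁅c', w₀⁆ = (cHom w₀ V hcV ⟨c', hc'⟩)⁻¹ := (commutatorElement_inv w₀ c').symm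
    rw [this]
    exact Subgroup.inv_mem _ (MonoidHom.mem_range.mpr ⟨_, rfl⟩)
  have hr9 := card_le_of_le hLr
  rw [hi0] at hr9
  rw [hV.card] at hcard
  have hpos : 0 < Nat.card ↥(V ⊓ centralizer ({w₀} : Set P)) := Nat.card_pos
  nlinarith

theorem exists_join' {p : ℕ} (A B : Subgroup P) (hA : IsElementaryAbelian p A)
    (hB : IsElementaryAbelian p B) (hcomm : ∀ a ∈ A, ∀ b ∈ B, a * b = b * a) :
    ∃ T : Subgroup P, A ≤ T ∧ B ≤ T ∧ IsElementaryAbelian p T ∧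
      T ≤ centralizer (A : Set P) := by
  have hAc : ∀ a ∈ A, ∀ b ∈ A, a * b = b * a := fun a ha b hb =>
    congrArg Subtype.val (hA.1.is_comm.comm ⟨a, ha⟩ ⟨b, hb⟩)
  have hBc : ∀ a ∈ B, ∀ b ∈ B, a * b = b * a := fun a ha b hb =>
    congrArg Subtype.val (hB.1.is_comm.comm ⟨a, ha⟩ ⟨b, hb⟩)
  let T : Subgroup P :=
    { carrier := {x | ∃ a ∈ A, ∃ b ∈ B, x = a * b}
      one_mem' := ⟨1, A.one_mem, 1, B.one_mem, by simp⟩
      inv_mem' := by
        rintro _ ⟨a, ha, b, hb, rfl⟩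
        refine ⟨a⁻¹, A.inv_mem ha, b⁻¹, B.inv_mem hb, ?_⟩
        rw [mul_inv_rev]
        exact (hcomm a⁻¹ (A.inv_mem ha) b⁻¹ (B.inv_mem hb)).symm
      mul_mem' := by
        rintro _ _ ⟨a, ha, b, hb, rfl⟩ ⟨c, hc, d, hd, rfl⟩
        refine ⟨a * c, A.mul_mem ha hc, b * d, B.mul_mem hb hd, ?_⟩
        calc a * b * (c * d) = a * (b * c) * d := by group
          _ = a * (c * b) * d := by rw [hcomm c hc b hb]
          _ = a * c * (b * d) := by group }
  have hT : ∀ x, x ∈ T ↔ ∃ a ∈ A, ∃ b ∈ B, x = a * b := fun x => Iff.rfl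
  have hTc : ∀ x ∈ T, ∀ y ∈ T, x * y = y * x := by
    rintro _ ⟨a, ha, b, hb, rfl⟩ _ ⟨c, hc, d, hd, rfl⟩
    calc a * b * (c * d) = a * (b * c) * d := by group
      _ = a * (c * b) * d := by rw [hcomm c hc b hb]
      _ = (a * c) * (b * d) := by group
      _ = (c * a) * (d * b) := by rw [hAc a ha c hc, hBc b hb d hd]
      _ = c * (a * d) * b := by group
      _ = c * (d * a) * b := by rw [hcomm a ha d hd]
      _ = c * d * (a * b) := by group
  refine ⟨T, fun a ha => ⟨a, ha, 1, B.one_mem, by simp⟩, fun b hb => ⟨1, A.one_mem, b, hb, by simp⟩,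
    ⟨⟨⟨fun x y => Subtype.ext (hTc x x.2 y y.2)⟩⟩, ?_⟩, ?_⟩
  · rintro _ ⟨a, ha, b, hb, rfl⟩
    have hc : Commute a b := hcomm a ha b hb
    rw [hc.mul_pow, hA.2 a ha, hB.2 b hb, one_mul]
  · intro x hx
    refine mem_centralizer_iff.mpr ?_
    intro a ha
    exact hTc a ⟨a, ha, 1, B.one_mem, by simp⟩ x hx


/-- Theorem T: a finite 3-group with an `E₈₁` has a normal one. -/
theorem exists_normal_E81 {P : Type*} [Group P] [Finite P] (hP : IsPGroup 3 P) (E : Subgroup P)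
    (hE : IsElementaryAbelian 3 E) (hc : Nat.card E = 81) :
    ∃ W : Subgroup P, W.Normal ∧ IsElementaryAbelian 3 W ∧ Nat.card W = 81 := by
  classical
  induction' hn : Nat.card P using Nat.strong_induction_on with n ih generalizing P
  -- a normal `E₂₇`
  have h27 : ∃ A : Subgroup P, A.Normal ∧ IsMulCommutative A ∧ (∀ a ∈ A, a ^ 3 = 1) ∧
      Nat.card A = 3 ^ 3 := by
    by_contra hno
    push Not at hno
    have := card_le_of_no_normal_cube (p := 3) (by norm_num) hP (fun A h1 h2 h3 => hno A h1 h2 h3)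
      E hE.1 hE.2
    rw [hc] at this
    norm_num at this
  obtain ⟨A, hAn, hAc, hAe, hAcard⟩ := h27
  let S : Set (Subgroup P) := {B | B.Normal ∧ IsMulCommutative B ∧ ∀ b ∈ B, b ^ 3 = 1}
  obtain ⟨V, hAV, hVmax⟩ := (Set.toFinite S).exists_le_maximal (a := A) ⟨hAn, hAc, hAe⟩
  obtain ⟨hVn, hVc, hVe⟩ := hVmax.prop
  obtain ⟨k, hk⟩ := IsPGroup.iff_card.mp (hP.to_subgroup V)
  have hk3 : 3 ≤ k := by
    have h1 := card_le_of_le hAV
    rw [hAcard, hk] at h1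
    exact (Nat.pow_le_pow_iff_right (by norm_num)).mp h1
  by_cases hk4 : 4 ≤ k
  · obtain ⟨W, hWn, hWV, hWc⟩ := exists_normal_le_card_eq hP V 4
      (by rw [hk]; exact pow_dvd_pow 3 hk4)
    refine ⟨W, hWn, ⟨⟨⟨fun a b => Subtype.ext (comm_of_isMulComm hVc (hWV a.2) (hWV b.2))⟩⟩,
      fun a ha => hVe a (hWV ha)⟩, by rw [hWc]; norm_num⟩
  have hk3' : k = 3 := by omega
  have hVcard : Nat.card V = 27 := by rw [hk, hk3']; norm_num
  have hVconf : VConf V := by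
    refine ⟨hVn, hVc, hVe, hVcard, ?_⟩
    intro c hcV hc3
    refine mem_of_maximal_exponent hP 1 (by norm_num) V hVc (by simpa using hVe) ?_ c hcV
      (by simpa using hc3)
    intro B hBn hBc hBe hVB
    have : B ∈ S := ⟨hBn, hBc, by simpa using hBe⟩
    exact le_antisymm (hVmax.le_of_ge this hVB) hVB
  have hinter := inter_card hP hVconf hE.1 hE.2 hc
  by_cases hsup : V ⊔ E = ⊤
  · have h1 : V.index = V.relIndex E := by
      rw [← relIndex_sup_left, hsup, relIndex_top_right]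
    have h2 : V.relIndex E * Nat.card ↥(V ⊓ E) = Nat.card E := by
      rw [← inf_relIndex_right]
      exact relIndex_mul_card inf_le_right
    have h3 : Nat.card ↥(V ⊓ E) = 9 := by rw [inf_comm]; exact hinter
    rw [h3, hc] at h2
    have h4 : V.index = 9 := by omega
    have h5 := card_mul_index V
    rw [h4, hVcard] at h5
    have h6 := card_mul_index E
    rw [hc, ← h5] at h6
    have h7 : E.index = 3 := by omega
    have hcoat : IsCoatom E := isCoatom_of_index_prime (by rw [h7]; exact Nat.prime_three)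
    exact ⟨E, normal_of_isCoatom hP hcoat, hE, hc⟩
  · obtain ⟨M, hM, hVEM⟩ := (eq_top_or_exists_le_coatom (V ⊔ E)).resolve_left hsup
    have hMn : M.Normal := normal_of_isCoatom hP hM
    have hEM : E ≤ M := le_sup_right.trans hVEM
    have hVM : V ≤ M := le_sup_left.trans hVEM
    have hlt : Nat.card M < n := by
      have := card_lt_of_lt (lt_top_iff_ne_top.mpr hM.1)
      rwa [card_top, hn] at this
    have hEM' : IsElementaryAbelian 3 (E.subgroupOf M) := by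
      refine ⟨⟨⟨fun a b => Subtype.ext (Subtype.ext ?_)⟩⟩, fun a ha => ?_⟩
      · exact comm_of_isMulComm hE.1 (mem_subgroupOf.mp a.2) (mem_subgroupOf.mp b.2)
      · exact Subtype.ext (by simpa using hE.2 _ (mem_subgroupOf.mp ha))
    have hEMc : Nat.card (E.subgroupOf M) = 81 := by
      rw [Nat.card_congr (subgroupOfEquivOfLe hEM).toEquiv, hc]
    obtain ⟨W', hW'n, hW'e, hW'c⟩ := ih _ hlt (hP.to_subgroup M) (E.subgroupOf M) hEM' hEMc rfl
    set W₀ : Subgroup P := W'.map M.subtype with hW₀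
    have hW₀M : W₀ ≤ M := by
      rintro _ ⟨w, -, rfl⟩
      exact w.2
    have hW₀c : IsMulCommutative W₀ := by
      refine ⟨⟨?_⟩⟩
      rintro ⟨_, a, ha, rfl⟩ ⟨_, b, hb, rfl⟩
      apply Subtype.ext
      have h := congrArg Subtype.val (comm_of_isMulComm hW'e.1 ha hb)
      exact h
    have hW₀e : ∀ w ∈ W₀, w ^ 3 = 1 := by
      rintro _ ⟨a, ha, rfl⟩
      exact congrArg Subtype.val (hW'e.2 a ha)
    have hW₀card : Nat.card W₀ = 81 := by
      rw [hW₀, card_map_of_injective M.subtype_injective, hW'c]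
    have hW₀nor : ∀ x ∈ M, ∀ w ∈ W₀, x * w * x⁻¹ ∈ W₀ := by
      rintro x hx _ ⟨a, ha, rfl⟩
      exact ⟨⟨x, hx⟩ * a * ⟨x, hx⟩⁻¹, hW'n.conj_mem a ha ⟨x, hx⟩, rfl⟩
    have h0 : WConf V W₀ := ⟨hW₀c, hW₀e, hW₀card, fun v hv w hw => hW₀nor v (hVM hv) w hw⟩
    refine ⟨W₀, ⟨?_⟩, ⟨hW₀c, hW₀e⟩, hW₀card⟩
    intro w hw g
    set W₁ : Subgroup P := W₀.map (MulAut.conj g).toMonoidHom with hW₁
    have hW₁mem : ∀ y, y ∈ W₁ ↔ g⁻¹ * y * g ∈ W₀ := by
      intro y
      constructor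
      · rintro ⟨a, ha, rfl⟩
        have : g⁻¹ * ((MulAut.conj g).toMonoidHom a) * g = a := by
          simp [MulAut.conj_apply]; group
        rwa [this]
      · intro h
        refine ⟨_, h, ?_⟩
        simp [MulAut.conj_apply]; group
    have hW₁c : IsMulCommutative W₁ := by
      refine ⟨⟨?_⟩⟩
      rintro ⟨a, ha⟩ ⟨b, hb⟩
      apply Subtype.ext
      have h1 := comm_of_isMulComm hW₀c ((hW₁mem a).mp ha) ((hW₁mem b).mp hb)
      show a * b = b * a
      have h2 : g⁻¹ * (a * b) * g = g⁻¹ * (b * a) * g := by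
        calc g⁻¹ * (a * b) * g = (g⁻¹ * a * g) * (g⁻¹ * b * g) := by group
          _ = (g⁻¹ * b * g) * (g⁻¹ * a * g) := h1
          _ = g⁻¹ * (b * a) * g := by group
      exact mul_left_cancel (mul_right_cancel h2)
    have hW₁e : ∀ y ∈ W₁, y ^ 3 = 1 := by
      rintro _ ⟨a, ha, rfl⟩
      rw [← map_pow, hW₀e a ha, map_one]
    have hW₁card : Nat.card W₁ = 81 := by
      rw [hW₁, card_map_of_injective (MulAut.conj g).injective, hW₀card]
    have hW₁M : W₁ ≤ M := by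
      rintro _ ⟨a, ha, rfl⟩
      exact hMn.conj_mem a (hW₀M ha) g
    have hW₁nor : ∀ x ∈ M, ∀ y ∈ W₁, x * y * x⁻¹ ∈ W₁ := by
      intro x hx y hy
      rw [hW₁mem]
      have h2 := hW₀nor (g⁻¹ * x * g) (by simpa using hMn.conj_mem x hx g⁻¹) _ ((hW₁mem y).mp hy)
      have h3 : g⁻¹ * (x * y * x⁻¹) * g = g⁻¹ * x * g * (g⁻¹ * y * g) * (g⁻¹ * x * g)⁻¹ := by group
      rw [h3]
      exact h2
    have h1 : WConf V W₁ := ⟨hW₁c, hW₁e, hW₁card, fun v hv y hy => hW₁nor v (hVM hv) y hy⟩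
    have heq : W₁ = W₀ := core hP hVconf h0 h1 (fun a ha b hb => hW₁nor a (hW₀M ha) b hb)
      (fun a ha b hb => hW₀nor a (hW₁M ha) b hb)
    rw [← heq]
    exact ⟨w, hw, rfl⟩

/-- The triple commutator identity. -/
theorem triple_comm {x a : P} {W : Subgroup P} (hWc : IsMulCommutative W)
    (hWe : ∀ w ∈ W, w ^ 3 = 1) (hx : x ^ 3 = 1) (hnor : ∀ y ∈ W, x * y * x⁻¹ ∈ W) (ha : a ∈ W) :
    ⁅x, ⁅x, ⁅x, a⁆⁆⁆ = 1 := by
  set b := x * a * x⁻¹ with hb
  set c := x * b * x⁻¹ with hc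
  have hbW : b ∈ W := hnor a ha
  have hcW : c ∈ W := hnor b hbW
  have hd : x * c * x⁻¹ = a := by
    have h1 : x * c * x⁻¹ = (x * x * x) * a * (x * x * x)⁻¹ := by
      rw [hc, hb]; group
    have hx' : x * x * x = 1 := by rw [← hx, pow_succ, pow_succ, pow_one]
    rw [h1, hx']; group
  have hexp : ⁅x, ⁅x, ⁅x, a⁆⁆⁆ =
      (x * c * x⁻¹) * c⁻¹ * b * c⁻¹ * (b * a⁻¹ * b * c⁻¹) := by
    simp only [commutatorElement_def, hb, hc]
    group
  rw [hexp, hd]
  have hbc : b * c⁻¹ = c⁻¹ * b := comm_of_isMulComm hWc hbW (W.inv_mem hcW)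
  obtain ⟨t, ht⟩ : ∃ t, t = c⁻¹ * b := ⟨_, rfl⟩
  have htW : t ∈ W := ht ▸ W.mul_mem (W.inv_mem hcW) hbW
  have hat : a * t = t * a := comm_of_isMulComm hWc ha htW
  have h2 : a * c⁻¹ * b * c⁻¹ * (b * a⁻¹ * b * c⁻¹) = t * t * t := by
    calc a * c⁻¹ * b * c⁻¹ * (b * a⁻¹ * b * c⁻¹)
        = a * (c⁻¹ * b) * (c⁻¹ * b) * a⁻¹ * (b * c⁻¹) := by group
      _ = a * t * t * a⁻¹ * t := by rw [hbc, ← ht]
      _ = (t * a) * t * a⁻¹ * t := by rw [hat]
      _ = t * (a * t) * a⁻¹ * t := by group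
      _ = t * (t * a) * a⁻¹ * t := by rw [hat]
      _ = t * t * t := by group
  rw [h2, ← hWe t htW, pow_succ, pow_succ, pow_one]

/-- One step of the `x - 1` filtration. -/
theorem card_step [Finite P] {W S : Subgroup P} (x : P) (hWc : IsMulCommutative W)
    (hnor : ∀ y ∈ W, x * y * x⁻¹ ∈ W) (hS : S ≤ W) :
    ∃ S' : Subgroup P, S' ≤ W ∧ (∀ y ∈ S', ∃ s ∈ S, y = ⁅x, s⁆) ∧
      Nat.card S ≤ Nat.card ↥(W ⊓ centralizer ({x} : Set P)) * Nat.card S' := by
  have hm : ∀ s ∈ W, ⁅x, s⁆ ∈ W := fun s hs => by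
    rw [commutatorElement_def]
    exact W.mul_mem (hnor s hs) (W.inv_mem hs)
  have hc : ∀ w ∈ S, ∀ w' ∈ S, ⁅x, w'⁆ * w = w * ⁅x, w'⁆ := fun w hw w' hw' =>
    comm_of_isMulComm hWc (hm w' (hS hw')) (hS hw)
  refine ⟨(cHom x S hc).range, ?_, ?_, ?_⟩
  · rintro _ ⟨s, rfl⟩
    exact hm s.1 (hS s.2)
  · rintro _ ⟨s, rfl⟩
    exact ⟨s.1, s.2, rfl⟩
  · have h1 := card_eq_mul_range x S hc
    have h2 : S ⊓ centralizer ({x} : Set P) ≤ W ⊓ centralizer ({x} : Set P) :=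
      inf_le_inf_right _ hS
    rw [h1]
    exact Nat.mul_le_mul_right _ (card_le_of_le h2)

/-- `|C_W(x)|³ ≥ |W|`. -/
theorem card_cube_le [Finite P] {W : Subgroup P} (x : P) (hWc : IsMulCommutative W)
    (hWe : ∀ w ∈ W, w ^ 3 = 1) (hx : x ^ 3 = 1) (hnor : ∀ y ∈ W, x * y * x⁻¹ ∈ W) :
    Nat.card W ≤ Nat.card ↥(W ⊓ centralizer ({x} : Set P)) ^ 3 := by
  obtain ⟨S₁, h1, h1', h1c⟩ := card_step (S := W) x hWc hnor le_rfl
  obtain ⟨S₂, h2, h2', h2c⟩ := card_step (S := S₁) x hWc hnor h1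
  obtain ⟨S₃, h3, h3', h3c⟩ := card_step (S := S₂) x hWc hnor h2
  have hbot : S₃ = ⊥ := by
    rw [eq_bot_iff]
    intro y hy
    obtain ⟨s₂, hs₂, rfl⟩ := h3' y hy
    obtain ⟨s₁, hs₁, rfl⟩ := h2' s₂ hs₂
    obtain ⟨s, hs, rfl⟩ := h1' s₁ hs₁
    rw [mem_bot]
    exact triple_comm hWc hWe hx hnor hs
  have hc3 : Nat.card S₃ = 1 := by rw [hbot]; simp
  rw [hc3, mul_one] at h3c
  set K := Nat.card ↥(W ⊓ centralizer ({x} : Set P))
  calc Nat.card W ≤ K * Nat.card S₁ := h1c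
    _ ≤ K * (K * Nat.card S₂) := by gcongr
    _ ≤ K * (K * K) := by gcongr
    _ = K ^ 3 := by ring

/-- The relation in `IsKConnected 3 2`. -/
abbrev Rel3 (P : Type*) [Group P] : Subgroup P → Subgroup P → Prop :=
  fun A B : Subgroup P => IsElementaryAbelian 3 A ∧ 3 ^ 2 ≤ Nat.card ↥A ∧ IsElementaryAbelian 3 B ∧
    3 ^ 2 ≤ Nat.card ↥B ∧ ∀ a ∈ A, ∀ b ∈ B, a * b = b * a

theorem rel3_symm {A B : Subgroup P} (h : Rel3 P A B) : Rel3 P B A := by
  obtain ⟨h1, h2, h3, h4, h5⟩ := h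
  exact ⟨h3, h4, h1, h2, fun b hb a ha => (h5 a ha b hb).symm⟩

theorem rel3_rev {A B : Subgroup P} (h : Relation.ReflTransGen (Rel3 P) A B) :
    Relation.ReflTransGen (Rel3 P) B A := by
  induction h with
  | refl => exact .refl
  | tail _ hbc ih => exact Relation.ReflTransGen.head (rel3_symm hbc) ih

theorem nine_le_of_lt [Finite P] (hP : IsPGroup 3 P) {Z T : Subgroup P} (hZ : Nat.card Z = 3)
    (hlt : Z < T) : 3 ^ 2 ≤ Nat.card T := by
  obtain ⟨k, hk⟩ := IsPGroup.iff_card.mp (hP.to_subgroup T)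
  have h1 := card_lt_of_lt hlt
  rw [hk, hZ] at h1
  have h2 : 1 < k := (Nat.pow_lt_pow_iff_right (a := 3) (by norm_num)).mp (by simpa using h1)
  rw [hk]
  exact Nat.pow_le_pow_right (by norm_num) h2

theorem connect [Finite P] (hP : IsPGroup 3 P) (W : Subgroup P) (hWn : W.Normal)
    (hWe : IsElementaryAbelian 3 W) (hWc : Nat.card W = 81) (X : Subgroup P)
    (hX : IsElementaryAbelian 3 X) (hXc : 3 ^ 2 ≤ Nat.card X) :
    Relation.ReflTransGen (Rel3 P) X W := by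
  obtain ⟨Z, hZn, hZW, hZc⟩ := exists_normal_le_card_eq hP W 1 (by rw [hWc]; norm_num)
  rw [pow_one] at hZc
  have hZcent : Z ≤ center P := le_center_of_card_eq hP Z hZc
  have hXZ : ¬ X ≤ Z := by
    intro h
    have := card_le_of_le h
    rw [hZc] at this
    omega
  obtain ⟨x, hxX, hxZ⟩ := SetLike.not_le_iff_exists.mp hXZ
  -- `T₀ = ⟨x⟩ Z`
  set T₀ : Subgroup P := zpowers x ⊔ Z with hT₀
  have hxT₀ : x ∈ T₀ := (le_sup_left : zpowers x ≤ T₀) (mem_zpowers x)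
  have hZT₀ : Z ≤ T₀ := le_sup_right
  have hT₀9 : 3 ^ 2 ≤ Nat.card T₀ := nine_le_of_lt hP hZc
    (lt_of_le_of_ne hZT₀ (fun h => hxZ (h ▸ hxT₀)))
  -- `Y = X ⊔ Z` is elementary abelian
  have hcz : ∀ z ∈ Z, ∀ g : P, z * g = g * z := fun z hz g => (mem_center_iff.mp (hZcent hz) g).symm
  have hZe : ∀ z ∈ Z, z ^ 3 = 1 := fun z hz => hWe.2 z (hZW hz)
  have hXZ' : ∀ a ∈ X, ∀ b ∈ Z, a * b = b * a := fun a _ b hb => (hcz b hb a).symm
  obtain ⟨Y, hXY, hZY, hYe, hYC⟩ := Cfsg.Agent.S1338.exists_join' X Z hX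
    ⟨⟨⟨fun a b => Subtype.ext (by exact (hcz a.1 a.2 b.1))⟩⟩, hZe⟩ hXZ'
  have hT₀Y : T₀ ≤ Y := sup_le ((zpowers_le).mpr (hXY hxX)) hZY
  have hT₀e : IsElementaryAbelian 3 T₀ :=
    ⟨⟨⟨fun a b => Subtype.ext (comm_of_isMulComm hYe.1 (hT₀Y a.2) (hT₀Y b.2))⟩⟩,
      fun a ha => hYe.2 a (hT₀Y ha)⟩
  -- `C₀ = C_W(x)`
  set C₀ : Subgroup P := W ⊓ centralizer ({x} : Set P) with hC₀
  have hnor : ∀ y ∈ W, x * y * x⁻¹ ∈ W := fun y hy => hWn.conj_mem y hy x
  have hcube : Nat.card W ≤ Nat.card C₀ ^ 3 := card_cube_le x hWe.1 hWe.2 (hX.2 x hxX) hnor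
  have hC₀e : IsElementaryAbelian 3 C₀ :=
    ⟨⟨⟨fun a b => Subtype.ext (comm_of_isMulComm hWe.1 a.2.1 b.2.1)⟩⟩, fun a ha => hWe.2 a ha.1⟩
  have hC₀9 : 3 ^ 2 ≤ Nat.card C₀ := by
    obtain ⟨k, hk⟩ := IsPGroup.iff_card.mp (hP.to_subgroup C₀)
    rw [hk]
    by_contra hlt
    have hk2 : k ≤ 1 := by
      by_contra h
      exact hlt (Nat.pow_le_pow_right (by norm_num) (by omega))
    have : Nat.card C₀ ≤ 3 := by
      rw [hk]
      calc 3 ^ k ≤ 3 ^ 1 := Nat.pow_le_pow_right (by norm_num) hk2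
        _ = 3 := by norm_num
    have h2 : Nat.card C₀ ^ 3 ≤ 3 ^ 3 := Nat.pow_le_pow_left this 3
    rw [hWc] at hcube
    norm_num at h2
    omega
  have hT₀C₀ : ∀ a ∈ T₀, ∀ b ∈ C₀, a * b = b * a := by
    intro a ha b hb
    have hle : T₀ ≤ centralizer ({b} : Set P) := by
      refine sup_le ((zpowers_le).mpr ?_) ?_
      · exact mem_cent_singleton.mpr (mem_cent_singleton.mp hb.2).symm
      · intro z hz
        exact mem_cent_singleton.mpr (hcz z hz b).symm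
    exact (mem_cent_singleton.mp (hle ha)).symm
  have hXT₀ : ∀ a ∈ X, ∀ b ∈ T₀, a * b = b * a := fun a ha b hb =>
    comm_of_isMulComm hYe.1 (hXY ha) (hT₀Y hb)
  have hC₀W : ∀ a ∈ C₀, ∀ b ∈ W, a * b = b * a := fun a ha b hb =>
    comm_of_isMulComm hWe.1 ha.1 hb
  have hW9 : 3 ^ 2 ≤ Nat.card W := by rw [hWc]; norm_num
  refine Relation.ReflTransGen.head ⟨hX, hXc, hT₀e, hT₀9, hXT₀⟩ ?_
  refine Relation.ReflTransGen.head ⟨hT₀e, hT₀9, hC₀e, hC₀9, hT₀C₀⟩ ?_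
  exact Relation.ReflTransGen.single ⟨hC₀e, hC₀9, hWe, hW9, hC₀W⟩

/-- A finite 3-group of 3-rank at least 4 is 2-connected for the prime 3: its commuting graph on elementary abelian subgroups of order ≥ 9 is connected. -/
theorem result {P : Type*} [Group P] [Finite P] (hP : IsPGroup 3 P) (hrk : ¬ Cfsg.PRankLE 3 3 P) : Cfsg.IsKConnected 3 2 P := by
  have hex : ∃ E : Subgroup P, IsElementaryAbelian 3 E ∧ Nat.card E = 81 := by
    unfold PRankLE at hrk
    push Not at hrk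
    obtain ⟨A, hAc, hAe, hA⟩ := hrk
    obtain ⟨k, hk⟩ := IsPGroup.iff_card.mp (hP.to_subgroup A)
    have hk4 : 4 ≤ k := by
      rw [hk] at hA
      have : 3 < k := (Nat.pow_lt_pow_iff_right (a := 3) (by norm_num)).mp hA
      omega
    obtain ⟨K, hK⟩ := Sylow.exists_subgroup_card_pow_prime (G := A) 3 (n := 4)
      (by rw [hk]; exact pow_dvd_pow 3 hk4)
    refine ⟨K.map A.subtype, ⟨⟨⟨?_⟩⟩, ?_⟩, ?_⟩
    · rintro ⟨_, a, ha, rfl⟩ ⟨_, b, hb, rfl⟩
      apply Subtype.ext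
      exact comm_of_isMulComm hAc a.2 b.2
    · rintro _ ⟨a, ha, rfl⟩
      exact hAe a.1 a.2
    · rw [card_subtype, hK]; norm_num
  obtain ⟨E₀, hE₀, hE₀c⟩ := hex
  obtain ⟨W, hWn, hWe, hWc⟩ := exists_normal_E81 hP E₀ hE₀ hE₀c
  intro E E' hE hEc hE' hE'c
  have h1 := connect hP W hWn hWe hWc E hE hEc
  have h2 := connect hP W hWn hWe hWc E' hE' hE'c
  exact h1.trans (rel3_rev h2)

end Cfsg.Agent.S1338
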