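import Cfsg.Statements.S1348
import Cfsg.Agent.Lib.SLBlock.Basic

set_option autoImplicit false
set_option linter.unusedSectionVars false
set_option linter.unusedVariables false
set_option linter.style.haveILetI false
open Cfsg

namespace Cfsg.Agent.S1348

open Matrix Subgroup Cfsg.Agent.Lib.Components.Basic Cfsg.Agent.Lib.SLBlock.Basic

variable {F : Type*} [Field F] [Fintype F] [DecidableEq F] {n : ℕ} {l : Fin n}

local notation "G'" => SpecialLinearGroup (Fin n) F
local notation "V" => Matrix (Fin n) (Fin n) F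

theorem coe_mul' (g h : G') : ((g * h : G') : V) = (g : V) * (h : V) := rfl

theorem coe_mul_inv (g : G') : (g : V) * ((g⁻¹ : G') : V) = 1 :=
  congrArg (fun x : G' => (x : V)) (mul_inv_cancel g)

theorem coe_inv_mul (g : G') : ((g⁻¹ : G') : V) * (g : V) = 1 :=
  congrArg (fun x : G' => (x : V)) (inv_mul_cancel g)

theorem mem_cent_iff (h2 : (2 : F) ≠ 0) {t : G'} (ht : (t : V) = tDiag l) (g : G') :
    g ∈ centralizer ({t} : Set G') ↔ IsBlk l (g : V) := by
  rw [← comm_tDiag_iff h2, ← ht, mem_centralizer_iff]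
  constructor
  · intro h
    have := h t rfl
    have h' := congrArg (fun x : G' => (x : V)) this
    exact h'.symm
  · intro h u hu
    rw [Set.mem_singleton_iff.mp hu]
    apply Subtype.ext
    exact h.symm

theorem isBlk_inv {g : G'} (h : IsBlk l (g : V)) : IsBlk l ((g⁻¹ : G') : V) :=
  h.inv (coe_mul_inv g) (coe_inv_mul g)

theorem blockSL_le_cent (h2 : (2 : F) ≠ 0) {t : G'} (ht : (t : V) = tDiag l) :
    blockSL l ≤ centralizer ({t} : Set G') := fun _ hg => (mem_cent_iff h2 ht _).mpr hg.1

theorem t_mem_blockSL {t : G'} (ht : (t : V) = tDiag l) : t ∈ blockSL l := by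
  rw [mem_blockSL, ht]
  exact ⟨isBlk_tDiag, tDiag_ll⟩

/-- The conjugate of a block element by a block-diagonal element is in the block group. -/
theorem conj_mem_blockSL {x u : G'} (hx : IsBlk l (x : V)) (hu : u ∈ blockSL l) :
    x * u * x⁻¹ ∈ blockSL l := by
  rw [mem_blockSL, coe_mul', coe_mul']
  refine ⟨(hx.mul hu.1).mul (isBlk_inv hx), ?_⟩
  rw [IsBlk.mul_ll (hx.mul hu.1), IsBlk.mul_ll hx, hu.2, mul_one, ← IsBlk.mul_ll hx, coe_mul_inv]
  simp

/-- The transvection element. -/
def tau (p q : Fin n) (hpq : p ≠ q) : G' := ⟨transvection p q 1, det_transvection_of_ne p q hpq 1⟩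

theorem tau_mem (p q : Fin n) (hpq : p ≠ q) (hp : p ≠ l) (hq : q ≠ l) :
    tau (F := F) p q hpq ∈ blockSL l := by
  rw [mem_blockSL]
  refine ⟨fun i hi => ⟨?_, ?_⟩, ?_⟩
  · show transvection p q (1 : F) i l = 0
    rw [tr_apply, if_neg (by rintro ⟨-, h⟩; exact hq h), add_zero, Matrix.one_apply_ne hi]
  · show transvection p q (1 : F) l i = 0
    rw [tr_apply, if_neg (by rintro ⟨h, -⟩; exact hp h), add_zero, Matrix.one_apply_ne hi.symm]
  · show transvection p q (1 : F) l l = 1
    rw [tr_apply, if_neg (by rintro ⟨h, -⟩; exact hp h), add_zero]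
    simp

section Z

theorem Z_isB {t : G'} (h2 : (2 : F) ≠ 0) (ht : (t : V) = tDiag l) {z : G'} (hz : z ∈ centralizer ((blockSL (F := F) l : Subgroup G') : Set G')) :
    IsBlk l (z : V) := by
  rw [← mem_cent_iff h2 ht]
  refine mem_centralizer_iff.mpr fun u hu => ?_
  rw [Set.mem_singleton_iff.mp hu]
  exact mem_centralizer_iff.mp hz t (t_mem_blockSL ht)

theorem Z_offdiag {t : G'} (h2 : (2 : F) ≠ 0) (ht : (t : V) = tDiag l) {z : G'} (hz : z ∈ centralizer ((blockSL (F := F) l : Subgroup G') : Set G'))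
    {i j : Fin n} (hij : i ≠ j) : (z : V) i j = 0 := by
  have hB := Z_isB h2 ht hz
  by_cases hi : i = l
  · rw [hi]; exact (hB j (by rw [← hi]; exact hij.symm)).2
  by_cases hj : j = l
  · rw [hj]; exact (hB i hi).1
  have hc := mem_centralizer_iff.mp hz (tau j i hij.symm) (tau_mem j i hij.symm hj hi)
  have := (comm_entries j i (z : V) (congrArg (fun x : G' => (x : V)) hc)).1 j hij.symm
  exact this

theorem Z_diag {t : G'} (h2 : (2 : F) ≠ 0) (ht : (t : V) = tDiag l) {z : G'} (hz : z ∈ centralizer ((blockSL (F := F) l : Subgroup G') : Set G'))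
    {i j : Fin n} (hi : i ≠ l) (hj : j ≠ l) : (z : V) i i = (z : V) j j := by
  by_cases hij : i = j
  · rw [hij]
  have hc := mem_centralizer_iff.mp hz (tau j i (Ne.symm hij)) (tau_mem j i (Ne.symm hij) hj hi)
  exact (comm_entries j i (z : V) (congrArg (fun x : G' => (x : V)) hc)).2.2

theorem Z_eq_diagonal {t : G'} (h2 : (2 : F) ≠ 0) (ht : (t : V) = tDiag l) {z : G'} (hz : z ∈ centralizer ((blockSL (F := F) l : Subgroup G') : Set G')) :
    (z : V) = Matrix.diagonal (fun i => (z : V) i i) := by
  ext i j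
  by_cases hij : i = j
  · rw [hij]; simp
  · rw [Z_offdiag h2 ht hz hij, Matrix.diagonal_apply_ne _ hij]

theorem Z_comm {t : G'} (h2 : (2 : F) ≠ 0) (ht : (t : V) = tDiag l) {z w : G'} (hz : z ∈ centralizer ((blockSL (F := F) l : Subgroup G') : Set G'))
    (hw : w ∈ centralizer ((blockSL (F := F) l : Subgroup G') : Set G')) : z * w = w * z := by
  apply Subtype.ext
  show (z : V) * (w : V) = (w : V) * (z : V)
  rw [Z_eq_diagonal h2 ht hz, Z_eq_diagonal h2 ht hw, Matrix.diagonal_mul_diagonal,
    Matrix.diagonal_mul_diagonal]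
  congr 1
  ext i
  exact mul_comm _ _

/-- Block-diagonal elements centralize `Z`. -/
theorem comm_Z {t : G'} (h2 : (2 : F) ≠ 0) (ht : (t : V) = tDiag l) {y z : G'} (hy : IsBlk l (y : V))
    (hz : z ∈ centralizer ((blockSL (F := F) l : Subgroup G') : Set G')) : y * z = z * y := by
  apply Subtype.ext
  show (y : V) * (z : V) = (z : V) * (y : V)
  rw [Z_eq_diagonal h2 ht hz]
  ext p q
  rw [Matrix.mul_diagonal, Matrix.diagonal_mul]
  by_cases hp : p = l
  · by_cases hq : q = l
    · rw [hp, hq]
      exact mul_comm _ _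
    · rw [hp, (hy q hq).2]
      simp
  · by_cases hq : q = l
    · rw [hq, (hy p hp).1]
      simp
    · rw [Z_diag h2 ht hz hp hq]
      exact mul_comm _ _

/-- `t` is the unique involution of `Z`. -/
theorem Z_invol {t : G'} (h2 : (2 : F) ≠ 0) (ht : (t : V) = tDiag l) {z : G'} (hm : Even (n - 1))
    (hn : 2 ≤ n)
    (hz : z ∈ centralizer ((blockSL (F := F) l : Subgroup G') : Set G')) (hz2 : z * z = 1)
    (hz1 : z ≠ 1) : z = t := by
  have hd := Z_eq_diagonal h2 ht hz
  have : Nontrivial (Fin n) := Fin.nontrivial_iff_two_le.mpr hn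
  obtain ⟨i₀, hi₀⟩ : ∃ i : Fin n, i ≠ l := exists_ne l
  have ha : ∀ i, i ≠ l → (z : V) i i = (z : V) i₀ i₀ := fun i hi => Z_diag h2 ht hz hi hi₀
  have hsq : ∀ i, (z : V) i i * (z : V) i i = 1 := by
    intro i
    have h1 := congrFun (congrFun (congrArg (fun x : G' => (x : V)) hz2) i) i
    change ((z : V) * (z : V)) i i = (1 : V) i i at h1
    rw [Matrix.mul_apply, Finset.sum_eq_single i] at h1
    · simpa using h1
    · intro c _ hc
      rw [Z_offdiag h2 ht hz hc, mul_zero]
    · exact fun h => absurd (Finset.mem_univ _) h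
  have ha2 : (z : V) i₀ i₀ = 1 ∨ (z : V) i₀ i₀ = -1 := mul_self_eq_one_iff.mp (hsq i₀)
  have hpow : (z : V) i₀ i₀ ^ (n - 1) = 1 := by
    obtain ⟨k, hk⟩ := hm
    rw [hk, ← two_mul, pow_mul, sq, hsq i₀, one_pow]
  have hdet : (z : V) l l * (z : V) i₀ i₀ ^ (n - 1) = 1 := by
    have h1 := z.2
    rw [hd, Matrix.det_diagonal, ← Finset.mul_prod_erase Finset.univ _ (Finset.mem_univ l),
      Finset.prod_eq_pow_card (b := (z : V) i₀ i₀)] at h1
    · rw [Finset.card_erase_of_mem (Finset.mem_univ l), Finset.card_univ, Fintype.card_fin] at h1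
      exact h1
    · intro i hi
      exact ha i (Finset.ne_of_mem_erase hi)
  rw [hpow, mul_one] at hdet
  rcases ha2 with h | h
  · exfalso
    apply hz1
    apply Subtype.ext
    rw [hd]
    show Matrix.diagonal (fun i => (z : V) i i) = (1 : V)
    rw [← Matrix.diagonal_one]
    congr 1
    ext i
    by_cases hi : i = l
    · rw [hi, hdet]
    · rw [ha i hi, h]
  · apply Subtype.ext
    rw [ht, hd, tDiag]
    congr 1
    ext i
    by_cases hi : i = l
    · simp [hi, hdet]
    · rw [ha i hi, h, if_neg hi]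

end Z

/-- Let F be a finite field of odd order, n ≥ 7 odd, and t ∈ SL(n, F) the diagonal matrix with entries −1, …, −1, 1. Then E(C(t)) is a standard subgroup of SL(n, F). -/
theorem result {F : Type*} [Field F] [Fintype F] [DecidableEq F] (hF : Odd (Fintype.card F)) (n : ℕ) (hn : 7 ≤ n) (hodd : Odd n) (t : Matrix.SpecialLinearGroup (Fin n) F) (ht : (t : Matrix (Fin n) (Fin n) F) = Matrix.diagonal (fun i : Fin n => if (i : ℕ) + 1 = n then (1 : F) else -1)) : Cfsg.IsStandardSubgroup ((Cfsg.layer ↥(Subgroup.centralizer ({t} : Set (Matrix.SpecialLinearGroup (Fin n) F)))).map (Subgroup.centralizer ({t} : Set (Matrix.SpecialLinearGroup (Fin n) F))).subtype) := by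
  have h2 : (2 : F) ≠ 0 := two_ne_zero_of_odd hF
  let l : Fin n := ⟨n - 1, by omega⟩
  have ht' : (t : Matrix (Fin n) (Fin n) F) = tDiag l := by
    rw [ht, tDiag]
    congr 1
    ext i
    have : (i : ℕ) + 1 = n ↔ i = l := by
      rw [Fin.ext_iff]
      show (i : ℕ) + 1 = n ↔ (i : ℕ) = n - 1
      omega
    simp only [this]
  have hm : Even (n - 1) := by
    obtain ⟨k, hk⟩ := hodd
    exact ⟨k, by omega⟩
  set L := blockSL (F := F) l with hLdef
  have hLq : IsQuasisimple ↥L := blockSL_isQuasisimple (by omega)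
  have hLC : L ≤ centralizer ({t} : Set (Matrix.SpecialLinearGroup (Fin n) F)) := blockSL_le_cent h2 ht'
  have hLn : (L.subgroupOf (centralizer ({t} : Set (Matrix.SpecialLinearGroup (Fin n) F)))).Normal := by
    refine ⟨fun x hx g => ?_⟩
    rw [mem_subgroupOf] at hx ⊢
    exact conj_mem_blockSL ((mem_cent_iff h2 ht' g).mp g.2) hx
  have hcomp : IsComponent (L.subgroupOf (centralizer ({t} : Set (Matrix.SpecialLinearGroup (Fin n) F)))) :=
    ⟨hLn.isSubnormal, (quasisimple_subgroupOf_iff hLC).mpr hLq⟩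
  have hlay : layer ↥(centralizer ({t} : Set (Matrix.SpecialLinearGroup (Fin n) F))) =
      L.subgroupOf (centralizer ({t} : Set (Matrix.SpecialLinearGroup (Fin n) F))) := by
    apply le_antisymm _ (le_layer_of_isComponent hcomp)
    refine sSup_le fun K hK => ?_
    rcases component_eq_or_commutator_eq_bot hK hcomp with h | h
    · exact h.le
    · exfalso
      have hKZ : ∀ k ∈ K, (k : Matrix.SpecialLinearGroup (Fin n) F) ∈ centralizer (L : Set (Matrix.SpecialLinearGroup (Fin n) F)) := by
        intro k hk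
        refine mem_centralizer_iff.mpr fun u hu => ?_
        have hu' : (⟨u, hLC hu⟩ : ↥(centralizer ({t} : Set (Matrix.SpecialLinearGroup (Fin n) F)))) ∈
            L.subgroupOf (centralizer ({t} : Set (Matrix.SpecialLinearGroup (Fin n) F))) := mem_subgroupOf.mpr hu
        have := Subgroup.commutator_mem_commutator hk hu'
        rw [h, mem_bot, commutatorElement_eq_one_iff_mul_comm] at this
        exact (congrArg Subtype.val this).symm
      apply ne_bot_of_quasisimple hK.2
      rw [← commutator_self_of_quasisimple hK.2, eq_bot_iff, commutator_le]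
      intro a ha b hb
      rw [mem_bot, commutatorElement_eq_one_iff_mul_comm]
      exact Subtype.ext (Z_comm h2 ht' (hKZ a ha) (hKZ b hb))
  rw [hlay, subgroupOf_map_subtype, inf_eq_left.mpr hLC]
  have hZt : t ∈ centralizer (L : Set (Matrix.SpecialLinearGroup (Fin n) F)) :=
    mem_centralizer_iff.mpr fun u hu => (mem_centralizer_iff.mp (hLC hu) t rfl).symm
  have hn2 : 2 ≤ n := by omega
  have hinv : ∀ z ∈ centralizer (L : Set (Matrix.SpecialLinearGroup (Fin n) F)), z * z = 1 → z ≠ 1 → z = t :=
    fun z hz h1 h3 => Z_invol h2 ht' hm hn2 hz h1 h3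
  have htt : t * t = 1 := by
    apply Subtype.ext
    show (t : Matrix (Fin n) (Fin n) F) * (t : Matrix (Fin n) (Fin n) F) = 1
    rw [ht', tDiag_mul_self]
  have ht1 : t ≠ 1 := by
    intro h
    have : Nontrivial (Fin n) := Fin.nontrivial_iff_two_le.mpr hn2
    obtain ⟨i₀, hi₀⟩ : ∃ i : Fin n, i ≠ l := exists_ne l
    have h3 : (t : Matrix (Fin n) (Fin n) F) i₀ i₀ = 1 := by rw [h]; simp
    rw [ht', tDiag] at h3
    simp only [Matrix.diagonal_apply_eq, if_neg hi₀] at h3
    apply h2
    have h4 : (1 : F) + 1 = 0 := by nth_rw 1 [← h3]; simp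
    rw [← h4]; norm_num
  have hblk : ∀ g : Matrix.SpecialLinearGroup (Fin n) F, g * t * g⁻¹ = t → IsBlk l (g : Matrix (Fin n) (Fin n) F) := by
    intro g hg
    rw [← mem_cent_iff h2 ht']
    refine mem_centralizer_iff.mpr fun u hu => ?_
    rw [Set.mem_singleton_iff.mp hu]
    calc t * g = g * t * g⁻¹ * g := by rw [hg]
      _ = g * t := by group
  refine ⟨hLq, ⟨?_, ?_⟩, ?_, ?_⟩
  · have h3 : orderOf t = 2 := orderOf_eq_prime (by rw [sq]; exact htt) ht1
    have := Subgroup.orderOf_dvd_natCard _ hZt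
    rw [h3] at this
    exact even_iff_two_dvd.mpr this
  · intro g hg
    by_contra hcon
    rw [Nat.not_odd_iff_even] at hcon
    obtain ⟨w, hw⟩ := exists_prime_orderOf_dvd_card' 2 (even_iff_two_dvd.mp hcon)
    have hw0 : (w : Matrix.SpecialLinearGroup (Fin n) F) ^ 2 = 1 := by
      have := pow_orderOf_eq_one w
      rw [hw] at this
      exact congrArg Subtype.val this
    have hw1 : (w : Matrix.SpecialLinearGroup (Fin n) F) ≠ 1 := by
      intro h
      have : w = 1 := Subtype.ext h
      rw [this, orderOf_one] at hw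
      omega
    rw [sq] at hw0
    have hwt := hinv _ w.2.1 hw0 hw1
    obtain ⟨z, hz, e⟩ := w.2.2
    have e' : g * z * g⁻¹ = (w : Matrix.SpecialLinearGroup (Fin n) F) := e
    have hzz : z * z = 1 := by
      have : g * (z * z) * g⁻¹ = 1 := by
        rw [← hw0, ← e']
        group
      have h3 : z * z = g⁻¹ * (g * (z * z) * g⁻¹) * g := by group
      rw [h3, this]
      group
    have hz1 : z ≠ 1 := by
      rintro rfl
      apply hw1
      rw [← e']
      group
    have hzt := hinv z hz hzz hz1
    have hgt : g * t * g⁻¹ = t := by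
      rw [← hzt, e', hwt, hzt]
    have hgB := hblk g hgt
    have hgB' := isBlk_inv hgB
    apply hg
    rw [mem_normalizer_iff]
    intro h
    constructor
    · intro hh
      have h3 := comm_Z h2 ht' hgB hh
      have h4 : g * h * g⁻¹ = h := by rw [h3]; group
      rw [h4]
      exact hh
    · intro hh
      have h3 := comm_Z h2 ht' hgB' hh
      have h4 : h = g⁻¹ * (g * h * g⁻¹) * g := by group
      rw [h4, h3]
      have h5 : g * h * g⁻¹ * g⁻¹ * g = g * h * g⁻¹ := by group
      rw [h5]
      exact hh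
  · intro g _ hb
    have hLZ : ∀ x ∈ L, g * x * g⁻¹ ∈ centralizer (L : Set (Matrix.SpecialLinearGroup (Fin n) F)) := by
      intro x hx
      refine mem_centralizer_iff.mpr fun u hu => ?_
      have hmem : g * x * g⁻¹ ∈ L.map (MulAut.conj g).toMonoidHom := ⟨x, hx, rfl⟩
      have := Subgroup.commutator_mem_commutator (SetLike.mem_coe.mp hu) hmem
      rw [hb, mem_bot, commutatorElement_eq_one_iff_mul_comm] at this
      exact this
    apply ne_bot_of_quasisimple hLq
    rw [← commutator_self_of_quasisimple hLq, eq_bot_iff, commutator_le]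
    intro a ha c hc
    rw [mem_bot, commutatorElement_eq_one_iff_mul_comm]
    have h3 := Z_comm h2 ht' (hLZ a ha) (hLZ c hc)
    have h4 : g * (a * c) * g⁻¹ = g * (c * a) * g⁻¹ := by
      calc g * (a * c) * g⁻¹ = g * a * g⁻¹ * (g * c * g⁻¹) := by group
        _ = g * c * g⁻¹ * (g * a * g⁻¹) := h3
        _ = g * (c * a) * g⁻¹ := by group
    simpa using h4
  · apply le_antisymm
    · intro x hx
      rw [mem_normalizer_iff] at hx ⊢
      intro h
      constructor
      · intro hh
        refine mem_centralizer_iff.mpr fun u hu => ?_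
        have hu' : x⁻¹ * u * x ∈ L := by
          rw [hx]
          have : x * (x⁻¹ * u * x) * x⁻¹ = u := by group
          rw [this]
          exact hu
        have h3 := mem_centralizer_iff.mp hh _ hu'
        calc u * (x * h * x⁻¹) = x * ((x⁻¹ * u * x) * h) * x⁻¹ := by group
          _ = x * (h * (x⁻¹ * u * x)) * x⁻¹ := by rw [h3]
          _ = x * h * x⁻¹ * u := by group
      · intro hh
        refine mem_centralizer_iff.mpr fun u hu => ?_
        have h3 := mem_centralizer_iff.mp hh _ ((hx u).mp hu)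
        have h4 : x * (u * h) * x⁻¹ = x * (h * u) * x⁻¹ := by
          calc x * (u * h) * x⁻¹ = x * u * x⁻¹ * (x * h * x⁻¹) := by group
            _ = x * h * x⁻¹ * (x * u * x⁻¹) := h3
            _ = x * (h * u) * x⁻¹ := by group
        simpa using h4
    · intro x hx
      rw [mem_normalizer_iff] at hx
      have hxZ := (hx t).mp hZt
      have hxx : x * t * x⁻¹ * (x * t * x⁻¹) = 1 := by
        calc x * t * x⁻¹ * (x * t * x⁻¹) = x * (t * t) * x⁻¹ := by group
          _ = 1 := by rw [htt]; group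
      have hx1 : x * t * x⁻¹ ≠ 1 := by
        intro h
        apply ht1
        have : t = x⁻¹ * (x * t * x⁻¹) * x := by group
        rw [this, h]
        group
      have hxt := hinv _ hxZ hxx hx1
      have hxB := hblk x hxt
      rw [mem_normalizer_iff]
      intro u
      refine ⟨fun hu => conj_mem_blockSL hxB hu, fun hu => ?_⟩
      have := conj_mem_blockSL (isBlk_inv hxB) hu
      simpa [mul_assoc] using this

end Cfsg.Agent.S1348
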