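import Cfsg.Statements.S1386
-- import your own Cfsg.Agent.* helpers here

set_option autoImplicit false
open Cfsg

namespace Cfsg.Agent.S1386

/-- In a cyclic group `W₁ ⊔ W₂`, an element of `W₁` killed by `|W₂|` lies in `W₂`. -/
theorem mem_of_pow_card_eq_one {G : Type*} [Group G] [Finite G] (W₁ W₂ : Subgroup G)
    (hc : IsCyclic ↥(W₁ ⊔ W₂)) (a : G) (ha : a ∈ W₁) (han : a ^ Nat.card W₂ = 1) : a ∈ W₂ := by
  classical
  have := Fintype.ofFinite G
  set W := W₁ ⊔ W₂ with hWdef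
  have hn : 0 < Nat.card W₂ := Nat.card_pos
  have hle := IsCyclic.card_pow_eq_one_le (α := ↥W) hn
  -- the image of W₂ in W
  let f : ↥W₂ → ↥W := fun y => ⟨y, (le_sup_right : W₂ ≤ W) y.2⟩
  have hf : Function.Injective f := fun y z h => by
    apply Subtype.ext
    simpa [f] using congrArg (fun t : ↥W => (t : G)) h
  let T : Finset ↥W := (Finset.univ.filter fun y : ↥W => y ^ Nat.card W₂ = 1)
  let I : Finset ↥W := Finset.univ.image f
  have hIT : I ⊆ T := by
    intro y hy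
    simp only [I, Finset.mem_image, Finset.mem_univ, true_and] at hy
    obtain ⟨z, rfl⟩ := hy
    simp only [T, Finset.mem_filter, Finset.mem_univ, true_and]
    apply Subtype.ext
    have : (z : G) ^ Nat.card W₂ = 1 := by
      rw [← Subgroup.coe_pow, pow_card_eq_one', Subgroup.coe_one]
    simpa [f] using this
  have hIcard : I.card = Nat.card W₂ := by
    simp only [I]
    rw [Finset.card_image_of_injective _ hf, Finset.card_univ, Nat.card_eq_fintype_card]
  have hIeq : I = T := Finset.eq_of_subset_of_card_le hIT (by rw [hIcard]; exact hle)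
  have hmem : (⟨a, (le_sup_left : W₁ ≤ W) ha⟩ : ↥W) ∈ T := by
    simp only [T, Finset.mem_filter, Finset.mem_univ, true_and]
    apply Subtype.ext
    simpa using han
  rw [← hIeq] at hmem
  simp only [I, Finset.mem_image, Finset.mem_univ, true_and] at hmem
  obtain ⟨z, hz⟩ := hmem
  have : (z : G) = a := by simpa [f] using congrArg (fun t : ↥W => (t : G)) hz
  rw [← this]
  exact z.2

/-- If `A`, `B` commute elementwise, every element of `A ⊔ B` is a product. -/
theorem mem_sup_of_commute {G : Type*} [Group G] (A B : Subgroup G)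
    (h : ∀ a ∈ A, ∀ b ∈ B, a * b = b * a) (x : G) (hx : x ∈ A ⊔ B) :
    ∃ a ∈ A, ∃ b ∈ B, a * b = x := by
  rw [Subgroup.sup_eq_closure] at hx
  induction hx using Subgroup.closure_induction with
  | mem x hx =>
    rcases hx with hx | hx
    · exact ⟨x, hx, 1, B.one_mem, mul_one x⟩
    · exact ⟨1, A.one_mem, x, hx, one_mul x⟩
  | one => exact ⟨1, A.one_mem, 1, B.one_mem, mul_one 1⟩
  | mul x y _ _ hx hy =>
    obtain ⟨a, ha, b, hb, rfl⟩ := hx
    obtain ⟨c, hc, d, hd, rfl⟩ := hy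
    refine ⟨a * c, A.mul_mem ha hc, b * d, B.mul_mem hb hd, ?_⟩
    calc a * c * (b * d) = a * (c * b) * d := by group
      _ = a * (b * c) * d := by rw [h c hc b hb]
      _ = a * b * (c * d) := by group
  | inv x _ hx =>
    obtain ⟨a, ha, b, hb, rfl⟩ := hx
    refine ⟨a⁻¹, A.inv_mem ha, b⁻¹, B.inv_mem hb, ?_⟩
    rw [mul_inv_rev]
    have := h a ha b hb
    calc a⁻¹ * b⁻¹ = (b * a)⁻¹ := by group
      _ = (a * b)⁻¹ := by rw [this]
      _ = b⁻¹ * a⁻¹ := by group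

/-- Let G be a finite group, W₁, W₂ subgroups forming a self-normalizing cyclic pair, S a subgroup with W₂ ≤ S and W₁ a complement to S' in S, and (W₁, U, W₂') type-P data for S. Then W₂' = W₂ (that is, C_{S'}(W₁) = W₂). -/
theorem result {G : Type*} [Group G] [Finite G] (W₁ W₂ S U W₂' : Subgroup G) (hW : Cfsg.IsSelfNormalizingCyclic W₁ W₂)
    (hSW : Cfsg.IsComplIn ⁅S, S⁆ W₁ S) (hW₂S : W₂ ≤ S) (hP : Cfsg.IsTypePWith S W₁ U W₂') :
    W₂' = W₂ := by
  obtain ⟨hW1, hW2, hinf, hcomm, hcyc, hnorm⟩ := hW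
  obtain ⟨x, hxW, hx1⟩ := (Subgroup.ne_bot_iff_exists_ne_one.mp hW1 : ∃ x : W₁, x ≠ 1) |>.elim
    (fun x hx => (⟨x, x.2, fun h => hx (Subtype.ext h)⟩ : ∃ x : G, x ∈ W₁ ∧ x ≠ 1))
  obtain ⟨y, hyW, hy1⟩ := (Subgroup.ne_bot_iff_exists_ne_one.mp hW2 : ∃ x : W₂, x ≠ 1) |>.elim
    (fun x hx => (⟨x, x.2, fun h => hx (Subtype.ext h)⟩ : ∃ x : G, x ∈ W₂ ∧ x ≠ 1))
  have hW₂' := hP.W₂_centralizer x hxW hx1
  -- Step 1: `W₂ ≤ S'`
  have step1 : W₂ ≤ ⁅S, S⁆ := by
    intro b hb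
    obtain ⟨s, hs, a, ha, hb'⟩ := hSW.2.2.2 b (hW₂S hb)
    have hca : Commute a b := (hcomm a ha b hb)
    have hs_eq : s = b * a⁻¹ := by rw [hb']; group
    have hsa : Commute b a⁻¹ := (hca.inv_left).symm
    have hsn : s ^ Nat.card W₂ = (a⁻¹) ^ Nat.card W₂ := by
      rw [hs_eq, hsa.mul_pow]
      have : b ^ Nat.card W₂ = 1 := by
        have h : ((⟨b, hb⟩ : W₂) ^ Nat.card W₂ : W₂) = 1 := pow_card_eq_one'
        have h2 := congrArg Subtype.val h
        rwa [Subgroup.coe_pow, Subgroup.coe_one] at h2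
      rw [this, one_mul]
    have hin : (a⁻¹) ^ Nat.card W₂ ∈ ⁅S, S⁆ ⊓ W₁ := by
      refine ⟨?_, (W₁.pow_mem (W₁.inv_mem ha) _)⟩
      rw [← hsn]
      exact Subgroup.pow_mem _ hs _
    rw [hSW.2.2.1, Subgroup.mem_bot] at hin
    have han : a ^ Nat.card W₂ = 1 := by
      rw [inv_pow] at hin
      simpa using hin
    have haW2 : a ∈ W₂ := mem_of_pow_card_eq_one W₁ W₂ hcyc a ha han
    have : a ∈ W₁ ⊓ W₂ := ⟨ha, haW2⟩
    rw [hinf, Subgroup.mem_bot] at this
    rw [hb', this, mul_one]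
    exact hs
  -- Step 2: `W₂ ≤ W₂'`
  have step2 : W₂ ≤ W₂' := by
    intro b hb
    rw [← hW₂']
    refine ⟨step1 hb, ?_⟩
    exact Subgroup.mem_centralizer_singleton_iff.mpr (hcomm x hxW b hb).symm
  -- Step 3: `W₂' ≤ W₂`
  apply le_antisymm _ step2
  intro w hw
  have hwx : w * x = x * w := by
    have : w ∈ ⁅S, S⁆ ⊓ Subgroup.centralizer ({x} : Set G) := by rw [hW₂']; exact hw
    exact (Subgroup.mem_centralizer_singleton_iff.mp this.2)
  -- `W₂'` is cyclic, so commutative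
  have hcw : w * y = y * w := by
    have hcyc' := hP.selfNormalizing.2.2.2.2.1
    have := hcyc'
    have hW2'le : W₂' ≤ W₁ ⊔ W₂' := le_sup_right
    have := mul_comm' (M := ↥(W₁ ⊔ W₂')) ⟨w, hW2'le hw⟩ ⟨y, hW2'le (step2 hyW)⟩
    simpa using congrArg (fun t : ↥(W₁ ⊔ W₂') => (t : G)) this
  -- The element `x * y`
  have hxy_mem : x * y ∈ W₁ ⊔ W₂ := Subgroup.mul_mem _ ((le_sup_left : W₁ ≤ W₁ ⊔ W₂) hxW) ((le_sup_right : W₂ ≤ W₁ ⊔ W₂) hyW)
  have hxy_not1 : x * y ∉ W₁ := fun h => by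
    have : y ∈ W₁ := by
      have := W₁.mul_mem (W₁.inv_mem hxW) h
      simpa using this
    have h2 : y ∈ W₁ ⊓ W₂ := ⟨this, hyW⟩
    rw [hinf, Subgroup.mem_bot] at h2
    exact hy1 h2
  have hxy_not2 : x * y ∉ W₂ := fun h => by
    have : x ∈ W₂ := by
      have := W₂.mul_mem h (W₂.inv_mem hyW)
      simpa using this
    have h2 : x ∈ W₁ ⊓ W₂ := ⟨hxW, this⟩
    rw [hinf, Subgroup.mem_bot] at h2
    exact hx1 h2
  have hN := hnorm {x * y} (by
    intro t ht
    rw [Set.mem_singleton_iff] at ht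
    subst ht
    refine ⟨hxy_mem, ?_⟩
    rintro (h | h)
    · exact hxy_not1 h
    · exact hxy_not2 h) (Set.singleton_nonempty _)
  have hw_comm : w * (x * y) = (x * y) * w := by
    rw [← mul_assoc, hwx, mul_assoc, hcw, mul_assoc]
  have hw_norm : w ∈ Subgroup.normalizer ({x * y} : Set G) := by
    rw [Subgroup.mem_set_normalizer_iff]
    intro t
    simp only [Set.mem_singleton_iff]
    constructor
    · rintro rfl
      rw [hw_comm]; group
    · intro h
      have : w * t * w⁻¹ = w * (x * y) * w⁻¹ := by rw [h, hw_comm]; group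
      exact mul_left_cancel (mul_right_cancel this)
  rw [hN] at hw_norm
  obtain ⟨a, ha, b, hb, hab⟩ := mem_sup_of_commute W₁ W₂ hcomm w hw_norm
  have ha2 : a ∈ W₂' := by
    have : a = w * b⁻¹ := by rw [← hab]; group
    rw [this]
    exact W₂'.mul_mem hw (W₂'.inv_mem (step2 hb))
  have hinf' := hP.selfNormalizing.2.2.1
  have : a ∈ W₁ ⊓ W₂' := ⟨ha, ha2⟩
  rw [hinf', Subgroup.mem_bot] at this
  rw [← hab, this, one_mul]
  exact hb

end Cfsg.Agent.S1386
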