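import Cfsg.Statements.S1441
-- import your own Cfsg.Agent.* helpers here

set_option autoImplicit false
open Cfsg

namespace Cfsg.Agent.S1441

/-- Let G be a finite group, H a solvable subgroup and A a subgroup normalizing H. Suppose there is a chain H = H₀ ≥ H₁ ≥ ⋯ ≥ H_n = 1 of subgroups normal in H and normalized by A such that A acts trivially on each factor H_{i-1}/H_i (that is, [H_{i-1}, A] ≤ H_i). Then every prime dividing the index of C_A(H) in A divides the order of H. -/
theorem result {G : Type*} [Group G] [Finite G] (H A : Subgroup G) (hH : Group.IsSolvable H) (hA : (A ≤ Subgroup.normalizer (H : Set G)))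
    (n : ℕ) (c : Fin (n + 1) → Subgroup G) (hc0 : c 0 = H) (hcn : c (Fin.last n) = ⊥) (hanti : Antitone c)
    (hcN : ∀ i, H ≤ Subgroup.normalizer ((c i : Subgroup G) : Set G)) (hcA : ∀ i, A ≤ Subgroup.normalizer ((c i : Subgroup G) : Set G))
    (htriv : ∀ i : Fin n, ⁅c i.castSucc, A⁆ ≤ c i.succ) :
    ∀ p : ℕ, p.Prime → p ∣ (A ⊓ Subgroup.centralizer (H : Set G)).relIndex A → p ∣ Nat.card H := by
  intro p hpp hdvd
  by_contra hpH
  haveI := Fact.mk hpp
  have hc0H : ∀ i, c i ≤ H := fun i => hc0 ▸ hanti (Fin.zero_le i)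
  -- a p-element of A outside the centralizer
  obtain ⟨P⟩ : Nonempty (Sylow p A) := inferInstance
  have hnot : ¬ ((P : Subgroup A) ≤ (A ⊓ Subgroup.centralizer (H : Set G)).subgroupOf A) := by
    intro hle
    have h1 : ((A ⊓ Subgroup.centralizer (H : Set G)).subgroupOf A).index ∣ (P : Subgroup A).index :=
      Subgroup.index_dvd_of_le hle
    exact P.not_dvd_index (hdvd.trans h1)
  obtain ⟨a, haP, haC⟩ := SetLike.not_le_iff_exists.mp hnot
  obtain ⟨k, hk⟩ := (IsPGroup.iff_orderOf.mp P.isPGroup') ⟨a, haP⟩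
  have hak : ((a : A) : G) ^ p ^ k = 1 := by
    have h2 : orderOf (⟨a, haP⟩ : (P : Subgroup A)) = orderOf ((a : A) : G) := by
      rw [Subgroup.orderOf_mk, ← Subgroup.orderOf_coe a]
    rw [← hk, h2, pow_orderOf_eq_one]
  have hcopH : ∀ y ∈ H, y ^ p ^ k = 1 → y = 1 := by
    intro y hy hy1
    have h3 : orderOf y ∣ p ^ k := orderOf_dvd_of_pow_eq_one hy1
    have h4 : orderOf y ∣ Nat.card H := by
      have := orderOf_dvd_natCard (⟨y, hy⟩ : H)
      rwa [Subgroup.orderOf_mk] at this
    have h5 : Nat.Coprime (p ^ k) (Nat.card H) :=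
      Nat.Coprime.pow_left k ((Nat.Prime.coprime_iff_not_dvd hpp).mpr hpH)
    have h6 : orderOf y = 1 := Nat.eq_one_of_dvd_coprimes h5 h3 h4
    exact orderOf_eq_one_iff.mp h6
  have key : ∀ i : Fin (n + 1), ∀ x ∈ c i, (a : G) * x = x * a := by
    intro i
    induction i using Fin.reverseInduction with
    | last =>
      intro x hx
      rw [hcn] at hx
      rw [(Subgroup.mem_bot.mp hx)]; simp
    | cast i ih =>
      intro x hx
      have hy : x * (a : G) * x⁻¹ * (a : G)⁻¹ ∈ c i.succ := htriv i (Subgroup.commutator_mem_commutator hx a.2)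
      set y := x * (a : G) * x⁻¹ * (a : G)⁻¹ with hydef
      have hyc : (a : G) * y = y * a := ih y hy
      -- a x⁻¹ a⁻¹ = x⁻¹ y
      have h1 : (a : G) * x⁻¹ = x⁻¹ * y * a := by
        simp only [hydef]; group
      have h2 : ∀ m : ℕ, (a : G) ^ m * x⁻¹ = x⁻¹ * y ^ m * (a : G) ^ m := by
        intro m
        induction m with
        | zero => simp
        | succ m ihm =>
          have hcomm : Commute ((a : G) ^ m) y := (Commute.pow_left (show Commute (a : G) y from hyc) m)
          calc (a : G) ^ (m + 1) * x⁻¹ = (a : G) ^ m * ((a : G) * x⁻¹) := by rw [pow_succ]; group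
            _ = (a : G) ^ m * (x⁻¹ * y * a) := by rw [h1]
            _ = ((a : G) ^ m * x⁻¹) * y * a := by group
            _ = x⁻¹ * y ^ m * (a : G) ^ m * y * a := by rw [ihm]
            _ = x⁻¹ * y ^ m * ((a : G) ^ m * y) * a := by group
            _ = x⁻¹ * y ^ m * (y * (a : G) ^ m) * a := by rw [hcomm.eq]
            _ = x⁻¹ * y ^ (m + 1) * (a : G) ^ (m + 1) := by
                rw [pow_succ y, pow_succ (a : G)]; group
      have h3 := h2 (p ^ k)
      rw [hak] at h3
      simp only [one_mul, mul_one] at h3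
      have h4 : y ^ p ^ k = 1 := by
        have : x⁻¹ * 1 = x⁻¹ * y ^ p ^ k := by simpa using h3
        exact (mul_left_cancel this).symm
      have h5 : y = 1 := hcopH y (hc0H _ hy) h4
      have h6 : (x * (a : G) * x⁻¹ * (a : G)⁻¹) = 1 := h5
      -- conclude
      have h7 : x * (a : G) * x⁻¹ = a := by
        rwa [mul_inv_eq_one] at h6
      rw [mul_inv_eq_iff_eq_mul] at h7
      exact h7.symm
  apply haC
  rw [Subgroup.mem_subgroupOf]
  refine ⟨a.2, ?_⟩
  change (a : G) ∈ Subgroup.centralizer (H : Set G)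
  rw [Subgroup.mem_centralizer_iff]
  intro h hh
  have := key 0 h (hc0 ▸ hh)
  exact this.symm

end Cfsg.Agent.S1441
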