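import Cfsg.Statements.S1443
import Cfsg.Agent.Lib.OddLocal.Omega
import Cfsg.Agent.Lib.OddLocal.PStep
-- import your own Cfsg.Agent.* helpers here

set_option autoImplicit false
open Cfsg

namespace Cfsg.Agent.S1443

/-- Let G be a finite group, p an odd prime, H a p-subgroup, E an elementary abelian subgroup of H, and A a subgroup of order coprime to p normalizing H. If A centralizes every element of order p in H ∩ C_G(E), then A centralizes H. -/
theorem result {G : Type*} [Group G] [Finite G] (p : ℕ) [Fact p.Prime] (hp : p ≠ 2) (H E A : Subgroup G) (hH : IsPGroup p H) (hE : E ≤ H) (hEe : Cfsg.IsElementaryAbelian p E)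
    (hA : (A ≤ Subgroup.normalizer (H : Set G))) (hcop : (Nat.card A).Coprime p)
    (hfix : ∀ x ∈ (H ⊓ Subgroup.centralizer (E : Set G)), orderOf x = p → A ≤ Subgroup.centralizer ({x} : Set G)) :
    A ≤ Subgroup.centralizer (H : Set G) := by
  -- `A` fixes every element of `E`
  have hEcomm := Cfsg.Agent.Lib.OddLocal.PStep.subgroup_comm_iff.mp hEe.1
  have hEC : E ≤ Subgroup.centralizer (E : Set G) := by
    intro x hx
    rw [Subgroup.mem_centralizer_iff]
    intro y hy
    exact hEcomm y hy x hx
  have hEfix : ∀ x ∈ E, A ≤ Subgroup.centralizer ({x} : Set G) := by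
    intro x hx
    by_cases hx1 : x = 1
    · subst hx1
      intro a _
      rw [Subgroup.mem_centralizer_iff]
      intro h hh
      rw [Set.mem_singleton_iff] at hh
      subst hh
      simp
    have hxp : orderOf x = p := orderOf_eq_prime (hEe.2 x hx) hx1
    exact hfix x ⟨hE hx, hEC hx⟩ hxp
  have hAE : A ≤ Subgroup.centralizer (E : Set G) := by
    intro a ha
    rw [Subgroup.mem_centralizer_iff]
    intro x hx
    have := hEfix x hx ha
    rw [Subgroup.mem_centralizer_iff] at this
    exact this x rfl
  set D : Subgroup G := H ⊓ Subgroup.centralizer (E : Set G) with hDdef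
  have hADn : A ≤ Subgroup.normalizer (D : Set G) := by
    apply Cfsg.Agent.Lib.OddLocal.Omega.le_normalizer_of_conj_mem
    intro a ha x hx
    refine ⟨Cfsg.Agent.Lib.Coprime.Action.conj_mem_of_le_normalizer hA ha hx.1, ?_⟩
    have hae : a ∈ Subgroup.centralizer (E : Set G) := hAE ha
    exact Subgroup.mul_mem _ (Subgroup.mul_mem _ hae hx.2) (Subgroup.inv_mem _ hae)
  have hDp : IsPGroup p D := hH.to_le inf_le_left
  have hAD : A ≤ Subgroup.centralizer (D : Set G) :=
    Cfsg.Agent.Lib.OddLocal.Omega.le_centralizer_of_omega p hp A hcop D hDp hADn (fun x hx hxp => hfix x hx hxp)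
  have hHn : Group.IsNilpotent H := hH.isNilpotent
  have hcH : (Nat.card A).Coprime (Nat.card H) := by
    obtain ⟨k, hk⟩ := IsPGroup.iff_card.mp hH
    rw [hk]
    exact Nat.Coprime.pow_right k hcop
  apply Cfsg.Agent.Lib.Coprime.Ext.le_centralizer_of_self_centralizing H A hHn hA hcH
  -- C_H(C_H(A)) ≤ C_H(E) = D ≤ C_H(A)
  intro x hx
  obtain ⟨hxH, hxC⟩ := Subgroup.mem_inf.mp hx
  have hED : E ≤ H ⊓ Subgroup.centralizer (A : Set G) := by
    intro e he
    refine Subgroup.mem_inf.mpr ⟨hE he, ?_⟩
    rw [Subgroup.mem_centralizer_iff]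
    intro a ha
    have := hAE ha
    rw [Subgroup.mem_centralizer_iff] at this
    exact (this e he).symm
  have hxD : x ∈ D := by
    refine Subgroup.mem_inf.mpr ⟨hxH, ?_⟩
    rw [Subgroup.mem_centralizer_iff]
    intro e he
    rw [Subgroup.mem_centralizer_iff] at hxC
    exact hxC e (hED he)
  refine Subgroup.mem_inf.mpr ⟨hxH, ?_⟩
  rw [Subgroup.mem_centralizer_iff]
  intro a ha
  have := hAD ha
  rw [Subgroup.mem_centralizer_iff] at this
  exact (this x hxD).symm

end Cfsg.Agent.S1443
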