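import Cfsg.Statements.S1462
import Cfsg.Agent.Lib.OddOrder.SCNHyp
import Cfsg.Agent.Lib.QuadAct.OmegaZ

set_option autoImplicit false
open Cfsg

namespace Cfsg.Agent.S1462

/-- Let G be a finite solvable group, p an odd prime with G = O_{p',p,p'}(G), E an elementary abelian p-subgroup contained in no larger elementary abelian p-subgroup of G, and L a subgroup of order coprime to p normalized by E. Then L ≤ O_{p'}(G). -/
theorem result {G : Type*} [Group G] [Finite G] [Group.IsSolvable G] (p : ℕ) [Fact p.Prime] (hp : p ≠ 2) (hpl : Cfsg.PLengthLE p 1 G) (E L : Subgroup G) (hE : Cfsg.IsElementaryAbelian p E)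
    (hEmax : ∀ B : Subgroup G, Cfsg.IsElementaryAbelian p B → E ≤ B → B = E) (hL : (Nat.card L).Coprime p) (hEL : E ≤ Subgroup.normalizer (L : Set G)) :
    L ≤ Cfsg.pPrimeCore p G := by
  have hEc : ∀ a ∈ E, ∀ b ∈ E, a * b = b * a := fun a ha b hb =>
    congrArg Subtype.val (hE.1.is_comm.comm ⟨a, ha⟩ ⟨b, hb⟩)
  have hEp : IsPGroup p E := Cfsg.Agent.Lib.QuadAct.OmegaZ.isPGroup_of_isElementaryAbelian hE
  refine Cfsg.Agent.Lib.OddOrder.SCNHyp.le_pPrimeCore_of_plength hp hpl E L hEp hEc ?_ hL hEL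
  intro x hx
  refine ⟨fun hxp => ?_, hE.2 x⟩
  have hB := Cfsg.Agent.Lib.QuadAct.OmegaZ.isElementaryAbelian_closure (p := p)
    (T := (E : Set G) ∪ {x}) (by
      rintro a (ha | rfl) b (hb | rfl)
      · exact hEc a ha b hb
      · exact (Subgroup.mem_centralizer_iff.mp hx a ha)
      · exact (Subgroup.mem_centralizer_iff.mp hx b hb).symm
      · rfl) (by
      rintro a (ha | rfl)
      · exact hE.2 a ha
      · exact hxp)
  have hle : E ≤ Subgroup.closure ((E : Set G) ∪ {x}) := fun a ha =>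
    Subgroup.subset_closure (Or.inl ha)
  have h1 := hEmax _ hB hle
  rw [← h1]
  exact Subgroup.subset_closure (Or.inr rfl)

end Cfsg.Agent.S1462
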