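import Cfsg.Statements.S1470
-- import your own Cfsg.Agent.* helpers here

set_option autoImplicit false
open Cfsg

namespace Cfsg.Agent.S1470

theorem main_aux (p q : ℕ) [Fact p.Prime] (hq0 : q ≠ 0) (L : Type*) [Field L] [Algebra (ZMod p) L]
    [Module.Finite (ZMod p) L] (hfin : Module.finrank (ZMod p) L = q)
    (hinv : ∀ a : L, Algebra.norm (ZMod p) a = 1 ∧ Algebra.norm (ZMod p) (2 - a) = 1 →
      Algebra.norm (ZMod p) a⁻¹ = 1 ∧ Algebra.norm (ZMod p) (2 - a⁻¹) = 1)
    (a : L) (haE : Algebra.norm (ZMod p) a = 1 ∧ Algebra.norm (ZMod p) (2 - a) = 1) (ha1 : a ≠ 1) :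
    p ≤ q := by
  classical
  set E : Set L := {a : L | Algebra.norm (ZMod p) a = 1 ∧ Algebra.norm (ZMod p) (2 - a) = 1} with hE
  have hstep : ∀ x ∈ E, x ≠ 1 → ∃ x' ∈ E, x' ≠ 1 ∧ (x' - 1)⁻¹ = (x - 1)⁻¹ - 1 := by
    intro x hx hx1
    have h2x : (2 : L) - x ≠ 0 := by
      intro h
      have h1 := hx.2
      rw [h, Algebra.norm_zero] at h1
      exact zero_ne_one h1
    have hx1' : x - 1 ≠ 0 := sub_ne_zero.mpr hx1
    have hE2 : (2 : L) - x ∈ E := by
      refine ⟨hx.2, ?_⟩
      have : (2 : L) - (2 - x) = x := by ring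
      rw [this]
      exact hx.1
    refine ⟨(2 - x)⁻¹, hinv _ hE2, ?_, ?_⟩
    · intro h
      rw [inv_eq_one] at h
      apply hx1
      linear_combination -h
    · have h3 : (2 - x)⁻¹ - 1 = (x - 1) * (2 - x)⁻¹ := by
        field_simp
        ring
      rw [h3, mul_inv, inv_inv]
      field_simp
      ring
  have hnorm : ∀ x ∈ E, x ≠ 1 → Algebra.norm (ZMod p) ((x - 1)⁻¹ + 1) = Algebra.norm (ZMod p) ((x - 1)⁻¹) := by
    intro x hx hx1
    have hx1' : x - 1 ≠ 0 := sub_ne_zero.mpr hx1
    have e : (x - 1)⁻¹ + 1 = x * (x - 1)⁻¹ := by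
      field_simp
      ring
    rw [e, map_mul, hx.1, one_mul]
  set y : L := (a - 1)⁻¹ with hy
  have hchain : ∀ n : ℕ, ∃ x ∈ E, x ≠ 1 ∧ (x - 1)⁻¹ = y - n := by
    intro n
    induction n with
    | zero => exact ⟨a, haE, ha1, by simp [hy]⟩
    | succ n ih =>
      obtain ⟨x, hx, hx1, hxy⟩ := ih
      obtain ⟨x', hx', hx'1, hx'y⟩ := hstep x hx hx1
      refine ⟨x', hx', hx'1, ?_⟩
      rw [hx'y, hxy]
      push_cast
      ring
  have hconst : ∀ n : ℕ, Algebra.norm (ZMod p) (y - n) = Algebra.norm (ZMod p) y := by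
    intro n
    induction n with
    | zero => simp
    | succ n ih =>
      obtain ⟨x, hx, hx1, hxy⟩ := hchain (n + 1)
      have h1 := hnorm x hx hx1
      rw [hxy] at h1
      rw [← ih, ← h1]
      congr 1
      push_cast
      ring
  -- the polynomial
  set g : Polynomial (ZMod p) := (Algebra.lmul (ZMod p) L y).charpoly with hg
  have hgmonic : g.Monic := LinearMap.charpoly_monic _
  have hgdeg : g.natDegree = q := by
    rw [hg, LinearMap.charpoly_natDegree]
    exact hfin
  have heval : ∀ k : ZMod p, g.eval k = Algebra.norm (ZMod p) ((algebraMap (ZMod p) L k) - y) := by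
    intro k
    have h0 : algebraMap (ZMod p) _ k - Algebra.lmul (ZMod p) L y =
        Algebra.lmul (ZMod p) L ((algebraMap (ZMod p) L k) - y) := by
      rw [map_sub, AlgHom.commutes]
    rw [hg, LinearMap.eval_charpoly, Algebra.norm_apply, h0]
  set c : ZMod p := Algebra.norm (ZMod p) (-1 : L) * Algebra.norm (ZMod p) y with hc
  have heval2 : ∀ k : ZMod p, g.eval k = c := by
    intro k
    rw [heval]
    have h1 : (algebraMap (ZMod p) L k) = ((k.val : ℕ) : L) := by
      have h3 : algebraMap (ZMod p) L k = algebraMap (ZMod p) L ((k.val : ℕ) : ZMod p) := by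
        rw [ZMod.natCast_zmod_val]
      rw [h3, map_natCast]
    have h2 : (algebraMap (ZMod p) L k) - y = (-1 : L) * (y - ((k.val : ℕ) : L)) := by
      rw [h1]; ring
    rw [h2, map_mul, hconst]
  by_contra hlt
  push Not at hlt
  have hzero : g - Polynomial.C c = 0 := by
    apply Polynomial.eq_zero_of_natDegree_lt_card_of_eval_eq_zero (f := fun k : ZMod p => k)
      (g - Polynomial.C c) (fun _ _ h => h)
    · intro k
      simp [heval2]
    · rw [ZMod.card]
      calc (g - Polynomial.C c).natDegree ≤ max g.natDegree (Polynomial.C c).natDegree :=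
            Polynomial.natDegree_sub_le _ _
        _ ≤ q := by rw [hgdeg, Polynomial.natDegree_C]; omega
        _ < p := hlt
  have hgC : g = Polynomial.C c := sub_eq_zero.mp hzero
  rw [hgC, Polynomial.natDegree_C] at hgdeg
  exact hq0 hgdeg.symm


/-- Let p and q be odd primes with (p^q − 1)/(p − 1) coprime to p − 1, and let E be the set of elements a of the field with p ^ q elements whose norm to the prime field is 1 and for which 2 − a also has norm 1. If a⁻¹ ∈ E for every a ∈ E and E has at least two elements, then p ≤ q. -/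
theorem result (p q : ℕ) [Fact p.Prime] [Fact q.Prime] (hp : p ≠ 2) (hq : q ≠ 2) (hA : Nat.Coprime ((p ^ q - 1) / (p - 1)) (p - 1))
    (hinv : ∀ a ∈ {a : GaloisField p q | Algebra.norm (ZMod p) a = 1 ∧ Algebra.norm (ZMod p) (2 - a) = 1}, a⁻¹ ∈ {a : GaloisField p q | Algebra.norm (ZMod p) a = 1 ∧ Algebra.norm (ZMod p) (2 - a) = 1})
    (h2 : 2 ≤ Set.ncard {a : GaloisField p q | Algebra.norm (ZMod p) a = 1 ∧ Algebra.norm (ZMod p) (2 - a) = 1}) :
    p ≤ q := by
  have hq0 : q ≠ 0 := (Fact.out : q.Prime).ne_zero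
  obtain ⟨a, haE, ha1⟩ := Set.exists_ne_of_one_lt_ncard (s := {a : GaloisField p q | Algebra.norm (ZMod p) a = 1 ∧ Algebra.norm (ZMod p) (2 - a) = 1}) (by omega) (1 : GaloisField p q)
  exact main_aux p q hq0 (GaloisField p q) (GaloisField.finrank p hq0) (fun a ha => hinv a ha) a haE ha1

end Cfsg.Agent.S1470
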