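import Cfsg.Statements.S1480
import Cfsg.Agent.Lib.Transitivity.Local
import Cfsg.Agent.Lib.Transitivity.Rank
import Cfsg.Agent.Lib.OddOrder.Transitivity
import Cfsg.Agent.Lib.OddLocal.PStep
-- import your own Cfsg.Agent.* helpers here

set_option autoImplicit false
open Cfsg

namespace Cfsg.Agent.S1480


open Cfsg Cfsg.Agent.Lib.OddOrder.Transitivity Cfsg.Agent.Lib.Core.Basic
  Cfsg.Agent.Lib.Coprime.Action

theorem le_normalizer_sup {G : Type*} [Group G] {T A B : Subgroup G}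
    (hA : T ≤ Subgroup.normalizer (A : Set G)) (hB : T ≤ Subgroup.normalizer (B : Set G)) :
    T ≤ Subgroup.normalizer ((A ⊔ B : Subgroup G) : Set G) := by
  rw [Subgroup.le_normalizer_iff]
  intro t ht x hx
  have hle : A ⊔ B ≤ (A ⊔ B : Subgroup G).comap (MulAut.conj t).toMonoidHom := by
    apply sup_le
    · intro a ha
      exact Subgroup.mem_sup_left ((Subgroup.mem_normalizer_iff.mp (hA ht) a).1 ha)
    · intro a ha
      exact Subgroup.mem_sup_right ((Subgroup.mem_normalizer_iff.mp (hB ht) a).1 ha)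
  exact hle hx

theorem le_normalizer_inf {G : Type*} [Group G] {T A B : Subgroup G}
    (hA : T ≤ Subgroup.normalizer (A : Set G)) (hB : T ≤ Subgroup.normalizer (B : Set G)) :
    T ≤ Subgroup.normalizer ((A ⊓ B : Subgroup G) : Set G) := by
  rw [Subgroup.le_normalizer_iff]
  intro t ht x hx
  exact ⟨(Subgroup.mem_normalizer_iff.mp (hA ht) x).1 hx.1,
    (Subgroup.mem_normalizer_iff.mp (hB ht) x).1 hx.2⟩

theorem primes_of_isPGroup {G : Type*} [Group G] [Finite G] {q : ℕ} [Fact q.Prime] {Y : Subgroup G}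
    (h : IsPGroup q Y) : ∀ r : ℕ, r.Prime → r ∣ Nat.card Y → r ∈ ({q} : Set ℕ) := by
  intro r hr hd
  obtain ⟨n, hn⟩ := IsPGroup.iff_card.mp h
  rw [hn] at hd
  exact (Nat.prime_dvd_prime_iff_eq hr Fact.out).mp (hr.dvd_of_dvd_pow hd)

theorem trans_aux {G : Type*} [Group G] [Finite G] (p : ℕ) [Fact p.Prime]
    (hloc : ∀ T : Subgroup G, IsPGroup p T → T ≠ ⊥ → Cfsg.IsPConstrained p ↥(Subgroup.normalizer (T : Set G)))
    (h2 : p = 2 → ∀ S : Sylow p G, Group.IsNilpotent (S : Subgroup G) ∧ Group.nilpotencyClass (S : Subgroup G) ≤ 2)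
    (E : Subgroup G) (hEp : IsPGroup p E) (hEc : ∀ a ∈ E, ∀ b ∈ E, a * b = b * a)
    (hE3 : ¬ Cfsg.PRankLE p 2 E)
    (hEfull : ∀ x ∈ Subgroup.centralizer (E : Set G), IsPGroup p (Subgroup.zpowers x) → x ∈ E)
    (q : ℕ) [Fact q.Prime] (hqp : q ≠ p) :
    ∀ (n : ℕ) (Q₁ Q₂ : Subgroup G), Nat.card G - Nat.card ↥(Q₁ ⊓ Q₂) = n →
      Q₁ ∈ Cfsg.maxInvSubgroups ⊤ E {q} → Q₂ ∈ Cfsg.maxInvSubgroups ⊤ E {q} →
      ∃ k ∈ Cfsg.piCoreOf (Cfsg.primesNotDvd p) (Subgroup.centralizer (E : Set G)), Q₂ = conjSub k Q₁ := by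
  classical
  set C := Subgroup.centralizer (E : Set G) with hC
  set K := Cfsg.piCoreOf (Cfsg.primesNotDvd p) C with hK
  have hpp : p.Prime := Fact.out
  have hqq : q.Prime := Fact.out
  have hEsolv : Group.IsSolvable E := by
    haveI := hEp.isNilpotent
    infer_instance
  intro n
  induction n using Nat.strong_induction_on with
  | _ n ih =>
  intro Q₁ Q₂ hn h₁ h₂
  set D := Q₁ ⊓ Q₂ with hDdef
  by_cases h1D : D = Q₁
  · have hle : Q₁ ≤ Q₂ := by rw [← h1D]; exact inf_le_right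
    exact ⟨1, K.one_mem, by rw [conjSub_one]; exact h₁.2 Q₂ h₂.1 hle⟩
  by_cases h2D : D = Q₂
  · have hle : Q₂ ≤ Q₁ := by rw [← h2D]; exact inf_le_left
    exact ⟨1, K.one_mem, by rw [conjSub_one]; exact (h₂.2 Q₁ h₁.1 hle).symm⟩
  have hQ₁p : IsPGroup q Q₁ := isPGroup_of_primes h₁.1.2.1
  have hQ₂p : IsPGroup q Q₂ := isPGroup_of_primes h₂.1.2.1
  have hD1 : D < Q₁ := lt_of_le_of_ne inf_le_left h1D
  have hD2 : D < Q₂ := lt_of_le_of_ne inf_le_right h2D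
  have hEQ₁ : E ≤ Subgroup.normalizer (Q₁ : Set G) := h₁.1.2.2
  have hEQ₂ : E ≤ Subgroup.normalizer (Q₂ : Set G) := h₂.1.2.2
  set N := Subgroup.normalizer (D : Set G) with hN
  have hEN : E ≤ N := le_normalizer_inf hEQ₁ hEQ₂
  have hENN : E ≤ Subgroup.normalizer (N : Set G) := by
    rw [Subgroup.le_normalizer_iff]
    intro e he x hx
    exact N.mul_mem (N.mul_mem (hEN he) hx) (N.inv_mem (hEN he))
  have hN₁ := exists_mem_normalizer_of_lt hQ₁p hD1
  have hN₂ := exists_mem_normalizer_of_lt hQ₂p hD2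
  obtain ⟨b, hbE, hb1, ⟨x₁, hx₁, hx₁D, hbx₁⟩, ⟨x₂, hx₂, hx₂D, hbx₂⟩⟩ :=
    Cfsg.Agent.Lib.Transitivity.Rank.exists_common_fixed (p := p) (q := q) hqp.symm E
      (Q₁ ⊓ N) (Q₂ ⊓ N) D hEc hE3 (hQ₁p.to_le inf_le_left) (hQ₂p.to_le inf_le_left) hN₁ hN₂
      inf_le_right inf_le_right hEN (le_normalizer_inf hEQ₁ hENN) (le_normalizer_inf hEQ₂ hENN)
  -- the local subgroup
  set T := Subgroup.zpowers b with hT
  have hTp : IsPGroup p T := hEp.to_le ((Subgroup.zpowers_le).mpr hbE)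
  have hT1 : T ≠ ⊥ := by
    rw [hT, Ne, Subgroup.zpowers_eq_bot]
    exact hb1
  set X := Subgroup.normalizer (T : Set G) with hX
  have hXc := hloc T hTp hT1
  have hcb : ∀ y : G, y * b = b * y → y ∈ X := by
    intro y hy
    apply Subgroup.centralizer_le_normalizer
    rw [Subgroup.mem_centralizer_iff]
    intro t ht
    obtain ⟨i, rfl⟩ := Subgroup.mem_zpowers_iff.mp ht
    have hc : Commute y b := hy
    exact (hc.zpow_right i).eq.symm
  have hEX : E ≤ X := fun e he => hcb e (hEc e he b hbE)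
  have hCX : C ≤ X := fun c hc => hcb c (Subgroup.mem_centralizer_iff.mp hc b hbE).symm
  set CB := Subgroup.centralizer ({b} : Set G) with hCB
  have hCBmem : ∀ y : G, y ∈ CB ↔ y * b = b * y := by
    intro y
    rw [hCB, Subgroup.mem_centralizer_singleton_iff]
  have hECB : E ≤ Subgroup.normalizer (CB : Set G) := by
    rw [Subgroup.le_normalizer_iff]
    intro e he y hy
    rw [hCBmem] at hy ⊢
    have h1 : e * b = b * e := hEc e he b hbE
    have h2 : e⁻¹ * b = b * e⁻¹ := hEc _ (E.inv_mem he) b hbE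
    calc e * y * e⁻¹ * b = e * y * (e⁻¹ * b) := by group
      _ = e * y * (b * e⁻¹) := by rw [h2]
      _ = e * (y * b) * e⁻¹ := by group
      _ = e * (b * y) * e⁻¹ := by rw [hy]
      _ = (e * b) * y * e⁻¹ := by group
      _ = (b * e) * y * e⁻¹ := by rw [h1]
      _ = b * (e * y * e⁻¹) := by group
  set Y₁ := (Q₁ ⊓ N) ⊓ CB with hY₁
  set Y₂ := (Q₂ ⊓ N) ⊓ CB with hY₂
  have hEY₁ : E ≤ Subgroup.normalizer (Y₁ : Set G) :=
    le_normalizer_inf (le_normalizer_inf hEQ₁ hENN) hECB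
  have hEY₂ : E ≤ Subgroup.normalizer (Y₂ : Set G) :=
    le_normalizer_inf (le_normalizer_inf hEQ₂ hENN) hECB
  have hY₁p : IsPGroup q Y₁ := hQ₁p.to_le (inf_le_left.trans inf_le_left)
  have hY₂p : IsPGroup q Y₂ := hQ₂p.to_le (inf_le_left.trans inf_le_left)
  have hcopq : ∀ Y : Subgroup G, IsPGroup q Y → (Nat.card Y).Coprime p := by
    intro Y hY
    obtain ⟨m, hm⟩ := IsPGroup.iff_card.mp hY
    rw [hm]
    exact Nat.Coprime.pow_left m ((Nat.coprime_primes hqq hpp).mpr hqp)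
  set L := (Cfsg.pPrimeCore p ↥X).map X.subtype with hL
  have hY₁L : Y₁ ≤ L := Cfsg.Agent.Lib.Transitivity.Local.le_core_of_invariant X E Y₁ hXc hEX
    (fun y hy => hcb y ((hCBmem y).mp hy.2)) hEp hEc hEfull hEY₁ (hcopq _ hY₁p) h2
  have hY₂L : Y₂ ≤ L := Cfsg.Agent.Lib.Transitivity.Local.le_core_of_invariant X E Y₂ hXc hEX
    (fun y hy => hcb y ((hCBmem y).mp hy.2)) hEp hEc hEfull hEY₂ (hcopq _ hY₂p) h2
  have hLc : (Nat.card L).Coprime p := by
    have h1 : Nat.card L = Nat.card (Cfsg.pPrimeCore p ↥X) :=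
      Subgroup.card_map_of_injective X.subtype_injective
    rw [h1]
    exact pPrimeCore_coprime
  have hLN : ∀ g ∈ X, ∀ x ∈ L, g * x * g⁻¹ ∈ L := by
    intro g hg x hx
    obtain ⟨y, hy, rfl⟩ := hx
    refine ⟨⟨g, hg⟩ * y * ⟨g, hg⟩⁻¹, (Cfsg.pPrimeCore_normal p ↥X).conj_mem y hy ⟨g, hg⟩, by simp⟩
  have hEL : E ≤ Subgroup.normalizer (L : Set G) := by
    rw [Subgroup.le_normalizer_iff]
    exact fun e he x hx => hLN e (hEX he) x hx
  set M := L ⊓ N with hM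
  have hEM : E ≤ Subgroup.normalizer (M : Set G) := le_normalizer_inf hEL hENN
  have hcopEM : (Nat.card E).Coprime (Nat.card M) := by
    obtain ⟨m, hm⟩ := IsPGroup.iff_card.mp hEp
    rw [hm]
    apply Nat.Coprime.pow_left
    exact (Nat.Coprime.coprime_dvd_left (Subgroup.card_dvd_of_le (inf_le_left : M ≤ L)) hLc).symm
  have hY₁M : Y₁ ≤ M := le_inf hY₁L (inf_le_left.trans inf_le_right)
  have hY₂M : Y₂ ≤ M := le_inf hY₂L (inf_le_left.trans inf_le_right)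
  obtain ⟨R₁, hR₁, hER₁, hYR₁⟩ := exists_invariant_sylowIn_ge (p := q) hEM hcopEM (Or.inl hEsolv) hY₁M hY₁p hEY₁
  obtain ⟨R₂, hR₂, hER₂, hYR₂⟩ := exists_invariant_sylowIn_ge (p := q) hEM hcopEM (Or.inl hEsolv) hY₂M hY₂p hEY₂
  obtain ⟨c, hc, hcc⟩ := invariant_sylowIn_conj hEM hcopEM (Or.inl hEsolv) hR₁ hR₂ hER₁ hER₂
  rw [Cfsg.Agent.Lib.Coprime.SchurZassenhaus.conj_smul_eq_map] at hcc
  obtain ⟨⟨hcL, hcN⟩, hcC⟩ := hc
  -- `c` lies in `K`
  have hcK : c ∈ K := by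
    have hTn : (L.subgroupOf C).Normal := by
      constructor
      rintro ⟨n', hn'⟩ hn'' ⟨g, hg⟩
      exact hLN g (hCX hg) n' hn''
    have hTπ : ∀ r : ℕ, r.Prime → r ∣ Nat.card (L.subgroupOf C) → r ∈ Cfsg.primesNotDvd p := by
      intro r hr hd
      refine ⟨hr, fun hrp => ?_⟩
      have hrp' : r = p := (Nat.prime_dvd_prime_iff_eq hr hpp).mp hrp
      have h3 : Nat.card (L.subgroupOf C) ∣ Nat.card L := card_subgroupOf_dvd L C
      have h4 := Nat.Coprime.coprime_dvd_left (hd.trans h3) hLc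
      rw [hrp'] at h4
      exact hpp.one_lt.ne' (by simpa using h4)
    have hle : L.subgroupOf C ≤ Cfsg.piCore (Cfsg.primesNotDvd p) C := le_piCore hTn hTπ
    exact ⟨⟨c, hcC⟩, hle (show (⟨c, hcC⟩ : C) ∈ L.subgroupOf C from hcL), rfl⟩
  -- the third subgroup
  have hR₁N : R₁ ≤ N := hR₁.1.trans inf_le_right
  have hsupp : IsPGroup q (D ⊔ R₁ : Subgroup G) :=
    IsPGroup.to_sup_of_normal_left' (hQ₁p.to_le hD1.le) hR₁.2.1 hR₁N
  have hEsup : E ≤ Subgroup.normalizer ((D ⊔ R₁ : Subgroup G) : Set G) :=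
    le_normalizer_sup hEN hER₁
  obtain ⟨Q₃, hQ₃, hQ₃le⟩ := exists_le_maxInv (H := ⊤) (A := E) (π := {q}) (Y := D ⊔ R₁)
    ⟨le_top, primes_of_isPGroup hsupp, hEsup⟩
  have hcCE : c ∈ Subgroup.centralizer (E : Set G) := hcC
  have hQ₃k : conjSub c Q₃ ∈ Cfsg.maxInvSubgroups ⊤ E {q} := conjSub_mem_maxInvTop hcCE hQ₃
  have hlt₁ : D < Q₁ ⊓ Q₃ := by
    refine lt_of_le_of_ne (le_inf inf_le_left (le_sup_left.trans hQ₃le)) ?_
    intro h
    apply hx₁D
    rw [h]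
    refine ⟨hx₁.1, hQ₃le (Subgroup.mem_sup_right (hYR₁ ⟨hx₁, (hCBmem x₁).mpr hbx₁.symm⟩))⟩
  have hlt₂ : D < conjSub c Q₃ ⊓ Q₂ := by
    refine lt_of_le_of_ne (le_inf ?_ inf_le_right) ?_
    · intro d hd
      rw [mem_conjSub]
      apply hQ₃le
      apply Subgroup.mem_sup_left
      have := (Subgroup.mem_normalizer_iff.mp (N.inv_mem hcN) d).1 hd
      simpa using this
    · intro h
      apply hx₂D
      rw [h]
      refine ⟨?_, hx₂.1⟩
      have h5 : x₂ ∈ R₂ := hYR₂ ⟨hx₂, (hCBmem x₂).mpr hbx₂.symm⟩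
      rw [← hcc] at h5
      exact conjSub_mono c (le_sup_right.trans hQ₃le) h5
  have hcardlt : ∀ F : Subgroup G, D < F → Nat.card G - Nat.card F < n := by
    intro F hF
    have h1 : Nat.card D < Nat.card F := card_lt_of_lt hF
    have h2' : Nat.card F ≤ Nat.card G := Subgroup.card_le_card_group F
    omega
  obtain ⟨k₁, hk₁, hkk₁⟩ := ih _ (hcardlt _ hlt₁) Q₁ Q₃ rfl h₁ hQ₃
  obtain ⟨k₂, hk₂, hkk₂⟩ := ih _ (hcardlt _ hlt₂) (conjSub c Q₃) Q₂ rfl hQ₃k h₂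
  refine ⟨k₂ * (c * k₁), K.mul_mem hk₂ (K.mul_mem hcK hk₁), ?_⟩
  rw [conjSub_mul, conjSub_mul, ← hkk₁, ← hkk₂]


/-- Let G be a finite group and p a prime such that the normalizer of every nontrivial p-subgroup of G is p-constrained; if p = 2 assume also that the Sylow 2-subgroups of G have nilpotency class at most 2. Let E be an abelian p-subgroup containing an elementary abelian subgroup of order p ^ 3 and containing every element of p-power order of C_G(E). Then for every prime q ≠ p, any two maximal E-invariant q-subgroups of G are conjugate by an element of O_{p'}(C_G(E)). -/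
theorem result {G : Type*} [Group G] [Finite G] (p : ℕ) [Fact p.Prime]
    (hloc : ∀ T : Subgroup G, IsPGroup p T → T ≠ ⊥ → Cfsg.IsPConstrained p ↥(Subgroup.normalizer (T : Set G)))
    (h2 : p = 2 → ∀ S : Sylow p G, Group.IsNilpotent (S : Subgroup G) ∧ Group.nilpotencyClass (S : Subgroup G) ≤ 2)
    (E : Subgroup G) (hEp : IsPGroup p E) (hEc : IsMulCommutative E) (hE3 : ¬ Cfsg.PRankLE p 2 E)
    (hEfull : ∀ x ∈ Subgroup.centralizer (E : Set G), IsPGroup p (Subgroup.zpowers x) → x ∈ E)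
    (q : ℕ) [Fact q.Prime] (hqp : q ≠ p) :
    ∀ Q₁ ∈ Cfsg.maxInvSubgroups ⊤ E {q}, ∀ Q₂ ∈ Cfsg.maxInvSubgroups ⊤ E {q},
        ∃ k ∈ Cfsg.piCoreOf (Cfsg.primesNotDvd p) (Subgroup.centralizer (E : Set G)), Q₂ = Q₁.map (MulAut.conj k).toMonoidHom := by
  intro Q₁ hQ₁ Q₂ hQ₂
  exact trans_aux p hloc h2 E hEp
    ((Cfsg.Agent.Lib.OddLocal.PStep.subgroup_comm_iff).mp hEc) hE3 hEfull q hqp _ Q₁ Q₂ rfl hQ₁ hQ₂

end Cfsg.Agent.S1480
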