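import Cfsg.Statements.S1485
import Cfsg.Agent.Lib.Char.Clifford

set_option autoImplicit false
open Cfsg

namespace Cfsg.Agent.S1485

open Cfsg.Agent.Lib.Char.Conj Cfsg.Agent.Lib.Char.Clifford Cfsg.Agent.Lib.Char.Induced

/-- Let H be a normal subgroup of the finite group G and θ an irreducible character of H. On H, the function induced from θ equals r times the sum of the distinct G-conjugates of θ, where r is the number of elements of G fixing θ under conjugation divided by the order of H (the index of H in the inertia group). -/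
theorem result {G : Type*} [Group G] [Fintype G] (H : Subgroup G) [hN : H.Normal] (θ : H → ℂ) (hθ : Cfsg.IsIrrCharacter H θ) : (fun h : H => Cfsg.indFun H θ h) = ((Nat.card {g : G // ∀ h : H, θ ⟨g * h * g⁻¹, hN.conj_mem h h.2 g⟩ = θ h} : ℂ) / (Nat.card H : ℂ)) • ∑ᶠ ψ ∈ {ψ : H → ℂ | ∃ g : G, ψ = fun h : H => θ ⟨g * h * g⁻¹, hN.conj_mem h h.2 g⟩}, ψ := by
  classical
  rw [restrict_indFun_of_normal hN θ]
  have hset : {ψ : H → ℂ | ∃ g : G, ψ = fun h : H => θ ⟨g * h * g⁻¹, hN.conj_mem h h.2 g⟩} =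
      ↑(orbitFinset hN θ) := by
    ext ψ
    simp only [Set.mem_ofPred_eq, Finset.mem_coe, mem_orbitFinset]
    constructor
    · rintro ⟨g, rfl⟩
      exact ⟨g, rfl⟩
    · rintro ⟨g, rfl⟩
      exact ⟨g, rfl⟩
  rw [hset, finsum_mem_coe_finset]
  have h1 : ∑ x : G, conjOn hN x⁻¹ θ = ∑ x : G, conjOn hN x θ :=
    Fintype.sum_equiv (Equiv.inv G) _ _ (fun x => rfl)
  rw [h1]
  have h2 : ∑ x : G, conjOn hN x θ = ∑ b ∈ orbitFinset hN θ, (Finset.univ.filter (fun a : G => conjOn hN a θ = b)).card • b := by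
    have := Finset.sum_comp (s := (Finset.univ : Finset G)) (fun b : H → ℂ => b) (fun x : G => conjOn hN x θ)
    exact this
  have hcard : ∀ b ∈ orbitFinset hN θ, (Finset.univ.filter (fun a : G => conjOn hN a θ = b)).card =
      Nat.card {g : G // ∀ h : H, θ ⟨g * h * g⁻¹, hN.conj_mem h h.2 g⟩ = θ h} := by
    intro b hb
    obtain ⟨g, rfl⟩ := (mem_orbitFinset hN θ b).mp hb
    rw [← Fintype.card_subtype, ← Nat.card_eq_fintype_card]
    refine Nat.card_congr ⟨fun a => ⟨a.1 * g⁻¹, ?_⟩, fun t => ⟨t.1 * g, ?_⟩, ?_, ?_⟩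
    · intro h
      have h3 : conjOn hN (a.1 * g⁻¹) θ = θ := by
        rw [conjOn_mul, a.2, conjOn_inv_conjOn]
      exact congrFun h3 h
    · have h3 : conjOn hN t.1 θ = θ := funext t.2
      change conjOn hN (t.1 * g) θ = _
      rw [conjOn_mul, h3]
    · intro a
      simp
    · intro t
      simp
  rw [h2, Finset.sum_congr rfl (fun b hb => by rw [hcard b hb])]
  rw [← Finset.smul_sum]
  rw [← Nat.cast_smul_eq_nsmul ℂ, smul_smul, div_eq_inv_mul]

end Cfsg.Agent.S1485
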