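import Cfsg.Statements.S1487
import Cfsg.Agent.Lib.Char.Clifford
import Cfsg.Agent.Lib.Char.Degree

set_option autoImplicit false
open Cfsg

namespace Cfsg.Agent.S1487

open Cfsg.Agent.Lib.Char.Conj Cfsg.Agent.Lib.Char.Clifford Cfsg.Agent.Lib.Char.Induced Cfsg.Agent.Lib.Char.Ortho Cfsg.Agent.Lib.Char.Basic Cfsg.Agent.Lib.Char.Degree Cfsg.Agent.Lib.Char.Complete

theorem ind_one {G : Type*} [Group G] [Fintype G] (H : Subgroup G) (hN : H.Normal) (θ : H → ℂ) :
    Cfsg.indFun H θ 1 = (Nat.card H : ℂ)⁻¹ * ∑ _x : G, θ 1 := by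
  have := indFun_apply_of_normal hN θ 1
  rw [show ((1 : H) : G) = 1 from rfl] at this
  rw [this]
  congr 1
  refine Finset.sum_congr rfl fun x _ => ?_
  rw [conjOn_apply]
  congr 1
  ext
  simp


/-- Let A ≤ H be normal subgroups of the finite group G and θ an irreducible character of H. Then θ takes the value θ 1 on all of A if and only if the function induced from θ to G takes its value at 1 on all of A. -/
theorem result {G : Type*} [Group G] [Fintype G] (A H : Subgroup G) [A.Normal] [H.Normal] (hAH : A ≤ H) (θ : H → ℂ) (hθ : Cfsg.IsIrrCharacter H θ) : (∀ a : H, (a : G) ∈ A → θ a = θ 1) ↔ (∀ a : G, a ∈ A → Cfsg.indFun H θ a = Cfsg.indFun H θ 1) := by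
  classical
  have hN : H.Normal := inferInstance
  have hne : (Nat.card H : ℂ) ≠ 0 := by exact_mod_cast Nat.card_pos.ne'
  constructor
  · intro h a ha
    have haH := hAH ha
    have h1 := indFun_apply_of_normal hN θ ⟨a, haH⟩
    rw [show ((⟨a, haH⟩ : H) : G) = a from rfl] at h1
    rw [h1, ind_one H hN]
    congr 1
    refine Finset.sum_congr rfl fun x _ => ?_
    rw [conjOn_apply]
    exact h _ (by
      have := (inferInstance : A.Normal).conj_mem a ha x⁻¹
      exact this)
  · intro h a ha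
    have hI := h a ha
    rw [indFun_apply_of_normal hN θ a, ind_one H hN] at hI
    have hI2 := mul_left_cancel₀ (inv_ne_zero hne) hI
    have hθc := isCharacter_of_isIrrCharacter hθ
    obtain ⟨n, hn⟩ := exists_deg_of_isCharacter hθc
    have hdeg : ∀ y : H, ‖θ y‖ ≤ (n : ℝ) := by
      intro y
      have h1 := norm_le_charDegree hθc y
      have h2 := charDegree_natCast hθc
      rw [hn] at h2
      have h3 : charDegree θ = n := by exact_mod_cast h2
      rwa [h3] at h1
    have hre : ∑ x : G, ((n : ℝ) - (conjOn hN x⁻¹ θ a).re) = 0 := by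
      have h4 := congrArg Complex.re hI2
      rw [Complex.re_sum, Complex.re_sum] at h4
      rw [Finset.sum_sub_distrib, h4]
      simp [hn]
    have hnn : ∀ x ∈ (Finset.univ : Finset G), 0 ≤ (n : ℝ) - (conjOn hN x⁻¹ θ a).re := by
      intro x _
      have h5 := hdeg ⟨x⁻¹ * a * x⁻¹⁻¹, hN.conj_mem a a.2 x⁻¹⟩
      have h6 := Complex.re_le_norm (θ ⟨x⁻¹ * a * x⁻¹⁻¹, hN.conj_mem a a.2 x⁻¹⟩)
      rw [conjOn_apply]
      linarith
    have hz := (Finset.sum_eq_zero_iff_of_nonneg hnn).mp hre 1 (Finset.mem_univ 1)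
    have hconj : conjOn hN (1 : G)⁻¹ θ = θ := by rw [inv_one, conjOn_one]
    rw [hconj] at hz
    have hre2 : (θ a).re = n := by linarith
    have hnorm := hdeg a
    have him : (θ a).im = 0 := by
      have h7 : ‖θ a‖ ^ 2 = (θ a).re ^ 2 + (θ a).im ^ 2 := by
        rw [Complex.sq_norm, Complex.normSq_apply]
        ring
      have h8 : ‖θ a‖ ^ 2 ≤ (n : ℝ) ^ 2 := by gcongr
      rw [h7, hre2] at h8
      nlinarith [sq_nonneg (θ a).im]
    rw [hn]
    apply Complex.ext
    · simpa using hre2
    · simpa using him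

end Cfsg.Agent.S1487
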