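import Cfsg.Statements.S1488

set_option autoImplicit false
open Cfsg

namespace Cfsg.Agent.S1488

/-- Let A be a normal subgroup of the finite group G contained in the subgroup H, let θ be a function on H and θ₁ a function on the image of H in G ⧸ A whose composite with the projection is θ. Then the function induced from θ₁ to G ⧸ A, composed with the projection G → G ⧸ A, equals the function induced from θ to G. -/
theorem result {G : Type*} [Group G] [Fintype G] (A H : Subgroup G) [A.Normal] (hAH : A ≤ H) [Fintype (G ⧸ A)] [Fintype ↥(H.map (QuotientGroup.mk' A))] (θ : H → ℂ) (θ₁ : ↥(H.map (QuotientGroup.mk' A)) → ℂ) (hθ : ∀ x : H, θ₁ ⟨QuotientGroup.mk' A x, Subgroup.mem_map_of_mem _ x.2⟩ = θ x) (g : G) : Cfsg.indFun (H.map (QuotientGroup.mk' A)) θ₁ (QuotientGroup.mk' A g) = Cfsg.indFun H θ g := by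
  classical
  have hmem : ∀ y : G, (QuotientGroup.mk' A y ∈ H.map (QuotientGroup.mk' A)) ↔ y ∈ H := by
    intro y
    constructor
    · rintro ⟨z, hz, hzy⟩
      have : z⁻¹ * y ∈ A := by
        rw [← QuotientGroup.eq]
        exact hzy
      have := H.mul_mem hz (hAH this)
      simpa using this
    · exact fun hy => Subgroup.mem_map_of_mem _ hy
  -- compare extension by zero
  have hext : ∀ y : G, Cfsg.extendByZero (H.map (QuotientGroup.mk' A)) θ₁ (QuotientGroup.mk' A y) = Cfsg.extendByZero H θ y := by
    intro y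
    by_cases hy : y ∈ H
    · have e1 : Cfsg.extendByZero (H.map (QuotientGroup.mk' A)) θ₁ (QuotientGroup.mk' A y) = θ₁ ⟨QuotientGroup.mk' A y, (hmem y).2 hy⟩ :=
        (Subtype.val_injective.extend_apply θ₁ 0 (⟨QuotientGroup.mk' A y, (hmem y).2 hy⟩ : (H.map (QuotientGroup.mk' A))))
      have e2 : Cfsg.extendByZero H θ y = θ ⟨y, hy⟩ :=
        (Subtype.val_injective.extend_apply θ 0 (⟨y, hy⟩ : H))
      rw [e1, e2]
      exact hθ ⟨y, hy⟩
    · have e1 : Cfsg.extendByZero (H.map (QuotientGroup.mk' A)) θ₁ (QuotientGroup.mk' A y) = 0 := by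
        unfold Cfsg.extendByZero
        rw [Function.extend_apply']
        · rfl
        · rintro ⟨a, ha⟩
          exact hy ((hmem y).1 (ha ▸ a.2))
      have e2 : Cfsg.extendByZero H θ y = 0 := by
        unfold Cfsg.extendByZero
        rw [Function.extend_apply']
        · rfl
        · rintro ⟨a, ha⟩
          exact hy (ha ▸ a.2)
      rw [e1, e2]
  have hsum : ∑ x : G, Cfsg.extendByZero H θ (x⁻¹ * g * x) =
      (Nat.card A : ℂ) * ∑ y : G ⧸ A, Cfsg.extendByZero (H.map (QuotientGroup.mk' A)) θ₁ (y⁻¹ * QuotientGroup.mk' A g * y) := by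
    have : ∀ x : G, Cfsg.extendByZero H θ (x⁻¹ * g * x) = (fun y : G ⧸ A => Cfsg.extendByZero (H.map (QuotientGroup.mk' A)) θ₁ (y⁻¹ * QuotientGroup.mk' A g * y)) (QuotientGroup.mk' A x) := by
      intro x
      simp only
      rw [← hext]
      simp [map_mul, map_inv]
    simp_rw [this]
    rw [← Finset.sum_fiberwise (s := Finset.univ) (g := QuotientGroup.mk' A) (f := fun x => (fun y : G ⧸ A => Cfsg.extendByZero (H.map (QuotientGroup.mk' A)) θ₁ (y⁻¹ * QuotientGroup.mk' A g * y)) (QuotientGroup.mk' A x))]
    rw [Finset.mul_sum]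
    refine Finset.sum_congr rfl fun y _ => ?_
    have hcard : (Finset.univ.filter (fun x : G => QuotientGroup.mk' A x = y)).card = Nat.card A := by
      obtain ⟨y0, rfl⟩ := QuotientGroup.mk'_surjective A y
      have e : A ≃ {x : G // QuotientGroup.mk' A x = QuotientGroup.mk' A y0} :=
        { toFun := fun a => ⟨y0 * a, by
            have : (QuotientGroup.mk' A) (a : G) = 1 := by simp
            rw [map_mul, this, mul_one]⟩
          invFun := fun x => ⟨y0⁻¹ * x, by
            have := x.2
            exact QuotientGroup.eq.1 this.symm⟩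
          left_inv := fun a => by simp
          right_inv := fun x => by
            apply Subtype.ext
            simp }
      rw [Nat.card_congr e, Nat.card_eq_fintype_card, Fintype.card_subtype]
    rw [Finset.sum_congr rfl (g := fun _ => (fun y : G ⧸ A => Cfsg.extendByZero (H.map (QuotientGroup.mk' A)) θ₁ (y⁻¹ * QuotientGroup.mk' A g * y)) y)]
    · simp only [Finset.sum_const, nsmul_eq_mul, hcard]
    · intro x hx
      simp only [Finset.mem_filter, Finset.mem_univ, true_and] at hx
      rw [hx]
  unfold Cfsg.indFun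
  rw [hsum]
  have hc1 : Nat.card H = Nat.card (H.map (QuotientGroup.mk' A)) * Nat.card A := by
    have h1 := Subgroup.card_mul_index H
    have h2 := Subgroup.card_mul_index (H.map (QuotientGroup.mk' A))
    have h3 : (H.map (QuotientGroup.mk' A)).index = H.index := by
      rw [Subgroup.index_map, QuotientGroup.ker_mk', sup_of_le_left hAH,
        MonoidHom.range_eq_top.2 (QuotientGroup.mk'_surjective A), Subgroup.index_top, mul_one]
    have h4 := A.card_eq_card_quotient_mul_card_subgroup
    rw [h3] at h2
    have hi : H.index ≠ 0 := Subgroup.index_ne_zero_of_finite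
    apply Nat.eq_of_mul_eq_mul_right (Nat.pos_of_ne_zero hi)
    rw [h1, mul_right_comm, h2, ← h4]
  have hA0 : (Nat.card A : ℂ) ≠ 0 := by
    exact_mod_cast Nat.card_pos.ne'
  have hb0 : (Nat.card (H.map (QuotientGroup.mk' A)) : ℂ) ≠ 0 := by
    exact_mod_cast Nat.card_pos.ne'
  rw [hc1]
  push_cast
  field_simp

end Cfsg.Agent.S1488
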