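import Cfsg.Statements.S1490
import Cfsg.Agent.Lib.OddChar.Inertia2

set_option autoImplicit false
open Cfsg

namespace Cfsg.Agent.S1490


/-- Let H be a normal subgroup of the finite group G, θ an irreducible character of H with inertia group T, and suppose the commutator of any two elements of T lies in H (T/H abelian). Then there are a positive integer e and a finite set C of irreducible characters of G with e ^ 2 * |C| * |H| = |T|, such that the function induced from θ is e times the sum of the members of C and every member of C has degree [G:T] * e * θ(1). -/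
theorem result {G : Type*} [Group G] [Fintype G] (H T : Subgroup G) [hN : H.Normal] (θ : H → ℂ) (hθ : Cfsg.IsIrrCharacter H θ) (hT : ∀ g : G, g ∈ T ↔ ∀ h : H, θ ⟨g * h * g⁻¹, hN.conj_mem h h.2 g⟩ = θ h) (hab : ∀ x ∈ T, ∀ y ∈ T, x * y * x⁻¹ * y⁻¹ ∈ H) : ∃ (e : ℕ) (C : Finset (G → ℂ)), 0 < e ∧ (∀ χ ∈ C, Cfsg.IsIrrCharacter G χ) ∧ e ^ 2 * C.card * Nat.card H = Nat.card T ∧ Cfsg.indFun H θ = (e : ℂ) • ∑ χ ∈ C, χ ∧ ∀ χ ∈ C, χ 1 = (T.index : ℂ) * e * θ 1 := by
  classical
  obtain ⟨e, C, he, hirr, hcard, hsum, hdeg, -⟩ :=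
    Cfsg.Agent.Lib.OddChar.Inertia2.inertia_abelian H T hN θ hθ hT hab
  refine ⟨e, C, he, hirr, ?_, hsum, hdeg⟩
  rw [hcard, mul_comm]
  have h1 : Nat.card (H.subgroupOf T) = Nat.card H :=
    Nat.card_congr (Subgroup.subgroupOfEquivOfLe
      (Cfsg.Agent.Lib.OddChar.Inertia2.le_of_inertia H T hN θ hθ hT)).toEquiv
  rw [← h1]
  exact (H.subgroupOf T).card_mul_index

end Cfsg.Agent.S1490
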