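import Cfsg.Statements.S1493
import Cfsg.Agent.Lib.OddChar.GaloisConj

set_option autoImplicit false
open Cfsg

namespace Cfsg.Agent.S1493

open Cfsg.Agent.Lib.OddChar.GaloisConj


/-- Let G be a finite group of order a * b with a and b coprime, let k be coprime to a, and let χ be a character of G. Then there is a character χ' of G such that χ'(g) = χ(g ^ k) whenever the order of g divides a and χ'(g) = χ(g) whenever the order of g is coprime to a; moreover χ' is irreducible if χ is. -/
theorem result {G : Type*} [Group G] [Finite G] (a b k : ℕ) (hab : Nat.card G = a * b) (hcop : Nat.Coprime a b) (hk : Nat.Coprime k a) (χ : G → ℂ) (hχ : Cfsg.IsCharacter G χ) : ∃ χ' : G → ℂ, Cfsg.IsCharacter G χ' ∧ (Cfsg.IsIrrCharacter G χ → Cfsg.IsIrrCharacter G χ') ∧ (∀ g : G, orderOf g ∣ a → χ' g = χ (g ^ k)) ∧ (∀ g : G, Nat.Coprime (orderOf g) a → χ' g = χ g) := by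
  classical
  letI := Fintype.ofFinite G
  let x := Nat.chineseRemainder hcop k 1
  have hx1 : (x : ℕ) ≡ k [MOD a] := x.2.1
  have hx2 : (x : ℕ) ≡ 1 [MOD b] := x.2.2
  have hc : (x : ℕ).Coprime (Nat.card G) := by
    rw [hab]
    apply Nat.Coprime.mul_right
    · have := hx1.gcd_eq
      rw [Nat.Coprime, this]
      exact hk
    · have := hx2.gcd_eq
      rw [Nat.Coprime, this]
      simp
  refine ⟨fun g => χ (g ^ (x : ℕ)), isCharacter_pow hc hχ, fun h => isIrrCharacter_pow hc h, ?_, ?_⟩
  · intro g hg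
    have h3 : g ^ (x : ℕ) = g ^ k := (pow_eq_pow_iff_modEq).mpr (hx1.of_dvd hg)
    simp only []
    rw [h3]
  · intro g hg
    have h1 : orderOf g ∣ a * b := hab ▸ orderOf_dvd_natCard g
    have h2 : orderOf g ∣ b := hg.dvd_of_dvd_mul_left h1
    have h3 : g ^ (x : ℕ) = g ^ 1 := (pow_eq_pow_iff_modEq).mpr (hx2.of_dvd h2)
    simp only []
    rw [h3, pow_one]

end Cfsg.Agent.S1493
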