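import Cfsg.Statements.S1494
import Cfsg.Agent.Lib.Char.GenLattice
import Cfsg.Agent.Lib.Char.Linear

set_option autoImplicit false
open Cfsg

namespace Cfsg.Agent.S1494

open Cfsg.Agent.Lib.Char.GenLattice Cfsg.Agent.Lib.Char.Linear Cfsg.Agent.Lib.Char.Ortho Cfsg.Agent.Lib.Char.Basic

theorem lin_case {A : Type*} [Group A] (lam : A →* ℂˣ) (p : ℕ) (hp : p.Prime) (x y : A) (hx : x ^ p = 1)
    (n : ℕ) (hn : n ≠ 0) (hy : y ^ n = 1) :
    ∃ ω : ℂ, IsIntegral ℤ ω ∧ ((lam (x * y) : ℂˣ) : ℂ) - ((lam y : ℂˣ) : ℂ) = (1 - Complex.exp (2 * Real.pi * Complex.I / p)) * ω := by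
  set ε := Complex.exp (2 * Real.pi * Complex.I / p) with hε
  have hprim : IsPrimitiveRoot ε p := Complex.isPrimitiveRoot_exp p hp.ne_zero
  have h1 : ((lam x : ℂˣ) : ℂ) ^ p = 1 := by
    have : (lam x) ^ p = 1 := by rw [← map_pow, hx, map_one]
    rw [← Units.val_pow_eq_pow_val, this]
    rfl
  haveI : NeZero p := ⟨hp.ne_zero⟩
  obtain ⟨a, -, ha⟩ := hprim.eq_pow_of_pow_eq_one h1
  have hεint : IsIntegral ℤ ε := IsIntegral.of_pow hp.pos (by rw [hprim.pow_eq_one]; exact isIntegral_one)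
  have hyint : IsIntegral ℤ ((lam y : ℂˣ) : ℂ) := by
    apply IsIntegral.of_pow (Nat.pos_of_ne_zero hn)
    have : (lam y) ^ n = 1 := by rw [← map_pow, hy, map_one]
    rw [← Units.val_pow_eq_pow_val, this]
    exact isIntegral_one
  refine ⟨-((∑ j ∈ Finset.range a, ε ^ j) * ((lam y : ℂˣ) : ℂ)), ?_, ?_⟩
  · apply IsIntegral.neg
    apply IsIntegral.mul _ hyint
    exact IsIntegral.sum _ fun j _ => hεint.pow j
  · rw [map_mul, Units.val_mul, ← ha]
    have := geom_sum_mul ε a
    linear_combination (((lam y : ℂˣ) : ℂ)) * (-this)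


/-- Let χ be a generalized character of the finite group G, p a prime, x an element of order p and y an element commuting with x. Then χ(x * y) − χ(y) = (1 − ε) * ω for some algebraic integer ω, where ε = exp(2πi/p). -/
theorem result {G : Type*} [Group G] [Finite G] (χ : G → ℂ) (hχ : Cfsg.IsGeneralizedCharacter G χ) (p : ℕ) (hp : p.Prime) (x y : G) (hx : orderOf x = p) (hxy : x * y = y * x) : ∃ ω : ℂ, IsIntegral ℤ ω ∧ χ (x * y) - χ y = (1 - Complex.exp (2 * Real.pi * Complex.I / p)) * ω := by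
  classical
  letI := Fintype.ofFinite G
  let k : Set G := {x, y}
  have hk : ∀ a ∈ k, ∀ b ∈ k, a * b = b * a := by
    rintro a (rfl | rfl) b (rfl | rfl)
    · rfl
    · exact hxy
    · exact hxy.symm
    · rfl
  let A : Subgroup G := Subgroup.closure k
  letI := Fintype.ofFinite A
  have hcomm : ∀ a b : A, a * b = b * a := fun a b =>
    (Subgroup.isMulCommutative_closure hk).is_comm.comm a b
  have hxA : x ∈ A := Subgroup.subset_closure (Or.inl rfl)
  have hyA : y ∈ A := Subgroup.subset_closure (Or.inr rfl)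
  let x' : A := ⟨x, hxA⟩
  let y' : A := ⟨y, hyA⟩
  have hres := isGenChar_restrict A hχ
  have := finite_irrCharacter (G := A)
  letI := Fintype.ofFinite (IrrCharacter A)
  obtain ⟨m, hm⟩ := exists_int_combination hres
  have hx'p : x' ^ p = 1 := by
    apply Subtype.ext
    simp only [x', SubmonoidClass.mk_pow, ← hx, pow_orderOf_eq_one]
    simp
  have hy'n : y' ^ (orderOf y') = 1 := pow_orderOf_eq_one y'
  have hlin : ∀ i : IrrCharacter A, ∃ ω : ℂ, IsIntegral ℤ ω ∧ (i : A → ℂ) (x' * y') - (i : A → ℂ) y' =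
      (1 - Complex.exp (2 * Real.pi * Complex.I / p)) * ω := by
    intro i
    have h1 : (i : A → ℂ) 1 = 1 := isIrr_deg_one_of_comm hcomm i.2
    obtain ⟨lam, hlam⟩ := exists_hom_of_deg_one (isCharacter_of_isIrrCharacter i.2) h1
    rw [hlam]
    exact lin_case lam p hp x' y' hx'p _ (orderOf_pos y').ne' hy'n
  choose ω hωi hω using hlin
  refine ⟨∑ i, (m i : ℂ) * ω i, ?_, ?_⟩
  · exact IsIntegral.sum _ fun i _ => IsIntegral.mul (isIntegral_algebraMap (R := ℤ) (x := m i)) (hωi i)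
  · have e1 : χ (x * y) = (∑ i, m i • (i : A → ℂ)) (x' * y') := by
      rw [← hm]
      rfl
    have e2 : χ y = (∑ i, m i • (i : A → ℂ)) y' := by
      rw [← hm]
    rw [e1, e2, Finset.sum_apply, Finset.sum_apply, ← Finset.sum_sub_distrib, Finset.mul_sum]
    refine Finset.sum_congr rfl fun i _ => ?_
    simp only [Pi.smul_apply, zsmul_eq_mul]
    have := hω i
    linear_combination (m i : ℂ) * this

end Cfsg.Agent.S1494
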