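import Cfsg.Statements.S1495
import Mathlib.NumberTheory.Cyclotomic.PrimitiveRoots
import Mathlib.RingTheory.RootsOfUnity.Complex
import Mathlib.RingTheory.IntegralClosure.IntegrallyClosed
import Mathlib.RingTheory.Polynomial.Cyclotomic.Eval
import Mathlib.RingTheory.RootsOfUnity.Lemmas

set_option autoImplicit false
open Cfsg

namespace Cfsg.Agent.S1495

/-- Let p be a prime, ε = exp(2πi/p), and n an integer such that n = (1 − ε) * ω for some algebraic integer ω. Then p divides n. -/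
theorem result (p : ℕ) (hp : p.Prime) (n : ℤ) (ω : ℂ) (hω : IsIntegral ℤ ω) (h : (n : ℂ) = (1 - Complex.exp (2 * Real.pi * Complex.I / p)) * ω) : (p : ℤ) ∣ n := by
  set ε := Complex.exp (2 * Real.pi * Complex.I / p) with hε
  have hprim : IsPrimitiveRoot ε p := Complex.isPrimitiveRoot_exp p hp.ne_zero
  -- integrality of ε
  have hεint : IsIntegral ℤ ε := hprim.isIntegral hp.pos
  -- ∏_{k=1}^{p-1} (1 - ε^k) = p
  have hp1 : p - 1 + 1 = p := Nat.sub_add_cancel hp.one_le
  have hprod : ∏ k ∈ Finset.range (p - 1), (1 - ε ^ (k + 1)) = (p : ℂ) := by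
    have h1 : IsPrimitiveRoot ε (p - 1 + 1) := by rw [hp1]; exact hprim
    have := h1.prod_one_sub_pow_eq_order
    rw [this]
    exact_mod_cast hp1
  -- (1 - ε) = (1 - ε^(k+1)) * v_k with v_k integral
  have hdiv2 : ∀ k : ℕ, ∃ v : ℂ, k < p - 1 → IsIntegral ℤ v ∧ 1 - ε = (1 - ε ^ (k + 1)) * v := by
    intro k
    by_cases hk : k < p - 1
    · -- (k+1) has inverse m mod p
      have hcop : Nat.Coprime (k + 1) p := by
        rw [Nat.coprime_comm, Nat.Prime.coprime_iff_not_dvd hp]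
        intro hd
        have := Nat.le_of_dvd (Nat.succ_pos k) hd
        omega
      obtain ⟨m, -, hm⟩ := Nat.exists_mul_mod_eq_one_of_coprime hcop hp.one_lt
      refine ⟨∑ i ∈ Finset.range m, (ε ^ (k + 1)) ^ i, fun _ => ⟨IsIntegral.sum _ (fun i _ => (hεint.pow _).pow i), ?_⟩⟩
      have h1 := geom_sum_mul_neg (ε ^ (k + 1)) m
      rw [mul_comm, h1]
      have h2 : (ε ^ (k + 1)) ^ m = ε := by
        rw [← pow_mul, ← Nat.div_add_mod ((k + 1) * m) p, hm, pow_add, pow_mul, hprim.pow_eq_one]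
        simp
      rw [h2]
    · exact ⟨0, fun h => absurd h hk⟩
  choose v hv using hdiv2
  -- (1-ε)^(p-1) = p * V
  have hV : (1 - ε) ^ (p - 1) = (p : ℂ) * ∏ k ∈ Finset.range (p - 1), v k := by
    rw [← hprod, ← Finset.prod_mul_distrib]
    conv_lhs => rw [← Finset.card_range (p - 1)]
    rw [← Finset.prod_const]
    refine Finset.prod_congr rfl fun k hk => ?_
    exact (hv k (Finset.mem_range.1 hk)).2
  have hVint : IsIntegral ℤ (∏ k ∈ Finset.range (p - 1), v k) :=
    IsIntegral.prod _ (fun k hk => (hv k (Finset.mem_range.1 hk)).1)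
  set V := ∏ k ∈ Finset.range (p - 1), v k with hVdef
  -- n^(p-1) = p * (V * ω^(p-1))
  have hn : ((n : ℂ)) ^ (p - 1) = (p : ℂ) * (V * ω ^ (p - 1)) := by
    rw [h, mul_pow, hV, mul_assoc]
  have hint : IsIntegral ℤ (V * ω ^ (p - 1)) := hVint.mul (hω.pow _)
  have hp0 : (p : ℂ) ≠ 0 := by exact_mod_cast hp.ne_zero
  -- rational element
  set q : ℚ := ((n ^ (p - 1) : ℤ) : ℚ) / (p : ℚ) with hq
  have hqc : (algebraMap ℚ ℂ q) = V * ω ^ (p - 1) := by
    rw [hq]
    simp only [map_div₀, map_intCast, map_natCast]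
    rw [eq_comm, eq_div_iff hp0, mul_comm]
    rw [← hn]
    push_cast
    rfl
  have hqint : IsIntegral ℤ q := by
    have : IsIntegral ℤ (algebraMap ℚ ℂ q) := by rw [hqc]; exact hint
    exact (isIntegral_algebraMap_iff (algebraMap ℚ ℂ).injective).1 this
  obtain ⟨m, hm⟩ := IsIntegrallyClosed.isIntegral_iff.1 hqint
  have hdvd : (p : ℤ) ∣ n ^ (p - 1) := by
    refine ⟨m, ?_⟩
    have hp0' : (p : ℚ) ≠ 0 := by exact_mod_cast hp.ne_zero
    have h3 : ((n ^ (p - 1) : ℤ) : ℚ) = (p : ℚ) * (m : ℚ) := by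
      have : (m : ℚ) = q := hm
      rw [this, hq]
      field_simp
    exact_mod_cast h3
  exact (Nat.prime_iff_prime_int.1 hp).dvd_of_dvd_pow hdvd

end Cfsg.Agent.S1495
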