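import Cfsg.Statements.S1497

set_option autoImplicit false
open Cfsg

namespace Cfsg.Agent.S1497

/-- Let A be a nonempty subset of the finite group G not containing 1 and L a subgroup. Then A is a TI-subset whose normaliser is L if and only if the Dade hypothesis holds for A, L and the constant choice H(a) = ⊥. -/
theorem result {G : Type*} [Group G] [Finite G] (A : Set G) (hA : A.Nonempty) (h1 : (1 : G) ∉ A) (L : Subgroup G) : (Cfsg.IsTISubset A ∧ Subgroup.normalizer A = L) ↔ Cfsg.DadeHypothesis A L (fun _ => ⊥) := by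
  constructor
  · rintro ⟨hTI, rfl⟩
    have hconj : ∀ g : G, g ∈ Subgroup.normalizer A → ∀ a ∈ A, g * a * g⁻¹ ∈ A := by
      intro g hg a ha
      exact (Subgroup.mem_set_normalizer_iff.1 hg a).1 ha
    -- conj by g mapping an element of A into A forces g in the normalizer
    have hN : ∀ a ∈ A, ∀ g : G, g * a * g⁻¹ ∈ A → g ∈ Subgroup.normalizer A := by
      intro a ha g hg
      by_contra hgN
      have := hTI g hgN a ha hg
      exact h1 (this ▸ ha)
    have hcent : ∀ a ∈ A, Subgroup.centralizer ({a} : Set G) ≤ Subgroup.normalizer A := by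
      intro a ha c hc
      apply hN a ha
      have : c * a = a * c := (Subgroup.mem_centralizer_singleton_iff.1 hc)
      have h2 : c * a * c⁻¹ = a := by rw [this]; group
      rw [h2]; exact ha
    refine ⟨h1, ?_, hconj, ?_, ?_, ?_, ?_, ?_, ?_⟩
    · intro a ha
      -- a normalizes A since it commutes with itself
      apply hN a ha
      have h2 : a * a * a⁻¹ = a := by group
      rw [h2]; exact ha
    · intro a ha g hg
      exact ⟨g, hN a ha g hg, rfl⟩
    · intro a _
      exact bot_le
    · intro a _ c _ u hu
      rw [Subgroup.mem_bot] at hu ⊢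
      rw [hu]; group
    · intro a _
      exact bot_inf_eq _
    · intro a ha
      rw [bot_sup_eq]
      exact inf_eq_right.2 (hcent a ha)
    · intro a _ b _
      simp
  · intro hD
    have hkey : ∀ a ∈ A, ∀ g : G, g * a * g⁻¹ ∈ A → g ∈ L := by
      intro a ha g h2
      obtain ⟨x, hx, hxe⟩ := hD.fusion a ha g h2
      have h3 : x⁻¹ * g ∈ Subgroup.centralizer ({a} : Set G) := by
        rw [Subgroup.mem_centralizer_singleton_iff]
        have : x * a * x⁻¹ = g * a * g⁻¹ := hxe
        have h4 : (x⁻¹ * g) * a * (x⁻¹ * g)⁻¹ = a := by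
          calc (x⁻¹ * g) * a * (x⁻¹ * g)⁻¹ = x⁻¹ * (g * a * g⁻¹) * x := by group
            _ = x⁻¹ * (x * a * x⁻¹) * x := by rw [this]
            _ = a := by group
        calc (x⁻¹ * g) * a = (x⁻¹ * g) * a * (x⁻¹ * g)⁻¹ * (x⁻¹ * g) := by group
          _ = a * (x⁻¹ * g) := by rw [h4]
      have h5 := hD.sup_eq a ha
      rw [bot_sup_eq] at h5
      have h6 : x⁻¹ * g ∈ L ⊓ Subgroup.centralizer ({a} : Set G) := by rw [h5]; exact h3
      have h7 := L.mul_mem hx h6.1
      simpa using h7
    have hNL : Subgroup.normalizer A = L := by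
      apply le_antisymm
      · intro g hg
        obtain ⟨a, ha⟩ := hA
        exact hkey a ha g ((Subgroup.mem_set_normalizer_iff.1 hg a).1 ha)
      · intro x hx
        rw [Subgroup.mem_set_normalizer_iff]
        intro a
        constructor
        · exact hD.conj_mem x hx a
        · intro h
          have := hD.conj_mem x⁻¹ (L.inv_mem hx) _ h
          have e : x⁻¹ * (x * a * x⁻¹) * x⁻¹⁻¹ = a := by group
          rwa [e] at this
    refine ⟨?_, hNL⟩
    intro g hg x hx hgx
    rw [hNL] at hg
    exact absurd (hkey x hx g hgx) hg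

end Cfsg.Agent.S1497
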