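import Cfsg.Statements.S1503
import Cfsg.Agent.Lib.OddChar.CyclicTI2

set_option autoImplicit false
open Cfsg

namespace Cfsg.Agent.S1503

open Cfsg.Agent.Lib.Char.Induced Cfsg.Agent.Lib.Char.Ortho Cfsg.Agent.Lib.OddChar.CyclicTI

/-- Let W₁, W₂ ≤ G with W = W₁ ⊔ W₂ and let χ an orthonormal family of irreducible characters of G up to sign, indexed by the linear characters ω of W, with χ_1 = 1, χ_ω = ω on W outside W₁ ∪ W₂, and the induction identity for (1 − φ)(1 − ψ). If θ is an irreducible character of G orthogonal to χ ω for every linear character ω of W, then θ vanishes at every element of W lying outside W₁ ∪ W₂. -/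
theorem result {G : Type*} [Group G] [Fintype G] (W₁ W₂ : Subgroup G) (hW : Cfsg.IsSelfNormalizingCyclic W₁ W₂) (χ : (↥(W₁ ⊔ W₂) →* ℂˣ) → (G → ℂ)) (hχ : Cfsg.IsCyclicTIFamily W₁ W₂ χ) (θ : G → ℂ) (hθ : Cfsg.IsIrrCharacter G θ) (horth : ∀ ω, Cfsg.classInner θ (χ ω) = 0) (w : ↥(W₁ ⊔ W₂)) (hw₁ : (w : G) ∉ W₁) (hw₂ : (w : G) ∉ W₂) : θ w = 0 := by
  classical
  letI : Fintype ↥(W₁ ⊔ W₂) := Fintype.ofFinite _
  have hθc : IsClassFunction G θ := Cfsg.Agent.Lib.Char.Basic.isClassFunction_of_isIrrCharacter hθ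
  refine Cfsg.Agent.Lib.OddChar.CyclicTI2.vanish_of_orth hW (fun x => θ x) ?_ w hw₁ hw₂
  intro φ ψ hφ hψ
  by_cases h1 : φ = 1
  · subst h1
    simp
  by_cases h2 : ψ = 1
  · subst h2
    simp
  have h3 := hχ.induced_eq φ ψ h1 h2 hφ hψ
  have h5 : indFun (W₁ ⊔ W₂) (Cfsg.Agent.Lib.OddChar.CyclicTI.alpha W₁ W₂ φ ψ) = χ 1 - χ φ - χ ψ + χ (φ * ψ) := by
    unfold Cfsg.Agent.Lib.OddChar.CyclicTI.alpha
    rw [h3, hχ.map_one]
    rfl
  have h4 : classInner θ (indFun (W₁ ⊔ W₂) (Cfsg.Agent.Lib.OddChar.CyclicTI.alpha W₁ W₂ φ ψ)) = 0 := by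
    rw [h5, classInner_add_right, classInner_sub_right, classInner_sub_right, horth, horth, horth, horth]
    simp
  rw [classInner_indFun_right _ _ _ hθc] at h4
  unfold classInner at h4
  have hW0 : (Nat.card ↥(W₁ ⊔ W₂) : ℂ) ≠ 0 := by exact_mod_cast Nat.card_pos.ne'
  rcases mul_eq_zero.1 h4 with h6 | h6
  · exact absurd (inv_eq_zero.1 h6) hW0
  · rw [← h6]
    refine Finset.sum_congr rfl fun x _ => ?_
    unfold Cfsg.Agent.Lib.OddChar.CyclicTI.alpha
    congr 2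
    ring

end Cfsg.Agent.S1503
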