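import Cfsg.Statements.S1504
import Mathlib.Algebra.Group.Subgroup.Pointwise

set_option autoImplicit false
open Cfsg

namespace Cfsg.Agent.S1504

/-- The homs as monoid homs to ℂ (as needed for linear independence). -/
noncomputable def toC {W : Type*} [Group W] (f : W →* ℂˣ) : W →* ℂ :=
  (Units.coeHom ℂ).comp f

theorem toC_injective {W : Type*} [Group W] : Function.Injective (toC (W := W)) := by
  intro f g h
  ext x
  have := DFunLike.congr_fun h x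
  simpa [toC] using this

/-- Let W₁, W₂ be subgroups of a finite group with W₁ ⊓ W₂ = ⊥ whose elements commute, and W = W₁ ⊔ W₂. For linear characters φ, ψ of W with φ trivial on W₂ and ψ trivial on W₁, the function (1 − φ)(1 − ψ) vanishes on W₁ ∪ W₂; and the family of these functions, indexed by pairs (φ, ψ) with φ ≠ 1 ≠ ψ, is linearly independent over ℂ. -/
theorem result {G : Type*} [Group G] [Finite G] (W₁ W₂ : Subgroup G) (hdisj : W₁ ⊓ W₂ = ⊥) (hcomm : ∀ a ∈ W₁, ∀ b ∈ W₂, a * b = b * a) : (∀ φ ψ : ↥(W₁ ⊔ W₂) →* ℂˣ, (∀ w : ↥(W₁ ⊔ W₂), (w : G) ∈ W₂ → φ w = 1) → (∀ w : ↥(W₁ ⊔ W₂), (w : G) ∈ W₁ → ψ w = 1) → ∀ w : ↥(W₁ ⊔ W₂), ((w : G) ∈ W₁ ∨ (w : G) ∈ W₂) → (1 - (φ w : ℂ) - (ψ w : ℂ) + (φ w : ℂ) * (ψ w : ℂ)) = 0) ∧ LinearIndependent ℂ (fun p : {p : (↥(W₁ ⊔ W₂) →* ℂˣ) × (↥(W₁ ⊔ W₂) →* ℂˣ) // p.1 ≠ 1 ∧ p.2 ≠ 1 ∧ (∀ w : ↥(W₁ ⊔ W₂), (w : G) ∈ W₂ → p.1 w = 1) ∧ (∀ w : ↥(W₁ ⊔ W₂), (w : G) ∈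 W₁ → p.2 w = 1)} => fun w : ↥(W₁ ⊔ W₂) => 1 - (p.1.1 w : ℂ) - (p.1.2 w : ℂ) + (p.1.1 w : ℂ) * (p.1.2 w : ℂ)) := by
  classical
  constructor
  · intro φ ψ hφ hψ w hw
    rcases hw with hw | hw
    · rw [hψ w hw]
      simp
    · rw [hφ w hw]
      simp
  · -- uses independence of monoid homs
    set W := ↥(W₁ ⊔ W₂) with hW
    -- every element of W is a product
    have hsplit : ∀ w : W, ∃ a ∈ W₁, ∃ b ∈ W₂, (w : G) = a * b := by
      intro w
      have h := w.2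
      have hle : W₂ ≤ Subgroup.normalizer (W₁ : Set G) := by
        rw [Subgroup.le_normalizer_iff]
        intro b hb a ha
        rw [← hcomm a ha b hb]
        simpa using ha
      have h' := Subgroup.coe_mul_of_right_le_normalizer_left W₁ W₂ hle
      have h2 : (w : G) ∈ ((W₁ ⊔ W₂ : Subgroup G) : Set G) := h
      rw [h'] at h2
      obtain ⟨a, ha, b, hb, e⟩ := h2
      exact ⟨a, ha, b, hb, e.symm⟩
    -- pairs are determined by the product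
    have hprod : ∀ φ ψ φ' ψ' : W →* ℂˣ, (∀ w : W, (w : G) ∈ W₂ → φ w = 1) → (∀ w : W, (w : G) ∈ W₁ → ψ w = 1) →
        (∀ w : W, (w : G) ∈ W₂ → φ' w = 1) → (∀ w : W, (w : G) ∈ W₁ → ψ' w = 1) →
        φ * ψ = φ' * ψ' → φ = φ' ∧ ψ = ψ' := by
      intro φ ψ φ' ψ' h1 h2 h3 h4 e
      have key : ∀ w : W, (w : G) ∈ W₁ → φ w = φ' w := by
        intro w hw
        have := DFunLike.congr_fun e w
        simpa [h2 w hw, h4 w hw] using this
      have key2 : ∀ w : W, (w : G) ∈ W₂ → ψ w = ψ' w := by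
        intro w hw
        have := DFunLike.congr_fun e w
        simpa [h1 w hw, h3 w hw] using this
      constructor
      · ext w
        obtain ⟨a, ha, b, hb, e'⟩ := hsplit w
        have ew : w = (⟨a, (le_sup_left : W₁ ≤ W₁ ⊔ W₂) ha⟩ : W) * ⟨b, (le_sup_right : W₂ ≤ W₁ ⊔ W₂) hb⟩ :=
          Subtype.ext e'
        rw [ew, map_mul, map_mul, h1 ⟨b, _⟩ hb, h3 ⟨b, _⟩ hb, key ⟨a, _⟩ ha]
      · ext w
        obtain ⟨a, ha, b, hb, e'⟩ := hsplit w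
        have ew : w = (⟨a, (le_sup_left : W₁ ≤ W₁ ⊔ W₂) ha⟩ : W) * ⟨b, (le_sup_right : W₂ ≤ W₁ ⊔ W₂) hb⟩ :=
          Subtype.ext e'
        rw [ew, map_mul, map_mul, h2 ⟨a, _⟩ ha, h4 ⟨a, _⟩ ha, key2 ⟨b, _⟩ hb]
    -- restriction: the linear independence of the monoid homs
    have hLI := linearIndependent_monoidHom W ℂ
    rw [linearIndependent_iff']
    intro t c hsum p₀ hp₀
    -- the Finsupp combination
    set l : (W →* ℂ) →₀ ℂ := ∑ p ∈ t, c p • (Finsupp.single (1 : W →* ℂ) (1 : ℂ) - Finsupp.single (toC p.1.1) 1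
      - Finsupp.single (toC p.1.2) 1 + Finsupp.single (toC (p.1.1 * p.1.2)) 1) with hl
    have hl0 : Finsupp.linearCombination ℂ (fun f : W →* ℂ => (f : W → ℂ)) l = 0 := by
      rw [← hsum, hl, map_sum]
      refine Finset.sum_congr rfl fun p _ => ?_
      rw [map_smul, map_add, map_sub, map_sub]
      simp only [Finsupp.linearCombination_single, one_smul]
      congr 1
    have hl1 : l = 0 := hLI (by rw [hl0, map_zero])
    have hval := DFunLike.congr_fun hl1 (toC (p₀.1.1 * p₀.1.2))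
    rw [hl, Finsupp.finsetSum_apply, Finsupp.zero_apply] at hval
    have hterm : ∀ p ∈ t, (c p • (Finsupp.single (1 : W →* ℂ) (1 : ℂ) - Finsupp.single (toC p.1.1) 1
      - Finsupp.single (toC p.1.2) 1 + Finsupp.single (toC (p.1.1 * p.1.2)) 1) : (W →* ℂ) →₀ ℂ) (toC (p₀.1.1 * p₀.1.2)) =
        if p = p₀ then c p else 0 := by
      intro p _
      obtain ⟨⟨φ, ψ⟩, hφ1, hψ1, hφ, hψ⟩ := p
      obtain ⟨⟨φ₀, ψ₀⟩, hφ₀1, hψ₀1, hφ₀, hψ₀⟩ := p₀
      simp only at hφ1 hψ1 hφ hψ hφ₀1 hψ₀1 hφ₀ hψ₀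
      have hone : ∀ w : W, (w : G) ∈ W₂ → (1 : W →* ℂˣ) w = 1 := fun _ _ => rfl
      have hone' : ∀ w : W, (w : G) ∈ W₁ → (1 : W →* ℂˣ) w = 1 := fun _ _ => rfl
      have n1 : toC (φ₀ * ψ₀) ≠ (1 : W →* ℂ) := by
        intro h
        have h2 : φ₀ * ψ₀ = 1 * 1 := by
          apply toC_injective
          rw [h]
          ext w
          simp [toC]
        exact hφ₀1 (hprod _ _ _ _ hφ₀ hψ₀ hone hone' h2).1
      have n2 : toC (φ₀ * ψ₀) ≠ toC φ := by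
        intro h
        have h2 : φ₀ * ψ₀ = φ * 1 := (toC_injective h).trans (by ext w; simp)
        exact hψ₀1 (hprod _ _ _ _ hφ₀ hψ₀ hφ hone' h2).2
      have n3 : toC (φ₀ * ψ₀) ≠ toC ψ := by
        intro h
        have h2 : φ₀ * ψ₀ = 1 * ψ := (toC_injective h).trans (by ext w; simp)
        exact hφ₀1 (hprod _ _ _ _ hφ₀ hψ₀ hone hψ h2).1
      have hif : (toC (φ * ψ) = toC (φ₀ * ψ₀)) ↔ ((⟨(φ, ψ), hφ1, hψ1, hφ, hψ⟩ : {p : (W →* ℂˣ) × (W →* ℂˣ) // p.1 ≠ 1 ∧ p.2 ≠ 1 ∧ (∀ w : W, (w : G) ∈ W₂ → p.1 w = 1) ∧ (∀ w : W, (w : G) ∈ W₁ → p.2 w = 1)}) = ⟨(φ₀, ψ₀), hφ₀1, hψ₀1, hφ₀, hψ₀⟩) := by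
        constructor
        · intro h
          have h3 := hprod _ _ _ _ hφ hψ hφ₀ hψ₀ (toC_injective h)
          apply Subtype.ext
          exact Prod.ext h3.1 h3.2
        · intro h
          have h3 := congrArg (fun x => x.1) h
          simp only [Prod.mk.injEq] at h3
          rw [h3.1, h3.2]
      simp only [Finsupp.smul_apply, Finsupp.add_apply, Finsupp.sub_apply, Finsupp.single_apply,
        n1.symm, n2.symm, n3.symm, if_false, smul_eq_mul, sub_zero, zero_add, hif]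
      split_ifs <;> simp
    rw [Finset.sum_congr rfl hterm, Finset.sum_ite_eq' t p₀] at hval
    simpa [hp₀] using hval

end Cfsg.Agent.S1504
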