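import Cfsg.Statements.S1507
import Cfsg.Agent.Lib.OddChar.CyclicTI2

set_option autoImplicit false
open Cfsg

namespace Cfsg.Agent.S1507

open Cfsg.Agent.Lib.OddChar.Dual Cfsg.Agent.Lib.OddChar.CyclicTI Cfsg.Agent.Lib.OddChar.CyclicTI2

section abstract

variable {A : Type*} [CommGroup A] [Fintype A] {B C : Subgroup A}

theorem hom_ext_of_sup (hsup : B ⊔ C = ⊤) {l m : A →* ℂˣ} (h1 : ∀ x ∈ B, l x = m x) (h2 : ∀ x ∈ C, l x = m x) :
    l = m := by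
  ext x
  have : x ∈ B ⊔ C := by rw [hsup]; trivial
  obtain ⟨b, hb, c, hc, rfl⟩ := Subgroup.mem_sup.1 this
  rw [map_mul, map_mul, h1 b hb, h2 c hc]

/-- The abstract form of the trichotomy. -/
theorem few_abstract (hinf : B ⊓ C = ⊥) (hsup : B ⊔ C = ⊤) (F : (A →* ℂˣ) → ℂ)
    (hrel : ∀ φ ∈ dualTriv C, ∀ ψ ∈ dualTriv B, F (φ * ψ) = F φ + F ψ - F 1)
    (hlt : Nat.card B + 2 ≤ Nat.card C)
    (hfew : Nat.card {ω : A →* ℂˣ // F ω ≠ 0} < 2 * Nat.card B) :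
    (∀ ω, F ω = 0) ∨
    (∃ (ψ₀ : A →* ℂˣ) (a : ℂ), (∀ ω, (∀ w ∈ C, (ω * ψ₀⁻¹) w = 1) → F ω = a) ∧
        (∀ ω, ¬ (∀ w ∈ C, (ω * ψ₀⁻¹) w = 1) → F ω = 0)) ∨
    (∃ (φ₀ : A →* ℂˣ) (a : ℂ), (∀ ω, (∀ w ∈ B, (ω * φ₀⁻¹) w = 1) → F ω = a) ∧
        (∀ ω, ¬ (∀ w ∈ B, (ω * φ₀⁻¹) w = 1) → F ω = 0)) := by
  classical
  letI : Fintype (dualTriv C) := Fintype.ofFinite _
  letI : Fintype (dualTriv B) := Fintype.ofFinite _
  have hinf' : C ⊓ B = ⊥ := by rw [inf_comm]; exact hinf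
  have hsup' : C ⊔ B = ⊤ := by rw [sup_comm]; exact hsup
  have hcR : Fintype.card (dualTriv C) = Nat.card B := by
    rw [← Nat.card_eq_fintype_card, card_dualTriv_of_compl hinf hsup]
  have hcS : Fintype.card (dualTriv B) = Nat.card C := by
    rw [← Nat.card_eq_fintype_card, card_dualTriv_of_compl hinf' hsup']
  let a : dualTriv C → dualTriv B → ℂ := fun i j => F ((i : A →* ℂˣ) * j)
  have hrect : ∀ i i' j j', a i j + a i' j' = a i j' + a i' j := by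
    intro i i' j j'
    simp only [a]
    rw [hrel _ i.2 _ j.2, hrel _ i'.2 _ j'.2, hrel _ i.2 _ j'.2, hrel _ i'.2 _ j.2]
    ring
  have hrc : Fintype.card (dualTriv C) + 2 ≤ Fintype.card (dualTriv B) := by
    rw [hcR, hcS]; exact hlt
  have hfew' : (Finset.univ.filter (fun p : dualTriv C × dualTriv B => a p.1 p.2 ≠ 0)).card <
      2 * Fintype.card (dualTriv C) := by
    rw [hcR]
    refine lt_of_eq_of_lt ?_ hfew
    rw [← Fintype.card_subtype, ← Nat.card_eq_fintype_card]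
    refine Nat.card_congr (Equiv.subtypeEquiv (Equiv.ofBijective (mulMap B C) (mulMap_bijective hinf hsup)) ?_)
    intro p
    exact Iff.rfl
  have hfac := exists_factor hinf hsup
  rcases Cfsg.Agent.Lib.OddChar.Grid.grid a hrect hrc hfew' with h | ⟨j₀, z, h⟩ | ⟨i₀, z, h⟩
  · left
    intro ω
    obtain ⟨φ, hφ, ψ, hψ, rfl⟩ := hfac ω
    exact h ⟨φ, hφ⟩ ⟨ψ, hψ⟩
  · right; left
    refine ⟨j₀, z, ?_, ?_⟩
    · intro ω hω
      obtain ⟨φ, hφ, ψ, hψ, rfl⟩ := hfac ω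
      have hψe : ψ = j₀ := by
        refine hom_ext_of_sup hsup (fun x hx => ?_) (fun x hx => ?_)
        · rw [hψ x hx, j₀.2 x hx]
        · have := hω x hx
          simp only [MonoidHom.mul_apply, MonoidHom.inv_apply, hφ x hx, one_mul] at this
          exact mul_inv_eq_one.1 this
      have := h ⟨φ, hφ⟩ ⟨ψ, hψ⟩
      rw [if_pos (Subtype.ext hψe)] at this
      exact this
    · intro ω hω
      obtain ⟨φ, hφ, ψ, hψ, rfl⟩ := hfac ω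
      have hψe : (⟨ψ, hψ⟩ : dualTriv B) ≠ j₀ := by
        intro e
        apply hω
        intro w hw
        have e' : ψ = j₀ := congrArg Subtype.val e
        simp [hφ w hw, e']
      have := h ⟨φ, hφ⟩ ⟨ψ, hψ⟩
      rw [if_neg hψe] at this
      exact this
  · right; right
    refine ⟨i₀, z, ?_, ?_⟩
    · intro ω hω
      obtain ⟨φ, hφ, ψ, hψ, rfl⟩ := hfac ω
      have hφe : φ = i₀ := by
        refine hom_ext_of_sup hsup (fun x hx => ?_) (fun x hx => ?_)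
        · have := hω x hx
          simp only [MonoidHom.mul_apply, MonoidHom.inv_apply, hψ x hx, mul_one] at this
          exact mul_inv_eq_one.1 this
        · rw [hφ x hx, i₀.2 x hx]
      have := h ⟨φ, hφ⟩ ⟨ψ, hψ⟩
      rw [if_pos (Subtype.ext hφe)] at this
      exact this
    · intro ω hω
      obtain ⟨φ, hφ, ψ, hψ, rfl⟩ := hfac ω
      have hφe : (⟨φ, hφ⟩ : dualTriv C) ≠ i₀ := by
        intro e
        apply hω
        intro w hw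
        have e' : φ = i₀ := congrArg Subtype.val e
        simp [hψ w hw, e']
      have := h ⟨φ, hφ⟩ ⟨ψ, hψ⟩
      rw [if_neg hφe] at this
      exact this

end abstract


open Classical in
/-- Let W₁, W₂ ≤ G form a self-normalising cyclic subgroup W = W₁ ⊔ W₂ of odd order with Nat.card W₁ < Nat.card W₂, and χ an orthonormal family of irreducible characters of G up to sign, indexed by the linear characters ω of W, with χ_1 = 1, χ_ω = ω on W outside W₁ ∪ W₂, and the induction identity for (1 − φ)(1 − ψ). Let θ be a class function of G vanishing on W outside W₁ ∪ W₂, and suppose fewer than 2 · Nat.card W₁ linear characters ω of W have ⟨θ, χ ω⟩ ≠ 0. Then one of: all ⟨θ, χ ω⟩ vanish; or there are ψ₀ and a with ⟨θ, χ ω⟩ = a when ω ψ₀⁻¹ is trivial on W₂ and 0 otherwise; or there are φ₀ and a with ⟨θ, χ ω⟩ = a when ω φ₀⁻¹ is trivial on W₁ and 0 otherwise. -/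
theorem result {G : Type*} [Group G] [Fintype G] (W₁ W₂ : Subgroup G) (hW : Cfsg.IsSelfNormalizingCyclic W₁ W₂) (hodd : Odd (Nat.card ↥(W₁ ⊔ W₂))) (χ : (↥(W₁ ⊔ W₂) →* ℂˣ) → (G → ℂ)) (hχ : Cfsg.IsCyclicTIFamily W₁ W₂ χ) (hlt : Nat.card W₁ < Nat.card W₂) (θ : G → ℂ) (hθ : Cfsg.IsClassFunction G θ) (hθV : ∀ w : ↥(W₁ ⊔ W₂), (w : G) ∉ W₁ → (w : G) ∉ W₂ → θ w = 0) (hfew : Nat.card {ω : ↥(W₁ ⊔ W₂) →* ℂˣ // Cfsg.classInner θ (χ ω) ≠ 0} < 2 * Nat.card W₁) : (∀ ω, Cfsg.classInner θ (χ ω) = 0) ∨ (∃ (ψ₀ : ↥(W₁ ⊔ W₂) →* ℂˣ) (a : ℂ), ∀ ω, Cfsg.classInner θ (χ ω) = if (∀ w : ↥(W₁ ⊔ W₂), (w : G) ∈ W₂ → (ω * ψ₀⁻¹) w = 1) then a else 0) ∨ (∃ (φ₀ : ↥(W₁ ⊔ W₂) →* ℂˣ) (a : ℂ), ∀ ω, Cfsg.classInner θ (χ ω) = if (∀ w : ↥(W₁ ⊔ W₂), (w : G) ∈ W₁ → (ω * φ₀⁻¹) w = 1) then a else 0) := by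
  classical
  letI : Fintype ↥(W₁ ⊔ W₂) := Fintype.ofFinite _
  obtain ⟨_, _, hinf, hcomm, hcyc, _⟩ := id hW
  have hsup : W₁.subgroupOf (W₁ ⊔ W₂) ⊔ W₂.subgroupOf (W₁ ⊔ W₂) = ⊤ := by
    rw [eq_top_iff]
    rintro x -
    obtain ⟨a, ha, b, hb, e⟩ := exists_mul_of_commute hcomm x.2
    have ex : x = (⟨a, (le_sup_left : W₁ ≤ W₁ ⊔ W₂) ha⟩ : ↥(W₁ ⊔ W₂)) * ⟨b, (le_sup_right : W₂ ≤ W₁ ⊔ W₂) hb⟩ :=
      Subtype.ext e
    rw [ex]
    exact Subgroup.mul_mem _ (Subgroup.mem_sup_left (Subgroup.mem_subgroupOf.2 ha))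
      (Subgroup.mem_sup_right (Subgroup.mem_subgroupOf.2 hb))
  have hc1 : Nat.card (W₁.subgroupOf (W₁ ⊔ W₂)) = Nat.card W₁ :=
    Nat.card_congr (Subgroup.subgroupOfEquivOfLe (le_sup_left)).toEquiv
  have hc2 : Nat.card (W₂.subgroupOf (W₁ ⊔ W₂)) = Nat.card W₂ :=
    Nat.card_congr (Subgroup.subgroupOfEquivOfLe (le_sup_right)).toEquiv
  have hodd1 : Odd (Nat.card W₁) := Odd.of_dvd_nat hodd (Subgroup.card_dvd_of_le le_sup_left)
  have hodd2 : Odd (Nat.card W₂) := Odd.of_dvd_nat hodd (Subgroup.card_dvd_of_le le_sup_right)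
  have hlt' : Nat.card (W₁.subgroupOf (W₁ ⊔ W₂)) + 2 ≤ Nat.card (W₂.subgroupOf (W₁ ⊔ W₂)) := by
    rw [hc1, hc2]
    rcases hodd1 with ⟨k, hk⟩
    rcases hodd2 with ⟨l, hl⟩
    omega
  have key := @few_abstract ↥(W₁ ⊔ W₂) (commOfCyclic _ hcyc) _ (W₁.subgroupOf (W₁ ⊔ W₂))
    (W₂.subgroupOf (W₁ ⊔ W₂)) (inf_subgroupOf_eq_bot hinf) hsup (fun ω => Cfsg.classInner θ (χ ω))
    (fun φ hφ ψ hψ => family_rel hχ hθ hθV (fun x hx => hφ x (Subgroup.mem_subgroupOf.2 hx))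
      (fun x hx => hψ x (Subgroup.mem_subgroupOf.2 hx))) hlt' (by rw [hc1]; exact hfew)
  rcases key with h | ⟨ψ₀, a, h1, h2⟩ | ⟨φ₀, a, h1, h2⟩
  · exact Or.inl h
  · refine Or.inr (Or.inl ⟨ψ₀, a, fun ω => ?_⟩)
    split_ifs with hc
    · exact h1 ω (fun w hw => hc w (Subgroup.mem_subgroupOf.1 hw))
    · exact h2 ω (fun hc' => hc (fun w hw => hc' w (Subgroup.mem_subgroupOf.2 hw)))
  · refine Or.inr (Or.inr ⟨φ₀, a, fun ω => ?_⟩)
    split_ifs with hc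
    · exact h1 ω (fun w hw => hc w (Subgroup.mem_subgroupOf.1 hw))
    · exact h2 ω (fun hc' => hc (fun w hw => hc' w (Subgroup.mem_subgroupOf.2 hw)))

end Cfsg.Agent.S1507
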