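import Cfsg.Statements.S1509
import Cfsg.Agent.Lib.Char.Complete

set_option autoImplicit false
open Cfsg

namespace Cfsg.Agent.S1509

open Cfsg.Agent.Lib.Char.Ortho Cfsg.Agent.Lib.Char.Complete

section
variable {X : Type*} [Group X] [Fintype X]

theorem norm_one' {a : X → ℂ} (h : Cfsg.IsIrrCharacter X a ∨ Cfsg.IsIrrCharacter X (-a)) : Cfsg.classInner a a = 1 := by
  rcases h with h | h
  · exact classInner_self_of_isIrr h
  · have := classInner_self_of_isIrr h
    rwa [classInner_neg_left, classInner_neg_right, neg_neg] at this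

theorem one_ne_zero' {a : X → ℂ} (h : Cfsg.IsIrrCharacter X a ∨ Cfsg.IsIrrCharacter X (-a)) : a 1 ≠ 0 := by
  rcases h with h | h
  · exact irr_one_ne_zero h
  · have := irr_one_ne_zero h
    simpa using this

/-- Two signed irreducibles are orthogonal or equal up to sign. -/
theorem dichotomy {a b : X → ℂ} (ha : Cfsg.IsIrrCharacter X a ∨ Cfsg.IsIrrCharacter X (-a))
    (hb : Cfsg.IsIrrCharacter X b ∨ Cfsg.IsIrrCharacter X (-b)) :
    Cfsg.classInner a b = 0 ∨ b = a ∨ b = -a := by
  by_cases h1 : b = a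
  · exact Or.inr (Or.inl h1)
  by_cases h2 : b = -a
  · exact Or.inr (Or.inr h2)
  left
  rcases ha with ha | ha <;> rcases hb with hb | hb
  · exact classInner_eq_zero_of_isIrr_of_ne ha hb (fun e => h1 e.symm)
  · have := classInner_eq_zero_of_isIrr_of_ne ha hb (fun e => h2 (by rw [e]; simp))
    rwa [classInner_neg_right, neg_eq_zero] at this
  · have := classInner_eq_zero_of_isIrr_of_ne ha hb (fun e => h2 (by rw [← e]))
    rwa [classInner_neg_left, neg_eq_zero] at this
  · have := classInner_eq_zero_of_isIrr_of_ne ha hb (fun e => h1 (by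
      have := congrArg Neg.neg e
      simpa using this.symm))
    rwa [classInner_neg_left, classInner_neg_right, neg_neg] at this

/-- The key step. -/
theorem key {α β γ δ : X → ℂ} (hα : Cfsg.IsIrrCharacter X α ∨ Cfsg.IsIrrCharacter X (-α)) (hβ : Cfsg.IsIrrCharacter X β ∨ Cfsg.IsIrrCharacter X (-β)) (hγ : Cfsg.IsIrrCharacter X γ ∨ Cfsg.IsIrrCharacter X (-γ)) (hδ : Cfsg.IsIrrCharacter X δ ∨ Cfsg.IsIrrCharacter X (-δ)) (u v : ℝ) (hu : u ≠ 0) (hab : Cfsg.classInner α β = 0) (hcd : Cfsg.classInner γ δ = 0) (hmix : Cfsg.classInner (α - β) ((u : ℂ) • γ - (v : ℂ) • δ) = 0) (h1 : α 1 = β 1) (h2 : (u : ℂ) * γ 1 = (v : ℂ) * δ 1) : Cfsg.classInner α γ = 0 := by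
  have hu' : (u : ℂ) ≠ 0 := by exact_mod_cast hu
  rw [classInner_sub_left, classInner_sub_right, classInner_sub_right, classInner_smul_right,
    classInner_smul_right, classInner_smul_right, classInner_smul_right] at hmix
  simp only [Complex.conj_ofReal] at hmix
  have hba : Cfsg.classInner β α = 0 := by
    rw [← classInner_conj, hab, map_zero]
  have hα1 := one_ne_zero' hα
  -- reduce to: γ = c α with c = ±1
  have hmain : ∀ c : ℂ, (c = 1 ∨ c = -1) → γ = c • α → False := by
    intro c hc hγα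
    have hc2 : c * c = 1 := by
      rcases hc with rfl | rfl <;> simp
    have hcc : (starRingEnd ℂ) c = c := by
      rcases hc with rfl | rfl <;> simp
    have e1 : Cfsg.classInner α γ = c := by
      rw [hγα, classInner_smul_right, norm_one' hα, hcc, mul_one]
    have e2 : Cfsg.classInner α δ = 0 := by
      have : α = c • γ := by
        rw [hγα, smul_smul, hc2, one_smul]
      rw [this, classInner_smul_left, hcd, mul_zero]
    have e3 : Cfsg.classInner β γ = 0 := by
      rw [hγα, classInner_smul_right, hba, mul_zero]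
    rw [e1, e2, e3] at hmix
    have hm : (u : ℂ) * c + (v : ℂ) * Cfsg.classInner β δ = 0 := by
      linear_combination hmix
    rcases dichotomy hβ hδ with h3 | h3 | h3
    · rw [h3, mul_zero, add_zero] at hm
      rcases mul_eq_zero.1 hm with h4 | h4
      · exact hu' h4
      · rw [h4] at hc
        rcases hc with h5 | h5
        · exact zero_ne_one h5
        · norm_num at h5
    · -- δ = β
      rw [h3, norm_one' hβ, mul_one] at hm
      have h5 : (u : ℂ) * γ 1 = (v : ℂ) * β 1 := by rw [h2, h3]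
      rw [hγα, ← h1] at h5
      simp only [Pi.smul_apply, smul_eq_mul] at h5
      have h6 : (u : ℂ) * c = (v : ℂ) := by
        apply mul_right_cancel₀ hα1
        linear_combination h5
      have h7 : (u : ℂ) * c = 0 := by
        have : (2 : ℂ) * ((u : ℂ) * c) = 0 := by linear_combination hm + h6
        simpa using this
      rcases mul_eq_zero.1 h7 with h8 | h8
      · exact hu' h8
      · rw [h8] at hc
        rcases hc with h5 | h5
        · exact zero_ne_one h5
        · norm_num at h5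
    · -- δ = -β
      rw [h3, classInner_neg_right, norm_one' hβ] at hm
      have h5 : (u : ℂ) * γ 1 = (v : ℂ) * (-β) 1 := by rw [h2, h3]
      rw [hγα] at h5
      simp only [Pi.smul_apply, smul_eq_mul, Pi.neg_apply] at h5
      rw [← h1] at h5
      have h6 : (u : ℂ) * c = -(v : ℂ) := by
        apply mul_right_cancel₀ hα1
        linear_combination h5
      have h7 : (u : ℂ) * c = 0 := by
        have : (2 : ℂ) * ((u : ℂ) * c) = 0 := by linear_combination hm + h6
        simpa using this
      rcases mul_eq_zero.1 h7 with h8 | h8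
      · exact hu' h8
      · rw [h8] at hc
        rcases hc with h5 | h5
        · exact zero_ne_one h5
        · norm_num at h5
  rcases dichotomy hα hγ with h3 | h3 | h3
  · exact h3
  · exact absurd (by rw [h3, one_smul]) (fun h => hmain 1 (Or.inl rfl) h)
  · exact absurd (by rw [h3]; simp) (fun h => hmain (-1) (Or.inr rfl) h)

end


/-- Let α, β, γ, δ be functions on a finite group X each of which is an irreducible character or the negative of one, and u, v nonzero real numbers. Suppose ⟨α, β⟩ = ⟨γ, δ⟩ = 0, ⟨α − β, uγ − vδ⟩ = 0, α 1 = β 1 and u γ 1 = v δ 1. Then also ⟨α, γ⟩ = ⟨α, δ⟩ = ⟨β, γ⟩ = ⟨β, δ⟩ = 0. -/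
theorem result {X : Type*} [Group X] [Fintype X] (α β γ δ : X → ℂ) (hα : Cfsg.IsIrrCharacter X α ∨ Cfsg.IsIrrCharacter X (-α)) (hβ : Cfsg.IsIrrCharacter X β ∨ Cfsg.IsIrrCharacter X (-β)) (hγ : Cfsg.IsIrrCharacter X γ ∨ Cfsg.IsIrrCharacter X (-γ)) (hδ : Cfsg.IsIrrCharacter X δ ∨ Cfsg.IsIrrCharacter X (-δ)) (u v : ℝ) (hu : u ≠ 0) (hv : v ≠ 0) (hab : Cfsg.classInner α β = 0) (hcd : Cfsg.classInner γ δ = 0) (hmix : Cfsg.classInner (α - β) ((u : ℂ) • γ - (v : ℂ) • δ) = 0) (h1 : α 1 = β 1) (h2 : (u : ℂ) * γ 1 = (v : ℂ) * δ 1) : Cfsg.classInner α γ = 0 ∧ Cfsg.classInner α δ = 0 ∧ Cfsg.classInner β γ = 0 ∧ Cfsg.classInner β δ = 0 := by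
  have hba : Cfsg.classInner β α = 0 := by
    rw [← classInner_conj, hab, map_zero]
  have hdc : Cfsg.classInner δ γ = 0 := by
    rw [← classInner_conj, hcd, map_zero]
  have hmix2 : Cfsg.classInner (α - β) ((v : ℂ) • δ - (u : ℂ) • γ) = 0 := by
    have : (v : ℂ) • δ - (u : ℂ) • γ = -((u : ℂ) • γ - (v : ℂ) • δ) := by abel
    rw [this, classInner_neg_right, hmix, neg_zero]
  have hmix3 : Cfsg.classInner (β - α) ((u : ℂ) • γ - (v : ℂ) • δ) = 0 := by
    have : β - α = -(α - β) := by abel
    rw [this, classInner_neg_left, hmix, neg_zero]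
  have hmix4 : Cfsg.classInner (β - α) ((v : ℂ) • δ - (u : ℂ) • γ) = 0 := by
    have : β - α = -(α - β) := by abel
    rw [this, classInner_neg_left, hmix2, neg_zero]
  exact ⟨key hα hβ hγ hδ u v hu hab hcd hmix h1 h2,
    key hα hβ hδ hγ v u hv hab hdc hmix2 h1 h2.symm,
    key hβ hα hγ hδ u v hu hba hcd hmix3 h1.symm h2,
    key hβ hα hδ hγ v u hv hba hdc hmix4 h1.symm h2.symm⟩

end Cfsg.Agent.S1509
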