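import Cfsg.Statements.S1510
import Cfsg.Agent.Lib.OddChar.Dade
import Mathlib.GroupTheory.Complement

set_option autoImplicit false
open Cfsg

namespace Cfsg.Agent.S1510

open Cfsg.Agent.Lib.OddChar.Dade

theorem cyclic_comm {L : Type*} [Group L] {W : Subgroup L} (h : IsCyclic W) :
    ∀ a ∈ W, ∀ b ∈ W, a * b = b * a := by
  intro a ha b hb
  obtain ⟨g, hg⟩ := h
  obtain ⟨i, hi⟩ := hg ⟨a, ha⟩
  obtain ⟨j, hj⟩ := hg ⟨b, hb⟩
  have h1 : (g : L) ^ i = a := by simpa using congrArg Subtype.val hi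
  have h2 : (g : L) ^ j = b := by simpa using congrArg Subtype.val hj
  rw [← h1, ← h2]
  exact ((Commute.refl (g : L)).zpow_zpow i j).eq

theorem orderOf_conj {L : Type*} [Group L] (k x : L) : orderOf (k * x * k⁻¹) = orderOf x := by
  have := orderOf_injective (MulAut.conj k).toMonoidHom (MulAut.conj k).injective x
  simpa using this

/-- Let L be a finite group with a normal subgroup K and a nontrivial cyclic subgroup W₁ of order coprime to its index, K ⊓ W₁ = ⊥ and K ⊔ W₁ = ⊤; let W₂ ≠ ⊥ be a cyclic subgroup of K with K ⊓ C_L(x) = W₂ for every non-identity x ∈ W₁, and suppose W₁ ⊔ W₂ has odd order. Then (W₁, W₂) is a self-normalising cyclic pair in L. -/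
theorem result {L : Type*} [Group L] [Fintype L] (K W₁ W₂ : Subgroup L) [hK : K.Normal] (hKW₁ : K ⊓ W₁ = ⊥) (hKW₁' : K ⊔ W₁ = ⊤) (hW₁ : W₁ ≠ ⊥) (hW₁c : IsCyclic W₁) (hHall : Nat.Coprime (Nat.card W₁) W₁.index) (hW₂ : W₂ ≠ ⊥) (hW₂c : IsCyclic W₂) (hW₂K : W₂ ≤ K) (hC : ∀ x ∈ W₁, x ≠ 1 → K ⊓ Subgroup.centralizer ({x} : Set L) = W₂) (hodd : Odd (Nat.card ↥(W₁ ⊔ W₂))) : Cfsg.IsSelfNormalizingCyclic W₁ W₂ := by
  have hcomm : ∀ a ∈ W₁, ∀ b ∈ W₂, a * b = b * a := by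
    intro a ha b hb
    by_cases ha1 : a = 1
    · simp [ha1]
    · rw [← hC a ha ha1] at hb
      exact (Subgroup.mem_centralizer_singleton_iff.1 hb.2).symm
  have hinf : W₁ ⊓ W₂ = ⊥ := by
    rw [eq_bot_iff]
    intro x hx
    have : x ∈ K ⊓ W₁ := ⟨hW₂K hx.2, hx.1⟩
    rwa [hKW₁] at this
  -- coprimality with K
  have hcompl : Subgroup.IsComplement' K W₁ := by
    apply Subgroup.isComplement'_of_disjoint_and_mul_eq_univ
    · rw [disjoint_iff]; exact hKW₁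
    · rw [← Subgroup.normal_mul, hKW₁']; rfl
  have hcard : Nat.card K = W₁.index := by
    have h1 := hcompl.card_mul_card
    have h2 := Subgroup.card_mul_index W₁
    have h3 : 0 < Nat.card W₁ := Nat.card_pos
    apply Nat.eq_of_mul_eq_mul_left h3
    rw [h2, mul_comm, h1]
  have hcop : Nat.Coprime (Nat.card W₁) (Nat.card K) := by rw [hcard]; exact hHall
  have ord1 : ∀ a ∈ W₁, orderOf a ∣ Nat.card W₁ := fun a ha => Subgroup.orderOf_dvd_natCard W₁ ha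
  have ord2 : ∀ b ∈ K, orderOf b ∣ Nat.card K := fun a ha => Subgroup.orderOf_dvd_natCard K ha
  have copab : ∀ a ∈ W₁, ∀ b ∈ K, Nat.Coprime (orderOf a) (orderOf b) := fun a ha b hb =>
    Nat.Coprime.coprime_dvd_left (ord1 a ha) (Nat.Coprime.coprime_dvd_right (ord2 b hb) hcop)
  -- decomposition in W₁ ⊔ W₂
  have hnorm : ∀ k ∈ W₂, ∀ u ∈ W₁, k * u * k⁻¹ ∈ W₁ := by
    intro k hk u hu
    rw [← hcomm u hu k hk]
    simpa using hu
  have hsplit : ∀ x ∈ W₁ ⊔ W₂, ∃ a ∈ W₁, ∃ b ∈ W₂, x = a * b := fun x hx =>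
    exists_mul_of_mem_sup hnorm hx
  -- commutativity in W₁ ⊔ W₂
  have hW₁comm : ∀ a ∈ W₁, ∀ b ∈ W₁, a * b = b * a := cyclic_comm hW₁c
  have hW₂comm : ∀ a ∈ W₂, ∀ b ∈ W₂, a * b = b * a := cyclic_comm hW₂c
  have hWcomm : ∀ a ∈ W₁ ⊔ W₂, ∀ b ∈ W₁ ⊔ W₂, a * b = b * a := by
    intro a ha b hb
    obtain ⟨a₁, ha₁, a₂, ha₂, rfl⟩ := hsplit a ha
    obtain ⟨b₁, hb₁, b₂, hb₂, rfl⟩ := hsplit b hb
    calc a₁ * a₂ * (b₁ * b₂) = (a₁ * b₁) * (a₂ * b₂) := by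
          rw [mul_assoc, ← mul_assoc a₂, ← hcomm b₁ hb₁ a₂ ha₂, mul_assoc, ← mul_assoc]
      _ = (b₁ * a₁) * (b₂ * a₂) := by rw [hW₁comm a₁ ha₁ b₁ hb₁, hW₂comm a₂ ha₂ b₂ hb₂]
      _ = b₁ * b₂ * (a₁ * a₂) := by
          rw [mul_assoc, ← mul_assoc a₁, hcomm a₁ ha₁ b₂ hb₂, mul_assoc, ← mul_assoc]
  refine ⟨hW₁, hW₂, hinf, hcomm, ?_, ?_⟩
  · -- cyclic
    obtain ⟨a, ha⟩ := hW₁c
    obtain ⟨b, hb⟩ := hW₂c
    have hab : Commute (a : L) (b : L) := hcomm a a.2 b b.2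
    have hcopab : Nat.Coprime (orderOf (a : L)) (orderOf (b : L)) := copab a a.2 b (hW₂K b.2)
    have h1 : (a : L) ∈ Subgroup.zpowers ((a : L) * b) := mem_zpowers_mul_of_coprime hab hcopab
    have h2 : (b : L) ∈ Subgroup.zpowers ((a : L) * b) := by
      have := mem_zpowers_mul_of_coprime hab.symm hcopab.symm
      rwa [hab.symm.eq] at this
    have hle : W₁ ⊔ W₂ ≤ Subgroup.zpowers ((a : L) * b) := by
      apply sup_le
      · intro y hy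
        obtain ⟨i, hi⟩ := ha ⟨y, hy⟩
        have : (a : L) ^ i = y := by simpa using congrArg Subtype.val hi
        rw [← this]
        exact Subgroup.zpow_mem _ h1 i
      · intro y hy
        obtain ⟨i, hi⟩ := hb ⟨y, hy⟩
        have : (b : L) ^ i = y := by simpa using congrArg Subtype.val hi
        rw [← this]
        exact Subgroup.zpow_mem _ h2 i
    have hmem : (a : L) * b ∈ W₁ ⊔ W₂ :=
      Subgroup.mul_mem _ ((le_sup_left : W₁ ≤ W₁ ⊔ W₂) a.2) ((le_sup_right : W₂ ≤ W₁ ⊔ W₂) b.2)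
    refine ⟨⟨⟨(a : L) * b, hmem⟩, fun y => ?_⟩⟩
    obtain ⟨n, hn⟩ := hle y.2
    refine ⟨n, Subtype.ext ?_⟩
    simpa using hn
  · intro X hX hXne
    apply le_antisymm
    · intro g hg
      obtain ⟨x, hx⟩ := hXne
      have hy := (Subgroup.mem_set_normalizer_iff.1 hg x).1 hx
      have hxW : x ∈ W₁ ⊔ W₂ := (hX hx).1
      have hyW : g * x * g⁻¹ ∈ W₁ ⊔ W₂ := (hX hy).1
      have hxn : x ∉ (W₂ : Set L) := fun h => (hX hx).2 (Or.inr h)
      obtain ⟨x₁, hx₁, x₂, hx₂, exx⟩ := hsplit x hxW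
      obtain ⟨y₁, hy₁, y₂, hy₂, eyy⟩ := hsplit _ hyW
      have hg' : g ∈ K ⊔ W₁ := by rw [hKW₁']; trivial
      obtain ⟨k, hk, w, hw, rfl⟩ := exists_mul_of_mem_sup (N := K) (K := W₁)
        (fun w _ u hu => hK.conj_mem u hu w) hg'
      have hwW : w ∈ W₁ ⊔ W₂ := (le_sup_left : W₁ ≤ W₁ ⊔ W₂) hw
      have hwx : w * x = x * w := hWcomm w hwW x hxW
      have e1 : k * w * x * (k * w)⁻¹ = k * x * k⁻¹ := by
        calc k * w * x * (k * w)⁻¹ = k * (w * x) * w⁻¹ * k⁻¹ := by group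
          _ = k * (x * w) * w⁻¹ * k⁻¹ := by rw [hwx]
          _ = k * x * k⁻¹ := by group
      rw [e1] at eyy hy
      have hx₁2 : Commute x₁ x₂ := hcomm x₁ hx₁ x₂ hx₂
      have hy₁2 : Commute y₁ y₂ := hcomm y₁ hy₁ y₂ hy₂
      -- y₁ = x₁
      have hK1 : k * x * k⁻¹ * x⁻¹ ∈ K := by
        have : x * k⁻¹ * x⁻¹ ∈ K := hK.conj_mem _ (K.inv_mem hk) x
        have h2 : k * x * k⁻¹ * x⁻¹ = k * (x * k⁻¹ * x⁻¹) := by group
        rw [h2]; exact K.mul_mem hk this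
      have hyx : y₁ = x₁ := by
        have h3 : y₁ * x₁⁻¹ ∈ K := by
          have h4 : y₁ * x₁⁻¹ = (k * x * k⁻¹ * x⁻¹) * (x₂ * y₂⁻¹) := by
            rw [eyy, exx]
            have c1 : Commute y₂ x₁ := (hcomm x₁ hx₁ y₂ hy₂).symm
            calc y₁ * x₁⁻¹ = y₁ * y₂ * y₂⁻¹ * x₁⁻¹ := by group
              _ = y₁ * y₂ * (x₁⁻¹ * y₂⁻¹) := by
                  have : y₂⁻¹ * x₁⁻¹ = x₁⁻¹ * y₂⁻¹ := (c1.inv_inv).eq
                  rw [mul_assoc _ y₂⁻¹, this]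
              _ = y₁ * y₂ * (x₁ * x₂)⁻¹ * (x₂ * y₂⁻¹) := by
                  rw [hx₁2.mul_inv]; group
          rw [h4]
          exact K.mul_mem hK1 (K.mul_mem (hW₂K hx₂) (K.inv_mem (hW₂K hy₂)))
        have h5 : y₁ * x₁⁻¹ ∈ K ⊓ W₁ := ⟨h3, W₁.mul_mem hy₁ (W₁.inv_mem hx₁)⟩
        rw [hKW₁, Subgroup.mem_bot] at h5
        exact mul_inv_eq_one.1 h5
      subst hyx
      have hx₁1 : y₁ ≠ 1 := by
        rintro rfl
        apply hxn
        rw [exx, one_mul]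
        exact hx₂
      have hkx : k * y₁ * k⁻¹ = y₁ := by
        refine eq_of_mul_eq_of_coprime (u := k * x₂ * k⁻¹) (v := y₂) ?_ hy₁2 ?_ ?_ ?_ ?_ ?_
        · show k * y₁ * k⁻¹ * (k * x₂ * k⁻¹) = k * x₂ * k⁻¹ * (k * y₁ * k⁻¹)
          calc k * y₁ * k⁻¹ * (k * x₂ * k⁻¹) = k * (y₁ * x₂) * k⁻¹ := by group
            _ = k * (x₂ * y₁) * k⁻¹ := by rw [hx₁2.eq]
            _ = k * x₂ * k⁻¹ * (k * y₁ * k⁻¹) := by group
        · rw [orderOf_conj, orderOf_conj]; exact copab _ hx₁ _ (hW₂K hx₂)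
        · exact copab _ hx₁ _ (hW₂K hy₂)
        · rw [orderOf_conj]; exact copab _ hx₁ _ (hW₂K hy₂)
        · rw [orderOf_conj]; exact copab _ hx₁ _ (hW₂K hx₂)
        · rw [← eyy, exx]; group
      have hk2 : k ∈ W₂ := by
        rw [← hC y₁ hx₁ hx₁1]
        refine Subgroup.mem_inf.2 ⟨hk, Subgroup.mem_centralizer_singleton_iff.2 ?_⟩
        calc k * y₁ = k * y₁ * k⁻¹ * k := by group
          _ = y₁ * k := by rw [hkx]
      exact Subgroup.mul_mem _ ((le_sup_right : W₂ ≤ W₁ ⊔ W₂) hk2) hwW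
    · rw [Subgroup.le_set_normalizer_iff]
      intro h hh x hx
      have hxW : x ∈ W₁ ⊔ W₂ := (hX hx).1
      have : h * x * h⁻¹ = x := by
        rw [hWcomm h hh x hxW]; group
      rwa [this]

end Cfsg.Agent.S1510
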