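import Cfsg.Statements.S1512
import Cfsg.Agent.Lib.Coprime.Action

set_option autoImplicit false
open Cfsg

namespace Cfsg.Agent.S1512

/-- Let K be a normal subgroup of the finite group L and x a non-identity element whose order is coprime to the order of K, such that K ⊓ C_L(y) = W₂ for every non-identity element y of the cyclic group generated by x. Then the number of conjugacy classes of K mapped to themselves by conjugation by x is at most Nat.card W₂. -/
theorem result {L : Type*} [Group L] [Finite L] (K W₂ : Subgroup L) [hK : K.Normal] (x : L) (hx1 : x ≠ 1) (hx : Nat.Coprime (orderOf x) (Nat.card K)) (hC : ∀ y ∈ Subgroup.zpowers x, y ≠ 1 → K ⊓ Subgroup.centralizer ({y} : Set L) = W₂) : Nat.card {C : ConjClasses K // ConjClasses.map (MulEquiv.toMonoidHom ((MulAut.conjNormal x : MulAut K))) C = C} ≤ Nat.card W₂ := by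
  have hxx : x ∈ Subgroup.zpowers x := Subgroup.mem_zpowers x
  have hW : K ⊓ Subgroup.centralizer ({x} : Set L) = W₂ := hC x hxx hx1
  have hWK : ∀ w ∈ W₂, w ∈ K := fun w hw => by
    rw [← hW] at hw
    exact (Subgroup.mem_inf.mp hw).1
  have hWx : ∀ w ∈ W₂, x * w * x⁻¹ = w := fun w hw => by
    rw [← hW] at hw
    have := Subgroup.mem_centralizer_iff.mp (Subgroup.mem_inf.mp hw).2 x rfl
    rw [this]
    group
  let g : W₂ → {C : ConjClasses K // ConjClasses.map (MulEquiv.toMonoidHom ((MulAut.conjNormal x : MulAut K))) C = C} :=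
    fun w => ⟨ConjClasses.mk ⟨w, hWK w w.2⟩, by
      rw [ConjClasses.map]
      show ConjClasses.mk _ = ConjClasses.mk _
      congr 1
      apply Subtype.ext
      simpa using hWx w w.2⟩
  apply Nat.card_le_card_of_surjective g
  rintro ⟨C, hC'⟩
  obtain ⟨k, rfl⟩ := ConjClasses.mk_surjective C
  have h1 : ConjClasses.mk ((MulEquiv.toMonoidHom ((MulAut.conjNormal x : MulAut K))) k) = ConjClasses.mk k := hC'
  rw [ConjClasses.mk_eq_mk_iff_isConj, isConj_iff] at h1
  obtain ⟨m, hm⟩ := h1
  have hm' : (m : L) * (x * (k : L) * x⁻¹) * (m : L)⁻¹ = k := by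
    have := congrArg Subtype.val hm
    simpa using this
  -- Glauberman's lemma
  set S : Subgroup L := Subgroup.centralizer ({(k : L)} : Set L) with hS
  have hSn : S ≤ Subgroup.normalizer (K : Set L) := Subgroup.le_normalizer_of_normal
  have hxS : x ∈ K ⊔ S := by
    have hmx : (m : L) * x ∈ S := by
      rw [hS, Subgroup.mem_centralizer_iff]
      intro z hz
      rw [Set.mem_singleton_iff.mp hz]
      calc (k : L) * ((m : L) * x) = ((m : L) * (x * (k : L) * x⁻¹) * (m : L)⁻¹) * ((m : L) * x) := by rw [hm']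
        _ = (m : L) * x * (k : L) := by group
    have : x = (m : L)⁻¹ * ((m : L) * x) := by group
    rw [this]
    exact Subgroup.mul_mem_sup (K.inv_mem m.2) hmx
  have hAle : Subgroup.zpowers x ≤ K ⊔ S := by
    rw [Subgroup.zpowers_le]
    exact hxS
  obtain ⟨n, hn, hn'⟩ := Cfsg.Agent.Lib.Coprime.Action.glauberman_exists (A := Subgroup.zpowers x) (K := K) S
    Subgroup.le_normalizer_of_normal (by rw [Nat.card_zpowers]; exact hx)
    (Or.inl (by
      apply Group.isSolvable_of_comm
      rintro ⟨a, ha⟩ ⟨b, hb⟩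
      apply Subtype.ext
      obtain ⟨i, rfl⟩ := Subgroup.mem_zpowers_iff.mp ha
      obtain ⟨j, rfl⟩ := Subgroup.mem_zpowers_iff.mp hb
      show x ^ i * x ^ j = x ^ j * x ^ i
      rw [← zpow_add, ← zpow_add, add_comm]))
    (fun a ha => by
      obtain ⟨k', hk', s, hs, rfl⟩ := Cfsg.Agent.Lib.Coprime.Action.exists_mul_of_mem_sup hSn (hAle ha)
      exact ⟨k'⁻¹, K.inv_mem hk', by simpa using hs⟩)
  have h2 := Subgroup.mem_centralizer_iff.mp (hn' x hxx) (k : L) rfl
  -- `k' = n k n⁻¹` is fixed by `x`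
  set k' : L := n * k * n⁻¹ with hk'
  have hk'K : k' ∈ K := K.mul_mem (K.mul_mem hn k.2) (K.inv_mem hn)
  have hk'x : k' ∈ W₂ := by
    rw [← hW]
    refine Subgroup.mem_inf.mpr ⟨hk'K, ?_⟩
    rw [Subgroup.mem_centralizer_iff]
    intro z hz
    rw [Set.mem_singleton_iff.mp hz]
    have e : n⁻¹ * x * n * (k : L) = (k : L) * (n⁻¹ * x * n) := h2.symm
    calc x * k' = n * (n⁻¹ * x * n * (k : L)) * n⁻¹ := by rw [hk']; group
      _ = n * ((k : L) * (n⁻¹ * x * n)) * n⁻¹ := by rw [e]
      _ = k' * x := by rw [hk']; group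
  refine ⟨⟨k', hk'x⟩, ?_⟩
  apply Subtype.ext
  show ConjClasses.mk _ = ConjClasses.mk k
  rw [ConjClasses.mk_eq_mk_iff_isConj, isConj_iff]
  refine ⟨(⟨n, hn⟩ : K)⁻¹, ?_⟩
  apply Subtype.ext
  simp [hk', mul_assoc]
end Cfsg.Agent.S1512
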