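import Cfsg.Statements.S1518
import Cfsg.Agent.Lib.OddChar.DadeExp4
import Cfsg.Agent.Lib.CharX.Isometry
import Cfsg.Agent.Lib.Coh.System
import Cfsg.Agent.Lib.Char.FrobSchur
import Cfsg.Agent.Lib.Char.Linear

set_option autoImplicit false
open Cfsg

namespace Cfsg.Agent.S1518

open Cfsg.Agent.Lib.Char.Basic Cfsg.Agent.Lib.Char.Ortho Cfsg.Agent.Lib.Char.GenLattice
open Cfsg.Agent.Lib.OddChar.DadeCount
open scoped ComplexConjugate

theorem dade_conj {G : Type*} [Group G] (A : Set G) (L : Subgroup G) (H : G → Subgroup G) (α : ↥L → ℂ) :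
    dadeIsometry A L H (conjFun α) = conjFun (dadeIsometry A L H α) := by
  classical
  funext g
  unfold dadeIsometry conjFun
  by_cases h : ∃ a : ↥L, (a : G) ∈ A ∧ ∃ x : G, ∃ u ∈ H (a : G), x * g * x⁻¹ = (a : G) * u
  · simp only [dif_pos h]
  · simp only [dif_neg h, map_zero]

theorem dade_neg {G : Type*} [Group G] (A : Set G) (L : Subgroup G) (H : G → Subgroup G) (α : ↥L → ℂ) :
    dadeIsometry A L H (-α) = - dadeIsometry A L H α := by
  classical
  funext g
  unfold dadeIsometry
  by_cases h : ∃ a : ↥L, (a : G) ∈ A ∧ ∃ x : G, ∃ u ∈ H (a : G), x * g * x⁻¹ = (a : G) * u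
  · simp only [dif_pos h, Pi.neg_apply]
  · simp only [dif_neg h, Pi.neg_apply, neg_zero]

/-- Under the Dade hypothesis for (A, L, H): if χ is an irreducible character of L vanishing at every non-identity element of L outside A, then the Dade image of χ − conj χ equals μ − conj μ for some irreducible character μ of G. -/
theorem result {G : Type*} [Group G] [Fintype G] (A : Set G) (L : Subgroup G) [Fintype L] (H : G → Subgroup G) (hD : Cfsg.DadeHypothesis A L H) (χ : L → ℂ) (hχ : Cfsg.IsIrrCharacter L χ) (hsupp : ∀ x : L, x ≠ 1 → (x : G) ∉ A → χ x = 0) : ∃ μ : G → ℂ, Cfsg.IsIrrCharacter G μ ∧ Cfsg.dadeIsometry A L H (χ - Cfsg.conjFun χ) = μ - Cfsg.conjFun μ := by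
  classical
  have hχc := isCharacter_of_isIrrCharacter hχ
  have hconj : IsIrrCharacter ↥L (conjFun χ) := Cfsg.Agent.Lib.Char.FrobSchur.isIrr_conj hχ
  have h1 : (χ - conjFun χ) 1 = 0 := by
    rw [Pi.sub_apply, Cfsg.Agent.Lib.Coh.System.conj_apply_one hχc, sub_self]
  have hα : IsGeneralizedCharacter ↥L (χ - conjFun χ) :=
    isGenChar_sub (isGenChar_of_isIrr hχ) (isGenChar_of_isIrr hconj)
  have hαA : ∀ x : ↥L, (x : G) ∉ A → (χ - conjFun χ) x = 0 := by
    intro x hx
    by_cases hx1 : x = 1
    · rw [hx1]; exact h1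
    · rw [Pi.sub_apply]
      unfold conjFun
      rw [hsupp x hx1 hx]
      simp
  have hαc : IsClassFunction ↥L (χ - conjFun χ) := isClassFunction_of_isGenChar hα
  have hτ := Cfsg.Agent.Lib.OddChar.DadeExp4.isGenChar_dade hD hα hαA
  by_cases hreal : conjFun χ = χ
  · refine ⟨fun _ => 1, ?_, ?_⟩
    · have := Cfsg.Agent.Lib.Char.Linear.isIrrCharacter_of_hom (1 : G →* ℂˣ)
      simpa using this
    · rw [hreal, sub_self]
      have h0 : dadeIsometry A L H (0 : ↥L → ℂ) = 0 := by
        have := dade_neg A L H (0 : ↥L → ℂ)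
        rw [neg_zero] at this
        exact self_eq_neg.1 this
      rw [h0]
      funext g
      simp [conjFun]
  · -- norm two
    have hinner : classInner χ (conjFun χ) = 0 := classInner_eq_zero_of_isIrr_of_ne hχ hconj (fun e => hreal e.symm)
    have hinner' : classInner (conjFun χ) χ = 0 := classInner_eq_zero_of_isIrr_of_ne hconj hχ hreal
    have hn : classInner (dadeIsometry A L H (χ - conjFun χ)) (dadeIsometry A L H (χ - conjFun χ)) = 2 := by
      rw [classInner_dade_dade hD hαc hαA hαc]
      rw [classInner_sub_left, classInner_sub_right, classInner_sub_right, hinner, hinner',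
        classInner_self_of_isIrr hχ, classInner_self_of_isIrr hconj]
      norm_num
    have hone : dadeIsometry A L H (χ - conjFun χ) 1 = 0 := by
      apply dadeIsometry_of_not_mem
      rintro ⟨a, ha, x, u, hu, e⟩
      have h2 : x * 1 * x⁻¹ = 1 := by group
      rw [h2] at e
      have h3 : (a : G) = u⁻¹ := eq_inv_of_mul_eq_one_left e.symm
      have h4 : (a : G) ∈ H (a : G) := by
        have := (H (a : G)).inv_mem hu
        rwa [← h3] at this
      have h5 : (a : G) ∈ H (a : G) ⊓ (L ⊓ Subgroup.centralizer ({(a : G)} : Set G)) :=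
        ⟨h4, a.2, hD.le_centralizer _ ha h4⟩
      rw [hD.inf_eq_bot _ ha, Subgroup.mem_bot] at h5
      rw [h5] at ha
      exact hD.one_not_mem ha
    obtain ⟨a, b, hab, hsub⟩ := Cfsg.Agent.Lib.CharX.Isometry.exists_irr_sub hτ hone hn
    -- conjugation
    have hc : conjFun (dadeIsometry A L H (χ - conjFun χ)) = - dadeIsometry A L H (χ - conjFun χ) := by
      rw [← dade_conj, ← dade_neg]
      congr 1
      funext x
      simp [conjFun]
    rw [hsub] at hc
    have ha' : IsIrrCharacter G (conjFun (a : G → ℂ)) := Cfsg.Agent.Lib.Char.FrobSchur.isIrr_conj a.2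
    have hb' : IsIrrCharacter G (conjFun (b : G → ℂ)) := Cfsg.Agent.Lib.Char.FrobSchur.isIrr_conj b.2
    have hsum : (a : G → ℂ) + conjFun (a : G → ℂ) = (b : G → ℂ) + conjFun (b : G → ℂ) := by
      funext g
      have := congrFun hc g
      simp only [conjFun, Pi.sub_apply, Pi.neg_apply, map_sub, neg_sub] at this
      simp only [conjFun, Pi.add_apply]
      linear_combination this
    have hab' : (a : G → ℂ) ≠ (b : G → ℂ) := fun e => hab (Subtype.ext e)
    have h2 := congrArg (fun f => classInner f (a : G → ℂ)) hsum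
    simp only [classInner_add_left] at h2
    rw [classInner_self_of_isIrr a.2, classInner_eq_zero_of_isIrr_of_ne b.2 a.2 (fun e => hab' e.symm), zero_add] at h2
    have hb2 : conjFun (b : G → ℂ) = (a : G → ℂ) := by
      by_contra hne
      rw [classInner_eq_zero_of_isIrr_of_ne hb' a.2 hne] at h2
      by_cases h3 : conjFun (a : G → ℂ) = (a : G → ℂ)
      · rw [h3, classInner_self_of_isIrr a.2] at h2
        norm_num at h2
      · rw [classInner_eq_zero_of_isIrr_of_ne ha' a.2 h3] at h2
        norm_num at h2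
    refine ⟨a, a.2, ?_⟩
    rw [hsub]
    congr 1
    rw [← hb2, Cfsg.Agent.Lib.Coh.System.conj_conj]

end Cfsg.Agent.S1518
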