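import Cfsg.Statements.S1527

set_option autoImplicit false
open Cfsg

namespace Cfsg.Agent.S1527

section
variable {G : Type*} [Group G] [Fintype G] [DecidableEq G]

theorem card_conj_union (K : Subgroup G) (hTI : Cfsg.IsTISubset (K : Set G)) [DecidablePred (· ∈ K)] :
    (Finset.univ.filter (fun g : G => g ≠ 1 ∧ ∃ x : G, x * g * x⁻¹ ∈ K)).card =
      (Subgroup.normalizer (K : Set G)).index * (Nat.card K - 1) := by
  classical
  set N := Subgroup.normalizer (K : Set G) with hN
  set P : Finset (G × G) := (Finset.univ : Finset G) ×ˢ (Finset.univ.filter (fun h : G => h ≠ 1 ∧ h ∈ K)) with hP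
  set S := Finset.univ.filter (fun g : G => g ≠ 1 ∧ ∃ x : G, x * g * x⁻¹ ∈ K) with hS
  have hKcard : (Finset.univ.filter (fun h : G => h ≠ 1 ∧ h ∈ K)).card = Nat.card K - 1 := by
    have h1 : Finset.univ.filter (fun h : G => h ≠ 1 ∧ h ∈ K) = (Finset.univ.filter (fun h : G => h ∈ K)).erase 1 := by
      ext h; simp
    rw [h1, Finset.card_erase_of_mem (by simp [K.one_mem])]
    rw [Nat.card_eq_fintype_card, Fintype.card_subtype]
  have hmaps : ∀ p ∈ P, p.1⁻¹ * p.2 * p.1 ∈ S := by
    rintro ⟨x, h⟩ hp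
    simp only [hP, Finset.mem_product, Finset.mem_univ, true_and, Finset.mem_filter] at hp
    rw [hS, Finset.mem_filter]
    refine ⟨Finset.mem_univ _, ?_, x, ?_⟩
    · intro e
      apply hp.1
      have : h = x * (x⁻¹ * h * x) * x⁻¹ := by group
      rw [this, e]; group
    · have : x * (x⁻¹ * h * x) * x⁻¹ = h := by group
      rw [this]; exact hp.2
  have hfiber : ∀ g ∈ S, (P.filter (fun p => p.1⁻¹ * p.2 * p.1 = g)).card = Nat.card N := by
    intro g hg
    rw [hS, Finset.mem_filter] at hg
    obtain ⟨-, hg1, x₀, hx₀⟩ := hg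
    have hh₀1 : x₀ * g * x₀⁻¹ ≠ 1 := by
      intro e
      apply hg1
      have : g = x₀⁻¹ * (x₀ * g * x₀⁻¹) * x₀ := by group
      rw [this, e]; group
    rw [Nat.card_eq_fintype_card, ← Finset.card_univ]
    symm
    refine Finset.card_bij (fun n _ => ((n : G) * x₀, (n : G) * (x₀ * g * x₀⁻¹) * (n : G)⁻¹)) ?_ ?_ ?_
    · intro n _
      rw [Finset.mem_filter, hP, Finset.mem_product]
      simp only [Finset.mem_univ, true_and, Finset.mem_filter]
      refine ⟨⟨?_, ?_⟩, ?_⟩
      · intro e
        apply hh₀1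
        have : x₀ * g * x₀⁻¹ = (n : G)⁻¹ * ((n : G) * (x₀ * g * x₀⁻¹) * (n : G)⁻¹) * (n : G) := by group
        rw [this, e]; group
      · exact (Subgroup.mem_set_normalizer_iff.1 n.2 _).1 hx₀
      · group
    · intro n _ n' _ e
      simp only [Prod.mk.injEq] at e
      exact Subtype.ext (mul_right_cancel e.1)
    · rintro ⟨x, h⟩ hp
      rw [Finset.mem_filter, hP, Finset.mem_product] at hp
      simp only [Finset.mem_univ, true_and, Finset.mem_filter] at hp
      obtain ⟨⟨hh1, hhK⟩, e⟩ := hp
      have eh : h = (x * x₀⁻¹) * (x₀ * g * x₀⁻¹) * (x * x₀⁻¹)⁻¹ := by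
        rw [← e]; group
      have hn : x * x₀⁻¹ ∈ N := by
        by_contra hn
        have := hTI (x * x₀⁻¹) hn (x₀ * g * x₀⁻¹) hx₀ (by rw [← eh]; exact hhK)
        exact hh₀1 this
      refine ⟨⟨x * x₀⁻¹, hn⟩, Finset.mem_univ _, ?_⟩
      simp only [Prod.mk.injEq]
      refine ⟨by group, eh.symm⟩
  have h1 := Finset.card_eq_sum_card_fiberwise hmaps
  rw [Finset.sum_congr rfl hfiber, Finset.sum_const, smul_eq_mul] at h1
  rw [hP, Finset.card_product, hKcard, Finset.card_univ, ← Nat.card_eq_fintype_card,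
    ← Subgroup.card_mul_index N] at h1
  have hNpos : 0 < Nat.card N := Nat.card_pos
  have : Nat.card N * (N.index * (Nat.card K - 1)) = Nat.card N * S.card := by
    rw [← mul_assoc, h1, mul_comm]
  exact (Nat.eq_of_mul_eq_mul_left hNpos this).symm

end

/-- Let G be a finite group and H i (i in a finite index type) subgroups of pairwise coprime orders, each of whose underlying sets is a TI-subset of G, such that every non-identity element of G is conjugate to an element of some H i. Then Nat.card G − 1 = Σ_i [G : N_G(H i)] · (Nat.card (H i) − 1). -/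
theorem result {G : Type*} [Group G] [Finite G] {ι : Type*} [Fintype ι] (H : ι → Subgroup G) (hcop : ∀ i j, i ≠ j → Nat.Coprime (Nat.card (H i)) (Nat.card (H j))) (hTI : ∀ i, Cfsg.IsTISubset (H i : Set G)) (hcover : ∀ g : G, g ≠ 1 → ∃ i, ∃ x : G, x * g * x⁻¹ ∈ H i) : Nat.card G - 1 = ∑ i, (Subgroup.normalizer (H i : Set G)).index * (Nat.card (H i) - 1) := by
  classical
  cases nonempty_fintype G
  have hall : Finset.univ.filter (fun g : G => g ≠ 1) =
      Finset.univ.biUnion (fun i => Finset.univ.filter (fun g : G => g ≠ 1 ∧ ∃ x : G, x * g * x⁻¹ ∈ H i)) := by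
    ext g
    simp only [Finset.mem_filter, Finset.mem_univ, true_and, Finset.mem_biUnion]
    constructor
    · intro hg
      obtain ⟨i, hi⟩ := hcover g hg
      exact ⟨i, hg, hi⟩
    · rintro ⟨i, hg, _⟩
      exact hg
  have hdisj : Set.PairwiseDisjoint (↑(Finset.univ : Finset ι))
      (fun i => Finset.univ.filter (fun g : G => g ≠ 1 ∧ ∃ x : G, x * g * x⁻¹ ∈ H i)) := by
    intro i _ j _ hij
    simp only [Function.onFun]
    rw [Finset.disjoint_filter]
    rintro g - ⟨hg1, x, hx⟩ ⟨_, y, hy⟩
    apply hg1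
    have ord : ∀ (K : Subgroup G) (z : G), z * g * z⁻¹ ∈ K → orderOf g ∣ Nat.card K := by
      intro K z hz
      have h1 := Subgroup.orderOf_dvd_natCard K hz
      have h2 : orderOf (z * g * z⁻¹) = orderOf g := by
        have := orderOf_injective (MulAut.conj z).toMonoidHom (MulAut.conj z).injective g
        simpa using this
      rwa [h2] at h1
    have h3 := Nat.dvd_gcd (ord _ x hx) (ord _ y hy)
    rw [hcop i j hij] at h3
    simpa using h3
  have hcard : Nat.card G - 1 = (Finset.univ.filter (fun g : G => g ≠ 1)).card := by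
    have : Finset.univ.filter (fun g : G => g ≠ 1) = (Finset.univ : Finset G).erase 1 := by
      ext g; simp
    rw [this, Finset.card_erase_of_mem (Finset.mem_univ _), Finset.card_univ, Nat.card_eq_fintype_card]
  rw [hcard, hall, Finset.card_biUnion hdisj]
  exact Finset.sum_congr rfl fun i _ => card_conj_union (H i) (hTI i)

end Cfsg.Agent.S1527
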