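import Cfsg.Statements.S1589
import Cfsg.Agent.Lib.M24Orb.Index
import Cfsg.Agent.Lib.M24Orb.Index276

set_option autoImplicit false
open scoped Pointwise
open Cfsg

namespace Cfsg.Agent.S1589

/-- Subgroups of the group of the length-24 code of index 759, 276 and 1771 are exactly the octad, duad and sextet stabilisers, and no subgroup has index 253. -/
theorem result : (∀ H : Subgroup ↥Cfsg.M24, H.index = 759 → ∃ o ∈ Cfsg.octads, H = MulAction.stabilizer Cfsg.M24 o) ∧ (∀ H : Subgroup ↥Cfsg.M24, H.index = 276 → ∃ s : Finset Cfsg.GolayPt, s.card = 2 ∧ H = MulAction.stabilizer Cfsg.M24 s) ∧ (∀ H : Subgroup ↥Cfsg.M24, H.index = 1771 → ∃ S ∈ Cfsg.sextets, H = MulAction.stabilizer Cfsg.M24 S) ∧ ∀ H : Subgroup ↥Cfsg.M24, H.index ≠ 253 := by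
  have hcard : ∀ {H : Subgroup ↥Cfsg.M24} {n : ℕ}, H.index = n → Nat.card H * n = 244823040 := by
    intro H n h
    rw [← h, Subgroup.card_mul_index, Cfsg.Agent.Lib.Golay.M24.card_M24]
  refine ⟨?_, ?_, ?_, ?_⟩
  · intro H hH
    have h1 := hcard hH
    have h2 : Nat.card H = 322560 := by
      generalize Nat.card ↥H = n at h1 ⊢
      omega
    rcases Cfsg.Agent.Lib.M24Orb.Index.main_odd H (m := 315) (by rw [h2]) (by decide) (by norm_num)
      (by norm_num) with ⟨o, ho, hle⟩ | ⟨S, hS, hle⟩ | ⟨T, hT, hle⟩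
    · refine ⟨o, ho, Subgroup.eq_of_le_of_card_ge hle ?_⟩
      rw [Cfsg.Agent.Lib.M24Orb.Index.card_stab_octad ho, h2]
    · exfalso
      have := Subgroup.card_dvd_of_le hle
      rw [h2, Cfsg.Agent.Lib.M24Orb.SextetStruct.card_stabilizer hS] at this
      omega
    · exfalso
      have := Subgroup.card_dvd_of_le hle
      rw [h2, Cfsg.Agent.Lib.M24Orb.Index.card_stab_trio hT] at this
      omega
  · intro H hH
    have h1 := hcard hH
    have h2 : Nat.card H = 887040 := by
      generalize Nat.card ↥H = n at h1 ⊢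
      omega
    exact Cfsg.Agent.Lib.M24Orb.Index276.main_276 H h2
  · intro H hH
    have h1 := hcard hH
    have h2 : Nat.card H = 138240 := by
      generalize Nat.card ↥H = n at h1 ⊢
      omega
    rcases Cfsg.Agent.Lib.M24Orb.Index.main_odd H (m := 135) (by rw [h2]) (by decide) (by norm_num)
      (by norm_num) with ⟨o, ho, hle⟩ | ⟨S, hS, hle⟩ | ⟨T, hT, hle⟩
    · exfalso
      have := Subgroup.card_dvd_of_le hle
      rw [h2, Cfsg.Agent.Lib.M24Orb.Index.card_stab_octad ho] at this
      omega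
    · refine ⟨S, hS, Subgroup.eq_of_le_of_card_ge hle ?_⟩
      rw [Cfsg.Agent.Lib.M24Orb.SextetStruct.card_stabilizer hS, h2]
    · exfalso
      have := Subgroup.card_dvd_of_le hle
      rw [h2, Cfsg.Agent.Lib.M24Orb.Index.card_stab_trio hT] at this
      omega
  · intro H hH
    have h1 := hcard hH
    have h2 : Nat.card H = 967680 := by
      generalize Nat.card ↥H = n at h1 ⊢
      omega
    rcases Cfsg.Agent.Lib.M24Orb.Index.main_odd H (m := 945) (by rw [h2]) (by decide) (by norm_num)
      (by norm_num) with ⟨o, ho, hle⟩ | ⟨S, hS, hle⟩ | ⟨T, hT, hle⟩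
    · have := Subgroup.card_dvd_of_le hle
      rw [h2, Cfsg.Agent.Lib.M24Orb.Index.card_stab_octad ho] at this
      omega
    · have := Subgroup.card_dvd_of_le hle
      rw [h2, Cfsg.Agent.Lib.M24Orb.SextetStruct.card_stabilizer hS] at this
      omega
    · have := Subgroup.card_dvd_of_le hle
      rw [h2, Cfsg.Agent.Lib.M24Orb.Index.card_stab_trio hT] at this
      omega

end Cfsg.Agent.S1589
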