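import Cfsg.Statements.S1594
-- import your own Cfsg.Agent.* helpers here

set_option autoImplicit false
open Cfsg

namespace Cfsg.Agent.S1594

open scoped Pointwise

/-! ### Concrete data (generated by a script) -/

/-- Systematic basis of the code, two bits per coordinate. -/
def bCode : Fin 6 → Nat := ![9765889, 9077764, 5784592, 1673280, 9586944, 11096064]

/-- Permutation tables (four bits per entry) of the two generators and their inverses. -/
def tbl1 : Nat := 182636842604931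
def tbl1i : Nat := 152975900542356
def tbl2 : Nat := 164259548018451
def tbl2i : Nat := 61255522452501

/-- Sign masks of the two generators. -/
def sgn1 : Nat := 1112
def sgn2 : Nat := 1672

/-- Bitset of the masks of the hexads. -/
def hexBits : Nat := 566164347073922904938306086863432919139142072674071009632190318307680726102859523842734288689905935665945313192489783861646141291860985470519040273268566903863083432932342781313098317445151810602862378102051302831030712908120545003687201985490517778165209501957804274987495310164779476550714365157631877161478077296539324240738003125146916966824534977525669811577102528958588158808990272837549893931777908471868373420338714573400785084578778374590720472292484289186721181165671676851438785477733334500768449406588592149993251296025015588511049769239827506930091209646328141939916803548936350300308363334154633153252536787467878093201871281569808238996374714922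20311404941243786052492713182738134328711663684007242320418419141695329129535182791143355222521244263987029853496949810499493143085305780784673064128200836929668874800415841456585828974398871352587171226866468138417067278060298687515445872572279023192332183263791556260396583867539176980932805504251174452757142201001178607968280416838410976781783026036177284703664475156443601415081467147860243572819336534469608973602680420013884416783892022513924126910480808755978114617278929873061085508796110570687671481576307753911406027929554142807522829481803776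

/-- Hexad masks with a coefficient vector of a word with that support. -/
def hexWit : List (Nat × ZMod 3 × ZMod 3 × ZMod 3 × ZMod 3 × ZMod 3 × ZMod 3) := [(63, 1,1,1,2,2,0), (222, 0,1,2,1,2,2), (237, 1,0,2,1,0,1), (243, 1,2,0,0,1,2), (347, 1,2,0,1,2,1), (366, 0,1,2,2,0,1), (373, 1,0,2,0,2,2), (413, 1,0,2,2,1,0), (427, 1,2,0,2,0,0), (438, 0,1,2,0,1,0), (455, 1,1,1,0,0,2), (504, 0,0,0,1,1,2), (591, 1,2,2,2,0,2), (630, 0,1,1,0,1,2), (633, 1,0,0,2,1,1), (667, 1,1,0,1,1,0), (679, 1,1,2,0,0,0), (700, 0,0,1,1,1,0), (725, 1,0,1,0,2,1), (746, 0,1,0,2,0,2), (791, 1,2,1,0,1,0), (813, 1,0,1,1,0,0), (826, 0,1,0,1,2,0), (860, 0,0,1,2,2,2), (867, 1,1,0,0,0,1), (910, 0,1,1,2,0,0), (945, 1,0,0,0,2,0), (969, 1,0,0,1,0,2), (978, 0,1,0,0,1,1), (996, 0,0,1,0,0,1), (1117, 1,0,1,1,1,2), (1127, 1,2,1,0,0,1), (1146, 0,1,0,1,1,1), (1175, 1,2,2,0,2,0), (1198, 0,1,1,1,0,0), (1209, 1,0,0,1,2,0), (1227, 1,1,0,2,0,1), (1268, 0,0,1,0,2,2),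 (1295, 1,1,2,1,0,0), (1331, 1,1,0,0,1,0), (1340, 0,0,1,2,1,0), (1366, 0,1,1,0,2,1), (1385, 1,0,0,2,0,2), (1434, 0,1,0,2,2,0), (1445, 1,0,1,0,0,0), (1484, 0,0,1,1,0,1), (1489, 1,0,0,0,1,1), (1506, 0,1,0,0,0,2), (1566, 0,1,2,2,1,0), (1579, 1,2,0,1,0,0), (1589, 1,0,2,0,1,0), (1619, 1,1,0,0,2,2), (1644, 0,0,1,2,0,1), (1677, 1,0,1,2,0,0), (1714, 0,1,0,0,2,0), (1734, 0,1,2,0,0,1), (1752, 0,0,0,1,2,1), (1761, 1,0,0,0,0,2), (1817, 1,0,0,2,2,0), (1830, 0,1,1,0,0,0), (1861, 1,0,2,0,0,1), (1866, 0,1,0,1,0,2), (1904, 0,0,0,0,1,2), (1923, 1,2,0,0,0,0), (1940, 0,0,1,0,1,0), (1960, 0,0,0,1,0,0), (2135, 1,1,2,0,1,1), (2155, 1,1,0,1,0,2), (2172, 0,0,1,1,2,1), (2191, 1,2,1,1,0,0), (2229, 1,0,1,0,1,0), (2234, 0,1,0,2,1,0), (2265, 1,0,0,2,2,2), (2278, 0,1,1,0,0,1), (2334, 0,1,1,1,1,0), (2343, 1,2,2,0,0,0), (2361, 1,0,0,1,1,0), (2381, 1,0,1,2,0,1), (2418, 0,1,0,0,2,2), (2451, 1,1,0,0,2,0), (2476, 0,0,1,2,0,0), (2506, 0,1,0,1,0,1),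 (2516, 0,0,1,0,1,2), (2529, 1,0,0,0,0,1), (2589, 1,0,2,1,2,0), (2606, 0,1,2,1,0,0), (2611, 1,2,0,0,2,0), (2650, 0,1,0,2,2,1), (2661, 1,0,1,0,0,2), (2710, 0,1,1,0,2,0), (2729, 1,0,0,2,0,0), (2755, 1,2,0,0,0,1), (2764, 0,0,1,1,0,2), (2800, 0,0,0,0,1,1), (2827, 1,1,0,2,0,0), (2868, 0,0,1,0,2,0), (2886, 0,1,2,0,0,2), (2897, 1,0,0,0,1,2), (2920, 0,0,0,1,0,1), (2949, 1,0,2,0,0,0), (2968, 0,0,0,1,2,0), (2978, 0,1,0,0,0,0), (3099, 1,2,0,2,1,0), (3117, 1,0,2,2,0,0), (3126, 0,1,2,0,2,0), (3150, 0,1,1,2,0,2), (3185, 1,0,0,0,2,1), (3228, 0,0,1,2,2,0), (3235, 1,1,0,0,0,0), (3269, 1,0,2,0,0,2), (3282, 0,1,0,0,1,2), (3304, 0,0,0,1,0,2), (3349, 1,0,1,0,2,0), (3370, 0,1,0,2,0,0), (3395, 1,2,0,0,0,2), (3416, 0,0,0,1,2,2), (3428, 0,0,1,0,0,2), (3462, 0,1,2,0,0,0), (3465, 1,0,0,1,0,0), (3504, 0,0,0,0,1,0), (3591, 1,1,1,0,0,0), (3640, 0,0,0,1,1,0), (3657, 1,0,0,1,0,1), (3668, 0,0,1,0,1,1), (3682, 0,1,0,0,0,1), (3722, 0,1,0,1,0,0),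 (3729, 1,0,0,0,1,0), (3748, 0,0,1,0,0,0), (3852, 0,0,1,1,0,0), (3858, 0,1,0,0,1,0), (3873, 1,0,0,0,0,0), (4032, 0,0,0,0,0,1)]

/-- Transversals of the stabiliser chain, as words in the two generators. -/
def trData : List (List (List (Fin 2))) := [
  [[], [0,1,1,0], [0,0,0], [0], [0,0,0,1,0], [0,0], [0,0,1,0], [1,0,0,0], [0,0,1,1,0], [1,1,0], [0,1,0], [1,0]],
  [[], [], [1,1,0,1,1], [0,0,0,1,1,0,0,1], [1,0,1], [0,1,0,0,0,0,0,0], [0,0,0,0,1,1], [0,0,1,1,1,0], [0,1,0,0,1,1,0], [1,0,0], [0,0,1,0,0,0,0], [1,1,0,1,0]],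
  [[], [], [], [0,0,1,1,0,0,0,1,1,0], [0,1,0,0,1,1,1], [0,1,0,0,1,0,1,0,0,1,1], [1,0,0,0,0,0,0,1,0], [1,0,1,1,1,1,1,0,0,0], [1,0,1,1,1,0,1,0], [0,1,0,1,1,0,1,1,0], [0,1,1,0,0,1,0], [1,0,0,1,1,0,1,1]],
  [[], [], [], [], [1,0,0,0,0,0,1,0,1,0,1,0,1,1], [0,0,1,0,1,1,0,1,0,0,0,0,1], [0,0,1,1,0,1,1,1,1,1], [0,0,0,0,1,1,0,1,0,1,0,1,1,1], [1,1,1,0,1,0,0,1], [1,1,1,1,0,0,1,1,0,1], [1,1,1,1,0,1,0,0,0,0,1,1,0], [0,1,0,1,1,1,0,0,1,1,0,0,1,1,0]],
  [[], [], [], [], [], [0,1,0,0,0,1,0,1,0,0,0,0], [0,1,0,1,0,1,1,1,0,1,1,0,0,1,1], [0,1,0,1,0,0,0,0,0,0,1,1,1,0,0,0,0], [0,1,0,1,0,0,1,1,0,0,0,0,0,0], [1,1,0,1,1,0,0,0,1,1,0,0,1], [1,0,1,1,1,0,0,1,1,0,1,1,1,0,0,1,1], [0,1,0,0,0,1,1,1,1,1,0,0,0,1,1,1]]]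

abbrev X := Cfsg.ArrayPt

/-- Index of a point. -/
def toIdx (a : X) : Nat := 3 * a.1.val + a.2.val

/-- Residues. -/
def z3 : Nat → ZMod 3
  | 0 => 0
  | 1 => 1
  | _ => 2

/-- Point of an index. -/
def ofIdx (n : Nat) : X := (Fin.ofNat 4 (n / 3), z3 (n % 3))

theorem ofIdx_toIdx : ∀ a : X, ofIdx (toIdx a) = a := by decide +kernel

theorem toIdx_inj : Function.Injective toIdx := fun a b h => by
  rw [← ofIdx_toIdx a, ← ofIdx_toIdx b, h]

/-- Basis words as functions. -/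
def b (j : Fin 6) (a : X) : ZMod 3 := z3 ((bCode j >>> (2 * toIdx a)) &&& 3)

/-- The function underlying a permutation table. -/
def fT (t : Nat) (a : X) : X := ofIdx ((t >>> (4 * toIdx a)) &&& 15)

/-- The two generators. -/
def g1 : Equiv.Perm X where
  toFun := fT tbl1
  invFun := fT tbl1i
  left_inv := by decide +kernel
  right_inv := by decide +kernel

def g2 : Equiv.Perm X where
  toFun := fT tbl2
  invFun := fT tbl2i
  left_inv := by decide +kernel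
  right_inv := by decide +kernel

/-- The generators, indexed. -/
def gen : Fin 2 → Equiv.Perm X := ![g1, g2]

/-- Sign functions. -/
def sg (m : Nat) (a : X) : (ZMod 3)ˣ := if m.testBit (toIdx a) then -1 else 1

/-- Signs of the generators, indexed. -/
def sgs : Fin 2 → Nat := ![sgn1, sgn2]

/-! ### Membership in the code by a decidable check -/

/-- The decidable form of membership in the code. -/
def mem0 (x : X → ZMod 3) : Prop :=
  ∃ s : ZMod 3, (∀ i : Fin 4, ∑ r : ZMod 3, x (i, r) = -s) ∧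
    ∀ u v : ZMod 3, ∑ i : Fin 4, x (i, (u • ![0, 1, 1, 1] + v • ![1, 0, 1, 2] : Fin 4 → ZMod 3) i) = s

instance (x : X → ZMod 3) : Decidable (mem0 x) := by unfold mem0; infer_instance

theorem mem_code_iff (x : X → ZMod 3) : x ∈ Cfsg.ternaryGolayCode ↔ mem0 x := by
  change Cfsg.IsTernaryGolayWord x ↔ mem0 x
  unfold Cfsg.IsTernaryGolayWord mem0
  apply exists_congr
  intro s
  apply and_congr_right
  intro _
  constructor
  · intro h u v
    apply h
    unfold Cfsg.tetracode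
    rw [Submodule.mem_span_pair]
    exact ⟨u, v, rfl⟩
  · intro h t ht
    unfold Cfsg.tetracode at ht
    rw [Submodule.mem_span_pair] at ht
    obtain ⟨u, v, rfl⟩ := ht
    exact h u v

theorem b_mem : ∀ j, mem0 (b j) := by decide +kernel

theorem b_mem_code (j : Fin 6) : b j ∈ Cfsg.ternaryGolayCode := (mem_code_iff _).mpr (b_mem j)

/-- The word with given coefficients. -/
def word6 (u0 u1 u2 u3 u4 u5 : ZMod 3) (a : X) : ZMod 3 :=
  u0 * b 0 a + u1 * b 1 a + u2 * b 2 a + u3 * b 3 a + u4 * b 4 a + u5 * b 5 a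

theorem word6_eq (u0 u1 u2 u3 u4 u5 : ZMod 3) : word6 u0 u1 u2 u3 u4 u5 =
    u0 • b 0 + u1 • b 1 + u2 • b 2 + u3 • b 3 + u4 • b 4 + u5 • b 5 := by
  funext a; rfl

theorem word6_mem (u0 u1 u2 u3 u4 u5 : ZMod 3) :
    word6 u0 u1 u2 u3 u4 u5 ∈ Cfsg.ternaryGolayCode := by
  rw [word6_eq]
  exact add_mem (add_mem (add_mem (add_mem (add_mem
    (Submodule.smul_mem _ _ (b_mem_code 0)) (Submodule.smul_mem _ _ (b_mem_code 1)))
    (Submodule.smul_mem _ _ (b_mem_code 2))) (Submodule.smul_mem _ _ (b_mem_code 3)))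
    (Submodule.smul_mem _ _ (b_mem_code 4))) (Submodule.smul_mem _ _ (b_mem_code 5))

/-- Words vanishing on the information set. -/
def asm (v5 v7 v8 v9 v10 v11 : ZMod 3) (a : X) : ZMod 3 :=
  match toIdx a with
  | 5 => v5
  | 7 => v7
  | 8 => v8
  | 9 => v9
  | 10 => v10
  | 11 => v11
  | _ => 0

theorem asm_zero : ∀ v5 v7 v8 v9 v10 v11 : ZMod 3, mem0 (asm v5 v7 v8 v9 v10 v11) →
    v5 = 0 ∧ v7 = 0 ∧ v8 = 0 ∧ v9 = 0 ∧ v10 = 0 ∧ v11 = 0 := by
  decide +kernel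

theorem eq_asm (y : X → ZMod 3) (h0 : y (ofIdx 0) = 0) (h1 : y (ofIdx 1) = 0) (h2 : y (ofIdx 2) = 0)
    (h3 : y (ofIdx 3) = 0) (h4 : y (ofIdx 4) = 0) (h6 : y (ofIdx 6) = 0) :
    y = asm (y (ofIdx 5)) (y (ofIdx 7)) (y (ofIdx 8)) (y (ofIdx 9)) (y (ofIdx 10)) (y (ofIdx 11)) := by
  have hall : ∀ a : X, a = ofIdx 0 ∨ a = ofIdx 1 ∨ a = ofIdx 2 ∨ a = ofIdx 3 ∨ a = ofIdx 4 ∨
      a = ofIdx 5 ∨ a = ofIdx 6 ∨ a = ofIdx 7 ∨ a = ofIdx 8 ∨ a = ofIdx 9 ∨ a = ofIdx 10 ∨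
      a = ofIdx 11 := by decide +kernel
  funext a
  rcases hall a with rfl | rfl | rfl | rfl | rfl | rfl | rfl | rfl | rfl | rfl | rfl | rfl
  · exact h0
  · exact h1
  · exact h2
  · exact h3
  · exact h4
  · rfl
  · exact h6
  · rfl
  · rfl
  · rfl
  · rfl
  · rfl

theorem word6_info : ∀ u0 u1 u2 u3 u4 u5 : ZMod 3,
    word6 u0 u1 u2 u3 u4 u5 (ofIdx 0) = u0 ∧ word6 u0 u1 u2 u3 u4 u5 (ofIdx 1) = u1 ∧
    word6 u0 u1 u2 u3 u4 u5 (ofIdx 2) = u2 ∧ word6 u0 u1 u2 u3 u4 u5 (ofIdx 3) = u3 ∧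
    word6 u0 u1 u2 u3 u4 u5 (ofIdx 4) = u4 ∧ word6 u0 u1 u2 u3 u4 u5 (ofIdx 6) = u5 := by
  decide +kernel

/-- Parametrization of the code. -/
theorem code_param (x : X → ZMod 3) (hx : x ∈ Cfsg.ternaryGolayCode) :
    ∃ u0 u1 u2 u3 u4 u5, x = word6 u0 u1 u2 u3 u4 u5 := by
  refine ⟨x (ofIdx 0), x (ofIdx 1), x (ofIdx 2), x (ofIdx 3), x (ofIdx 4), x (ofIdx 6), ?_⟩
  obtain ⟨e0, e1, e2, e3, e4, e6⟩ :=
    word6_info (x (ofIdx 0)) (x (ofIdx 1)) (x (ofIdx 2)) (x (ofIdx 3)) (x (ofIdx 4)) (x (ofIdx 6))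
  set w := word6 (x (ofIdx 0)) (x (ofIdx 1)) (x (ofIdx 2)) (x (ofIdx 3)) (x (ofIdx 4)) (x (ofIdx 6))
    with hw
  have hy : x - w ∈ Cfsg.ternaryGolayCode := Submodule.sub_mem _ hx (word6_mem _ _ _ _ _ _)
  have hasm := eq_asm (x - w) (by simp [e0]) (by simp [e1]) (by simp [e2]) (by simp [e3])
    (by simp [e4]) (by simp [e6])
  have hy0 := hy
  rw [mem_code_iff, hasm] at hy0
  obtain ⟨z5, z7, z8, z9, z10, z11⟩ := asm_zero _ _ _ _ _ _ hy0
  rw [z5, z7, z8, z9, z10, z11] at hasm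
  have hz : asm 0 0 0 0 0 0 = 0 := by
    funext a
    simp only [asm, Pi.zero_apply]
    split <;> rfl
  rw [hz] at hasm
  exact sub_eq_zero.mp hasm

/-! ### Monomial maps -/

/-- Preservation of the code by a monomial map. -/
def Pres (σ : Equiv.Perm X) (c : X → (ZMod 3)ˣ) : Prop :=
  ∀ x ∈ Cfsg.ternaryGolayCode, Cfsg.monomialMap σ c x ∈ Cfsg.ternaryGolayCode

theorem monomial_add (σ : Equiv.Perm X) (c : X → (ZMod 3)ˣ) (x y : X → ZMod 3) :
    Cfsg.monomialMap σ c (x + y) = Cfsg.monomialMap σ c x + Cfsg.monomialMap σ c y := by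
  funext i
  simp only [Cfsg.monomialMap, Pi.add_apply]
  ring

theorem monomial_smul (σ : Equiv.Perm X) (c : X → (ZMod 3)ˣ) (a : ZMod 3) (x : X → ZMod 3) :
    Cfsg.monomialMap σ c (a • x) = a • Cfsg.monomialMap σ c x := by
  funext i
  simp only [Cfsg.monomialMap, Pi.smul_apply, smul_eq_mul]
  ring

theorem pres_of_basis (σ : Equiv.Perm X) (c : X → (ZMod 3)ˣ)
    (h : ∀ j, Cfsg.monomialMap σ c (b j) ∈ Cfsg.ternaryGolayCode) : Pres σ c := by
  intro x hx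
  obtain ⟨u0, u1, u2, u3, u4, u5, rfl⟩ := code_param x hx
  rw [word6_eq]
  simp only [monomial_add, monomial_smul]
  exact add_mem (add_mem (add_mem (add_mem (add_mem
    (Submodule.smul_mem _ _ (h 0)) (Submodule.smul_mem _ _ (h 1)))
    (Submodule.smul_mem _ _ (h 2))) (Submodule.smul_mem _ _ (h 3)))
    (Submodule.smul_mem _ _ (h 4))) (Submodule.smul_mem _ _ (h 5))

theorem gen_basis_check : ∀ (i : Fin 2) (j : Fin 6),
    mem0 (Cfsg.monomialMap (gen i) (sg (sgs i)) (b j)) := by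
  decide +kernel

theorem pres_gen (i : Fin 2) : Pres (gen i) (sg (sgs i)) :=
  pres_of_basis _ _ fun j => (mem_code_iff _).mpr (gen_basis_check i j)

theorem pres_one : Pres 1 (fun _ => 1) := by
  intro x hx
  have : Cfsg.monomialMap (1 : Equiv.Perm X) (fun _ => (1 : (ZMod 3)ˣ)) x = x := by
    funext i
    simp only [Cfsg.monomialMap, Units.val_one, one_mul]
    rfl
  rwa [this]

theorem pres_mul {σ τ : Equiv.Perm X} {c d : X → (ZMod 3)ˣ} (h1 : Pres σ c)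
    (h2 : Pres τ d) : Pres (σ * τ) (fun i => c i * d (σ.symm i)) := by
  intro x hx
  have : Cfsg.monomialMap (σ * τ) (fun i => c i * d (σ.symm i)) x =
      Cfsg.monomialMap σ c (Cfsg.monomialMap τ d x) := by
    funext i
    simp only [Cfsg.monomialMap, Units.val_mul, Equiv.Perm.mul_def, Equiv.symm_trans_apply]
    ring
  rw [this]
  exact h1 _ (h2 _ hx)

theorem pres_smul {σ : Equiv.Perm X} {c : X → (ZMod 3)ˣ} (h : Pres σ c) (a : (ZMod 3)ˣ) :
    Pres σ (fun i => a * c i) := by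
  intro x hx
  have : Cfsg.monomialMap σ (fun i => a * c i) x = (a : ZMod 3) • Cfsg.monomialMap σ c x := by
    funext i
    simp only [Cfsg.monomialMap, Units.val_mul, Pi.smul_apply, smul_eq_mul]
    ring
  rw [this]
  exact Submodule.smul_mem _ _ (h x hx)

theorem monomial_injective (σ : Equiv.Perm X) (c : X → (ZMod 3)ˣ) :
    Function.Injective (Cfsg.monomialMap σ c) := by
  intro x y h
  funext i
  have := congrFun h (σ i)
  simp only [Cfsg.monomialMap, Equiv.symm_apply_apply] at this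
  exact mul_left_cancel₀ (c (σ i)).ne_zero this

theorem pres_surj {σ : Equiv.Perm X} {c : X → (ZMod 3)ˣ} (hc : Pres σ c) :
    ∀ x ∈ Cfsg.ternaryGolayCode, ∃ y ∈ Cfsg.ternaryGolayCode, Cfsg.monomialMap σ c y = x := by
  let T : ↥Cfsg.ternaryGolayCode → ↥Cfsg.ternaryGolayCode :=
    fun y => ⟨Cfsg.monomialMap σ c y, hc _ y.2⟩
  have hTinj : Function.Injective T := by
    intro y z h
    apply Subtype.ext
    exact monomial_injective σ c (congrArg Subtype.val h)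
  have hTsurj := Finite.injective_iff_surjective.mp hTinj
  intro x hx
  obtain ⟨y, hy⟩ := hTsurj ⟨x, hx⟩
  exact ⟨y, y.2, congrArg Subtype.val hy⟩

/-! ### The sign vectors with `(1, c)` preserving the code are constant -/

/-- The unit with a given Boolean sign. -/
def uB (e : Bool) : (ZMod 3)ˣ := if e then -1 else 1

/-- Sign vectors from twelve Booleans. -/
def cB (e : Fin 12 → Bool) (a : X) : (ZMod 3)ˣ :=
  uB (e (Fin.ofNat 12 (toIdx a)))

set_option synthInstance.maxSize 4000 in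
set_option synthInstance.maxHeartbeats 0 in
theorem diag_check : ∀ e0 e1 e2 e3 e4 e5 e6 e7 e8 e9 e10 e11 : Bool,
    (∀ j, mem0 (Cfsg.monomialMap (1 : Equiv.Perm X)
      (cB ![e0, e1, e2, e3, e4, e5, e6, e7, e8, e9, e10, e11]) (b j))) →
    (e0 = e1 ∧ e0 = e2 ∧ e0 = e3 ∧ e0 = e4 ∧ e0 = e5 ∧ e0 = e6 ∧ e0 = e7 ∧ e0 = e8 ∧ e0 = e9 ∧ e0 = e10 ∧ e0 = e11) := by
  decide +kernel


theorem diag_scalar (c : X → (ZMod 3)ˣ) (h : Pres 1 c) (i j : X) : c i = c j := by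
  have hu : ∀ w : (ZMod 3)ˣ, w = uB (decide (w = -1)) := by decide +kernel
  let e : X → Bool := fun a => decide (c a = -1)
  let e' : Fin 12 → Bool := ![e (ofIdx 0), e (ofIdx 1), e (ofIdx 2), e (ofIdx 3), e (ofIdx 4),
    e (ofIdx 5), e (ofIdx 6), e (ofIdx 7), e (ofIdx 8), e (ofIdx 9), e (ofIdx 10), e (ofIdx 11)]
  have hall : ∀ a : X, a = ofIdx 0 ∨ a = ofIdx 1 ∨ a = ofIdx 2 ∨ a = ofIdx 3 ∨ a = ofIdx 4 ∨
      a = ofIdx 5 ∨ a = ofIdx 6 ∨ a = ofIdx 7 ∨ a = ofIdx 8 ∨ a = ofIdx 9 ∨ a = ofIdx 10 ∨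
      a = ofIdx 11 := by decide +kernel
  have hc : c = cB e' := by
    funext a
    rw [hu (c a)]
    rcases hall a with rfl | rfl | rfl | rfl | rfl | rfl | rfl | rfl | rfl | rfl | rfl | rfl <;> rfl
  have hch := diag_check (e (ofIdx 0)) (e (ofIdx 1)) (e (ofIdx 2)) (e (ofIdx 3)) (e (ofIdx 4))
    (e (ofIdx 5)) (e (ofIdx 6)) (e (ofIdx 7)) (e (ofIdx 8)) (e (ofIdx 9)) (e (ofIdx 10))
    (e (ofIdx 11)) (fun j => by
      rw [← mem_code_iff]
      have : cB ![e (ofIdx 0), e (ofIdx 1), e (ofIdx 2), e (ofIdx 3), e (ofIdx 4),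
        e (ofIdx 5), e (ofIdx 6), e (ofIdx 7), e (ofIdx 8), e (ofIdx 9), e (ofIdx 10),
        e (ofIdx 11)] = c := hc.symm
      rw [this]
      exact h _ (b_mem_code j))
  obtain ⟨h1, h2, h3, h4, h5, h6, h7, h8, h9, h10, h11⟩ := hch
  have hconst : ∀ a : X, c a = c (ofIdx 0) := by
    intro a
    have hee : e a = e (ofIdx 0) := by
      rcases hall a with rfl | rfl | rfl | rfl | rfl | rfl | rfl | rfl | rfl | rfl | rfl | rfl
      · rfl
      · exact h1.symm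
      · exact h2.symm
      · exact h3.symm
      · exact h4.symm
      · exact h5.symm
      · exact h6.symm
      · exact h7.symm
      · exact h8.symm
      · exact h9.symm
      · exact h10.symm
      · exact h11.symm
    rw [hu (c a), hu (c (ofIdx 0))]
    change uB (e a) = uB (e (ofIdx 0))
    rw [hee]
  rw [hconst i, hconst j]

theorem lift_unique (σ : Equiv.Perm X) (c d : X → (ZMod 3)ˣ) (hc : Pres σ c) (hd : Pres σ d) :
    ∃ a : (ZMod 3)ˣ, ∀ i, d i = a * c i := by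
  have hsurj := pres_surj hc
  have hpres : Pres 1 (fun i => d i * (c i)⁻¹) := by
    intro x hx
    obtain ⟨y, hy, rfl⟩ := hsurj x hx
    have : Cfsg.monomialMap (1 : Equiv.Perm X) (fun i => d i * (c i)⁻¹)
        (Cfsg.monomialMap σ c y) = Cfsg.monomialMap σ d y := by
      funext i
      simp only [Cfsg.monomialMap, Units.val_mul]
      change (d i : ZMod 3) * ((c i)⁻¹ : (ZMod 3)ˣ).val * ((c i : ZMod 3) * y (σ.symm i)) =
        (d i : ZMod 3) * y (σ.symm i)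
      rw [mul_assoc, ← mul_assoc ((c i)⁻¹ : (ZMod 3)ˣ).val, ← Units.val_mul]
      simp
    rw [this]
    exact hd y hy
  refine ⟨d (ofIdx 0) * (c (ofIdx 0))⁻¹, fun i => ?_⟩
  have := diag_scalar _ hpres i (ofIdx 0)
  rw [← this]
  simp

/-! ### The group of permutations that lift -/

/-- The set of permutation parts. -/
def liftMonoid : Submonoid (Equiv.Perm X) where
  carrier := {σ | ∃ c, Pres σ c}
  one_mem' := ⟨_, pres_one⟩
  mul_mem' := by
    rintro σ τ ⟨c, hc⟩ ⟨d, hd⟩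
    exact ⟨_, pres_mul hc hd⟩

theorem inv_mem_liftMonoid {σ : Equiv.Perm X} (h : σ ∈ liftMonoid) : σ⁻¹ ∈ liftMonoid := by
  have hpos : 0 < orderOf σ := orderOf_pos σ
  have : σ⁻¹ = σ ^ (orderOf σ - 1) := by
    rw [inv_eq_iff_mul_eq_one, ← pow_succ', Nat.sub_add_cancel hpos, pow_orderOf_eq_one]
  rw [this]
  exact Submonoid.pow_mem _ h _

theorem gen_mem (i : Fin 2) : gen i ∈ liftMonoid := ⟨_, pres_gen i⟩

/-- Words in the generators. -/
def ev (w : List (Fin 2)) : Equiv.Perm X := (w.map gen).prod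

theorem ev_mem (w : List (Fin 2)) : ev w ∈ liftMonoid := by
  induction w with
  | nil => exact Submonoid.one_mem _
  | cons a w ih =>
    simp only [ev, List.map_cons, List.prod_cons] at ih ⊢
    exact Submonoid.mul_mem _ (gen_mem a) ih

/-- The transversal word at a given level. -/
def tr (k : Nat) (q : X) : List (Fin 2) := ((trData.getD k []).getD (toIdx q) [])

theorem tr0 : ∀ q : X, ev (tr 0 q) (ofIdx 0) = q := by decide +kernel

theorem tr1 : ∀ q : X, q ≠ ofIdx 0 → ev (tr 1 q) (ofIdx 0) = ofIdx 0 ∧ ev (tr 1 q) (ofIdx 1) = q := by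
  decide +kernel

theorem tr2 : ∀ q : X, q ≠ ofIdx 0 → q ≠ ofIdx 1 → ev (tr 2 q) (ofIdx 0) = ofIdx 0 ∧
    ev (tr 2 q) (ofIdx 1) = ofIdx 1 ∧ ev (tr 2 q) (ofIdx 2) = q := by
  decide +kernel

theorem tr3 : ∀ q : X, q ≠ ofIdx 0 → q ≠ ofIdx 1 → q ≠ ofIdx 2 → ev (tr 3 q) (ofIdx 0) = ofIdx 0 ∧
    ev (tr 3 q) (ofIdx 1) = ofIdx 1 ∧ ev (tr 3 q) (ofIdx 2) = ofIdx 2 ∧ ev (tr 3 q) (ofIdx 3) = q := by
  decide +kernel

theorem tr4 : ∀ q : X, q ≠ ofIdx 0 → q ≠ ofIdx 1 → q ≠ ofIdx 2 → q ≠ ofIdx 3 →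
    ev (tr 4 q) (ofIdx 0) = ofIdx 0 ∧ ev (tr 4 q) (ofIdx 1) = ofIdx 1 ∧
    ev (tr 4 q) (ofIdx 2) = ofIdx 2 ∧ ev (tr 4 q) (ofIdx 3) = ofIdx 3 ∧ ev (tr 4 q) (ofIdx 4) = q := by
  decide +kernel

/-- Five-transitivity. -/
theorem five_trans (q0 q1 q2 q3 q4 : X) (h01 : q0 ≠ q1) (h02 : q0 ≠ q2) (h03 : q0 ≠ q3)
    (h04 : q0 ≠ q4) (h12 : q1 ≠ q2) (h13 : q1 ≠ q3) (h14 : q1 ≠ q4) (h23 : q2 ≠ q3) (h24 : q2 ≠ q4)
    (h34 : q3 ≠ q4) : ∃ σ ∈ liftMonoid, σ (ofIdx 0) = q0 ∧ σ (ofIdx 1) = q1 ∧ σ (ofIdx 2) = q2 ∧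
      σ (ofIdx 3) = q3 ∧ σ (ofIdx 4) = q4 := by
  -- level 0
  set σ0 := ev (tr 0 q0) with hσ0
  have a0 : σ0 (ofIdx 0) = q0 := tr0 q0
  -- level 1
  set r1 := σ0⁻¹ q1 with hr1
  have e1 : σ0 r1 = q1 := by simp [hr1]
  have n10 : r1 ≠ ofIdx 0 := fun h => h01 (by rw [← a0, ← h, e1])
  obtain ⟨s1a, s1b⟩ := tr1 r1 n10
  set σ1 := σ0 * ev (tr 1 r1) with hσ1
  have b0 : σ1 (ofIdx 0) = q0 := by simp only [hσ1, Equiv.Perm.mul_apply, s1a, a0]
  have b1 : σ1 (ofIdx 1) = q1 := by simp only [hσ1, Equiv.Perm.mul_apply, s1b, e1]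
  -- level 2
  set r2 := σ1⁻¹ q2 with hr2
  have e2 : σ1 r2 = q2 := by simp [hr2]
  have n20 : r2 ≠ ofIdx 0 := fun h => h02 (by rw [← b0, ← h, e2])
  have n21 : r2 ≠ ofIdx 1 := fun h => h12 (by rw [← b1, ← h, e2])
  obtain ⟨s2a, s2b, s2c⟩ := tr2 r2 n20 n21
  set σ2 := σ1 * ev (tr 2 r2) with hσ2
  have c0 : σ2 (ofIdx 0) = q0 := by simp only [hσ2, Equiv.Perm.mul_apply, s2a, b0]
  have c1 : σ2 (ofIdx 1) = q1 := by simp only [hσ2, Equiv.Perm.mul_apply, s2b, b1]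
  have c2 : σ2 (ofIdx 2) = q2 := by simp only [hσ2, Equiv.Perm.mul_apply, s2c, e2]
  -- level 3
  set r3 := σ2⁻¹ q3 with hr3
  have e3 : σ2 r3 = q3 := by simp [hr3]
  have n30 : r3 ≠ ofIdx 0 := fun h => h03 (by rw [← c0, ← h, e3])
  have n31 : r3 ≠ ofIdx 1 := fun h => h13 (by rw [← c1, ← h, e3])
  have n32 : r3 ≠ ofIdx 2 := fun h => h23 (by rw [← c2, ← h, e3])
  obtain ⟨s3a, s3b, s3c, s3d⟩ := tr3 r3 n30 n31 n32
  set σ3 := σ2 * ev (tr 3 r3) with hσ3
  have d0 : σ3 (ofIdx 0) = q0 := by simp only [hσ3, Equiv.Perm.mul_apply, s3a, c0]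
  have d1 : σ3 (ofIdx 1) = q1 := by simp only [hσ3, Equiv.Perm.mul_apply, s3b, c1]
  have d2 : σ3 (ofIdx 2) = q2 := by simp only [hσ3, Equiv.Perm.mul_apply, s3c, c2]
  have d3 : σ3 (ofIdx 3) = q3 := by simp only [hσ3, Equiv.Perm.mul_apply, s3d, e3]
  -- level 4
  set r4 := σ3⁻¹ q4 with hr4
  have e4 : σ3 r4 = q4 := by simp [hr4]
  have n40 : r4 ≠ ofIdx 0 := fun h => h04 (by rw [← d0, ← h, e4])
  have n41 : r4 ≠ ofIdx 1 := fun h => h14 (by rw [← d1, ← h, e4])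
  have n42 : r4 ≠ ofIdx 2 := fun h => h24 (by rw [← d2, ← h, e4])
  have n43 : r4 ≠ ofIdx 3 := fun h => h34 (by rw [← d3, ← h, e4])
  obtain ⟨s4a, s4b, s4c, s4d, s4e⟩ := tr4 r4 n40 n41 n42 n43
  refine ⟨σ3 * ev (tr 4 r4), ?_, ?_, ?_, ?_, ?_, ?_⟩
  · exact Submonoid.mul_mem _ (Submonoid.mul_mem _ (Submonoid.mul_mem _
      (Submonoid.mul_mem _ (ev_mem _) (ev_mem _)) (ev_mem _)) (ev_mem _)) (ev_mem _)
  · simp only [Equiv.Perm.mul_apply, s4a, d0]
  · simp only [Equiv.Perm.mul_apply, s4b, d1]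
  · simp only [Equiv.Perm.mul_apply, s4c, d2]
  · simp only [Equiv.Perm.mul_apply, s4d, d3]
  · simp only [Equiv.Perm.mul_apply, s4e, e4]

/-! ### The hexads -/

/-- The family of hexads of the statement. -/
def Hex : Set (Finset X) :=
  {h : Finset Cfsg.ArrayPt | ∃ x ∈ Cfsg.ternaryGolayCode, Cfsg.ternarySupport x = h ∧ h.card = 6}

/-- Permutations that lift preserve the hexads. -/
theorem lift_mem_aut {σ : Equiv.Perm X} (hσ : σ ∈ liftMonoid) :
    σ ∈ Cfsg.setSystemAut Hex := by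
  obtain ⟨c, hc⟩ := hσ
  have hsupp : ∀ x : X → ZMod 3, Cfsg.ternarySupport (Cfsg.monomialMap σ c x) =
      σ • Cfsg.ternarySupport x := by
    intro x
    ext a
    rw [Finset.mem_smul_finset]
    have hm : ∀ (y : X → ZMod 3) (p : X), p ∈ Cfsg.ternarySupport y ↔ y p ≠ 0 := by
      intro y p
      unfold Cfsg.ternarySupport
      rw [Finset.mem_filter]
      simp
    rw [hm]
    constructor
    · intro h
      refine ⟨σ.symm a, (hm _ _).mpr ?_, by simp⟩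
      intro h0
      exact h (by simp only [Cfsg.monomialMap]; rw [h0, mul_zero])
    · rintro ⟨b', hb, rfl⟩
      rw [hm] at hb
      simp only [Equiv.Perm.smul_def, Cfsg.monomialMap, Equiv.symm_apply_apply]
      exact mul_ne_zero (c _).ne_zero hb
  rw [MulAction.mem_stabilizer_iff]
  ext h
  rw [Set.mem_smul_set]
  constructor
  · rintro ⟨h', ⟨x, hx, rfl, hcard⟩, rfl⟩
    refine ⟨_, hc x hx, hsupp x, ?_⟩
    rw [Finset.card_smul_finset]
    exact hcard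
  · rintro ⟨x, hx, rfl, hcard⟩
    obtain ⟨y, hy, rfl⟩ := pres_surj hc x hx
    rw [hsupp y] at hcard ⊢
    rw [Finset.card_smul_finset] at hcard
    exact ⟨_, ⟨y, hy, rfl, hcard⟩, rfl⟩

/-- The mask of a set of points. -/
def mask (h : Finset X) : Nat := ∑ a ∈ h, 2 ^ toIdx a

theorem mask_injective : Function.Injective mask := by
  intro h h' e
  have key := Finset.geomSum_injective (n := 2) (le_refl 2)
  have e' : ∑ i ∈ h.image toIdx, 2 ^ i = ∑ i ∈ h'.image toIdx, 2 ^ i := by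
    rw [Finset.sum_image toIdx_inj.injOn, Finset.sum_image toIdx_inj.injOn]
    exact e
  have := key e'
  exact Finset.image_injective toIdx_inj this

theorem mask_lt (h : Finset X) : mask h < 4096 := by
  have h1 : mask h ≤ mask Finset.univ := by
    unfold mask
    exact Finset.sum_le_sum_of_subset (Finset.subset_univ h)
  have h2 : mask Finset.univ = 4095 := by decide +kernel
  omega

/-- The decidable hexad test. -/
def hexB (h : Finset X) : Bool := hexBits.testBit (mask h)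

theorem hexBits_complete' : ∀ m n : Fin 64, hexBits.testBit (64 * m.val + n.val) = true →
    ∃ p ∈ hexWit, p.1 = 64 * m.val + n.val := by
  decide +kernel

theorem hexBits_complete (m : Nat) (hm : m < 4096) (h : hexBits.testBit m = true) :
    ∃ p ∈ hexWit, p.1 = m := by
  have e : m = 64 * (m / 64) + m % 64 := (Nat.div_add_mod m 64).symm
  rw [e] at h ⊢
  exact hexBits_complete' ⟨m / 64, by omega⟩ ⟨m % 64, by omega⟩ h

theorem hexWit_spec : ∀ p ∈ hexWit,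
    mask (Cfsg.ternarySupport (word6 p.2.1 p.2.2.1 p.2.2.2.1 p.2.2.2.2.1 p.2.2.2.2.2.1 p.2.2.2.2.2.2)) = p.1 ∧
    (Cfsg.ternarySupport (word6 p.2.1 p.2.2.1 p.2.2.2.1 p.2.2.2.2.1 p.2.2.2.2.2.1 p.2.2.2.2.2.2)).card = 6 := by
  decide +kernel

theorem hexB_of_word : ∀ u0 u1 u2 u3 u4 u5 : ZMod 3,
    (Cfsg.ternarySupport (word6 u0 u1 u2 u3 u4 u5)).card = 6 →
    hexB (Cfsg.ternarySupport (word6 u0 u1 u2 u3 u4 u5)) = true := by
  decide +kernel

theorem hexB_of_mem {h : Finset X} (hh : h ∈ Hex) : hexB h = true := by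
  obtain ⟨x, hx, rfl, hcard⟩ := hh
  obtain ⟨u0, u1, u2, u3, u4, u5, rfl⟩ := code_param x hx
  exact hexB_of_word _ _ _ _ _ _ hcard

theorem mem_of_hexB {h : Finset X} (hh : hexB h = true) : h ∈ Hex := by
  obtain ⟨p, hp, hm⟩ := hexBits_complete (mask h) (mask_lt h) hh
  obtain ⟨h1, h2⟩ := hexWit_spec p hp
  have : Cfsg.ternarySupport (word6 p.2.1 p.2.2.1 p.2.2.2.1 p.2.2.2.2.1 p.2.2.2.2.2.1 p.2.2.2.2.2.2) = h :=
    mask_injective (h1.trans hm)
  exact ⟨_, word6_mem _ _ _ _ _ _, this, by rw [← this]; exact h2⟩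

/-! ### Automorphisms of the hexad system fixing the base are trivial -/

/-- The four-subsets of the first six points. -/
def Ts : Fin 15 → Finset X :=
  ![{ofIdx 0, ofIdx 1, ofIdx 2, ofIdx 3}, {ofIdx 0, ofIdx 1, ofIdx 2, ofIdx 4},
   {ofIdx 0, ofIdx 1, ofIdx 2, ofIdx 5}, {ofIdx 0, ofIdx 1, ofIdx 3, ofIdx 4},
   {ofIdx 0, ofIdx 1, ofIdx 3, ofIdx 5}, {ofIdx 0, ofIdx 1, ofIdx 4, ofIdx 5},
   {ofIdx 0, ofIdx 2, ofIdx 3, ofIdx 4}, {ofIdx 0, ofIdx 2, ofIdx 3, ofIdx 5},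
   {ofIdx 0, ofIdx 2, ofIdx 4, ofIdx 5}, {ofIdx 0, ofIdx 3, ofIdx 4, ofIdx 5},
   {ofIdx 1, ofIdx 2, ofIdx 3, ofIdx 4}, {ofIdx 1, ofIdx 2, ofIdx 3, ofIdx 5},
   {ofIdx 1, ofIdx 2, ofIdx 4, ofIdx 5}, {ofIdx 1, ofIdx 3, ofIdx 4, ofIdx 5},
   {ofIdx 2, ofIdx 3, ofIdx 4, ofIdx 5}]

/-- The first six points. -/
def F6 : Finset X := {ofIdx 0, ofIdx 1, ofIdx 2, ofIdx 3, ofIdx 4, ofIdx 5}

theorem Ts_sub : ∀ i, Ts i ⊆ F6 := by decide +kernel

theorem sixth_point : ∀ y : X, y ≠ ofIdx 0 → y ≠ ofIdx 1 → y ≠ ofIdx 2 → y ≠ ofIdx 3 → y ≠ ofIdx 4 →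
    hexB {y, ofIdx 0, ofIdx 1, ofIdx 2, ofIdx 3, ofIdx 4} = true → y = ofIdx 5 := by
  decide +kernel

theorem hex_F6 : hexB {ofIdx 5, ofIdx 0, ofIdx 1, ofIdx 2, ofIdx 3, ofIdx 4} = true := by
  decide +kernel

set_option synthInstance.maxSize 4000 in
set_option synthInstance.maxHeartbeats 0 in
theorem pairs_fix : ∀ a c x y : X, a ∉ F6 → c ∉ F6 → x ∉ F6 → y ∉ F6 → a ≠ c → x ≠ y →
    (∀ i, hexB (insert a (insert c (Ts i))) = true → hexB (insert x (insert y (Ts i))) = true) →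
    x = a ∧ y = c ∨ x = c ∧ y = a := by
  decide +kernel

theorem three_outside : ∀ a : X, a ∉ F6 → ∃ c d : X, c ∉ F6 ∧ d ∉ F6 ∧ a ≠ c ∧ a ≠ d ∧ c ≠ d := by
  decide +kernel

/-- An automorphism of the hexads fixing the first five points is trivial. -/
theorem aut_fix_trivial (ρ : Equiv.Perm X) (hρ : ρ ∈ Cfsg.setSystemAut Hex)
    (h0 : ρ (ofIdx 0) = ofIdx 0) (h1 : ρ (ofIdx 1) = ofIdx 1) (h2 : ρ (ofIdx 2) = ofIdx 2)
    (h3 : ρ (ofIdx 3) = ofIdx 3) (h4 : ρ (ofIdx 4) = ofIdx 4) : ρ = 1 := by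
  have hmem : ∀ h ∈ Hex, ρ • h ∈ Hex := by
    intro h hh
    rw [MulAction.mem_stabilizer_iff] at hρ
    rw [← hρ]
    exact Set.smul_mem_smul_set hh
  have hsm : ∀ h : Finset X, ρ • h = h.image ρ := fun h => rfl
  -- the sixth point
  have hne : ∀ (p q : X), p ≠ q → ρ p ≠ ρ q := fun p q h e => h (ρ.injective e)
  have h5 : ρ (ofIdx 5) = ofIdx 5 := by
    have hh := hmem _ (mem_of_hexB hex_F6)
    rw [hsm] at hh
    simp only [Finset.image_insert, Finset.image_singleton, h0, h1, h2, h3, h4] at hh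
    apply sixth_point _ _ _ _ _ _ (hexB_of_mem hh)
    · rw [← h0]; exact hne _ _ (by decide +kernel)
    · rw [← h1]; exact hne _ _ (by decide +kernel)
    · rw [← h2]; exact hne _ _ (by decide +kernel)
    · rw [← h3]; exact hne _ _ (by decide +kernel)
    · rw [← h4]; exact hne _ _ (by decide +kernel)
  have hF : ∀ p ∈ F6, ρ p = p := by
    intro p hp
    simp only [F6, Finset.mem_insert, Finset.mem_singleton] at hp
    rcases hp with rfl | rfl | rfl | rfl | rfl | rfl <;> assumption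
  have hout : ∀ a, a ∉ F6 → ρ a ∉ F6 := by
    intro a ha hr
    have := hF _ hr
    exact ha (ρ.injective this ▸ hr)
  have hpair : ∀ a c, a ∉ F6 → c ∉ F6 → a ≠ c →
      ρ a = a ∧ ρ c = c ∨ ρ a = c ∧ ρ c = a := by
    intro a c ha hc hac
    apply pairs_fix a c (ρ a) (ρ c) ha hc (hout a ha) (hout c hc) hac (hne _ _ hac)
    intro i hh
    have hh' := hmem _ (mem_of_hexB hh)
    rw [hsm, Finset.image_insert, Finset.image_insert] at hh'
    have himg : (Ts i).image ρ = Ts i := by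
      conv_rhs => rw [← Finset.image_id (s := Ts i)]
      apply Finset.image_congr
      intro p hp
      exact hF p (Ts_sub i hp)
    rw [himg] at hh'
    exact hexB_of_mem hh'
  apply Equiv.ext
  intro a
  by_cases ha : a ∈ F6
  · rw [hF a ha]; rfl
  · obtain ⟨c, d, hc, hd, hac, had, hcd⟩ := three_outside a ha
    have e1 := hpair a c ha hc hac
    have e2 := hpair a d ha hd had
    have : ρ a = a := by
      rcases e1 with e1 | e1
      · exact e1.1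
      · rcases e2 with e2 | e2
        · exact e2.1
        · exact absurd (e1.1.symm.trans e2.1) hcd
    rw [this]; rfl

theorem aut_eq_of_lift {σ : Equiv.Perm X} (hσ : σ ∈ Cfsg.setSystemAut Hex) :
    σ ∈ liftMonoid := by
  have hd : ∀ p q : X, p ≠ q → σ p ≠ σ q := fun p q h e => h (σ.injective e)
  obtain ⟨τ, hτ, e0, e1, e2, e3, e4⟩ := five_trans (σ (ofIdx 0)) (σ (ofIdx 1)) (σ (ofIdx 2))
    (σ (ofIdx 3)) (σ (ofIdx 4)) (hd _ _ (by decide +kernel)) (hd _ _ (by decide +kernel))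
    (hd _ _ (by decide +kernel)) (hd _ _ (by decide +kernel)) (hd _ _ (by decide +kernel))
    (hd _ _ (by decide +kernel)) (hd _ _ (by decide +kernel)) (hd _ _ (by decide +kernel))
    (hd _ _ (by decide +kernel)) (hd _ _ (by decide +kernel))
  have hτa := lift_mem_aut hτ
  have := aut_fix_trivial (τ⁻¹ * σ) (Subgroup.mul_mem _ (Subgroup.inv_mem _ hτa) hσ)
    (by simp [Equiv.Perm.mul_apply, ← e0]) (by simp [Equiv.Perm.mul_apply, ← e1])
    (by simp [Equiv.Perm.mul_apply, ← e2]) (by simp [Equiv.Perm.mul_apply, ← e3])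
    (by simp [Equiv.Perm.mul_apply, ← e4])
  have : σ = τ := by
    rw [inv_mul_eq_one] at this
    exact this.symm
  rw [this]
  exact hτ

/-- Counting the group of permutation parts. -/
theorem card_lift : Nat.card {σ : Equiv.Perm X // σ ∈ liftMonoid} = 95040 := by
  let emb : {σ : Equiv.Perm X // σ ∈ liftMonoid} → (Fin 5 ↪ X) := fun σ =>
    ⟨fun j => σ.1 (ofIdx j.val), fun i j h => by
      have h' := σ.1.injective h
      have hinj : ∀ i j : Fin 5, ofIdx i.val = ofIdx j.val → i = j := by decide +kernel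
      exact hinj i j h'⟩
  have hb : Function.Bijective emb := by
    constructor
    · rintro ⟨σ, hσ⟩ ⟨τ, hτ⟩ h
      have hval : ∀ j : Fin 5, σ (ofIdx j.val) = τ (ofIdx j.val) := fun j =>
        DFunLike.congr_fun h j
      have hτa := lift_mem_aut hτ
      have hσa := lift_mem_aut hσ
      have hv' : ∀ j : Fin 5, (τ⁻¹ * σ) (ofIdx j.val) = ofIdx j.val := fun j => by
        rw [Equiv.Perm.mul_apply, hval j]
        simp
      have := aut_fix_trivial (τ⁻¹ * σ) (Subgroup.mul_mem _ (Subgroup.inv_mem _ hτa) hσa)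
        (hv' 0) (hv' 1) (hv' 2) (hv' 3) (hv' 4)
      apply Subtype.ext
      rw [inv_mul_eq_one] at this
      exact this.symm
    · intro f
      have hf : ∀ i j : Fin 5, i ≠ j → f i ≠ f j := fun i j h e => h (f.injective e)
      obtain ⟨σ, hσ, e0, e1, e2, e3, e4⟩ := five_trans (f 0) (f 1) (f 2) (f 3) (f 4)
        (hf _ _ (by decide)) (hf _ _ (by decide)) (hf _ _ (by decide)) (hf _ _ (by decide))
        (hf _ _ (by decide)) (hf _ _ (by decide)) (hf _ _ (by decide)) (hf _ _ (by decide))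
        (hf _ _ (by decide)) (hf _ _ (by decide))
      refine ⟨⟨σ, hσ⟩, DFunLike.ext _ _ fun j => ?_⟩
      fin_cases j
      · exact e0
      · exact e1
      · exact e2
      · exact e3
      · exact e4
  rw [Nat.card_congr (Equiv.ofBijective emb hb), Nat.card_eq_fintype_card,
    Fintype.card_embedding_eq]
  rfl

/-- The monomial automorphism group of the length-12 ternary code has order 190080 and its permutation parts are exactly the automorphisms of its hexad system. -/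
theorem result : Nat.card {f : Equiv.Perm Cfsg.ArrayPt × (Cfsg.ArrayPt → (ZMod 3)ˣ) // (∀ x ∈ Cfsg.ternaryGolayCode, Cfsg.monomialMap f.1 f.2 x ∈ Cfsg.ternaryGolayCode)} = 190080 ∧ {σ : Equiv.Perm Cfsg.ArrayPt | ∃ c : Cfsg.ArrayPt → (ZMod 3)ˣ, (∀ x ∈ Cfsg.ternaryGolayCode, Cfsg.monomialMap σ c x ∈ Cfsg.ternaryGolayCode)} = (Cfsg.setSystemAut {h : Finset Cfsg.ArrayPt | ∃ x ∈ Cfsg.ternaryGolayCode, Cfsg.ternarySupport x = h ∧ h.card = 6} : Set (Equiv.Perm Cfsg.ArrayPt)) := by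
  constructor
  · have hc0 : ∀ σ : {σ : Equiv.Perm X // σ ∈ liftMonoid}, ∃ c, Pres σ.1 c := fun σ => σ.2
    choose c0 hc0 using hc0
    let Φ : {σ : Equiv.Perm X // σ ∈ liftMonoid} × (ZMod 3)ˣ →
        {f : Equiv.Perm X × (X → (ZMod 3)ˣ) // (∀ x ∈ Cfsg.ternaryGolayCode,
          Cfsg.monomialMap f.1 f.2 x ∈ Cfsg.ternaryGolayCode)} :=
      fun p => ⟨(p.1.1, fun i => p.2 * c0 p.1 i), pres_smul (hc0 p.1) p.2⟩
    have hΦ : Function.Bijective Φ := by
      constructor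
      · rintro ⟨σ, a⟩ ⟨τ, d⟩ h
        have h1 : σ = τ := Subtype.ext (congrArg (fun f => f.1.1) h)
        subst h1
        have h2 := congrFun (congrArg (fun f => f.1.2) h) (ofIdx 0)
        simp only [Φ] at h2
        have h3 : a = d := mul_right_cancel h2
        rw [h3]
      · rintro ⟨⟨σ, c⟩, hc⟩
        have hσ : σ ∈ liftMonoid := ⟨c, hc⟩
        obtain ⟨a, ha⟩ := lift_unique σ (c0 ⟨σ, hσ⟩) c (hc0 _) hc
        refine ⟨(⟨σ, hσ⟩, a), ?_⟩
        apply Subtype.ext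
        simp only [Φ]
        refine Prod.ext rfl (funext fun i => ?_)
        exact (ha i).symm
    rw [← Nat.card_congr (Equiv.ofBijective Φ hΦ), Nat.card_prod, card_lift,
      Nat.card_eq_fintype_card, Fintype.card_units]
    rfl
  · ext σ
    constructor
    · intro h
      exact lift_mem_aut h
    · intro h
      exact aut_eq_of_lift h

end Cfsg.Agent.S1594
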