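import Cfsg.Statements.S1595
-- import your own Cfsg.Agent.* helpers here

set_option autoImplicit false
open Cfsg

namespace Cfsg.Agent.S1595

section aux
variable {α : Type*} [Fintype α] [DecidableEq α]

open Classical in
/-- number of blocks of `B` containing `s` and disjoint from `t`. -/
noncomputable def cnt (B : Set (Finset α)) (s t : Finset α) : ℕ :=
  ((Set.toFinite B).toFinset.filter (fun c => s ⊆ c ∧ Disjoint c t)).card

lemma cnt_pascal (B : Set (Finset α)) (s t : Finset α) (a : α) :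
    cnt B s t = cnt B (insert a s) t + cnt B s (insert a t) := by
  classical
  unfold cnt
  rw [← Finset.card_union_of_disjoint]
  · congr 1
    ext c
    simp only [Finset.mem_filter, Finset.mem_union, Finset.insert_subset_iff,
      Finset.disjoint_insert_right]
    by_cases hac : a ∈ c <;> tauto
  · rw [Finset.disjoint_left]
    intro c hc hc'
    simp only [Finset.mem_filter, Finset.insert_subset_iff, Finset.disjoint_insert_right] at hc hc'
    exact hc'.2.2.1 hc.2.1.1

lemma cnt_double (B : Set (Finset α)) (k : ℕ) (hB : ∀ b ∈ B, b.card = k) (s : Finset α) :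
    (k - s.card) * cnt B s ∅ = ∑ a ∈ sᶜ, cnt B (insert a s) ∅ := by
  classical
  unfold cnt
  simp only [Finset.disjoint_empty_right, and_true]
  have h1 : ∀ a ∈ sᶜ, ((Set.toFinite B).toFinset.filter (fun c => insert a s ⊆ c)).card
      = ∑ c ∈ (Set.toFinite B).toFinset.filter (fun c => s ⊆ c), (if a ∈ c then 1 else 0) := by
    intro a _
    rw [← Finset.card_filter, Finset.filter_filter]
    congr 1
    ext c
    simp only [Finset.mem_filter, Finset.insert_subset_iff]
    tauto
  rw [Finset.sum_congr rfl h1, Finset.sum_comm]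
  have h2 : ∀ c ∈ (Set.toFinite B).toFinset.filter (fun c => s ⊆ c),
      (∑ a ∈ sᶜ, (if a ∈ c then 1 else 0)) = k - s.card := by
    intro c hc
    simp only [Finset.mem_filter, Set.Finite.mem_toFinset] at hc
    rw [← Finset.card_filter]
    have : sᶜ.filter (fun a => a ∈ c) = c \ s := by
      ext a
      simp only [Finset.mem_filter, Finset.mem_compl, Finset.mem_sdiff]
      tauto
    rw [this, Finset.card_sdiff_of_subset hc.2, hB c hc.1]
  rw [Finset.sum_congr rfl h2, Finset.sum_const, smul_eq_mul, mul_comm]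

lemma cnt_five {B : Set (Finset α)} (hB : Cfsg.IsSteinerSystem 5 6 B) (s : Finset α)
    (hs : s.card = 5) : cnt B s ∅ = 1 := by
  classical
  unfold cnt
  obtain ⟨b, ⟨hb, hsb⟩, huniq⟩ := hB.2 s hs
  rw [Finset.card_eq_one]
  refine ⟨b, ?_⟩
  ext c
  simp only [Finset.mem_filter, Set.Finite.mem_toFinset, Finset.disjoint_empty_right, and_true,
    Finset.mem_singleton]
  constructor
  · rintro ⟨hc, hsc⟩
    exact huniq c ⟨hc, hsc⟩
  · rintro rfl
    exact ⟨hb, hsb⟩

lemma cnt_succ {B : Set (Finset α)} (hB : Cfsg.IsSteinerSystem 5 6 B)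
    (hα : Fintype.card α = 12) (j v : ℕ)
    (hv : ∀ s : Finset α, s.card = j + 1 → cnt B s ∅ = v) (s : Finset α) (hs : s.card = j) :
    (6 - j) * cnt B s ∅ = (12 - j) * v := by
  classical
  have h := cnt_double B 6 hB.1 s
  rw [hs] at h
  rw [h, Finset.sum_congr rfl (g := fun _ => v), Finset.sum_const, smul_eq_mul,
    Finset.card_compl, hα, hs]
  intro a ha
  apply hv
  rw [Finset.card_insert_of_notMem (by simpa using ha), hs]

lemma cnt_vals {B : Set (Finset α)} (hB : Cfsg.IsSteinerSystem 5 6 B)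
    (hα : Fintype.card α = 12) :
    (∀ s : Finset α, s.card = 5 → cnt B s ∅ = 1) ∧
    (∀ s : Finset α, s.card = 4 → cnt B s ∅ = 4) ∧
    (∀ s : Finset α, s.card = 3 → cnt B s ∅ = 12) ∧
    (∀ s : Finset α, s.card = 2 → cnt B s ∅ = 30) ∧
    (∀ s : Finset α, s.card = 1 → cnt B s ∅ = 66) := by
  have h5 := cnt_five hB
  have h4 : ∀ s : Finset α, s.card = 4 → cnt B s ∅ = 4 := fun s hs => by
    have := cnt_succ hB hα 4 1 h5 s hs
    omega
  have h3 : ∀ s : Finset α, s.card = 3 → cnt B s ∅ = 12 := fun s hs => by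
    have := cnt_succ hB hα 3 4 h4 s hs
    omega
  have h2 : ∀ s : Finset α, s.card = 2 → cnt B s ∅ = 30 := fun s hs => by
    have := cnt_succ hB hα 2 12 h3 s hs
    omega
  have h1 : ∀ s : Finset α, s.card = 1 → cnt B s ∅ = 66 := fun s hs => by
    have := cnt_succ hB hα 1 30 h2 s hs
    omega
  exact ⟨h5, h4, h3, h2, h1⟩

/-- The Leech triangle: the value of `cnt` for `s`, `t` disjoint subsets of a block. -/
def L : ℕ → ℕ → ℕ
  | 1, 0 => 66
  | 2, 0 => 30
  | 3, 0 => 12
  | 4, 0 => 4
  | 5, 0 => 1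
  | 6, 0 => 1
  | _, 0 => 0
  | i, j + 1 => L i j - L (i + 1) j

lemma cnt_base {B : Set (Finset α)} (hB : Cfsg.IsSteinerSystem 5 6 B)
    (hα : Fintype.card α = 12) {b : Finset α} (hb : b ∈ B) (s : Finset α) (hsb : s ⊆ b)
    (hs0 : s.card ≠ 0) : cnt B s ∅ = L s.card 0 := by
  classical
  obtain ⟨h5, h4, h3, h2, h1⟩ := cnt_vals hB hα
  have hc : s.card ≤ 6 := (Finset.card_le_card hsb).trans (hB.1 b hb).le
  have h6 : s.card = 6 → cnt B s ∅ = 1 := fun hs6 => by
    have hsb' : s = b := Finset.eq_of_subset_of_card_le hsb (by rw [hB.1 b hb, hs6])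
    subst hsb'
    unfold cnt
    rw [Finset.card_eq_one]
    refine ⟨s, ?_⟩
    ext c
    simp only [Finset.mem_filter, Set.Finite.mem_toFinset, Finset.disjoint_empty_right, and_true,
      Finset.mem_singleton]
    constructor
    · rintro ⟨hc', hsc⟩
      exact (Finset.eq_of_subset_of_card_le hsc (by rw [hB.1 c hc', hB.1 s hb])).symm
    · rintro rfl
      exact ⟨hb, subset_rfl⟩
  rcases (by omega : s.card = 1 ∨ s.card = 2 ∨ s.card = 3 ∨ s.card = 4 ∨ s.card = 5 ∨ s.card = 6)
    with h | h | h | h | h | h <;> rw [h]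
  · simpa [L] using h1 s h
  · simpa [L] using h2 s h
  · simpa [L] using h3 s h
  · simpa [L] using h4 s h
  · simpa [L] using h5 s h
  · simpa [L] using h6 h

lemma cnt_eq {B : Set (Finset α)} (hB : Cfsg.IsSteinerSystem 5 6 B)
    (hα : Fintype.card α = 12) {b : Finset α} (hb : b ∈ B) (t : Finset α) :
    ∀ s : Finset α, s ⊆ b → t ⊆ b → Disjoint s t → s.card ≠ 0 →
      cnt B s t = L s.card t.card := by
  classical
  induction t using Finset.induction_on with
  | empty =>
    intro s hs _ _ hs0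
    exact cnt_base hB hα hb s hs hs0
  | insert a t hat ih =>
    intro s hs hta hst hs0
    rw [Finset.insert_subset_iff] at hta
    rw [Finset.disjoint_insert_right] at hst
    have e1 := cnt_pascal B s t a
    have e2 := ih s hs hta.2 hst.2 hs0
    have e3 := ih (insert a s) (Finset.insert_subset hta.1 hs) hta.2
      (by rw [Finset.disjoint_insert_left]; exact ⟨hat, hst.2⟩)
      (by rw [Finset.card_insert_of_notMem hst.1]; omega)
    rw [Finset.card_insert_of_notMem hst.1] at e3
    rw [Finset.card_insert_of_notMem hat]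
    simp only [L]
    omega

lemma ncard_eq_cnt (B : Set (Finset α)) {b s : Finset α} (hsb : s ⊆ b) :
    {c : Finset α | c ∈ B ∧ b ∩ c = s}.ncard = cnt B s (b \ s) := by
  classical
  unfold cnt
  rw [← Set.ncard_coe_finset]
  congr 1
  ext c
  simp only [Set.mem_ofPred_eq, Finset.coe_filter, Set.Finite.mem_toFinset]
  constructor
  · rintro ⟨hc, rfl⟩
    refine ⟨hc, Finset.inter_subset_right, ?_⟩
    rw [Finset.disjoint_left]
    intro x hxc hx
    simp only [Finset.mem_sdiff, Finset.mem_inter] at hx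
    exact hx.2 ⟨hx.1, hxc⟩
  · rintro ⟨hc, hsc, hd⟩
    refine ⟨hc, ?_⟩
    ext x
    simp only [Finset.mem_inter]
    constructor
    · rintro ⟨hxb, hxc⟩
      by_contra hxs
      exact Finset.disjoint_left.mp hd hxc (Finset.mem_sdiff.mpr ⟨hxb, hxs⟩)
    · intro hxs
      exact ⟨hsb hxs, hsc hxs⟩

end aux

/-- Leech triangle of S(5, 6, 12): blocks meet in 0, 2, 3 or 4 points, and a block is met exactly in a given 2-, 3- or 4-subset by 3, 2, 3 blocks respectively. -/
theorem result {α : Type*} [Fintype α] [DecidableEq α] (hα : Fintype.card α = 12) {B : Set (Finset α)} (hB : Cfsg.IsSteinerSystem 5 6 B) (b : Finset α) (hb : b ∈ B) : (∀ c ∈ B, c ≠ b → (b ∩ c).card = 0 ∨ (b ∩ c).card = 2 ∨ (b ∩ c).card = 3 ∨ (b ∩ c).card = 4) ∧ ∀ s ⊆ b, (s.card = 2 → {c : Finset α | c ∈ B ∧ b ∩ c = s}.ncard = 3) ∧ (s.card = 3 → {c : Finset α | c ∈ B ∧ b ∩ c = s}.ncard = 2) ∧ (s.card = 4 → {c : Finset α | c ∈ B ∧ b ∩ c = s}.ncard = 3) := by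
  classical
  have hbcard : b.card = 6 := hB.1 b hb
  have key : ∀ s ⊆ b, s.card ≠ 0 → {c : Finset α | c ∈ B ∧ b ∩ c = s}.ncard = L s.card (6 - s.card) := by
    intro s hs hs0
    rw [ncard_eq_cnt B hs, cnt_eq hB hα hb (b \ s) s hs Finset.sdiff_subset
      Finset.disjoint_sdiff hs0, Finset.card_sdiff_of_subset hs, hbcard]
  refine ⟨fun c hc hcb => ?_, fun s hs => ⟨fun h => ?_, fun h => ?_, fun h => ?_⟩⟩
  · have hle : (b ∩ c).card ≤ 6 := by
      have := Finset.card_le_card (Finset.inter_subset_left (s₁ := b) (s₂ := c))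
      omega
    have hmem : ∀ n, (b ∩ c).card = n → n ≠ 0 → L n (6 - n) ≠ 0 := by
      intro n hn hn0
      have hk := key (b ∩ c) Finset.inter_subset_left (by omega)
      rw [hn] at hk
      rw [← hk]
      have hfin : {d : Finset α | d ∈ B ∧ b ∩ d = b ∩ c}.Finite := Set.toFinite _
      exact Set.ncard_ne_zero_of_mem (a := c) ⟨hc, rfl⟩ hfin
    have h1 : (b ∩ c).card ≠ 1 := fun h1 => hmem 1 h1 (by norm_num) (by decide)
    have h5 : (b ∩ c).card ≠ 5 := fun h5 => hmem 5 h5 (by norm_num) (by decide)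
    have h6 : (b ∩ c).card ≠ 6 := fun h6 => by
      have hbc : b ∩ c = b := Finset.eq_of_subset_of_card_le Finset.inter_subset_left (by omega)
      have hsub : b ⊆ c := Finset.inter_eq_left.mp hbc
      exact hcb (Finset.eq_of_subset_of_card_le hsub (by rw [hB.1 c hc, hbcard])).symm
    omega
  · rw [key s hs (by omega), h]; decide
  · rw [key s hs (by omega), h]; decide
  · rw [key s hs (by omega), h]; decide

end Cfsg.Agent.S1595
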