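import Cfsg.Statements.S1596
import Cfsg.Agent.Lib.GolayCert.Quartets

set_option autoImplicit false
open Cfsg

namespace Cfsg.Agent.S1596

open Cfsg.Agent.Lib.Golay.Core Cfsg.Agent.Lib.Golay.Perm Cfsg.Agent.Lib.Golay.M24
  Cfsg.Agent.Lib.Golay.Dodecad Cfsg.Agent.Lib.GolayCert.Basic Cfsg.Agent.Lib.GolayCert.Quartets
open scoped Pointwise

/-- A quartet of a dodecad is determined by any two of its triples: two disjoint triples uniting to a hexad extend to exactly one quartet. -/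
theorem result (d : Finset Cfsg.GolayPt) (hd : d ∈ Cfsg.dodecads) (t u : Finset Cfsg.GolayPt) (ht : t.card = 3) (hu : u.card = 3) (htu : Disjoint t u) (hh : t ∪ u ∈ Cfsg.hexadsOn d) : ∃! Q : Finset (Finset Cfsg.GolayPt), Q ∈ Cfsg.quartets d ∧ t ∈ Q ∧ u ∈ Q := by
  obtain ⟨τ, hτ, hτd⟩ := exists_to_base hd
  have hsub : t ∪ u ⊆ d := by
    obtain ⟨-, o, -, e⟩ := hh
    rw [← e]
    exact Finset.inter_subset_right
  have ht' : τ • t ⊆ setOf d0 := by
    rw [← hτd]
    exact Finset.smul_finset_subset_smul_finset_iff.mpr (Finset.union_subset_left hsub)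
  have hu' : τ • u ⊆ setOf d0 := by
    rw [← hτd]
    exact Finset.smul_finset_subset_smul_finset_iff.mpr (Finset.union_subset_right hsub)
  obtain ⟨a, ha, ea⟩ := exists_mask_triple (by rw [Finset.card_smul_finset, ht]) ht'
  obtain ⟨b, hb, eb⟩ := exists_mask_triple (by rw [Finset.card_smul_finset, hu]) hu'
  have hh' : setOf a ∪ setOf b ∈ hexadsOn (setOf d0) := by
    rw [← ea, ← eb, ← hτd, ← Finset.smul_finset_union]
    exact hexadsOn_smul hτ hh
  have hab := (adj_iff ha hb).mp hh'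
  have hne : a ≠ b := by
    rintro rfl
    have e : τ • t = τ • u := ea.trans eb.symm
    have e2 : t = u := MulAction.injective τ e
    rw [e2] at htu
    have : u = ∅ := by simpa using htu
    rw [this] at hu
    simp at hu
  obtain ⟨L, hL, h3, h4, h5⟩ := edge_quartet ha hb hab
  have hmem : ∀ Q : Finset (Finset GolayPt), τ • t ∈ τ • Q ↔ t ∈ Q := fun Q =>
    Finset.smul_mem_smul_finset_iff τ
  have hmem' : ∀ Q : Finset (Finset GolayPt), τ • u ∈ τ • Q ↔ u ∈ Q := fun Q =>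
    Finset.smul_mem_smul_finset_iff τ
  refine ⟨τ⁻¹ • Qs L, ⟨?_, ?_, ?_⟩, ?_⟩
  · rw [← quartets_smul_iff hτ, hτd, smul_inv_smul]
    exact Qs_mem_quartets hL
  · rw [← hmem, smul_inv_smul, ea]
    exact mem_Qs.mpr ⟨a, h3, rfl⟩
  · rw [← hmem', smul_inv_smul, eb]
    exact mem_Qs.mpr ⟨b, h4, rfl⟩
  · rintro Q ⟨h6, h7, h8⟩
    have h9 : τ • Q ∈ quartets (setOf d0) := by
      rw [← hτd]
      exact quartets_smul hτ h6
    have h10 : setOf a ∈ τ • Q := by
      rw [← ea]; exact (hmem Q).mpr h7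
    have h11 : setOf b ∈ τ • Q := by
      rw [← eb]; exact (hmem' Q).mpr h8
    have h12 := eq_Qs_of h9 ha hb hne h10 h11 hL h3 h4 h5
    rw [← h12, inv_smul_smul]

end Cfsg.Agent.S1596
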