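import Cfsg.Statements.S1597
import Cfsg.Agent.Lib.GolayCert.Quartets

set_option autoImplicit false
open Cfsg

namespace Cfsg.Agent.S1597

open Cfsg.Agent.Lib.Golay.Core Cfsg.Agent.Lib.Golay.Perm Cfsg.Agent.Lib.Golay.M24
  Cfsg.Agent.Lib.Golay.Dodecad Cfsg.Agent.Lib.GolayCert.Basic Cfsg.Agent.Lib.GolayCert.Quartets
open scoped Pointwise

/-- A dodecad has 220 quartets and its stabiliser is transitive on them. -/
theorem result (d : Finset Cfsg.GolayPt) (hd : d ∈ Cfsg.dodecads) : (Cfsg.quartets d).ncard = 220 ∧ ∀ Q ∈ Cfsg.quartets d, ∀ Q' ∈ Cfsg.quartets d, ∃ g : Equiv.Perm Cfsg.GolayPt, g ∈ Cfsg.M24 ∧ g • d = d ∧ g • Q = Q' := by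
  obtain ⟨τ, hτ, hτd⟩ := exists_to_base hd
  constructor
  · rw [← ncard_quartets_base, ← hτd]
    have e : quartets (τ • d) = (fun Q => τ • Q) '' quartets d := by
      ext Q
      constructor
      · intro h
        refine ⟨τ⁻¹ • Q, ?_, by simp⟩
        rw [← quartets_smul_iff hτ, smul_inv_smul]
        exact h
      · rintro ⟨Q', h, rfl⟩
        exact quartets_smul hτ h
    rw [e, Set.ncard_image_of_injective _ (MulAction.injective τ)]
  · intro Q hQ Q' hQ'
    have h1 : τ • Q ∈ quartets (setOf d0) := by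
      rw [← hτd]; exact quartets_smul hτ hQ
    have h2 : τ • Q' ∈ quartets (setOf d0) := by
      rw [← hτd]; exact quartets_smul hτ hQ'
    obtain ⟨L, hL, e⟩ := exists_Qs h1
    obtain ⟨L', hL', e'⟩ := exists_Qs h2
    obtain ⟨σ, hσ, hσe⟩ := quartet_orbit hL hL'
    refine ⟨τ⁻¹ * σ * τ, M24.mul_mem (M24.mul_mem (M24.inv_mem hτ) hσ.mem) hτ, ?_, ?_⟩
    · rw [mul_smul, mul_smul, hτd, hσ.stab d0 (by simp), inv_smul_eq_iff, hτd]
    · rw [mul_smul, mul_smul, e, hσe, inv_smul_eq_iff, e']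

end Cfsg.Agent.S1597
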