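import Cfsg.Statements.S1600
import Cfsg.Agent.Lib.GolayCert.Basic

set_option autoImplicit false
open Cfsg

namespace Cfsg.Agent.S1600

open Cfsg.Agent.Lib.Golay.Core Cfsg.Agent.Lib.Golay.Perm Cfsg.Agent.Lib.Golay.M24
  Cfsg.Agent.Lib.Golay.Dodecad Cfsg.Agent.Lib.GolayCert.Basic
open scoped Pointwise

def T : List ℕ := [984818244535754528103549039458486304, 977635175595271619883596410324720672, 981776911847549885571076928117705760, 979199902066532810481018051797007392, 977626298262095591357407496854872096, 977666823536203675389992086812081184, 969199267465777758467557010220496928, 983439156539618644473047614254949408, 976887510154770538766490027346206752, 983551852417171758156912368798900256, 970398603952780882525231244152020000, 969203085545096192581837129131307040]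

def S : List ℕ := [16, 4194304, 2048, 8192, 2097152, 524288, 262144, 32, 1048576, 131072, 1024, 65536]

theorem tab : tabOK [23, 0, 1] [d0] 16 T S = true := by decide +kernel

theorem cover : ∀ i < 24, d0.testBit i = false → Nat.shiftLeft 1 i ∈ S := by decide +kernel

theorem base_trans {x y : GolayPt} (hx : x ∉ setOf d0) (hy : y ∉ setOf d0) :
    ∃ σ, Good [23, 0, 1] [d0] σ ∧ σ x = y := by
  have hx' : d0.testBit (idx x) = false := by
    rw [mem_setOf] at hx
    simpa using hx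
  have hy' : d0.testBit (idx y) = false := by
    rw [mem_setOf] at hy
    simpa using hy
  obtain ⟨σ, hσ, he⟩ := exists_between tab (cover _ (idx_lt x) hx') (cover _ (idx_lt y) hy')
  refine ⟨σ, hσ, ?_⟩
  have := apply_of_smul_one (idx_lt x) (idx_lt y) he
  rwa [pt_idx, pt_idx] at this

/-- The subgroup. -/
abbrev K (d : Finset GolayPt) (p q r : GolayPt) : Subgroup ↥M24 :=
  MulAction.stabilizer M24 d ⊓ MulAction.stabilizer M24 p ⊓ MulAction.stabilizer M24 q ⊓
    MulAction.stabilizer M24 r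

theorem mem_K_iff {d : Finset GolayPt} {p q r : GolayPt} {g : ↥M24} :
    g ∈ K d p q r ↔ (g : Equiv.Perm GolayPt) • d = d ∧ (g : Equiv.Perm GolayPt) p = p ∧
      (g : Equiv.Perm GolayPt) q = q ∧ (g : Equiv.Perm GolayPt) r = r := by
  simp only [K, Subgroup.mem_inf, MulAction.mem_stabilizer_iff]
  constructor
  · rintro ⟨⟨⟨h1, h2⟩, h3⟩, h4⟩
    exact ⟨h1, h2, h3, h4⟩
  · rintro ⟨h1, h2, h3, h4⟩
    exact ⟨⟨⟨h1, h2⟩, h3⟩, h4⟩

theorem card_K {d : Finset GolayPt} (hd : d ∈ dodecads) {p q r : GolayPt} (hp : p ∈ d) (hq : q ∈ d)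
    (hr : r ∈ d) (hpq : p ≠ q) (hpr : p ≠ r) (hqr : q ≠ r) : Nat.card ↥(K d p q r) = 72 := by
  classical
  obtain ⟨l, hl, hnd, hs⟩ := exists_extend_list (s := d) (l := [p, q, r]) (by simp [hpq, hpr, hqr])
    (by
      intro x hx
      simp only [List.mem_cons, List.not_mem_nil, or_false] at hx
      rcases hx with rfl | rfl | rfl <;> assumption) 2 (by rw [hd.2]; simp)
  obtain ⟨a, b, rfl⟩ := List.length_eq_two.mp hl
  have hnd' := hnd
  simp only [List.cons_append, List.nil_append, List.nodup_cons, List.mem_cons, List.not_mem_nil,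
    or_false, not_or, List.nodup_nil, and_true, not_false_eq_true] at hnd'
  obtain ⟨⟨h1, h2, h3, h4⟩, ⟨h5, h6, h7⟩, ⟨h8, h9⟩, h10⟩ := hnd'
  have ha : a ∈ d := hs a (by simp)
  have hb : b ∈ d := hs b (by simp)
  set D' : Finset GolayPt := d \ {p, q, r} with hD'
  have hD'card : D'.card = 9 := by
    rw [hD', Finset.card_sdiff_of_subset, hd.2]
    · rw [Finset.card_insert_of_notMem (by simp [hpq, hpr]), Finset.card_insert_of_notMem (by simp [hqr]),
        Finset.card_singleton]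
    · intro x hx
      simp only [Finset.mem_insert, Finset.mem_singleton] at hx
      rcases hx with rfl | rfl | rfl <;> assumption
  have hmemD : ∀ {x}, x ∈ D' ↔ x ∈ d ∧ x ≠ p ∧ x ≠ q ∧ x ≠ r := by
    intro x
    simp only [hD', Finset.mem_sdiff, Finset.mem_insert, Finset.mem_singleton, not_or]
  have hmkemb : ∀ a' b' : GolayPt, a' ∈ D' → b' ∈ D' → a' ≠ b' →
      ∃ y : Fin 5 ↪ GolayPt, y 0 = p ∧ y 1 = q ∧ y 2 = r ∧ y 3 = a' ∧ y 4 = b' ∧ ∀ i, y i ∈ d := by
    intro a' b' ha' hb' hab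
    obtain ⟨a1, a2, a3, a4⟩ := hmemD.mp ha'
    obtain ⟨b1, b2, b3, b4⟩ := hmemD.mp hb'
    refine ⟨⟨![p, q, r, a', b'], ?_⟩, rfl, rfl, rfl, rfl, rfl, ?_⟩
    · intro i j hij
      fin_cases i <;> fin_cases j <;> simp_all [eq_comm]
    · intro i
      show ![p, q, r, a', b'] i ∈ d
      fin_cases i
      exacts [hp, hq, hr, a1, b1]
  have hax : a ∈ D' := hmemD.mpr ⟨ha, Ne.symm h3, Ne.symm h6, Ne.symm h8⟩
  have hbx : b ∈ D' := hmemD.mpr ⟨hb, Ne.symm h4, Ne.symm h7, Ne.symm h9⟩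
  obtain ⟨x, hx0, hx1, hx2, hx3, hx4, hxd⟩ := hmkemb a b hax hbx h10
  have hprops : ∀ g : ↥(K d p q r), ∀ {c : GolayPt}, c ∈ D' →
      ((g : ↥M24) : Equiv.Perm GolayPt) c ∈ D' := by
    intro g c hc
    obtain ⟨g1, g2, g3, g4⟩ := mem_K_iff.mp g.2
    obtain ⟨c1, c2, c3, c4⟩ := hmemD.mp hc
    refine hmemD.mpr ⟨?_, fun e => c2 ?_, fun e => c3 ?_, fun e => c4 ?_⟩
    · have h := (mem_smul_iff ((g : ↥M24) : Equiv.Perm GolayPt) c d).mpr c1
      rwa [g1] at h
    · exact ((g : ↥M24) : Equiv.Perm GolayPt).injective (e.trans g2.symm)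
    · exact ((g : ↥M24) : Equiv.Perm GolayPt).injective (e.trans g3.symm)
    · exact ((g : ↥M24) : Equiv.Perm GolayPt).injective (e.trans g4.symm)
  let f : ↥(K d p q r) → {z // z ∈ D'.offDiag} := fun g =>
    ⟨(((g : ↥M24) : Equiv.Perm GolayPt) a, ((g : ↥M24) : Equiv.Perm GolayPt) b), by
      rw [Finset.mem_offDiag]
      refine ⟨hprops g hax, hprops g hbx, fun e => h10 (((g : ↥M24) : Equiv.Perm GolayPt).injective e)⟩⟩
  have hstab : ∀ g : ↥(K d p q r), (g : ↥M24) ∈ MulAction.stabilizer M24 d := by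
    intro g
    exact MulAction.mem_stabilizer_iff.mpr (mem_K_iff.mp g.2).1
  have hf : Function.Bijective f := by
    constructor
    · intro g1 g2 h12
      have e1 : ((g1 : ↥M24) : Equiv.Perm GolayPt) a = ((g2 : ↥M24) : Equiv.Perm GolayPt) a :=
        congrArg (fun z => z.1.1) h12
      have e2 : ((g1 : ↥M24) : Equiv.Perm GolayPt) b = ((g2 : ↥M24) : Equiv.Perm GolayPt) b :=
        congrArg (fun z => z.1.2) h12
      obtain ⟨a1, a2, a3, a4⟩ := mem_K_iff.mp g1.2
      obtain ⟨b1, b2, b3, b4⟩ := mem_K_iff.mp g2.2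
      have hne := (Finset.mem_offDiag.mp (f g1).2).2.2
      obtain ⟨y, hy0, hy1, hy2, hy3, hy4, hyd⟩ := hmkemb _ _ (hprops g1 hax) (hprops g1 hbx) hne
      have hall : ∀ {P : ∀ _ : Fin 5, Prop}, P 0 → P 1 → P 2 → P 3 → P 4 → ∀ i, P i := by
        intro P p0 p1 p2 p3 p4 i
        fin_cases i
        exacts [p0, p1, p2, p3, p4]
      have key := (sharply_five hd x y hxd hyd).unique (y₁ := ⟨(g1 : ↥M24), hstab g1⟩)
        (y₂ := ⟨(g2 : ↥M24), hstab g2⟩)
        (hall (by show ((g1 : ↥M24) : Equiv.Perm GolayPt) (x 0) = y 0; rw [hx0, hy0, a2])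
          (by show ((g1 : ↥M24) : Equiv.Perm GolayPt) (x 1) = y 1; rw [hx1, hy1, a3])
          (by show ((g1 : ↥M24) : Equiv.Perm GolayPt) (x 2) = y 2; rw [hx2, hy2, a4])
          (by show ((g1 : ↥M24) : Equiv.Perm GolayPt) (x 3) = y 3; rw [hx3, hy3])
          (by show ((g1 : ↥M24) : Equiv.Perm GolayPt) (x 4) = y 4; rw [hx4, hy4]))
        (hall (by show ((g2 : ↥M24) : Equiv.Perm GolayPt) (x 0) = y 0; rw [hx0, hy0, b2])
          (by show ((g2 : ↥M24) : Equiv.Perm GolayPt) (x 1) = y 1; rw [hx1, hy1, b3])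
          (by show ((g2 : ↥M24) : Equiv.Perm GolayPt) (x 2) = y 2; rw [hx2, hy2, b4])
          (by show ((g2 : ↥M24) : Equiv.Perm GolayPt) (x 3) = y 3; rw [hx3, hy3, e1])
          (by show ((g2 : ↥M24) : Equiv.Perm GolayPt) (x 4) = y 4; rw [hx4, hy4, e2]))
      apply Subtype.ext
      exact congrArg (fun z : ↥(MulAction.stabilizer M24 d) => (z : ↥M24)) key
    · rintro ⟨⟨a', b'⟩, hz⟩
      obtain ⟨ha', hb', hne⟩ := Finset.mem_offDiag.mp hz
      obtain ⟨y, hy0, hy1, hy2, hy3, hy4, hyd⟩ := hmkemb a' b' ha' hb' hne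
      obtain ⟨g, hg⟩ := (sharply_five hd x y hxd hyd).exists
      have hg0 := hg 0
      have hg1 := hg 1
      have hg2 := hg 2
      have hg3 := hg 3
      have hg4 := hg 4
      rw [hx0, hy0] at hg0
      rw [hx1, hy1] at hg1
      rw [hx2, hy2] at hg2
      rw [hx3, hy3] at hg3
      rw [hx4, hy4] at hg4
      have hmem : (g : ↥M24) ∈ K d p q r := mem_K_iff.mpr
        ⟨MulAction.mem_stabilizer_iff.mp g.2, hg0, hg1, hg2⟩
      refine ⟨⟨(g : ↥M24), hmem⟩, ?_⟩
      apply Subtype.ext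
      exact Prod.ext hg3 hg4
  rw [Nat.card_congr (Equiv.ofBijective f hf), Nat.card_eq_fintype_card, Fintype.card_coe,
    Finset.offDiag_card, hD'card]

/-- The pointwise stabiliser of three points of a dodecad inside the dodecad stabiliser (order 72) is transitive on the complementary dodecad. -/
theorem result (d : Finset Cfsg.GolayPt) (hd : d ∈ Cfsg.dodecads) (p q r : Cfsg.GolayPt) (hp : p ∈ d) (hq : q ∈ d) (hr : r ∈ d) (hpq : p ≠ q) (hpr : p ≠ r) (hqr : q ≠ r) : Nat.card ↥(MulAction.stabilizer Cfsg.M24 d ⊓ MulAction.stabilizer Cfsg.M24 p ⊓ MulAction.stabilizer Cfsg.M24 q ⊓ MulAction.stabilizer Cfsg.M24 r) = 72 ∧ ∀ x ∉ d, ∀ y ∉ d, ∃ g ∈ (MulAction.stabilizer Cfsg.M24 d ⊓ MulAction.stabilizer Cfsg.M24 p ⊓ MulAction.stabilizer Cfsg.M24 q ⊓ MulAction.stabilizer Cfsg.M24 r), ((g : ↥Cfsg.M24) : Equiv.Perm Cfsg.GolayPt) x = y := by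
  refine ⟨card_K hd hp hq hr hpq hpr hqr, ?_⟩
  intro x hx y hy
  classical
  obtain ⟨l, hl, hnd, hs⟩ := exists_extend_list (s := d) (l := [p, q, r]) (by simp [hpq, hpr, hqr])
    (by
      intro x hx
      simp only [List.mem_cons, List.not_mem_nil, or_false] at hx
      rcases hx with rfl | rfl | rfl <;> assumption) 2 (by rw [hd.2]; simp)
  obtain ⟨a, b, rfl⟩ := List.length_eq_two.mp hl
  obtain ⟨τ, hτ, hτd, hτl⟩ := exists_dodecad_five hd (l := [p, q, r] ++ [a, b]) rfl hnd (by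
    intro z hz
    rcases List.mem_append.mp hz with hz | hz
    · simp only [List.mem_cons, List.not_mem_nil, or_false] at hz
      rcases hz with rfl | rfl | rfl <;> assumption
    · exact hs z hz)
  simp only [List.cons_append, List.nil_append, List.map_cons, List.map_nil, List.cons.injEq,
    and_true] at hτl
  obtain ⟨h1, h2, h3, -, -⟩ := hτl
  have hx' : τ x ∉ setOf d0 := by
    rw [← hτd]
    exact fun hc => hx ((mem_smul_iff τ x d).mp hc)
  have hy' : τ y ∉ setOf d0 := by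
    rw [← hτd]
    exact fun hc => hy ((mem_smul_iff τ y d).mp hc)
  obtain ⟨σ, hσ, hσe⟩ := base_trans hx' hy'
  have hmem : τ⁻¹ * σ * τ ∈ M24 := M24.mul_mem (M24.mul_mem (M24.inv_mem hτ) hσ.mem) hτ
  refine ⟨⟨τ⁻¹ * σ * τ, hmem⟩, mem_K_iff.mpr ⟨?_, ?_, ?_, ?_⟩, ?_⟩
  · show (τ⁻¹ * σ * τ) • d = d
    rw [mul_smul, mul_smul, hτd, hσ.stab d0 (by simp), inv_smul_eq_iff, hτd]
  · show (τ⁻¹ * σ * τ) p = p
    rw [Equiv.Perm.mul_apply, Equiv.Perm.mul_apply, h1, hσ.fix 23 (by simp), Equiv.Perm.inv_eq_iff_eq, h1]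
  · show (τ⁻¹ * σ * τ) q = q
    rw [Equiv.Perm.mul_apply, Equiv.Perm.mul_apply, h2, hσ.fix 0 (by simp), Equiv.Perm.inv_eq_iff_eq, h2]
  · show (τ⁻¹ * σ * τ) r = r
    rw [Equiv.Perm.mul_apply, Equiv.Perm.mul_apply, h3, hσ.fix 1 (by simp), Equiv.Perm.inv_eq_iff_eq, h3]
  · show (τ⁻¹ * σ * τ) x = y
    rw [Equiv.Perm.mul_apply, Equiv.Perm.mul_apply, hσe, Equiv.Perm.inv_eq_iff_eq]

end Cfsg.Agent.S1600
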