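import Cfsg.Statements.S1601
import Cfsg.Agent.Lib.GolayCert.M11
import Cfsg.Agent.Lib.GolayCert.CertL211
import Cfsg.Agent.Lib.Small.PSL2P11

set_option autoImplicit false
open Cfsg

namespace Cfsg.Agent.S1601

open Cfsg.Agent.Lib.Golay.Core Cfsg.Agent.Lib.Golay.Perm Cfsg.Agent.Lib.Golay.M24
  Cfsg.Agent.Lib.GolayCert.Basic Cfsg.Agent.Lib.GolayCert.M11 Cfsg.Agent.Lib.GolayCert.CertL211
  Cfsg.Agent.Lib.PermComp Cfsg.Agent.Lib.PermComp.Mathieu.Bridge
  Cfsg.Agent.Lib.PermComp.Mathieu.Simple1x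
open Cfsg.Agent.Lib.PermComp.G24 (e24)
open Cfsg.Agent.Lib.Golay.Orbits (D1 D1_mem)
open scoped Pointwise

theorem all_aut : allAut l211_G_T = true := by decide +kernel

theorem fix_D1 : Core.allL (fun c => Nat.beq (mapMask c D1) D1) l211_G_T = true := by decide +kernel

theorem H_card : Nat.card (Core.H 5 31 e24 l211_G_T) = 660 := by
  obtain ⟨-, -, -, -, -, h⟩ := Core.main_of_checkAll (e := e24) (exists_rep24_of_all all_aut) l211_G_ok
  exact h.trans l211_order

theorem isSimple_H : IsSimpleGroup (Core.H 5 31 e24 l211_G_T) :=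
  Simple.isSimple_of_cert (e := e24) (exists_rep24_of_all all_aut) l211_G_ok l211_order (by norm_num)
    l211_reps_ok l211_syls_ok l211_prod

theorem pt0_mem : pt 0 ∈ setOf D1 := by decide +kernel

theorem pt5_not : pt 5 ∉ setOf D1 := by decide +kernel

theorem nonempty_equiv_base :
    Nonempty (↥(MulAction.stabilizer M24 (setOf D1) ⊓ MulAction.stabilizer M24 (pt 0) ⊓
      MulAction.stabilizer M24 (pt 5)) ≃* Core.H 5 31 e24 l211_G_T) := by
  refine nonempty_equiv_of_le_card _ _ (fun x hx => ?_) (by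
    rw [H_card, card_stab_three D1_mem pt0_mem pt5_not])
  have h0 : Core.H 5 31 e24 l211_G_T ≤ MulAction.stabilizer (Equiv.Perm GolayPt) (pt 0) :=
    H_le_stab all_aut (by decide +kernel)
  have h5 : Core.H 5 31 e24 l211_G_T ≤ MulAction.stabilizer (Equiv.Perm GolayPt) (pt 5) :=
    H_le_stab all_aut (by decide +kernel)
  have hD : Core.H 5 31 e24 l211_G_T ≤ MulAction.stabilizer (Equiv.Perm GolayPt) (setOf D1) := by
    refine H_le fun c hc g hg => ?_
    have h1 := List.all_eq_true.1 all_aut c hc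
    show g • setOf D1 = setOf D1
    rw [eq_g_of_rep h1 hg, smul_setOf (checkAut_valid h1),
      Nat.eq_of_beq_eq_true ((Core.allL_eq_true _ _).1 fix_D1 c hc)]
  exact ⟨H_le_M24 all_aut hx, ⟨hD hx, h0 hx⟩, h5 hx⟩

theorem exists_conj3 {d : Finset GolayPt} (hd : d ∈ dodecads) {p q : GolayPt} (hp : p ∈ d)
    (hq : q ∉ d) : ∃ σ : M24, σ • setOf D1 = d ∧ σ • pt 0 = p ∧ σ • pt 5 = q := by
  obtain ⟨σ, rfl, rfl⟩ := exists_conj hd hp
  have h1 : σ⁻¹ • q ∉ setOf D1 := by
    intro hc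
    apply hq
    have := Finset.smul_mem_smul_finset (a := σ) hc
    rwa [smul_inv_smul] at this
  obtain ⟨g, hg, e⟩ := one_transitive_pts D1_mem pt0_mem pt5_not h1
  have hg1 : g • setOf D1 = setOf D1 := MulAction.mem_stabilizer_iff.mp hg.1
  have hg2 : g • pt 0 = pt 0 := MulAction.mem_stabilizer_iff.mp hg.2
  have hg3 : g • pt 5 = σ⁻¹ • q := e
  refine ⟨σ * g, ?_, ?_, ?_⟩
  · rw [mul_smul, hg1]
  · rw [mul_smul, hg2]
  · rw [mul_smul, hg3, smul_inv_smul]

/-- In the 3-transitive action of the smallest Mathieu group on the complementary dodecad, a point stabiliser is isomorphic to PSL(2, 11). -/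
theorem result (d : Finset Cfsg.GolayPt) (hd : d ∈ Cfsg.dodecads) (p q : Cfsg.GolayPt) (hp : p ∈ d) (hq : q ∉ d) : Nonempty (↥(MulAction.stabilizer Cfsg.M24 d ⊓ MulAction.stabilizer Cfsg.M24 p ⊓ MulAction.stabilizer Cfsg.M24 q) ≃* Matrix.ProjectiveSpecialLinearGroup (Fin 2) (ZMod 11)) := by
  have hc := card_stab_three hd hp hq
  obtain ⟨σ, rfl, rfl, rfl⟩ := exists_conj3 hd hp hq
  obtain ⟨e1⟩ := nonempty_equiv_inf_conj3' σ (setOf D1) (pt 0) (pt 5)
  obtain ⟨e2⟩ := nonempty_equiv_base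
  have := isSimple_H
  have hs := (e1.symm.trans e2).isSimpleGroup
  exact Cfsg.Agent.Lib.Small.PSL2P11.nonempty_mulEquiv_zmod hc

end Cfsg.Agent.S1601
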