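import Cfsg.Statements.S1602
import Cfsg.Agent.Lib.GolayCert.M11

set_option autoImplicit false
open Cfsg

namespace Cfsg.Agent.S1602

open Cfsg.Agent.Lib.Golay.Core Cfsg.Agent.Lib.Golay.Perm Cfsg.Agent.Lib.Golay.M24
  Cfsg.Agent.Lib.Golay.Dodecad
  Cfsg.Agent.Lib.GolayCert.Basic Cfsg.Agent.Lib.GolayCert.M11
open scoped Pointwise

/-- The octad through the base. -/
def O5 : ℕ := 8421811

/-- Five points. -/
def X0 : ℕ := 33155

theorem O5_unique : ∀ m < 4096, pop (code m) = 8 → (code m).testBit 23 = true →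
    (code m).testBit 4 = true → (code m).testBit 5 = true → pop (Nat.land (code m) d0) = 6 →
    code m = O5 := by
  have h : allUpTo (fun m => !(Nat.beq (pop (code m)) 8 && (code m).testBit 23 && (code m).testBit 4
      && (code m).testBit 5 && Nat.beq (pop (Nat.land (code m) d0)) 6) || Nat.beq (code m) O5)
      4096 = true := by decide +kernel
  intro m hm h1 h2 h3 h4 h5
  have h6 := allUpTo_iff.mp h m hm
  simp only [h1, h2, h3, h4, h5, Bool.and_true, Nat.beq_refl, Bool.not_true, Bool.false_or] at h6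
  exact Nat.eq_of_beq_eq_true h6

theorem O5_mem : setOf O5 ∈ octads :=
  (setOf_mem_octads_iff (by decide +kernel)).mpr ⟨by decide +kernel, by decide +kernel⟩

theorem mem_X0 : ∀ y : GolayPt, y ∈ setOf X0 ↔ (y ∈ setOf O5 ∧ y ∈ setOf d0 ∧ y ≠ pt 23) := by
  decide +kernel

theorem pts_O5 : pt 23 ∈ setOf O5 ∧ pt 4 ∈ setOf O5 ∧ pt 5 ∈ setOf O5 := by decide +kernel

theorem inter_O5 : (setOf O5 ∩ setOf d0).card = 6 := by
  rw [card_inter_setOf]
  decide +kernel

/-- The base subgroup. -/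
abbrev K0 : Subgroup ↥M24 :=
  MulAction.stabilizer M24 (setOf d0) ⊓ MulAction.stabilizer M24 (pt 23) ⊓
    MulAction.stabilizer M24 ({pt 4, pt 5} : Finset GolayPt)

theorem props_K0 (g : ↥K0) : ((g : ↥M24) : Equiv.Perm GolayPt) • setOf d0 = setOf d0 ∧
    ((g : ↥M24) : Equiv.Perm GolayPt) (pt 23) = pt 23 ∧
    ((g : ↥M24) : Equiv.Perm GolayPt) • ({pt 4, pt 5} : Finset GolayPt) = {pt 4, pt 5} :=
  ⟨MulAction.mem_stabilizer_iff.mp g.2.1.1, MulAction.mem_stabilizer_iff.mp g.2.1.2,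
    MulAction.mem_stabilizer_iff.mp g.2.2⟩

theorem K0_O5 (g : ↥K0) : ((g : ↥M24) : Equiv.Perm GolayPt) • setOf O5 = setOf O5 := by
  obtain ⟨h1, h2, h3⟩ := props_K0 g
  set σ : Equiv.Perm GolayPt := ((g : ↥M24) : Equiv.Perm GolayPt) with hσ
  have hM : σ ∈ M24 := (g : ↥M24).2
  have h4 := smul_mem_octads hM O5_mem
  obtain ⟨m, hm, h8, e⟩ := mem_octads_iff.mp h4
  have h5 : pt 23 ∈ setOf (code m) := by
    rw [← e, ← h2]
    exact (mem_smul_iff σ _ _).mpr pts_O5.1
  have hsub : σ • ({pt 4, pt 5} : Finset GolayPt) ⊆ σ • setOf O5 := by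
    apply Finset.smul_finset_subset_smul_finset_iff.mpr
    intro z hz
    simp only [Finset.mem_insert, Finset.mem_singleton] at hz
    rcases hz with rfl | rfl
    · exact pts_O5.2.1
    · exact pts_O5.2.2
  rw [h3, e] at hsub
  have h6 : pt 4 ∈ setOf (code m) := hsub (by simp)
  have h7 : pt 5 ∈ setOf (code m) := hsub (by simp)
  rw [pt_mem_setOf (by norm_num)] at h5 h6 h7
  have h8' : pop (Nat.land (code m) d0) = 6 := by
    rw [← card_inter_setOf, ← e, ← h1, card_inter_smul, inter_O5]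
  rw [e, O5_unique m hm h8 h5 h6 h7 h8']

theorem K0_X0 (g : ↥K0) (y : GolayPt) (hy : y ∈ setOf X0) : g • y ∈ setOf X0 := by
  obtain ⟨h1, h2, -⟩ := props_K0 g
  obtain ⟨h3, h4, h5⟩ := (mem_X0 y).mp hy
  have hO := K0_O5 g
  refine (mem_X0 _).mpr ⟨?_, ?_, ?_⟩
  · rw [← hO]
    exact (mem_smul_iff _ y _).mpr h3
  · rw [← h1]
    exact (mem_smul_iff _ y _).mpr h4
  · intro hc
    apply h5
    apply ((g : ↥M24) : Equiv.Perm GolayPt).injective
    exact hc.trans h2.symm

/-- Five points as an embedding. -/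
def emb5 : Fin 5 ↪ GolayPt :=
  ⟨![pt 0, pt 1, pt 7, pt 8, pt 15], by
    intro i j h
    fin_cases i <;> fin_cases j <;> first | rfl | exact absurd h (by decide +kernel)⟩

theorem emb5_mem : ∀ i, emb5 i ∈ setOf X0 := by decide +kernel

theorem K0_faith (g : ↥K0) (h : ∀ y ∈ setOf X0, g • y = y) : g = 1 := by
  obtain ⟨h1, -, -⟩ := props_K0 g
  have h2 := eq_one_of_fix_smul d0_mem (y := emb5)
    (fun i => ((mem_X0 _).mp (emb5_mem i)).2.1) (g : ↥M24).2 (fun i => h _ (emb5_mem i)) h1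
  apply Subtype.ext
  apply Subtype.ext
  exact h2

theorem nonempty_base : Nonempty (↥K0 ≃* Equiv.Perm (Fin 5)) :=
  nonempty_mulEquiv_perm_of_invariant (setOf X0) K0_X0 (by rw [card_setOf]; decide +kernel) K0_faith
    (by
      have := card_stab_pair d0_mem p0_mem (q := pt 4) (q' := pt 5) (by decide +kernel) (by decide +kernel)
        (by decide +kernel)
      exact this.trans (by decide))

/-- In the 12-point action of the smallest Mathieu group the setwise stabiliser of a pair is isomorphic to the symmetric group of degree 5. -/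
theorem result (d : Finset Cfsg.GolayPt) (hd : d ∈ Cfsg.dodecads) (p q q' : Cfsg.GolayPt) (hp : p ∈ d) (hq : q ∉ d) (hq' : q' ∉ d) (hqq' : q ≠ q') : Nonempty (↥(MulAction.stabilizer Cfsg.M24 d ⊓ MulAction.stabilizer Cfsg.M24 p ⊓ MulAction.stabilizer Cfsg.M24 ({q, q'} : Finset Cfsg.GolayPt)) ≃* Equiv.Perm (Fin 5)) := by
  obtain ⟨τ, hτ, h1, h2⟩ := exists_flag_dodecad hd hp
  have hn : ∀ z, z ∉ d → τ z ∉ setOf d0 := by
    intro z hz hc
    rw [← h2] at hc
    exact hz ((mem_smul_iff τ z d).mp hc)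
  obtain ⟨g, hg, e1, e2⟩ := two_transitive_pts d0_mem p0_mem (hn q hq) (hn q' hq')
    (a' := pt 4) (b' := pt 5) (by decide +kernel) (by decide +kernel)
    (fun e => hqq' (τ.injective e)) (by decide +kernel)
  have hg1 : (g : Equiv.Perm GolayPt) • setOf d0 = setOf d0 := MulAction.mem_stabilizer_iff.mp hg.1
  have hg2 : (g : Equiv.Perm GolayPt) (pt p0) = pt p0 := MulAction.mem_stabilizer_iff.mp hg.2
  let ρ : ↥M24 := g * ⟨τ, hτ⟩
  have r1 : ρ • d = setOf d0 := by
    show ((g : Equiv.Perm GolayPt) * τ) • d = _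
    rw [mul_smul, h2, hg1]
  have r2 : ρ • p = pt 23 := by
    show (g : Equiv.Perm GolayPt) (τ p) = _
    rw [h1, hg2]
    rfl
  have r3 : ρ • ({q, q'} : Finset GolayPt) = {pt 4, pt 5} := by
    show ((g : Equiv.Perm GolayPt) * τ) • ({q, q'} : Finset GolayPt) = _
    rw [Finset.smul_finset_insert, Finset.smul_finset_singleton]
    show {(g : Equiv.Perm GolayPt) (τ q), (g : Equiv.Perm GolayPt) (τ q')} = _
    rw [e1, e2]
  obtain ⟨e3⟩ := nonempty_equiv_inf_conj3' ρ d p ({q, q'} : Finset GolayPt)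
  rw [r1, r2, r3] at e3
  obtain ⟨e4⟩ := nonempty_base
  exact ⟨e3.trans e4⟩

end Cfsg.Agent.S1602
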