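import Cfsg.Statements.S1603
import Cfsg.Agent.Lib.M11.Pattern
import Cfsg.Agent.Lib.M11.Cent

set_option autoImplicit false
set_option linter.style.haveILetI false
set_option linter.unusedSectionVars false
open Cfsg

namespace Cfsg.Agent.S1603

open Subgroup Cfsg.Agent.Lib.M11 Cfsg.Agent.Lib.M11.Pattern Cfsg.Agent.Lib.M11.Cent Cfsg.Agent.Lib.M11.Data
  Cfsg.Agent.Lib.Golay.Core Cfsg.Agent.Lib.Golay.Dodecad Cfsg.Agent.Lib.Golay.Basic
open scoped Pointwise

/-- All involutions of `M11` are conjugate to `bY`. -/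
theorem all_involutions_conj {t : ↥Spor.M11} (ht : orderOf t = 2) : IsConj t bY := by
  haveI : Fact (Nat.Prime 2) := ⟨Nat.prime_two⟩
  have hC : Nat.card (centralizer ({bY} : Set ↥Spor.M11)) = 48 := by
    rw [← Nat.card_congr psi.toEquiv, Matrix.card_GL_field, ZMod.card, Fin.prod_univ_two]
    norm_num
  obtain ⟨P₀⟩ : Nonempty (Sylow 2 ↥(centralizer ({bY} : Set ↥Spor.M11))) := inferInstance
  have hP₀ : Nat.card (P₀ : Subgroup ↥(centralizer ({bY} : Set ↥Spor.M11))) = 16 := by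
    obtain ⟨k, hk⟩ := IsPGroup.iff_card.mp P₀.isPGroup'
    have h1 := Subgroup.card_mul_index (P₀ : Subgroup ↥(centralizer ({bY} : Set ↥Spor.M11)))
    rw [hC, hk] at h1
    have h2 := P₀.not_dvd_index
    have hk5 : k < 6 := by
      by_contra hc
      have h3 : 2 ^ 6 ∣ 2 ^ k := pow_dvd_pow 2 (by omega)
      have h4 : 2 ^ 6 ∣ 48 := by
        rw [← h1]; exact h3.trans (Nat.dvd_mul_right _ _)
      omega
    interval_cases k
    all_goals first
      | exact hk
      | (exfalso; apply h2; norm_num at h1; omega)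
  let S : Subgroup ↥Spor.M11 :=
    (P₀ : Subgroup ↥(centralizer ({bY} : Set ↥Spor.M11))).map (centralizer ({bY} : Set ↥Spor.M11)).subtype
  have hScard : Nat.card S = 16 := by
    rw [← hP₀]
    exact (Nat.card_congr ((P₀ : Subgroup ↥(centralizer ({bY} : Set ↥Spor.M11))).equivMapOfInjective _
      (centralizer ({bY} : Set ↥Spor.M11)).subtype_injective).toEquiv).symm
  have hSp : IsPGroup 2 S := IsPGroup.of_card (n := 4) hScard
  have hSi : ¬ 2 ∣ S.index := by
    intro hd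
    have h1 := Subgroup.card_mul_index S
    rw [hScard, card_M11] at h1
    omega
  exact all_conj bY (hSp.toSylow hSi) (map_subtype_le _) (fun s hs ho => isConj_of_mem_centralizer hs ho) ht

/-- Involution centralisers in the smallest Mathieu group are isomorphic to GL(2, 3). -/
theorem result (d : Finset Cfsg.GolayPt) (hd : d ∈ Cfsg.dodecads) (p : Cfsg.GolayPt) (hp : p ∈ d) (x : ↥(MulAction.stabilizer Cfsg.M24 d ⊓ MulAction.stabilizer Cfsg.M24 p)) (hx : orderOf x = 2) : Nonempty (↥(Subgroup.centralizer ({x} : Set ↥(MulAction.stabilizer Cfsg.M24 d ⊓ MulAction.stabilizer Cfsg.M24 p))) ≃* GL (Fin 2) (ZMod 3)) := by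
  -- a conjugating element
  obtain ⟨σ₀, hσ₀, h1⟩ := dodecad_transitive D0_mem hd
  have hq0 : pt 0 ∈ Cfsg.Agent.Lib.Golay.Core.setOf D0 := by decide +kernel
  have hp' : σ₀⁻¹ p ∈ Cfsg.Agent.Lib.Golay.Core.setOf D0 := by
    have : σ₀⁻¹ • d = Cfsg.Agent.Lib.Golay.Core.setOf D0 := by rw [← h1, smul_smul, inv_mul_cancel, one_smul]
    rw [← this]
    exact Finset.smul_mem_smul_finset hp
  obtain ⟨τ, hτ, h2⟩ := transitive_on_dodecad D0_mem hq0 hp'
  obtain ⟨hτ1, hτ2⟩ := mem_stabS.mp hτ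
  set σ := σ₀ * τ with hσ
  have hσM : σ ∈ Cfsg.M24 := Cfsg.M24.mul_mem hσ₀ hτ1
  have hσd : σ • Cfsg.Agent.Lib.Golay.Core.setOf D0 = d := by rw [hσ, mul_smul, hτ2, h1]
  have hσp : σ (pt 0) = p := by
    rw [hσ, Equiv.Perm.mul_apply, h2]; simp
  have hσd' : σ⁻¹ • d = Cfsg.Agent.Lib.Golay.Core.setOf D0 := by
    rw [← hσd, smul_smul, inv_mul_cancel, one_smul]
  have hσp' : σ⁻¹ p = pt 0 := by rw [← hσp]; simp
  let H := MulAction.stabilizer Cfsg.M24 d ⊓ MulAction.stabilizer Cfsg.M24 p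
  have hHd : ∀ y : ↥H, ((y : ↥Cfsg.M24) : Equiv.Perm GolayPt) • d = d := fun y => MulAction.mem_stabilizer_iff.mp y.2.1
  have hHp : ∀ y : ↥H, ((y : ↥Cfsg.M24) : Equiv.Perm GolayPt) p = p := fun y => MulAction.mem_stabilizer_iff.mp y.2.2
  let i : ↥H ≃* ↥Spor.M11 :=
    { toFun := fun y => ⟨σ⁻¹ * ((y : ↥Cfsg.M24) : Equiv.Perm GolayPt) * σ, by
        rw [mem_M11_iff]
        refine ⟨Cfsg.M24.mul_mem (Cfsg.M24.mul_mem (Cfsg.M24.inv_mem hσM) (y : ↥Cfsg.M24).2) hσM, ?_, ?_⟩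
        · rw [mul_smul, mul_smul, hσd, hHd, hσd']
        · rw [Equiv.Perm.mul_apply, Equiv.Perm.mul_apply, hσp, hHp, hσp']⟩
      invFun := fun z => ⟨⟨σ * (z : Equiv.Perm GolayPt) * σ⁻¹,
          Cfsg.M24.mul_mem (Cfsg.M24.mul_mem hσM (mem_M11_iff.mp z.2).1) (Cfsg.M24.inv_mem hσM)⟩, by
        obtain ⟨-, hz2, hz3⟩ := mem_M11_iff.mp z.2
        constructor
        · apply MulAction.mem_stabilizer_iff.mpr
          change (σ * (z : Equiv.Perm GolayPt) * σ⁻¹) • d = d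
          rw [mul_smul, mul_smul, hσd', hz2, hσd]
        · apply MulAction.mem_stabilizer_iff.mpr
          change (σ * (z : Equiv.Perm GolayPt) * σ⁻¹) p = p
          rw [Equiv.Perm.mul_apply, Equiv.Perm.mul_apply, hσp', hz3, hσp]⟩
      left_inv := fun y => by
        apply Subtype.ext
        apply Subtype.ext
        change σ * (σ⁻¹ * ((y : ↥Cfsg.M24) : Equiv.Perm GolayPt) * σ) * σ⁻¹ = _
        group
      right_inv := fun z => by
        apply Subtype.ext
        change σ⁻¹ * (σ * (z : Equiv.Perm GolayPt) * σ⁻¹) * σ = _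
        group
      map_mul' := fun a b => by
        apply Subtype.ext
        change σ⁻¹ * (((a : ↥Cfsg.M24) : Equiv.Perm GolayPt) * ((b : ↥Cfsg.M24) : Equiv.Perm GolayPt)) * σ =
          (σ⁻¹ * ((a : ↥Cfsg.M24) : Equiv.Perm GolayPt) * σ) * (σ⁻¹ * ((b : ↥Cfsg.M24) : Equiv.Perm GolayPt) * σ)
        group }
  have ho : orderOf (i x) = 2 := by rw [MulEquiv.orderOf_eq]; exact hx
  obtain ⟨e⟩ := nonempty_centralizerEquiv_of_isConj (all_involutions_conj ho)
  exact ⟨((centralizerEquivOfEquiv i x).trans e).trans psi.symm⟩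

end Cfsg.Agent.S1603
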