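import Cfsg.Statements.S1604
import Cfsg.Agent.Lib.GolayCert.Basic

set_option autoImplicit false
open Cfsg

namespace Cfsg.Agent.S1604

open Cfsg.Agent.Lib.Golay.Core Cfsg.Agent.Lib.Golay.Perm Cfsg.Agent.Lib.Golay.M24
  Cfsg.Agent.Lib.GolayCert.Basic
open scoped Pointwise

def T2 : List ℕ := [984818244535754528103549039458486304, 967904880747162581989417016056006080, 963835620148026624058849992849263040, 971311106168758842113411413086606432, 968697298581712184092233505983085088, 982939172881146061518967929536842784, 981521050658637778336484935964198336, 966278530779056377503494223277016224, 960913745636812766934635307072537760, 961045632113924685189432025874468288, 971338170134677150810540243546050080, 984696276478677314088622797856277568, 971864074777412216322683797925562464, 981795885720939444116889402409553344, 982972029813504506967508032208538656, 967719860039950378019646786977698912]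

def S2 : List ℕ := [11575377, 14254209, 8499969, 14950785, 9440193, 8688833, 10557585, 12325377, 11046145, 13121601, 8922769, 9776129, 14747201, 12880401, 13636881, 9240913]

theorem tab2 : tabOK [23, 0] [O0] 11575377 T2 S2 = true := by decide +kernel

def T4 : List ℕ := [984818244535754528103549039458486304, 967904880747162581989417016056006080, 963835620148026624058849992849263040, 971311106168758842113411413086606432, 968697298581712184092233505983085088, 982939172881146061518967929536842784, 968545085252845637828249807988657184, 981521050658637778336484935964198336, 966278530779056377503494223277016224, 960913745636812766934635307072537760, 967377750353484103996129943569404960, 969241112561942946863411971020493856, 961045632113924685189432025874468288, 961193942220697767742834717656946112, 971338170134677150810540243546050080, 981644722098242197382196653394592928, 971864074777412216322683797925562464, 961070082562652521739796408402363488, 972690186270668253996485722025444512, 981795885720939444116889402409553344, 982248191407242979178991319446406208, 982972029813504506967508032208538656,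 976573286025204300199095746938607040, 980903226385144809855593588261864544, 984127243155193852678487966177400256, 970455156109967227581577033213851712, 979665112371381293915627533086264480, 981692200351968179324209308296580640, 981757969480468521143481526142551136, 966233878911576782359283843382416448, 967719860039950378019646786977698912, 972590514859960238789911107174174144, 980421503191994368777024995241035296, 979245522384871493864735491263399072, 980501918457997613199286026491181120, 960926357835050905195266578302142912, 980795505920636475204165940934722624, 969021776205010034172381036535122016, 980951498578685272054456173782535712, 975346388493782312720374948376381536, 971268079560057155421376399485781152, 963508762661404197546987696524693024, 961243337681263890755559663176059936, 971632125033779791625446029436991584, 963929483885898557348928297859843168, 975610022536364661298813156679825568, 981610806916176749870640015539213760, 976581718172788252726787550252959168, 966442024323244029215732407618159712, 983116535012056939641836943622453280, 967896243744570500561761100512724512,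 971830928347247236053246560885474464, 980785597284918952977753094996694112, 979019695014149754101644195825914944, 979406765315989398194836243348620352, 982817489016747566273217072493397536, 984559713745967690415901068537301152, 975394487252334877418367884832347232, 965262948330046408584755800098509920, 983308423817925856349802271451155488]

def S4 : List ℕ := [13062145, 10486557, 10881097, 8966165, 13370381, 15335473, 8783649, 13771273, 8398155, 12599513, 9112069, 8619033, 8421811, 9963547, 10506593, 10110017, 9607201, 12656663, 8431757, 11731203, 11535529, 10846245, 8716939, 9969957, 12747077, 12650793, 9830549, 9519665, 9465987, 9048457, 10666625, 10496547, 9193633, 8675909, 8946281, 8663097, 8983587, 10765331, 11010247, 12641313, 8412681, 13893731, 8546577, 8524371, 8391797, 14716939, 9471495, 8593633, 8657159, 10630149, 12587685, 9506893, 13124355, 9347075, 9748745, 11100169, 12717187, 8505411, 8471941, 15747077]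

theorem tab4 : tabOK [23, 0] [O0] 13062145 T4 S4 = true := by decide +kernel

def T8 : List ℕ := [984818244535754528103549039458486304]

def S8 : List ℕ := [8536111]

theorem tab8 : tabOK [23, 0] [O0] 8536111 T8 S8 = true := by decide +kernel

def cnd (n : ℕ) : Bool := Nat.beq (pop n) 8 && n.testBit 23 && n.testBit 0

theorem cover : ∀ m < 4096, cnd (code m) = true →
    (Nat.beq (pop (Nat.land O0 (code m))) 2 && S2.contains (code m) ||
     Nat.beq (pop (Nat.land O0 (code m))) 4 && S4.contains (code m) ||
     Nat.beq (pop (Nat.land O0 (code m))) 8 && S8.contains (code m)) = true := by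
  have h : allUpTo (fun m => !(cnd (code m)) ||
     (Nat.beq (pop (Nat.land O0 (code m))) 2 && S2.contains (code m) ||
     Nat.beq (pop (Nat.land O0 (code m))) 4 && S4.contains (code m) ||
     Nat.beq (pop (Nat.land O0 (code m))) 8 && S8.contains (code m))) 4096 = true := by
    decide +kernel
  intro m hm hc
  have h1 := allUpTo_iff.mp h m hm
  rw [hc] at h1
  simpa using h1

theorem count_base (k : ℕ) : {s | s ∈ octads ∧ (pt 23 ∈ s ∧ pt 0 ∈ s ∧ (setOf O0 ∩ s).card = k)}.ncard =
    countUpTo (fun m => Nat.beq (pop (code m)) 8 &&
    (Bool.and (Nat.testBit (code m) 23) (Bool.and (Nat.testBit (code m) 0) (Nat.beq (pop (Nat.land O0 (code m))) k)))) 4096 := by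
  apply ncard_octads_filter _ (fun n => Bool.and (Nat.testBit n 23) (Bool.and (Nat.testBit n 0) (Nat.beq (pop (Nat.land O0 n)) k)))
  intro m _
  rw [pt_mem_setOf (by norm_num), pt_mem_setOf (by norm_num), card_inter_setOf]
  simp only [Bool.and_eq_true]
  constructor
  · rintro ⟨h1, h0, h2⟩
    exact ⟨h1, h0, by rw [h2]; exact Nat.beq_refl k⟩
  · rintro ⟨h1, h0, h2⟩
    exact ⟨h1, h0, Nat.eq_of_beq_eq_true h2⟩

theorem base_orbit {a b : ℕ} (ca : cnd a = true) (hca : ∃ m < 4096, a = code m)
    (cb : cnd b = true) (hcb : ∃ m < 4096, b = code m)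
    (hk : pop (Nat.land O0 a) = pop (Nat.land O0 b)) :
    ∃ σ, Good [23, 0] [O0] σ ∧ σ • setOf a = setOf b := by
  obtain ⟨m, hm, rfl⟩ := hca
  obtain ⟨m', hm', rfl⟩ := hcb
  have h1 := cover m hm ca
  have h2 := cover m' hm' cb
  simp only [Bool.or_eq_true, Bool.and_eq_true, List.contains_iff_mem] at h1 h2
  rcases h1 with ((⟨e1, h1⟩ | ⟨e1, h1⟩) | ⟨e1, h1⟩) <;>
    rcases h2 with ((⟨e2, h2⟩ | ⟨e2, h2⟩) | ⟨e2, h2⟩) <;>
    have e1' := Nat.eq_of_beq_eq_true e1 <;> have e2' := Nat.eq_of_beq_eq_true e2 <;>
    first
    | omega
    | exact exists_between tab2 h1 h2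
    | exact exists_between tab4 h1 h2
    | exact exists_between tab8 h1 h2

/-- A hexad stabiliser in the two-point stabiliser has orbits of sizes 1, 16, 60 on the 77 hexads: the 16 hexads disjoint from it and the 60 meeting it in two points. -/
theorem result (p q : Cfsg.GolayPt) (hpq : p ≠ q) (o o' o'' : Finset Cfsg.GolayPt) (ho : o ∈ Cfsg.octads) (ho' : o' ∈ Cfsg.octads) (ho'' : o'' ∈ Cfsg.octads) (hp : p ∈ o ∧ p ∈ o' ∧ p ∈ o'') (hq : q ∈ o ∧ q ∈ o' ∧ q ∈ o'') (h : (o ∩ o').card = (o ∩ o'').card) : {x : Finset Cfsg.GolayPt | x ∈ Cfsg.octads ∧ p ∈ x ∧ q ∈ x ∧ (o ∩ x).card = 2}.ncard = 16 ∧ {x : Finset Cfsg.GolayPt | x ∈ Cfsg.octads ∧ p ∈ x ∧ q ∈ x ∧ (o ∩ x).card = 4}.ncard = 60 ∧ ∃ g : Equiv.Perm Cfsg.GolayPt, g ∈ Cfsg.M24 ∧ g p = p ∧ g q = q ∧ g • o = o ∧ g • o' = o'' := by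
  obtain ⟨τ, hτ, hτp, hτq, hτo⟩ := exists_flag_two ho hp.1 hq.1 hpq (y := 23) (y' := 0)
    (by norm_num) (by decide +kernel) (by norm_num) (by decide +kernel) (by norm_num)
  have trans : ∀ k, ∀ s, (s ∈ octads ∧ p ∈ s ∧ q ∈ s ∧ (o ∩ s).card = k) ↔
      τ • s ∈ {s | s ∈ octads ∧ (pt 23 ∈ s ∧ pt 0 ∈ s ∧ (setOf O0 ∩ s).card = k)} := by
    intro k s
    simp only [Set.mem_ofPred_eq]
    rw [smul_mem_octads_iff hτ, ← hτp, ← hτq, mem_smul_iff, mem_smul_iff, ← hτo, card_inter_smul]
  refine ⟨?_, ?_, ?_⟩
  · exact (ncard_smul_eq τ (trans 2)).trans ((count_base 2).trans (by decide +kernel))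
  · exact (ncard_smul_eq τ (trans 4)).trans ((count_base 4).trans (by decide +kernel))
  · have h1' := smul_mem_octads hτ ho'
    have h2' := smul_mem_octads hτ ho''
    obtain ⟨m, hm, h8, e⟩ := mem_octads_iff.mp h1'
    obtain ⟨m', hm', h8', e'⟩ := mem_octads_iff.mp h2'
    have h3' : pt 23 ∈ setOf (code m) := by
      rw [← e, ← hτp]; exact (mem_smul_iff τ p o').mpr hp.2.1
    have h4' : pt 23 ∈ setOf (code m') := by
      rw [← e', ← hτp]; exact (mem_smul_iff τ p o'').mpr hp.2.2
    have h5' : pt 0 ∈ setOf (code m) := by
      rw [← e, ← hτq]; exact (mem_smul_iff τ q o').mpr hq.2.1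
    have h6' : pt 0 ∈ setOf (code m') := by
      rw [← e', ← hτq]; exact (mem_smul_iff τ q o'').mpr hq.2.2
    rw [pt_mem_setOf (by norm_num)] at h3' h4' h5' h6'
    have hk : pop (Nat.land O0 (code m)) = pop (Nat.land O0 (code m')) := by
      rw [← card_inter_setOf, ← card_inter_setOf, ← e, ← e', ← hτo, card_inter_smul,
        card_inter_smul, h]
    obtain ⟨σ, hσ, hσe⟩ := base_orbit (a := code m) (b := code m')
      (by simp only [cnd, h8, h3', h5', Bool.and_eq_true]; exact ⟨⟨Nat.beq_refl _, trivial⟩, trivial⟩) ⟨m, hm, rfl⟩
      (by simp only [cnd, h8', h4', h6', Bool.and_eq_true]; exact ⟨⟨Nat.beq_refl _, trivial⟩, trivial⟩) ⟨m', hm', rfl⟩ hk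
    refine ⟨τ⁻¹ * σ * τ, M24.mul_mem (M24.mul_mem (M24.inv_mem hτ) hσ.mem) hτ, ?_, ?_, ?_, ?_⟩
    · rw [Equiv.Perm.mul_apply, Equiv.Perm.mul_apply, hτp, hσ.fix 23 (by simp), Equiv.Perm.inv_eq_iff_eq, hτp]
    · rw [Equiv.Perm.mul_apply, Equiv.Perm.mul_apply, hτq, hσ.fix 0 (by simp), Equiv.Perm.inv_eq_iff_eq, hτq]
    · rw [mul_smul, mul_smul, hτo, hσ.stab O0 (by simp), inv_smul_eq_iff, hτo]
    · rw [mul_smul, mul_smul, e, hσe, inv_smul_eq_iff, e']

end Cfsg.Agent.S1604
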