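import Cfsg.Statements.S1610
import Cfsg.Agent.Lib.F4.Basic

set_option autoImplicit false
open Cfsg

namespace Cfsg.Agent.S1610

open Cfsg.Agent.Lib.F4.Basic

/-- The generators of the hexacode in the concrete model. -/
def gens : Fin 3 → Fin 6 → Fin 4 := ![![2, 3, 3, 2, 3, 2], ![3, 2, 2, 3, 3, 2], ![3, 2, 3, 2, 2, 3]]

/-- The code word with coefficients `t` in the concrete model. -/
def word (t : Fin 4 × Fin 4 × Fin 4) (i : Fin 6) : Fin 4 :=
  add4 (add4 (mul4 t.1 (gens 0 i)) (mul4 t.2.1 (gens 1 i))) (mul4 t.2.2 (gens 2 i))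

/-- Weight of a concrete code word. -/
def cw (t : Fin 4 × Fin 4 × Fin 4) : ℕ := (Finset.univ.filter fun i => word t i ≠ 0).card

theorem word_inj : ∀ t t' : Fin 4 × Fin 4 × Fin 4, (∀ i, word t i = word t' i) → t = t' := by
  decide +kernel

theorem cw_cases : ∀ t : Fin 4 × Fin 4 × Fin 4, t ≠ (0, 0, 0) → cw t = 4 ∨ cw t = 6 := by
  decide +kernel

theorem card_cw4 : (Finset.univ.filter fun t => cw t = 4).card = 45 := by decide +kernel

theorem card_cw6 : (Finset.univ.filter fun t => cw t = 6).card = 18 := by decide +kernel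

section
variable {F : Type*} [Field F] [Fintype F] {ω : F}

/-- Realization of the code words in `F`. -/
def Ψ (ω : F) (t : Fin 4 × Fin 4 × Fin 4) : Fin 6 → F := fun i => emb ω (word t i)

theorem Ψ_inj (hF : Fintype.card F = 4) (hω : ω ^ 2 + ω + 1 = 0) :
    Function.Injective (Ψ ω) := by
  intro t t' h
  apply word_inj
  intro i
  exact emb_injective hF hω (congrFun h i)

theorem Ψ_apply (hF : Fintype.card F = 4) (hω : ω ^ 2 + ω + 1 = 0) (t : Fin 4 × Fin 4 × Fin 4) :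
    Ψ ω t = emb ω t.1 • ![ω, ω ^ 2, ω ^ 2, ω, ω ^ 2, ω] +
      emb ω t.2.1 • ![ω ^ 2, ω, ω, ω ^ 2, ω ^ 2, ω] +
      emb ω t.2.2 • ![ω ^ 2, ω, ω ^ 2, ω, ω, ω ^ 2] := by
  funext i
  simp only [Ψ, word, emb_add hF hω, emb_mul hF hω, Pi.add_apply, Pi.smul_apply, smul_eq_mul]
  congr 1
  · congr 1
    · congr 1; fin_cases i <;> rfl
    · congr 1; fin_cases i <;> rfl
  · congr 1; fin_cases i <;> rfl

theorem mem_hexacode_iff (hF : Fintype.card F = 4) (hω : ω ^ 2 + ω + 1 = 0) (x : Fin 6 → F) :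
    x ∈ Cfsg.hexacode F ω ↔ ∃ t, Ψ ω t = x := by
  have hb := emb_bijective hF hω
  unfold Cfsg.hexacode
  rw [Submodule.mem_span_triple]
  constructor
  · rintro ⟨a, b, c, rfl⟩
    obtain ⟨a', rfl⟩ := hb.2 a
    obtain ⟨b', rfl⟩ := hb.2 b
    obtain ⟨c', rfl⟩ := hb.2 c
    exact ⟨(a', b', c'), Ψ_apply hF hω _⟩
  · rintro ⟨t, rfl⟩
    exact ⟨_, _, _, (Ψ_apply hF hω t).symm⟩

theorem weight_Ψ [DecidableEq F] (hF : Fintype.card F = 4) (hω : ω ^ 2 + ω + 1 = 0)
    (t : Fin 4 × Fin 4 × Fin 4) :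
    (Finset.univ.filter fun i => Ψ ω t i ≠ 0).card = cw t := by
  unfold cw
  apply Finset.card_bij (fun i _ => i)
  · intro i hi
    rw [Finset.mem_filter] at hi ⊢
    refine ⟨hi.1, fun h => hi.2 ?_⟩
    simp only [Ψ, h]
    rfl
  · intro _ _ _ _ h
    exact h
  · intro i hi
    rw [Finset.mem_filter] at hi
    refine ⟨i, ?_, rfl⟩
    rw [Finset.mem_filter]
    refine ⟨hi.1, fun h => hi.2 ?_⟩
    exact emb_injective hF hω (h.trans (emb_zero ω).symm)

end

/-- The hexacode has 64 words, minimum weight 4, and weight distribution 0^1 4^45 6^18. -/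
theorem result (F : Type*) [Field F] [Fintype F] [DecidableEq F] (hF : Fintype.card F = 4) (ω : F) (hω : ω ^ 2 + ω + 1 = 0) : Nat.card ↥(Cfsg.hexacode F ω) = 64 ∧ (∀ x ∈ Cfsg.hexacode F ω, x ≠ 0 → (Finset.univ.filter fun i => x i ≠ 0).card = 4 ∨ (Finset.univ.filter fun i => x i ≠ 0).card = 6) ∧ {x : Fin 6 → F | x ∈ Cfsg.hexacode F ω ∧ (Finset.univ.filter fun i => x i ≠ 0).card = 4}.ncard = 45 ∧ {x : Fin 6 → F | x ∈ Cfsg.hexacode F ω ∧ (Finset.univ.filter fun i => x i ≠ 0).card = 6}.ncard = 18 := by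
  have hinj := Ψ_inj hF hω
  have hcount : ∀ n : ℕ, {x : Fin 6 → F | x ∈ Cfsg.hexacode F ω ∧
      (Finset.univ.filter fun i => x i ≠ 0).card = n}.ncard
      = (Finset.univ.filter fun t => cw t = n).card := by
    intro n
    have : {x : Fin 6 → F | x ∈ Cfsg.hexacode F ω ∧ (Finset.univ.filter fun i => x i ≠ 0).card = n}
        = Ψ ω '' ((Finset.univ.filter fun t => cw t = n : Finset _) : Set _) := by
      ext x
      simp only [Set.mem_ofPred_eq, Set.mem_image, Finset.coe_filter, Finset.mem_univ, true_and]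
      constructor
      · rintro ⟨hx, hw⟩
        obtain ⟨t, rfl⟩ := (mem_hexacode_iff hF hω x).mp hx
        exact ⟨t, by rw [← weight_Ψ hF hω t]; exact hw, rfl⟩
      · rintro ⟨t, ht, rfl⟩
        exact ⟨(mem_hexacode_iff hF hω _).mpr ⟨t, rfl⟩, by rw [weight_Ψ hF hω t]; exact ht⟩
    rw [this, Set.ncard_image_of_injective _ hinj, Set.ncard_coe_finset]
  refine ⟨?_, ?_, ?_, ?_⟩
  · have hrange : (Cfsg.hexacode F ω : Set (Fin 6 → F)) = Set.range (Ψ ω) := by
      ext x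
      exact mem_hexacode_iff hF hω x
    have : Nat.card ↥(Cfsg.hexacode F ω) = Nat.card (Set.range (Ψ ω)) := by
      rw [← hrange]; rfl
    rw [this, Nat.card_range_of_injective hinj]
    simp
  · intro x hx hx0
    obtain ⟨t, rfl⟩ := (mem_hexacode_iff hF hω x).mp hx
    rw [weight_Ψ hF hω t]
    apply cw_cases
    rintro rfl
    apply hx0
    funext i
    have h := Ψ_apply hF hω ((0 : Fin 4), (0 : Fin 4), (0 : Fin 4))
    rw [h]
    simp
  · rw [hcount, card_cw4]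
  · rw [hcount, card_cw6]

end Cfsg.Agent.S1610
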