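import Cfsg.Statements.S1611
import Cfsg.Agent.S1610

set_option autoImplicit false
open Cfsg

namespace Cfsg.Agent.S1611

open Cfsg.Agent.Lib.F4.Basic
open Cfsg.Agent.S1610

/-! ### Concrete checks -/

/-- Conjugation on the concrete model. -/
def conj4 : Fin 4 → Fin 4 := ![0, 1, 3, 2]

/-- Hermitian parity check against the `j`-th generator. -/
def pc (w : Fin 6 → Fin 4) (j : Fin 3) : Fin 4 :=
  add4 (mul4 (w 0) (conj4 (gens j 0))) (add4 (mul4 (w 1) (conj4 (gens j 1)))
   (add4 (mul4 (w 2) (conj4 (gens j 2))) (add4 (mul4 (w 3) (conj4 (gens j 3)))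
    (add4 (mul4 (w 4) (conj4 (gens j 4))) (mul4 (w 5) (conj4 (gens j 5)))))))

/-- Membership in the concrete hexacode, by parity checks. -/
def mem0 (w : Fin 6 → Fin 4) : Prop := pc w 0 = 0 ∧ pc w 1 = 0 ∧ pc w 2 = 0

instance (w : Fin 6 → Fin 4) : Decidable (mem0 w) := by unfold mem0; infer_instance

theorem mem0_word : ∀ t, mem0 (word t) := by decide +kernel

theorem mem0_complete' : ∀ a b c d e f : Fin 4, mem0 ![a, b, c, d, e, f] →
    ∃ t, ∀ i, word t i = (![a, b, c, d, e, f] : Fin 6 → Fin 4) i := by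
  decide +kernel

theorem mem0_complete (w : Fin 6 → Fin 4) (h : mem0 w) : ∃ t, word t = w := by
  have hw : w = ![w 0, w 1, w 2, w 3, w 4, w 5] := by
    funext i; fin_cases i <;> rfl
  rw [hw] at h
  obtain ⟨t, ht⟩ := mem0_complete' _ _ _ _ _ _ h
  refine ⟨t, ?_⟩
  rw [hw]
  funext i
  exact ht i

/-- The monomial action on concrete words. -/
def mono (σ : Equiv.Perm (Fin 6)) (k : Fin 6 → Fin 4) (w : Fin 6 → Fin 4) : Fin 6 → Fin 4 :=
  fun i => mul4 (k i) (w (σ.symm i))

/-- The monomial map preserves the concrete code (checked on the generators). -/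
def check3 (σ : Equiv.Perm (Fin 6)) (k : Fin 6 → Fin 4) : Prop :=
  mem0 (mono σ k (gens 0)) ∧ mem0 (mono σ k (gens 1)) ∧ mem0 (mono σ k (gens 2))

instance (σ : Equiv.Perm (Fin 6)) (k : Fin 6 → Fin 4) : Decidable (check3 σ k) := by
  unfold check3; infer_instance

/-- Vectors of nonzero scalars. -/
def kOf (k0 k1 k2 k3 k4 k5 : Fin 3) : Fin 6 → Fin 4 :=
  ![k0.succ, k1.succ, k2.succ, k3.succ, k4.succ, k5.succ]

theorem lift_pairs : ∀ x y : Fin 6, x ≠ y →
    ∃ k1 k2 k3 k4 k5 : Fin 3, check3 (Equiv.swap x y * Equiv.swap 0 1) (kOf 0 k1 k2 k3 k4 k5) := by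
  decide +kernel

theorem no_lift_swap : ∀ k0 k1 k2 k3 k4 k5 : Fin 3,
    ¬ check3 (Equiv.swap 0 1) (kOf k0 k1 k2 k3 k4 k5) := by
  decide +kernel

theorem diag_const : ∀ k0 k1 k2 k3 k4 k5 : Fin 3, check3 1 (kOf k0 k1 k2 k3 k4 k5) →
    k0 = k1 ∧ k0 = k2 ∧ k0 = k3 ∧ k0 = k4 ∧ k0 = k5 := by
  decide +kernel

section abstract
variable {F : Type*} [Field F] [Fintype F] {ω : F}

set_option linter.unusedSectionVars false

/-- Preservation of the hexacode by a monomial map. -/
def Pres (ω : F) (σ : Equiv.Perm (Fin 6)) (c : Fin 6 → Fˣ) : Prop :=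
  ∀ x ∈ Cfsg.hexacode F ω, Cfsg.monomialMap σ c x ∈ Cfsg.hexacode F ω

theorem emb_mem_iff (hF : Fintype.card F = 4) (hω : ω ^ 2 + ω + 1 = 0) (w : Fin 6 → Fin 4) :
    (fun i => emb ω (w i)) ∈ Cfsg.hexacode F ω ↔ mem0 w := by
  rw [mem_hexacode_iff hF hω]
  constructor
  · rintro ⟨t, ht⟩
    have : word t = w := by
      funext i
      exact emb_injective hF hω (congrFun ht i)
    rw [← this]
    exact mem0_word t
  · intro h
    obtain ⟨t, rfl⟩ := mem0_complete w h
    exact ⟨t, rfl⟩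

/-- The generators of the hexacode as embedded words. -/
theorem hexacode_eq_span (ω : F) : Cfsg.hexacode F ω =
    Submodule.span F {(fun i => emb ω (gens 0 i)), (fun i => emb ω (gens 1 i)),
      (fun i => emb ω (gens 2 i))} := by
  unfold Cfsg.hexacode
  have h0 : (fun i => emb ω (gens 0 i)) = ![ω, ω ^ 2, ω ^ 2, ω, ω ^ 2, ω] := by
    funext i; fin_cases i <;> rfl
  have h1 : (fun i => emb ω (gens 1 i)) = ![ω ^ 2, ω, ω, ω ^ 2, ω ^ 2, ω] := by
    funext i; fin_cases i <;> rfl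
  have h2 : (fun i => emb ω (gens 2 i)) = ![ω ^ 2, ω, ω ^ 2, ω, ω, ω ^ 2] := by
    funext i; fin_cases i <;> rfl
  rw [h0, h1, h2]

theorem monomial_add (σ : Equiv.Perm (Fin 6)) (c : Fin 6 → Fˣ) (x y : Fin 6 → F) :
    Cfsg.monomialMap σ c (x + y) = Cfsg.monomialMap σ c x + Cfsg.monomialMap σ c y := by
  funext i
  simp only [Cfsg.monomialMap, Pi.add_apply]
  ring

theorem monomial_smul (σ : Equiv.Perm (Fin 6)) (c : Fin 6 → Fˣ) (a : F) (x : Fin 6 → F) :
    Cfsg.monomialMap σ c (a • x) = a • Cfsg.monomialMap σ c x := by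
  funext i
  simp only [Cfsg.monomialMap, Pi.smul_apply, smul_eq_mul]
  ring

theorem monomial_zero (σ : Equiv.Perm (Fin 6)) (c : Fin 6 → Fˣ) :
    Cfsg.monomialMap σ c (0 : Fin 6 → F) = 0 := by
  funext i
  simp [Cfsg.monomialMap]

theorem monomial_emb (hF : Fintype.card F = 4) (hω : ω ^ 2 + ω + 1 = 0) (σ : Equiv.Perm (Fin 6))
    (c : Fin 6 → Fˣ) (k : Fin 6 → Fin 4) (hk : ∀ i, emb ω (k i) = (c i : F)) (w : Fin 6 → Fin 4) :
    Cfsg.monomialMap σ c (fun i => emb ω (w i)) = fun i => emb ω (mono σ k w i) := by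
  funext i
  simp only [Cfsg.monomialMap, mono, emb_mul hF hω, hk]

/-- `Pres` is equivalent to the concrete check. -/
theorem pres_iff (hF : Fintype.card F = 4) (hω : ω ^ 2 + ω + 1 = 0) (σ : Equiv.Perm (Fin 6))
    (c : Fin 6 → Fˣ) (k : Fin 6 → Fin 4) (hk : ∀ i, emb ω (k i) = (c i : F)) :
    Pres ω σ c ↔ check3 σ k := by
  constructor
  · intro h
    have hg : ∀ j, (fun i => emb ω (gens j i)) ∈ Cfsg.hexacode F ω := by
      intro j
      rw [emb_mem_iff hF hω]
      have : ∀ j, mem0 (gens j) := by decide +kernel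
      exact this j
    have hj : ∀ j, mem0 (mono σ k (gens j)) := by
      intro j
      rw [← emb_mem_iff hF hω, ← monomial_emb hF hω σ c k hk]
      exact h _ (hg j)
    exact ⟨hj 0, hj 1, hj 2⟩
  · rintro ⟨h0, h1, h2⟩ x hx
    rw [hexacode_eq_span] at hx
    have hg : ∀ j, mem0 (mono σ k (gens j)) → Cfsg.monomialMap σ c (fun i => emb ω (gens j i)) ∈
        Cfsg.hexacode F ω := by
      intro j hj
      rw [monomial_emb hF hω σ c k hk, emb_mem_iff hF hω]
      exact hj
    induction hx using Submodule.span_induction with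
    | mem y hy =>
      simp only [Set.mem_insert_iff, Set.mem_singleton_iff] at hy
      rcases hy with rfl | rfl | rfl
      · exact hg 0 h0
      · exact hg 1 h1
      · exact hg 2 h2
    | zero => rw [monomial_zero]; exact Submodule.zero_mem _
    | add y z _ _ hy hz => rw [monomial_add]; exact Submodule.add_mem _ hy hz
    | smul a y _ hy => rw [monomial_smul]; exact Submodule.smul_mem _ a hy

theorem exists_k (hF : Fintype.card F = 4) (hω : ω ^ 2 + ω + 1 = 0) (c : Fin 6 → Fˣ) :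
    ∃ k : Fin 6 → Fin 3, ∀ i, emb ω (k i).succ = (c i : F) := by
  have hb := emb_bijective hF hω
  have : ∀ i, ∃ a : Fin 3, emb ω a.succ = (c i : F) := by
    intro i
    obtain ⟨a, ha⟩ := hb.2 (c i : F)
    have ha0 : a ≠ 0 := by
      rintro rfl
      exact (c i).ne_zero (by simpa using ha.symm)
    obtain ⟨b, rfl⟩ := Fin.exists_succ_eq.mpr ha0
    exact ⟨b, ha⟩
  choose k hk using this
  exact ⟨k, hk⟩

theorem kOf_eq (k : Fin 6 → Fin 3) :
    (fun i => (k i).succ) = kOf (k 0) (k 1) (k 2) (k 3) (k 4) (k 5) := by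
  funext i; fin_cases i <;> rfl

/-- From a family `k` of nonzero concrete scalars to units. -/
noncomputable def toUnits (hF : Fintype.card F = 4) (hω : ω ^ 2 + ω + 1 = 0)
    (k : Fin 6 → Fin 3) (i : Fin 6) : Fˣ :=
  Units.mk0 (emb ω (k i).succ) (fun h => by
    have := emb_injective hF hω (h.trans (emb_zero ω).symm)
    exact Fin.succ_ne_zero _ this)

theorem pres_one (ω : F) : Pres ω 1 (fun _ => 1) := by
  intro x hx
  have : Cfsg.monomialMap (1 : Equiv.Perm (Fin 6)) (fun _ => (1 : Fˣ)) x = x := by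
    funext i
    simp only [Cfsg.monomialMap, Units.val_one, one_mul]
    rfl
  rwa [this]

theorem pres_mul (ω : F) {σ τ : Equiv.Perm (Fin 6)} {c d : Fin 6 → Fˣ} (h1 : Pres ω σ c)
    (h2 : Pres ω τ d) : Pres ω (σ * τ) (fun i => c i * d (σ.symm i)) := by
  intro x hx
  have : Cfsg.monomialMap (σ * τ) (fun i => c i * d (σ.symm i)) x =
      Cfsg.monomialMap σ c (Cfsg.monomialMap τ d x) := by
    funext i
    simp only [Cfsg.monomialMap, Units.val_mul, Equiv.Perm.mul_def, Equiv.symm_trans_apply]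
    ring
  rw [this]
  exact h1 _ (h2 _ hx)

/-- The submonoid of permutations that lift. -/
def liftMonoid (ω : F) : Submonoid (Equiv.Perm (Fin 6)) where
  carrier := {σ | ∃ c, Pres ω σ c}
  one_mem' := ⟨_, pres_one ω⟩
  mul_mem' := by
    rintro σ τ ⟨c, hc⟩ ⟨d, hd⟩
    exact ⟨_, pres_mul ω hc hd⟩

theorem inv_mem_liftMonoid (ω : F) {σ : Equiv.Perm (Fin 6)} (h : σ ∈ liftMonoid ω) :
    σ⁻¹ ∈ liftMonoid ω := by
  have hpos : 0 < orderOf σ := orderOf_pos σ
  have : σ⁻¹ = σ ^ (orderOf σ - 1) := by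
    rw [inv_eq_iff_mul_eq_one, ← pow_succ', Nat.sub_add_cancel hpos, pow_orderOf_eq_one]
  rw [this]
  exact Submonoid.pow_mem _ h _

theorem swap_pair_mem (hF : Fintype.card F = 4) (hω : ω ^ 2 + ω + 1 = 0) (x y : Fin 6)
    (hxy : x ≠ y) : Equiv.swap x y * Equiv.swap 0 1 ∈ liftMonoid ω := by
  obtain ⟨k1, k2, k3, k4, k5, h⟩ := lift_pairs x y hxy
  let k := (![0, k1, k2, k3, k4, k5] : Fin 6 → Fin 3)
  refine ⟨toUnits hF hω k, ?_⟩
  rw [pres_iff hF hω _ _ (fun i => (k i).succ) (fun i => rfl), kOf_eq]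
  exact h

theorem even_mem (hF : Fintype.card F = 4) (hω : ω ^ 2 + ω + 1 = 0) (σ : Equiv.Perm (Fin 6))
    (hσ : σ ∈ alternatingGroup (Fin 6)) : σ ∈ liftMonoid ω := by
  have hind : ∀ (n : ℕ) (l : List (Equiv.Perm (Fin 6))), (∀ g ∈ l, Equiv.Perm.IsSwap g) →
      l.length = 2 * n → l.prod ∈ liftMonoid ω := by
    intro n
    induction n with
    | zero =>
      intro l _ hn
      rw [Nat.mul_zero, List.length_eq_zero_iff] at hn
      subst hn
      exact Submonoid.one_mem _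
    | succ n ih =>
      intro l hl hn
      match l, hl, hn with
      | a :: b :: l', hl, hn =>
        rw [List.prod_cons, List.prod_cons, ← mul_assoc]
        refine Submonoid.mul_mem _ ?_ (ih l' (fun g hg => hl g (by simp [hg])) (by
          simp only [List.length_cons] at hn; omega))
        obtain ⟨x, y, hxy, rfl⟩ := hl a (by simp)
        obtain ⟨u, v, huv, rfl⟩ := hl b (by simp)
        have h01 : Equiv.swap (0 : Fin 6) 1 * Equiv.swap (0 : Fin 6) 1 = 1 := Equiv.swap_mul_self _ _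
        have : Equiv.swap x y * Equiv.swap u v =
            (Equiv.swap x y * Equiv.swap 0 1) * (Equiv.swap u v * Equiv.swap 0 1)⁻¹ := by
          rw [mul_inv_rev, Equiv.swap_inv, Equiv.swap_inv]
          simp only [mul_assoc]
          rw [← mul_assoc (Equiv.swap (0 : Fin 6) 1) (Equiv.swap 0 1), h01, one_mul]
        rw [this]
        exact Submonoid.mul_mem _ (swap_pair_mem hF hω x y hxy)
          (inv_mem_liftMonoid ω (swap_pair_mem hF hω u v huv))
  obtain ⟨l, hl1, hl2⟩ := (Equiv.Perm.truncSwapFactors σ).out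
  have hsign : Equiv.Perm.sign σ = 1 := Equiv.Perm.mem_alternatingGroup.mp hσ
  rw [← hl1, Equiv.Perm.sign_prod_list_swap hl2] at hsign
  have heven : Even l.length := by
    by_contra hodd
    rw [Nat.not_even_iff_odd] at hodd
    rw [hodd.neg_one_pow] at hsign
    exact absurd hsign (by decide)
  obtain ⟨n, hn⟩ := heven
  rw [← hl1]
  exact hind n l hl2 (by omega)

theorem not_pres_swap (hF : Fintype.card F = 4) (hω : ω ^ 2 + ω + 1 = 0) (c : Fin 6 → Fˣ) :
    ¬ Pres ω (Equiv.swap 0 1) c := by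
  intro h
  obtain ⟨k, hk⟩ := exists_k hF hω c
  rw [pres_iff hF hω _ c (fun i => (k i).succ) hk, kOf_eq] at h
  exact no_lift_swap _ _ _ _ _ _ h

theorem odd_not_mem (hF : Fintype.card F = 4) (hω : ω ^ 2 + ω + 1 = 0) (σ : Equiv.Perm (Fin 6))
    (hσ : σ ∈ liftMonoid ω) : σ ∈ alternatingGroup (Fin 6) := by
  by_contra hodd
  rw [Equiv.Perm.mem_alternatingGroup] at hodd
  have hneg : Equiv.Perm.sign σ = -1 := (Int.units_eq_one_or _).resolve_left hodd
  have h1 : σ⁻¹ * Equiv.swap 0 1 ∈ alternatingGroup (Fin 6) := by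
    rw [Equiv.Perm.mem_alternatingGroup, map_mul, Equiv.Perm.sign_inv, hneg,
      Equiv.Perm.sign_swap (by decide)]
    rfl
  have h2 := Submonoid.mul_mem _ hσ (even_mem hF hω _ h1)
  rw [mul_inv_cancel_left] at h2
  obtain ⟨c, hc⟩ := h2
  exact not_pres_swap hF hω c hc

theorem diag_scalar (hF : Fintype.card F = 4) (hω : ω ^ 2 + ω + 1 = 0) (c : Fin 6 → Fˣ)
    (h : Pres ω 1 c) (i j : Fin 6) : c i = c j := by
  obtain ⟨k, hk⟩ := exists_k hF hω c
  rw [pres_iff hF hω _ c (fun i => (k i).succ) hk, kOf_eq] at h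
  obtain ⟨h1, h2, h3, h4, h5⟩ := diag_const _ _ _ _ _ _ h
  have hkc : ∀ a, k a = k 0 := by
    intro a; fin_cases a
    · rfl
    · exact h1.symm
    · exact h2.symm
    · exact h3.symm
    · exact h4.symm
    · exact h5.symm
  apply Units.ext
  rw [← hk i, ← hk j, hkc i, hkc j]

theorem pres_smul (ω : F) {σ : Equiv.Perm (Fin 6)} {c : Fin 6 → Fˣ} (h : Pres ω σ c) (a : Fˣ) :
    Pres ω σ (fun i => a * c i) := by
  intro x hx
  have : Cfsg.monomialMap σ (fun i => a * c i) x = (a : F) • Cfsg.monomialMap σ c x := by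
    funext i
    simp only [Cfsg.monomialMap, Units.val_mul, Pi.smul_apply, smul_eq_mul]
    ring
  rw [this]
  exact Submodule.smul_mem _ _ (h x hx)

theorem monomial_injective (σ : Equiv.Perm (Fin 6)) (c : Fin 6 → Fˣ) :
    Function.Injective (Cfsg.monomialMap σ c : (Fin 6 → F) → (Fin 6 → F)) := by
  intro x y h
  funext i
  have := congrFun h (σ i)
  simp only [Cfsg.monomialMap, Equiv.symm_apply_apply] at this
  exact mul_left_cancel₀ (c (σ i)).ne_zero this

/-- Two lifts of the same permutation differ by a scalar. -/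
theorem lift_unique (hF : Fintype.card F = 4) (hω : ω ^ 2 + ω + 1 = 0) (σ : Equiv.Perm (Fin 6))
    (c d : Fin 6 → Fˣ) (hc : Pres ω σ c) (hd : Pres ω σ d) : ∃ a : Fˣ, ∀ i, d i = a * c i := by
  -- the restriction of the monomial map to the code is surjective
  have hsurj : ∀ x ∈ Cfsg.hexacode F ω, ∃ y ∈ Cfsg.hexacode F ω, Cfsg.monomialMap σ c y = x := by
    let T : ↥(Cfsg.hexacode F ω) → ↥(Cfsg.hexacode F ω) :=
      fun y => ⟨Cfsg.monomialMap σ c y, hc _ y.2⟩
    have hTinj : Function.Injective T := by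
      intro y z h
      apply Subtype.ext
      exact monomial_injective σ c (congrArg Subtype.val h)
    have hTsurj := Finite.injective_iff_surjective.mp hTinj
    intro x hx
    obtain ⟨y, hy⟩ := hTsurj ⟨x, hx⟩
    exact ⟨y, y.2, congrArg Subtype.val hy⟩
  have hpres : Pres ω 1 (fun i => d i * (c i)⁻¹) := by
    intro x hx
    obtain ⟨y, hy, rfl⟩ := hsurj x hx
    have : Cfsg.monomialMap (1 : Equiv.Perm (Fin 6)) (fun i => d i * (c i)⁻¹)
        (Cfsg.monomialMap σ c y) = Cfsg.monomialMap σ d y := by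
      funext i
      simp only [Cfsg.monomialMap, Units.val_mul]
      change (d i : F) * ((c i)⁻¹ : Fˣ).val * ((c i : F) * y (σ.symm i)) = (d i : F) * y (σ.symm i)
      rw [mul_assoc, ← mul_assoc ((c i)⁻¹ : Fˣ).val, ← Units.val_mul]
      simp
    rw [this]
    exact hd y hy
  refine ⟨d 0 * (c 0)⁻¹, fun i => ?_⟩
  have := diag_scalar hF hω _ hpres i 0
  rw [← this]
  simp

end abstract

/-- The monomial automorphism group of the hexacode has order 1080: its diagonal part is the scalars and its permutation parts form the alternating group of degree 6. -/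
theorem result (F : Type*) [Field F] [Fintype F] [DecidableEq F] (hF : Fintype.card F = 4) (ω : F) (hω : ω ^ 2 + ω + 1 = 0) : Nat.card {f : Equiv.Perm (Fin 6) × (Fin 6 → Fˣ) // (∀ x ∈ Cfsg.hexacode F ω, Cfsg.monomialMap f.1 f.2 x ∈ Cfsg.hexacode F ω)} = 1080 ∧ (∀ c : Fin 6 → Fˣ, (∀ x ∈ Cfsg.hexacode F ω, Cfsg.monomialMap 1 c x ∈ Cfsg.hexacode F ω) → ∀ i j, c i = c j) ∧ {σ : Equiv.Perm (Fin 6) | ∃ c : Fin 6 → Fˣ, (∀ x ∈ Cfsg.hexacode F ω, Cfsg.monomialMap σ c x ∈ Cfsg.hexacode F ω)} = (alternatingGroup (Fin 6) : Set (Equiv.Perm (Fin 6))) := by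
  refine ⟨?_, fun c hc i j => diag_scalar hF hω c hc i j, ?_⟩
  · -- counting
    have hc0 : ∀ σ : alternatingGroup (Fin 6), ∃ c, Pres ω σ.1 c := fun σ =>
      even_mem hF hω σ.1 σ.2
    choose c0 hc0 using hc0
    let Φ : alternatingGroup (Fin 6) × Fˣ →
        {f : Equiv.Perm (Fin 6) × (Fin 6 → Fˣ) // (∀ x ∈ Cfsg.hexacode F ω,
          Cfsg.monomialMap f.1 f.2 x ∈ Cfsg.hexacode F ω)} :=
      fun p => ⟨(p.1.1, fun i => p.2 * c0 p.1 i), pres_smul ω (hc0 p.1) p.2⟩
    have hΦ : Function.Bijective Φ := by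
      constructor
      · rintro ⟨σ, a⟩ ⟨τ, b⟩ h
        have h1 : σ = τ := Subtype.ext (congrArg (fun f => f.1.1) h)
        subst h1
        have h2 := congrFun (congrArg (fun f => f.1.2) h) 0
        simp only [Φ] at h2
        have h3 : a = b := mul_right_cancel h2
        rw [h3]
      · rintro ⟨⟨σ, c⟩, hc⟩
        have hσ : σ ∈ alternatingGroup (Fin 6) := odd_not_mem hF hω σ ⟨c, hc⟩
        obtain ⟨a, ha⟩ := lift_unique hF hω σ (c0 ⟨σ, hσ⟩) c (hc0 _) hc
        refine ⟨(⟨σ, hσ⟩, a), ?_⟩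
        apply Subtype.ext
        simp only [Φ]
        ext i
        · rfl
        · simp [ha i]
    rw [← Nat.card_congr (Equiv.ofBijective Φ hΦ), Nat.card_prod, Nat.card_eq_fintype_card,
      Nat.card_eq_fintype_card, Fintype.card_units, hF]
    have h := two_mul_card_alternatingGroup (α := Fin 6)
    rw [Fintype.card_perm, Fintype.card_fin] at h
    have h6 : Nat.factorial 6 = 720 := rfl
    omega
  · ext σ
    constructor
    · rintro ⟨c, hc⟩
      exact odd_not_mem hF hω σ ⟨c, hc⟩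
    · intro hσ
      exact even_mem hF hω σ hσ

end Cfsg.Agent.S1611
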