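import Cfsg.Statements.S1612
import Cfsg.Agent.Lib.ThreeT.DxConn
import Cfsg.Agent.Lib.ThreeT.Sylow
import Cfsg.Agent.Lib.Signal.Basic

set_option autoImplicit false
open Cfsg

namespace Cfsg.Agent.S1612

open Cfsg.Agent.Lib.ThreeT.Basic Cfsg.Agent.Lib.ThreeT.Sylow Cfsg.Agent.Lib.ThreeT.DxConn
open Cfsg.Agent.Lib.ThreeT.Class
open scoped Pointwise

variable {G : Type*} [Group G] [Finite G] {D : Set G}

/-- Two maximal commuting sets containing `X` are conjugate under the centralizer of `X`. -/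
theorem exists_conj_of_max (hS : IsThreeTranspositionSet D)
    (hconj : ∀ g : G, ∀ d ∈ D, g * d * g⁻¹ ∈ D)
    {E₁ E₂ X : Set G} {n : ℕ} (h₁ : E₁ ⊆ D) (h₂ : E₂ ⊆ D)
    (hc₁ : ∀ a ∈ E₁, ∀ b ∈ E₁, Commute a b) (hc₂ : ∀ a ∈ E₂, ∀ b ∈ E₂, Commute a b)
    (hn₁ : E₁.ncard = n) (hn₂ : E₂.ncard = n)
    (hmax : ∀ E' : Set G, E' ⊆ D → (∀ a ∈ E', ∀ b ∈ E', Commute a b) → E'.ncard ≤ n)
    (hX₁ : X ⊆ E₁) (hX₂ : X ⊆ E₂) :
    ∃ g ∈ Subgroup.centralizer X, (fun e => g * e * g⁻¹) '' E₁ = E₂ := by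
  have : Fact (Nat.Prime 2) := ⟨Nat.prime_two⟩
  set C := Subgroup.centralizer X with hC
  have hle : ∀ {E : Set G}, (∀ a ∈ E, ∀ x ∈ X, Commute x a) → Subgroup.closure E ≤ C := by
    intro E hE
    rw [Subgroup.closure_le]
    intro a ha
    rw [hC, SetLike.mem_coe, Subgroup.mem_centralizer_iff]
    intro x hx
    exact (hE a ha x hx).eq
  have hle₁ : Subgroup.closure E₁ ≤ C := hle fun a ha x hx => hc₁ x (hX₁ hx) a ha
  have hle₂ : Subgroup.closure E₂ ≤ C := hle fun a ha x hx => hc₂ x (hX₂ hx) a ha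
  have hp : ∀ {E : Set G}, E ⊆ D → (∀ a ∈ E, ∀ b ∈ E, Commute a b) →
      IsPGroup 2 ((Subgroup.closure E).subgroupOf C) := by
    intro E hE hc
    exact (isPGroup_closure_of_commuting (E := E)
      (fun a ha => mul_self_of_mem hS (hE ha)) hc).comap_subtype
  obtain ⟨Q₁, hQ₁⟩ := (hp h₁ hc₁).exists_le_sylow
  obtain ⟨Q₂, hQ₂⟩ := (hp h₂ hc₂).exists_le_sylow
  obtain ⟨g, hg⟩ := MulAction.exists_smul_eq C Q₁ Q₂
  refine ⟨g, g.2, ?_⟩
  set P : Subgroup G := (Q₂ : Subgroup C).map C.subtype with hPdef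
  have hPp : IsPGroup 2 P := Q₂.isPGroup'.map C.subtype
  set F : Set G := {d | d ∈ D ∧ d ∈ P} with hF
  have hFc : ∀ a ∈ F, ∀ b ∈ F, Commute a b := fun a ha b hb =>
    commute_of_mem_of_isPGroup hS hPp ha.1 hb.1 ha.2 hb.2
  have hFn := hmax F (fun x hx => hx.1) hFc
  have h2F : E₂ ⊆ F := by
    intro e he
    refine ⟨h₂ he, ⟨⟨e, hle₂ (Subgroup.subset_closure he)⟩, hQ₂ ?_, rfl⟩⟩
    exact Subgroup.mem_subgroupOf.2 (Subgroup.subset_closure he)
  have h1F : (fun e => (g : G) * e * (g : G)⁻¹) '' E₁ ⊆ F := by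
    rintro _ ⟨e, he, rfl⟩
    refine ⟨hconj _ e (h₁ he), ?_⟩
    have heQ : (⟨e, hle₁ (Subgroup.subset_closure he)⟩ : C) ∈ Q₁ :=
      hQ₁ (Subgroup.mem_subgroupOf.2 (Subgroup.subset_closure he))
    have hmem : g * ⟨e, hle₁ (Subgroup.subset_closure he)⟩ * g⁻¹ ∈ (g • Q₁ : Sylow 2 C) := by
      have := Subgroup.smul_mem_pointwise_smul _ (MulAut.conj g) (Q₁ : Subgroup C) heQ
      have h2 : g * ⟨e, hle₁ (Subgroup.subset_closure he)⟩ * g⁻¹ ∈
          ((g • Q₁ : Sylow 2 C) : Subgroup C) := by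
        rw [Sylow.coe_subgroup_smul]
        exact this
      exact h2
    rw [hg] at hmem
    exact ⟨_, hmem, rfl⟩
  have hinj : Function.Injective (fun e => (g : G) * e * (g : G)⁻¹) := by
    intro x y hxy
    simpa using hxy
  have e2 : E₂ = F := Set.eq_of_subset_of_ncard_le h2F (by omega) (Set.toFinite _)
  have e1 : (fun e => (g : G) * e * (g : G)⁻¹) '' E₁ = F :=
    Set.eq_of_subset_of_ncard_le h1F
      (by rw [Set.ncard_image_of_injective _ hinj]; omega) (Set.toFinite _)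
  rw [e1, e2]

omit [Finite G] in
theorem image_mul (u v : G) (S : Set G) :
    (fun e => (u * v) * e * (u * v)⁻¹) '' S =
      (fun e => u * e * u⁻¹) '' ((fun e => v * e * v⁻¹) '' S) := by
  rw [Set.image_image]
  congr 1
  ext e
  group

omit [Finite G] in
theorem mem_normalizer_of_image {g : G} {S : Set G} (h : (fun e => g * e * g⁻¹) '' S = S) :
    g ∈ Subgroup.normalizer S := by
  show ∀ x, x ∈ S ↔ g * x * g⁻¹ ∈ S
  intro x
  constructor
  · intro hx
    rw [← h]
    exact ⟨x, hx, rfl⟩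
  · intro hx
    rw [← h] at hx
    obtain ⟨y, hy, e⟩ := hx
    have : y = x := by
      have e' : g * y * g⁻¹ = g * x * g⁻¹ := e
      simpa using e'
    rwa [← this]

omit [Finite G] in
theorem comm_of_mem_closure {c m : G} {S : Set G} (h : ∀ s ∈ S, Commute c s)
    (hm : m ∈ Subgroup.closure S) : Commute c m := by
  induction hm using Subgroup.closure_induction with
  | mem e he => exact h e he
  | one => exact Commute.one_right c
  | mul u v _ _ hu hv => exact hu.mul_right hv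
  | inv u _ hu => exact hu.inv_right

/-- In a 3-transposition group (no solvable normal subgroup, perfect derived group), the normaliser of a commuting set of transpositions of maximum size contains a Sylow 2-subgroup and is doubly transitive on the set. -/
theorem result {G : Type*} [Group G] [Finite G] (hsol : ∀ N : Subgroup G, N.Normal → Group.IsSolvable ↥N → N = ⊥) (hperf : ⁅commutator G, commutator G⁆ = commutator G) {D : Set G} (hD : Cfsg.IsThreeTranspositionClass D) {E : Set G} (hE : E ⊆ D) (hc : ∀ a ∈ E, ∀ b ∈ E, Commute a b) (hmax : ∀ E' : Set G, E' ⊆ D → (∀ a ∈ E', ∀ b ∈ E', Commute a b) → E'.ncard ≤ E.ncard) : (∃ P : Sylow 2 G, (P : Subgroup G) ≤ Subgroup.normalizer E) ∧ ∀ a ∈ E, ∀ b ∈ E, ∀ c ∈ E, ∀ d ∈ E, a ≠ b → c ≠ d → ∃ g ∈ Subgroup.normalizer E, g * a * g⁻¹ = c ∧ g * b * g⁻¹ = d := by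
  have : Fact (Nat.Prime 2) := ⟨Nat.prime_two⟩
  have hG := isGroup_of_isClass hD
  have hS := hG.1
  have hconj := hG.2.1
  have hcore : ∀ (p : ℕ) [Fact p.Prime], Cfsg.pCore p G ≤ Subgroup.center G := by
    intro p _
    have h1 : Cfsg.pCore p G = ⊥ := hsol _ (Cfsg.pCore_normal p G)
      (Cfsg.Agent.Lib.Signal.Basic.isSolvable_of_isPGroup
        (Cfsg.Agent.Lib.Core.Basic.pCore_isPGroup (p := p) (G := G)))
    rw [h1]
    exact bot_le
  have : Fact (Nat.Prime 3) := ⟨Nat.prime_three⟩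
  have hinjc : ∀ g : G, Function.Injective (fun e => g * e * g⁻¹) := by
    intro g x y hxy
    simpa using hxy
  have hconjE : ∀ g : G, ((fun e => g * e * g⁻¹) '' E) ⊆ D := by
    rintro g _ ⟨e, he, rfl⟩
    exact hconj g e (hE he)
  have hconjc : ∀ g : G, ∀ a ∈ (fun e => g * e * g⁻¹) '' E, ∀ b ∈ (fun e => g * e * g⁻¹) '' E,
      Commute a b := by
    rintro g _ ⟨e, he, rfl⟩ _ ⟨f, hf, rfl⟩
    exact Cfsg.Agent.Lib.ThreeT.WRel.commute_conj (hc e he f hf)
  constructor
  · -- the Sylow subgroup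
    have hP := isPGroup_closure_of_commuting (E := E) (fun a ha => mul_self_of_mem hS (hE ha)) hc
    obtain ⟨T, hT⟩ := hP.exists_le_sylow
    refine ⟨T, ?_⟩
    have hF : E = {d | d ∈ D ∧ d ∈ T} := by
      apply Set.eq_of_subset_of_ncard_le _ _ (Set.toFinite _)
      · exact fun e he => ⟨hE he, hT (Subgroup.subset_closure he)⟩
      · exact hmax _ (fun x hx => hx.1) (closure_comm hS T)
    intro t ht
    show ∀ x, x ∈ E ↔ t * x * t⁻¹ ∈ E
    intro x
    rw [hF]
    constructor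
    · rintro ⟨hx, hxT⟩
      exact ⟨hconj t x hx, T.mul_mem (T.mul_mem ht hxT) (T.inv_mem ht)⟩
    · rintro ⟨hx, hxT⟩
      have h1 := hconj t⁻¹ _ hx
      have e : t⁻¹ * (t * x * t⁻¹) * t⁻¹⁻¹ = x := by group
      rw [e] at h1
      refine ⟨h1, ?_⟩
      have h2 := T.mul_mem (T.mul_mem (T.inv_mem ht) hxT) ht
      have e2 : t⁻¹ * (t * x * t⁻¹) * t = x := by group
      rwa [e2] at h2
  · intro a ha b hb c' hc' d hd hab hcd
    obtain ⟨h, hh⟩ := exists_conj_of_isClass hD (hE ha) (hE hc')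
    -- first step
    have hX₁ : ({c'} : Set G) ⊆ (fun e => h * e * h⁻¹) '' E := by
      rintro _ rfl
      exact ⟨a, ha, hh⟩
    obtain ⟨k, hk, hkE⟩ := exists_conj_of_max hS hconj (X := {c'}) (hconjE h) hE (hconjc h) hc
      (Set.ncard_image_of_injective _ (hinjc h)) rfl hmax hX₁
      (by intro y hy; rw [Set.mem_singleton_iff.1 hy]; exact hc')
    have hg₁E : (fun e => (k * h) * e * (k * h)⁻¹) '' E = E := by
      rw [image_mul, hkE]
    have hkc : k * c' * k⁻¹ = c' := by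
      have := (Subgroup.mem_centralizer_iff.1 hk c' rfl)
      rw [← this]
      group
    have hg₁a : (k * h) * a * (k * h)⁻¹ = c' := by
      calc (k * h) * a * (k * h)⁻¹ = k * (h * a * h⁻¹) * k⁻¹ := by group
        _ = c' := by rw [hh, hkc]
    set b' := (k * h) * b * (k * h)⁻¹ with hb'
    have hb'E : b' ∈ E := by
      rw [← hg₁E]
      exact ⟨b, hb, rfl⟩
    have hb'c : b' ≠ c' := by
      intro he
      rw [← hg₁a] at he
      apply hab
      have he' : (k * h) * b * (k * h)⁻¹ = (k * h) * a * (k * h)⁻¹ := he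
      simpa using he'.symm
    -- second step
    obtain ⟨m, hm, hme⟩ := exists_conj_closure hD (hcore 2) (hcore 3) (x := c') (y := b') (y' := d)
      (hE hc') ⟨hE hb'E, hb'c, hc _ hc' _ hb'E⟩ ⟨hE hd, hcd.symm, hc _ hc' _ hd⟩
    have hmc : Commute c' m := comm_of_mem_closure (S := Dx D c') (fun s hs => hs.2.2) hm
    have hmc' : m * c' * m⁻¹ = c' := by
      rw [← hmc.eq]
      group
    -- third step
    have hX₂ : ({c', d} : Set G) ⊆ (fun e => m * e * m⁻¹) '' E := by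
      rintro y (hy | hy)
      · rw [hy]
        exact ⟨c', hc', hmc'⟩
      · rw [hy]
        exact ⟨b', hb'E, hme⟩
    have hX₃ : ({c', d} : Set G) ⊆ E := by
      rintro y (hy | hy)
      · rw [hy]
        exact hc'
      · rw [hy]
        exact hd
    obtain ⟨n, hn, hnE⟩ := exists_conj_of_max hS hconj (X := {c', d}) (hconjE m) hE (hconjc m) hc
      (Set.ncard_image_of_injective _ (hinjc m)) rfl hmax hX₂ hX₃
    have hnc : n * c' * n⁻¹ = c' := by
      have := (Subgroup.mem_centralizer_iff.1 hn c' (Or.inl rfl))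
      rw [← this]
      group
    have hnd : n * d * n⁻¹ = d := by
      have := (Subgroup.mem_centralizer_iff.1 hn d (Or.inr rfl))
      rw [← this]
      group
    refine ⟨n * m * (k * h), mem_normalizer_of_image ?_, ?_, ?_⟩
    · rw [image_mul, hg₁E, image_mul]
      exact hnE
    · calc (n * m * (k * h)) * a * (n * m * (k * h))⁻¹
          = n * (m * ((k * h) * a * (k * h)⁻¹) * m⁻¹) * n⁻¹ := by group
        _ = c' := by rw [hg₁a, hmc', hnc]
    · calc (n * m * (k * h)) * b * (n * m * (k * h))⁻¹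
          = n * (m * b' * m⁻¹) * n⁻¹ := by rw [hb']; group
        _ = d := by rw [hme, hnd]

end Cfsg.Agent.S1612
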