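import Cfsg.Statements.S1613
import Cfsg.Agent.Lib.ThreeT.DxConn
import Cfsg.Agent.Lib.Signal.Basic

set_option autoImplicit false
open Cfsg

namespace Cfsg.Agent.S1613

/-- For a transposition x of a Fischer 3-transposition group, the transpositions commuting with x (other than x) form one conjugacy class of the subgroup they generate. -/
theorem result {G : Type*} [Group G] [Finite G] (hsol : ∀ N : Subgroup G, N.Normal → Group.IsSolvable ↥N → N = ⊥) (hperf : ⁅commutator G, commutator G⁆ = commutator G) {D : Set G} (hD : Cfsg.IsThreeTranspositionClass D) (x : G) (hx : x ∈ D) : ∀ y ∈ {y : G | y ∈ D ∧ y ≠ x ∧ Commute x y}, ∀ y' ∈ {y : G | y ∈ D ∧ y ≠ x ∧ Commute x y}, ∃ g ∈ Subgroup.closure {y : G | y ∈ D ∧ y ≠ x ∧ Commute x y}, g * y * g⁻¹ = y' := by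
  have hcore : ∀ (p : ℕ) [Fact p.Prime], Cfsg.pCore p G ≤ Subgroup.center G := by
    intro p _
    have h1 : Cfsg.pCore p G = ⊥ := hsol _ (Cfsg.pCore_normal p G)
      (Cfsg.Agent.Lib.Signal.Basic.isSolvable_of_isPGroup (Cfsg.Agent.Lib.Core.Basic.pCore_isPGroup (p := p) (G := G)))
    rw [h1]
    exact bot_le
  have : Fact (Nat.Prime 2) := ⟨Nat.prime_two⟩
  have : Fact (Nat.Prime 3) := ⟨Nat.prime_three⟩
  intro y hy y' hy'
  exact Cfsg.Agent.Lib.ThreeT.DxConn.exists_conj_closure hD (hcore 2) (hcore 3) hx hy hy'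

end Cfsg.Agent.S1613
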