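import Cfsg.Statements.S1618
import Cfsg.Agent.S0215
import Cfsg.Agent.Lib.PPowProd.Main

set_option autoImplicit false
open Cfsg

namespace Cfsg.Agent.S1618

/-- A group generated by a class of involutions whose pairwise products (of distinct members) have p-power order for a fixed odd prime p has nilpotent derived subgroup. -/
theorem result {G : Type*} [Group G] [Finite G] (p : ℕ) (hp : p.Prime) (hodd : p ≠ 2) {D : Set G} (hinv : ∀ d ∈ D, orderOf d = 2) (hconj : ∃ d ∈ D, D = conjugatesOf d) (hgen : Subgroup.closure D = ⊤) (hprod : ∀ x ∈ D, ∀ y ∈ D, x ≠ y → ∃ k : ℕ, orderOf (x * y) = p ^ k) : Group.IsNilpotent ↥(commutator G) := by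
  classical
  obtain ⟨d, hdD, hD⟩ := hconj
  have hdord := hinv d hdD
  have hd2 : d * d = 1 := by
    have := pow_orderOf_eq_one d
    rw [hdord, pow_two] at this
    exact this
  have hdinv : d⁻¹ = d := inv_eq_of_mul_eq_one_left hd2
  have h2 : IsPGroup 2 (Subgroup.zpowers d) := by
    apply IsPGroup.of_card (n := 1)
    rw [Nat.card_zpowers, hdord]; rfl
  obtain ⟨P, hP⟩ := h2.exists_le_sylow
  have hdP : d ∈ (P : Subgroup G) := hP (Subgroup.mem_zpowers d)
  have hconjD : ∀ g : G, g * d * g⁻¹ ∈ D := by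
    intro g
    rw [hD]
    exact (isConj_iff.mpr ⟨g, rfl⟩)
  obtain ⟨N, hNn, hN, hc⟩ := Cfsg.Agent.S0215.result P d hdord hdP (by
    intro g hg
    by_contra hne
    have hne' : d ≠ g * d * g⁻¹ := fun h => hne h.symm
    obtain ⟨k, hk⟩ := hprod d hdD _ (hconjD g) hne'
    have hyP : d * (g * d * g⁻¹) ∈ (P : Subgroup G) := (P : Subgroup G).mul_mem hdP hg
    obtain ⟨j, hj⟩ := P.isPGroup' ⟨_, hyP⟩
    have hj' : (d * (g * d * g⁻¹)) ^ (2 ^ j) = 1 := by
      have := congrArg Subtype.val hj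
      simpa using this
    have hdv : p ^ k ∣ 2 ^ j := by
      rw [← hk]
      exact orderOf_dvd_of_pow_eq_one hj'
    have hcop : Nat.Coprime (p ^ k) (2 ^ j) :=
      Nat.Coprime.pow _ _ ((Nat.coprime_primes hp Nat.prime_two).mpr hodd)
    have h1 : p ^ k = 1 := Nat.Coprime.eq_one_of_dvd hcop hdv
    rw [h1, orderOf_eq_one_iff] at hk
    apply hne'
    have := eq_inv_of_mul_eq_one_right hk
    rw [this, hdinv])
  exact Cfsg.Agent.Lib.PPowProd.Main.of_zstar p hp hodd d hdD hinv hD hgen hprod N hNn hN hc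

end Cfsg.Agent.S1618
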