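import Cfsg.Statements.S1620
import Cfsg.Agent.Lib.J2Ico.Quot

set_option autoImplicit false
open Quaternion
open Cfsg

namespace Cfsg.Agent.S1620

/-- The Hall–Janko group is simple and non-abelian. -/
theorem result : IsSimpleGroup Cfsg.Spor.J2 ∧ ∃ a b : Cfsg.Spor.J2, a * b ≠ b * a := by
  open Cfsg.Agent.Lib.J2Ico.Q8 in
  exact ⟨j2Equiv.isSimpleGroup, by
    obtain ⟨a, b, hab⟩ := Hg_not_comm
    refine ⟨j2Equiv.symm a, j2Equiv.symm b, ?_⟩
    rw [← map_mul, ← map_mul]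
    exact fun h => hab (j2Equiv.symm.injective h)⟩

end Cfsg.Agent.S1620
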