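-- Statement S1621 (row 1621).
import Cfsg.Statements.S1621
import Cfsg.Agent.Lib.J2Ico.Lines

set_option autoImplicit false
open Quaternion
open Cfsg

namespace Cfsg.Agent.S1621

/-- The icosian Leech lattice has 37800 minimal vectors giving 315 distinct reflections. -/
theorem result : {r : Fin 3 → ℍ[ℝ] | r ∈ Cfsg.Spor.icoLeech ∧ Cfsg.Spor.qip r r = 4}.ncard = 37800 ∧ {f : Equiv.Perm ↥Cfsg.Spor.icoLeech | Cfsg.Spor.IsIcoReflection f}.ncard = 315 := by
  exact ⟨Cfsg.Agent.Lib.J2Ico.Q8.minSet_ncard, Cfsg.Agent.Lib.J2Ico.Q8.reflSet_ncard⟩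

end Cfsg.Agent.S1621
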