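import Cfsg.Statements.S1629
import Cfsg.Agent.Lib.Inv2.ThreeTrans

set_option autoImplicit false
open scoped MatrixGroups
open Cfsg

namespace Cfsg.Agent.S1629

/-- The orthogonal transvections of the plus-type orthogonal group in dimension 2m ≥ 6 over the field with two elements form a generating conjugacy class of 3-transpositions. -/
theorem result (m : ℕ) (hm : 3 ≤ m) : Cfsg.IsThreeTranspositionClass {g : ↥(Cfsg.isometryGroup (ZMod 2) (Cfsg.quadFormPlus m (ZMod 2))) | (((g : GL (Fin m ⊕ Fin m) (ZMod 2)) : Matrix (Fin m ⊕ Fin m) (Fin m ⊕ Fin m) (ZMod 2)) - 1).rank = 1} := by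
  have hQ := Cfsg.Agent.Lib.Orth.Forms.plusForm_nondeg (F := ZMod 2) m
  haveI : Fact (Nat.card (ZMod 2) = 2) := ⟨by simp⟩
  have hgen := Cfsg.Agent.Lib.Orth.Bridge.hgen (Cfsg.Agent.Lib.Orth.Forms.plusForm m (ZMod 2)) hQ (by
    right
    simp
    omega)
  obtain ⟨y, -, hy, -⟩ := (Cfsg.Agent.Lib.Inv2.Models.frames_plus (F := ZMod 2) m).y
  have h3 := Cfsg.Agent.Lib.Inv2.ThreeTrans.threeTrans hQ hgen ⟨y ⟨0, by omega⟩, by rw [hy]; simp⟩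
  have h4 := Cfsg.Agent.Lib.Inv2.ThreeTrans.threeTrans_congr
    (Cfsg.Agent.Lib.Orth.Bridge.toIso (Cfsg.Agent.Lib.Orth.Forms.plusForm m (ZMod 2))) h3
  have h5 : (Cfsg.Agent.Lib.Orth.Bridge.toIso (Cfsg.Agent.Lib.Orth.Forms.plusForm m (ZMod 2))) ⁻¹'
      {g | Module.finrank (ZMod 2) (LinearMap.range (Cfsg.Agent.Lib.Inv2.Group.nOf (g : (Fin m ⊕ Fin m → ZMod 2) ≃ₗ[ZMod 2] (Fin m ⊕ Fin m → ZMod 2)))) = 1} =
      {g : ↥(Cfsg.isometryGroup (ZMod 2) ⇑(Cfsg.Agent.Lib.Orth.Forms.plusForm m (ZMod 2))) | (((g : GL (Fin m ⊕ Fin m) (ZMod 2)) : Matrix (Fin m ⊕ Fin m) (Fin m ⊕ Fin m) (ZMod 2)) - 1).rank = 1} := by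
    ext g
    show _ = 1 ↔ _ = 1
    rw [Cfsg.Agent.Lib.Inv2.ThreeTrans.rank_sub_one_eq (Cfsg.Agent.Lib.Orth.Forms.plusForm m (ZMod 2)) g]
  rw [h5] at h4
  exact h4

end Cfsg.Agent.S1629
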