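import Cfsg.Statements.S1630
import Cfsg.Agent.Lib.Inv2.ThreeTrans

set_option autoImplicit false
open scoped MatrixGroups
open Cfsg

namespace Cfsg.Agent.S1630

/-- The orthogonal transvections of the minus-type orthogonal group in dimension ≥ 6 over the field with two elements form a generating conjugacy class of 3-transpositions. -/
theorem result (m : ℕ) (hm : 2 ≤ m) : Cfsg.IsThreeTranspositionClass {g : ↥(Cfsg.isometryGroup (ZMod 2) (Cfsg.quadFormMinus m (ZMod 2) 1 1)) | (((g : GL ((Fin m ⊕ Fin m) ⊕ Fin 2) (ZMod 2)) : Matrix ((Fin m ⊕ Fin m) ⊕ Fin 2) ((Fin m ⊕ Fin m) ⊕ Fin 2) (ZMod 2)) - 1).rank = 1} := by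
  have hab : ∀ z₁ z₂ : ZMod 2, z₁ ^ 2 + 1 * z₁ * z₂ + 1 * z₂ ^ 2 = 0 → z₁ = 0 ∧ z₂ = 0 := by
    decide
  have hQ := Cfsg.Agent.Lib.Orth.Forms.minusForm_nondeg (F := ZMod 2) m hab
  haveI : Fact (Nat.card (ZMod 2) = 2) := ⟨by simp⟩
  have hgen := Cfsg.Agent.Lib.Orth.Bridge.hgen (Cfsg.Agent.Lib.Orth.Forms.minusForm m (ZMod 2) 1 1) hQ (by
    right
    simp
    omega)
  obtain ⟨y, -, hy, -⟩ := (Cfsg.Agent.Lib.Inv2.Models.frames_minus (F := ZMod 2) m hab).y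
  have h3 := Cfsg.Agent.Lib.Inv2.ThreeTrans.threeTrans hQ hgen ⟨y ⟨0, by omega⟩, by rw [hy]; simp⟩
  have h4 := Cfsg.Agent.Lib.Inv2.ThreeTrans.threeTrans_congr
    (Cfsg.Agent.Lib.Orth.Bridge.toIso (Cfsg.Agent.Lib.Orth.Forms.minusForm m (ZMod 2) 1 1)) h3
  have h5 : (Cfsg.Agent.Lib.Orth.Bridge.toIso (Cfsg.Agent.Lib.Orth.Forms.minusForm m (ZMod 2) 1 1)) ⁻¹'
      {g | Module.finrank (ZMod 2) (LinearMap.range (Cfsg.Agent.Lib.Inv2.Group.nOf (g : ((Fin m ⊕ Fin m) ⊕ Fin 2 → ZMod 2) ≃ₗ[ZMod 2] ((Fin m ⊕ Fin m) ⊕ Fin 2 → ZMod 2)))) = 1} =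
      {g : ↥(Cfsg.isometryGroup (ZMod 2) ⇑(Cfsg.Agent.Lib.Orth.Forms.minusForm m (ZMod 2) 1 1)) | (((g : GL ((Fin m ⊕ Fin m) ⊕ Fin 2) (ZMod 2)) : Matrix ((Fin m ⊕ Fin m) ⊕ Fin 2) ((Fin m ⊕ Fin m) ⊕ Fin 2) (ZMod 2)) - 1).rank = 1} := by
    ext g
    show _ = 1 ↔ _ = 1
    rw [Cfsg.Agent.Lib.Inv2.ThreeTrans.rank_sub_one_eq (Cfsg.Agent.Lib.Orth.Forms.minusForm m (ZMod 2) 1 1) g]
  rw [h5] at h4
  exact h4

end Cfsg.Agent.S1630
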