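import Cfsg.Statements.S1632
import Cfsg.Agent.Lib.Theta.Form

set_option autoImplicit false
open Matrix
open Cfsg

namespace Cfsg.Agent.S1632

open Complex ModularForm ModularFormClass MatrixGroups EisensteinSeries
open UpperHalfPlane hiding I
open scoped ArithmeticFunction.sigma
open Cfsg.Agent.Lib.Theta.Poisson Cfsg.Agent.Lib.Theta.Unimodular Cfsg.Agent.Lib.Theta.Form

lemma coeff_mul_0 (a b : PowerSeries ℂ) : (a * b).coeff 0 = a.coeff 0 * b.coeff 0 := by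
  simp [PowerSeries.coeff_mul]

lemma coeff_mul_1 (a b : PowerSeries ℂ) :
    (a * b).coeff 1 = a.coeff 0 * b.coeff 1 + a.coeff 1 * b.coeff 0 := by
  simp [PowerSeries.coeff_mul, Finset.Nat.antidiagonal_succ]

lemma coeff_mul_2 (a b : PowerSeries ℂ) :
    (a * b).coeff 2 = a.coeff 0 * b.coeff 2 + a.coeff 1 * b.coeff 1 + a.coeff 2 * b.coeff 0 := by
  simp [PowerSeries.coeff_mul, Finset.Nat.antidiagonal_succ]
  ring

lemma coeff_mul_3 (a b : PowerSeries ℂ) :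
    (a * b).coeff 3 = a.coeff 0 * b.coeff 3 + a.coeff 1 * b.coeff 2 + a.coeff 2 * b.coeff 1
      + a.coeff 3 * b.coeff 0 := by
  simp [PowerSeries.coeff_mul, Finset.Nat.antidiagonal_succ]
  ring

lemma coeff_mul_4 (a b : PowerSeries ℂ) :
    (a * b).coeff 4 = a.coeff 0 * b.coeff 4 + a.coeff 1 * b.coeff 3 + a.coeff 2 * b.coeff 2
      + a.coeff 3 * b.coeff 1 + a.coeff 4 * b.coeff 0 := by
  simp [PowerSeries.coeff_mul, Finset.Nat.antidiagonal_succ]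
  ring

lemma b4 : bernoulli 4 = -1 / 30 := by decide +kernel
lemma b6 : bernoulli 6 = 1 / 42 := by decide +kernel

lemma e4_0 : (qExpansion 1 E₄).coeff 0 = 1 := E_qExpansion_coeff_zero _ ⟨2, rfl⟩
lemma e4_1 : (qExpansion 1 E₄).coeff 1 = 240 := E₄_qExpansion_coeff_one
lemma e4_2 : (qExpansion 1 E₄).coeff 2 = 2160 := by
  have h : σ 3 2 = 9 := by decide +kernel
  norm_num [E_qExpansion_coeff _ ⟨2, rfl⟩, b4, h]
lemma e4_3 : (qExpansion 1 E₄).coeff 3 = 6720 := by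
  have h : σ 3 3 = 28 := by decide +kernel
  norm_num [E_qExpansion_coeff _ ⟨2, rfl⟩, b4, h]
lemma e4_4 : (qExpansion 1 E₄).coeff 4 = 17520 := by
  have h : σ 3 4 = 73 := by decide +kernel
  norm_num [E_qExpansion_coeff _ ⟨2, rfl⟩, b4, h]

lemma e6_0 : (qExpansion 1 E₆).coeff 0 = 1 := E_qExpansion_coeff_zero _ ⟨3, rfl⟩
lemma e6_1 : (qExpansion 1 E₆).coeff 1 = -504 := E₆_qExpansion_coeff_one
lemma e6_2 : (qExpansion 1 E₆).coeff 2 = -16632 := by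
  have h : σ 5 2 = 33 := by decide +kernel
  norm_num [E_qExpansion_coeff _ ⟨3, rfl⟩, b6, h]
lemma e6_3 : (qExpansion 1 E₆).coeff 3 = -122976 := by
  have h : σ 5 3 = 244 := by decide +kernel
  norm_num [E_qExpansion_coeff _ ⟨3, rfl⟩, b6, h]
lemma e6_4 : (qExpansion 1 E₆).coeff 4 = -532728 := by
  have h : σ 5 4 = 1057 := by decide +kernel
  norm_num [E_qExpansion_coeff _ ⟨3, rfl⟩, b6, h]

/-- The squares of `E₄`. -/
lemma e44_coeffs :
    (qExpansion 1 E₄ * qExpansion 1 E₄).coeff 0 = 1 ∧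
    (qExpansion 1 E₄ * qExpansion 1 E₄).coeff 1 = 480 ∧
    (qExpansion 1 E₄ * qExpansion 1 E₄).coeff 2 = 61920 ∧
    (qExpansion 1 E₄ * qExpansion 1 E₄).coeff 3 = 1050240 ∧
    (qExpansion 1 E₄ * qExpansion 1 E₄).coeff 4 = 7926240 := by
  refine ⟨?_, ?_, ?_, ?_, ?_⟩
  · rw [coeff_mul_0, e4_0]; norm_num
  · rw [coeff_mul_1, e4_0, e4_1]; norm_num
  · rw [coeff_mul_2, e4_0, e4_1, e4_2]; norm_num
  · rw [coeff_mul_3, e4_0, e4_1, e4_2, e4_3]; norm_num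
  · rw [coeff_mul_4, e4_0, e4_1, e4_2, e4_3, e4_4]; norm_num

lemma e444_coeffs :
    (qExpansion 1 E₄ * qExpansion 1 E₄ * qExpansion 1 E₄).coeff 0 = 1 ∧
    (qExpansion 1 E₄ * qExpansion 1 E₄ * qExpansion 1 E₄).coeff 1 = 720 ∧
    (qExpansion 1 E₄ * qExpansion 1 E₄ * qExpansion 1 E₄).coeff 2 = 179280 ∧
    (qExpansion 1 E₄ * qExpansion 1 E₄ * qExpansion 1 E₄).coeff 3 = 16954560 ∧
    (qExpansion 1 E₄ * qExpansion 1 E₄ * qExpansion 1 E₄).coeff 4 = 396974160 := by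
  obtain ⟨s0, s1, s2, s3, s4⟩ := e44_coeffs
  refine ⟨?_, ?_, ?_, ?_, ?_⟩
  · rw [coeff_mul_0, e4_0, s0]; norm_num
  · rw [coeff_mul_1, e4_0, e4_1, s0, s1]; norm_num
  · rw [coeff_mul_2, e4_0, e4_1, e4_2, s0, s1, s2]; norm_num
  · rw [coeff_mul_3, e4_0, e4_1, e4_2, e4_3, s0, s1, s2, s3]; norm_num
  · rw [coeff_mul_4, e4_0, e4_1, e4_2, e4_3, e4_4, s0, s1, s2, s3, s4]; norm_num

lemma e66_coeffs :
    (qExpansion 1 E₆ * qExpansion 1 E₆).coeff 0 = 1 ∧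
    (qExpansion 1 E₆ * qExpansion 1 E₆).coeff 1 = -1008 ∧
    (qExpansion 1 E₆ * qExpansion 1 E₆).coeff 2 = 220752 ∧
    (qExpansion 1 E₆ * qExpansion 1 E₆).coeff 3 = 16519104 ∧
    (qExpansion 1 E₆ * qExpansion 1 E₆).coeff 4 = 399517776 := by
  refine ⟨?_, ?_, ?_, ?_, ?_⟩
  · rw [coeff_mul_0, e6_0]; norm_num
  · rw [coeff_mul_1, e6_0, e6_1]; norm_num
  · rw [coeff_mul_2, e6_0, e6_1, e6_2]; norm_num
  · rw [coeff_mul_3, e6_0, e6_1, e6_2, e6_3]; norm_num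
  · rw [coeff_mul_4, e6_0, e6_1, e6_2, e6_3, e6_4]; norm_num

variable {B : Matrix (Fin 24) (Fin 24) ℤ}

lemma coeff_theta (h : Hyp B) (m : ℕ) : (qExpansion 1 (thetaForm h)).coeff m = (rep B m : ℂ) :=
  (ModularFormClass.qExpansion_coeff_unique (Γ := 𝒮ℒ) (k := 12) (f := thetaForm h)
    (c := fun m => (rep B m : ℂ)) one_pos one_mem_strictPeriods_SL
    (fun τ => hasSum_q h τ) m).symm

/-- The difference of the theta series and its Eisenstein expression. -/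
noncomputable def Gform (h : Hyp B) : ModularForm 𝒮ℒ 12 :=
  thetaForm h - (7 / 12 : ℂ) • ModularForm.mcast (by decide) (E₄.pow 3)
    - (5 / 12 : ℂ) • ModularForm.mcast (by decide) (E₆.pow 2)

lemma qG (h : Hyp B) : qExpansion 1 (Gform h) = qExpansion 1 (thetaForm h)
    - (7 / 12 : ℂ) • (qExpansion 1 E₄ * qExpansion 1 E₄ * qExpansion 1 E₄)
    - (5 / 12 : ℂ) • (qExpansion 1 E₆ * qExpansion 1 E₆) := by
  rw [Gform, FunLike.coe_sub, ModularForm.qExpansion_sub one_pos one_mem_strictPeriods_SL,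
    FunLike.coe_sub, ModularForm.qExpansion_sub one_pos one_mem_strictPeriods_SL,
    FunLike.coe_smul, FunLike.coe_smul,
    ModularForm.qExpansion_smul one_pos one_mem_strictPeriods_SL,
    ModularForm.qExpansion_smul one_pos one_mem_strictPeriods_SL, coe_mcast, coe_mcast,
    ModularForm.qExpansion_pow one_pos one_mem_strictPeriods_SL,
    ModularForm.qExpansion_pow one_pos one_mem_strictPeriods_SL]
  congr 3
  · ring
  · ring

lemma rep_zero (h : Hyp B) : rep B 0 = 1 := by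
  have : {x : Fin 24 → ℤ | Q B x = 2 * ((0 : ℕ) : ℤ)} = {0} := by
    ext x
    simp only [Set.mem_ofPred_eq, Set.mem_singleton_iff, Nat.cast_zero, mul_zero]
    constructor
    · intro hx
      by_contra hne
      exact (h.hpos x hne).ne' hx
    · rintro rfl
      simp [Q]
  rw [rep, this, Set.ncard_singleton]

lemma rep_one (h2 : ∀ x : Fin 24 → ℤ, x ⬝ᵥ (B *ᵥ x) ≠ 2) : rep B 1 = 0 := by
  have : {x : Fin 24 → ℤ | Q B x = 2 * ((1 : ℕ) : ℤ)} = ∅ := by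
    ext x
    simp only [Set.mem_ofPred_eq, Set.mem_empty_iff_false, iff_false, Nat.cast_one, mul_one]
    exact h2 x
  rw [rep, this, Set.ncard_empty]

lemma Gform_eq_zero (h : Hyp B) (h2 : ∀ x : Fin 24 → ℤ, x ⬝ᵥ (B *ᵥ x) ≠ 2) : Gform h = 0 := by
  apply ModularForm.sturm_bound_levelOne
  have h3 : ((2 : ℕ) : ℕ∞) ≤ (qExpansion 1 (Gform h)).order := by
    apply PowerSeries.nat_le_order
    intro i hi
    obtain ⟨s0, s1, -, -, -⟩ := e444_coeffs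
    obtain ⟨t0, t1, -, -, -⟩ := e66_coeffs
    rw [qG]
    interval_cases i
    · simp only [map_sub, PowerSeries.coeff_smul, coeff_theta, rep_zero h, s0, t0, smul_eq_mul]
      norm_num
    · simp only [map_sub, PowerSeries.coeff_smul, coeff_theta, rep_one h2, s1, t1, smul_eq_mul]
      norm_num
  refine lt_of_lt_of_le ?_ h3
  exact_mod_cast (by decide : (12 : ℤ).toNat / 12 < 2)

lemma rep_eq (h : Hyp B) (h2 : ∀ x : Fin 24 → ℤ, x ⬝ᵥ (B *ᵥ x) ≠ 2) (m : ℕ) :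
    (rep B m : ℂ) = (7 / 12 : ℂ) * (qExpansion 1 E₄ * qExpansion 1 E₄ * qExpansion 1 E₄).coeff m
      + (5 / 12 : ℂ) * (qExpansion 1 E₆ * qExpansion 1 E₆).coeff m := by
  have h3 := qG h
  rw [Gform_eq_zero h h2] at h3
  have h4 : qExpansion 1 ((0 : ModularForm 𝒮ℒ 12) : ℍ → ℂ) = 0 := by
    simpa using qExpansion_zero 1
  rw [h4] at h3
  have h5 := congrArg (PowerSeries.coeff m) h3
  simp only [map_sub, PowerSeries.coeff_smul, coeff_theta, smul_eq_mul, map_zero] at h5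
  linear_combination -h5

/-- An even unimodular lattice of rank 24 without roots has 196560, 16773120 and 398034000 vectors of norms 4, 6 and 8. -/
theorem result (B : Matrix (Fin 24) (Fin 24) ℤ) (hsymm : B.IsSymm) (hpos : ∀ x : Fin 24 → ℤ, x ≠ 0 → 0 < x ⬝ᵥ (B *ᵥ x)) (heven : ∀ x : Fin 24 → ℤ, (2 : ℤ) ∣ x ⬝ᵥ (B *ᵥ x)) (hdet : B.det = 1) (h2 : ∀ x : Fin 24 → ℤ, x ⬝ᵥ (B *ᵥ x) ≠ 2) : {x : Fin 24 → ℤ | x ⬝ᵥ (B *ᵥ x) = 4}.ncard = 196560 ∧ {x : Fin 24 → ℤ | x ⬝ᵥ (B *ᵥ x) = 6}.ncard = 16773120 ∧ {x : Fin 24 → ℤ | x ⬝ᵥ (B *ᵥ x) = 8}.ncard = 398034000 := by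
  have h : Hyp B := ⟨hsymm, hpos, heven, hdet⟩
  obtain ⟨-, -, s2, s3, s4⟩ := e444_coeffs
  obtain ⟨-, -, t2, t3, t4⟩ := e66_coeffs
  refine ⟨?_, ?_, ?_⟩
  · have h3 := rep_eq h h2 2
    rw [s2, t2] at h3
    have h4 : (rep B 2 : ℂ) = ((196560 : ℕ) : ℂ) := by rw [h3]; norm_num
    exact Nat.cast_injective h4
  · have h3 := rep_eq h h2 3
    rw [s3, t3] at h3
    have h4 : (rep B 3 : ℂ) = ((16773120 : ℕ) : ℂ) := by rw [h3]; norm_num
    exact Nat.cast_injective h4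
  · have h3 := rep_eq h h2 4
    rw [s4, t4] at h3
    have h4 : (rep B 4 : ℂ) = ((398034000 : ℕ) : ℂ) := by rw [h3]; norm_num
    exact Nat.cast_injective h4

end Cfsg.Agent.S1632
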