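import Cfsg.Statements.S1638
import Cfsg.Agent.Lib.GolayCert.Basic

set_option autoImplicit false
open Cfsg

namespace Cfsg.Agent.S1638

open Cfsg.Agent.Lib.Golay.Core Cfsg.Agent.Lib.Golay.Perm Cfsg.Agent.Lib.Golay.M24
  Cfsg.Agent.Lib.GolayCert.Basic
open scoped Pointwise

def X : List ℕ := [6, 10, 18, 34, 66, 130, 258, 514, 1026, 2050, 4098, 8194, 16386, 32770, 65538, 131074, 262146, 524290, 1048578, 2097154, 4194306, 12, 20, 36, 68, 132, 260, 516, 1028, 2052, 4100, 8196, 16388, 32772, 65540, 131076, 262148, 524292, 1048580, 2097156, 4194308, 24, 40, 72, 136, 264, 520, 1032, 2056, 4104, 8200, 16392, 32776, 65544, 131080, 262152, 524296, 1048584, 2097160, 4194312, 48, 80, 144, 272, 528, 1040, 2064, 4112, 8208, 16400, 32784, 65552, 131088, 262160, 524304, 1048592, 2097168, 4194320, 96, 160, 288, 544, 1056, 2080, 4128, 8224, 16416, 32800, 65568, 131104, 262176, 524320, 1048608, 2097184, 4194336, 192, 320, 576, 1088, 2112, 4160, 8256, 16448, 32832, 65600, 131136, 262208, 524352, 1048640, 2097216, 4194368, 384, 640, 1152, 2176, 4224, 8320, 16512, 32896, 65664, 131200, 262272, 524416, 1048704, 2097280,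 4194432, 768, 1280, 2304, 4352, 8448, 16640, 33024, 65792, 131328, 262400, 524544, 1048832, 2097408, 4194560, 1536, 2560, 4608, 8704, 16896, 33280, 66048, 131584, 262656, 524800, 1049088, 2097664, 4194816, 3072, 5120, 9216, 17408, 33792, 66560, 132096, 263168, 525312, 1049600, 2098176, 4195328, 6144, 10240, 18432, 34816, 67584, 133120, 264192, 526336, 1050624, 2099200, 4196352, 12288, 20480, 36864, 69632, 135168, 266240, 528384, 1052672, 2101248, 4198400, 24576, 40960, 73728, 139264, 270336, 532480, 1056768, 2105344, 4202496, 49152, 81920, 147456, 278528, 540672, 1064960, 2113536, 4210688, 98304, 163840, 294912, 557056, 1081344, 2129920, 4227072, 196608, 327680, 589824, 1114112, 2162688, 4259840, 393216, 655360, 1179648, 2228224, 4325376, 786432, 1310720, 2359296, 4456448, 1572864, 2621440, 4718592, 3145728, 5242880, 6291456]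

def O4 : List ℕ := [12656663, 8536111, 11010247, 9471495, 8657159]

def Tm : List ℕ := [984818244535754528103549039458486304, 982216542242302284987893913819219008, 973970792660502034490951479562733600, 962203303033045809109270365883466816, 973124163925901373722800419439674432, 971215170011181409770527145437791296, 962486906830724262641293339762787392, 984202951082164080105044112956360736, 984190829003939976719075744372196416, 960825417957425906109012642839791648, 970322781939031196865325183095212064, 972629626609958877646520151255352384, 967236044361929848788370809945326656, 959580593325871872237472628424116256, 977023451795203591179182037798520864, 964896719063628858851723375248147520, 960903739627010471756186598494406688, 959572455649885058980190788692378688, 961201953041670424094368472031791136, 962122215501851606014822753091848224, 962145113639401650698052683413423168, 962266368625015775992430565233362976, 978002197537977421002794054083478592, 970256651220484101061139319382083616, 978266852674382294020052675747645472, 972710638389792020426656532144555072, 962411357464364391274665116306802720,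 966599397489102402560166140259238976, 962167936376009610410585210137904192, 978970367660464688568536472612964384, 959693254855734501775143668396262464, 978068873723395863263296920702519328, 972524647128003812880915395219097632, 979567274227303435457170383282766912, 979182095024283541835810525023995936, 967353289668497469824798356297614400, 960093617937167817143669775418983488, 974393957471495370344329307904968736, 975712182748202338673310193597220896, 977909502521654255961191784428176448]

def Sm : List ℕ := [10, 16388, 18, 1048580, 131076, 12, 2097156, 34, 32772, 4098, 16386, 262148, 260, 262146, 131074, 65540, 32770, 8196, 130, 1048578, 2052, 2050, 1028, 65538, 258, 132, 514, 36, 516, 66, 4194308, 524290, 1026, 20, 2097154, 4100, 68, 8194, 4194306, 524292]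

theorem tabm : tabOK [23, 0] [6] 10 Tm Sm = true := by decide +kernel

def Ty : List ℕ := [984818244535754528103549039458486304, 982216542242302284987893913819219008, 973970792660502034490951479562733600, 962203303033045809109270365883466816, 973124163925901373722800419439674432, 975142260029045025207067819024451616, 962486906830724262641293339762787392, 984190829003939976719075744372196416, 960825417957425906109012642839791648, 970322781939031196865325183095212064, 972629626609958877646520151255352384, 962692494962897143346210198405776448, 959580593325871872237472628424116256, 977023451795203591179182037798520864, 964896719063628858851723375248147520, 960903739627010471756186598494406688, 970541438042897335644671233247840288, 961201953041670424094368472031791136, 962145113639401650698052683413423168, 962266368625015775992430565233362976, 978002197537977421002794054083478592, 981490570288415352523461015249617984, 972710638389792020426656532144555072, 962167936376009610410585210137904192, 978970367660464688568536472612964384, 970332197157246789695388660682393632, 971144220185587489329825864791589952,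 978068873723395863263296920702519328, 978240471914373150543701218063549504, 962206832684409178541348503168648256]

def Sy : List ℕ := [40, 16392, 8208, 1049600, 131080, 4194320, 2097216, 33280, 4352, 16416, 262400, 2304, 266240, 147456, 65552, 1081344, 131104, 2097280, 6144, 264192, 1536, 73728, 524416, 1049088, 524352, 192, 33792, 2621440, 4259840, 4202496]

theorem taby : tabOK [23, 0] [6] 40 Ty Sy = true := by decide +kernel

def Tn : List ℕ := [984818244535754528103549039458486304, 982216542242302284987893913819219008, 973970792660502034490951479562733600, 962203303033045809109270365883466816, 973124163925901373722800419439674432, 971215170011181409770527145437791296, 975142260029045025207067819024451616, 962486906830724262641293339762787392, 984190829003939976719075744372196416, 960825417957425906109012642839791648, 970322781939031196865325183095212064, 972629626609958877646520151255352384, 967236044361929848788370809945326656, 963721886883755259286232606933354528, 962692494962897143346210198405776448, 959580593325871872237472628424116256, 977023451795203591179182037798520864, 964896719063628858851723375248147520,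 960903739627010471756186598494406688, 970541438042897335644671233247840288, 967332269220820985088722713450154016, 959572455649885058980190788692378688, 961201953041670424094368472031791136, 975118181606309390048497344427099200, 962122215501851606014822753091848224, 962145113639401650698052683413423168, 962266368625015775992430565233362976, 963346641302244241982471832828512288, 979299556883986407263123071073453120, 963986539662824443053173619360860192, 975144285144125704803987780920509504, 978002197537977421002794054083478592, 976934804572108675034832543981668384, 975761911728209370957688237428606016, 962611253961943204381187851949704256, 978083253838761495735653035792401472, 972833308706979135990656995110291488, 965022493459746283130018686207886400, 981490570288415352523461015249617984, 970256651220484101061139319382083616, 971751362491713752516051802350126144, 974047838953398371220996715143464992, 970075068886824735502948315867678752, 960020170834692553853658638056949792, 972710638389792020426656532144555072, 969237027325823941075897414264686624, 962411357464364391274665116306802720, 963662097051925691064079423399659552,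 959728629987122829907976784506750016, 967532269917795608261166275949135904, 962167936376009610410585210137904192, 966072229395862996125954801748052000, 978970367660464688568536472612964384, 970332197157246789695388660682393632, 967927597525770162379514019195291680, 959693254855734501775143668396262464, 961438956620049001677386430328277024, 969910755176304412474811566361348128, 978068873723395863263296920702519328, 972511419622997439730146510820017216, 972524647128003812880915395219097632, 972514426325144782609045684941816896, 971633525764808927561739514817905728, 960967234848287693649750146423326752, 983181576260869841483408450384331840, 974395464107601521457589214999087136, 979567274227303435457170383282766912, 980512851159382908514979656779827232, 976448692869377735270425038196672544, 966640923336257472158143722819814464, 979182095024283541835810525023995936, 979612761135085349229180013683835968, 966069182237921668830061854568450080, 967353289668497469824798356297614400, 963711734539935659349921087882724416, 969270257273082843792772143420376128, 984729024866845585847773473154597952, 972770454313256898457466314500375616,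 971225217429278675044427981498352704, 982119493191201878313597071695021120, 982121476293700140834309494019328032, 983302234409465665739245931656086592, 980421867072432333423031731677070400, 960182115794658139683125432418994208, 968912900032127568182918297745098784, 959784233650421388760062734961903648, 984169119608203352993209106286478400, 963824789087822382199838033533437984, 960093617937167817143669775418983488, 966355550999394418470969827140077600, 979619133005709257154361437362194464, 971250062615488954382813322157885472, 975733772474947071058566967307961408, 984796179168465586366325660890825792, 967615613186340025327223837821667360, 964070359369583356051758867390137408, 962293394058910103839053343018813472, 976440334210163876066406969125438528, 976446678642137503722099707505575968, 966301787494894827497586395390871584, 976973859287096119039064931091809344, 965368550258846209573872583801374752, 967968398785531099191378481990763584, 970048674810705520494696404827408416, 966363228935415986555560527841690688, 978928843751921164161998224507929664, 980789331429673586638800457102297120, 983538936296448362955135914987586624,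 967232232756481943857213201915971616, 969081076275865334734343089526539328, 972837602857931776252215153482139680, 971372120683063587532041734129878080, 960707327905875803655146658016626720, 983095068856337923890517670108988480, 974382549837249411236583343216329792, 963399819103283738838906161048421440, 976855572424901721721349531821049888, 968697252811683421781902155001006112, 968704819687898552228077804511790144, 965094465281548659659880837065902112, 983063401360178586603532053144274976, 983185387879511632629423111257884704, 965011860988450249044208609238942784, 972771709591600271314490660250650656, 981531329083443017662659881993831488, 972567732294267178342106519849763904, 968540104338107175955812700454029344, 959732426763950752223113323844601888, 981848083619636547089346645105771584, 983474122460219283709443728926409792, 975646876382416914215977140105905216, 979003512155845838638610401681147936, 977882756760545762751104706800191520, 960840712590098802992059483034027072, 963759945827206640126088901221975104, 980429274036646381384707589472257088, 980180972975439497609191197324216352, 976985076211871434866472677834884160,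 965081833150425210872023260378433568, 964800462066308015025357066965681216, 963998191217834094291011081799927840, 976606345479140352428929033050555456, 971815478923619209507298517055865920, 961408375171655776237160981205714976, 977829533413467937103331238399379488, 963583675636508639431900464290203680, 969019625435275558275279831321248832, 971775034188102070182232673449576480, 970379072414551139010924340576879680, 964813392411509389322199375059354688, 965122159029419326131648912239625280, 969061968522975890968665870042563648, 975405814691423433555763681167770688, 967207845375914529171405248051545152, 974376445649588076328415409097507904, 963523916441317838196589186465990688, 980780344045533210134366277635311648, 965203603043051473101952301480412224, 972393791853642768354580183682058272, 975402797084281575790909816301651008]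

def Sn : List ℕ := [24, 17408, 48, 1179648, 196608, 264, 1048592, 2097160, 98304, 69632, 16640, 327680, 33024, 136, 131328, 393216, 139264, 589824, 4227072, 262176, 163840, 24576, 8320, 131584, 1048584, 18432, 133120, 528384, 20480, 262272, 3072, 1032, 8224, 132096, 65544, 288, 5242880, 72, 66048, 65792, 294912, 160, 135168, 65568, 4194432, 528, 16896, 524304, 49152, 1056, 520, 4128, 2112, 4160, 32800, 4325376, 4210688, 278528, 540672, 81920, 1040, 4456448, 262152, 4198400, 655360, 4104, 2064, 3145728, 8200, 262160, 2101248, 2080, 34816, 1052672, 16512, 32776, 66560, 131088, 67584, 768, 32784, 32832, 131136, 2113536, 1048832, 2228224, 144, 2129920, 96, 262656, 272, 1310720, 544, 1114112, 2098176, 524544, 524296, 4195328, 4194816, 262208, 4194368, 525312, 1048608, 270336, 4224, 1050624, 131200, 2176, 36864, 4608, 4112, 2359296, 4718592, 1572864, 4194336, 2099200, 2105344, 1056768, 32896, 2097184, 80, 524320, 557056, 16400, 263168, 4196352, 2097664, 1064960, 576, 526336, 5120, 4194560, 4194312, 9216, 524800, 65664, 2097168, 12288, 320, 1088, 6291456, 8704, 10240, 532480, 16448, 384, 640, 8448, 786432,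 2162688, 2097408, 40960, 2560, 1280, 2056, 1152, 8256, 1048640, 65600, 1048704]

theorem tabn : tabOK [23, 0] [6] 24 Tn Sn = true := by decide +kernel

/-- The octad property for masks. -/
def oprop (n : ℕ) : Bool := O4.any fun o => Nat.beq (Nat.land o (Nat.lor n 6)) (Nat.lor n 6)

/-- The octad property. -/
def OP (p q : GolayPt) (s t : Finset GolayPt) : Prop := ∃ o ∈ octads, p ∈ o ∧ q ∈ o ∧ s ∪ t ⊆ o

theorem OP_smul {τ : Equiv.Perm GolayPt} (hτ : τ ∈ M24) {p q : GolayPt} {s t : Finset GolayPt}
    (h : OP p q s t) : OP (τ p) (τ q) (τ • s) (τ • t) := by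
  obtain ⟨o, ho, h1, h2, h3⟩ := h
  refine ⟨τ • o, smul_mem_octads hτ ho, (mem_smul_iff τ p o).mpr h1, (mem_smul_iff τ q o).mpr h2, ?_⟩
  rw [← Finset.smul_finset_union]
  exact Finset.smul_finset_subset_smul_finset_iff.mpr h3

theorem OP_smul_iff {τ : Equiv.Perm GolayPt} (hτ : τ ∈ M24) {p q : GolayPt} {s t : Finset GolayPt} :
    OP (τ p) (τ q) (τ • s) (τ • t) ↔ OP p q s t := by
  refine ⟨fun h => ?_, OP_smul hτ⟩
  have := OP_smul (M24.inv_mem hτ) h
  simpa using this

theorem O4_octad : ∀ o ∈ O4, o < 2 ^ 24 ∧ isCode o = true ∧ pop o = 8 ∧ o.testBit 23 = true ∧ o.testBit 0 = true := by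
  decide +kernel

theorem O4_cover : ∀ m < 4096, pop (code m) = 8 → (code m).testBit 23 = true → (code m).testBit 0 = true →
    (code m).testBit 1 = true → (code m).testBit 2 = true → code m ∈ O4 := by
  have h : allUpTo (fun m => !(Nat.beq (pop (code m)) 8 && (code m).testBit 23 && (code m).testBit 0 &&
    (code m).testBit 1 && (code m).testBit 2) || O4.contains (code m)) 4096 = true := by
    decide +kernel
  intro m hm h1 h2 h3 h4 h5
  have h6 := allUpTo_iff.mp h m hm
  simp only [h1, h2, h3, h4, h5, Bool.and_true, Nat.beq_refl, Bool.not_true, Bool.false_or] at h6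
  simpa using h6

theorem subset_iff (a b : ℕ) : setOf a ⊆ setOf b ↔ ∀ i < 24, a.testBit i = true → b.testBit i = true := by
  constructor
  · intro h i hi hb
    have := h ((pt_mem_setOf hi).mpr hb)
    exact (pt_mem_setOf hi).mp this
  · intro h p hp
    rw [mem_setOf] at hp ⊢
    exact h _ (idx_lt p) hp

theorem OP_base {n : ℕ} (hn : n < 2 ^ 24) : OP (pt 23) (pt 0) (setOf 6) (setOf n) ↔ oprop n = true := by
  constructor
  · rintro ⟨o, ho, h1, h2, h3⟩
    obtain ⟨m, hm, h8, rfl⟩ := mem_octads_iff.mp ho
    rw [pt_mem_setOf (by norm_num)] at h1 h2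
    have hsub : ∀ i < 24, (Nat.lor n 6).testBit i = true → (code m).testBit i = true := by
      intro i hi hb
      have h5 : pt i ∈ setOf 6 ∪ setOf n := by
        have hb' : (n ||| 6).testBit i = true := hb
        rw [Nat.testBit_or, Bool.or_eq_true] at hb'
        rw [Finset.mem_union, pt_mem_setOf hi, pt_mem_setOf hi]
        tauto
      exact (pt_mem_setOf hi).mp (h3 h5)
    have h6 : (Nat.lor n 6).testBit 1 = true := by
      show (n ||| 6).testBit 1 = true
      rw [Nat.testBit_or, Bool.or_eq_true]
      exact Or.inr (by decide)
    have h7 : (Nat.lor n 6).testBit 2 = true := by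
      show (n ||| 6).testBit 2 = true
      rw [Nat.testBit_or, Bool.or_eq_true]
      exact Or.inr (by decide)
    have hO := O4_cover m hm h8 h1 h2 (hsub 1 (by norm_num) h6) (hsub 2 (by norm_num) h7)
    simp only [oprop, List.any_eq_true]
    refine ⟨_, hO, ?_⟩
    have hsub2 : Nat.land (code m) (Nat.lor n 6) = Nat.lor n 6 := by
      apply Nat.eq_of_testBit_eq
      intro i
      show ((code m) &&& (n ||| 6)).testBit i = (n ||| 6).testBit i
      rw [Nat.testBit_and]
      cases hb : (n ||| 6).testBit i with
      | false => simp
      | true =>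
        by_cases hi : i < 24
        · rw [hsub i hi hb]; rfl
        · exfalso
          have h2i : (2 : ℕ) ^ 24 ≤ 2 ^ i := Nat.pow_le_pow_right (by norm_num) (by omega)
          have h6 : (6 : ℕ) < 2 ^ 24 := by norm_num
          rw [Nat.testBit_or, Nat.testBit_eq_false_of_lt (lt_of_lt_of_le hn h2i),
            Nat.testBit_eq_false_of_lt (lt_of_lt_of_le h6 h2i)] at hb
          exact absurd hb (by simp)
    rw [hsub2]
    exact Nat.beq_refl _
  · intro h
    simp only [oprop, List.any_eq_true] at h
    obtain ⟨o, ho, h1⟩ := h
    obtain ⟨h2, h3, h4, h5, h6⟩ := O4_octad o ho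
    have e := Nat.eq_of_beq_eq_true h1
    refine ⟨setOf o, (setOf_mem_octads_iff h2).mpr ⟨h3, h4⟩, (pt_mem_setOf (by norm_num)).mpr h5,
      (pt_mem_setOf (by norm_num)).mpr h6, ?_⟩
    intro p hp
    rw [mem_setOf]
    have h7 : (Nat.lor n 6).testBit (idx p) = true := by
      show (n ||| 6).testBit _ = true
      rw [Nat.testBit_or, Bool.or_eq_true]
      rcases Finset.mem_union.mp hp with hp | hp
      · exact Or.inr (mem_setOf.mp hp)
      · exact Or.inl (mem_setOf.mp hp)
    rw [← e] at h7
    have h8 : (o &&& (n ||| 6)).testBit (idx p) = true := h7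
    rw [Nat.testBit_and, Bool.and_eq_true] at h8
    exact h8.1

/-- Masks of two points. -/
def pm (i j : ℕ) : ℕ := Nat.lor (Nat.shiftLeft 1 i) (Nat.shiftLeft 1 j)

theorem setOf_pm (x y : GolayPt) : setOf (pm (idx x) (idx y)) = {x, y} := by
  ext z
  rw [mem_setOf, Finset.mem_insert, Finset.mem_singleton]
  have e : pm (idx x) (idx y) = 2 ^ idx x ||| 2 ^ idx y := by
    show 1 <<< idx x ||| 1 <<< idx y = _
    rw [Nat.one_shiftLeft, Nat.one_shiftLeft]
  rw [e, Nat.testBit_or, Bool.or_eq_true, Nat.testBit_two_pow, Nat.testBit_two_pow]
  simp only [decide_eq_true_eq]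
  constructor
  · rintro (h | h)
    · exact Or.inl (idx_injective h.symm)
    · exact Or.inr (idx_injective h.symm)
  · rintro (rfl | rfl)
    · exact Or.inl rfl
    · exact Or.inr rfl

theorem pm_mem : ∀ i < 24, ∀ j < 24, i ≠ j → i ≠ 23 → j ≠ 23 → i ≠ 0 → j ≠ 0 → pm i j ∈ X := by
  have h : allUpTo (fun i => allUpTo (fun j => Nat.beq i j || Nat.beq i 23 || Nat.beq j 23 ||
      Nat.beq i 0 || Nat.beq j 0 || X.contains (pm i j)) 24) 24 = true := by decide +kernel
  intro i hi j hj h1 h2 h3 h4 h5
  have h6 := allUpTo_iff.mp (allUpTo_iff.mp h i hi) j hj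
  simp only [Bool.or_eq_true] at h6
  rcases h6 with (((((h6 | h6) | h6) | h6) | h6) | h6)
  · exact absurd (Nat.eq_of_beq_eq_true h6) h1
  · exact absurd (Nat.eq_of_beq_eq_true h6) h2
  · exact absurd (Nat.eq_of_beq_eq_true h6) h3
  · exact absurd (Nat.eq_of_beq_eq_true h6) h4
  · exact absurd (Nat.eq_of_beq_eq_true h6) h5
  · simpa using h6

theorem idx_ne {x : GolayPt} {i : ℕ} (hi : i < 24) (h : pt i ≠ x) : idx x ≠ i := by
  rintro rfl
  exact h (pt_idx x)

/-- Every pair avoiding the two base points has its mask in `X`. -/
theorem exists_mask_pair {t : Finset GolayPt} (h : t.card = 2) (h1 : pt 23 ∉ t) (h2 : pt 0 ∉ t) :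
    ∃ n ∈ X, t = setOf n := by
  obtain ⟨x, y, hxy, rfl⟩ := Finset.card_eq_two.mp h
  have hx1 : pt 23 ≠ x := fun e => h1 (by simp [e])
  have hy1 : pt 23 ≠ y := fun e => h1 (by simp [e])
  have hx2 : pt 0 ≠ x := fun e => h2 (by simp [e])
  have hy2 : pt 0 ≠ y := fun e => h2 (by simp [e])
  refine ⟨pm (idx x) (idx y), pm_mem _ (idx_lt x) _ (idx_lt y) (fun e => hxy (idx_injective e))
    (idx_ne (by norm_num) hx1) (idx_ne (by norm_num) hy1) (idx_ne (by norm_num) hx2)
    (idx_ne (by norm_num) hy2), (setOf_pm x y).symm⟩

theorem X_props : ∀ n ∈ X, n < 2 ^ 24 ∧ pop n = 2 ∧ n.testBit 23 = false ∧ n.testBit 0 = false := by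
  decide +kernel

/-- Classification of the masks. -/
theorem X_cover : ∀ n ∈ X, n = 6 ∨ (pop (Nat.land 6 n) = 1 ∧ n ∈ Sm) ∨
    (pop (Nat.land 6 n) = 0 ∧ oprop n = true ∧ n ∈ Sy) ∨
    (pop (Nat.land 6 n) = 0 ∧ oprop n = false ∧ n ∈ Sn) := by
  decide +kernel

theorem Sy_props : ∀ n ∈ Sy, n ∈ X ∧ pop (Nat.land 6 n) = 0 ∧ oprop n = true := by decide +kernel
theorem Sn_props : ∀ n ∈ Sn, n ∈ X ∧ pop (Nat.land 6 n) = 0 ∧ oprop n = false := by decide +kernel

theorem Sy_nodup : Sy.Nodup := by decide +kernel
theorem Sn_nodup : Sn.Nodup := by decide +kernel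

/-- The sets of pairs with a given octad property, at the base. -/
def BS (b : Bool) : Set (Finset GolayPt) :=
  {t | (t.card = 2 ∧ pt 23 ∉ t ∧ pt 0 ∉ t) ∧ Disjoint (setOf 6) t ∧
    (OP (pt 23) (pt 0) (setOf 6) t ↔ b = true)}

theorem disjoint_iff_pop (n : ℕ) : Disjoint (setOf 6) (setOf n) ↔ pop (Nat.land 6 n) = 0 := by
  rw [← card_inter_setOf, Finset.card_eq_zero, Finset.disjoint_iff_inter_eq_empty]

theorem mem_X_mem_BS {n : ℕ} (hn : n ∈ X) (b : Bool) :
    setOf n ∈ BS b ↔ pop (Nat.land 6 n) = 0 ∧ oprop n = b := by
  obtain ⟨h1, h2, h3, h4⟩ := X_props n hn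
  simp only [BS, Set.mem_ofPred_eq]
  rw [card_setOf, pt_mem_setOf (by norm_num), pt_mem_setOf (by norm_num), OP_base h1,
    disjoint_iff_pop, h2, h3, h4]
  cases b <;> cases hop : oprop n <;> simp

theorem inj_X {a b : ℕ} (ha : a ∈ X) (hb : b ∈ X) (h : setOf a = setOf b) : a = b :=
  eq_of_setOf_eq (X_props a ha).1 (X_props b hb).1 h

theorem ncard_BS {b : Bool} {S : List ℕ} (hS : ∀ n ∈ S, n ∈ X ∧ pop (Nat.land 6 n) = 0 ∧ oprop n = b)
    (hc : ∀ n ∈ X, pop (Nat.land 6 n) = 0 → oprop n = b → n ∈ S) (hnd : S.Nodup) :
    (BS b).ncard = S.length := by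
  have e : BS b = Lib.Golay.Core.setOf '' ((S.toFinset : Finset ℕ) : Set ℕ) := by
    ext t
    simp only [Set.mem_image, Finset.mem_coe, List.mem_toFinset]
    constructor
    · intro ht
      obtain ⟨n, hn, rfl⟩ := exists_mask_pair ht.1.1 ht.1.2.1 ht.1.2.2
      have := (mem_X_mem_BS hn b).mp ht
      exact ⟨n, hc n hn this.1 this.2, rfl⟩
    · rintro ⟨n, hn, rfl⟩
      obtain ⟨h1, h2, h3⟩ := hS n hn
      exact (mem_X_mem_BS h1 b).mpr ⟨h2, h3⟩
  rw [e, Set.InjOn.ncard_image, Set.ncard_coe_finset, List.toFinset_card_of_nodup hnd]
  intro a ha c hc' hac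
  have ha' := (hS a (List.mem_toFinset.mp ha)).1
  have hc'' := (hS c (List.mem_toFinset.mp hc')).1
  exact inj_X ha' hc'' hac

theorem ncard_BS_true : (BS true).ncard = 30 := by
  rw [ncard_BS (S := Sy) Sy_props ?_ Sy_nodup]
  · decide +kernel
  · intro n hn h1 h2
    rcases X_cover n hn with rfl | ⟨h3, _⟩ | ⟨_, _, h3⟩ | ⟨_, h3, _⟩
    · exact absurd h1 (by decide +kernel)
    · omega
    · exact h3
    · rw [h3] at h2; exact absurd h2 (by simp)

theorem ncard_BS_false : (BS false).ncard = 160 := by
  rw [ncard_BS (S := Sn) Sn_props ?_ Sn_nodup]
  · decide +kernel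
  · intro n hn h1 h2
    rcases X_cover n hn with rfl | ⟨h3, _⟩ | ⟨_, h3, _⟩ | ⟨_, _, h3⟩
    · exact absurd h1 (by decide +kernel)
    · omega
    · rw [h3] at h2; exact absurd h2 (by simp)
    · exact h3

theorem base_orbit {a b : ℕ} (ha : a ∈ X) (hb : b ∈ X) (ha6 : a ≠ 6) (hb6 : b ≠ 6)
    (hk : pop (Nat.land 6 a) = pop (Nat.land 6 b)) (ho : oprop a = true ↔ oprop b = true) :
    ∃ σ, Good [23, 0] [6] σ ∧ σ • setOf a = setOf b := by
  rcases X_cover a ha with rfl | ⟨h1, h2⟩ | ⟨h1, h3, h2⟩ | ⟨h1, h3, h2⟩
  · exact absurd rfl ha6
  · rcases X_cover b hb with rfl | ⟨h4, h5⟩ | ⟨h4, _, h5⟩ | ⟨h4, _, h5⟩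
    · exact absurd rfl hb6
    · exact exists_between tabm h2 h5
    · omega
    · omega
  · rcases X_cover b hb with rfl | ⟨h4, h5⟩ | ⟨h4, h6, h5⟩ | ⟨h4, h6, h5⟩
    · exact absurd rfl hb6
    · omega
    · exact exists_between taby h2 h5
    · rw [h6, h3] at ho
      simp at ho
  · rcases X_cover b hb with rfl | ⟨h4, h5⟩ | ⟨h4, h6, h5⟩ | ⟨h4, h6, h5⟩
    · exact absurd rfl hb6
    · omega
    · rw [h6, h3] at ho
      simp at ho
    · exact exists_between tabn h2 h5

/-- Fix two points p ≠ q and a pair s of two further points. Among the pairs avoiding p, q and disjoint from s, exactly 30 lie in an octad together with p, q and s and exactly 160 do not; and any two pairs other than s that meet s in equally many points and agree on that octad property are carried to one another by an element of the group of the length-24 code fixing p, q and s. -/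
theorem result (p q : Cfsg.GolayPt) (hpq : p ≠ q) (s : Finset Cfsg.GolayPt) (hs : (s.card = 2 ∧ p ∉ s ∧ q ∉ s)) : {t : Finset Cfsg.GolayPt | (t.card = 2 ∧ p ∉ t ∧ q ∉ t) ∧ Disjoint s t ∧ (∃ o ∈ Cfsg.octads, p ∈ o ∧ q ∈ o ∧ s ∪ t ⊆ o)}.ncard = 30 ∧ {t : Finset Cfsg.GolayPt | (t.card = 2 ∧ p ∉ t ∧ q ∉ t) ∧ Disjoint s t ∧ ¬ (∃ o ∈ Cfsg.octads, p ∈ o ∧ q ∈ o ∧ s ∪ t ⊆ o)}.ncard = 160 ∧ ∀ t t' : Finset Cfsg.GolayPt, (t.card = 2 ∧ p ∉ t ∧ q ∉ t) → (t'.card = 2 ∧ p ∉ t' ∧ q ∉ t') → t ≠ s → t' ≠ s → (s ∩ t).card = (s ∩ t').card → ((∃ o ∈ Cfsg.octads, p ∈ o ∧ q ∈ o ∧ s ∪ t ⊆ o) ↔ (∃ o ∈ Cfsg.octads, p ∈ o ∧ q ∈ o ∧ s ∪ t' ⊆ o)) → ∃ g : Equiv.Perm Cfsg.GolayPt, g ∈ Cfsg.M24 ∧ g p = p ∧ g q = q ∧ g • s = s ∧ g • t = t' := by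
  obtain ⟨a, b, hab, rfl⟩ := Finset.card_eq_two.mp hs.1
  have hpa : p ≠ a := fun e => hs.2.1 (by simp [e])
  have hpb : p ≠ b := fun e => hs.2.1 (by simp [e])
  have hqa : q ≠ a := fun e => hs.2.2 (by simp [e])
  have hqb : q ≠ b := fun e => hs.2.2 (by simp [e])
  obtain ⟨τ, hτ, hl⟩ := Cfsg.Agent.Lib.M24Orb.Subsets.exists_map_list [p, q, a, b]
    [pt 23, pt 0, pt 1, pt 2] rfl (by simp)
    (by simp [hpq, hpa, hpb, hqa, hqb, hab]) (by decide +kernel)
  simp only [List.map_cons, List.map_nil, List.cons.injEq, and_true] at hl
  obtain ⟨h1, h2, h3, h4⟩ := hl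
  have hτs : τ • ({a, b} : Finset GolayPt) = setOf 6 := by
    have e6 : setOf 6 = ({pt 1, pt 2} : Finset GolayPt) := by decide +kernel
    rw [e6, ← h3, ← h4, Finset.smul_finset_insert, Finset.smul_finset_singleton]
    rfl
  set s : Finset GolayPt := {a, b} with hs_def
  have hOP : ∀ t, (∃ o ∈ Cfsg.octads, p ∈ o ∧ q ∈ o ∧ s ∪ t ⊆ o) ↔
      OP (pt 23) (pt 0) (setOf 6) (τ • t) := by
    intro t
    rw [← h1, ← h2, ← hτs]
    exact (OP_smul_iff hτ).symm
  have hdisj : ∀ t, Disjoint s t ↔ Disjoint (setOf 6) (τ • t) := by
    intro t
    rw [← hτs, Finset.disjoint_iff_inter_eq_empty, Finset.disjoint_iff_inter_eq_empty,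
      ← Finset.card_eq_zero, ← Finset.card_eq_zero, card_inter_smul]
  have hbase : ∀ t : Finset GolayPt, (t.card = 2 ∧ p ∉ t ∧ q ∉ t) ↔ ((τ • t).card = 2 ∧ pt 23 ∉ τ • t ∧ pt 0 ∉ τ • t) := by
    intro t
    rw [← h1, ← h2, Finset.card_smul_finset, mem_smul_iff, mem_smul_iff]
  refine ⟨?_, ?_, ?_⟩
  · refine (ncard_smul_eq τ ?_).trans ncard_BS_true
    intro t
    simp only [BS, Set.mem_ofPred_eq]
    rw [← hbase, ← hdisj, ← hOP]
    tauto
  · refine (ncard_smul_eq τ ?_).trans ncard_BS_false
    intro t
    simp only [BS, Set.mem_ofPred_eq]
    rw [← hbase, ← hdisj, ← hOP]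
    simp
  · intro t t' ht ht' hts hts' hc hop
    obtain ⟨n, hn, e⟩ := exists_mask_pair ((hbase t).mp ht).1 ((hbase t).mp ht).2.1 ((hbase t).mp ht).2.2
    obtain ⟨n', hn', e'⟩ := exists_mask_pair ((hbase t').mp ht').1 ((hbase t').mp ht').2.1 ((hbase t').mp ht').2.2
    have hne : n ≠ 6 := by
      rintro rfl
      apply hts
      exact MulAction.injective τ (e.trans hτs.symm)
    have hne' : n' ≠ 6 := by
      rintro rfl
      apply hts'
      exact MulAction.injective τ (e'.trans hτs.symm)
    have hk : pop (Nat.land 6 n) = pop (Nat.land 6 n') := by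
      rw [← card_inter_setOf, ← card_inter_setOf, ← e, ← e', ← hτs, card_inter_smul,
        card_inter_smul, hc]
    have ho : oprop n = true ↔ oprop n' = true := by
      rw [← OP_base (X_props n hn).1, ← OP_base (X_props n' hn').1, ← e, ← e', ← hOP, ← hOP]
      exact hop
    obtain ⟨σ, hσ, hσe⟩ := base_orbit hn hn' hne hne' hk ho
    refine ⟨τ⁻¹ * σ * τ, M24.mul_mem (M24.mul_mem (M24.inv_mem hτ) hσ.mem) hτ, ?_, ?_, ?_, ?_⟩
    · rw [Equiv.Perm.mul_apply, Equiv.Perm.mul_apply, h1, hσ.fix 23 (by simp), Equiv.Perm.inv_eq_iff_eq, h1]
    · rw [Equiv.Perm.mul_apply, Equiv.Perm.mul_apply, h2, hσ.fix 0 (by simp), Equiv.Perm.inv_eq_iff_eq, h2]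
    · rw [mul_smul, mul_smul, hτs, hσ.stab 6 (by simp), inv_smul_eq_iff, hτs]
    · rw [mul_smul, mul_smul, e, hσe, inv_smul_eq_iff, e']

end Cfsg.Agent.S1638
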