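import Cfsg.Statements.S1669
import Cfsg.Agent.Lib.RuRec.Main
import Cfsg.Agent.Lib.RuRec.Model
import Cfsg.Agent.Lib.RuRec.Iso
import Cfsg.Agent.Lib.RuBridge.Iso

set_option autoImplicit false
open Cfsg

namespace Cfsg.Agent.S1669

open Equiv Cfsg.Agent.Lib.RuRec Cfsg.Agent.Lib.RuRec.Cc Cfsg.Agent.Lib.CosetCert
  Cfsg.Agent.Lib.CosetCert.D.Ru.Tbl

/-- Recognition of the Rudvalis group as a rank 3 permutation group: a transitive permutation group on 4060 points in which the stabiliser of a point is isomorphic to the Ree group ²F₄(2) and has two further orbits, of sizes 1755 and 2304, is isomorphic to the Rudvalis group. -/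
theorem result {Ω : Type*} [Fintype Ω] [DecidableEq Ω] (hΩ : Fintype.card Ω = 4060) (G : Subgroup (Equiv.Perm Ω)) [MulAction.IsPretransitive G Ω] (a : Ω)  (e : MulAction.stabilizer G a ≃* Cfsg.Lie.twistedF4 (ZMod 2) 1) (b c : Ω) (hb : (MulAction.orbit (MulAction.stabilizer G a) b).ncard = 1755) (hc : (MulAction.orbit (MulAction.stabilizer G a) c).ncard = 2304) : Cfsg.Spor.IsoRu G := by
  classical
  obtain ⟨f⟩ := exists_iso
  let e' : MulAction.stabilizer G a ≃* L1.G := e.trans f
  let th : Perm (Fin 4060) → Perm Ω := fun q =>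
    if h : q ∈ L1.G then ((e'.symm ⟨q, h⟩ : MulAction.stabilizer G a) : G).1 else 1
  have th_eq : ∀ q (h : q ∈ L1.G), th q = ((e'.symm ⟨q, h⟩ : MulAction.stabilizer G a) : G).1 :=
    fun q h => dif_pos h
  have T : Th DD G a th := by
    refine ⟨?_, ?_, ?_, ?_, ?_⟩
    · intro p hp q hq
      have hpq : p * q ∈ L1.G := L1.G.mul_mem hp hq
      rw [th_eq _ hpq, th_eq _ hp, th_eq _ hq]
      have h1 : (⟨p * q, hpq⟩ : L1.G) = ⟨p, hp⟩ * ⟨q, hq⟩ := rfl
      rw [h1, map_mul]
      rfl
    · intro q hq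
      rw [th_eq _ hq]
      exact ((e'.symm ⟨q, hq⟩ : MulAction.stabilizer G a) : G).2
    · intro q hq
      rw [th_eq _ hq]
      exact (e'.symm ⟨q, hq⟩).2
    · intro g hg hga
      let s : MulAction.stabilizer G a := ⟨⟨g, hg⟩, hga⟩
      refine ⟨(e' s).1, (e' s).2, ?_⟩
      rw [th_eq _ (e' s).2]
      have h1 : (⟨(e' s).1, (e' s).2⟩ : L1.G) = e' s := rfl
      rw [h1, e'.symm_apply_apply]
    · intro q hq h
      rw [th_eq _ hq] at h
      have h1 : e'.symm ⟨q, hq⟩ = 1 := Subtype.ext (Subtype.ext h)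
      have h2 := (e'.symm_apply_eq).1 h1
      have h3 := congrArg Subtype.val h2
      rw [map_one] at h3
      exact h3
  have horb : ∀ x, MulAction.orbit (MulAction.stabilizer G a) x = Orb G a x := by
    intro x
    ext y
    constructor
    · rintro ⟨s, rfl⟩
      exact ⟨s.1.1, s.1.2, s.2, rfl⟩
    · rintro ⟨g, hg, hga, rfl⟩
      exact ⟨⟨⟨g, hg⟩, hga⟩, rfl⟩
  have O : Orbits G a b c := by
    refine ⟨?_, ?_, ?_, hΩ⟩
    · intro x
      obtain ⟨g, hg⟩ := MulAction.exists_smul_eq G a x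
      exact ⟨g.1, g.2, hg⟩
    · rw [← horb]; exact hb
    · rw [← horb]; exact hc
  have hG : Nat.card G = 145926144000 := by
    have h1 := MulAction.index_stabilizer G a
    have h2 := Subgroup.card_mul_index (MulAction.stabilizer G a)
    have h3 : MulAction.orbit G a = Set.univ := by
      ext x
      simp only [Set.mem_univ, iff_true]
      exact MulAction.exists_smul_eq G a x
    rw [h3, Set.ncard_univ, Nat.card_eq_fintype_card, hΩ] at h1
    rw [h1, Nat.card_congr e'.toEquiv, D.Ru.Final.card1] at h2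
    omega
  obtain ⟨φ⟩ := main_abs model T O hG
  exact ⟨φ.trans Cfsg.Agent.Lib.RuBridge.ruIso.symm⟩

end Cfsg.Agent.S1669
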