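import Cfsg.Statements.S1679
import Cfsg.Agent.Lib.TC.D.SuzH.Tgt

set_option autoImplicit false
open Cfsg

namespace Cfsg.Agent.S1679

open Cfsg.Agent.Lib.TC.Main Cfsg.Agent.Lib.TC.G.Suz Cfsg.Agent.Lib.TC.D.SuzG24.Tab Cfsg.Agent.Lib.TC.D.SuzG24.Ok in
/-- The subgroup of the statement, as a subgroup generated by letters. -/
theorem hH : ((Subgroup.closure ({Cfsg.Spor.Suz.a, Cfsg.Spor.Suz.b, Cfsg.Spor.Suz.c, Cfsg.Spor.Suz.d, Cfsg.Spor.Suz.e, Cfsg.Spor.Suz.f} : Set (FreeGroup Cfsg.Spor.Suz.Gen))).map (PresentedGroup.mk (Cfsg.Spor.coxRelators Cfsg.Spor.Suz.edges ∪ {r | r ∈ Cfsg.Spor.Suz.extra}))) = subOf K Rel subs := by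
  rw [← hsubs]
  refine map_closure_eq valid subW _ ?_
  have h : subW.map FreeGroup.mk = [Cfsg.Spor.Suz.a, Cfsg.Spor.Suz.b, Cfsg.Spor.Suz.c, Cfsg.Spor.Suz.d, Cfsg.Spor.Suz.e, Cfsg.Spor.Suz.f] := rfl
  rw [h]
  ext x
  simp

/-- In the presented sporadic Suzuki group (generators a, …, g), the subgroup generated by the images of a, …, f is isomorphic to the adjoint Chevalley group of type G₂ over a field with four elements. -/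
theorem result : ∃ (K : Type) (_ : Field K) (_ : Fintype K), Fintype.card K = 4 ∧ Nonempty ((((Subgroup.closure ({Cfsg.Spor.Suz.a, Cfsg.Spor.Suz.b, Cfsg.Spor.Suz.c, Cfsg.Spor.Suz.d, Cfsg.Spor.Suz.e, Cfsg.Spor.Suz.f} : Set (FreeGroup Cfsg.Spor.Suz.Gen))).map (PresentedGroup.mk (Cfsg.Spor.coxRelators Cfsg.Spor.Suz.edges ∪ {r | r ∈ Cfsg.Spor.Suz.extra})))) ≃* Cfsg.Lie.chevG2.group K) := by
  rw [hH]
  have h0 : Cfsg.Agent.Lib.TC.Main.subOf Cfsg.Agent.Lib.TC.G.Suz.K Cfsg.Agent.Lib.TC.G.Suz.Rel Cfsg.Agent.Lib.TC.D.SuzG24.Tab.subs =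
      Cfsg.Agent.Lib.TC.Chain.Lt (Cfsg.Agent.Lib.TC.G.Suz.K.E Cfsg.Agent.Lib.TC.G.Suz.Rel) Cfsg.Agent.Lib.TC.D.SuzChain.S1_Tab.ls := by
    rw [Cfsg.Agent.Lib.TC.D.SuzH.Iso.hsubsB]
    exact Cfsg.Agent.Lib.TC.Iso.subOf_singletons _ _ _
  rw [h0]
  obtain ⟨e, _⟩ := Cfsg.Agent.Lib.TC.D.SuzH.Iso.exists_iso
  obtain ⟨t⟩ := Cfsg.Agent.Lib.TC.D.SuzH.Tgt.equiv_T
  exact ⟨Cfsg.Agent.Lib.PrimeGraph.G24Field.K4, inferInstance, inferInstance, Cfsg.Agent.Lib.PrimeGraph.G24Field.K4.card_eq, ⟨e.symm.trans t⟩⟩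

end Cfsg.Agent.S1679
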