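import Cfsg.Statements.S1680
import Cfsg.Agent.Lib.TC.D.SuzG24.Orb

set_option autoImplicit false
open Cfsg

namespace Cfsg.Agent.S1680

open Cfsg.Spor.Suz Cfsg.Agent.Lib.TC.Main Cfsg.Agent.Lib.TC.G.Suz Cfsg.Agent.Lib.TC.D.SuzG24.Tab Cfsg.Agent.Lib.TC.D.SuzG24.Ok Cfsg.Agent.Lib.TC.D.SuzG24.Orb in
/-- The subgroup of the statement, as a subgroup generated by words. -/
theorem hH : (Subgroup.closure ({Cfsg.Spor.Suz.a, Cfsg.Spor.Suz.b, Cfsg.Spor.Suz.c, Cfsg.Spor.Suz.d, Cfsg.Spor.Suz.e, Cfsg.Spor.Suz.f} : Set (FreeGroup Cfsg.Spor.Suz.Gen))).map (PresentedGroup.mk (Cfsg.Spor.coxRelators Cfsg.Spor.Suz.edges ∪ {r | r ∈ Cfsg.Spor.Suz.extra})) = subOf K Rel subs := by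
  rw [← hsubs]
  refine map_closure_eq valid subW _ ?_
  have h : subW.map FreeGroup.mk = [Cfsg.Spor.Suz.a, Cfsg.Spor.Suz.b, Cfsg.Spor.Suz.c, Cfsg.Spor.Suz.d, Cfsg.Spor.Suz.e, Cfsg.Spor.Suz.f] := rfl
  rw [h]
  ext x
  simp

/-- In the presented sporadic Suzuki group, let H be the subgroup generated by the images of a, …, f. Then H has index 1782, H has orbits of sizes 416 and 1365 on the cosets of H other than H itself (with the index 1782 this makes the action rank 3). -/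
theorem result : (((Subgroup.closure ({Cfsg.Spor.Suz.a, Cfsg.Spor.Suz.b, Cfsg.Spor.Suz.c, Cfsg.Spor.Suz.d, Cfsg.Spor.Suz.e, Cfsg.Spor.Suz.f} : Set (FreeGroup Cfsg.Spor.Suz.Gen))).map (PresentedGroup.mk (Cfsg.Spor.coxRelators Cfsg.Spor.Suz.edges ∪ {r | r ∈ Cfsg.Spor.Suz.extra})))).index = 1782 ∧ ∃ q₁ q₂ : Cfsg.Spor.Suz ⧸ (((Subgroup.closure ({Cfsg.Spor.Suz.a, Cfsg.Spor.Suz.b, Cfsg.Spor.Suz.c, Cfsg.Spor.Suz.d, Cfsg.Spor.Suz.e, Cfsg.Spor.Suz.f} : Set (FreeGroup Cfsg.Spor.Suz.Gen))).map (PresentedGroup.mk (Cfsg.Spor.coxRelators Cfsg.Spor.Suz.edges ∪ {r | r ∈ Cfsg.Spor.Suz.extra})))), (MulAction.orbit (((Subgroup.closure ({Cfsg.Spor.Suz.a, Cfsg.Spor.Suz.b, Cfsg.Spor.Suz.c, Cfsg.Spor.Suz.d, Cfsg.Spor.Suz.e, Cfsg.Spor.Suz.f} : Set (FreeGroup Cfsg.Spor.Suz.Gen))).map (PresentedGroup.mk (Cfsg.Spor.coxRelators Cfsg.Spor.Suz.edges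 ∪ {r | r ∈ Cfsg.Spor.Suz.extra})))) q₁).ncard = 416 ∧ (MulAction.orbit (((Subgroup.closure ({Cfsg.Spor.Suz.a, Cfsg.Spor.Suz.b, Cfsg.Spor.Suz.c, Cfsg.Spor.Suz.d, Cfsg.Spor.Suz.e, Cfsg.Spor.Suz.f} : Set (FreeGroup Cfsg.Spor.Suz.Gen))).map (PresentedGroup.mk (Cfsg.Spor.coxRelators Cfsg.Spor.Suz.edges ∪ {r | r ∈ Cfsg.Spor.Suz.extra})))) q₂).ncard = 1365 := by
  rw [hH]
  refine ⟨Cfsg.Agent.Lib.TC.D.SuzG24.Ok.ok.index_eq, ?_⟩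
  obtain ⟨ev, h⟩ := Cfsg.Agent.Lib.TC.D.SuzG24.Orb.spec2
  obtain ⟨q₁, _, _, h₁⟩ := h 2 47 416 (by decide) (by decide) (by decide +kernel) (by decide +kernel)
  obtain ⟨q₂, _, _, h₂⟩ := h 1 1 1365 (by decide) (by decide) (by decide +kernel) (by decide +kernel)
  exact ⟨q₁, q₂, h₁, h₂⟩

end Cfsg.Agent.S1680
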