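import Cfsg.Statements.S1681
import Cfsg.Agent.Lib.TC.D.SuzU43.Ok

set_option autoImplicit false
open Cfsg

namespace Cfsg.Agent.S1681

open Cfsg.Agent.Lib.TC.Main Cfsg.Agent.Lib.TC.G.Suz Cfsg.Agent.Lib.TC.D.SuzU43.Tab Cfsg.Agent.Lib.TC.D.SuzU43.Ok in
/-- The subgroup of the statement, as a subgroup generated by words. -/
theorem hH : ((Subgroup.closure ({Cfsg.Spor.Suz.a, Cfsg.Spor.Suz.b, Cfsg.Spor.Suz.c, Cfsg.Spor.Suz.d, Cfsg.Spor.Suz.f, Cfsg.Spor.Suz.g} : Set (FreeGroup Cfsg.Spor.Suz.Gen))).map (PresentedGroup.mk (Cfsg.Spor.coxRelators Cfsg.Spor.Suz.edges ∪ {r | r ∈ Cfsg.Spor.Suz.extra}))) = subOf K Rel subs := by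
  rw [← hsubs]
  refine map_closure_eq valid subW _ ?_
  have h : subW.map FreeGroup.mk = [Cfsg.Spor.Suz.a, Cfsg.Spor.Suz.b, Cfsg.Spor.Suz.c, Cfsg.Spor.Suz.d, Cfsg.Spor.Suz.f, Cfsg.Spor.Suz.g] := rfl
  rw [h]
  ext x
  simp

/-- In the presented sporadic Suzuki group (generators a, …, g), the subgroup generated by the images of a, b, c, d, f, g has index 22880. -/
theorem result : (((Subgroup.closure ({Cfsg.Spor.Suz.a, Cfsg.Spor.Suz.b, Cfsg.Spor.Suz.c, Cfsg.Spor.Suz.d, Cfsg.Spor.Suz.f, Cfsg.Spor.Suz.g} : Set (FreeGroup Cfsg.Spor.Suz.Gen))).map (PresentedGroup.mk (Cfsg.Spor.coxRelators Cfsg.Spor.Suz.edges ∪ {r | r ∈ Cfsg.Spor.Suz.extra})))).index = 22880 := by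
  rw [hH]
  exact Cfsg.Agent.Lib.TC.D.SuzU43.Ok.ok.index_eq

end Cfsg.Agent.S1681
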