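import Cfsg.Statements.S1682
import Cfsg.Agent.Lib.TC.D.HeH.Tgt

set_option autoImplicit false
open Cfsg

namespace Cfsg.Agent.S1682

open Cfsg.Agent.Lib.TC.Main Cfsg.Agent.Lib.TC.G.He Cfsg.Agent.Lib.TC.D.HeSp44.Tab Cfsg.Agent.Lib.TC.D.HeSp44.Ok in
/-- The subgroup of the statement, as a subgroup generated by words. -/
theorem hH : ((Subgroup.closure ({Cfsg.Spor.He.a, Cfsg.Spor.He.c, Cfsg.Spor.He.d, Cfsg.Spor.He.e, Cfsg.Spor.He.f, (Cfsg.Spor.He.a * Cfsg.Spor.He.b) ^ 2, (Cfsg.Spor.He.b * Cfsg.Spor.He.c * Cfsg.Spor.He.d * Cfsg.Spor.He.e) ^ 7} : Set (FreeGroup Cfsg.Spor.He.Gen))).map (PresentedGroup.mk (Cfsg.Spor.coxRelators Cfsg.Spor.He.edges ∪ {r | r ∈ Cfsg.Spor.He.extra}))) = subOf K Rel subs := by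
  rw [← hsubs]
  refine map_closure_eq valid subW _ ?_
  have h : subW.map FreeGroup.mk = [Cfsg.Spor.He.a, Cfsg.Spor.He.c, Cfsg.Spor.He.d, Cfsg.Spor.He.e, Cfsg.Spor.He.f, (Cfsg.Spor.He.a * Cfsg.Spor.He.b) ^ 2, (Cfsg.Spor.He.b * Cfsg.Spor.He.c * Cfsg.Spor.He.d * Cfsg.Spor.He.e) ^ 7] := by decide
  rw [h]
  ext x
  simp

/-- In the presented Held group, the subgroup H generated by the images of a, c, d, e, f, (ab)^2 and (bcde)^7 has a normal subgroup of index 2 isomorphic to the 4-dimensional symplectic group over a field with four elements. -/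
theorem result : ∃ (N : Subgroup (((Subgroup.closure ({Cfsg.Spor.He.a, Cfsg.Spor.He.c, Cfsg.Spor.He.d, Cfsg.Spor.He.e, Cfsg.Spor.He.f, (Cfsg.Spor.He.a * Cfsg.Spor.He.b) ^ 2, (Cfsg.Spor.He.b * Cfsg.Spor.He.c * Cfsg.Spor.He.d * Cfsg.Spor.He.e) ^ 7} : Set (FreeGroup Cfsg.Spor.He.Gen))).map (PresentedGroup.mk (Cfsg.Spor.coxRelators Cfsg.Spor.He.edges ∪ {r | r ∈ Cfsg.Spor.He.extra}))))) (K : Type) (_ : Field K) (_ : Fintype K), N.Normal ∧ N.index = 2 ∧ Fintype.card K = 4 ∧ Nonempty (N ≃* Matrix.symplecticGroup (Fin 2) K) := by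
  rw [hH]
  obtain ⟨e, _⟩ := Cfsg.Agent.Lib.TC.D.HeH.Wd.exists_iso
  obtain ⟨t⟩ := Cfsg.Agent.Lib.TC.D.HeH.Tgt.equiv_T
  obtain ⟨N, h1, h2, h3⟩ := Cfsg.Agent.Lib.TC.SubPres.exists_index_two _ (e.symm.trans t) (by simp [Nat.card_eq_fintype_card])
  exact ⟨N, Cfsg.Agent.Lib.PrimeGraph.G24Field.K4, inferInstance, inferInstance, h1, h2, Cfsg.Agent.Lib.PrimeGraph.G24Field.K4.card_eq, h3⟩

end Cfsg.Agent.S1682
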