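import Cfsg.Statements.S1688
import Cfsg.Agent.Lib.TC.D.Fi23Chain.Cover
import Cfsg.Agent.Lib.TC.D.Fi23a.Ok

set_option autoImplicit false
open Cfsg

namespace Cfsg.Agent.S1688

open Cfsg.Agent.Lib.TC.Main Cfsg.Agent.Lib.TC.G.Fi23 Cfsg.Agent.Lib.TC.D.Fi23a.Tab Cfsg.Agent.Lib.TC.D.Fi23a.Ok in
/-- The subgroup of the statement, as a subgroup generated by words. -/
theorem hH : ((Subgroup.closure ({Cfsg.Spor.Fi23.a, Cfsg.Spor.Fi23.b, Cfsg.Spor.Fi23.c, Cfsg.Spor.Fi23.d, Cfsg.Spor.Fi23.e, Cfsg.Spor.Fi23.f, Cfsg.Spor.Fi23.g, Cfsg.Spor.Fi23.h, Cfsg.Spor.Fi23.i} : Set (FreeGroup Cfsg.Spor.Fi23.Gen))).map (PresentedGroup.mk (Cfsg.Spor.coxRelators Cfsg.Spor.Fi23.edges ∪ {r | r ∈ Cfsg.Spor.Fi23.extra}))) = Cfsg.Agent.Lib.TC.D.Fi23Chain.Cover.H := by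
  have h0 : Cfsg.Agent.Lib.TC.D.Fi23Chain.Cover.H = subOf K Rel subs := by
    rw [Cfsg.Agent.Lib.TC.D.Fi23Chain.Cover.hsubs]
    exact (Cfsg.Agent.Lib.TC.Iso.subOf_singletons K Rel _).symm
  rw [h0, ← hsubs]
  refine map_closure_eq valid subW _ ?_
  have h : subW.map FreeGroup.mk = [Cfsg.Spor.Fi23.a, Cfsg.Spor.Fi23.b, Cfsg.Spor.Fi23.c, Cfsg.Spor.Fi23.d, Cfsg.Spor.Fi23.e, Cfsg.Spor.Fi23.f, Cfsg.Spor.Fi23.g, Cfsg.Spor.Fi23.h, Cfsg.Spor.Fi23.i] := rfl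
  rw [h]
  ext x
  simp

/-- In the presented Fischer group Fi₂₃, the subgroup generated by the images of a, …, i is a non-split double cover of the presented Fischer group Fi₂₂. -/
theorem result : Cfsg.IsNonsplitDoubleCover (((Subgroup.closure ({Cfsg.Spor.Fi23.a, Cfsg.Spor.Fi23.b, Cfsg.Spor.Fi23.c, Cfsg.Spor.Fi23.d, Cfsg.Spor.Fi23.e, Cfsg.Spor.Fi23.f, Cfsg.Spor.Fi23.g, Cfsg.Spor.Fi23.h, Cfsg.Spor.Fi23.i} : Set (FreeGroup Cfsg.Spor.Fi23.Gen))).map (PresentedGroup.mk (Cfsg.Spor.coxRelators Cfsg.Spor.Fi23.edges ∪ {r | r ∈ Cfsg.Spor.Fi23.extra})))) Cfsg.Spor.Fi22 := by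
  rw [hH]
  exact Cfsg.Agent.Lib.TC.D.Fi23Chain.Cover.cover

end Cfsg.Agent.S1688
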