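import Cfsg.Statements.S1691
-- import your own Cfsg.Agent.* helpers here

set_option autoImplicit false
open Cfsg

namespace Cfsg.Agent.S1691

open Cfsg.Spor

/-- The relators of the presentation. -/
abbrev rels : Set (FreeGroup Fi24.Gen) := coxRelators Fi24.edges ∪ {r | r ∈ Fi24.extra}

/-- The generator of the group of order two. -/
def alpha : Multiplicative (ZMod 2) := Multiplicative.ofAdd 1

lemma alpha_mul_self : alpha * alpha = 1 := by decide

lemma lift_rels (r : FreeGroup Fi24.Gen) (hr : r ∈ rels) :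
    FreeGroup.lift (fun _ : Fi24.Gen => alpha) r = 1 := by
  rcases hr with ⟨x, _, y, _, rfl⟩ | hr
  · simp [alpha_mul_self]
  · simp only [Set.mem_ofPred_eq, Fi24.extra, List.mem_cons, List.not_mem_nil, or_false] at hr
    rcases hr with rfl | rfl
    · simp only [map_mul, map_pow, map_inv, FreeGroup.lift_apply_of, Fi24.a, Fi24.b, Fi24.c,
        Fi24.d, Fi24.e, Fi24.f, Fi24.g, Fi24.h, Fi24.i, Fi24.j, Fi24.k, Fi24.l]
      decide
    · simp only [map_mul, map_pow, map_inv, FreeGroup.lift_apply_of, Fi24.a, Fi24.b, Fi24.c,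
        Fi24.d, Fi24.e, Fi24.f, Fi24.g, Fi24.h, Fi24.i, Fi24.j, Fi24.k, Fi24.l]
      decide

/-- The sign homomorphism. -/
def sgn : Fi24 →* Multiplicative (ZMod 2) :=
  PresentedGroup.toGroup (f := fun _ => alpha) lift_rels

lemma sgn_of (x : Fi24.Gen) : sgn (PresentedGroup.of x) = alpha := by
  simp [sgn, PresentedGroup.toGroup.of]

/-- The quotient map. -/
def piA : Fi24 →* Abelianization Fi24 := Abelianization.of

lemma rel_one (r : FreeGroup Fi24.Gen) (hr : r ∈ rels) : PresentedGroup.mk rels r = 1 :=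
  (PresentedGroup.mk_eq_one_iff).2 (Subgroup.subset_normalClosure hr)

lemma of_sq (x : Fi24.Gen) (hx : x ∈ coxNodes Fi24.edges) :
    piA (PresentedGroup.of x) ^ 2 = 1 := by
  have h : PresentedGroup.mk rels ((FreeGroup.of x * FreeGroup.of x) ^ coxLabel Fi24.edges x x) = 1 :=
    rel_one _ (Or.inl ⟨x, hx, x, hx, rfl⟩)
  have hl : coxLabel Fi24.edges x x = 1 := by simp [coxLabel]
  rw [hl, pow_one, map_mul] at h
  have h2 : (PresentedGroup.of x : Fi24) * PresentedGroup.of x = 1 := h
  rw [pow_two, ← map_mul, h2, map_one]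

lemma adj (x y : Fi24.Gen) (hx : x ∈ coxNodes Fi24.edges) (hy : y ∈ coxNodes Fi24.edges)
    (hl : coxLabel Fi24.edges x y = 3) :
    piA (PresentedGroup.of x) = piA (PresentedGroup.of y) := by
  have h : PresentedGroup.mk rels ((FreeGroup.of x * FreeGroup.of y) ^ coxLabel Fi24.edges x y) = 1 :=
    rel_one _ (Or.inl ⟨x, hx, y, hy, rfl⟩)
  rw [hl] at h
  have h2 : ((PresentedGroup.of x : Fi24) * PresentedGroup.of y) ^ 3 = 1 := by
    rw [map_pow, map_mul] at h
    exact h
  have h3 : (piA (PresentedGroup.of x) * piA (PresentedGroup.of y)) ^ 3 = 1 := by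
    rw [← map_mul, ← map_pow, h2, map_one]
  have hx2 := of_sq x hx
  have hy2 := of_sq y hy
  set u := piA (PresentedGroup.of x)
  set v := piA (PresentedGroup.of y)
  have h4 : u ^ 3 * v ^ 3 = 1 := by rw [← mul_pow]; exact h3
  have hu : u ^ 3 = u := by rw [pow_succ, hx2, one_mul]
  have hv : v ^ 3 = v := by rw [pow_succ, hy2, one_mul]
  rw [hu, hv] at h4
  have hv' : v * v = 1 := by rw [← pow_two]; exact hy2
  calc u = u * (v * v) := by rw [hv', mul_one]
    _ = (u * v) * v := by rw [mul_assoc]
    _ = v := by rw [h4, one_mul]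

lemma all_eq (x : Fi24.Gen) :
    piA (PresentedGroup.of x) = piA (PresentedGroup.of Fi24.Gen.a) := by
  have n : ∀ z : Fi24.Gen, z ∈ coxNodes Fi24.edges := by
    intro z; cases z <;> decide
  have e1 : piA (PresentedGroup.of Fi24.Gen.l) = piA (PresentedGroup.of Fi24.Gen.k) :=
    adj _ _ (n _) (n _) (by decide)
  have e2 : piA (PresentedGroup.of Fi24.Gen.k) = piA (PresentedGroup.of Fi24.Gen.a) :=
    adj _ _ (n _) (n _) (by decide)
  have e3 : piA (PresentedGroup.of Fi24.Gen.b) = piA (PresentedGroup.of Fi24.Gen.a) :=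
    adj _ _ (n _) (n _) (by decide)
  have e4 : piA (PresentedGroup.of Fi24.Gen.c) = piA (PresentedGroup.of Fi24.Gen.b) :=
    adj _ _ (n _) (n _) (by decide)
  have e5 : piA (PresentedGroup.of Fi24.Gen.d) = piA (PresentedGroup.of Fi24.Gen.c) :=
    adj _ _ (n _) (n _) (by decide)
  have e6 : piA (PresentedGroup.of Fi24.Gen.e) = piA (PresentedGroup.of Fi24.Gen.d) :=
    adj _ _ (n _) (n _) (by decide)
  have e7 : piA (PresentedGroup.of Fi24.Gen.h) = piA (PresentedGroup.of Fi24.Gen.d) :=
    adj _ _ (n _) (n _) (by decide)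
  have e8 : piA (PresentedGroup.of Fi24.Gen.f) = piA (PresentedGroup.of Fi24.Gen.e) :=
    adj _ _ (n _) (n _) (by decide)
  have e9 : piA (PresentedGroup.of Fi24.Gen.g) = piA (PresentedGroup.of Fi24.Gen.f) :=
    adj _ _ (n _) (n _) (by decide)
  have e10 : piA (PresentedGroup.of Fi24.Gen.j) = piA (PresentedGroup.of Fi24.Gen.g) :=
    adj _ _ (n _) (n _) (by decide)
  have e11 : piA (PresentedGroup.of Fi24.Gen.i) = piA (PresentedGroup.of Fi24.Gen.h) :=
    adj _ _ (n _) (n _) (by decide)
  cases x
  · rw [e1, e2]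
  · exact e2
  · rfl
  · exact e3
  · rw [e4, e3]
  · rw [e5, e4, e3]
  · rw [e6, e5, e4, e3]
  · rw [e8, e6, e5, e4, e3]
  · rw [e9, e8, e6, e5, e4, e3]
  · rw [e10, e9, e8, e6, e5, e4, e3]
  · rw [e7, e5, e4, e3]
  · rw [e11, e7, e5, e4, e3]

/-- Every element of the abelianisation is 1 or the common image of the generators. -/
lemma ab_cases (u : Abelianization Fi24) :
    u = 1 ∨ u = piA (PresentedGroup.of Fi24.Gen.a) := by
  have hsq : piA (PresentedGroup.of Fi24.Gen.a) * piA (PresentedGroup.of Fi24.Gen.a) = 1 := by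
    rw [← pow_two]; exact of_sq _ (by decide)
  have key : ∀ g : Fi24, piA g = 1 ∨ piA g = piA (PresentedGroup.of Fi24.Gen.a) := by
    intro g
    have hg : g ∈ Subgroup.closure (Set.range (PresentedGroup.of (rels := rels))) := by
      rw [PresentedGroup.closure_range_of]; trivial
    induction hg using Subgroup.closure_induction with
    | mem x hx =>
      obtain ⟨y, rfl⟩ := hx
      exact Or.inr (all_eq y)
    | one => exact Or.inl (map_one _)
    | mul x y _ _ ihx ihy =>
      rw [map_mul]
      rcases ihx with h1 | h1 <;> rcases ihy with h2 | h2 <;> rw [h1, h2]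
      · left; simp
      · right; simp
      · right; simp
      · left; exact hsq
    | inv x _ ih =>
      rw [map_inv]
      rcases ih with h1 | h1 <;> rw [h1]
      · left; simp
      · right; exact inv_eq_of_mul_eq_one_left hsq
  induction u using QuotientGroup.induction_on with
  | H g => exact key g

/-- The sign map on the abelianisation. -/
def sgnA : Abelianization Fi24 →* Multiplicative (ZMod 2) := Abelianization.lift sgn

lemma sgnA_piA (g : Fi24) : sgnA (piA g) = sgn g := by
  simp [sgnA, piA]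

lemma sgnA_bij : Function.Bijective sgnA := by
  constructor
  · rw [injective_iff_map_eq_one]
    intro u hu
    rcases ab_cases u with h | h
    · exact h
    · exfalso
      rw [h, sgnA_piA, sgn_of] at hu
      exact absurd hu (by decide)
  · intro y
    have hy : y = 1 ∨ y = alpha := by revert y; decide
    rcases hy with rfl | rfl
    · exact ⟨1, map_one _⟩
    · exact ⟨piA (PresentedGroup.of Fi24.Gen.a), by rw [sgnA_piA, sgn_of]⟩

/-- The commutator subgroup of the presented group Fi₂₄ has index 2 (the presented group is Fi₂₄′:2 with Fi₂₄′ its derived subgroup). -/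
theorem result : (commutator Cfsg.Spor.Fi24).index = 2 := by
  have h : Nat.card (Abelianization Fi24) = Nat.card (Multiplicative (ZMod 2)) :=
    Nat.card_congr (Equiv.ofBijective _ sgnA_bij)
  have h2 : Nat.card (Multiplicative (ZMod 2)) = 2 := by
    simp [Nat.card_eq_fintype_card, ZMod.card]
  change Nat.card (Abelianization Fi24) = 2
  rw [h, h2]

end Cfsg.Agent.S1691
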