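import Cfsg.Statements.S1693
import Cfsg.Agent.Lib.TC.D.ONH.Tgt

set_option autoImplicit false
open Cfsg

namespace Cfsg.Agent.S1693

open Cfsg.Agent.Lib.TC.Main Cfsg.Agent.Lib.TC.G.ON Cfsg.Agent.Lib.TC.D.ONa.Tab Cfsg.Agent.Lib.TC.D.ONa.Ok in
/-- The subgroup of the statement, as a subgroup generated by letters. -/
theorem hH : ((Subgroup.closure ({Cfsg.Spor.ON.a, Cfsg.Spor.ON.b, Cfsg.Spor.ON.c, Cfsg.Spor.ON.d, Cfsg.Spor.ON.e, Cfsg.Spor.ON.f} : Set (FreeGroup Cfsg.Spor.ON.Gen))).map (PresentedGroup.mk (Cfsg.Spor.coxRelators Cfsg.Spor.ON.edges ∪ {r | r ∈ Cfsg.Spor.ON.extra}))) = subOf K Rel subs := by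
  rw [← hsubs]
  refine map_closure_eq valid subW _ ?_
  have h : subW.map FreeGroup.mk = [Cfsg.Spor.ON.a, Cfsg.Spor.ON.b, Cfsg.Spor.ON.c, Cfsg.Spor.ON.d, Cfsg.Spor.ON.e, Cfsg.Spor.ON.f] := rfl
  rw [h]
  ext x
  simp

/-- In the presented O'Nan group, the subgroup H generated by the images of a, …, f has a normal subgroup of index 2 isomorphic to PSL(3, 7). -/
theorem result : ∃ N : Subgroup (((Subgroup.closure ({Cfsg.Spor.ON.a, Cfsg.Spor.ON.b, Cfsg.Spor.ON.c, Cfsg.Spor.ON.d, Cfsg.Spor.ON.e, Cfsg.Spor.ON.f} : Set (FreeGroup Cfsg.Spor.ON.Gen))).map (PresentedGroup.mk (Cfsg.Spor.coxRelators Cfsg.Spor.ON.edges ∪ {r | r ∈ Cfsg.Spor.ON.extra})))), N.Normal ∧ N.index = 2 ∧ Nonempty (N ≃* Matrix.ProjectiveSpecialLinearGroup (Fin 3) (ZMod 7)) := by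
  rw [hH]
  have h0 : Cfsg.Agent.Lib.TC.Main.subOf Cfsg.Agent.Lib.TC.G.ON.K Cfsg.Agent.Lib.TC.G.ON.Rel Cfsg.Agent.Lib.TC.D.ONa.Tab.subs =
      Cfsg.Agent.Lib.TC.Chain.Lt (Cfsg.Agent.Lib.TC.G.ON.K.E Cfsg.Agent.Lib.TC.G.ON.Rel) Cfsg.Agent.Lib.TC.D.ONChain.S1_Tab.ls := by
    rw [Cfsg.Agent.Lib.TC.D.ONH.Iso.hsubsB]
    exact Cfsg.Agent.Lib.TC.Iso.subOf_singletons _ _ _
  rw [h0]
  obtain ⟨e, _⟩ := Cfsg.Agent.Lib.TC.D.ONH.Iso.exists_iso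
  obtain ⟨t⟩ := Cfsg.Agent.Lib.TC.D.ONH.Tgt.equiv_T
  refine Cfsg.Agent.Lib.TC.SubPres.exists_index_two _ (e.symm.trans t) ?_
  simp [Nat.card_eq_fintype_card]

end Cfsg.Agent.S1693
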