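import Cfsg.Statements.S1717
-- import your own Cfsg.Agent.* helpers here

set_option autoImplicit false
open Cfsg

namespace Cfsg.Agent.S1717

open Subgroup

/-! ### The matrix side -/

abbrev M5 : Type := Matrix (Fin 5) (Fin 5) (ZMod 2)
abbrev SL5 : Type := Matrix.SpecialLinearGroup (Fin 5) (ZMod 2)

/-- The inverse of the ordering permutation `0 < 2 < 3 < 4 < 1`. -/
def invF : Fin 5 → Fin 5 := ![0, 4, 1, 2, 3]

/-- The ordering permutation. -/
def pi5 : Equiv.Perm (Fin 5) := ⟨![0, 2, 3, 4, 1], invF, by decide, by decide⟩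

def ord (i : Fin 5) : ℕ := (invF i).val

/-- Unitriangular with respect to the order. -/
def IsTri (A : M5) : Prop := ∀ i j, ord j ≤ ord i → A i j = if i = j then 1 else 0

lemma IsTri.one : IsTri (1 : M5) := by
  intro i j _
  rw [Matrix.one_apply]

lemma IsTri.mul {A B : M5} (hA : IsTri A) (hB : IsTri B) : IsTri (A * B) := by
  intro i j hij
  rw [Matrix.mul_apply, Finset.sum_eq_single i]
  · rw [hA i i le_rfl, hB i j hij]; simp
  · intro k _ hk
    by_cases hki : ord k ≤ ord i
    · rw [hA i k hki, if_neg (Ne.symm hk), zero_mul]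
    · have hkj : ord j ≤ ord k := by omega
      have hne : k ≠ j := by
        rintro rfl
        exact hki hij
      rw [hB k j hkj, if_neg hne, mul_zero]
  · intro h; exact absurd (Finset.mem_univ i) h

lemma IsTri.det {A : M5} (hA : IsTri A) : A.det = 1 := by
  have h1 : (A.submatrix pi5 pi5).det = A.det := Matrix.det_submatrix_equiv_self _ _
  have hord : ∀ k : Fin 5, ord (pi5 k) = k.val := by decide
  have h2 : (A.submatrix pi5 pi5).BlockTriangular id := by
    intro i j hij
    have hij' : j.val < i.val := hij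
    simp only [Matrix.submatrix_apply]
    rw [hA (pi5 i) (pi5 j) (by rw [hord, hord]; omega)]
    rw [if_neg]
    intro h
    have := pi5.injective h
    omega
  rw [← h1, Matrix.det_of_isUpperTriangular h2]
  apply Finset.prod_eq_one
  intro i _
  simp only [Matrix.submatrix_apply]
  rw [hA (pi5 i) (pi5 i) le_rfl, if_pos rfl]

/-- The subgroup of matrices unitriangular for the order. -/
def T0 : Subgroup SL5 where
  carrier := {A | IsTri A.1}
  mul_mem' := by
    intro a b ha hb
    exact IsTri.mul ha hb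
  one_mem' := IsTri.one
  inv_mem' := by
    intro A hA
    have hpow : ∀ n : ℕ, IsTri (A ^ n).1 := by
      intro n
      induction n with
      | zero => exact IsTri.one
      | succ n ih =>
        rw [pow_succ]
        exact IsTri.mul ih hA
    have h : A⁻¹ = A ^ (orderOf A - 1) := by
      have hpos : 0 < orderOf A := orderOf_pos A
      apply inv_eq_of_mul_eq_one_left
      rw [← pow_succ, Nat.sub_add_cancel hpos, pow_orderOf_eq_one]
    rw [Set.mem_ofPred_eq, h]
    exact hpow _

/-- The explicit parametrisation of unitriangular matrices. -/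
def mkM (u : Fin 10 → ZMod 2) : M5 :=
  !![1, u 3, u 0, u 1, u 2;
     0, 1, 0, 0, 0;
     0, u 6, 1, u 4, u 5;
     0, u 8, 0, 1, u 7;
     0, u 9, 0, 0, 1]

lemma mkM_tri (u : Fin 10 → ZMod 2) : IsTri (mkM u) := by
  intro i j hij
  fin_cases i <;> fin_cases j <;> first | rfl | (exfalso; revert hij; decide)

lemma tri_eq (A : M5) (hA : IsTri A) :
    A = mkM ![A 0 2, A 0 3, A 0 4, A 0 1, A 2 3, A 2 4, A 2 1, A 3 4, A 3 1, A 4 1] := by
  ext i j
  have hle : ∀ i j : Fin 5, decide (ord j ≤ ord i) = true → ord j ≤ ord i := fun _ _ h =>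
    of_decide_eq_true h
  fin_cases i <;> fin_cases j <;>
    first
      | rfl
      | (exact (hA _ _ (hle _ _ (by decide))).trans rfl)

/-- The parametrisation as an equivalence. -/
noncomputable def paramEquiv : (Fin 10 → ZMod 2) ≃ T0 where
  toFun u := ⟨⟨mkM u, IsTri.det (mkM_tri u)⟩, mkM_tri u⟩
  invFun A := ![A.1.1 0 2, A.1.1 0 3, A.1.1 0 4, A.1.1 0 1, A.1.1 2 3, A.1.1 2 4, A.1.1 2 1,
    A.1.1 3 4, A.1.1 3 1, A.1.1 4 1]
  left_inv u := by
    ext k
    fin_cases k <;> rfl
  right_inv A := by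
    apply Subtype.ext
    apply Subtype.ext
    exact (tri_eq A.1.1 A.2).symm

lemma card_T0 : Nat.card T0 = 2 ^ 10 := by
  rw [← Nat.card_congr paramEquiv]
  simp [Nat.card_eq_fintype_card, ZMod.card]

instance fact2 : Fact (Nat.Prime 2) := ⟨Nat.prime_two⟩

/-- The order of `SL₅(2)` divides `9999360`. -/
lemma card_SL5_dvd : Nat.card SL5 ∣ 9999360 := by
  have h : Nat.card (GL (Fin 5) (ZMod 2)) = 9999360 := by
    rw [Matrix.card_GL_field]
    simp only [ZMod.card, Fin.prod_univ_five]
    norm_num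
  rw [← h]
  have hinj : Function.Injective (Matrix.SpecialLinearGroup.toGL :
      SL5 →* GL (Fin 5) (ZMod 2)) := by
    intro a b hab
    apply Subtype.ext
    exact congrArg Units.val hab
  exact Subgroup.card_dvd_of_injective _ hinj

/-- The matrix `s`. -/
def sM : M5 := mkM ![0, 0, 0, 1, 0, 0, 0, 0, 0, 0]

lemma transvection_eq : (Matrix.transvection 0 1 1 : M5) = sM := by
  decide

lemma comm_sM (u : Fin 10 → ZMod 2) : mkM u * sM = sM * mkM u := by
  ext i j
  fin_cases i <;> fin_cases j <;>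
    simp [mkM, sM, Matrix.mul_apply, Fin.sum_univ_five, add_comm]

lemma center_param (u : Fin 10 → ZMod 2)
    (h1 : mkM u * mkM ![1, 0, 0, 0, 0, 0, 0, 0, 0, 0] = mkM ![1, 0, 0, 0, 0, 0, 0, 0, 0, 0] * mkM u)
    (h2 : mkM u * mkM ![0, 0, 0, 0, 1, 0, 0, 0, 0, 0] = mkM ![0, 0, 0, 0, 1, 0, 0, 0, 0, 0] * mkM u)
    (h3 : mkM u * mkM ![0, 0, 0, 0, 0, 0, 0, 1, 0, 0] = mkM ![0, 0, 0, 0, 0, 0, 0, 1, 0, 0] * mkM u)
    (h4 : mkM u * mkM ![0, 0, 0, 0, 0, 0, 0, 0, 0, 1] = mkM ![0, 0, 0, 0, 0, 0, 0, 0, 0, 1] * mkM u) :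
    mkM u = 1 ∨ mkM u = sM := by
  have e (M N : M5) (h : M = N) (i j : Fin 5) : M i j = N i j := by rw [h]
  have a0 : u 0 = 0 := by simpa [mkM, Matrix.mul_apply, Fin.sum_univ_five] using e _ _ h2 0 3
  have a1 : u 1 = 0 := by simpa [mkM, Matrix.mul_apply, Fin.sum_univ_five] using e _ _ h3 0 4
  have a2 : u 2 = 0 := by simpa [mkM, Matrix.mul_apply, Fin.sum_univ_five] using e _ _ h4 0 1
  have a4 : u 4 = 0 := by simpa [mkM, Matrix.mul_apply, Fin.sum_univ_five] using e _ _ h1 0 3
  have a5 : u 5 = 0 := by simpa [mkM, Matrix.mul_apply, Fin.sum_univ_five] using e _ _ h1 0 4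
  have a6 : u 6 = 0 := by simpa [mkM, Matrix.mul_apply, Fin.sum_univ_five] using e _ _ h1 0 1
  have a7 : u 7 = 0 := by simpa [mkM, Matrix.mul_apply, Fin.sum_univ_five] using e _ _ h2 2 4
  have a8 : u 8 = 0 := by simpa [mkM, Matrix.mul_apply, Fin.sum_univ_five] using e _ _ h2 2 1
  have a9 : u 9 = 0 := by simpa [mkM, Matrix.mul_apply, Fin.sum_univ_five] using e _ _ h3 3 1
  have hu3 : u 3 = 0 ∨ u 3 = 1 := by
    generalize u 3 = x
    revert x
    decide
  rcases hu3 with h | h
  · left
    ext i j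
    fin_cases i <;> fin_cases j <;> simp [mkM, a0, a1, a2, a4, a5, a6, a7, a8, a9, h]
  · right
    ext i j
    fin_cases i <;> fin_cases j <;> simp [mkM, sM, a0, a1, a2, a4, a5, a6, a7, a8, a9, h]

/-- The element `s` when it is the given transvection. -/
lemma T0_le_centralizer (s : SL5) (hs : (s : M5) = Matrix.transvection 0 1 1) :
    T0 ≤ Subgroup.centralizer ({s} : Set SL5) := by
  intro A hA
  rw [Subgroup.mem_centralizer_iff]
  intro x hx
  rw [Set.mem_singleton_iff] at hx
  subst hx
  apply Subtype.ext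
  have h := tri_eq A.1 hA
  change (x : M5) * A.1 = A.1 * (x : M5)
  rw [hs, transvection_eq, h]
  exact (comm_sM _).symm

/-- `T0` inside the centraliser of `s` is a Sylow subgroup, with the centre as claimed. -/
lemma center_T0 (s : SL5) (hs : (s : M5) = Matrix.transvection 0 1 1) (A : SL5) (hA : A ∈ T0)
    (hc : ∀ B ∈ T0, A * B = B * A) : A = 1 ∨ A = s := by
  have hu := tri_eq A.1 hA
  set u : Fin 10 → ZMod 2 :=
    ![A.1 0 2, A.1 0 3, A.1 0 4, A.1 0 1, A.1 2 3, A.1 2 4, A.1 2 1, A.1 3 4, A.1 3 1, A.1 4 1] with hdef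
  have key : ∀ v : Fin 10 → ZMod 2, mkM u * mkM v = mkM v * mkM u := by
    intro v
    have := hc ⟨mkM v, IsTri.det (mkM_tri v)⟩ (mkM_tri v)
    have h2 := congrArg Subtype.val this
    rw [← hu]
    exact h2
  rcases center_param u (key _) (key _) (key _) (key _) with h | h
  · left
    apply Subtype.ext
    rw [hu, h]
    rfl
  · right
    apply Subtype.ext
    rw [hu, h, hs, transvection_eq]

variable (s : SL5)

/-- The copy of `T0` in the centraliser. -/
def T1 : Subgroup (Subgroup.centralizer ({s} : Set SL5)) :=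
  T0.subgroupOf (Subgroup.centralizer ({s} : Set SL5))

lemma card_T1 (hs : (s : M5) = Matrix.transvection 0 1 1) : Nat.card (T1 s) = 2 ^ 10 := by
  rw [← card_T0]
  exact Nat.card_congr (Subgroup.subgroupOfEquivOfLe (T0_le_centralizer s hs)).toEquiv

/-- A 2-subgroup of the centraliser has order at most `2^10`. -/
lemma card_le (P : Subgroup (Subgroup.centralizer ({s} : Set SL5))) (hP : IsPGroup 2 P) :
    Nat.card P ≤ 2 ^ 10 := by
  obtain ⟨k, hk⟩ := hP.exists_card_eq
  have h1 : Nat.card P ∣ Nat.card (Subgroup.centralizer ({s} : Set SL5)) :=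
    Subgroup.card_subgroup_dvd_card P
  have h2 : Nat.card (Subgroup.centralizer ({s} : Set SL5)) ∣ Nat.card SL5 :=
    Subgroup.card_subgroup_dvd_card _
  have h3 : 2 ^ k ∣ 9999360 := by
    rw [← hk]
    exact h1.trans (h2.trans card_SL5_dvd)
  have h4 : k ≤ 10 := by
    by_contra hlt
    have hk' : 11 ≤ k := by omega
    have : 2 ^ 11 ∣ 9999360 := (pow_dvd_pow 2 hk').trans h3
    exact absurd this (by norm_num)
  rw [hk]
  exact Nat.pow_le_pow_right (by norm_num) h4

/-- Every Sylow 2-subgroup of the centraliser of `s` has centre of order at most two. -/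
lemma center_sylow (hs : (s : M5) = Matrix.transvection 0 1 1)
    (T' : Sylow 2 (Subgroup.centralizer ({s} : Set SL5)))
    (x : Subgroup.centralizer ({s} : Set SL5)) (hx : x ∈ T')
    (hc : ∀ y ∈ T', x * y = y * x) : x = 1 ∨ (x : SL5) = s := by
  classical
  have hT1 : IsPGroup 2 (T1 s) := IsPGroup.of_card (card_T1 s hs)
  obtain ⟨P, hP⟩ := hT1.exists_le_sylow
  have hPeq : (P : Subgroup _) = T1 s := by
    symm
    apply Subgroup.eq_of_le_of_card_ge hP
    rw [card_T1 s hs]
    exact card_le s P P.isPGroup'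
  obtain ⟨g, hg⟩ := MulAction.exists_smul_eq (Subgroup.centralizer ({s} : Set SL5)) T' P
  have hconj : ∀ w ∈ T', g * w * g⁻¹ ∈ (P : Subgroup _) := by
    intro w hw
    rw [← hg, Sylow.coe_subgroup_smul]
    exact Subgroup.smul_mem_pointwise_smul w (MulAut.conj g) _ hw
  have hconj' : ∀ w ∈ (P : Subgroup (Subgroup.centralizer ({s} : Set SL5))), g⁻¹ * w * g ∈ T' := by
    intro w hw
    rw [← hg, Sylow.coe_subgroup_smul] at hw
    obtain ⟨v, hv, hve⟩ := hw
    have h1 : w = g * v * g⁻¹ := hve.symm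
    have h2 : g⁻¹ * (g * v * g⁻¹) * g = v := by group
    rw [h1, h2]
    exact hv
  have hA : ((g * x * g⁻¹ : Subgroup.centralizer ({s} : Set SL5)) : SL5) ∈ T0 := by
    have := hconj x hx
    rw [hPeq] at this
    exact this
  have hcen := center_T0 s hs _ hA (by
    intro B hB
    have hB1 : (⟨B, T0_le_centralizer s hs hB⟩ : Subgroup.centralizer ({s} : Set SL5)) ∈
        (P : Subgroup (Subgroup.centralizer ({s} : Set SL5))) := by
      rw [hPeq]
      exact hB
    have h2 := hc _ (hconj' _ hB1)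
    have h3 : g * x * g⁻¹ * (⟨B, T0_le_centralizer s hs hB⟩ : Subgroup.centralizer ({s} : Set SL5))
        = (⟨B, T0_le_centralizer s hs hB⟩ : Subgroup.centralizer ({s} : Set SL5)) * (g * x * g⁻¹) := by
      set b : Subgroup.centralizer ({s} : Set SL5) := ⟨B, T0_le_centralizer s hs hB⟩
      calc g * x * g⁻¹ * b = g * (x * (g⁻¹ * b * g)) * g⁻¹ := by group
        _ = g * ((g⁻¹ * b * g) * x) * g⁻¹ := by rw [h2]
        _ = b * (g * x * g⁻¹) := by group
    exact congrArg Subtype.val h3)
  rcases hcen with h | h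
  · left
    have h1 : g * x * g⁻¹ = 1 := Subtype.ext h
    have : x = g⁻¹ * (g * x * g⁻¹) * g := by group
    rw [this, h1]
    group
  · right
    have hgs : (g : SL5) * s = s * g := by
      have := g.2
      rw [Subgroup.mem_centralizer_iff] at this
      exact (this s rfl).symm
    have h1 : (g : SL5) * x * (g : SL5)⁻¹ = s := h
    calc (x : SL5) = (g : SL5)⁻¹ * ((g : SL5) * x * (g : SL5)⁻¹) * g := by group
      _ = (g : SL5)⁻¹ * (s * g) := by rw [h1, mul_assoc]
      _ = (g : SL5)⁻¹ * ((g : SL5) * s) := by rw [hgs]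
      _ = s := by group

/-! ### The group-theoretic argument -/

section main

variable {G : Type*} [Group G] [Finite G]

/-- If the centre of a Sylow 2-subgroup `T` of `C(z)` consists of `1` and `z` only, then `T` is
a Sylow 2-subgroup of `G`. -/
lemma key (z : G) (hz : orderOf z = 2) (C : Subgroup G) (hC : ∀ g, g ∈ C ↔ g * z = z * g)
    (T : Sylow 2 C)
    (hZ : ∀ x ∈ T, (∀ y ∈ T, x * y = y * x) → x = 1 ∨ (x : G) = z) :
    ¬ 2 ∣ ((T : Subgroup C).map C.subtype).index := by
  classical
  set S := (T : Subgroup C).map C.subtype with hS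
  have hzC : z ∈ C := (hC z).2 rfl
  have hcomm : ∀ c : C, (c : G) * z = z * c := fun c => (hC c).1 c.2
  have hSp : IsPGroup 2 S := T.isPGroup'.map _
  obtain ⟨P, hP⟩ := hSp.exists_le_sylow
  -- elements of `P` centralising `z` lie in `S`
  have hPC : ∀ g ∈ (P : Subgroup G), g ∈ C → g ∈ S := by
    intro g hg hgC
    have hQ : IsPGroup 2 ((P : Subgroup G).subgroupOf C) := by
      exact IsPGroup.comap_subtype P.isPGroup'
    have hle : (T : Subgroup C) ≤ (P : Subgroup G).subgroupOf C := by
      intro t ht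
      rw [Subgroup.mem_subgroupOf]
      exact hP ⟨t, ht, rfl⟩
    have heq := T.is_maximal' hQ hle
    have : (⟨g, hgC⟩ : C) ∈ (T : Subgroup C) := by
      rw [← heq, Subgroup.mem_subgroupOf]
      exact hg
    exact ⟨⟨g, hgC⟩, this, rfl⟩
  -- `z` lies in `S`
  have hzT : (⟨z, hzC⟩ : C) ∈ (T : Subgroup C) := by
    have hnorm : (Subgroup.zpowers (⟨z, hzC⟩ : C)).Normal := by
      constructor
      intro n hn g
      obtain ⟨k, rfl⟩ := Subgroup.mem_zpowers_iff.1 hn
      have : g * (⟨z, hzC⟩ : C) ^ k * g⁻¹ = (⟨z, hzC⟩ : C) ^ k := by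
        have h1 : g * (⟨z, hzC⟩ : C) = (⟨z, hzC⟩ : C) * g := Subtype.ext (hcomm g)
        have h2 : Commute g ((⟨z, hzC⟩ : C) ^ k) := (Commute.zpow_right h1 k)
        rw [h2.eq, mul_assoc, mul_inv_cancel, mul_one]
      rw [this]
      exact Subgroup.zpow_mem_zpowers _ _
    have hp : IsPGroup 2 (Subgroup.zpowers (⟨z, hzC⟩ : C)) := by
      apply IsPGroup.of_card (n := 1)
      rw [Nat.card_zpowers]
      have : orderOf (⟨z, hzC⟩ : C) = orderOf z := Subgroup.orderOf_mk z hzC
      rw [this, hz, pow_one]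
    exact hp.le_sylow_of_normal T (Subgroup.mem_zpowers _)
  have hzS : z ∈ S := ⟨⟨z, hzC⟩, hzT, rfl⟩
  have hz1 : z ≠ 1 := by
    rintro rfl
    simp at hz
  -- main claim
  have hSP : S = P := by
    by_contra hne
    have hlt : S < P := lt_of_le_of_ne hP hne
    have : Group.IsNilpotent (P : Subgroup G) := P.isPGroup'.isNilpotent
    have hlt2 : S.subgroupOf (P : Subgroup G) < ⊤ := by
      rw [lt_top_iff_ne_top]
      intro htop
      exact hne (le_antisymm hP (Subgroup.subgroupOf_eq_top.1 htop))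
    have hnc := Group.normalizerCondition_of_isNilpotent (G := (P : Subgroup G)) _ hlt2
    obtain ⟨g, hg, hgn⟩ := SetLike.exists_of_lt hnc
    rw [Subgroup.mem_normalizer_iff] at hg
    have hgS : ∀ h ∈ S, ∀ hP' : h ∈ (P : Subgroup G), (g : G) * h * (g : G)⁻¹ ∈ S := by
      intro h hh hP'
      have h1 : (⟨h, hP'⟩ : (P : Subgroup G)) ∈ S.subgroupOf (P : Subgroup G) := hh
      have h2 := (hg _).1 h1
      exact h2
    have hgS' : ∀ h ∈ S, ∀ hP' : h ∈ (P : Subgroup G), (g : G)⁻¹ * h * (g : G) ∈ S := by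
      intro h hh hP'
      by_contra hn
      have hmemP : (g : G)⁻¹ * h * (g : G) ∈ (P : Subgroup G) :=
        (P : Subgroup G).mul_mem ((P : Subgroup G).mul_mem ((P : Subgroup G).inv_mem g.2) hP') g.2
      have h3 := (hg ⟨(g : G)⁻¹ * h * (g : G), hmemP⟩)
      have h4 : (⟨(g : G)⁻¹ * h * (g : G), hmemP⟩ : (P : Subgroup G)) ∉
          S.subgroupOf (P : Subgroup G) := hn
      rw [Iff.comm] at h3
      apply h4
      apply h3.1
      change (g : G) * ((g : G)⁻¹ * h * (g : G)) * (g : G)⁻¹ ∈ S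
      have : (g : G) * ((g : G)⁻¹ * h * (g : G)) * (g : G)⁻¹ = h := by group
      rw [this]
      exact hh
    have hgz : (g : G) * z * (g : G)⁻¹ = z := by
      have hmem := hgS z hzS (hP hzS)
      obtain ⟨t, ht, hte⟩ := hmem
      have hcen := hZ t ht (by
        intro y hy
        apply Subtype.ext
        change (t : G) * y = y * t
        rw [show (t : G) = (g : G) * z * (g : G)⁻¹ from hte]
        have hyS : (y : G) ∈ S := ⟨y, hy, rfl⟩
        have hconj := hgS' (y : G) hyS (hP hyS)
        obtain ⟨w, _, hwe⟩ := hconj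
        have hw : (g : G)⁻¹ * y * (g : G) = (w : G) := hwe.symm
        have h5 : (g : G)⁻¹ * y * (g : G) * z = z * ((g : G)⁻¹ * y * (g : G)) := by
          rw [hw]; exact hcomm w
        calc (g : G) * z * (g : G)⁻¹ * y
            = (g : G) * (z * ((g : G)⁻¹ * y * (g : G))) * (g : G)⁻¹ := by group
          _ = (g : G) * ((g : G)⁻¹ * y * (g : G) * z) * (g : G)⁻¹ := by rw [h5]
          _ = y * ((g : G) * z * (g : G)⁻¹) := by group)
      rcases hcen with h1 | h1
      · exfalso
        apply hz1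
        have h6 : (g : G) * z * (g : G)⁻¹ = 1 := by
          rw [← hte, h1]; rfl
        have : z = (g : G)⁻¹ * ((g : G) * z * (g : G)⁻¹) * g := by group
        rw [this, h6]; group
      · rw [← hte]; exact h1
    have hgC : (g : G) ∈ C := by
      rw [hC]
      calc (g : G) * z = (g : G) * z * (g : G)⁻¹ * g := by group
        _ = z * (g : G) := by rw [hgz]
    exact hgn (hPC g g.2 hgC)
  rw [hSP]
  exact P.not_dvd_index

end main

/-- Let G be a finite group with an involution z whose centraliser C is isomorphic to the centraliser of a transvection of SL(5, 2). Then a Sylow 2-subgroup of C, viewed in G, is a Sylow 2-subgroup of G (its index in G is odd). -/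
theorem result {G : Type*} [Group G] [Finite G] (s : Matrix.SpecialLinearGroup (Fin 5) (ZMod 2)) (hs : (s : Matrix (Fin 5) (Fin 5) (ZMod 2)) = Matrix.transvection 0 1 1) (z : G) (hz : orderOf z = 2) (e : (Subgroup.centralizer ({z} : Set G)) ≃* Subgroup.centralizer ({s} : Set (Matrix.SpecialLinearGroup (Fin 5) (ZMod 2)))) (T : Sylow 2 (Subgroup.centralizer ({z} : Set G))) : ¬ 2 ∣ ((T : Subgroup (Subgroup.centralizer ({z} : Set G))).map (Subgroup.subtype (Subgroup.centralizer ({z} : Set G)))).index := by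
  classical
  apply key z hz _ (fun g => by
    rw [Subgroup.mem_centralizer_iff]
    constructor
    · intro h; exact (h z rfl).symm
    · intro h y hy
      rw [Set.mem_singleton_iff.1 hy]
      exact h.symm) T
  intro x hx hc
  set T' : Sylow 2 (Subgroup.centralizer ({s} : Set SL5)) :=
    T.mapSurjective (f := (e : _ →* _)) e.surjective with hT'
  have hmem : ∀ t ∈ T, e t ∈ T' := by
    intro t ht
    exact ⟨t, ht, rfl⟩
  have hmem' : ∀ y ∈ T', e.symm y ∈ T := by
    intro y hy
    obtain ⟨t, ht, rfl⟩ := hy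
    have : e.symm ((e : _ →* _) t) = t := e.symm_apply_apply t
    rw [this]; exact ht
  have hcen : ∀ w ∈ T, (∀ y ∈ T, w * y = y * w) → e w = 1 ∨ ((e w : _) : SL5) = s := by
    intro w hw hwc
    apply center_sylow s hs T' _ (hmem w hw)
    intro y hy
    have h1 := hwc _ (hmem' y hy)
    have h2 := congrArg e h1
    simpa using h2
  -- `z` is central in `T`
  have hzC : z ∈ Subgroup.centralizer ({z} : Set G) := by
    rw [Subgroup.mem_centralizer_iff]
    rintro y hy
    rw [Set.mem_singleton_iff.1 hy]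
  have hzcen : ∀ y : Subgroup.centralizer ({z} : Set G), (⟨z, hzC⟩ : Subgroup.centralizer ({z} : Set G)) * y = y * ⟨z, hzC⟩ := by
    intro y
    apply Subtype.ext
    have := y.2
    rw [Subgroup.mem_centralizer_iff] at this
    exact this z rfl
  have hzT : (⟨z, hzC⟩ : Subgroup.centralizer ({z} : Set G)) ∈ T := by
    have hnorm : (Subgroup.zpowers (⟨z, hzC⟩ : Subgroup.centralizer ({z} : Set G))).Normal := by
      constructor
      intro n hn g
      obtain ⟨k, rfl⟩ := Subgroup.mem_zpowers_iff.1 hn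
      have h2 : Commute g ((⟨z, hzC⟩ : Subgroup.centralizer ({z} : Set G)) ^ k) :=
        Commute.zpow_right (hzcen g).symm k
      rw [h2.eq, mul_assoc, mul_inv_cancel, mul_one]
      exact Subgroup.zpow_mem_zpowers _ _
    have hp : IsPGroup 2 (Subgroup.zpowers (⟨z, hzC⟩ : Subgroup.centralizer ({z} : Set G))) := by
      apply IsPGroup.of_card (n := 1)
      rw [Nat.card_zpowers]
      have : orderOf (⟨z, hzC⟩ : Subgroup.centralizer ({z} : Set G)) = orderOf z :=
        Subgroup.orderOf_mk z hzC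
      rw [this, hz, pow_one]
    exact hp.le_sylow_of_normal T (Subgroup.mem_zpowers _)
  have hz1 : (⟨z, hzC⟩ : Subgroup.centralizer ({z} : Set G)) ≠ 1 := by
    intro h
    have : z = 1 := congrArg Subtype.val h
    subst this
    simp at hz
  have hzs : ((e ⟨z, hzC⟩ : _) : SL5) = s := by
    rcases hcen _ hzT (fun y _ => hzcen y) with h | h
    · exact absurd ((map_eq_one_iff e e.injective).1 h) hz1
    · exact h
  rcases hcen x hx hc with h | h
  · left
    exact (map_eq_one_iff e e.injective).1 h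
  · right
    have h2 : e x = e ⟨z, hzC⟩ := Subtype.ext (h.trans hzs.symm)
    have h3 := e.injective h2
    exact congrArg Subtype.val h3

end Cfsg.Agent.S1717
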