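import Cfsg.Statements.S1754

set_option autoImplicit false
open Cfsg

namespace Cfsg.Agent.S1754

theorem quasisimple_of_equiv {H K : Type*} [Group H] [Group K] (e : H ≃* K)
    (h : Cfsg.IsQuasisimple H) : Cfsg.IsQuasisimple K := by
  obtain ⟨hp, hs⟩ := h
  refine ⟨Group.IsPerfect.ofSurjective (f := e.toMonoidHom) e.surjective, ?_⟩
  have hmap : (Subgroup.center H).map e.toMonoidHom = Subgroup.center K := by
    ext x
    simp only [Subgroup.mem_map, Subgroup.mem_center_iff]
    constructor
    · rintro ⟨z, hz, rfl⟩ g
      obtain ⟨g', rfl⟩ := e.surjective g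
      simp only [MulEquiv.coe_toMonoidHom, ← map_mul, hz g']
    · intro hx
      refine ⟨e.symm x, fun g => ?_, by simp⟩
      apply e.injective
      simp [hx (e g)]
  have e' : (H ⧸ Subgroup.center H) ≃* (K ⧸ Subgroup.center K) :=
    QuotientGroup.congr _ _ e hmap
  exact e'.symm.isSimpleGroup

/-- Let A be a standard subgroup of the finite group G (A quasisimple, C_G(A) tightly embedded of even order, A commuting elementwise with no other conjugate of itself, and N_G(A) = N_G(C_G(A))), and let t be an involution of G centralizing A. Then the centralizer of t lies in the normalizer of A; in particular A, viewed inside C_G(t), is a component of C_G(t). -/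
theorem result {G : Type*} [Group G] [Finite G]
    (A : Subgroup G) (hA : Cfsg.IsStandardSubgroup A) (t : G) (ht : orderOf t = 2) (htA : t ∈ Subgroup.centralizer (A : Set G)) :
    Subgroup.centralizer ({t} : Set G) ≤ Subgroup.normalizer (A : Set G) ∧
      Cfsg.IsComponent (A.subgroupOf (Subgroup.centralizer ({t} : Set G))) := by
  obtain ⟨hq, ⟨-, hTE⟩, -, hN⟩ := hA
  have key : Subgroup.centralizer ({t} : Set G) ≤ Subgroup.normalizer (A : Set G) := by
    intro x hx
    by_contra hxN
    rw [hN] at hxN
    have hodd := hTE x hxN
    have htmem : t ∈ Subgroup.centralizer (A : Set G) ⊓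
        (Subgroup.centralizer (A : Set G)).map (MulAut.conj x).toMonoidHom := by
      refine ⟨htA, t, htA, ?_⟩
      have hxt : x * t = t * x := Subgroup.mem_centralizer_singleton_iff.mp hx
      simp [MulAut.conj_apply, hxt]
    have hdvd : orderOf (⟨t, htmem⟩ : ↥(Subgroup.centralizer (A : Set G) ⊓
        (Subgroup.centralizer (A : Set G)).map (MulAut.conj x).toMonoidHom)) ∣ Nat.card _ :=
      orderOf_dvd_natCard _
    rw [Subgroup.orderOf_mk, ht] at hdvd
    exact (Nat.not_even_iff_odd.mpr hodd) (even_iff_two_dvd.mpr hdvd)
  have hAC : A ≤ Subgroup.centralizer ({t} : Set G) := by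
    intro a ha
    rw [Subgroup.mem_centralizer_singleton_iff]
    exact Subgroup.mem_centralizer_iff.mp htA a ha
  refine ⟨key, ?_, ?_⟩
  · have hnorm : (A.subgroupOf (Subgroup.centralizer ({t} : Set G))).Normal := by
      constructor
      intro a ha c
      rw [Subgroup.mem_subgroupOf] at ha ⊢
      have := (Subgroup.mem_normalizer_iff.mp (key c.2) a.1).mp ha
      simpa using this
    exact hnorm.isSubnormal
  · exact quasisimple_of_equiv (Subgroup.subgroupOfEquivOfLe hAC).symm hq

end Cfsg.Agent.S1754
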