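import Cfsg.Statements.S1755
import Cfsg.Agent.Lib.TI.Basic
import Cfsg.Agent.Lib.Components.Basic
import Cfsg.Agent.Lib.Core.Basic
import Cfsg.Agent.Lib.PGroups.Basic

set_option autoImplicit false
open Cfsg
open Cfsg.Agent.Lib.TI.Basic

namespace Cfsg.Agent.S1755

theorem order_two_unique_of_cyclic {H : Type*} [Group H] [Finite H] [IsCyclic H] {x y : H}
    (hx : orderOf x = 2) (hy : orderOf y = 2) : x = y := by
  classical
  have := Fintype.ofFinite H
  have hd : 2 ∣ Fintype.card H := by
    rw [← hx, ← Nat.card_eq_fintype_card]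
    exact orderOf_dvd_natCard x
  have hcard := IsCyclic.card_orderOf_eq_totient (α := H) hd
  have h1 : (Finset.univ.filter fun a : H => orderOf a = 2).card ≤ 1 := by
    rw [hcard]; decide
  exact Finset.card_le_one.mp h1 x (by simp [hx]) y (by simp [hy])

/-- Abstract form of the statement. -/
theorem main {G : Type*} [Group G] [Finite G] (z : G) (hz : orderOf z = 2)
    (C : Subgroup G) (hC : C = Subgroup.centralizer ({z} : Set G)) (F : Subgroup ↥C) [hFn : F.Normal]
    (hzF : ∀ h : z ∈ C, (⟨z, h⟩ : ↥C) ∈ F) (hF2 : IsPGroup 2 ↥F)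
    (hFc : ∀ A : Subgroup ↥F, A.Characteristic → IsMulCommutative A → IsCyclic A)
    (B : Subgroup ↥F) (hBc : B.Characteristic) (hBa : IsMulCommutative ↥B) (g : G) :
    ((B.map F.subtype).map C.subtype).map (MulAut.conj g).toMonoidHom = (B.map F.subtype).map C.subtype ∨
      ((B.map F.subtype).map C.subtype).map (MulAut.conj g).toMonoidHom ⊓ (B.map F.subtype).map C.subtype = ⊥ := by
  classical
  subst hC
  have : Fact (Nat.Prime 2) := ⟨Nat.prime_two⟩
  have hzC : z ∈ Subgroup.centralizer ({z} : Set G) := Subgroup.mem_centralizer_singleton_iff.mpr rfl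
  let zF : ↥F := ⟨⟨z, hzC⟩, hzF hzC⟩
  have hzForder : orderOf zF = 2 := by
    rw [Subgroup.orderOf_mk, Subgroup.orderOf_mk]; exact hz
  have hzFcenter : zF ∈ Subgroup.center ↥F := by
    rw [Subgroup.mem_center_iff]
    intro c
    apply Subtype.ext
    apply Subtype.ext
    exact Subgroup.mem_centralizer_singleton_iff.mp c.1.2
  have hZcyc : IsCyclic ↥(Subgroup.center ↥F) := hFc _ inferInstance inferInstance
  by_cases hBbot : B = ⊥
  · left
    subst hBbot
    simp
  -- `zF ∈ B`
  have hBnorm : B.Normal := Subgroup.normal_of_characteristic B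
  obtain ⟨u, huB, huZ, huo⟩ :=
    Cfsg.Agent.Lib.PGroups.Basic.exists_central_orderOf_eq hF2 B hBbot
  have huz : u = zF := by
    have h := order_two_unique_of_cyclic (H := ↥(Subgroup.center ↥F)) (x := ⟨u, huZ⟩) (y := ⟨zF, hzFcenter⟩)
      (by rw [Subgroup.orderOf_mk]; exact huo) (by rw [Subgroup.orderOf_mk]; exact hzForder)
    exact congrArg Subtype.val h
  have hzB : zF ∈ B := huz ▸ huB
  have hBcyc : IsCyclic ↥B := hFc B hBc hBa
  -- the unique involution of the image of `B` in `G` is `z`
  have huniq : ∀ x ∈ (B.map F.subtype).map (Subgroup.centralizer ({z} : Set G)).subtype,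
      orderOf x = 2 → x = z := by
    rintro _ ⟨_, ⟨b, hb, rfl⟩, rfl⟩ hb2
    have hb3 : orderOf b = 2 := by
      rw [orderOf_injective (Subgroup.centralizer ({z} : Set G)).subtype (Subgroup.subtype_injective _),
        orderOf_injective F.subtype (Subgroup.subtype_injective _)] at hb2
      exact hb2
    have h := order_two_unique_of_cyclic (H := ↥B) (x := ⟨b, hb⟩) (y := ⟨zF, hzB⟩)
      (by rw [Subgroup.orderOf_mk]; exact hb3)
      (by rw [Subgroup.orderOf_mk]; exact hzForder)
    have h' : b = zF := congrArg Subtype.val h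
    subst h'
    rfl
  by_cases hint : ((B.map F.subtype).map (Subgroup.centralizer ({z} : Set G)).subtype).map
      (MulAut.conj g).toMonoidHom ⊓ (B.map F.subtype).map (Subgroup.centralizer ({z} : Set G)).subtype = ⊥
  · exact Or.inr hint
  left
  obtain ⟨x, hx, hx1⟩ := (Subgroup.bot_or_exists_ne_one _).resolve_left hint
  obtain ⟨hxg, hxB⟩ := Subgroup.mem_inf.mp hx
  -- an involution in the intersection
  have hB'2 : IsPGroup 2 ↥((B.map F.subtype).map (Subgroup.centralizer ({z} : Set G)).subtype) :=
    (hF2.to_subgroup B |>.map F.subtype).map _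
  have hdvd : 2 ∣ orderOf x := by
    have := hB'2.dvd_orderOf (g := ⟨x, hxB⟩) (by
      intro h
      exact hx1 (congrArg Subtype.val h))
    rwa [Subgroup.orderOf_mk] at this
  have hy : orderOf (x ^ (orderOf x / 2)) = 2 := orderOf_pow_orderOf_div (orderOf_pos x).ne' hdvd
  have hyB := Subgroup.pow_mem _ hxB (orderOf x / 2)
  have hyg := Subgroup.pow_mem _ hxg (orderOf x / 2)
  have hyz : x ^ (orderOf x / 2) = z := huniq _ hyB hy
  rw [hyz] at hyg hy
  have hyg' := mem_conj_iff.mp hyg
  have hconjo : orderOf (g⁻¹ * z * g) = 2 := by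
    have : g⁻¹ * z * g = (MulAut.conj g⁻¹) z := by simp [MulAut.conj_apply]
    rw [this, MulEquiv.orderOf_eq]
    exact hz
  have hzg : g⁻¹ * z * g = z := huniq _ hyg' hconjo
  have hgC : g ∈ Subgroup.centralizer ({z} : Set G) := by
    rw [Subgroup.mem_centralizer_singleton_iff]
    rw [mul_assoc, inv_mul_eq_iff_eq_mul] at hzg
    exact hzg.symm
  -- `g` acts on `F`, preserving `B`
  let φ : MulAut ↥F := MulAut.conjNormal (⟨g, hgC⟩ : ↥(Subgroup.centralizer ({z} : Set G)))
  have hφ : ∀ b ∈ B, φ b ∈ B := by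
    intro b hb
    have h := hBc.fixed φ
    rw [← h] at hb
    exact hb
  refine Subgroup.eq_of_le_of_card_ge ?_ ?_
  · rintro _ ⟨_, ⟨_, ⟨b, hb, rfl⟩, rfl⟩, rfl⟩
    refine ⟨_, ⟨φ b, hφ b hb, rfl⟩, ?_⟩
    simp [φ, MulAut.conj_apply, MulAut.conjNormal_apply]
  · exact (Subgroup.card_map_of_injective (f := (MulAut.conj g).toMonoidHom) (MulEquiv.injective _)).ge

/-- Let G be a finite group and let z be an involution of G such that Q, the generalized Fitting subgroup of the centralizer C of z, is a 2-group of symplectic type (every characteristic abelian subgroup of Q is cyclic). Let B be a characteristic abelian subgroup of Q, viewed as a subgroup of G. Then for every g in G, the conjugate of B by g either equals B or meets B trivially. -/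
theorem result {G : Type*} [Group G] [Finite G] (z : G) (hz : orderOf z = 2) (hQ : Cfsg.IsOfSymplecticType ↥(Cfsg.generalizedFittingSubgroup ↥(Subgroup.centralizer ({z} : Set G))))
    (B : Subgroup ↥(Cfsg.generalizedFittingSubgroup ↥(Subgroup.centralizer ({z} : Set G)))) (hBc : B.Characteristic) (hBa : IsMulCommutative ↥B) (g : G) :
    ((B.map (Cfsg.generalizedFittingSubgroup ↥(Subgroup.centralizer ({z} : Set G))).subtype).map (Subgroup.centralizer ({z} : Set G)).subtype).map (MulAut.conj g).toMonoidHom =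
        (B.map (Cfsg.generalizedFittingSubgroup ↥(Subgroup.centralizer ({z} : Set G))).subtype).map (Subgroup.centralizer ({z} : Set G)).subtype ∨
      ((B.map (Cfsg.generalizedFittingSubgroup ↥(Subgroup.centralizer ({z} : Set G))).subtype).map (Subgroup.centralizer ({z} : Set G)).subtype).map (MulAut.conj g).toMonoidHom ⊓
        (B.map (Cfsg.generalizedFittingSubgroup ↥(Subgroup.centralizer ({z} : Set G))).subtype).map (Subgroup.centralizer ({z} : Set G)).subtype = ⊥ := by
  refine main z hz _ rfl _ ?_ hQ.1 hQ.2 B hBc hBa g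
  intro h
  have hzZ : (⟨z, h⟩ : ↥(Subgroup.centralizer ({z} : Set G))) ∈ Subgroup.center ↥(Subgroup.centralizer ({z} : Set G)) := by
    rw [Subgroup.mem_center_iff]
    intro c
    apply Subtype.ext
    exact Subgroup.mem_centralizer_singleton_iff.mp c.2
  exact Cfsg.Agent.Lib.Components.Basic.fitting_le_generalizedFitting
      (Cfsg.Agent.Lib.Core.Basic.center_le_fittingSubgroup hzZ)

end Cfsg.Agent.S1755
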