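import Cfsg.Statements.S1757

set_option autoImplicit false
open Cfsg

namespace Cfsg.Agent.S1757

/-- Core counting lemma: if `B` normalizes `A`, `A ⊓ B = ⊥`, `|A| ≤ |B|` and conjugates of `B` by
elements of `A` either equal `B` or meet `B` trivially, then `A` and `B` commute elementwise. -/
theorem commute_of_normalizes {G : Type*} [Group G] [Finite G] (A B : Subgroup G)
    (hBti : ∀ g ∈ A, B.map (MulAut.conj g).toMonoidHom = B ∨ B.map (MulAut.conj g).toMonoidHom ⊓ B = ⊥)
    (hle : Nat.card ↥A ≤ Nat.card ↥B) (hAB : A ⊓ B = ⊥) (hN : B ≤ Subgroup.normalizer (A : Set G))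
    (x : G) (hx : x ∈ A) (b : G) (hb : b ∈ B) : b * x = x * b := by
  by_contra hne
  have hx1 : x ≠ 1 := by
    rintro rfl
    simp at hne
  have hconj : ∀ c ∈ B, c * x * c⁻¹ ∈ A := fun c hc =>
    (Subgroup.mem_normalizer_iff.mp (hN hc) x).mp hx
  -- the orbit map is injective
  have hfix : ∀ c ∈ B, c * x = x * c → c = 1 := by
    intro c hc hcx
    by_contra hc1
    -- `c ∈ B ∩ B^x`
    have hmem : c ∈ B.map (MulAut.conj x).toMonoidHom ⊓ B := by
      refine ⟨⟨c, hc, ?_⟩, hc⟩
      simp [MulAut.conj_apply, ← hcx]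
    have hB' : B.map (MulAut.conj x).toMonoidHom = B := by
      rcases hBti x hx with h | h
      · exact h
      · rw [h] at hmem
        exact absurd ((Subgroup.mem_bot).mp hmem) hc1
    -- then `b x b⁻¹ x⁻¹ ∈ A ∩ B`
    have h1 : x * b⁻¹ * x⁻¹ ∈ B := by
      rw [← hB']
      exact ⟨b⁻¹, B.inv_mem hb, by simp [MulAut.conj_apply]⟩
    have h2 : b * x * b⁻¹ * x⁻¹ ∈ A ⊓ B := by
      refine ⟨A.mul_mem (hconj b hb) (A.inv_mem hx), ?_⟩
      have := B.mul_mem hb h1
      simpa [mul_assoc] using this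
    rw [hAB, Subgroup.mem_bot] at h2
    exact hne (mul_inv_eq_iff_eq_mul.mp (mul_inv_eq_one.mp h2))
  let f : ↥B → {a : ↥A // a ≠ 1} := fun c =>
    ⟨⟨c.1 * x * c.1⁻¹, hconj c.1 c.2⟩, by
      intro h
      have h' : c.1 * x * c.1⁻¹ = 1 := congrArg Subtype.val h
      apply hx1
      have : c.1 * x = c.1 := mul_inv_eq_one.mp h'
      simpa using this⟩
  have hf : Function.Injective f := by
    intro c d hcd
    have h1 : c.1 * x * c.1⁻¹ = d.1 * x * d.1⁻¹ := congrArg (fun z => (z.1.1 : G)) hcd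
    have h2 : (d.1⁻¹ * c.1) * x = x * (d.1⁻¹ * c.1) := by
      have : c.1 * x = d.1 * x * d.1⁻¹ * c.1 := by
        rw [← h1]; group
      calc (d.1⁻¹ * c.1) * x = d.1⁻¹ * (c.1 * x) := by group
        _ = d.1⁻¹ * (d.1 * x * d.1⁻¹ * c.1) := by rw [this]
        _ = x * (d.1⁻¹ * c.1) := by group
    have h3 := hfix _ (B.mul_mem (B.inv_mem d.2) c.2) h2
    apply Subtype.ext
    have : c.1 = d.1 := by
      have h4 : d.1⁻¹ * c.1 = 1 := h3
      exact (inv_mul_eq_one.mp h4).symm
    exact this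
  have h1 : Nat.card ↥B ≤ Nat.card {a : ↥A // a ≠ 1} := Nat.card_le_card_of_injective f hf
  have h2 : Nat.card {a : ↥A // a ≠ 1} < Nat.card ↥A :=
    Finite.card_subtype_lt (x := (1 : ↥A)) (by simp)
  omega

/-- Let p be a prime and A, B p-subgroups of the finite group G, each of which meets every conjugate of itself other than itself trivially. Suppose the order of A is at most that of B, A and B intersect trivially, and B normalizes A. Then A and B commute elementwise. -/
theorem result {G : Type*} [Group G] [Finite G] (p : ℕ) [Fact p.Prime] (A B : Subgroup G)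
    (hA : IsPGroup p ↥A) (hB : IsPGroup p ↥B)
    (hAti : ∀ g : G, A.map (MulAut.conj g).toMonoidHom = A ∨ A.map (MulAut.conj g).toMonoidHom ⊓ A = ⊥)
    (hBti : ∀ g : G, B.map (MulAut.conj g).toMonoidHom = B ∨ B.map (MulAut.conj g).toMonoidHom ⊓ B = ⊥)
    (hle : Nat.card ↥A ≤ Nat.card ↥B) (hAB : A ⊓ B = ⊥) (hN : B ≤ Subgroup.normalizer (A : Set G)) : ⁅A, B⁆ = ⊥ := by
  rw [Subgroup.commutator_eq_bot_iff_le_centralizer]
  intro x hx
  rw [Subgroup.mem_centralizer_iff]
  intro b hb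
  exact commute_of_normalizes A B (fun g _ => hBti g) hle hAB hN x hx b hb

end Cfsg.Agent.S1757
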