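import Cfsg.Statements.S1780
import Mathlib.GroupTheory.PGroup

set_option autoImplicit false
open Cfsg

namespace Cfsg.Agent.S1780

/-- A permutation of `p`-power order of a finite set of size divisible by `p` with one fixed point
has a second one. -/
theorem exists_fixed_ne {α : Type*} [Finite α] (p : ℕ) [hp : Fact p.Prime] (σ : Equiv.Perm α)
    (k : ℕ) (hσ : σ ^ (p ^ k) = 1) (hdvd : p ∣ Nat.card α) (x₀ : α) (hx₀ : σ x₀ = x₀) :
    ∃ x : α, x ≠ x₀ ∧ σ x = x := by
  have hP : IsPGroup p ↥(Subgroup.zpowers σ) := by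
    rintro ⟨g, m, rfl⟩
    refine ⟨k, ?_⟩
    apply Subtype.ext
    change (σ ^ m) ^ (p ^ k) = 1
    rw [← zpow_natCast, ← zpow_mul, mul_comm, zpow_mul, zpow_natCast, hσ, one_zpow]
  have hfix : x₀ ∈ MulAction.fixedPoints ↥(Subgroup.zpowers σ) α := by
    rintro ⟨g, m, rfl⟩
    change (σ ^ m) x₀ = x₀
    exact Equiv.Perm.zpow_apply_eq_self_of_apply_eq_self hx₀ m
  obtain ⟨b, hb, hne⟩ := hP.exists_fixed_point_of_prime_dvd_card_of_fixed_point α hdvd hfix
  refine ⟨b, hne.symm, ?_⟩
  exact hb ⟨σ, Subgroup.mem_zpowers σ⟩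

theorem iterate_pow_aux {A : Type*} [CommGroup A] (t : MulAut A) (a c : A)
    (hac : t a = a * c) (n : ℕ) : t (a ^ n) = a ^ n * c ^ n := by
  rw [map_pow, hac, mul_pow]

/-- Let A be a finite abelian 2-group and t an automorphism of A whose order is a power of 2. If every element of A fixed by t² is fixed by t, then t fixes every element of A. -/
theorem result {A : Type*} [CommGroup A] [Finite A]
    (hA : IsPGroup 2 A) (t : MulAut A) (ht : ∃ k : ℕ, orderOf t = 2 ^ k) (hC : ∀ a : A, t (t a) = a → t a = a) :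
    ∀ a : A, t a = a := by
  classical
  -- the fixed subgroup
  let C : Subgroup A :=
    { carrier := {a | t a = a}
      mul_mem' := fun {a b} (ha : t a = a) (hb : t b = b) => by
        change t (a * b) = a * b
        rw [map_mul, ha, hb]
      one_mem' := by
        change t 1 = 1
        exact map_one t
      inv_mem' := fun {a} (ha : t a = a) => by
        change t a⁻¹ = a⁻¹
        rw [map_inv, ha] }
  have hCmem : ∀ a, a ∈ C ↔ t a = a := fun a => Iff.rfl
  by_contra hcon
  push Not at hcon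
  obtain ⟨a₀, ha₀⟩ := hcon
  -- the map induced by `t` on the quotient
  have hmapC : C.map t.toMonoidHom = C := by
    ext x
    constructor
    · rintro ⟨y, hy, rfl⟩
      change t y ∈ C
      rw [(hCmem y).mp hy]
      exact hy
    · intro hx
      exact ⟨x, hx, (hCmem x).mp hx⟩
  let tbar : (A ⧸ C) ≃* (A ⧸ C) := QuotientGroup.congr C C t hmapC
  have htbar : ∀ a : A, tbar (a : A ⧸ C) = ((t a : A) : A ⧸ C) := fun a => rfl
  obtain ⟨k, hk⟩ := ht
  have hpow : t ^ (2 ^ k) = 1 := by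
    rw [← hk]
    exact pow_orderOf_eq_one t
  have hpow' : tbar.toEquiv ^ (2 ^ k) = 1 := by
    have h : ∀ (n : ℕ) (a : A), (tbar.toEquiv ^ n) (a : A ⧸ C) = (((t ^ n) a : A) : A ⧸ C) := by
      intro n
      induction n with
      | zero => intro a; rfl
      | succ n ih =>
        intro a
        rw [pow_succ', pow_succ']
        change tbar ((tbar.toEquiv ^ n) (a : A ⧸ C)) = _
        rw [ih]
        rfl
    ext x
    obtain ⟨a, rfl⟩ := QuotientGroup.mk_surjective x
    rw [h, hpow]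
    rfl
  have hQ2 : IsPGroup 2 (A ⧸ C) := hA.to_quotient C
  have hQnt : Nat.card (A ⧸ C) ≠ 1 := by
    intro h
    have hsub : Subsingleton (A ⧸ C) := (Nat.card_eq_one_iff_unique.mp h).1
    have h1 : ((a₀ : A) : A ⧸ C) = 1 := Subsingleton.elim _ _
    exact ha₀ ((hCmem a₀).mp ((QuotientGroup.eq_one_iff a₀).mp h1))
  have hdvd : 2 ∣ Nat.card (A ⧸ C) := (hQ2.card_eq_or_dvd).resolve_left hQnt
  have : Fact (Nat.Prime 2) := ⟨Nat.prime_two⟩
  obtain ⟨x, hx1, hxfix⟩ := exists_fixed_ne 2 tbar.toEquiv k hpow' hdvd 1 (map_one tbar)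
  obtain ⟨a, rfl⟩ := QuotientGroup.mk_surjective x
  have haC : a ∉ C := fun h => hx1 ((QuotientGroup.eq_one_iff a).mpr h)
  have hcC : a⁻¹ * t a ∈ C := by
    have h1 : ((a : A) : A ⧸ C) = ((t a : A) : A ⧸ C) := hxfix.symm
    exact QuotientGroup.eq.mp h1
  set c := a⁻¹ * t a with hc
  have hac : t a = a * c := by rw [hc]; group
  have hcfix : t c = c := (hCmem c).mp hcC
  -- a power of `a` just outside `C`
  have hex : ∃ n : ℕ, a ^ (2 ^ n) ∈ C := by
    obtain ⟨n, hn⟩ := hA a
    refine ⟨n, ?_⟩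
    rw [hn]
    exact C.one_mem
  have hne0 : Nat.find hex ≠ 0 := by
    intro h0
    have := Nat.find_spec hex
    rw [h0] at this
    simp only [pow_zero, pow_one] at this
    exact haC this
  obtain ⟨j, hj⟩ := Nat.exists_eq_succ_of_ne_zero hne0
  have hj1 : a ^ (2 ^ (j + 1)) ∈ C := by
    have := Nat.find_spec hex
    rw [hj] at this
    exact this
  have hj2 : a ^ (2 ^ j) ∉ C := Nat.find_min hex (by omega)
  set a' := a ^ (2 ^ j) with ha'
  set c' := c ^ (2 ^ j) with hc'
  have h1 : t a' = a' * c' := iterate_pow_aux t a c hac (2 ^ j)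
  have h2 : t c' = c' := by rw [hc', map_pow, hcfix]
  have h3 : a' ^ 2 ∈ C := by
    rw [ha', ← pow_mul, ← pow_succ]
    exact hj1
  have h4 : c' ^ 2 = 1 := by
    have h5 : t (a' ^ 2) = a' ^ 2 := (hCmem _).mp h3
    rw [map_pow, h1, mul_pow] at h5
    exact mul_eq_left.mp h5
  apply hj2
  rw [hCmem]
  apply hC
  rw [h1, map_mul, h1, h2, mul_assoc, ← pow_two, h4, mul_one]

end Cfsg.Agent.S1780
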