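import Cfsg.Statements.S1781
import Cfsg.Agent.Lib.TI.Basic
import Cfsg.Agent.S1757
import Cfsg.Agent.S1780

set_option autoImplicit false
open Cfsg
open Cfsg.Agent.Lib.TI.Basic

namespace Cfsg.Agent.S1781

/-- Conjugation by an element normalizing `B`, as an automorphism of `B`. -/
def conjOn {G : Type*} [Group G] (B : Subgroup G) (a : G)
    (ha : a ∈ Subgroup.normalizer (B : Set G)) : MulAut ↥B where
  toFun b := ⟨a * b.1 * a⁻¹, (Subgroup.mem_normalizer_iff.mp ha b.1).mp b.2⟩
  invFun b := ⟨a⁻¹ * b.1 * a, by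
    have := (Subgroup.mem_normalizer_iff.mp (Subgroup.inv_mem _ ha) b.1).mp b.2
    simpa using this⟩
  left_inv b := by
    apply Subtype.ext
    simp [mul_assoc]
  right_inv b := by
    apply Subtype.ext
    simp [mul_assoc]
  map_mul' x y := by
    apply Subtype.ext
    simp [mul_assoc]

@[simp] theorem conjOn_coe {G : Type*} [Group G] (B : Subgroup G) (a : G)
    (ha : a ∈ Subgroup.normalizer (B : Set G)) (b : ↥B) : ((conjOn B a ha) b : G) = a * b.1 * a⁻¹ := rfl

theorem conjOn_pow {G : Type*} [Group G] (B : Subgroup G) (a : G)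
    (ha : a ∈ Subgroup.normalizer (B : Set G)) (n : ℕ) (b : ↥B) :
    (((conjOn B a ha) ^ n) b : G) = a ^ n * b.1 * (a ^ n)⁻¹ := by
  induction n generalizing b with
  | zero => simp
  | succ n ih =>
    rw [pow_succ, MulAut.mul_apply, ih]
    simp [pow_succ, mul_assoc]

/-- Let A be an abelian 2-subgroup of the finite group G such that every conjugate of A equals A or meets A trivially, and let g ∈ G with g A g⁻¹ ≠ A. Then either the subgroup of those elements of A that normalize g A g⁻¹ is an elementary abelian 2-group, or A and g A g⁻¹ commute elementwise. -/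
theorem result {G : Type*} [Group G] [Finite G] (A : Subgroup G)
    (hA2 : IsPGroup 2 ↥A) (hAa : IsMulCommutative ↥A)
    (hti : ∀ h : G, A.map (MulAut.conj h).toMonoidHom = A ∨ A.map (MulAut.conj h).toMonoidHom ⊓ A = ⊥)
    (g : G) (hg : A.map (MulAut.conj g).toMonoidHom ≠ A) :
    Cfsg.IsElementaryAbelian 2 (A ⊓ Subgroup.normalizer ((A.map (MulAut.conj g).toMonoidHom : Subgroup G) : Set G)) ∨
      ⁅A, A.map (MulAut.conj g).toMonoidHom⁆ = ⊥ := by
  classical
  set B := A.map (MulAut.conj g).toMonoidHom with hBdef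
  have hAB : B ⊓ A = ⊥ := (hti g).resolve_left hg
  have hAB' : A ⊓ B = ⊥ := by rw [inf_comm]; exact hAB
  have hBti : ∀ h : G, B.map (MulAut.conj h).toMonoidHom = B ∨
      B.map (MulAut.conj h).toMonoidHom ⊓ B = ⊥ := fun h => ti_conj hti g h
  by_cases hsq : ∀ a ∈ A ⊓ Subgroup.normalizer (B : Set G), a ^ 2 = 1
  · left
    refine ⟨?_, hsq⟩
    refine ⟨⟨fun x y => ?_⟩⟩
    apply Subtype.ext
    have := mul_comm' (⟨x.1, x.2.1⟩ : ↥A) (⟨y.1, y.2.1⟩ : ↥A)
    exact congrArg (fun z : ↥A => (z : G)) this
  · right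
    push Not at hsq
    obtain ⟨a, ⟨haA, haN⟩, ha2⟩ := hsq
    have ha1 : a ≠ 1 := by
      rintro rfl
      simp at ha2
    have hBab : IsMulCommutative ↥B := inferInstance
    let iB : CommGroup ↥B := { (inferInstance : Group ↥B) with mul_comm := fun x y => mul_comm' x y }
    have hBp : IsPGroup 2 ↥B := hA2.map _
    -- elements commuting with a nontrivial element of `A` normalize `A`
    have hnorm : ∀ (u b : G), u ∈ A → u ≠ 1 → b * u = u * b → A.map (MulAut.conj b).toMonoidHom = A := by
      intro u b hu hu1 hcomm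
      refine (hti b).resolve_right ?_
      intro hbot
      have : u ∈ A.map (MulAut.conj b).toMonoidHom ⊓ A := by
        refine ⟨mem_conj_iff.mpr ?_, hu⟩
        have : b⁻¹ * u * b = u := by
          rw [mul_assoc, ← hcomm, ← mul_assoc, inv_mul_cancel, one_mul]
        rwa [this]
      rw [hbot, Subgroup.mem_bot] at this
      exact hu1 this
    let t : MulAut ↥B := conjOn B a haN
    have ht : ∃ k : ℕ, orderOf t = 2 ^ k := by
      obtain ⟨n, hn⟩ := hA2 ⟨a, haA⟩
      have hn' : a ^ (2 ^ n) = 1 := congrArg Subtype.val hn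
      have hpow : t ^ (2 ^ n) = 1 := by
        ext b
        have := conjOn_pow B a haN (2 ^ n) b
        rw [hn'] at this
        simpa using this
      obtain ⟨k, -, hk⟩ := (Nat.dvd_prime_pow Nat.prime_two).mp (orderOf_dvd_of_pow_eq_one hpow)
      exact ⟨k, hk⟩
    have hC : ∀ b : ↥B, t (t b) = b → t b = b := by
      intro b hb
      have h1 : a * (a * b.1 * a⁻¹) * a⁻¹ = b.1 := congrArg Subtype.val hb
      have h2 : a ^ 2 ∈ A := A.pow_mem haA 2
      have h3 : b.1 * a ^ 2 = a ^ 2 * b.1 := by
        rw [pow_two]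
        nth_rewrite 1 [← h1]
        group
      have h4 := hnorm (a ^ 2) b.1 h2 ha2 h3
      have h5 : b.1 ∈ Subgroup.normalizer (A : Set G) := mem_normalizer_of_map_conj_eq h4
      have h6 : a * b.1 * a⁻¹ * b.1⁻¹ ∈ A ⊓ B := by
        constructor
        · have := (Subgroup.mem_normalizer_iff.mp h5 a⁻¹).mp (A.inv_mem haA)
          have h7 := A.mul_mem haA this
          simpa [mul_assoc] using h7
        · exact B.mul_mem ((Subgroup.mem_normalizer_iff.mp haN b.1).mp b.2) (B.inv_mem b.2)
      rw [hAB', Subgroup.mem_bot] at h6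
      apply Subtype.ext
      exact mul_inv_eq_one.mp h6
    have hfix : ∀ b : ↥B, t b = b := Cfsg.Agent.S1780.result hBp t ht hC
    have hcomm : ∀ b ∈ B, b * a = a * b := by
      intro b hb
      have h1 : a * b * a⁻¹ = b := congrArg Subtype.val (hfix ⟨b, hb⟩)
      exact (mul_inv_eq_iff_eq_mul.mp h1).symm
    have hN : B ≤ Subgroup.normalizer (A : Set G) := by
      intro b hb
      exact mem_normalizer_of_map_conj_eq (hnorm a b haA ha1 (hcomm b hb))
    have hle : Nat.card ↥A ≤ Nat.card ↥B := by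
      rw [hBdef, Subgroup.card_map_of_injective (MulEquiv.injective _)]
    rw [Subgroup.commutator_eq_bot_iff_le_centralizer]
    intro x hx
    rw [Subgroup.mem_centralizer_iff]
    intro b hb
    exact Cfsg.Agent.S1757.commute_of_normalizes A B (fun h _ => hBti h) hle hAB' hN x hx b hb

end Cfsg.Agent.S1781
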