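import Cfsg.Statements.S1756
import Cfsg.Agent.Lib.PGroups.Special
import Cfsg.Agent.S1781

set_option autoImplicit false
open Cfsg
open Cfsg.Agent.Lib.PGroups.Special
open scoped commutatorElement

namespace Cfsg.Agent.S1756

/-- An involutory automorphism fixing a subgroup of index two moves elements only by central elements. -/
theorem inv_mul_mem_center {E : Type*} [Group E] (τ : MulAut E) (hτ : ∀ x, τ (τ x) = x)
    (M : Subgroup E) (hM : ∀ x, x ∈ M ↔ τ x = x) (hidx : M.index = 2) (x : E) :
    x⁻¹ * τ x ∈ Subgroup.center E := by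
  by_cases hx : x ∈ M
  · have : τ x = x := (hM x).mp hx
    rw [this, inv_mul_cancel]
    exact Subgroup.one_mem _
  have hnorm : M.Normal := Subgroup.normal_of_index_eq_two hidx
  have hτx : τ x ∉ M := by
    intro h
    apply hx
    rw [hM] at h ⊢
    rw [hτ] at h
    exact h.symm
  set d := x⁻¹ * τ x with hd
  have hdM : d ∈ M := by
    rw [hd, Subgroup.mul_mem_iff_of_index_two hidx]
    simp [hx, hτx]
  have hτd : τ d = d := (hM d).mp hdM
  have hτx' : τ x = x * d := by rw [hd]; group
  have hdd : d * d = 1 := by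
    have h1 := hτ x
    rw [hτx', map_mul, hτx', hτd, mul_assoc] at h1
    exact mul_eq_left.mp h1
  have hdinv : d⁻¹ = d := by
    rw [inv_eq_iff_mul_eq_one]; exact hdd
  -- `d` commutes with `M`
  have hdm : ∀ m ∈ M, d * m = m * d := by
    intro m hm
    have h1 : x * m * x⁻¹ ∈ M := hnorm.conj_mem m hm x
    have h2 := (hM _).mp h1
    rw [map_mul, map_mul, map_inv, hτx', (hM m).mp hm] at h2
    have h3 : d * m * d⁻¹ = m := by
      have h4 : x * (d * m * d⁻¹) * x⁻¹ = x * m * x⁻¹ := by
        rw [← h2]; group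
      have h5 := mul_right_cancel h4
      exact mul_left_cancel h5
    exact mul_inv_eq_iff_eq_mul.mp h3
  -- `d` commutes with `x`
  have hdx : d * x = x * d := by
    have h1 : x * x ∈ M := by
      rw [Subgroup.mul_mem_iff_of_index_two hidx]
    have h2 := (hM _).mp h1
    rw [map_mul, hτx'] at h2
    have h3 : d * x * d = x := by
      have h4 : x * (d * x * d) = x * x := by
        rw [← h2]; group
      exact mul_left_cancel h4
    calc d * x = d * x * (d * d) := by rw [hdd, mul_one]
      _ = (d * x * d) * d := by group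
      _ = x * d := by rw [h3]
  rw [Subgroup.mem_center_iff]
  intro g
  by_cases hg : g ∈ M
  · exact (hdm g hg).symm
  · have h1 : x⁻¹ * g ∈ M := by
      rw [Subgroup.mul_mem_iff_of_index_two hidx]
      simp [hx, hg]
    have h2 := hdm _ h1
    calc g * d = x * (x⁻¹ * g) * d := by group
      _ = x * ((x⁻¹ * g) * d) := by group
      _ = x * (d * (x⁻¹ * g)) := by rw [h2]
      _ = (x * d) * (x⁻¹ * g) := by group
      _ = (d * x) * (x⁻¹ * g) := by rw [hdx]
      _ = d * g := by group

/-- Such an automorphism of an extraspecial `2`-group is inner. -/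
theorem exists_inner {E : Type*} [Group E] [Finite E] (hE : Cfsg.IsExtraspecial 2 E) (τ : MulAut E)
    (hτ : ∀ x, τ (τ x) = x) (M : Subgroup E) (hM : ∀ x, x ∈ M ↔ τ x = x) (hidx : M.index = 2) :
    ∃ e : E, ∀ g : E, τ g = e * g * e⁻¹ := by
  have : Fact (Nat.Prime 2) := ⟨Nat.prime_two⟩
  have hL := extraLike_of_isExtraspecial hE
  have hc : ∀ g : E, τ g * g⁻¹ ∈ Subgroup.center E := by
    intro g
    have h1 := inv_mul_mem_center τ hτ M hM hidx g
    have h2 := Subgroup.mem_center_iff.mp h1 g
    have h3 : τ g * g⁻¹ = g⁻¹ * τ g := by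
      calc τ g * g⁻¹ = g * (g⁻¹ * τ g) * g⁻¹ := by group
        _ = (g⁻¹ * τ g) * g * g⁻¹ := by rw [h2]
        _ = g⁻¹ * τ g := by group
    rw [h3]; exact h1
  let f : E →* Subgroup.center E :=
    { toFun := fun g => ⟨τ g * g⁻¹, hc g⟩
      map_one' := by
        apply Subtype.ext
        simp
      map_mul' := fun a b => by
        apply Subtype.ext
        simp only [map_mul, mul_inv_rev, Subgroup.coe_mul]
        have h2 := Subgroup.mem_center_iff.mp (hc b) (a⁻¹)
        calc τ a * τ b * (b⁻¹ * a⁻¹) = τ a * ((τ b * b⁻¹) * a⁻¹) := by group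
          _ = τ a * (a⁻¹ * (τ b * b⁻¹)) := by rw [h2]
          _ = τ a * a⁻¹ * (τ b * b⁻¹) := by group }
  have hf : ∀ z ∈ Subgroup.center E, f z = 1 := by
    intro z hz
    apply Subtype.ext
    change τ z * z⁻¹ = 1
    rw [mul_inv_eq_one]
    by_cases hz1 : z = 1
    · rw [hz1, map_one]
    have hτz : τ z ∈ Subgroup.center E := by
      rw [Subgroup.mem_center_iff]
      intro g
      obtain ⟨g', rfl⟩ := τ.surjective g
      rw [← map_mul, ← map_mul, Subgroup.mem_center_iff.mp hz g']
    obtain ⟨n, hn⟩ := hL.exists_pow_eq hz hz1 hτz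
    have hz2 : z ^ 2 = 1 := hL.center_pow z hz
    rcases Nat.even_or_odd' n with ⟨k, rfl | rfl⟩
    · rw [pow_mul, hz2, one_pow] at hn
      exfalso
      apply hz1
      have := (map_eq_one_iff τ τ.injective).mp hn
      exact this
    · rw [pow_succ, pow_mul, hz2, one_pow, one_mul] at hn
      exact hn
  obtain ⟨e, he⟩ := hL.exists_comm_eq_hom f hf
  refine ⟨e, fun g => ?_⟩
  have h1 : τ g * g⁻¹ = ⁅e, g⁆ := he g
  rw [commutatorElement_def] at h1
  exact mul_right_cancel h1

/-- Let Q be an extraspecial 2-subgroup of the finite group G (special with centre of order 2) and t an involution of G normalizing Q such that the centralizer of t in Q has index at most 2 in Q. Then t lies in the product of Q with the centralizer of Q. -/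
theorem result {G : Type*} [Group G] [Finite G] (Q : Subgroup G)
    (hQ : Cfsg.IsExtraspecial 2 ↥Q) (t : G) (ht : orderOf t = 2) (htN : t ∈ Subgroup.normalizer (Q : Set G))
    (hi : (Subgroup.centralizer ({t} : Set G) ⊓ Q).relIndex Q ≤ 2) :
    t ∈ Q ⊔ Subgroup.centralizer (Q : Set G) := by
  have ht2 : t * t = 1 := by
    rw [← pow_two, ← ht]; exact pow_orderOf_eq_one t
  have htinv : t⁻¹ = t := by
    rw [inv_eq_iff_mul_eq_one]; exact ht2
  have hpos : (Subgroup.centralizer ({t} : Set G) ⊓ Q).relIndex Q ≠ 0 := by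
    rw [Subgroup.relIndex]
    exact Subgroup.FiniteIndex.index_ne_zero
  have hcases : (Subgroup.centralizer ({t} : Set G) ⊓ Q).relIndex Q = 1 ∨
      (Subgroup.centralizer ({t} : Set G) ⊓ Q).relIndex Q = 2 := by omega
  rcases hcases with h1 | h2
  · -- `t` centralizes `Q`
    rw [Subgroup.relIndex_eq_one] at h1
    refine Subgroup.mem_sup_right ?_
    rw [Subgroup.mem_centralizer_iff]
    intro q hq
    exact Subgroup.mem_centralizer_singleton_iff.mp (h1 hq).1
  · let τ : MulAut ↥Q := Cfsg.Agent.S1781.conjOn Q t htN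
    have hτ : ∀ x, τ (τ x) = x := by
      intro x
      apply Subtype.ext
      change t * (t * x.1 * t⁻¹) * t⁻¹ = x.1
      calc t * (t * x.1 * t⁻¹) * t⁻¹ = (t * t) * x.1 * (t⁻¹ * t⁻¹) := by group
        _ = x.1 := by rw [htinv, ht2]; simp
    have hM : ∀ x : ↥Q, x ∈ (Subgroup.centralizer ({t} : Set G) ⊓ Q).subgroupOf Q ↔ τ x = x := by
      intro x
      rw [Subgroup.mem_subgroupOf]
      constructor
      · rintro ⟨hx, -⟩
        apply Subtype.ext
        change t * x.1 * t⁻¹ = x.1
        have := Subgroup.mem_centralizer_singleton_iff.mp hx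
        rw [← this]; group
      · intro hx
        have h3 : t * x.1 * t⁻¹ = x.1 := congrArg Subtype.val hx
        refine ⟨Subgroup.mem_centralizer_singleton_iff.mpr ?_, x.2⟩
        exact (mul_inv_eq_iff_eq_mul.mp h3).symm
    obtain ⟨e, he⟩ := exists_inner hQ τ hτ _ hM h2
    have hmem : e.1⁻¹ * t ∈ Subgroup.centralizer (Q : Set G) := by
      rw [Subgroup.mem_centralizer_iff]
      intro q hq
      have h3 : t * q * t⁻¹ = e.1 * q * e.1⁻¹ := congrArg Subtype.val (he ⟨q, hq⟩)
      have h4 : t * q = e.1 * q * e.1⁻¹ * t := by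
        rw [← h3]; group
      calc q * (e.1⁻¹ * t) = e.1⁻¹ * (e.1 * q * e.1⁻¹ * t) := by group
        _ = e.1⁻¹ * (t * q) := by rw [h4]
        _ = e.1⁻¹ * t * q := by group
    have : t = e.1 * (e.1⁻¹ * t) := by group
    rw [this]
    exact Subgroup.mul_mem_sup e.2 hmem

end Cfsg.Agent.S1756
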