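import Cfsg.Statements.S1774
import Cfsg.Agent.Lib.TI.SympExp4
import Cfsg.Agent.Lib.TI.SympConj
import Cfsg.Agent.Lib.Components.GenFitting
import Cfsg.Agent.Lib.Core.Basic

set_option autoImplicit false
open Cfsg

namespace Cfsg.Agent.S1774

open Cfsg.Agent.Lib.TI.SympConj Cfsg.Agent.Lib.TI.SympExp4
open scoped commutatorElement

/-- The setting holds for `F*(C(z))`. -/
theorem setup_of {G : Type*} [Group G] [Finite G] (z : G) (hz : orderOf z = 2) (C : Subgroup G)
    (hC : ∀ a : G, a ∈ C ↔ a * z = z * a) (F : Subgroup ↥C) (hFn : F.Normal)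
    (hzF : ∀ hz' : z ∈ C, (⟨z, hz'⟩ : ↥C) ∈ F)
    (hCF : Subgroup.centralizer (F : Set ↥C) ≤ F)
    (h2 : IsPGroup 2 ↥F)
    (hc : ∀ A : Subgroup ↥F, A.Characteristic → IsMulCommutative ↥A → IsCyclic ↥A)
    (h4 : ∀ q ∈ F.map C.subtype, q ^ 4 = 1) : Setup z (F.map C.subtype) := by
  have hzz : z * z = 1 := by rw [← pow_two, ← hz]; exact pow_orderOf_eq_one z
  have hz1 : z ≠ 1 := by
    intro h; rw [h, orderOf_one] at hz; norm_num at hz
  have hzC : z ∈ C := (hC z).mpr rfl
  let i : ↥F →* G := C.subtype.comp F.subtype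
  have hi : Function.Injective i := C.subtype_injective.comp F.subtype_injective
  have hmemQ : ∀ x, x ∈ F.map C.subtype ↔ ∃ e : ↥F, i e = x := by
    intro x
    constructor
    · rintro ⟨c, hc, rfl⟩
      exact ⟨⟨c, hc⟩, rfl⟩
    · rintro ⟨e, rfl⟩
      exact ⟨e.1, e.2, rfl⟩
  let zE : ↥F := ⟨⟨z, hzC⟩, hzF hzC⟩
  have hizE : i zE = z := rfl
  have hzE : zE ∈ Subgroup.center ↥F := by
    rw [Subgroup.mem_center_iff]
    intro g
    apply hi
    rw [map_mul, map_mul, hizE]
    exact (hC _).mp (g : ↥C).2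
  have hzEz : zE * zE = 1 := by
    apply hi
    rw [map_mul, hizE, hzz, map_one]
  have hzE1 : zE ≠ 1 := by
    intro h
    apply hz1
    rw [← hizE, h, map_one]
  have h4' : ∀ x : ↥F, x ^ 4 = 1 := by
    intro x
    apply hi
    rw [map_pow, map_one]
    exact h4 _ ((hmemQ _).mpr ⟨x, rfl⟩)
  obtain ⟨hs1, hs2, hs3⟩ := structure_thm h2 hc h4' hzE hzEz hzE1
  refine ⟨hzz, hz1, (hmemQ z).mpr ⟨zE, rfl⟩, ?_, ?_, ?_, ?_, ?_, ?_⟩
  · intro x hx
    obtain ⟨e, rfl⟩ := (hmemQ x).mp hx
    exact (hC _).mp (e : ↥C).2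
  · intro a ha x hx
    obtain ⟨e, rfl⟩ := (hmemQ x).mp hx
    have haC : a ∈ C := (hC a).mpr ha
    have h1 := hFn.conj_mem (e : ↥C) e.2 ⟨a, haC⟩
    exact (hmemQ _).mpr ⟨⟨_, h1⟩, rfl⟩
  · intro a ha hcomm
    have haC : a ∈ C := (hC a).mpr ha
    have h1 : (⟨a, haC⟩ : ↥C) ∈ Subgroup.centralizer (F : Set ↥C) := by
      rw [Subgroup.mem_centralizer_iff]
      intro g hg
      apply Subtype.ext
      exact (hcomm _ ((hmemQ _).mpr ⟨⟨g, hg⟩, rfl⟩)).symm
    exact (hmemQ a).mpr ⟨⟨_, hCF h1⟩, rfl⟩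
  · intro x hx
    obtain ⟨e, rfl⟩ := (hmemQ x).mp hx
    rcases hs1 e with h1 | h1
    · left; rw [← map_mul, h1, map_one]
    · right; rw [← map_mul, h1, hizE]
  · intro x hx y hy
    obtain ⟨e, rfl⟩ := (hmemQ x).mp hx
    obtain ⟨e', rfl⟩ := (hmemQ y).mp hy
    rw [← map_commutatorElement]
    rcases hs2 e e' with h1 | h1
    · left; rw [h1, map_one]
    · right; rw [h1, hizE]
  · intro x hx hcomm hxx
    obtain ⟨e, rfl⟩ := (hmemQ x).mp hx
    have h1 : e * e = 1 := by
      apply hi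
      rw [map_mul, hxx, map_one]
    have h2 : e ∈ Subgroup.center ↥F := by
      rw [Subgroup.mem_center_iff]
      intro g
      apply hi
      rw [map_mul, map_mul]
      exact (hcomm _ ((hmemQ _).mpr ⟨g, rfl⟩)).symm
    rcases hs3 e h2 h1 with h3 | h3
    · left; rw [h3, map_one]
    · right; rw [h3, hizE]

/-- Let G be a finite group and let z be an involution of G such that Q, the generalized Fitting subgroup of the centralizer C of z, is a 2-group of symplectic type (every characteristic abelian subgroup of Q is cyclic); suppose every element of Q has order dividing 4. Let g ∈ G with z' = g z g⁻¹ ≠ z and z' ∈ Q. Then z lies in the conjugate g Q g⁻¹, and the subgroup X generated by Q and g Q g⁻¹ induces every automorphism of the four-group generated by z and z': for any two distinct non-identity elements u, v of that four-group there is x ∈ X with x z x⁻¹ = u and x z' x⁻¹ = v. -/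
theorem result {G : Type*} [Group G] [Finite G] (z : G) (hz : orderOf z = 2) (hQ : Cfsg.IsOfSymplecticType ↥(Cfsg.generalizedFittingSubgroup ↥(Subgroup.centralizer ({z} : Set G))))
    (h4 : ∀ q ∈ (Cfsg.generalizedFittingSubgroup ↥(Subgroup.centralizer ({z} : Set G))).map (Subgroup.centralizer ({z} : Set G)).subtype, q ^ 4 = 1) (g : G) (hne : g * z * g⁻¹ ≠ z) (hin : g * z * g⁻¹ ∈ (Cfsg.generalizedFittingSubgroup ↥(Subgroup.centralizer ({z} : Set G))).map (Subgroup.centralizer ({z} : Set G)).subtype) :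
    z ∈ ((Cfsg.generalizedFittingSubgroup ↥(Subgroup.centralizer ({z} : Set G))).map (Subgroup.centralizer ({z} : Set G)).subtype).map (MulAut.conj g).toMonoidHom ∧
      ∀ u ∈ Subgroup.closure ({z, g * z * g⁻¹} : Set G), ∀ v ∈ Subgroup.closure ({z, g * z * g⁻¹} : Set G),
        u ≠ 1 → v ≠ 1 → u ≠ v →
          ∃ x ∈ (Cfsg.generalizedFittingSubgroup ↥(Subgroup.centralizer ({z} : Set G))).map (Subgroup.centralizer ({z} : Set G)).subtype ⊔ ((Cfsg.generalizedFittingSubgroup ↥(Subgroup.centralizer ({z} : Set G))).map (Subgroup.centralizer ({z} : Set G)).subtype).map (MulAut.conj g).toMonoidHom, x * z * x⁻¹ = u ∧ x * (g * z * g⁻¹) * x⁻¹ = v := by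
  have hs : Setup z ((Cfsg.generalizedFittingSubgroup ↥(Subgroup.centralizer ({z} : Set G))).map (Subgroup.centralizer ({z} : Set G)).subtype) := by
    refine setup_of z hz _ (fun a => ?_) _ inferInstance (fun hz' => ?_)
      Cfsg.Agent.Lib.Components.GenFitting.centralizer_generalizedFitting_le hQ.1 hQ.2 h4
    · rw [Subgroup.mem_centralizer_singleton_iff]
    · apply Cfsg.Agent.Lib.Components.Basic.fitting_le_generalizedFitting
      apply Cfsg.Agent.Lib.Core.Basic.center_le_fittingSubgroup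
      rw [Subgroup.mem_center_iff]
      rintro ⟨c, hc⟩
      exact Subtype.ext (Subgroup.mem_centralizer_singleton_iff.mp hc)
  exact ⟨Setup.mem_of_conj hs hin hne, Setup.exists_action hs hin hne⟩

end Cfsg.Agent.S1774
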