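import Cfsg.Statements.S1775
import Cfsg.Agent.Lib.TI.LBalance

set_option autoImplicit false
set_option linter.style.haveILetI false
open Cfsg

namespace Cfsg.Agent.S1775

open Subgroup Cfsg.Agent.Lib.TI.LBalance Cfsg.Agent.Lib.PCStage.Stage
open scoped commutatorElement

/-- The auxiliary form of the theorem, with `D` a variable. -/
theorem aux {G : Type*} [Group G] [Finite G]
    (hF : IsSimpleGroup ↥(Cfsg.generalizedFittingSubgroup G)) (hF' : ¬ IsMulCommutative ↥(Cfsg.generalizedFittingSubgroup G))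
    (hsec : ∀ (H : Subgroup G) (N : Subgroup ↥H) [N.Normal], (H ≠ ⊤ ∨ N ≠ ⊥) → Cfsg.HasBProperty (↥H ⧸ N))
    (x y : G) (hx : orderOf x = 2) (hy : orderOf y = 2) (hxy : x * y = y * x)
    (D : Subgroup G) (hD : D = (Cfsg.pLayer 2 ↥(Subgroup.centralizer ({x} : Set G))).map (Subgroup.centralizer ({x} : Set G)).subtype ⊓ Subgroup.centralizer ({y} : Set G))
    (J : Subgroup ↥D)
    (hJ : Cfsg.IsPComponent 2 J) :
    Cfsg.IsComponent
        ((((J.map (Subgroup.subtype _)).subgroupOf (Subgroup.centralizer ({y} : Set G))).map (QuotientGroup.mk' (Cfsg.oddCore ↥(Subgroup.centralizer ({y} : Set G))))).subgroupOf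
          (Subgroup.centralizer ({(QuotientGroup.mk' (Cfsg.oddCore ↥(Subgroup.centralizer ({y} : Set G))) ⟨x, Subgroup.mem_centralizer_singleton_iff.mpr hxy⟩ : ↥(Subgroup.centralizer ({y} : Set G)) ⧸ Cfsg.oddCore ↥(Subgroup.centralizer ({y} : Set G)))} : Set _))) ∧
      ∀ E : Subgroup G, E ≤ Subgroup.centralizer ({x} : Set G) ⊓ Subgroup.centralizer ({y} : Set G) → Odd (Nat.card ↥E) →
        (∀ j ∈ J.map (Subgroup.subtype _), ∀ e ∈ E, j * e * j⁻¹ ∈ E) →
          ⁅J.map (Subgroup.subtype _), E⁆ ≤ (Cfsg.oddCore ↥(Subgroup.centralizer ({y} : Set G))).map (Subgroup.centralizer ({y} : Set G)).subtype := by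
  -- `y` is not central
  have hCy : centralizer ({y} : Set G) ≠ ⊤ := by
    intro htop
    have hyZ : y ∈ center G := by
      rw [mem_center_iff]
      intro g
      have h1 : g ∈ centralizer ({y} : Set G) := by rw [htop]; trivial
      exact mem_centralizer_singleton_iff.mp h1
    have hyF : y ∈ generalizedFittingSubgroup G :=
      Cfsg.Agent.Lib.Components.Basic.fitting_le_generalizedFitting
        (Cfsg.Agent.Lib.Core.Basic.center_le_fittingSubgroup hyZ)
    have hyc : (⟨y, hyF⟩ : ↥(generalizedFittingSubgroup G)) ∈ center ↥(generalizedFittingSubgroup G) := by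
      rw [mem_center_iff]
      rintro ⟨g, hg⟩
      exact Subtype.ext (mem_center_iff.mp hyZ g)
    rcases (inferInstance : (center ↥(generalizedFittingSubgroup G)).Normal).eq_bot_or_eq_top with h | h
    · rw [h, mem_bot] at hyc
      have h1 : y = 1 := congrArg Subtype.val hyc
      rw [h1, orderOf_one] at hy
      norm_num at hy
    · apply hF'
      refine ⟨⟨fun a b => ?_⟩⟩
      have h1 : a ∈ center ↥(generalizedFittingSubgroup G) := by rw [h]; trivial
      exact (mem_center_iff.mp h1 b).symm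
  have hB : HasBProperty ↥(centralizer ({y} : Set G)) :=
    hasBProperty_of_mulEquiv QuotientGroup.quotientBot (hsec _ ⊥ (Or.inl hCy))
  let t : ↥(centralizer ({y} : Set G)) := ⟨x, mem_centralizer_singleton_iff.mpr hxy⟩
  have hxx : x * x = 1 := by rw [← pow_two, ← hx]; exact pow_orderOf_eq_one x
  have htt : t * t = 1 := Subtype.ext hxx
  have hto : orderOf t = 2 := by
    change orderOf (⟨x, _⟩ : ↥(centralizer ({y} : Set G))) = 2
    rw [Subgroup.orderOf_mk]; exact hx
  have hBt := hB t hto
  let T : Subgroup ↥(centralizer ({y} : Set G)) := centralizer ({t} : Set ↥(centralizer ({y} : Set G)))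
  have hT : ∀ c, c ∈ T ↔ c * t = t * c := fun c => mem_centralizer_singleton_iff
  let ι : ↥T →* G := (centralizer ({y} : Set G)).subtype.comp T.subtype
  have hι : Function.Injective ι :=
    (centralizer ({y} : Set G)).subtype_injective.comp T.subtype_injective
  have hιx : ∀ τ : ↥T, ι τ * x = x * ι τ := by
    intro τ
    exact congrArg Subtype.val ((hT τ).mp τ.2)
  have hιy : ∀ τ : ↥T, ι τ * y = y * ι τ := fun τ =>
    mem_centralizer_singleton_iff.mp (τ : ↥(centralizer ({y} : Set G))).2
  -- the normal subgroup `D'` of `C_X(t)`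
  have hDx : ∀ d ∈ D, d * x = x * d := by
    rw [hD]
    rintro d ⟨⟨c, _, rfl⟩, _⟩
    exact mem_centralizer_singleton_iff.mp c.2
  have hDy : ∀ d ∈ D, d * y = y * d := by
    rw [hD]
    rintro d ⟨_, h⟩
    exact mem_centralizer_singleton_iff.mp h
  have hrange : D ≤ ι.range := by
    intro d hd
    have h1 : d ∈ centralizer ({y} : Set G) := mem_centralizer_singleton_iff.mpr (hDy d hd)
    have h2 : (⟨d, h1⟩ : ↥(centralizer ({y} : Set G))) ∈ T := by
      rw [hT]
      exact Subtype.ext (hDx d hd)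
    exact ⟨⟨⟨d, h1⟩, h2⟩, rfl⟩
  let D' : Subgroup ↥T := D.comap ι
  have hD'n : D'.Normal := by
    constructor
    intro d hd τ
    change ι (τ * d * τ⁻¹) ∈ D
    rw [map_mul, map_mul, map_inv]
    have hd' : ι d ∈ D := hd
    rw [hD] at hd' ⊢
    have hτx : ι τ ∈ centralizer ({x} : Set G) := mem_centralizer_singleton_iff.mpr (hιx τ)
    constructor
    · obtain ⟨⟨c, hc, e⟩, _⟩ := hd'
      have h1 := (inferInstance : (pLayer 2 ↥(centralizer ({x} : Set G))).Normal).conj_mem c hc ⟨ι τ, hτx⟩
      refine ⟨_, h1, ?_⟩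
      have e' : (c : G) = ι d := e
      change ι τ * (c : G) * (ι τ)⁻¹ = ι τ * ι d * (ι τ)⁻¹
      rw [e']
    · have h1 : ι τ ∈ centralizer ({y} : Set G) := (τ : ↥(centralizer ({y} : Set G))).2
      have h2 : ι d ∈ centralizer ({y} : Set G) := (d : ↥(centralizer ({y} : Set G))).2
      change ι τ * ι d * (ι τ)⁻¹ ∈ centralizer ({y} : Set G)
      exact mul_mem (mul_mem h1 h2) (inv_mem h1)
  let e₀ : ↥D' ≃* ↥D := (D'.equivMapOfInjective ι hι).trans
    (MulEquiv.subgroupCongr (Subgroup.map_comap_eq_self hrange))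
  have he₀ : ∀ w : ↥D', ((e₀ w : ↥D) : G) = ι w := fun _ => rfl
  let K' : Subgroup ↥D' := J.map e₀.symm.toMonoidHom
  have hK' : IsPComponent 2 K' := isPComponent_map_equiv e₀.symm hJ
  let K : Subgroup ↥T := K'.map D'.subtype
  have hK : IsPComponent 2 K := isPComponent_map_of_isSubnormal hD'n.isSubnormal hK'
  have hKJ : K.map T.subtype = (J.map D.subtype).subgroupOf (centralizer ({y} : Set G)) := by
    ext z
    rw [mem_subgroupOf]
    constructor
    · rintro ⟨_, ⟨_, ⟨j, hj, rfl⟩, rfl⟩, rfl⟩
      refine ⟨j, hj, ?_⟩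
      have h1 := he₀ (e₀.symm.toMonoidHom j)
      have h2 : e₀ (e₀.symm.toMonoidHom j) = j := e₀.apply_symm_apply j
      rw [h2] at h1
      exact h1
    · rintro ⟨j, hj, e⟩
      have h2 : ((e₀ (e₀.symm j) : ↥D) : G) = (z : G) := by
        rw [e₀.apply_symm_apply]; exact e
      rw [he₀] at h2
      refine ⟨_, ⟨_, ⟨j, hj, rfl⟩, rfl⟩, ?_⟩
      exact Subtype.ext h2
  rw [← hKJ]
  refine ⟨image_isComponent hT hK hBt htt, ?_⟩
  intro E hE hodd hinv
  have hJy : J.map D.subtype ≤ centralizer ({y} : Set G) :=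
    (map_subtype_le J).trans (by rw [hD]; exact inf_le_right)
  rw [← Subgroup.map_subgroupOf_eq_of_le hJy]
  rw [← hKJ]
  have hEy : E ≤ centralizer ({y} : Set G) := hE.trans inf_le_right
  rw [← Subgroup.map_subgroupOf_eq_of_le hEy, ← Subgroup.map_commutator]
  apply Subgroup.map_mono
  apply commutator_le_oddCore hK hBt
  · intro e he
    rw [mem_subgroupOf] at he
    rw [hT]
    apply Subtype.ext
    exact mem_centralizer_singleton_iff.mp (hE he).1
  · have : Nat.card ↥(E.subgroupOf (centralizer ({y} : Set G))) = Nat.card ↥E :=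
      Nat.card_congr (subgroupOfEquivOfLe hEy).toEquiv
    rwa [this]
  · rw [hKJ]
    intro j hj e he
    rw [mem_subgroupOf] at hj he ⊢
    exact hinv _ hj _ he


/-- Let G be a finite group whose generalized Fitting subgroup is a non-abelian simple group and in which every proper section (every quotient H/N of a proper subgroup H, or of G by a nontrivial normal subgroup) has the B-property. Let x, y be commuting involutions, let D be the intersection of the 2-layer of C_G(x) with C_G(y), and let J be a 2-component of D. Write Q for the quotient of C_G(y) by its largest normal odd-order subgroup. Then (i) the image of J in Q is a component of the centralizer in Q of the image of x; and (ii) for every J-invariant subgroup E of odd order of C_G(x) ∩ C_G(y), the commutator subgroup [J, E] lies in the largest normal odd-order subgroup of C_G(y). -/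
theorem result {G : Type*} [Group G] [Finite G]
    (hF : IsSimpleGroup ↥(Cfsg.generalizedFittingSubgroup G)) (hF' : ¬ IsMulCommutative ↥(Cfsg.generalizedFittingSubgroup G))
    (hsec : ∀ (H : Subgroup G) (N : Subgroup ↥H) [N.Normal], (H ≠ ⊤ ∨ N ≠ ⊥) → Cfsg.HasBProperty (↥H ⧸ N))
    (x y : G) (hx : orderOf x = 2) (hy : orderOf y = 2) (hxy : x * y = y * x)
    (J : Subgroup ↥((Cfsg.pLayer 2 ↥(Subgroup.centralizer ({x} : Set G))).map (Subgroup.centralizer ({x} : Set G)).subtype ⊓ Subgroup.centralizer ({y} : Set G)))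
    (hJ : Cfsg.IsPComponent 2 J) :
    Cfsg.IsComponent
        ((((J.map (Subgroup.subtype _)).subgroupOf (Subgroup.centralizer ({y} : Set G))).map (QuotientGroup.mk' (Cfsg.oddCore ↥(Subgroup.centralizer ({y} : Set G))))).subgroupOf
          (Subgroup.centralizer ({(QuotientGroup.mk' (Cfsg.oddCore ↥(Subgroup.centralizer ({y} : Set G))) ⟨x, Subgroup.mem_centralizer_singleton_iff.mpr hxy⟩ : ↥(Subgroup.centralizer ({y} : Set G)) ⧸ Cfsg.oddCore ↥(Subgroup.centralizer ({y} : Set G)))} : Set _))) ∧
      ∀ E : Subgroup G, E ≤ Subgroup.centralizer ({x} : Set G) ⊓ Subgroup.centralizer ({y} : Set G) → Odd (Nat.card ↥E) →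
        (∀ j ∈ J.map (Subgroup.subtype _), ∀ e ∈ E, j * e * j⁻¹ ∈ E) →
          ⁅J.map (Subgroup.subtype _), E⁆ ≤ (Cfsg.oddCore ↥(Subgroup.centralizer ({y} : Set G))).map (Subgroup.centralizer ({y} : Set G)).subtype := by
  exact aux hF hF' hsec x y hx hy hxy _ rfl J hJ

end Cfsg.Agent.S1775
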