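import Cfsg.Statements.S1782
import Cfsg.Agent.Lib.TI.Basic
import Cfsg.Agent.Lib.PGroups.Basic
import Cfsg.Agent.Lib.PGroups.ClassTwo
import Cfsg.Agent.Lib.Components.Basic
import Cfsg.Agent.S1757

set_option autoImplicit false
open Cfsg
open Cfsg.Agent.Lib.TI.Basic
open Cfsg.Agent.Lib.PGroups.ClassTwo
open scoped commutatorElement

namespace Cfsg.Agent.S1782

section Core

variable {S : Type*} [Group S]

/-- The local configuration of two subgroups used in the core of the argument. -/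
structure Cfg (R T : Subgroup S) : Prop where
  disj : R ⊓ T = ⊥
  Rfix : ∀ s u : S, u ∈ R → u ≠ 1 → s * u = u * s → s ∈ Subgroup.normalizer (R : Set S)
  Tfix : ∀ s u : S, u ∈ T → u ≠ 1 → s * u = u * s → s ∈ Subgroup.normalizer (T : Set S)
  Rcomm : ∀ t ∈ T, t ∉ Subgroup.normalizer (R : Set S) → ∀ x ∈ R, ∀ y ∈ R,
    x * (t * y * t⁻¹) = (t * y * t⁻¹) * x
  Tcomm : ∀ r ∈ R, r ∉ Subgroup.normalizer (T : Set S) → ∀ x ∈ T, ∀ y ∈ T,
    x * (r * y * r⁻¹) = (r * y * r⁻¹) * x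

theorem Cfg.symm {R T : Subgroup S} (h : Cfg R T) : Cfg T R :=
  ⟨by rw [inf_comm]; exact h.disj, h.Tfix, h.Rfix, h.Tcomm, h.Rcomm⟩

theorem one_mem_normalizer_aux (R : Subgroup S) : (1 : S) ∈ Subgroup.normalizer (R : Set S) :=
  Subgroup.one_mem _

variable {R T : Subgroup S}

theorem comm_commute (h : Cfg R T) {r t : S} (hr : r ∈ R) (ht : t ∈ T)
    (hrN : r ∉ Subgroup.normalizer (T : Set S)) (htN : t ∉ Subgroup.normalizer (R : Set S)) :
    Commute ⁅r, t⁆ r ∧ Commute ⁅r, t⁆ t := by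
  constructor
  · have h1 := h.Rcomm t ht htN r hr r⁻¹ (R.inv_mem hr)
    change ⁅r, t⁆ * r = r * ⁅r, t⁆
    rw [commutatorElement_def]
    calc r * t * r⁻¹ * t⁻¹ * r = r * ((t * r⁻¹ * t⁻¹) * r) := by group
      _ = r * (r * (t * r⁻¹ * t⁻¹)) := by rw [h1]
      _ = r * (r * t * r⁻¹ * t⁻¹) := by group
  · have h1 := h.Tcomm r hr hrN t⁻¹ (T.inv_mem ht) t ht
    change ⁅r, t⁆ * t = t * ⁅r, t⁆
    rw [commutatorElement_def]
    calc r * t * r⁻¹ * t⁻¹ * t = t * (t⁻¹ * (r * t * r⁻¹)) := by group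
      _ = t * ((r * t * r⁻¹) * t⁻¹) := by rw [h1]

theorem comm_sq [Finite S] (hS : IsPGroup 2 S) (h : Cfg R T) {r t : S} (hr : r ∈ R) (ht : t ∈ T)
    (hrN : r ∉ Subgroup.normalizer (T : Set S)) (htN : t ∉ Subgroup.normalizer (R : Set S)) :
    ⁅r, t⁆ ^ 2 = 1 := by
  classical
  obtain ⟨hcr, hct⟩ := comm_commute h hr ht hrN htN
  set c := ⁅r, t⁆ with hc
  have hex : ∃ k : ℕ, c ^ (2 ^ k) = 1 := hS c
  -- least such `k`
  obtain ⟨k, hk, hmin⟩ : ∃ k, c ^ (2 ^ k) = 1 ∧ ∀ m < k, c ^ (2 ^ m) ≠ 1 :=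
    ⟨Nat.find hex, Nat.find_spec hex, fun m hm => Nat.find_min hex hm⟩
  by_cases hk1 : k ≤ 1
  · have : 2 ^ k ∣ 2 := by
      interval_cases k <;> norm_num
    exact orderOf_dvd_iff_pow_eq_one.mp ((orderOf_dvd_of_pow_eq_one hk).trans this)
  exfalso
  push Not at hk1
  obtain ⟨j, rfl⟩ : ∃ j, k = j + 2 := ⟨k - 2, by omega⟩
  -- `n = 2 ^ (j + 1)`
  have hn1 : c ^ (2 ^ (j + 1)) ≠ 1 := hmin _ (by omega)
  have hnn : c ^ (2 ^ (j + 1) * 2 ^ (j + 1)) = 1 := by
    have : 2 ^ (j + 1) * 2 ^ (j + 1) = 2 ^ (j + 2) * 2 ^ j := by ring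
    rw [this, pow_mul, hk, one_pow]
  set n := 2 ^ (j + 1) with hn
  -- the commutators
  have h1 : ⁅r ^ n, t⁆ = c ^ n := comm_pow_left_of_comm hcr n
  have h2 : ⁅r, t ^ n⁆ = c ^ n := comm_pow_right_of_comm hct n
  have h3 : ⁅r ^ n, t ^ n⁆ = 1 := by
    have hc1 : Commute ⁅r ^ n, t⁆ t := by
      rw [h1]; exact hct.pow_left n
    rw [comm_pow_right_of_comm hc1 n, h1, ← pow_mul, hnn]
  have hr1 : r ^ n ≠ 1 := by
    intro h0
    rw [h0] at h1
    simp only [commutatorElement_one_left] at h1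
    exact hn1 h1.symm
  have ht1 : t ^ n ≠ 1 := by
    intro h0
    rw [h0] at h2
    simp only [commutatorElement_one_right] at h2
    exact hn1 h2.symm
  have hcomm : r ^ n * t ^ n = t ^ n * r ^ n := commutatorElement_eq_one_iff_mul_comm.mp h3
  have hNR : t ^ n ∈ Subgroup.normalizer (R : Set S) :=
    h.Rfix _ _ (R.pow_mem hr n) hr1 hcomm.symm
  have hNT : r ^ n ∈ Subgroup.normalizer (T : Set S) :=
    h.Tfix _ _ (T.pow_mem ht n) ht1 hcomm
  have hdR : c ^ n ∈ R := by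
    rw [← h2, commutatorElement_def]
    have := (Subgroup.mem_normalizer_iff.mp hNR r⁻¹).mp (R.inv_mem hr)
    have h5 := R.mul_mem hr this
    simpa [mul_assoc] using h5
  have hdT : c ^ n ∈ T := by
    rw [← h1, commutatorElement_def]
    have := (Subgroup.mem_normalizer_iff.mp hNT t).mp ht
    exact T.mul_mem this (T.inv_mem ht)
  have : c ^ n ∈ R ⊓ T := ⟨hdR, hdT⟩
  rw [h.disj, Subgroup.mem_bot] at this
  exact hn1 this

/-- Elements of `R` not normalizing `T` are involutions (as soon as some element of `T` does not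
normalize `R`). -/
theorem sq_eq_one [Finite S] (hS : IsPGroup 2 S) (h : Cfg R T) {r t : S} (hr : r ∈ R) (ht : t ∈ T)
    (hrN : r ∉ Subgroup.normalizer (T : Set S)) (htN : t ∉ Subgroup.normalizer (R : Set S)) :
    r ^ 2 = 1 := by
  obtain ⟨hcr, -⟩ := comm_commute h hr ht hrN htN
  have h1 : ⁅r ^ 2, t⁆ = 1 := by
    rw [comm_pow_left_of_comm hcr 2, comm_sq hS h hr ht hrN htN]
  by_contra hne
  have hcomm : r ^ 2 * t = t * r ^ 2 := commutatorElement_eq_one_iff_mul_comm.mp h1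
  exact htN (h.Rfix t _ (R.pow_mem hr 2) hne hcomm.symm)


/-! ### A subgroup `R` all of whose elements outside `P` are involutions -/

section Outside

variable {R P : Subgroup S}

theorem inv_on (hsq : ∀ x ∈ R, x ∉ P → x ^ 2 = 1) {x m : S} (hx : x ∈ R) (hxP : x ∉ P) (hm : m ∈ R)
    (hmP : m ∈ P) : x * m * x⁻¹ = m⁻¹ := by
  have h1 : x * m ∉ P := fun h => hxP (by simpa using P.mul_mem h (P.inv_mem hmP))
  have h2 := hsq _ (R.mul_mem hx hm) h1
  have h3 := hsq _ hx hxP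
  have hxi : x⁻¹ = x := by
    rw [inv_eq_iff_mul_eq_one, ← pow_two]; exact h3
  rw [hxi, pow_two] at *
  rw [eq_inv_iff_mul_eq_one]
  calc x * m * x * m = x * m * (x * m) := by group
    _ = 1 := h2

theorem frattini_bot_of_sq {X : Type*} [Group X] [Finite X] (h : ∀ x : X, x ^ 2 = 1) :
    frattini X = ⊥ := by
  have : Fact (Nat.Prime 2) := ⟨Nat.prime_two⟩
  have hinv : ∀ x : X, x⁻¹ = x := fun x => by
    rw [inv_eq_iff_mul_eq_one, ← pow_two]; exact h x
  have hcomm : ∀ x y : X, x * y = y * x := fun x y => by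
    have := hinv (x * y)
    rw [mul_inv_rev, hinv x, hinv y] at this
    exact this.symm
  rw [eq_bot_iff]
  refine Cfsg.Agent.Lib.PGroups.Basic.frattini_le_of_normal (p := 2) ⊥ ?_ (fun x => by simp [h x])
  rw [commutator_def, Subgroup.commutator_le]
  intro a _ b _
  rw [commutatorElement_eq_one_iff_mul_comm.mpr (hcomm a b)]
  exact Subgroup.one_mem _

theorem exists_sq_ne_one [Finite S] (hsq : ∀ x ∈ R, x ∉ P → x ^ 2 = 1) (hΦ : frattini ↥R ≠ ⊥) :
    ∃ y ∈ R, y ∈ P ∧ y ^ 2 ≠ 1 := by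
  by_contra hcon
  push Not at hcon
  apply hΦ
  apply frattini_bot_of_sq
  rintro ⟨x, hx⟩
  apply Subtype.ext
  by_cases hxP : x ∈ P
  · exact hcon x hx hxP
  · exact hsq x hx hxP

theorem product_mem (hsq : ∀ x ∈ R, x ∉ P → x ^ 2 = 1) {y : S} (hy : y ∈ R) (hyP : y ∈ P)
    (hy2 : y ^ 2 ≠ 1) {x x' : S} (hx : x ∈ R) (hxP : x ∉ P) (hx' : x' ∈ R) (hx'P : x' ∉ P) :
    x * x' ∈ P := by
  by_contra hcon
  have h1 := inv_on hsq (R.mul_mem hx hx') hcon hy hyP
  have h2 := inv_on hsq hx' hx'P hy hyP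
  have h3 := inv_on hsq hx hxP hy hyP
  apply hy2
  have h4 : x * x' * y * (x * x')⁻¹ = x * (x' * y * x'⁻¹) * x⁻¹ := by group
  rw [h4, h2] at h1
  have h5 : x * y⁻¹ * x⁻¹ = (x * y * x⁻¹)⁻¹ := by group
  rw [h5, h3, inv_inv] at h1
  rw [pow_two]
  nth_rewrite 1 [h1]
  simp

theorem comm_on (hsq : ∀ x ∈ R, x ∉ P → x ^ 2 = 1) {x m m' : S} (hx : x ∈ R) (hxP : x ∉ P) (hm : m ∈ R)
    (hmP : m ∈ P) (hm' : m' ∈ R) (hm'P : m' ∈ P) : m * m' = m' * m := by
  have h1 := inv_on hsq hx hxP (R.mul_mem hm hm') (P.mul_mem hmP hm'P)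
  have h2 := inv_on hsq hx hxP hm hmP
  have h3 := inv_on hsq hx hxP hm' hm'P
  have h4 : x * (m * m') * x⁻¹ = (x * m * x⁻¹) * (x * m' * x⁻¹) := by group
  rw [h4, h2, h3] at h1
  have h5 := congrArg (·⁻¹) h1
  simp only [mul_inv_rev, inv_inv] at h5
  exact h5.symm

end Outside

/-- One half of the normalization statement: an element `x` of `R` outside `N(T)` normalizes
`(R ⊓ N(T)) ⊔ (T ⊓ N(R))`, given that all elements of `R` outside `N(T)` are involutions. -/
theorem mem_normalizer_sup {R T : Subgroup S} (hsq : ∀ x ∈ R, x ∉ Subgroup.normalizer (T : Set S) → x ^ 2 = 1)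
    {y : S} (hy : y ∈ R) (hyP : y ∈ Subgroup.normalizer (T : Set S)) (hy2 : y ^ 2 ≠ 1)
    {x : S} (hx : x ∈ R) (hxP : x ∉ Subgroup.normalizer (T : Set S)) :
    x ∈ Subgroup.normalizer (((R ⊓ Subgroup.normalizer (T : Set S)) ⊔
      (T ⊓ Subgroup.normalizer (R : Set S)) : Subgroup S) : Set S) := by
  set A : Subgroup S := (R ⊓ Subgroup.normalizer (T : Set S)) ⊔ (T ⊓ Subgroup.normalizer (R : Set S)) with hA
  have hforward : ∀ a ∈ A, x * a * x⁻¹ ∈ A := by
    have hle : A ≤ A.comap (MulAut.conj x).toMonoidHom := by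
      rw [hA, sup_le_iff]
      constructor
      · rintro m ⟨hm, hmP⟩
        rw [← hA, Subgroup.mem_comap]
        have := inv_on hsq hx hxP hm hmP
        simp only [MulEquiv.coe_toMonoidHom, MulAut.conj_apply]
        rw [this]
        exact A.inv_mem (Subgroup.mem_sup_left ⟨hm, hmP⟩)
      · rintro w ⟨hw, hwP⟩
        rw [← hA, Subgroup.mem_comap]
        simp only [MulEquiv.coe_toMonoidHom, MulAut.conj_apply]
        -- `x' = w x⁻¹ w⁻¹`
        have hx'R : w * x⁻¹ * w⁻¹ ∈ R := (Subgroup.mem_normalizer_iff.mp hwP x⁻¹).mp (R.inv_mem hx)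
        have hwT : w ∈ Subgroup.normalizer (T : Set S) := by
          rw [Subgroup.mem_normalizer_iff]
          intro u
          constructor
          · intro hu
            exact T.mul_mem (T.mul_mem hw hu) (T.inv_mem hw)
          · intro hu
            have := T.mul_mem (T.mul_mem (T.inv_mem hw) hu) hw
            simpa [mul_assoc] using this
        have hx'P : w * x⁻¹ * w⁻¹ ∉ Subgroup.normalizer (T : Set S) := by
          intro h
          apply hxP
          have h1 := Subgroup.mul_mem _ (Subgroup.mul_mem _ (Subgroup.inv_mem _ hwT) h) hwT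
          have h2 : w⁻¹ * (w * x⁻¹ * w⁻¹) * w = x⁻¹ := by group
          rw [h2] at h1
          simpa using Subgroup.inv_mem _ h1
        have hprod := product_mem hsq hy hyP hy2 hx hxP hx'R hx'P
        have hprodR : x * (w * x⁻¹ * w⁻¹) ∈ R := R.mul_mem hx hx'R
        have h3 : x * w * x⁻¹ = (x * (w * x⁻¹ * w⁻¹)) * w := by group
        rw [h3]
        exact A.mul_mem (Subgroup.mem_sup_left ⟨hprodR, hprod⟩) (Subgroup.mem_sup_right ⟨hw, hwP⟩)
    intro a ha
    exact hle ha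
  rw [Subgroup.mem_normalizer_iff]
  intro a
  refine ⟨hforward a, fun h => ?_⟩
  have h1 := hforward _ h
  have hx2 := hsq x hx hxP
  have hxi : x⁻¹ = x := by
    rw [inv_eq_iff_mul_eq_one, ← pow_two]; exact hx2
  have hxx : x * x = 1 := by rw [← pow_two]; exact hx2
  have h2 : x * (x * a * x⁻¹) * x⁻¹ = a := by
    calc x * (x * a * x⁻¹) * x⁻¹ = (x * x) * a * (x * x)⁻¹ := by group
      _ = a := by rw [hxx]; simp
  rwa [h2] at h1

theorem no_both [Finite S] (hS : IsPGroup 2 S) {R T : Subgroup S} (h : Cfg R T) (hΦR : frattini ↥R ≠ ⊥)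
    {r t : S} (hr : r ∈ R) (ht : t ∈ T)
    (hrN : r ∉ Subgroup.normalizer (T : Set S)) (htN : t ∉ Subgroup.normalizer (R : Set S))
    (hΦT : frattini ↥T ≠ ⊥) : False := by
  have : Fact (Nat.Prime 2) := ⟨Nat.prime_two⟩
  have hsqR : ∀ x ∈ R, x ∉ Subgroup.normalizer (T : Set S) → x ^ 2 = 1 :=
    fun x hx hxN => sq_eq_one hS h hx ht hxN htN
  have hsqT : ∀ x ∈ T, x ∉ Subgroup.normalizer (R : Set S) → x ^ 2 = 1 :=
    fun x hx hxN => sq_eq_one hS h.symm hx hr hxN hrN
  obtain ⟨y, hy, hyP, hy2⟩ := exists_sq_ne_one hsqR hΦR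
  obtain ⟨w, hw, hwP, hw2⟩ := exists_sq_ne_one hsqT hΦT
  set M : Subgroup S := R ⊓ Subgroup.normalizer (T : Set S) with hM
  set N : Subgroup S := T ⊓ Subgroup.normalizer (R : Set S) with hN
  set A : Subgroup S := M ⊔ N with hA
  have hrA : r ∈ Subgroup.normalizer (A : Set S) := mem_normalizer_sup hsqR hy hyP hy2 hr hrN
  have htA : t ∈ Subgroup.normalizer (A : Set S) := by
    have := mem_normalizer_sup hsqT hw hwP hw2 ht htN
    rwa [sup_comm] at this
  have hMN : ⁅M, N⁆ = ⊥ := by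
    rw [Subgroup.commutator_eq_bot_iff_le_centralizer]
    rintro m ⟨hm, hmP⟩
    rw [Subgroup.mem_centralizer_iff]
    rintro n ⟨hn, hnP⟩
    have h1 : m * n * m⁻¹ * n⁻¹ ∈ R ⊓ T := by
      constructor
      · have := (Subgroup.mem_normalizer_iff.mp hnP m⁻¹).mp (R.inv_mem hm)
        have h2 := R.mul_mem hm this
        simpa [mul_assoc] using h2
      · exact T.mul_mem ((Subgroup.mem_normalizer_iff.mp hmP n).mp hn) (T.inv_mem hn)
    rw [h.disj, Subgroup.mem_bot] at h1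
    exact (mul_inv_eq_iff_eq_mul.mp (mul_inv_eq_one.mp h1)).symm
  -- a central involution of `N(A)` inside `A`
  have hy1 : y ≠ 1 := by
    rintro rfl
    simp at hy2
  have hyA : y ∈ A := Subgroup.mem_sup_left ⟨hy, hyP⟩
  have hnorm : (A.subgroupOf (Subgroup.normalizer (A : Set S))).Normal := by
    rw [Subgroup.normal_subgroupOf_iff_le_normalizer Subgroup.le_normalizer]
  have hne : A.subgroupOf (Subgroup.normalizer (A : Set S)) ≠ ⊥ := by
    intro hbot
    have h1 : (⟨y, Subgroup.le_normalizer hyA⟩ : ↥(Subgroup.normalizer (A : Set S))) ∈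
        A.subgroupOf (Subgroup.normalizer (A : Set S)) := by
      rw [Subgroup.mem_subgroupOf]; exact hyA
    rw [hbot, Subgroup.mem_bot] at h1
    exact hy1 (congrArg Subtype.val h1)
  obtain ⟨z, hzA, hzc, hzo⟩ := Cfsg.Agent.Lib.PGroups.Basic.exists_central_orderOf_eq
    (hS.to_subgroup (Subgroup.normalizer (A : Set S))) _ hne
  have hzA' : (z : S) ∈ A := Subgroup.mem_subgroupOf.mp hzA
  have hzr : r * (z : S) = (z : S) * r :=
    congrArg Subtype.val (Subgroup.mem_center_iff.mp hzc ⟨r, hrA⟩)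
  have hzt : t * (z : S) = (z : S) * t :=
    congrArg Subtype.val (Subgroup.mem_center_iff.mp hzc ⟨t, htA⟩)
  have hzo' : orderOf (z : S) = 2 := by rw [Subgroup.orderOf_coe]; exact hzo
  have hz1 : (z : S) ≠ 1 := by
    intro h0
    rw [h0, orderOf_one] at hzo'
    omega
  have hz2 : (z : S) ^ 2 = 1 := by
    rw [← hzo']; exact pow_orderOf_eq_one _
  obtain ⟨m, hm, n, hn, hmn⟩ := Cfsg.Agent.Lib.Components.Basic.mem_sup_of_commutator_eq_bot hMN hzA'
  have hcomm : m * n = n * m := by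
    have := (Subgroup.commutator_eq_bot_iff_le_centralizer.mp hMN) hm
    exact (Subgroup.mem_centralizer_iff.mp this n hn).symm
  have h1 : m ^ 2 * n ^ 2 = 1 := by
    calc m ^ 2 * n ^ 2 = m * (m * n) * n := by simp only [pow_two]; group
      _ = m * (n * m) * n := by rw [hcomm]
      _ = (m * n) ^ 2 := by simp only [pow_two]; group
      _ = 1 := by rw [hmn]; exact hz2
  have hm2 : m ^ 2 ∈ R ⊓ T := by
    refine ⟨R.pow_mem hm.1 2, ?_⟩
    have : m ^ 2 = (n ^ 2)⁻¹ := eq_inv_of_mul_eq_one_left h1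
    rw [this]
    exact T.inv_mem (T.pow_mem hn.1 2)
  rw [h.disj, Subgroup.mem_bot] at hm2
  have hn2 : n ^ 2 = 1 := by
    rw [hm2, one_mul] at h1
    exact h1
  have hminv : m⁻¹ = m := by
    rw [inv_eq_iff_mul_eq_one, ← pow_two]; exact hm2
  have hrm : r * m = m * r := by
    have := inv_on hsqR hr hrN hm.1 hm.2
    rw [hminv] at this
    exact mul_inv_eq_iff_eq_mul.mp this
  have hrn : r * n = n * r := by
    rw [← hmn] at hzr
    have h2 : m * (r * n) = m * (n * r) := by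
      calc m * (r * n) = (m * r) * n := by group
        _ = (r * m) * n := by rw [hrm]
        _ = r * (m * n) := by group
        _ = (m * n) * r := hzr
        _ = m * (n * r) := by group
    exact mul_left_cancel h2
  have hn1 : n = 1 := by
    by_contra hn1
    exact hrN (h.Tfix r n hn.1 hn1 hrn)
  rw [hn1, mul_one] at hmn
  rw [← hmn] at hz1 hzt
  exact htN (h.Rfix t m hm.1 hz1 hzt)

/-- The core: two members commute. -/
theorem commute_core [Finite S] (hS : IsPGroup 2 S) {R T : Subgroup S} (h : Cfg R T)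
    (hΦR : frattini ↥R ≠ ⊥) (hΦT : frattini ↥T ≠ ⊥) (hcard : Nat.card ↥R = Nat.card ↥T)
    (hRti : ∀ g : S, R.map (MulAut.conj g).toMonoidHom = R ∨ R.map (MulAut.conj g).toMonoidHom ⊓ R = ⊥)
    (hTti : ∀ g : S, T.map (MulAut.conj g).toMonoidHom = T ∨ T.map (MulAut.conj g).toMonoidHom ⊓ T = ⊥)
    {r t : S} (hr : r ∈ R) (ht : t ∈ T) : r * t = t * r := by
  by_cases h1 : R ≤ Subgroup.normalizer (T : Set S)
  · have hdisj : T ⊓ R = ⊥ := by rw [inf_comm]; exact h.disj
    exact Cfsg.Agent.S1757.commute_of_normalizes T R (fun g _ => hRti g) hcard.ge hdisj h1 t ht r hr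
  by_cases h2 : T ≤ Subgroup.normalizer (R : Set S)
  · exact (Cfsg.Agent.S1757.commute_of_normalizes R T (fun g _ => hTti g) hcard.le h.disj h2 r hr t ht).symm
  exfalso
  obtain ⟨r₀, hr₀, hr₀N⟩ := Set.not_subset.mp h1
  obtain ⟨t₀, ht₀, ht₀N⟩ := Set.not_subset.mp h2
  exact no_both hS h hΦR hr₀ ht₀ hr₀N ht₀N hΦT

/-- A proper subgroup of a finite `2`-group `H` lies in a proper normal subgroup of `H`. -/
theorem exists_normal_above [Finite S] (hS : IsPGroup 2 S) {H R : Subgroup S} (hR : R ≤ H) (hne : R ≠ H) :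
    ∃ H₀ : Subgroup S, R ≤ H₀ ∧ H₀ < H ∧ ∀ h ∈ H, ∀ x ∈ H₀, h * x * h⁻¹ ∈ H₀ := by
  have : Fact (Nat.Prime 2) := ⟨Nat.prime_two⟩
  have hne' : R.subgroupOf H ≠ ⊤ := by
    intro h
    apply hne
    exact le_antisymm hR (Subgroup.subgroupOf_eq_top.mp h)
  obtain ⟨M, hM, hRM⟩ := (eq_top_or_exists_le_coatom (R.subgroupOf H)).resolve_left hne'
  have hMn : M.Normal := Cfsg.Agent.Lib.PGroups.Basic.normal_of_isCoatom (hS.to_subgroup H) hM
  refine ⟨M.map H.subtype, ?_, ?_, ?_⟩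
  · intro x hx
    exact ⟨⟨x, hR hx⟩, hRM (by rw [Subgroup.mem_subgroupOf]; exact hx), rfl⟩
  · refine lt_of_le_of_ne (by
      rintro _ ⟨x, _, rfl⟩
      exact x.2) ?_
    intro heq
    apply hM.1
    rw [eq_top_iff]
    intro x _
    have : (x : S) ∈ M.map H.subtype := by rw [heq]; exact x.2
    obtain ⟨y, hy, hyx⟩ := this
    have : y = x := Subtype.ext hyx
    exact this ▸ hy
  · rintro h hh _ ⟨x, hx, rfl⟩
    exact ⟨⟨h, hh⟩ * x * ⟨h, hh⟩⁻¹, hMn.conj_mem x hx ⟨h, hh⟩, rfl⟩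

end Core

/-- Let S be a finite 2-group and Δ a set of subgroups of S closed under conjugation by S, all of the same order, each with nontrivial Frattini subgroup, and such that two distinct members of Δ meet trivially. Then any two distinct members of Δ commute elementwise. -/
theorem result {S : Type*} [Group S] [Finite S] (hS : IsPGroup 2 S)
    (Δ : Set (Subgroup S)) (hinv : ∀ s : S, ∀ R ∈ Δ, R.map (MulAut.conj s).toMonoidHom ∈ Δ)
    (hΦ : ∀ R ∈ Δ, frattini ↥R ≠ ⊥) (hord : ∀ R ∈ Δ, ∀ T ∈ Δ, Nat.card ↥R = Nat.card ↥T)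
    (hti : ∀ R ∈ Δ, ∀ T ∈ Δ, R = T ∨ R ⊓ T = ⊥) :
    ∀ R ∈ Δ, ∀ T ∈ Δ, R ≠ T → ⁅R, T⁆ = ⊥ := by
  -- the TI condition for a member
  have hRti : ∀ R ∈ Δ, ∀ g : S, R.map (MulAut.conj g).toMonoidHom = R ∨
      R.map (MulAut.conj g).toMonoidHom ⊓ R = ⊥ := fun R hR g => hti _ (hinv g R hR) R hR
  have hfix : ∀ R ∈ Δ, ∀ s u : S, u ∈ R → u ≠ 1 → s * u = u * s →
      s ∈ Subgroup.normalizer (R : Set S) := by
    intro R hR s u hu hu1 hcomm
    apply mem_normalizer_of_map_conj_eq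
    refine (hRti R hR s).resolve_right ?_
    intro hbot
    have : u ∈ R.map (MulAut.conj s).toMonoidHom ⊓ R := by
      refine ⟨mem_conj_iff.mpr ?_, hu⟩
      have : s⁻¹ * u * s = u := by
        rw [mul_assoc, ← hcomm, ← mul_assoc, inv_mul_cancel, one_mul]
      rwa [this]
    rw [hbot, Subgroup.mem_bot] at this
    exact hu1 this
  have hne_bot : ∀ R ∈ Δ, R ≠ ⊥ := by
    rintro R hR rfl
    apply hΦ _ hR
    rw [eq_bot_iff]
    intro x _
    have : x = 1 := Subsingleton.elim _ _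
    rw [this]
    exact Subgroup.one_mem _
  -- induction on subgroups containing the two members
  have key : ∀ (n : ℕ) (H : Subgroup S), Nat.card ↥H = n → ∀ R ∈ Δ, ∀ T ∈ Δ, R ≤ H → T ≤ H → R ≠ T →
      ∀ r ∈ R, ∀ t ∈ T, r * t = t * r := by
    intro n
    induction n using Nat.strong_induction_on with
    | _ n ih =>
      intro H hn R hR T hT hRH hTH hRT
      have hlt : ∀ H₀ : Subgroup S, H₀ < H → Nat.card ↥H₀ < n := by
        intro H₀ hH₀
        rw [← hn]
        exact Cfsg.Agent.Lib.PGroups.Basic.card_lt_of_lt hH₀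
      by_cases hJ : R ⊔ T = H
      · -- `R` and `T` generate `H`
        have hdisj : R ⊓ T = ⊥ := (hti R hR T hT).resolve_left hRT
        have hRne : R ≠ H := by
          rintro rfl
          have hTle : T ≤ R := hTH
          apply hne_bot T hT
          rw [eq_bot_iff, ← hdisj]
          exact le_inf hTle le_rfl
        have hTne : T ≠ H := by
          rintro rfl
          have hRle : R ≤ T := hRH
          apply hne_bot R hR
          rw [eq_bot_iff, ← hdisj]
          exact le_inf le_rfl hRle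
        obtain ⟨H₁, hRH₁, hH₁, hH₁n⟩ := exists_normal_above hS hRH hRne
        obtain ⟨H₂, hTH₂, hH₂, hH₂n⟩ := exists_normal_above hS hTH hTne
        have hcfg : Cfg R T := by
          refine ⟨hdisj, hfix R hR, hfix T hT, ?_, ?_⟩
          · intro t ht htN x hx y hy
            have hne : R.map (MulAut.conj t).toMonoidHom ≠ R := fun h => htN (mem_normalizer_of_map_conj_eq h)
            have hle : R.map (MulAut.conj t).toMonoidHom ≤ H₁ := by
              rintro _ ⟨a, ha, rfl⟩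
              exact hH₁n t (hTH ht) a (hRH₁ ha)
            exact ih _ (hn ▸ hlt H₁ hH₁) H₁ rfl R hR _ (hinv t R hR) hRH₁ hle hne.symm x hx _ (conj_mem hy)
          · intro r hr hrN x hx y hy
            have hne : T.map (MulAut.conj r).toMonoidHom ≠ T := fun h => hrN (mem_normalizer_of_map_conj_eq h)
            have hle : T.map (MulAut.conj r).toMonoidHom ≤ H₂ := by
              rintro _ ⟨a, ha, rfl⟩
              exact hH₂n r (hRH hr) a (hTH₂ ha)
            exact ih _ (hn ▸ hlt H₂ hH₂) H₂ rfl T hT _ (hinv r T hT) hTH₂ hle hne.symm x hx _ (conj_mem hy)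
        intro r hr t ht
        exact commute_core hS hcfg (hΦ R hR) (hΦ T hT) (hord R hR T hT) (hRti R hR) (hRti T hT) hr ht
      · -- `R ⊔ T` is a proper subgroup
        have hlt' : R ⊔ T < H := lt_of_le_of_ne (sup_le hRH hTH) hJ
        exact ih _ (hlt _ hlt') (R ⊔ T) rfl R hR T hT le_sup_left le_sup_right hRT
  intro R hR T hT hRT
  rw [Subgroup.commutator_eq_bot_iff_le_centralizer]
  intro x hx
  rw [Subgroup.mem_centralizer_iff]
  intro y hy
  exact (key _ ⊤ rfl R hR T hT le_top le_top hRT x hx y hy).symm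

end Cfsg.Agent.S1782
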