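import Cfsg.Statements.S1783
import Cfsg.Agent.Lib.TI.Family
import Cfsg.Agent.Lib.TI.FrattiniAction
import Cfsg.Agent.Lib.Components.GenFitting
import Cfsg.Agent.Lib.PGroups.ClassTwo

set_option autoImplicit false
open Cfsg

namespace Cfsg.Agent.S1783

open Cfsg.Agent.Lib.TI.Basic Cfsg.Agent.Lib.TI.Family Cfsg.Agent.Lib.TI.FrattiniAction
open Cfsg.Agent.Lib.Core.Basic Cfsg.Agent.Lib.Components.GenFitting
open scoped commutatorElement

section

variable {X : Type*} [Group X]

theorem sq_mem_core [Finite X] (hX : Cfsg.generalizedFittingSubgroup X = Cfsg.pCore 2 X) (A : Subgroup X)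
    (hA2 : IsPGroup 2 ↥A) (hAa : IsMulCommutative ↥A)
    (hti : ∀ h : X, A.map (MulAut.conj h).toMonoidHom = A ∨ A.map (MulAut.conj h).toMonoidHom ⊓ A = ⊥)
    {a : X} (ha : a ∈ A) : a ^ 2 ∈ Cfsg.pCore 2 X := by
  by_cases hsq : ∀ x ∈ A, x ^ 2 = 1
  · rw [hsq a ha]; exact one_mem _
  push Not at hsq
  obtain ⟨a₀, ha₀, ha₀2⟩ := hsq
  have hF2 : Fact (Nat.Prime 2) := ⟨Nat.prime_two⟩
  set Q := Cfsg.pCore 2 X with hQdef
  have hQp : IsPGroup 2 ↥Q := pCore_isPGroup
  have hQc : Q.Characteristic := pCore_characteristic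
  have hQnormal : Q.Normal := Subgroup.normal_of_characteristic Q
  have hC : Subgroup.centralizer (Q : Set X) ≤ Q := by
    rw [← hX]; exact centralizer_generalizedFitting_le
  let H : Subgroup X := A ⊔ Q
  have hH : IsPGroup 2 ↥H := IsPGroup.to_sup_of_normal_right hA2 hQp
  let Φ : Subgroup X := (frattini ↥Q).map Q.subtype
  have hΦ : Φ.Normal := ConjAct.normal_of_characteristic_of_normal
  have hmem : a ^ 2 ∈ trivOn Q Φ := by
    intro q hq
    have hcomm : Commute ⁅a, q⁆ a := by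
      have h1 : a * (q * a⁻¹ * q⁻¹) = (q * a⁻¹ * q⁻¹) * a :=
        conj_commute A H le_sup_left hH hAa hti ha₀ ha₀2 ((le_sup_right : Q ≤ H) hq) ha (A.inv_mem ha)
      change ⁅a, q⁆ * a = a * ⁅a, q⁆
      rw [commutatorElement_def]
      calc a * q * a⁻¹ * q⁻¹ * a = a * ((q * a⁻¹ * q⁻¹) * a) := by group
        _ = a * (a * (q * a⁻¹ * q⁻¹)) := by rw [h1]
        _ = a * (a * q * a⁻¹ * q⁻¹) := by group
    have h2 := Cfsg.Agent.Lib.PGroups.ClassTwo.comm_pow_left_of_comm hcomm 2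
    have hc : ⁅a, q⁆ ∈ Q := by
      rw [commutatorElement_def]
      exact Q.mul_mem (hQnormal.conj_mem q hq a) (Q.inv_mem hq)
    have h3 := Cfsg.Agent.Lib.PGroups.Basic.pow_mem_frattini hQp (⟨⁅a, q⁆, hc⟩ : ↥Q)
    have h4 : ⁅a ^ 2, q⁆ ∈ Φ := by
      rw [h2]
      exact ⟨_, h3, rfl⟩
    rw [commutatorElement_def] at h4
    exact h4
  exact trivOn_le_pCore Q Φ hQp le_rfl hC hmem

/-- The subgroup generated by the squares of the elements of a subgroup. -/
def sqClosure (C : Subgroup X) : Subgroup X := Subgroup.closure ((fun a : X => a ^ 2) '' (C : Set X))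

theorem map_sqClosure (C : Subgroup X) (g : X) :
    (sqClosure C).map (MulAut.conj g).toMonoidHom = sqClosure (C.map (MulAut.conj g).toMonoidHom) := by
  unfold sqClosure
  rw [MonoidHom.map_closure]
  congr 1
  ext x
  simp only [Set.mem_image, SetLike.mem_coe, Subgroup.mem_map, exists_exists_and_eq_and]
  constructor
  · rintro ⟨a, ha, rfl⟩
    exact ⟨a, ha, by simp⟩
  · rintro ⟨a, ha, rfl⟩
    exact ⟨a, ha, by simp⟩

theorem sqClosure_le (C : Subgroup X) : sqClosure C ≤ C := by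
  unfold sqClosure
  rw [Subgroup.closure_le]
  rintro _ ⟨a, ha, rfl⟩
  exact C.pow_mem ha 2

theorem normal_closure_comm [Finite X] (hX : Cfsg.generalizedFittingSubgroup X = Cfsg.pCore 2 X) (A : Subgroup X)
    (hA2 : IsPGroup 2 ↥A) (hAa : IsMulCommutative ↥A)
    (hti : ∀ h : X, A.map (MulAut.conj h).toMonoidHom = A ∨ A.map (MulAut.conj h).toMonoidHom ⊓ A = ⊥)
    (hB : ¬ Cfsg.IsElementaryAbelian 2 (sqClosure A)) :
    IsMulCommutative ↥(Subgroup.normalClosure ((fun a : X => a ^ 2) '' (A : Set X))) := by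
  have hF2 : Fact (Nat.Prime 2) := ⟨Nat.prime_two⟩
  set Q := Cfsg.pCore 2 X with hQdef
  have hQp : IsPGroup 2 ↥Q := pCore_isPGroup
  have hQc : Q.Characteristic := pCore_characteristic
  have hQnormal : Q.Normal := Subgroup.normal_of_characteristic Q
  set B := sqClosure A with hBdef
  have hBA : B ≤ A := sqClosure_le A
  have hAcomm : ∀ x ∈ A, ∀ y ∈ A, x * y = y * x := fun x hx y hy =>
    congrArg (fun z : ↥A => (z : X)) (mul_comm' (⟨x, hx⟩ : ↥A) ⟨y, hy⟩)
  have hBc : IsMulCommutative ↥B := ⟨⟨fun x y => Subtype.ext (hAcomm x (hBA x.2) y (hBA y.2))⟩⟩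
  have hBQ : B ≤ Q := by
    rw [hBdef]
    unfold sqClosure
    rw [Subgroup.closure_le]
    rintro _ ⟨a, ha, rfl⟩
    exact sq_mem_core hX A hA2 hAa hti ha
  have hb : ∃ b ∈ B, b ^ 2 ≠ 1 := by
    by_contra hcon
    push Not at hcon
    exact hB ⟨hBc, hcon⟩
  obtain ⟨b, hbB, hb2⟩ := hb
  let Δ : Set (Subgroup X) := {R | ∃ g : X, R = B.map (MulAut.conj g).toMonoidHom}
  have hfam := family_commute Q hQp Δ ?_ ?_ ?_ ?_ ?_
  · -- generators
    rw [Subgroup.normalClosure]
    apply Subgroup.isMulCommutative_closure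
    intro x hx y hy
    rw [Group.mem_conjugatesOfSet_iff] at hx hy
    obtain ⟨s, hs, hsx⟩ := hx
    obtain ⟨t, ht, hty⟩ := hy
    rw [isConj_iff] at hsx hty
    obtain ⟨g, rfl⟩ := hsx
    obtain ⟨u, rfl⟩ := hty
    have hsB : s ∈ B := Subgroup.subset_closure hs
    have htB : t ∈ B := Subgroup.subset_closure ht
    by_cases hEq : B.map (MulAut.conj g).toMonoidHom = B.map (MulAut.conj u).toMonoidHom
    · have h1 : u * t * u⁻¹ ∈ B.map (MulAut.conj g).toMonoidHom := by
        rw [hEq]; exact conj_mem htB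
      obtain ⟨t', ht', ht'e⟩ := h1
      simp only [MulEquiv.coe_toMonoidHom, MulAut.conj_apply] at ht'e
      rw [← ht'e]
      have h2 := hAcomm s (hBA hsB) t' (hBA ht')
      calc g * s * g⁻¹ * (g * t' * g⁻¹) = g * (s * t') * g⁻¹ := by group
        _ = g * (t' * s) * g⁻¹ := by rw [h2]
        _ = _ := by group
    · exact hfam _ ⟨g, rfl⟩ _ ⟨u, rfl⟩ hEq _ (conj_mem hsB) _ (conj_mem htB)
  · rintro R ⟨g, rfl⟩
    rintro _ ⟨x, hx, rfl⟩
    simp only [MulEquiv.coe_toMonoidHom, MulAut.conj_apply]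
    exact hQnormal.conj_mem x (hBQ hx) g
  · rintro v _ R ⟨u, rfl⟩
    exact ⟨v * u, map_conj_map_conj B u v⟩
  · rintro R ⟨u, rfl⟩
    refine ⟨u * b * u⁻¹, conj_mem hbB, ?_⟩
    intro h
    apply hb2
    have h1 : (u * b * u⁻¹) ^ 2 = u * b ^ 2 * u⁻¹ := by
      simp only [pow_two]; group
    rw [h1] at h
    have h2 : b ^ 2 = u⁻¹ * (u * b ^ 2 * u⁻¹) * u := by group
    rw [h2, h]; simp
  · rintro R ⟨u, rfl⟩ T ⟨v, rfl⟩
    rw [Subgroup.card_map_of_injective (MulEquiv.injective _),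
      Subgroup.card_map_of_injective (MulEquiv.injective _)]
  · rintro R ⟨u, rfl⟩ T ⟨v, rfl⟩
    rcases ti_conj hti v (u * v⁻¹) with h | h
    · left
      rw [map_conj_map_conj] at h
      have h3 : u * v⁻¹ * v = u := by group
      rw [h3] at h
      rw [hBdef, map_sqClosure, map_sqClosure, h]
    · right
      rw [map_conj_map_conj] at h
      have h3 : u * v⁻¹ * v = u := by group
      rw [h3] at h
      rw [eq_bot_iff, ← h]
      exact inf_le_inf (Subgroup.map_mono hBA) (Subgroup.map_mono hBA)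

end

/-- Let X be a finite group whose generalized Fitting subgroup equals its largest normal 2-subgroup Q, and let A be an abelian 2-subgroup of X such that every conjugate of A equals A or meets A trivially. Let B be the subgroup generated by the squares of the elements of A. Then B lies in Q, and if B is not an elementary abelian 2-group then the normal closure of B in X is commutative. -/
theorem result {X : Type*} [Group X] [Finite X]
    (hX : Cfsg.generalizedFittingSubgroup X = Cfsg.pCore 2 X) (A : Subgroup X) (hA2 : IsPGroup 2 ↥A) (hAa : IsMulCommutative ↥A)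
    (hti : ∀ h : X, A.map (MulAut.conj h).toMonoidHom = A ∨ A.map (MulAut.conj h).toMonoidHom ⊓ A = ⊥) :
    Subgroup.closure ((fun a : X => a ^ 2) '' (A : Set X)) ≤ Cfsg.pCore 2 X ∧
      (¬ Cfsg.IsElementaryAbelian 2 (Subgroup.closure ((fun a : X => a ^ 2) '' (A : Set X))) →
        IsMulCommutative ↥(Subgroup.normalClosure ((fun a : X => a ^ 2) '' (A : Set X)))) := by
  refine ⟨?_, fun h => normal_closure_comm hX A hA2 hAa hti h⟩
  rw [Subgroup.closure_le]
  rintro _ ⟨a, ha, rfl⟩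
  exact sq_mem_core hX A hA2 hAa hti ha

end Cfsg.Agent.S1783
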