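import Cfsg.Statements.S1784
import Cfsg.Agent.Lib.TI.ExtraInvol
import Cfsg.Agent.Lib.Components.GenFitting
import Cfsg.Agent.Lib.Core.Basic
import Cfsg.Agent.S1781

set_option autoImplicit false
open Cfsg

namespace Cfsg.Agent.S1784

open Cfsg.Agent.Lib.TI.ExtraInvol Cfsg.Agent.Lib.PGroups.Special
open scoped commutatorElement

theorem core {G : Type*} [Group G] [Finite G] (z : G) (hz : orderOf z = 2) (C : Subgroup G)
    (F : Subgroup ↥C) (hFn : F.Normal) (hL : ExtraLike 2 ↥F) (hzC : ∀ c ∈ C, c * z = z * c)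
    (hzC' : z ∈ C) (hzF : (⟨z, hzC'⟩ : ↥C) ∈ F)
    (hCF : Subgroup.centralizer (F : Set ↥C) ≤ F)
    (α : G) (hα : orderOf α = 2) (hαC : α ∈ C) (hαQ : α ∉ F.map C.subtype)
    (Q₀ : Subgroup G) (hQ₀ : ∀ q : G, q ∈ Q₀ ↔ (q ∈ F.map C.subtype ∧ α * q * α⁻¹ * q⁻¹ ∈ Subgroup.zpowers z)) :
    Subgroup.closure ((fun q : G => α * q * α⁻¹ * q⁻¹) '' (F.map C.subtype : Set G)) = (Subgroup.center ↥Q₀).map Q₀.subtype ∧
      (¬ Q₀ ≤ (F.map C.subtype ⊓ Subgroup.centralizer ({α} : Set G)) ⊔ Subgroup.zpowers z →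
        ∃ q ∈ F.map C.subtype, q * α * q⁻¹ = α * z) := by
  have hF2 : Fact (Nat.Prime 2) := ⟨Nat.prime_two⟩
  have hα2 : α * α = 1 := by rw [← pow_two, ← hα]; exact pow_orderOf_eq_one α
  have hαinv : α⁻¹ = α := by rw [inv_eq_iff_mul_eq_one]; exact hα2
  have hz2 : z * z = 1 := by rw [← pow_two, ← hz]; exact pow_orderOf_eq_one z
  have hz1 : z ≠ 1 := by
    intro h; rw [h, orderOf_one] at hz; norm_num at hz
  let i : ↥F →* G := C.subtype.comp F.subtype
  have hi : Function.Injective i := C.subtype_injective.comp F.subtype_injective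
  have hmemQ : ∀ x, x ∈ F.map C.subtype ↔ ∃ e : ↥F, i e = x := by
    intro x
    constructor
    · rintro ⟨c, hc, rfl⟩
      exact ⟨⟨c, hc⟩, rfl⟩
    · rintro ⟨e, rfl⟩
      exact ⟨e.1, e.2, rfl⟩
  let α' : ↥C := ⟨α, hαC⟩
  have hαN : α' ∈ Subgroup.normalizer (F : Set ↥C) := by
    rw [Subgroup.normalizer_eq_top_iff.mpr hFn]; trivial
  let σ : ↥F →* ↥F := (Cfsg.Agent.S1781.conjOn F α' hαN).toMonoidHom
  have hσi : ∀ e, i (σ e) = α * i e * α⁻¹ := fun e => rfl
  have hσ : ∀ x, σ (σ x) = x := by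
    intro x
    apply hi
    rw [hσi, hσi]
    calc α * (α * i x * α⁻¹) * α⁻¹ = (α * α) * i x * (α⁻¹ * α⁻¹) := by group
      _ = i x := by rw [hαinv, hα2]; simp
  have hd : ∀ e, i (σ e * e⁻¹) = α * i e * α⁻¹ * (i e)⁻¹ := by
    intro e
    rw [map_mul, map_inv, hσi]
  -- the element `z`
  let zE : ↥F := ⟨⟨z, hzC'⟩, hzF⟩
  have hizE : i zE = z := rfl
  have hzE : zE ∈ Subgroup.center ↥F := by
    rw [Subgroup.mem_center_iff]
    intro g
    apply hi
    rw [map_mul, map_mul, hizE]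
    exact hzC _ (g : ↥C).2
  have hzE1 : zE ≠ 1 := by
    intro h
    apply hz1
    rw [← hizE, h, map_one]
  have hZE : Subgroup.zpowers zE = Subgroup.center ↥F := hL.zpowers_eq hzE hzE1
  have hzp : ∀ e : ↥F, e ∈ Subgroup.center ↥F ↔ i e ∈ Subgroup.zpowers z := by
    intro e
    rw [← hZE]
    constructor
    · rintro ⟨k, rfl⟩
      refine ⟨k, ?_⟩
      simp only [map_zpow, hizE]
    · rintro ⟨k, hk⟩
      refine ⟨k, hi ?_⟩
      simp only [map_zpow, hizE]
      exact hk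
  -- `σ` is nontrivial
  have hne : ∃ x, σ x ≠ x := by
    by_contra hcon
    push Not at hcon
    apply hαQ
    have h1 : α' ∈ Subgroup.centralizer (F : Set ↥C) := by
      rw [Subgroup.mem_centralizer_iff]
      intro g hg
      have h2 := hcon ⟨g, hg⟩
      have h3 : α * (g : G) * α⁻¹ = g := congrArg i h2
      apply Subtype.ext
      exact (mul_inv_eq_iff_eq_mul.mp h3).symm
    exact ⟨α', hCF h1, rfl⟩
  have hmemQ₀ : ∀ e : ↥F, i e ∈ Q₀ ↔ e ∈ fixedMod σ hL := by
    intro e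
    rw [hQ₀, mem_fixedMod, hzp, hd]
    constructor
    · intro h; exact h.2
    · intro h; exact ⟨(hmemQ _).mpr ⟨e, rfl⟩, h⟩
  refine ⟨le_antisymm ?_ ?_, ?_⟩
  · rw [Subgroup.closure_le]
    rintro _ ⟨q, hq, rfl⟩
    obtain ⟨e, rfl⟩ := (hmemQ q).mp hq
    have hde := d_mem_dClosure σ e
    have hmem : i (σ e * e⁻¹) ∈ Q₀ := (hmemQ₀ _).mpr (dClosure_le_fixedMod σ hσ hL hde)
    refine ⟨⟨_, hmem⟩, ?_, hd e⟩
    rw [SetLike.mem_coe, Subgroup.mem_center_iff]
    rintro ⟨g, hg⟩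
    obtain ⟨e', rfl⟩ := (hmemQ g).mp ((hQ₀ g).mp hg).1
    have h1 := dClosure_comm σ hσ hL hde ((hmemQ₀ e').mp hg)
    rw [commutatorElement_eq_one_iff_mul_comm] at h1
    apply Subtype.ext
    change i e' * i (σ e * e⁻¹) = i (σ e * e⁻¹) * i e'
    rw [← map_mul, ← map_mul, h1]
  · rintro _ ⟨c, hc, rfl⟩
    obtain ⟨e, he⟩ := (hmemQ _).mp ((hQ₀ _).mp c.2).1
    have hce : e ∈ fixedMod σ hL := (hmemQ₀ e).mp (by rw [he]; exact c.2)
    have h1 : e ∈ dClosure σ := by
      apply mem_dClosure_of_central σ hσ hL hne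
      intro y hy
      rw [commutatorElement_eq_one_iff_mul_comm]
      have hyi : i y ∈ Q₀ := (hmemQ₀ y).mpr hy
      have h2 := Subgroup.mem_center_iff.mp hc ⟨i y, hyi⟩
      have h3 : i y * (c : G) = (c : G) * i y := congrArg Subtype.val h2
      apply hi
      rw [map_mul, map_mul, he]
      exact h3
    have h2 : (dClosure σ).map i ≤ Subgroup.closure ((fun q : G => α * q * α⁻¹ * q⁻¹) '' (F.map C.subtype : Set G)) := by
      rw [dClosure, MonoidHom.map_closure, Subgroup.closure_le]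
      rintro _ ⟨_, ⟨x, rfl⟩, rfl⟩
      apply Subgroup.subset_closure
      refine ⟨i x, (hmemQ _).mpr ⟨x, rfl⟩, ?_⟩
      exact (hd x).symm
    have h3 : i e ∈ (dClosure σ).map i := ⟨e, h1, rfl⟩
    rw [he] at h3
    exact h2 h3
  · intro hnle
    obtain ⟨q₀, hq₀, hq₀'⟩ := SetLike.not_le_iff_exists.mp hnle
    obtain ⟨hqQ, hqz⟩ := (hQ₀ q₀).mp hq₀
    refine ⟨q₀, hqQ, ?_⟩
    by_cases hd1 : α * q₀ * α⁻¹ * q₀⁻¹ = 1
    · exfalso
      apply hq₀'
      refine Subgroup.mem_sup_left ⟨hqQ, ?_⟩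
      have h1 : α * q₀ * α⁻¹ = q₀ := mul_inv_eq_one.mp hd1
      exact Subgroup.mem_centralizer_singleton_iff.mpr (mul_inv_eq_iff_eq_mul.mp h1).symm
    · have hdz : α * q₀ * α⁻¹ * q₀⁻¹ = z := by
        obtain ⟨k, hk⟩ := hqz
        simp only at hk
        have hzz : z ^ (2 : ℤ) = 1 := by
          rw [zpow_two]; exact hz2
        rcases Int.even_or_odd' k with ⟨j, rfl | rfl⟩
        · exfalso
          apply hd1
          rw [← hk, zpow_mul, hzz, one_zpow]
        · rw [← hk, zpow_add, zpow_mul, hzz, one_zpow, one_mul, zpow_one]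
      rw [← hdz]
      calc q₀ * α * q₀⁻¹ = (α * α) * q₀ * α * q₀⁻¹ := by rw [hα2]; simp
        _ = α * (α * q₀ * α⁻¹ * q₀⁻¹) := by rw [hαinv]; group

/-- Let G be a finite group and let z be an involution of G such that Q, the generalized Fitting subgroup of the centralizer C of z, is a 2-group of symplectic type (every characteristic abelian subgroup of Q is cyclic); suppose Q is extraspecial, and view Q inside G. Let α be an involution of C that is not in Q, and let Q₀ be the subgroup of those q ∈ Q whose commutator with α lies in the subgroup generated by z. Then (a) the subgroup generated by the commutators α q α⁻¹ q⁻¹, q ∈ Q, equals the centre of Q₀; and (b) if Q₀ is not contained in the product of the centralizer of α in Q with the subgroup generated by z, then some element of Q conjugates α to α z. -/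
theorem result {G : Type*} [Group G] [Finite G] (z : G) (hz : orderOf z = 2) (hQ : Cfsg.IsOfSymplecticType ↥(Cfsg.generalizedFittingSubgroup ↥(Subgroup.centralizer ({z} : Set G)))) (hE : Cfsg.IsExtraspecial 2 ↥(Cfsg.generalizedFittingSubgroup ↥(Subgroup.centralizer ({z} : Set G))))
    (α : G) (hα : orderOf α = 2) (hαC : α ∈ Subgroup.centralizer ({z} : Set G)) (hαQ : α ∉ (Cfsg.generalizedFittingSubgroup ↥(Subgroup.centralizer ({z} : Set G))).map (Subgroup.centralizer ({z} : Set G)).subtype)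
    (Q₀ : Subgroup G) (hQ₀ : ∀ q : G, q ∈ Q₀ ↔ (q ∈ (Cfsg.generalizedFittingSubgroup ↥(Subgroup.centralizer ({z} : Set G))).map (Subgroup.centralizer ({z} : Set G)).subtype ∧ α * q * α⁻¹ * q⁻¹ ∈ Subgroup.zpowers z)) :
    Subgroup.closure ((fun q : G => α * q * α⁻¹ * q⁻¹) '' ((Cfsg.generalizedFittingSubgroup ↥(Subgroup.centralizer ({z} : Set G))).map (Subgroup.centralizer ({z} : Set G)).subtype : Set G)) = (Subgroup.center ↥Q₀).map Q₀.subtype ∧
      (¬ Q₀ ≤ ((Cfsg.generalizedFittingSubgroup ↥(Subgroup.centralizer ({z} : Set G))).map (Subgroup.centralizer ({z} : Set G)).subtype ⊓ Subgroup.centralizer ({α} : Set G)) ⊔ Subgroup.zpowers z →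
        ∃ q ∈ (Cfsg.generalizedFittingSubgroup ↥(Subgroup.centralizer ({z} : Set G))).map (Subgroup.centralizer ({z} : Set G)).subtype, q * α * q⁻¹ = α * z) := by
  have hF2 : Fact (Nat.Prime 2) := ⟨Nat.prime_two⟩
  have hzC' : z ∈ Subgroup.centralizer ({z} : Set G) := Subgroup.mem_centralizer_singleton_iff.mpr rfl
  have hzC : ∀ c ∈ Subgroup.centralizer ({z} : Set G), c * z = z * c := fun c hc =>
    Subgroup.mem_centralizer_singleton_iff.mp hc
  have hzcenter : (⟨z, hzC'⟩ : ↥(Subgroup.centralizer ({z} : Set G))) ∈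
      Subgroup.center ↥(Subgroup.centralizer ({z} : Set G)) := by
    rw [Subgroup.mem_center_iff]
    rintro ⟨c, hc⟩
    exact Subtype.ext (hzC c hc)
  refine core z hz _ _ inferInstance (extraLike_of_isExtraspecial hE) hzC hzC'
    (Cfsg.Agent.Lib.Components.Basic.fitting_le_generalizedFitting
      (Cfsg.Agent.Lib.Core.Basic.center_le_fittingSubgroup hzcenter))
    Cfsg.Agent.Lib.Components.GenFitting.centralizer_generalizedFitting_le α hα hαC hαQ Q₀ hQ₀

end Cfsg.Agent.S1784
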