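import Cfsg.Statements.S1785
import Cfsg.Agent.Lib.TI.Basic
import Cfsg.Agent.Lib.Components.Basic

set_option autoImplicit false
open Cfsg

namespace Cfsg.Agent.S1785

variable {X : Type*} [Group X]

/-- An involution acting on an elementary abelian `2`-group: `|F| ≤ |C_F(a)|²`. -/
theorem card_le_sq_centralizer [Finite X] (F : Subgroup X) (hF : Cfsg.IsElementaryAbelian 2 F) (a : X)
    (ha : a ^ 2 = 1) (hn : ∀ x ∈ F, a * x * a⁻¹ ∈ F) :
    Nat.card ↥F ≤ Nat.card ↥(F ⊓ Subgroup.centralizer ({a} : Set X)) ^ 2 := by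
  obtain ⟨hFc, hF2⟩ := hF
  have hcomm : ∀ x ∈ F, ∀ y ∈ F, x * y = y * x := fun x hx y hy =>
    congrArg Subtype.val (mul_comm' (⟨x, hx⟩ : ↥F) ⟨y, hy⟩)
  have hainv : a⁻¹ = a := by
    rw [inv_eq_iff_mul_eq_one, ← pow_two]; exact ha
  let f : ↥F →* ↥F :=
    { toFun := fun x => x * ⟨a * x.1 * a⁻¹, hn x.1 x.2⟩
      map_one' := by
        apply Subtype.ext
        simp
      map_mul' := fun x y => by
        apply Subtype.ext
        simp only [Subgroup.coe_mul]
        have h1 : a * (x.1 * y.1) * a⁻¹ = (a * x.1 * a⁻¹) * (a * y.1 * a⁻¹) := by group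
        rw [h1]
        have h2 := hcomm y.1 y.2 _ (hn x.1 x.2)
        calc x.1 * y.1 * ((a * x.1 * a⁻¹) * (a * y.1 * a⁻¹))
            = x.1 * (y.1 * (a * x.1 * a⁻¹)) * (a * y.1 * a⁻¹) := by group
          _ = x.1 * ((a * x.1 * a⁻¹) * y.1) * (a * y.1 * a⁻¹) := by rw [h2]
          _ = _ := by group }
  have hfx : ∀ x : ↥F, (f x : X) = x.1 * (a * x.1 * a⁻¹) := fun x => rfl
  set C' : Subgroup ↥F := (F ⊓ Subgroup.centralizer ({a} : Set X)).subgroupOf F with hC'
  have hcard : Nat.card ↥C' = Nat.card ↥(F ⊓ Subgroup.centralizer ({a} : Set X)) :=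
    Nat.card_congr (Subgroup.subgroupOfEquivOfLe inf_le_left).toEquiv
  have hker : f.ker ≤ C' := by
    intro x hx
    rw [MonoidHom.mem_ker] at hx
    have h1 : (f x : X) = 1 := congrArg Subtype.val hx
    rw [hfx] at h1
    rw [hC', Subgroup.mem_subgroupOf]
    refine ⟨x.2, Subgroup.mem_centralizer_singleton_iff.mpr ?_⟩
    have h2 : a * x.1 * a⁻¹ = x.1⁻¹ := eq_inv_of_mul_eq_one_right h1
    have h3 : x.1⁻¹ = x.1 := by
      rw [inv_eq_iff_mul_eq_one, ← pow_two]; exact hF2 _ x.2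
    rw [h3] at h2
    exact (mul_inv_eq_iff_eq_mul.mp h2).symm
  have hrange : f.range ≤ C' := by
    rintro _ ⟨x, rfl⟩
    rw [hC', Subgroup.mem_subgroupOf]
    refine ⟨(f x).2, Subgroup.mem_centralizer_singleton_iff.mpr ?_⟩
    rw [hfx]
    have h1 := hcomm x.1 x.2 _ (hn x.1 x.2)
    have h2 : a * a = 1 := by rw [← pow_two]; exact ha
    rw [hainv] at h1 ⊢
    calc x.1 * (a * x.1 * a) * a = x.1 * a * x.1 * (a * a) := by group
      _ = x.1 * a * x.1 := by rw [h2, mul_one]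
      _ = (a * a) * x.1 * a * x.1 := by rw [h2, one_mul]
      _ = a * (a * x.1 * a * x.1) := by group
      _ = a * (x.1 * (a * x.1 * a)) := by rw [h1]
  have hf : Nat.card ↥F = Nat.card ↥f.ker * Nat.card ↥f.range := by
    rw [← Subgroup.index_ker, Subgroup.card_mul_index]
  rw [hf, ← hcard, pow_two]
  exact Nat.mul_le_mul (Subgroup.card_le_of_le hker) (Subgroup.card_le_of_le hrange)

theorem le_centralizer_zpowers {H : Subgroup X} {e : X} (hc : ∀ h ∈ H, h * e = e * h) :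
    H ≤ Subgroup.centralizer ((Subgroup.zpowers e : Subgroup X) : Set X) := by
  intro h hh
  rw [Subgroup.mem_centralizer_iff]
  rintro _ ⟨n, rfl⟩
  have : Commute h e := hc h hh
  exact (this.zpow_right n).symm

/-- Elements of `H ⊔ ⟨e⟩`. -/
theorem mem_sup_zpowers {H : Subgroup X} {e : X} (he : e ^ 2 = 1) (hc : ∀ h ∈ H, h * e = e * h) {x : X}
    (hx : x ∈ H ⊔ Subgroup.zpowers e) : ∃ h ∈ H, x = h ∨ x = h * e := by
  have hbot : ⁅H, Subgroup.zpowers e⁆ = ⊥ :=
    Subgroup.commutator_eq_bot_iff_le_centralizer.mpr (le_centralizer_zpowers hc)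
  obtain ⟨h, hh, y, ⟨n, rfl⟩, rfl⟩ := Cfsg.Agent.Lib.Components.Basic.mem_sup_of_commutator_eq_bot hbot hx
  refine ⟨h, hh, ?_⟩
  rcases Int.even_or_odd' n with ⟨k, rfl | rfl⟩
  · left
    simp [zpow_mul, he]
  · right
    simp [zpow_add, zpow_mul, he]

theorem el_ab_sup {H : Subgroup X} (hH : Cfsg.IsElementaryAbelian 2 H) {e : X} (he : e ^ 2 = 1)
    (hc : ∀ h ∈ H, h * e = e * h) : Cfsg.IsElementaryAbelian 2 (H ⊔ Subgroup.zpowers e) := by
  obtain ⟨hHc, hH2⟩ := hH
  have hcomm : ∀ x ∈ H, ∀ y ∈ H, x * y = y * x := fun x hx y hy =>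
    congrArg Subtype.val (mul_comm' (⟨x, hx⟩ : ↥H) ⟨y, hy⟩)
  constructor
  · refine ⟨⟨fun x y => ?_⟩⟩
    apply Subtype.ext
    obtain ⟨a, ha, hxa⟩ := mem_sup_zpowers he hc x.2
    obtain ⟨b, hb, hyb⟩ := mem_sup_zpowers he hc y.2
    have h1 := hcomm a ha b hb
    have h2 := hc a ha
    have h3 := hc b hb
    change x.1 * y.1 = y.1 * x.1
    rcases hxa with hxa | hxa <;> rcases hyb with hyb | hyb <;> rw [hxa, hyb]
    · exact h1
    · calc a * (b * e) = (a * b) * e := by group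
        _ = (b * a) * e := by rw [h1]
        _ = b * (a * e) := by group
        _ = b * (e * a) := by rw [h2]
        _ = b * e * a := by group
    · calc a * e * b = a * (e * b) := by group
        _ = a * (b * e) := by rw [h3]
        _ = (a * b) * e := by group
        _ = (b * a) * e := by rw [h1]
        _ = b * (a * e) := by group
    · calc a * e * (b * e) = a * (e * b) * e := by group
        _ = a * (b * e) * e := by rw [h3]
        _ = (a * b) * (e * e) := by group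
        _ = (b * a) * (e * e) := by rw [h1]
        _ = b * (a * e) * e := by group
        _ = b * (e * a) * e := by rw [h2]
        _ = b * e * (a * e) := by group
  · intro x hx
    obtain ⟨a, ha, hxa⟩ := mem_sup_zpowers he hc hx
    rcases hxa with rfl | rfl
    · exact hH2 _ ha
    · have h1 := hH2 a ha
      have h2 := hc a ha
      calc (a * e) ^ 2 = a * (e * a) * e := by simp only [pow_two]; group
        _ = a * (a * e) * e := by rw [h2]
        _ = a ^ 2 * e ^ 2 := by simp only [pow_two]; group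
        _ = 1 := by rw [h1, he, one_mul]

theorem card_sup_zpowers [Finite X] {H : Subgroup X} {e : X} (he : e ^ 2 = 1) (hc : ∀ h ∈ H, h * e = e * h)
    (heH : e ∉ H) : Nat.card ↥(H ⊔ Subgroup.zpowers e) = 2 * Nat.card ↥H := by
  classical
  apply le_antisymm
  · -- surjection from `H × Bool`
    let f : ↥H × Bool → ↥(H ⊔ Subgroup.zpowers e) := fun p =>
      ⟨p.1.1 * (if p.2 then e else 1), by
        refine Subgroup.mul_mem _ (Subgroup.mem_sup_left p.1.2) ?_
        split_ifs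
        · exact Subgroup.mem_sup_right (Subgroup.mem_zpowers e)
        · exact Subgroup.one_mem _⟩
    have hf : Function.Surjective f := by
      rintro ⟨x, hx⟩
      obtain ⟨a, ha, hxa⟩ := mem_sup_zpowers he hc hx
      rcases hxa with h | h
      · exact ⟨(⟨a, ha⟩, false), Subtype.ext (by simp [f, h])⟩
      · exact ⟨(⟨a, ha⟩, true), Subtype.ext (by simp [f, h])⟩
    have := Nat.card_le_card_of_surjective f hf
    rw [Nat.card_prod] at this
    simpa [mul_comm] using this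
  · -- Lagrange
    have hle : H ≤ H ⊔ Subgroup.zpowers e := le_sup_left
    obtain ⟨k, hk⟩ := Subgroup.card_dvd_of_le hle
    have hlt : Nat.card ↥H < Nat.card ↥(H ⊔ Subgroup.zpowers e) := by
      refine lt_of_le_of_ne (Subgroup.card_le_of_le hle) ?_
      intro h
      have := Subgroup.eq_of_le_of_card_ge hle h.ge
      exact heH (this ▸ Subgroup.mem_sup_right (Subgroup.mem_zpowers e))
    rw [hk] at hlt ⊢
    have hpos : 0 < Nat.card ↥H := Nat.card_pos
    have hk2 : 2 ≤ k := by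
      by_contra hcon
      have : k ≤ 1 := by omega
      have := Nat.mul_le_mul_left (Nat.card ↥H) this
      omega
    calc 2 * Nat.card ↥H = Nat.card ↥H * 2 := by ring
      _ ≤ Nat.card ↥H * k := Nat.mul_le_mul_left _ hk2

theorem el_ab_mono {K F : Subgroup X} (hKF : K ≤ F) (hF : Cfsg.IsElementaryAbelian 2 F) :
    Cfsg.IsElementaryAbelian 2 K := by
  obtain ⟨hc, h2⟩ := hF
  refine ⟨⟨⟨fun x y => ?_⟩⟩, fun a ha => h2 a (hKF ha)⟩
  apply Subtype.ext
  exact congrArg (fun z : ↥F => (z : X)) (mul_comm' (⟨x.1, hKF x.2⟩ : ↥F) ⟨y.1, hKF y.2⟩)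

theorem comm_of_el_ab {F : Subgroup X} (hF : Cfsg.IsElementaryAbelian 2 F) {x y : X} (hx : x ∈ F) (hy : y ∈ F) :
    x * y = y * x := by
  obtain ⟨hc, -⟩ := hF
  exact congrArg Subtype.val (mul_comm' (⟨x, hx⟩ : ↥F) ⟨y, hy⟩)

theorem centralizer_sup_zpowers (W₀ : Subgroup X) (a : X) :
    Subgroup.centralizer (((W₀ ⊔ Subgroup.zpowers a : Subgroup X)) : Set X) =
      Subgroup.centralizer (W₀ : Set X) ⊓ Subgroup.centralizer ({a} : Set X) := by
  ext x
  rw [Subgroup.mem_inf, Subgroup.mem_centralizer_iff, Subgroup.mem_centralizer_iff,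
    Subgroup.mem_centralizer_singleton_iff]
  constructor
  · intro hx
    exact ⟨fun h hh => hx h (Subgroup.mem_sup_left hh),
      (hx a (Subgroup.mem_sup_right (Subgroup.mem_zpowers a))).symm⟩
  · rintro ⟨h1, h2⟩
    have hle : W₀ ⊔ Subgroup.zpowers a ≤ Subgroup.centralizer ({x} : Set X) := by
      refine sup_le ?_ ?_
      · intro h hh
        rw [Subgroup.mem_centralizer_singleton_iff]
        exact h1 h hh
      · rw [Subgroup.zpowers_le, Subgroup.mem_centralizer_singleton_iff]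
        exact h2.symm
    intro h hh
    exact Subgroup.mem_centralizer_singleton_iff.mp (hle hh)

theorem card_centralizer_tower [Finite X] (E : Subgroup X) [hEn : E.Normal] (hE : Cfsg.IsElementaryAbelian 2 E) :
    ∀ (i : ℕ) (W₀ W : Subgroup X), W₀ ≤ W → Cfsg.IsElementaryAbelian 2 W → Nat.card ↥W = 2 ^ i * Nat.card ↥W₀ →
      Nat.card ↥(E ⊓ Subgroup.centralizer (W₀ : Set X)) ≤
        Nat.card ↥(E ⊓ Subgroup.centralizer (W : Set X)) ^ (2 ^ i) := by
  intro i
  induction i with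
  | zero =>
    intro W₀ W hle _ hcard
    have heq : W₀ = W := Subgroup.eq_of_le_of_card_ge hle (by simp [hcard])
    subst heq
    simp
  | succ i ih =>
    intro W₀ W hle hW hcard
    have hpos : 0 < Nat.card ↥W₀ := Nat.card_pos
    have hne : ¬ W ≤ W₀ := by
      intro h
      have h1 : Nat.card ↥W ≤ Nat.card ↥W₀ := Subgroup.card_le_of_le h
      rw [hcard, pow_succ] at h1
      have h2 : 1 ≤ 2 ^ i := Nat.one_le_two_pow
      nlinarith
    obtain ⟨a, ha, haW₀⟩ := SetLike.not_le_iff_exists.mp hne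
    have ha2 : a ^ 2 = 1 := hW.2 a ha
    have hc : ∀ h ∈ W₀, h * a = a * h := fun h hh => comm_of_el_ab hW (hle hh) ha
    have hW₁le : W₀ ⊔ Subgroup.zpowers a ≤ W := sup_le hle (by rwa [Subgroup.zpowers_le])
    have hW₁card : Nat.card ↥(W₀ ⊔ Subgroup.zpowers a) = 2 * Nat.card ↥W₀ := card_sup_zpowers ha2 hc haW₀
    have h1 := ih (W₀ ⊔ Subgroup.zpowers a) W hW₁le hW (by rw [hW₁card, hcard, pow_succ]; ring)
    -- one step
    have hFab : Cfsg.IsElementaryAbelian 2 (E ⊓ Subgroup.centralizer (W₀ : Set X)) := el_ab_mono inf_le_left hE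
    have hn : ∀ x ∈ E ⊓ Subgroup.centralizer (W₀ : Set X), a * x * a⁻¹ ∈ E ⊓ Subgroup.centralizer (W₀ : Set X) := by
      intro x hx
      obtain ⟨hxE, hxC⟩ := Subgroup.mem_inf.mp hx
      refine Subgroup.mem_inf.mpr ⟨hEn.conj_mem x hxE a, ?_⟩
      rw [Subgroup.mem_centralizer_iff] at hxC ⊢
      intro h hh
      have h2 := hxC h hh
      have h3 := hc h hh
      calc h * (a * x * a⁻¹) = (h * a) * x * a⁻¹ := by group
        _ = (a * h) * x * a⁻¹ := by rw [h3]
        _ = a * (h * x) * a⁻¹ := by group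
        _ = a * (x * h) * a⁻¹ := by rw [h2]
        _ = a * x * (a⁻¹ * (a * h)) * a⁻¹ := by group
        _ = a * x * (a⁻¹ * (h * a)) * a⁻¹ := by rw [h3]
        _ = a * x * a⁻¹ * h := by group
    have h2 := card_le_sq_centralizer _ hFab a ha2 hn
    have h3 : (E ⊓ Subgroup.centralizer (W₀ : Set X)) ⊓ Subgroup.centralizer ({a} : Set X) =
        E ⊓ Subgroup.centralizer ((W₀ ⊔ Subgroup.zpowers a : Subgroup X) : Set X) := by
      rw [centralizer_sup_zpowers, inf_assoc]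
    rw [h3] at h2
    calc Nat.card ↥(E ⊓ Subgroup.centralizer (W₀ : Set X))
        ≤ Nat.card ↥(E ⊓ Subgroup.centralizer ((W₀ ⊔ Subgroup.zpowers a : Subgroup X) : Set X)) ^ 2 := h2
      _ ≤ (Nat.card ↥(E ⊓ Subgroup.centralizer (W : Set X)) ^ (2 ^ i)) ^ 2 := Nat.pow_le_pow_left h1 2
      _ = Nat.card ↥(E ⊓ Subgroup.centralizer (W : Set X)) ^ (2 ^ (i + 1)) := by
        rw [← pow_mul, pow_succ]

/-- An elementary abelian subgroup of order at most `8` is centralized by an element of `E` outside it. -/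
theorem exists_outside [Finite X] (hX : IsPGroup 2 X) (E : Subgroup X) [hEn : E.Normal]
    (hE : Cfsg.IsElementaryAbelian 2 E) (hE32 : 32 ≤ Nat.card ↥E) (W : Subgroup X)
    (hW : Cfsg.IsElementaryAbelian 2 W) (hW8 : Nat.card ↥W ≤ 8) :
    ∃ e ∈ E, e ∉ W ∧ ∀ w ∈ W, w * e = e * w := by
  have : Fact (Nat.Prime 2) := ⟨Nat.prime_two⟩
  by_contra hcon
  push Not at hcon
  have hCD : E ⊓ Subgroup.centralizer (W : Set X) ≤ W ⊓ E := by
    rintro x ⟨hxE, hxC⟩
    refine ⟨?_, hxE⟩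
    by_contra hxW
    obtain ⟨w, hw, hne⟩ := hcon x hxE hxW
    exact hne (Subgroup.mem_centralizer_iff.mp hxC w hw)
  have hDle : W ⊓ E ≤ W := inf_le_left
  obtain ⟨k, hk⟩ := Subgroup.card_dvd_of_le hDle
  obtain ⟨n, hn⟩ := (IsPGroup.iff_card).mp (hX.to_subgroup W)
  have hkdvd : k ∣ 2 ^ n := by
    rw [← hn, hk]; exact Dvd.intro_left _ rfl
  obtain ⟨i, -, hi⟩ := (Nat.dvd_prime_pow Nat.prime_two).mp hkdvd
  subst hi
  have htower := card_centralizer_tower E hE i (W ⊓ E) W hDle hW (by rw [hk]; ring)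
  have hED : E ⊓ Subgroup.centralizer ((W ⊓ E : Subgroup X) : Set X) = E := by
    rw [inf_eq_left]
    intro x hx
    rw [Subgroup.mem_centralizer_iff]
    rintro y ⟨-, hy⟩
    exact comm_of_el_ab hE hy hx
  rw [hED] at htower
  have h1 : Nat.card ↥(E ⊓ Subgroup.centralizer (W : Set X)) ≤ Nat.card ↥(W ⊓ E) :=
    Subgroup.card_le_of_le hCD
  have h2 : Nat.card ↥E ≤ Nat.card ↥(W ⊓ E) ^ (2 ^ i) :=
    htower.trans (Nat.pow_le_pow_left h1 _)
  set d := Nat.card ↥(W ⊓ E) with hd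
  have hd8 : d * 2 ^ i ≤ 8 := by
    rw [← hk]; exact hW8
  have hdpos : 0 < d := Nat.card_pos
  have h3 : 32 ≤ d ^ (2 ^ i) := hE32.trans h2
  rcases Nat.lt_or_ge i 4 with hi4 | hi4
  · interval_cases i
    · simp only [pow_zero, pow_one, mul_one] at h3 hd8
      omega
    · have hd4 : d ≤ 4 := by omega
      have h6 := Nat.pow_le_pow_left hd4 (2 ^ 1)
      have h7 : (4 : ℕ) ^ 2 ^ 1 = 16 := by norm_num
      omega
    · have hd4 : d ≤ 2 := by omega
      have h6 := Nat.pow_le_pow_left hd4 (2 ^ 2)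
      have h7 : (2 : ℕ) ^ 2 ^ 2 = 16 := by norm_num
      omega
    · have hd4 : d ≤ 1 := by omega
      have h6 := Nat.pow_le_pow_left hd4 (2 ^ 3)
      have h7 : (1 : ℕ) ^ 2 ^ 3 = 1 := by norm_num
      omega
  · have h4 : 2 ^ 4 ≤ 2 ^ i := Nat.pow_le_pow_right (by norm_num) hi4
    have h5 : 1 * 2 ^ 4 ≤ d * 2 ^ i := Nat.mul_le_mul hdpos h4
    norm_num at h5
    omega

/-- Find an order-`8` subgroup between `W` and `U`. -/
theorem exists_between [Finite X] (hX : IsPGroup 2 X) {W U : Subgroup X} (hWU : W ≤ U)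
    (hW8 : Nat.card ↥W ≤ 8) (hU8 : 8 ≤ Nat.card ↥U) :
    ∃ A : Subgroup X, W ≤ A ∧ A ≤ U ∧ Nat.card ↥A = 8 := by
  have : Fact (Nat.Prime 2) := ⟨Nat.prime_two⟩
  obtain ⟨m, hm⟩ := (IsPGroup.iff_card).mp (hX.to_subgroup W)
  obtain ⟨n, hn⟩ := (IsPGroup.iff_card).mp (hX.to_subgroup U)
  have hm3 : m ≤ 3 := by
    rw [hm] at hW8
    by_contra h
    have h1 : 2 ^ 4 ≤ 2 ^ m := Nat.pow_le_pow_right (by norm_num) (by omega)
    omega
  have hn3 : 3 ≤ n := by
    rw [hn] at hU8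
    by_contra h
    have h1 : 2 ^ n ≤ 2 ^ 2 := Nat.pow_le_pow_right (by norm_num) (by omega)
    omega
  have hdvd : 2 ^ 3 ∣ Nat.card ↥U := by
    rw [hn]; exact pow_dvd_pow 2 hn3
  have hcard : Nat.card ↥(W.subgroupOf U) = 2 ^ m := by
    rw [← hm]
    exact Nat.card_congr (Subgroup.subgroupOfEquivOfLe hWU).toEquiv
  obtain ⟨K, hKcard, hKle⟩ := Sylow.exists_subgroup_card_pow_prime_le 2 hdvd (W.subgroupOf U) hcard hm3
  refine ⟨K.map U.subtype, ?_, ?_, ?_⟩
  · intro x hx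
    exact ⟨⟨x, hWU hx⟩, hKle (Subgroup.mem_subgroupOf.mpr hx), rfl⟩
  · rintro _ ⟨x, _, rfl⟩
    exact x.2
  · rw [Subgroup.card_map_of_injective (Subgroup.subtype_injective U), hKcard]
    norm_num

/-- The adjacency relation. -/
abbrev Adj8 (C D : Subgroup X) : Prop :=
  Cfsg.IsElementaryAbelian 2 C ∧ Nat.card ↥C = 8 ∧ Cfsg.IsElementaryAbelian 2 D ∧ Nat.card ↥D = 8 ∧ ⁅C, D⁆ = ⊥

theorem adj8_symm {C D : Subgroup X} (h : Adj8 C D) : Adj8 D C := by
  obtain ⟨h1, h2, h3, h4, h5⟩ := h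
  exact ⟨h3, h4, h1, h2, by rw [Subgroup.commutator_comm]; exact h5⟩

theorem chain_symm {C D : Subgroup X} (h : Relation.ReflTransGen Adj8 C D) :
    Relation.ReflTransGen Adj8 D C := by
  induction h with
  | refl => exact Relation.ReflTransGen.refl
  | tail _ h2 ih => exact Relation.ReflTransGen.head (adj8_symm h2) ih

theorem commutator_eq_bot_of_le {U C D : Subgroup X} (hU : Cfsg.IsElementaryAbelian 2 U) (hC : C ≤ U) (hD : D ≤ U) :
    ⁅C, D⁆ = ⊥ := by
  rw [Subgroup.commutator_eq_bot_iff_le_centralizer]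
  intro x hx
  rw [Subgroup.mem_centralizer_iff]
  intro y hy
  exact comm_of_el_ab hU (hD hy) (hC hx)

theorem chain_to_E [Finite X] (hX : IsPGroup 2 X) (E : Subgroup X) [hEn : E.Normal]
    (hE : Cfsg.IsElementaryAbelian 2 E) (hE32 : 32 ≤ Nat.card ↥E) :
    ∀ (n : ℕ) (A : Subgroup X), Cfsg.IsElementaryAbelian 2 A → Nat.card ↥A = 8 → 8 - Nat.card ↥(A ⊓ E) = n →
      ∃ A' : Subgroup X, A' ≤ E ∧ Nat.card ↥A' = 8 ∧ Relation.ReflTransGen Adj8 A A' := by
  have : Fact (Nat.Prime 2) := ⟨Nat.prime_two⟩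
  intro n
  induction n using Nat.strong_induction_on with
  | _ n ih =>
    intro A hA hA8 hn
    by_cases hAE : A ≤ E
    · exact ⟨A, hAE, hA8, Relation.ReflTransGen.refl⟩
    have hDle : A ⊓ E ≤ A := inf_le_left
    have hDne : A ⊓ E ≠ A := fun h => hAE (inf_eq_left.mp h)
    have hDlt : Nat.card ↥(A ⊓ E) < 8 := by
      rw [← hA8]
      refine lt_of_le_of_ne (Subgroup.card_le_of_le hDle) ?_
      intro h
      exact hDne (Subgroup.eq_of_le_of_card_ge hDle h.ge)
    have hDdvd : Nat.card ↥(A ⊓ E) ∣ 8 := by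
      rw [← hA8]; exact Subgroup.card_dvd_of_le hDle
    have hD4 : Nat.card ↥(A ⊓ E) ≤ 4 := by
      have h8 : (8 : ℕ) = 2 ^ 3 := by norm_num
      rw [h8] at hDdvd hDlt
      obtain ⟨j, hj, hj2⟩ := (Nat.dvd_prime_pow Nat.prime_two).mp hDdvd
      rw [hj2] at hDlt ⊢
      interval_cases j <;> omega
    obtain ⟨e, heE, heA, hec⟩ := exists_outside hX E hE hE32 A hA hA8.le
    have he2 : e ^ 2 = 1 := hE.2 e heE
    have heD : e ∉ A ⊓ E := fun h => heA h.1
    have hW₁card : Nat.card ↥((A ⊓ E) ⊔ Subgroup.zpowers e) = 2 * Nat.card ↥(A ⊓ E) :=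
      card_sup_zpowers he2 (fun h hh => hec h hh.1) heD
    have hUcard : Nat.card ↥(A ⊔ Subgroup.zpowers e) = 2 * Nat.card ↥A :=
      card_sup_zpowers he2 hec heA
    have hUab : Cfsg.IsElementaryAbelian 2 (A ⊔ Subgroup.zpowers e) := el_ab_sup hA he2 hec
    have hW₁U : (A ⊓ E) ⊔ Subgroup.zpowers e ≤ A ⊔ Subgroup.zpowers e :=
      sup_le_sup_right inf_le_left _
    obtain ⟨A₁, hW₁A₁, hA₁U, hA₁8⟩ := exists_between hX hW₁U (by omega) (by omega)
    have hA₁ab : Cfsg.IsElementaryAbelian 2 A₁ := el_ab_mono hA₁U hUab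
    have hcomm : ⁅A, A₁⁆ = ⊥ := commutator_eq_bot_of_le hUab le_sup_left hA₁U
    have hle : (A ⊓ E) ⊔ Subgroup.zpowers e ≤ A₁ ⊓ E := by
      refine le_inf hW₁A₁ (sup_le inf_le_right ?_)
      rwa [Subgroup.zpowers_le]
    have hcard : 2 * Nat.card ↥(A ⊓ E) ≤ Nat.card ↥(A₁ ⊓ E) := by
      rw [← hW₁card]; exact Subgroup.card_le_of_le hle
    have hpos : 0 < Nat.card ↥(A ⊓ E) := Nat.card_pos
    obtain ⟨A', hA'E, hA'8, hchain⟩ := ih (8 - Nat.card ↥(A₁ ⊓ E)) (by omega) A₁ hA₁ab hA₁8 rfl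
    exact ⟨A', hA'E, hA'8, Relation.ReflTransGen.head ⟨hA, hA8, hA₁ab, hA₁8, hcomm⟩ hchain⟩

/-- Let X be a finite 2-group having a normal elementary abelian subgroup of order at least 32. Then (a) for any two elementary abelian subgroups A, B of X of order 8 there is a chain A = A₁, A₂, …, Aₙ = B of elementary abelian subgroups of order 8 in which consecutive members commute elementwise; and (b) every elementary abelian subgroup of X of order 4 is contained in an elementary abelian subgroup of order 8. -/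
theorem result {X : Type*} [Group X] [Finite X]
    (hX : IsPGroup 2 X) (E : Subgroup X) [E.Normal] (hE : Cfsg.IsElementaryAbelian 2 E) (hE32 : 32 ≤ Nat.card ↥E) :
    (∀ A B : Subgroup X, Cfsg.IsElementaryAbelian 2 A → Nat.card ↥A = 8 → Cfsg.IsElementaryAbelian 2 B → Nat.card ↥B = 8 →
        Relation.ReflTransGen
          (fun C D : Subgroup X => Cfsg.IsElementaryAbelian 2 C ∧ Nat.card ↥C = 8 ∧ Cfsg.IsElementaryAbelian 2 D ∧ Nat.card ↥D = 8 ∧ ⁅C, D⁆ = ⊥)
          A B) ∧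
      (∀ V : Subgroup X, Cfsg.IsElementaryAbelian 2 V → Nat.card ↥V = 4 →
        ∃ A : Subgroup X, V ≤ A ∧ Cfsg.IsElementaryAbelian 2 A ∧ Nat.card ↥A = 8) := by
  constructor
  · intro A B hA hA8 hB hB8
    obtain ⟨A', hA'E, hA'8, hAchain⟩ := chain_to_E hX E hE hE32 _ A hA hA8 rfl
    obtain ⟨B', hB'E, hB'8, hBchain⟩ := chain_to_E hX E hE hE32 _ B hB hB8 rfl
    have hmid : Adj8 A' B' :=
      ⟨el_ab_mono hA'E hE, hA'8, el_ab_mono hB'E hE, hB'8, commutator_eq_bot_of_le hE hA'E hB'E⟩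
    exact hAchain.trans (Relation.ReflTransGen.head hmid (chain_symm hBchain))
  · intro V hV hV4
    obtain ⟨e, heE, heV, hec⟩ := exists_outside hX E hE hE32 V hV (by omega)
    have he2 : e ^ 2 = 1 := hE.2 e heE
    refine ⟨V ⊔ Subgroup.zpowers e, le_sup_left, el_ab_sup hV he2 hec, ?_⟩
    rw [card_sup_zpowers he2 hec heV, hV4]

end Cfsg.Agent.S1785
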