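import Cfsg.Statements.S1786
import Cfsg.Agent.Lib.TI.TwoTIFinal
import Cfsg.Agent.Lib.Components.GenFitting
import Cfsg.Agent.Lib.Core.Basic

set_option autoImplicit false
open Cfsg

namespace Cfsg.Agent.S1786

open Cfsg.Agent.Lib.TI.TwoTI

/-- The translation of the hypotheses into the setting. -/
theorem setup_of {G : Type*} [Group G] [Finite G] (V : Subgroup G)
    (hV : Cfsg.IsElementaryAbelian 2 V)
    (h1 : (Cfsg.generalizedFittingSubgroup ↥(Subgroup.normalizer (V : Set G))).map (Subgroup.normalizer (V : Set G)).subtype =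
      (Cfsg.pCore 2 ↥(Subgroup.normalizer (V : Set G))).map (Subgroup.normalizer (V : Set G)).subtype)
    (h2 : ∀ A : Subgroup G, V ≤ A → A ≤ Subgroup.normalizer (V : Set G) → IsMulCommutative ↥A →
      (∀ m ∈ Subgroup.normalizer (V : Set G), ∀ a ∈ A, m * a * m⁻¹ ∈ A) → A = V)
    (hti : ∀ x : G, V.map (MulAut.conj x).toMonoidHom = V ∨ V.map (MulAut.conj x).toMonoidHom ⊓ V = ⊥) :
    Setup V ((Cfsg.pCore 2 ↥(Subgroup.normalizer (V : Set G))).map (Subgroup.normalizer (V : Set G)).subtype) := by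
  set M := Subgroup.normalizer (V : Set G) with hM
  have hN : (Cfsg.pCore 2 ↥M).Normal := inferInstance
  have hsq : ∀ v ∈ V, v * v = 1 := fun v hv => by
    have := hV.2 v hv
    rwa [pow_two] at this
  have hVM : V ≤ M := Subgroup.le_normalizer
  refine ⟨hsq, ?_, ?_, ?_, ?_, ?_, ?_, ?_, hti⟩
  · exact Subgroup.map_subtype_le _
  · rintro m hm _ ⟨z, hz, rfl⟩
    refine ⟨⟨m, hm⟩ * z * ⟨m, hm⟩⁻¹, hN.conj_mem z hz ⟨m, hm⟩, ?_⟩
    rfl
  · intro v hv
    refine ⟨⟨v, hVM hv⟩, ?_, rfl⟩
    have hn : (V.subgroupOf M).Normal := ⟨by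
      intro n hn w
      rw [Subgroup.mem_subgroupOf] at hn ⊢
      exact (Subgroup.mem_normalizer_iff.mp w.2 _).mp hn⟩
    have hp : IsPGroup 2 (V.subgroupOf M) := by
      rintro ⟨x, hx⟩
      refine ⟨1, Subtype.ext (Subtype.ext ?_)⟩
      have := hsq _ (Subgroup.mem_subgroupOf.mp hx)
      simpa [pow_two] using this
    exact Cfsg.Agent.Lib.Core.Basic.le_pCore hn hp (Subgroup.mem_subgroupOf.mpr hv)
  · rintro ⟨_, ⟨z, hz, rfl⟩⟩
    obtain ⟨k, hk⟩ := Cfsg.Agent.Lib.Core.Basic.pCore_isPGroup (p := 2) (G := ↥M) ⟨z, hz⟩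
    refine ⟨k, Subtype.ext ?_⟩
    have := congrArg (fun y => ((y : ↥M) : G)) (congrArg Subtype.val hk)
    simpa using this
  · intro m hm hc
    rw [← h1]
    refine ⟨⟨m, hm⟩, ?_, rfl⟩
    apply Cfsg.Agent.Lib.Components.GenFitting.centralizer_generalizedFitting_le
    rw [Subgroup.mem_centralizer_iff]
    intro t ht
    have h3 : (t : G) ∈ (Cfsg.pCore 2 ↥M).map M.subtype := by
      rw [← h1]
      exact ⟨t, ht, rfl⟩
    exact Subtype.ext (hc _ h3).symm
  · intro K hK hKn hKp k hk
    refine ⟨⟨k, hK hk⟩, ?_, rfl⟩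
    have hn : (K.subgroupOf M).Normal := ⟨by
      intro n hn w
      rw [Subgroup.mem_subgroupOf] at hn ⊢
      exact hKn _ w.2 _ hn⟩
    have hp : IsPGroup 2 (K.subgroupOf M) := by
      rintro ⟨x, hx⟩
      obtain ⟨n, hn'⟩ := hKp ⟨x.1, Subgroup.mem_subgroupOf.mp hx⟩
      refine ⟨n, Subtype.ext (Subtype.ext ?_)⟩
      have := congrArg Subtype.val hn'
      simpa using this
    exact Cfsg.Agent.Lib.Core.Basic.le_pCore hn hp (Subgroup.mem_subgroupOf.mpr hk)
  · intro A hVA hAN hc hn
    have : IsMulCommutative ↥A := ⟨⟨fun a b => Subtype.ext (hc a a.2 b b.2)⟩⟩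
    rw [h2 A hVA hAN this hn]

/-- Let G be a finite group, V an elementary abelian 2-subgroup of G and M the normalizer of V; write Q for the largest normal 2-subgroup of M. Suppose (1) the generalized Fitting subgroup of M equals Q; (2) V is a maximal abelian normal subgroup of M; (3) every conjugate of V equals V or meets V trivially, and for some g ∈ G the conjugate V' = g V g⁻¹ is different from V and contained in Q. Let P be the centralizer of V in Q, W the subgroup generated by V and V', and H the subgroup generated by P and g P g⁻¹. Then: (a) V is contained in g Q g⁻¹; (b) every non-identity element of W lies in exactly one conjugate of V contained in W, H normalizes W, and H modulo the centralizer of W in H is isomorphic to the special linear group of dimension 2 over the field with |V| elements; (c) P = Q, and V equals the Frattini subgroup, the centre and the commutator subgroup of Q. -/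
theorem result {G : Type*} [Group G] [Finite G] (V : Subgroup G)
    (hV : Cfsg.IsElementaryAbelian 2 V)
    (h1 : (Cfsg.generalizedFittingSubgroup ↥(Subgroup.normalizer (V : Set G))).map (Subgroup.normalizer (V : Set G)).subtype =
      (Cfsg.pCore 2 ↥(Subgroup.normalizer (V : Set G))).map (Subgroup.normalizer (V : Set G)).subtype)
    (h2 : ∀ A : Subgroup G, V ≤ A → A ≤ Subgroup.normalizer (V : Set G) → IsMulCommutative ↥A →
      (∀ m ∈ Subgroup.normalizer (V : Set G), ∀ a ∈ A, m * a * m⁻¹ ∈ A) → A = V)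
    (hti : ∀ x : G, V.map (MulAut.conj x).toMonoidHom = V ∨ V.map (MulAut.conj x).toMonoidHom ⊓ V = ⊥)
    (g : G) (hg : V.map (MulAut.conj g).toMonoidHom ≠ V)
    (hgQ : V.map (MulAut.conj g).toMonoidHom ≤ (Cfsg.pCore 2 ↥(Subgroup.normalizer (V : Set G))).map (Subgroup.normalizer (V : Set G)).subtype) :
    let Q : Subgroup G := (Cfsg.pCore 2 ↥(Subgroup.normalizer (V : Set G))).map (Subgroup.normalizer (V : Set G)).subtype
    let P : Subgroup G := Q ⊓ Subgroup.centralizer (V : Set G)
    let W : Subgroup G := V ⊔ V.map (MulAut.conj g).toMonoidHom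
    let H : Subgroup G := P ⊔ P.map (MulAut.conj g).toMonoidHom
    V ≤ Q.map (MulAut.conj g).toMonoidHom ∧
      (∀ w ∈ W, w ≠ 1 → ∃! U : Subgroup G, (∃ x : G, U = V.map (MulAut.conj x).toMonoidHom) ∧ U ≤ W ∧ w ∈ U) ∧
      H ≤ Subgroup.normalizer (W : Set G) ∧
      (∀ hN : ((Subgroup.centralizer (W : Set G)).subgroupOf H).Normal, ∃ (F : Type) (_ : Field F) (_ : Fintype F), Fintype.card F = Nat.card ↥V ∧
        Nonempty (↥H ⧸ (Subgroup.centralizer (W : Set G)).subgroupOf H ≃* Matrix.SpecialLinearGroup (Fin 2) F)) ∧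
      P = Q ∧ (frattini ↥Q).map Q.subtype = V ∧ (Subgroup.center ↥Q).map Q.subtype = V ∧ (commutator ↥Q).map Q.subtype = V := by
  intro Q P W H
  have S : Setup V Q := setup_of V hV h1 h2 hti
  refine ⟨S.le_conj_Q hg hgQ, fun w hw hw1 => S.exists_unique_conj hg hgQ hw hw1, S.H_le hg hgQ, ?_,
    S.cP_eq hg hgQ, S.frattini_eq hg hgQ, S.center_eq hg hgQ, S.commutator_eq hg hgQ⟩
  intro hN
  exact S.sl2_main hg hgQ

end Cfsg.Agent.S1786
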