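import Cfsg.Statements.S1850
import Cfsg.Agent.Lib.Quasithin.Good

set_option autoImplicit false
open Cfsg

namespace Cfsg.Agent.S1850

open Subgroup Cfsg.Agent.Lib.Quasithin.Good

/-- Normalizers grow in a finite 2-group. -/
theorem exists_mem_normalizer_of_lt {G : Type*} [Group G] [Finite G] {P U : Subgroup G}
    (hU : IsPGroup 2 U) (hPU : P ≤ U) (hne : P ≠ U) :
    ∃ x ∈ U, x ∉ P ∧ x ∈ normalizer (P : Set G) := by
  have hfact : Fact (Nat.Prime 2) := ⟨Nat.prime_two⟩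
  have hlt : P.subgroupOf U < ⊤ := by
    rw [lt_top_iff_ne_top]
    intro htop
    apply hne
    apply le_antisymm hPU
    intro r hr
    have : (⟨r, hr⟩ : U) ∈ P.subgroupOf U := by rw [htop]; trivial
    simpa [Subgroup.mem_subgroupOf] using this
  have hnil : Group.IsNilpotent U := hU.isNilpotent
  have hnc := Group.normalizerCondition_of_isNilpotent (G := U) _ hlt
  obtain ⟨⟨x, hxU⟩, hx1, hx2⟩ := SetLike.exists_of_lt hnc
  refine ⟨x, hxU, by simpa [Subgroup.mem_subgroupOf] using hx2, ?_⟩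
  rw [Subgroup.mem_normalizer_iff]
  intro t
  rw [Subgroup.mem_normalizer_iff] at hx1
  constructor
  · intro ht
    have htU : t ∈ U := hPU ht
    have := (hx1 ⟨t, htU⟩).mp (by simpa [Subgroup.mem_subgroupOf] using ht)
    simpa [Subgroup.mem_subgroupOf] using this
  · intro ht
    have htU : t ∈ U := by
      have h1 : x * t * x⁻¹ ∈ U := hPU ht
      have h2 : t = x⁻¹ * (x * t * x⁻¹) * x := by group
      rw [h2]
      exact U.mul_mem (U.mul_mem (U.inv_mem hxU) h1) hxU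
    have := (hx1 ⟨t, htU⟩).mpr (by simpa [Subgroup.mem_subgroupOf] using ht)
    simpa [Subgroup.mem_subgroupOf] using this

/-- Let G be a non-abelian finite simple QTKE-group and T a Sylow 2-subgroup of G. If U is a nontrivial 2-subgroup of G with U ∩ Z(T) ≠ 1, then F*(N_G(U)) = O₂(N_G(U)). -/
theorem result {G : Type*} [Group G] [Finite G] [IsSimpleGroup G]
    (hG : ¬ IsMulCommutative G) (hQ : Cfsg.IsQTKE G) (T : Sylow 2 G) (U : Subgroup G)
    (hU : IsPGroup 2 ↥U) (hZ : U ⊓ ((T : Subgroup G) ⊓ Subgroup.centralizer ((T : Subgroup G) : Set G)) ≠ ⊥) :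
    Subgroup.normalizer (U : Set G) ∈ Cfsg.calHe G := by
  classical
  obtain ⟨-, -, hE⟩ := hQ
  set P₀ := U ⊓ ((T : Subgroup G) ⊓ Subgroup.centralizer ((T : Subgroup G) : Set G)) with hP₀
  have hP₀U : P₀ ≤ U := inf_le_left
  have hTP₀ : (T : Subgroup G) ≤ normalizer (P₀ : Set G) := by
    refine le_trans ?_ (centralizer_le_normalizer _)
    intro t ht
    rw [mem_centralizer_iff]
    intro h hh
    have h2 : h ∈ centralizer ((T : Subgroup G) : Set G) := hh.2.2
    exact ((mem_centralizer_iff.mp h2) t ht).symm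
  have hbase : NoGood (normalizer (P₀ : Set G)) := by
    have h2 : IsTwoLocal (normalizer (P₀ : Set G)) := ⟨P₀, hU.to_le hP₀U, hZ, rfl⟩
    have h3 := hE _ h2 ⟨T, hTP₀⟩
    exact (char2In_of_isOfCharacteristicTwo h3).noGood
  let 𝔖 : Set (Subgroup G) := {P | P ≤ U ∧ P₀ ≤ P ∧ NoGood (normalizer (P : Set G))}
  obtain ⟨P, hP⟩ := (Set.toFinite 𝔖).exists_maximal ⟨P₀, hP₀U, le_rfl, hbase⟩
  obtain ⟨⟨hPU, hP₀P, hPN⟩, hmax⟩ := hP
  have hPeq : P = U := by
    by_contra hne
    obtain ⟨x, hxU, hxP, hxN⟩ := exists_mem_normalizer_of_lt hU hPU hne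
    set P₁ := normalizer (P : Set G) ⊓ U with hP₁
    have hPP₁ : P ≤ P₁ := le_inf le_normalizer hPU
    have hmem : P₁ ∈ 𝔖 := ⟨inf_le_right, hP₀P.trans hPP₁,
      noGood_normalizer_tower hPN.char2In hPP₁ inf_le_left (hU.to_le inf_le_right)⟩
    have hle : P₁ ≤ P := hmax hmem hPP₁
    exact hxP (hle ⟨hxN, hxU⟩)
  rw [hPeq] at hPN
  exact hPN.fStar

end Cfsg.Agent.S1850
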