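import Cfsg.Statements.S1851
import Cfsg.Agent.Lib.Quasithin.CalL

set_option autoImplicit false
open Cfsg

namespace Cfsg.Agent.S1851

open Subgroup
open Cfsg.Agent.Lib.Quasithin.CharTwo Cfsg.Agent.Lib.Quasithin.Good Cfsg.Agent.Lib.Quasithin.CalL

/-- The heart of the matter: faithfulness passes from `L` to `K ≥ L`. -/
theorem moduleV_ne_bot {G : Type*} [Group G] [Finite G] (hE : IsOfEvenCharacteristic G)
    {T : Sylow 2 G} {L K : Subgroup G} (hL : L ∈ calL (T : Subgroup G))
    (hLV : moduleV L ≠ ⊥) (hK : K ∈ calL (T : Subgroup G)) (hLK : L ≤ K) : moduleV K ≠ ⊥ := by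
  intro hKV
  apply hLV
  set Q := pCoreTwoOf K with hQdef
  set P := pCoreTwoOf L with hPdef
  set U := omegaOne 2 (P ⊓ centralizer (P : Set G)) with hUdef
  set W := omegaOne 2 (Q ⊓ centralizer (Q : Set G)) with hWdef
  have hQp : IsPGroup 2 Q := isPGroup_pCoreTwoOf K
  have hPp : IsPGroup 2 P := isPGroup_pCoreTwoOf L
  have hQT : Q ≤ T := calL.pCoreTwoOf_le_sylow hK
  have hKQ : K ≤ normalizer (Q : Set G) := le_normalizer_pCoreTwoOf K
  have hQL : Q ≤ normalizer (L : Set G) :=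
    calL.le_normalizer_of_le_sylow hL hQT (hLK.trans hKQ)
  have hLP : L ≤ normalizer (P : Set G) := le_normalizer_pCoreTwoOf L
  have hNLP : normalizer (L : Set G) ≤ normalizer (P : Set G) :=
    normalizer_le_normalizer_pCoreTwoOf L
  have hNPU : normalizer (P : Set G) ≤ normalizer (U : Set G) :=
    normalizer_le_normalizer_omegaOne_center P
  have hUP : U ≤ P := by
    intro x hx
    exact (mem_omegaOne_center_iff.mp hx).1.1
  have hUC : U ≤ centralizer (P : Set G) := by
    intro x hx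
    exact (mem_omegaOne_center_iff.mp hx).1.2
  have hKchar : K ⊓ centralizer (Q : Set G) ≤ Q :=
    inf_centralizer_pCoreTwoOf_le (calL.noGood hE hK).char2
  have hWK : W ≤ centralizer (K : Set G) :=
    commutator_eq_bot_iff_le_centralizer.mp hKV
  have key : L ≤ centralizer (U : Set G) := by
    refine centralizes_of_commuting_action (Q := Q) ?_ ?_ (hLP.trans hNPU)
      ((hQL.trans hNLP).trans hNPU) (hPp.to_le hUP) hQp ?_ ?_ (calL.oddGen hL)
    · intro x hx y hy
      exact (Subgroup.mem_centralizer_iff.mp (hUC hy)) x (hUP hx)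
    · intro x hx
      exact (mem_omegaOne_center_iff.mp hx).2
    · -- `[q, l] ∈ L ∩ Q ≤ P` centralizes `U`
      intro l hl q hq
      have h1 : q * l * q⁻¹ * l⁻¹ ∈ L :=
        L.mul_mem (conj_mem_of_le_normalizer (hQL hq) hl) (L.inv_mem hl)
      have h2 : q * l * q⁻¹ * l⁻¹ ∈ Q := by
        have h3 : l * q⁻¹ * l⁻¹ ∈ Q :=
          conj_mem_of_le_normalizer (hKQ (hLK hl)) (Q.inv_mem hq)
        have h4 : q * l * q⁻¹ * l⁻¹ = q * (l * q⁻¹ * l⁻¹) := by group
        rw [h4]
        exact Q.mul_mem hq h3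
      have hR : L ⊓ Q ≤ P := by
        refine le_pCoreTwoOf inf_le_left ?_ (hQp.to_le inf_le_right)
        intro x hx
        rw [Subgroup.mem_normalizer_iff]
        intro t
        have hxQ := Subgroup.mem_normalizer_iff.mp (hKQ (hLK hx)) t
        constructor
        · rintro ⟨ht1, ht2⟩
          exact ⟨L.mul_mem (L.mul_mem hx ht1) (L.inv_mem hx), hxQ.mp ht2⟩
        · rintro ⟨ht1, ht2⟩
          refine ⟨?_, hxQ.mpr ht2⟩
          have : t = x⁻¹ * (x * t * x⁻¹) * x := by group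
          rw [this]
          exact L.mul_mem (L.mul_mem (L.inv_mem hx) ht1) hx
      have h5 : q * l * q⁻¹ * l⁻¹ ∈ P := hR ⟨h1, h2⟩
      rw [Subgroup.mem_centralizer_iff]
      intro u hu
      exact ((Subgroup.mem_centralizer_iff.mp (hUC hu)) _ h5).symm
    · -- `C_U(Q) ≤ C_U(L)`
      intro x hxU hxQ
      have hx2 : x ^ 2 = 1 := (mem_omegaOne_center_iff.mp hxU).2
      have hxK : x ∈ K := hLK (pCoreTwoOf_le L (hUP hxU))
      have hxQ' : x ∈ Q := hKchar ⟨hxK, hxQ⟩
      have hxW : x ∈ W := Subgroup.subset_closure ⟨⟨hxQ', hxQ⟩, hx2⟩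
      rw [Subgroup.mem_centralizer_iff]
      intro l hl
      exact (Subgroup.mem_centralizer_iff.mp (hWK hxW)) l (hLK hl)
  have hb : ⁅L, U⁆ = ⊥ := commutator_eq_bot_iff_le_centralizer.mpr key
  show ⁅U, L⁆ = ⊥
  rw [commutator_comm]
  exact hb

/-- Let G be a non-abelian finite simple QTKE-group and T a Sylow 2-subgroup of G, and let L be a member of ℒ_f(G, T) (a member of ℒ(G, T) that lies in 𝒳 — L ≠ 1, L = O²(L), F*(L) = O₂(L) — and acts nontrivially on Ω₁(Z(O₂(L)))). Then (1) every member K of ℒ(G, T) containing L is again in ℒ_f(G, T) (a sharper form of (1) also compares the modules [Ω₁(Z(R)), L] and [Ω₁(Z(R')), K] for suitable 2-subgroups R, R'; that comparison is not included); and (2) if L is maximal under inclusion among the members of ℒ_f(G, T), then L is a maximal member of ℒ(G, T), hence a member of ℒ_f*(G, T). -/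
theorem result {G : Type*} [Group G] [Finite G] [IsSimpleGroup G]
    (hG : ¬ IsMulCommutative G) (hQ : Cfsg.IsQTKE G) (T : Sylow 2 G) (L : Subgroup G)
    (hL : L ∈ Cfsg.calLf (T : Subgroup G)) :
    (∀ K ∈ Cfsg.calL (T : Subgroup G), L ≤ K → K ∈ Cfsg.calLf (T : Subgroup G)) ∧
    ((∀ K ∈ Cfsg.calLf (T : Subgroup G), L ≤ K → K = L) → L ∈ Cfsg.calLfMax (T : Subgroup G)) := by
  obtain ⟨-, -, hE⟩ := hQ
  have h1 : ∀ K ∈ Cfsg.calL (T : Subgroup G), L ≤ K → K ∈ Cfsg.calLf (T : Subgroup G) := by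
    intro K hK hLK
    exact ⟨hK, calL.mem_calX hE hK, moduleV_ne_bot hE hL.1 hL.2.2 hK hLK⟩
  refine ⟨h1, fun hmax => ⟨⟨hL.1, fun K hK hLK => hmax K (h1 K hK hLK) hLK⟩, hL.2⟩⟩

end Cfsg.Agent.S1851
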