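import Cfsg.Statements.S1958
import Cfsg.Agent.Lib.Core.PSolvable2

set_option autoImplicit false
open Cfsg

namespace Cfsg.Agent.S1958

/-- Let `G` be a finite group, `p` a prime, and `x, y` commuting elements of order `p` whose centralizers `C_G(x)` and `C_G(y)` are both solvable. Then `O_{p'}(C_G(x)) ∩ C_G(y) = O_{p'}(C_G(y)) ∩ C_G(x)` (balance). -/
theorem result {G : Type*} [Group G] [Finite G]
    (p : ℕ) [Fact p.Prime] (x y : G) (hx : orderOf x = p) (hy : orderOf y = p) (hxy : x * y = y * x)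
    (hCx : Group.IsSolvable ↥(Subgroup.centralizer ({x} : Set G))) (hCy : Group.IsSolvable ↥(Subgroup.centralizer ({y} : Set G))) :
    Cfsg.centralizerPPrimeCore p x ⊓ Subgroup.centralizer {y} = Cfsg.centralizerPPrimeCore p y ⊓ Subgroup.centralizer {x} := by
  have hCx' : Cfsg.IsPConstrained p ↥(Subgroup.centralizer ({x} : Set G)) :=
    Cfsg.Agent.Lib.Core.PSolvable.isPConstrained_of_isPSolvable Cfsg.Agent.Lib.Core.PSolvable2.isPSolvable_of_isSolvable
  have hCy' : Cfsg.IsPConstrained p ↥(Subgroup.centralizer ({y} : Set G)) :=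
    Cfsg.Agent.Lib.Core.PSolvable.isPConstrained_of_isPSolvable Cfsg.Agent.Lib.Core.PSolvable2.isPSolvable_of_isSolvable
  have hxp : ∃ k : ℕ, x ^ p ^ k = 1 := ⟨1, by rw [pow_one, ← hx]; exact pow_orderOf_eq_one x⟩
  have hyp : ∃ k : ℕ, y ^ p ^ k = 1 := ⟨1, by rw [pow_one, ← hy]; exact pow_orderOf_eq_one y⟩
  apply le_antisymm
  · exact le_inf (Cfsg.Agent.Lib.Core.PSolvable2.centralizerPPrimeCore_inf_le hxp hxy hCy')
      (inf_le_left.trans (Cfsg.Agent.Lib.Core.PSolvable2.centralizerPPrimeCore_le_centralizer x))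
  · exact le_inf (Cfsg.Agent.Lib.Core.PSolvable2.centralizerPPrimeCore_inf_le hyp hxy.symm hCx')
      (inf_le_left.trans (Cfsg.Agent.Lib.Core.PSolvable2.centralizerPPrimeCore_le_centralizer y))

end Cfsg.Agent.S1958
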