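import Cfsg.Statements.S1966
import Cfsg.Agent.Lib.ConjFam.Basic
import Cfsg.Agent.Lib.Core.Basic

set_option autoImplicit false
open Cfsg

namespace Cfsg.Agent.S1966

/-- Let p be a prime, G a finite group with Sylow p-subgroup S and 𝓕 a conjugation family for S in G. Then the members of 𝓕 containing O_p(G) still form a conjugation family for S in G. -/
theorem result {G : Type*} [Group G] [Finite G] {p : ℕ} [Fact p.Prime] (S : Sylow p G) (𝓕 : Set (Subgroup G)) (h : Cfsg.IsConjugationFamily 𝓕 (S : Subgroup G)) : Cfsg.IsConjugationFamily {T : Subgroup G | T ∈ 𝓕 ∧ Cfsg.pCore p G ≤ T} (S : Subgroup G) := by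
  classical
  have hP : Cfsg.pCore p G ≤ (S : Subgroup G) := Cfsg.Agent.Lib.Core.Basic.pCore_le_sylow S
  have hO : (Cfsg.pCore p G).Normal := inferInstance
  refine Cfsg.Agent.Lib.ConjFam.Basic.isConjugationFamily_of_reach (fun T hT => h.1 T hT.1) ?_
  intro A g hne hA hg
  have hA' : A ∪ (Cfsg.pCore p G : Set G) ⊆ (S : Subgroup G) := Set.union_subset hA hP
  have hg' : (fun a => g⁻¹ * a * g) '' (A ∪ (Cfsg.pCore p G : Set G)) ⊆ (S : Subgroup G) := by
    rintro _ ⟨a, ha | ha, rfl⟩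
    · exact hg ⟨a, ha, rfl⟩
    · apply hP
      have := hO.conj_mem a ha g⁻¹
      simpa using this
  have h1 := Cfsg.Agent.Lib.ConjFam.Basic.reach_of_isConjugationFamily h (A := A ∪ (Cfsg.pCore p G : Set G))
    (hne.mono Set.subset_union_left) hA' hg'
  have aux : ∀ (L : List (Subgroup G × G)) (B : Set G), (Cfsg.pCore p G : Set G) ⊆ B →
      Cfsg.Agent.Lib.PLocal.Alperin.ChainOK (Cfsg.Agent.Lib.ConjFam.Basic.St 𝓕)
        Cfsg.Agent.Lib.ConjFam.Basic.Dom B L →
      Cfsg.Agent.Lib.PLocal.Alperin.ChainOK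
        (Cfsg.Agent.Lib.ConjFam.Basic.St {T : Subgroup G | T ∈ 𝓕 ∧ Cfsg.pCore p G ≤ T})
        Cfsg.Agent.Lib.ConjFam.Basic.Dom B L := by
    intro L
    induction L with
    | nil => intro _ _ _; trivial
    | cons c L ih =>
      intro B hB hc
      obtain ⟨⟨hc1, hc2⟩, hc3, hc4⟩ := hc
      refine ⟨⟨⟨hc1, fun x hx => hc3 (hB hx)⟩, hc2⟩, hc3, ih _ ?_ hc4⟩
      intro x hx
      refine ⟨c.2 * x * c.2⁻¹, hB (hO.conj_mem x hx c.2), ?_⟩
      group
  obtain ⟨L, hL, hprod⟩ := h1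
  refine Cfsg.Agent.Lib.PLocal.Alperin.Reach.mono Set.subset_union_left
    ⟨L, aux L _ Set.subset_union_right hL, hprod⟩

end Cfsg.Agent.S1966
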