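import Cfsg.Statements.S1967
import Cfsg.Agent.Lib.ConjFam.WellPlaced

set_option autoImplicit false
open Cfsg

namespace Cfsg.Agent.S1967

/-- Let p be a prime, G a finite group with Sylow p-subgroup S and W a conjugacy functor for p on G. Then W controls strong fusion in G if and only if, whenever T ≤ S and g ∈ G satisfy gTg⁻¹ ≤ S, one can write g = n c with n ∈ N_G(W(S)) and c ∈ C_G(T). -/
theorem result {G : Type*} [Group G] [Finite G] {p : ℕ} [Fact p.Prime] (S : Sylow p G) (W : Subgroup G → Subgroup G) (hW : Cfsg.IsConjugacyFunctor p W) : Cfsg.ControlsStrongFusionIn p W ⊤ ↔ ∀ (T : Subgroup G) (g : G), T ≤ (S : Subgroup G) → T.map (MulAut.conj g).toMonoidHom ≤ (S : Subgroup G) → ∃ n ∈ Subgroup.normalizer ((W (S : Subgroup G) : Subgroup G) : Set G), ∃ c ∈ Subgroup.centralizer (T : Set G), g = n * c := by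
  classical
  open Cfsg.Agent.Lib.ConjFam.Basic Cfsg.Agent.Lib.ConjFam.WellPlaced in
  constructor
  · rintro ⟨T₀, -, hT₀p, hT₀i, hT₀⟩ T g hT hg
    -- `T₀` is a Sylow subgroup
    have hT₀i' : ¬ p ∣ T₀.index := by
      intro hd
      apply hT₀i
      rwa [Subgroup.relIndex_top_right]
    let S₀ : Sylow p G := hT₀p.toSylow hT₀i'
    obtain ⟨y, hy⟩ := exists_cj_sylow S₀ S
    have hy' : cj y (S : Subgroup G) = T₀ := hy
    have hSp : IsPGroup p (S : Subgroup G) := S.isPGroup'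
    have hmem : ∀ t ∈ (S : Subgroup G), y * t * y⁻¹ ∈ T₀ := fun t ht => by
      rw [← hy']; exact conj_mem_cj ht
    obtain ⟨x, hx, hxa⟩ := hT₀ ((fun t => y * t * y⁻¹) '' (T : Set G)) (y * g * y⁻¹) (Subgroup.mem_top _)
      (by rintro _ ⟨t, ht, rfl⟩; exact hmem t (hT ht))
      (by
        rintro _ ⟨_, ⟨t, ht, rfl⟩, rfl⟩
        have := hmem (g * t * g⁻¹) (hg ⟨t, ht, rfl⟩)
        have e : y * g * y⁻¹ * (y * t * y⁻¹) * (y * g * y⁻¹)⁻¹ = y * (g * t * g⁻¹) * y⁻¹ := by group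
        simp only [e]
        exact this)
    have hx' : x ∈ Subgroup.normalizer ((W T₀ : Subgroup G) : Set G) := hx.2
    refine ⟨y⁻¹ * x * y, ?_, (y⁻¹ * x * y)⁻¹ * g, ?_, by group⟩
    · rw [mem_normalizer_iff_cj] at hx' ⊢
      rw [← hy', functor_cj hW hSp, cj_cj] at hx'
      have : cj (y⁻¹ * x * y) (W (S : Subgroup G)) = cj y⁻¹ (cj (x * y) (W (S : Subgroup G))) := by
        rw [cj_cj]; congr 1; group
      rw [this, hx', cj_cj]
      simp [cj_one]
    · rw [Subgroup.mem_centralizer_iff]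
      intro t ht
      have := hxa (y * t * y⁻¹) ⟨t, ht, rfl⟩
      have h2 : x * (y * t * y⁻¹) * x⁻¹ = y * (g * t * g⁻¹) * y⁻¹ := by
        rw [this]; group
      have h3 : (y⁻¹ * x * y) * t * (y⁻¹ * x * y)⁻¹ = g * t * g⁻¹ := by
        have : (y⁻¹ * x * y) * t * (y⁻¹ * x * y)⁻¹ = y⁻¹ * (x * (y * t * y⁻¹) * x⁻¹) * y := by group
        rw [this, h2]; group
      calc t * ((y⁻¹ * x * y)⁻¹ * g) = (y⁻¹ * x * y)⁻¹ * ((y⁻¹ * x * y) * t * (y⁻¹ * x * y)⁻¹) * g := by group
        _ = (y⁻¹ * x * y)⁻¹ * g * t := by rw [h3]; group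
  · intro H
    refine ⟨S, le_top, S.isPGroup', ?_, ?_⟩
    · rw [Subgroup.relIndex_top_right]
      exact S.not_dvd_index
    · intro A h _ hA hh
      have hcl : Subgroup.closure A ≤ (S : Subgroup G) := (Subgroup.closure_le _).2 hA
      have hcl2 : (Subgroup.closure A).map (MulAut.conj h).toMonoidHom ≤ (S : Subgroup G) := by
        rw [Subgroup.map_le_iff_le_comap, Subgroup.closure_le]
        intro a ha
        exact hh ⟨a, ha, rfl⟩
      obtain ⟨n, hn, c, hc, he⟩ := H _ h hcl hcl2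
      refine ⟨n, ⟨Subgroup.mem_top _, hn⟩, ?_⟩
      intro a ha
      have hca : c * a = a * c := (Subgroup.mem_centralizer_iff.1 hc a (Subgroup.subset_closure ha)).symm
      subst he
      calc n * a * n⁻¹ = n * (c * a * c⁻¹) * n⁻¹ := by rw [hca]; group
        _ = n * c * a * (n * c)⁻¹ := by group

end Cfsg.Agent.S1967
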