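import Cfsg.Statements.S1968
import Cfsg.Agent.Lib.ConjFam.WellPlaced

set_option autoImplicit false
open Cfsg

namespace Cfsg.Agent.S1968

/-- Let p be a prime, G a finite group with Sylow p-subgroup S and W a conjugacy functor for p on G with Z(P) ≤ W(P) for every p-subgroup P. Let A be a subgroup of Z(S) normalized by N_G(W(S)) that is not weakly closed in S with respect to G. Then there is a subgroup T of S, well placed in S with respect to W, such that: A ≤ T; N_G(W(N_S(T))) normalizes A; N_S(T) is a Sylow p-subgroup of N_G(T); A ≤ Z(N_S(T)); and A is not weakly closed in N_S(T) with respect to N_G(T), that is, some N_G(T)-conjugate of A other than A lies in N_S(T). -/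
theorem result {G : Type*} [Group G] [Finite G] {p : ℕ} [Fact p.Prime] (S : Sylow p G) (W : Subgroup G → Subgroup G) (hW : Cfsg.IsConjugacyFunctor p W) (hWZ : ∀ P : Subgroup G, IsPGroup p ↥P → P ⊓ Subgroup.centralizer (P : Set G) ≤ W P) (A : Subgroup G) (hAZ : A ≤ (S : Subgroup G) ⊓ Subgroup.centralizer ((S : Subgroup G) : Set G)) (hAN : Subgroup.normalizer ((W (S : Subgroup G) : Subgroup G) : Set G) ≤ Subgroup.normalizer ((A : Subgroup G) : Set G)) (hnwc : ¬ Cfsg.IsWeaklyClosed A (S : Subgroup G)) : ∃ T : Subgroup G, Cfsg.IsWellPlaced p W (S : Subgroup G) T ∧ A ≤ T ∧ Subgroup.normalizer ((W ((S : Subgroup G) ⊓ Subgroup.normalizer ((T : Subgroup G) : Set G)) : Subgroup G) : Set G) ≤ Subgroup.normalizer ((A : Subgroup G) : Set G) ∧ ¬ p ∣ ((S : Subgroup G) ⊓ Subgroup.normalizer ((T : Subgroup G) : Set G)).relIndex (Subgroup.normalizer ((T : Subgroup G) : Set G)) ∧ A ≤ Subgroup.centralizer (((S : Subgroup G) ⊓ Subgroup.normalizer ((T : Subgroup G) : Set G) : Subgroup G) : Set G) ∧ ∃ g ∈ Subgroup.normalizer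 ((T : Subgroup G) : Set G), A.map (MulAut.conj g).toMonoidHom ≤ (S : Subgroup G) ⊓ Subgroup.normalizer ((T : Subgroup G) : Set G) ∧ A.map (MulAut.conj g).toMonoidHom ≠ A := by
  classical
  open Cfsg.Agent.Lib.ConjFam.Basic Cfsg.Agent.Lib.ConjFam.WellPlaced Cfsg.Agent.Lib.PLocal.Alperin in
  have hSp : IsPGroup p (S : Subgroup G) := S.isPGroup'
  -- The predicate.
  let Pn : Subgroup G → Prop := fun T => IsWellPlaced p W (S : Subgroup G) T ∧ A ≤ T ∧
    ∃ g ∈ Subgroup.normalizer ((T : Subgroup G) : Set G),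
      cj g A ≤ (S : Subgroup G) ⊓ Subgroup.normalizer ((T : Subgroup G) : Set G) ∧ cj g A ≠ A
  -- Existence.
  have hex : ∃ T, Pn T := by
    have hAS : A ≤ (S : Subgroup G) := hAZ.trans inf_le_left
    obtain ⟨g₀, hg₀, hg₀'⟩ : ∃ g₀ : G, cj g₀ A ≤ (S : Subgroup G) ∧ cj g₀ A ≠ A := by
      by_contra hcon
      push Not at hcon
      exact hnwc ⟨hAS, fun g hg => hcon g hg⟩
    have hfam := wellPlaced_isConjugationFamily hW S
    have hreach : FReach {T : Subgroup G | IsWellPlaced p W (S : Subgroup G) T} (A : Set G) g₀⁻¹ := by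
      refine reach_of_isConjugationFamily hfam ⟨1, A.one_mem⟩ hAS ?_
      rintro _ ⟨a, ha, rfl⟩
      have := hg₀ (conj_mem_cj (g := g₀) ha)
      show g₀⁻¹⁻¹ * a * g₀⁻¹ ∈ (S : Subgroup G)
      rwa [inv_inv]
    obtain ⟨L, hL, hprod⟩ := hreach
    -- extract
    have hext : ∀ (L : List (Subgroup G × G)), ChainOK (St {T : Subgroup G | IsWellPlaced p W (S : Subgroup G) T}) Dom (A : Set G) L →
        conjSet (L.map Prod.snd).prod (A : Set G) ≠ (A : Set G) →
        ∃ T x, IsWellPlaced p W (S : Subgroup G) T ∧ x ∈ Subgroup.normalizer ((T : Subgroup G) : Set G) ∧ (A : Set G) ⊆ T ∧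
          conjSet x (A : Set G) ≠ (A : Set G) := by
      intro L
      induction L with
      | nil =>
        intro _ h
        simp at h
      | cons c L ih =>
        intro hc hne
        obtain ⟨⟨hc1, hc2⟩, hc3, hc4⟩ := hc
        by_cases he : conjSet c.2 (A : Set G) = (A : Set G)
        · rw [he] at hc4
          refine ih hc4 ?_
          simp only [List.map_cons, List.prod_cons] at hne
          rwa [conjSet_mul, he] at hne
        · exact ⟨c.1, c.2, hc1, hc2, hc3, he⟩
    have hne : conjSet (L.map Prod.snd).prod (A : Set G) ≠ (A : Set G) := by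
      rw [hprod, coe_cj', inv_inv]
      intro h
      exact hg₀' (SetLike.coe_injective h)
    obtain ⟨T, x, h1, h2, h3, h4⟩ := hext L hL hne
    refine ⟨T, h1, h3, x⁻¹, Subgroup.inv_mem _ h2, ?_, ?_⟩
    · have h5 : cj x⁻¹ A ≤ T := by
        have := cj_mono x⁻¹ (show A ≤ T from h3)
        rwa [mem_normalizer_iff_cj.1 (Subgroup.inv_mem _ h2)] at this
      exact h5.trans (le_inf h1.1 Subgroup.le_normalizer)
    · intro h
      apply h4
      rw [coe_cj', h]
  -- Induction.
  have hind : ∀ (m : ℕ) (T : Subgroup G), Pn T →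
      Nat.card (S : Subgroup G) - Nat.card ((S : Subgroup G) ⊓ Subgroup.normalizer ((T : Subgroup G) : Set G) : Subgroup G) = m →
      ∃ T : Subgroup G, Pn T ∧ Subgroup.normalizer ((W ((S : Subgroup G) ⊓ Subgroup.normalizer ((T : Subgroup G) : Set G)) : Subgroup G) : Set G) ≤ Subgroup.normalizer ((A : Subgroup G) : Set G) := by
    intro m
    induction m using Nat.strong_induction_on with
    | _ m ih =>
      intro T hT hm
      by_cases hcase : Subgroup.normalizer ((W ((S : Subgroup G) ⊓ Subgroup.normalizer ((T : Subgroup G) : Set G)) : Subgroup G) : Set G) ≤ Subgroup.normalizer ((A : Subgroup G) : Set G)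
      · exact ⟨T, hT, hcase⟩
      · obtain ⟨hT1, hT2, -⟩ := id hT
        have hRS : (S : Subgroup G) ⊓ Subgroup.normalizer ((T : Subgroup G) : Set G) ≤ S := inf_le_left
        have hRp : IsPGroup p ((S : Subgroup G) ⊓ Subgroup.normalizer ((T : Subgroup G) : Set G) : Subgroup G) := hSp.to_le hRS
        have hlt : (S : Subgroup G) ⊓ Subgroup.normalizer ((T : Subgroup G) : Set G) < S := by
          refine lt_of_le_of_ne hRS ?_
          intro he
          rw [he] at hcase
          exact hcase hAN
        obtain ⟨y, hy1, hy2⟩ := SetLike.not_le_iff_exists.1 hcase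
        have hTW : W ((S : Subgroup G) ⊓ Subgroup.normalizer ((T : Subgroup G) : Set G)) ≤
            (S : Subgroup G) ⊓ Subgroup.normalizer ((T : Subgroup G) : Set G) := functor_le hW hRp
        have hAT' : A ≤ W ((S : Subgroup G) ⊓ Subgroup.normalizer ((T : Subgroup G) : Set G)) := by
          refine le_trans ?_ (hWZ _ hRp)
          refine le_inf (hT2.trans (le_inf hT1.1 Subgroup.le_normalizer)) ?_
          refine (hAZ.trans inf_le_right).trans ?_
          exact Subgroup.centralizer_le (fun x hx => hRS hx)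
        have hP' : Pn (W ((S : Subgroup G) ⊓ Subgroup.normalizer ((T : Subgroup G) : Set G))) := by
          refine ⟨⟨hTW.trans hRS, fun i => ?_⟩, hAT', y, hy1, ?_, ?_⟩
          · rw [← functorTower_succ]
            exact hT1.2 (i + 1)
          · have h5 := cj_mono y hAT'
            rw [mem_normalizer_iff_cj.1 hy1] at h5
            exact h5.trans (le_inf (hTW.trans hRS) Subgroup.le_normalizer)
          · intro h
            exact hy2 (mem_normalizer_iff_cj.2 h)
        have hcard : Nat.card ((S : Subgroup G) ⊓ Subgroup.normalizer ((T : Subgroup G) : Set G) : Subgroup G) <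
            Nat.card ((S : Subgroup G) ⊓ Subgroup.normalizer ((W ((S : Subgroup G) ⊓ Subgroup.normalizer ((T : Subgroup G) : Set G)) : Subgroup G) : Set G) : Subgroup G) :=
          card_lt_of_lt ((lt_inf_normalizer (p := p) hSp hlt).trans_le
            (inf_le_inf_left _ (inf_normalizer_le_normalizer_functor hW hRp)))
        have hcard2 := Subgroup.card_le_of_le (inf_le_left : (S : Subgroup G) ⊓ Subgroup.normalizer ((W ((S : Subgroup G) ⊓ Subgroup.normalizer ((T : Subgroup G) : Set G)) : Subgroup G) : Set G) ≤ S)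
        exact ih _ (by omega) _ hP' rfl
  obtain ⟨T₀, hT₀⟩ := hex
  obtain ⟨T, ⟨h1, h2, g, hg1, hg2, hg3⟩, h3⟩ := hind _ T₀ hT₀ rfl
  refine ⟨T, h1, h2, h3, h1.2 0, ?_, g, hg1, hg2, hg3⟩
  refine (hAZ.trans inf_le_right).trans ?_
  exact Subgroup.centralizer_le (fun x hx => Subgroup.mem_inf.1 hx |>.1)

end Cfsg.Agent.S1968
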