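import Cfsg.Statements.S1969
import Cfsg.Agent.Lib.StrongSec.Main

set_option autoImplicit false
universe u
open Cfsg

namespace Cfsg.Agent.S1969

/-- Let p be a prime, G a finite group and W an isomorphism-invariant p-group functor (W assigns to every group Q a subgroup W(Q), nontrivial whenever Q is a nontrivial finite p-group, and every isomorphism from a finite p-group Q onto a group R carries W(Q) onto W(R)). Suppose that W(S*) is normal in G* whenever G* = K/R is a section of G with C_{G*}(O_p(G*)) ≤ O_p(G*) and S* is a Sylow p-subgroup of G*. Then W controls strong fusion in every section of G: for every section K/R and every Sylow p-subgroup T of K/R, the subgroup W(T) controls strong fusion in K/R. -/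
theorem result {G : Type u} [Group G] [Finite G] {p : ℕ} [Fact p.Prime] (W : ∀ (Q : Type u) [Group Q], Subgroup Q) (hW : Cfsg.IsCharPFunctor.{u} p W) (hloc : ∀ (K R : Subgroup G) [hR : (R.subgroupOf K).Normal], Subgroup.centralizer ((Cfsg.pCore p (↥K ⧸ R.subgroupOf K) : Subgroup (↥K ⧸ R.subgroupOf K)) : Set (↥K ⧸ R.subgroupOf K)) ≤ Cfsg.pCore p (↥K ⧸ R.subgroupOf K) → ∀ T : Sylow p (↥K ⧸ R.subgroupOf K), (Cfsg.inducedFunctor (G := (↥K ⧸ R.subgroupOf K)) W ((T : Subgroup (↥K ⧸ R.subgroupOf K)))).Normal) : ∀ (K R : Subgroup G) [hR : (R.subgroupOf K).Normal], ∀ T : Sylow p (↥K ⧸ R.subgroupOf K), Cfsg.ControlsStrongFusion p (Cfsg.inducedFunctor (G := (↥K ⧸ R.subgroupOf K)) W ((T : Subgroup (↥K ⧸ R.subgroupOf K)))) := by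
  have h𝓦 : ∀ V ∈ ({W} : Set (∀ (Q : Type u) [Group Q], Subgroup Q)), Cfsg.IsCharPFunctor.{u} p V := by
    rintro _ rfl; exact hW
  have hall := Cfsg.Agent.Lib.StrongSec.Main.sctl_sections_of_constrained (G := G) (p := p)
    (𝓦 := {W}) h𝓦 (fun K R hR hc S A g hA hg => by
      refine Cfsg.Agent.Lib.ConjFam.StrongCtl.CC.single ⟨W, rfl, ?_⟩ hA hg
      have hn := hloc K R hc S
      rw [Subgroup.normalizer_eq_top_iff.2 hn]
      exact Subgroup.mem_top _)
  intro K R hR T
  refine ⟨T, ?_, ?_⟩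
  · exact Cfsg.Agent.Lib.TransferCtl.Basic.inducedFunctor_le _
  · intro A hA
    refine ⟨hA, ?_⟩
    intro g hg
    have h1 := hall K R T A g hA hg
    obtain ⟨x, hx, hxe⟩ := Cfsg.Agent.Lib.StrongSec.Main.exists_of_cc
      (Subgroup.normalizer ((Cfsg.inducedFunctor (G := (↥K ⧸ R.subgroupOf K)) W ((T : Subgroup (↥K ⧸ R.subgroupOf K))) : Subgroup _) : Set (↥K ⧸ R.subgroupOf K)))
      (Q := Cfsg.Agent.Lib.StrongSec.Basic.Stp {W} (T : Subgroup (↥K ⧸ R.subgroupOf K)))
      (by rintro y ⟨V, rfl, hy⟩; exact hy) h1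
    exact ⟨x, hx, fun a ha => (hxe a ha).symm⟩

end Cfsg.Agent.S1969
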