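import Cfsg.Statements.S1972
import Cfsg.Agent.Lib.TransferCtl.Main
-- import your own Cfsg.Agent.* helpers here

set_option autoImplicit false
universe u
open Cfsg

namespace Cfsg.Agent.S1972

/-- Let p be a prime, G a finite group and W an isomorphism-invariant p-group functor (W assigns to every group Q a subgroup W(Q), nontrivial whenever Q is a nontrivial finite p-group, and every isomorphism from a finite p-group Q onto a group R carries W(Q) onto W(R)). Suppose that whenever G* = K/R is a section of G with C_{G*}(O_p(G*)) ≤ O_p(G*) and S* is a Sylow p-subgroup of G* with W(S*) not normal in G*, there is an element g of S* outside O_p(G*) such that [X, g, …, g] ≤ Y with p − 1 entries g, for every chief factor X/Y of G* with X ≤ O_p(G*). Then W controls transfer in every section of G. -/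
theorem result {G : Type u} [Group G] [Finite G] {p : ℕ} [Fact p.Prime] (W : ∀ (Q : Type u) [Group Q], Subgroup Q) (hW : Cfsg.IsCharPFunctor.{u} p W) (hloc : ∀ (K R : Subgroup G) [hR : (R.subgroupOf K).Normal], Subgroup.centralizer ((Cfsg.pCore p (↥K ⧸ R.subgroupOf K) : Subgroup (↥K ⧸ R.subgroupOf K)) : Set (↥K ⧸ R.subgroupOf K)) ≤ Cfsg.pCore p (↥K ⧸ R.subgroupOf K) → ∀ T : Sylow p (↥K ⧸ R.subgroupOf K), ¬ (Cfsg.inducedFunctor (G := (↥K ⧸ R.subgroupOf K)) W ((T : Subgroup (↥K ⧸ R.subgroupOf K)))).Normal → ∃ g : (↥K ⧸ R.subgroupOf K), g ∈ (T : Subgroup (↥K ⧸ R.subgroupOf K)) ∧ g ∉ Cfsg.pCore p (↥K ⧸ R.subgroupOf K) ∧ ∀ U V : Subgroup (↥K ⧸ R.subgroupOf K), Cfsg.IsChiefFactor U V → U ≤ Cfsg.pCore p (↥K ⧸ R.subgroupOf K) → Cfsg.iterCommutator U (Subgroup.zpowers g) (p - 1) ≤ V) : ∀ (K R : Subgroup G) [hR : (R.subgroupOf K).Normal], Cfsg.ControlsTransferIn p (Cfsg.inducedFunctor (G := (↥K ⧸ R.subgroupOf K)) W) ⊤ := by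
  have hW' : ∀ W' ∈ ({W} : Set (∀ (Q : Type u) [Group Q], Subgroup Q)), Cfsg.IsCharPFunctor.{u} p W' := by
    rintro _ rfl
    exact hW
  intro K R _
  rw [Cfsg.Agent.Lib.TransferCtl.Main.control_iff_ctl hW]
  revert K R
  by_contra hnot
  obtain ⟨K, R, hR, hf⟩ := Cfsg.Agent.Lib.TransferCtl.Section.exists_minFail hW' hnot
  obtain ⟨S⟩ : Nonempty (Sylow p (↥K ⧸ R.subgroupOf K)) := inferInstance
  have hSO := Cfsg.Agent.Lib.TransferCtl.MinFail.ne_pCore hW' ⟨W, rfl⟩ hf S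
  have hc := Cfsg.Agent.Lib.TransferCtl.MinFail.centralizer_le hW' hf S
  by_cases hn : (Cfsg.inducedFunctor (G := (↥K ⧸ R.subgroupOf K)) W ((S : Subgroup (↥K ⧸ R.subgroupOf K)))).Normal
  · apply Cfsg.Agent.Lib.TransferCtl.MinFail.not_le_Phi hW' hf S
    refine le_trans ?_ (Cfsg.Agent.Lib.TransferCtl.Basic.inf_le_Phi (𝓦 := {W}) rfl _)
    rw [Subgroup.normalizer_eq_top_iff.2 hn]
    exact le_rfl
  · obtain ⟨g, hgS, hgO, hg⟩ := hloc K R hc S hn
    exact Cfsg.Agent.Lib.TransferCtl.Main.no_engel hW' hf S hSO hgS hgO hg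

end Cfsg.Agent.S1972
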