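import Cfsg.Statements.S1978
import Cfsg.Agent.Lib.KSeq.Basic

set_option autoImplicit false
open Cfsg

namespace Cfsg.Agent.S1978

/-- Let P be a finite p-group. Each of the two K-infinity subgroups of P contains its own centralizer in P, which in turn contains Z(P); in particular both are nontrivial when P is. -/
theorem result {P : Type*} [Group P] [Finite P] {p : ℕ} [Fact p.Prime] (hP : IsPGroup p P) : Subgroup.centralizer (Cfsg.kInfLower P : Set P) ≤ Cfsg.kInfLower P ∧ Subgroup.center P ≤ Subgroup.centralizer (Cfsg.kInfLower P : Set P) ∧ Subgroup.centralizer (Cfsg.kInfUpper P : Set P) ≤ Cfsg.kInfUpper P ∧ Subgroup.center P ≤ Subgroup.centralizer (Cfsg.kInfUpper P : Set P) := by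
  open Cfsg.Agent.Lib.KSeq.Basic in
  have hcen : ∀ K : Subgroup P, Subgroup.center P ≤ Subgroup.centralizer (K : Set P) := by
    intro K z hz
    rw [Subgroup.mem_centralizer_iff]
    intro k _
    exact ((Subgroup.mem_center_iff.1 hz) k)
  obtain ⟨n, hn⟩ := exists_stable (P := P)
  refine ⟨?_, hcen _, ?_, hcen _⟩
  · obtain ⟨C, hC, -, hmax⟩ := exists_max_above (kLowerStarFamily (kSeqOdd P 0)) ⊥ (bot_mem_lower _)
    have h1 := centralizer_le_of_lower_max hP hC hmax
    have h2 : C ≤ kInfLower P := (le_kSeqEven hC).trans (le_kInfLower 0)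
    exact (Subgroup.centralizer_le h2).trans (h1.trans h2)
  · obtain ⟨C, hC, -, hmax⟩ := exists_max_above (kUpperStarFamily (kSeqEven P n)) ⊥ (bot_mem_upper _)
    have h1 := centralizer_le_of_upper_max hP hC hmax
    have h2 : C ≤ kInfUpper P := by
      rw [← (hn (n + 1) (by omega)).2]
      exact le_kSeqOdd_succ hC
    exact (Subgroup.centralizer_le h2).trans (h1.trans h2)

end Cfsg.Agent.S1978
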