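import Cfsg.Statements.S1981
import Cfsg.Agent.Lib.KSeq.Basic

set_option autoImplicit false
open Cfsg

namespace Cfsg.Agent.S1981

/-- Let P be a finite p-group generated by its abelian normal subgroups. Then both K-infinity subgroups of P equal P. -/
theorem result {P : Type*} [Group P] [Finite P] {p : ℕ} [Fact p.Prime] (hP : IsPGroup p P) (hgen : ⨆ A ∈ {A : Subgroup P | A.Normal ∧ IsMulCommutative ↥A}, A = ⊤) : Cfsg.kInfLower P = ⊤ ∧ Cfsg.kInfUpper P = ⊤ := by
  open Cfsg.Agent.Lib.KSeq.Basic in
  have hle : ∀ A : Subgroup P, A.Normal → IsMulCommutative ↥A → A ≤ kInfLower P ∧ A ≤ kInfUpper P := by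
    intro A hAn hA
    haveI := hAn
    refine ⟨(le_kSeqEven (abelian_normal_mem_lower hA _)).trans (le_kInfLower 0), ?_⟩
    refine le_iInf fun n => ?_
    cases n with
    | zero => exact le_top
    | succ n => exact le_kSeqOdd_succ (abelian_normal_mem_upper hA _)
  constructor
  · rw [eq_top_iff, ← hgen]
    exact iSup₂_le fun A hA => (hle A hA.1 hA.2).1
  · rw [eq_top_iff, ← hgen]
    exact iSup₂_le fun A hA => (hle A hA.1 hA.2).2

end Cfsg.Agent.S1981
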