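import Cfsg.Statements.S2007
import Cfsg.Agent.Lib.ConjFam.WellPlaced
import Cfsg.Agent.Lib.Transfer.Basic

set_option autoImplicit false
open Cfsg

namespace Cfsg.Agent.S2007

/-- Let p be a prime, G a finite group with Sylow p-subgroup S, and T a normal subgroup of S containing C_S(T). If N_G(T)/C_G(T) is a p-group (every element of N_G(T) of order prime to p centralizes T), then N_G(T) has a normal p-complement. -/
theorem result {G : Type*} [Group G] [Finite G] {p : ℕ} [Fact p.Prime] (S : Sylow p G) (T : Subgroup G) (hTS : T ≤ (S : Subgroup G)) (hTn : (S : Subgroup G) ≤ Subgroup.normalizer ((T : Subgroup G) : Set G)) (hC : (S : Subgroup G) ⊓ Subgroup.centralizer ((T : Subgroup G) : Set G) ≤ T) (hN : ∀ g ∈ Subgroup.normalizer ((T : Subgroup G) : Set G), (orderOf g).Coprime p → g ∈ Subgroup.centralizer ((T : Subgroup G) : Set G)) : Cfsg.HasNormalPComplement p ↥(Subgroup.normalizer ((T : Subgroup G) : Set G)) := by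
  classical
  open Cfsg.Agent.Lib.ConjFam.Basic Cfsg.Agent.Lib.ConjFam.WellPlaced Cfsg.Agent.Lib.Transfer.Basic in
  have hSp : IsPGroup p (S : Subgroup G) := S.isPGroup'
  -- `C` is normal in `N`.
  have hCN : Subgroup.centralizer ((T : Subgroup G) : Set G) ≤ Subgroup.normalizer ((T : Subgroup G) : Set G) :=
    Subgroup.centralizer_le_normalizer _
  have hS_idx : ¬ p ∣ (S : Subgroup G).relIndex (Subgroup.normalizer ((T : Subgroup G) : Set G)) := by
    have := not_dvd_relIndex_of_sylow_le S _ hTn
    rwa [inf_eq_left.2 hTn] at this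
  let C' : Subgroup ↥(Subgroup.normalizer ((T : Subgroup G) : Set G)) :=
    (Subgroup.centralizer ((T : Subgroup G) : Set G)).subgroupOf _
  have hC'n : C'.Normal := by
    constructor
    intro x hx g
    rw [Subgroup.mem_subgroupOf] at hx ⊢
    rw [Subgroup.mem_centralizer_iff] at hx ⊢
    intro t ht
    have ht' : (g : G)⁻¹ * t * (g : G) ∈ T := by
      have hg := (g⁻¹ : ↥(Subgroup.normalizer ((T : Subgroup G) : Set G))).2
      rw [Subgroup.mem_normalizer_iff] at hg
      have := (hg t).1 ht
      simpa using this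
    have h1 := hx _ ht'
    simp only [Subgroup.coe_mul, InvMemClass.coe_inv]
    calc t * ((g : G) * (x : G) * (g : G)⁻¹)
        = (g : G) * (((g : G)⁻¹ * t * (g : G)) * (x : G)) * (g : G)⁻¹ := by group
      _ = (g : G) * ((x : G) * ((g : G)⁻¹ * t * (g : G))) * (g : G)⁻¹ := by rw [h1]
      _ = _ := by group
  haveI := hC'n
  -- `p`-subgroups of `C` lie in `T`.
  have hpsub : ∀ Q : Subgroup G, IsPGroup p Q → Q ≤ Subgroup.centralizer ((T : Subgroup G) : Set G) → Q ≤ T := by
    intro Q hQ hQC
    obtain ⟨x, hx, hxQ⟩ := exists_conj_le_of_sylowIn _ (S : Subgroup G) Q hTn hSp hS_idx (hQC.trans hCN) hQ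
    have hxT : cj x T = T := mem_normalizer_iff_cj.1 hx
    intro q hq
    have h1 : x * q * x⁻¹ ∈ (S : Subgroup G) := hxQ ⟨q, hq, rfl⟩
    have h2 : x * q * x⁻¹ ∈ Subgroup.centralizer ((T : Subgroup G) : Set G) := by
      rw [Subgroup.mem_centralizer_iff]
      intro t ht
      have ht' : x⁻¹ * t * x ∈ T := by
        rw [← hxT] at ht
        simpa using mem_cj.1 ht
      have h3 := Subgroup.mem_centralizer_iff.1 (hQC hq) _ ht'
      calc t * (x * q * x⁻¹) = x * ((x⁻¹ * t * x) * q) * x⁻¹ := by group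
        _ = x * (q * (x⁻¹ * t * x)) * x⁻¹ := by rw [h3]
        _ = _ := by group
    have h3 := hC (Subgroup.mem_inf.2 ⟨h1, h2⟩)
    have h4 : q = x⁻¹ * (x * q * x⁻¹) * x := by group
    rw [h4]
    rw [← hxT] at h3
    exact mem_cj.1 h3
  -- `C'` has a normal `p`-complement by Burnside.
  have h1 : HasNormalPComplement p ↥C' := by
    obtain ⟨P⟩ : Nonempty (Sylow p ↥C') := inferInstance
    have hcen : ∀ (x : ↥C') (y : ↥C'), y ∈ (P : Subgroup ↥C') → y * x = x * y := by
      intro x y hy
      let Q : Subgroup G := ((P : Subgroup ↥C').map C'.subtype).map (Subgroup.subtype _)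
      have hQp : IsPGroup p Q := (P.isPGroup'.map _).map _
      have hQC : Q ≤ Subgroup.centralizer ((T : Subgroup G) : Set G) := by
        rintro _ ⟨_, ⟨z, _, rfl⟩, rfl⟩
        have := z.2
        rw [Subgroup.mem_subgroupOf] at this
        exact this
      have hyT : (((y : ↥C') : ↥(Subgroup.normalizer ((T : Subgroup G) : Set G))) : G) ∈ T :=
        hpsub Q hQp hQC ⟨_, ⟨y, hy, rfl⟩, rfl⟩
      have hxC : (((x : ↥C') : ↥(Subgroup.normalizer ((T : Subgroup G) : Set G))) : G) ∈ Subgroup.centralizer ((T : Subgroup G) : Set G) := by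
        have := x.2
        rw [Subgroup.mem_subgroupOf] at this
        exact this
      have := Subgroup.mem_centralizer_iff.1 hxC _ hyT
      apply Subtype.ext
      apply Subtype.ext
      exact this
    have hP' : Subgroup.normalizer ((P : Subgroup ↥C') : Set ↥C') ≤ Subgroup.centralizer ((P : Subgroup ↥C') : Set ↥C') := by
      intro x _
      rw [Subgroup.mem_centralizer_iff]
      intro y hy
      exact hcen x y hy
    exact ⟨P, _, inferInstance, MonoidHom.ker_transferSylow_isComplement' P hP'⟩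
  -- `N/C'` is a `p`-group.
  have h2 : IsPGroup p (↥(Subgroup.normalizer ((T : Subgroup G) : Set G)) ⧸ C') := by
    intro q
    obtain ⟨g, rfl⟩ := QuotientGroup.mk'_surjective _ q
    obtain ⟨a, b, rfl, -, -, -, ⟨k, hk⟩, hb⟩ := exists_pPart_decomp (p := p) g
    refine ⟨k, ?_⟩
    have hbC : b ∈ C' := by
      rw [Subgroup.mem_subgroupOf]
      refine hN _ b.2 ?_
      rwa [Subgroup.orderOf_coe]
    have hb' : (QuotientGroup.mk' C') b = 1 := (QuotientGroup.eq_one_iff b).mpr hbC
    rw [map_mul, hb', mul_one, ← map_pow, hk, map_one]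
  exact hasNormalPComplement_of_normal_of_isPGroup_quotient C' h1 h2

end Cfsg.Agent.S2007
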