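import Cfsg.Statements.S2008

set_option autoImplicit false
open Cfsg

namespace Cfsg.Agent.S2008

/-- conjugation by an involution with trivial fixed points inverts an abelian normal subgroup -/
lemma conj_eq_inv_of_isConj {H : Type*} [Group H] (z : H) (hz : z * z = 1)
    (N : Subgroup H) [hn : N.Normal] (hab : IsMulCommutative ↥N)
    (hN : N ⊓ Subgroup.centralizer ({z} : Set H) = ⊥) (w : H) (hw : IsConj z w)
    (x : H) (hx : x ∈ N) : w * x * w⁻¹ = x⁻¹ := by
  obtain ⟨c, rfl⟩ := isConj_iff.1 hw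
  have hxc : (c⁻¹ * x * c) ∈ N := by
    have := hn.conj_mem x hx c⁻¹
    simpa using this
  have hcz : ((c⁻¹ * x * c) * (z * (c⁻¹ * x * c) * z⁻¹)) ∈ N ⊓ Subgroup.centralizer ({z} : Set H) := by
    have hzm : z * (c⁻¹ * x * c) * z⁻¹ ∈ N := hn.conj_mem _ hxc z
    refine Subgroup.mem_inf.2 ⟨N.mul_mem hxc hzm, ?_⟩
    rw [Subgroup.mem_centralizer_iff]
    intro g hg
    rw [Set.mem_singleton_iff] at hg
    subst hg
    have hcomm : (c⁻¹ * x * c) * (g * (c⁻¹ * x * c) * g⁻¹) = (g * (c⁻¹ * x * c) * g⁻¹) * (c⁻¹ * x * c) := by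
      have := hab.is_comm.comm (⟨_, hxc⟩ : N) (⟨_, hzm⟩ : N)
      exact congrArg Subtype.val this
    have hzi : g⁻¹ = g := inv_eq_of_mul_eq_one_left hz
    calc g * ((c⁻¹ * x * c) * (g * (c⁻¹ * x * c) * g⁻¹))
        = g * ((g * (c⁻¹ * x * c) * g⁻¹) * (c⁻¹ * x * c)) := by rw [hcomm]
      _ = (g * g) * (c⁻¹ * x * c) * g⁻¹ * (c⁻¹ * x * c) := by group
      _ = (c⁻¹ * x * c) * (g⁻¹ * (c⁻¹ * x * c)) := by rw [hz]; group
      _ = (c⁻¹ * x * c) * (g * (c⁻¹ * x * c)) := by rw [hzi]
      _ = (c⁻¹ * x * c) * (g * (c⁻¹ * x * c) * g⁻¹) * g := by group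
  rw [hN, Subgroup.mem_bot] at hcz
  have h2 : z * (c⁻¹ * x * c) * z⁻¹ = (c⁻¹ * x * c)⁻¹ := (eq_inv_of_mul_eq_one_right hcz)
  calc c * z * c⁻¹ * x * (c * z * c⁻¹)⁻¹ = c * (z * (c⁻¹ * x * c) * z⁻¹) * c⁻¹ := by group
    _ = x⁻¹ := by rw [h2]; group

/-- Let H be a finite group and z an involution such that every proper normal subgroup of H meets the centralizer of z trivially, and suppose z lies in a Klein four-subgroup E of H all three of whose involutions are conjugate to z in H. Then H has no non-trivial abelian normal subgroup. -/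
theorem result {H : Type*} [Group H] [Finite H] (z : H) (hz : orderOf z = 2) (hN : ∀ N : Subgroup H, N.Normal → N ≠ ⊤ → N ⊓ Subgroup.centralizer ({z} : Set H) = ⊥) (E : Subgroup H) (hE : IsKleinFour ↥E) (hzE : z ∈ E) (hc : ∀ e ∈ E, e ≠ 1 → IsConj z e) (N : Subgroup H) [N.Normal] (hab : IsMulCommutative ↥N) : N = ⊥ := by
  classical
  have hzz : z * z = 1 := by
    have := pow_orderOf_eq_one z
    rwa [hz, pow_two] at this
  have hz1 : z ≠ 1 := by
    rintro rfl
    simp at hz
  -- choose a second involution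
  have hcardE : Nat.card E = 4 := hE.card_four
  obtain ⟨e, heE, he1, hez⟩ : ∃ e ∈ E, e ≠ 1 ∧ e ≠ z := by
    by_contra hcon
    push Not at hcon
    have hsub : (E : Set H) ⊆ {1, z} := by
      intro e he
      by_cases h1 : e = 1
      · simp [h1]
      · simp [hcon e he h1]
    have h3 : Nat.card E ≤ 2 := by
      have h4 := Set.ncard_le_ncard hsub (Set.toFinite _)
      have h5 : ({1, z} : Set H).ncard ≤ 2 := (Set.ncard_insert_le 1 {z}).trans (by simp)
      have h6 : Nat.card E = (E : Set H).ncard := (Nat.card_coe_set_eq _)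
      omega
    omega
  have hee : e * e = 1 := by
    have : (⟨e, heE⟩ : E) * ⟨e, heE⟩ = 1 := by
      have h1 := hE.exponent_two
      have h2 := Monoid.pow_exponent_eq_one (⟨e, heE⟩ : E)
      rwa [h1, pow_two] at h2
    exact congrArg Subtype.val this
  have hzeE : z * e ∈ E := E.mul_mem hzE heE
  have hze1 : z * e ≠ 1 := by
    intro h
    apply hez
    have h2 : e = z⁻¹ := eq_inv_of_mul_eq_one_right h
    rw [h2]
    exact inv_eq_of_mul_eq_one_left hzz
  by_cases hNt : N = ⊤
  · -- impossible: the group is abelian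
    exfalso
    have hcomm : ∀ a b : H, a * b = b * a := by
      intro a b
      have := hab.is_comm.comm (⟨a, hNt ▸ Subgroup.mem_top a⟩ : N) (⟨b, hNt ▸ Subgroup.mem_top b⟩ : N)
      exact congrArg Subtype.val this
    obtain ⟨c, hc'⟩ := isConj_iff.1 (hc e heE he1)
    apply hez
    rw [← hc', hcomm c z]
    group
  · have hN' := hN N inferInstance hNt
    rw [eq_bot_iff]
    intro x hx
    have h1 := conj_eq_inv_of_isConj z hzz N hab hN' z (IsConj.refl z) x hx
    have h2 := conj_eq_inv_of_isConj z hzz N hab hN' e (hc e heE he1) x hx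
    have h3 := conj_eq_inv_of_isConj z hzz N hab hN' (z * e) (hc _ hzeE hze1) x hx
    have h4 : (z * e) * x * (z * e)⁻¹ = x := by
      have : (z * e) * x * (z * e)⁻¹ = z * (e * x * e⁻¹) * z⁻¹ := by group
      rw [this, h2]
      have h5 : z * x⁻¹ * z⁻¹ = (z * x * z⁻¹)⁻¹ := by group
      rw [h5, h1, inv_inv]
    have h5 : x = x⁻¹ := by rw [← h3]; exact h4.symm
    -- `x` commutes with `z`
    have h6 : x ∈ N ⊓ Subgroup.centralizer ({z} : Set H) := by
      refine Subgroup.mem_inf.2 ⟨hx, ?_⟩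
      rw [Subgroup.mem_centralizer_iff]
      intro g hg
      rw [Set.mem_singleton_iff] at hg
      subst hg
      have h7 : g * x * g⁻¹ = x := by rw [h1]; exact h5.symm
      calc g * x = g * x * g⁻¹ * g := by group
        _ = x * g := by rw [h7]
    rw [hN'] at h6
    exact h6

end Cfsg.Agent.S2008
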