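import Cfsg.Statements.S2009
import Cfsg.Agent.S2008

set_option autoImplicit false
open Cfsg

namespace Cfsg.Agent.S2009

/-- Let H be a finite group and z an involution such that every proper normal subgroup of H meets the centralizer of z trivially, and suppose z lies in a Klein four-subgroup E of H all three of whose involutions are conjugate to z in H. Then H is simple. -/
theorem result {H : Type*} [Group H] [Finite H] (z : H) (hz : orderOf z = 2) (hN : ∀ N : Subgroup H, N.Normal → N ≠ ⊤ → N ⊓ Subgroup.centralizer ({z} : Set H) = ⊥) (E : Subgroup H) (hE : IsKleinFour ↥E) (hzE : z ∈ E) (hc : ∀ e ∈ E, e ≠ 1 → IsConj z e) : IsSimpleGroup H := by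
  classical
  have hzz : z * z = 1 := by
    have := pow_orderOf_eq_one z
    rwa [hz, pow_two] at this
  have hz1 : z ≠ 1 := by
    rintro rfl
    simp at hz
  haveI : Nontrivial H := ⟨⟨z, 1, hz1⟩⟩
  refine ⟨fun N hNn => ?_⟩
  by_cases hNt : N = ⊤
  · exact Or.inr hNt
  · left
    have hN' := hN N hNn hNt
    -- `z` acts on `N` without fixed points; so `N` is abelian.
    let φ : N →* N := (MulAut.conjNormal z).toMonoidHom
    have hφ : MonoidHom.FixedPointFree φ := by
      intro x hx
      have hx' : z * (x : H) * z⁻¹ = x := by
        have := congrArg Subtype.val hx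
        simpa [φ] using this
      have hmem : (x : H) ∈ N ⊓ Subgroup.centralizer ({z} : Set H) := by
        refine Subgroup.mem_inf.2 ⟨x.2, ?_⟩
        rw [Subgroup.mem_centralizer_iff]
        intro g hg
        rw [Set.mem_singleton_iff] at hg
        subst hg
        calc g * (x : H) = g * x * g⁻¹ * g := by group
          _ = x * g := by rw [hx']
      rw [hN', Subgroup.mem_bot] at hmem
      exact Subtype.ext hmem
    have hinv : Function.Involutive φ := by
      intro x
      apply Subtype.ext
      have hzi : z⁻¹ = z := inv_eq_of_mul_eq_one_left hzz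
      simp only [φ, MulEquiv.coe_toMonoidHom, MulAut.conjNormal_apply]
      calc z * (z * (x : H) * z⁻¹) * z⁻¹ = (z * z) * x * (z⁻¹ * z⁻¹) := by group
        _ = x := by rw [hzi, hzz]; group
    have hab : IsMulCommutative ↥N := ⟨⟨fun a b => MonoidHom.FixedPointFree.commute_all_of_involutive hφ hinv a b⟩⟩
    exact Cfsg.Agent.S2008.result z hz hN E hE hzE hc N hab

end Cfsg.Agent.S2009
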