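import Cfsg.Statements.S2034
import Cfsg.Agent.Lib.Schur.Local
import Cfsg.Agent.Lib.Golay.M12
import Cfsg.Agent.Lib.Golay.Dodecad

set_option autoImplicit false
open Cfsg

namespace Cfsg.Agent.S2034

open Subgroup Cfsg.Agent.Lib.Schur.Stem Cfsg.Agent.Lib.Schur.Local
open Cfsg.Agent.Lib.Golay.Core Cfsg.Agent.Lib.Golay.Perm Cfsg.Agent.Lib.Golay.M12
open scoped Pointwise

/-! ### Explicit elements -/

def A : ℕ := 222803950135927914560252560635343424
def B : ℕ := 944399194160754855699880035276293184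
def T : ℕ := 444738317977551238577238853718058016
def A3 : ℕ := 317155705561079494526444166374822304
def B3 : ℕ := 320042145551982130541103166004830592

theorem chk : checkAut A = true ∧ checkAut B = true ∧ checkAut T = true ∧ checkAut A3 = true ∧
    checkAut B3 = true := by decide +kernel

theorem fixD : mapMask A D0 = D0 ∧ mapMask B D0 = D0 ∧ mapMask T D0 = D0 ∧ mapMask A3 D0 = D0 ∧
    mapMask B3 D0 = D0 := by decide +kernel

theorem fix0 : img A 0 = 0 ∧ img B 0 = 0 ∧ img T 0 = 0 ∧ img A3 0 = 0 ∧ img B3 0 = 0 := by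
  decide +kernel

theorem mem_of {P : ℕ} (h1 : checkAut P = true) (h2 : mapMask P D0 = D0) (h3 : img P 0 = 0) :
    g P ∈ Spor.M11 := by
  refine mem_M11_iff.2 ⟨g_mem_M24 h1, ?_, ?_⟩
  · rw [smul_setOf (checkAut_valid h1), h2]
  · intro j hj
    obtain rfl : j = 0 := by omega
    rw [g_pt (checkAut_valid h1) (by norm_num), h3]





theorem g_ne_one {P i : ℕ} (hv : validPerm P = true) (hi : i < 24) (h : img P i ≠ i) : g P ≠ 1 := by
  intro h1
  have h2 := g_pt hv hi
  rw [h1, Equiv.Perm.one_apply] at h2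
  exact h (pt_injOn hi (valid_img_lt hv hi) h2).symm

theorem valid (P : ℕ) (h : checkAut P = true) : validPerm P = true := checkAut_valid h

theorem vA : validPerm A = true := checkAut_valid chk.1
theorem vB : validPerm B = true := checkAut_valid chk.2.1
theorem vT : validPerm T = true := checkAut_valid chk.2.2.1
theorem vA3 : validPerm A3 = true := checkAut_valid chk.2.2.2.1
theorem vB3 : validPerm B3 = true := checkAut_valid chk.2.2.2.2

theorem sq_eq {P : ℕ} (h : validPerm P = true) : g P ^ 2 = g (comp P P) := by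
  rw [pow_two, g_comp h h]

/-- The code of `a ^ 2`, `a ^ 4`. -/
def A2 : ℕ := comp A A
def A4 : ℕ := comp A2 A2

theorem vA2 : validPerm A2 = true := valid_comp vA vA
theorem vA4 : validPerm A4 = true := valid_comp vA2 vA2

theorem a_sq : g A ^ 2 = g A2 := sq_eq vA
theorem a_four : g A ^ 4 = g A4 := by
  have : (4 : ℕ) = 2 * 2 := rfl
  rw [this, pow_mul, a_sq, sq_eq vA2]
  rfl

theorem a_eight : g A ^ 8 = 1 := by
  have : (8 : ℕ) = 4 * 2 := rfl
  rw [this, pow_mul, a_four, sq_eq vA4]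
  exact g_eq_one_of_img (valid_comp vA4 vA4) (by decide +kernel)

theorem a_four_ne : g A ^ 4 ≠ 1 := by
  rw [a_four]
  exact g_ne_one vA4 (i := 1) (by norm_num) (by decide +kernel)

theorem a_cube : g A ^ 3 = g (comp A2 A) := by
  rw [pow_succ, a_sq, g_comp vA2 vA]

theorem ba_rel : g B * g A * (g B)⁻¹ = g A ^ 3 := by
  rw [mul_inv_eq_iff_eq_mul, a_cube, ← g_comp vB vA, ← g_comp (valid_comp vA2 vA) vB]
  congr 1

theorem b_sq : g B ^ 2 = 1 := by
  rw [sq_eq vB]
  exact g_eq_one_of_img (valid_comp vB vB) (by decide +kernel)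

theorem a3_cube : g A3 ^ 3 = 1 := by
  rw [pow_succ, sq_eq vA3, ← g_comp (valid_comp vA3 vA3) vA3]
  exact g_eq_one_of_img (valid_comp (valid_comp vA3 vA3) vA3) (by decide +kernel)

theorem b3_cube : g B3 ^ 3 = 1 := by
  rw [pow_succ, sq_eq vB3, ← g_comp (valid_comp vB3 vB3) vB3]
  exact g_eq_one_of_img (valid_comp (valid_comp vB3 vB3) vB3) (by decide +kernel)

theorem ab3 : g A3 * g B3 = g B3 * g A3 := by
  rw [← g_comp vA3 vB3, ← g_comp vB3 vA3]
  congr 1

theorem ta3 : g T * g A3 * (g T)⁻¹ = g A3 := by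
  rw [mul_inv_eq_iff_eq_mul, ← g_comp vT vA3, ← g_comp vA3 vT]
  congr 1

theorem tb3 : g T * g B3 * (g T)⁻¹ = (g B3)⁻¹ := by
  have h : (g B3)⁻¹ = g B3 ^ 2 := by
    rw [inv_eq_iff_mul_eq_one, ← pow_succ']
    exact b3_cube
  rw [h, mul_inv_eq_iff_eq_mul, sq_eq vB3, ← g_comp vT vB3, ← g_comp (valid_comp vB3 vB3) vT]
  congr 1

/-! ### The group -/

abbrev G := ↥Spor.M11

noncomputable def a : G := ⟨g A, mem_of chk.1 fixD.1 fix0.1⟩
noncomputable def b : G := ⟨g B, mem_of chk.2.1 fixD.2.1 fix0.2.1⟩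
noncomputable def t : G := ⟨g T, mem_of chk.2.2.1 fixD.2.2.1 fix0.2.2.1⟩
noncomputable def x : G := ⟨g A3, mem_of chk.2.2.2.1 fixD.2.2.2.1 fix0.2.2.2.1⟩
noncomputable def y : G := ⟨g B3, mem_of chk.2.2.2.2 fixD.2.2.2.2 fix0.2.2.2.2⟩

theorem card_G : Nat.card G = 7920 := by
  have hd : Spor.squareDodecad ∈ dodecads := by
    rw [squareDodecad_eq, setOf_mem_dodecads_iff D0_lt]
    decide +kernel
  have hp : (some 0 : GolayPt) ∈ Spor.squareDodecad := by
    rw [squareDodecad_eq]
    decide +kernel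
  rw [← Cfsg.Agent.Lib.Golay.Dodecad.card_stab_dodecad_point hd hp]
  apply Nat.card_congr
  refine (Equiv.subtypeEquivRight ?_).trans (Subgroup.equivMapOfInjective _ M24.subtype
    (Subgroup.subtype_injective _)).symm.toEquiv
  intro z
  constructor
  · rintro ⟨⟨h1, h2⟩, h3⟩
    exact ⟨⟨z, h1⟩, ⟨h2, h3⟩, rfl⟩
  · rintro ⟨⟨w, hw⟩, ⟨h2, h3⟩, rfl⟩
    exact ⟨⟨hw, h2⟩, h3⟩


theorem rel_ba : b * a * b⁻¹ = a ^ 3 := Subtype.ext ba_rel
theorem rel_a8 : a ^ 8 = 1 := Subtype.ext a_eight
theorem rel_b2 : b ^ 2 = 1 := Subtype.ext b_sq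

theorem a4_ne : a ^ 4 ≠ 1 := fun h => a_four_ne (congrArg Subtype.val h)

theorem order_a : orderOf a = 2 ^ 3 :=
  orderOf_eq_prime_pow (p := 2) (n := 2) (by simpa using a4_ne) (by simpa using rel_a8)

theorem order_a2 : orderOf (a ^ 2) = 4 := by
  rw [orderOf_pow' _ (by norm_num), order_a]
  rfl

theorem order_b : orderOf b = 2 := by
  refine orderOf_eq_prime rel_b2 ?_
  intro h
  have h1 : b * a * b⁻¹ = a := by rw [h]; simp
  rw [rel_ba] at h1
  have h2 : a ^ 2 = 1 := by
    have h3 : a ^ 3 = a ^ 2 * a := pow_succ _ _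
    rw [h3] at h1
    exact mul_eq_right.1 h1
  apply a4_ne
  have : (4 : ℕ) = 2 * 2 := rfl
  rw [this, pow_mul, h2, one_pow]

theorem b_notMem : b ∉ zpowers a := by
  rintro ⟨k, hk⟩
  have h1 : b * a * b⁻¹ = a := by
    have h2 : (a ^ k) * a = a * (a ^ k) := (Commute.zpow_left (Commute.refl a) k).eq
    simp only [] at hk
    rw [hk] at h2
    rw [h2, mul_inv_cancel_right]
  rw [rel_ba] at h1
  have h2 : a ^ 2 = 1 := by
    have h3 : a ^ 3 = a ^ 2 * a := pow_succ _ _
    rw [h3] at h1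
    exact mul_eq_right.1 h1
  apply a4_ne
  have : (4 : ℕ) = 2 * 2 := rfl
  rw [this, pow_mul, h2, one_pow]

theorem card_U2 : Nat.card (closure ({a, b} : Set G)) = 16 := by
  rw [card_closure_pair_eq (p := 2) (r := 3) (e := 3) (by simpa using rel_ba) order_a order_b b_notMem, order_a]
  rfl

theorem rel_xy : x * y = y * x := Subtype.ext ab3
theorem rel_tx : t * x * t⁻¹ = x := Subtype.ext ta3
theorem rel_ty : t * y * t⁻¹ = y⁻¹ := Subtype.ext tb3
theorem rel_x3 : x ^ 3 = 1 := Subtype.ext a3_cube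
theorem rel_y3 : y ^ 3 = 1 := Subtype.ext b3_cube

theorem x_ne : x ≠ 1 := by
  intro h
  have h1 : g A3 = 1 := congrArg Subtype.val h
  exact g_ne_one vA3 (i := 1) (by norm_num) (by decide +kernel) h1

theorem y_ne : y ≠ 1 := by
  intro h
  have h1 : g B3 = 1 := congrArg Subtype.val h
  exact g_ne_one vB3 (i := 1) (by norm_num) (by decide +kernel) h1

theorem order_x : orderOf x = 3 ^ 1 := by
  rw [pow_one]; exact orderOf_eq_prime rel_x3 x_ne
theorem order_y : orderOf y = 3 := orderOf_eq_prime rel_y3 y_ne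

theorem y_notMem : y ∉ zpowers x := by
  rintro ⟨k, hk⟩
  simp only [] at hk
  have h1 : t * x ^ k * t⁻¹ = x ^ k := by
    rw [← conj_zpow, rel_tx]
  rw [hk, rel_ty] at h1
  -- `y = y⁻¹`, with `y ^ 3 = 1`
  have h2 : y * y = 1 := by
    nth_rewrite 1 [← h1]
    exact inv_mul_cancel y
  apply y_ne
  have h3 : y ^ 3 = y * (y * y) := by rw [pow_succ, pow_two, mul_assoc]
  rw [rel_y3, h2, mul_one] at h3
  exact h3.symm

theorem card_U3 : Nat.card (closure ({x, y} : Set G)) = 9 := by
  have hr : y * x * y⁻¹ = x ^ (1 : ℤ) := by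
    rw [zpow_one, ← rel_xy, mul_inv_cancel_right]
  rw [card_closure_pair_eq (p := 3) (r := 1) (e := 1) hr order_x order_y y_notMem, order_x]
  rfl

instance : Finite G := Nat.finite_of_card_ne_zero (by rw [card_G]; norm_num)

noncomputable def S2 : Sylow 2 G := by
  refine Sylow.ofCard (closure ({a, b} : Set G)) ?_
  rw [card_U2, card_G, factorization_eq (k := 4) Nat.prime_two (by norm_num) (by norm_num) (by norm_num)]
  rfl

noncomputable def S3 : Sylow 3 G := by
  refine Sylow.ofCard (closure ({x, y} : Set G)) ?_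
  rw [card_U3, card_G, factorization_eq (k := 2) Nat.prime_three (by norm_num) (by norm_num) (by norm_num)]
  rfl

theorem not_sq_dvd {p : ℕ} (hp : p.Prime) (h2 : p ≠ 2) (h3 : p ≠ 3) : ¬ p ^ 2 ∣ 7920 := by
  intro h
  have hc : Nat.Coprime (p ^ 2) (2 ^ 4 * 3 ^ 2) := by
    apply Nat.Coprime.pow_left
    apply Nat.Coprime.mul_right
    · exact Nat.Coprime.pow_right _ ((Nat.coprime_primes hp Nat.prime_two).2 h2)
    · exact Nat.Coprime.pow_right _ ((Nat.coprime_primes hp Nat.prime_three).2 h3)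
  have h4 : p ^ 2 ∣ 55 := by
    have : 7920 = (2 ^ 4 * 3 ^ 2) * 55 := by norm_num
    rw [this] at h
    exact hc.dvd_of_dvd_mul_left h
  have h5 := Nat.le_of_dvd (by norm_num) h4
  have h6 : p ≤ 7 := by nlinarith
  interval_cases p
  all_goals first | omega | (norm_num at hp; done) | (norm_num at h4; done)

/-- The Schur multiplier of the Mathieu group M₁₁ (the stabiliser of a dodecad and one of its points in the automorphism group of the length-24 binary code) is trivial; here the Schur multiplier is described through stem extensions, as in the definitions: surjective homomorphisms onto the group from a finite group, whose kernel is central in that finite group and contained in that finite group's commutator subgroup. -/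
theorem result : Cfsg.HasCyclicSchurMultiplier ↥Cfsg.Spor.M11 1 := by
  refine hasCyclicSchurMultiplier_one ?_
  intro Γ _ _ σ hσ
  refine card_ker_dvd_of_sylow hσ 1 one_ne_zero ?_
  intro p _ P
  by_cases hp2 : p = 2
  · subst hp2
    exact card_ker_sylow_of_stemBound hσ S2 (stemBound_semidihedral16 rel_ba rel_a8 rel_b2 order_a2) P
  by_cases hp3 : p = 3
  · subst hp3
    refine card_ker_sylow_of_comm hσ S3 ?_ P
    intro u v hu hv
    exact lifts_comm_of_reflection hσ rel_xy rel_tx rel_ty (n := 3) (by decide) rel_y3 hu hv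
  · refine card_ker_sylow_of_not_sq_dvd hσ ?_ P
    rw [card_G]
    exact not_sq_dvd Fact.out hp2 hp3

end Cfsg.Agent.S2034
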