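import Cfsg.Statements.S2035
import Cfsg.Agent.Lib.Schur.Local
import Cfsg.Agent.Lib.Schur.Cert.M12p2
import Cfsg.Agent.Lib.Schur.Cert.M12p3
import Cfsg.Agent.Lib.Schur.Cover.M12k2

/-!
The Schur multiplier of `M12` is cyclic of order 2: the stable-element computation at the primes 2 and 3
is a kernel-checked tail certificate; the other primes divide the order at most once; the double cover
is monomial on the ternary Golay code.
-/

set_option autoImplicit false
open Cfsg

namespace Cfsg.Agent.S2035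

open Subgroup Cfsg.Agent.Lib.Schur.Stem Cfsg.Agent.Lib.Schur.Local Cfsg.Agent.Lib.Schur.PcGolay
open Cfsg.Agent.Lib.Golay.Perm Cfsg.Agent.Lib.Golay.OutGroups Cfsg.Agent.Lib.Golay.M12 Cfsg.Agent.Lib.Schur.Cert

theorem card_G : Nat.card ↥Cfsg.Spor.M12 = 95040 := card_M12

/-- Membership test. -/
def memT (P : ℕ) : Bool := checkAut P && Nat.beq (mapMask P D0) D0

theorem memT_spec {P : ℕ} (h : memT P = true) : g P ∈ Cfsg.Spor.M12 := by
  simp only [memT, Bool.and_eq_true] at h
  exact g_mem_M12 h.1 (Nat.eq_of_beq_eq_true h.2)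

theorem idC_mem : g idC ∈ Cfsg.Spor.M12 := memT_spec (by decide +kernel)

theorem mem2 : ∀ P ∈ M12p2.codes ++ M12p2.conj, memT P = true := by decide +kernel
theorem mem3 : ∀ P ∈ M12p3.codes ++ M12p3.conj, memT P = true := by decide +kernel

theorem not_sq_dvd {p : ℕ} (hp : p.Prime) (h2 : p ≠ 2) (h3 : p ≠ 3) : ¬ p ^ 2 ∣ 95040 := by
  intro h
  have hc : Nat.Coprime (p ^ 2) (2 ^ 6 * 3 ^ 3) := by
    apply Nat.Coprime.pow_left
    apply Nat.Coprime.mul_right
    · exact Nat.Coprime.pow_right _ ((Nat.coprime_primes hp Nat.prime_two).2 h2)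
    · exact Nat.Coprime.pow_right _ ((Nat.coprime_primes hp Nat.prime_three).2 h3)
  have h4 : p ^ 2 ∣ 55 := by
    have : 95040 = (2 ^ 6 * 3 ^ 3) * 55 := by norm_num
    rw [this] at h
    exact hc.dvd_of_dvd_mul_left h
  have h5 := Nat.le_of_dvd (by norm_num) h4
  have h6 : p ≤ 7 := by nlinarith
  interval_cases p
  all_goals first | omega | (norm_num at hp; done) | (norm_num at h4; done)

theorem result : Cfsg.HasCyclicSchurMultiplier ↥Cfsg.Spor.M12 2 := by
  obtain ⟨Γ₀, i₀, j₀, σ₀, h₀, hc₀⟩ := Cfsg.Agent.Lib.Schur.Cover.M12k2.exists_stem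
  refine hasCyclicSchurMultiplier_of (n := 2) Nat.prime_two.prime.squarefree Γ₀ σ₀ h₀ hc₀ ?_
  intro Γ _ _ σ hσ
  refine card_ker_dvd_of_sylow hσ 2 two_ne_zero ?_
  intro p _ P
  by_cases hp2 : p = 2
  · subst hp2
    exact card_ker_dvd (p := 2) _ M12p2.C M12p2.check_ok M12p2.codes M12p2.conj M12p2.base M12p2.ord M12p2.chk_ok
      idC_mem (fun P hP => memT_spec (mem2 P (List.mem_append_left _ hP)))
      (fun P hP => memT_spec (mem2 P (List.mem_append_right _ hP))) rfl hσ
      (m := 1485) (by rw [card_G]; decide +kernel) (by norm_num) P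
  by_cases hp3 : p = 3
  · subst hp3
    exact (card_ker_dvd (p := 3) _ M12p3.C M12p3.check_ok M12p3.codes M12p3.conj M12p3.base M12p3.ord M12p3.chk_ok
      idC_mem (fun P hP => memT_spec (mem3 P (List.mem_append_left _ hP)))
      (fun P hP => memT_spec (mem3 P (List.mem_append_right _ hP))) rfl hσ
      (m := 3520) (by rw [card_G]; decide +kernel) (by norm_num) P).trans (one_dvd _)
  · refine (card_ker_sylow_of_not_sq_dvd hσ ?_ P).trans (one_dvd _)
    rw [card_G]
    exact not_sq_dvd Fact.out hp2 hp3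

end Cfsg.Agent.S2035
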