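import Cfsg.Statements.S2036
import Cfsg.Agent.Lib.Schur.Local
import Cfsg.Agent.Lib.Schur.PcCyc
import Cfsg.Agent.Lib.Schur.Pullback
import Cfsg.Agent.Lib.Schur.Cert.M22p2
import Cfsg.Agent.Lib.Schur.Cert.M22p3
import Cfsg.Agent.Lib.Schur.Cover.M22k3
import Cfsg.Agent.Lib.Schur.Cover.M22k4

set_option autoImplicit false
open Cfsg

namespace Cfsg.Agent.S2036

open Subgroup Cfsg.Agent.Lib.Schur.Stem Cfsg.Agent.Lib.Schur.Local Cfsg.Agent.Lib.Schur.PcGolay
open Cfsg.Agent.Lib.Schur.PcCyc Cfsg.Agent.Lib.Schur.Cert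
open Cfsg.Agent.Lib.Golay.Perm Cfsg.Agent.Lib.Golay.OutGroups Cfsg.Agent.Lib.Golay.M12

theorem card_G : Nat.card ↥Cfsg.Spor.M22 = 443520 := card_M22

/-- Membership test. -/
def memT (P : ℕ) : Bool := checkAut P && Nat.beq (img P 23) 23 && Nat.beq (img P 0) 0

theorem memT_spec {P : ℕ} (h : memT P = true) : g P ∈ Cfsg.Spor.M22 := by
  simp only [memT, Bool.and_eq_true] at h
  exact g_mem_M22 h.1.1 (Nat.eq_of_beq_eq_true h.1.2) (Nat.eq_of_beq_eq_true h.2)

theorem idC_mem : g idC ∈ Cfsg.Spor.M22 := memT_spec (by decide +kernel)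

theorem mem2 : ∀ P ∈ M22p2.codes ++ M22p2.conj, memT P = true := by decide +kernel
theorem mem3 : ∀ P ∈ M22p3.codes ++ M22p3.conj, memT P = true := by decide +kernel

theorem not_sq_dvd {p : ℕ} (hp : p.Prime) (h2 : p ≠ 2) (h3 : p ≠ 3) : ¬ p ^ 2 ∣ 443520 := by
  intro h
  have hc : Nat.Coprime (p ^ 2) (2 ^ 7 * 3 ^ 2) := by
    apply Nat.Coprime.pow_left
    apply Nat.Coprime.mul_right
    · exact Nat.Coprime.pow_right _ ((Nat.coprime_primes hp Nat.prime_two).2 h2)
    · exact Nat.Coprime.pow_right _ ((Nat.coprime_primes hp Nat.prime_three).2 h3)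
  have h4 : p ^ 2 ∣ 385 := by
    have : 443520 = (2 ^ 7 * 3 ^ 2) * 385 := by norm_num
    rw [this] at h
    exact hc.dvd_of_dvd_mul_left h
  have h5 := Nat.le_of_dvd (by norm_num) h4
  have h6 : p ≤ 19 := by nlinarith
  interval_cases p
  all_goals first | omega | (norm_num at hp; done) | (norm_num at h4; done)

section Key

variable {Γ : Type} [Group Γ] [Finite Γ] {σ : Γ →* Cfsg.Spor.M22}

theorem card_ker_dvd12 (hσ : IsStemExtension σ) : Nat.card σ.ker ∣ 12 := by
  refine card_ker_dvd_of_sylow hσ 12 (by norm_num) ?_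
  intro p _ P
  by_cases hp2 : p = 2
  · subst hp2
    exact (card_ker_dvd (p := 2) _ M22p2.C M22p2.check_ok M22p2.codes M22p2.conj M22p2.base M22p2.ord M22p2.chk_ok
      idC_mem (fun P hP => memT_spec (mem2 P (List.mem_append_left _ hP)))
      (fun P hP => memT_spec (mem2 P (List.mem_append_right _ hP))) rfl hσ
      (m := 3465) (by rw [card_G]; decide +kernel) (by norm_num) P).trans (by decide +kernel)
  by_cases hp3 : p = 3
  · subst hp3
    exact (card_ker_dvd (p := 3) _ M22p3.C M22p3.check_ok M22p3.codes M22p3.conj M22p3.base M22p3.ord M22p3.chk_ok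
      idC_mem (fun P hP => memT_spec (mem3 P (List.mem_append_left _ hP)))
      (fun P hP => memT_spec (mem3 P (List.mem_append_right _ hP))) rfl hσ
      (m := 49280) (by rw [card_G]; decide +kernel) (by norm_num) P).trans (by decide +kernel)
  · refine (card_ker_sylow_of_not_sq_dvd hσ ?_ P).trans (one_dvd _)
    rw [card_G]
    exact not_sq_dvd Fact.out hp2 hp3

theorem ker_cyclic (hσ : IsStemExtension σ) : IsCyclic σ.ker := by
  have : Fact (Nat.Prime 2) := ⟨Nat.prime_two⟩
  have : Fact (Nat.Prime 3) := ⟨Nat.prime_three⟩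
  obtain ⟨P2⟩ : Nonempty (Sylow 2 Γ) := inferInstance
  obtain ⟨P3⟩ : Nonempty (Sylow 3 Γ) := inferInstance
  obtain ⟨z2, h2, h24, hk2⟩ := exists_zpowers_golay (p := 2) _ M22p2.C M22p2.check_ok M22p2.codes M22p2.conj M22p2.base
    M22p2.ord M22p2.chk_ok idC_mem (fun P hP => memT_spec (mem2 P (List.mem_append_left _ hP)))
    (fun P hP => memT_spec (mem2 P (List.mem_append_right _ hP))) rfl hσ
    (m := 3465) (by rw [card_G]; decide +kernel) (by norm_num) P2
  obtain ⟨z3, h3, h33, hk3⟩ := exists_zpowers_golay (p := 3) _ M22p3.C M22p3.check_ok M22p3.codes M22p3.conj M22p3.base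
    M22p3.ord M22p3.chk_ok idC_mem (fun P hP => memT_spec (mem3 P (List.mem_append_left _ hP)))
    (fun P hP => memT_spec (mem3 P (List.mem_append_right _ hP))) rfl hσ
    (m := 49280) (by rw [card_G]; decide +kernel) (by norm_num) P3
  exact ker_cyclic_of_23 hσ (card_ker_dvd12 hσ) h2 h24 h3 h33
    (fun x hx hx1 => mem_of_sylow hσ P2 hk2 hx hx1) (fun x hx hx1 => mem_of_sylow hσ P3 hk3 hx hx1)

end Key

theorem main : Cfsg.HasCyclicSchurMultiplier ↥Cfsg.Spor.M22 12 := by
  refine ⟨?_, ?_⟩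
  · obtain ⟨Γ3, i3, f3, ψ, hψ, c3⟩ := Cfsg.Agent.Lib.Schur.Cover.M22k3.exists_stem
    obtain ⟨Γ4, i4, f4, π, hπ, c4⟩ := Cfsg.Agent.Lib.Schur.Cover.M22k4.exists_stem
    open Cfsg.Agent.Lib.Schur.Pullback in
    have hst : IsStemExtension (ψ.comp (fstP ψ π)) :=
      isStem_comp hψ.1 hπ.1 hψ.2.1 hπ.2.1 hψ.2.2 hπ.2.2 (by rw [c3, c4]; norm_num)
    open Cfsg.Agent.Lib.Schur.Pullback in
    have hcard : Nat.card (ψ.comp (fstP ψ π)).ker = 12 := by
      rw [card_ker_comp (fstP ψ π) ψ (fstP_surj hπ.1) hψ.1, card_ker_fstP, c3, c4]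
    have hcyc := ker_cyclic hst
    refine ⟨Cfsg.Agent.Lib.Schur.Pullback.P ψ π, inferInstance, inferInstance, _, hst, ?_⟩
    have e := zmodCyclicMulEquiv hcyc
    rw [hcard] at e
    exact ⟨e.symm⟩
  · intro Γ _ _ σ hσ
    exact exists_surj_of_cyclic (ker_cyclic hσ) (by norm_num) (card_ker_dvd12 hσ)

/-- The Schur multiplier of the Mathieu group M₂₂ (the permutations in the automorphism group of the length-24 binary code that fix each of two given points) is cyclic of order 12; here the Schur multiplier is described through stem extensions, as in the definitions: surjective homomorphisms onto the group from a finite group, whose kernel is central in that finite group and contained in that finite group's commutator subgroup. -/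
theorem result : Cfsg.HasCyclicSchurMultiplier ↥Cfsg.Spor.M22 12 := by
  exact main

end Cfsg.Agent.S2036
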