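import Cfsg.Statements.S2038
import Cfsg.Agent.Lib.Schur.Local
import Cfsg.Agent.Lib.Schur.Cert.M24p2
import Cfsg.Agent.Lib.Schur.Cert.M24p3
import Cfsg.Agent.Lib.Golay.M24

/-!
The Schur multiplier of `M24` is trivial: the stable-element computation at the primes 2 and 3 is
a kernel-checked tail certificate; the other primes divide the order at most once.
-/

set_option autoImplicit false
open Cfsg

namespace Cfsg.Agent.S2038

open Subgroup Cfsg.Agent.Lib.Schur.Stem Cfsg.Agent.Lib.Schur.Local Cfsg.Agent.Lib.Schur.PcGolay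
open Cfsg.Agent.Lib.Golay.Perm Cfsg.Agent.Lib.Schur.Cert

theorem card_G : Nat.card ↥Cfsg.M24 = 244823040 := Cfsg.Agent.Lib.Golay.M24.card_M24

theorem idC_mem : g idC ∈ Cfsg.M24 := g_mem_M24 (by decide +kernel)

theorem mem2 : ∀ P ∈ M24p2.codes ++ M24p2.conj, checkAut P = true := by decide +kernel
theorem mem3 : ∀ P ∈ M24p3.codes ++ M24p3.conj, checkAut P = true := by decide +kernel

theorem not_sq_dvd {p : ℕ} (hp : p.Prime) (h2 : p ≠ 2) (h3 : p ≠ 3) : ¬ p ^ 2 ∣ 244823040 := by
  intro h
  have hc : Nat.Coprime (p ^ 2) (2 ^ 10 * 3 ^ 3) := by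
    apply Nat.Coprime.pow_left
    apply Nat.Coprime.mul_right
    · exact Nat.Coprime.pow_right _ ((Nat.coprime_primes hp Nat.prime_two).2 h2)
    · exact Nat.Coprime.pow_right _ ((Nat.coprime_primes hp Nat.prime_three).2 h3)
  have h4 : p ^ 2 ∣ 8855 := by
    have : 244823040 = (2 ^ 10 * 3 ^ 3) * 8855 := by norm_num
    rw [this] at h
    exact hc.dvd_of_dvd_mul_left h
  have h5 := Nat.le_of_dvd (by norm_num) h4
  have h6 : p ≤ 94 := by nlinarith
  interval_cases p
  all_goals first | omega | (norm_num at hp; done) | (norm_num at h4; done)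

theorem result : Cfsg.HasCyclicSchurMultiplier ↥Cfsg.M24 1 := by
  refine hasCyclicSchurMultiplier_one ?_
  intro Γ _ _ σ hσ
  refine card_ker_dvd_of_sylow hσ 1 one_ne_zero ?_
  intro p _ P
  by_cases hp2 : p = 2
  · subst hp2
    exact card_ker_dvd (p := 2) _ M24p2.C M24p2.check_ok M24p2.codes M24p2.conj M24p2.base M24p2.ord M24p2.chk_ok
      idC_mem (fun P hP => g_mem_M24 (mem2 P (List.mem_append_left _ hP)))
      (fun P hP => g_mem_M24 (mem2 P (List.mem_append_right _ hP))) rfl hσ
      (m := 239085) (by rw [card_G]; decide +kernel) (by norm_num) P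
  by_cases hp3 : p = 3
  · subst hp3
    exact card_ker_dvd (p := 3) _ M24p3.C M24p3.check_ok M24p3.codes M24p3.conj M24p3.base M24p3.ord M24p3.chk_ok
      idC_mem (fun P hP => g_mem_M24 (mem3 P (List.mem_append_left _ hP)))
      (fun P hP => g_mem_M24 (mem3 P (List.mem_append_right _ hP))) rfl hσ
      (m := 9067520) (by rw [card_G]; decide +kernel) (by norm_num) P
  · refine card_ker_sylow_of_not_sq_dvd hσ ?_ P
    rw [card_G]
    exact not_sq_dvd Fact.out hp2 hp3

end Cfsg.Agent.S2038
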