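import Cfsg.Statements.S2039
import Cfsg.Agent.Lib.Schur.Local
import Cfsg.Agent.Lib.Schur.SL2Stem
import Cfsg.Prelude.Def_Spor_J1
import Cfsg.Agent.Lib.PermComp.Spor.J1
import Cfsg.Agent.Lib.QuadAct.Basic
import Cfsg.Agent.Lib.LocalEven.Util

set_option autoImplicit false
open Cfsg

namespace Cfsg.Agent.S2039

open Subgroup Cfsg.Agent.Lib.Schur.Stem Cfsg.Agent.Lib.Schur.Local Cfsg.Agent.Lib.Schur.SL2Stem
open Matrix
open scoped commutatorElement MatrixGroups

universe u v

section Abstract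

variable {Γ : Type u} {G : Type v} [Group Γ] [Group G] {σ : Γ →* G}

/-- Commutators of lifts in a group where an element cycles `a → b → c → ab`. -/
theorem comm_of_seven (hσ : IsStemExtension σ) {a b c t : G} (hab : a * b = b * a)
    (hbc : b * c = c * b) (hac : a * c = c * a) (h1 : t * a * t⁻¹ = b) (h2 : t * b * t⁻¹ = c)
    (h3 : t * c * t⁻¹ = a * b) {A B C : Γ} (hA : σ A = a) (hB : σ B = b) (hC : σ C = c) :
    A * B = B * A ∧ B * C = C * B ∧ A * C = C * A := by
  obtain ⟨T, hT⟩ := hσ.1 t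
  have hcen := hσ.2.1
  set u : Γ := ⁅A, B⁆ with hu
  set v : Γ := ⁅B, C⁆ with hv
  set w : Γ := ⁅C, A⁆ with hw
  have huc : u ∈ center Γ := hcen (commutator_mem_ker (by rw [hA, hB]; exact hab))
  have hvc : v ∈ center Γ := hcen (commutator_mem_ker (by rw [hB, hC]; exact hbc))
  have hwc : w ∈ center Γ := hcen (commutator_mem_ker (by rw [hC, hA]; exact hac.symm))
  have hconj : ∀ x y : Γ, ⁅T * x * T⁻¹, T * y * T⁻¹⁆ = T * ⁅x, y⁆ * T⁻¹ := by
    intro x y
    simp only [commutatorElement_def]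
    group
  have hcentral : ∀ {z : Γ}, z ∈ center Γ → T * z * T⁻¹ = z := by
    intro z hz
    rw [mem_center_iff.1 hz T, mul_inv_cancel_right]
  have hTA : σ (T * A * T⁻¹) = σ B := by
    rw [map_mul, map_mul, map_inv, hT, hA, hB, h1]
  have hTB : σ (T * B * T⁻¹) = σ C := by
    rw [map_mul, map_mul, map_inv, hT, hB, hC, h2]
  have hTC : σ (T * C * T⁻¹) = σ (A * B) := by
    rw [map_mul, map_mul, map_mul, map_inv, hT, hC, hA, hB, h3]
  have huv : u = v := by
    have h := hconj A B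
    rw [hcentral huc, commutator_congr hcen hTA hTB] at h
    exact h.symm
  have hvx : v = ⁅C, A * B⁆ := by
    have h := hconj B C
    rw [hcentral hvc, commutator_congr hcen hTB hTC] at h
    exact h.symm
  have hwu : w = u := by
    have h := hconj C A
    rw [hcentral hwc, commutator_congr hcen hTC hTA] at h
    have h2 : ⁅A * B, B⁆ = u := by
      rw [hu]
      simp only [commutatorElement_def]
      group
    rw [h2] at h
    exact h.symm
  have hprod : ⁅C, A * B⁆ = w * (A * ⁅C, B⁆ * A⁻¹) := by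
    rw [hw]
    simp only [commutatorElement_def]
    group
  have hCB : ⁅C, B⁆ = v⁻¹ := by
    rw [hv, commutatorElement_inv]
  have hvc' : v⁻¹ ∈ center Γ := inv_mem hvc
  have hv1 : v = 1 := by
    have h4 : A * v⁻¹ * A⁻¹ = v⁻¹ := by
      rw [mem_center_iff.1 hvc' A, mul_inv_cancel_right]
    rw [hprod, hCB, h4, hwu, huv, mul_inv_cancel] at hvx
    exact hvx
  have hu1 : u = 1 := huv.trans hv1
  have hw1 : w = 1 := hwu.trans hu1
  refine ⟨commutatorElement_eq_one_iff_mul_comm.1 hu1, commutatorElement_eq_one_iff_mul_comm.1 hv1, ?_⟩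
  exact (commutatorElement_eq_one_iff_mul_comm.1 hw1).symm

theorem comm_of_seven_all (hσ : IsStemExtension σ) {a b c t : G} (hab : a * b = b * a)
    (hbc : b * c = c * b) (hac : a * c = c * a) (h1 : t * a * t⁻¹ = b) (h2 : t * b * t⁻¹ = c)
    (h3 : t * c * t⁻¹ = a * b) {x y : Γ} (hx : σ x ∈ ({a, b, c} : Set G))
    (hy : σ y ∈ ({a, b, c} : Set G)) : x * y = y * x := by
  have hsame : ∀ x y : Γ, σ x = σ y → x * y = y * x := by
    intro x y hxy
    have h1 : y⁻¹ * x ∈ σ.ker := by
      rw [MonoidHom.mem_ker, map_mul, map_inv, hxy, inv_mul_cancel]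
    have h2 := mem_center_iff.1 (hσ.2.1 h1) y
    have h3 : y * (y⁻¹ * x) = x := by group
    rw [h3] at h2
    have h4 : y⁻¹ * x * y = y⁻¹ * (x * y) := by group
    rw [h4] at h2
    have h5 : y * x = x * y := by
      calc y * x = y * (y⁻¹ * (x * y)) := by rw [← h2]
        _ = x * y := by group
    exact h5.symm
  obtain ⟨A, hA⟩ := hσ.1 a
  obtain ⟨B, hB⟩ := hσ.1 b
  obtain ⟨C, hC⟩ := hσ.1 c
  have key := comm_of_seven hσ hab hbc hac h1 h2 h3 hA hB hC
  have hcong : ∀ {x y x' y' : Γ}, σ x = σ x' → σ y = σ y' → x' * y' = y' * x' → x * y = y * x := by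
    intro x y x' y' hxx hyy hc
    have h4 := commutator_congr hσ.2.1 hxx hyy
    rw [commutatorElement_eq_one_iff_mul_comm.2 hc] at h4
    exact commutatorElement_eq_one_iff_mul_comm.1 h4
  rcases hx with hx | hx | hx <;> rcases hy with hy | hy | hy
  · exact hsame _ _ (hx.trans hy.symm)
  · exact hcong (hx.trans hA.symm) (hy.trans hB.symm) key.1
  · exact hcong (hx.trans hA.symm) (hy.trans hC.symm) key.2.2
  · exact hcong (hx.trans hB.symm) (hy.trans hA.symm) key.1.symm
  · exact hsame _ _ (hx.trans hy.symm)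
  · exact hcong (hx.trans hB.symm) (hy.trans hC.symm) key.2.1
  · exact hcong (hx.trans hC.symm) (hy.trans hA.symm) key.2.2.symm
  · exact hcong (hx.trans hC.symm) (hy.trans hB.symm) key.2.1.symm
  · exact hsame _ _ (hx.trans hy.symm)

end Abstract

section Concrete

open Cfsg.Spor

def M1 : Matrix (Fin 7) (Fin 7) (ZMod 11) :=
  !![-1, 0, 0, 0, 0, 0, 0;
     0, -1, 0, 0, 0, 0, 0;
     0, 0, -1, 0, 0, 0, 0;
     0, 0, 0, 1, 0, 0, 0;
     0, 0, 0, 0, 1, 0, 0;
     0, 0, 0, 0, 0, -1, 0;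
     0, 0, 0, 0, 0, 0, 1]

def M2 : Matrix (Fin 7) (Fin 7) (ZMod 11) :=
  !![-1, 0, 0, 0, 0, 0, 0;
     0, -1, 0, 0, 0, 0, 0;
     0, 0, 1, 0, 0, 0, 0;
     0, 0, 0, 1, 0, 0, 0;
     0, 0, 0, 0, -1, 0, 0;
     0, 0, 0, 0, 0, 1, 0;
     0, 0, 0, 0, 0, 0, -1]

def M3 : Matrix (Fin 7) (Fin 7) (ZMod 11) :=
  !![-1, 0, 0, 0, 0, 0, 0;
     0, 1, 0, 0, 0, 0, 0;
     0, 0, 1, 0, 0, 0, 0;
     0, 0, 0, -1, 0, 0, 0;
     0, 0, 0, 0, 1, 0, 0;
     0, 0, 0, 0, 0, -1, 0;
     0, 0, 0, 0, 0, 0, -1]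

def Y2 : Matrix (Fin 7) (Fin 7) (ZMod 11) := jankoMatrixY * jankoMatrixY

def x1 : GL (Fin 7) (ZMod 11) := ⟨M1, M1, by decide +kernel, by decide +kernel⟩
def x2 : GL (Fin 7) (ZMod 11) := ⟨M2, M2, by decide +kernel, by decide +kernel⟩
def x3 : GL (Fin 7) (ZMod 11) := ⟨M3, M3, by decide +kernel, by decide +kernel⟩

theorem x1_word : x1 = jankoY * jankoX * (jankoY * jankoY * (jankoY * jankoY)) * jankoX :=
  Units.ext (by decide +kernel)

theorem rel1 : jankoX * x1 = x2 * jankoX := Units.ext (by decide +kernel)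
theorem rel2 : jankoX * x2 = x3 * jankoX := Units.ext (by decide +kernel)
theorem rel3 : jankoX * x3 = x1 * x2 * jankoX := Units.ext (by decide +kernel)
theorem x12 : x1 * x2 = x2 * x1 := Units.ext (by decide +kernel)
theorem x23 : x2 * x3 = x3 * x2 := Units.ext (by decide +kernel)
theorem x13 : x1 * x3 = x3 * x1 := Units.ext (by decide +kernel)
theorem x1sq : x1 ^ 2 = 1 := Units.ext (by decide +kernel)
theorem x2sq : x2 ^ 2 = 1 := Units.ext (by decide +kernel)
theorem x3sq : x3 ^ 2 = 1 := Units.ext (by decide +kernel)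

abbrev G := ↥Cfsg.Spor.J1

def jX : G := ⟨jankoX, Subgroup.subset_closure (Or.inl rfl)⟩
def jY : G := ⟨jankoY, Subgroup.subset_closure (Or.inr rfl)⟩

theorem x1_mem : x1 ∈ Cfsg.Spor.J1 := by
  rw [x1_word]
  exact (((jY * jX) * (jY * jY * (jY * jY))) * jX).2

def a : G := ⟨x1, x1_mem⟩

theorem x2_eq : x2 = jankoX * x1 * jankoX⁻¹ := by
  rw [rel1, mul_inv_cancel_right]

theorem x3_eq : x3 = jankoX * x2 * jankoX⁻¹ := by
  rw [rel2, mul_inv_cancel_right]

def b : G := ⟨x2, by rw [x2_eq]; exact (jX * a * jX⁻¹).2⟩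
def c : G := ⟨x3, by rw [x3_eq]; exact (jX * b * jX⁻¹).2⟩

theorem h1 : jX * a * jX⁻¹ = b := Subtype.ext x2_eq.symm
theorem h2 : jX * b * jX⁻¹ = c := Subtype.ext x3_eq.symm
theorem h3 : jX * c * jX⁻¹ = a * b := by
  apply Subtype.ext
  show jankoX * x3 * jankoX⁻¹ = x1 * x2
  rw [rel3, mul_inv_cancel_right]
theorem hab : a * b = b * a := Subtype.ext x12
theorem hbc : b * c = c * b := Subtype.ext x23
theorem hac : a * c = c * a := Subtype.ext x13

/-- The vectors fixed by the group elements. -/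
def fixG (v : Fin 7 → ZMod 11) : Subgroup G where
  carrier := {g | ((g : GL (Fin 7) (ZMod 11)) : Matrix (Fin 7) (Fin 7) (ZMod 11)) *ᵥ v = v}
  one_mem' := by
    show ((1 : GL (Fin 7) (ZMod 11)) : Matrix (Fin 7) (Fin 7) (ZMod 11)) *ᵥ v = v
    simp
  mul_mem' := by
    intro g h hg hh
    show (((g * h : G) : GL (Fin 7) (ZMod 11)) : Matrix (Fin 7) (Fin 7) (ZMod 11)) *ᵥ v = v
    have h1 : (((g * h : G) : GL (Fin 7) (ZMod 11)) : Matrix (Fin 7) (Fin 7) (ZMod 11)) =
      ((g : GL (Fin 7) (ZMod 11)) : Matrix (Fin 7) (Fin 7) (ZMod 11)) *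
      ((h : GL (Fin 7) (ZMod 11)) : Matrix (Fin 7) (Fin 7) (ZMod 11)) := rfl
    rw [h1, ← Matrix.mulVec_mulVec, hh, hg]
  inv_mem' := by
    intro g hg
    show (((g⁻¹ : G) : GL (Fin 7) (ZMod 11)) : Matrix (Fin 7) (Fin 7) (ZMod 11)) *ᵥ v = v
    have hg' : ((g : GL (Fin 7) (ZMod 11)) : Matrix (Fin 7) (Fin 7) (ZMod 11)) *ᵥ v = v := hg
    have h1 : (((g⁻¹ : G) : GL (Fin 7) (ZMod 11)) : Matrix (Fin 7) (Fin 7) (ZMod 11)) *
      ((g : GL (Fin 7) (ZMod 11)) : Matrix (Fin 7) (Fin 7) (ZMod 11)) = 1 := by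
      have := (g : GL (Fin 7) (ZMod 11)).inv_mul
      exact this
    conv_lhs => rw [← hg', Matrix.mulVec_mulVec, h1]
    simp

def e3 : Fin 7 → ZMod 11 := ![0, 0, 0, 1, 0, 0, 0]
def e4 : Fin 7 → ZMod 11 := ![0, 0, 0, 0, 1, 0, 0]

theorem a_fix3 : a ∈ fixG e3 := by
  show M1 *ᵥ e3 = e3
  decide +kernel
theorem b_fix3 : b ∈ fixG e3 := by
  show M2 *ᵥ e3 = e3
  decide +kernel
theorem c_nfix3 : c ∉ fixG e3 := by
  show ¬ (M3 *ᵥ e3 = e3)
  decide +kernel
theorem a_fix4 : a ∈ fixG e4 := by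
  show M1 *ᵥ e4 = e4
  decide +kernel
theorem b_nfix4 : b ∉ fixG e4 := by
  show ¬ (M2 *ᵥ e4 = e4)
  decide +kernel

theorem a_ne : a ≠ 1 := by
  intro h
  have h1 : x1 = 1 := congrArg Subtype.val h
  have h2 : M1 = 1 := congrArg Units.val h1
  revert h2
  decide +kernel

theorem b_ne : b ≠ 1 := fun h => b_nfix4 (h ▸ one_mem _)
theorem c_ne : c ≠ 1 := fun h => c_nfix3 (h ▸ one_mem _)
theorem a_sq : a ^ 2 = 1 := Subtype.ext x1sq
theorem b_sq : b ^ 2 = 1 := Subtype.ext x2sq
theorem c_sq : c ^ 2 = 1 := Subtype.ext x3sq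

theorem order_a : orderOf a = 2 := orderOf_eq_prime a_sq a_ne
theorem order_b : orderOf b = 2 := orderOf_eq_prime b_sq b_ne
theorem order_c : orderOf c = 2 := orderOf_eq_prime c_sq c_ne

/-- The order of a subgroup extended by an element of prime order normalizing it. -/
theorem card_sup_zpowers {H : Type*} [Group H] [Finite H] {p : ℕ} (hp : p.Prime) (K : Subgroup H)
    (x : H) (hn : zpowers x ≤ normalizer (K : Set H)) (hx : orderOf x = p) (hnot : x ∉ K) :
    Nat.card (zpowers x ⊔ K : Subgroup H) = p * Nat.card K := by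
  have h1 := Cfsg.Agent.Lib.QuadAct.Basic.card_sup_mul_card_inf_of_le_normalizer (zpowers x) K hn
  rw [Nat.card_zpowers, hx] at h1
  have h2 : Nat.card (zpowers x ⊓ K : Subgroup H) ∣ p := by
    rw [← hx, ← Nat.card_zpowers]
    exact Subgroup.card_dvd_of_le inf_le_left
  rcases (Nat.dvd_prime hp).1 h2 with h3 | h3
  · rw [h3, mul_one] at h1
    exact h1
  · exfalso
    have h4 : zpowers x ⊓ K = zpowers x :=
      Subgroup.eq_of_le_of_card_ge inf_le_left (by rw [h3, Nat.card_zpowers, hx])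
    have h5 : x ∈ zpowers x ⊓ K := by
      rw [h4]; exact mem_zpowers x
    exact hnot h5.2

theorem normalizer_of_comm {H : Type*} [Group H] [Finite H] {K : Subgroup H} {x : H}
    (h : ∀ y ∈ K, x * y = y * x) : zpowers x ≤ normalizer (K : Set H) := by
  rw [zpowers_le]
  apply Cfsg.Agent.Lib.LocalEven.Util.mem_normalizer_of_conj_le
  intro y hy
  rw [h y hy, mul_inv_cancel_right]
  exact hy

/-- The elementary abelian subgroup of order `8`. -/
def L : Subgroup G := zpowers c ⊔ (zpowers b ⊔ zpowers a)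

theorem b_comm : ∀ y ∈ zpowers a, b * y = y * b := by
  intro y hy
  have h1 : zpowers a ≤ centralizer ({b} : Set G) := by
    rw [zpowers_le, mem_centralizer_singleton_iff]
    exact hab
  exact (mem_centralizer_singleton_iff.1 (h1 hy)).symm

theorem c_comm : ∀ y ∈ zpowers b ⊔ zpowers a, c * y = y * c := by
  intro y hy
  have h1 : zpowers b ⊔ zpowers a ≤ centralizer ({c} : Set G) := by
    apply sup_le
    · rw [zpowers_le, mem_centralizer_singleton_iff]
      exact hbc
    · rw [zpowers_le, mem_centralizer_singleton_iff]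
      exact hac
  exact (mem_centralizer_singleton_iff.1 (h1 hy)).symm

theorem card_L : Nat.card L = 2 ^ 3 := by
  have hn1 : b ∉ zpowers a := by
    intro h
    have hle : zpowers a ≤ fixG e4 := by
      rw [zpowers_le]; exact a_fix4
    exact b_nfix4 (hle h)
  have h1 : Nat.card (zpowers b ⊔ zpowers a : Subgroup G) = 2 * 2 := by
    rw [card_sup_zpowers Nat.prime_two _ b (normalizer_of_comm b_comm) order_b hn1,
      Nat.card_zpowers, order_a]
  have hn2 : c ∉ zpowers b ⊔ zpowers a := by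
    intro h
    have hle : zpowers b ⊔ zpowers a ≤ fixG e3 := by
      apply sup_le
      · rw [zpowers_le]; exact b_fix3
      · rw [zpowers_le]; exact a_fix3
    exact c_nfix3 (hle h)
  rw [L, card_sup_zpowers Nat.prime_two _ c (normalizer_of_comm c_comm) order_c hn2, h1]
  rfl

theorem L_le : L ≤ Subgroup.closure ({a, b, c} : Set G) := by
  apply sup_le
  · rw [zpowers_le]
    exact Subgroup.subset_closure (by simp)
  · apply sup_le
    · rw [zpowers_le]
      exact Subgroup.subset_closure (by simp)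
    · rw [zpowers_le]
      exact Subgroup.subset_closure (by simp)

theorem not_sq_dvd {p : ℕ} (hp : p.Prime) (h2 : p ≠ 2) : ¬ p ^ 2 ∣ 175560 := by
  intro h
  have hc : Nat.Coprime (p ^ 2) (2 ^ 3) := by
    apply Nat.Coprime.pow_left
    exact Nat.Coprime.pow_right _ ((Nat.coprime_primes hp Nat.prime_two).2 h2)
  have h4 : p ^ 2 ∣ 21945 := by
    have : 175560 = (2 ^ 3) * 21945 := by norm_num
    rw [this] at h
    exact hc.dvd_of_dvd_mul_left h
  have h3 : (3 * 5 * 7 * 11 * 19 : ℕ) = 21945 := by norm_num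
  have hsq : Squarefree (21945 : ℕ) := by
    rw [← h3, Nat.squarefree_mul (by norm_num), Nat.squarefree_mul (by norm_num),
      Nat.squarefree_mul (by norm_num), Nat.squarefree_mul (by norm_num)]
    exact ⟨⟨⟨⟨Irreducible.squarefree Nat.prime_three, Irreducible.squarefree Nat.prime_five⟩,
      Irreducible.squarefree (show Nat.Prime 7 by norm_num)⟩,
      Irreducible.squarefree (show Nat.Prime 11 by norm_num)⟩,
      Irreducible.squarefree (show Nat.Prime 19 by norm_num)⟩
  rw [pow_two] at h4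
  exact hp.not_isUnit (hsq p h4)

/-- Reduction to the order of the group. -/
theorem result_of_card (hcard : Nat.card G = 175560) : Cfsg.HasCyclicSchurMultiplier G 1 := by
  refine hasCyclicSchurMultiplier_one ?_
  intro Γ _ _ σ hσ
  refine card_ker_dvd_of_sylow hσ 1 one_ne_zero ?_
  intro p _ P
  by_cases hp : p = 2
  · subst hp
    have hfact : (Nat.card G).factorization 2 = 3 := by
      rw [hcard]
      exact factorization_eq Nat.prime_two (by norm_num) (by norm_num) (by norm_num)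
    let S2 : Sylow 2 G := Sylow.ofCard L (by rw [card_L, hfact])
    refine card_ker_sylow_of_comm hσ S2 ?_ P
    intro x y hx hy
    exact comm_of_closure hσ (s := ({a, b, c} : Set G))
      (fun x y hx hy => comm_of_seven_all hσ hab hbc hac h1 h2 h3 hx hy) (L_le hx) (L_le hy)
  · refine card_ker_sylow_of_not_sq_dvd hσ ?_ P
    rw [hcard]
    exact not_sq_dvd Fact.out hp

end Concrete

/-- The Schur multiplier of the Janko group J₁ (the group generated by two explicit 7 × 7 matrices over the integers modulo 11) is trivial; here the Schur multiplier is described through stem extensions, as in the definitions: surjective homomorphisms onto the group from a finite group, whose kernel is central in that finite group and contained in that finite group's commutator subgroup. -/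
theorem result : Cfsg.HasCyclicSchurMultiplier ↥Cfsg.Spor.J1 1 :=
  result_of_card Cfsg.Agent.Lib.PermComp.Spor.J1.main.1

end Cfsg.Agent.S2039
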