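import Cfsg.Statements.S2040
import Cfsg.Agent.Lib.J2.Cover

set_option autoImplicit false
open Cfsg

namespace Cfsg.Agent.S2040

open Cfsg.Agent.Lib.J2 Cfsg.Agent.Lib.Schur.Stem

/-- The Schur multiplier of the Hall–Janko group J₂ (the icosian reflection group modulo its centre) is cyclic of order 2; here the Schur multiplier is described through stem extensions, as in the definitions: surjective homomorphisms onto the group from a finite group, whose kernel is central in that finite group and contained in that finite group's commutator subgroup. -/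
theorem result : Cfsg.HasCyclicSchurMultiplier Cfsg.Spor.J2 2 := by
  refine hasCyclicSchurMultiplier_of (n := 2) Nat.prime_two.prime.squarefree Cfsg.Spor.twoJ2
    (QuotientGroup.mk' (Subgroup.center Cfsg.Spor.twoJ2)) ?_ ?_ ?_
  · refine ⟨QuotientGroup.mk'_surjective _, ?_, ?_⟩
    · rw [QuotientGroup.ker_mk']
    · rw [commutator_twoJ2]
      exact le_top
  · rw [QuotientGroup.ker_mk']
    exact card_center
  · intro Γ _ _ σ hσ
    let σ' : Γ →* H315 := (j2Equiv : Cfsg.Spor.J2 ≃* H315).toMonoidHom.comp σ
    have hk : σ'.ker = σ.ker := by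
      ext x
      simp [σ', MonoidHom.mem_ker]
    have hs : IsStemExtension σ' := by
      refine ⟨(j2Equiv : Cfsg.Spor.J2 ≃* H315).surjective.comp hσ.1, ?_, ?_⟩
      · rw [hk]
        exact hσ.2.1
      · rw [hk]
        exact hσ.2.2
    have := Cfsg.Agent.Lib.J2.Pc.card_ker_dvd_H315 hs
    rwa [hk] at this

end Cfsg.Agent.S2040
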