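import Cfsg.Statements.S2041
import Cfsg.Agent.Lib.Schur.Local
import Cfsg.Agent.Lib.Schur.J3.Comm
import Cfsg.Agent.Lib.Schur.Cert.J3p2
import Cfsg.Agent.Lib.Schur.Cert.J3p3

set_option autoImplicit false
open Cfsg

namespace Cfsg.Agent.S2041

open Cfsg.Agent.Lib.Schur.Stem Cfsg.Agent.Lib.Schur.Local Cfsg.Agent.Lib.Schur Cfsg.Agent.Lib.Schur.Cert Cfsg.Agent.Lib.PermComp

/-- For any field with 4 elements and any element ω of it with ω² + ω + 1 = 0: the Schur multiplier of the Janko group J₃ (the group generated by explicit 9 × 9 matrices over that field built from ω, taken modulo its centre) is cyclic of order 3; here the Schur multiplier is described through stem extensions, as in the definitions: surjective homomorphisms onto the group from a finite group, whose kernel is central in that finite group and contained in that finite group's commutator subgroup. -/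
theorem result {F : Type*} [Field F] [Fintype F] (hF : Fintype.card F = 4) (ω : F) (hω : ω ^ 2 + ω + 1 = 0) : Cfsg.HasCyclicSchurMultiplier (Cfsg.Spor.J3 F ω) 3 := by
  classical
  have h2 := Cfsg.Agent.Lib.PermComp.Spor.J3.two_eq_zero_of_card hF
  obtain ⟨hc1, hc3, -⟩ := Cfsg.Agent.Lib.PermComp.Spor.J3.main h2 hω
  obtain ⟨H, hc, hs, -, ⟨e⟩, hgens⟩ := Cfsg.Agent.Lib.PermComp.Spor.J3.main2 h2 hω
  have hfin : Finite (Cfsg.Spor.threeJ3 F ω) := Nat.finite_of_card_ne_zero (by rw [hc1]; norm_num)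
  have hst : IsStemExtension (QuotientGroup.mk' (Subgroup.center (Cfsg.Spor.threeJ3 F ω))) := by
    refine ⟨QuotientGroup.mk'_surjective _, ?_, ?_⟩
    · rw [QuotientGroup.ker_mk']
    · rw [QuotientGroup.ker_mk']
      exact Cfsg.Agent.Lib.Schur.J3.Comm.center_le_commutator h2 hω hc3
  have hker : Nat.card (QuotientGroup.mk' (Subgroup.center (Cfsg.Spor.threeJ3 F ω))).ker = 3 := by
    rw [QuotientGroup.ker_mk']
    exact hc3
  refine hasCyclicSchurMultiplier_of Nat.prime_three.prime.irreducible.squarefree _ _ hst hker ?_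
  intro Γ _ _ σ hσ
  have hσ' : IsStemExtension (e.toMonoidHom.comp σ) := by
    have hk : (e.toMonoidHom.comp σ).ker = σ.ker := by
      ext x
      simp [MonoidHom.mem_ker]
    refine ⟨e.surjective.comp hσ.1, ?_, ?_⟩
    · rw [hk]
      exact hσ.2.1
    · rw [hk]
      exact hσ.2.2
  have hk : (e.toMonoidHom.comp σ).ker = σ.ker := by
    ext x
    simp [MonoidHom.mem_ker]
  rw [← hk]
  have hgen : ∀ c ∈ (Cfsg.Agent.Lib.PermComp.Spor.J3.TABs).reverse, ∃ g ∈ H,
      Core.Rep 13 8191 (Equiv.refl (Fin 6156)) c g := by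
    intro c hc
    have hc2 : c ∈ Cfsg.Agent.Lib.PermComp.Spor.J3.TABs := List.mem_reverse.1 hc
    have hj : ∃ j < 2, c = Core.nthN Cfsg.Agent.Lib.PermComp.Spor.J3.TABs j := by
      rcases List.mem_cons.1 hc2 with h | h
      · exact ⟨0, by norm_num, h⟩
      · rcases List.mem_cons.1 h with h | h
        · exact ⟨1, by norm_num, h⟩
        · simp at h
    obtain ⟨j, hj, rfl⟩ := hj
    obtain ⟨g, hg, hgt⟩ := hgens j hj
    exact ⟨g, hg, fun a => hgt a.1 a.2⟩
  have hmem2 := J3p2.hmem H hgen J3Base.idc_ok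
  have hmem3 := J3p3.hmem H hgen J3Base.idc_ok
  refine card_ker_dvd_of_sylow hσ' 3 (by norm_num) ?_
  intro p _ P
  have hcG : Nat.card H = 50232960 := hc
  by_cases hp2 : p = 2
  · subst hp2
    refine (PcPerm.card_ker_dvd (e := Equiv.refl (Fin 6156)) (p := 2) H J3p2.C J3p2.check_ok J3p2.codes J3p2.conj J3p2.base J3p2.ord
      J3p2.chk_ok hmem2.1 hmem2.2
      rfl hσ' (m := 392445) (by rw [hcG]; decide +kernel) (by norm_num) P).trans (one_dvd _)
  by_cases hp3 : p = 3
  · subst hp3
    exact PcPerm.card_ker_dvd (e := Equiv.refl (Fin 6156)) (p := 3) H J3p3.C J3p3.check_ok J3p3.codes J3p3.conj J3p3.base J3p3.ord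
      J3p3.chk_ok hmem3.1 hmem3.2
      rfl hσ' (m := 206720) (by rw [hcG]; decide +kernel) (by norm_num) P
  · refine (card_ker_sylow_of_not_sq_dvd hσ' ?_ P).trans (one_dvd _)
    rw [hcG]
    intro h
    have hpp : p.Prime := Fact.out
    have hc1 : Nat.Coprime (p ^ 2) (2 ^ 7 * 3 ^ 5) := by
      apply Nat.Coprime.pow_left
      apply Nat.Coprime.mul_right
      · exact Nat.Coprime.pow_right _ ((Nat.coprime_primes hpp Nat.prime_two).2 hp2)
      · exact Nat.Coprime.pow_right _ ((Nat.coprime_primes hpp Nat.prime_three).2 hp3)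
    have h4 : p ^ 2 ∣ 1615 := by
      have : 50232960 = (2 ^ 7 * 3 ^ 5) * 1615 := by norm_num
      rw [this] at h
      exact hc1.dvd_of_dvd_mul_left h
    have h5 : p ∣ 1615 := (dvd_pow_self p two_ne_zero).trans h4
    have h6 : (1615 : ℕ) = 5 * 17 * 19 := by norm_num
    have h7 : p = 5 ∨ p = 17 ∨ p = 19 := by
      rw [h6] at h5
      rcases (Nat.Prime.dvd_mul hpp).1 h5 with h5 | h5
      · rcases (Nat.Prime.dvd_mul hpp).1 h5 with h5 | h5
        · exact Or.inl ((Nat.prime_dvd_prime_iff_eq hpp (by norm_num)).1 h5)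
        · exact Or.inr (Or.inl ((Nat.prime_dvd_prime_iff_eq hpp (by norm_num)).1 h5))
      · exact Or.inr (Or.inr ((Nat.prime_dvd_prime_iff_eq hpp (by norm_num)).1 h5))
    rcases h7 with rfl | rfl | rfl <;> omega

end Cfsg.Agent.S2041
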