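import Cfsg.Statements.S2043
import Cfsg.Agent.Lib.Schur.Co1M.P2
import Cfsg.Agent.Lib.Schur.Co1M.P3
import Cfsg.Agent.Lib.Schur.Co1M.P5
import Cfsg.Agent.Lib.Schur.Co1M.P7
import Cfsg.Agent.Lib.Schur.Local

/-!
The Schur multiplier of the Conway group Co₁ is cyclic of order 2: the central extension by the centre of
the automorphism group of the lattice gives a stem extension with kernel of order 2, and the stable-element
computation at the primes 2, 3, 5, 7 is a kernel-checked tail certificate; the primes 11, 13, 23 divide the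
order once.
-/

set_option autoImplicit false
set_option maxRecDepth 100000
set_option maxHeartbeats 0
open Cfsg

namespace Cfsg.Agent.S2043

open Subgroup Cfsg.Agent.Lib.Schur.Stem Cfsg.Agent.Lib.Schur.Local
open Cfsg.Agent.Lib.Leech.Co1 Cfsg.Agent.Lib.Leech.Center Cfsg.Agent.Lib.Leech.Lat

theorem card_co1 : Nat.card Spor.Co1 = 4157776806543360000 := Cfsg.Agent.Lib.Leech.Co1.isCo1.2

theorem not_sq_dvd {p : ℕ} (hp : p.Prime) (h2 : p ≠ 2) (h3 : p ≠ 3) (h5 : p ≠ 5) (h7 : p ≠ 7) :
    ¬ p ^ 2 ∣ 4157776806543360000 := by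
  intro h
  have hc : Nat.Coprime (p ^ 2) (2 ^ 21 * 3 ^ 9 * 5 ^ 4 * 7 ^ 2) := by
    apply Nat.Coprime.pow_left
    apply Nat.Coprime.mul_right
    · apply Nat.Coprime.mul_right
      · apply Nat.Coprime.mul_right
        · exact Nat.Coprime.pow_right _ ((Nat.coprime_primes hp Nat.prime_two).2 h2)
        · exact Nat.Coprime.pow_right _ ((Nat.coprime_primes hp Nat.prime_three).2 h3)
      · exact Nat.Coprime.pow_right _ ((Nat.coprime_primes hp Nat.prime_five).2 h5)
    · exact Nat.Coprime.pow_right _ ((Nat.coprime_primes hp (by norm_num : Nat.Prime 7)).2 h7)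
  have h4 : p ^ 2 ∣ 3289 := by
    have : 4157776806543360000 = (2 ^ 21 * 3 ^ 9 * 5 ^ 4 * 7 ^ 2) * 3289 := by norm_num
    rw [this] at h
    exact hc.dvd_of_dvd_mul_left h
  obtain ⟨k, hk⟩ := h4
  have hp2 : p ≥ 2 := hp.two_le
  have h5 : p ≤ 57 := by
    by_contra hh
    have h6 : 58 ≤ p := by omega
    have h7 : 58 * 58 ≤ p ^ 2 := by nlinarith
    have h8 : k ≠ 0 := by
      rintro rfl
      simp at hk
    have h9 : p ^ 2 ≤ p ^ 2 * k := Nat.le_mul_of_pos_right _ (Nat.pos_of_ne_zero h8)
    omega
  interval_cases p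
  all_goals omega

theorem stem0 : IsStemExtension (QuotientGroup.mk' (Subgroup.center Co0)) := by
  refine ⟨QuotientGroup.mk'_surjective _, ?_, ?_⟩
  · rw [QuotientGroup.ker_mk']
  · rw [QuotientGroup.ker_mk', commutator_eq_top]
    exact le_top

/-- The Schur multiplier of the Conway group Co₁ (the automorphism group of the rank-24 lattice modulo its centre) is cyclic of order 2; here the Schur multiplier is described through stem extensions. -/
theorem result : Cfsg.HasCyclicSchurMultiplier Cfsg.Spor.Co1 2 := by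
  have hfin : Finite Co0 := inferInstance
  refine hasCyclicSchurMultiplier_of (n := 2) (Irreducible.squarefree Nat.prime_two) Co0 (QuotientGroup.mk' (Subgroup.center Co0)) stem0 ?_ ?_
  · rw [QuotientGroup.ker_mk']
    exact card_center
  · intro Γ _ _ σ hσ
    refine card_ker_dvd_of_sylow hσ 2 (by norm_num) ?_
    intro p _ P
    have hp : p.Prime := Fact.out
    by_cases hp2 : p = 2
    · subst hp2
      exact Cfsg.Agent.Lib.Schur.Co1M.P2.main hσ (by rw [card_co1]; norm_num) P
    by_cases hp3 : p = 3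
    · subst hp3
      exact dvd_trans (Cfsg.Agent.Lib.Schur.Co1M.P3.main hσ (by rw [card_co1]; norm_num) P) (one_dvd _)
    by_cases hp5 : p = 5
    · subst hp5
      exact dvd_trans (Cfsg.Agent.Lib.Schur.Co1M.P5.main hσ (by rw [card_co1]; norm_num) P) (one_dvd _)
    by_cases hp7 : p = 7
    · subst hp7
      exact dvd_trans (Cfsg.Agent.Lib.Schur.Co1M.P7.main hσ (by rw [card_co1]; norm_num) P) (one_dvd _)
    · refine dvd_trans (card_ker_sylow_of_not_sq_dvd hσ ?_ P) (one_dvd _)
      rw [card_co1]
      exact not_sq_dvd hp hp2 hp3 hp5 hp7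

end Cfsg.Agent.S2043
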