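-- Statement S2044.
import Cfsg.Statements.S2044
import Cfsg.Agent.Lib.ConwayP.Co2Base
import Cfsg.Agent.Lib.ConwayP.Co2p2
import Cfsg.Agent.Lib.ConwayP.Co2p3
import Cfsg.Agent.Lib.ConwayP.Co2p5
import Cfsg.Agent.Lib.ConwayP.LatFast
import Cfsg.Agent.Lib.Schur.Local

/-!
The Schur multiplier of `Co₂` is trivial: the stable-element computation at the primes 2, 3, 5 is a
kernel-checked tail certificate whose letters are words in the generators of `Co₀` acting on the
Leech lattice, and the remaining primes 7, 11, 23 divide the order once.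
-/

set_option autoImplicit false
set_option maxRecDepth 100000
set_option maxHeartbeats 0
open Cfsg

namespace Cfsg.Agent.S2044

open Subgroup Cfsg.Agent.Lib.Schur.Stem Cfsg.Agent.Lib.Schur.Local
open Cfsg.Agent.Lib.ConwayP Cfsg.Agent.Lib.ConwayP.Bridge Cfsg.Agent.Lib.ConwayP.Co2Base
open Cfsg.Agent.Lib.ConwayP.LatPc

theorem not_sq_dvd {p : ℕ} (hp : p.Prime) (h2 : p ≠ 2) (h3 : p ≠ 3) (h5 : p ≠ 5) :
    ¬ p ^ 2 ∣ 42305421312000 := by
  intro h
  have hc : Nat.Coprime (p ^ 2) (2 ^ 18 * 3 ^ 6 * 5 ^ 3) := by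
    apply Nat.Coprime.pow_left
    apply Nat.Coprime.mul_right
    · apply Nat.Coprime.mul_right
      · exact Nat.Coprime.pow_right _ ((Nat.coprime_primes hp Nat.prime_two).2 h2)
      · exact Nat.Coprime.pow_right _ ((Nat.coprime_primes hp Nat.prime_three).2 h3)
    · exact Nat.Coprime.pow_right _ ((Nat.coprime_primes hp Nat.prime_five).2 h5)
  have h4 : p ^ 2 ∣ 1771 := by
    have : 42305421312000 = (2 ^ 18 * 3 ^ 6 * 5 ^ 3) * 1771 := by norm_num
    rw [this] at h
    exact hc.dvd_of_dvd_mul_left h
  have h5 := Nat.le_of_dvd (by norm_num) h4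
  have h6 : p ≤ 42 := by nlinarith
  interval_cases p
  all_goals first | omega | (norm_num at hp; done) | (norm_num at h4; done)

theorem bound : StemBound.{0} (KK Cfsg.Spor.leechU) 1 := by
  intro Γ _ _ σ hσ
  refine card_ker_dvd_of_sylow hσ 1 one_ne_zero ?_
  intro p _ P
  by_cases hp2 : p = 2
  · subst hp2
    exact LatPc.card_ker_dvdF (p := 2) hu Co2p2.C Co2p2.check_ok LatSpan.spans Co2p2.hL Co2p2.hY
      (fun j hj => List.all_eq_true.1 Co2p2.hrow j (List.mem_range.2 hj))
      (fun f hf => List.all_eq_true.1 Co2p2.hitem f (List.mem_range.2 hf))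
      Co2p2.Lv Co2p2.hLv Co2p2.hprod rfl hσ
      (m := 161382375) (by rw [card_K]; decide +kernel) (by norm_num) P
  by_cases hp3 : p = 3
  · subst hp3
    exact LatPc.card_ker_dvd (p := 3) hu Co2p3.C Co2p3.check_ok LatSpan.spans Co2p3.hL Co2p3.hY
      (fun j hj => List.all_eq_true.1 Co2p3.hrow j (List.mem_range.2 hj))
      (fun f hf => List.all_eq_true.1 Co2p3.hitem f (List.mem_range.2 hf))
      Co2p3.Lv Co2p3.hLv Co2p3.hprod rfl hσ
      (m := 58032128000) (by rw [card_K]; decide +kernel) (by norm_num) P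
  by_cases hp5 : p = 5
  · subst hp5
    exact LatPc.card_ker_dvd (p := 5) hu Co2p5.C Co2p5.check_ok LatSpan.spans Co2p5.hL Co2p5.hY
      (fun j hj => List.all_eq_true.1 Co2p5.hrow j (List.mem_range.2 hj))
      (fun f hf => List.all_eq_true.1 Co2p5.hitem f (List.mem_range.2 hf))
      Co2p5.Lv Co2p5.hLv Co2p5.hprod rfl hσ
      (m := 338443370496) (by rw [card_K]; decide +kernel) (by norm_num) P
  · refine card_ker_sylow_of_not_sq_dvd hσ ?_ P
    rw [card_K]
    exact not_sq_dvd Fact.out hp2 hp3 hp5

/-- The Schur multiplier of the Conway group Co₂ (the stabiliser of a minimal vector of the rank-24 lattice) is trivial; here the Schur multiplier is described through stem extensions, as in the definitions: surjective homomorphisms onto the group from a finite group, whose kernel is central in that finite group and contained in that finite group's commutator subgroup. -/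
theorem result : Cfsg.HasCyclicSchurMultiplier ↥Cfsg.Spor.Co2 1 := by
  have : Finite (KK Cfsg.Spor.leechU) := finKK
  refine hasCyclicSchurMultiplier_one (G := KK Cfsg.Spor.leechU) ?_
  exact bound

end Cfsg.Agent.S2044
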