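-- Statement S2045.
import Cfsg.Statements.S2045
import Cfsg.Agent.Lib.ConwayP.Co3Main
import Cfsg.Agent.Lib.ConwayP.Co3p2
import Cfsg.Agent.Lib.ConwayP.Co3p3
import Cfsg.Agent.Lib.ConwayP.Co3p5
import Cfsg.Agent.Lib.Schur.Local

/-!
The Schur multiplier of `Co₃` is trivial: the stable-element computation at the primes 2, 3, 5 is a
kernel-checked tail certificate, and the remaining primes 7, 11, 23 divide the order once.
-/

set_option autoImplicit false
set_option maxRecDepth 100000
set_option maxHeartbeats 0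
open Cfsg

namespace Cfsg.Agent.S2045

open Subgroup Cfsg.Agent.Lib.Schur.Stem Cfsg.Agent.Lib.Schur.Local
open Cfsg.Agent.Lib.PermComp Cfsg.Agent.Lib.PermComp.Core
open Cfsg.Agent.Lib.Schur.Slp2
open Cfsg.Agent.Lib.ConwayP.Co3Data Cfsg.Agent.Lib.ConwayP.Co3Main
open Cfsg.Agent.Lib.ConwayP

theorem not_sq_dvd {p : ℕ} (hp : p.Prime) (h2 : p ≠ 2) (h3 : p ≠ 3) (h5 : p ≠ 5) :
    ¬ p ^ 2 ∣ 495766656000 := by
  intro h
  have hc : Nat.Coprime (p ^ 2) (2 ^ 10 * 3 ^ 7 * 5 ^ 3) := by
    apply Nat.Coprime.pow_left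
    apply Nat.Coprime.mul_right
    · apply Nat.Coprime.mul_right
      · exact Nat.Coprime.pow_right _ ((Nat.coprime_primes hp Nat.prime_two).2 h2)
      · exact Nat.Coprime.pow_right _ ((Nat.coprime_primes hp Nat.prime_three).2 h3)
    · exact Nat.Coprime.pow_right _ ((Nat.coprime_primes hp Nat.prime_five).2 h5)
  have h4 : p ^ 2 ∣ 1771 := by
    have : 495766656000 = (2 ^ 10 * 3 ^ 7 * 5 ^ 3) * 1771 := by norm_num
    rw [this] at h
    exact hc.dvd_of_dvd_mul_left h
  have h5 := Nat.le_of_dvd (by norm_num) h4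
  have h6 : p ≤ 42 := by nlinarith
  interval_cases p
  all_goals first | omega | (norm_num at hp; done) | (norm_num at h4; done)

theorem bound : StemBound.{0} Ag 1 := by
  have hS' : ∀ c ∈ S.reverse, ∃ g ∈ Ag, Rep co3_w co3_mask (Equiv.refl (Fin co3_n)) c g :=
    fun c hc => S_mem c (by simpa using hc)
  intro Γ _ _ σ hσ
  refine card_ker_dvd_of_sylow hσ 1 one_ne_zero ?_
  intro p _ P
  by_cases hp2 : p = 2
  · subst hp2
    have hmem := slp2_sound hm hid Ag _ Co3p2.prog S.reverse S.length (by simp) hS' Co3p2.slp_ok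
    exact Cfsg.Agent.Lib.Schur.PcPerm.card_ker_dvd (p := 2) Ag Co3p2.C Co3p2.check_ok Co3p2.codes Co3p2.conj
      Co3p2.base Co3p2.ord Co3p2.chk_ok (fun c hc => hmem c (List.mem_append_left _ hc))
      (fun c hc => hmem c (List.mem_append_right _ hc)) rfl hσ
      (m := 484147125) (by rw [card_Ag]; decide +kernel) (by norm_num) P
  by_cases hp3 : p = 3
  · subst hp3
    have hmem := slp2_sound hm hid Ag _ Co3p3.prog S.reverse S.length (by simp) hS' Co3p3.slp_ok
    exact Cfsg.Agent.Lib.Schur.PcPerm.card_ker_dvd (p := 3) Ag Co3p3.C Co3p3.check_ok Co3p3.codes Co3p3.conj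
      Co3p3.base Co3p3.ord Co3p3.chk_ok (fun c hc => hmem c (List.mem_append_left _ hc))
      (fun c hc => hmem c (List.mem_append_right _ hc)) rfl hσ
      (m := 226688000) (by rw [card_Ag]; decide +kernel) (by norm_num) P
  by_cases hp5 : p = 5
  · subst hp5
    have hmem := slp2_sound hm hid Ag _ Co3p5.prog S.reverse S.length (by simp) hS' Co3p5.slp_ok
    exact Cfsg.Agent.Lib.Schur.PcPerm.card_ker_dvd (p := 5) Ag Co3p5.C Co3p5.check_ok Co3p5.codes Co3p5.conj
      Co3p5.base Co3p5.ord Co3p5.chk_ok (fun c hc => hmem c (List.mem_append_left _ hc))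
      (fun c hc => hmem c (List.mem_append_right _ hc)) rfl hσ
      (m := 3966133248) (by rw [card_Ag]; decide +kernel) (by norm_num) P
  · refine card_ker_sylow_of_not_sq_dvd hσ ?_ P
    rw [card_Ag]
    exact not_sq_dvd Fact.out hp2 hp3 hp5

/-- The Schur multiplier of the group is trivial. -/
theorem multiplier_abstract {G : Type} [Group G] (A : Type) [Group A] [Finite A] (e : G ≃* A)
    (h : StemBound.{0} A 1) : Cfsg.HasCyclicSchurMultiplier G 1 := by
  have : Finite G := Finite.of_equiv _ e.symm.toEquiv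
  refine hasCyclicSchurMultiplier_one ?_
  intro Γ _ _ σ hσ
  exact (h.congr e.symm) Γ σ hσ

/-- The Schur multiplier of the Conway group Co₃ (the stabiliser of a vector of the second shortest length in the rank-24 lattice) is trivial; here the Schur multiplier is described through stem extensions, as in the definitions: surjective homomorphisms onto the group from a finite group, whose kernel is central in that finite group and contained in that finite group's commutator subgroup. -/
theorem result : Cfsg.HasCyclicSchurMultiplier ↥Cfsg.Spor.Co3 1 := by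
  obtain ⟨e⟩ := nonempty_equiv
  exact multiplier_abstract ↥Ag e bound

end Cfsg.Agent.S2045
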