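import Cfsg.Statements.S2046
import Cfsg.Agent.Lib.HSSch.Upper
import Cfsg.Agent.Lib.HSCov.K2
import Cfsg.Agent.Lib.Schur.Transport

set_option autoImplicit false
open Cfsg

namespace Cfsg.Agent.S2046

/-- The Schur multiplier of the Higman–Sims group (as a two-vector stabiliser in the automorphism group of the rank-24 lattice) is cyclic of order 2; here the Schur multiplier is described through stem extensions, as in the definitions: surjective homomorphisms onto the group from a finite group, whose kernel is central in that finite group and contained in that finite group's commutator subgroup. -/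
theorem result : Cfsg.HasCyclicSchurMultiplier ↥Cfsg.Spor.HS 2 := by
  classical
  obtain ⟨e⟩ := Cfsg.Agent.Lib.LeechP.HS.iso_PP
  obtain ⟨Γ, _, _, σ, hσ, hc⟩ := Cfsg.Agent.Lib.HSCov.K2.exists_stem
  exact Cfsg.Agent.Lib.Schur.Transport.hasCyclicSchurMultiplier_of_equiv e
    Nat.prime_two.prime.squarefree σ hσ hc
    (fun Γ _ _ σ' hσ' => Cfsg.Agent.Lib.HSSch.card_ker_dvd_P hσ')

end Cfsg.Agent.S2046
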