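-- Statement S2049.
import Cfsg.Statements.S2049
import Cfsg.Agent.Lib.TC.D.HeChain.Main
import Cfsg.Agent.Lib.PermComp.OutP.Pres
import Cfsg.Agent.Lib.Schur.Local
import Cfsg.Agent.Lib.Schur.Cert.Hep2
import Cfsg.Agent.Lib.Schur.Cert.Hep3
import Cfsg.Agent.Lib.Schur.Cert.Hep5
import Cfsg.Agent.Lib.Schur.Cert.Hep7

/-!
The Schur multiplier of the Held group is trivial: the stable-element computation at the primes
2, 3, 5, 7 is a kernel-checked tail certificate, and the remaining prime 17 divides the order once.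
-/

set_option autoImplicit false
set_option maxRecDepth 100000
set_option maxHeartbeats 0
open Cfsg

namespace Cfsg.Agent.S2049

open Subgroup Cfsg.Agent.Lib.Schur.Stem Cfsg.Agent.Lib.Schur.Local
open Cfsg.Agent.Lib.PermComp Cfsg.Agent.Lib.PermComp.OutP
open Cfsg.Agent.Lib.PermComp.Core (Rep app)
open Cfsg.Agent.Lib.PermComp.Kron (rangeAll)
open Cfsg.Agent.Lib.Schur.HeT Cfsg.Agent.Lib.Schur.Cert Cfsg.Agent.Lib.Schur.Slp2

private noncomputable abbrev pt := Cfsg.Agent.Lib.TC.D.HeSp44.Tab.pt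

private theorem hm : 4095 = 2 ^ 12 - 1 := by norm_num

private theorem hid0 : (List.range 2058).all (fun i => Nat.beq (app 12 4095 idc i) i) = true := by
  decide +kernel

private theorem hid : ∀ i < 2058, app 12 4095 idc i = i := fun i hi =>
  Nat.eq_of_beq_eq_true (List.all_eq_true.1 hid0 i (List.mem_range.2 hi))

private theorem ck (H : Subgroup (Equiv.Perm (Fin 2058)))
    (hH : ∀ c < 7, ∃ e ∈ H, ∀ (p : Nat) (hp : p < 2058), pt.T c p = (e ⟨p, hp⟩ : Fin 2058))
    (j : Nat) (hj : j < 7)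
    (h : rangeAll (fun q => Nat.beq (app 12 4095 (T.getD j 0) q) (pt.T j q)) 0 2058 = true) :
    ∃ g ∈ H, Rep (n := 2058) 12 4095 (Equiv.refl _) (T.getD j 0) g := by
  obtain ⟨e, he, hg⟩ := hH j hj
  refine ⟨e, he, fun a => ?_⟩
  have h1 := Nat.eq_of_beq_eq_true (Kron.rangeAll_spec h a.1 (Nat.zero_le _) a.2)
  show app 12 4095 (T.getD j 0) a.1 = (e a : Fin 2058).1
  rw [h1]
  exact hg a.1 a.2

private theorem T_mem (H : Subgroup (Equiv.Perm (Fin 2058)))
    (hH : ∀ c < 7, ∃ e ∈ H, ∀ (p : Nat) (hp : p < 2058), pt.T c p = (e ⟨p, hp⟩ : Fin 2058)) :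
    ∀ c ∈ T, ∃ g ∈ H, Rep (n := 2058) 12 4095 (Equiv.refl _) c g := by
  have hlen : T.length = 7 := by decide +kernel
  intro c hc
  obtain ⟨j, hj, rfl⟩ := List.getElem_of_mem hc
  have hj7 : j < 7 := hlen ▸ hj
  have := (show ∀ j < 7, ∃ g ∈ H, Rep (n := 2058) 12 4095 (Equiv.refl _) (T.getD j 0) g by
    intro j hj
    have hj' : j = 0 ∨ j = 1 ∨ j = 2 ∨ j = 3 ∨ j = 4 ∨ j = 5 ∨ j = 6 := by omega
    rcases hj' with rfl | rfl | rfl | rfl | rfl | rfl | rfl
    · exact ck H hH 0 (by decide) (by decide +kernel)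
    · exact ck H hH 1 (by decide) (by decide +kernel)
    · exact ck H hH 2 (by decide) (by decide +kernel)
    · exact ck H hH 3 (by decide) (by decide +kernel)
    · exact ck H hH 4 (by decide) (by decide +kernel)
    · exact ck H hH 5 (by decide) (by decide +kernel)
    · exact ck H hH 6 (by decide) (by decide +kernel)) j hj7
  rw [List.getD_eq_getElem T 0 hj] at this
  exact this

private theorem S_mem (H : Subgroup (Equiv.Perm (Fin 2058)))
    (hT : ∀ c ∈ T, ∃ g ∈ H, Rep (n := 2058) 12 4095 (Equiv.refl _) c g) :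
    ∀ c ∈ S, ∃ g ∈ H, Rep (n := 2058) 12 4095 (Equiv.refl _) c g :=
  slp2_sound hm hid H S prog0 T.reverse T.length (by simp) (fun c hc => hT c (by simpa using hc))
    Cfsg.Agent.Lib.Schur.HeT.slp_ok

theorem not_sq_dvd {p : ℕ} (hp : p.Prime) (h2 : p ≠ 2) (h3 : p ≠ 3) (h5 : p ≠ 5) (h7 : p ≠ 7) :
    ¬ p ^ 2 ∣ 4030387200 := by
  intro h
  have hc : Nat.Coprime (p ^ 2) (2 ^ 10 * 3 ^ 3 * 5 ^ 2 * 7 ^ 3) := by
    apply Nat.Coprime.pow_left
    apply Nat.Coprime.mul_right
    · apply Nat.Coprime.mul_right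
      · apply Nat.Coprime.mul_right
        · exact Nat.Coprime.pow_right _ ((Nat.coprime_primes hp Nat.prime_two).2 h2)
        · exact Nat.Coprime.pow_right _ ((Nat.coprime_primes hp Nat.prime_three).2 h3)
      · exact Nat.Coprime.pow_right _ ((Nat.coprime_primes hp Nat.prime_five).2 h5)
    · exact Nat.Coprime.pow_right _ ((Nat.coprime_primes hp (by norm_num : Nat.Prime 7)).2 h7)
  have h4 : p ^ 2 ∣ 17 := by
    have : 4030387200 = (2 ^ 10 * 3 ^ 3 * 5 ^ 2 * 7 ^ 3) * 17 := by norm_num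
    rw [this] at h
    exact hc.dvd_of_dvd_mul_left h
  have h5 := Nat.le_of_dvd (by norm_num) h4
  have h6 : p ≤ 4 := by nlinarith
  interval_cases p
  all_goals first | omega | (norm_num at hp; done) | (norm_num at h4; done)

private theorem bound (H : Subgroup (Equiv.Perm (Fin 2058)))
    (hH : ∀ c < 7, ∃ e ∈ H, ∀ (p : Nat) (hp : p < 2058), pt.T c p = (e ⟨p, hp⟩ : Fin 2058))
    (hcard : Nat.card H = 4030387200) : StemBound.{0} H 1 := by
  have hS := S_mem H (T_mem H hH)
  have hS' : ∀ c ∈ S.reverse, ∃ g ∈ H, Rep (n := 2058) 12 4095 (Equiv.refl _) c g :=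
    fun c hc => hS c (by simpa using hc)
  intro Γ _ _ σ hσ
  refine card_ker_dvd_of_sylow hσ 1 one_ne_zero ?_
  intro p _ P
  by_cases hp2 : p = 2
  · subst hp2
    have hmem := slp2_sound hm hid H _ Hep2.prog S.reverse S.length (by simp) hS' Hep2.slp_ok
    exact Cfsg.Agent.Lib.Schur.PcPerm.card_ker_dvd (p := 2) H Hep2.C Hep2.check_ok Hep2.codes Hep2.conj Hep2.base Hep2.ord
      Hep2.chk_ok (fun c hc => hmem c (List.mem_append_left _ hc))
      (fun c hc => hmem c (List.mem_append_right _ hc)) rfl hσ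
      (m := 3935925) (by rw [hcard]; decide +kernel) (by norm_num) P
  by_cases hp3 : p = 3
  · subst hp3
    have hmem := slp2_sound hm hid H _ Hep3.prog S.reverse S.length (by simp) hS' Hep3.slp_ok
    exact Cfsg.Agent.Lib.Schur.PcPerm.card_ker_dvd (p := 3) H Hep3.C Hep3.check_ok Hep3.codes Hep3.conj Hep3.base Hep3.ord
      Hep3.chk_ok (fun c hc => hmem c (List.mem_append_left _ hc))
      (fun c hc => hmem c (List.mem_append_right _ hc)) rfl hσ
      (m := 149273600) (by rw [hcard]; decide +kernel) (by norm_num) P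
  by_cases hp5 : p = 5
  · subst hp5
    have hmem := slp2_sound hm hid H _ Hep5.prog S.reverse S.length (by simp) hS' Hep5.slp_ok
    exact Cfsg.Agent.Lib.Schur.PcPerm.card_ker_dvd (p := 5) H Hep5.C Hep5.check_ok Hep5.codes Hep5.conj Hep5.base Hep5.ord
      Hep5.chk_ok (fun c hc => hmem c (List.mem_append_left _ hc))
      (fun c hc => hmem c (List.mem_append_right _ hc)) rfl hσ
      (m := 161215488) (by rw [hcard]; decide +kernel) (by norm_num) P
  by_cases hp7 : p = 7
  · subst hp7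
    have hmem := slp2_sound hm hid H _ Hep7.prog S.reverse S.length (by simp) hS' Hep7.slp_ok
    exact Cfsg.Agent.Lib.Schur.PcPerm.card_ker_dvd (p := 7) H Hep7.C Hep7.check_ok Hep7.codes Hep7.conj Hep7.base Hep7.ord
      Hep7.chk_ok (fun c hc => hmem c (List.mem_append_left _ hc))
      (fun c hc => hmem c (List.mem_append_right _ hc)) rfl hσ
      (m := 11750400) (by rw [hcard]; decide +kernel) (by norm_num) P
  · refine card_ker_sylow_of_not_sq_dvd hσ ?_ P
    rw [hcard]
    exact not_sq_dvd Fact.out hp2 hp3 hp5 hp7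

/-- The Schur multiplier of the Held group is trivial. -/
theorem result : Cfsg.HasCyclicSchurMultiplier Cfsg.Spor.He 1 := by
  obtain ⟨hs, hc⟩ := Cfsg.Agent.Lib.TC.D.HeChain.Main.simple_card
  obtain ⟨H, ⟨e⟩, hH, hgen⟩ := exists_model Cfsg.Agent.Lib.TC.D.HeSp44.Ok.ok hs hc (c0 := 0) (i0 := 18)
    (by decide +kernel) (by decide +kernel) (by decide +kernel)
  have hfin : Finite Cfsg.Spor.He := Nat.finite_of_card_ne_zero (by rw [hc]; norm_num)
  refine hasCyclicSchurMultiplier_one ?_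
  intro Γ _ _ σ hσ
  exact (bound H hgen hH).congr e.symm Γ σ hσ

end Cfsg.Agent.S2049
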