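import Cfsg.Statements.S2050
import Cfsg.Agent.Lib.Schur.Local
import Cfsg.Agent.Lib.Schur.LyP.P2
import Cfsg.Agent.Lib.Schur.LyP.P3
import Cfsg.Agent.Lib.Schur.LyP.P5

/-!
The Schur multiplier of the Lyons group is trivial.

The primes two and three: stable elements, in tail certificates whose relations are computations with the matrices of
the faithful representation of degree `111` over the field with five elements.  The prime five: the subgroup `G₂(5)`
has index prime to five and trivial multiplier.  The other primes divide the order at most once.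
-/

set_option autoImplicit false
open Cfsg

namespace Cfsg.Agent.S2050

open Cfsg.Agent.Lib.Schur.Stem Cfsg.Agent.Lib.Schur.Local Cfsg.Agent.Lib.DCE.Ly.Exp Cfsg.Agent.Lib.DCE.Ly.Final

theorem not_sq_dvd {p : ℕ} (hp : p.Prime) (h2 : p ≠ 2) (h3 : p ≠ 3) (h5 : p ≠ 5) :
    ¬ p ^ 2 ∣ 51765179004000000 := by
  intro h
  have hc : Nat.Coprime (p ^ 2) (2 ^ 8 * 3 ^ 7 * 5 ^ 6) := by
    apply Nat.Coprime.pow_left
    apply Nat.Coprime.mul_right
    · apply Nat.Coprime.mul_right
      · exact Nat.Coprime.pow_right _ ((Nat.coprime_primes hp Nat.prime_two).2 h2)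
      · exact Nat.Coprime.pow_right _ ((Nat.coprime_primes hp Nat.prime_three).2 h3)
    · exact Nat.Coprime.pow_right _ ((Nat.coprime_primes hp (by norm_num)).2 h5)
  have h4 : p ^ 2 ∣ 5917373 := by
    have : 51765179004000000 = (2 ^ 8 * 3 ^ 7 * 5 ^ 6) * 5917373 := by norm_num
    rw [this] at h
    exact hc.dvd_of_dvd_mul_left h
  have h7 : p ∣ 5917373 := (dvd_pow_self p (by norm_num)).trans h4
  have h8 : p ∈ ({7, 11, 31, 37, 67} : Finset ℕ) := by
    have hf : (5917373 : ℕ) = 7 * 11 * 31 * 37 * 67 := by norm_num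
    rw [hf] at h7
    have q1 := (Nat.Prime.dvd_mul hp).1 h7
    rcases q1 with q1 | q1
    · rcases (Nat.Prime.dvd_mul hp).1 q1 with q2 | q2
      · rcases (Nat.Prime.dvd_mul hp).1 q2 with q3 | q3
        · rcases (Nat.Prime.dvd_mul hp).1 q3 with q4 | q4
          · simp [(Nat.prime_dvd_prime_iff_eq hp (by norm_num)).1 q4]
          · simp [(Nat.prime_dvd_prime_iff_eq hp (by norm_num)).1 q4]
        · simp [(Nat.prime_dvd_prime_iff_eq hp (by norm_num)).1 q3]
      · simp [(Nat.prime_dvd_prime_iff_eq hp (by norm_num)).1 q2]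
    · simp [(Nat.prime_dvd_prime_iff_eq hp (by norm_num)).1 q1]
  simp only [Finset.mem_insert, Finset.mem_singleton] at h8
  rcases h8 with rfl | rfl | rfl | rfl | rfl <;> norm_num at h4

/-- The Schur multiplier of the Lyons group (the finitely presented group of the definitions) is trivial. -/
theorem result : Cfsg.HasCyclicSchurMultiplier Cfsg.Spor.Ly 1 := by
  have hfin : Finite Γ := finiteG
  refine hasCyclicSchurMultiplier_one (G := Γ) ?_
  intro Δ _ _ σ hσ
  refine card_ker_dvd_of_sylow hσ 1 (by norm_num) ?_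
  intro p _ P
  by_cases hp2 : p = 2
  · subst hp2
    exact Cfsg.Agent.Lib.Schur.LyP.P2.card_ker hσ P
  by_cases hp3 : p = 3
  · subst hp3
    exact Cfsg.Agent.Lib.Schur.LyP.P3.card_ker hσ P
  by_cases hp5 : p = 5
  · subst hp5
    exact Cfsg.Agent.Lib.Schur.LyP.P5.card_ker hσ P
  · refine card_ker_sylow_of_not_sq_dvd hσ ?_ P
    rw [card_G]
    exact not_sq_dvd Fact.out hp2 hp3 hp5

end Cfsg.Agent.S2050
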