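-- Statement S2051.
import Cfsg.Statements.S2051
import Cfsg.Agent.Lib.Schur.Ru.Main
import Cfsg.Agent.Lib.RuBridge.Iso
import Cfsg.Agent.Lib.RuBridge.Neg

/-!
The Schur multiplier of the Rudvalis group is cyclic of order 2.

The bound: tail certificates at the primes 2, 3, 5 on the model of degree 4060.
The stem extension: the commutator subgroup of the lattice automorphism group.
-/

set_option autoImplicit false
set_option linter.style.haveILetI false
open Cfsg

namespace Cfsg.Agent.S2051

open Subgroup Cfsg.Spor Cfsg.Agent.Lib.Schur.Stem Cfsg.Agent.Lib.RuBridge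
open scoped commutatorElement

section Gen

variable {Γ Q : Type} [Group Γ] [Group Q]

private theorem comm_map (π : Γ →* Q) (hπ : Function.Surjective π) :
    (commutator Γ).map π = commutator Q := by
  rw [_root_.commutator_def, _root_.commutator_def, Subgroup.map_commutator,
    ← MonoidHom.range_eq_map, MonoidHom.range_eq_top.2 hπ]

private theorem sup_top_gen (π : Γ →* Q) (hπ : Function.Surjective π) (hker : π.ker = center Γ)
    (hQ : commutator Q = ⊤) : commutator Γ ⊔ center Γ = ⊤ := by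
  rw [← Subgroup.comap_map_eq_self (H := commutator Γ ⊔ center Γ) (f := π)]
  · rw [Subgroup.map_sup, comm_map π hπ, hQ]
    simp
  · rw [hker]
    exact le_sup_right

private theorem surj_gen (π : Γ →* Q) (hπ : Function.Surjective π) (hQ : commutator Q = ⊤) :
    Function.Surjective (π.comp (commutator Γ).subtype) := by
  intro x
  have hx : x ∈ (commutator Γ).map π := by rw [comm_map π hπ, hQ]; trivial
  obtain ⟨y, hy, rfl⟩ := hx
  exact ⟨⟨y, hy⟩, rfl⟩

private theorem comm_central (a1 a2 b1 b2 : Γ) (ha2 : a2 ∈ center Γ) (hb2 : b2 ∈ center Γ) :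
    ⁅a1 * a2, b1 * b2⁆ = ⁅a1, b1⁆ := by
  have h1 : ∀ g, a2 * g = g * a2 := fun g => (mem_center_iff.1 ha2 g).symm
  have h2 : ∀ g, b2 * g = g * b2 := fun g => (mem_center_iff.1 hb2 g).symm
  simp only [commutatorElement_def, mul_inv_rev]
  calc a1 * a2 * (b1 * b2) * (a2⁻¹ * a1⁻¹) * (b2⁻¹ * b1⁻¹)
      = a1 * (a2 * (b1 * b2)) * a2⁻¹ * a1⁻¹ * b2⁻¹ * b1⁻¹ := by group
    _ = a1 * ((b1 * b2) * a2) * a2⁻¹ * a1⁻¹ * b2⁻¹ * b1⁻¹ := by rw [h1 (b1 * b2)]
    _ = a1 * b1 * (b2 * a1⁻¹) * b2⁻¹ * b1⁻¹ := by group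
    _ = a1 * b1 * (a1⁻¹ * b2) * b2⁻¹ * b1⁻¹ := by rw [h2 a1⁻¹]
    _ = a1 * b1 * a1⁻¹ * b1⁻¹ := by group

private theorem comm_perfect_gen (h : commutator Γ ⊔ center Γ = ⊤) :
    ⁅commutator Γ, commutator Γ⁆ = commutator Γ := by
  apply le_antisymm
  · exact Subgroup.commutator_le_left _ _
  · conv_rhs => rw [_root_.commutator_def Γ]
    conv_lhs => rw [_root_.commutator_def Γ]
    rw [Subgroup.commutator_le]
    intro a _ b _
    have ha : a ∈ commutator Γ ⊔ center Γ := by rw [h]; trivial
    have hb : b ∈ commutator Γ ⊔ center Γ := by rw [h]; trivial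
    rw [← SetLike.mem_coe, Subgroup.mul_normal] at ha hb
    obtain ⟨a1, ha1, a2, ha2, rfl⟩ := Set.mem_mul.1 ha
    obtain ⟨b1, hb1, b2, hb2, rfl⟩ := Set.mem_mul.1 hb
    rw [comm_central a1 a2 b1 b2 ha2 hb2, ← _root_.commutator_def Γ]
    exact Subgroup.commutator_mem_commutator ha1 hb1

private theorem ker_le_comm_gen (π : Γ →* Q) (h : commutator Γ ⊔ center Γ = ⊤) :
    (π.comp (commutator Γ).subtype).ker ≤ commutator ↥(commutator Γ) := by
  intro x _
  have h1 : (x : Γ) ∈ ⁅commutator Γ, commutator Γ⁆ := by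
    rw [comm_perfect_gen h]; exact x.2
  have h2 : (commutator ↥(commutator Γ)).map (commutator Γ).subtype =
      ⁅commutator Γ, commutator Γ⁆ := by
    rw [_root_.commutator_def ↥(commutator Γ), Subgroup.map_commutator,
      ← MonoidHom.range_eq_map, Subgroup.range_subtype]
  rw [← h2] at h1
  obtain ⟨y, hy, hyx⟩ := h1
  have : y = x := Subtype.ext hyx
  rwa [← this]

private theorem stem_gen (π : Γ →* Q) (hπ : Function.Surjective π) (hker : π.ker = center Γ)
    (hQ : commutator Q = ⊤) : IsStemExtension (π.comp (commutator Γ).subtype) := by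
  refine ⟨surj_gen π hπ hQ, ?_, ker_le_comm_gen π (sup_top_gen π hπ hker hQ)⟩
  intro x hx
  have hx' : (x : Γ) ∈ π.ker := hx
  rw [hker] at hx'
  rw [mem_center_iff]
  intro y
  apply Subtype.ext
  exact mem_center_iff.1 hx' (y : Γ)

private theorem card_ker_gen [Finite Γ] (π : Γ →* Q) (hker : π.ker = center Γ)
    (hb : Nat.card (π.comp (commutator Γ).subtype).ker ∣ 2)
    (s : Γ) (hs : s ∈ center Γ) (hs2 : s ^ 2 ∈ commutator Γ) (hord : s ^ 2 ≠ 1) :
    Nat.card (π.comp (commutator Γ).subtype).ker = 2 := by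
  have hle := Nat.le_of_dvd (by norm_num) hb
  have hmem : (⟨s ^ 2, hs2⟩ : ↥(commutator Γ)) ∈ (π.comp (commutator Γ).subtype).ker := by
    have : s ^ 2 ∈ π.ker := by rw [hker]; exact Subgroup.pow_mem _ hs 2
    exact this
  have hne : (⟨⟨s ^ 2, hs2⟩, hmem⟩ : (π.comp (commutator Γ).subtype).ker) ≠ 1 := by
    intro h1
    apply hord
    exact congrArg (fun z : (π.comp (commutator Γ).subtype).ker => ((z : ↥(commutator Γ)) : Γ)) h1
  have hpos : 1 < Nat.card (π.comp (commutator Γ).subtype).ker := by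
    haveI : Nontrivial (π.comp (commutator Γ).subtype).ker := ⟨⟨_, 1, hne⟩⟩
    exact Finite.one_lt_card
  omega

end Gen

section Simple

variable {Q : Type} [Group Q]

private theorem comm_simple_top [IsSimpleGroup Q] (hcard : ¬ (Nat.card Q).Prime) :
    commutator Q = ⊤ := by
  have hn : (commutator Q).Normal := inferInstance
  rcases hn.eq_bot_or_eq_top with h | h
  · exfalso
    apply hcard
    have hc : ∀ a b : Q, a * b = b * a := by
      intro a b
      have h1 : ⁅a, b⁆ ∈ commutator Q := by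
        rw [_root_.commutator_def]
        exact Subgroup.commutator_mem_commutator (Subgroup.mem_top a) (Subgroup.mem_top b)
      rw [h, Subgroup.mem_bot, commutatorElement_eq_one_iff_mul_comm] at h1
      exact h1
    letI : CommGroup Q := { (inferInstance : Group Q) with mul_comm := hc }
    exact IsSimpleGroup.prime_card
  · exact h

end Simple

private theorem bound : StemBound.{0} Cfsg.Spor.Ru 2 :=
  Cfsg.Agent.Lib.Schur.Ru.Main.bound.congr ruIso.symm

private theorem comm_Ru_top : commutator Cfsg.Spor.Ru = ⊤ := by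
  haveI : IsSimpleGroup Cfsg.Spor.Ru := Cfsg.Agent.Lib.RuBridge.main.2.2
  refine comm_simple_top ?_
  rw [Cfsg.Agent.Lib.RuBridge.main.2.1]
  norm_num

private theorem stem : IsStemExtension
    ((QuotientGroup.mk' (center fourRu)).comp (commutator fourRu).subtype) :=
  stem_gen _ (QuotientGroup.mk'_surjective _) (QuotientGroup.ker_mk' _) comm_Ru_top

theorem result : Cfsg.HasCyclicSchurMultiplier Cfsg.Spor.Ru 2 := by
  refine hasCyclicSchurMultiplier_of (Nat.prime_two : Irreducible 2).squarefree _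
    ((QuotientGroup.mk' (center fourRu)).comp (commutator fourRu).subtype) stem ?_
    (fun Γ _ _ σ hσ => bound Γ σ hσ)
  refine card_ker_gen _ (QuotientGroup.ker_mk' _)
    (bound _ _ stem) sI sI_center neg_one_mem_commutator ?_
  intro h
  have h3 := orderOf_dvd_of_pow_eq_one h
  rw [sI_order] at h3
  norm_num at h3

end Cfsg.Agent.S2051
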