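import Cfsg.Statements.S2053
import Cfsg.Agent.Lib.Schur.Local
import Cfsg.Agent.Lib.Schur.Transport
import Cfsg.Agent.Lib.Schur.PcBase
import Cfsg.Agent.Lib.Schur.Cover.Fi22P
import Cfsg.Agent.Lib.Schur.Cert.Fi22p2
import Cfsg.Agent.Lib.Schur.Cert.Fi22p3
import Cfsg.Agent.Lib.Schur.Cert.Fi22p5
import Cfsg.Agent.Lib.TC.D.Fi22b.Ok
import Cfsg.Agent.Lib.TC.D.Fi22Chain.Main

/-!
The Schur multiplier of `Fi₂₂` is cyclic of order 6: the stable-element computations at the primes 2, 3, 5
are tail certificates in words of the nine generators on the 3510 transpositions; the other primes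
divide the order at most once; the sixfold cover is monomial on the 61776 cosets of `O₈⁺(2):S₃`.
-/

set_option autoImplicit false
set_option maxRecDepth 100000
open Cfsg

namespace Cfsg.Agent.S2053

open Subgroup Cfsg.Agent.Lib.Schur.Stem Cfsg.Agent.Lib.Schur.Local
open Cfsg.Agent.Lib.Schur.Cert Cfsg.Agent.Lib.Schur.PcBase
open Cfsg.Agent.Lib.TC.G.Fi22 (K Rel)
open Cfsg.Agent.Lib.TC.D.Fi22b.Tab (pt)
open Cfsg.Agent.Lib.TC.D.Fi22Chain.Lev (levels hlev)

theorem card_G : Nat.card (PresentedGroup Rel) = 64561751654400 :=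
  Cfsg.Agent.Lib.TC.D.Fi22Chain.Main.simple_card.2

theorem model : ∃ φ : PresentedGroup Rel →* Equiv.Perm (Fin pt.n),
    Model pt (K.E Rel) K.k (Cfsg.Agent.Lib.TC.Iso.allBase [0] levels) φ :=
  model_of_ok Cfsg.Agent.Lib.TC.D.Fi22b.Ok.ok 64561751654400 card_G (by norm_num) levels hlev
    (by decide +kernel) (by decide +kernel)

theorem not_sq_dvd {p : ℕ} (hp : p.Prime) (h2 : p ≠ 2) (h3 : p ≠ 3) (h5 : p ≠ 5) :
    ¬ p ^ 2 ∣ 64561751654400 := by
  intro h
  have hc : Nat.Coprime (p ^ 2) (2 ^ 17 * 3 ^ 9 * 5 ^ 2) := by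
    apply Nat.Coprime.pow_left
    apply Nat.Coprime.mul_right
    · apply Nat.Coprime.mul_right
      · exact Nat.Coprime.pow_right _ ((Nat.coprime_primes hp Nat.prime_two).2 h2)
      · exact Nat.Coprime.pow_right _ ((Nat.coprime_primes hp Nat.prime_three).2 h3)
    · exact Nat.Coprime.pow_right _ ((Nat.coprime_primes hp Nat.prime_five).2 h5)
  have h4 : p ^ 2 ∣ 1001 := by
    have : 64561751654400 = (2 ^ 17 * 3 ^ 9 * 5 ^ 2) * 1001 := by norm_num
    rw [this] at h
    exact hc.dvd_of_dvd_mul_left h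
  have h6 := Nat.le_of_dvd (by norm_num) h4
  have h7 : p ≤ 31 := by nlinarith
  interval_cases p
  all_goals first | omega | (norm_num at hp; done) | (norm_num at h4; done)

universe u

theorem bound (Γ : Type u) [Group Γ] [Finite Γ] (σ : Γ →* PresentedGroup Rel) (hσ : IsStemExtension σ) :
    Nat.card σ.ker ∣ 6 := by
  obtain ⟨φ, M⟩ := model
  refine card_ker_dvd_of_sylow hσ 6 (by norm_num) ?_
  intro p _ P
  by_cases hp2 : p = 2
  · subst hp2
    exact (card_ker_dvd (p := 2) M Fi22p2.C Fi22p2.check_ok Fi22p2.wE Fi22p2.wY Fi22p2.lv Fi22p2.hwE Fi22p2.hwY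
      Fi22p2.hrules Fi22p2.hitems Fi22p2.hlev Fi22p2.hlvn Fi22p2.hprod rfl hσ (m := 492567075)
      (by rw [card_G]; decide +kernel) (by decide +kernel) P).trans (by decide +kernel)
  by_cases hp3 : p = 3
  · subst hp3
    exact (card_ker_dvd (p := 3) M Fi22p3.C Fi22p3.check_ok Fi22p3.wE Fi22p3.wY Fi22p3.lv Fi22p3.hwE Fi22p3.hwY
      Fi22p3.hrules Fi22p3.hitems Fi22p3.hlev Fi22p3.hlvn Fi22p3.hprod rfl hσ (m := 3280076800)
      (by rw [card_G]; decide +kernel) (by decide +kernel) P).trans (by decide +kernel)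
  by_cases hp5 : p = 5
  · subst hp5
    exact (card_ker_dvd (p := 5) M Fi22p5.C Fi22p5.check_ok Fi22p5.wE Fi22p5.wY Fi22p5.lv Fi22p5.hwE Fi22p5.hwY
      Fi22p5.hrules Fi22p5.hitems Fi22p5.hlev Fi22p5.hlvn Fi22p5.hprod rfl hσ (m := 2582470066176)
      (by rw [card_G]; decide +kernel) (by decide +kernel) P).trans (by decide +kernel)
  · refine (card_ker_sylow_of_not_sq_dvd hσ ?_ P).trans (one_dvd _)
    rw [card_G]
    exact not_sq_dvd Fact.out hp2 hp3 hp5

/-- The Schur multiplier of the Fischer group Fi₂₂ (the finitely presented group of the definitions) is cyclic of order 6; here the Schur multiplier is described through stem extensions, as in the definitions: surjective homomorphisms onto the group from a finite group, whose kernel is central in that finite group and contained in that finite group's commutator subgroup. -/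
theorem result : Cfsg.HasCyclicSchurMultiplier Cfsg.Spor.Fi22 6 := by
  obtain ⟨Γ₀, _, _, σ₀, h₀, hc₀⟩ := Cfsg.Agent.Lib.Schur.Cover.Fi22P.exists_stem
  exact Cfsg.Agent.Lib.Schur.Transport.hasCyclicSchurMultiplier_of_equiv (MulEquiv.refl _)
    (by decide +kernel : Squarefree 6) σ₀ h₀ hc₀ (fun Γ _ _ σ hσ => bound Γ σ hσ)

end Cfsg.Agent.S2053
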