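-- Statement S2054: the Schur multiplier of the Fischer group Fi₂₃ is trivial.
import Cfsg.Statements.S2054
import Cfsg.Agent.Lib.Schur.Fi23c.Final

set_option autoImplicit false
open Cfsg

namespace Cfsg.Agent.S2054

/-- The Schur multiplier of the Fischer group Fi₂₃ (the finitely presented group of the definitions) is trivial; here the Schur multiplier is described through stem extensions, as in the definitions: surjective homomorphisms onto the group from a finite group, whose kernel is central in that finite group and contained in that finite group's commutator subgroup. -/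
theorem result : Cfsg.HasCyclicSchurMultiplier Cfsg.Spor.Fi23 1 := by
  have hfin : Finite (PresentedGroup Cfsg.Agent.Lib.TC.G.Fi23.Rel) :=
    Nat.finite_of_card_ne_zero (by rw [Cfsg.Agent.Lib.Schur.Fi23c.Facts.hcard]; norm_num)
  refine Cfsg.Agent.Lib.Schur.Stem.hasCyclicSchurMultiplier_one (G := Cfsg.Spor.Fi23) ?_
  intro Γ _ _ σ hσ
  rw [Cfsg.Agent.Lib.Schur.Fi23c.Final.card_ker_one Γ σ hσ]

end Cfsg.Agent.S2054
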