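import Cfsg.Statements.S2055
import Cfsg.Agent.Lib.Schur.Local
import Cfsg.Agent.Lib.Schur.Transport
import Cfsg.Agent.Lib.Schur.PcBase
import Cfsg.Agent.Lib.Schur.PcBaseSub
import Cfsg.Agent.Lib.Schur.Fi24Model
import Cfsg.Agent.Lib.Schur.Cover.Fi24T
import Cfsg.Agent.Lib.Schur.Cert.Fi24p2
import Cfsg.Agent.Lib.Schur.Cert.Fi24p3
import Cfsg.Agent.Lib.Schur.Cert.Fi24p5
import Cfsg.Agent.Lib.Schur.Cert.Fi24p7

/-!
The Schur multiplier of `Fi₂₄′` is cyclic of order 3: the stable-element computations at the primes 2, 3, 5, 7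
are tail certificates in even words of the twelve generators on the 306936 transpositions; the other primes
divide the order at most once; the threefold cover is twisted monomial on the transpositions.
-/

set_option autoImplicit false
set_option maxRecDepth 100000
open Cfsg

namespace Cfsg.Agent.S2055

open Subgroup Cfsg.Agent.Lib.Schur.Stem Cfsg.Agent.Lib.Schur.Local
open Cfsg.Agent.Lib.Schur.Cert Cfsg.Agent.Lib.Schur.PcBase Cfsg.Agent.Lib.Schur.PcBaseSub
open Cfsg.Agent.Lib.Schur.Fi24Model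
open Cfsg.Agent.Lib.TC.G.Fi24 (K Rel)

theorem not_sq_dvd {p : ℕ} (hp : p.Prime) (h2 : p ≠ 2) (h3 : p ≠ 3) (h5 : p ≠ 5) (h7 : p ≠ 7) :
    ¬ p ^ 2 ∣ 1255205709190661721292800 := by
  intro h
  have hc : Nat.Coprime (p ^ 2) (2 ^ 21 * 3 ^ 16 * 5 ^ 2 * 7 ^ 3) := by
    apply Nat.Coprime.pow_left
    apply Nat.Coprime.mul_right
    · apply Nat.Coprime.mul_right
      · apply Nat.Coprime.mul_right
        · exact Nat.Coprime.pow_right _ ((Nat.coprime_primes hp Nat.prime_two).2 h2)
        · exact Nat.Coprime.pow_right _ ((Nat.coprime_primes hp Nat.prime_three).2 h3)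
      · exact Nat.Coprime.pow_right _ ((Nat.coprime_primes hp Nat.prime_five).2 h5)
    · exact Nat.Coprime.pow_right _ ((Nat.coprime_primes hp (by norm_num : Nat.Prime 7)).2 h7)
  have h4 : p ^ 2 ∣ 1621477 := by
    have : 1255205709190661721292800 = (2 ^ 21 * 3 ^ 16 * 5 ^ 2 * 7 ^ 3) * 1621477 := by norm_num
    rw [this] at h
    exact hc.dvd_of_dvd_mul_left h
  have h6 : p ∣ 11 * 13 * 17 * 23 * 29 := by
    have h8 : p ∣ 1621477 := (dvd_pow_self p (by norm_num)).trans h4
    simpa using h8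
  have h9 : p = 11 ∨ p = 13 ∨ p = 17 ∨ p = 23 ∨ p = 29 := by
    rcases (Nat.Prime.dvd_mul hp).1 h6 with h | h
    · rcases (Nat.Prime.dvd_mul hp).1 h with h | h
      · rcases (Nat.Prime.dvd_mul hp).1 h with h | h
        · rcases (Nat.Prime.dvd_mul hp).1 h with h | h
          · left; exact (Nat.prime_dvd_prime_iff_eq hp (by norm_num)).1 h
          · right; left; exact (Nat.prime_dvd_prime_iff_eq hp (by norm_num)).1 h
        · right; right; left; exact (Nat.prime_dvd_prime_iff_eq hp (by norm_num)).1 h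
      · right; right; right; left; exact (Nat.prime_dvd_prime_iff_eq hp (by norm_num)).1 h
    · right; right; right; right; exact (Nat.prime_dvd_prime_iff_eq hp (by norm_num)).1 h
  rcases h9 with rfl | rfl | rfl | rfl | rfl <;> norm_num at h4

universe u

theorem bound (Γ : Type u) [Group Γ] [Finite Γ] (σ : Γ →* commutator (PresentedGroup Rel)) (hσ : IsStemExtension σ) :
    Nat.card σ.ker ∣ 3 := by
  obtain ⟨φ, M⟩ := model
  refine card_ker_dvd_of_sylow hσ 3 (by norm_num) ?_
  intro p _ P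
  by_cases hp2 : p = 2
  · subst hp2
    exact (card_ker_dvd_sub (p := 2) M Fi24p2.C Fi24p2.check_ok Fi24p2.wE Fi24p2.wY Fi24p2.lv Fi24p2.hwE Fi24p2.hwY
      Fi24p2.hrules Fi24p2.hitems Fi24p2.hlev Fi24p2.hlvn Fi24p2.hprod even_mem Fi24p2.hwEe Fi24p2.hwYe rfl hσ
      (m := 598528723330813275) (by rw [card_comm]; decide +kernel) (by decide +kernel) P).trans (by decide +kernel)
  by_cases hp3 : p = 3
  · subst hp3
    exact (card_ker_dvd_sub (p := 3) M Fi24p3.C Fi24p3.check_ok Fi24p3.wE Fi24p3.wY Fi24p3.lv Fi24p3.hwE Fi24p3.hwY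
      Fi24p3.hrules Fi24p3.hitems Fi24p3.hlev Fi24p3.hlvn Fi24p3.hprod even_mem Fi24p3.hwEe Fi24p3.hwYe rfl hσ
      (m := 29159148014796800) (by rw [card_comm]; decide +kernel) (by decide +kernel) P).trans (by decide +kernel)
  by_cases hp5 : p = 5
  · subst hp5
    exact (card_ker_dvd_sub (p := 5) M Fi24p5.C Fi24p5.check_ok Fi24p5.wE Fi24p5.wY Fi24p5.lv Fi24p5.hwE Fi24p5.hwY
      Fi24p5.hrules Fi24p5.hitems Fi24p5.hlev Fi24p5.hlvn Fi24p5.hprod even_mem Fi24p5.hwEe Fi24p5.hwYe rfl hσ
      (m := 50208228367626468851712) (by rw [card_comm]; decide +kernel) (by decide +kernel) P).trans (by decide +kernel)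
  by_cases hp7 : p = 7
  · subst hp7
    exact (card_ker_dvd_sub (p := 7) M Fi24p7.C Fi24p7.check_ok Fi24p7.wE Fi24p7.wY Fi24p7.lv Fi24p7.hwE Fi24p7.hwY
      Fi24p7.hrules Fi24p7.hitems Fi24p7.hlev Fi24p7.hlvn Fi24p7.hprod even_mem Fi24p7.hwEe Fi24p7.hwYe rfl hσ
      (m := 3659491863529626009600) (by rw [card_comm]; decide +kernel) (by decide +kernel) P).trans (by decide +kernel)
  · refine (card_ker_sylow_of_not_sq_dvd hσ ?_ P).trans (one_dvd _)
    rw [card_comm]
    exact not_sq_dvd Fact.out hp2 hp3 hp5 hp7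

/-- The Schur multiplier of the Fischer group Fi₂₄′ (the commutator subgroup of the presented group Fi₂₄) is cyclic of order 3; here the Schur multiplier is described through stem extensions, as in the definitions: surjective homomorphisms onto the group from a finite group, whose kernel is central in that finite group and contained in that finite group's commutator subgroup. -/
theorem result : Cfsg.HasCyclicSchurMultiplier Cfsg.Spor.Fi24' 3 := by
  obtain ⟨Γ₀, _, _, σ₀, h₀, hc₀⟩ := Cfsg.Agent.Lib.Schur.Cover.Fi24T.exists_stem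
  exact Cfsg.Agent.Lib.Schur.Transport.hasCyclicSchurMultiplier_of_equiv (MulEquiv.refl _)
    (by decide +kernel : Squarefree 3) σ₀ h₀ hc₀ (fun Γ _ _ σ hσ => bound Γ σ hσ)

end Cfsg.Agent.S2055
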