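-- Statement S2056: the Schur multiplier of the Harada–Norton group is trivial.
import Cfsg.Statements.S2056
import Cfsg.Agent.Lib.Schur.Local
import Cfsg.Agent.Lib.Schur.PcBase
import Cfsg.Agent.Lib.Schur.HN.P2
import Cfsg.Agent.Lib.Schur.HN.P3
import Cfsg.Agent.Lib.Schur.HN.P5
import Cfsg.Agent.Lib.Schur.HN.Model

/-!
The stable-element computations at the primes 2, 3, 5 are tail certificates in words of the seven
letters on the 1539000 cosets of `2.HS.2`; the other primes divide the order at most once.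
-/

set_option autoImplicit false
set_option maxRecDepth 100000
open Cfsg

namespace Cfsg.Agent.S2056

open Subgroup Cfsg.Agent.Lib.Schur.Stem Cfsg.Agent.Lib.Schur.Local
open Cfsg.Agent.Lib.Schur.HN Cfsg.Agent.Lib.Schur.PcBase
open Cfsg.Agent.Lib.Schur.HN.Model

universe u

theorem not_sq_dvd {p : ℕ} (hp : p.Prime) (h2 : p ≠ 2) (h3 : p ≠ 3) (h5 : p ≠ 5) :
    ¬ p ^ 2 ∣ 273030912000000 := by
  intro h
  have hc : Nat.Coprime (p ^ 2) (2 ^ 14 * 3 ^ 6 * 5 ^ 6) := by
    apply Nat.Coprime.pow_left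
    apply Nat.Coprime.mul_right
    · apply Nat.Coprime.mul_right
      · exact Nat.Coprime.pow_right _ ((Nat.coprime_primes hp Nat.prime_two).2 h2)
      · exact Nat.Coprime.pow_right _ ((Nat.coprime_primes hp Nat.prime_three).2 h3)
    · exact Nat.Coprime.pow_right _ ((Nat.coprime_primes hp Nat.prime_five).2 h5)
  have h4 : p ^ 2 ∣ 1463 := by
    have : 273030912000000 = (2 ^ 14 * 3 ^ 6 * 5 ^ 6) * 1463 := by norm_num
    rw [this] at h
    exact hc.dvd_of_dvd_mul_left h
  have h6 := Nat.le_of_dvd (by norm_num) h4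
  have h7 : p ≤ 38 := by nlinarith
  interval_cases p
  all_goals first | omega | (norm_num at hp; done) | (norm_num at h4; done)

theorem bound (Γ : Type u) [Group Γ] [Finite Γ] (σ : Γ →* PresentedGroup Cfsg.Agent.Lib.TC.G.HN.Rel)
    (hσ : IsStemExtension σ) : Nat.card σ.ker ∣ 1 := by
  obtain ⟨φ, M⟩ := model
  refine card_ker_dvd_of_sylow hσ 1 (by norm_num) ?_
  intro p _ P
  by_cases hp2 : p = 2
  · subst hp2
    exact (card_ker_dvd (p := 2) M P2.C P2.check_ok P2.wE P2.wY P2.lv P2.hwE P2.hwY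
      P2.hrules P2.hitems P2.hlev P2.hlvn P2.hprod rfl hσ (m := 16664484375)
      (by rw [card_G]; decide +kernel) (by decide +kernel) P).trans (by decide +kernel)
  by_cases hp3 : p = 3
  · subst hp3
    exact (card_ker_dvd (p := 3) M P3.C P3.check_ok P3.wE P3.wY P3.lv P3.hwE P3.hwY
      P3.hrules P3.hitems P3.hlev P3.hlvn P3.hprod rfl hσ (m := 374528000000)
      (by rw [card_G]; decide +kernel) (by decide +kernel) P).trans (by decide +kernel)
  by_cases hp5 : p = 5
  · subst hp5
    exact (card_ker_dvd (p := 5) M P5.C P5.check_ok P5.wE P5.wY P5.lv P5.hwE P5.hwY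
      P5.hrules P5.hitems P5.hlev P5.hlvn P5.hprod rfl hσ (m := 17473978368)
      (by rw [card_G]; decide +kernel) (by decide +kernel) P).trans (by decide +kernel)
  · refine (card_ker_sylow_of_not_sq_dvd hσ ?_ P).trans (one_dvd _)
    rw [card_G]
    exact not_sq_dvd Fact.out hp2 hp3 hp5

/-- The Schur multiplier of the Harada–Norton group is trivial. -/
theorem result : Cfsg.HasCyclicSchurMultiplier Cfsg.Spor.HN 1 := by
  have hfin : Finite (PresentedGroup Cfsg.Agent.Lib.TC.G.HN.Rel) :=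
    Nat.finite_of_card_ne_zero (by rw [card_G]; norm_num)
  refine Cfsg.Agent.Lib.Schur.Stem.hasCyclicSchurMultiplier_one (G := Cfsg.Spor.HN) ?_
  intro Γ _ _ σ hσ
  exact bound Γ σ hσ

end Cfsg.Agent.S2056
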