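import Cfsg.Statements.S2086
import Cfsg.Agent.Lib.Schur.SLnStem2
import Cfsg.Agent.S2117

set_option autoImplicit false
open Cfsg

namespace Cfsg.Agent.S2086

open Subgroup Matrix Cfsg.Agent.Lib.Schur.SLnStem

/-- Schur multipliers of the linear groups: for n ≥ 2 and a field F with q elements (q ≥ 4 when n = 2), apart from the five exceptional pairs (n, q) = (2, 4), (2, 9), (3, 2), (3, 4), (4, 2), the Schur multiplier of PSL_n(F) is cyclic of order gcd(n, q − 1); here the Schur multiplier is described through stem extensions, as in the definitions. -/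
theorem result {F : Type*} [Field F] [Fintype F] {q : ℕ} (hF : Fintype.card F = q) (n : ℕ) (hn : 2 ≤ n) (h2 : n = 2 → 4 ≤ q) (hexc : (n, q) ∉ ({(2, 4), (2, 9), (3, 2), (3, 4), (4, 2)} : Set (ℕ × ℕ))) : Cfsg.HasCyclicSchurMultiplier (Matrix.ProjectiveSpecialLinearGroup (Fin n) F) (Nat.gcd n (q - 1)) := by
  classical
  subst hF
  have hnF : Fintype.card (Fin n) = n := Fintype.card_fin n
  have hne : Nonempty (Fin n) := ⟨⟨0, by omega⟩⟩
  have hNT : Nontrivial (Fin n) := Fintype.one_lt_card_iff_nontrivial.1 (by omega)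
  simp only [Set.mem_insert_iff, Set.mem_singleton_iff, Prod.mk.injEq, not_or, not_and] at hexc
  obtain ⟨e1, e2, e3, e4, e5⟩ := hexc
  let π : SpecialLinearGroup (Fin n) F →* ProjectiveSpecialLinearGroup (Fin n) F := QuotientGroup.mk' _
  have hk : π.ker = center _ := QuotientGroup.ker_mk' _
  have hcyc : IsCyclic π.ker := by
    rw [hk]
    exact isCyclic_of_surjective (SpecialLinearGroup.center_equiv_rootsOfUnity (n := Fin n) (R := F)).symm
      (MulEquiv.surjective _)
  have hcard : Nat.card π.ker = Nat.gcd n (Fintype.card F - 1) := by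
    rw [hk, Cfsg.Agent.Lib.Classical.SLBasic.card_center_sl, Nat.gcd_comm, hnF]
  have hperf : commutator (SpecialLinearGroup (Fin n) F) = ⊤ := by
    by_cases h3 : 3 ≤ n
    · exact Cfsg.Agent.Lib.Classical.Transvections.commutator_sl_eq_top (by omega)
    · have hn2 : n = 2 := by omega
      subst hn2
      obtain ⟨x, hx, hx2⟩ := Cfsg.Agent.Lib.Classical.NormalSL.exists_ne_zero_sq_ne_one (F := F)
        (by rw [Nat.card_eq_fintype_card]; exact h2 rfl)
      rw [eq_top_iff, ← Cfsg.Agent.Lib.Classical.Transvections.closure_transvections_eq_top (F := F),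
        Subgroup.closure_le, commutator_eq_closure]
      rintro _ ⟨i, j, hij, a, rfl⟩
      exact Subgroup.subset_closure
        (Cfsg.Agent.Lib.Classical.Transvections.transvection_mem_commutatorSet_two hx hx2 hij a)
  have hstem : IsStemExtension π :=
    ⟨QuotientGroup.mk'_surjective _, by rw [hk], by rw [hperf]; exact le_top⟩
  refine hasCyclic_of_cover π hstem ?_ hperf hcyc hcard
  intro Γ _ _ σ hσ z hz
  by_cases h3 : 3 ≤ n
  · refine stem_sl_trivial hσ (by omega) ?_ ?_ hz
    · intro h
      rw [hnF] at h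
      exact ⟨e3 h, e4 h⟩
    · intro h
      rw [hnF] at h
      exact e5 h
  · have hn2 : n = 2 := by omega
    subst hn2
    have h := (Cfsg.Agent.S2117.result (F := F) (e1 rfl) (e2 rfl)).2 Γ σ hσ
    obtain ⟨ρ, hρ⟩ := h
    obtain ⟨y, hy⟩ := hρ ⟨z, hz⟩
    have hy1 : y = 1 := by
      have hsub : Subsingleton (Multiplicative (ZMod 1)) :=
        inferInstanceAs (Subsingleton (ZMod 1))
      exact Subsingleton.elim _ _
    rw [hy1, map_one] at hy
    exact (congrArg Subtype.val hy).symm

end Cfsg.Agent.S2086
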