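import Cfsg.Statements.S2087
import Cfsg.Agent.Lib.Schur.Local
import Cfsg.Agent.S0255
import Cfsg.Agent.Lib.Classical.SLBasic
import Cfsg.Agent.Lib.Classical.SL2Sylow

set_option autoImplicit false
open Cfsg

namespace Cfsg.Agent.S2087

open Subgroup Cfsg.Agent.Lib.Schur.Stem Cfsg.Agent.Lib.Schur.Local
open scoped MatrixGroups commutatorElement

universe u

abbrev S7 := SL(2, ZMod 7)
abbrev P7 := Matrix.ProjectiveSpecialLinearGroup (Fin 2) (ZMod 7)

def mA : S7 := ⟨!![0, 1; 6, 3], by decide +kernel⟩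
def mB : S7 := ⟨!![1, 5; 1, 6], by decide +kernel⟩
def mZ : S7 := ⟨!![6, 0; 0, 6], by decide +kernel⟩
def mU : S7 := ⟨!![0, 1; 6, 0], by decide +kernel⟩
def mV : S7 := ⟨!![2, 3; 3, 5], by decide +kernel⟩

theorem mZ_center : mZ ∈ center S7 := by
  rw [Matrix.SpecialLinearGroup.mem_center_iff]
  exact ⟨6, by decide +kernel, by decide +kernel⟩

theorem comm_eq : ⁅mU, mV⁆ = mZ := by decide +kernel

theorem mA4 : mA ^ 4 = mZ := by decide +kernel
theorem mB2 : mB ^ 2 = mZ := by decide +kernel
theorem rel : mB * mA * mB⁻¹ = mA⁻¹ := by decide +kernel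

/-- The quotient map. -/
def pr : S7 →* P7 := QuotientGroup.mk' (center S7)

theorem pr_surj : Function.Surjective pr := QuotientGroup.mk'_surjective _

theorem ker_pr : pr.ker = center S7 := QuotientGroup.ker_mk' _

theorem card_S7 : Nat.card S7 = 336 := by
  rw [Cfsg.Agent.Lib.Classical.SL2Sylow.card_SL2, ZMod.card]


theorem card_center_S7 : Nat.card (center S7) = 2 := by
  rw [Cfsg.Agent.Lib.Classical.SLBasic.card_center_sl, ZMod.card]
  rfl

theorem card_P7 : Nat.card P7 = 168 := by
  have h := Cfsg.Agent.Lib.Classical.SLBasic.card_sl_eq_mul_card_psl (ι := Fin 2) (F := ZMod 7)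
  rw [card_S7, card_center_S7] at h
  have h2 : 336 = Nat.card P7 * 2 := h
  omega

noncomputable def a : P7 := pr mA
noncomputable def b : P7 := pr mB

theorem rel_ba : b * a * b⁻¹ = a⁻¹ := by
  have := congrArg pr rel
  simp only [map_mul, map_inv] at this
  exact this

theorem pr_mZ : pr mZ = 1 := by
  have : mZ ∈ pr.ker := by rw [ker_pr]; exact mZ_center
  exact this

theorem rel_a4 : a ^ 4 = 1 := by
  have := congrArg pr mA4
  rw [map_pow, pr_mZ] at this
  exact this

theorem rel_b2 : b ^ 2 = 1 := by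
  have := congrArg pr mB2
  rw [map_pow, pr_mZ] at this
  exact this

theorem a2_ne : a ^ 2 ≠ 1 := by
  intro h
  have h1 : pr (mA ^ 2) = 1 := by rw [map_pow]; exact h
  have h2 : mA ^ 2 ∈ center S7 := by rw [← ker_pr]; exact h1
  have h3 := mem_center_iff.1 h2 mB
  revert h3
  decide +kernel

theorem b_ne : b ≠ 1 := by
  intro h
  have h2 : mB ∈ center S7 := by rw [← ker_pr]; exact h
  have h3 := mem_center_iff.1 h2 mA
  revert h3
  decide +kernel

theorem order_a : orderOf a = 2 ^ 2 :=
  orderOf_eq_prime_pow (p := 2) (n := 1) (by simpa using a2_ne) (by simpa using rel_a4)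

theorem order_a2 : orderOf (a ^ 2) = 2 := by
  rw [orderOf_pow' _ (by norm_num), order_a]
  rfl

theorem order_b : orderOf b = 2 := orderOf_eq_prime rel_b2 b_ne

theorem b_notMem : b ∉ zpowers a := by
  rintro ⟨k, hk⟩
  have h1 : b * a * b⁻¹ = a := by
    have h2 : (a ^ k) * a = a * (a ^ k) := (Commute.zpow_left (Commute.refl a) k).eq
    simp only [] at hk
    rw [hk] at h2
    rw [h2, mul_inv_cancel_right]
  rw [rel_ba] at h1
  apply a2_ne
  rw [pow_two]
  nth_rewrite 1 [← h1]
  exact inv_mul_cancel a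

theorem card_U : Nat.card (Subgroup.closure ({a, b} : Set P7)) = 8 := by
  rw [card_closure_pair_eq (p := 2) (r := -1) (e := 2) (by simpa using rel_ba) order_a order_b b_notMem,
    order_a]
  rfl

noncomputable def S2 : Sylow 2 P7 := by
  refine Sylow.ofCard (Subgroup.closure ({a, b} : Set P7)) ?_
  rw [card_U, card_P7, factorization_eq (k := 3) Nat.prime_two (by norm_num) (by norm_num) (by norm_num)]
  rfl

theorem not_sq_dvd {p : ℕ} (hp : p.Prime) (h2 : p ≠ 2) : ¬ p ^ 2 ∣ 168 := by
  intro h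
  have hc : Nat.Coprime (p ^ 2) (2 ^ 3) := by
    apply Nat.Coprime.pow_left
    exact Nat.Coprime.pow_right _ ((Nat.coprime_primes hp Nat.prime_two).2 h2)
  have h4 : p ^ 2 ∣ 21 := by
    have : 168 = (2 ^ 3) * 21 := by norm_num
    rw [this] at h
    exact hc.dvd_of_dvd_mul_left h
  have h5 := Nat.le_of_dvd (by norm_num) h4
  have h6 : p ≤ 4 := by nlinarith
  interval_cases p
  all_goals first | omega | (norm_num at hp; done) | (norm_num at h4; done)

/-- The bound. -/
theorem bound {Γ : Type u} [Group Γ] [Finite Γ] {σ : Γ →* P7} (hσ : IsStemExtension σ) :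
    Nat.card σ.ker ∣ 2 := by
  refine card_ker_dvd_of_sylow hσ 2 two_ne_zero ?_
  intro p _ P
  by_cases hp2 : p = 2
  · subst hp2
    exact card_ker_sylow_of_stemBound hσ S2 (stemBound_dihedral8 rel_ba rel_a4 rel_b2 order_a2) P
  · refine (card_ker_sylow_of_not_sq_dvd hσ ?_ P).trans (one_dvd _)
    rw [card_P7]
    exact not_sq_dvd Fact.out hp2

theorem center_cases {z : S7} (hz : z ∈ center S7) : z = 1 ∨ z = mZ := by
  obtain ⟨r, hr, hzr⟩ := (Matrix.SpecialLinearGroup.mem_center_iff).1 hz
  have hr' : ∀ r : ZMod 7, r ^ 2 = 1 → r = 1 ∨ r = 6 := by decide +kernel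
  have hr2 : r ^ 2 = 1 := by simpa using hr
  rcases hr' r hr2 with rfl | rfl
  · left
    apply Subtype.ext
    rw [← hzr]
    simp
  · right
    apply Subtype.ext
    rw [← hzr]
    decide +kernel

/-- Exceptional Schur multiplier: over the field with 2 elements, PSL₃ has Schur multiplier cyclic of order 2 (here the Schur multiplier is described through stem extensions, as in the definitions). -/
theorem result {F : Type u} [Field F] [Fintype F] (hF : Fintype.card F = 2) : Cfsg.HasCyclicSchurMultiplier (Matrix.ProjectiveSpecialLinearGroup (Fin 3) F) 2 := by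
  obtain ⟨e⟩ := Cfsg.Agent.S0255.result (F := ZMod 7) (K := F) (by simp [ZMod.card]) hF
  have hcard : Nat.card (Matrix.ProjectiveSpecialLinearGroup (Fin 3) F) = 168 := by
    rw [← Nat.card_congr e.toEquiv, card_P7]
  let down : ULift.{u} S7 →* S7 := (MulEquiv.ulift).toMonoidHom
  let σ₀ : ULift.{u} S7 →* Matrix.ProjectiveSpecialLinearGroup (Fin 3) F :=
    e.toMonoidHom.comp (pr.comp down)
  have hmem : ∀ x : ULift.{u} S7, x ∈ σ₀.ker ↔ x.down ∈ center S7 := by
    intro x
    rw [MonoidHom.mem_ker, ← ker_pr, MonoidHom.mem_ker]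
    show e (pr x.down) = 1 ↔ _
    rw [map_eq_one_iff e e.injective]
  have hsurj : Function.Surjective σ₀ := by
    intro y
    obtain ⟨z, hz⟩ := pr_surj (e.symm y)
    refine ⟨⟨z⟩, ?_⟩
    show e (pr z) = y
    rw [hz, MulEquiv.apply_symm_apply]
  have h₀ : IsStemExtension σ₀ := by
    refine ⟨hsurj, ?_, ?_⟩
    · intro x hx
      rw [mem_center_iff]
      intro y
      apply ULift.ext
      exact mem_center_iff.1 ((hmem x).1 hx) y.down
    · intro x hx
      rcases center_cases ((hmem x).1 hx) with h | h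
      · have : x = 1 := ULift.ext _ _ h
        rw [this]
        exact one_mem _
      · have : x = ⁅(⟨mU⟩ : ULift.{u} S7), ⟨mV⟩⁆ := ULift.ext _ _ (h.trans comm_eq.symm)
        rw [this]
        exact Subgroup.commutator_mem_commutator (mem_top _) (mem_top _)
  have hk : Nat.card σ₀.ker = 2 := by
    have h1 := Subgroup.card_mul_index σ₀.ker
    rw [Subgroup.index_ker, MonoidHom.range_eq_top.2 hsurj, Subgroup.card_top, hcard, Nat.card_ulift,
      card_S7] at h1
    omega
  refine hasCyclicSchurMultiplier_of Nat.prime_two.prime.squarefree (ULift.{u} S7) σ₀ h₀ hk ?_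
  intro Γ _ _ σ hσ
  let σ' : Γ →* P7 := e.symm.toMonoidHom.comp σ
  have hker : σ'.ker = σ.ker := by
    ext x
    simp [σ', MonoidHom.mem_ker]
  have hσ' : IsStemExtension σ' := by
    refine ⟨e.symm.surjective.comp hσ.1, ?_, ?_⟩
    · rw [hker]; exact hσ.2.1
    · rw [hker]; exact hσ.2.2
  have := bound hσ'
  rwa [hker] at this

end Cfsg.Agent.S2087
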