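import Cfsg.Statements.S2088
import Cfsg.Agent.Lib.SchurCert.L34.Group

set_option autoImplicit false
open Cfsg

namespace Cfsg.Agent.S2088

open Cfsg.Agent.Lib.SchurCert.L34.Group Cfsg.Agent.Lib.SchurCert.Upper Cfsg.Agent.Lib.Schur.Stem
open Cfsg.Agent.Lib.Schur.Pullback Cfsg.Agent.Lib.SLn.Basic Matrix Subgroup

/-- The kernel of the composite of the pullback. -/
def kerHom {G H B : Type*} [Group G] [Group H] [Group B] (ψ : G →* B) (π : H →* B) :
    ψ.ker × π.ker →* (ψ.comp (fstP ψ π)).ker where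
  toFun x := ⟨⟨(x.1.1, x.2.1), by
      rw [mem_P]
      show ψ x.1.1 = π x.2.1
      rw [MonoidHom.mem_ker.1 x.1.2, MonoidHom.mem_ker.1 x.2.2]⟩, by
      show ψ x.1.1 = 1
      exact MonoidHom.mem_ker.1 x.1.2⟩
  map_one' := rfl
  map_mul' _ _ := rfl

theorem kerHom_bij {G H B : Type*} [Group G] [Group H] [Group B] (ψ : G →* B) (π : H →* B) :
    Function.Bijective (kerHom ψ π) := by
  constructor
  · intro x y h
    have h1 := congrArg (fun z : (ψ.comp (fstP ψ π)).ker => ((z : P ψ π) : G × H)) h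
    have h2 : ((x.1 : G), (x.2 : H)) = ((y.1 : G), (y.2 : H)) := h1
    obtain ⟨h3, h4⟩ := Prod.mk.inj h2
    exact Prod.ext (Subtype.ext h3) (Subtype.ext h4)
  · rintro ⟨⟨⟨g, h⟩, hp⟩, hk⟩
    have hg : ψ g = 1 := hk
    have hh : π h = 1 := by
      rw [← (show ψ g = π h from hp), hg]
    exact ⟨(⟨g, hg⟩, ⟨h, hh⟩), rfl⟩

/-- The kernel of the composite of the pullback. -/
noncomputable def kerEquiv {G H B : Type*} [Group G] [Group H] [Group B] (ψ : G →* B) (π : H →* B) :
    (ψ.comp (fstP ψ π)).ker ≃* ψ.ker × π.ker :=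
  (MulEquiv.ofBijective (kerHom ψ π) (kerHom_bij ψ π)).symm

/-- The order three part. -/
theorem exists_equiv_three {F : Type*} [Field F] [Fintype F] (hF : Fintype.card F = 4) :
    Nonempty ((toPSL (n := 3) (F := F)).ker ≃* Multiplicative (ZMod 3)) := by
  have h1 : (toPSL (n := 3) (F := F)).ker = center (SpecialLinearGroup (Fin 3) F) := QuotientGroup.ker_mk' _
  have h2 : Nat.card (toPSL (n := 3) (F := F)).ker = 3 := by
    rw [h1, Cfsg.Agent.Lib.Classical.SLBasic.card_center_sl, hF]
    simp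
  have : Fact (Nat.Prime 3) := ⟨by norm_num⟩
  have hc : IsCyclic (toPSL (n := 3) (F := F)).ker := isCyclic_of_prime_card h2
  have e := zmodCyclicMulEquiv hc
  rw [h2] at e
  exact ⟨e.symm⟩

/-- The shuffle of the factors. -/
def shuffle : Cfsg.Agent.Lib.SchurCert.L34.Cert.A2 × Multiplicative (ZMod 3) ≃* Multiplicative (ZMod 3 × ZMod 4 × ZMod 4) where
  toFun x := Multiplicative.ofAdd (Multiplicative.toAdd x.2, Multiplicative.toAdd x.1)
  invFun x := (Multiplicative.ofAdd (Multiplicative.toAdd x).2, Multiplicative.ofAdd (Multiplicative.toAdd x).1)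
  left_inv _ := rfl
  right_inv _ := rfl
  map_mul' _ _ := rfl

theorem result {F : Type*} [Field F] [Fintype F] (hF : Fintype.card F = 4) : Cfsg.HasSchurMultiplier (Matrix.ProjectiveSpecialLinearGroup (Fin 3) F) (Multiplicative (ZMod 3 × ZMod 4 × ZMod 4)) := by
  obtain ⟨ω, hω⟩ := Cfsg.Agent.Lib.CoverL34.Cover.exists_root hF
  classical
  have hfin : Finite (ProjectiveSpecialLinearGroup (Fin 3) F) :=
    Finite.of_surjective (toPSL (n := 3) (F := F)) toPSL_surjective
  have hperfSL : commutator (SpecialLinearGroup (Fin 3) F) = ⊤ :=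
    Cfsg.Agent.Lib.Classical.Transvections.commutator_sl_eq_top (by simp)
  constructor
  · -- existence
    obtain ⟨hst, ⟨e2⟩⟩ := cover2 hF hω
    obtain ⟨e3⟩ := exists_equiv_three hF
    set ψ := Cfsg.Agent.Lib.SchurCert.Cover.sig (groupData hF hω) with hψ
    let π := toPSL (n := 3) (F := F)
    have hπk : π.ker = center (SpecialLinearGroup (Fin 3) F) := QuotientGroup.ker_mk' _
    have hcard3 : Nat.card π.ker = 3 := by
      rw [Nat.card_congr e3.toEquiv]
      simp [ZMod.card]
    have hcard2 : Nat.card ψ.ker = 16 := by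
      rw [Nat.card_congr e2.toEquiv, card_A2]
    have hs := isStem_comp hst.1 (toPSL_surjective (n := 3) (F := F)) hst.2.1 hπk.le hst.2.2
      (by rw [hπk, hperfSL]; exact le_top) (by rw [hcard2, hcard3]; norm_num)
    refine ⟨P ψ π, inferInstance, inferInstance, ψ.comp (fstP ψ π), hs, ⟨?_⟩⟩
    exact (kerEquiv ψ π).trans ((MulEquiv.prodCongr e2 e3).trans shuffle)
  · -- the bound
    intro Γ _ _ σ hσ
    have hodd : ∀ (p : ℕ) [Fact p.Prime], p ∣ 315 →
        ∃ S : Sylow p (ProjectiveSpecialLinearGroup (Fin 3) F), StemBound.{u_1} (S : Subgroup (ProjectiveSpecialLinearGroup (Fin 3) F)) 3 := by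
      intro p hp hd
      have hp' := hp.out
      have hc := card_psl hF hω
      have hne : Nat.card (ProjectiveSpecialLinearGroup (Fin 3) F) ≠ 0 := by
        rw [hc]
        norm_num
      have h3 : p = 3 ∨ p = 5 ∨ p = 7 := by
        have e : (315 : ℕ) = 3 * (3 * (5 * 7)) := by norm_num
        rw [e] at hd
        rcases (Nat.Prime.dvd_mul hp').1 hd with h | h
        · exact Or.inl ((Nat.prime_dvd_prime_iff_eq hp' (by norm_num)).1 h)
        rcases (Nat.Prime.dvd_mul hp').1 h with h | h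
        · exact Or.inl ((Nat.prime_dvd_prime_iff_eq hp' (by norm_num)).1 h)
        rcases (Nat.Prime.dvd_mul hp').1 h with h | h
        · exact Or.inr (Or.inl ((Nat.prime_dvd_prime_iff_eq hp' (by norm_num)).1 h))
        · exact Or.inr (Or.inr ((Nat.prime_dvd_prime_iff_eq hp' (by norm_num)).1 h))
      rcases h3 with rfl | rfl | rfl
      · exact sylow_bound hne (Or.inr ⟨rfl, by rw [hc]; norm_num⟩) (by norm_num)
      · exact sylow_bound hne (Or.inl (by rw [hc]; norm_num)) (by norm_num)
      · exact sylow_bound hne (Or.inl (by rw [hc]; norm_num)) (by norm_num)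
    exact exists_surj_of_stem hσ (E := 64) (m := 315) (d := 4) (n := 3) (by norm_num) (card_psl hF hω)
      (perfect_psl hF) Nat.prime_three.prime.squarefree hodd
      (fun Y _ _ f hf hK hp hM => two_part hF hω f hf hK hp hM)

end Cfsg.Agent.S2088
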