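-- Statement S2091: the Schur multiplier of PSU₆(2).
import Cfsg.Statements.S2091
import Cfsg.Agent.Lib.Schur.U62.Model
import Cfsg.Agent.Lib.Schur.Transport
import Cfsg.Agent.Lib.Classical.FieldTransfer

set_option autoImplicit false
open Cfsg

namespace Cfsg.Agent.S2091

open Cfsg.Agent.Lib.Schur.Transport Cfsg.Agent.Lib.Schur.U62 Cfsg.Agent.Lib.Classical.FieldTransfer
open scoped Matrix

section congr

variable {K K' : Type*} [Field K] [Field K']

theorem hermForm_map (f : K ≃+* K') (n q : ℕ) (u v : Fin n → K) :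
    Cfsg.hermForm n K' q (f ∘ u) (f ∘ v) = f (Cfsg.hermForm n K q u v) := by
  simp [Cfsg.hermForm, map_sum]

theorem mulVec_map (f : K ≃+* K') {n : ℕ} (M : Matrix (Fin n) (Fin n) K) (u : Fin n → K) :
    (M.map f) *ᵥ (f ∘ u) = f ∘ (M *ᵥ u) := by
  funext i
  simp [Matrix.mulVec, dotProduct, map_sum]

theorem su_map_le (f : K ≃+* K') (n q : ℕ) :
    (Cfsg.SU n K q).map (slCongr f).toMonoidHom ≤ Cfsg.SU n K' q := by
  rintro _ ⟨g, hg, rfl⟩
  intro u v
  have hu : u = f ∘ (f.symm ∘ u) := by funext i; simp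
  have hv : v = f ∘ (f.symm ∘ v) := by funext i; simp
  have hM : ((Cfsg.slToMat n K') ((slCongr f).toMonoidHom g)) =
      ((g : Matrix (Fin n) (Fin n) K)).map f := rfl
  rw [hM, hu, hv, mulVec_map, mulVec_map, hermForm_map, hermForm_map]
  exact congrArg f (hg _ _)

theorem su_map_eq (f : K ≃+* K') (n q : ℕ) :
    (Cfsg.SU n K q).map (slCongr f).toMonoidHom = Cfsg.SU n K' q := by
  apply le_antisymm (su_map_le f n q)
  intro g hg
  refine ⟨(slCongr f.symm) g, su_map_le f.symm n q ⟨g, hg, rfl⟩, ?_⟩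
  apply Subtype.ext
  ext i j
  simp

theorem nonempty_su_congr (f : K ≃+* K') (n q : ℕ) : Nonempty (Cfsg.SU n K q ≃* Cfsg.SU n K' q) :=
  ⟨((slCongr f).subgroupMap (Cfsg.SU n K q)).trans (MulEquiv.subgroupCongr (su_map_eq f n q))⟩

end congr

/-- The kernels of a transported homomorphism. -/
def kerEquiv {Γ Γ' G G' : Type*} [Group Γ] [Group Γ'] [Group G] [Group G'] (f : Γ' ≃* Γ) (e : G ≃* G')
    (σ : Γ →* G) : (tr f e σ).ker ≃* σ.ker where
  toFun x := ⟨f x.1, (mem_ker_tr f e σ x.1).1 x.2⟩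
  invFun y := ⟨f.symm y.1, (mem_ker_tr f e σ _).2 (by simpa using y.2)⟩
  left_inv x := by
    apply Subtype.ext
    simp
  right_inv y := by
    apply Subtype.ext
    simp
  map_mul' x y := by
    apply Subtype.ext
    simp

/-- Exceptional Schur multiplier: PSU₆(2), realised over the field with 4 elements, has Schur multiplier isomorphic to the product of cyclic groups of orders 3, 2 and 2 (order 12, not cyclic; here the Schur multiplier is described through stem extensions, as in the definitions). -/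
theorem result {F : Type*} [Field F] [Fintype F] (hF : Fintype.card F = 4) : Cfsg.HasSchurMultiplier (Cfsg.PSU 6 F 2) (Multiplicative (ZMod 3 × ZMod 2 × ZMod 2)) := by
  open Cfsg.Agent.Lib.PrimeGraph.G24Field Cfsg.Agent.Lib.TC.D.Fi22U.Tgt in
  have hc : Fintype.card F = Fintype.card K4 := by rw [hF, K4.card_eq]
  obtain ⟨eS⟩ := nonempty_su_congr (FiniteField.ringEquivOfCardEq hc) 6 2
  let e : Cfsg.PSU 6 F 2 ≃* T := centralQuotientCongr eS
  refine ⟨?_, ?_⟩
  · let f : ULift Rels.U ≃* Rels.U := MulEquiv.ulift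
    have := Model.finite_U
    have : Finite (ULift Rels.U) := Finite.of_equiv Rels.U f.symm.toEquiv
    obtain ⟨g⟩ := Model.ker_main.2
    exact ⟨ULift Rels.U, inferInstance, this, tr f e.symm Model.psiU, isStem_tr f e.symm Model.psiU_stem,
      ⟨(kerEquiv f e.symm Model.psiU).trans g.symm⟩⟩
  · intro Γ _ _ σ hσ
    obtain ⟨π, hπ⟩ := Model.upper (tr (MulEquiv.refl Γ) e σ) (isStem_tr _ _ hσ)
    refine ⟨(kerEquiv (MulEquiv.refl Γ) e σ).toMonoidHom.comp π, ?_⟩
    exact (kerEquiv (MulEquiv.refl Γ) e σ).surjective.comp hπ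

end Cfsg.Agent.S2091
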