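import Cfsg.Statements.S2092
import Cfsg.Agent.Lib.Schur.SpStem.Main
import Cfsg.Agent.S0246

set_option autoImplicit false
open Cfsg

namespace Cfsg.Agent.S2092

open Subgroup Matrix Cfsg.Agent.Lib.Schur.SLnStem

/-- Schur multipliers of the symplectic groups: for m ≥ 2 and a field F with q elements (q ≥ 3 when m = 2), with (m, q) ≠ (3, 2), the Schur multiplier of PSp_2m(F) is cyclic of order gcd(2, q − 1); here the Schur multiplier is described through stem extensions, as in the definitions. -/
theorem result {F : Type*} [Field F] [Fintype F] {q : ℕ} (hF : Fintype.card F = q) (m : ℕ) (hm : 2 ≤ m) (h2 : m = 2 → 3 ≤ q) (hexc : ¬ (m = 3 ∧ q = 2)) : Cfsg.HasCyclicSchurMultiplier (Cfsg.PSp m F) (Nat.gcd 2 (q - 1)) := by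
  classical
  subst hF
  let π : Matrix.symplecticGroup (Fin m) F →* Cfsg.PSp m F := QuotientGroup.mk' _
  have hk : π.ker = center _ := QuotientGroup.ker_mk' _
  have hperf : commutator (Matrix.symplecticGroup (Fin m) F) = ⊤ :=
    Cfsg.Agent.S0269.result m (by
      by_cases h : m = 2
      · exact Or.inr (Or.inl ⟨h, h2 h⟩)
      · exact Or.inl (by
          by_contra hcon
          omega))
  have hcard : Nat.card π.ker = Nat.gcd 2 (Fintype.card F - 1) := by
    rw [hk]
    exact Cfsg.Agent.S0246.result rfl m (by omega)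
  have hcyc : IsCyclic π.ker := by
    have h1 : Nat.gcd 2 (Fintype.card F - 1) ∣ 2 := Nat.gcd_dvd_left _ _
    have h3 : Nat.gcd 2 (Fintype.card F - 1) = 1 ∨ Nat.gcd 2 (Fintype.card F - 1) = 2 :=
      (Nat.dvd_prime Nat.prime_two).1 h1
    rcases h3 with h3 | h3
    · rw [h3] at hcard
      have : Subsingleton π.ker := (Nat.card_eq_one_iff_unique.mp hcard).1
      exact isCyclic_of_subsingleton
    · rw [h3] at hcard
      exact isCyclic_of_prime_card (p := 2) (hp := ⟨Nat.prime_two⟩) hcard
  have hstem : IsStemExtension π :=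
    ⟨QuotientGroup.mk'_surjective _, by rw [hk], by rw [hperf]; exact le_top⟩
  exact hasCyclic_of_cover π hstem
    (Cfsg.Agent.Lib.Schur.SpStem.stem_trivial m hm h2 hexc) hperf hcyc hcard

end Cfsg.Agent.S2092
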