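import Cfsg.Statements.S2095
import Cfsg.Agent.Lib.Schur.Pullback
import Cfsg.Agent.Lib.Schur.Transport
import Cfsg.Agent.Lib.Schur.Cover.O73k2
import Cfsg.Agent.Lib.Schur.Cover.O73k3
import Cfsg.Agent.Lib.O73.FieldIso
import Cfsg.Agent.Lib.O73.SchurB
import Cfsg.Agent.Lib.TC.D.Fi22H.Tgt

set_option autoImplicit false
open Cfsg

namespace Cfsg.Agent.S2095

/-- Exceptional Schur multiplier: over the field with 3 elements, PΩ₇ (for the form x₀² + Σ xᵢyᵢ) has Schur multiplier cyclic of order 6 (the product of cyclic groups of orders 3 and 2; here the Schur multiplier is described through stem extensions, as in the definitions). -/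
theorem result {F : Type*} [Field F] [Fintype F] (hF : Fintype.card F = 3) : Cfsg.HasCyclicSchurMultiplier (Cfsg.POmega F (Cfsg.quadFormOdd 3 F)) 6 := by
  classical
  obtain ⟨e1⟩ := Cfsg.Agent.Lib.O73.FieldIso.exists_equiv F hF
  obtain ⟨e2⟩ := Cfsg.Agent.Lib.TC.D.Fi22H.Tgt.equiv_T
  obtain ⟨Γ2, i2, f2, ψ, hψ, c2⟩ := Cfsg.Agent.Lib.Schur.Cover.O73k2.exists_stem
  obtain ⟨Γ3, i3, f3, π, hπ, c3⟩ := Cfsg.Agent.Lib.Schur.Cover.O73k3.exists_stem
  open Cfsg.Agent.Lib.Schur.Pullback in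
  have hst : IsStemExtension (ψ.comp (fstP ψ π)) :=
    isStem_comp hψ.1 hπ.1 hψ.2.1 hπ.2.1 hψ.2.2 hπ.2.2 (by rw [c2, c3]; norm_num)
  open Cfsg.Agent.Lib.Schur.Pullback in
  have hcard : Nat.card (ψ.comp (fstP ψ π)).ker = 6 := by
    rw [card_ker_comp (fstP ψ π) ψ (fstP_surj hπ.1) hψ.1, card_ker_fstP, c2, c3]
  exact Cfsg.Agent.Lib.Schur.Transport.hasCyclicSchurMultiplier_of_equiv (e1.trans e2.symm)
    (by rw [show (6 : ℕ) = 2 * 3 from rfl]; exact (Nat.squarefree_mul (by norm_num)).2 ⟨Nat.prime_two.prime.squarefree, Nat.prime_three.prime.squarefree⟩) (Γ₀ := Cfsg.Agent.Lib.Schur.Pullback.P ψ π) _ hst hcard (fun Γ _ _ σ hσ => Cfsg.Agent.Lib.O73.SchurB.bound hσ)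

end Cfsg.Agent.S2095
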