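import Cfsg.Statements.S2098
import Cfsg.Agent.Lib.Schur.O8.CMain
import Cfsg.Agent.Lib.Schur.Univ.Basic
import Cfsg.Agent.Lib.Schur.Local
import Cfsg.Agent.Lib.Schur.Cert.O8p2
import Cfsg.Agent.Lib.Schur.Cert.O8p3
import Cfsg.Agent.Lib.Schur.Cert.O8p5

/-!
The Schur multiplier of `PΩ₈⁺(2)` is a four-group.  The cover `2²·Ω₈⁺(2)` is the fibre product of two
copies of `W(E₈)′` over the triality automorphism; the stable-element computation shows that it has no
proper stem extensions, so that it is universal.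
-/

set_option autoImplicit false
set_option maxRecDepth 100000
set_option maxHeartbeats 0
open Cfsg

namespace Cfsg.Agent.S2098

open Subgroup Cfsg.Agent.Lib.Schur.Stem Cfsg.Agent.Lib.Schur.Local
open scoped commutatorElement
open _root_.Cfsg.Agent.Lib.PermComp _root_.Cfsg.Agent.Lib.PermComp.Core
open Cfsg.Agent.Lib.Schur.O8.CT Cfsg.Agent.Lib.Schur.O8.GData Cfsg.Agent.Lib.Schur.O8.Main
open Cfsg.Agent.Lib.Schur.O8.CMain Cfsg.Agent.Lib.Schur.Cert Cfsg.Agent.Lib.Schur.PcPerm Cfsg.Agent.Lib.Schur.Slp2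

theorem not_sq_dvd {p : ℕ} (hp : p.Prime) (h2 : p ≠ 2) (h3 : p ≠ 3) (h5 : p ≠ 5) : ¬ p ^ 2 ∣ 696729600 := by
  intro h
  have hc : Nat.Coprime (p ^ 2) (2 ^ 14 * 3 ^ 5 * 5 ^ 2) := by
    apply Nat.Coprime.pow_left
    apply Nat.Coprime.mul_right
    · apply Nat.Coprime.mul_right
      · exact Nat.Coprime.pow_right _ ((Nat.coprime_primes hp Nat.prime_two).2 h2)
      · exact Nat.Coprime.pow_right _ ((Nat.coprime_primes hp Nat.prime_three).2 h3)
    · exact Nat.Coprime.pow_right _ ((Nat.coprime_primes hp Nat.prime_five).2 h5)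
  have h4 : p ^ 2 ∣ 7 := by
    have : 696729600 = (2 ^ 14 * 3 ^ 5 * 5 ^ 2) * 7 := by norm_num
    rw [this] at h
    exact hc.dvd_of_dvd_mul_left h
  have h5 := Nat.le_of_dvd (by norm_num) h4
  have h6 : p ≤ 2 := by nlinarith
  have h7 := hp.two_le
  omega

universe u

theorem bound : StemBound.{u} Hc 1 := by
  intro Γ _ _ σ hσ
  refine card_ker_dvd_of_sylow hσ 1 one_ne_zero ?_
  intro p _ P
  by_cases hp2 : p = 2
  · subst hp2
    have hmem := slp2_sound hm_ok hid_ok Hc _ O8p2.prog c_T.reverse c_T.length (by simp) T_mem O8p2.slp_ok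
    exact card_ker_dvd (n := g_n + 480) (w := 10) (mask := 1023) (idc := O8p2.idc) (e := E) (p := 2) Hc
      O8p2.C O8p2.check_ok O8p2.codes O8p2.conj O8p2.base O8p2.ord O8p2.chk_ok
      (fun x hx => hmem x (List.mem_append_left _ hx)) (fun x hx => hmem x (List.mem_append_right _ hx))
      rfl hσ (m := 42525) (by rw [card_Hc]; decide +kernel) (by norm_num) P
  by_cases hp3 : p = 3
  · subst hp3
    have hmem := slp2_sound hm_ok hid_ok Hc _ O8p3.prog c_T.reverse c_T.length (by simp) T_mem O8p3.slp_ok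
    exact card_ker_dvd (n := g_n + 480) (w := 10) (mask := 1023) (idc := O8p3.idc) (e := E) (p := 3) Hc
      O8p3.C O8p3.check_ok O8p3.codes O8p3.conj O8p3.base O8p3.ord O8p3.chk_ok
      (fun x hx => hmem x (List.mem_append_left _ hx)) (fun x hx => hmem x (List.mem_append_right _ hx))
      rfl hσ (m := 2867200) (by rw [card_Hc]; decide +kernel) (by norm_num) P
  by_cases hp5 : p = 5
  · subst hp5
    have hmem := slp2_sound hm_ok hid_ok Hc _ O8p5.prog c_T.reverse c_T.length (by simp) T_mem O8p5.slp_ok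
    exact card_ker_dvd (n := g_n + 480) (w := 10) (mask := 1023) (idc := O8p5.idc) (e := E) (p := 5) Hc
      O8p5.C O8p5.check_ok O8p5.codes O8p5.conj O8p5.base O8p5.ord O8p5.chk_ok
      (fun x hx => hmem x (List.mem_append_left _ hx)) (fun x hx => hmem x (List.mem_append_right _ hx))
      rfl hσ (m := 27869184) (by rw [card_Hc]; decide +kernel) (by norm_num) P
  · refine card_ker_sylow_of_not_sq_dvd hσ ?_ P
    rw [card_Hc]
    exact not_sq_dvd Fact.out hp2 hp3 hp5

theorem perfect_of_simple {G : Type*} [Group G] (hs : IsSimpleGroup G) (h : ¬ (Nat.card G).Prime) :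
    commutator G = ⊤ := by
  rcases (commutator G).normal_of_characteristic.eq_bot_or_eq_top with h1 | h1
  · exfalso
    apply h
    have hc : ∀ a b : G, a * b = b * a := by
      intro a b
      have h2 : ⁅a, b⁆ ∈ commutator G := Subgroup.commutator_mem_commutator (mem_top _) (mem_top _)
      rw [h1, mem_bot, commutatorElement_eq_one_iff_mul_comm] at h2
      exact h2
    let _ : CommGroup G := { (inferInstance : Group G) with mul_comm := hc }
    exact IsSimpleGroup.prime_card
  · exact h1

theorem perfect_Hg : commutator Hg = ⊤ := by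
  have hs : IsSimpleGroup (Cfsg.POmega K2 Qf) :=
    Cfsg.Agent.Lib.Classical.QuadEichBridge.isSimple_plus 4 le_rfl
  obtain ⟨e⟩ := nonempty_equiv (F := K2) (by simp [ZMod.card])
  haveI := hs
  have hs' : IsSimpleGroup Hg := e.symm.isSimpleGroup
  apply perfect_of_simple hs'
  rw [card_Hg]
  norm_num

/-- Exceptional Schur multiplier: over the field with 2 elements, PΩ⁺₈ (for the form Σ xᵢyᵢ) has Schur multiplier a four-group, the product of two cyclic groups of order 2 (here the Schur multiplier is described through stem extensions, as in the definitions). -/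
theorem result {F : Type*} [Field F] [Fintype F] (hF : Fintype.card F = 2) : Cfsg.HasSchurMultiplier (Cfsg.POmega F (Cfsg.quadFormPlus 4 F)) (Multiplicative (ZMod 2 × ZMod 2)) := by
  obtain ⟨e⟩ := nonempty_equiv hF
  obtain ⟨σ, hσ, hk, -⟩ := exists_stem
  exact Cfsg.Agent.Lib.Schur.Univ.Basic.hasSchurMultiplier_of e perfect_Hg σ hσ hk bound

end Cfsg.Agent.S2098
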