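import Cfsg.Statements.S2101
import Cfsg.Agent.Lib.Schur.Local
import Cfsg.Agent.Lib.Schur.Transport
import Cfsg.Agent.Lib.Schur.PcPerm
import Cfsg.Agent.Lib.Schur.Cert.G23p2
import Cfsg.Agent.Lib.Schur.Cert.G23p3
import Cfsg.Agent.Lib.Schur.Cover.G23k3

/-!
The Schur multiplier of `G₂(3)` is cyclic of order 3: the stable-element computation at the primes 2
and 3 is a kernel-checked tail certificate on 728 points; the other primes divide the order at most
once; the threefold cover is monomial on 351 points.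
-/

set_option autoImplicit false
set_option maxRecDepth 100000
open Cfsg

namespace Cfsg.Agent.S2101

open Subgroup Cfsg.Agent.Lib.Schur.Stem Cfsg.Agent.Lib.Schur.Local
open _root_.Cfsg.Agent.Lib.PermComp
open Cfsg.Agent.Lib.G23.Data Cfsg.Agent.Lib.G23.Main Cfsg.Agent.Lib.G23.Checks
open Cfsg.Agent.Lib.Schur.Cert Cfsg.Agent.Lib.Schur.PcPerm

/-- Membership test. -/
noncomputable def memT (c : ℕ) : Bool :=
  Simple.validB g_n g_w g_mask g_idc c && Core.sift g_n g_w g_mask g_L g_maskL g_idc g_levels c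

theorem memT_spec {c : ℕ} (h : memT c = true) : ∃ g ∈ Hnew, Core.Rep g_w g_mask e0 c g := by
  simp only [memT, Bool.and_eq_true] at h
  obtain ⟨hm, hid', -, hsem, hH, -⟩ := main_H
  obtain ⟨y, hy⟩ := rep_of_valid h.1
  refine ⟨y, ?_, hy⟩
  rw [hH]
  exact Core.sift_sound_of_sem hm hid' g_levels hsem _ _ hy h.2

theorem mem2 : Core.allL memT (G23p2.codes ++ G23p2.conj) = true := by decide +kernel
theorem mem3 : Core.allL memT (G23p3.codes ++ G23p3.conj) = true := by decide +kernel

theorem mem2' {x : ℕ} (h : x ∈ G23p2.codes ++ G23p2.conj) : ∃ g ∈ Hnew, Core.Rep g_w g_mask e0 x g :=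
  memT_spec ((Core.allL_eq_true _ _).1 mem2 x h)

theorem mem3' {x : ℕ} (h : x ∈ G23p3.codes ++ G23p3.conj) : ∃ g ∈ Hnew, Core.Rep g_w g_mask e0 x g :=
  memT_spec ((Core.allL_eq_true _ _).1 mem3 x h)

theorem not_sq_dvd {p : ℕ} (hp : p.Prime) (h2 : p ≠ 2) (h3 : p ≠ 3) : ¬ p ^ 2 ∣ 4245696 := by
  intro h
  have hc : Nat.Coprime (p ^ 2) (2 ^ 6 * 3 ^ 6) := by
    apply Nat.Coprime.pow_left
    apply Nat.Coprime.mul_right
    · exact Nat.Coprime.pow_right _ ((Nat.coprime_primes hp Nat.prime_two).2 h2)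
    · exact Nat.Coprime.pow_right _ ((Nat.coprime_primes hp Nat.prime_three).2 h3)
  have h4 : p ^ 2 ∣ 91 := by
    have : 4245696 = (2 ^ 6 * 3 ^ 6) * 91 := by norm_num
    rw [this] at h
    exact hc.dvd_of_dvd_mul_left h
  have h5 := Nat.le_of_dvd (by norm_num) h4
  have h6 : p ≤ 9 := by nlinarith
  interval_cases p
  all_goals first | omega | (norm_num at hp; done) | (norm_num at h4; done)

universe u

theorem bound (Γ : Type u) [Group Γ] [Finite Γ] (σ : Γ →* Hnew) (hσ : IsStemExtension σ) :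
    Nat.card σ.ker ∣ 3 := by
  refine card_ker_dvd_of_sylow hσ 3 (by norm_num) ?_
  intro p _ P
  by_cases hp2 : p = 2
  · subst hp2
    exact (card_ker_dvd (n := g_n) (w := g_w) (mask := g_mask) (idc := g_idc) (e := e0) (p := 2) Hnew
      G23p2.C G23p2.check_ok G23p2.codes G23p2.conj G23p2.base G23p2.ord G23p2.chk_ok
      (fun x hx => mem2' (List.mem_append_left _ hx)) (fun x hx => mem2' (List.mem_append_right _ hx))
      rfl hσ (m := 66339) (by rw [card_Hnew]; decide +kernel) (by norm_num) P).trans (one_dvd _)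
  by_cases hp3 : p = 3
  · subst hp3
    exact card_ker_dvd (n := g_n) (w := g_w) (mask := g_mask) (idc := g_idc) (e := e0) (p := 3) Hnew
      G23p3.C G23p3.check_ok G23p3.codes G23p3.conj G23p3.base G23p3.ord G23p3.chk_ok
      (fun x hx => mem3' (List.mem_append_left _ hx)) (fun x hx => mem3' (List.mem_append_right _ hx))
      rfl hσ (m := 5824) (by rw [card_Hnew]; decide +kernel) (by norm_num) P
  · refine (card_ker_sylow_of_not_sq_dvd hσ ?_ P).trans (one_dvd _)
    rw [card_Hnew]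
    exact not_sq_dvd Fact.out hp2 hp3

/-- Exceptional Schur multiplier: over the field with 3 elements the Chevalley group of type G₂ has Schur multiplier cyclic of order 3 (here the Schur multiplier is described through stem extensions, as in the definitions). -/
theorem result {F : Type*} [Field F] [Fintype F] (hF : Fintype.card F = 3) : Cfsg.HasCyclicSchurMultiplier ↥(Cfsg.Lie.chevG2.group F) 3 := by
  obtain ⟨f⟩ := Cfsg.Agent.Lib.Chev.FieldCongr.nonempty_ringEquiv_zmod (p := 3) hF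
  obtain ⟨e1⟩ := Cfsg.Agent.Lib.Chev.FieldCongr.nonempty_group_equiv Cfsg.Lie.chevG2 f
  obtain ⟨e2⟩ := equiv_old
  obtain ⟨e3⟩ := equiv_new
  obtain ⟨Γ₀, _, _, σ₀, h₀, hc₀⟩ := Cfsg.Agent.Lib.Schur.Cover.G23k3.exists_stem
  exact Cfsg.Agent.Lib.Schur.Transport.hasCyclicSchurMultiplier_of_equiv (e1.trans (e2.trans e3))
    Nat.prime_three.prime.squarefree σ₀ h₀ hc₀ (fun Γ _ _ σ hσ => bound Γ σ hσ)

end Cfsg.Agent.S2101
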