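import Cfsg.Statements.S2102
import Cfsg.Agent.Lib.G24Sch.Upper
import Cfsg.Agent.Lib.G24Sch.Cover
import Cfsg.Agent.Lib.Schur.Transport

set_option autoImplicit false
open Cfsg

namespace Cfsg.Agent.S2102

/-- Exceptional Schur multiplier: over the field with 4 elements the Chevalley group of type G₂ has Schur multiplier cyclic of order 2 (here the Schur multiplier is described through stem extensions, as in the definitions). -/
theorem result {F : Type*} [Field F] [Fintype F] (hF : Fintype.card F = 4) : Cfsg.HasCyclicSchurMultiplier ↥(Cfsg.Lie.chevG2.group F) 2 := by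
  classical
  obtain ⟨e1⟩ := Cfsg.Agent.Lib.Chev.FieldCongr.nonempty_group_equiv Cfsg.Lie.chevG2
    (FiniteField.ringEquivOfCardEq (K := F) (K' := Cfsg.Agent.Lib.PrimeGraph.G24Field.K4)
      (by rw [hF, Cfsg.Agent.Lib.PrimeGraph.G24Field.K4.card_eq]))
  obtain ⟨e2⟩ := Cfsg.Agent.Lib.TC.D.SuzH.Tgt.equiv_T
  obtain ⟨P, hP, ⟨e3⟩⟩ := Cfsg.Agent.Lib.G24J2.exists_model
  obtain ⟨σ, hσ, hc⟩ := Cfsg.Agent.Lib.G24Sch.Cov.exists_stem e3
  exact Cfsg.Agent.Lib.Schur.Transport.hasCyclicSchurMultiplier_of_equiv (e1.trans (e2.symm.trans e3))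
    Nat.prime_two.prime.squarefree σ hσ hc
    (fun Γ _ _ σ' hσ' => Cfsg.Agent.Lib.G24Sch.card_ker_dvd_P hP hσ')

end Cfsg.Agent.S2102
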