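import Cfsg.Statements.S2103
import Cfsg.Agent.Lib.Steinberg.UnivD
import Cfsg.Agent.Lib.Steinberg.Schur

set_option autoImplicit false
open Cfsg

namespace Cfsg.Agent.S2103

/-- Schur multipliers of the Chevalley groups of type F₄: over a finite field with more than 2 elements the Schur multiplier of F₄(q) is trivial (here the Schur multiplier is described through stem extensions, as in the definitions); q = 2 is exceptional. -/
theorem result {F : Type*} [Field F] [Fintype F] (hF : 3 ≤ Fintype.card F) : Cfsg.HasCyclicSchurMultiplier ↥(Cfsg.Lie.chevF4.group F) 1 := by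
  classical
  have hS : Cfsg.Agent.Lib.Steinberg.Universal.Splits.{_, _} Cfsg.Lie.chevF4 F := by
    by_cases h3 : Fintype.card F = 3
    · obtain ⟨e1, _, e3⟩ := Cfsg.Agent.Lib.Steinberg.UnivD.f3_facts h3
      exact Cfsg.Agent.Lib.Steinberg.UnivD.splits_F4_q3 e1 e3
    · by_cases h4 : Fintype.card F = 4
      · obtain ⟨e1, ω, e2⟩ := Cfsg.Agent.Lib.Steinberg.UnivD.f4_facts h4
        exact Cfsg.Agent.Lib.Steinberg.UnivD.splits_F4_q4 e2 e1
      · exact Cfsg.Agent.Lib.Steinberg.Universal.splits_of_large Cfsg.Agent.Lib.Steinberg.UnivD.isData_F4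
          ⟨Finset.univ, by rw [Finset.card_univ]; omega⟩
  refine Cfsg.Agent.Lib.Steinberg.Schur.schur_of_card Cfsg.Agent.Lib.Steinberg.UnivD.isData_F4
    (Cfsg.Agent.Lib.Steinberg.Universal.perfect_cover Cfsg.Agent.Lib.Steinberg.UnivD.isData_F4
      (Cfsg.Agent.Lib.Steinberg.Schur.ne_G2_B2 (by decide))) hS ?_ (Or.inl rfl)
  rw [Cfsg.Agent.Lib.Steinberg.CenterCert.center_trivial Cfsg.Agent.Lib.Steinberg.UnivD.isData_F4 Cfsg.Agent.Lib.Steinberg.CenterCert.cert_F4]
  exact Nat.card_unique

end Cfsg.Agent.S2103
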