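import Cfsg.Statements.S2108
import Cfsg.Agent.Lib.SchE6.Lo1

set_option autoImplicit false
open Cfsg

namespace Cfsg.Agent.S2108

/-- Schur multipliers of the twisted groups of type ²E₆: for a prime power q ≠ 2, with the group realised over the field with q² elements, the Schur multiplier of ²E₆(q) is cyclic of order gcd(3, q + 1) (here the Schur multiplier is described through stem extensions, as in the definitions); q = 2 is exceptional. -/
theorem result {K : Type*} [Field K] [Fintype K] {q : ℕ} (hq : IsPrimePow q) (hK : Fintype.card K = q ^ 2) (h2 : q ≠ 2) : Cfsg.HasCyclicSchurMultiplier ↥(Cfsg.Lie.twistedE6 K q) (Nat.gcd 3 (q + 1)) := by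
  classical
  rcases (Nat.dvd_prime Nat.prime_three).mp (Nat.gcd_dvd_left 3 (q + 1)) with h | h
  · rw [h]
    refine Cfsg.Agent.Lib.Schur.Stem.hasCyclicSchurMultiplier_one ?_
    intro Γ _ _ σ hσ
    have := Cfsg.Agent.Lib.SchE6.Gx.ker_card hq hK h2 σ hσ
    rwa [h] at this
  · have h3 : 3 ∣ q + 1 := by
      rw [← h]
      exact Nat.gcd_dvd_right _ _
    rw [h]
    obtain ⟨hf, hs, hc⟩ := Cfsg.Agent.Lib.SchE6.Lo.lower hq hK h3
    refine Cfsg.Agent.Lib.Schur.Stem.hasCyclicSchurMultiplier_of (Nat.prime_three.prime.irreducible.squarefree) _ (Cfsg.Agent.Lib.SchE6.Lo.sg K q) hs hc ?_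
    intro Γ _ _ σ hσ
    have := Cfsg.Agent.Lib.SchE6.Gx.ker_card hq hK h2 σ hσ
    rwa [h] at this

end Cfsg.Agent.S2108
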