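import Cfsg.Statements.S2112
import Cfsg.Agent.Lib.SchurCert.Sz8.Group
import Cfsg.Agent.Lib.SchurCert.Sz8.Upper

set_option autoImplicit false
open Cfsg

namespace Cfsg.Agent.S2112

/-- Exceptional Schur multiplier: the Suzuki group Sz(8), built over the field with 8 elements using the map x ↦ x⁴, has Schur multiplier a four-group, the product of two cyclic groups of order 2 (here the Schur multiplier is described through stem extensions, as in the definitions). -/
theorem result {F : Type*} [Field F] [Fintype F] (hF : Fintype.card F = 8) : Cfsg.HasSchurMultiplier ↥(Cfsg.Lie.Sz F 4) (Multiplicative (ZMod 2 × ZMod 2)) := by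
  refine ⟨?_, fun Γ _ _ σ hσ => Cfsg.Agent.Lib.SchurCert.Sz8.Upper.upper hF Γ σ hσ⟩
  have hF' : Fintype.card F = 2 ^ (2 * 1 + 1) := by rw [hF]; norm_num
  have hch : CharP F 2 := Cfsg.Agent.Lib.Suzuki.Elements.charP_two_of_card hF'
  have hcard : Nat.card ↥(Lie.Sz F 4) = 29120 := by
    have h := Cfsg.Agent.Lib.SzIso.Basic.card_LieSz (m := 1) le_rfl hF'
    norm_num at h
    exact h
  obtain ⟨α, hα⟩ := Cfsg.Agent.Lib.SchurCert.F8.exists_root hF
  exact Cfsg.Agent.Lib.SchurCert.Sz8.Group.exists_cover hα hcard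

end Cfsg.Agent.S2112
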