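-- Statement S2115.
import Cfsg.Statements.S2115
import Cfsg.Agent.Lib.Tits.Main
import Cfsg.Agent.Lib.Tits.Titsp2
import Cfsg.Agent.Lib.Tits.Titsp3
import Cfsg.Agent.Lib.Tits.Titsp5
import Cfsg.Agent.Lib.Schur.Local

/-!
The Schur multiplier of the Tits group is trivial: the stable-element computation at the primes
2, 3, 5 is a kernel-checked tail certificate, and the remaining prime 13 divides the order once.
-/

set_option autoImplicit false
set_option maxRecDepth 100000
set_option maxHeartbeats 0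
open Cfsg

namespace Cfsg.Agent.S2115

open Subgroup Cfsg.Agent.Lib.Schur.Stem Cfsg.Agent.Lib.Schur.Local
open Cfsg.Agent.Lib.PermComp Cfsg.Agent.Lib.PermComp.Core
open Cfsg.Agent.Lib.Schur.Slp2
open Cfsg.Agent.Lib.Tits Cfsg.Agent.Lib.Tits.WChain Cfsg.Agent.Lib.Tits.Defs Cfsg.Agent.Lib.Tits.Main
open Cfsg.Agent.Lib.Tits.SchurBase

/-- The generators of the derived group have representations. -/
theorem rep_as : ∀ p ∈ tt_as, ∃ g, Rep tt_w tt_mask (eR tt_n) p.1.1 g := by
  have hlet := Final.letters_of_check tt_hm tt_hid exists_rep_P tt_letters_ok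
  have hnth : ∀ j, Letter (n := tt_n) tt_w tt_mask (GG tt_w tt_mask tt_n tt_Pp) (nthP tt_idc tt_Pp j) := by
    intro j
    rcases nthP_cases (idc := tt_idc) tt_Pp j with h | h
    · exact hlet _ h
    · rw [h]
      exact Final.letter_idc _ tt_hid
  intro r hr
  have hc := tt_comm_ok
  rw [Final.commOK, allL_eq_true] at hc
  have h1 := hc r hr
  rw [ifB_eq_true] at h1
  obtain ⟨a, ha, ha1, ha2⟩ := hnth r.2.1
  obtain ⟨b, hb, hb1, hb2⟩ := hnth r.2.2
  refine ⟨a * b * a⁻¹ * b⁻¹, ?_⟩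
  rw [Nat.eq_of_beq_eq_true h1.2]
  exact ((ha1.comp tt_hm hb1).comp tt_hm ha2).comp tt_hm hb2

theorem T_mem : ∀ c ∈ T, ∃ g ∈ Ag, Rep tt_w tt_mask (eR tt_n) c g := by
  intro c hc
  have hc' : c ∈ tt_lev0.gens.map (·.1) := by
    have h : T = tt_lev0.gens.map (·.1) := by decide +kernel
    rw [← h]
    exact hc
  have h2 : tt_lev0.gens.map (·.1) = tt_as.map (·.1.1) := by decide +kernel
  have hc2 := hc'
  rw [h2] at hc2
  obtain ⟨r, hr, rfl⟩ := List.mem_map.1 hc2
  obtain ⟨g, hg⟩ := rep_as r hr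
  exact ⟨g, H_of_rep hc' hg, hg⟩

theorem S_mem : ∀ c ∈ S, ∃ g ∈ Ag, Rep tt_w tt_mask (eR tt_n) c g :=
  slp2_sound tt_hm tt_hid Ag S prog0 T.reverse T.length (by simp)
    (fun c hc => T_mem c (by simpa using hc)) SchurBase.slp_ok

theorem not_sq_dvd {p : ℕ} (hp : p.Prime) (h2 : p ≠ 2) (h3 : p ≠ 3) (h5 : p ≠ 5) :
    ¬ p ^ 2 ∣ 17971200 := by
  intro h
  have hc : Nat.Coprime (p ^ 2) (2 ^ 11 * 3 ^ 3 * 5 ^ 2) := by
    apply Nat.Coprime.pow_left
    apply Nat.Coprime.mul_right
    · apply Nat.Coprime.mul_right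
      · exact Nat.Coprime.pow_right _ ((Nat.coprime_primes hp Nat.prime_two).2 h2)
      · exact Nat.Coprime.pow_right _ ((Nat.coprime_primes hp Nat.prime_three).2 h3)
    · exact Nat.Coprime.pow_right _ ((Nat.coprime_primes hp Nat.prime_five).2 h5)
  have h4 : p ^ 2 ∣ 13 := by
    have : 17971200 = (2 ^ 11 * 3 ^ 3 * 5 ^ 2) * 13 := by norm_num
    rw [this] at h
    exact hc.dvd_of_dvd_mul_left h
  have h5 := Nat.le_of_dvd (by norm_num) h4
  have h6 : p ≤ 3 := by nlinarith
  interval_cases p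
  all_goals first | omega | (norm_num at hp; done)

theorem bound : StemBound.{0} Ag 1 := by
  have hS' : ∀ c ∈ S.reverse, ∃ g ∈ Ag, Rep tt_w tt_mask (eR tt_n) c g :=
    fun c hc => S_mem c (by simpa using hc)
  have hcard : Nat.card Ag = 17971200 := structure_main.2.2.1
  intro Γ _ _ σ hσ
  refine card_ker_dvd_of_sylow hσ 1 one_ne_zero ?_
  intro p _ P
  by_cases hp2 : p = 2
  · subst hp2
    have hmem := slp2_sound tt_hm tt_hid Ag _ Titsp2.prog S.reverse S.length (by simp) hS' Titsp2.slp_ok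
    exact Cfsg.Agent.Lib.Schur.PcPerm.card_ker_dvd (p := 2) Ag Titsp2.C Titsp2.check_ok Titsp2.codes Titsp2.conj
      Titsp2.base Titsp2.ord Titsp2.chk_ok (fun c hc => hmem c (List.mem_append_left _ hc))
      (fun c hc => hmem c (List.mem_append_right _ hc)) rfl hσ
      (m := 8775) (by rw [hcard]; decide +kernel) (by norm_num) P
  by_cases hp3 : p = 3
  · subst hp3
    have hmem := slp2_sound tt_hm tt_hid Ag _ Titsp3.prog S.reverse S.length (by simp) hS' Titsp3.slp_ok
    exact Cfsg.Agent.Lib.Schur.PcPerm.card_ker_dvd (p := 3) Ag Titsp3.C Titsp3.check_ok Titsp3.codes Titsp3.conj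
      Titsp3.base Titsp3.ord Titsp3.chk_ok (fun c hc => hmem c (List.mem_append_left _ hc))
      (fun c hc => hmem c (List.mem_append_right _ hc)) rfl hσ
      (m := 665600) (by rw [hcard]; decide +kernel) (by norm_num) P
  by_cases hp5 : p = 5
  · subst hp5
    have hmem := slp2_sound tt_hm tt_hid Ag _ Titsp5.prog S.reverse S.length (by simp) hS' Titsp5.slp_ok
    exact Cfsg.Agent.Lib.Schur.PcPerm.card_ker_dvd (p := 5) Ag Titsp5.C Titsp5.check_ok Titsp5.codes Titsp5.conj
      Titsp5.base Titsp5.ord Titsp5.chk_ok (fun c hc => hmem c (List.mem_append_left _ hc))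
      (fun c hc => hmem c (List.mem_append_right _ hc)) rfl hσ
      (m := 718848) (by rw [hcard]; decide +kernel) (by norm_num) P
  · refine card_ker_sylow_of_not_sq_dvd hσ ?_ P
    rw [hcard]
    exact not_sq_dvd Fact.out hp2 hp3 hp5

/-- The abstract transport. -/
theorem equiv_abstract {G K : Type*} [Group G] [Group K] (P A : Subgroup K) (φ : G ≃* P)
    (hder : commutator P = A.subgroupOf P) (hle : A ≤ P) : Nonempty (commutator G ≃* A) := by
  obtain ⟨ψ⟩ := Cfsg.Agent.Lib.Twisted.Eval.commutator_mulEquiv φ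
  exact ⟨ψ.trans ((MulEquiv.subgroupCongr hder).trans (Subgroup.subgroupOfEquivOfLe hle))⟩

theorem nonempty_equiv : Nonempty (Cfsg.Lie.TitsGroup ≃* Ag) := by
  obtain ⟨φ⟩ := nonempty_perm
  obtain ⟨hder, hle, -, -, -⟩ := structure_main
  exact @equiv_abstract ↥(Cfsg.Lie.twistedF4 (ZMod 2) 1) (Equiv.Perm (Fin tt_n)) (Subgroup.toGroup _)
    Equiv.Perm.permGroup Pg Ag φ hder hle

/-- The Schur multiplier of the Tits group is trivial. -/
theorem multiplier_abstract {G : Type} [Group G] (A : Type) [Group A] [Finite A] (e : G ≃* A)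
    (h : StemBound.{0} A 1) : Cfsg.HasCyclicSchurMultiplier G 1 := by
  have : Finite G := Finite.of_equiv _ e.symm.toEquiv
  refine hasCyclicSchurMultiplier_one ?_
  intro Γ _ _ σ hσ
  exact (h.congr e.symm) Γ σ hσ

theorem result : Cfsg.HasCyclicSchurMultiplier Cfsg.Lie.TitsGroup 1 := by
  obtain ⟨e⟩ := nonempty_equiv
  exact @multiplier_abstract Cfsg.Lie.TitsGroup (Subgroup.toGroup _) ↥Ag (Subgroup.toGroup _) inferInstance e bound

end Cfsg.Agent.S2115
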