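-- Statement S2131.
import Cfsg.Statements.S2131
import Cfsg.Agent.Lib.PermComp.Spor.J1
import Cfsg.Agent.Lib.PermComp.OutP.J1C.Thm

set_option autoImplicit false
set_option maxRecDepth 100000
set_option maxHeartbeats 0
open Cfsg

namespace Cfsg.Agent.S2131

open Cfsg.Agent.Lib.PermComp Cfsg.Agent.Lib.PermComp.OutP
open Cfsg.Agent.Lib.PermComp.Spor.J1 Cfsg.Agent.Lib.PermComp.Spor.CertJ1
open Cfsg.Agent.Lib.PermComp.Kron (rangeAll)

private theorem ck (i : Nat) (c : Nat) (h : rangeAll (fun q => Nat.beq (OutP.J1C.F i q) (Core.app j1_w j1_mask c q)) 0 266 = true)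
    (hc : c ∈ j1_G_T) : Has (n := 266) OutP.J1C.F H266 i := by
  obtain ⟨g, hg⟩ := j1_hT c hc
  refine ⟨g, Subgroup.subset_closure ⟨c, hc, hg⟩, fun p hp => ?_⟩
  have h1 := Nat.eq_of_beq_eq_true (Kron.rangeAll_spec h p (Nat.zero_le _) (by omega))
  rw [h1]
  exact hg ⟨p, hp⟩

/-- The regular action of the group of order two. -/
def h1 : Multiplicative (ZMod 2) →* Equiv.Perm (Fin 2) where
  toFun m := if Multiplicative.toAdd m = 0 then 1 else Equiv.swap 0 1
  map_one' := by decide
  map_mul' := by decide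

theorem h1_inj : Function.Injective h1 := by decide

/-- The faithful action of the direct product. -/
noncomputable def psi : Multiplicative (ZMod 2) × ↥(alternatingGroup (Fin 5)) →* Equiv.Perm (Fin 2 ⊕ Fin 5) :=
  (Equiv.Perm.sumCongrHom (Fin 2) (Fin 5)).comp (h1.prodMap (alternatingGroup (Fin 5)).subtype)

theorem psi_inj : Function.Injective psi := by
  intro x y h
  have h2 := Equiv.Perm.sumCongrHom_injective h
  have h3 := Prod.ext_iff.1 h2
  exact Prod.ext (h1_inj h3.1) (Subtype.ext h3.2)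

def a0 : Equiv.Perm (Fin 5) := ⟨![2, 0, 4, 1, 3], ![1, 3, 0, 4, 2], by decide, by decide⟩
theorem a0_mem : a0 ∈ alternatingGroup (Fin 5) := Equiv.Perm.mem_alternatingGroup.2 (by decide +kernel)
noncomputable def y0 : Multiplicative (ZMod 2) × ↥(alternatingGroup (Fin 5)) := (Multiplicative.ofAdd 0, ⟨a0, a0_mem⟩)
def a1 : Equiv.Perm (Fin 5) := ⟨![4, 2, 0, 1, 3], ![2, 3, 1, 4, 0], by decide, by decide⟩
theorem a1_mem : a1 ∈ alternatingGroup (Fin 5) := Equiv.Perm.mem_alternatingGroup.2 (by decide +kernel)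
noncomputable def y1 : Multiplicative (ZMod 2) × ↥(alternatingGroup (Fin 5)) := (Multiplicative.ofAdd 1, ⟨a1, a1_mem⟩)

/-- The generators. -/
noncomputable def bb : Fin 2 → Equiv.Perm (Fin 2 ⊕ Fin 5) := fun i => psi (if i.val = 0 then y0 else y1)

theorem hrb (i : Fin 2) : Core.Rep 5 31 (finSumFinEquiv : Fin 2 ⊕ Fin 5 ≃ Fin (2 + 5)) (OutP.J1C.mcF i) (bb i) := by
  intro x
  fin_cases i
  · revert x
    decide +kernel
  · revert x
    decide +kernel

theorem card_bb : Nat.card (famCl bb) = 120 := by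
  rw [card_famCl_of_check (e := (finSumFinEquiv : Fin 2 ⊕ Fin 5 ≃ Fin (2 + 5))) bb OutP.J1C.mcF hrb OutP.J1C.cM_check, OutP.J1C.cM_order]

theorem card_Y : Nat.card (Multiplicative (ZMod 2) × ↥(alternatingGroup (Fin 5))) = 120 := by
  rw [Nat.card_prod, Nat.card_eq_fintype_card, Nat.card_eq_fintype_card]
  have h := two_mul_card_alternatingGroup (α := Fin 5)
  have h5 : Fintype.card (Equiv.Perm (Fin 5)) = 120 := by
    rw [Fintype.card_perm]
    rfl
  have h2 : Fintype.card (Multiplicative (ZMod 2)) = 2 := by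
    change Fintype.card (ZMod 2) = 2
    exact ZMod.card 2
  rw [h2, h, h5]

/-- The Janko group J₁ (the group generated by two explicit 7 × 7 matrices over the integers modulo 11) has an involution whose centraliser is isomorphic to the direct product of a group of order 2 with the alternating group of degree 5. -/
theorem result : ∃ t : ↥Cfsg.Spor.J1, orderOf t = 2 ∧ Nonempty (↥(Subgroup.centralizer ({t} : Set ↥Cfsg.Spor.J1)) ≃* Multiplicative (ZMod 2) × ↥(alternatingGroup (Fin 5))) := by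
  have hmain := Spor.J1.main
  obtain ⟨-, ⟨e⟩⟩ := hmain
  have e' : ↥Cfsg.Spor.J1 ≃* H266 := e
  have hX : ∀ g < 2, Has (n := 266) OutP.J1C.F H266 g := by
    intro g hg
    interval_cases g
    · exact ck 0 (Core.nthN j1_G_T 0) (by decide +kernel) (Core.nthN_mem _ 0 (by decide +kernel))
    · exact ck 1 (Core.nthN j1_G_T 1) (by decide +kernel) (Core.nthN_mem _ 1 (by decide +kernel))
  obtain ⟨z, hz, -, h2, h1', hiso⟩ := OutP.J1C.cent_main card_H266 hX (finSumFinEquiv : Fin 2 ⊕ Fin 5 ≃ Fin (2 + 5)) bb hrb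
  have hle : famCl bb ≤ psi.range := (Subgroup.closure_le _).2 (by
    rintro _ ⟨i, rfl⟩
    exact ⟨_, rfl⟩)
  have hcr : Nat.card psi.range = 120 := by
    rw [← card_Y]
    exact Nat.card_congr (MonoidHom.ofInjective psi_inj).symm.toEquiv
  have heq : famCl bb = psi.range := Subgroup.eq_of_le_of_card_ge hle (by rw [hcr, card_bb])
  let w : H266 := ⟨z, hz⟩
  have hw2 : w ^ 2 = 1 := by
    rw [pow_two]
    exact Subtype.ext h2
  have hw1 : w ≠ 1 := fun h => h1' (congrArg Subtype.val h)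
  have : Fact (Nat.Prime 2) := ⟨Nat.prime_two⟩
  refine ⟨e'.symm w, ?_, ?_⟩
  · rw [MulEquiv.orderOf_eq]
    exact orderOf_eq_prime hw2 hw1
  · obtain ⟨h3⟩ := hiso
    exact cent_transfer e' w ⟨h3.trans ((MulEquiv.subgroupCongr heq).trans (MonoidHom.ofInjective psi_inj).symm)⟩

end Cfsg.Agent.S2131
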