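import Cfsg.Statements.S2140
import Cfsg.Agent.Lib.Classical.MinIndex.Main

set_option autoImplicit false
open Cfsg

namespace Cfsg.Agent.S2140

open Cfsg.Agent.Lib.Classical.MinIndex

/-- Minimal index of a proper subgroup of the linear groups: for n ≥ 3 and a field F with q elements, (n, q) ≠ (4, 2), every proper subgroup of PSL_n(F) has index at least (q^n − 1)/(q − 1), and some subgroup has exactly that index (the stabiliser of a point of the projective space). -/
theorem result {F : Type*} [Field F] [Fintype F] {q : ℕ} (hF : Fintype.card F = q) (n : ℕ) (hn : 3 ≤ n) (hexc : ¬ (n = 4 ∧ q = 2)) : (∀ H : Subgroup (Matrix.ProjectiveSpecialLinearGroup (Fin n) F), H ≠ ⊤ → (q ^ n - 1) / (q - 1) ≤ H.index) ∧ (∃ H : Subgroup (Matrix.ProjectiveSpecialLinearGroup (Fin n) F), H.index = (q ^ n - 1) / (q - 1)) := by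
  classical
  subst hF
  have hq2 : 2 ≤ Fintype.card F := Fintype.one_lt_card
  have hN : (Fintype.card F ^ n - 1) / (Fintype.card F - 1) = Ns (Fintype.card F) n :=
    (Nat.geomSum_eq hq2 n).symm
  rw [hN]
  constructor
  · intro H hH
    set K := H.comap (QuotientGroup.mk' (Subgroup.center (Matrix.SpecialLinearGroup (Fin n) F)))
      with hK
    have hi : K.index = H.index :=
      Subgroup.index_comap_of_surjective _ (QuotientGroup.mk'_surjective _)
    rw [← hi]
    refine SL_lower hn hexc ?_
    intro h1
    apply hH
    rw [eq_top_iff]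
    intro x _
    obtain ⟨g, rfl⟩ := QuotientGroup.mk'_surjective _ x
    have h2 : g ∈ K := by
      rw [h1]
      trivial
    exact h2
  · have hne : (fun i : Fin n => if i = ⟨0, by omega⟩ then (1 : F) else 0) ≠ 0 := by
      intro h
      have := congrFun h ⟨0, by omega⟩
      simp at this
    set x : Projectivization F (Fin n → F) := Projectivization.mk F _ hne with hx
    refine ⟨MulAction.stabilizer _ x, ?_⟩
    rw [MulAction.index_stabilizer_of_transitive]
    have h3 := Projectivization.card_of_finrank (k := F) (V := Fin n → F) (n := n) (by simp)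
    rw [h3, Nat.card_eq_fintype_card]
    rfl

end Cfsg.Agent.S2140
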