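import Cfsg.Statements.S2142
import Cfsg.Agent.Lib.SpTwo.Exist

set_option autoImplicit false
open Cfsg

namespace Cfsg.Agent.S2142

/-- Minimal index of a proper subgroup of the symplectic groups over the field with 2 elements: for m ≥ 3, every proper subgroup of Sp_2m(2) has index at least 2^(m−1)(2^m − 1), and that index is attained. -/
theorem result {F : Type*} [Field F] [Fintype F] (hF : Fintype.card F = 2) (m : ℕ) (hm : 3 ≤ m) : (∀ H : Subgroup (Cfsg.PSp m F), H ≠ ⊤ → 2 ^ (m - 1) * (2 ^ m - 1) ≤ H.index) ∧ (∃ H : Subgroup (Cfsg.PSp m F), H.index = 2 ^ (m - 1) * (2 ^ m - 1)) := by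
  classical
  haveI : CharP F 2 := CharTwo.of_one_ne_zero_of_two_eq_zero one_ne_zero
    ((Cfsg.Agent.Lib.Classical.SympSimple.two_eq_zero_iff_even_card).2 (by rw [hF]; decide))
  constructor
  · intro H hH
    set K := H.comap (QuotientGroup.mk' (Subgroup.center (Matrix.symplecticGroup (Fin m) F))) with hK
    have hi : K.index = H.index :=
      Subgroup.index_comap_of_surjective _ (QuotientGroup.mk'_surjective _)
    rw [← hi]
    refine Cfsg.Agent.Lib.SpTwo.Main.lower_bound K hF hm ?_
    intro h1
    apply hH
    rw [eq_top_iff]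
    intro x _
    obtain ⟨g, rfl⟩ := QuotientGroup.mk'_surjective _ x
    have h2 : g ∈ K := by
      rw [h1]
      trivial
    exact h2
  · obtain ⟨K, hK⟩ := Cfsg.Agent.Lib.SpTwo.Exist.exists_index (F := F) (m := m) hF (by omega)
    have hc : Subgroup.center (Matrix.symplecticGroup (Fin m) F) ≤ K := by
      intro A hA
      rcases (Cfsg.Agent.Lib.Classical.SympSimple.mem_center_symplecticGroup_iff (by omega) A).1 hA with h | h
      · rw [h]
        exact K.one_mem
      · have h1 : A = 1 := by
          rw [h]
          apply Subtype.ext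
          show (-1 : Matrix _ _ F) = 1
          ext i j
          simp only [Matrix.neg_apply]
          exact CharTwo.neg_eq _
        rw [h1]
        exact K.one_mem
    have e : (K.map (QuotientGroup.mk' (Subgroup.center (Matrix.symplecticGroup (Fin m) F)))).comap
        (QuotientGroup.mk' (Subgroup.center (Matrix.symplecticGroup (Fin m) F))) = K := by
      rw [Subgroup.comap_map_eq, QuotientGroup.ker_mk', sup_of_le_left hc]
    refine ⟨K.map (QuotientGroup.mk' _), ?_⟩
    rw [← Subgroup.index_comap_of_surjective _ (QuotientGroup.mk'_surjective _), e]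
    exact hK

end Cfsg.Agent.S2142
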