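import Cfsg.Statements.S2150
import Cfsg.Agent.Lib.MinSU.Four5


set_option autoImplicit false
open Cfsg

namespace Cfsg.Agent.S2150

open Cfsg.Agent.Lib.MinSU Cfsg.Agent.Lib.Classical.HermBasic Cfsg.Agent.Lib.Classical.HermGen

/-- Minimal index of a proper subgroup of the four-dimensional unitary groups: for a field F with q² elements, every proper subgroup of PSU₄(q) has index at least (q + 1)(q³ + 1), and that index is attained. -/
theorem result {F : Type*} [Field F] [Fintype F] (q : ℕ) (hF : Fintype.card F = q ^ 2) (hq : 2 ≤ q) : (∀ H : Subgroup (Cfsg.PSU 4 F q), H ≠ ⊤ → (q + 1) * (q ^ 3 + 1) ≤ H.index) ∧ (∃ H : Subgroup (Cfsg.PSU 4 F q), H.index = (q + 1) * (q ^ 3 + 1)) := by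
  classical
  have S := Cfsg.Agent.Lib.Classical.HermBridge.hform hF 4
  have hfr : Module.finrank F (Fin 4 → F) = 4 := Module.finrank_fin_fun F
  constructor
  · intro H hH
    exact psu_lower 4 ((q + 1) * (q ^ 3 + 1))
      (fun K hK => four_bound hF S hfr K hK) H hH
  · have hσ := invol_frob' hF S
    haveI : Finite F := Finite.of_fintype F
    obtain ⟨e, f, He⟩ := exists_hp S hσ (by omega)
    have hfrW : Module.finrank F (perp2 S e f) = 2 := by
      have := finrank_perp2 S He
      omega
    obtain ⟨z, hz0, hzz⟩ := exists_isotropic (restrict S He) hσ (by omega)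
    have hz0' : z.1 ≠ 0 := fun h0 => hz0 (Subtype.ext h0)
    have hM := plane_of_pair hF S He z.2 hz0' hzz
    obtain ⟨H', hH'⟩ := psu_exists (q := q) 4 _ (center_le_stab_plane hF S (by omega)
      (Submodule.span F {e, z.1}))
    exact ⟨H', hH'.trans (index_stab_plane hF S hfr hM)⟩

end Cfsg.Agent.S2150
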