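import Cfsg.Statements.S2152
import Cfsg.Agent.Lib.MinSU.Even

set_option autoImplicit false
open Cfsg

namespace Cfsg.Agent.S2152

open Cfsg.Agent.Lib.MinSU Cfsg.Agent.Lib.Classical.HermBasic Cfsg.Agent.Lib.Classical.HermGen

/-- Minimal index of a proper subgroup of the unitary groups of even dimension n ≥ 6: for a field F with q² elements, q ≥ 3, every proper subgroup of PSU_n(q) has index at least (q^n − 1)(q^(n−1) + 1)/(q² − 1), and that index is attained (the isotropic points). -/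
theorem result {F : Type*} [Field F] [Fintype F] (q : ℕ) (hF : Fintype.card F = q ^ 2) (hq : 3 ≤ q) (n : ℕ) (hn : 6 ≤ n) (heven : Even n) : (∀ H : Subgroup (Cfsg.PSU n F q), H ≠ ⊤ → (q ^ n - 1) * (q ^ (n - 1) + 1) / (q ^ 2 - 1) ≤ H.index) ∧ (∃ H : Subgroup (Cfsg.PSU n F q), H.index = (q ^ n - 1) * (q ^ (n - 1) + 1) / (q ^ 2 - 1)) := by
  classical
  obtain ⟨j, hj⟩ := heven
  obtain ⟨k, rfl⟩ : ∃ k, n = 2 * k + 6 := ⟨j - 3, by omega⟩
  have hq2 : 2 ≤ q := by omega
  have S := Cfsg.Agent.Lib.Classical.HermBridge.hform hF (2 * k + 6)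
  have hfr : Module.finrank F (Fin (2 * k + 6) → F) = 2 * k + 6 := Module.finrank_fin_fun F
  constructor
  · intro H hH
    exact psu_lower (2 * k + 6) (Dv q (2 * k + 6))
      (fun K hK => chain_q3 hF hq k _ _ S hfr K hK) H hH
  · have hσ := invol_frob' hF S
    haveI : Finite F := Finite.of_fintype F
    obtain ⟨e, f, He⟩ := exists_hp S hσ (by omega)
    have he0 := He.ne_left S
    obtain ⟨H', hH'⟩ := psu_exists (q := q) (2 * k + 6) _ (center_le_stab hF S (by omega) (y := e))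
    refine ⟨H', hH'.trans ?_⟩
    show _ = Dv q (2 * k + 6)
    have h1 := index_stab_sing hF S (2 * k + 5) (by omega) (by omega) he0 He.ee
    have h2 := Dv_spec q k hq2
    have e1 : (-1 : ℤ) ^ (2 * k + 5 + 1) = 1 := Even.neg_one_pow ⟨k + 3, by ring⟩
    have e2 : (-1 : ℤ) ^ (2 * k + 5) = -1 := Odd.neg_one_pow ⟨k + 2, by ring⟩
    rw [e1, e2, sub_neg_eq_add] at h1
    have h4 : ((q ^ 2 - 1 : ℕ) : ℤ) * ((stabSub (Cfsg.hermForm (2 * k + 6) F q)
        (Submodule.span F {e})).index : ℤ) =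
        ((q : ℤ) ^ (2 * k + 6) - 1) * ((q : ℤ) ^ (2 * k + 5) + 1) := h1
    rw [← h2] at h4
    have hcast : ((q ^ 2 - 1 : ℕ) : ℤ) = (q : ℤ) ^ 2 - 1 := by
      have : 1 ≤ q ^ 2 := Nat.one_le_pow _ _ (by omega)
      push_cast [Nat.cast_sub this]
      ring
    rw [hcast] at h4
    have h3 := mul_left_cancel₀ (ne_of_gt (q_sq_sub_one_pos (q := q) hq2)) h4
    exact_mod_cast h3

end Cfsg.Agent.S2152
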