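import Cfsg.Statements.S2153
import Cfsg.Agent.Lib.MinSU.Even2

set_option autoImplicit false
open Cfsg

namespace Cfsg.Agent.S2153

open Cfsg.Agent.Lib.MinSU Cfsg.Agent.Lib.Classical.HermBasic Cfsg.Agent.Lib.Classical.HermGen

/-- Minimal index of a proper subgroup of the unitary groups PSU_n(2) with n divisible by 6, realised over the field with 4 elements: every proper subgroup has index at least 2^(n−1)(2^n − 1)/3, and that index is attained. -/
theorem result {F : Type*} [Field F] [Fintype F] (hF : Fintype.card F = 4) (n : ℕ) (hn : 6 ∣ n) (hpos : 6 ≤ n) : (∀ H : Subgroup (Cfsg.PSU n F 2), H ≠ ⊤ → 2 ^ (n - 1) * (2 ^ n - 1) / 3 ≤ H.index) ∧ (∃ H : Subgroup (Cfsg.PSU n F 2), H.index = 2 ^ (n - 1) * (2 ^ n - 1) / 3) := by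
  classical
  have hF' : Fintype.card F = 2 ^ 2 := by rw [hF]; norm_num
  obtain ⟨j, hj⟩ := hn
  obtain ⟨k, rfl⟩ : ∃ k, n = 2 * k + 6 := ⟨3 * j - 3, by omega⟩
  have S := Cfsg.Agent.Lib.Classical.HermBridge.hform hF' (2 * k + 6)
  have hfr : Module.finrank F (Fin (2 * k + 6) → F) = 2 * k + 6 := Module.finrank_fin_fun F
  constructor
  · intro H hH
    exact psu_lower (2 * k + 6) (NSv (2 * k + 6))
      (fun K hK => chain_q2 hF' k _ _ S hfr K hK) H hH
  · have hσ := invol_frob' hF' S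
    haveI : Finite F := Finite.of_fintype F
    obtain ⟨e, f, He⟩ := exists_hp S hσ (by omega)
    obtain ⟨u, -, huu⟩ := exists_nonisotropic_perp2 S hσ (by omega) He
    obtain ⟨H', hH'⟩ := psu_exists (q := 2) (2 * k + 6) _ (center_le_stab hF' S (by omega) (y := u))
    refine ⟨H', hH'.trans ?_⟩
    show _ = NSv (2 * k + 6)
    have h1 := index_stab_nonsing hF' S (2 * k + 5) (by omega) (by omega) huu
    have h2 := NSv_spec k
    have e1 : (-1 : ℤ) ^ (2 * k + 5 + 1) = 1 := Even.neg_one_pow ⟨k + 3, by ring⟩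
    have e2 : (-1 : ℤ) ^ (2 * k + 5) = -1 := Odd.neg_one_pow ⟨k + 2, by ring⟩
    rw [e1, e2, sub_neg_eq_add] at h1
    push_cast at h1
    have h4 : (3 : ℤ) * ((stabSub (Cfsg.hermForm (2 * k + 6) F 2)
        (Submodule.span F {u})).index : ℤ) =
        (2 : ℤ) ^ (2 * (2 * k + 6)) - 1 - ((2 : ℤ) ^ (2 * k + 6) - 1) * ((2 : ℤ) ^ (2 * k + 5) + 1) := by
      rw [← show (((2 : ℕ) ^ 2 - 1 : ℕ) : ℤ) = 3 by norm_num]
      exact_mod_cast h1
    have e3 : (2 : ℤ) ^ (2 * (2 * k + 6)) = ((2 : ℤ) ^ (2 * k + 6)) ^ 2 := by ring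
    have e4 : (2 : ℤ) ^ (2 * k + 6) = 2 * (2 : ℤ) ^ (2 * k + 5) := by ring
    rw [e3, e4] at h4
    rw [e4] at h2
    have h3 : ((stabSub (Cfsg.hermForm (2 * k + 6) F 2) (Submodule.span F {u})).index : ℤ) =
        (NSv (2 * k + 6) : ℤ) := by
      have h5 : (3 : ℤ) * ((stabSub (Cfsg.hermForm (2 * k + 6) F 2)
          (Submodule.span F {u})).index : ℤ) = 3 * (NSv (2 * k + 6) : ℤ) := by
        rw [h4, h2]
        ring
      linarith
    exact_mod_cast h3

end Cfsg.Agent.S2153
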