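-- Statement S2155: proof.
import Cfsg.Statements.S2155
import Cfsg.Agent.Lib.ChevX.CentRad
import Cfsg.Agent.Lib.CharP.Basic
import Cfsg.Agent.Lib.Lie.AxOf

set_option autoImplicit false
open Cfsg

namespace Cfsg.Agent.S2155

open Cfsg.Agent.Lib.Chev Cfsg.Agent.Lib.ChevX.CentRad Cfsg.Agent.Lib.CharP.Basic

/-- In a Chevalley group of type G₂, B₂, D₄, F₄, E₆, E₇ or E₈ over a finite field of characteristic p (for types G₂ and B₂ the field is assumed to have at least 3 elements, so that the group is simple), the generalized Fitting subgroup of every proper standard parabolic subgroup P_J is a p-group (P_J is p-constrained with trivial largest normal subgroup of order prime to p). -/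
theorem result {F : Type*} [Field F] [Fintype F] (p : ℕ) [Fact p.Prime] [CharP F p] (D : Cfsg.Lie.ChevalleyDatum) (hD : D ∈ [Cfsg.Lie.chevG2, Cfsg.Lie.chevB2, Cfsg.Lie.chevD4, Cfsg.Lie.chevF4, Cfsg.Lie.chevE6, Cfsg.Lie.chevE7, Cfsg.Lie.chevE8]) (hq : (D = Cfsg.Lie.chevG2 ∨ D = Cfsg.Lie.chevB2) → 3 ≤ Fintype.card F) (J : Set ℕ) (hJ : ∃ i, i < D.rank ∧ i ∉ J) : IsPGroup p ↥(Cfsg.generalizedFittingSubgroup ↥(D.parabolicSubgroup F J)) := by
  classical
  have h := Tables.tab_of_mem hD
  have h2 := Tables2.tab2_of_mem hD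
  have ax : AxBasic.Ax D F := Cfsg.Agent.Lib.Lie.AxOf.ax_of_mem hD
  have hc := spanCheck_of_mem hD
  obtain ⟨i, hi, hiJ⟩ := hJ
  -- `U` is a `p`-group
  have hUp : IsPGroup p ↥(D.posUnipotent F) := by
    obtain ⟨n, _, hn⟩ := FiniteField.card F p
    apply IsPGroup.of_card (n := n.val * (D.nroots / 2))
    rw [Products2.card_U ax h h2, hn, pow_mul]
  let X := ↥(D.parabolicSubgroup F J)
  have hUle : D.posUnipotent F ≤ D.parabolicSubgroup F J :=
    le_trans (le_sup_left : D.posUnipotent F ≤ D.borelSubgroup F) (le_sup_left : D.borelSubgroup F ≤ D.parabolicSubgroup F J)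
  have hRU : D.unipotentRadical F J ≤ D.posUnipotent F := Parab.radical_le_U h h2 ax J
  -- the radical in `X`
  let R : Subgroup X := (D.unipotentRadical F J).subgroupOf (D.parabolicSubgroup F J)
  have hRn : R.Normal := by
    constructor
    intro x hx g
    rw [Subgroup.mem_subgroupOf] at hx ⊢
    have := Parab.parabolic_le_normalizer h h2 ax J g.2
    exact (Subgroup.mem_normalizer_iff.mp this _).mp hx
  have hUX : IsPGroup p ((D.posUnipotent F).subgroupOf (D.parabolicSubgroup F J)) := by
    intro g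
    obtain ⟨k, hk⟩ := hUp ⟨g.1.1, Subgroup.mem_subgroupOf.mp g.2⟩
    refine ⟨k, Subtype.ext (Subtype.ext ?_)⟩
    have := congrArg Subtype.val hk
    simpa using this
  have hRp : IsPGroup p R := hUX.to_le (fun x hx => Subgroup.mem_subgroupOf.mpr (hRU (Subgroup.mem_subgroupOf.mp hx)))
  have hRle : R ≤ pCore p X := le_pCore hRn hRp
  -- the centraliser of `O_p`
  have hCU : Subgroup.centralizer (pCore p X : Set X) ≤ (D.posUnipotent F).subgroupOf (D.parabolicSubgroup F J) := by
    intro y hy
    rw [Subgroup.mem_subgroupOf]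
    apply mem_U_of_commute h h2 ax hc hi hiJ (Parab.parabolic_le_group h h2 ax J y.2)
    intro z hz
    have hzP : z ∈ D.parabolicSubgroup F J := hUle (hRU hz)
    have hzR : (⟨z, hzP⟩ : X) ∈ R := by
      rw [Subgroup.mem_subgroupOf]
      exact hz
    have := Subgroup.mem_centralizer_iff.mp hy _ (hRle hzR)
    exact (congrArg Subtype.val this).symm
  have hCn : (Subgroup.centralizer (pCore p X : Set X)).Normal := by
    have := pCore_normal p X
    exact Subgroup.normal_centralizer
  have hCp : IsPGroup p (Subgroup.centralizer (pCore p X : Set X)) := hUX.to_le hCU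
  have hfin := generalizedFitting_eq_of_charP (X := X) (p := p) (le_pCore hCn hCp)
  rw [hfin]
  exact pCore_isPGroup p X

end Cfsg.Agent.S2155
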