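-- Statement S2160: proof.
import Cfsg.Statements.S2160
import Cfsg.Agent.Lib.ChevX.Reach

set_option autoImplicit false
open Cfsg

namespace Cfsg.Agent.S2160

open Cfsg.Lie Cfsg.Agent.Lib.Chev.AxBasic Cfsg.Agent.Lib.Lie.Facts Cfsg.Agent.Lib.ChevX.Reach

/-- In a Chevalley group of type G₂, B₂, D₄, F₄, E₆, E₇ or E₈ over a finite field, every field automorphism commutes with every graph automorphism. -/
theorem result {F : Type*} [Field F] [Finite F] (D : Cfsg.Lie.ChevalleyDatum) (hD : D ∈ [Cfsg.Lie.chevG2, Cfsg.Lie.chevB2, Cfsg.Lie.chevD4, Cfsg.Lie.chevF4, Cfsg.Lie.chevE6, Cfsg.Lie.chevE7, Cfsg.Lie.chevE8]) (f g : ↥(D.group F) ≃* ↥(D.group F))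
    (hf : D.IsFieldAut f) (hg : D.IsGraphAut g) (y : ↥(D.group F)) : f (g y) = g (f y) := by
  have hD' : IsData D := hD
  have ax : Ax D F := Cfsg.Agent.Lib.Lie.AxOf.ax_of_mem hD'
  obtain ⟨σ, hσ⟩ := hf
  obtain ⟨π, -, hπ⟩ := hg
  let fg : ↥(D.group F) →* ↥(D.group F) := f.toMonoidHom.comp g.toMonoidHom
  let gf : ↥(D.group F) →* ↥(D.group F) := g.toMonoidHom.comp f.toMonoidHom
  let K : Subgroup (GL D.Idx F) := (fg.eqLocus gf).map (D.group F).subtype
  have key1 : ∀ (i : ℕ) (hi : i < D.rank) (t : F), xG ax (D.simple i) t ∈ K := by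
    intro i hi t
    have hr := simple_lt hD' i hi
    let y : ↥(D.group F) := ⟨xG ax (D.simple i) t, xG_mem_group ax hr t⟩
    refine ⟨y, ?_, rfl⟩
    show f (g y) = g (f y)
    have hy : ((y : GL D.Idx F) : Matrix D.Idx D.Idx F) = D.x F (D.simple i) t := xG_val ax _ t
    have h1 := (hπ y ⟨i, hi⟩ t).1 hy
    have h2 := hσ y _ t hr hy
    have h3 := hσ (g y) _ _ (simple_lt hD' _ (π ⟨i, hi⟩).2) h1
    have h4 := (hπ (f y) ⟨i, hi⟩ (σ t)).1 h2
    apply Subtype.ext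
    apply Units.ext
    rw [h3, h4, map_pow]
  have key2 : ∀ (i : ℕ) (hi : i < D.rank) (t : F), xG ax (D.neg (D.simple i)) t ∈ K := by
    intro i hi t
    have hr := neg_lt hD' _ (simple_lt hD' i hi)
    let y : ↥(D.group F) := ⟨xG ax (D.neg (D.simple i)) t, xG_mem_group ax hr t⟩
    refine ⟨y, ?_, rfl⟩
    show f (g y) = g (f y)
    have hy : ((y : GL D.Idx F) : Matrix D.Idx D.Idx F) = D.x F (D.neg (D.simple i)) t := xG_val ax _ t
    have h1 := (hπ y ⟨i, hi⟩ t).2 hy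
    have h2 := hσ y _ t hr hy
    have h3 := hσ (g y) _ _ (neg_lt hD' _ (simple_lt hD' _ (π ⟨i, hi⟩).2)) h1
    have h4 := (hπ (f y) ⟨i, hi⟩ (σ t)).2 h2
    apply Subtype.ext
    apply Units.ext
    rw [h3, h4, map_pow]
  have hle := group_le hD' ax key1 key2
  obtain ⟨z, hz, hzy⟩ := hle y.2
  have : z = y := Subtype.ext hzy
  rw [← this]
  exact hz

end Cfsg.Agent.S2160
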