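-- Statement S2161: proof.
import Cfsg.Statements.S2161
import Cfsg.Agent.Lib.ChevX.Reach

set_option autoImplicit false
open Cfsg

namespace Cfsg.Agent.S2161

open Cfsg.Lie Cfsg.Agent.Lib.Chev.AxBasic Cfsg.Agent.Lib.Lie.Facts Cfsg.Agent.Lib.ChevX.Reach

/-- `permRoot` for a permutation given by a list. -/
def permRootL (D : ChevalleyDatum) (L : List ℕ) (r : ℕ) : ℕ :=
  ((List.range D.nroots).find? fun s => (List.finRange D.rank).all fun i =>
      (D.coroot.getD s #[]).getD (L.getD i.val 0) 0 == (D.coroot.getD r #[]).getD i.val 0).getD r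

/-- The conclusion. -/
def concl (D : ChevalleyDatum) (L : List ℕ) : Bool :=
  (List.range D.nroots).all (fun r => decide (permRootL D L r < D.nroots)) &&
  (List.range D.rank).all (fun i => decide (permRootL D L (D.simple i) = D.simple (L.getD i 0))) &&
  (List.range D.rank).all (fun i => (List.range D.nroots).all fun s =>
    decide (permRootL D L (D.reflectRoot i s) = D.reflectRoot (L.getD i 0) (permRootL D L s)))

/-- The new node `a` is compatible with the earlier ones. -/
def compat (D : ChevalleyDatum) (pre : List ℕ) (a : ℕ) : Bool :=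
  (List.range pre.length).all fun i => decide (D.bonds (pre.getD i 0) a = D.bonds i pre.length)

/-- Backtracking over the partial symmetries. -/
def chk (D : ChevalleyDatum) : ℕ → List ℕ → Bool
  | 0, pre => concl D pre
  | k + 1, pre => (List.range D.rank).all fun a => !(compat D pre a) || chk D k (pre ++ [a])

lemma chk_sound (D : ChevalleyDatum) : ∀ (k : ℕ) (pre rest : List ℕ), chk D k pre = true →
    rest.length = k → (∀ a ∈ rest, a < D.rank) → pre.length + k = D.rank →
    (∀ i j, i < D.rank → j < D.rank → i ≠ j →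
      D.bonds ((pre ++ rest).getD i 0) ((pre ++ rest).getD j 0) = D.bonds i j) →
    concl D (pre ++ rest) = true := by
  intro k
  induction k with
  | zero =>
    intro pre rest h hl _ _ _
    rw [List.length_eq_zero_iff.1 hl, List.append_nil]
    exact h
  | succ k ih =>
    intro pre rest h hl hrest hlen hb
    cases rest with
    | nil => simp at hl
    | cons a rest =>
      have ha : a < D.rank := hrest a (by simp)
      have h1 := List.all_eq_true.1 h a (List.mem_range.2 ha)
      have hp : compat D pre a = true := by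
        simp only [compat, List.all_eq_true, List.mem_range, decide_eq_true_eq]
        intro i hi
        have h2 := hb i pre.length (by omega) (by omega) (by omega)
        have h3 : (pre ++ a :: rest).getD i 0 = pre.getD i 0 := by
          simp [List.getD, List.getElem?_append, hi]
        have h4 : (pre ++ a :: rest).getD pre.length 0 = a := by
          simp [List.getD]
        rwa [h3, h4] at h2
      rw [hp] at h1
      simp only [Bool.not_true, Bool.false_or] at h1
      have h5 : pre ++ a :: rest = (pre ++ [a]) ++ rest := by simp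
      rw [h5]
      apply ih (pre ++ [a]) rest h1 (by simpa using hl) (fun b hb' => hrest b (by simp [hb']))
        (by simp; omega)
      rw [← h5]
      exact hb

theorem check_D4 : chk chevD4 4 [] = true := by decide +kernel
theorem check_E6 : chk chevE6 6 [] = true := by decide +kernel

variable {D : ChevalleyDatum}

lemma getD_list (π : Equiv.Perm (Fin D.rank)) (i : ℕ) (hi : i < D.rank) :
    ((List.finRange D.rank).map fun j => (π j).val).getD i 0 = (π ⟨i, hi⟩).val := by
  simp [List.getD, hi]

/-- The facts about `permRoot`. -/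
theorem facts (hD : D ∈ [chevD4, chevE6]) (π : Equiv.Perm (Fin D.rank))
    (hπ : D.IsDiagramSymmetry π) :
    (∀ r, r < D.nroots → D.permRoot π r < D.nroots) ∧
    (∀ i : Fin D.rank, D.permRoot π (D.simple i) = D.simple (π i)) ∧
    (∀ (i : Fin D.rank) (s : ℕ), s < D.nroots →
      D.permRoot π (D.reflectRoot i s) = D.reflectRoot (π i) (D.permRoot π s)) := by
  have hc : chk D D.rank [] = true := by
    simp only [List.mem_cons, List.not_mem_nil, or_false] at hD
    rcases hD with rfl | rfl
    · exact check_D4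
    · exact check_E6
  set L : List ℕ := (List.finRange D.rank).map fun j => (π j).val with hL
  have hperm : ∀ r, D.permRoot π r = permRootL D L r := by
    intro r
    unfold ChevalleyDatum.permRoot permRootL
    congr 2
    funext s
    congr 1
    funext i
    rw [hL, getD_list π i.val i.2]
  have h1 : concl D ([] ++ L) = true := by
    apply chk_sound D D.rank [] L hc
    · simp [hL]
    · intro a ha
      simp only [hL, List.mem_map] at ha
      obtain ⟨j, -, rfl⟩ := ha
      exact (π j).2
    · simp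
    · intro i j hi hj hij
      rw [List.nil_append, hL, getD_list π i hi, getD_list π j hj]
      exact hπ ⟨i, hi⟩ ⟨j, hj⟩ (by simpa [Fin.ext_iff] using hij)
  rw [List.nil_append] at h1
  simp only [concl, Bool.and_eq_true, List.all_eq_true, List.mem_range, decide_eq_true_eq] at h1
  obtain ⟨⟨h2, h3⟩, h4⟩ := h1
  refine ⟨fun r hr => ?_, fun i => ?_, fun i s hs => ?_⟩
  · rw [hperm]; exact h2 r hr
  · rw [hperm, h3 i i.2, hL, getD_list π i.val i.2]
  · rw [hperm, hperm, h4 i i.2 s hs, hL, getD_list π i.val i.2]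

/-- For the Chevalley groups of types D₄ and E₆ (one root length) over any field: if `π` is a symmetry of the Dynkin diagram and `φ` is an automorphism sending `x_{p_i}(t)` to `x_{p_{π i}}(t)` and `x_{-p_i}(t)` to `x_{-p_{π i}}(t)` for every fundamental root `p_i`, then for every root `r` there is a sign `ε = ±1` with `φ(x_r(t)) = x_{π·r}(ε t)` for all `t`, where `π·r` is the root whose coefficients are those of `r` permuted by `π`. -/
theorem result {F : Type*} [Field F] (D : Cfsg.Lie.ChevalleyDatum) (hD : D ∈ [Cfsg.Lie.chevD4, Cfsg.Lie.chevE6])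
    (π : Equiv.Perm (Fin D.rank)) (hπ : D.IsDiagramSymmetry π) (φ : ↥(D.group F) ≃* ↥(D.group F))
    (hφ : ∀ (g : ↥(D.group F)) (i : Fin D.rank) (t : F),
      (((g : GL D.Idx F) : Matrix D.Idx D.Idx F) = D.x F (D.simple i) t →
        ((φ g : GL D.Idx F) : Matrix D.Idx D.Idx F) = D.x F (D.simple (π i)) t) ∧
      (((g : GL D.Idx F) : Matrix D.Idx D.Idx F) = D.x F (D.neg (D.simple i)) t →
        ((φ g : GL D.Idx F) : Matrix D.Idx D.Idx F) = D.x F (D.neg (D.simple (π i))) t))
    (r : ℕ) (hr : r < D.nroots) :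
    ∃ ε : F, (ε = 1 ∨ ε = -1) ∧ ∀ (g : ↥(D.group F)) (t : F),
      ((g : GL D.Idx F) : Matrix D.Idx D.Idx F) = D.x F r t →
        ((φ g : GL D.Idx F) : Matrix D.Idx D.Idx F) = D.x F (D.permRoot π r) (ε * t) := by
  have hD' : IsData D := by
    simp only [List.mem_cons, List.not_mem_nil, or_false] at hD
    rcases hD with rfl | rfl <;> simp [IsData]
  have ax : Ax D F := Cfsg.Agent.Lib.Lie.AxOf.ax_of_mem hD'
  obtain ⟨fa, fb, fc⟩ := facts hD π hπ
  -- the generators in the group
  let X (r : ℕ) (hr : r < D.nroots) (t : F) : ↥(D.group F) := ⟨xG ax r t, xG_mem_group ax hr t⟩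
  -- the image of `n_i`
  let N (i : Fin D.rank) : ↥(D.group F) :=
    X _ (simple_lt hD' _ i.2) 1 * X _ (neg_lt hD' _ (simple_lt hD' _ i.2)) (-(1 : F)⁻¹) *
      X _ (simple_lt hD' _ i.2) 1
  have hNval : ∀ i : Fin D.rank, ((N i : ↥(D.group F)) : GL D.Idx F) = nG ax (D.simple i) 1 := fun i => rfl
  have hφN : ∀ i : Fin D.rank, ((φ (N i) : ↥(D.group F)) : GL D.Idx F) = nG ax (D.simple (π i)) 1 := by
    intro i
    have h1 := (hφ (X _ (simple_lt hD' _ i.2) 1) i 1).1 rfl
    have h2 := (hφ (X _ (neg_lt hD' _ (simple_lt hD' _ i.2)) (-(1 : F)⁻¹)) i (-(1 : F)⁻¹)).2 rfl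
    simp only [N, map_mul, Subgroup.coe_mul]
    apply Units.ext
    simp only [Units.val_mul, h1, h2]
    rw [nG_val]
    simp [ChevalleyDatum.nMat, ChevalleyDatum.nWord, ChevalleyDatum.wordMat, mul_assoc]
  refine root_induction hD' (P := fun r => ∃ ε : F, (ε = 1 ∨ ε = -1) ∧ ∀ (g : ↥(D.group F)) (t : F),
      ((g : GL D.Idx F) : Matrix D.Idx D.Idx F) = D.x F r t →
        ((φ g : GL D.Idx F) : Matrix D.Idx D.Idx F) = D.x F (D.permRoot π r) (ε * t)) ?_ ?_ r hr
  · intro i hi
    refine ⟨1, Or.inl rfl, fun g t hg => ?_⟩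
    rw [fb ⟨i, hi⟩, one_mul]
    exact (hφ g ⟨i, hi⟩ t).1 hg
  · rintro i hi s hs ⟨ε, hε, hP⟩
    obtain ⟨η, hη, h3, -⟩ := ax.n_simple i s hi hs
    have hπi := (π ⟨i, hi⟩).2
    obtain ⟨η', hη', h3', -⟩ := ax.n_simple (π ⟨i, hi⟩).val (D.permRoot π s) hπi (fa s hs)
    have hsq : ∀ e : ℤ, (e = 1 ∨ e = -1) → ((e : ℤ) : F) * ((e : ℤ) : F) = 1 := by
      rintro e (rfl | rfl) <;> simp
    have hsgn : ∀ e : ℤ, (e = 1 ∨ e = -1) → ∀ a : F, (a = 1 ∨ a = -1) →
        ((e : ℤ) : F) * a = 1 ∨ ((e : ℤ) : F) * a = -1 := by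
      rintro e (rfl | rfl) a (rfl | rfl) <;> simp
    refine ⟨(η' : F) * (ε * (η : F)), ?_, fun g t hg => ?_⟩
    · have h := hsgn η hη ε hε
      rw [mul_comm ε]
      exact hsgn η' hη' _ h
    · -- in the group
      let y : ↥(D.group F) := X s hs ((η : F) * t)
      have hgN : g * N ⟨i, hi⟩ = N ⟨i, hi⟩ * y := by
        apply Subtype.ext
        apply Units.ext
        show (g : GL D.Idx F).val * (nG ax (D.simple i) 1).val = (nG ax (D.simple i) 1).val * D.x F s ((η : F) * t)
        rw [hg, nG_val, h3, ← mul_assoc, hsq η hη, one_mul]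
      have hφy := hP y ((η : F) * t) rfl
      have hφ1 : φ g * φ (N ⟨i, hi⟩) = φ (N ⟨i, hi⟩) * φ y := by
        rw [← map_mul, ← map_mul, hgN]
      have hφ2 : (φ g : GL D.Idx F).val * (nG ax (D.simple (π ⟨i, hi⟩)) 1).val =
          (nG ax (D.simple (π ⟨i, hi⟩)) 1).val * (φ y : GL D.Idx F).val := by
        have := congrArg (fun z : ↥(D.group F) => ((z : GL D.Idx F) : Matrix D.Idx D.Idx F)) hφ1
        simp only [Subgroup.coe_mul, Units.val_mul] at this
        rwa [hφN] at this
      rw [hφy, nG_val, h3', ← nG_val ax] at hφ2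
      -- cancel `n`
      have hinv : (nG ax (D.simple (π ⟨i, hi⟩)) 1).val * (nG ax (D.simple (π ⟨i, hi⟩)) 1)⁻¹.val = 1 :=
        Units.mul_inv _
      rw [fc ⟨i, hi⟩ s hs]
      have := congrArg (· * (nG ax (D.simple (π ⟨i, hi⟩)) 1)⁻¹.val) hφ2
      simp only [mul_assoc, hinv, mul_one] at this
      rw [this]
      congr 1
      ring

end Cfsg.Agent.S2161
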