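import Cfsg.Statements.S2301
import Cfsg.Agent.Lib.GL2.SL2

set_option autoImplicit false
open Cfsg

namespace Cfsg.Agent.S2301

open Cfsg.Agent.Lib.GL2.SL2

theorem result {F : Type*} [Field F] [Fintype F] (p : ℕ) [Fact p.Prime] [CharP F p] (hp : p ≠ 2) :
    Nat.card {C : ConjClasses (Matrix.SpecialLinearGroup (Fin 2) F) // ∃ g : Matrix.SpecialLinearGroup (Fin 2) F, orderOf g = p ∧ ConjClasses.mk g = C} = 2 ∧
    (∀ g : Matrix.SpecialLinearGroup (Fin 2) F, orderOf g = p → Nat.card (ConjClasses.mk g).carrier = (Fintype.card F ^ 2 - 1) / 2) ∧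
    ∀ g h : Matrix.SpecialLinearGroup (Fin 2) F, (g : Matrix (Fin 2) (Fin 2) F) 0 0 = 1 → (g : Matrix (Fin 2) (Fin 2) F) 1 1 = 1 → (g : Matrix (Fin 2) (Fin 2) F) 1 0 = 0 → (g : Matrix (Fin 2) (Fin 2) F) 0 1 ≠ 0 →
      (h : Matrix (Fin 2) (Fin 2) F) 0 0 = 1 → (h : Matrix (Fin 2) (Fin 2) F) 1 1 = 1 → (h : Matrix (Fin 2) (Fin 2) F) 1 0 = 0 → (h : Matrix (Fin 2) (Fin 2) F) 0 1 ≠ 0 →
      (IsConj g h ↔ IsSquare ((g : Matrix (Fin 2) (Fin 2) F) 0 1 * (h : Matrix (Fin 2) (Fin 2) F) 0 1)) := by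
  classical
  have hchar : ringChar F ≠ 2 := by rw [ringChar.eq F p]; exact hp
  have h2 : (2 : F) ≠ 0 := Ring.two_ne_zero hchar
  obtain ⟨ε, hε⟩ := FiniteField.exists_nonsquare hchar
  have hε0 : ε ≠ 0 := by
    rintro rfl
    exact hε (IsSquare.zero)
  -- every element of order `p` is conjugate to `uu 1` or `uu ε`
  have key : ∀ x : SL2 F, orderOf x = p → IsConj x (uu 1) ∨ IsConj x (uu ε) := by
    intro x hx
    obtain ⟨b, hb, hxb⟩ := exists_isConj_uu x (sq_zero_of_orderOf (p := p) hx) (ne_one_of_orderOf hx)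
    by_cases hs : IsSquare b
    · left
      refine hxb.trans ((isConj_uu_iff hb one_ne_zero).mpr ?_)
      simpa using hs
    · right
      refine hxb.trans ((isConj_uu_iff hb hε0).mpr ?_)
      have h3 : quadraticChar F b = -1 := quadraticChar_neg_one_iff_not_isSquare.mpr hs
      have h4 : quadraticChar F ε = -1 := quadraticChar_neg_one_iff_not_isSquare.mpr hε
      have h5 : quadraticChar F (b * ε) = 1 := by rw [map_mul, h3, h4]; norm_num
      exact (quadraticChar_one_iff_isSquare (mul_ne_zero hb hε0)).mp h5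
  have hne : ¬ IsConj (uu 1 : SL2 F) (uu ε) := by
    intro h
    have := (isConj_uu_iff one_ne_zero hε0).mp h
    rw [one_mul] at this
    exact hε this
  refine ⟨?_, ?_, ?_⟩
  · rw [Nat.card_eq_two_iff]
    refine ⟨⟨ConjClasses.mk (uu 1), uu 1, orderOf_uu one_ne_zero, rfl⟩,
      ⟨ConjClasses.mk (uu ε), uu ε, orderOf_uu hε0, rfl⟩, ?_, ?_⟩
    · intro h
      have h' := congrArg Subtype.val h
      exact hne (ConjClasses.mk_eq_mk_iff_isConj.mp h')
    · ext ⟨C, g, hg, rfl⟩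
      simp only [Set.mem_insert_iff, Set.mem_singleton_iff, Set.mem_univ, iff_true, Subtype.mk.injEq]
      rcases key g hg with h | h
      · left; exact ConjClasses.mk_eq_mk_iff_isConj.mpr h
      · right; exact ConjClasses.mk_eq_mk_iff_isConj.mpr h
  · intro g hg
    obtain ⟨b, hb, hgb⟩ := exists_isConj_uu g (sq_zero_of_orderOf (p := p) hg) (ne_one_of_orderOf hg)
    have h3 : ConjClasses.mk g = ConjClasses.mk (uu b : SL2 F) := ConjClasses.mk_eq_mk_iff_isConj.mpr hgb
    rw [h3]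
    have h4 := card_class_uu (F := F) hb
    rw [card_sqrt_one_of_two_ne_zero h2] at h4
    omega
  · intro g h g00 g11 g10 g01 h00 h11 h10 h01
    have e1 : g = uu ((g : Matrix (Fin 2) (Fin 2) F) 0 1) := by
      apply ext_sl <;> simp [g00, g11, g10]
    have e2 : h = uu ((h : Matrix (Fin 2) (Fin 2) F) 0 1) := by
      apply ext_sl <;> simp [h00, h11, h10]
    have := isConj_uu_iff (F := F) g01 h01
    rw [← e1, ← e2] at this
    exact this

end Cfsg.Agent.S2301
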