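import Cfsg.Statements.S2302
import Cfsg.Agent.Lib.GL2.SL2

set_option autoImplicit false
open Cfsg

namespace Cfsg.Agent.S2302

open Cfsg.Agent.Lib.GL2.SL2

theorem result {F : Type*} [Field F] [Fintype F] [CharP F 2] (g h : Matrix.SpecialLinearGroup (Fin 2) F) (hg : orderOf g = 2) (hh : orderOf h = 2) :
    IsConj g h ∧ Nat.card (ConjClasses.mk g).carrier = Fintype.card F ^ 2 - 1 := by
  have h2 : (2 : F) = 0 := by exact_mod_cast CharP.cast_eq_zero F 2
  have hchar : ringChar F = 2 := ringChar.eq F 2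
  have key : ∀ x : SL2 F, orderOf x = 2 → IsConj x (uu 1) := by
    intro x hx
    obtain ⟨b, hb, hxb⟩ := exists_isConj_uu x (sq_zero_of_orderOf (p := 2) hx) (ne_one_of_orderOf hx)
    refine hxb.trans ((isConj_uu_iff hb one_ne_zero).mpr ?_)
    exact FiniteField.isSquare_of_char_two hchar _
  refine ⟨(key g hg).trans (key h hh).symm, ?_⟩
  have h3 : ConjClasses.mk g = ConjClasses.mk (uu 1 : SL2 F) := ConjClasses.mk_eq_mk_iff_isConj.mpr (key g hg)
  rw [h3]
  have h4 := card_class_uu (F := F) (b := 1) one_ne_zero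
  rw [card_sqrt_one_of_two_eq_zero h2, mul_one] at h4
  exact h4

end Cfsg.Agent.S2302
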