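import Cfsg.Statements.S2303
import Cfsg.Agent.Lib.GL2.Unipotent

set_option autoImplicit false
open Cfsg

namespace Cfsg.Agent.S2303

open Matrix

variable {F : Type*} [Field F]

lemma commute_entries (g x : GL (Fin 2) F) (h : x * g = g * x) :
    let G := (g : Matrix (Fin 2) (Fin 2) F)
    let X := (x : Matrix (Fin 2) (Fin 2) F)
    X 0 1 * G 1 0 = G 0 1 * X 1 0 ∧
    X 0 0 * G 0 1 + X 0 1 * G 1 1 = G 0 0 * X 0 1 + G 0 1 * X 1 1 ∧
    X 1 0 * G 0 0 + X 1 1 * G 1 0 = G 1 0 * X 0 0 + G 1 1 * X 1 0 := by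
  intro G X
  have e : X * G = G * X := by
    have := congrArg (fun y : GL (Fin 2) F => (y : Matrix (Fin 2) (Fin 2) F)) h
    simpa using this
  have e00 := congrFun (congrFun e 0) 0
  have e01 := congrFun (congrFun e 0) 1
  have e10 := congrFun (congrFun e 1) 0
  simp only [Matrix.mul_apply, Fin.sum_univ_two] at e00 e01 e10
  refine ⟨?_, e01, e10⟩
  linear_combination e00

/-- The diagonal element with entries the given units. -/
noncomputable def diagU (a d : Fˣ) : GL (Fin 2) F :=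
  GeneralLinearGroup.mkOfDetNeZero !![(a : F), 0; 0, (d : F)] (by simp [det_fin_two])

@[simp] lemma coe_diagU (a d : Fˣ) :
    ((diagU a d : GL (Fin 2) F) : Matrix (Fin 2) (Fin 2) F) = !![(a : F), 0; 0, (d : F)] := rfl

lemma card_diag [Fintype F] (g : GL (Fin 2) F) (h01 : (g : Matrix (Fin 2) (Fin 2) F) 0 1 = 0)
    (h10 : (g : Matrix (Fin 2) (Fin 2) F) 1 0 = 0)
    (hne : (g : Matrix (Fin 2) (Fin 2) F) 0 0 ≠ (g : Matrix (Fin 2) (Fin 2) F) 1 1) :
    Nat.card (Subgroup.centralizer ({g} : Set (GL (Fin 2) F))) = (Fintype.card F - 1) ^ 2 := by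
  classical
  have hc : Nat.card Fˣ = Fintype.card F - 1 := by
    rw [Nat.card_eq_fintype_card, Fintype.card_units]
  have hcomm : ∀ x : GL (Fin 2) F, x ∈ Subgroup.centralizer ({g} : Set (GL (Fin 2) F)) ↔
      (x : Matrix (Fin 2) (Fin 2) F) 0 1 = 0 ∧ (x : Matrix (Fin 2) (Fin 2) F) 1 0 = 0 := by
    intro x
    rw [Subgroup.mem_centralizer_singleton_iff]
    constructor
    · intro h
      obtain ⟨_, h2, h3⟩ := commute_entries g x h
      simp only [h01, h10, mul_zero, zero_mul, add_zero, zero_add] at h2 h3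
      constructor
      · have : ((g : Matrix (Fin 2) (Fin 2) F) 0 0 - (g : Matrix (Fin 2) (Fin 2) F) 1 1) *
            (x : Matrix (Fin 2) (Fin 2) F) 0 1 = 0 := by linear_combination -h2
        exact (mul_eq_zero.mp this).resolve_left (sub_ne_zero.mpr hne)
      · have : ((g : Matrix (Fin 2) (Fin 2) F) 0 0 - (g : Matrix (Fin 2) (Fin 2) F) 1 1) *
            (x : Matrix (Fin 2) (Fin 2) F) 1 0 = 0 := by linear_combination h3
        exact (mul_eq_zero.mp this).resolve_left (sub_ne_zero.mpr hne)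
    · rintro ⟨h1, h2⟩
      apply Units.ext
      ext i j
      fin_cases i <;> fin_cases j <;>
        simp [Matrix.mul_apply, Fin.sum_univ_two, h1, h2, h01, h10, mul_comm]
  have hcard : Nat.card (Subgroup.centralizer ({g} : Set (GL (Fin 2) F))) = Nat.card (Fˣ × Fˣ) := by
    symm
    apply Nat.card_congr
    refine Equiv.ofBijective (fun p => ⟨diagU p.1 p.2, ?_⟩) ⟨?_, ?_⟩
    · rw [hcomm]; simp
    · rintro ⟨a, d⟩ ⟨a', d'⟩ h
      have h' := congrArg (fun x => ((x.1 : GL (Fin 2) F) : Matrix (Fin 2) (Fin 2) F)) h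
      have h1 := congrFun (congrFun h' 0) 0
      have h2 := congrFun (congrFun h' 1) 1
      simp at h1 h2
      exact Prod.ext (Units.ext h1) (Units.ext h2)
    · rintro ⟨x, hx⟩
      obtain ⟨h1, h2⟩ := (hcomm x).mp hx
      have hdet : (x : Matrix (Fin 2) (Fin 2) F).det ≠ 0 := by
        have h3 := (Matrix.isUnit_iff_isUnit_det _).mp x.isUnit
        exact h3.ne_zero
      rw [det_fin_two, h1, h2] at hdet
      simp only [mul_zero, sub_zero] at hdet
      have ha : (x : Matrix (Fin 2) (Fin 2) F) 0 0 ≠ 0 := left_ne_zero_of_mul hdet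
      have hd : (x : Matrix (Fin 2) (Fin 2) F) 1 1 ≠ 0 := right_ne_zero_of_mul hdet
      refine ⟨(Units.mk0 _ ha, Units.mk0 _ hd), ?_⟩
      apply Subtype.ext
      apply Units.ext
      ext i j
      fin_cases i <;> fin_cases j <;> simp [h1, h2]
  rw [hcard, Nat.card_prod, hc, pow_two]

/-- For an element without eigenvectors all `a + b g` with `(a,b) ≠ 0` are invertible. -/
lemma det_ne_zero_of_no_eigen (g : GL (Fin 2) F)
    (hg : ∀ (c : F) (v : Fin 2 → F), v ≠ 0 → (g : Matrix (Fin 2) (Fin 2) F).mulVec v ≠ c • v)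
    (p : F × F) (hp : p ≠ 0) :
    (p.1 • (1 : Matrix (Fin 2) (Fin 2) F) + p.2 • (g : Matrix (Fin 2) (Fin 2) F)).det ≠ 0 := by
  intro h
  obtain ⟨v, hv, hv2⟩ := Matrix.exists_mulVec_eq_zero_iff.mpr h
  have e : p.1 • v + p.2 • (g : Matrix (Fin 2) (Fin 2) F).mulVec v = 0 := by
    have := hv2
    rw [Matrix.add_mulVec, Matrix.smul_mulVec, Matrix.smul_mulVec, Matrix.one_mulVec] at this
    exact this
  by_cases hb : p.2 = 0
  · have ha : p.1 ≠ 0 := by
      intro ha
      exact hp (Prod.ext ha hb)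
    rw [hb, zero_smul, add_zero] at e
    exact hv ((smul_eq_zero.mp e).resolve_left ha)
  · apply hg (-(p.1 / p.2)) v hv
    have : p.2 • (g : Matrix (Fin 2) (Fin 2) F).mulVec v = -(p.1 • v) := by
      rw [eq_neg_iff_add_eq_zero, add_comm]; exact e
    have h3 : (g : Matrix (Fin 2) (Fin 2) F).mulVec v = p.2⁻¹ • p.2 • (g : Matrix (Fin 2) (Fin 2) F).mulVec v := by
      rw [smul_smul, inv_mul_cancel₀ hb, one_smul]
    rw [h3, this, neg_smul, smul_neg, smul_smul, div_eq_mul_inv, mul_comm]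

lemma card_noneigen [Fintype F] (g : GL (Fin 2) F)
    (hg : ∀ (c : F) (v : Fin 2 → F), v ≠ 0 → (g : Matrix (Fin 2) (Fin 2) F).mulVec v ≠ c • v) :
    Nat.card (Subgroup.centralizer ({g} : Set (GL (Fin 2) F))) = Fintype.card F ^ 2 - 1 := by
  classical
  set G := (g : Matrix (Fin 2) (Fin 2) F) with hG
  have hc10 : G 1 0 ≠ 0 := by
    intro h
    apply hg (G 0 0) ![1, 0] (by simp)
    ext i
    fin_cases i <;> simp [Matrix.mulVec, dotProduct, Fin.sum_univ_two, h]
  have hcard : Nat.card (Subgroup.centralizer ({g} : Set (GL (Fin 2) F))) =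
      Nat.card {p : F × F // p ≠ 0} := by
    symm
    apply Nat.card_congr
    refine Equiv.ofBijective (fun p => ⟨GeneralLinearGroup.mkOfDetNeZero
      (p.1.1 • (1 : Matrix (Fin 2) (Fin 2) F) + p.1.2 • G) (det_ne_zero_of_no_eigen g hg p.1 p.2), ?_⟩)
      ⟨?_, ?_⟩
    · rw [Subgroup.mem_centralizer_singleton_iff]
      apply Units.ext
      change (p.1.1 • (1 : Matrix (Fin 2) (Fin 2) F) + p.1.2 • G) * G = G * (p.1.1 • 1 + p.1.2 • G)
      simp [add_mul, mul_add]
    · rintro ⟨⟨a, b⟩, hp⟩ ⟨⟨a', b'⟩, hp'⟩ h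
      have h' := congrArg (fun x => ((x.1 : GL (Fin 2) F) : Matrix (Fin 2) (Fin 2) F)) h
      change (a • (1 : Matrix (Fin 2) (Fin 2) F) + b • G) = (a' • 1 + b' • G) at h'
      have h1 := congrFun (congrFun h' 1) 0
      have h2 := congrFun (congrFun h' 0) 0
      simp at h1 h2
      have hb : b = b' := h1.resolve_right hc10
      subst hb
      have ha : a = a' := by simpa using h2
      subst ha
      rfl
    · rintro ⟨x, hx⟩
      rw [Subgroup.mem_centralizer_singleton_iff] at hx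
      obtain ⟨h1, h2, h3⟩ := commute_entries g x hx
      set X := (x : Matrix (Fin 2) (Fin 2) F) with hX
      simp only [← hG, ← hX] at h1 h2 h3
      obtain ⟨b, hb⟩ : ∃ b, b = X 1 0 / G 1 0 := ⟨_, rfl⟩
      obtain ⟨a, ha⟩ : ∃ a, a = X 0 0 - b * G 0 0 := ⟨_, rfl⟩
      have hb1 : b * G 1 0 = X 1 0 := by rw [hb]; field_simp
      have hb2 : X 1 1 = a + b * G 1 1 := by
        have : G 1 0 * (X 1 1 - (a + b * G 1 1)) = 0 := by
          rw [ha]
          linear_combination h3 + (G 0 0 - G 1 1) * hb1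
        exact sub_eq_zero.mp ((mul_eq_zero.mp this).resolve_left hc10)
      have hb3 : X 0 1 = b * G 0 1 := by
        have : G 1 0 * (X 0 1 - b * G 0 1) = 0 := by
          linear_combination h1 - (G 0 1) * hb1
        exact sub_eq_zero.mp ((mul_eq_zero.mp this).resolve_left hc10)
      have hp : (a, b) ≠ (0 : F × F) := by
        intro h
        have h5 : a = 0 := congrArg Prod.fst h
        have h6 : b = 0 := congrArg Prod.snd h
        have hdet : X.det ≠ 0 := by
          have h3 := (Matrix.isUnit_iff_isUnit_det _).mp x.isUnit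
          exact h3.ne_zero
        apply hdet
        rw [det_fin_two, hb3, hb2, ← hb1, h5, h6]
        simp
      refine ⟨⟨(a, b), hp⟩, ?_⟩
      apply Subtype.ext
      apply Units.ext
      change a • (1 : Matrix (Fin 2) (Fin 2) F) + b • G = X
      ext i j
      fin_cases i <;> fin_cases j <;> simp [ha, hb1, hb2, hb3]
  rw [hcard, Nat.card_eq_fintype_card, Fintype.card_subtype_compl, Fintype.card_prod]
  simp [pow_two]

/-- Over a finite field with q elements: a diagonal element of GL₂ with two distinct diagonal entries has centralizer of order (q − 1)² (so q(q + 1) conjugates), and an element of GL₂ with no eigenvector in F² has centralizer of order q² − 1 (so q(q − 1) conjugates). -/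
theorem result {F : Type*} [Field F] [Fintype F] (g : Matrix.GeneralLinearGroup (Fin 2) F) :
    ((g : Matrix (Fin 2) (Fin 2) F) 0 1 = 0 → (g : Matrix (Fin 2) (Fin 2) F) 1 0 = 0 → (g : Matrix (Fin 2) (Fin 2) F) 0 0 ≠ (g : Matrix (Fin 2) (Fin 2) F) 1 1 →
      Nat.card (Subgroup.centralizer ({g} : Set (Matrix.GeneralLinearGroup (Fin 2) F))) = (Fintype.card F - 1) ^ 2) ∧
    ((∀ (c : F) (v : Fin 2 → F), v ≠ 0 → (g : Matrix (Fin 2) (Fin 2) F).mulVec v ≠ c • v) →
      Nat.card (Subgroup.centralizer ({g} : Set (Matrix.GeneralLinearGroup (Fin 2) F))) = Fintype.card F ^ 2 - 1) :=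
  ⟨card_diag g, card_noneigen g⟩

end Cfsg.Agent.S2303
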