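import Cfsg.Statements.S2305
import Cfsg.Agent.Lib.GL2.PS

set_option autoImplicit false
open Cfsg

namespace Cfsg.Agent.S2305

open Cfsg.Agent.Lib.GL2.PS in
theorem result {F : Type*} [Field F] [Fintype F] [DecidableEq F] (α β α' β' : MulChar F ℂ) :
    Cfsg.indFun (Cfsg.upperTriangularGL 2 F) (fun b => α (((b : Matrix.GeneralLinearGroup (Fin 2) F) : Matrix (Fin 2) (Fin 2) F) 0 0) * β (((b : Matrix.GeneralLinearGroup (Fin 2) F) : Matrix (Fin 2) (Fin 2) F) 1 1)) = Cfsg.indFun (Cfsg.upperTriangularGL 2 F) (fun b => α' (((b : Matrix.GeneralLinearGroup (Fin 2) F) : Matrix (Fin 2) (Fin 2) F) 0 0) * β' (((b : Matrix.GeneralLinearGroup (Fin 2) F) : Matrix (Fin 2) (Fin 2) F) 1 1)) ↔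
      (α = α' ∧ β = β') ∨ (α = β' ∧ β = α') := by
  change psi α β = psi α' β' ↔ _
  constructor
  · intro h
    by_contra hne
    push Not at hne
    have h1 := inner_psi_psi α β α' β'
    rw [← h] at h1
    have h2 := inner_psi_psi α β α β
    rw [h1] at h2
    have hn1 : ¬ (α = α' ∧ β = β') := fun e => hne.1 e.1 e.2
    have hn2 : ¬ (α = β' ∧ β = α') := fun e => hne.2 e.1 e.2
    rw [if_neg hn1, if_neg hn2] at h2
    simp only [and_self, if_true, add_zero] at h2
    by_cases e : α = β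
    · subst e
      norm_num at h2
    · rw [if_neg (fun e' => e e'.1)] at h2
      norm_num at h2
  · rintro (⟨rfl, rfl⟩ | ⟨rfl, rfl⟩)
    · rfl
    · exact psi_comm _ _

end Cfsg.Agent.S2305
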