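import Cfsg.Statements.S2306
import Cfsg.Agent.Lib.GL2.SigSL2

set_option autoImplicit false
open Cfsg

namespace Cfsg.Agent.S2306

open Cfsg.Agent.Lib.GL2.SigSL2 in
theorem result {F : Type*} [Field F] [Fintype F] [DecidableEq F] (α : MulChar F ℂ) :
    Cfsg.IsIrrCharacter (Matrix.SpecialLinearGroup (Fin 2) F) (Cfsg.indFun ((Cfsg.upperTriangularGL 2 F).comap Matrix.SpecialLinearGroup.toGL) (fun b => α (((b : Matrix.SpecialLinearGroup (Fin 2) F) : Matrix (Fin 2) (Fin 2) F) 0 0))) ↔ α ^ 2 ≠ 1 := by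
  change IsIrrCharacter _ (sig α) ↔ _
  have hsq : α ^ 2 = 1 ↔ α = α⁻¹ := by
    rw [sq, mul_eq_one_iff_eq_inv]
  have hn := inner_sig_sig α α
  simp only [if_true] at hn
  constructor
  · intro h e
    have h1 := Cfsg.Agent.Lib.Char.Ortho.classInner_self_of_isIrr h
    rw [hn, if_pos (hsq.mp e)] at h1
    norm_num at h1
  · intro h
    apply Cfsg.Agent.Lib.Char.Complete.isIrrCharacter_of_classInner_self_eq_one (isCharacter_sig α)
    rw [hn, if_neg (fun e => h (hsq.mpr e))]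
    simp

end Cfsg.Agent.S2306
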