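import Cfsg.Statements.S2307
import Cfsg.Agent.Lib.GL2.Restrict

set_option autoImplicit false
open Cfsg

namespace Cfsg.Agent.S2307

open Cfsg.Agent.Lib.GL2.SigSL2 Cfsg.Agent.Lib.GL2.Restrict Cfsg.Agent.Lib.GL2.PS
  Cfsg.Agent.Lib.Char.Clifford Cfsg.Agent.Lib.Char.Basic in
theorem result {F : Type*} [Field F] [Fintype F] [DecidableEq F] (hodd : Odd (Fintype.card F)) (α : MulChar F ℂ)
    (hα : α ^ 2 = 1) (hα1 : α ≠ 1) :
    ∃ χ₁ χ₂ : Matrix.SpecialLinearGroup (Fin 2) F → ℂ, Cfsg.IsIrrCharacter (Matrix.SpecialLinearGroup (Fin 2) F) χ₁ ∧ Cfsg.IsIrrCharacter (Matrix.SpecialLinearGroup (Fin 2) F) χ₂ ∧ χ₁ ≠ χ₂ ∧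
      Cfsg.indFun ((Cfsg.upperTriangularGL 2 F).comap Matrix.SpecialLinearGroup.toGL) (fun b => α (((b : Matrix.SpecialLinearGroup (Fin 2) F) : Matrix (Fin 2) (Fin 2) F) 0 0)) = χ₁ + χ₂ ∧
      χ₁ 1 = (((Fintype.card F + 1) / 2 : ℕ) : ℂ) ∧ χ₂ 1 = (((Fintype.card F + 1) / 2 : ℕ) : ℂ) ∧
      ∃ x : Matrix.GeneralLinearGroup (Fin 2) F, ∀ g h : Matrix.SpecialLinearGroup (Fin 2) F,
        Matrix.SpecialLinearGroup.toGL h = x * Matrix.SpecialLinearGroup.toGL g * x⁻¹ → χ₂ h = χ₁ g := by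
  change ∃ χ₁ χ₂, IsIrrCharacter _ χ₁ ∧ IsIrrCharacter _ χ₂ ∧ χ₁ ≠ χ₂ ∧ sig α = χ₁ + χ₂ ∧ _
  have hinv : α = α⁻¹ := by
    rw [sq, mul_eq_one_iff_eq_inv] at hα
    exact hα
  have hθ : IsIrrCharacter (Cfsg.Agent.Lib.GL2.Borel.GL2 F) (psi α 1) := isIrr_psi hα1
  have hcomp : psi α 1 ∘ tg = sig α := by
    rw [psi_comp_tg]
    simp
  have hn : classInner (psi α 1 ∘ tg) (psi α 1 ∘ tg) = 2 := by
    rw [hcomp, inner_sig_sig, if_pos rfl, if_pos hinv]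
    norm_num
  have hne : sig α ≠ 0 := by
    intro h0
    have := congrFun h0 1
    rw [sig_one] at this
    have h2 : ((Fintype.card F + 1 : ℕ) : ℂ) = 0 := by
      push_cast
      simpa using this
    have h3 : Fintype.card F + 1 = 0 := by exact_mod_cast h2
    omega
  obtain ⟨χ₁, h1, hc⟩ := exists_irr_constituent (isClassFunction_sig α) hne
  rw [← hcomp] at hc
  obtain ⟨χ₂, h2, h3, h4, h5⟩ := pair_of_norm_two hθ hn h1 hc
  rw [hcomp] at h4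
  have hd : χ₂ 1 = χ₁ 1 := by
    obtain ⟨x, hx⟩ := h5
    apply hx
    simp
  have hs : (2 : ℂ) * χ₁ 1 = (Fintype.card F : ℂ) + 1 := by
    have := congrFun h4 1
    rw [sig_one, Pi.add_apply, hd] at this
    linear_combination -this
  have hcast : (((Fintype.card F + 1) / 2 : ℕ) : ℂ) = χ₁ 1 := by
    obtain ⟨k, hk⟩ := hodd
    have h6 : (Fintype.card F + 1) / 2 = k + 1 := by omega
    rw [h6]
    rw [hk] at hs
    push_cast at hs ⊢
    have h7 : (2 : ℂ) ≠ 0 := two_ne_zero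
    apply mul_left_cancel₀ h7
    linear_combination -hs
  refine ⟨χ₁, χ₂, h1, h2, h3.symm, h4, hcast.symm, by rw [hd, hcast], h5⟩

end Cfsg.Agent.S2307
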