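import Cfsg.Statements.S2308
import Cfsg.Agent.Lib.GL2.Borel

set_option autoImplicit false
open Cfsg

namespace Cfsg.Agent.S2308

open Cfsg.Agent.Lib.GL2.Borel

/-- Values of the permutation character of GL₂ over a finite field F with q elements on the cosets of its upper triangular subgroup (equivalently, the number of lines of F² that an element maps to themselves): q + 1 at a scalar matrix, 2 at a diagonal matrix with two different diagonal entries, 0 at an element with no eigenvector in F², and 1 at an upper triangular matrix with equal diagonal entries and non-zero upper right entry. -/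
theorem result {F : Type*} [Field F] [Fintype F] (g : Matrix.GeneralLinearGroup (Fin 2) F) :
    ((∃ a : F, (g : Matrix (Fin 2) (Fin 2) F) = a • (1 : Matrix (Fin 2) (Fin 2) F)) → Cfsg.fixedPointCharacter (Cfsg.upperTriangularGL 2 F) g = Fintype.card F + 1) ∧
    ((g : Matrix (Fin 2) (Fin 2) F) 0 1 = 0 → (g : Matrix (Fin 2) (Fin 2) F) 1 0 = 0 → (g : Matrix (Fin 2) (Fin 2) F) 0 0 ≠ (g : Matrix (Fin 2) (Fin 2) F) 1 1 →
      Cfsg.fixedPointCharacter (Cfsg.upperTriangularGL 2 F) g = 2) ∧
    ((∀ (c : F) (v : Fin 2 → F), v ≠ 0 → (g : Matrix (Fin 2) (Fin 2) F).mulVec v ≠ c • v) → Cfsg.fixedPointCharacter (Cfsg.upperTriangularGL 2 F) g = 0) ∧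
    ((g : Matrix (Fin 2) (Fin 2) F) 1 0 = 0 → (g : Matrix (Fin 2) (Fin 2) F) 0 0 = (g : Matrix (Fin 2) (Fin 2) F) 1 1 → (g : Matrix (Fin 2) (Fin 2) F) 0 1 ≠ 0 →
      Cfsg.fixedPointCharacter (Cfsg.upperTriangularGL 2 F) g = 1) := by
  classical
  have hfp : Cfsg.fixedPointCharacter (Cfsg.upperTriangularGL 2 F) g =
      (Nat.card {l : Option F // (rr l)⁻¹ * g * rr l ∈ upperTriangularGL 2 F} : ℂ) := by
    rw [Cfsg.fixedPointCharacter, card_fixedBy]
  set G := (g : Matrix (Fin 2) (Fin 2) F) with hG
  rw [hfp]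
  refine ⟨?_, ?_, ?_, ?_⟩
  · rintro ⟨a, ha⟩
    have h10 : G 1 0 = 0 := by rw [ha]; simp
    have h01 : G 0 1 = 0 := by rw [ha]; simp
    have h00 : G 0 0 = a := by rw [ha]; simp
    have h11 : G 1 1 = a := by rw [ha]; simp
    have hall : ∀ l : Option F, (rr l)⁻¹ * g * rr l ∈ upperTriangularGL 2 F := by
      intro l
      rcases l with _ | z
      · rw [mem_fixed_none, ← hG, h10]
      · rw [mem_fixed_some, ← hG, h10, h01, h00, h11]; ring
    have : Nat.card {l : Option F // (rr l)⁻¹ * g * rr l ∈ upperTriangularGL 2 F} = Fintype.card F + 1 := by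
      rw [Nat.card_congr (Equiv.subtypeUnivEquiv hall), Nat.card_eq_fintype_card, Fintype.card_option]
    rw [this]
    push_cast
    rfl
  · intro h01 h10 hne
    have hd : G 1 1 - G 0 0 ≠ 0 := sub_ne_zero.mpr (Ne.symm hne)
    have : Nat.card {l : Option F // (rr l)⁻¹ * g * rr l ∈ upperTriangularGL 2 F} = 2 := by
      rw [Nat.card_eq_two_iff]
      refine ⟨⟨none, (mem_fixed_none g).mpr h10⟩, ⟨some 0, (mem_fixed_some g 0).mpr (by rw [← hG, h10, h01]; ring)⟩, by simp, ?_⟩
      ext ⟨l, hl⟩
      simp only [Set.mem_insert_iff, Set.mem_singleton_iff, Set.mem_univ, iff_true, Subtype.mk.injEq]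
      rcases l with _ | z
      · left; rfl
      · right
        rw [mem_fixed_some, ← hG, h10, h01] at hl
        have : (G 1 1 - G 0 0) * z = 0 := by linear_combination hl
        rw [(mul_eq_zero.mp this).resolve_left hd]
    rw [this]; norm_num
  · intro hg
    have hemp : IsEmpty {l : Option F // (rr l)⁻¹ * g * rr l ∈ upperTriangularGL 2 F} := by
      constructor
      rintro ⟨l, hl⟩
      rcases l with _ | z
      · rw [mem_fixed_none, ← hG] at hl
        apply hg (G 0 0) ![1, 0] (by simp)
        ext i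
        fin_cases i <;> simp [Matrix.mulVec, dotProduct, Fin.sum_univ_two, hl]
      · rw [mem_fixed_some, ← hG] at hl
        apply hg (G 1 0 * z + G 1 1) ![z, 1] (by simp)
        ext i
        fin_cases i <;> simp [Matrix.mulVec, dotProduct, Fin.sum_univ_two]
        linear_combination -hl
    rw [Nat.card_of_isEmpty]; simp
  · intro h10 h00 h01
    have : Nat.card {l : Option F // (rr l)⁻¹ * g * rr l ∈ upperTriangularGL 2 F} = 1 := by
      rw [Nat.card_eq_one_iff_unique]
      refine ⟨⟨?_⟩, ⟨⟨none, (mem_fixed_none g).mpr h10⟩⟩⟩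
      rintro ⟨l, hl⟩ ⟨l', hl'⟩
      have hnone : ∀ l : Option F, (rr l)⁻¹ * g * rr l ∈ upperTriangularGL 2 F → l = none := by
        intro l hl
        rcases l with _ | z
        · rfl
        · exfalso
          rw [mem_fixed_some, ← hG, h10, ← h00] at hl
          apply h01
          linear_combination -hl
      apply Subtype.ext
      exact (hnone l hl).trans (hnone l' hl').symm
    rw [this]; norm_num

end Cfsg.Agent.S2308
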