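import Cfsg.Statements.S2309
import Cfsg.Agent.Lib.GL2.IrrGL2

set_option autoImplicit false
open Cfsg

namespace Cfsg.Agent.S2309

open Cfsg.Agent.Lib.GL2.PS Cfsg.Agent.Lib.GL2.IrrGL2 Cfsg.Agent.Lib.Char.Basic in
theorem result {F : Type*} [Field F] [Fintype F] (χ : Matrix.GeneralLinearGroup (Fin 2) F → ℂ) (hχ : Cfsg.IsIrrCharacter (Matrix.GeneralLinearGroup (Fin 2) F) χ) (g : Matrix.GeneralLinearGroup (Fin 2) F) :
    (χ 1 = (Fintype.card F : ℂ) - 1 → (g : Matrix (Fin 2) (Fin 2) F) 0 1 = 0 → (g : Matrix (Fin 2) (Fin 2) F) 1 0 = 0 → (g : Matrix (Fin 2) (Fin 2) F) 0 0 ≠ (g : Matrix (Fin 2) (Fin 2) F) 1 1 → χ g = 0) ∧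
    (χ 1 = (Fintype.card F : ℂ) + 1 → (∀ (c : F) (v : Fin 2 → F), v ≠ 0 → (g : Matrix (Fin 2) (Fin 2) F).mulVec v ≠ c • v) → χ g = 0) := by
  classical
  constructor
  · intro hd h01 h10 hne
    obtain ⟨a, d, rfl, ha, hd'⟩ := eq_bmk_of_diag h01 h10
    have had : a ≠ d := fun e => hne (by rw [← ha, ← hd', e])
    rcases irr_types hχ with ⟨lam, rfl⟩ | ⟨lam, rfl⟩ | ⟨α, β, -, rfl⟩ | ⟨h, -⟩
    · exfalso
      rw [detChar_one] at hd
      have h2 : ((Fintype.card F : ℕ) : ℂ) = ((2 : ℕ) : ℂ) := by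
        push_cast
        linear_combination -hd
      have h3 : Fintype.card F = 2 := by exact_mod_cast h2
      exact had (units_eq_of_card_two h3 a d)
    · rw [St_one] at hd
      exact absurd hd q_ne_q_sub_one
    · rw [psi_one] at hd
      exact absurd hd q_add_one_ne_q_sub_one
    · exact cusp_offdiag (isClassFunction_of_isIrrCharacter hχ) h had
  · intro hd hg
    rcases irr_types hχ with ⟨lam, rfl⟩ | ⟨lam, rfl⟩ | ⟨α, β, -, rfl⟩ | ⟨-, h⟩
    · rw [detChar_one] at hd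
      exact absurd hd.symm q_add_one_ne_one
    · rw [St_one] at hd
      exact absurd hd q_ne_q_add_one
    · exact psi_noEig α β hg
    · rw [h] at hd
      exact absurd hd.symm q_add_one_ne_q_sub_one

end Cfsg.Agent.S2309
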