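import Cfsg.Statements.S2310
import Cfsg.Agent.Lib.GL2.IrrGL2

set_option autoImplicit false
open Cfsg

namespace Cfsg.Agent.S2310

open Cfsg.Agent.Lib.GL2.PS Cfsg.Agent.Lib.GL2.IrrGL2 Cfsg.Agent.Lib.Char.Basic in
theorem result {F : Type*} [Field F] [Fintype F] (hq : 3 ≤ Fintype.card F) (χ : Matrix.GeneralLinearGroup (Fin 2) F → ℂ) (hχ : Cfsg.IsIrrCharacter (Matrix.GeneralLinearGroup (Fin 2) F) χ)
    (u : Matrix.GeneralLinearGroup (Fin 2) F) (hu : (u : Matrix (Fin 2) (Fin 2) F) = !![1, 1; 0, 1]) :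
    (χ 1 = 1 → χ u = 1) ∧ (χ 1 = (Fintype.card F : ℂ) + 1 → χ u = 1) ∧
    (χ 1 = (Fintype.card F : ℂ) - 1 → χ u = -1) ∧ (χ 1 = (Fintype.card F : ℂ) → χ u = 0) := by
  classical
  have hub : u = bmk 1 1 1 := by
    apply Units.ext
    rw [hu, coe_bmk]
    simp
  subst hub
  have hdet : ∀ lam, detChar lam (bmk (1 : Fˣ) 1 (1 : F)) = 1 := by
    intro lam
    rw [detChar_bmk]
    simp
  rcases irr_types hχ with ⟨lam, rfl⟩ | ⟨lam, rfl⟩ | ⟨α, β, -, rfl⟩ | ⟨h, hd⟩
  · refine ⟨fun _ => hdet lam, ?_, ?_, ?_⟩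
    · intro h
      rw [detChar_one] at h
      exact absurd h.symm q_add_one_ne_one
    · intro h
      rw [detChar_one] at h
      exact absurd h.symm (q_sub_one_ne_one hq)
    · intro h
      rw [detChar_one] at h
      exact absurd h.symm q_ne_one_c
  · rw [St_one]
    refine ⟨?_, ?_, ?_, ?_⟩
    · intro h
      exact absurd h q_ne_one_c
    · intro h
      exact absurd h q_ne_q_add_one
    · intro h
      exact absurd h q_ne_q_sub_one
    · intro _
      rw [St, Pi.sub_apply, hdet, psi_u, sub_self]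
  · rw [psi_one]
    refine ⟨?_, ?_, ?_, ?_⟩
    · intro h
      exact absurd h q_add_one_ne_one
    · intro _
      exact psi_u α β
    · intro h
      exact absurd h q_add_one_ne_q_sub_one
    · intro h
      exact absurd h.symm q_ne_q_add_one
  · rw [hd]
    refine ⟨?_, ?_, ?_, ?_⟩
    · intro h
      exact absurd h (q_sub_one_ne_one hq)
    · intro h
      exact absurd h.symm q_add_one_ne_q_sub_one
    · intro _
      have h1 := cusp_scalar (isClassFunction_of_isIrrCharacter hχ) h 1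
      rw [bmk_one, hd] at h1
      have h2 := Cfsg.Agent.Lib.GL2.MulCharSum.card_sub_one_ne_zero (F := F)
      apply mul_left_cancel₀ h2
      linear_combination h1
    · intro h
      exact absurd h.symm q_ne_q_sub_one

end Cfsg.Agent.S2310
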