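import Cfsg.Statements.S2311
import Cfsg.Agent.Lib.KS71.StIrr
import Cfsg.Agent.Lib.Lie.AxOf

set_option autoImplicit false
open Cfsg

namespace Cfsg.Agent.S2311

/-- In a Chevalley group of type G₂, B₂, D₄, F₄, E₆, E₇ or E₈ over a finite field, the alternating sum over all sets J of fundamental roots of (−1)^|J| times the permutation character on the cosets of the standard parabolic subgroup P_J is an irreducible complex character: the Steinberg character. -/
theorem result {F : Type*} [Field F] [Fintype F] (D : Cfsg.Lie.ChevalleyDatum) (hD : D ∈ [Cfsg.Lie.chevG2, Cfsg.Lie.chevB2, Cfsg.Lie.chevD4, Cfsg.Lie.chevF4, Cfsg.Lie.chevE6, Cfsg.Lie.chevE7, Cfsg.Lie.chevE8]) :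
    Cfsg.IsIrrCharacter ↥(D.group F) (D.steinbergCharacter F) := by
  exact Cfsg.Agent.Lib.KS71.StIrr.isIrr_steinberg (Cfsg.Agent.Lib.Chev.Tables.tab_of_mem hD)
    (Cfsg.Agent.Lib.Chev.Tables2.tab2_of_mem hD) (Cfsg.Agent.Lib.Lie.AxOf.ax_of_mem hD)

end Cfsg.Agent.S2311
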