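import Cfsg.Statements.S2315
import Mathlib
import Cfsg.Agent.Lib.Classical.NilCount

set_option autoImplicit false
open Cfsg
open Cfsg.Agent.Lib.Classical.NilCount

namespace Cfsg.Agent.S2315


/-- Steinberg's count of unipotent elements for the general linear group: over a finite field with q elements of characteristic p, the number of elements of GL_n of p-power order (the unipotent matrices) is q^(n(n−1)). -/
theorem result {F : Type*} [Field F] [Fintype F] (p : ℕ) [Fact p.Prime] [CharP F p] (n : ℕ) :
    Nat.card {g : Matrix.GeneralLinearGroup (Fin n) F // ∃ k : ℕ, orderOf g = p ^ k} = Fintype.card F ^ (n * (n - 1)) := by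
  classical
  have hpp : p.Prime := Fact.out
  rcases Nat.eq_zero_or_pos n with rfl | hn
  · rw [Nat.zero_mul, pow_zero, Nat.card_eq_one_iff_unique]
    refine ⟨⟨?_⟩, ⟨⟨1, 0, by simp⟩⟩⟩
    rintro ⟨a, _⟩ ⟨b, _⟩
    apply Subtype.ext
    apply Units.ext
    refine Matrix.ext fun i _ => i.elim0
  haveI : Nonempty (Fin n) := ⟨⟨0, hn⟩⟩
  haveI : CharP (Matrix (Fin n) (Fin n) F) p := Matrix.charP p
  haveI : ExpChar (Matrix (Fin n) (Fin n) F) p := ExpChar.prime hpp
  have hnil : ∀ g : {g : Matrix.GeneralLinearGroup (Fin n) F // ∃ k : ℕ, orderOf g = p ^ k},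
      IsNilpotent ((g.1 : Matrix (Fin n) (Fin n) F) - 1) := by
    rintro ⟨g, k, hk⟩
    refine ⟨p ^ k, ?_⟩
    rw [sub_pow_expChar_pow_of_commute p k (Commute.one_right _), one_pow, sub_eq_zero]
    have h1 : g ^ p ^ k = 1 := by rw [← hk]; exact pow_orderOf_eq_one g
    have h2 := congrArg Units.val h1
    simpa using h2
  let e := Matrix.toLinAlgEquiv' (R := F) (n := Fin n)
  let f : {g : Matrix.GeneralLinearGroup (Fin n) F // ∃ k : ℕ, orderOf g = p ^ k} →
      NilE F (Fin n → F) := fun g => ⟨e ((g.1 : Matrix (Fin n) (Fin n) F) - 1), (hnil g).map e⟩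
  have hf : Function.Bijective f := by
    constructor
    · intro a b hab
      have h1 : e ((a.1 : Matrix (Fin n) (Fin n) F) - 1) = e ((b.1 : Matrix (Fin n) (Fin n) F) - 1) :=
        congrArg Subtype.val hab
      have h2 := e.injective h1
      apply Subtype.ext
      apply Units.ext
      exact sub_left_injective h2
    · rintro ⟨T, hT⟩
      have hN : IsNilpotent (e.symm T) := hT.map e.symm
      let u : Matrix.GeneralLinearGroup (Fin n) F := hN.isUnit_add_one.unit
      have hu : (u : Matrix (Fin n) (Fin n) F) = e.symm T + 1 := rfl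
      obtain ⟨m, hm⟩ := hN
      have hup : u ^ p ^ m = 1 := by
        apply Units.ext
        have h3 : (e.symm T) ^ p ^ m = 0 := by
          have hle : m ≤ p ^ m := (Nat.lt_pow_self hpp.one_lt).le
          rw [← Nat.add_sub_cancel' hle, pow_add, hm, zero_mul]
        simp only [Units.val_pow_eq_pow_val, hu, Units.val_one]
        rw [add_pow_expChar_pow_of_commute p m (Commute.one_right _), h3, one_pow, zero_add]
      obtain ⟨j, -, hj⟩ := (Nat.dvd_prime_pow hpp).mp (orderOf_dvd_of_pow_eq_one hup)
      refine ⟨⟨u, j, hj⟩, Subtype.ext ?_⟩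
      show e ((u : Matrix (Fin n) (Fin n) F) - 1) = T
      rw [hu]
      simp
  rw [Nat.card_eq_of_bijective f hf]
  have h1 := Nc_eq F n
  rw [Nc] at h1
  rw [h1, Nat.mul_sub_one]

end Cfsg.Agent.S2315
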