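-- Steinberg's count of unipotent elements for the symplectic group, by an elementary double count.
import Cfsg.Statements.S2316
import Cfsg.Agent.Lib.SpUnip.Main

set_option autoImplicit false
open Cfsg

namespace Cfsg.Agent.S2316

open Cfsg.Agent.Lib.Classical.SympForm Cfsg.Agent.Lib.Classical.Alt Cfsg.Agent.Lib.SpUnip.Stab
open Cfsg.Agent.Lib.SpUnip.Main

/-- Steinberg's count of unipotent elements for the symplectic group: over a finite field with q elements of characteristic p, the number of elements of Sp_{2m} of p-power order is q^(2m²). -/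
theorem result {F : Type*} [Field F] [Fintype F] (p : ℕ) [Fact p.Prime] [CharP F p] (m : ℕ) :
    Nat.card {g : ↥(Matrix.symplecticGroup (Fin m) F) // ∃ k : ℕ, orderOf g = p ^ k} = Fintype.card F ^ (2 * m ^ 2) := by
  have hq : Nat.card F = Fintype.card F := Nat.card_eq_fintype_card
  have hV : Module.finrank F (Fin m ⊕ Fin m → F) = 2 * m := by
    rw [Module.finrank_fintype_fun_eq_card, Fintype.card_sum, Fintype.card_fin, two_mul]
  rw [← card_unip hq m _ (sympBilin m F) sympBilin_isAlt sympBilin_nondegenerate hV]
  have hord : ∀ g : ↥(Matrix.symplecticGroup (Fin m) F), orderOf g = orderOf ((spEquiv g : isomGroup (sympBilin m F)) :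
      (Fin m ⊕ Fin m → F) ≃ₗ[F] (Fin m ⊕ Fin m → F)) := by
    intro g
    rw [Subgroup.orderOf_coe, MulEquiv.orderOf_eq]
  apply Nat.card_congr
  exact
    { toFun := fun g => ⟨(spEquiv g.1).1, (spEquiv g.1).2, by
        have h1 := g.2
        simp only [hord] at h1
        exact (order_iff p _).1 h1⟩
      invFun := fun g => ⟨spEquiv.symm ⟨g.1, g.2.1⟩, by
        have h1 := (order_iff p g.1).2 g.2.2
        simp only [hord, MulEquiv.apply_symm_apply]
        exact h1⟩
      left_inv := fun g => by
        apply Subtype.ext
        simp
      right_inv := fun g => by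
        apply Subtype.ext
        simp }

end Cfsg.Agent.S2316
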