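import Cfsg.Statements.S2317
import Mathlib
import Cfsg.Agent.Lib.Jordan.GL

set_option autoImplicit false
open Cfsg


namespace Cfsg.Agent.S2317

open Cfsg.Agent.Lib.Jordan.GL in
/-- An element has `p`-power order iff `g - 1` is nilpotent. -/
theorem unip_iff {F : Type*} [Field F] (p : ℕ) [Fact p.Prime] [CharP F p] (n : ℕ)
    (g : Matrix.GeneralLinearGroup (Fin n) F) :
    (∃ k : ℕ, orderOf g = p ^ k) ↔ IsNilpotent (Nm g) := by
  classical
  have hpp : p.Prime := Fact.out
  rcases Nat.eq_zero_or_pos n with rfl | hn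
  · constructor
    · intro _
      refine ⟨1, ?_⟩
      apply LinearMap.ext
      intro x
      exact Subsingleton.elim _ _
    · intro _
      refine ⟨0, ?_⟩
      have : g = 1 := by
        apply Units.ext
        exact Matrix.ext fun i _ => i.elim0
      rw [this]
      simp
  haveI : Nonempty (Fin n) := ⟨⟨0, hn⟩⟩
  haveI : CharP (Matrix (Fin n) (Fin n) F) p := Matrix.charP p
  haveI : ExpChar (Matrix (Fin n) (Fin n) F) p := ExpChar.prime hpp
  constructor
  · rintro ⟨k, hk⟩
    refine ⟨p ^ k, ?_⟩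
    rw [Nm_pow, sub_pow_expChar_pow_of_commute p k (Commute.one_right _), one_pow]
    have h1 : g ^ p ^ k = 1 := by rw [← hk]; exact pow_orderOf_eq_one g
    have h2 := congrArg Units.val h1
    simp only [Units.val_pow_eq_pow_val, Units.val_one] at h2
    rw [h2, sub_self, Matrix.mulVecLin_zero]
  · rintro ⟨m, hm⟩
    rw [Nm_pow] at hm
    have h1 : ((g : Matrix (Fin n) (Fin n) F) - 1) ^ m = 0 := by
      have h2 : Matrix.toLin' (((g : Matrix (Fin n) (Fin n) F) - 1) ^ m) = 0 := hm
      exact (Matrix.toLin' (m := Fin n) (n := Fin n) (R := F)).injective (by rw [h2, map_zero])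
    have h3 : g ^ p ^ m = 1 := by
      apply Units.ext
      have h4 : ((g : Matrix (Fin n) (Fin n) F) - 1) ^ p ^ m = 0 := by
        have hle : m ≤ p ^ m := (Nat.lt_pow_self hpp.one_lt).le
        rw [← Nat.add_sub_cancel' hle, pow_add, h1, zero_mul]
      rw [sub_pow_expChar_pow_of_commute p m (Commute.one_right _), one_pow, sub_eq_zero] at h4
      simpa using h4
    obtain ⟨j, -, hj⟩ := (Nat.dvd_prime_pow hpp).mp (orderOf_dvd_of_pow_eq_one h3)
    exact ⟨j, hj⟩


/-- Over a finite field of characteristic p, the conjugacy classes of GL_n consisting of elements of p-power order (the unipotent classes) are as many as the partitions of n. -/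
theorem result {F : Type*} [Field F] [Fintype F] (p : ℕ) [Fact p.Prime] [CharP F p] (n : ℕ) :
    Nat.card {C : ConjClasses (Matrix.GeneralLinearGroup (Fin n) F) //
      ∃ g : Matrix.GeneralLinearGroup (Fin n) F, (∃ k : ℕ, orderOf g = p ^ k) ∧ ConjClasses.mk g = C} =
      Fintype.card (Nat.Partition n) := by
  classical
  have hmk : ∀ M : Multiset ℕ, 0 ∉ M → M.sum = n →
      ∃ g : Matrix.GeneralLinearGroup (Fin n) F, Cfsg.Agent.Lib.Jordan.GL.HasType g M := fun M h0 hs =>
    Cfsg.Agent.Lib.Jordan.GL.exists_of_mset M h0 (by simpa using hs)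
  have h0 : ∀ l : Nat.Partition n, 0 ∉ l.parts := fun l h => by
    have := l.parts_pos h
    omega
  choose g hg using fun l : Nat.Partition n => hmk l.parts (h0 l) l.parts_sum
  let f : Nat.Partition n → {C : ConjClasses (Matrix.GeneralLinearGroup (Fin n) F) //
      ∃ g : Matrix.GeneralLinearGroup (Fin n) F, (∃ k : ℕ, orderOf g = p ^ k) ∧ ConjClasses.mk g = C} :=
    fun l => ⟨ConjClasses.mk (g l), g l, (unip_iff p n (g l)).mpr (hg l).isNilpotent, rfl⟩
  have hf : Function.Bijective f := by
    constructor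
    · intro l l' h
      have h1 : ConjClasses.mk (g l) = ConjClasses.mk (g l') := congrArg Subtype.val h
      rw [ConjClasses.mk_eq_mk_iff_isConj] at h1
      exact Nat.Partition.ext (Cfsg.Agent.Lib.Jordan.GL.type_eq_of_conj h1 (hg l) (hg l'))
    · rintro ⟨C, x, hx, rfl⟩
      obtain ⟨M, hM⟩ := Cfsg.Agent.Lib.Jordan.GL.exists_type x ((unip_iff p n x).mp hx)
      have hs : M.sum = n := by simpa using hM.sum
      let l : Nat.Partition n := ⟨M, fun {i} hi => Nat.pos_of_ne_zero fun h => hM.zero_notMem (h ▸ hi), hs⟩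
      refine ⟨l, Subtype.ext ?_⟩
      show ConjClasses.mk (g l) = ConjClasses.mk x
      rw [ConjClasses.mk_eq_mk_iff_isConj]
      exact Cfsg.Agent.Lib.Jordan.GL.conj_of_type (hg l) hM
  rw [← Nat.card_eq_fintype_card, Nat.card_eq_of_bijective f hf]

end Cfsg.Agent.S2317
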