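import Cfsg.Statements.S2320
import Cfsg.Agent.Lib.GL2.IrrGL2

set_option autoImplicit false
open Cfsg

namespace Cfsg.Agent.S2320

open Cfsg.Agent.Lib.GL2.PS Cfsg.Agent.Lib.GL2.IrrGL2 Cfsg.Agent.Lib.Char.Basic in
theorem result {F : Type*} [Field F] [Fintype F] (χ : Matrix.GeneralLinearGroup (Fin 2) F → ℂ) (hχ : Cfsg.IsIrrCharacter (Matrix.GeneralLinearGroup (Fin 2) F) χ) (hdeg : χ 1 = (Fintype.card F : ℂ)) (g : Matrix.GeneralLinearGroup (Fin 2) F) :
    ((g : Matrix (Fin 2) (Fin 2) F) 0 1 = 0 → (g : Matrix (Fin 2) (Fin 2) F) 1 0 = 0 → (g : Matrix (Fin 2) (Fin 2) F) 0 0 ≠ (g : Matrix (Fin 2) (Fin 2) F) 1 1 → ‖χ g‖ = 1) ∧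
    ((∀ (c : F) (v : Fin 2 → F), v ≠ 0 → (g : Matrix (Fin 2) (Fin 2) F).mulVec v ≠ c • v) → ‖χ g‖ = 1) := by
  classical
  rcases irr_types hχ with ⟨lam, rfl⟩ | ⟨lam, rfl⟩ | ⟨α, β, -, rfl⟩ | ⟨-, h⟩
  · rw [detChar_one] at hdeg
    exact absurd hdeg.symm q_ne_one_c
  · constructor
    · intro h01 h10 hne
      obtain ⟨a, d, rfl, ha, hd'⟩ := eq_bmk_of_diag h01 h10
      have had : a ≠ d := fun e => hne (by rw [← ha, ← hd', e])
      have h1 : St lam (bmk a d 0) = detChar lam (bmk a d 0) := by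
        rw [St, Pi.sub_apply, psi_diag lam lam had, detChar_bmk]
        ring
      rw [h1]
      exact norm_detChar lam _
    · intro hg
      have h1 : St lam g = - detChar lam g := by
        rw [St, Pi.sub_apply, psi_noEig lam lam hg, zero_sub]
      rw [h1, norm_neg]
      exact norm_detChar lam _
  · rw [psi_one] at hdeg
    exact absurd hdeg.symm q_ne_q_add_one
  · rw [h] at hdeg
    exact absurd hdeg.symm q_ne_q_sub_one

end Cfsg.Agent.S2320
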