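import Cfsg.Statements.S2321
import Cfsg.Agent.Lib.GL2.SL2Values

set_option autoImplicit false
open Cfsg

namespace Cfsg.Agent.S2321

open Cfsg.Agent.Lib.GL2.SigSL2 Cfsg.Agent.Lib.GL2.IrrSL2 Cfsg.Agent.Lib.GL2.SL2Values Cfsg.Agent.Lib.GL2.PS Cfsg.Agent.Lib.GL2.IrrGL2 Cfsg.Agent.Lib.GL2.Restrict in
theorem result {F : Type*} [Field F] [Fintype F] (χ : Matrix.SpecialLinearGroup (Fin 2) F → ℂ) (hχ : Cfsg.IsIrrCharacter (Matrix.SpecialLinearGroup (Fin 2) F) χ) (hdeg : χ 1 = (Fintype.card F : ℂ)) (g : Matrix.SpecialLinearGroup (Fin 2) F) :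
    ((g : Matrix (Fin 2) (Fin 2) F) 0 1 = 0 → (g : Matrix (Fin 2) (Fin 2) F) 1 0 = 0 → (g : Matrix (Fin 2) (Fin 2) F) 0 0 ^ 2 ≠ 1 → χ g = 1) ∧
    ((∀ (c : F) (v : Fin 2 → F), v ≠ 0 → (g : Matrix (Fin 2) (Fin 2) F).mulVec v ≠ c • v) → χ g = -1) ∧
    ((g : Matrix (Fin 2) (Fin 2) F) 1 0 = 0 → (g : Matrix (Fin 2) (Fin 2) F) 0 0 = (g : Matrix (Fin 2) (Fin 2) F) 1 1 → (g : Matrix (Fin 2) (Fin 2) F) 0 1 ≠ 0 → χ g = 0) := by
  classical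
  have hst : χ = St1 := by
    have h2 := six ⟨χ, hχ⟩
    have e2 := (degq_iff ⟨χ, hχ⟩).mp hdeg
    have hq := q_gt_one (F := F)
    rcases h2 with ⟨h, e⟩ | ⟨h, e⟩ | ⟨h, e⟩ | ⟨h, e⟩ | ⟨h, e⟩ | ⟨h, e⟩
    · exfalso; omega
    · exact mem_A2.mp h
    · exfalso; omega
    · exfalso; omega
    · exfalso; omega
    · exfalso; omega
  subst hst
  refine ⟨?_, ?_, ?_⟩
  · intro h01 h10 h2
    obtain ⟨a, c, rfl, ha, hc, -⟩ := eq_smk g h10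
    have hc0 : c = 0 := by rw [hc, h01]
    subst hc0
    rw [← ha] at h2
    have hne := inv_ne_of_sq_ne h2
    rw [St1, Pi.sub_apply, sig_diag _ hne, MulChar.one_apply_coe, MulChar.one_apply_coe]
    simp only [one1]
    norm_num
  · intro hg
    rw [St1, Pi.sub_apply, sig_noEig _ hg]
    simp [one1]
  · intro h10 h3 h4
    obtain ⟨a, c, rfl, ha, hc, hb⟩ := eq_smk g h10
    have hinv : a⁻¹ = a := Units.ext (by rw [hb, ha, h3])
    have hc0 : c ≠ 0 := by rw [hc]; exact h4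
    rw [St1, Pi.sub_apply, sig_scal _ hinv hc0, MulChar.one_apply_coe]
    simp only [one1]
    norm_num

end Cfsg.Agent.S2321
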