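import Cfsg.Statements.S2322
import Cfsg.Agent.Lib.GL2.SL2Values

set_option autoImplicit false
open Cfsg

namespace Cfsg.Agent.S2322

open Cfsg.Agent.Lib.GL2.SigSL2 Cfsg.Agent.Lib.GL2.IrrSL2 Cfsg.Agent.Lib.GL2.SL2Values Cfsg.Agent.Lib.GL2.PS Cfsg.Agent.Lib.GL2.IrrGL2 Cfsg.Agent.Lib.GL2.Restrict Cfsg.Agent.Lib.GL2.SL2 in
theorem result {F : Type*} [Field F] [Fintype F] (hodd : Odd (Fintype.card F)) (χ : Matrix.SpecialLinearGroup (Fin 2) F → ℂ) (hχ : Cfsg.IsIrrCharacter (Matrix.SpecialLinearGroup (Fin 2) F) χ) (g : Matrix.SpecialLinearGroup (Fin 2) F) :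
    ((χ 1 = (Fintype.card F : ℂ) - 1 ∨ χ 1 = (((Fintype.card F - 1) / 2 : ℕ) : ℂ)) →
      (g : Matrix (Fin 2) (Fin 2) F) 0 1 = 0 → (g : Matrix (Fin 2) (Fin 2) F) 1 0 = 0 → (g : Matrix (Fin 2) (Fin 2) F) 0 0 ^ 2 ≠ 1 → χ g = 0) ∧
    ((χ 1 = (Fintype.card F : ℂ) + 1 ∨ χ 1 = (((Fintype.card F + 1) / 2 : ℕ) : ℂ)) →
      (∀ (c : F) (v : Fin 2 → F), v ≠ 0 → (g : Matrix (Fin 2) (Fin 2) F).mulVec v ≠ c • v) → χ g = 0) := by
  classical
  obtain ⟨k, hk⟩ := id hodd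
  have hq1 := q_gt_one (F := F)
  have hs := six ⟨χ, hχ⟩
  have e1 := degH_iff ⟨χ, hχ⟩ ((Fintype.card F - 1) / 2)
  have e2 := degH_iff ⟨χ, hχ⟩ ((Fintype.card F + 1) / 2)
  have e3 := degqm_iff ⟨χ, hχ⟩
  have e4 := degqp_iff ⟨χ, hχ⟩
  simp only at e1 e2 e3 e4
  rw [e1, e2, e3, e4]
  constructor
  · intro hd h01 h10 h2
    obtain ⟨a, c, rfl, ha, hc, -⟩ := eq_smk g h10
    have hc0 : c = 0 := by rw [hc, h01]
    subst hc0
    rw [← ha] at h2
    have hq5 : Fintype.card F ≠ 3 := by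
      intro h3
      apply h2
      have := FiniteField.pow_card_sub_one_eq_one (a : F) a.ne_zero
      rw [h3] at this
      exact this
    have hne := inv_ne_of_sq_ne h2
    have ht := tr_smk_sq_ne h2
    rcases hs with ⟨h, e⟩ | ⟨h, e⟩ | ⟨h, e⟩ | ⟨h, e⟩ | ⟨h, e⟩ | ⟨h, e⟩
    · exfalso; omega
    · exfalso; omega
    · exfalso; omega
    · exfalso; omega
    · obtain ⟨θ, hθ, hc', e'⟩ := mem_AF.mp h
      simp only at e'
      rw [← e', Function.comp, tg_smk]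
      exact cusp_offdiag (Cfsg.Agent.Lib.Char.Basic.isClassFunction_of_isIrrCharacter hθ) hc' hne.symm
    · obtain ⟨θ, hθ, hc', χ', hp⟩ := mem_AM.mp h
      simp only at hp
      have h3 := pair_eq hodd hp ht
      obtain ⟨-, -, h4, -⟩ := hp
      have h5 := congrFun h4 (smk a 0)
      rw [Function.comp, tg_smk, cusp_offdiag (Cfsg.Agent.Lib.Char.Basic.isClassFunction_of_isIrrCharacter hθ) hc' hne.symm,
        Pi.add_apply, h3] at h5
      have h6 : (2 : ℂ) * χ (smk a 0) = 0 := by linear_combination -h5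
      exact (mul_eq_zero.mp h6).resolve_left two_ne_zero
  · intro hd hg
    have ht := tr_noEig hodd hg
    rcases hs with ⟨h, e⟩ | ⟨h, e⟩ | ⟨h, e⟩ | ⟨h, e⟩ | ⟨h, e⟩ | ⟨h, e⟩
    · exfalso; omega
    · exfalso; omega
    · obtain ⟨α, -, e'⟩ := mem_A3.mp h
      simp only at e'
      rw [e']
      exact sig_noEig α hg
    · obtain ⟨α, -, -, χ', hp⟩ := mem_AP.mp h
      simp only at hp
      have h3 := pair_eq hodd hp ht
      obtain ⟨-, -, h4, -⟩ := hp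
      have h5 := congrFun h4 g
      rw [sig_noEig α hg, Pi.add_apply, h3] at h5
      have h6 : (2 : ℂ) * χ g = 0 := by linear_combination -h5
      exact (mul_eq_zero.mp h6).resolve_left two_ne_zero
    · have hq3 : Fintype.card F = 3 := by omega
      obtain ⟨θ, hθ, hc', e'⟩ := mem_AF.mp h
      simp only at e'
      subst e'
      exact vanish_q3 hq3 hθ hc' hχ ht
    · exfalso; omega

end Cfsg.Agent.S2322
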