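import Cfsg.Statements.S2323
import Cfsg.Agent.Lib.GL2.SL2Values

set_option autoImplicit false
open Cfsg

namespace Cfsg.Agent.S2323

open Cfsg.Agent.Lib.GL2.SigSL2 Cfsg.Agent.Lib.GL2.IrrSL2 Cfsg.Agent.Lib.GL2.SL2Values Cfsg.Agent.Lib.GL2.PS Cfsg.Agent.Lib.GL2.IrrGL2 Cfsg.Agent.Lib.GL2.Restrict in
theorem result {F : Type*} [Field F] [Fintype F] (hq : 4 ≤ Fintype.card F) (χ : Matrix.SpecialLinearGroup (Fin 2) F → ℂ) (hχ : Cfsg.IsIrrCharacter (Matrix.SpecialLinearGroup (Fin 2) F) χ)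
    (u : Matrix.SpecialLinearGroup (Fin 2) F) (hu : (u : Matrix (Fin 2) (Fin 2) F) = !![1, 1; 0, 1]) :
    (χ 1 = (Fintype.card F : ℂ) + 1 → χ u = 1) ∧ (χ 1 = (Fintype.card F : ℂ) - 1 → χ u = -1) := by
  classical
  have hub : u = smk 1 1 := smk_u u hu
  subst hub
  have h2 := six ⟨χ, hχ⟩
  have e1 := degqp_iff ⟨χ, hχ⟩
  have e2 := degqm_iff ⟨χ, hχ⟩
  simp only at e1 e2
  rw [e1, e2]
  constructor
  · intro h3
    rcases h2 with ⟨h, e⟩ | ⟨h, e⟩ | ⟨h, e⟩ | ⟨h, e⟩ | ⟨h, e⟩ | ⟨h, e⟩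
    · exfalso; omega
    · exfalso; omega
    · obtain ⟨α, -, e'⟩ := mem_A3.mp h
      simp only at e'
      rw [e', sig_u]
    · exfalso; omega
    · exfalso; omega
    · exfalso; omega
  · intro h3
    rcases h2 with ⟨h, e⟩ | ⟨h, e⟩ | ⟨h, e⟩ | ⟨h, e⟩ | ⟨h, e⟩ | ⟨h, e⟩
    · exfalso; omega
    · exfalso; omega
    · exfalso; omega
    · exfalso; omega
    · obtain ⟨θ, hθ, hc, e'⟩ := mem_AF.mp h
      simp only at e'
      rw [← e', Function.comp, tg_smk_u]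
      exact cusp_u hθ hc
    · exfalso; omega

end Cfsg.Agent.S2323
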