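import Cfsg.Statements.S2324
import Cfsg.Agent.Lib.GL2.SL2Values

set_option autoImplicit false
open Cfsg

namespace Cfsg.Agent.S2324

open Cfsg.Agent.Lib.GL2.SigSL2 Cfsg.Agent.Lib.GL2.IrrSL2 Cfsg.Agent.Lib.GL2.SL2Values Cfsg.Agent.Lib.GL2.PS Cfsg.Agent.Lib.GL2.IrrGL2 Cfsg.Agent.Lib.GL2.Restrict Cfsg.Agent.Lib.GL2.SL2 in
theorem result {F : Type*} [Field F] [Fintype F] (hodd : Odd (Fintype.card F)) (hq : 5 ≤ Fintype.card F)
    (u : Matrix.SpecialLinearGroup (Fin 2) F) (hu : (u : Matrix (Fin 2) (Fin 2) F) = !![1, 1; 0, 1]) :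
    (∀ χ : Matrix.SpecialLinearGroup (Fin 2) F → ℂ, Cfsg.IsIrrCharacter (Matrix.SpecialLinearGroup (Fin 2) F) χ → χ 1 = (((Fintype.card F + 1) / 2 : ℕ) : ℂ) → (2 * χ u - 1) ^ 2 = (-1 : ℂ) ^ ((Fintype.card F - 1) / 2) * (Fintype.card F : ℂ)) ∧
    (∀ χ : Matrix.SpecialLinearGroup (Fin 2) F → ℂ, Cfsg.IsIrrCharacter (Matrix.SpecialLinearGroup (Fin 2) F) χ → χ 1 = (((Fintype.card F - 1) / 2 : ℕ) : ℂ) → (2 * χ u + 1) ^ 2 = (-1 : ℂ) ^ ((Fintype.card F - 1) / 2) * (Fintype.card F : ℂ)) ∧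
    (∀ χ₁ χ₂ : Matrix.SpecialLinearGroup (Fin 2) F → ℂ, Cfsg.IsIrrCharacter (Matrix.SpecialLinearGroup (Fin 2) F) χ₁ → Cfsg.IsIrrCharacter (Matrix.SpecialLinearGroup (Fin 2) F) χ₂ → χ₁ ≠ χ₂ →
      χ₁ 1 = (((Fintype.card F + 1) / 2 : ℕ) : ℂ) → χ₂ 1 = (((Fintype.card F + 1) / 2 : ℕ) : ℂ) → χ₁ u + χ₂ u = 1) ∧
    (∀ χ₁ χ₂ : Matrix.SpecialLinearGroup (Fin 2) F → ℂ, Cfsg.IsIrrCharacter (Matrix.SpecialLinearGroup (Fin 2) F) χ₁ → Cfsg.IsIrrCharacter (Matrix.SpecialLinearGroup (Fin 2) F) χ₂ → χ₁ ≠ χ₂ →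
      χ₁ 1 = (((Fintype.card F - 1) / 2 : ℕ) : ℂ) → χ₂ 1 = (((Fintype.card F - 1) / 2 : ℕ) : ℂ) → χ₁ u + χ₂ u = -1) := by
  classical
  have hub : u = uu 1 := by
    apply Subtype.ext
    rw [hu, coe_uu]
  subst hub
  obtain ⟨k, hk⟩ := id hodd
  have hsm : (uu (1 : F) : Cfsg.Agent.Lib.GL2.SL2.SL2 F) = smk 1 1 := by
    apply Subtype.ext
    rw [coe_uu, coe_smk]
    simp
  have hval1 : ∀ α : MulChar F ℂ, sig α (uu 1) = 1 := by
    intro α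
    rw [hsm, sig_u]
  have hval2 : ∀ θ : Cfsg.Agent.Lib.GL2.Borel.GL2 F → ℂ, Cfsg.IsIrrCharacter _ θ → Cfsg.Agent.Lib.GL2.PS.IsCusp θ →
      (θ ∘ tg) (uu 1) = -1 := by
    intro θ hθ hc
    rw [Function.comp, hsm, tg_smk_u]
    exact cusp_u hθ hc
  have memP : ∀ χ : Cfsg.IrrCharacter (Cfsg.Agent.Lib.GL2.SL2.SL2 F),
      (χ : Cfsg.Agent.Lib.GL2.SL2.SL2 F → ℂ) 1 = (((Fintype.card F + 1) / 2 : ℕ) : ℂ) → χ ∈ AP F := by
    intro χ hd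
    rw [degH_iff] at hd
    rcases six χ with ⟨h, e⟩ | ⟨h, e⟩ | ⟨h, e⟩ | ⟨h, e⟩ | ⟨h, e⟩ | ⟨h, e⟩
    · exfalso; omega
    · exfalso; omega
    · exfalso; omega
    · exact h
    · exfalso; omega
    · exfalso; omega
  have memM : ∀ χ : Cfsg.IrrCharacter (Cfsg.Agent.Lib.GL2.SL2.SL2 F),
      (χ : Cfsg.Agent.Lib.GL2.SL2.SL2 F → ℂ) 1 = (((Fintype.card F - 1) / 2 : ℕ) : ℂ) → χ ∈ AM F := by
    intro χ hd
    rw [degH_iff] at hd
    rcases six χ with ⟨h, e⟩ | ⟨h, e⟩ | ⟨h, e⟩ | ⟨h, e⟩ | ⟨h, e⟩ | ⟨h, e⟩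
    · exfalso; omega
    · exfalso; omega
    · exfalso; omega
    · exfalso; omega
    · exfalso; omega
    · exact h
  refine ⟨?_, ?_, ?_, ?_⟩
  · intro χ hχ hd
    obtain ⟨α, -, -, χ', hp⟩ := mem_AP.mp (memP ⟨χ, hχ⟩ hd)
    simp only at hp
    have h1 := half_lemma hodd hχ hp
    obtain ⟨-, -, h4, -⟩ := hp
    have h5 := congrFun h4 (uu 1)
    rw [hval1, Pi.add_apply] at h5
    rw [← h1]
    linear_combination (χ (uu 1) - χ' (uu 1) + 2 * χ (uu 1) - 1) * (-h5)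
  · intro χ hχ hd
    obtain ⟨θ, hθ, hc, χ', hp⟩ := mem_AM.mp (memM ⟨χ, hχ⟩ hd)
    simp only at hp
    have h1 := half_lemma hodd hχ hp
    obtain ⟨-, -, h4, -⟩ := hp
    have h5 := congrFun h4 (uu 1)
    rw [hval2 θ hθ hc, Pi.add_apply] at h5
    rw [← h1]
    linear_combination (χ (uu 1) - χ' (uu 1) + 2 * χ (uu 1) + 1) * (-h5)
  · intro χ₁ χ₂ h1 h2 hne d1 d2
    obtain ⟨α, -, -, x₁, x₂, hx, hs, e⟩ := exists_AP_pair (F := F) hodd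
    have m1 := memP ⟨χ₁, h1⟩ d1
    have m2 := memP ⟨χ₂, h2⟩ d2
    rw [e] at m1 m2
    simp only [Finset.mem_insert, Finset.mem_singleton] at m1 m2
    have h5 := congrFun hs (uu 1)
    rw [hval1, Pi.add_apply] at h5
    rcases m1 with m1 | m1 <;> rcases m2 with m2 | m2
    · have e1 : χ₁ = x₁.1 := congrArg Subtype.val m1
      have e2 : χ₂ = x₁.1 := congrArg Subtype.val m2
      exact absurd (e1.trans e2.symm) hne
    · have e1 : χ₁ = x₁.1 := congrArg Subtype.val m1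
      have e2 : χ₂ = x₂.1 := congrArg Subtype.val m2
      rw [e1, e2]
      exact h5.symm
    · have e1 : χ₁ = x₂.1 := congrArg Subtype.val m1
      have e2 : χ₂ = x₁.1 := congrArg Subtype.val m2
      rw [e1, e2, add_comm]
      exact h5.symm
    · have e1 : χ₁ = x₂.1 := congrArg Subtype.val m1
      have e2 : χ₂ = x₂.1 := congrArg Subtype.val m2
      exact absurd (e1.trans e2.symm) hne
  · intro χ₁ χ₂ h1 h2 hne d1 d2
    have m1 := memM ⟨χ₁, h1⟩ d1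
    have m2 := memM ⟨χ₂, h2⟩ d2
    obtain ⟨θ, hθ, hc, χ', hp⟩ := mem_AM.mp m1
    simp only at hp
    have hdeg := hp.deg
    obtain ⟨h3, h4, h5, -⟩ := hp
    have m3 := memM ⟨χ', h3⟩ (hdeg.trans d1)
    have hcard := (counts_odd (F := F) hodd).2
    have h6 : χ₂ = χ' := by
      by_contra h7
      have hsub : ({⟨χ₁, h1⟩, ⟨χ₂, h2⟩, ⟨χ', h3⟩} : Finset (Cfsg.IrrCharacter (Cfsg.Agent.Lib.GL2.SL2.SL2 F))) ⊆ AM F := by
        intro x hx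
        simp only [Finset.mem_insert, Finset.mem_singleton] at hx
        rcases hx with rfl | rfl | rfl
        · exact m1
        · exact m2
        · exact m3
      have hc3 := Finset.card_le_card hsub
      rw [hcard, Finset.card_eq_three.mpr ⟨_, _, _, fun e => hne (congrArg Subtype.val e),
        fun e => h4 (congrArg Subtype.val e).symm, fun e => h7 (congrArg Subtype.val e), rfl⟩] at hc3
      omega
    rw [h6]
    have h8 := congrFun h5 (uu 1)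
    rw [hval2 θ hθ hc, Pi.add_apply] at h8
    exact h8.symm

end Cfsg.Agent.S2324
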