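import Cfsg.Statements.S2329
import Cfsg.Agent.Lib.GL2.Unipotent

set_option autoImplicit false
open Cfsg

namespace Cfsg.Agent.S2329

open Cfsg.Agent.Lib.GL2.Unipotent in
/-- Over a finite field of characteristic p, any two elements of order p of GL₂ are conjugate: there is a single conjugacy class of non-identity unipotent elements. -/
theorem result {F : Type*} [Field F] [Fintype F] (p : ℕ) [Fact p.Prime] [CharP F p] (g h : Matrix.GeneralLinearGroup (Fin 2) F)
    (hg : orderOf g = p) (hh : orderOf h = p) : IsConj g h := by
  have key : ∀ x : Matrix.GeneralLinearGroup (Fin 2) F, orderOf x = p → IsConj x u₁ := by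
    intro x hx
    have h1 : x ^ p = 1 := by rw [← hx]; exact pow_orderOf_eq_one x
    have h2 : ((x : Matrix (Fin 2) (Fin 2) F)) ^ p = 1 := by
      have := congrArg (fun y : Matrix.GeneralLinearGroup (Fin 2) F => (y : Matrix (Fin 2) (Fin 2) F)) h1
      simpa using this
    have h3 := sq_sub_one_eq_zero_of_pow (p := p) h2
    refine isConj_u₁ x h3 ?_
    rintro rfl
    simp at hx
    exact (Fact.out : p.Prime).one_lt.ne hx
  exact (key g hg).trans (key h hh).symm

end Cfsg.Agent.S2329
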