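-- Proof of statement S2330 (row 2330).
import Cfsg.Statements.S2330
import Cfsg.Agent.Lib.GL2.Companion
import Mathlib

set_option autoImplicit false
open Cfsg

namespace Cfsg.Agent.S2330

open Cfsg.Agent.Lib.GL2.Companion

variable {F : Type*} [Field F]

lemma isConj_of_notScal {g h : Matrix.GeneralLinearGroup (Fin 2) F}
    (hg : ¬ IsScal (g : Matrix (Fin 2) (Fin 2) F)) (hh : ¬ IsScal (h : Matrix (Fin 2) (Fin 2) F))
    (ht : (g : Matrix (Fin 2) (Fin 2) F).trace = (h : Matrix (Fin 2) (Fin 2) F).trace)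
    (hd : (g : Matrix (Fin 2) (Fin 2) F).det = (h : Matrix (Fin 2) (Fin 2) F).det) :
    IsConj g h := by
  obtain ⟨P, hP, hPe⟩ := exists_conj_companion _ hg
  obtain ⟨Q, hQ, hQe⟩ := exists_conj_companion _ hh
  rw [ht, hd] at hPe
  let uP : Matrix.GeneralLinearGroup (Fin 2) F := Matrix.GeneralLinearGroup.mkOfDetNeZero P hP
  let uQ : Matrix.GeneralLinearGroup (Fin 2) F := Matrix.GeneralLinearGroup.mkOfDetNeZero Q hQ
  have huP : (uP : Matrix (Fin 2) (Fin 2) F) = P := rfl
  have huQ : (uQ : Matrix (Fin 2) (Fin 2) F) = Q := rfl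
  rw [isConj_comm, isConj_iff]
  refine ⟨uP * uQ⁻¹, ?_⟩
  -- (P Q⁻¹) h (P Q⁻¹)⁻¹ = g
  have h1 : g * uP = uP * (uQ⁻¹ * h * uQ) := by
    apply Units.ext
    have h2 : (h : Matrix (Fin 2) (Fin 2) F) * Q = Q * companion (h : Matrix (Fin 2) (Fin 2) F).trace
        (h : Matrix (Fin 2) (Fin 2) F).det := hQe
    have h3 : ((uQ⁻¹ * h * uQ : Matrix.GeneralLinearGroup (Fin 2) F) : Matrix (Fin 2) (Fin 2) F)
        = companion (h : Matrix (Fin 2) (Fin 2) F).trace (h : Matrix (Fin 2) (Fin 2) F).det := by
      have : uQ⁻¹ * h * uQ = uQ⁻¹ * (h * uQ) := by group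
      rw [this]
      rw [Units.val_mul, Units.val_mul, huQ, h2, ← mul_assoc]
      have h4 : ((uQ⁻¹ : Matrix.GeneralLinearGroup (Fin 2) F) : Matrix (Fin 2) (Fin 2) F) * Q = 1 := by
        rw [← huQ, ← Units.val_mul, inv_mul_cancel, Units.val_one]
      rw [h4, one_mul]
    rw [Units.val_mul, Units.val_mul, h3, huP]
    exact hPe
  calc uP * uQ⁻¹ * h * (uP * uQ⁻¹)⁻¹ = uP * (uQ⁻¹ * h * uQ) * uP⁻¹ := by group
    _ = g * uP * uP⁻¹ := by rw [← h1]
    _ = g := by group

lemma isScal_conj_eq {g : Matrix.GeneralLinearGroup (Fin 2) F}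
    (hg : IsScal (g : Matrix (Fin 2) (Fin 2) F)) (c : Matrix.GeneralLinearGroup (Fin 2) F) :
    c * g * c⁻¹ = g := by
  apply Units.ext
  have h1 := (isScal_iff _).1 hg
  rw [Units.val_mul, Units.val_mul, h1]
  simp

lemma ne_zero_of_isScal {g : Matrix.GeneralLinearGroup (Fin 2) F}
    (hg : IsScal (g : Matrix (Fin 2) (Fin 2) F)) : (g : Matrix (Fin 2) (Fin 2) F) 0 0 ≠ 0 := by
  intro h
  have hdet : (g : Matrix (Fin 2) (Fin 2) F).det ≠ 0 :=
    ((Matrix.isUnit_iff_isUnit_det _).1 g.isUnit).ne_zero
  apply hdet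
  rw [Matrix.det_fin_two, hg.1, h]
  simp

open Classical in
/-- The invariant of a conjugacy class. -/
noncomputable def inv (g : Matrix.GeneralLinearGroup (Fin 2) F) : Fˣ ⊕ (F × Fˣ) :=
  if h : IsScal (g : Matrix (Fin 2) (Fin 2) F) then Sum.inl (Units.mk0 _ (ne_zero_of_isScal h))
  else Sum.inr ((g : Matrix (Fin 2) (Fin 2) F).trace, Matrix.GeneralLinearGroup.det g)

lemma inv_conj (g c : Matrix.GeneralLinearGroup (Fin 2) F) : inv (c * g * c⁻¹) = inv g := by
  by_cases hg : IsScal (g : Matrix (Fin 2) (Fin 2) F)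
  · rw [isScal_conj_eq hg]
  · have h2 : ¬ IsScal ((c * g * c⁻¹ : Matrix.GeneralLinearGroup (Fin 2) F) : Matrix (Fin 2) (Fin 2) F) := by
      intro h3
      apply hg
      have := isScal_conj_eq h3 c⁻¹
      have h4 : c⁻¹ * (c * g * c⁻¹) * c⁻¹⁻¹ = g := by group
      rw [h4] at this
      rw [this]
      exact h3
    unfold inv
    rw [dif_neg hg, dif_neg h2]
    congr 2
    · rw [Units.val_mul, Units.val_mul, Matrix.trace_mul_comm, ← mul_assoc]
      rw [← Units.val_mul, inv_mul_cancel, Units.val_one, one_mul]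
    · simp [map_mul, mul_comm]

theorem result {F : Type*} [Field F] [Fintype F] :
    Nat.card (ConjClasses (Matrix.GeneralLinearGroup (Fin 2) F)) = Fintype.card F ^ 2 - 1 := by
  classical
  let φ : ConjClasses (Matrix.GeneralLinearGroup (Fin 2) F) → Fˣ ⊕ (F × Fˣ) :=
    Quotient.lift inv (by
      rintro a b hab
      obtain ⟨c, rfl⟩ := isConj_iff.1 hab
      exact (inv_conj a c).symm)
  have hφ : Function.Bijective φ := by
    constructor
    · intro x y
      induction x using Quotient.inductionOn with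
      | h g =>
      induction y using Quotient.inductionOn with
      | h h =>
      intro hxy
      have hxy' : inv g = inv h := hxy
      apply Quotient.sound
      by_cases hg : IsScal (g : Matrix (Fin 2) (Fin 2) F) <;>
        by_cases hh : IsScal (h : Matrix (Fin 2) (Fin 2) F)
      · unfold inv at hxy'
        rw [dif_pos hg, dif_pos hh] at hxy'
        have h1 : (g : Matrix (Fin 2) (Fin 2) F) 0 0 = (h : Matrix (Fin 2) (Fin 2) F) 0 0 := by
          have := Sum.inl.inj hxy'
          exact congrArg Units.val this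
        have : g = h := by
          apply Units.ext
          rw [(isScal_iff _).1 hg, (isScal_iff _).1 hh, h1]
        rw [this]
      · unfold inv at hxy'
        rw [dif_pos hg, dif_neg hh] at hxy'
        exact absurd hxy' (by simp)
      · unfold inv at hxy'
        rw [dif_neg hg, dif_pos hh] at hxy'
        exact absurd hxy' (by simp)
      · unfold inv at hxy'
        rw [dif_neg hg, dif_neg hh] at hxy'
        have h1 := Sum.inr.inj hxy'
        have h2 : (g : Matrix (Fin 2) (Fin 2) F).trace = (h : Matrix (Fin 2) (Fin 2) F).trace :=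
          congrArg Prod.fst h1
        have h3 : Matrix.GeneralLinearGroup.det g = Matrix.GeneralLinearGroup.det h :=
          congrArg Prod.snd h1
        have h4 : (g : Matrix (Fin 2) (Fin 2) F).det = (h : Matrix (Fin 2) (Fin 2) F).det := by
          have := congrArg Units.val h3
          simpa using this
        exact isConj_of_notScal hg hh h2 h4
    · rintro (u | ⟨t, d⟩)
      · -- scalar
        refine ⟨Quotient.mk _ (Matrix.GeneralLinearGroup.mkOfDetNeZero ((u : F) • 1) ?_), ?_⟩
        · simp [Matrix.det_smul]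
        · change inv _ = _
          have hs : IsScal ((Matrix.GeneralLinearGroup.mkOfDetNeZero ((u : F) • (1 : Matrix (Fin 2) (Fin 2) F)) (by simp [Matrix.det_smul]) : Matrix.GeneralLinearGroup (Fin 2) F) : Matrix (Fin 2) (Fin 2) F) := by
            refine ⟨?_, ?_, ?_⟩ <;> simp [Matrix.GeneralLinearGroup.mkOfDetNeZero]
          unfold inv
          rw [dif_pos hs]
          congr 1
          ext
          simp [Matrix.GeneralLinearGroup.mkOfDetNeZero]
      · have hd : (companion t (d : F)).det ≠ 0 := by rw [companion_det]; exact d.ne_zero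
        refine ⟨Quotient.mk _ (Matrix.GeneralLinearGroup.mkOfDetNeZero (companion t (d : F)) hd), ?_⟩
        change inv _ = _
        unfold inv
        have hns : ¬ IsScal ((Matrix.GeneralLinearGroup.mkOfDetNeZero (companion t (d : F)) hd :
            Matrix.GeneralLinearGroup (Fin 2) F) : Matrix (Fin 2) (Fin 2) F) :=
          not_isScal_companion t (d : F)
        rw [dif_neg hns]
        congr 2
        · exact companion_trace t _
        · ext
          simpa [Matrix.GeneralLinearGroup.mkOfDetNeZero] using companion_det t (d : F)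
  rw [Nat.card_congr (Equiv.ofBijective φ hφ), Nat.card_eq_fintype_card]
  rw [Fintype.card_sum, Fintype.card_prod, Fintype.card_units]
  have hq : 1 ≤ Fintype.card F := Fintype.card_pos
  obtain ⟨r, hr⟩ : ∃ r, Fintype.card F = r + 1 := ⟨Fintype.card F - 1, by omega⟩
  rw [hr]
  simp only [add_tsub_cancel_right]
  have : (r + 1) ^ 2 = r + (r + 1) * r + 1 := by ring
  omega

end Cfsg.Agent.S2330
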