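-- Proof of statement S2331 (row 2331).
import Cfsg.Statements.S2331
import Cfsg.Agent.Lib.GL2.Companion
import Mathlib

set_option autoImplicit false
open Cfsg

namespace Cfsg.Agent.S2331

open Cfsg.Agent.Lib.GL2.Companion

variable {F : Type*} [Field F]

local notation "SL2" => Matrix.SpecialLinearGroup (Fin 2) F

lemma coe_mul_inv (c : SL2) : (c : Matrix (Fin 2) (Fin 2) F) * ((c⁻¹ : SL2) : Matrix (Fin 2) (Fin 2) F) = 1 := by
  have : ((c * c⁻¹ : SL2) : Matrix (Fin 2) (Fin 2) F) = 1 := by rw [mul_inv_cancel]; rfl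
  exact this

lemma coe_inv_mul (c : SL2) : ((c⁻¹ : SL2) : Matrix (Fin 2) (Fin 2) F) * (c : Matrix (Fin 2) (Fin 2) F) = 1 := by
  have : ((c⁻¹ * c : SL2) : Matrix (Fin 2) (Fin 2) F) = 1 := by rw [inv_mul_cancel]; rfl
  exact this

lemma trace_conj (g c : SL2) :
    ((c * g * c⁻¹ : SL2) : Matrix (Fin 2) (Fin 2) F).trace = (g : Matrix (Fin 2) (Fin 2) F).trace := by
  have h : ((c * g * c⁻¹ : SL2) : Matrix (Fin 2) (Fin 2) F)
      = (c : Matrix (Fin 2) (Fin 2) F) * g * ((c⁻¹ : SL2) : Matrix (Fin 2) (Fin 2) F) := rfl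
  rw [h, Matrix.trace_mul_comm, ← mul_assoc, coe_inv_mul, one_mul]

lemma eq_one_of_isScal [CharP F 2] {g : SL2} (hg : IsScal (g : Matrix (Fin 2) (Fin 2) F)) : g = 1 := by
  have h1 := (isScal_iff _).1 hg
  have hdet : (g : Matrix (Fin 2) (Fin 2) F).det = 1 := g.2
  rw [Matrix.det_fin_two, hg.1, ← hg.2.2] at hdet
  have hsq : ((g : Matrix (Fin 2) (Fin 2) F) 0 0 - 1) ^ 2 = 0 := by
    have h2 : (2 : F) = 0 := by exact_mod_cast CharP.cast_eq_zero F 2
    have : ((g : Matrix (Fin 2) (Fin 2) F) 0 0 - 1) ^ 2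
        = ((g : Matrix (Fin 2) (Fin 2) F) 0 0 * (g : Matrix (Fin 2) (Fin 2) F) 0 0 - 0 * (g : Matrix (Fin 2) (Fin 2) F) 1 0)
          - 2 * (g : Matrix (Fin 2) (Fin 2) F) 0 0 + 1 := by ring
    rw [this, hdet, h2, zero_mul, sub_zero]
    linear_combination h2
  have ha : (g : Matrix (Fin 2) (Fin 2) F) 0 0 = 1 := sub_eq_zero.1 (pow_eq_zero_iff (two_ne_zero) |>.1 hsq)
  apply Subtype.ext
  rw [h1, ha, one_smul]
  rfl

lemma not_isScal_of_ne_one [CharP F 2] {g : SL2} (hg : g ≠ 1) :
    ¬ IsScal (g : Matrix (Fin 2) (Fin 2) F) := fun h => hg (eq_one_of_isScal h)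

/-- `C(t,1)` as an element of `SL₂`. -/
def compSL (t : F) : SL2 := ⟨companion t 1, companion_det t 1⟩

lemma compSL_ne_one (t : F) : compSL t ≠ 1 := by
  intro h
  have := congrArg (fun g : SL2 => (g : Matrix (Fin 2) (Fin 2) F) 1 0) h
  simp [compSL, companion] at this

lemma isConj_compSL [Fintype F] [CharP F 2] {g : SL2} (hg : g ≠ 1) :
    IsConj g (compSL (g : Matrix (Fin 2) (Fin 2) F).trace) := by
  obtain ⟨P, hP, hPe⟩ := exists_conj_companion _ (not_isScal_of_ne_one hg)
  have hdet1 : (g : Matrix (Fin 2) (Fin 2) F).det = 1 := g.2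
  rw [hdet1] at hPe
  have hc : ringChar F = 2 := ringChar.eq F 2
  obtain ⟨e, he⟩ := FiniteField.isSquare_of_char_two hc P.det
  have he0 : e ≠ 0 := by
    rintro rfl
    rw [zero_mul] at he
    exact hP he
  let u : SL2 := ⟨e⁻¹ • P, by
    rw [Matrix.det_smul, he]
    simp
    field_simp⟩
  have hu : (u : Matrix (Fin 2) (Fin 2) F) = e⁻¹ • P := rfl
  rw [isConj_comm, isConj_iff]
  refine ⟨u, ?_⟩
  have h1 : u * compSL (g : Matrix (Fin 2) (Fin 2) F).trace = g * u := by
    apply Subtype.ext
    change (u : Matrix (Fin 2) (Fin 2) F) * companion _ 1 = (g : Matrix (Fin 2) (Fin 2) F) * (u : Matrix (Fin 2) (Fin 2) F)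
    rw [hu, Matrix.smul_mul, Matrix.mul_smul, hPe]
  rw [h1]
  group

theorem result {F : Type*} [Field F] [Fintype F] [CharP F 2] :
    Nat.card (ConjClasses (Matrix.SpecialLinearGroup (Fin 2) F)) = Fintype.card F + 1 := by
  classical
  let inv : Matrix.SpecialLinearGroup (Fin 2) F → Option F := fun g =>
    if g = 1 then none else some (g : Matrix (Fin 2) (Fin 2) F).trace
  have hinv : ∀ g c : Matrix.SpecialLinearGroup (Fin 2) F, inv (c * g * c⁻¹) = inv g := by
    intro g c
    by_cases hg : g = 1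
    · subst hg
      simp [inv]
    · have h2 : c * g * c⁻¹ ≠ 1 := by
        intro h
        apply hg
        have : g = c⁻¹ * (c * g * c⁻¹) * c := by group
        rw [this, h]
        group
      simp only [inv, if_neg hg, if_neg h2]
      rw [trace_conj]
  let φ : ConjClasses (Matrix.SpecialLinearGroup (Fin 2) F) → Option F :=
    Quotient.lift inv (by
      rintro a b hab
      obtain ⟨c, rfl⟩ := isConj_iff.1 hab
      exact (hinv a c).symm)
  have hφ : Function.Bijective φ := by
    constructor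
    · intro x y
      induction x using Quotient.inductionOn with
      | h g =>
      induction y using Quotient.inductionOn with
      | h h =>
      intro hxy
      have hxy' : inv g = inv h := hxy
      apply Quotient.sound
      by_cases hg : g = 1 <;> by_cases hh : h = 1
      · rw [hg, hh]
      · simp [inv, hg, hh] at hxy'
      · simp [inv, hg, hh] at hxy'
      · simp only [inv, if_neg hg, if_neg hh, Option.some.injEq] at hxy'
        have h1 := isConj_compSL hg
        have h2 := isConj_compSL hh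
        rw [hxy'] at h1
        exact h1.trans h2.symm
    · rintro (_ | t)
      · exact ⟨Quotient.mk _ 1, by simp [φ, inv]⟩
      · refine ⟨Quotient.mk _ (compSL t), ?_⟩
        change inv _ = _
        simp only [inv, if_neg (compSL_ne_one t)]
        congr 1
        exact companion_trace t 1
  rw [Nat.card_congr (Equiv.ofBijective φ hφ), Nat.card_eq_fintype_card, Fintype.card_option]

end Cfsg.Agent.S2331
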