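import Cfsg.Statements.S2362
import Cfsg.Agent.Lib.BCSpec.Main
import Cfsg.Agent.Lib.BCSpec.PSp
import Cfsg.Agent.Lib.Orth.Bridge
import Cfsg.Agent.Lib.Orth.Forms
-- import your own Cfsg.Agent.* helpers here

set_option autoImplicit false
open Cfsg

namespace Cfsg.Agent.S2362

/-- Let F be a finite field of odd order and n ≥ 3. The simple orthogonal group PΩ(2n+1, F) (type B_n) and the projective symplectic group PSp(2n, F) (type C_n), which have the same order, do not have the same set of element orders. -/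
theorem result {F : Type*} [Field F] [Fintype F] (hodd : Odd (Fintype.card F)) (n : ℕ) (hn : 3 ≤ n) :
    Set.range (orderOf : Cfsg.POmega F (Cfsg.quadFormOdd n F) → ℕ) ≠ Set.range (orderOf : Cfsg.PSp n F → ℕ) := by
  
  classical
  obtain ⟨p, hpc⟩ := CharP.exists F
  have hpp : p.Prime := by
    rcases CharP.char_is_prime_or_zero F p with h | h
    · exact h
    · subst h
      exact absurd (CharP.charP_to_charZero F) (fun h0 => not_finite F)
  have : Fact p.Prime := ⟨hpp⟩
  have h2 : (2 : F) ≠ 0 := by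
    intro h
    have h3 : ringChar F = 2 := by
      exact CharP.ringChar_of_prime_eq_zero Nat.prime_two (by exact_mod_cast h)
    have := FiniteField.even_card_iff_char_two.mp h3
    rw [Nat.odd_iff] at hodd
    omega
  obtain ⟨m, rfl⟩ : ∃ m, n = m + 1 := ⟨n - 1, by omega⟩
  intro heq
  obtain ⟨g, hg⟩ := Cfsg.Agent.Lib.BCSpec.PSp.exists_psp (F := F) p h2 (n := m + 1) (m := m) rfl (by omega)
  have h3 : p * (Fintype.card F ^ m + 1) ∈ Set.range (orderOf : Cfsg.POmega F (Cfsg.quadFormOdd (m + 1) F) → ℕ) := by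
    rw [heq]
    exact ⟨g, hg⟩
  obtain ⟨x, hx⟩ := h3
  obtain ⟨y, rfl⟩ := QuotientGroup.mk_surjective x
  have hyo : p * (Fintype.card F ^ m + 1) ∣ orderOf y := by
    rw [← hx]
    exact orderOf_map_dvd (QuotientGroup.mk' _) y
  let Q := Cfsg.Agent.Lib.Orth.Forms.oddForm (m + 1) F
  let g' : Cfsg.Agent.Lib.Witt.Quadratic.isoGroup Q := Cfsg.Agent.Lib.Orth.Bridge.toIso Q y.1
  have hg' : g' ∈ commutator (Cfsg.Agent.Lib.Witt.Quadratic.isoGroup Q) :=
    (Cfsg.Agent.Lib.Orth.Bridge.mem_commutator_equiv (Cfsg.Agent.Lib.Orth.Bridge.toIso Q) y.1).mp y.2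
  have ho : orderOf g' = orderOf y :=
    (MulEquiv.orderOf_eq (Cfsg.Agent.Lib.Orth.Bridge.toIso Q) y.1).trans (Subgroup.orderOf_coe y)
  refine Cfsg.Agent.Lib.BCSpec.Main.no_order (Q := Q) p h2 rfl (m := m) (by omega) ?_
    (Cfsg.Agent.Lib.Orth.Forms.oddForm_nondeg _ h2) ?_ g' hg' (by rw [ho]; exact hyo)
  · rw [Module.finrank_fintype_fun_eq_card]
    simp
    omega
  · exact Cfsg.Agent.Lib.BCSpec.Count.card_odd rfl h2 (by omega)

end Cfsg.Agent.S2362
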