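import Cfsg.Statements.S2365
import Cfsg.Agent.Lib.SemiSimple.Sqfree
import Cfsg.Agent.Lib.SemiSimple.Lift
import Cfsg.Agent.Lib.SUSpec.Structure
import Cfsg.Agent.Lib.SUSpec.Dag
import Cfsg.Agent.Lib.Classical.HermOrders
-- import your own Cfsg.Agent.* helpers here

set_option autoImplicit false
open Cfsg

namespace Cfsg.Agent.S2365

open Polynomial Module
open Cfsg.Agent.Lib.SemiSimple.Basic Cfsg.Agent.Lib.SemiSimple.Mat Cfsg.Agent.Lib.SemiSimple.Commuting
  Cfsg.Agent.Lib.SemiSimple.Sqfree Cfsg.Agent.Lib.SUSpec.Dag Cfsg.Agent.Lib.HermCount.Field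

/-- The order of `SU` without the factor `q + 1`. -/
lemma card_SU_eq {F : Type*} [Field F] [Fintype F] {q : ℕ} (hF : Fintype.card F = q ^ 2) (n : ℕ) :
    Nat.card ↥(Cfsg.SU (n + 1) F q) = q ^ ((n + 1) * (n + 1 - 1) / 2) *
      ∏ i ∈ Finset.range n, (if Even (i + 1) then q ^ (i + 1 + 1) + 1 else q ^ (i + 1 + 1) - 1) := by
  have h := Cfsg.Agent.Lib.Classical.HermOrders.card_SU hF (n + 1) (by omega)
  rw [Finset.prod_range_succ'] at h
  simp only [Even.zero, if_true, zero_add, pow_one] at h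
  have hpos : 0 < q + 1 := by omega
  apply Nat.eq_of_mul_eq_mul_left hpos
  rw [h]
  ring

lemma dvd_card_SU {F : Type*} [Field F] [Fintype F] {q : ℕ} (hF : Fintype.card F = q ^ 2) {n : ℕ}
    {r j : ℕ} (hj : 2 ≤ j) (hjn : j ≤ n)
    (hr : r ∣ (if Odd j then q ^ j + 1 else q ^ j - 1)) : r ∣ Nat.card ↥(Cfsg.SU n F q) := by
  obtain ⟨n', rfl⟩ : ∃ n', n = n' + 1 := ⟨n - 1, by omega⟩
  rw [card_SU_eq hF]
  apply Dvd.dvd.mul_left
  have hmem : j - 2 ∈ Finset.range n' := Finset.mem_range.2 (by omega)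
  refine Dvd.dvd.trans ?_ (Finset.dvd_prod_of_mem _ hmem)
  have e1 : j - 2 + 1 + 1 = j := by omega
  have e2 : Even (j - 2 + 1) ↔ Odd j := by
    obtain ⟨t, rfl⟩ : ∃ t, j = t + 2 := ⟨j - 2, by omega⟩
    rw [Nat.add_sub_cancel, ← Nat.not_even_iff_odd]
    simp [Nat.even_add_one]
  simp only [e1, e2]
  exact hr

lemma dvd_card_SU_char {F : Type*} [Field F] [Fintype F] {q : ℕ} (hF : Fintype.card F = q ^ 2) {n : ℕ}
    (hn : 2 ≤ n) {r : ℕ} (hr : r ∣ q) : r ∣ Nat.card ↥(Cfsg.SU n F q) := by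
  obtain ⟨n', rfl⟩ : ∃ n', n = n' + 1 := ⟨n - 1, by omega⟩
  rw [card_SU_eq hF]
  apply Dvd.dvd.mul_right
  refine hr.trans (dvd_pow_self q ?_)
  have : 2 ≤ (n' + 1) * (n' + 1 - 1) := by
    simp only [Nat.add_sub_cancel]
    nlinarith
  have h2 : 1 ≤ (n' + 1) * (n' + 1 - 1) / 2 := by omega
  omega

lemma center_pow {F : Type*} [Field F] [Fintype F] {q m : ℕ} (hF : Fintype.card F = q ^ 2) (hm : 2 ≤ m)
    (z : ↥(Cfsg.SU m F q)) (hz : z ∈ Subgroup.center ↥(Cfsg.SU m F q)) : z ^ (q ^ 2 - 1) = 1 := by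
  classical
  obtain ⟨c, hc⟩ := Cfsg.Agent.Lib.SUSpec.HermAlg.scalar_of_center hF hm hz
  have hpow : ∀ (k : ℕ) (x : Fin m → F), ((z ^ k : ↥(Cfsg.SU m F q)).1.1 : Matrix (Fin m) (Fin m) F).mulVec x = c ^ k • x := by
    intro k
    induction k with
    | zero => intro x; simp
    | succ k ih =>
      intro x
      rw [pow_succ]
      show ((z ^ k : ↥(Cfsg.SU m F q)).1.1 * z.1.1 : Matrix (Fin m) (Fin m) F).mulVec x = _
      rw [← Matrix.mulVec_mulVec, hc, Matrix.mulVec_smul, ih, smul_smul, pow_succ, mul_comm c]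
  have hc0 : c ≠ 0 := by
    rintro rfl
    have h1 := hpow (orderOf z) (fun _ => 1)
    rw [pow_orderOf_eq_one, zero_pow (orderOf_pos z).ne'] at h1
    have h2 := congrFun h1 ⟨0, by omega⟩
    simp at h2
  apply Subtype.ext
  apply Subtype.ext
  apply Matrix.mulVec_injective
  funext x
  rw [hpow]
  have h3 : c ^ (q ^ 2 - 1) = 1 := by
    rw [← hF]
    exact FiniteField.pow_card_sub_one_eq_one c hc0
  rw [h3, one_smul]
  simp

/-- The core. -/
theorem exists_j {F : Type*} [Field F] [Fintype F] (p : ℕ) [Fact p.Prime] [CharP F p] {m q a : ℕ} (hq : q = p ^ a)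
    (hm : 4 ≤ m) (hF : Fintype.card F = q ^ 2) (A T : ↥(Cfsg.SU m F q)) (r s : ℕ) [Fact r.Prime] (hrp : r ≠ p)
    (hAp : A ^ p = 1) (hA1 : A ≠ 1) (hTR : T ^ (r ^ s) = 1) (hT1 : T ≠ 1) (hcomm : A * T = T * A) :
    ∃ j, 2 ≤ j ∧ j ≤ m - 2 ∧ r ∣ (if Odd j then q ^ j + 1 else q ^ j - 1) := by
  classical
  have hpp : p.Prime := Fact.out
  have hrr : r.Prime := Fact.out
  have hq2 : 2 ≤ q := by
    by_contra h
    have hF2 : 2 ≤ Fintype.card F := Fintype.one_lt_card
    have : q ≤ 1 := by omega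
    have h3 : q ^ 2 ≤ 1 := by nlinarith
    omega
  set MT : Matrix (Fin m) (Fin m) F := T.1.1 with hMT
  set MA : Matrix (Fin m) (Fin m) F := A.1.1 with hMA
  let LT := Matrix.toLin' MT
  let LA := Matrix.toLin' MA
  have hfr : finrank F (Fin m → F) = m := by simp
  have hmT : MT ^ (r ^ s) = 1 := by
    have := congrArg (fun x : ↥(Cfsg.SU m F q) => (x.1.1 : Matrix (Fin m) (Fin m) F)) hTR
    simpa using this
  have hmA : MA ^ p = 1 := by
    have := congrArg (fun x : ↥(Cfsg.SU m F q) => (x.1.1 : Matrix (Fin m) (Fin m) F)) hAp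
    simpa using this
  have hSS : IsSS LT := by
    rw [isSS_iff]
    have hcast : ((r ^ s : ℕ) : F) ≠ 0 := by
      intro h
      have h1 := (CharP.cast_eq_zero_iff F p (r ^ s)).1 h
      have h2 := hpp.dvd_of_dvd_pow h1
      exact hrp ((Nat.prime_dvd_prime_iff_eq hpp hrr).1 h2).symm
    refine ⟨X ^ (r ^ s) - 1, ?_, ?_⟩
    · have hsep : (X ^ (r ^ s) - C (1 : F)).Separable := Polynomial.separable_X_pow_sub_C 1 hcast one_ne_zero
      rw [C_1] at hsep
      exact hsep.squarefree
    · simp [hmT]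
  have hTR' : LT ^ (r ^ s) = 1 := by
    simp only [LT]
    rw [← Matrix.toLin'_pow, hmT, Matrix.toLin'_one]
    rfl
  have hT1' : LT ≠ 1 := by
    intro h
    apply hT1
    apply Subtype.ext
    apply Subtype.ext
    apply Matrix.toLin'.injective
    show Matrix.toLin' MT = Matrix.toLin' _
    simp only [OneMemClass.coe_one, Matrix.SpecialLinearGroup.coe_one, Matrix.toLin'_one]
    exact h
  have hA1' : LA ≠ 1 := by
    intro h
    apply hA1
    apply Subtype.ext
    apply Subtype.ext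
    apply Matrix.toLin'.injective
    show Matrix.toLin' MA = Matrix.toLin' _
    simp only [OneMemClass.coe_one, Matrix.SpecialLinearGroup.coe_one, Matrix.toLin'_one]
    exact h
  have hmc : MA * MT = MT * MA := congrArg (fun x : ↥(Cfsg.SU m F q) => (x.1.1 : Matrix (Fin m) (Fin m) F)) hcomm
  have hc' : LA * LT = LT * LA := by
    calc LA * LT = Matrix.toLin' (MA * MT) := (Matrix.toLin'_mul MA MT).symm
      _ = Matrix.toLin' (MT * MA) := by rw [hmc]
      _ = LT * LA := Matrix.toLin'_mul MT MA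
  have hne : Nonempty (Fin m) := ⟨⟨0, by omega⟩⟩
  have hnil : IsNilpotent (LA - 1) := by
    have h1 : (MA - 1) ^ p = 0 := by
      rw [sub_pow_char_of_commute p (Commute.one_right _), hmA, one_pow, sub_self]
    refine ⟨p, ?_⟩
    have h2 : LA - 1 = Matrix.toLin' (MA - 1) := by
      rw [map_sub, Matrix.toLin'_one]
      rfl
    rw [h2, ← Matrix.toLin'_pow, h1, map_zero]
  have hnsq : ¬ Squarefree LT.charpoly := fun h => hA1' (eq_one_of_squarefree LT LA hSS h hc' hnil)
  have hχ : LT.charpoly = MT.charpoly := Matrix.charpoly_toLin' MT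
  have hdeg : LT.charpoly.natDegree = m := by rw [LinearMap.charpoly_natDegree, hfr]
  have hχm : LT.charpoly.Monic := LinearMap.charpoly_monic LT
  have hχ0 : LT.charpoly.coeff 0 ≠ 0 := by
    rw [hχ]
    have hdet : MT.det = 1 := T.1.2
    have h4 := Matrix.det_eq_sign_charpoly_coeff MT
    intro h5
    rw [h5, mul_zero, hdet] at h4
    exact one_ne_zero h4
  have hm0 : Nontrivial (Fin m → F) := by
    have : Nonempty (Fin m) := ⟨⟨0, by omega⟩⟩
    infer_instance
  obtain ⟨g, hgm, hgi, hgd, hg1⟩ := exists_factor LT hSS hT1'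
  have hg0 : g.coeff 0 ≠ 0 := by
    obtain ⟨h, hh⟩ := hgd
    intro h0
    apply hχ0
    rw [hh, mul_coeff_zero, h0, zero_mul]
  have hdag : dag hF g ∣ LT.charpoly := by
    obtain ⟨h, hh⟩ := hgd
    obtain ⟨c, hc0, hcs⟩ := Cfsg.Agent.Lib.SUSpec.Structure.charpoly_selfdual hF T
    have hu : IsUnit (C c : F[X]) := isUnit_C.mpr (IsUnit.mk0 c hc0)
    rw [← hu.dvd_mul_left]
    change _ ∣ C c * LT.charpoly
    rw [hχ]
    change _ ∣ C c * (T.1.1 : Matrix (Fin m) (Fin m) F).charpoly
    rw [← hcs]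
    show _ ∣ (MT.charpoly.map (frobHom hF)).reverse
    rw [← hχ, hh, Polynomial.map_mul, reverse_mul_of_domain, reverse_map_eq hF hg0, mul_assoc]
    exact Dvd.dvd.mul_left (dvd_mul_right _ _) _
  have hdd : g.natDegree ≤ m := by
    have := natDegree_le_of_dvd hgd hχm.ne_zero
    omega
  by_cases hself : dag hF g = g
  · obtain ⟨hodd, hdvd⟩ := selfdag_dvd p hF hq hgi hgm hg0 hself
    have hr1 : r ∣ q ^ g.natDegree + 1 :=
      prime_dvd_of_factor r s _ hrr g hgm hgi hg1 (factor_dvd_of_pow_eq_one LT hSS _ hTR' g hgm hgi hgd) hdvd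
    by_cases hd : g.natDegree ≤ m - 2
    · by_cases hd1 : g.natDegree = 1
      · refine ⟨2, le_rfl, by omega, ?_⟩
        rw [hd1, pow_one] at hr1
        have hne : ¬ Odd 2 := by decide
        rw [if_neg hne]
        refine hr1.trans ⟨q - 1, ?_⟩
        obtain ⟨t, rfl⟩ : ∃ t, q = t + 1 := ⟨q - 1, by omega⟩
        simp only [Nat.add_sub_cancel]
        have : (t + 1) ^ 2 = (t + 1 + 1) * t + 1 := by ring
        omega
      · refine ⟨g.natDegree, ?_, hd, ?_⟩
        · obtain ⟨t, ht⟩ := hodd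
          omega
        · rw [if_pos hodd]
          exact hr1
    · exfalso
      apply hnsq
      obtain ⟨h, hh⟩ := hgd
      have h0 : h ≠ 0 := by
        rintro rfl
        rw [mul_zero] at hh
        exact hχm.ne_zero hh
      have hhm : h.Monic := by
        apply hgm.of_mul_monic_left
        rw [← hh]
        exact hχm
      have hdh : h.natDegree = m - g.natDegree := by
        have := congrArg natDegree hh
        rw [natDegree_mul hgm.ne_zero h0, hdeg] at this
        omega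
      rw [hh, squarefree_mul_iff]
      exact ⟨isRelPrime_of_natDegree_lt hgi h0 (by omega), hgi.squarefree,
        squarefree_of_natDegree_le_one hhm (by omega)⟩
  · have hirr' := dag_irreducible hF hgi hg0
    have hmon' := dag_monic hF hg0
    have hdeg' := dag_natDegree hF hg0
    have hrel : IsRelPrime g (dag hF g) := by
      rw [hgi.isRelPrime_iff_not_dvd]
      intro h
      exact hself (eq_of_monic_of_associated hmon' hgm (hgi.associated_of_dvd hirr' h).symm)
    have hcop : IsCoprime g (dag hF g) := hrel.isCoprime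
    have hprod : g * dag hF g ∣ LT.charpoly := hcop.mul_dvd hgd hdag
    have hmm : (g * dag hF g).Monic := hgm.mul hmon'
    have hdm : (g * dag hF g).natDegree = 2 * g.natDegree := by
      rw [natDegree_mul hgm.ne_zero hmon'.ne_zero, hdeg']
      omega
    have hle : 2 * g.natDegree ≤ m := by
      have := natDegree_le_of_dvd hprod hχm.ne_zero
      omega
    have hr1 : r ∣ Fintype.card F ^ g.natDegree - 1 := dvd_of_factor r s LT hSS hTR' g hgm hgi hgd hg1
    rw [hF, ← pow_mul] at hr1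
    by_cases hd : 2 * g.natDegree ≤ m - 2
    · refine ⟨2 * g.natDegree, ?_, hd, ?_⟩
      · have := hgi.natDegree_pos
        omega
      · rw [if_neg (by rw [Nat.not_odd_iff_even]; exact even_two_mul _)]
        exact hr1
    · exfalso
      apply hnsq
      obtain ⟨h, hh⟩ := hprod
      have h0 : h ≠ 0 := by
        rintro rfl
        rw [mul_zero] at hh
        exact hχm.ne_zero hh
      have hhm : h.Monic := by
        apply hmm.of_mul_monic_left
        rw [← hh]
        exact hχm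
      have hdh : h.natDegree = m - 2 * g.natDegree := by
        have := congrArg natDegree hh
        rw [natDegree_mul hmm.ne_zero h0, hdeg, hdm] at this
        omega
      rw [hh, squarefree_mul_iff, squarefree_mul_iff]
      refine ⟨?_, ⟨hrel, hgi.squarefree, hirr'.squarefree⟩, squarefree_of_natDegree_le_one hhm (by omega)⟩
      have h1 := isRelPrime_of_natDegree_lt hgi h0 (by omega)
      have h2 := isRelPrime_of_natDegree_lt hirr' h0 (by omega)
      exact IsRelPrime.mul_left h1 h2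


/-- Let q be a power of the prime p, F the field with q² elements, m ≥ 4, and let a, b be commuting elements of PSU(m, q) with a of order p. Then every prime divisor of the order of b divides the order of SU(m − 2, q). -/
theorem result {F : Type*} [Field F] [Fintype F] (p : ℕ) [Fact p.Prime] [CharP F p] (m q : ℕ) (hm : 4 ≤ m) (hF : Fintype.card F = q ^ 2)
    (a b : Cfsg.PSU m F q) (ha : orderOf a = p) (hab : Commute a b) :
    (orderOf b).primeFactors ⊆ (Nat.card ↥(Cfsg.SU (m - 2) F q)).primeFactors := by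
  classical
  intro r hr
  obtain ⟨hrp, hrb, hb0⟩ := Nat.mem_primeFactors.1 hr
  have : Fact r.Prime := ⟨hrp⟩
  have hn2 : 2 ≤ m - 2 := by omega
  have hpos : Nat.card ↥(Cfsg.SU (m - 2) F q) ≠ 0 := Nat.card_pos.ne'
  refine Nat.mem_primeFactors.2 ⟨hrp, ?_, hpos⟩
  have hpp : p.Prime := Fact.out
  obtain ⟨n, _, hn⟩ := FiniteField.card F p
  obtain ⟨a', _, hq⟩ : ∃ a' : ℕ, a' ≤ (n : ℕ) ∧ q = p ^ a' := by
    have h1 : q ∣ p ^ (n : ℕ) := by
      rw [← hn, hF]
      exact dvd_pow_self q two_ne_zero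
    exact (Nat.dvd_prime_pow hpp).1 h1
  have hq2 : 2 ≤ q := by
    by_contra h
    have hF2 : 2 ≤ Fintype.card F := Fintype.one_lt_card
    have : q ≤ 1 := by omega
    have h3 : q ^ 2 ≤ 1 := by nlinarith
    omega
  have hpq : p ∣ q := by
    rw [hq]
    apply dvd_pow_self
    rintro rfl
    rw [pow_zero] at hq
    omega
  by_cases hrpe : r = p
  · rw [hrpe]
    exact dvd_card_SU_char hF hn2 hpq
  · have hcop : Nat.Coprime p (q ^ 2 - 1) := by
      rw [Nat.Prime.coprime_iff_not_dvd hpp]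
      intro h
      have h1 : p ∣ q ^ 2 := hpq.trans (dvd_pow_self q two_ne_zero)
      have h3 : 1 ≤ q ^ 2 := Nat.one_le_pow _ _ (by omega)
      have h2 : p ∣ 1 := by
        have := (Nat.dvd_sub h1 h)
        rwa [Nat.sub_sub_self h3] at this
      exact hpp.one_lt.ne' (Nat.dvd_one.1 h2)
    obtain ⟨A, T, s, h1, h2, h3, h4, h5⟩ := Cfsg.Agent.Lib.SemiSimple.Lift.lift_commuting p (q ^ 2 - 1) hcop
      (center_pow hF (by omega)) a b ha hab r hrp hrb
    obtain ⟨j, hj1, hj2, hj3⟩ := exists_j p hq hm hF A T r s hrpe h1 h2 h3 h4 h5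
    exact dvd_card_SU hF hj1 hj2 hj3

end Cfsg.Agent.S2365
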