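-- Proof of statement S2367 (row 2367).
import Cfsg.Statements.S2367
import Mathlib

set_option autoImplicit false
open Cfsg

namespace Cfsg.Agent.S2367

/-- Product of prime powers listed as pairs. -/
def prodL : List (ℕ × ℕ) → ℕ
  | [] => 1
  | e :: l => e.1 ^ e.2 * prodL l

/-- The sum of exponents at `p`. -/
def expL (p : ℕ) : List (ℕ × ℕ) → ℕ
  | [] => 0
  | e :: l => (if e.1 = p then e.2 else 0) + expL p l

lemma prodL_ne_zero (l : List (ℕ × ℕ)) (hl : ∀ e ∈ l, e.1.Prime) : prodL l ≠ 0 := by
  induction l with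
  | nil => simp [prodL]
  | cons e l ih =>
    have he := hl e (by simp)
    simp only [prodL]
    exact mul_ne_zero (pow_ne_zero _ he.ne_zero) (ih fun x hx => hl x (by simp [hx]))

lemma fact_prodL (p : ℕ) (l : List (ℕ × ℕ)) (hl : ∀ e ∈ l, e.1.Prime) :
    (prodL l).factorization p = expL p l := by
  induction l with
  | nil => simp [prodL, expL]
  | cons e l ih =>
    have he := hl e (by simp)
    have hl' : ∀ x ∈ l, x.1.Prime := fun x hx => hl x (by simp [hx])
    simp only [prodL, expL]
    rw [Nat.factorization_mul (pow_ne_zero _ he.ne_zero) (prodL_ne_zero l hl')]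
    simp only [Finsupp.add_apply]
    rw [ih hl', Nat.factorization_pow]
    simp only [Finsupp.smul_apply, smul_eq_mul]
    rw [he.factorization]
    congr 1
    by_cases h : e.1 = p
    · simp [h]
    · have : Finsupp.single e.1 1 p = 0 := by simp [Finsupp.single_apply, h]
      simp [this, h]

lemma exists_of_expL (p : ℕ) (l : List (ℕ × ℕ)) (hnd : (l.map Prod.fst).Nodup)
    (h : expL p l = 3) : (p, 3) ∈ l := by
  induction l with
  | nil => simp [expL] at h
  | cons e l ih =>
    simp only [List.map_cons, List.nodup_cons] at hnd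
    simp only [expL] at h
    by_cases he : e.1 = p
    · -- then the rest has no `p`
      have h0 : ∀ (m : List (ℕ × ℕ)), p ∉ m.map Prod.fst → expL p m = 0 := by
        intro m
        induction m with
        | nil => simp [expL]
        | cons a m ihm =>
          intro hm
          simp only [List.map_cons, List.mem_cons, not_or] at hm
          simp only [expL]
          rw [if_neg (fun h' => hm.1 h'.symm), ihm hm.2]
      rw [if_pos he, h0 l (he ▸ hnd.1)] at h
      simp only [add_zero] at h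
      rw [show e = (p, 3) from Prod.ext he h]
      exact List.mem_cons_self
    · rw [if_neg he, zero_add] at h
      exact List.mem_cons_of_mem _ (ih hnd.2 h)

/-- The sporadic step. -/
lemma spor_key {G : Type*} (l : List (ℕ × ℕ)) (hl : ∀ e ∈ l, e.1.Prime)
    (hnd : (l.map Prod.fst).Nodup)
    (hgood : ∀ e ∈ l, e.1 ≠ 2 → e.2 = 3 → e.1 ^ 3 < 2 ^ expL 2 l)
    (hG : Nat.card G = prodL l) (p : ℕ) (hodd : p ≠ 2)
    (h3 : (Nat.card G).factorization p = 3) :
    p ^ 3 < 2 ^ (Nat.card G).factorization 2 := by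
  rw [hG] at h3 ⊢
  rw [fact_prodL p l hl] at h3
  rw [fact_prodL 2 l hl]
  exact hgood (p, 3) (exists_of_expL p l hnd h3) hodd rfl

lemma pow_bound (p : ℕ) (hp : 5 ≤ p) : p ^ 3 < 2 ^ (2 * p - 3) := by
  induction p, hp using Nat.le_induction with
  | base => norm_num
  | succ k hk ih =>
    have h1 : 2 * (k + 1) - 3 = (2 * k - 3) + 2 := by omega
    rw [h1, pow_add]
    have h2 : (k + 1) ^ 3 ≤ 4 * k ^ 3 := by
      have : (k + 1) ^ 3 = k ^ 3 + 3 * k ^ 2 + 3 * k + 1 := by ring
      rw [this]
      have h5 : 5 * k ^ 2 ≤ k ^ 3 := by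
        have : k ^ 3 = k * k ^ 2 := by ring
        rw [this]
        exact Nat.mul_le_mul_right _ hk
      have h6 : k ≤ k ^ 2 := by nlinarith
      have h7 : 1 ≤ k ^ 2 := by nlinarith
      omega
    calc (k + 1) ^ 3 ≤ 4 * k ^ 3 := h2
      _ < 4 * 2 ^ (2 * k - 3) := by omega
      _ = 2 ^ (2 * k - 3) * 2 ^ 2 := by ring

/-- Lower bound for the 2-part of `n!`. -/
lemma fact_two_ge (n : ℕ) (hn : 5 ≤ n) : n / 2 + n / 4 ≤ (n.factorial).factorization 2 := by
  have hlog : 2 ≤ Nat.log 2 n := by
    apply Nat.le_log_of_pow_le (by norm_num)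
    omega
  rw [Nat.factorization_factorial Nat.prime_two (Nat.lt_succ_self _)]
  have hsub : ({1, 2} : Finset ℕ) ⊆ Finset.Ico 1 (Nat.log 2 n).succ := by
    intro x hx
    simp only [Finset.mem_insert, Finset.mem_singleton] at hx
    rcases hx with rfl | rfl <;> simp <;> omega
  calc n / 2 + n / 4 = ∑ i ∈ ({1, 2} : Finset ℕ), n / 2 ^ i := by
        rw [Finset.sum_pair (by norm_num)]; norm_num
    _ ≤ _ := Finset.sum_le_sum_of_subset hsub

lemma alt_key (n : ℕ) (hn : 5 ≤ n) (N : ℕ) (hN : 2 * N = n.factorial) (p : ℕ) (hp : p.Prime)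
    (hodd : p ≠ 2) (h3 : N.factorization p = 3) : p ^ 3 < 2 ^ N.factorization 2 := by
  have hN0 : N ≠ 0 := by
    intro h
    rw [h] at hN
    exact n.factorial_ne_zero (by omega)
  have hfac : ∀ q, (n.factorial).factorization q = (2 : ℕ).factorization q + N.factorization q := by
    intro q
    rw [← hN, Nat.factorization_mul (by norm_num) hN0]
    rfl
  have h2 := hfac 2
  have h2' : (2 : ℕ).factorization 2 = 1 := Nat.prime_two.factorization_self
  rw [h2'] at h2
  have hp' := hfac p
  have hp0 : (2 : ℕ).factorization p = 0 := by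
    rw [Nat.prime_two.factorization]
    simp [Finsupp.single_apply, Ne.symm hodd]
  rw [hp0, h3] at hp'
  have hmul := Nat.sub_one_mul_factorization_factorial (n := n) hp
  rw [hp'] at hmul
  have hle : (p - 1) * (0 + 3) ≤ n := by rw [hmul]; omega
  have hp2 : 2 ≤ p := hp.two_le
  have hne3 : p ≠ 3 := by
    rintro rfl
    have : ¬ (9 ≤ n) := by
      intro h9
      have hlog : 2 ≤ Nat.log 3 n := by
        apply Nat.le_log_of_pow_le (by norm_num)
        omega
      have h4 := Nat.factorization_factorial (p := 3) (n := n) (b := (Nat.log 3 n).succ) Nat.prime_three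
        (Nat.lt_succ_self _)
      have hsub : ({1, 2} : Finset ℕ) ⊆ Finset.Ico 1 (Nat.log 3 n).succ := by
        intro x hx
        simp only [Finset.mem_insert, Finset.mem_singleton] at hx
        rcases hx with rfl | rfl <;> simp <;> omega
      have h5 : ∑ i ∈ ({1, 2} : Finset ℕ), n / 3 ^ i ≤ ∑ i ∈ Finset.Ico 1 (Nat.log 3 n).succ, n / 3 ^ i :=
        Finset.sum_le_sum_of_subset hsub
      rw [Finset.sum_pair (by norm_num), ← h4, hp'] at h5
      norm_num at h5
      omega
    have hn9 : n ≤ 8 := by omega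
    have hf : (n.factorial).factorization 3 = 3 := by rw [hp']
    interval_cases n <;> simp [Nat.sub_one_mul_factorization_factorial, Nat.factorial] at hmul
  have hp5 : 5 ≤ p := by
    by_contra hcon
    have hp4 : p = 4 := by omega
    rw [hp4] at hp
    exact absurd hp (by norm_num)
  have h1 := fact_two_ge n hn
  have h4 : 2 * p - 3 ≤ N.factorization 2 := by
    have : (p - 1) * 3 ≤ n := by simpa using hle
    have h6 : 3 * p - 3 ≤ n := by
      have : (p - 1) * 3 = 3 * p - 3 := by omega
      omega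
    omega
  exact lt_of_lt_of_le (pow_bound p hp5) (Nat.pow_le_pow_right (by norm_num) h4)

theorem result {G : Type*} [Group G] [Finite G] (hG : Cfsg.IsAlternating G ∨ Cfsg.IsSporadic G)
    (p : ℕ) (hp : p.Prime) (hodd : p ≠ 2) (h3 : (Nat.card G).factorization p = 3) :
    p ^ 3 < 2 ^ (Nat.card G).factorization 2 := by
  rcases hG with ⟨n, hn, ⟨e⟩⟩ | hG
  · refine alt_key n hn _ ?_ p hp hodd h3
    rw [Nat.card_congr e.toEquiv]
    have : Nontrivial (Fin n) := Fin.nontrivial_iff_two_le.2 (by omega)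
    rw [two_mul_nat_card_alternatingGroup, Nat.card_perm]
    simp
  · have hpr : ∀ {q : ℕ}, Nat.Prime q → True := fun _ => trivial
    unfold IsSporadic at hG
    rcases hG with ⟨_, h⟩ | ⟨_, h⟩ | ⟨_, h⟩ | ⟨_, h⟩ | ⟨_, h⟩ | ⟨_, h⟩ | ⟨_, h⟩ | ⟨_, h⟩ | ⟨_, h⟩ |
      ⟨_, h⟩ | ⟨_, h⟩ | ⟨_, h⟩ | ⟨_, h⟩ | ⟨_, h⟩ | ⟨_, h⟩ | ⟨_, h⟩ | ⟨_, h⟩ | ⟨_, h⟩ |
      ⟨_, h⟩ | ⟨_, h⟩ | ⟨_, h⟩ | ⟨_, h⟩ | ⟨_, h⟩ | ⟨_, h⟩ | ⟨_, h⟩ | ⟨_, h⟩
    · exact spor_key [(2,4),(3,2),(5,1),(11,1)] (by simp; norm_num) (by decide) (by decide) (h.trans (by decide)) p hodd h3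
    · exact spor_key [(2,6),(3,3),(5,1),(11,1)] (by simp; norm_num) (by decide) (by decide) (h.trans (by decide)) p hodd h3
    · exact spor_key [(2,7),(3,2),(5,1),(7,1),(11,1)] (by simp; norm_num) (by decide) (by decide) (h.trans (by decide)) p hodd h3
    · exact spor_key [(2,7),(3,2),(5,1),(7,1),(11,1),(23,1)] (by simp; norm_num) (by decide) (by decide) (h.trans (by decide)) p hodd h3
    · exact spor_key [(2,10),(3,3),(5,1),(7,1),(11,1),(23,1)] (by simp; norm_num) (by decide) (by decide) (h.trans (by decide)) p hodd h3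
    · exact spor_key [(2,3),(3,1),(5,1),(7,1),(11,1),(19,1)] (by simp; norm_num) (by decide) (by decide) (h.trans (by decide)) p hodd h3
    · exact spor_key [(2,7),(3,3),(5,2),(7,1)] (by simp; norm_num) (by decide) (by decide) (h.trans (by decide)) p hodd h3
    · exact spor_key [(2,7),(3,5),(5,1),(17,1),(19,1)] (by simp; norm_num) (by decide) (by decide) (h.trans (by decide)) p hodd h3
    · exact spor_key [(2,21),(3,3),(5,1),(7,1),(11,3),(23,1),(29,1),(31,1),(37,1),(43,1)] (by simp; norm_num) (by decide) (by decide) (h.trans (by decide)) p hodd h3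
    · exact spor_key [(2,21),(3,9),(5,4),(7,2),(11,1),(13,1),(23,1)] (by simp; norm_num) (by decide) (by decide) (h.trans (by decide)) p hodd h3
    · exact spor_key [(2,18),(3,6),(5,3),(7,1),(11,1),(23,1)] (by simp; norm_num) (by decide) (by decide) (h.trans (by decide)) p hodd h3
    · exact spor_key [(2,10),(3,7),(5,3),(7,1),(11,1),(23,1)] (by simp; norm_num) (by decide) (by decide) (h.trans (by decide)) p hodd h3
    · exact spor_key [(2,17),(3,9),(5,2),(7,1),(11,1),(13,1)] (by simp; norm_num) (by decide) (by decide) (h.trans (by decide)) p hodd h3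
    · exact spor_key [(2,18),(3,13),(5,2),(7,1),(11,1),(13,1),(17,1),(23,1)] (by simp; norm_num) (by decide) (by decide) (h.trans (by decide)) p hodd h3
    · exact spor_key [(2,21),(3,16),(5,2),(7,3),(11,1),(13,1),(17,1),(23,1),(29,1)] (by simp; norm_num) (by decide) (by decide) (h.trans (by decide)) p hodd h3
    · exact spor_key [(2,9),(3,2),(5,3),(7,1),(11,1)] (by simp; norm_num) (by decide) (by decide) (h.trans (by decide)) p hodd h3
    · exact spor_key [(2,7),(3,6),(5,3),(7,1),(11,1)] (by simp; norm_num) (by decide) (by decide) (h.trans (by decide)) p hodd h3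
    · exact spor_key [(2,10),(3,3),(5,2),(7,3),(17,1)] (by simp; norm_num) (by decide) (by decide) (h.trans (by decide)) p hodd h3
    · exact spor_key [(2,14),(3,3),(5,3),(7,1),(13,1),(29,1)] (by simp; norm_num) (by decide) (by decide) (h.trans (by decide)) p hodd h3
    · exact spor_key [(2,13),(3,7),(5,2),(7,1),(11,1),(13,1)] (by simp; norm_num) (by decide) (by decide) (h.trans (by decide)) p hodd h3
    · exact spor_key [(2,9),(3,4),(5,1),(7,3),(11,1),(19,1),(31,1)] (by simp; norm_num) (by decide) (by decide) (h.trans (by decide)) p hodd h3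
    · exact spor_key [(2,14),(3,6),(5,6),(7,1),(11,1),(19,1)] (by simp; norm_num) (by decide) (by decide) (h.trans (by decide)) p hodd h3
    · exact spor_key [(2,8),(3,7),(5,6),(7,1),(11,1),(31,1),(37,1),(67,1)] (by simp; norm_num) (by decide) (by decide) (h.trans (by decide)) p hodd h3
    · exact spor_key [(2,15),(3,10),(5,3),(7,2),(13,1),(19,1),(31,1)] (by simp; norm_num) (by decide) (by decide) (h.trans (by decide)) p hodd h3
    · exact spor_key [(2,41),(3,13),(5,6),(7,2),(11,1),(13,1),(17,1),(19,1),(23,1),(31,1),(47,1)] (by simp; norm_num) (by decide) (by decide) (h.trans (by decide)) p hodd h3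
    · exact spor_key [(2,46),(3,20),(5,9),(7,6),(11,2),(13,3),(17,1),(19,1),(23,1),(29,1),(31,1),(41,1),(47,1),(59,1),(71,1)] (by simp; norm_num) (by decide) (by decide) (h.trans (by decide)) p hodd h3

end Cfsg.Agent.S2367
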