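-- Proof of statement S2368 (row 2368).
import Cfsg.Statements.S2368
import Mathlib

set_option autoImplicit false
open Cfsg

namespace Cfsg.Agent.S2368

/-- A nilpotent `m × m` matrix over a field has vanishing `m`-th power. -/
lemma nil_pow_eq_zero {F : Type*} [Field F] {m : ℕ} {N : Matrix (Fin m) (Fin m) F}
    (hN : IsNilpotent N) : N ^ m = 0 := by
  have h1 := Matrix.isNilpotent_charpoly_sub_pow_of_isNilpotent hN
  have h2 : N.charpoly - Polynomial.X ^ Fintype.card (Fin m) = 0 := h1.eq_zero
  have h3 : N.charpoly = Polynomial.X ^ m := by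
    simpa [sub_eq_zero] using h2
  have h4 := Matrix.aeval_self_charpoly N
  rw [h3] at h4
  simpa using h4

/-- Powers of the nilpotent shift. -/
def shift (F : Type*) [Field F] (m : ℕ) : Matrix (Fin m) (Fin m) F :=
  Matrix.of fun i j => if j.val = i.val + 1 then 1 else 0

lemma shift_pow_apply {F : Type*} [Field F] {m : ℕ} (k : ℕ) (i j : Fin m) :
    (shift F m ^ k) i j = if j.val = i.val + k then 1 else 0 := by
  induction k generalizing i j with
  | zero =>
    simp [Matrix.one_apply, Fin.ext_iff, eq_comm]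
  | succ k ih =>
    have hs : ∀ a b : Fin m, shift F m a b = if b.val = a.val + 1 then 1 else 0 := fun _ _ => rfl
    rw [pow_succ, Matrix.mul_apply]
    simp only [ih, hs]
    by_cases h : j.val = i.val + (k + 1)
    · rw [if_pos h]
      have hlt : i.val + k < m := by have := j.isLt; omega
      rw [Finset.sum_eq_single ⟨i.val + k, hlt⟩]
      · simp [h, add_assoc]
      · intro b _ hb
        have : b.val ≠ i.val + k := fun hh => hb (Fin.ext hh)
        simp [this]
      · simp
    · rw [if_neg h]
      apply Finset.sum_eq_zero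
      intro b _
      by_cases hb : b.val = i.val + k
      · have : j.val ≠ b.val + 1 := by omega
        simp [this]
      · simp [hb]

lemma shift_pow_self {F : Type*} [Field F] {m : ℕ} : shift F m ^ m = 0 := by
  ext i j
  rw [shift_pow_apply]
  have := j.isLt
  have h : j.val ≠ i.val + m := by omega
  simp [h]

lemma shift_pow_ne {F : Type*} [Field F] {m k : ℕ} (hk : k < m) : shift F m ^ k ≠ 0 := by
  intro h
  have h1 := congrFun (congrFun h ⟨0, by omega⟩) ⟨k, hk⟩
  rw [shift_pow_apply] at h1
  simp at h1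

theorem result {F : Type*} [Field F] [Fintype F] (p : ℕ) [Fact p.Prime] [CharP F p] (m : ℕ) (hm : 1 ≤ m) :
    (∀ g : Matrix.GeneralLinearGroup (Fin m) F, (∃ j : ℕ, orderOf g = p ^ j) → orderOf g < p * m) ∧
      ∃ g : Matrix.GeneralLinearGroup (Fin m) F, (∃ j : ℕ, orderOf g = p ^ j) ∧ m ≤ orderOf g := by
  have hp : p.Prime := Fact.out
  have hp1 : 1 < p := hp.one_lt
  -- `m ≤ p ^ clog p m < p * m`
  have hle : m ≤ p ^ Nat.clog p m := Nat.le_pow_clog hp1 m
  have hlt : p ^ Nat.clog p m < p * m := by
    rcases Nat.eq_zero_or_pos (Nat.clog p m) with h0 | h0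
    · rw [h0, pow_zero]
      calc 1 < p := hp1
        _ = p * 1 := (mul_one p).symm
        _ ≤ p * m := Nat.mul_le_mul_left p hm
    · have h1 : p ^ (Nat.clog p m - 1) < m := Nat.pow_pred_clog_lt_self hp1 (by
        by_contra hcon
        have : m ≤ 1 := by omega
        have : Nat.clog p m = 0 := Nat.clog_of_right_le_one this p
        omega)
      calc p ^ Nat.clog p m = p * p ^ (Nat.clog p m - 1) := by
            rw [← pow_succ']; congr 1; omega
        _ < p * m := Nat.mul_lt_mul_of_pos_left h1 hp.pos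
  -- A general statement: `(A - 1)` nilpotent gives `A ^ (p ^ clog p m) = 1`
  have key : ∀ g : Matrix.GeneralLinearGroup (Fin m) F,
      IsNilpotent ((g : Matrix (Fin m) (Fin m) F) - 1) → g ^ (p ^ Nat.clog p m) = 1 := by
    intro g hg
    have h1 := nil_pow_eq_zero hg
    have h2 : ((g : Matrix (Fin m) (Fin m) F) - 1) ^ (p ^ Nat.clog p m) = 0 :=
      pow_eq_zero_of_le hle h1
    have : ExpChar (Matrix (Fin m) (Fin m) F) p := by
      have : CharP (Matrix (Fin m) (Fin m) F) p := by
        have : Nonempty (Fin m) := ⟨⟨0, by omega⟩⟩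
        infer_instance
      exact ExpChar.prime hp
    rw [sub_pow_expChar_pow_of_commute _ _ (Commute.one_right _), one_pow, sub_eq_zero] at h2
    apply Units.ext
    simpa using h2
  constructor
  · rintro g ⟨j, hj⟩
    have h1 : g ^ (p ^ j) = 1 := by rw [← hj]; exact pow_orderOf_eq_one g
    have hn : IsNilpotent ((g : Matrix (Fin m) (Fin m) F) - 1) := by
      refine ⟨p ^ j, ?_⟩
      have : CharP (Matrix (Fin m) (Fin m) F) p := by
        have : Nonempty (Fin m) := ⟨⟨0, by omega⟩⟩
        infer_instance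
      have : ExpChar (Matrix (Fin m) (Fin m) F) p := ExpChar.prime hp
      rw [sub_pow_expChar_pow_of_commute _ _ (Commute.one_right _), one_pow, sub_eq_zero]
      have := congrArg Units.val h1
      rwa [Units.val_pow_eq_pow_val, Units.val_one] at this
    have h2 := orderOf_dvd_of_pow_eq_one (key g hn)
    have h3 : orderOf g ≤ p ^ Nat.clog p m := Nat.le_of_dvd (pow_pos hp.pos _) h2
    omega
  · -- Jordan block
    have hnil : IsNilpotent (shift F m) := ⟨m, shift_pow_self⟩
    obtain ⟨g, hg⟩ := hnil.isUnit_one_add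
    have hg' : (g : Matrix (Fin m) (Fin m) F) - 1 = shift F m := by
      rw [show (g : Matrix (Fin m) (Fin m) F) = 1 + shift F m from hg]; simp
    have hp2 : g ^ (p ^ Nat.clog p m) = 1 := key g (by rw [hg']; exact hnil)
    have hdvd := orderOf_dvd_of_pow_eq_one hp2
    obtain ⟨j, _, hj⟩ := (Nat.dvd_prime_pow hp).1 hdvd
    refine ⟨g, ⟨j, hj⟩, ?_⟩
    by_contra hcon
    rw [not_le] at hcon
    have hpow : g ^ orderOf g = 1 := pow_orderOf_eq_one g
    have hcoe : (g : Matrix (Fin m) (Fin m) F) ^ (p ^ j) = 1 := by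
      rw [← hj]
      have := congrArg Units.val hpow
      rwa [Units.val_pow_eq_pow_val, Units.val_one] at this
    have : CharP (Matrix (Fin m) (Fin m) F) p := by
      have : Nonempty (Fin m) := ⟨⟨0, by omega⟩⟩
      infer_instance
    have : ExpChar (Matrix (Fin m) (Fin m) F) p := ExpChar.prime hp
    have hz : shift F m ^ (p ^ j) = 0 := by
      rw [← hg', sub_pow_expChar_pow_of_commute _ _ (Commute.one_right _), one_pow, hcoe, sub_self]
    exact shift_pow_ne (by rw [← hj]; exact hcon) hz

end Cfsg.Agent.S2368
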