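import Cfsg.Statements.S2369
import Cfsg.Agent.Lib.Twisted.F4O
import Cfsg.Agent.Lib.Twisted.FixEuler

set_option autoImplicit false
open Cfsg

namespace Cfsg.Agent.S2369

open Cfsg.Lie
open Cfsg.Agent.Lib.Twisted.Tw Cfsg.Agent.Lib.Twisted.Struct Cfsg.Agent.Lib.Twisted.FixEuler
open Cfsg.Agent.Lib.F24.Main Cfsg.Agent.Lib.F24.TD Cfsg.Agent.Lib.F24.Tw Cfsg.Agent.Lib.Twisted.F4O

lemma odd_add (q n : ℕ) (hq : 2 ∣ q) (hn : n ≠ 0) : ¬ 2 ∣ q ^ n + 1 := by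
  have h : 2 ∣ q ^ n := hq.trans (dvd_pow_self q hn)
  intro h2
  have := (Nat.dvd_add_right h).mp h2
  omega

lemma odd_sub (q n : ℕ) (hq : 2 ∣ q) (hq0 : 0 < q) (hn : n ≠ 0) : ¬ 2 ∣ q ^ n - 1 := by
  have h : 2 ∣ q ^ n := hq.trans (dvd_pow_self q hn)
  have h1 : 0 < q ^ n := pow_pos hq0 n
  omega

/-- Let q = 2^(2m+1) with m ≥ 1 and let a, b be commuting elements of the large Ree group ²F₄(q) with a an involution. Then every prime divisor of the order of b divides q(q⁴ − 1). -/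
theorem result {K : Type*} [Field K] [Fintype K] (m : ℕ) (hm : 1 ≤ m) (hK : Fintype.card K = 2 ^ (2 * m + 1))
    (a b : ↥(Cfsg.Lie.twistedF4 K (2 ^ m))) (ha : orderOf a = 2) (hab : Commute a b) :
    (orderOf b).primeFactors ⊆ (2 ^ (2 * m + 1) * ((2 ^ (2 * m + 1)) ^ 4 - 1)).primeFactors := by
  intro r hr
  have hrp := (Nat.mem_primeFactors.mp hr).1
  have hrd := (Nat.mem_primeFactors.mp hr).2.1
  set q : ℕ := 2 ^ (2 * m + 1) with hq
  have hq2 : 2 ∣ q := dvd_pow_self 2 (by omega)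
  have hq8 : 8 ≤ q := by
    calc 8 = 2 ^ 3 := by norm_num
      _ ≤ q := Nat.pow_le_pow_right (by norm_num) (by omega)
  have hq0 : 0 < q := by omega
  have hq1 : 0 < q ^ 4 - 1 := by
    have : q < q ^ 4 := by
      calc q = q ^ 1 := (pow_one q).symm
        _ < q ^ 4 := Nat.pow_lt_pow_right (by omega) (by norm_num)
    omega
  refine Nat.mem_primeFactors.mpr ⟨hrp, ?_, (Nat.mul_pos hq0 hq1).ne'⟩
  by_contra hnd
  have : Fact r.Prime := ⟨hrp⟩
  have : Fact (Nat.Prime 2) := ⟨Nat.prime_two⟩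
  haveI := charP_of_card hK
  obtain ⟨φ, hφ, hφ2⟩ := exists_φ hK
  have ax : Cfsg.Agent.Lib.Chev.AxBasic.Ax chevF4 K := Cfsg.Agent.Lib.Lie.AxOf.ax_of_mem hmemF4
  let T := TF φ hφ hφ2 ax
  have hqK : Nat.card K = q := by rw [Nat.card_eq_fintype_card, hK]
  have hbo : orderOf b ≠ 0 := (Nat.mem_primeFactors.mp hr).2.2
  -- the element of order r
  let c := b ^ (orderOf b / r)
  have hco : orderOf c = r := orderOf_pow_orderOf_div hbo hrd
  have hac : Commute a c := hab.pow_right _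
  -- the orders
  have hU : Nat.card ↥(chevF4.posUnipotent K ⊓ twistedF4 K (2 ^ m)) = q ^ 12 := card_U_main hK
  have hH : Nat.card ↥(chevF4.diagonalSubgroup K ⊓ twistedF4 K (2 ^ m)) = (q - 1) ^ 2 := Cfsg.Agent.Lib.F24.H1.card_H1_main hK
  have hB : Nat.card ↥(chevF4.borelSubgroup K ⊓ twistedF4 K (2 ^ m)) = q ^ 12 * (q - 1) ^ 2 := by
    rw [T.card_B1 hF2, hU, hH]
  have hG : Nat.card ↥(twistedF4 K (2 ^ m)) = q ^ 12 * (q - 1) * (q ^ 3 + 1) * (q ^ 4 - 1) * (q ^ 6 + 1) := card_F4 hK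
  -- Sylow
  let U1 : Subgroup ↥(twistedF4 K (2 ^ m)) := (chevF4.posUnipotent K ⊓ twistedF4 K (2 ^ m)).subgroupOf _
  have hU1 : Nat.card U1 = q ^ 12 := by
    rw [← hU]
    exact Nat.card_congr (Subgroup.subgroupOfEquivOfLe inf_le_right).toEquiv
  have hUp : IsPGroup 2 U1 := by
    refine IsPGroup.of_card (n := (2 * m + 1) * 12) ?_
    rw [hU1, hq, pow_mul]
  have hidx : U1.index = (q - 1) * (q ^ 3 + 1) * (q ^ 4 - 1) * (q ^ 6 + 1) := by
    have h1 := U1.card_mul_index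
    rw [hU1, hG] at h1
    have h2 : 0 < q ^ 12 := pow_pos hq0 _
    apply Nat.eq_of_mul_eq_mul_left h2
    rw [h1]
    ring
  have hnot : ¬ 2 ∣ U1.index := by
    rw [hidx]
    intro hd
    rcases Nat.prime_two.dvd_mul.mp hd with hd | hd
    · rcases Nat.prime_two.dvd_mul.mp hd with hd | hd
      · rcases Nat.prime_two.dvd_mul.mp hd with hd | hd
        · have := odd_sub q 1 hq2 hq0 one_ne_zero
          rw [pow_one] at this
          exact this hd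
        · exact odd_add q 3 hq2 (by norm_num) hd
      · exact odd_sub q 4 hq2 hq0 (by norm_num) hd
    · exact odd_add q 6 hq2 (by norm_num) hd
  let S : Sylow 2 ↥(twistedF4 K (2 ^ m)) := hUp.toSylow hnot
  have hpg : IsPGroup 2 (Subgroup.zpowers a) := by
    refine IsPGroup.of_card (n := 1) ?_
    rw [Nat.card_zpowers, ha, pow_one]
  obtain ⟨Q, hQ⟩ := hpg.exists_le_sylow
  obtain ⟨g, hg⟩ := MulAction.exists_smul_eq ↥(twistedF4 K (2 ^ m)) Q S
  have haQ : a ∈ (Q : Subgroup ↥(twistedF4 K (2 ^ m))) := hQ (Subgroup.mem_zpowers a)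
  have hm' : g * a * g⁻¹ ∈ U1 := by
    have hS : (S : Subgroup ↥(twistedF4 K (2 ^ m))) = U1 := hUp.toSylow_coe hnot
    rw [← hS, ← hg, Sylow.coe_subgroup_smul]
    exact Subgroup.smul_mem_pointwise_smul a (MulAut.conj g) _ haQ
  have hm'' := (Subgroup.mem_subgroupOf.mp hm').1
  have ha1 : (((g * a * g⁻¹ : ↥(twistedF4 K (2 ^ m))) : GL chevF4.Idx K)) ≠ 1 := by
    intro h1
    have h2 : g * a * g⁻¹ = 1 := Subtype.ext h1
    have h3 : a = 1 := by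
      have : a = g⁻¹ * (g * a * g⁻¹) * g := by group
      rw [this, h2]
      group
    rw [h3, orderOf_one] at ha
    omega
  have hcc : Commute (⟨((g * a * g⁻¹ : ↥(twistedF4 K (2 ^ m))) : GL chevF4.Idx K), (g * a * g⁻¹).2⟩ : ↥(twistedF4 K (2 ^ m))) (g * c * g⁻¹) := by
    show Commute (g * a * g⁻¹) (g * c * g⁻¹)
    have h3 : (g * a * g⁻¹) * (g * c * g⁻¹) = g * (a * c) * g⁻¹ := by group
    have h4 : (g * c * g⁻¹) * (g * a * g⁻¹) = g * (c * a) * g⁻¹ := by group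
    show (g * a * g⁻¹) * (g * c * g⁻¹) = (g * c * g⁻¹) * (g * a * g⁻¹)
    rw [h3, h4, hac.eq]
  have hco' : orderOf (g * c * g⁻¹) = r := by
    have := (MulAut.conj g).orderOf_eq c
    rw [← hco, ← this]
    rfl
  -- the arithmetic
  have hrq : ¬ r ∣ q := fun h1 => hnd (Dvd.dvd.mul_right h1 _)
  have hfac : q ^ 4 - 1 = (q - 1) * ((q + 1) * (q ^ 2 + 1)) := by
    obtain ⟨p, hp⟩ : ∃ p, q = p + 1 := ⟨q - 1, by omega⟩
    rw [hp]
    simp only [Nat.add_sub_cancel]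
    have : (p + 1) ^ 4 = p * ((p + 1 + 1) * ((p + 1) ^ 2 + 1)) + 1 := by ring
    rw [this]
    simp
  have hr1 : ¬ r ∣ q - 1 := fun h1 => hnd (Dvd.dvd.mul_left (by rw [hfac]; exact Dvd.dvd.mul_right h1 _) _)
  have hr2 : ¬ r ∣ q + 1 := fun h1 => hnd (Dvd.dvd.mul_left (by
    rw [hfac]; exact Dvd.dvd.mul_left (Dvd.dvd.mul_right h1 _) _) _)
  have hr3 : ¬ r ∣ q ^ 2 + 1 := fun h1 => hnd (Dvd.dvd.mul_left (by
    rw [hfac]; exact Dvd.dvd.mul_left (Dvd.dvd.mul_left h1 _) _) _)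
  refine no_commuting_tw T hF2 (0 : Fin 2) (1 : Fin 2) ?_ hm'' (g * a * g⁻¹).2 ha1 hcc hco' ?_ ?_ ?_
  · intro j
    exact (by decide : ∀ j : Fin 2, j = 0 ∨ j = 1) j
  · rw [hB]
    intro hd
    rcases hrp.dvd_mul.mp hd with hd | hd
    · exact hrq (hrp.dvd_of_dvd_pow hd)
    · exact hr1 (hrp.dvd_of_dvd_pow hd)
  · show ¬ r ∣ Nat.card (TD.fixCl (twF φ ax) (Psi chevF4 (· ∈ Cf.cls 0))) + 1
    rw [card0 φ hφ hφ2 ax, hqK]
    exact hr2
  · show ¬ r ∣ Nat.card (TD.fixCl (twF φ ax) (Psi chevF4 (· ∈ Cf.cls 1))) + 1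
    rw [card1 φ hφ hφ2 ax, hqK]
    exact hr3

end Cfsg.Agent.S2369
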