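import Cfsg.Statements.S2389
import Cfsg.Agent.Lib.SemiSimple.Basic
import Cfsg.Agent.S2589

set_option autoImplicit false
open Cfsg

namespace Cfsg.Agent.S2389

/-- In the symplectic group `Sp_{2n}(q)`, `q` a power of the prime `p`, two elements of order prime to `p` with the same characteristic polynomial are conjugate in `Sp_{2n}(q)`. -/
theorem result {F : Type*} [Field F] [Fintype F] (p : ℕ) [Fact p.Prime] [CharP F p] (n : ℕ)
    (g h : ↥(Matrix.symplecticGroup (Fin n) F)) (hg : (orderOf g).Coprime p) (hh : (orderOf h).Coprime p)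
    (hc : (g : Matrix (Fin n ⊕ Fin n) (Fin n ⊕ Fin n) F).charpoly = (h : Matrix (Fin n ⊕ Fin n) (Fin n ⊕ Fin n) F).charpoly) :
    IsConj g h := by
  classical
  have hss : ∀ k : ↥(Matrix.symplecticGroup (Fin n) F), (orderOf k).Coprime p →
      Cfsg.Agent.Lib.SemiSimple.Basic.IsSS (Matrix.toLin' (k : Matrix (Fin n ⊕ Fin n) (Fin n ⊕ Fin n) F)) := by
    intro k hk
    set m := orderOf k with hm
    haveI : Finite ↥(Matrix.symplecticGroup (Fin n) F) := by
      apply Finite.of_injective (fun g : ↥(Matrix.symplecticGroup (Fin n) F) => (g : Matrix (Fin n ⊕ Fin n) (Fin n ⊕ Fin n) F))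
      exact Subtype.val_injective
    have hm0 : 0 < m := orderOf_pos k
    have hcast : (m : F) ≠ 0 := by
      intro h
      have h1 := (CharP.cast_eq_zero_iff F p m).1 h
      have h2 : p ∣ Nat.gcd m p := Nat.dvd_gcd h1 dvd_rfl
      rw [hk] at h2
      exact (Fact.out : p.Prime).one_lt.ne' (Nat.dvd_one.1 h2)
    refine ⟨Polynomial.X ^ m - 1, ?_, ?_⟩
    · have hsep : (Polynomial.X ^ m - Polynomial.C (1 : F)).Separable :=
        Polynomial.separable_X_pow_sub_C 1 hcast one_ne_zero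
      rw [Polynomial.C_1] at hsep
      exact hsep.squarefree
    · have h1 : k ^ m = 1 := pow_orderOf_eq_one k
      have h2 : (k : Matrix (Fin n ⊕ Fin n) (Fin n ⊕ Fin n) F) ^ m = 1 := by
        have := congrArg (fun x : ↥(Matrix.symplecticGroup (Fin n) F) => (x : Matrix (Fin n ⊕ Fin n) (Fin n ⊕ Fin n) F)) h1
        simpa using this
      have h3 : (Matrix.toLin' (k : Matrix (Fin n ⊕ Fin n) (Fin n ⊕ Fin n) F)) ^ m = 1 := by
        have h4 := map_pow (Matrix.toLinAlgEquiv' (R := F) (n := Fin n ⊕ Fin n)) (k : Matrix (Fin n ⊕ Fin n) (Fin n ⊕ Fin n) F) m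
        rw [h2, map_one] at h4
        exact h4.symm
      simp only [map_sub, map_pow, Polynomial.aeval_X, map_one]
      rw [h3, sub_self]
  have hch : ∀ A : Matrix (Fin n ⊕ Fin n) (Fin n ⊕ Fin n) F, (Matrix.toLin' A).charpoly = A.charpoly := by
    intro A
    rw [← LinearMap.charpoly_toMatrix (Matrix.toLin' A) (Pi.basisFun F (Fin n ⊕ Fin n))]
    congr 1
    rw [LinearMap.toMatrix_eq_toMatrix', LinearMap.toMatrix'_toLin']
  obtain ⟨Φ, hΦ⟩ := Cfsg.Agent.Lib.SemiSimple.Basic.exists_equiv _ _ _ (Matrix.toLin' (g : Matrix (Fin n ⊕ Fin n) (Fin n ⊕ Fin n) F))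
    (Matrix.toLin' (h : Matrix (Fin n ⊕ Fin n) (Fin n ⊕ Fin n) F)) (hss g hg) (hss h hh) (by rw [hch, hch, hc]) rfl
  apply (Cfsg.Agent.S2589.result g h hg).mpr
  let P := LinearMap.toMatrix' (Φ : (Fin n ⊕ Fin n → F) →ₗ[F] (Fin n ⊕ Fin n → F))
  let P' := LinearMap.toMatrix' (Φ.symm : (Fin n ⊕ Fin n → F) →ₗ[F] (Fin n ⊕ Fin n → F))
  have hPP' : P * P' = 1 := by
    simp only [P, P']
    rw [← LinearMap.toMatrix'_comp]
    simp
  have hP'P : P' * P = 1 := by
    simp only [P, P']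
    rw [← LinearMap.toMatrix'_comp]
    simp
  let U : (Matrix (Fin n ⊕ Fin n) (Fin n ⊕ Fin n) F)ˣ := ⟨P, P', hPP', hP'P⟩
  refine ⟨U, ?_⟩
  show P * (g : Matrix (Fin n ⊕ Fin n) (Fin n ⊕ Fin n) F) = (h : Matrix (Fin n ⊕ Fin n) (Fin n ⊕ Fin n) F) * P
  apply Matrix.ext_iff_mulVec.2
  intro x
  rw [← Matrix.mulVec_mulVec, ← Matrix.mulVec_mulVec]
  simp only [P, LinearMap.toMatrix'_mulVec]
  exact hΦ x

end Cfsg.Agent.S2389
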