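import Cfsg.Statements.S2385
import Cfsg.Agent.Lib.SpCount.Recip
import Cfsg.Agent.S2389
-- import your own Cfsg.Agent.* helpers here

set_option autoImplicit false
open Cfsg

namespace Cfsg.Agent.S2385

/-- In the symplectic group `Sp_{2n}(q)`, `q` a power of the prime `p`, the number of conjugacy classes of elements of order prime to `p` is `q^n`. -/
theorem result {F : Type*} [Field F] [Fintype F] {q : ℕ} (hq : Fintype.card F = q) (p : ℕ) [Fact p.Prime] [CharP F p] (n : ℕ) :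
    Nat.card {c : ConjClasses ↥(Matrix.symplecticGroup (Fin n) F) //
      ∃ g : ↥(Matrix.symplecticGroup (Fin n) F), ConjClasses.mk g = c ∧ (orderOf g).Coprime p} = q ^ n := by
  
  classical
  rw [← Cfsg.Agent.Lib.SpCount.Recip.card_recip (F := F) (n := n) hq]
  apply Cfsg.Agent.Lib.SemiSimple.Mat.card_classes
    (fun g : ↥(Matrix.symplecticGroup (Fin n) F) => (orderOf g).Coprime p)
    (fun g => (g : Matrix (Fin n ⊕ Fin n) (Fin n ⊕ Fin n) F).charpoly)
  · intro g h H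
    obtain ⟨c, rfl⟩ := isConj_iff.1 H
    let u : (Matrix (Fin n ⊕ Fin n) (Fin n ⊕ Fin n) F)ˣ :=
      ⟨c.1, (c⁻¹).1, congrArg Subtype.val (mul_inv_cancel c), congrArg Subtype.val (inv_mul_cancel c)⟩
    have h1 : ((c * g * c⁻¹ : ↥(Matrix.symplecticGroup (Fin n) F)) : Matrix (Fin n ⊕ Fin n) (Fin n ⊕ Fin n) F) =
        (u : Matrix (Fin n ⊕ Fin n) (Fin n ⊕ Fin n) F) * g.1 * (u : Matrix (Fin n ⊕ Fin n) (Fin n ⊕ Fin n) F)⁻¹ := by
      rw [← Matrix.coe_units_inv]
      rfl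
    show (g : Matrix (Fin n ⊕ Fin n) (Fin n ⊕ Fin n) F).charpoly =
      ((c * g * c⁻¹ : ↥(Matrix.symplecticGroup (Fin n) F)) : Matrix (Fin n ⊕ Fin n) (Fin n ⊕ Fin n) F).charpoly
    rw [h1]
    exact (Matrix.charpoly_units_conj u g.1).symm
  · intro g h hg hh hc
    exact Cfsg.Agent.S2389.result p n g h hg hh hc
  · intro g _
    exact Cfsg.Agent.Lib.SpCount.Recip.recipP_charpoly g
  · rintro f ⟨hf, hd, hr⟩
    obtain ⟨A, hA⟩ := Cfsg.Agent.Lib.SpCount.Recip.exists_sp_charpoly hf hd hr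
    obtain ⟨B, hB, hBc⟩ := Cfsg.Agent.Lib.SpCount.Recip.exists_regular p A
    exact ⟨B, hB, hBc.trans hA⟩

end Cfsg.Agent.S2385
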