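import Cfsg.Statements.S2386
import Cfsg.Agent.Lib.SUConj.Count
-- import your own Cfsg.Agent.* helpers here

set_option autoImplicit false
open Cfsg

namespace Cfsg.Agent.S2386

/-- In the special unitary group `SU_n(q)` (matrices of determinant one over the field with `q²` elements preserving the standard Hermitian form), `q` a power of the prime `p`, the number of conjugacy classes of elements of order prime to `p` is `q^(n-1)`. -/
theorem result {F : Type*} [Field F] [Fintype F] {q : ℕ} (hF : Fintype.card F = q ^ 2) (p : ℕ) [Fact p.Prime] [CharP F p] (n : ℕ) (hn : 1 ≤ n) :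
    Nat.card {c : ConjClasses ↥(Cfsg.SU n F q) // ∃ g : ↥(Cfsg.SU n F q), ConjClasses.mk g = c ∧ (orderOf g).Coprime p} = q ^ (n - 1) := by
  
  classical
  have hpp : p.Prime := Fact.out
  obtain ⟨m, _, hm⟩ := FiniteField.card F p
  obtain ⟨a, _, hq⟩ : ∃ a : ℕ, a ≤ (m : ℕ) ∧ q = p ^ a := by
    have h1 : q ∣ p ^ (m : ℕ) := by
      rw [← hm, hF]
      exact dvd_pow_self q two_ne_zero
    exact (Nat.dvd_prime_pow hpp).1 h1
  rw [← Cfsg.Agent.Lib.SUConj.Count.card_selfP hF n hn]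
  apply Cfsg.Agent.Lib.SemiSimple.Mat.card_classes
    (fun g : ↥(Cfsg.SU n F q) => (orderOf g).Coprime p)
    (fun g => (g.1.1 : Matrix (Fin n) (Fin n) F).charpoly)
  · intro g h H
    obtain ⟨c, rfl⟩ := isConj_iff.1 H
    let u : (Matrix (Fin n) (Fin n) F)ˣ :=
      ⟨c.1.1, (c⁻¹).1.1, congrArg (fun x : ↥(Cfsg.SU n F q) => (x.1.1 : Matrix (Fin n) (Fin n) F)) (mul_inv_cancel c),
        congrArg (fun x : ↥(Cfsg.SU n F q) => (x.1.1 : Matrix (Fin n) (Fin n) F)) (inv_mul_cancel c)⟩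
    have h1 : ((c * g * c⁻¹ : ↥(Cfsg.SU n F q)).1.1 : Matrix (Fin n) (Fin n) F) =
        (u : Matrix (Fin n) (Fin n) F) * g.1.1 * (u : Matrix (Fin n) (Fin n) F)⁻¹ := by
      rw [← Matrix.coe_units_inv]
      rfl
    show (g.1.1 : Matrix (Fin n) (Fin n) F).charpoly =
      ((c * g * c⁻¹ : ↥(Cfsg.SU n F q)).1.1 : Matrix (Fin n) (Fin n) F).charpoly
    rw [h1]
    exact (Matrix.charpoly_units_conj u g.1.1).symm
  · intro g h hg hh hc
    exact Cfsg.Agent.Lib.SUConj.Main.isConj_SU hF g h (Cfsg.Agent.Lib.SUConj.Main.isSS_of_coprime_SU p g hg)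
      (Cfsg.Agent.Lib.SUConj.Main.isSS_of_coprime_SU p h hh) hc
  · intro g _
    exact Cfsg.Agent.Lib.SUConj.Count.selfP_charpoly hF n g
  · intro f hf
    exact Cfsg.Agent.Lib.SUConj.Count.exists_su_of_selfP hF n p hq hf

end Cfsg.Agent.S2386
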