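-- Proof of statement S2391 (row 2391).
import Cfsg.Statements.S2391
import Mathlib

set_option autoImplicit false
open Cfsg

namespace Cfsg.Agent.S2391

variable {F : Type*} [Field F] {n : ℕ}

/-- The upper fixed-point series of a subgroup `U ≤ SL_n(F)` on `F^n`. -/
def chainW (U : Subgroup (Matrix.SpecialLinearGroup (Fin n) F)) : ℕ → Submodule F (Fin n → F)
  | 0 => ⊥
  | j + 1 =>
    { carrier := {v | ∀ u ∈ U, (u : Matrix (Fin n) (Fin n) F).mulVec v - v ∈ chainW U j}
      add_mem' := by
        intro a b ha hb u hu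
        have := (chainW U j).add_mem (ha u hu) (hb u hu)
        rw [Matrix.mulVec_add]
        convert this using 1
        abel
      zero_mem' := by
        intro u _
        simp
      smul_mem' := by
        intro c a ha u hu
        have := (chainW U j).smul_mem c (ha u hu)
        rw [Matrix.mulVec_smul, ← smul_sub]
        exact this }

lemma mem_chainW_succ {U : Subgroup (Matrix.SpecialLinearGroup (Fin n) F)} {j : ℕ}
    {v : Fin n → F} :
    v ∈ chainW U (j + 1) ↔ ∀ u ∈ U, (u : Matrix (Fin n) (Fin n) F).mulVec v - v ∈ chainW U j :=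
  Iff.rfl

lemma chainW_succ_le (U : Subgroup (Matrix.SpecialLinearGroup (Fin n) F)) (j : ℕ) :
    chainW U j ≤ chainW U (j + 1) := by
  induction j with
  | zero => exact bot_le
  | succ j ih =>
    intro v hv u hu
    exact ih (hv u hu)

lemma chainW_mono (U : Subgroup (Matrix.SpecialLinearGroup (Fin n) F)) :
    Monotone (chainW U) := monotone_nat_of_le_succ (chainW_succ_le U)

/-- Members of the series are invariant under the normaliser. -/
lemma chainW_normalizer (U : Subgroup (Matrix.SpecialLinearGroup (Fin n) F)) (j : ℕ) :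
    ∀ g ∈ Subgroup.normalizer (U : Set (Matrix.SpecialLinearGroup (Fin n) F)), ∀ v ∈ chainW U j,
      (g : Matrix (Fin n) (Fin n) F).mulVec v ∈ chainW U j := by
  induction j with
  | zero =>
    intro g _ v hv
    have hv0 : v = 0 := hv
    subst hv0
    simp [chainW]
  | succ j ih =>
    intro g hg v hv u hu
    have hmem : g⁻¹ * u * g ∈ U := by
      have h1 := (Subgroup.mem_normalizer_iff.1 hg) 
      have h2 := (Subgroup.mem_normalizer_iff.1 (Subgroup.inv_mem _ hg)) u
      rw [h2] at hu
      simpa using hu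
    have h3 := hv _ hmem
    have h4 := ih g hg _ h3
    have h5 : ((g⁻¹ * u * g : Matrix.SpecialLinearGroup (Fin n) F) : Matrix (Fin n) (Fin n) F)
        = (g⁻¹ : Matrix.SpecialLinearGroup (Fin n) F).1 * u.1 * g.1 := rfl
    have h6 : g.1 * (g⁻¹ : Matrix.SpecialLinearGroup (Fin n) F).1 = 1 := by
      have : ((g * g⁻¹ : Matrix.SpecialLinearGroup (Fin n) F) : Matrix (Fin n) (Fin n) F) = 1 := by
        rw [mul_inv_cancel]; rfl
      exact this
    have h7 : (g : Matrix (Fin n) (Fin n) F).mulVec
        (((g⁻¹ * u * g : Matrix.SpecialLinearGroup (Fin n) F) : Matrix (Fin n) (Fin n) F).mulVec v - v)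
        = (u : Matrix (Fin n) (Fin n) F).mulVec ((g : Matrix (Fin n) (Fin n) F).mulVec v)
          - (g : Matrix (Fin n) (Fin n) F).mulVec v := by
      rw [Matrix.mulVec_sub, h5, Matrix.mulVec_mulVec, ← mul_assoc, ← mul_assoc, h6, one_mul,
        Matrix.mulVec_mulVec]
    rw [← h7]
    exact h4

lemma chainW_map (U : Subgroup (Matrix.SpecialLinearGroup (Fin n) F)) (j : ℕ)
    (g : Matrix.SpecialLinearGroup (Fin n) F)
    (hg : g ∈ Subgroup.normalizer (U : Set (Matrix.SpecialLinearGroup (Fin n) F))) :
    (chainW U j).map (Matrix.mulVecLin (g : Matrix (Fin n) (Fin n) F)) = chainW U j := by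
  apply le_antisymm
  · rintro _ ⟨v, hv, rfl⟩
    exact chainW_normalizer U j g hg v hv
  · intro v hv
    refine ⟨(g⁻¹ : Matrix.SpecialLinearGroup (Fin n) F).1.mulVec v,
      chainW_normalizer U j g⁻¹ (Subgroup.inv_mem _ hg) v hv, ?_⟩
    have h6 : g.1 * (g⁻¹ : Matrix.SpecialLinearGroup (Fin n) F).1 = 1 := by
      have : ((g * g⁻¹ : Matrix.SpecialLinearGroup (Fin n) F) : Matrix (Fin n) (Fin n) F) = 1 := by
        rw [mul_inv_cancel]; rfl
      exact this
    rw [Matrix.mulVecLin_apply, Matrix.mulVec_mulVec, h6, Matrix.one_mulVec]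

/-- The key step: if a member of the series is not everything, the next member is strictly
larger. Uses the fixed point theorem for `p`-groups on the quotient. -/
lemma chainW_lt [Fintype F] (p : ℕ) [Fact p.Prime] [CharP F p]
    (U : Subgroup (Matrix.SpecialLinearGroup (Fin n) F)) (hU : IsPGroup p U) (j : ℕ)
    (hj : chainW U j ≠ ⊤) : chainW U j < chainW U (j + 1) := by
  refine lt_of_le_of_ne (chainW_succ_le U j) ?_
  intro heq
  set W := chainW U j with hW
  -- invariance of W under U
  have hinv : ∀ u ∈ U, ∀ v ∈ W, (u : Matrix (Fin n) (Fin n) F).mulVec v ∈ W := by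
    intro u hu v hv
    have : v ∈ chainW U (j + 1) := heq ▸ hv
    have h1 := this u hu
    have h2 := W.add_mem h1 hv
    simpa using h2
  let act : U → ((Fin n → F) ⧸ W) →ₗ[F] ((Fin n → F) ⧸ W) := fun u =>
    W.mapQ W (Matrix.mulVecLin (u.1 : Matrix (Fin n) (Fin n) F)) (by
      intro v hv
      exact hinv u.1 u.2 v hv)
  have act_mk : ∀ (u : U) (v : Fin n → F),
      act u (Submodule.Quotient.mk v) = Submodule.Quotient.mk ((u.1 : Matrix (Fin n) (Fin n) F).mulVec v) := by
    intro u v
    rfl
  let _ : MulAction U ((Fin n → F) ⧸ W) :=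
    { smul := fun u x => act u x
      one_smul := by
        intro x
        induction x using Submodule.Quotient.induction_on with
        | H v =>
          change act 1 _ = _
          rw [act_mk]
          simp
      mul_smul := by
        intro a b x
        induction x using Submodule.Quotient.induction_on with
        | H v =>
          change act (a * b) _ = act a (act b _)
          rw [act_mk, act_mk, act_mk]
          simp [Matrix.mulVec_mulVec] }
  have hcard : p ∣ Nat.card ((Fin n → F) ⧸ W) := by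
    have h1 : Nat.card ((Fin n → F) ⧸ W) = Nat.card F ^ Module.finrank F ((Fin n → F) ⧸ W) :=
      Module.natCard_eq_pow_finrank
    have hnt : Nontrivial ((Fin n → F) ⧸ W) := Submodule.Quotient.nontrivial_iff.2 hj
    have h2 : 0 < Module.finrank F ((Fin n → F) ⧸ W) := Module.finrank_pos
    have h3 : p ∣ Nat.card F := by
      rw [Nat.card_eq_fintype_card]
      exact (CharP.cast_eq_zero_iff F p _).1 (Nat.cast_card_eq_zero F)
    rw [h1]
    exact dvd_pow h3 h2.ne'
  have hfin : Finite ((Fin n → F) ⧸ W) := inferInstance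
  have h0 : (0 : (Fin n → F) ⧸ W) ∈ MulAction.fixedPoints U ((Fin n → F) ⧸ W) := by
    intro u
    change act u 0 = 0
    simp
  obtain ⟨b, hb, hne⟩ := hU.exists_fixed_point_of_prime_dvd_card_of_fixed_point
    ((Fin n → F) ⧸ W) hcard h0
  induction b using Submodule.Quotient.induction_on with
  | H v =>
    have hv : v ∈ chainW U (j + 1) := by
      intro u hu
      have h1 : act ⟨u, hu⟩ (Submodule.Quotient.mk v) = Submodule.Quotient.mk v := hb ⟨u, hu⟩
      rw [act_mk] at h1
      exact (Submodule.Quotient.eq W).1 h1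
    rw [← heq] at hv
    apply hne
    exact ((Submodule.Quotient.mk_eq_zero W).2 hv).symm

theorem result {F : Type*} [Field F] [Fintype F] (p : ℕ) [Fact p.Prime] [CharP F p] (n : ℕ)
    (U : Subgroup (Matrix.SpecialLinearGroup (Fin n) F)) (hU : IsPGroup p ↥U) (hne : U ≠ ⊥) :
    ∃ (k : ℕ) (V : Fin (k + 2) → Submodule F (Fin n → F)), 1 ≤ k ∧ StrictMono V ∧ V 0 = ⊥ ∧ V (Fin.last (k + 1)) = ⊤ ∧
      (∀ g ∈ Subgroup.normalizer (U : Set (Matrix.SpecialLinearGroup (Fin n) F)), ∀ i, (V i).map (Matrix.mulVecLin (g : Matrix (Fin n) (Fin n) F)) = V i) ∧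
      (∀ u ∈ U, ∀ i : Fin (k + 1), ∀ v ∈ V i.succ, (u : Matrix (Fin n) (Fin n) F).mulVec v - v ∈ V (Fin.castSucc i)) := by
  -- some member of the series is everything
  have htop : ∃ j, chainW U j = ⊤ := by
    obtain ⟨j, hj⟩ := monotone_stabilizes_iff_noetherian.2 (inferInstance :
      IsNoetherian F (Fin n → F)) ⟨chainW U, chainW_mono U⟩
    refine ⟨j, ?_⟩
    by_contra hcon
    have h1 := chainW_lt p U hU j hcon
    have h2 := hj (j + 1) (Nat.le_succ j)
    exact absurd h2 (ne_of_lt h1)
  classical
  -- the first step is proper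
  have h1 : chainW U 1 ≠ ⊤ := by
    intro h
    apply hne
    rw [Subgroup.eq_bot_iff_forall]
    intro u hu
    have h2 : ∀ v : Fin n → F, (u : Matrix (Fin n) (Fin n) F).mulVec v = v := by
      intro v
      have : v ∈ chainW U 1 := h ▸ Submodule.mem_top
      have h3 := this u hu
      have h4 : (u : Matrix (Fin n) (Fin n) F).mulVec v - v = 0 := h3
      exact sub_eq_zero.1 h4
    apply Subtype.ext
    apply Matrix.toLin'.injective
    ext v
    simp [Matrix.toLin'_apply, h2]
  -- the length
  let l := Nat.find htop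
  have hl : chainW U l = ⊤ := Nat.find_spec htop
  have hlmin : ∀ j < l, chainW U j ≠ ⊤ := fun j hj => Nat.find_min htop hj
  have hl2 : 2 ≤ l := by
    by_contra hcon
    have hle : l ≤ 1 := by omega
    have := chainW_mono U hle
    rw [hl] at this
    exact h1 (top_le_iff.1 this)
  obtain ⟨k, hk⟩ : ∃ k, l = k + 1 := ⟨l - 1, by omega⟩
  refine ⟨k, fun i => chainW U i.val, by omega, ?_, rfl, ?_, ?_, ?_⟩
  · apply Fin.strictMono_iff_lt_succ.2
    intro i
    simp only [Fin.val_castSucc, Fin.val_succ]
    exact chainW_lt p U hU i.val (hlmin _ (by have := i.isLt; omega))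
  · simp [← hk, hl]
  · intro g hg i
    exact chainW_map U i.val g hg
  · intro u hu i v hv
    exact hv u hu

end Cfsg.Agent.S2391
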