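import Cfsg.Statements.S2394
import Cfsg.Agent.Lib.Zsig.Basic
import Cfsg.Agent.Lib.Classical.SympCount
import Cfsg.Agent.Lib.SylowLarge.Val
-- import your own Cfsg.Agent.* helpers here

set_option autoImplicit false
open scoped MatrixGroups
open Cfsg

namespace Cfsg.Agent.S2394

/-- The smallest degree of a faithful representation of the symplectic group `Sp_{2n}(q)` over its own field `F_q` is `2n`: every injective homomorphism from `Sp_{2n}(F)` to `GL_d(F)`, `F` the field with `q` elements, has `d ≥ 2n`. -/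
theorem result {F : Type*} [Field F] [Fintype F] (n : ℕ) {d : ℕ}
    (ρ : ↥(Matrix.symplecticGroup (Fin n) F) →* GL (Fin d) F) (hρ : Function.Injective ρ) : 2 * n ≤ d := by
  classical
  by_contra hlt
  push Not at hlt
  set q := Fintype.card F with hq
  have hq2 : 2 ≤ q := Fintype.one_lt_card
  have hdvd : Nat.card (Matrix.symplecticGroup (Fin n) F) ∣ Nat.card (GL (Fin d) F) :=
    Subgroup.card_dvd_of_injective ρ hρ
  rw [Cfsg.Agent.Lib.Classical.SympCount.card_symplecticGroup (q := q) (by simp [hq]) n,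
    Matrix.card_GL_field, Cfsg.Agent.Lib.SylowLarge.Val.prod_gl q (by omega) d] at hdvd
  have hn : 0 < n := by omega
  by_cases hex : q = 2 ∧ n = 3
  · obtain ⟨h2, h3⟩ := hex
    rw [h2, h3] at hdvd
    have hd : d < 6 := by omega
    interval_cases d <;> simp [Finset.prod_range_succ, Nat.choose] at hdvd <;> omega
  by_cases h1 : n = 1
  · subst h1
    have hd : d < 2 := by omega
    have hq3 : 0 < q ^ 1 ^ 2 * ∏ i ∈ Finset.range 1, (q ^ (2 * (i + 1)) - 1) := by
      simp only [Finset.prod_range_one, Nat.one_pow, pow_one]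
      have : 1 < q ^ (2 * (0 + 1)) := Nat.one_lt_pow (by norm_num) (by omega)
      exact Nat.mul_pos (by omega) (by omega)
    have hle : q ^ 1 ^ 2 * ∏ i ∈ Finset.range 1, (q ^ (2 * (i + 1)) - 1) ≤ q ^ (d.choose 2) * ∏ j ∈ Finset.range d, (q ^ (j + 1) - 1) := by
      apply Nat.le_of_dvd _ hdvd
      interval_cases d
      · simp
      · simp
        omega
    interval_cases d
    · simp at hle
      have h4 : q ^ 2 - 1 ≥ 1 := by
        have : 1 < q ^ 2 := Nat.one_lt_pow (by norm_num) (by omega)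
        omega
      nlinarith
    · simp at hle
      have h5 : q ≤ q ^ 2 - 1 := by
        have : q * q = q ^ 2 := by ring
        have : 2 * q ≤ q * q := Nat.mul_le_mul_right q hq2
        omega
      have h6 : q * q ≤ q * (q ^ 2 - 1) := Nat.mul_le_mul_left q h5
      have h7 : 2 * q ≤ q * q := Nat.mul_le_mul_right q hq2
      omega
  obtain ⟨r, hr, hrd, hprim⟩ := Cfsg.Agent.Lib.Zsig.Basic.zsigmondy q (2 * n) (by omega) (by omega)
    (by omega) (by omega)
  have hr1 : r ∣ q ^ (n ^ 2) * ∏ i ∈ Finset.range n, (q ^ (2 * (i + 1)) - 1) := by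
    apply Dvd.dvd.mul_left
    apply hrd.trans
    have h0 := Finset.dvd_prod_of_mem (fun i => q ^ (2 * (i + 1)) - 1)
      (Finset.mem_range.2 (by omega : n - 1 < n))
    simp only [show n - 1 + 1 = n by omega] at h0
    exact h0
  have hrq : ¬ r ∣ q := by
    intro h
    have h1 : r ∣ q ^ (2 * n) := h.trans (dvd_pow_self q (by omega))
    have h2 : 1 ≤ q ^ (2 * n) := Nat.one_le_pow _ _ (by omega)
    have h3 : r ∣ q ^ (2 * n) - (q ^ (2 * n) - 1) := Nat.dvd_sub h1 hrd
    have h4 : q ^ (2 * n) - (q ^ (2 * n) - 1) = 1 := by omega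
    rw [h4] at h3
    exact hr.one_lt.ne' (Nat.dvd_one.1 h3)
  have hr2 := hr1.trans hdvd
  rcases (Nat.Prime.dvd_mul hr).1 hr2 with h | h
  · exact hrq (hr.dvd_of_dvd_pow h)
  · obtain ⟨j, hj, hjd⟩ := (Prime.dvd_finsetProd_iff hr.prime _).1 h
    have := Finset.mem_range.1 hj
    exact hprim (j + 1) (by omega) (by omega) hjd

end Cfsg.Agent.S2394
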