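import Cfsg.Statements.S2398
import Cfsg.Agent.Lib.Steinberg.Universal

set_option autoImplicit false
open Cfsg

namespace Cfsg.Agent.S2398

/-- Universality of the group Δ presented by Steinberg's generators with relators (R1), (R2), over a field with more than four elements (types G₂, B₂, D₄, F₄, E₆, E₇, E₈): for every central extension `π₁ : E → G₁` (surjective, central kernel) and every homomorphism `σ : Δ → G₁` there is exactly one homomorphism `τ : Δ → E` with `π₁ ∘ τ = σ`. In particular every central extension of Δ splits; together with the fact that Δ maps onto the Chevalley group with central kernel, this makes Δ the universal central extension of the Chevalley group. -/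
theorem result {K : Type*} [Field K] (hK5 : ∃ s : Finset K, 4 < s.card) (D : Cfsg.Lie.ChevalleyDatum) (hD : D ∈ [Cfsg.Lie.chevG2, Cfsg.Lie.chevB2, Cfsg.Lie.chevD4, Cfsg.Lie.chevF4, Cfsg.Lie.chevE6, Cfsg.Lie.chevE7, Cfsg.Lie.chevE8])
    {G₁ E : Type*} [Group G₁] [Group E] (π₁ : E →* G₁) (hπ : Function.Surjective π₁) (hc : π₁.ker ≤ Subgroup.center E)
    (σ : D.SteinbergCover K →* G₁) : ∃! τ : D.SteinbergCover K →* E, π₁.comp τ = σ := by
  classical
  have hK' : ∃ x : K, x ≠ 0 ∧ x ≠ 1 := by
    obtain ⟨S, hS⟩ := hK5
    obtain ⟨a, ha, _⟩ := Finset.one_lt_card.mp (by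
      have := Finset.le_card_sdiff ({0, 1} : Finset K) S
      have h2 : ({0, 1} : Finset K).card ≤ 2 := Finset.card_le_two
      omega : 1 < (S \ {0, 1}).card)
    simp only [Finset.mem_sdiff, Finset.mem_insert, Finset.mem_singleton, not_or] at ha
    exact ⟨a, ha.2.1, ha.2.2⟩
  exact Cfsg.Agent.Lib.Steinberg.Universal.universal hD
    (Cfsg.Agent.Lib.Steinberg.Universal.perfect_cover hD fun _ => hK')
    (Cfsg.Agent.Lib.Steinberg.Universal.splits_of_large hD hK5) hπ hc σ

end Cfsg.Agent.S2398
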