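import Cfsg.Statements.S2399
import Cfsg.Agent.Lib.Steinberg.PLift

set_option autoImplicit false
open scoped MatrixGroups
open Cfsg

namespace Cfsg.Agent.S2399

/-- Projective representations in the natural characteristic lift: for each of the types G₂, B₂, D₄, F₄, E₆, E₇, E₈ over any field `K` (for types B₂ and G₂ the field must have more than two elements — the cases where the Chevalley group is not simple are set aside), every homomorphism from the Chevalley group to `PGL_n(L) = GL_n(L)/Z`, `L` a field of the same characteristic as `K`, lifts uniquely to a homomorphism from the group Δ presented by (R1), (R2) to `GL_n(L)`, compatibly with the projection Δ → Chevalley group sending x̄_r(t) to x_r(t). -/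
theorem result {K : Type*} [Field K] (D : Cfsg.Lie.ChevalleyDatum) (hD : D ∈ [Cfsg.Lie.chevG2, Cfsg.Lie.chevB2, Cfsg.Lie.chevD4, Cfsg.Lie.chevF4, Cfsg.Lie.chevE6, Cfsg.Lie.chevE7, Cfsg.Lie.chevE8]) (hK : D ∈ [Cfsg.Lie.chevB2, Cfsg.Lie.chevG2] → ∃ x : K, x ≠ 0 ∧ x ≠ 1)
    (θ : D.SteinbergCover K →* ↥(D.group K))
    (hθ : ∀ (r : ℕ) (t : K), r < D.nroots → ((θ (D.scGen K r t) : GL D.Idx K) : Matrix D.Idx D.Idx K) = D.x K r t)
    {L : Type*} [Field L] (hL : ringChar L = ringChar K) {n : ℕ}
    (φ : ↥(D.group K) →* GL (Fin n) L ⧸ Subgroup.center (GL (Fin n) L)) :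
    ∃! ψ : D.SteinbergCover K →* GL (Fin n) L, (QuotientGroup.mk' (Subgroup.center (GL (Fin n) L))).comp ψ = φ.comp θ := by
  classical
  have hK' : D = Cfsg.Lie.chevG2 ∨ D = Cfsg.Lie.chevB2 → ∃ x : K, x ≠ 0 ∧ x ≠ 1 := by
    rintro (rfl | rfl) <;> exact hK (by simp)
  have hperf := Cfsg.Agent.Lib.Steinberg.Universal.perfect_cover hD hK'
  have hker : (QuotientGroup.mk' (Subgroup.center (GL (Fin n) L))).ker ≤ Subgroup.center (GL (Fin n) L) :=
    (QuotientGroup.ker_mk' _).le
  have hex : ∃ ψ : D.SteinbergCover K →* GL (Fin n) L, (QuotientGroup.mk' (Subgroup.center (GL (Fin n) L))).comp ψ = φ.comp θ := by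
    by_cases h0 : ringChar K = 0
    · have : CharP K 0 := h0 ▸ ringChar.charP K
      have : CharZero K := CharP.charP_to_charZero K
      have hK5 : ∃ S : Finset K, 4 < S.card := by
        obtain ⟨S, hS⟩ := Infinite.exists_subset_card_eq K 5
        exact ⟨S, by omega⟩
      obtain ⟨τ, hτ, _⟩ := Cfsg.Agent.Lib.Steinberg.Universal.universal hD hperf
        (Cfsg.Agent.Lib.Steinberg.Universal.splits_of_large hD hK5) (QuotientGroup.mk'_surjective _) hker (φ.comp θ)
      exact ⟨τ, hτ⟩
    · have hp : (ringChar K).Prime := (CharP.char_is_prime_or_zero K (ringChar K)).resolve_right h0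
      have : Fact (ringChar K).Prime := ⟨hp⟩
      have : CharP L (ringChar K) := hL ▸ ringChar.charP L
      exact Cfsg.Agent.Lib.Steinberg.PLift.exists_lift_charP hD hperf (φ.comp θ)
  obtain ⟨ψ, hψ⟩ := hex
  exact ⟨ψ, hψ, fun ψ' h => Cfsg.Agent.Lib.Steinberg.Universal.lift_unique hperf hker (h.trans hψ.symm)⟩

end Cfsg.Agent.S2399
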