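import Cfsg.Statements.S2401
import Cfsg.Agent.Lib.Classical.StSLn

set_option autoImplicit false
open Cfsg

namespace Cfsg.Agent.S2401

open Cfsg.Agent.Lib.Classical.StSLn Matrix

/-- The Steinberg presentation of `SL_n` over a finite field for `n ≥ 3`: the group generated by symbols `x_ij(t)` (`i ≠ j`, `t` in the field) subject to `x_ij(t) x_ij(u) = x_ij(t + u)` and, for `i ≠ l`, `x_ij(t) x_kl(u) x_ij(t)⁻¹ x_kl(u)⁻¹ = x_il(tu)` if `j = k` and `= 1` if `j ≠ k`, is isomorphic to `SL_n` by an isomorphism sending `x_ij(t)` to the elementary matrix `1 + t E_ij`. -/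
theorem result {K : Type*} [Field K] [Finite K] (n : ℕ) (hn : 3 ≤ n) :
    ∃ e : PresentedGroup
        ({g : FreeGroup ({ij : Fin n × Fin n // ij.1 ≠ ij.2} × K) | ∃ (a : {ij : Fin n × Fin n // ij.1 ≠ ij.2}) (t u : K),
            g = FreeGroup.of (a, t) * FreeGroup.of (a, u) * (FreeGroup.of (a, t + u))⁻¹} ∪
          {g | ∃ (a b : {ij : Fin n × Fin n // ij.1 ≠ ij.2}) (t u : K), a.1.1 ≠ b.1.2 ∧ a.1.2 ≠ b.1.1 ∧
            g = FreeGroup.of (a, t) * FreeGroup.of (b, u) * (FreeGroup.of (a, t))⁻¹ * (FreeGroup.of (b, u))⁻¹} ∪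
          {g | ∃ (a b : {ij : Fin n × Fin n // ij.1 ≠ ij.2}) (h : a.1.1 ≠ b.1.2) (t u : K), a.1.2 = b.1.1 ∧
            g = FreeGroup.of (a, t) * FreeGroup.of (b, u) * (FreeGroup.of (a, t))⁻¹ * (FreeGroup.of (b, u))⁻¹ *
              (FreeGroup.of (⟨(a.1.1, b.1.2), h⟩, t * u))⁻¹}) ≃* Matrix.SpecialLinearGroup (Fin n) K,
      ∀ (a : {ij : Fin n × Fin n // ij.1 ≠ ij.2}) (t : K), ((e (PresentedGroup.of (a, t)) : Matrix (Fin n) (Fin n) K)) = Matrix.transvection a.1.1 a.1.2 t := by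
  classical
  haveI := Fintype.ofFinite K
  have hne : Nontrivial (Fin n) := Fin.nontrivial_iff_two_le.2 (by omega)
  set rels : Set (FreeGroup ({ij : Fin n × Fin n // ij.1 ≠ ij.2} × K)) :=
    ({g : FreeGroup ({ij : Fin n × Fin n // ij.1 ≠ ij.2} × K) | ∃ (a : {ij : Fin n × Fin n // ij.1 ≠ ij.2}) (t u : K),
            g = FreeGroup.of (a, t) * FreeGroup.of (a, u) * (FreeGroup.of (a, t + u))⁻¹} ∪
          {g | ∃ (a b : {ij : Fin n × Fin n // ij.1 ≠ ij.2}) (t u : K), a.1.1 ≠ b.1.2 ∧ a.1.2 ≠ b.1.1 ∧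
            g = FreeGroup.of (a, t) * FreeGroup.of (b, u) * (FreeGroup.of (a, t))⁻¹ * (FreeGroup.of (b, u))⁻¹} ∪
          {g | ∃ (a b : {ij : Fin n × Fin n // ij.1 ≠ ij.2}) (h : a.1.1 ≠ b.1.2) (t u : K), a.1.2 = b.1.1 ∧
            g = FreeGroup.of (a, t) * FreeGroup.of (b, u) * (FreeGroup.of (a, t))⁻¹ * (FreeGroup.of (b, u))⁻¹ *
              (FreeGroup.of (⟨(a.1.1, b.1.2), h⟩, t * u))⁻¹}) with hrels
  let f : {ij : Fin n × Fin n // ij.1 ≠ ij.2} × K → SpecialLinearGroup (Fin n) K :=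
    fun p => SpecialLinearGroup.transvection p.1.2 p.2
  have hf : ∀ r ∈ rels, FreeGroup.lift f r = 1 := by
    rintro r ((⟨a, t, u, rfl⟩ | ⟨a, b, t, u, h1, h2, rfl⟩) | ⟨a, b, h, t, u, h1, rfl⟩)
    · simp only [map_mul, map_inv, FreeGroup.lift_apply_of, f]
      rw [mul_inv_eq_one]
      apply Subtype.ext
      exact (Matrix.transvection_mul_transvection_same a.1.1 a.1.2 a.2 t u)
    · simp only [map_mul, map_inv, FreeGroup.lift_apply_of, f]
      have hc : SpecialLinearGroup.transvection a.2 t * SpecialLinearGroup.transvection b.2 u =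
          SpecialLinearGroup.transvection b.2 u * SpecialLinearGroup.transvection a.2 t := by
        apply Subtype.ext
        change Matrix.transvection a.1.1 a.1.2 t * Matrix.transvection b.1.1 b.1.2 u =
          Matrix.transvection b.1.1 b.1.2 u * Matrix.transvection a.1.1 a.1.2 t
        simp only [Matrix.transvection, mul_add, add_mul, mul_one, one_mul,
          Matrix.single_mul_single_of_ne _ _ _ _ h2, Matrix.single_mul_single_of_ne _ _ _ _ h1.symm,
          add_zero]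
        abel
      rw [hc]
      group
    · simp only [map_mul, map_inv, FreeGroup.lift_apply_of, f]
      obtain ⟨⟨i, k⟩, hik⟩ := a
      obtain ⟨⟨k', j⟩, hkj⟩ := b
      simp only at h1 h
      subst h1
      have h2 := Cfsg.Agent.Lib.Classical.Transvections.commutator_transvection hik hkj h t u
      rw [commutatorElement_def] at h2
      rw [h2, mul_inv_cancel]
  let φ : PresentedGroup rels →* SpecialLinearGroup (Fin n) K := PresentedGroup.toGroup hf
  let x : Fin n → Fin n → K → PresentedGroup rels := fun i j t =>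
    if h : i ≠ j then PresentedGroup.of (⟨(i, j), h⟩, t) else 1
  have hx : ∀ i j (h : i ≠ j) t, x i j t = PresentedGroup.of (⟨(i, j), h⟩, t) := fun i j h t => dif_pos h
  have hR : Rel x := by
    refine ⟨?_, ?_, ?_⟩
    · intro i j hij t u
      rw [hx i j hij, hx i j hij, hx i j hij]
      have h1 : (FreeGroup.of ((⟨(i, j), hij⟩ : {ij : Fin n × Fin n // ij.1 ≠ ij.2}), t) *
          FreeGroup.of ((⟨(i, j), hij⟩ : {ij : Fin n × Fin n // ij.1 ≠ ij.2}), u) *
          (FreeGroup.of ((⟨(i, j), hij⟩ : {ij : Fin n × Fin n // ij.1 ≠ ij.2}), t + u))⁻¹) ∈ rels :=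
        Or.inl (Or.inl ⟨_, t, u, rfl⟩)
      have h2 := PresentedGroup.one_of_mem h1
      rw [map_mul, map_mul, map_inv, mul_inv_eq_one] at h2
      exact h2.symm
    · intro i j k l hij hkl hjk hil t u
      rw [hx i j hij, hx k l hkl]
      have h1 : (FreeGroup.of ((⟨(i, j), hij⟩ : {ij : Fin n × Fin n // ij.1 ≠ ij.2}), t) *
          FreeGroup.of ((⟨(k, l), hkl⟩ : {ij : Fin n × Fin n // ij.1 ≠ ij.2}), u) *
          (FreeGroup.of ((⟨(i, j), hij⟩ : {ij : Fin n × Fin n // ij.1 ≠ ij.2}), t))⁻¹ *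
          (FreeGroup.of ((⟨(k, l), hkl⟩ : {ij : Fin n × Fin n // ij.1 ≠ ij.2}), u))⁻¹) ∈ rels :=
        Or.inl (Or.inr ⟨_, _, t, u, hil, hjk, rfl⟩)
      have h2 := PresentedGroup.one_of_mem h1
      rw [map_mul, map_mul, map_mul, map_inv, map_inv, mul_inv_eq_one, mul_inv_eq_iff_eq_mul] at h2
      exact h2
    · intro i j l hij hjl hil t u
      rw [hx i j hij, hx j l hjl, hx i l hil]
      have h1 : (FreeGroup.of ((⟨(i, j), hij⟩ : {ij : Fin n × Fin n // ij.1 ≠ ij.2}), t) *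
          FreeGroup.of ((⟨(j, l), hjl⟩ : {ij : Fin n × Fin n // ij.1 ≠ ij.2}), u) *
          (FreeGroup.of ((⟨(i, j), hij⟩ : {ij : Fin n × Fin n // ij.1 ≠ ij.2}), t))⁻¹ *
          (FreeGroup.of ((⟨(j, l), hjl⟩ : {ij : Fin n × Fin n // ij.1 ≠ ij.2}), u))⁻¹ *
          (FreeGroup.of ((⟨(i, l), hil⟩ : {ij : Fin n × Fin n // ij.1 ≠ ij.2}), t * u))⁻¹) ∈ rels :=
        Or.inr ⟨_, _, hil, t, u, rfl, rfl⟩
      have h2 := PresentedGroup.one_of_mem h1
      rw [map_mul, map_mul, map_mul, map_mul, map_inv, map_inv, map_inv, mul_inv_eq_one] at h2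
      exact h2
  have hφof : ∀ p, φ (PresentedGroup.of p) = SpecialLinearGroup.transvection p.1.2 p.2 := by
    intro p
    change PresentedGroup.toGroup hf (PresentedGroup.of p) = _
    rw [PresentedGroup.toGroup.of]
  have hφ : ∀ i j (h : i ≠ j) t, (φ (x i j t) : Matrix (Fin n) (Fin n) K) = Matrix.transvection i j t := by
    intro i j h t
    rw [hx i j h, hφof]
    rfl
  have h3 : ∀ a l : Fin n, ∃ k, k ≠ a ∧ k ≠ l := by
    intro a l
    obtain ⟨k, hk1, hk2⟩ := Cfsg.Agent.Lib.Classical.Transvections.exists_third_index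
      (ι := Fin n) (by simpa using hn) a l
    exact ⟨k, hk1.symm, hk2⟩
  have htop : ∀ g : PresentedGroup rels, g ∈ Xc x (pG Finset.univ) := by
    intro g
    have h1 : g ∈ Subgroup.closure (Set.range (PresentedGroup.of : _ → PresentedGroup rels)) := by
      rw [PresentedGroup.closure_range_of]
      trivial
    have h2 : Subgroup.closure (Set.range (PresentedGroup.of : _ → PresentedGroup rels)) ≤
        Xc x (pG Finset.univ) := by
      rw [Subgroup.closure_le]
      rintro _ ⟨⟨⟨⟨i, j⟩, hij⟩, t⟩, rfl⟩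
      have h4 : x i j t ∈ Xc x (pG Finset.univ) := x_mem hij ⟨Finset.mem_univ _, Finset.mem_univ _⟩ t
      rwa [hx i j hij] at h4
    exact h2 h1
  have hinj : Function.Injective φ := by
    rw [injective_iff_map_eq_one]
    intro g hg
    exact inj_all φ hR hφ h3 Finset.univ g (htop g) hg
  have hsurj : Function.Surjective φ := by
    intro M
    refine Cfsg.Agent.Lib.Classical.Transvections.transvection_induction
      (fun A => ∃ g, φ g = A) M ?_ ?_
    · intro i j hij a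
      exact ⟨PresentedGroup.of (⟨(i, j), hij⟩, a), hφof _⟩
    · rintro A B ⟨g, rfl⟩ ⟨g', rfl⟩
      exact ⟨g * g', map_mul _ _ _⟩
  refine ⟨MulEquiv.ofBijective φ ⟨hinj, hsurj⟩, ?_⟩
  intro a t
  change ((φ (PresentedGroup.of (a, t)) : SpecialLinearGroup (Fin n) K) : Matrix (Fin n) (Fin n) K) = _
  rw [hφof]
  rfl

end Cfsg.Agent.S2401
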