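import Cfsg.Statements.S2410
import Cfsg.Agent.Lib.SzIso.MaxSz5

set_option autoImplicit false
open Cfsg


namespace Cfsg.Agent.S2410

open Cfsg.Agent.Lib.Suzuki.Core Cfsg.Agent.Lib.Suzuki.Elements
  Cfsg.Agent.Lib.Suzuki.Stab Cfsg.Agent.Lib.Suzuki.Group Cfsg.Agent.Lib.Suzuki.Simple
  Cfsg.Agent.Lib.Suzuki.Sylow2 Cfsg.Agent.Lib.Suzuki.Count Cfsg.Agent.Lib.SzIso.OutSz
  Cfsg.Agent.Lib.SzIso.SubSz Cfsg.Agent.Lib.Suzuki.Cyc Cfsg.Agent.Lib.Suzuki.CN
  Cfsg.Agent.Lib.SuzukiX.Partition Cfsg.Agent.Lib.SuzukiX.Central Cfsg.Agent.Lib.SzIso.MaxSz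
  Cfsg.Agent.Lib.Suzuki.Exc

lemma not_dvd_aux {k m : ℕ} (hk : 1 ≤ k) (hkm : k < m) (hdiv : 2 * k + 1 ∣ 2 * m + 1) :
    ¬ (2 ^ (2 * m + 1) - 1 ∣ (2 ^ (2 * k + 1)) ^ 2 * ((2 ^ (2 * k + 1)) ^ 2 + 1) * (2 ^ (2 * k + 1) - 1)) := by
  intro h
  obtain ⟨d, hd⟩ := hdiv
  have hd3 : 3 ≤ d := by
    rcases Nat.even_or_odd' d with ⟨j, rfl | rfl⟩
    · have : 2 * m + 1 = 2 * ((2 * k + 1) * j) := by rw [hd]; ring
      omega
    · have : j ≠ 0 := by
        rintro rfl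
        have : 2 * m + 1 = 2 * k + 1 := by rw [hd]; ring
        omega
      omega
  set s := 2 ^ (2 * k + 1) with hs
  have hs8 : 8 ≤ s := by
    calc 8 = 2 ^ 3 := by norm_num
      _ ≤ s := Nat.pow_le_pow_right (by norm_num) (by omega)
  have hq : 2 ^ (2 * m + 1) = s ^ d := by rw [hd, pow_mul]
  have hq3 : s ^ 3 ≤ 2 ^ (2 * m + 1) := by
    rw [hq]
    exact Nat.pow_le_pow_right (by omega) hd3
  have hco : Nat.Coprime (2 ^ (2 * m + 1) - 1) (s ^ 2) := by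
    have h1 : Odd (2 ^ (2 * m + 1) - 1) := odd_q
    rw [hs, ← pow_mul]
    exact Nat.Coprime.pow_right _ (Nat.coprime_two_right.2 h1)
  rw [mul_assoc] at h
  have h2 := hco.dvd_of_dvd_mul_left h
  obtain ⟨t, ht⟩ : ∃ t, s = t + 1 := ⟨s - 1, by omega⟩
  have h3 : (s ^ 2 + 1) * (s - 1) < 2 ^ (2 * m + 1) - 1 := by
    have h4 : s ^ 3 - 1 ≤ 2 ^ (2 * m + 1) - 1 := by omega
    refine lt_of_lt_of_le ?_ h4
    rw [ht, Nat.add_sub_cancel]
    have h5 : (t + 1) ^ 3 - 1 = t ^ 3 + 3 * t ^ 2 + 3 * t := by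
      have : (t + 1) ^ 3 = t ^ 3 + 3 * t ^ 2 + 3 * t + 1 := by ring
      omega
    rw [h5]
    have ht7 : 7 ≤ t := by omega
    nlinarith
  have h6 : 0 < (s ^ 2 + 1) * (s - 1) := Nat.mul_pos (by positivity) (by omega)
  exact absurd (Nat.le_of_dvd h6 h2) (by omega)


/-- The Suzuki group over the field with `2^(2m+1)` elements, `m ≥ 1` (realised as the stabiliser in `SL₄` of the Suzuki–Tits ovoid), is generated by two of its elements. -/
theorem result {F : Type*} [Field F] [Fintype F] {m : ℕ} (hm : 1 ≤ m) (hF : Fintype.card F = 2 ^ (2 * m + 1)) :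
    ∃ a b : ↥(Cfsg.Sz F m), Subgroup.closure ({a, b} : Set ↥(Cfsg.Sz F m)) = ⊤ := by
  have hch : CharP F 2 := charP_two_of_card hF
  have hc := ctx_of_card hm hF
  obtain ⟨ζ, hζ⟩ := IsCyclic.exists_generator (α := Fˣ)
  have hordζ : orderOf ζ = 2 ^ (2 * m + 1) - 1 := by
    rw [orderOf_eq_card_of_forall_mem_zpowers hζ, card_units_eq hc]
  have horda : orderOf (hS hc ζ) = 2 ^ (2 * m + 1) - 1 := by
    rw [← hordζ]
    exact orderOf_injective (hSHom hc) (hS_injective hc) ζ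
  obtain ⟨g₁, -, hg₁, -⟩ := exists_two_classes hc hm
  have hodda : Odd (orderOf (hS hc ζ)) := by
    rw [horda]
    exact odd_q
  have hoddb : Odd (orderOf g₁) := by
    have h1 : orderOf g₁ ∣ Nat.card (Cz g₁) := Subgroup.orderOf_dvd_natCard _ (self_mem_Cz g₁)
    rcases card_Cz_mem hc hg₁ with h | h <;> rw [h] at h1
    · exact Odd.of_dvd_nat (odd_plus hm) h1
    · exact Odd.of_dvd_nat (odd_minus hm) h1
  have ha1 : hS hc ζ ≠ 1 := by
    intro h
    have h2 := orderOf_eq_one_iff.2 h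
    rw [horda] at h2
    have h3 : 2 ^ 3 ≤ 2 ^ (2 * m + 1) := Nat.pow_le_pow_right (by norm_num) (by omega)
    omega
  refine ⟨hS hc ζ, g₁, ?_⟩
  by_contra hne
  have hmema : hS hc ζ ∈ Subgroup.closure ({hS hc ζ, g₁} : Set (Sz F m)) :=
    Subgroup.subset_closure (by simp)
  have hmemb : g₁ ∈ Subgroup.closure ({hS hc ζ, g₁} : Set (Sz F m)) :=
    Subgroup.subset_closure (by simp)
  rcases concl_of_ne_top hc hne with ⟨P, hP⟩ | ⟨U, hU1, hU2, hU3⟩ | ⟨K, iK, iK2, k, hk1, hk2, hK, hdiv, S, ⟨φ⟩, hS'⟩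
  · obtain ⟨t, ht⟩ := exists_t hc P
    have h1 := hP hmemb
    have h2 : t⁻¹ * g₁ * t ∈ Subgroup.normalizer ((Usub hc : Subgroup (Sz F m)) : Set (Sz F m)) := by
      rw [Subgroup.mem_normalizer_iff]
      intro u
      have e1 : u ∈ Usub hc ↔ t * u * t⁻¹ ∈ (P : Subgroup (Sz F m)) := by
        rw [ht]
        have e : t⁻¹ * (t * u * t⁻¹) * t = u := by group
        rw [e]
      have e2 : t⁻¹ * g₁ * t * u * (t⁻¹ * g₁ * t)⁻¹ ∈ Usub hc ↔
          g₁ * (t * u * t⁻¹) * g₁⁻¹ ∈ (P : Subgroup (Sz F m)) := by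
        rw [ht]
        have e : t⁻¹ * (g₁ * (t * u * t⁻¹) * g₁⁻¹) * t = t⁻¹ * g₁ * t * u * (t⁻¹ * g₁ * t)⁻¹ := by group
        rw [e]
      rw [e2, e1]
      exact Subgroup.mem_normalizer_iff.1 h1 _
    rw [mem_normalizer_U_iff] at h2
    apply hg₁.2 (t • infO)
    have h3 := congrArg (fun z => t • z) h2
    simpa [mul_smul] using h3
  · have hoddU : Odd (Nat.card U) := by
      rcases hU2 with h | h | h <;> rw [h]
      · exact odd_q
      · exact odd_plus hm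
      · exact odd_minus hm
    have hU1' : U ≠ ⊥ := by
      rintro rfl
      rw [Subgroup.card_bot] at hU2
      have h3 := Cfsg.Agent.Lib.SuzukiX.Partition.s_lt hm
      have h4 : 0 < 2 ^ (m + 1) := by positivity
      simp only [Set.mem_insert_iff, Set.mem_singleton_iff] at hU2
      rcases hU2 with h | h | h <;> omega
    obtain ⟨⟨u₀, hu₀⟩, hu₁'⟩ := Subgroup.ne_bot_iff_exists_ne_one.1 hU1'
    have hu₁ : u₀ ≠ 1 := fun h => hu₁' (Subtype.ext h)
    have hle := odd_le_Cz hc hoddU hu₀ hu₁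
    have hord : Odd (orderOf u₀) := Odd.of_dvd_nat hoddU (Subgroup.orderOf_dvd_natCard U hu₀)
    have hG := good_of_odd hc hu₁ hord
    have hconj : ∀ t, t ∈ Subgroup.closure ({hS hc ζ, g₁} : Set (Sz F m)) → Odd (orderOf t) → t ∈ Cz u₀ := by
      intro t ht hot
      exact hG.mem_of_conj hc (self_mem_Cz u₀) hu₁ hot
        (hle ((Subgroup.mem_normalizer_iff.1 (hU3 ht) u₀).1 hu₀))
    have h1 := hconj _ hmema hodda
    have h2 := hconj _ hmemb hoddb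
    have hcomm := comm_of_isCyclic hc hG.cyc h1 h2
    have hfix : hS hc ζ • (ptO 0 0 : OO F m) = ptO 0 0 := Subtype.ext (hS_smul_zero hc ζ)
    exact hg₁.2 _ (fix_of_commute hc ha1 hfix hcomm)
  · have hch' : CharP K 2 := charP_two_of_card hK
    have hcK := ctx_of_card hk1 hK
    have h1 : orderOf (hS hc ζ) ∣ Nat.card S := Subgroup.orderOf_dvd_natCard S (hS' hmema)
    rw [horda, Nat.card_congr φ.toEquiv, card_Sz hcK] at h1
    exact not_dvd_aux hk1 hk2 hdiv h1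

end Cfsg.Agent.S2410
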