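import Cfsg.Statements.S2411
import Cfsg.Agent.Lib.PresSp.Two4

set_option autoImplicit false
open Cfsg

namespace Cfsg.Agent.S2411

/-- The projective symplectic group `PSp_{2m}(q)` with `m ≥ 2` (and `q > 2` if `m = 2`) is generated by two of its elements. -/
theorem result {F : Type*} [Field F] [Fintype F] (m : ℕ) (hm : 2 ≤ m) (hF : m = 2 → 2 < Fintype.card F) :
    ∃ a b : Cfsg.PSp m F, Subgroup.closure ({a, b} : Set (Cfsg.PSp m F)) = ⊤ := by
  classical
  obtain ⟨k, rfl⟩ : ∃ k, m = k + 1 := ⟨m - 1, by omega⟩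
  have hk : 1 ≤ k := by omega
  have hq : k = 1 → ∃ d : F, d ≠ 0 ∧ d ≠ 1 := by
    intro h
    have h2 : 2 < Fintype.card F := hF (by omega)
    by_contra hcon
    push Not at hcon
    have h4 : Fintype.card F ≤ ({0, 1} : Finset F).card := by
      rw [← Finset.card_univ]
      refine Finset.card_le_card (fun x _ => ?_)
      by_cases hx : x = 0
      · simp [hx]
      · simp [hcon x hx]
    have h3 : ({0, 1} : Finset F).card ≤ 2 := Finset.card_le_two
    omega
  obtain ⟨a, b, hab⟩ := Cfsg.Agent.Lib.PresSp.Two.two_gen_sp (F := F) hk hq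
  refine ⟨QuotientGroup.mk a, QuotientGroup.mk b, ?_⟩
  have h1 := congrArg (Subgroup.map (QuotientGroup.mk' (Subgroup.center (Matrix.symplecticGroup (Fin (k + 1)) F)))) hab
  rw [MonoidHom.map_closure, Subgroup.map_top_of_surjective _ (QuotientGroup.mk'_surjective _), Set.image_pair] at h1
  exact h1

end Cfsg.Agent.S2411
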