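import Cfsg.Statements.S2413
import Cfsg.Agent.Lib.POmegaTwo.Final
import Cfsg.Agent.S0301
import Cfsg.Agent.S2411
-- import your own Cfsg.Agent.* helpers here

set_option autoImplicit false
open Cfsg

namespace Cfsg.Agent.S2413

/-- The simple orthogonal group `PΩ_{2m+1}(q)` (commutator subgroup of the orthogonal group of `x₀² + Σ x_i y_i` modulo its centre) with `m ≥ 2` and `q` odd is generated by two of its elements. -/
theorem result {F : Type*} [Field F] [Fintype F] (hodd : Odd (Fintype.card F)) (m : ℕ) (hm : 2 ≤ m) :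
    ∃ a b : Cfsg.POmega F (Cfsg.quadFormOdd m F), Subgroup.closure ({a, b} : Set (Cfsg.POmega F (Cfsg.quadFormOdd m F))) = ⊤ := by
  have h2 : (2 : F) ≠ 0 := by
    apply Ring.two_ne_zero
    intro h
    have := FiniteField.even_card_iff_char_two.1 h
    rw [Nat.odd_iff] at hodd
    omega
  by_cases hm2 : m = 2
  · subst hm2
    obtain ⟨E⟩ := Cfsg.Agent.S0301.result hodd
    have hc : 2 < Fintype.card F := by
      have h1 := Fintype.one_lt_card (α := F)
      rw [Nat.odd_iff] at hodd
      omega
    obtain ⟨a, b, hab⟩ := Cfsg.Agent.S2411.result (F := F) 2 le_rfl (fun _ => hc)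
    refine ⟨E.symm a, E.symm b, ?_⟩
    have h3 := congrArg (Subgroup.map E.symm.toMonoidHom) hab
    rw [MonoidHom.map_closure, Set.image_pair, Subgroup.map_top_of_surjective _ E.symm.surjective] at h3
    exact h3
  · obtain ⟨n, rfl⟩ : ∃ n, m = n + 1 := ⟨m - 1, by omega⟩
    exact Cfsg.Agent.Lib.POmegaTwo.Final.odd_two_gen h2 n (by omega)

end Cfsg.Agent.S2413
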