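import Cfsg.Statements.S2416
import Cfsg.Agent.Lib.Mono.Certs
-- import your own Cfsg.Agent.* helpers here

set_option autoImplicit false
open scoped MatrixGroups
open Cfsg

namespace Cfsg.Agent.S2416

/-- A Chevalley group of type G₂, B₂, D₄, F₄, E₆, E₇ or E₈ over a finite field lies in (indeed equals) the subgroup generated by its monomial subgroup `N` and a single fundamental root subgroup `X_p`, where `p` is a short fundamental root if there are two root lengths (any fundamental root otherwise), provided the characteristic is not 2 for types B₂, F₄ and not 3 for type G₂ (and the field has more than two elements for B₂, G₂). -/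
theorem result {K : Type*} [Field K] [Finite K] (D : Cfsg.Lie.ChevalleyDatum) (hD : D ∈ [Cfsg.Lie.chevG2, Cfsg.Lie.chevB2, Cfsg.Lie.chevD4, Cfsg.Lie.chevF4, Cfsg.Lie.chevE6, Cfsg.Lie.chevE7, Cfsg.Lie.chevE8])
    (hK : D ∈ [Cfsg.Lie.chevB2, Cfsg.Lie.chevG2] → ∃ x : K, x ≠ 0 ∧ x ≠ 1)
    (h2 : D ∈ [Cfsg.Lie.chevB2, Cfsg.Lie.chevF4] → ringChar K ≠ 2) (h3 : D = Cfsg.Lie.chevG2 → ringChar K ≠ 3)
    (i : ℕ) (hi : i < D.rank) (hshort : D.isLong (D.simple i) = false) :
    D.group K ≤ D.monomialSubgroup K ⊔ D.rootSubgroup K (D.simple i) := by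
  obtain ⟨p, l, hp, hc⟩ := Cfsg.Agent.Lib.Mono.Certs.exists_cert hD hi hshort
  have ax := Cfsg.Agent.Lib.Lie.AxOf.ax_of_mem (F := K) hD
  have hT := Cfsg.Agent.Lib.Chev.Tables.tab_of_mem hD
  have hT2 := Cfsg.Agent.Lib.Chev.Tables2.tab2_of_mem hD
  refine Cfsg.Agent.Lib.Mono.Gen.of_checkAll hT hT2 ax _
    (fun j hj => Cfsg.Agent.Lib.Mono.Gen.sG_mem_sup_left hT hT2 ax _ hj) (p := p) ?_ ?_ hc
  · rcases hp with rfl | ⟨rfl, h⟩ | ⟨rfl, h⟩
    · simp
    · have h4 : ringChar K ≠ 2 := h2 (by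
        rcases h with h | h <;> simp [h])
      exact_mod_cast Ring.two_ne_zero h4
    · have h4 : ringChar K ≠ 3 := h3 h
      intro h5
      have h6 : ((3 : ℕ) : K) = 0 := by exact_mod_cast h5
      have h7 := (ringChar.spec K 3).mp h6
      have h8 : ringChar K = 1 ∨ ringChar K = 3 := (Nat.dvd_prime (by norm_num)).mp h7
      rcases h8 with h8 | h8
      · exact CharP.ringChar_ne_one h8
      · exact h4 h8
  · intro s hs t
    simp only [List.mem_singleton] at hs
    subst hs
    exact (le_sup_right : D.rootSubgroup K (D.simple s) ≤ _) (Subgroup.subset_closure ⟨t, rfl⟩)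

end Cfsg.Agent.S2416
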