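import Cfsg.Statements.S2417
import Cfsg.Agent.Lib.Mono.Certs
-- import your own Cfsg.Agent.* helpers here

set_option autoImplicit false
open scoped MatrixGroups
open Cfsg

namespace Cfsg.Agent.S2417

/-- In the characteristics with an exceptional graph symmetry — type B₂ or F₄ in characteristic 2 (field of more than two elements for B₂) and type G₂ in characteristic 3 — the Chevalley group lies in the subgroup generated by its monomial subgroup `N` and the two fundamental root subgroups `X_a`, `X_b` of a short root `a` and a long root `b` joined in the Dynkin diagram. -/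
theorem result {K : Type*} [Field K] [Finite K] (e : Cfsg.Lie.ChevalleyDatum × ℕ)
    (he : e ∈ [(Cfsg.Lie.chevB2, 2), (Cfsg.Lie.chevF4, 2), (Cfsg.Lie.chevG2, 3)]) [CharP K e.2]
    (hK : e.1 = Cfsg.Lie.chevB2 → ∃ x : K, x ≠ 0 ∧ x ≠ 1)
    (i j : ℕ) (hi : i < e.1.rank) (hj : j < e.1.rank) (hshort : e.1.isLong (e.1.simple i) = false)
    (hlong : e.1.isLong (e.1.simple j) = true) (hbond : e.1.bonds i j ≠ 0) :
    e.1.group K ≤ e.1.monomialSubgroup K ⊔ e.1.rootSubgroup K (e.1.simple i) ⊔ e.1.rootSubgroup K (e.1.simple j) := by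
  simp only [List.mem_cons, List.not_mem_nil, or_false] at he
  have hD : e.1 ∈ [Cfsg.Lie.chevG2, Cfsg.Lie.chevB2, Cfsg.Lie.chevF4] := by
    rcases he with rfl | rfl | rfl <;> simp
  have hD' : e.1 ∈ [Cfsg.Lie.chevG2, Cfsg.Lie.chevB2, Cfsg.Lie.chevD4, Cfsg.Lie.chevF4, Cfsg.Lie.chevE6, Cfsg.Lie.chevE7, Cfsg.Lie.chevE8] := by
    rcases he with rfl | rfl | rfl <;> simp
  obtain ⟨l, hc⟩ := Cfsg.Agent.Lib.Mono.Certs.exists_cert2 hD hi hj hshort hlong
  have ax := Cfsg.Agent.Lib.Lie.AxOf.ax_of_mem (F := K) hD'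
  have hT := Cfsg.Agent.Lib.Chev.Tables.tab_of_mem hD'
  have hT2 := Cfsg.Agent.Lib.Chev.Tables2.tab2_of_mem hD'
  refine Cfsg.Agent.Lib.Mono.Gen.of_checkAll hT hT2 ax _
    (fun k hk => ?_) (p := 1) (by simp) ?_ hc
  · exact (le_sup_left : _ ≤ e.1.monomialSubgroup K ⊔ e.1.rootSubgroup K (e.1.simple i) ⊔ e.1.rootSubgroup K (e.1.simple j))
      (Cfsg.Agent.Lib.Mono.Gen.sG_mem_sup_left hT hT2 ax _ hk)
  · intro s hs t
    simp only [List.mem_cons, List.not_mem_nil, or_false] at hs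
    rcases hs with rfl | rfl
    · exact (le_sup_left : _ ≤ e.1.monomialSubgroup K ⊔ e.1.rootSubgroup K (e.1.simple s) ⊔ e.1.rootSubgroup K (e.1.simple j))
        ((le_sup_right : _ ≤ e.1.monomialSubgroup K ⊔ e.1.rootSubgroup K (e.1.simple s)) (Subgroup.subset_closure ⟨t, rfl⟩))
    · exact (le_sup_right : _ ≤ e.1.monomialSubgroup K ⊔ e.1.rootSubgroup K (e.1.simple i) ⊔ e.1.rootSubgroup K (e.1.simple s))
        (Subgroup.subset_closure ⟨t, rfl⟩)

end Cfsg.Agent.S2417
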