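import Cfsg.Statements.S2420
import Cfsg.Agent.Lib.Parab.Count

set_option autoImplicit false
open scoped MatrixGroups
open Cfsg

namespace Cfsg.Agent.S2420

open Finset Cfsg.Agent.Lib.Parab.Count

section labels

variable {n : ℕ} (μ : Fin n → ℕ)

/-- Partial sums. -/
def T (m : ℕ) : ℕ := ∑ k ∈ univ.filter (fun k : Fin n => k.val < m), μ k

lemma T_zero : T μ 0 = 0 := by simp [T]

lemma T_mono {a c : ℕ} (h : a ≤ c) : T μ a ≤ T μ c := by
  apply Finset.sum_le_sum_of_subset
  intro k hk
  simp only [mem_filter, mem_univ, true_and] at hk ⊢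
  omega

lemma T_succ (a : Fin n) : T μ (a.val + 1) = T μ a.val + μ a := by
  have : univ.filter (fun k : Fin n => k.val < a.val + 1) = insert a (univ.filter (fun k : Fin n => k.val < a.val)) := by
    ext k
    simp only [mem_filter, mem_univ, true_and, mem_insert, Fin.ext_iff]
    omega
  unfold T
  rw [this, Finset.sum_insert (by simp), add_comm]

lemma T_n : T μ n = ∑ i, μ i := by
  unfold T
  congr 1
  ext k
  simp

lemma label_eq (i : Fin n) (a : Fin n) (h1 : T μ a.val ≤ i.val) (h2 : i.val < T μ (a.val + 1)) :
    compLabel μ i = a.val := by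
  unfold compLabel
  have : univ.filter (fun j : Fin n => (∑ k ∈ univ.filter (fun k : Fin n => k ≤ j), μ k) ≤ i.val) =
      univ.filter (fun j : Fin n => j.val < a.val) := by
    ext j
    simp only [mem_filter, mem_univ, true_and]
    have e : (∑ k ∈ univ.filter (fun k : Fin n => k ≤ j), μ k) = T μ (j.val + 1) := by
      unfold T
      congr 1
      ext k
      simp only [mem_filter, mem_univ, true_and, Fin.le_def]
      omega
    rw [e]
    constructor
    · intro h
      by_contra hc
      have : T μ (a.val + 1) ≤ T μ (j.val + 1) := T_mono μ (by omega)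
      omega
    · intro h
      have : T μ (j.val + 1) ≤ T μ a.val := T_mono μ (by omega)
      omega
  rw [this]
  rw [Fin.card_filter_val_lt]
  exact min_eq_right a.2.le

lemma exists_interval (hμ : ∑ i, μ i = n) (i : Fin n) :
    ∃ a : Fin n, T μ a.val ≤ i.val ∧ i.val < T μ (a.val + 1) := by
  have hex : ∃ k, i.val < T μ k := ⟨n, by rw [T_n, hμ]; exact i.2⟩
  classical
  have hk := Nat.find_spec hex
  have hmin := fun m => Nat.find_min hex (m := m)
  set k := Nat.find hex with hkdef
  have hk0 : k ≠ 0 := by
    intro h0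
    rw [h0, T_zero] at hk
    omega
  obtain ⟨r, hr⟩ : ∃ r, k = r + 1 := ⟨k - 1, by omega⟩
  have hrn : r < n := by
    by_contra hc
    have h4 : T μ k ≤ T μ n := by
      unfold T
      apply Finset.sum_le_sum_of_subset
      intro x _
      simp only [mem_filter, mem_univ, true_and]
      omega
    have h5 : T μ n = T μ (r + 1) := by
      unfold T
      congr 1
      ext x
      simp only [mem_filter, mem_univ, true_and]
      have := x.2
      omega
    have h6 : T μ (r) = T μ (r + 1) := by
      unfold T
      congr 1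
      ext x
      simp only [mem_filter, mem_univ, true_and]
      have := x.2
      omega
    have h7 := hmin r (by omega)
    rw [hr] at hk
    omega
  refine ⟨⟨r, hrn⟩, ?_, ?_⟩
  · have := hmin r (by omega)
    simpa using this
  · rw [hr] at hk
    exact hk

lemma label_lt (hμ : ∑ i, μ i = n) (i : Fin n) : compLabel μ i < n := by
  obtain ⟨a, h1, h2⟩ := exists_interval μ hμ i
  rw [label_eq μ i a h1 h2]
  exact a.2

/-- Block labelling with values in `Fin n`. -/
def lab (hμ : ∑ i, μ i = n) (i : Fin n) : Fin n := ⟨compLabel μ i, label_lt μ hμ i⟩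

lemma card_lab (hμ : ∑ i, μ i = n) (a : Fin n) : Fintype.card {i : Fin n // lab μ hμ i = a} = μ a := by
  rw [Fintype.card_subtype]
  have h1 : T μ (a.val + 1) ≤ n := by
    have h2 := T_n μ
    rw [hμ] at h2
    have h3 : T μ (a.val + 1) ≤ T μ n := T_mono μ a.2
    omega
  have : (univ.filter fun i : Fin n => lab μ hμ i = a).card = (Finset.Ico (T μ a.val) (T μ (a.val + 1))).card := by
    apply Finset.card_bij (fun i _ => i.val)
    · intro i hi
      simp only [mem_filter, mem_univ, true_and] at hi
      obtain ⟨c, h3, h4⟩ := exists_interval μ hμ i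
      have h5 : lab μ hμ i = c := Fin.ext (label_eq μ i c h3 h4)
      rw [h5] at hi
      subst hi
      simp [h3, h4]
    · intro i _ j _ h
      exact Fin.ext h
    · intro v hv
      simp only [mem_Ico] at hv
      refine ⟨⟨v, by omega⟩, ?_, rfl⟩
      simp only [mem_filter, mem_univ, true_and]
      exact Fin.ext (label_eq μ ⟨v, by omega⟩ a hv.1 hv.2)
  rw [this, Nat.card_Ico, T_succ]
  omega

end labels

/-- The number of partial flags of a given type: for a composition `μ` of `n` (with `n` parts, zeros allowed) and a field with `q` elements, the index of the standard parabolic subgroup `P_μ` in `GL_n(q)` times `∏_i {μ_i}` equals `{n}`, where `{r}` denotes the product over `k = 1, …, r` of the q-integers `1 + q + ⋯ + q^(k−1)`. -/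
theorem result {F : Type*} [Field F] [Fintype F] {q : ℕ} (hq : Fintype.card F = q) {n : ℕ} (μ : Fin n → ℕ) (hμ : ∑ i, μ i = n) :
    Nat.card (GL (Fin n) F ⧸ Cfsg.parabolicGL n F μ) * ∏ i : Fin n, ∏ j ∈ Finset.range (μ i), ∑ l ∈ Finset.range (j + 1), q ^ l =
      ∏ j ∈ Finset.range n, ∑ l ∈ Finset.range (j + 1), q ^ l := by
  subst hq
  have h := index_mul_qfac (F := F) (lab μ hμ) (Cfsg.parabolicGL n F μ) (fun g => Iff.rfl)
  simp only [card_lab, Fintype.card_fin] at h
  exact h

end Cfsg.Agent.S2420
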