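import Cfsg.Statements.S2427
import Cfsg.Agent.Lib.ElementFusion.SL23
-- import your own Cfsg.Agent.* helpers here

set_option autoImplicit false
open Cfsg

namespace Cfsg.Agent.S2427

section aux

abbrev G := Matrix.SpecialLinearGroup (Fin 2) (ZMod 3)

def z₀ : G := ⟨!![2, 0; 0, 2], by decide⟩

lemma card_G : Fintype.card G = 24 := by decide +kernel

lemma mem_center_iff' : ∀ g : G, (∀ x : G, x * g = g * x) ↔ (g = 1 ∨ g = z₀) := by decide +kernel

def Q : Subgroup G where
  carrier := {g | g ^ 4 = 1}
  mul_mem' := by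
    have : ∀ a b : G, a ^ 4 = 1 → b ^ 4 = 1 → (a * b) ^ 4 = 1 := by decide +kernel
    exact fun {a b} ha hb => this a b ha hb
  one_mem' := by simp
  inv_mem' := by
    intro a ha
    have ha' : a ^ 4 = 1 := ha
    show a⁻¹ ^ 4 = 1
    rw [inv_pow, ha', inv_one]

lemma mem_Q {g : G} : g ∈ Q ↔ g ^ 4 = 1 := Iff.rfl

lemma card_Q : Fintype.card {g : G // g ^ 4 = 1} = 8 := by decide +kernel

lemma comm_mem : ∀ a b : G, (a * b * a⁻¹ * b⁻¹) ^ 4 = 1 := by decide +kernel

lemma exists_comm : ∀ q : G, q ^ 4 = 1 → ∃ a b : G, a * b * a⁻¹ * b⁻¹ = q := by decide +kernel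

lemma commutator_eq : commutator G = Q := by
  apply le_antisymm
  · rw [commutator_def, Subgroup.commutator_le]
    intro a _ b _
    exact comm_mem a b
  · intro q hq
    obtain ⟨a, b, rfl⟩ := exists_comm q hq
    rw [commutator_def]
    exact Subgroup.commutator_mem_commutator (Subgroup.mem_top a) (Subgroup.mem_top b)

lemma step1 : ∀ g : G, ¬ (g = 1 ∨ g = z₀) → ∃ x : G, (g * x * g⁻¹ * x⁻¹) * (g * x * g⁻¹ * x⁻¹) = z₀ := by decide +kernel

lemma step2 : ∀ y y' : G, y * y = z₀ → y' * y' = z₀ → ∃ c : G, c * y * c⁻¹ = y' := by decide +kernel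

lemma step3 : ∀ q : G, q ^ 4 = 1 → q = 1 ∨ q = z₀ ∨ q * q = z₀ := by decide +kernel

lemma step4 : ∀ h : G, h ^ 4 ≠ 1 → ∀ g : G, ∃ q : G, q ^ 4 = 1 ∧ (g = q ∨ g = q * h ∨ g = q * h * h) := by decide +kernel

/-- normal subgroups -/
lemma normal_cases (N : Subgroup G) (hN : N.Normal) :
    N = ⊥ ∨ N = ⊤ ∨ N = Subgroup.center G ∨ N = Q := by
  by_cases h1 : ∀ g ∈ N, g = 1 ∨ g = z₀
  · by_cases h2 : z₀ ∈ N
    · right; right; left
      ext g
      rw [Subgroup.mem_center_iff, mem_center_iff' g]
      constructor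
      · exact h1 g
      · rintro (rfl | rfl)
        · exact N.one_mem
        · exact h2
    · left
      rw [eq_bot_iff]
      intro g hg
      rcases h1 g hg with rfl | rfl
      · exact Subgroup.one_mem _
      · exact absurd hg h2
  · push Not at h1
    obtain ⟨g, hg, hg1, hg2⟩ := h1
    obtain ⟨x, hx⟩ := step1 g (by tauto)
    set y := g * x * g⁻¹ * x⁻¹ with hy
    have hyN : y ∈ N := by
      have e : y = g * (x * g⁻¹ * x⁻¹) := by rw [hy]; group
      rw [e]
      exact N.mul_mem hg (hN.conj_mem _ (N.inv_mem hg) x)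
    have hzN : z₀ ∈ N := hx ▸ N.mul_mem hyN hyN
    have hQN : Q ≤ N := by
      intro q hq
      rcases step3 q hq with rfl | rfl | h
      · exact N.one_mem
      · exact hzN
      · obtain ⟨c, hc⟩ := step2 y q hx h
        rw [← hc]
        exact hN.conj_mem y hyN c
    by_cases h3 : N ≤ Q
    · right; right; right
      exact le_antisymm h3 hQN
    · right; left
      rw [SetLike.not_le_iff_exists] at h3
      obtain ⟨h, hh, hhQ⟩ := h3
      rw [eq_top_iff]
      intro w _
      obtain ⟨q, hq, hw⟩ := step4 h hhQ w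
      have hqN : q ∈ N := hQN hq
      rcases hw with rfl | rfl | rfl
      · exact hqN
      · exact N.mul_mem hqN hh
      · exact N.mul_mem (N.mul_mem hqN hh) hh

lemma quat_ker : ∀ x : QuaternionGroup 2, Lib.ElementFusion.SL23.quatFun Lib.ElementFusion.SL23.A₀ Lib.ElementFusion.SL23.X₀ x = 1 → x = 1 := by
  decide +kernel

lemma quat_four : ∀ x : QuaternionGroup 2, x ^ 4 = 1 := by decide +kernel

/-- the quaternion group -/
noncomputable def quatH : QuaternionGroup 2 →* G :=
  Lib.ElementFusion.SL23.quatHom Lib.ElementFusion.SL23.A₀ Lib.ElementFusion.SL23.X₀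
    Lib.ElementFusion.SL23.A₀_four Lib.ElementFusion.SL23.X₀_sq Lib.ElementFusion.SL23.X₀_A₀

lemma nonempty_equiv (hQc : Nat.card Q = 8) : Nonempty (Q ≃* QuaternionGroup 2) := by
  have hmem : ∀ x, quatH x ∈ Q := by
    intro x
    rw [mem_Q, ← map_pow, quat_four, map_one]
  let f : QuaternionGroup 2 →* Q := quatH.codRestrict Q hmem
  have hinj : Function.Injective f := by
    rw [injective_iff_map_eq_one]
    intro x hx
    apply quat_ker
    exact congrArg Subtype.val hx
  have hbij : Function.Bijective f := by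
    refine hinj.bijective_of_nat_card_le ?_
    rw [hQc, Nat.card_eq_fintype_card, QuaternionGroup.card]
  exact ⟨(MulEquiv.ofBijective f hbij).symm⟩

end aux

/-- The group SL₂ over the field with 3 elements has order 24 and centre of order 2; its commutator subgroup has order 8, is isomorphic to the quaternion group of order 8 and is complemented by every Sylow 3-subgroup (so the group is a semidirect product of a quaternion group of order 8 by a cyclic group of order 3); and its only normal subgroups besides the trivial subgroup and the whole group are the centre and the commutator subgroup. -/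
theorem result :
    Nat.card (Matrix.SpecialLinearGroup (Fin 2) (ZMod 3)) = 24 ∧
    Nat.card (Subgroup.center (Matrix.SpecialLinearGroup (Fin 2) (ZMod 3))) = 2 ∧
    Nat.card (commutator (Matrix.SpecialLinearGroup (Fin 2) (ZMod 3))) = 8 ∧
    Nonempty (commutator (Matrix.SpecialLinearGroup (Fin 2) (ZMod 3)) ≃* QuaternionGroup 2) ∧
    (∀ P : Sylow 3 (Matrix.SpecialLinearGroup (Fin 2) (ZMod 3)),
      Subgroup.IsComplement' (commutator (Matrix.SpecialLinearGroup (Fin 2) (ZMod 3)))
        (P : Subgroup (Matrix.SpecialLinearGroup (Fin 2) (ZMod 3)))) ∧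
    ∀ N : Subgroup (Matrix.SpecialLinearGroup (Fin 2) (ZMod 3)), N.Normal →
      N = ⊥ ∨ N = ⊤ ∨ N = Subgroup.center (Matrix.SpecialLinearGroup (Fin 2) (ZMod 3)) ∨
        N = commutator (Matrix.SpecialLinearGroup (Fin 2) (ZMod 3)) := by
  have hG : Nat.card (Matrix.SpecialLinearGroup (Fin 2) (ZMod 3)) = 24 := by
    rw [Nat.card_eq_fintype_card]
    exact card_G
  have hQc : Nat.card Q = 8 := by
    rw [← card_Q, ← Nat.card_eq_fintype_card]
    rfl
  have hC : commutator (Matrix.SpecialLinearGroup (Fin 2) (ZMod 3)) = Q := commutator_eq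
  rw [hC]
  refine ⟨hG, ?_, hQc, ?_, ?_, normal_cases⟩
  · have hset : ((Subgroup.center G : Subgroup G) : Set G) = {1, z₀} := by
      ext g
      simp only [SetLike.mem_coe, Subgroup.mem_center_iff, mem_center_iff' g, Set.mem_insert_iff, Set.mem_singleton_iff]
    show Nat.card ((Subgroup.center G : Subgroup G) : Set G) = 2
    rw [hset, Nat.card_coe_set_eq]
    exact Set.ncard_pair (by decide)
  · exact nonempty_equiv hQc
  · intro P
    have hP : Nat.card P = 3 := by
      have h1 := P.card_eq_multiplicity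
      have : Fact (Nat.Prime 3) := ⟨Nat.prime_three⟩
      have hf : (Nat.card (Matrix.SpecialLinearGroup (Fin 2) (ZMod 3))).factorization 3 = 1 := by
        rw [hG]
        have e : (24 : ℕ) = 3 ^ 1 * 8 := by norm_num
        rw [e, Nat.factorization_mul (by norm_num) (by norm_num), Nat.Prime.factorization_pow Nat.prime_three]
        have : Nat.factorization 8 3 = 0 := Nat.factorization_eq_zero_of_not_dvd (by norm_num)
        simp [this]
      rw [h1, hf, pow_one]
    apply Subgroup.isComplement'_of_coprime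
    · rw [hQc, hP, hG]
    · rw [hQc, hP]
      norm_num

end Cfsg.Agent.S2427
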