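import Cfsg.Statements.S2428
import Cfsg.Agent.Lib.SLn.SL2Gen
import Cfsg.Agent.Lib.SLn.DicCount
-- import your own Cfsg.Agent.* helpers here

set_option autoImplicit false
open Cfsg

namespace Cfsg.Agent.S2428

/-- Let F be a finite field with q elements, q odd, and let d be a diagonal element of SL₂ over F whose diagonal entry a has a² ≠ 1 (such d exist exactly when q > 3). Then the centraliser of d is precisely the diagonal subgroup T; the normaliser of T has order 2(q − 1) and exactly (q + 5)/2 conjugacy classes; and every element of that normaliser outside T has square equal to −1. -/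
theorem result {F : Type*} [Field F] [Fintype F] (hodd : Odd (Fintype.card F))
    (d : Matrix.SpecialLinearGroup (Fin 2) F) (hd01 : (d : Matrix (Fin 2) (Fin 2) F) 0 1 = 0) (hd10 : (d : Matrix (Fin 2) (Fin 2) F) 1 0 = 0) (hda : (d : Matrix (Fin 2) (Fin 2) F) 0 0 ^ 2 ≠ 1) :
    (∀ g : Matrix.SpecialLinearGroup (Fin 2) F, g ∈ Subgroup.centralizer ({d} : Set (Matrix.SpecialLinearGroup (Fin 2) F)) ↔ ((g : Matrix (Fin 2) (Fin 2) F) 0 1 = 0 ∧ (g : Matrix (Fin 2) (Fin 2) F) 1 0 = 0)) ∧
    Nat.card (Subgroup.normalizer ((Subgroup.centralizer ({d} : Set (Matrix.SpecialLinearGroup (Fin 2) F))) : Set (Matrix.SpecialLinearGroup (Fin 2) F))) = 2 * (Fintype.card F - 1) ∧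
    Nat.card (ConjClasses (Subgroup.normalizer ((Subgroup.centralizer ({d} : Set (Matrix.SpecialLinearGroup (Fin 2) F))) : Set (Matrix.SpecialLinearGroup (Fin 2) F)))) = (Fintype.card F + 5) / 2 ∧
    ∀ g : Matrix.SpecialLinearGroup (Fin 2) F, g ∈ Subgroup.normalizer ((Subgroup.centralizer ({d} : Set (Matrix.SpecialLinearGroup (Fin 2) F))) : Set (Matrix.SpecialLinearGroup (Fin 2) F)) →
      g ∉ Subgroup.centralizer ({d} : Set (Matrix.SpecialLinearGroup (Fin 2) F)) → ((g * g) : Matrix (Fin 2) (Fin 2) F) = -1 := by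
  classical
  open Cfsg.Agent.Lib.SLn.SL2Gen Cfsg.Agent.Lib.Classical in
  have hC : Subgroup.centralizer ({d} : Set (Matrix.SpecialLinearGroup (Fin 2) F)) = splitT F := by
    ext g
    rw [Subgroup.mem_centralizer_iff]
    constructor
    · intro h
      exact mem_splitT_of_comm hd01 hd10 hda (h d (Set.mem_singleton _)).symm
    · rintro hg _ rfl
      exact splitT_comm (mem_splitT_iff.mpr ⟨hd01, hd10⟩) hg
  rw [hC]
  open Cfsg.Agent.Lib.SLn.SL2Gen Cfsg.Agent.Lib.Classical in
  obtain ⟨h1, -, h3, h4⟩ := Cfsg.Agent.Lib.SLn.DicCount.normalizer_data (splitT F) inferInstance SL2Tori.weylS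
    (by
      rintro _ ⟨x, rfl⟩
      exact SL2Tori.weylS_conj x)
    (by
      intro h
      have := (mem_splitT_iff.mp h).1
      simp [SL2Tori.weylS] at this)
    (by
      rw [mem_splitT_iff, Matrix.SpecialLinearGroup.coe_mul]
      simp [SL2Tori.weylS, Matrix.mul_apply, Fin.sum_univ_two])
    (by
      intro g hg
      rw [Subgroup.mem_normalizer_iff] at hg
      have hdT : d ∈ splitT F := mem_splitT_iff.mpr ⟨hd01, hd10⟩
      have h5 := (hg d).mp hdT
      have h6 : g * d = (g * d * g⁻¹) * g := by group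
      rcases normalizer_split_cases hd01 hd10 hda h5 h6 with h7 | ⟨h7, h8⟩
      · exact Or.inl h7
      · exact Or.inr (weyl_inv_mul_mem h7 h8))
  open Cfsg.Agent.Lib.SLn.SL2Gen Cfsg.Agent.Lib.Classical in
  refine ⟨fun g => mem_splitT_iff, ?_, ?_, ?_⟩
  · rw [h1, card_splitT]
  · obtain ⟨m, hm⟩ := hodd
    have hq : Fintype.card F - 1 = 2 * m := by omega
    have hne : 0 < m := by
      have hq2 : 1 < Fintype.card F := Fintype.one_lt_card
      omega
    rw [h3 m (by rw [card_splitT, hq]) hne]
    omega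
  · intro g hg hgT
    have := h4 g hg hgT
    have h5 := congrArg (fun x : Matrix.SpecialLinearGroup (Fin 2) F => (x : Matrix (Fin 2) (Fin 2) F)) this
    simp only [Matrix.SpecialLinearGroup.coe_mul] at h5
    rw [h5]
    ext i j
    fin_cases i <;> fin_cases j <;> simp [SL2Tori.weylS, Matrix.mul_apply, Fin.sum_univ_two]


end Cfsg.Agent.S2428
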