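import Cfsg.Statements.S2429
import Cfsg.Agent.Lib.SLn.SL2Gen
import Cfsg.Agent.Lib.SLn.DicCount
-- import your own Cfsg.Agent.* helpers here

set_option autoImplicit false
open Cfsg

namespace Cfsg.Agent.S2429

/-- Let F be a finite field with q elements, q odd. Then SL₂ over F contains a cyclic subgroup T′ of order q + 1 (a non-split torus) with the following properties: T′ is its own centraliser, and indeed the centraliser of each element of T′ other than 1 and −1 is exactly T′; every element of SL₂ having no eigenvector in F² is conjugate to an element of T′; the normaliser of T′ has order 2(q + 1) and exactly (q + 7)/2 conjugacy classes; and every element of that normaliser outside T′ has square −1. -/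
theorem result {F : Type*} [Field F] [Fintype F] (hodd : Odd (Fintype.card F)) :
    ∃ T' : Subgroup (Matrix.SpecialLinearGroup (Fin 2) F), IsCyclic T' ∧ Nat.card T' = Fintype.card F + 1 ∧
      Subgroup.centralizer ((T' : Set (Matrix.SpecialLinearGroup (Fin 2) F))) = T' ∧
      (∀ g : Matrix.SpecialLinearGroup (Fin 2) F, g ∈ T' → (g : Matrix (Fin 2) (Fin 2) F) ≠ 1 → (g : Matrix (Fin 2) (Fin 2) F) ≠ -1 → Subgroup.centralizer ({g} : Set (Matrix.SpecialLinearGroup (Fin 2) F)) = T') ∧
      (∀ g : Matrix.SpecialLinearGroup (Fin 2) F, (∀ (c : F) (v : Fin 2 → F), v ≠ 0 → (g : Matrix (Fin 2) (Fin 2) F).mulVec v ≠ c • v) → ∃ h : Matrix.SpecialLinearGroup (Fin 2) F, h * g * h⁻¹ ∈ T') ∧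
      Nat.card (Subgroup.normalizer (T' : Set (Matrix.SpecialLinearGroup (Fin 2) F))) = 2 * (Fintype.card F + 1) ∧
      Nat.card (ConjClasses (Subgroup.normalizer (T' : Set (Matrix.SpecialLinearGroup (Fin 2) F)))) = (Fintype.card F + 7) / 2 ∧
      ∀ g : Matrix.SpecialLinearGroup (Fin 2) F, g ∈ Subgroup.normalizer (T' : Set (Matrix.SpecialLinearGroup (Fin 2) F)) → g ∉ T' → ((g * g) : Matrix (Fin 2) (Fin 2) F) = -1 := by
  classical
  open Cfsg.Agent.Lib.SLn.SL2Gen Cfsg.Agent.Lib.Classical Cfsg.Agent.Lib.GL2.SL2Classes in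
  obtain ⟨a, ha⟩ := SL2Tori.exists_irred (F := F)
  haveI : Fact (∀ r : F, r ^ 2 ≠ a + 1 * r) := ⟨ha⟩
  open Cfsg.Agent.Lib.SLn.SL2Gen Cfsg.Agent.Lib.Classical Cfsg.Agent.Lib.GL2.SL2Classes in
  obtain ⟨w, hw1, hw2, hw3, hw4⟩ := exists_weyl a 1
  open Cfsg.Agent.Lib.SLn.SL2Gen Cfsg.Agent.Lib.Classical Cfsg.Agent.Lib.GL2.SL2Classes in
  obtain ⟨h1, -, h3, h4⟩ := Cfsg.Agent.Lib.SLn.DicCount.normalizer_data (nsT a 1) inferInstance w hw1 hw2 hw4
    (fun g hg => nsT_norm_cases hw1 hg)
  open Cfsg.Agent.Lib.SLn.SL2Gen Cfsg.Agent.Lib.Classical Cfsg.Agent.Lib.GL2.SL2Classes in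
  refine ⟨nsT a 1, inferInstance, card_nsT a 1, ?_, ?_, ?_, ?_, ?_, ?_⟩
  · -- the centraliser of the torus
    apply le_antisymm
    · intro g hg
      obtain ⟨u, -, hu⟩ := exists_gen a 1
      rw [Subgroup.mem_centralizer_iff] at hg
      have h5 := hg (SL2Tori.regHom a 1 u) ⟨u, rfl⟩
      exact mem_nsT_of_comm hu (congrArg Subtype.val h5).symm
    · intro g hg
      rw [Subgroup.mem_centralizer_iff]
      intro t ht
      exact nsT_comm ht hg
  · rintro _ ⟨u, rfl⟩ hne1 hneg
    apply centralizer_nsT_of_im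
    intro him
    have hn := (Cfsg.Agent.Lib.Classical.QuadExt.mem_normOne_iff _).mp u.2
    rw [QuadraticAlgebra.norm_def, him] at hn
    have hn' : ((u.1 : QuadraticAlgebra F a 1).re - 1) * ((u.1 : QuadraticAlgebra F a 1).re + 1) = 0 := by
      simp at hn
      linear_combination hn
    rcases mul_eq_zero.mp hn' with h0 | h0
    · apply hne1
      show SL2Tori.regMat _ = 1
      have h6 : (u.1 : QuadraticAlgebra F a 1).re = 1 := sub_eq_zero.mp h0
      ext i j
      fin_cases i <;> fin_cases j <;> simp [SL2Tori.regMat, him, h6]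
    · apply hneg
      show SL2Tori.regMat _ = -1
      have h6 : (u.1 : QuadraticAlgebra F a 1).re = -1 := eq_neg_of_add_eq_zero_left h0
      ext i j
      fin_cases i <;> fin_cases j <;> simp [SL2Tori.regMat, him, h6]
  · intro g hg
    have hroot := no_root_of_no_eigen hg
    have ht := tr_sq_ne_of_no_root hroot
    obtain ⟨u, hu⟩ := exists_normOne_tr (a := a) (b := 1) hroot
    have hc := isConj_of_tr_eq (g := g) (g' := SL2Tori.regHom a 1 u) hu.symm ht
    rw [isConj_iff] at hc
    obtain ⟨c, hc⟩ := hc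
    exact ⟨c, by rw [hc]; exact ⟨u, rfl⟩⟩
  · rw [h1, card_nsT]
  · obtain ⟨m, hm⟩ := hodd
    rw [h3 (m + 1) (by rw [card_nsT, hm]; ring) (by omega), hm]
    omega
  · intro g hg hgT
    have := h4 g hg hgT
    have h5 := congrArg (fun x : Matrix.SpecialLinearGroup (Fin 2) F => (x : Matrix (Fin 2) (Fin 2) F)) this
    simp only [Matrix.SpecialLinearGroup.coe_mul] at h5
    rw [h5]
    simpa using hw3


end Cfsg.Agent.S2429
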