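import Cfsg.Statements.S2430
import Cfsg.Agent.Lib.SLn.PSL2Class
import Cfsg.Agent.Lib.SLn.SylowTorus
-- import your own Cfsg.Agent.* helpers here

set_option autoImplicit false
open Cfsg

namespace Cfsg.Agent.S2430

section aux

open Matrix
open Cfsg.Agent.Lib.GL2.SL2 Cfsg.Agent.Lib.GL2.SL2Classes Cfsg.Agent.Lib.SLn.Basic Cfsg.Agent.Lib.SLn.SL2Gen
open Cfsg.Agent.Lib.SLn.SL2PSL Cfsg.Agent.Lib.SLn.OreSL2 Cfsg.Agent.Lib.SLn.PSL2Class
open Cfsg.Agent.Lib.Classical.QuadExt Cfsg.Agent.Lib.Classical.SL2Tori Cfsg.Agent.Lib.Classical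
open Cfsg.Agent.Lib.SLn

lemma arith_q (q : ℕ) (hq : 1 ≤ q) : q * (q ^ 2 - 1) = (q - 1) * (q * (q + 1)) := by
  obtain ⟨k, rfl⟩ : ∃ k, q = k + 1 := ⟨q - 1, by omega⟩
  simp only [Nat.add_sub_cancel]
  have : (k + 1) ^ 2 - 1 = (k + 1 + 1) * k := by
    have : (k + 1) ^ 2 = (k + 1 + 1) * k + 1 := by ring
    omega
  rw [this]
  ring

lemma arith_q' (q : ℕ) (hq : 1 ≤ q) : q * (q ^ 2 - 1) = (q + 1) * (q * (q - 1)) := by
  rw [arith_q q hq]
  ring

variable {F : Type*} [Field F] [Fintype F]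

lemma split_case (ℓ : ℕ) [Fact ℓ.Prime] (hℓ : ℓ ≠ 2) (hdvd : ℓ ∣ Fintype.card F - 1) (P : Sylow ℓ (SL2 F)) :
    Nat.card (Subgroup.centralizer ((P : Subgroup (SL2 F)) : Set (SL2 F))) = Fintype.card F - 1 ∧
      IsCyclic (Subgroup.centralizer ((P : Subgroup (SL2 F)) : Set (SL2 F))) ∧
      Nat.card (Subgroup.normalizer ((P : Subgroup (SL2 F)) : Set (SL2 F))) = 2 * (Fintype.card F - 1) := by
  classical
  have hℓp : ℓ.Prime := Fact.out
  have hℓ3 : 3 ≤ ℓ := by
    have := hℓp.two_le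
    omega
  have hq : 1 < Fintype.card F := Fintype.one_lt_card
  have hq4 : 4 ≤ Fintype.card F := by
    have := Nat.le_of_dvd (by omega) hdvd
    omega
  obtain ⟨x, hx⟩ := IsCyclic.exists_ofOrder_eq_natCard (α := Fˣ)
  rw [Lib.Classical.SLBasic.card_units_eq] at hx
  have hx2 : (x : F) ^ 2 ≠ 1 := by
    intro h
    have h3 : x ^ 2 = 1 := Units.ext (by simpa using h)
    have h4 := Nat.le_of_dvd (by norm_num) (orderOf_dvd_of_pow_eq_one h3)
    omega
  have e : ∀ y : Fˣ, ((diagHom y : SL2 F) : Matrix (Fin 2) (Fin 2) F) = !![(y : F), 0; 0, ((y⁻¹ : Fˣ) : F)] := fun _ => rfl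
  have hCT : ∀ y : Fˣ, (y : F) ^ 2 ≠ 1 → Subgroup.centralizer ({(diagHom y : SL2 F)} : Set (SL2 F)) = splitT F := by
    intro y hy
    ext g
    rw [Subgroup.mem_centralizer_iff]
    constructor
    · intro h
      exact mem_splitT_of_comm (d := diagHom y) (by rw [e]; simp) (by rw [e]; simp) (by rw [e]; simpa using hy)
        (h _ (Set.mem_singleton _)).symm
    · rintro hg _ rfl
      exact splitT_comm ⟨y, rfl⟩ hg
  have hidx : (splitT F).index = Fintype.card F * (Fintype.card F + 1) := by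
    have h1 := Subgroup.card_mul_index (splitT F)
    rw [card_splitT, card_sl2, arith_q _ (by omega)] at h1
    exact Nat.eq_of_mul_eq_mul_left (by omega) h1
  have hnd : ¬ ℓ ∣ (splitT F).index := by
    rw [hidx]
    intro h
    rcases (Nat.Prime.dvd_mul hℓp).mp h with h2 | h2
    · have h3 : ℓ ∣ Fintype.card F - (Fintype.card F - 1) := Nat.dvd_sub h2 hdvd
      rw [show Fintype.card F - (Fintype.card F - 1) = 1 by omega] at h3
      exact hℓp.one_lt.ne' (Nat.dvd_one.mp h3)
    · have h3 : ℓ ∣ Fintype.card F + 1 - (Fintype.card F - 1) := Nat.dvd_sub h2 hdvd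
      rw [show Fintype.card F + 1 - (Fintype.card F - 1) = 2 by omega] at h3
      exact hℓ ((Nat.prime_dvd_prime_iff_eq hℓp Nat.prime_two).mp h3)
  have hmain := SylowTorus.sylow_data (splitT F) inferInstance SL2Tori.weylS
    (by
      rintro _ ⟨x, rfl⟩
      exact SL2Tori.weylS_conj x)
    (by
      intro h
      have := (mem_splitT_iff.mp h).1
      simp [SL2Tori.weylS] at this)
    (by
      rw [mem_splitT_iff, Matrix.SpecialLinearGroup.coe_mul]
      simp [SL2Tori.weylS, Matrix.mul_apply, Fin.sum_univ_two])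
    (by
      intro g hg
      rw [Subgroup.mem_normalizer_iff] at hg
      have hdT : (diagHom x : SL2 F) ∈ splitT F := ⟨x, rfl⟩
      have h5 := (hg (diagHom x)).mp hdT
      have h6 : g * (diagHom x : SL2 F) = (g * (diagHom x : SL2 F) * g⁻¹) * g := by group
      rcases normalizer_split_cases (d := diagHom x) (by rw [e]; simp) (by rw [e]; simp) (by rw [e]; simpa using hx2) h5 h6 with h7 | ⟨h7, h8⟩
      · exact Or.inl h7
      · exact Or.inr (weyl_inv_mul_mem h7 h8))
    ℓ hnd (by rw [card_splitT]; exact hdvd)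
    (by
      rintro _ ⟨y, rfl⟩ hord
      apply hCT
      intro h
      have h3 : y ^ 2 = 1 := Units.ext (by simpa using h)
      have h4 : (diagHom y : SL2 F) ^ 2 = 1 := by rw [← map_pow, h3, map_one]
      have h5 := orderOf_dvd_of_pow_eq_one h4
      rw [hord] at h5
      exact hℓ ((Nat.prime_dvd_prime_iff_eq hℓp Nat.prime_two).mp h5))
    P
  rw [card_splitT] at hmain
  exact hmain

lemma nonsplit_case (ℓ : ℕ) [Fact ℓ.Prime] (hℓ : ℓ ≠ 2) (hdvd : ℓ ∣ Fintype.card F + 1) (P : Sylow ℓ (SL2 F)) :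
    Nat.card (Subgroup.centralizer ((P : Subgroup (SL2 F)) : Set (SL2 F))) = Fintype.card F + 1 ∧
      IsCyclic (Subgroup.centralizer ((P : Subgroup (SL2 F)) : Set (SL2 F))) ∧
      Nat.card (Subgroup.normalizer ((P : Subgroup (SL2 F)) : Set (SL2 F))) = 2 * (Fintype.card F + 1) := by
  classical
  have hℓp : ℓ.Prime := Fact.out
  have hℓ3 : 3 ≤ ℓ := by
    have := hℓp.two_le
    omega
  have hq : 1 < Fintype.card F := Fintype.one_lt_card
  obtain ⟨a, ha⟩ := exists_irred (F := F)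
  haveI : Fact (∀ r : F, r ^ 2 ≠ a + 1 * r) := ⟨ha⟩
  obtain ⟨w, hw1, hw2, hw3, hw4⟩ := exists_weyl a 1
  have hidx : (nsT a 1).index = Fintype.card F * (Fintype.card F - 1) := by
    have h1 := Subgroup.card_mul_index (nsT a 1)
    rw [card_nsT, card_sl2, arith_q' _ (by omega)] at h1
    exact Nat.eq_of_mul_eq_mul_left (by omega) h1
  have hnd : ¬ ℓ ∣ (nsT a 1).index := by
    rw [hidx]
    intro h
    rcases (Nat.Prime.dvd_mul hℓp).mp h with h2 | h2
    · have h3 : ℓ ∣ Fintype.card F + 1 - Fintype.card F := Nat.dvd_sub hdvd h2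
      rw [show Fintype.card F + 1 - Fintype.card F = 1 by omega] at h3
      exact hℓp.one_lt.ne' (Nat.dvd_one.mp h3)
    · have h3 : ℓ ∣ Fintype.card F + 1 - (Fintype.card F - 1) := Nat.dvd_sub hdvd h2
      rw [show Fintype.card F + 1 - (Fintype.card F - 1) = 2 by omega] at h3
      exact hℓ ((Nat.prime_dvd_prime_iff_eq hℓp Nat.prime_two).mp h3)
  have hmain := SylowTorus.sylow_data (nsT a 1) inferInstance w hw1 hw2 hw4
    (fun g hg => nsT_norm_cases hw1 hg)
    ℓ hnd (by rw [card_nsT]; exact hdvd)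
    (by
      rintro _ ⟨u, rfl⟩ hord
      apply centralizer_nsT_of_im
      intro him
      have hn := (mem_normOne_iff _).mp u.2
      rw [QuadraticAlgebra.norm_def, him] at hn
      have h1 : toPSL (regHom a 1 u) = 1 := by
        rw [toPSL_eq_one_iff]
        refine ⟨(u.1 : QuadraticAlgebra F a 1).re, ?_⟩
        rw [regHom_coe]
        ext i j
        fin_cases i <;> fin_cases j <;> simp [regMat, Matrix.scalar_apply, him]
      rw [toPSL_reg_eq_one_iff] at h1
      have h4 : (regHom a 1 u : SL2 F) ^ 2 = 1 := by rw [← map_pow, h1, map_one]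
      have h5 := orderOf_dvd_of_pow_eq_one h4
      rw [hord] at h5
      exact hℓ ((Nat.prime_dvd_prime_iff_eq hℓp Nat.prime_two).mp h5))
    P
  rw [card_nsT] at hmain
  exact hmain

end aux

/-- Let F be a finite field with q elements, q odd, ℓ an odd prime, and P a Sylow ℓ-subgroup of SL₂ over F. If ℓ divides q − 1, the centraliser of P is cyclic of order q − 1 (a split torus) and the normaliser of P has order 2(q − 1); if ℓ divides q + 1, the centraliser of P is cyclic of order q + 1 (a non-split torus) and the normaliser of P has order 2(q + 1). -/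
theorem result {F : Type*} [Field F] [Fintype F] (hodd : Odd (Fintype.card F)) (ℓ : ℕ) [Fact ℓ.Prime] (hℓ : ℓ ≠ 2)
    (P : Sylow ℓ (Matrix.SpecialLinearGroup (Fin 2) F)) :
    (ℓ ∣ Fintype.card F - 1 →
      Nat.card (Subgroup.centralizer ((P : Subgroup (Matrix.SpecialLinearGroup (Fin 2) F)) : Set (Matrix.SpecialLinearGroup (Fin 2) F))) = Fintype.card F - 1 ∧
      IsCyclic (Subgroup.centralizer ((P : Subgroup (Matrix.SpecialLinearGroup (Fin 2) F)) : Set (Matrix.SpecialLinearGroup (Fin 2) F))) ∧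
      Nat.card (Subgroup.normalizer ((P : Subgroup (Matrix.SpecialLinearGroup (Fin 2) F)) : Set (Matrix.SpecialLinearGroup (Fin 2) F))) = 2 * (Fintype.card F - 1)) ∧
    (ℓ ∣ Fintype.card F + 1 →
      Nat.card (Subgroup.centralizer ((P : Subgroup (Matrix.SpecialLinearGroup (Fin 2) F)) : Set (Matrix.SpecialLinearGroup (Fin 2) F))) = Fintype.card F + 1 ∧
      IsCyclic (Subgroup.centralizer ((P : Subgroup (Matrix.SpecialLinearGroup (Fin 2) F)) : Set (Matrix.SpecialLinearGroup (Fin 2) F))) ∧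
      Nat.card (Subgroup.normalizer ((P : Subgroup (Matrix.SpecialLinearGroup (Fin 2) F)) : Set (Matrix.SpecialLinearGroup (Fin 2) F))) = 2 * (Fintype.card F + 1)) := by
  exact ⟨fun h => split_case ℓ hℓ h P, fun h => nonsplit_case ℓ hℓ h P⟩

end Cfsg.Agent.S2430
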