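import Cfsg.Statements.S2432
import Cfsg.Agent.Lib.SLn.SL2Ind
-- import your own Cfsg.Agent.* helpers here

set_option autoImplicit false
open Cfsg

namespace Cfsg.Agent.S2432

section aux

open Matrix Cfsg
open Cfsg.Agent.Lib.GL2.SL2 Cfsg.Agent.Lib.SLn.SL2Ind
open Cfsg.Agent.Lib.Char.Induced Cfsg.Agent.Lib.GL2.MulCharSum
open scoped ComplexConjugate

variable {F : Type*} [Field F] [Fintype F] [DecidableEq F]

lemma RR_sbm_ne (β : MulChar F ℂ) (a : Fˣ) (c : F) (ha : (a : F) ^ 2 ≠ 1) :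
    RR β (sbm a c) = β (a : F) + β ((a⁻¹ : Fˣ) : F) := by
  have hne : ((a⁻¹ : Fˣ) : F) - a ≠ 0 := by
    intro h
    apply ha
    have h1 : ((a⁻¹ : Fˣ) : F) = a := sub_eq_zero.mp h
    rw [pow_two]
    nth_rw 2 [← h1]
    simp
  set s := c / (((a⁻¹ : Fˣ) : F) - a) with hs
  have hs' : s * (((a⁻¹ : Fˣ) : F) - a) = c := by
    rw [hs]; field_simp
  have e : (uu s)⁻¹ * sbm a c * uu s = sbm a 0 := by
    rw [mul_assoc, inv_mul_eq_iff_eq_mul]
    apply Subtype.ext
    show !![(a : F), c; 0, ((a⁻¹ : Fˣ) : F)] * !![1, s; 0, 1] = !![1, s; 0, 1] * !![(a : F), 0; 0, ((a⁻¹ : Fˣ) : F)]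
    ext i j
    fin_cases i <;> fin_cases j <;> simp [Matrix.mul_apply, Fin.sum_univ_two]
    rw [Units.val_inv_eq_inv_val] at hs'
    linear_combination -hs'
  have h1 : RR β (sbm a c) = RR β (sbm a 0) := by
    rw [← e]
    have := isClassFunction_indFun (BB F) (th β) (sbm a c) (uu s)⁻¹
    rw [inv_inv] at this
    exact this.symm
  rw [h1, RR_diag β (sbm a 0) (by simp [coe_sbm]) (by simp [coe_sbm]) (by simpa [coe_sbm] using ha)]
  simp [coe_sbm]

lemma RR_sbm_eq (β : MulChar F ℂ) (a : Fˣ) (c : F) (ha : (a : F) ^ 2 = 1) :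
    RR β (sbm a c) = β (a : F) + if c = 0 then (Fintype.card F : ℂ) * β (a : F) else 0 := by
  have hinv : ((a⁻¹ : Fˣ) : F) = a := by
    have : a * a = 1 := Units.ext (by rw [Units.val_mul, ← pow_two, ha, Units.val_one])
    rw [inv_eq_of_mul_eq_one_left this]
  by_cases hc : c = 0
  · rw [if_pos hc, hc, RR_scalar β (sbm a 0) (by simp [coe_sbm]) (by simp [coe_sbm, hinv]) (by simp [coe_sbm])]
    simp [coe_sbm]
    ring
  · rw [if_neg hc, RR_unip β (sbm a c) (by simp [coe_sbm]) (by simp [coe_sbm, hinv]) (by simpa [coe_sbm] using hc)]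
    simp [coe_sbm]

lemma sum_RR_sbm (β : MulChar F ℂ) (a : Fˣ) :
    ∑ c : F, RR β (sbm a c) = (Fintype.card F : ℂ) * (β (a : F) + β ((a⁻¹ : Fˣ) : F)) := by
  by_cases ha : (a : F) ^ 2 = 1
  · have hinv : ((a⁻¹ : Fˣ) : F) = a := by
      have : a * a = 1 := Units.ext (by rw [Units.val_mul, ← pow_two, ha, Units.val_one])
      rw [inv_eq_of_mul_eq_one_left this]
    simp only [RR_sbm_eq β a _ ha, hinv]
    rw [Finset.sum_add_distrib, Finset.sum_ite_eq' Finset.univ (0 : F)]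
    simp
    ring
  · simp only [RR_sbm_ne β a _ ha]
    simp
    ring

end aux

/-- Let F be a finite field with q elements, q odd, and for a multiplicative character α of F let R(α) be the function on SL₂ induced from the linear character b ↦ α(b₁₁) of the upper triangular subgroup. For multiplicative characters α, β the inner product of R(α) and R(β) equals the number of true statements among 'α = β' and 'α = β⁻¹' (the Mackey formula for the upper triangular subgroup, whose intersection with a conjugate by the Weyl element is the diagonal subgroup). -/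
theorem result {F : Type*} [Field F] [Fintype F] [DecidableEq F] (hodd : Odd (Fintype.card F))
    (α β : MulChar F ℂ) [Decidable (α = β)] [Decidable (α = β⁻¹)] :
    Cfsg.classInner (Cfsg.indFun ((Cfsg.upperTriangularGL 2 F).comap Matrix.SpecialLinearGroup.toGL) (fun b => α (((b : Matrix.SpecialLinearGroup (Fin 2) F) : Matrix (Fin 2) (Fin 2) F) 0 0))) (Cfsg.indFun ((Cfsg.upperTriangularGL 2 F).comap Matrix.SpecialLinearGroup.toGL) (fun b => β (((b : Matrix.SpecialLinearGroup (Fin 2) F) : Matrix (Fin 2) (Fin 2) F) 0 0))) =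
      (if α = β then 1 else 0) + (if α = β⁻¹ then 1 else 0) := by
  classical
  letI : Fintype (Lib.SLn.SL2Ind.BB F) := Fintype.ofFinite _
  have h1 : Cfsg.classInner (Lib.SLn.SL2Ind.RR α) (Lib.SLn.SL2Ind.RR β) = Cfsg.classInner (Lib.SLn.SL2Ind.th α) (fun h => Lib.SLn.SL2Ind.RR β h) :=
    Lib.Char.Induced.classInner_indFun_left (Lib.SLn.SL2Ind.BB F) (Lib.SLn.SL2Ind.th α) (Lib.SLn.SL2Ind.RR β)
    (Lib.Char.Induced.isClassFunction_indFun _ _)
  have h2 : Cfsg.indFun ((Cfsg.upperTriangularGL 2 F).comap Matrix.SpecialLinearGroup.toGL) (fun b => α (((b : Matrix.SpecialLinearGroup (Fin 2) F) : Matrix (Fin 2) (Fin 2) F) 0 0)) = Lib.SLn.SL2Ind.RR α := rfl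
  have h3 : Cfsg.indFun ((Cfsg.upperTriangularGL 2 F).comap Matrix.SpecialLinearGroup.toGL) (fun b => β (((b : Matrix.SpecialLinearGroup (Fin 2) F) : Matrix (Fin 2) (Fin 2) F) 0 0)) = Lib.SLn.SL2Ind.RR β := rfl
  rw [h2, h3, h1, Lib.Char.Induced.classInner_subgroup_eq, ← Equiv.sum_comp (Lib.SLn.SL2Ind.bEquiv (F := F)), Fintype.sum_prod_type]
  have h4 : ∀ a : Fˣ, ∑ c : F, Lib.SLn.SL2Ind.th α (Lib.SLn.SL2Ind.bEquiv (a, c)) * (starRingEnd ℂ) (Lib.SLn.SL2Ind.RR β (Lib.SLn.SL2Ind.bEquiv (a, c)).1) =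
      (Fintype.card F : ℂ) * (α (a : F) * (starRingEnd ℂ) (β (a : F)) + α (a : F) * (starRingEnd ℂ) ((β⁻¹) (a : F))) := by
    intro a
    have e1 : ∀ c : F, Lib.SLn.SL2Ind.th α (Lib.SLn.SL2Ind.bEquiv (a, c)) = α (a : F) := by
      intro c
      show α ((Lib.SLn.SL2Ind.sbm a c : Matrix.SpecialLinearGroup (Fin 2) F).1 0 0) = _
      simp [Lib.SLn.SL2Ind.coe_sbm]
    have e2 : ∀ c : F, ((Lib.SLn.SL2Ind.bEquiv (a, c) : Lib.SLn.SL2Ind.BB F) : Matrix.SpecialLinearGroup (Fin 2) F) = Lib.SLn.SL2Ind.sbm a c := fun _ => rfl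
    simp only [e1, e2]
    rw [← Finset.mul_sum, ← map_sum, sum_RR_sbm, map_mul, map_add, Complex.conj_natCast]
    have e3 : (β⁻¹) (a : F) = β ((a⁻¹ : Fˣ) : F) := by
      rw [MulChar.inv_apply', ← Units.val_inv_eq_inv_val]
    rw [e3]
    ring
  simp only [h4]
  rw [← Finset.mul_sum, Finset.sum_add_distrib]
  have hcard : (Nat.card (Lib.SLn.SL2Ind.BB F) : ℂ) = ((Fintype.card F : ℂ) - 1) * (Fintype.card F : ℂ) := Lib.SLn.SL2Ind.card_BB_cast
  have hq0 : (Fintype.card F : ℂ) ≠ 0 := Nat.cast_ne_zero.mpr Fintype.card_ne_zero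
  have hq1 := Lib.GL2.MulCharSum.card_sub_one_ne_zero (F := F)
  have e5 : ∀ γ : MulChar F ℂ, ∑ a : Fˣ, α (a : F) * (starRingEnd ℂ) (γ (a : F)) = if α = γ then (Fintype.card F : ℂ) - 1 else 0 := by
    intro γ
    by_cases h : α = γ
    · rw [if_pos h, h]
      exact Lib.GL2.MulCharSum.sum_mul_conj_self γ
    · rw [if_neg h]
      exact Lib.GL2.MulCharSum.sum_mul_conj_of_ne h
  rw [e5, e5, hcard]
  split_ifs <;> field_simp <;> ring

end Cfsg.Agent.S2432
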