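import Cfsg.Statements.S2434
import Cfsg.Agent.Lib.GL2.Torus5

set_option autoImplicit false
open Cfsg

namespace Cfsg.Agent.S2434

open Cfsg.Agent.Lib.GL2.SigSL2 Cfsg.Agent.Lib.GL2.IrrSL2 Cfsg.Agent.Lib.GL2.SL2Values Cfsg.Agent.Lib.GL2.PS Cfsg.Agent.Lib.GL2.IrrGL2 Cfsg.Agent.Lib.GL2.Restrict Cfsg.Agent.Lib.GL2.SL2 Cfsg.Agent.Lib.GL2.SL2Classes Cfsg.Agent.Lib.GL2.Torus

variable {F : Type*} [Field F] [Fintype F]

lemma not_NE_of_center [DecidableEq F] {c : SL2 F} (h : c ∈ Subgroup.center (SL2 F)) : ¬ NE c := by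
  intro hc
  rw [Matrix.SpecialLinearGroup.mem_center_iff] at h
  obtain ⟨r, -, hr⟩ := h
  apply hc r ![1, 0]
  · intro h0
    have := congrFun h0 0
    simp at this
  · rw [← hr]
    ext i
    fin_cases i <;> simp [Matrix.mulVec, dotProduct, Fin.sum_univ_two, Matrix.scalar_apply]

lemma not_NE_upper [DecidableEq F] {g : SL2 F} (h10 : (g : Matrix (Fin 2) (Fin 2) F) 1 0 = 0) : ¬ NE g := by
  intro hc
  apply hc ((g : Matrix (Fin 2) (Fin 2) F) 0 0) ![1, 0]
  · intro h0
    have := congrFun h0 0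
    simp at this
  · ext i
    fin_cases i <;> simp [Matrix.mulVec, dotProduct, Fin.sum_univ_two, h10]

lemma center_of_one_or_zz [DecidableEq F] {c : SL2 F} (h : c = 1 ∨ c = zz) : c ∈ Subgroup.center (SL2 F) := by
  rcases h with rfl | rfl
  · exact Subgroup.one_mem _
  · exact zz_center

/-- Let F be a finite field with q elements, q odd, and C a cyclic subgroup of order q + 1 of SL₂ over F (a non-split torus; it contains the centre). For every homomorphism θ from C to the non-zero complex numbers with θ² ≠ 1 there is an irreducible complex character χ of degree q − 1 such that χ(c) = −θ(c) − θ(c)⁻¹ for every non-central c in C, χ(zg) = θ(z)χ(g) for central z in C, χ vanishes at diagonal elements with entry a, a² ≠ 1, and χ takes the value −1 at every upper unitriangular element other than 1. Conversely every irreducible character of degree q − 1 has, for some such θ, the values −θ(c) − θ(c)⁻¹ at the non-central elements c of C (for q ≥ 5 these are exactly the cuspidal characters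 of degree q − 1). -/
theorem result {F : Type*} [Field F] [Fintype F] (hodd : Odd (Fintype.card F))
    (C : Subgroup (Matrix.SpecialLinearGroup (Fin 2) F)) (hC : IsCyclic C) (hcard : Nat.card C = Fintype.card F + 1) :
    (∀ θ : C →* ℂˣ, (∃ c : C, θ c ^ 2 ≠ 1) →
      ∃ χ : Matrix.SpecialLinearGroup (Fin 2) F → ℂ, Cfsg.IsIrrCharacter (Matrix.SpecialLinearGroup (Fin 2) F) χ ∧ χ 1 = (Fintype.card F : ℂ) - 1 ∧
        (∀ c : C, (c : Matrix.SpecialLinearGroup (Fin 2) F) ∉ Subgroup.center (Matrix.SpecialLinearGroup (Fin 2) F) → χ c = -((θ c).val + (θ c)⁻¹.val)) ∧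
        (∀ c : C, (c : Matrix.SpecialLinearGroup (Fin 2) F) ∈ Subgroup.center (Matrix.SpecialLinearGroup (Fin 2) F) → ∀ g : Matrix.SpecialLinearGroup (Fin 2) F, χ ((c : Matrix.SpecialLinearGroup (Fin 2) F) * g) = (θ c).val * χ g) ∧
        (∀ g : Matrix.SpecialLinearGroup (Fin 2) F, (g : Matrix (Fin 2) (Fin 2) F) 0 1 = 0 → (g : Matrix (Fin 2) (Fin 2) F) 1 0 = 0 → (g : Matrix (Fin 2) (Fin 2) F) 0 0 ^ 2 ≠ 1 → χ g = 0) ∧
        (∀ g : Matrix.SpecialLinearGroup (Fin 2) F, (g : Matrix (Fin 2) (Fin 2) F) 1 0 = 0 → (g : Matrix (Fin 2) (Fin 2) F) 0 0 = 1 → (g : Matrix (Fin 2) (Fin 2) F) 1 1 = 1 → (g : Matrix (Fin 2) (Fin 2) F) 0 1 ≠ 0 → χ g = -1)) ∧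
    (∀ χ : Matrix.SpecialLinearGroup (Fin 2) F → ℂ, Cfsg.IsIrrCharacter (Matrix.SpecialLinearGroup (Fin 2) F) χ → χ 1 = (Fintype.card F : ℂ) - 1 →
      ∃ θ : C →* ℂˣ, (∃ c : C, θ c ^ 2 ≠ 1) ∧
        ∀ c : C, (c : Matrix.SpecialLinearGroup (Fin 2) F) ∉ Subgroup.center (Matrix.SpecialLinearGroup (Fin 2) F) → χ c = -((θ c).val + (θ c)⁻¹.val)) := by
  classical
  haveI : Finite C := inferInstance
  letI : Fintype C := Fintype.ofFinite _
  have hunit : ∀ (θ : C →* ℂˣ), (∃ c : C, θ c ^ 2 ≠ 1) → ∃ c : C, ((θ c : ℂˣ) : ℂ) ^ 2 ≠ 1 := by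
    rintro θ ⟨c, hc⟩
    refine ⟨c, fun h => hc ?_⟩
    apply Units.ext
    simpa using h
  have hNE : ∀ c : C, (c : SL2 F) ∉ Subgroup.center (SL2 F) → NE (c : SL2 F) := by
    intro c hc
    rcases mem_cases C hcard hodd c.2 with h | h | h
    · exact h
    · exact absurd (center_of_one_or_zz (Or.inl h)) hc
    · exact absurd (center_of_one_or_zz (Or.inr h)) hc
  constructor
  · intro θ hθ
    obtain ⟨χ, hm, ω, hω, hψ⟩ := exists_AF C hC hcard hodd θ (hunit θ hθ)
    refine ⟨χ, χ.2, hω.one, ?_, ?_, ?_, ?_⟩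
    · intro c hc
      have h1 := hψ c
      rw [psiC_NE C (hNE c hc)] at h1
      rw [← neg_eq_iff_eq_neg, h1]
    · intro c hc g
      rcases mem_cases C hcard hodd c.2 with h | h | h
      · exact absurd hc (fun hz => not_NE_of_center hz h)
      · have e : c = 1 := Subtype.ext h
        rw [e]
        simp
      · have e : c = zC C hcard hodd := Subtype.ext h
        rw [e]
        have h1 := hψ (zC C hcard hodd)
        rw [psiC_zz C hodd rfl] at h1
        have h2 := hom_zC_sq C hcard hodd θ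
        have h3 : (((θ (zC C hcard hodd))⁻¹ : ℂˣ) : ℂ) = (θ (zC C hcard hodd) : ℂ) := by
          rw [Units.val_inv_eq_inv_val]
          have h0 : (θ (zC C hcard hodd) : ℂ) ≠ 0 := Units.ne_zero _
          field_simp
          rw [sq]
          exact h2.symm
        rw [h3] at h1
        have h4 : ω = (θ (zC C hcard hodd) : ℂ) := by
          have h5 : (2 : ℂ) ≠ 0 := two_ne_zero
          apply mul_left_cancel₀ h5
          rw [h1]
          ring
        rw [← h4]
        exact hω.mul_zz g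
    · intro g h01 h10 h2
      obtain ⟨a, c, rfl, ha, hc, -⟩ := eq_smk g h10
      have hc0 : c = 0 := by rw [hc, h01]
      subst hc0
      rw [← ha] at h2
      exact hω.split _ (not_NE_upper h10) (tr_smk_sq_ne h2)
    · intro g h10 h00 h11 h01
      have : g = uu ((g : Matrix (Fin 2) (Fin 2) F) 0 1) := by
        apply ext_sl <;> simp [h10, h00, h11]
      rw [this]
      exact hω.uu _ h01
  · intro χ hχ hd
    have hq1 := q_gt_one (F := F)
    obtain ⟨k, hk⟩ := id hodd
    have hs := six ⟨χ, hχ⟩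
    have hpos := natDeg_pos ⟨χ, hχ⟩
    have e3 := (degqm_iff ⟨χ, hχ⟩).mp hd
    rcases hs with ⟨h, e⟩ | ⟨h, e⟩ | ⟨h, e⟩ | ⟨h, e⟩ | ⟨h, e⟩ | ⟨h, e⟩
    · exfalso; omega
    · exfalso; omega
    · exfalso; omega
    · -- `q = 3`
      have hq3 : Fintype.card F = 3 := by omega
      have hAF : (AF F).card = 1 := by
        have := (counts_odd (F := F) hodd).1
        omega
      obtain ⟨χ₀, hχ₀⟩ := Finset.card_pos.mp (by omega : 0 < (AF F).card)
      obtain ⟨ω, hω, -⟩ := AF_data hodd χ₀ hχ₀
      obtain ⟨θ, hθ, -⟩ := AF_pair C hC hcard hodd hχ₀ hω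
      have hθ' : ∃ c : C, θ c ^ 2 ≠ 1 := by
        obtain ⟨c, hc⟩ := hθ
        refine ⟨c, fun h1 => hc ?_⟩
        have := congrArg Units.val h1
        simpa using this
      refine ⟨θ, hθ', ?_⟩
      intro c hc
      have hcNE := hNE c hc
      -- `χ c = 0`
      have hval : χ c = 0 := by
        obtain ⟨α, -, -, χ', hp⟩ := mem_AP.mp h
        simp only at hp
        have h1 := pair_eq hodd hp ((NE_iff _).mp hcNE).sq_ne
        obtain ⟨-, -, h4, -⟩ := hp
        have h5 := congrFun h4 c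
        rw [sig_noEig α hcNE, Pi.add_apply, h1] at h5
        have h6 : (2 : ℂ) * χ c = 0 := by linear_combination -h5
        simpa using h6
      rw [hval]
      -- squares in `C`
      have hsq : ∀ d : C, NE (d : SL2 F) → d * d = zC C hcard hodd := by
        intro d hdNE
        have h1 : (d : SL2 F) * d * ((d : SL2 F) * d) = 1 := by
          have := pow_mem_card C hcard d.2
          rw [hq3] at this
          rw [show (3 + 1 : ℕ) = 4 by norm_num] at this
          calc (d : SL2 F) * d * ((d : SL2 F) * d) = (d : SL2 F) ^ 4 := by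
                simp only [pow_succ, pow_zero, one_mul, mul_assoc]
            _ = 1 := this
        rcases mem_cases C hcard hodd (C.mul_mem d.2 d.2) with h2 | h2 | h2
        · exact absurd h2 (not_NE_of_sq_one h1)
        · exact absurd hdNE (not_NE_of_sq_one h2)
        · exact Subtype.ext h2
      have hz : (θ (zC C hcard hodd) : ℂ) = -1 := by
        rcases hom_zC_sign C hcard hodd θ with h1 | h1
        · exfalso
          obtain ⟨d, hd'⟩ := hθ
          apply hd'
          rcases mem_cases C hcard hodd d.2 with h2 | h2 | h2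
          · rw [sq, ← Units.val_mul, ← map_mul, hsq d h2, h1]
          · have : d = 1 := Subtype.ext h2
            rw [this]
            simp
          · have : d = zC C hcard hodd := Subtype.ext h2
            rw [this, sq, hom_zC_sq]
        · exact h1
      have h1 : (θ c : ℂ) * (θ c : ℂ) = -1 := by
        rw [← Units.val_mul, ← map_mul, hsq c hcNE, hz]
      have h0 : (θ c : ℂ) ≠ 0 := Units.ne_zero _
      have h2 : (((θ c)⁻¹ : ℂˣ) : ℂ) = - (θ c : ℂ) := by
        rw [Units.val_inv_eq_inv_val]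
        exact inv_eq_of_mul_eq_one_right (by linear_combination -h1)
      show (0 : ℂ) = -(((θ c : ℂˣ) : ℂ) + (((θ c)⁻¹ : ℂˣ) : ℂ))
      rw [h2]
      ring
    · obtain ⟨ω, hω, -⟩ := AF_data hodd ⟨χ, hχ⟩ h
      obtain ⟨θ, hθ, h2⟩ := AF_pair C hC hcard hodd h hω
      refine ⟨θ, ?_, ?_⟩
      · obtain ⟨c, hc⟩ := hθ
        refine ⟨c, fun h1 => hc ?_⟩
        have := congrArg Units.val h1
        simpa using this
      · intro c hc
        have h1 := h2 c
        rw [psiC_NE C (hNE c hc)] at h1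
        rw [← neg_eq_iff_eq_neg]
        exact h1
    · exfalso; omega

end Cfsg.Agent.S2434
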