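import Cfsg.Statements.S2435
import Cfsg.Agent.Lib.GL2.Torus5

set_option autoImplicit false
open Cfsg

namespace Cfsg.Agent.S2435

open Cfsg.Agent.Lib.GL2.SigSL2 Cfsg.Agent.Lib.GL2.IrrSL2 Cfsg.Agent.Lib.GL2.SL2Values Cfsg.Agent.Lib.GL2.PS Cfsg.Agent.Lib.GL2.IrrGL2 Cfsg.Agent.Lib.GL2.Restrict Cfsg.Agent.Lib.GL2.SL2 Cfsg.Agent.Lib.GL2.SL2Classes Cfsg.Agent.Lib.GL2.Torus

variable {F : Type*} [Field F] [Fintype F]

lemma quad_values [DecidableEq F] (hodd : Odd (Fintype.card F)) {α : MulChar F ℂ} (h1 : α ^ 2 = 1) (h2 : α ≠ 1) (a : Fˣ) :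
    (IsSquare (a : F) → α (a : F) = 1) ∧ (¬ IsSquare (a : F) → α (a : F) = -1) := by
  have hsq : ∀ x : F, α x * α x = (1 : MulChar F ℂ) x := by
    intro x
    rw [← h1, sq, MulChar.mul_apply]
  have hsqa : ∀ x : Fˣ, α (x : F) * α (x : F) = 1 := by
    intro x
    rw [hsq]
    exact MulChar.one_apply_coe x
  constructor
  · rintro ⟨b, hb⟩
    have hb0 : b ≠ 0 := by
      rintro rfl
      exact a.ne_zero (by rw [hb]; ring)
    rw [hb, map_mul]
    exact hsqa (Units.mk0 b hb0)
  · intro hn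
    have h5 : (α (a : F) - 1) * (α (a : F) + 1) = 0 := by linear_combination hsqa a
    rcases mul_eq_zero.mp h5 with h6 | h6
    · exfalso
      have h7 : α (a : F) = 1 := sub_eq_zero.mp h6
      apply h2
      ext x
      rw [MulChar.one_apply_coe]
      by_cases hx : IsSquare (x : F)
      · obtain ⟨b, hb⟩ := hx
        have hb0 : b ≠ 0 := by
          rintro rfl
          exact x.ne_zero (by rw [hb]; ring)
        rw [hb, map_mul]
        exact hsqa (Units.mk0 b hb0)
      · obtain ⟨b, hb⟩ := isSquare_mul_of_not hodd x.ne_zero a.ne_zero hx hn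
        have hb0 : b ≠ 0 := by
          rintro rfl
          have := mul_ne_zero x.ne_zero a.ne_zero
          exact this (by rw [hb]; ring)
        have h8 : α (x : F) * α (a : F) = 1 := by
          rw [← map_mul, hb, map_mul]
          exact hsqa (Units.mk0 b hb0)
        rw [h7, mul_one] at h8
        exact h8
    · linear_combination h6

lemma real_values {C : Type*} [Group C] [Finite C] (hC : IsCyclic C) {m : ℕ} (hm : 0 < m)
    (hcard : Nat.card C = 2 * m) {lam : C →* ℂˣ} (h1 : lam ≠ 1) (h2 : ∀ c, ((lam c : ℂˣ) : ℂ) ^ 2 = 1)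
    (c : C) : (c ^ m = 1 → ((lam c : ℂˣ) : ℂ) = 1) ∧ (c ^ m ≠ 1 → ((lam c : ℂˣ) : ℂ) = -1) := by
  obtain ⟨g, hg⟩ := IsCyclic.exists_generator (α := C)
  have hord : orderOf g = 2 * m := by
    rw [orderOf_eq_card_of_forall_mem_zpowers hg, hcard]
  have hg1 : lam g = -1 := by
    have h5 : (((lam g : ℂˣ) : ℂ) - 1) * (((lam g : ℂˣ) : ℂ) + 1) = 0 := by linear_combination h2 g
    rcases mul_eq_zero.mp h5 with h6 | h6
    · exfalso
      apply h1
      rw [MonoidHom.eq_iff_eq_on_generator hg]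
      simp only [MonoidHom.one_apply]
      apply Units.ext
      simpa using sub_eq_zero.mp h6
    · apply Units.ext
      simp only [Units.val_neg, Units.val_one]
      linear_combination h6
  have hgm : g ^ m ≠ 1 := by
    intro h
    have := orderOf_le_of_pow_eq_one hm h
    omega
  have hg2m : g ^ (2 * m) = 1 := by
    rw [← hord]
    exact pow_orderOf_eq_one g
  obtain ⟨k, rfl⟩ := Subgroup.mem_zpowers_iff.mp (hg c)
  rcases Int.even_or_odd' k with ⟨j, rfl | rfl⟩
  · have e1 : (g ^ (2 * j)) ^ m = 1 := by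
      rw [← zpow_natCast, ← _root_.zpow_mul]
      have e0 : (2 * j * (m : ℤ)) = ((2 * m : ℕ) : ℤ) * j := by
        push_cast
        ring
      rw [e0, _root_.zpow_mul, zpow_natCast, hg2m]
      simp
    have e2 : ((lam (g ^ (2 * j)) : ℂˣ) : ℂ) = 1 := by
      rw [map_zpow, hg1, _root_.zpow_mul]
      simp
    exact ⟨fun _ => e2, fun h => absurd e1 h⟩
  · have e1 : (g ^ (2 * j + 1)) ^ m = g ^ m := by
      rw [← zpow_natCast, ← _root_.zpow_mul]
      have e0 : ((2 * j + 1) * (m : ℤ)) = ((2 * m : ℕ) : ℤ) * j + (m : ℤ) := by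
        push_cast
        ring
      rw [e0, zpow_add, _root_.zpow_mul, zpow_natCast, hg2m]
      simp
    have e2 : ((lam (g ^ (2 * j + 1)) : ℂˣ) : ℂ) = -1 := by
      rw [map_zpow, hg1, zpow_add, _root_.zpow_mul]
      simp
    exact ⟨fun h => absurd (e1 ▸ h) hgm, fun _ => e2⟩

/-- Let F be a finite field with q elements, q odd and q ≥ 5, and χ an irreducible complex character of SL₂ over F. If χ has degree (q + 1)/2, then at a diagonal element with entry a, a² ≠ 1, χ takes the value 1 when a is a square in F and −1 otherwise. If χ has degree (q − 1)/2, then at an element g with no eigenvector in F² (so g has order dividing q + 1), χ takes the value −1 when g raised to the power (q + 1)/2 is the identity and the value 1 otherwise. -/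
theorem result {F : Type*} [Field F] [Fintype F] (hodd : Odd (Fintype.card F)) (hq : 5 ≤ Fintype.card F)
    (χ : Matrix.SpecialLinearGroup (Fin 2) F → ℂ) (hχ : Cfsg.IsIrrCharacter (Matrix.SpecialLinearGroup (Fin 2) F) χ) (g : Matrix.SpecialLinearGroup (Fin 2) F) :
    (χ 1 = (((Fintype.card F + 1) / 2 : ℕ) : ℂ) → (g : Matrix (Fin 2) (Fin 2) F) 0 1 = 0 → (g : Matrix (Fin 2) (Fin 2) F) 1 0 = 0 → (g : Matrix (Fin 2) (Fin 2) F) 0 0 ^ 2 ≠ 1 →
      (IsSquare ((g : Matrix (Fin 2) (Fin 2) F) 0 0) → χ g = 1) ∧ (¬ IsSquare ((g : Matrix (Fin 2) (Fin 2) F) 0 0) → χ g = -1)) ∧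
    (χ 1 = (((Fintype.card F - 1) / 2 : ℕ) : ℂ) → (∀ (c : F) (v : Fin 2 → F), v ≠ 0 → (g : Matrix (Fin 2) (Fin 2) F).mulVec v ≠ c • v) →
      (((g ^ ((Fintype.card F + 1) / 2)) : Matrix (Fin 2) (Fin 2) F) = 1 → χ g = -1) ∧ (((g ^ ((Fintype.card F + 1) / 2)) : Matrix (Fin 2) (Fin 2) F) ≠ 1 → χ g = 1)) := by
  classical
  obtain ⟨k, hk⟩ := id hodd
  have hs := six ⟨χ, hχ⟩
  have e1 := degH_iff ⟨χ, hχ⟩ ((Fintype.card F - 1) / 2)
  have e2 := degH_iff ⟨χ, hχ⟩ ((Fintype.card F + 1) / 2)
  constructor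
  · intro hd h01 h10 h2
    have hd' := e2.mp hd
    rcases hs with ⟨h, e⟩ | ⟨h, e⟩ | ⟨h, e⟩ | ⟨h, e⟩ | ⟨h, e⟩ | ⟨h, e⟩
    · exfalso; omega
    · exfalso; omega
    · exfalso; omega
    · obtain ⟨α, hα1, hα2, χ', hp⟩ := mem_AP.mp h
      obtain ⟨a, c, rfl, ha, hc, -⟩ := eq_smk g h10
      have hc0 : c = 0 := by rw [hc, h01]
      subst hc0
      rw [← ha] at h2 ⊢
      have hne := inv_ne_of_sq_ne h2
      have h3 := pair_eq hodd hp (tr_smk_sq_ne h2)
      obtain ⟨-, -, h4, -⟩ := hp
      have h5 := congrFun h4 (smk a 0)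
      rw [sig_diag α hne, Pi.add_apply, h3] at h5
      obtain ⟨q1, q2⟩ := quad_values hodd hα1 hα2 a
      obtain ⟨q3, q4⟩ := quad_values hodd hα1 hα2 a⁻¹
      have hsqi : IsSquare (a : F) ↔ IsSquare ((a⁻¹ : Fˣ) : F) := by
        simp
      constructor
      · intro hsq
        rw [q1 hsq, q3 (hsqi.mp hsq)] at h5
        have h6 : (2 : ℂ) * χ (smk a 0) = 2 * 1 := by linear_combination -h5
        exact mul_left_cancel₀ two_ne_zero h6
      · intro hsq
        rw [q2 hsq, q4 (fun h7 => hsq (hsqi.mpr h7))] at h5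
        have h6 : (2 : ℂ) * χ (smk a 0) = 2 * (-1) := by linear_combination -h5
        exact mul_left_cancel₀ two_ne_zero h6
    · exfalso; omega
    · exfalso; omega
  · intro hd hg
    have hd' := e1.mp hd
    have hg' : NE g := hg
    rcases hs with ⟨h, e⟩ | ⟨h, e⟩ | ⟨h, e⟩ | ⟨h, e⟩ | ⟨h, e⟩ | ⟨h, e⟩
    · exfalso; omega
    · exfalso; omega
    · exfalso; omega
    · exfalso; omega
    · exfalso; omega
    · obtain ⟨C, hC, hcard⟩ := Cfsg.Agent.Lib.Classical.SL2Tori.exists_T2 (F := F)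
      haveI : Finite C := inferInstance
      letI : Fintype C := Fintype.ofFinite _
      obtain ⟨lam, h1, h2, h3⟩ := TM_values C hχ (mem_AM.mp h) hC hcard hodd
      obtain ⟨c, hc, hgc⟩ := exists_conj_mem C hC hcard hodd hg'
      have hm : Fintype.card F + 1 = 2 * ((Fintype.card F + 1) / 2) := by omega
      have hm0 : 0 < (Fintype.card F + 1) / 2 := by omega
      obtain ⟨q1, q2⟩ := real_values hC hm0 (hcard.trans hm) h1 h2 c
      have hval : χ g = χ c :=
        Cfsg.Agent.Lib.Char.Complete.isClassFunction_iff_isConj.mp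
          (Cfsg.Agent.Lib.Char.Basic.isClassFunction_of_isIrrCharacter hχ) _ _ hgc
      rw [hval, h3 c hc]
      obtain ⟨x, hx⟩ := isConj_iff.mp hgc
      have hpow : ∀ n : ℕ, (g ^ n = 1 ↔ c ^ n = 1) := by
        intro n
        have e3 : ((c : SL2 F)) ^ n = x * g ^ n * x⁻¹ := by
          rw [← hx, conj_pow]
        constructor
        · intro h5
          apply Subtype.ext
          simp only [Subgroup.coe_pow, Subgroup.coe_one]
          rw [e3, h5]
          simp
        · intro h5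
          have h6 : ((c : SL2 F)) ^ n = 1 := by
            have := congrArg Subtype.val h5
            simpa using this
          rw [e3] at h6
          have h7 : g ^ n = x⁻¹ * (x * g ^ n * x⁻¹) * x := by group
          rw [h7, h6]
          simp
      have hmat : ∀ n : ℕ, (((g ^ n : SL2 F)) : Matrix (Fin 2) (Fin 2) F) = 1 ↔ g ^ n = 1 := by
        intro n
        constructor
        · intro h5
          apply Subtype.ext
          simpa using h5
        · intro h5
          rw [h5]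
          simp
      constructor
      · intro h5
        rw [q1 ((hpow _).mp ((hmat _).mp h5))]
      · intro h5
        rw [q2 (fun h6 => h5 ((hmat _).mpr ((hpow _).mpr h6)))]
        ring

end Cfsg.Agent.S2435
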