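import Cfsg.Statements.S2436
import Cfsg.Agent.Lib.GL2.McKayB
import Cfsg.Agent.Lib.GL2.McKayTori
import Cfsg.Agent.Lib.GL2.McKayBorel

set_option autoImplicit false
open Cfsg

namespace Cfsg.Agent.S2436

open Cfsg.Agent.Lib.GL2.McKayA Cfsg.Agent.Lib.GL2.McKayB Cfsg.Agent.Lib.GL2.SL2
open Cfsg.Agent.Lib.Classical.SL2Tori Cfsg.Agent.Lib.Classical.QuadExt

section Aux

variable {F : Type*} [Field F] [Fintype F] [DecidableEq F]

lemma index_split (hq : 1 < Fintype.card F) :
    ((diagHom : Fˣ →* SL2 F).range).index = Fintype.card F * (Fintype.card F + 1) := by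
  have h1 := Subgroup.card_mul_index ((diagHom : Fˣ →* SL2 F).range)
  rw [card_split, card_sl2] at h1
  obtain ⟨r, hr⟩ : ∃ r, Fintype.card F = r + 2 := ⟨Fintype.card F - 2, by omega⟩
  rw [hr] at h1 ⊢
  have e : r + 2 - 1 = r + 1 := by omega
  have e2 : (r + 2) ^ 2 - 1 = (r + 1) * (r + 3) := by
    have : (r + 2) ^ 2 = (r + 1) * (r + 3) + 1 := by ring
    omega
  rw [e, e2] at h1
  have h3 : (r + 1) * ((diagHom : Fˣ →* SL2 F).range).index = (r + 1) * ((r + 2) * (r + 2 + 1)) := by
    rw [h1]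
    ring
  exact Nat.eq_of_mul_eq_mul_left (by omega) h3

lemma index_nonsplit {a : F} [Fact (∀ r : F, r ^ 2 ≠ a + 1 * r)] (hq : 1 < Fintype.card F) :
    ((regHom a 1 : normOne F a 1 →* SL2 F).range).index =
      Fintype.card F * (Fintype.card F - 1) := by
  have h1 := Subgroup.card_mul_index ((regHom a 1 : normOne F a 1 →* SL2 F).range)
  rw [card_nonsplit, card_sl2] at h1
  obtain ⟨r, hr⟩ : ∃ r, Fintype.card F = r + 2 := ⟨Fintype.card F - 2, by omega⟩
  rw [hr] at h1 ⊢
  have e : r + 2 - 1 = r + 1 := by omega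
  have e2 : (r + 2) ^ 2 - 1 = (r + 1) * (r + 3) := by
    have : (r + 2) ^ 2 = (r + 1) * (r + 3) + 1 := by ring
    omega
  rw [e2] at h1
  rw [e]
  have h3 : (r + 3) * ((regHom a 1 : normOne F a 1 →* SL2 F).range).index = (r + 3) * ((r + 2) * (r + 1)) := by
    have : r + 2 + 1 = r + 3 := by ring
    rw [this] at h1
    rw [h1]
    ring
  exact Nat.eq_of_mul_eq_mul_left (by omega) h3

/-- The non-split torus exists with its data. -/
lemma exists_nonsplit (hodd : Odd (Fintype.card F)) : ∃ (T : Subgroup (SL2 F)) (w : SL2 F),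
    TD (Cfsg.Agent.Lib.GL2.SL2Values.zz : SL2 F) T w ∧ Nat.card T = Fintype.card F + 1 ∧
      T.index = Fintype.card F * (Fintype.card F - 1) := by
  obtain ⟨a, ha⟩ := exists_irred (F := F)
  haveI : Fact (∀ r : F, r ^ 2 ≠ a + 1 * r) := ⟨ha⟩
  obtain ⟨v, hv⟩ := exists_norm_eq (a := a) (b := 1) (-1 : Fˣ)
  have hv' : QuadraticAlgebra.norm v = -1 := by
    rw [hv]
    simp
  exact ⟨_, _, td_nonsplit hodd hv', card_nonsplit, index_nonsplit Fintype.one_lt_card⟩

end Aux

/-- Let F be a finite field with q elements, q odd, ℓ any prime and S a Sylow ℓ-subgroup of SL₂ over F with normaliser N. Then SL₂ and N have the same number of irreducible complex characters of degree not divisible by ℓ (the McKay equality holds for SL₂ over F at every prime). -/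
theorem result {F : Type*} [Field F] [Fintype F] (hodd : Odd (Fintype.card F)) (ℓ : ℕ) [Fact ℓ.Prime] (S : Sylow ℓ (Matrix.SpecialLinearGroup (Fin 2) F)) :
    Nat.card {χ : Cfsg.IrrCharacter (Matrix.SpecialLinearGroup (Fin 2) F) // ¬ ℓ ∣ Cfsg.charDegree (χ : Matrix.SpecialLinearGroup (Fin 2) F → ℂ)} =
      Nat.card {ψ : Cfsg.IrrCharacter (Subgroup.normalizer ((S : Subgroup (Matrix.SpecialLinearGroup (Fin 2) F)) : Set (Matrix.SpecialLinearGroup (Fin 2) F))) //
        ¬ ℓ ∣ Cfsg.charDegree (ψ : Subgroup.normalizer ((S : Subgroup (Matrix.SpecialLinearGroup (Fin 2) F)) : Set (Matrix.SpecialLinearGroup (Fin 2) F)) → ℂ)} := by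
  classical
  change cnt (fun d => ¬ ℓ ∣ d) (SL2 F) =
    cnt (fun d => ¬ ℓ ∣ d) (Subgroup.normalizer ((S : Subgroup (SL2 F)) : Set (SL2 F)))
  haveI hf : Fact ℓ.Prime := inferInstance
  have hp : ℓ.Prime := hf.out
  have hodd' := hodd
  obtain ⟨k, hk⟩ := hodd
  have hq1 : 1 < Fintype.card F := Fintype.one_lt_card
  have hk0 : 0 < k := by omega
  have ecard : Nat.card (SL2 F) = (2 * k + 1) * ((2 * k) * (2 * k + 2)) := by
    rw [card_sl2, hk]
    congr 1
    have : (2 * k + 1) ^ 2 = 2 * k * (2 * k + 2) + 1 := by ring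
    omega
  by_cases hA : ℓ ∣ Nat.card (SL2 F)
  swap
  · have hS : (S : Subgroup (SL2 F)) = ⊥ := by
      obtain ⟨n, hn⟩ := IsPGroup.iff_card.mp S.isPGroup'
      have h1 : Nat.card S ∣ Nat.card (SL2 F) := Subgroup.card_subgroup_dvd_card _
      have h2 : n = 0 := by
        by_contra h0
        apply hA
        rw [hn] at h1
        exact (dvd_pow_self ℓ h0).trans h1
      rw [h2, pow_zero] at hn
      exact Subgroup.eq_bot_of_card_eq _ hn
    have hN : Subgroup.normalizer ((S : Subgroup (SL2 F)) : Set (SL2 F)) = ⊤ := by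
      rw [hS, Subgroup.eq_top_iff']
      intro g
      rw [Subgroup.mem_normalizer_iff]
      intro h
      simp
    rw [cnt_eq_of_eq _ hN]
    exact cnt_congr _ Subgroup.topEquiv
  have hL := cnt_sl2 (F := F) ⟨k, hk⟩ (fun d => ¬ ℓ ∣ d)
  have e1 : (Fintype.card F + 1) / 2 = k + 1 := by omega
  have e2 : (Fintype.card F - 1) / 2 = k := by omega
  have e3 : (Fintype.card F - 3) / 2 = k - 1 := by omega
  have e4 : Fintype.card F - 1 = 2 * k := by omega
  have e5 : Fintype.card F + 1 = 2 * k + 2 := by omega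
  rw [e1, e2, e3, e4, e5, hk] at hL
  rw [hL]
  have hn1 : ¬ ℓ ∣ 1 := fun h => hp.one_lt.ne' (Nat.dvd_one.mp h)
  rw [if_pos hn1]
  have hsub : ∀ {a b : ℕ}, ℓ ∣ a → ℓ ∣ a + b → ℓ ∣ b := fun h1 h2 => (Nat.dvd_add_right h1).mp h2
  by_cases hB : ℓ ∣ 2 * k + 1
  · -- the characteristic
    have hchar : CharP F ℓ := by
      obtain ⟨p, hpc⟩ := CharP.exists F
      haveI := hpc
      have hpp : p.Prime := CharP.char_is_prime F p
      obtain ⟨n, -, hn⟩ := FiniteField.card F p
      have h1 : ℓ ∣ p ^ (n : ℕ) := by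
        rw [← hn, hk]
        exact hB
      have h2 := (Nat.prime_dvd_prime_iff_eq hp hpp).mp (hp.dvd_of_dvd_pow h1)
      rw [h2]
      exact hpc
    rw [borel_case ⟨k, hk⟩ ℓ S, hk, if_neg (not_not.mpr hB), if_pos, if_pos, if_pos, if_pos]
    · have : 1 ≤ k := hk0
      omega
    · -- `¬ ℓ ∣ k`
      intro h
      exact hn1 (hsub (dvd_mul_of_dvd_right h 2) hB)
    · intro h
      exact hn1 (hsub (h) hB |> fun h' => h')
    · intro h
      apply hn1
      have h3 : ℓ ∣ 2 * k + 1 + 1 := by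
        have : 2 * k + 1 + 1 = 2 * (k + 1) := by ring
        rw [this]
        exact dvd_mul_of_dvd_right h 2
      exact hsub hB h3
    · intro h
      exact hn1 (hsub hB h)
  by_cases hC : ℓ = 2
  · subst hC
    have ht1 : ¬ 2 ∣ 2 * k + 1 := by omega
    have ht2 : ¬ ¬ 2 ∣ 2 * k + 2 := by
      rw [not_not]
      omega
    have ht3 : ¬ ¬ 2 ∣ 2 * k := by
      rw [not_not]
      omega
    rw [if_pos ht1, if_neg ht2, if_neg ht3]
    rcases Nat.even_or_odd k with hke | hko
    · -- `k` even: the split torus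
      obtain ⟨m, hm⟩ := hke
      have hcount := (td_split ⟨k, hk⟩).two_case (T := (diagHom : Fˣ →* SL2 F).range)
        (o := (2 * k + 1) * (k + 1)) (by
          rw [card_split, e4, hm]
          exact ⟨m, by ring⟩)
        (by
          rw [Nat.odd_mul]
          exact ⟨⟨k, rfl⟩, by rw [hm]; exact ⟨m, by ring⟩⟩)
        (by
          rw [index_split hq1, hk]
          ring)
        S
      rw [hcount]
      have h1 : ¬ ¬ 2 ∣ k := by
        rw [not_not, hm]
        omega
      have h2 : ¬ 2 ∣ k + 1 := by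
        rw [hm]
        omega
      rw [if_pos h2, if_neg h1]
      simp
    · obtain ⟨m, hm⟩ := hko
      obtain ⟨T, w, hT, hcard, hidx⟩ := exists_nonsplit (F := F) ⟨k, hk⟩
      have hcount := hT.two_case (o := (2 * k + 1) * k) (by
          rw [hcard, e5, hm]
          exact ⟨m + 1, by ring⟩)
        (by
          rw [Nat.odd_mul]
          exact ⟨⟨k, rfl⟩, ⟨m, hm⟩⟩)
        (by
          rw [hidx, e4, hk]
          ring)
        S
      rw [hcount]
      have h1 : ¬ 2 ∣ k := by
        rw [hm]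
        omega
      have h2 : ¬ ¬ 2 ∣ k + 1 := by
        rw [not_not, hm]
        omega
      rw [if_neg h2, if_pos h1]
      simp
  -- odd primes different from the characteristic
  have hn2 : ¬ ℓ ∣ 2 := fun h => hC ((Nat.prime_dvd_prime_iff_eq hp Nat.prime_two).mp h)
  have hcop : ∀ {a : ℕ}, ℓ ∣ 2 * a → ℓ ∣ a := fun h => (hp.dvd_mul.mp h).resolve_left hn2
  rw [ecard] at hA
  have hA' : ℓ ∣ 2 * k ∨ ℓ ∣ 2 * k + 2 := by
    rcases hp.dvd_mul.mp hA with h | h
    · exact absurd h hB
    · exact hp.dvd_mul.mp h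
  rcases hA' with h | h
  · -- the split torus
    have hk' : ℓ ∣ k := hcop h
    have h3 : ¬ ℓ ∣ 2 * k + 2 := fun h3 => hn2 (hsub h h3)
    have hcount := (td_split ⟨k, hk⟩).odd_case (T := (diagHom : Fˣ →* SL2 F).range) hC
      (by rw [card_split, e4]; exact h)
      (by
        rw [index_split hq1, hk, hp.dvd_mul]
        push Not
        exact ⟨hB, h3⟩)
      S
    rw [hcount, card_split, e4, if_pos hB, if_pos h3, if_neg (not_not.mpr h), if_neg (not_not.mpr hk'), if_pos]
    · have e6 : 2 * k / 2 = k := by omega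
      rw [e6]
      have : 1 ≤ k := hk0
      omega
    · intro h4
      exact hn1 (hsub hk' h4)
  · -- the non-split torus
    have hk' : ℓ ∣ k + 1 := by
      apply hcop
      have : 2 * (k + 1) = 2 * k + 2 := by ring
      rw [this]
      exact h
    have h3 : ¬ ℓ ∣ 2 * k := fun h3 => hn2 (hsub h3 h)
    obtain ⟨T, w, hT, hcard, hidx⟩ := exists_nonsplit (F := F) ⟨k, hk⟩
    have hcount := hT.odd_case hC
      (by rw [hcard, e5]; exact h)
      (by
        rw [hidx, hk, hp.dvd_mul]
        push Not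
        exact ⟨hB, by simpa using h3⟩)
      S
    rw [hcount, hcard, e5, if_pos hB, if_neg (not_not.mpr h), if_pos h3, if_neg (not_not.mpr hk'), if_pos]
    · have e6 : (2 * k + 2) / 2 = k + 1 := by omega
      rw [e6]
      have : 1 ≤ k := hk0
      omega
    · intro h4
      exact hn1 (hsub h4 hk')

end Cfsg.Agent.S2436
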