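import Cfsg.Statements.S2437
import Cfsg.Agent.Lib.SLn.SL2Ind
import Cfsg.Agent.Lib.SLn.DicCount
-- import your own Cfsg.Agent.* helpers here

set_option autoImplicit false
open Cfsg

namespace Cfsg.Agent.S2437

section aux

open Matrix Cfsg
open Cfsg.Agent.Lib.GL2.SL2 Cfsg.Agent.Lib.SLn.SL2Ind

variable {F : Type*} [Field F] [Fintype F] [DecidableEq F]

lemma commute_iff (a b : Fˣ) (c e : F) :
    Commute (sbm a c) (sbm b e) ↔ e * ((a : F) - ((a⁻¹ : Fˣ) : F)) = c * ((b : F) - ((b⁻¹ : Fˣ) : F)) := by
  constructor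
  · intro h
    have h1 := congrFun (congrFun (congrArg Subtype.val h.eq) 0) 1
    have e1 : ((sbm a c * sbm b e : SL2 F) : Matrix (Fin 2) (Fin 2) F) 0 1 = a * e + c * ((b⁻¹ : Fˣ) : F) := by
      rw [Matrix.SpecialLinearGroup.coe_mul, coe_sbm, coe_sbm]
      simp [Matrix.mul_apply, Fin.sum_univ_two]
    have e2 : ((sbm b e * sbm a c : SL2 F) : Matrix (Fin 2) (Fin 2) F) 0 1 = b * c + e * ((a⁻¹ : Fˣ) : F) := by
      rw [Matrix.SpecialLinearGroup.coe_mul, coe_sbm, coe_sbm]
      simp [Matrix.mul_apply, Fin.sum_univ_two]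
    have h2 : ((sbm a c * sbm b e : SL2 F) : Matrix (Fin 2) (Fin 2) F) 0 1 = ((sbm b e * sbm a c : SL2 F) : Matrix (Fin 2) (Fin 2) F) 0 1 := h1
    rw [e1, e2] at h2
    linear_combination h2
  · intro h
    apply Subtype.ext
    show ((sbm a c * sbm b e : SL2 F) : Matrix (Fin 2) (Fin 2) F) = ((sbm b e * sbm a c : SL2 F) : Matrix (Fin 2) (Fin 2) F)
    rw [Matrix.SpecialLinearGroup.coe_mul, Matrix.SpecialLinearGroup.coe_mul, coe_sbm, coe_sbm]
    ext i j
    fin_cases i <;> fin_cases j <;> simp [Matrix.mul_apply, Fin.sum_univ_two]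
    · ring
    · rw [Units.val_inv_eq_inv_val, Units.val_inv_eq_inv_val] at h
      linear_combination h
    · ring

/-- The number of elements commuting with a given element. -/
noncomputable def cnt (a : Fˣ) (c : F) : ℕ :=
  Nat.card {p : Fˣ × F // p.2 * ((a : F) - ((a⁻¹ : Fˣ) : F)) = c * ((p.1 : F) - ((p.1⁻¹ : Fˣ) : F))}

lemma card_comm (a : Fˣ) (c : F) :
    Nat.card {y : BB F // Commute (bEquiv (a, c)) y} = cnt a c := by
  symm
  apply Nat.card_congr
  refine Equiv.subtypeEquiv (bEquiv (F := F)) ?_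
  rintro ⟨b, e⟩
  simp only
  rw [← commute_iff]
  constructor
  · intro h
    exact Subtype.ext h.eq
  · intro h
    exact congrArg Subtype.val h.eq

lemma cnt_ne (a : Fˣ) (c : F) (ha : (a : F) ^ 2 ≠ 1) : cnt a c = Fintype.card F - 1 := by
  have hne : (a : F) - ((a⁻¹ : Fˣ) : F) ≠ 0 := by
    intro h
    apply ha
    have h1 : (a : F) = ((a⁻¹ : Fˣ) : F) := sub_eq_zero.mp h
    rw [pow_two]
    nth_rw 2 [h1]
    simp
  have e : {p : Fˣ × F // p.2 * ((a : F) - ((a⁻¹ : Fˣ) : F)) = c * ((p.1 : F) - ((p.1⁻¹ : Fˣ) : F))} ≃ Fˣ :=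
    { toFun := fun p => p.1.1
      invFun := fun b => ⟨(b, c * ((b : F) - ((b⁻¹ : Fˣ) : F)) / ((a : F) - ((a⁻¹ : Fˣ) : F))), by
        simp only
        field_simp⟩
      left_inv := by
        rintro ⟨⟨b, e⟩, h⟩
        apply Subtype.ext
        apply Prod.ext
        · rfl
        · simp only at h ⊢
          rw [← h]
          field_simp
      right_inv := fun _ => rfl }
  rw [cnt, Nat.card_congr e, Nat.card_eq_fintype_card, Fintype.card_units]

lemma cnt_zero (a : Fˣ) (ha : (a : F) ^ 2 = 1) : cnt a 0 = (Fintype.card F - 1) * Fintype.card F := by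
  have hinv : ((a⁻¹ : Fˣ) : F) = a := by
    have : a * a = 1 := Units.ext (by rw [Units.val_mul, ← pow_two, ha, Units.val_one])
    rw [inv_eq_of_mul_eq_one_left this]
  have e : {p : Fˣ × F // p.2 * ((a : F) - ((a⁻¹ : Fˣ) : F)) = 0 * ((p.1 : F) - ((p.1⁻¹ : Fˣ) : F))} ≃ Fˣ × F :=
    Equiv.subtypeUnivEquiv (by
      intro p
      rw [hinv]
      simp)
  rw [cnt, Nat.card_congr e, Nat.card_prod, Nat.card_eq_fintype_card, Nat.card_eq_fintype_card, Fintype.card_units]

lemma cnt_one (h2 : (2 : F) ≠ 0) (a : Fˣ) (c : F) (ha : (a : F) ^ 2 = 1) (hc : c ≠ 0) :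
    cnt a c = 2 * Fintype.card F := by
  have hinv : ((a⁻¹ : Fˣ) : F) = a := by
    have : a * a = 1 := Units.ext (by rw [Units.val_mul, ← pow_two, ha, Units.val_one])
    rw [inv_eq_of_mul_eq_one_left this]
  have e : {p : Fˣ × F // p.2 * ((a : F) - ((a⁻¹ : Fˣ) : F)) = c * ((p.1 : F) - ((p.1⁻¹ : Fˣ) : F))} ≃ {b : F // b ^ 2 = 1} × F :=
    { toFun := fun p => (⟨p.1.1, by
          have hh : ∀ (x y : F), x * ((a : F) - ((a⁻¹ : Fˣ) : F)) = c * y → y = 0 := by
            intro x y h
            rw [hinv, sub_self, mul_zero] at h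
            exact (mul_eq_zero.mp h.symm).resolve_left hc
          have h3 := hh _ _ p.2
          have h4 : (p.1.1 : F) = ((p.1.1⁻¹ : Fˣ) : F) := sub_eq_zero.mp h3
          rw [pow_two]
          nth_rw 2 [h4]
          simp⟩, p.1.2)
      invFun := fun q => ⟨(Units.mk0 q.1.1 (by
          intro h
          have := q.1.2
          rw [h] at this
          simp at this), q.2), by
          have hq : ((q.1.1 : F)) * q.1.1 = 1 := by
            rw [← pow_two]
            exact q.1.2
          have e1 : (((Units.mk0 q.1.1 (by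
              intro h
              have := q.1.2
              rw [h] at this
              simp at this) : Fˣ)⁻¹ : Fˣ) : F) = q.1.1 := by
            rw [Units.val_inv_eq_inv_val, Units.val_mk0]
            exact inv_eq_of_mul_eq_one_left hq
          simp only
          rw [e1, hinv]
          simp⟩
      left_inv := by
        rintro ⟨⟨b, e⟩, h⟩
        apply Subtype.ext
        apply Prod.ext
        · apply Units.ext
          rfl
        · rfl
      right_inv := by
        rintro ⟨⟨b, hb⟩, e⟩
        rfl }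
  rw [cnt, Nat.card_congr e, Nat.card_prod, card_sqrt_one_of_two_ne_zero h2, Nat.card_eq_fintype_card]

lemma sum_cnt_eq (h2 : (2 : F) ≠ 0) (a : Fˣ) (ha : (a : F) ^ 2 = 1) :
    ∑ c : F, cnt a c = 3 * ((Fintype.card F - 1) * Fintype.card F) := by
  classical
  have hq : 1 ≤ Fintype.card F := Fintype.card_pos
  rw [← Finset.add_sum_erase _ _ (Finset.mem_univ (0 : F)), cnt_zero a ha]
  have h1 : ∀ c ∈ Finset.univ.erase (0 : F), cnt a c = 2 * Fintype.card F := by
    intro c hc
    exact cnt_one h2 a c ha (Finset.ne_of_mem_erase hc)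
  rw [Finset.sum_congr rfl h1, Finset.sum_const, Finset.card_erase_of_mem (Finset.mem_univ _), Finset.card_univ, smul_eq_mul]
  ring

lemma sum_cnt_ne (a : Fˣ) (ha : (a : F) ^ 2 ≠ 1) :
    ∑ c : F, cnt a c = (Fintype.card F - 1) * Fintype.card F := by
  simp only [cnt_ne a _ ha, Finset.sum_const, Finset.card_univ, smul_eq_mul]
  ring

theorem card_classes (h2 : (2 : F) ≠ 0) : Nat.card (ConjClasses (BB F)) = Fintype.card F + 3 := by
  classical
  letI : Fintype (BB F) := Fintype.ofFinite _
  have h1 := Cfsg.Agent.Lib.SLn.DicCount.card_conjClasses_mul (H := BB F)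
  have hM : ∀ a : Fˣ, ∑ c : F, Nat.card {y : BB F // Commute (bEquiv (a, c)) y} =
      (Fintype.card F - 1) * Fintype.card F + (if (a : F) ^ 2 = 1 then 2 * ((Fintype.card F - 1) * Fintype.card F) else 0) := by
    intro a
    simp only [card_comm]
    split_ifs with ha
    · rw [sum_cnt_eq h2 a ha]
      ring
    · rw [sum_cnt_ne a ha, add_zero]
  rw [← Equiv.sum_comp (bEquiv (F := F)), Fintype.sum_prod_type] at h1
  simp only [hM] at h1
  rw [Finset.sum_add_distrib, Finset.sum_const, Finset.card_univ, Fintype.card_units, smul_eq_mul, Finset.sum_ite,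
    Finset.sum_const, Finset.sum_const_zero, add_zero, smul_eq_mul, card_BB] at h1
  have hfilter : (Finset.univ.filter fun a : Fˣ => (a : F) ^ 2 = 1).card = 2 := by
    have e : (Finset.univ.filter fun a : Fˣ => (a : F) ^ 2 = 1) = {1, -1} := by
      ext a
      simp only [Finset.mem_filter, Finset.mem_univ, true_and, Finset.mem_insert, Finset.mem_singleton]
      constructor
      · intro h
        have h3 : ((a : F) - 1) * ((a : F) + 1) = 0 := by linear_combination h
        rcases mul_eq_zero.mp h3 with h4 | h4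
        · left
          exact Units.ext (sub_eq_zero.mp h4)
        · right
          apply Units.ext
          simpa using eq_neg_of_add_eq_zero_left h4
      · rintro (rfl | rfl) <;> simp
    rw [e, Finset.card_pair]
    intro h
    have h3 : (1 : F) = -1 := by
      have := congrArg (fun u : Fˣ => (u : F)) h
      simpa using this
    apply h2
    linear_combination h3
  rw [hfilter] at h1
  have hq : 1 < Fintype.card F := Fintype.one_lt_card
  have hpos : 0 < (Fintype.card F - 1) * Fintype.card F := Nat.mul_pos (by omega) (by omega)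
  apply Nat.eq_of_mul_eq_mul_right hpos
  rw [h1]
  obtain ⟨k, hk⟩ : ∃ k, Fintype.card F = k + 1 := ⟨Fintype.card F - 1, by omega⟩
  rw [hk]
  simp only [Nat.add_sub_cancel]
  ring

end aux

/-- Over a finite field F with q elements, q odd, the upper triangular subgroup of SL₂ (a Borel subgroup, of order q(q − 1)) has exactly q + 3 conjugacy classes. -/
theorem result {F : Type*} [Field F] [Fintype F] (hodd : Odd (Fintype.card F)) :
    Nat.card (ConjClasses ((Cfsg.upperTriangularGL 2 F).comap Matrix.SpecialLinearGroup.toGL)) = Fintype.card F + 3 := by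
  classical
  refine card_classes ?_
  intro h0
  have hc : ringChar F = 2 := by
    have : ringChar F ∣ 2 := ringChar.dvd (by exact_mod_cast h0)
    have hp := CharP.char_is_prime F (ringChar F)
    exact (Nat.prime_dvd_prime_iff_eq hp Nat.prime_two).mp this
  have := FiniteField.even_card_iff_char_two.mp hc
  rw [Nat.odd_iff] at hodd
  omega

end Cfsg.Agent.S2437
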