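import Cfsg.Statements.S2438
import Cfsg.Agent.Lib.GL2.SL2Values

set_option autoImplicit false
open Cfsg

namespace Cfsg.Agent.S2438

open Cfsg.Agent.Lib.GL2.SigSL2 Cfsg.Agent.Lib.GL2.IrrSL2 Cfsg.Agent.Lib.GL2.SL2Values Cfsg.Agent.Lib.GL2.PS Cfsg.Agent.Lib.GL2.IrrGL2 Cfsg.Agent.Lib.GL2.Restrict Cfsg.Agent.Lib.GL2.SL2 Cfsg.Agent.Lib.GL2.Borel

lemma sum_U {F : Type*} [Field F] [Fintype F] [DecidableEq F] (Φ : Matrix.SpecialLinearGroup (Fin 2) F → ℂ) :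
    (∑ g : Matrix.SpecialLinearGroup (Fin 2) F, if (g : Matrix (Fin 2) (Fin 2) F) 1 0 = 0 ∧ (g : Matrix (Fin 2) (Fin 2) F) 0 0 = 1 ∧ (g : Matrix (Fin 2) (Fin 2) F) 1 1 = 1 then Φ g else 0) = ∑ c : F, Φ (smk 1 c) := by
  classical
  rw [← Finset.sum_filter]
  symm
  refine Finset.sum_bij (fun c _ => smk 1 c) ?_ ?_ ?_ ?_
  · intro c _
    simp [coe_smk]
  · intro c _ c' _ h
    have := congrArg (fun g : Matrix.SpecialLinearGroup (Fin 2) F => (g : Matrix (Fin 2) (Fin 2) F) 0 1) h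
    simpa [coe_smk] using this
  · intro g hg
    simp only [Finset.mem_filter, Finset.mem_univ, true_and] at hg
    obtain ⟨h1, h2, h3⟩ := hg
    refine ⟨(g : Matrix (Fin 2) (Fin 2) F) 0 1, Finset.mem_univ _, ?_⟩
    apply Subtype.ext
    rw [coe_smk]
    ext i j
    fin_cases i <;> fin_cases j <;> simp [h1, h2, h3]
  · intro c _
    rfl

lemma sum_uu_pair {F : Type*} [Field F] [Fintype F] [DecidableEq F] {χ χ' φ : Matrix.SpecialLinearGroup (Fin 2) F → ℂ}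
    (hp : Pair χ χ' φ) : ∑ c : F, χ' (smk 1 c) = ∑ c : F, χ (smk 1 c) := by
  obtain ⟨hχ', -, -, x, hx⟩ := hp
  have hrel := conj_uu_rel hχ' hx
  have hd0 : (x : Matrix (Fin 2) (Fin 2) F).det ≠ 0 := (Matrix.isUnits_det_units x).ne_zero
  have hu : ∀ c : F, (smk (1 : Fˣ) c : Matrix.SpecialLinearGroup (Fin 2) F) = uu c := by
    intro c
    apply Subtype.ext
    rw [coe_smk, coe_uu]
    simp
  simp only [hu]
  simp only [← hrel]
  exact (Equiv.sum_comp (Equiv.mulLeft₀ _ hd0) (fun c => χ' (uu c))).symm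

/-- Let F be a finite field with q elements, q odd, q ≥ 5, U the upper unitriangular subgroup of SL₂ over F, and χ an irreducible complex character. The sum of the values of χ over U equals 2q, q, 0, q, 0 according as the degree of χ is q + 1, q, q − 1, (q + 1)/2, (q − 1)/2; so among these five degrees the sum vanishes exactly for the degrees q − 1 and (q − 1)/2, i.e. the irreducible characters of those two degrees are the ones whose restriction to U does not contain the trivial character (the cuspidal characters), while those of degree q + 1, q and (q + 1)/2 are not cuspidal. -/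
theorem result {F : Type*} [Field F] [Fintype F] [DecidableEq F] (hodd : Odd (Fintype.card F)) (hq : 5 ≤ Fintype.card F)
    (χ : Matrix.SpecialLinearGroup (Fin 2) F → ℂ) (hχ : Cfsg.IsIrrCharacter (Matrix.SpecialLinearGroup (Fin 2) F) χ) :
    (χ 1 = (Fintype.card F : ℂ) + 1 →
      (∑ g : Matrix.SpecialLinearGroup (Fin 2) F, if (g : Matrix (Fin 2) (Fin 2) F) 1 0 = 0 ∧ (g : Matrix (Fin 2) (Fin 2) F) 0 0 = 1 ∧ (g : Matrix (Fin 2) (Fin 2) F) 1 1 = 1 then χ g else 0) = 2 * (Fintype.card F : ℂ)) ∧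
    (χ 1 = (Fintype.card F : ℂ) →
      (∑ g : Matrix.SpecialLinearGroup (Fin 2) F, if (g : Matrix (Fin 2) (Fin 2) F) 1 0 = 0 ∧ (g : Matrix (Fin 2) (Fin 2) F) 0 0 = 1 ∧ (g : Matrix (Fin 2) (Fin 2) F) 1 1 = 1 then χ g else 0) = (Fintype.card F : ℂ)) ∧
    (χ 1 = (Fintype.card F : ℂ) - 1 →
      (∑ g : Matrix.SpecialLinearGroup (Fin 2) F, if (g : Matrix (Fin 2) (Fin 2) F) 1 0 = 0 ∧ (g : Matrix (Fin 2) (Fin 2) F) 0 0 = 1 ∧ (g : Matrix (Fin 2) (Fin 2) F) 1 1 = 1 then χ g else 0) = 0) ∧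
    (χ 1 = (((Fintype.card F + 1) / 2 : ℕ) : ℂ) →
      (∑ g : Matrix.SpecialLinearGroup (Fin 2) F, if (g : Matrix (Fin 2) (Fin 2) F) 1 0 = 0 ∧ (g : Matrix (Fin 2) (Fin 2) F) 0 0 = 1 ∧ (g : Matrix (Fin 2) (Fin 2) F) 1 1 = 1 then χ g else 0) = (Fintype.card F : ℂ)) ∧
    (χ 1 = (((Fintype.card F - 1) / 2 : ℕ) : ℂ) →
      (∑ g : Matrix.SpecialLinearGroup (Fin 2) F, if (g : Matrix (Fin 2) (Fin 2) F) 1 0 = 0 ∧ (g : Matrix (Fin 2) (Fin 2) F) 0 0 = 1 ∧ (g : Matrix (Fin 2) (Fin 2) F) 1 1 = 1 then χ g else 0) = 0) := by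
  obtain ⟨k, hk⟩ := id hodd
  have hq1 := q_gt_one (F := F)
  have hs := six ⟨χ, hχ⟩
  have e1 := degH_iff ⟨χ, hχ⟩ ((Fintype.card F - 1) / 2)
  have e2 := degH_iff ⟨χ, hχ⟩ ((Fintype.card F + 1) / 2)
  have e3 := degqm_iff ⟨χ, hχ⟩
  have e4 := degqp_iff ⟨χ, hχ⟩
  have e5 := degq_iff ⟨χ, hχ⟩
  simp only at e1 e2 e3 e4 e5
  rw [e1, e2, e3, e4, e5, sum_U]
  have hcf1 : ∀ θ : Cfsg.Agent.Lib.GL2.Borel.GL2 F → ℂ, IsIrrCharacter _ θ → Cfsg.Agent.Lib.GL2.PS.IsCusp θ →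
      ∑ c : F, (θ ∘ tg) (smk 1 c) = 0 := by
    intro θ hθ hc
    simp only [Function.comp, tg_smk]
    exact cusp_sum (Cfsg.Agent.Lib.Char.Basic.isClassFunction_of_isIrrCharacter hθ) hc 1 1⁻¹
  refine ⟨?_, ?_, ?_, ?_, ?_⟩
  · intro hd
    rcases hs with ⟨h, e⟩ | ⟨h, e⟩ | ⟨h, e⟩ | ⟨h, e⟩ | ⟨h, e⟩ | ⟨h, e⟩
    · exfalso; omega
    · exfalso; omega
    · obtain ⟨α, -, e'⟩ := mem_A3.mp h
      simp only at e'
      rw [e', sum_sig_smk]
      simp
      ring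
    · exfalso; omega
    · exfalso; omega
    · exfalso; omega
  · intro hd
    rcases hs with ⟨h, e⟩ | ⟨h, e⟩ | ⟨h, e⟩ | ⟨h, e⟩ | ⟨h, e⟩ | ⟨h, e⟩
    · exfalso; omega
    · have e' := mem_A2.mp h
      simp only at e'
      rw [e']
      simp only [St1, Pi.sub_apply, Finset.sum_sub_distrib, sum_sig_smk]
      simp [one1]
      ring
    · exfalso; omega
    · exfalso; omega
    · exfalso; omega
    · exfalso; omega
  · intro hd
    rcases hs with ⟨h, e⟩ | ⟨h, e⟩ | ⟨h, e⟩ | ⟨h, e⟩ | ⟨h, e⟩ | ⟨h, e⟩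
    · exfalso; omega
    · exfalso; omega
    · exfalso; omega
    · exfalso; omega
    · obtain ⟨θ, hθ, hc, e'⟩ := mem_AF.mp h
      simp only at e'
      rw [← e']
      exact hcf1 θ hθ hc
    · exfalso; omega
  · intro hd
    rcases hs with ⟨h, e⟩ | ⟨h, e⟩ | ⟨h, e⟩ | ⟨h, e⟩ | ⟨h, e⟩ | ⟨h, e⟩
    · exfalso; omega
    · exfalso; omega
    · exfalso; omega
    · obtain ⟨α, hα, -, χ', hp⟩ := mem_AP.mp h
      simp only at hp
      have h1 := sum_uu_pair hp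
      obtain ⟨-, -, h4, -⟩ := hp
      have h2 := sum_sig_smk α 1
      rw [h4] at h2
      simp only [Pi.add_apply, Finset.sum_add_distrib, h1] at h2
      have h3 : (α⁻¹ : MulChar F ℂ) ((1 : Fˣ) : F) = 1 := by simp
      have h5 : α ((1 : Fˣ) : F) = 1 := by simp
      rw [h3, h5] at h2
      linear_combination h2 / 2
    · exfalso; omega
    · exfalso; omega
  · intro hd
    rcases hs with ⟨h, e⟩ | ⟨h, e⟩ | ⟨h, e⟩ | ⟨h, e⟩ | ⟨h, e⟩ | ⟨h, e⟩
    · exfalso; omega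
    · exfalso; omega
    · exfalso; omega
    · exfalso; omega
    · exfalso; omega
    · obtain ⟨θ, hθ, hc, χ', hp⟩ := mem_AM.mp h
      simp only at hp
      have h1 := sum_uu_pair hp
      obtain ⟨-, -, h4, -⟩ := hp
      have h2 := hcf1 θ hθ hc
      rw [h4] at h2
      simp only [Pi.add_apply, Finset.sum_add_distrib, h1] at h2
      linear_combination h2 / 2

end Cfsg.Agent.S2438
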