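import Cfsg.Statements.S2439
import Cfsg.Agent.Lib.GL2.SL2Blocks
import Cfsg.Agent.Lib.GL2.Torus2

set_option autoImplicit false
open Cfsg

namespace Cfsg.Agent.S2439

open Cfsg.Agent.Lib.GL2.SigSL2 Cfsg.Agent.Lib.GL2.IrrSL2 Cfsg.Agent.Lib.GL2.SL2Values Cfsg.Agent.Lib.GL2.SL2
open Cfsg.Agent.Lib.GL2.SL2Blocks Cfsg.Agent.Lib.Blocks.Local Cfsg.Agent.Lib.Char.Basic Cfsg.Agent.Lib.Char.Complete
open scoped ComplexConjugate

lemma defect_of_one {G : Type*} [Group G] [Finite G] {p : ℕ} {M : Ideal AlgInt}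
    {B : Set (IrrCharacter G)} (P : Sylow p G) (h : IsDefectClass M B 1) :
    IsDefectGroup p M B (P : Subgroup G) := by
  refine ⟨1, h, ?_⟩
  have hN : Subgroup.centralizer ({1} : Set G) = ⊤ := by
    rw [Subgroup.centralizer_eq_top_iff_subset]
    simp [Subgroup.one_mem]
  have hle : (P : Subgroup G) ≤ Subgroup.centralizer ({1} : Set G) := by
    rw [hN]
    exact le_top
  refine ⟨P.subtype hle, ?_⟩
  rw [Sylow.coe_subtype, Subgroup.map_subgroupOf_eq_of_le hle]

section Main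

variable {F : Type*} [Field F] [Fintype F] [DecidableEq F]

lemma neg_one_eq : (-1 : SL2 F) = zz := by
  apply Subtype.ext
  rw [coe_zz]
  ext i j
  fin_cases i <;> fin_cases j <;> simp

lemma zz_eq_smk : (zz : SL2 F) = smk (-1) 0 := by
  apply Subtype.ext
  rw [coe_zz, coe_smk]
  simp

lemma Sg_St1 {p : ℕ} : Sg (St1 (F := F)) 1 := by
  obtain ⟨ω, hω⟩ := exists_Sg (isIrr_St1 (F := F))
  have h1 : St1 (zz : SL2 F) = St1 (1 : SL2 F) := by
    rw [zz_eq_smk]
    exact Cfsg.Agent.Lib.GL2.PSLDeg.St1_central (by simp)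
  have h2 : ω = 1 := by
    have h3 := irr_one_ne_zero (isIrr_St1 (F := F))
    apply mul_right_cancel₀ h3
    rw [← hω.2.1, h1, one_mul]
  rw [← h2]
  exact hω

end Main

/-- Let F be a finite field with q elements of odd characteristic p, and M a maximal ideal of the algebraic integers containing p. Then SL₂ over F has exactly three p-blocks relative to M: the irreducible character of degree q (the Steinberg character) alone; the other irreducible characters taking the same value at −1 as at 1 (the principal block); and the irreducible characters χ with χ(−1) = −χ(1). Every Sylow p-subgroup is a defect group of each of the last two blocks. -/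
theorem result {F : Type*} [Field F] [Fintype F] (p : ℕ) [Fact p.Prime] [CharP F p] (hp : p ≠ 2)
    (M : Ideal Cfsg.AlgInt) (hM : Cfsg.IsPModular p M) :
    (∀ B : Set (Cfsg.IrrCharacter (Matrix.SpecialLinearGroup (Fin 2) F)), Cfsg.IsPBlock M B ↔
      (B = {χ : Cfsg.IrrCharacter (Matrix.SpecialLinearGroup (Fin 2) F) | (χ : Matrix.SpecialLinearGroup (Fin 2) F → ℂ) 1 = (Fintype.card F : ℂ)} ∨
       B = {χ : Cfsg.IrrCharacter (Matrix.SpecialLinearGroup (Fin 2) F) | (χ : Matrix.SpecialLinearGroup (Fin 2) F → ℂ) (-1) = (χ : Matrix.SpecialLinearGroup (Fin 2) F → ℂ) 1 ∧ (χ : Matrix.SpecialLinearGroup (Fin 2) F → ℂ) 1 ≠ (Fintype.card F : ℂ)} ∨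
       B = {χ : Cfsg.IrrCharacter (Matrix.SpecialLinearGroup (Fin 2) F) | (χ : Matrix.SpecialLinearGroup (Fin 2) F → ℂ) (-1) = -(χ : Matrix.SpecialLinearGroup (Fin 2) F → ℂ) 1})) ∧
    Nat.card {B : Set (Cfsg.IrrCharacter (Matrix.SpecialLinearGroup (Fin 2) F)) // Cfsg.IsPBlock M B} = 3 ∧
    ∀ P : Sylow p (Matrix.SpecialLinearGroup (Fin 2) F),
      Cfsg.IsDefectGroup p M {χ : Cfsg.IrrCharacter (Matrix.SpecialLinearGroup (Fin 2) F) | (χ : Matrix.SpecialLinearGroup (Fin 2) F → ℂ) (-1) = (χ : Matrix.SpecialLinearGroup (Fin 2) F → ℂ) 1 ∧ (χ : Matrix.SpecialLinearGroup (Fin 2) F → ℂ) 1 ≠ (Fintype.card F : ℂ)} (P : Subgroup (Matrix.SpecialLinearGroup (Fin 2) F)) ∧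
      Cfsg.IsDefectGroup p M {χ : Cfsg.IrrCharacter (Matrix.SpecialLinearGroup (Fin 2) F) | (χ : Matrix.SpecialLinearGroup (Fin 2) F → ℂ) (-1) = -(χ : Matrix.SpecialLinearGroup (Fin 2) F → ℂ) 1} (P : Subgroup (Matrix.SpecialLinearGroup (Fin 2) F)) := by
  classical
  haveI hprime := isPrime_of_pModular hM
  haveI : Fact (Nat.Prime p) := inferInstance
  have hodd : Odd (Fintype.card F) := by
    have : ringChar F ≠ 2 := by
      rw [ringChar.eq F p]
      exact hp
    exact Nat.odd_iff.mpr (FiniteField.odd_card_of_char_ne_two this)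
  obtain ⟨k, hk⟩ := id hodd
  have hq1 := q_gt_one (F := F)
  have hneg : (-1 : SL2 F) = zz := neg_one_eq
  simp only [hneg]
  have hSt := Sg_St1 (F := F) (p := p)
  -- the Steinberg character
  have deg_q : ∀ χ : IrrCharacter (SL2 F), (χ : SL2 F → ℂ) 1 = (Fintype.card F : ℂ) ↔
      (χ : SL2 F → ℂ) = St1 := by
    intro χ
    constructor
    · intro h
      have e := (degq_iff χ).mp h
      rcases six χ with ⟨h1, e1⟩ | ⟨h1, e1⟩ | ⟨h1, e1⟩ | ⟨h1, e1⟩ | ⟨h1, e1⟩ | ⟨h1, e1⟩
      · exfalso; omega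
      · exact mem_A2.mp h1
      · exfalso; omega
      · exfalso; omega
      · exfalso; omega
      · exfalso; omega
    · intro h
      rw [h, St1_one]
  have sign_iff1 : ∀ χ : IrrCharacter (SL2 F), (χ : SL2 F → ℂ) zz = (χ : SL2 F → ℂ) 1 ↔
      Sg (χ : SL2 F → ℂ) 1 := by
    intro χ
    obtain ⟨ω, hω⟩ := exists_Sg χ.2
    constructor
    · intro h
      have h0 := irr_one_ne_zero χ.2
      have h2 : ω = 1 := by
        apply mul_right_cancel₀ h0
        rw [← hω.2.1, h, one_mul]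
      rw [← h2]
      exact hω
    · intro h
      rw [h.2.1, one_mul]
  have sign_iff2 : ∀ χ : IrrCharacter (SL2 F), (χ : SL2 F → ℂ) zz = -(χ : SL2 F → ℂ) 1 ↔
      Sg (χ : SL2 F → ℂ) (-1) := by
    intro χ
    obtain ⟨ω, hω⟩ := exists_Sg χ.2
    constructor
    · intro h
      have h0 := irr_one_ne_zero χ.2
      have h2 : ω = -1 := by
        apply mul_right_cancel₀ h0
        rw [← hω.2.1, h]
        ring
      rw [← h2]
      exact hω
    · intro h
      rw [h.2.1]
      ring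
  have sign_cases : ∀ χ : IrrCharacter (SL2 F), Sg (χ : SL2 F → ℂ) 1 ∨ Sg (χ : SL2 F → ℂ) (-1) := by
    intro χ
    obtain ⟨ω, hω⟩ := exists_Sg χ.2
    rcases hω.1 with h | h
    · left; rw [← h]; exact hω
    · right; rw [← h]; exact hω
  have h1ne : (1 : ℂ) ≠ -1 := by norm_num
  set B1 : Set (IrrCharacter (SL2 F)) :=
    {χ | (χ : SL2 F → ℂ) 1 = (Fintype.card F : ℂ)} with hB1
  set B2 : Set (IrrCharacter (SL2 F)) :=
    {χ | (χ : SL2 F → ℂ) zz = (χ : SL2 F → ℂ) 1 ∧ (χ : SL2 F → ℂ) 1 ≠ (Fintype.card F : ℂ)} with hB2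
  set B3 : Set (IrrCharacter (SL2 F)) :=
    {χ | (χ : SL2 F → ℂ) zz = -(χ : SL2 F → ℂ) 1} with hB3
  have mem1 : ∀ χ : IrrCharacter (SL2 F), χ ∈ B1 ↔ (χ : SL2 F → ℂ) = St1 := deg_q
  have mem2 : ∀ χ : IrrCharacter (SL2 F), χ ∈ B2 ↔ Sg (χ : SL2 F → ℂ) 1 ∧ (χ : SL2 F → ℂ) ≠ St1 := by
    intro χ
    show ((χ : SL2 F → ℂ) zz = (χ : SL2 F → ℂ) 1 ∧ (χ : SL2 F → ℂ) 1 ≠ (Fintype.card F : ℂ)) ↔ _
    rw [sign_iff1, Ne, deg_q]
  have mem3 : ∀ χ : IrrCharacter (SL2 F), χ ∈ B3 ↔ Sg (χ : SL2 F → ℂ) (-1) := sign_iff2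
  have same_symm : ∀ {χ ψ : SL2 F → ℂ}, SameBlock M χ ψ → SameBlock M ψ χ := fun h =>
    Cfsg.Agent.Lib.Blocks.Central.sameBlock_symm h
  have b1 : blockOf M (St1 (F := F)) = B1 := by
    ext ψ
    rw [mem1]
    show SameBlock M St1 (ψ : SL2 F → ℂ) ↔ _
    constructor
    · intro h
      by_contra hne
      exact not_same_St hM hodd ψ.2 hne h
    · intro h
      rw [h]
      exact Cfsg.Agent.Lib.Blocks.Central.sameBlock_refl _
  have b2 : ∀ χ : IrrCharacter (SL2 F), χ ∈ B2 → blockOf M (χ : SL2 F → ℂ) = B2 := by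
    intro χ hχ
    obtain ⟨hs, hne⟩ := (mem2 χ).mp hχ
    ext ψ
    rw [mem2]
    show SameBlock M (χ : SL2 F → ℂ) (ψ : SL2 F → ℂ) ↔ _
    constructor
    · intro h
      have h2 : (ψ : SL2 F → ℂ) ≠ St1 := by
        intro e
        rw [e] at h
        exact not_same_St hM hodd χ.2 hne (same_symm h)
      refine ⟨?_, h2⟩
      rcases sign_cases ψ with h3 | h3
      · exact h3
      · exact absurd h (not_same_sign hM hp χ.2 ψ.2 hs h3 h1ne)
    · rintro ⟨h3, h4⟩
      exact same_of hM χ.2 ψ.2 hne h4 hs h3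
  have b3 : ∀ χ : IrrCharacter (SL2 F), χ ∈ B3 → blockOf M (χ : SL2 F → ℂ) = B3 := by
    intro χ hχ
    have hs := (mem3 χ).mp hχ
    have hne : ∀ ψ : IrrCharacter (SL2 F), Sg (ψ : SL2 F → ℂ) (-1) → (ψ : SL2 F → ℂ) ≠ St1 := by
      intro ψ h e
      rw [e] at h
      have := Sg_unique isIrr_St1 h hSt
      exact h1ne this.symm
    ext ψ
    rw [mem3]
    show SameBlock M (χ : SL2 F → ℂ) (ψ : SL2 F → ℂ) ↔ _
    constructor
    · intro h
      rcases sign_cases ψ with h3 | h3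
      · exact absurd h (not_same_sign hM hp χ.2 ψ.2 hs h3 h1ne.symm)
      · exact h3
    · intro h3
      exact same_of hM χ.2 ψ.2 (hne χ hs) (hne ψ h3) hs h3
  -- witnesses
  have hone2 : (⟨one1, isIrr_one1⟩ : IrrCharacter (SL2 F)) ∈ B2 := by
    rw [mem2]
    refine ⟨⟨Or.inl rfl, by simp [one1], fun g => by simp [one1]⟩, ?_⟩
    intro h
    have := congrFun h 1
    rw [St1_one] at this
    simp only [one1] at this
    have h2 : ((1 : ℕ) : ℂ) = ((Fintype.card F : ℕ) : ℂ) := by simpa using this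
    have h3 := Nat.cast_injective h2
    omega
  have hSt1m : (⟨St1, isIrr_St1⟩ : IrrCharacter (SL2 F)) ∈ B1 := by
    rw [mem1]
  obtain ⟨χ₃, hχ₃⟩ : ∃ χ : IrrCharacter (SL2 F), χ ∈ B3 := by
    have h0 : ¬ IsConj (1 : SL2 F) zz := by
      rw [isConj_comm, isConj_one_left]
      exact fun e => Cfsg.Agent.Lib.GL2.Torus.zz_ne_one hodd e
    rw [isConj_iff_forall_irr] at h0
    push Not at h0
    obtain ⟨χ, hχ⟩ := h0
    refine ⟨χ, ?_⟩
    rw [mem3]
    rcases sign_cases χ with h3 | h3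
    · exfalso
      apply hχ
      rw [h3.2.1, one_mul]
    · exact h3
  have hblock : ∀ B : Set (IrrCharacter (SL2 F)), IsPBlock M B ↔ (B = B1 ∨ B = B2 ∨ B = B3) := by
    intro B
    constructor
    · rintro ⟨χ, rfl⟩
      by_cases h : (χ : SL2 F → ℂ) = St1
      · left
        rw [h, b1]
      · rcases sign_cases χ with h3 | h3
        · right; left
          exact b2 χ ((mem2 χ).mpr ⟨h3, h⟩)
        · right; right
          exact b3 χ ((mem3 χ).mpr h3)
    · rintro (rfl | rfl | rfl)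
      · exact ⟨⟨St1, isIrr_St1⟩, b1.symm⟩
      · exact ⟨_, (b2 _ hone2).symm⟩
      · exact ⟨_, (b3 _ hχ₃).symm⟩
  have hne12 : B1 ≠ B2 := by
    intro e
    have := hSt1m
    rw [e, mem2] at this
    exact this.2 rfl
  have hne13 : B1 ≠ B3 := by
    intro e
    have := hSt1m
    rw [e, mem3] at this
    have h3 := Sg_unique isIrr_St1 this hSt
    exact h1ne h3.symm
  have hne23 : B2 ≠ B3 := by
    intro e
    have := hone2
    rw [e, mem3] at this
    have h2 := (mem2 _).mp hone2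
    have h3 := Sg_unique isIrr_one1 this h2.1
    exact h1ne h3.symm
  -- masses
  letI : Fintype (IrrCharacter (SL2 F)) := fintypeIrr1
  set f : IrrCharacter (SL2 F) → ℂ := fun χ => (χ : SL2 F → ℂ) 1 * conj ((χ : SL2 F → ℂ) 1) with hf
  have hG0 : (Nat.card (SL2 F) : ℂ) ≠ 0 := Nat.cast_ne_zero.mpr Nat.card_pos.ne'
  have hcolA : ∑ χ, f χ = (Nat.card (SL2 F) : ℂ) := by
    have := sum_irr_mul_conj (G := SL2 F) 1 1
    rw [if_pos (IsConj.refl _)] at this
    have hN : Subgroup.centralizer ({1} : Set (SL2 F)) = ⊤ := by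
      rw [Subgroup.centralizer_eq_top_iff_subset]
      simp [Subgroup.one_mem]
    have hc : Nat.card (Subgroup.centralizer ({1} : Set (SL2 F))) = Nat.card (SL2 F) := by
      rw [hN]
      exact Nat.card_congr Subgroup.topEquiv.toEquiv
    rw [this, hc]
  have hcolB : ∑ χ : IrrCharacter (SL2 F), (χ : SL2 F → ℂ) 1 * conj ((χ : SL2 F → ℂ) zz) = 0 := by
    have := sum_irr_mul_conj (G := SL2 F) 1 zz
    rw [if_neg (by
      rw [isConj_comm, isConj_one_left]
      exact fun e => Cfsg.Agent.Lib.GL2.Torus.zz_ne_one hodd e)] at this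
    exact this
  let Tp : Finset (IrrCharacter (SL2 F)) := Finset.univ.filter fun χ => Sg (χ : SL2 F → ℂ) 1
  let Tm : Finset (IrrCharacter (SL2 F)) := Finset.univ.filter fun χ => ¬ Sg (χ : SL2 F → ℂ) 1
  have hTm : ∀ χ ∈ Tm, Sg (χ : SL2 F → ℂ) (-1) := by
    intro χ hχ
    have h1 := (Finset.mem_filter.mp hχ).2
    exact (sign_cases χ).resolve_left h1
  have hsum1 : ∑ χ ∈ Tp, f χ + ∑ χ ∈ Tm, f χ = (Nat.card (SL2 F) : ℂ) := by
    rw [← hcolA]
    exact Finset.sum_filter_add_sum_filter_not _ _ _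
  have hsum2 : ∑ χ ∈ Tp, f χ - ∑ χ ∈ Tm, f χ = 0 := by
    rw [← hcolB, ← Finset.sum_filter_add_sum_filter_not Finset.univ
      (fun χ : IrrCharacter (SL2 F) => Sg (χ : SL2 F → ℂ) 1), sub_eq_add_neg, ← Finset.sum_neg_distrib]
    congr 1
    · refine Finset.sum_congr rfl fun χ hχ => ?_
      have h1 := (Finset.mem_filter.mp hχ).2
      rw [h1.2.1]
      simp [hf]
    · refine Finset.sum_congr rfl fun χ hχ => ?_
      have h1 := hTm χ hχ
      rw [h1.2.1]
      simp [hf]
  have hTp : ∑ χ ∈ Tp, f χ = (Nat.card (SL2 F) : ℂ) / 2 := by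
    field_simp
    linear_combination hsum1 + hsum2
  have hTmv : ∑ χ ∈ Tm, f χ = (Nat.card (SL2 F) : ℂ) / 2 := by
    field_simp
    linear_combination hsum1 - hsum2
  -- block coefficients
  have hcoef : ∀ B : Set (IrrCharacter (SL2 F)), ∀ S : Finset (IrrCharacter (SL2 F)),
      (∀ χ, χ ∈ S ↔ χ ∈ B) → blockCoeff B 1 = (Nat.card (SL2 F) : ℂ)⁻¹ * ∑ χ ∈ S, f χ := by
    intro B S hS
    have hBS : B = (S : Set (IrrCharacter (SL2 F))) := by
      ext χ
      simp [hS]
    rw [blockCoeff, hBS, finsum_mem_coe_finset]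
  have hc3 : blockCoeff B3 1 = 1 / 2 := by
    rw [hcoef B3 Tm (fun χ => by
      rw [mem3]
      constructor
      · exact hTm χ
      · intro h
        refine Finset.mem_filter.mpr ⟨Finset.mem_univ _, fun h2 => ?_⟩
        have := Sg_unique χ.2 h h2
        exact h1ne this.symm), hTmv]
    field_simp
  have hSti : (⟨St1, isIrr_St1⟩ : IrrCharacter (SL2 F)) ∈ Tp :=
    Finset.mem_filter.mpr ⟨Finset.mem_univ _, hSt⟩
  have hc2 : blockCoeff B2 1 = 1 / 2 - (Fintype.card F : ℂ) ^ 2 / (Nat.card (SL2 F) : ℂ) := by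
    rw [hcoef B2 (Tp.erase ⟨St1, isIrr_St1⟩) (fun χ => by
      rw [mem2, Finset.mem_erase]
      constructor
      · rintro ⟨h1, h2⟩
        exact ⟨(Finset.mem_filter.mp h2).2, fun e => h1 (Subtype.ext e)⟩
      · rintro ⟨h1, h2⟩
        exact ⟨fun e => h2 (congrArg Subtype.val e), Finset.mem_filter.mpr ⟨Finset.mem_univ _, h1⟩⟩)]
    have h5 := Finset.add_sum_erase Tp f hSti
    have h6 : f ⟨St1, isIrr_St1⟩ = (Fintype.card F : ℂ) ^ 2 := by
      simp only [hf]
      rw [St1_one]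
      simp [sq]
    rw [h6, hTp] at h5
    have h7 : ∑ χ ∈ Tp.erase ⟨St1, isIrr_St1⟩, f χ =
        (Nat.card (SL2 F) : ℂ) / 2 - (Fintype.card F : ℂ) ^ 2 := by
      linear_combination h5
    rw [h7]
    field_simp
  -- local properties
  have hp' : p.Prime := Fact.out
  have hp2 : ¬ p ∣ 2 := fun h => hp ((Nat.prime_dvd_prime_iff_eq hp' Nat.prime_two).mp h)
  have hhalf : MemLocalRing M (1 / 2 : ℂ) := by
    have := memLocalRing_natCast_inv hM hp2
    simpa using this
  have hhalf' : ¬ MemLocalIdeal M (1 / 2 : ℂ) := by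
    intro h
    apply one_notMemLocalIdeal (M := M)
    have := memLocalIdeal_mul_left (memLocalRing_natCast (M := M) 2) h
    simpa using this
  have hx : MemLocalIdeal M ((Fintype.card F : ℂ) ^ 2 / (Nat.card (SL2 F) : ℂ)) := by
    have hq : MemLocalIdeal M (Fintype.card F : ℂ) :=
      (natCast_memLocalIdeal_iff hM _).mpr p_dvd_q
    have hnd : ¬ p ∣ Fintype.card F ^ 2 - 1 := by
      intro h3
      have h4 : p ∣ Fintype.card F ^ 2 := Dvd.dvd.pow p_dvd_q (by norm_num)
      have h5 : 1 ≤ Fintype.card F ^ 2 := Nat.one_le_pow _ _ (by omega)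
      have h6 : p ∣ 1 := by
        have := (Nat.dvd_sub h4 h3)
        rwa [Nat.sub_sub_self h5] at this
      exact hp'.one_lt.ne' (Nat.dvd_one.mp h6)
    have hinv := memLocalRing_natCast_inv hM hnd
    have e : (Fintype.card F : ℂ) ^ 2 / (Nat.card (SL2 F) : ℂ) =
        (Fintype.card F : ℂ) * ((Fintype.card F ^ 2 - 1 : ℕ) : ℂ)⁻¹ := by
      rw [card_sl2]
      have h5 : 1 ≤ Fintype.card F ^ 2 := Nat.one_le_pow _ _ (by omega)
      have hq0 : (Fintype.card F : ℂ) ≠ 0 := Nat.cast_ne_zero.mpr (by omega)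
      have hq2 : ((Fintype.card F ^ 2 - 1 : ℕ) : ℂ) ≠ 0 := Nat.cast_ne_zero.mpr (by
        intro h0
        rw [h0] at hnd
        exact hnd (dvd_zero _))
      push_cast
      field_simp
    rw [e]
    exact memLocalIdeal_mul_right hq hinv
  have hcent : ∀ χ : IrrCharacter (SL2 F), ¬ MemLocalIdeal M (centralChar (χ : SL2 F → ℂ) 1) := by
    intro χ
    have : centralChar (χ : SL2 F → ℂ) 1 = 1 := by
      simp only [centralChar]
      rw [index_central (Subgroup.one_mem _)]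
      have h0 := irr_one_ne_zero χ.2
      field_simp
      simp
    rw [this]
    exact one_notMemLocalIdeal
  refine ⟨hblock, ?_, ?_⟩
  · -- the number of blocks
    let T : Finset (Set (IrrCharacter (SL2 F))) := {B1, B2, B3}
    have hT : ∀ B, B ∈ T ↔ IsPBlock M B := by
      intro B
      rw [hblock]
      simp [T]
    haveI : Fintype {B // IsPBlock M B} := Fintype.subtype T hT
    rw [Nat.card_eq_fintype_card, Fintype.card_of_subtype T hT]
    rw [Finset.card_insert_of_notMem, Finset.card_pair hne23]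
    simp [hne12, hne13]
  · intro P
    constructor
    · apply defect_of_one
      refine ⟨?_, ?_, fun χ _ => hcent χ⟩
      · rw [hc2]
        exact memLocalRing_sub hhalf (memLocalRing_of_memLocalIdeal hx)
      · rw [hc2]
        intro h
        apply hhalf'
        have := memLocalIdeal_add h hx
        simpa using this
    · apply defect_of_one
      refine ⟨?_, ?_, fun χ _ => hcent χ⟩
      · rw [hc3]
        exact hhalf
      · rw [hc3]
        exact hhalf'

end Cfsg.Agent.S2439
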