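import Cfsg.Statements.S2531
import Mathlib

set_option autoImplicit false
open Cfsg

namespace Cfsg.Agent.S2531

open Module Projectivization
open scoped LinearAlgebra.Projectivization

section points

variable {F V : Type*} [Field F] [AddCommGroup V] [Module F V]

/-- The point `x` lies in the subspace `W`. -/
def inP (W : Submodule F V) (x : ℙ F V) : Prop := x.rep ∈ W

theorem inP_mk (W : Submodule F V) (v : V) (hv : v ≠ 0) : inP W (mk F v hv) ↔ v ∈ W := by
  obtain ⟨a, ha⟩ := exists_smul_eq_mk_rep F v hv
  unfold inP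
  rw [← ha]
  exact W.smul_mem_iff' a

/-- The points of `W` are the points of the projective space of `W`. -/
noncomputable def pointsEquiv (W : Submodule F V) : ℙ F W ≃ {x : ℙ F V // inP W x} :=
  Equiv.ofBijective
    (fun y => ⟨Projectivization.map W.subtype W.injective_subtype y, by
      induction y using Projectivization.ind with
      | h v hv =>
        rw [Projectivization.map_mk, inP_mk]
        exact v.2⟩)
    (by
      constructor
      · intro y y' hyy'
        exact Projectivization.map_injective W.subtype W.injective_subtype (Subtype.ext_iff.mp hyy')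
      · rintro ⟨x, hx⟩
        have hne : (⟨x.rep, hx⟩ : W) ≠ 0 := by
          intro h
          exact x.rep_nonzero (Subtype.ext_iff.mp h)
        refine ⟨mk F ⟨x.rep, hx⟩ hne, ?_⟩
        apply Subtype.ext
        change Projectivization.map W.subtype W.injective_subtype (mk F ⟨x.rep, hx⟩ hne) = x
        rw [Projectivization.map_mk]
        exact x.mk_rep)

theorem card_points [Finite F] [FiniteDimensional F V] (W : Submodule F V) (hW : W ≠ ⊥) :
    Nat.card {x : ℙ F V // inP W x} ≡ 1 [MOD Nat.card F] := by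
  rw [← Nat.card_congr (pointsEquiv W), card_of_finrank F W rfl]
  have hd : 1 ≤ finrank F W := by
    apply Nat.one_le_iff_ne_zero.mpr
    intro h
    exact hW (Submodule.finrank_eq_zero.mp h)
  obtain ⟨d, hd'⟩ : ∃ d, finrank F W = d + 1 := ⟨finrank F W - 1, by omega⟩
  rw [hd', Finset.sum_range_succ']
  simp only [pow_zero]
  have : Nat.card F ∣ ∑ k ∈ Finset.range d, Nat.card F ^ (k + 1) := by
    apply Finset.dvd_sum
    intro i _
    exact dvd_pow_self _ (by omega)
  obtain ⟨t, ht⟩ := this
  rw [ht]
  simp [Nat.ModEq]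

end points

/-- Let `F` be a finite field and `n ≥ 3`. No set of permutations of the points of the projective space of `Fⁿ`, each induced by an invertible semilinear transformation of `Fⁿ` (so a subset of the full projective semilinear group), is sharply 2-transitive on the points: it is impossible that for all pairs of distinct points `(a, b)` and `(c, d)` exactly one member of the set sends `a` to `c` and `b` to `d`. -/
theorem result {F : Type*} [Field F] [Finite F]
    (n : ℕ) (hn : 3 ≤ n) (S : Set (Equiv.Perm (Projectivization F (Fin n → F))))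
    (hS : ∀ s ∈ S, ∃ (σ : F ≃+* F) (f : (Fin n → F) →ₛₗ[(σ : F →+* F)] (Fin n → F)) (hf : Function.Injective f),
      ∀ x, s x = Projectivization.map f hf x) :
    ¬ (∀ a b c d : Projectivization F (Fin n → F), a ≠ b → c ≠ d →
        ∃! s, s ∈ S ∧ s a = c ∧ s b = d) := by
  classical
  intro h
  have : Finite (ℙ F (Fin n → F)) := (finite_iff_of_finite F (Fin n → F)).mpr inferInstance
  have := Fintype.ofFinite (ℙ F (Fin n → F))
  have := Fintype.ofFinite F
  set q := Nat.card F with hq
  have hq2 : 2 ≤ q := by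
    have := Fintype.one_lt_card (α := F)
    rw [hq, Nat.card_eq_fintype_card]
    omega
  let i₀ : Fin n := ⟨0, by omega⟩
  let i₁ : Fin n := ⟨1, by omega⟩
  have hi : i₁ ≠ i₀ := by
    intro h; simp [i₀, i₁, Fin.ext_iff] at h
  let H : Submodule F (Fin n → F) := LinearMap.ker (LinearMap.proj i₀)
  have hH : ∀ v, v ∈ H ↔ v i₀ = 0 := fun v => by simp [H]
  have he0 : ∀ i : Fin n, (Pi.single i (1 : F) : Fin n → F) ≠ 0 := by
    intro i h
    have := congrFun h i
    simp at this
  let a : (ℙ F (Fin n → F)) := mk F (Pi.single i₀ 1) (he0 i₀)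
  let b₀ : (ℙ F (Fin n → F)) := mk F (Pi.single i₁ 1) (he0 i₁)
  have ha : ¬ inP H a := by
    change ¬ inP H (mk F _ _)
    rw [inP_mk, hH]
    simp
  have hb₀ : inP H b₀ := by
    change inP H (mk F _ _)
    rw [inP_mk, hH]
    simp [hi.symm]
  have hab₀ : a ≠ b₀ := by
    rintro h'
    rw [h'] at ha
    exact ha hb₀
  have hH0 : H ≠ ⊥ := by
    intro h'
    have := (inP_mk H _ (he0 i₁)).mp hb₀
    rw [h', Submodule.mem_bot] at this
    exact he0 i₁ this
  let Sa : Finset (Equiv.Perm (ℙ F (Fin n → F))) := Finset.univ.filter (fun s => s ∈ S ∧ s a = a)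
  let Ph : Finset (ℙ F (Fin n → F)) := Finset.univ.filter (inP H)
  have hPh : ∀ b, b ∈ Ph ↔ inP H b := by
    intro b; simp [Ph]
  have hane : ∀ b ∈ Ph, a ≠ b := by
    intro b hb hab
    rw [hab] at ha
    exact ha ((hPh b).mp hb)
  -- Uniqueness counting
  have claim1 : ∀ b ∈ Ph, ∀ b' ∈ Ph, ∑ s ∈ Sa, (if s b = b' then 1 else 0) = 1 := by
    intro b hb b' hb'
    obtain ⟨s, ⟨hsS, hsa, hsb⟩, huniq⟩ := h a b a b' (hane b hb) (hane b' hb')
    rw [← Finset.card_filter, Finset.card_eq_one]
    refine ⟨s, ?_⟩
    ext t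
    simp only [Finset.mem_filter, Finset.mem_singleton, Sa, Finset.mem_univ, true_and]
    constructor
    · rintro ⟨⟨ht1, ht2⟩, ht3⟩
      exact huniq t ⟨ht1, ht2, ht3⟩
    · rintro rfl
      exact ⟨⟨hsS, hsa⟩, hsb⟩
  have claim2 : Ph.card * Ph.card = ∑ s ∈ Sa, (Ph.filter (fun b => s b ∈ Ph)).card := by
    calc Ph.card * Ph.card = ∑ b ∈ Ph, ∑ b' ∈ Ph, ∑ s ∈ Sa, (if s b = b' then 1 else 0) := by
          rw [Finset.sum_congr rfl (fun b hb => Finset.sum_congr rfl (fun b' hb' => claim1 b hb b' hb'))]
          simp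
      _ = ∑ s ∈ Sa, ∑ b ∈ Ph, ∑ b' ∈ Ph, (if s b = b' then 1 else 0) := by
          rw [Finset.sum_congr rfl (fun b _ => Finset.sum_comm), Finset.sum_comm]
      _ = ∑ s ∈ Sa, (Ph.filter (fun b => s b ∈ Ph)).card := by
          refine Finset.sum_congr rfl fun s _ => ?_
          rw [Finset.card_filter]
          refine Finset.sum_congr rfl fun b _ => ?_
          rw [Finset.sum_ite_eq]
  -- the count in each `s`
  have claim3 : ∀ s ∈ Sa, (Ph.filter (fun b => s b ∈ Ph)).card ≡ 1 [MOD q] := by
    intro s hs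
    have hsS : s ∈ S := (Finset.mem_filter.mp hs).2.1
    obtain ⟨σ, f, hf, hsf⟩ := hS s hsS
    let L : (Fin n → F) →ₗ[F] F :=
      { toFun := fun v => σ.symm (f v i₀)
        map_add' := by intro x y; simp
        map_smul' := by intro c x; simp }
    have hL : ∀ v, L v = 0 ↔ f v i₀ = 0 := by
      intro v
      change σ.symm (f v i₀) = 0 ↔ _
      simp
    let M : (Fin n → F) →ₗ[F] F × F := LinearMap.prod (LinearMap.proj i₀) L
    let W : Submodule F (Fin n → F) := LinearMap.ker M
    have hW : ∀ v, v ∈ W ↔ v ∈ H ∧ f v ∈ H := by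
      intro v
      rw [hH, hH, ← hL]
      simp [W, M, LinearMap.mem_ker]
    have hW0 : W ≠ ⊥ := by
      intro h0
      have h1 := LinearMap.finrank_range_add_finrank_ker M
      have h2 : finrank F (LinearMap.range M) ≤ 2 := by
        have := Submodule.finrank_le (LinearMap.range M)
        simpa using this
      have h3 : finrank F (LinearMap.ker M) = 0 := by
        change finrank F W = 0
        rw [h0]; simp
      rw [h3] at h1
      simp only [finrank_fintype_fun_eq_card, Fintype.card_fin, add_zero] at h1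
      omega
    have hiff : ∀ b : (ℙ F (Fin n → F)), (b ∈ Ph ∧ s b ∈ Ph) ↔ inP W b := by
      intro b
      rw [hPh, hPh]
      induction b using Projectivization.ind with
      | h v hv =>
        rw [hsf, Projectivization.map_mk, inP_mk, inP_mk, inP_mk, hW]
    have hcard : (Ph.filter (fun b => s b ∈ Ph)).card = Nat.card {x : (ℙ F (Fin n → F)) // inP W x} := by
      rw [Nat.card_eq_fintype_card, Fintype.card_subtype]
      congr 1
      ext b
      simp only [Finset.mem_filter, Finset.mem_univ, true_and]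
      exact hiff b
    rw [hcard]
    exact card_points W hW0
  have claim5 : Ph.card ≡ 1 [MOD q] := by
    have hcard : Ph.card = Nat.card {x : (ℙ F (Fin n → F)) // inP H x} := by
      rw [Nat.card_eq_fintype_card, Fintype.card_subtype]
    rw [hcard]
    exact card_points H hH0
  have claim4 : Sa.card + 1 = Nat.card (ℙ F (Fin n → F)) := by
    have h1 : Sa.card = (Finset.univ.erase a).card := by
      apply Finset.card_bij (fun s _ => s b₀)
      · intro s hs
        have hsa : s a = a := (Finset.mem_filter.mp hs).2.2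
        simp only [Finset.mem_erase, Finset.mem_univ, and_true]
        intro hsb
        exact hab₀ (s.injective (hsa.trans hsb.symm))
      · intro s hs t ht hst
        obtain ⟨u, -, huniq⟩ := h a b₀ a (s b₀) hab₀ (by
          intro hsb
          have hsa : s a = a := (Finset.mem_filter.mp hs).2.2
          exact hab₀ (s.injective (hsa.trans hsb)))
        have hs' := Finset.mem_filter.mp hs
        have ht' := Finset.mem_filter.mp ht
        rw [huniq s ⟨hs'.2.1, hs'.2.2, rfl⟩, huniq t ⟨ht'.2.1, ht'.2.2, hst.symm⟩]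
      · intro c hc
        have hc' : a ≠ c := fun h' => (Finset.mem_erase.mp hc).1 h'.symm
        obtain ⟨u, ⟨hu1, hu2, hu3⟩, -⟩ := h a b₀ a c hab₀ hc'
        exact ⟨u, Finset.mem_filter.mpr ⟨Finset.mem_univ _, hu1, hu2⟩, hu3⟩
    rw [h1, Finset.card_erase_of_mem (Finset.mem_univ a), Finset.card_univ, Nat.card_eq_fintype_card]
    have : 0 < Fintype.card (ℙ F (Fin n → F)) := Fintype.card_pos_iff.mpr ⟨a⟩
    omega
  have claim6 : Nat.card (ℙ F (Fin n → F)) ≡ 1 [MOD q] := by
    have h1 := card_points (⊤ : Submodule F (Fin n → F)) (by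
      intro h0
      exact hH0 (by rw [eq_bot_iff, ← h0]; exact le_top))
    have h2 : Nat.card {x : (ℙ F (Fin n → F)) // inP (⊤ : Submodule F (Fin n → F)) x} = Nat.card (ℙ F (Fin n → F)) := by
      apply Nat.card_congr
      exact Equiv.subtypeUnivEquiv (fun x => Submodule.mem_top)
    rw [← h2]
    exact h1
  have claim7 : Sa.card ≡ 0 [MOD q] := by
    have h1 : Sa.card + 1 ≡ 0 + 1 [MOD q] := by
      rw [claim4, zero_add]
      exact claim6
    exact Nat.ModEq.add_right_cancel' 1 h1
  have claim8 : (∑ s ∈ Sa, (Ph.filter (fun b => s b ∈ Ph)).card) ≡ Sa.card [MOD q] := by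
    have h1 : (∑ s ∈ Sa, (Ph.filter (fun b => s b ∈ Ph)).card) ≡ ∑ _s ∈ Sa, 1 [MOD q] := by
      unfold Nat.ModEq
      rw [Finset.sum_nat_mod, Finset.sum_nat_mod Sa q (fun _ => 1)]
      congr 1
      exact Finset.sum_congr rfl (fun s hs => claim3 s hs)
    simpa using h1
  have claim9 : 1 ≡ 0 [MOD q] := by
    calc 1 = 1 * 1 := rfl
      _ ≡ Ph.card * Ph.card [MOD q] := (claim5.symm.mul claim5.symm)
      _ = ∑ s ∈ Sa, (Ph.filter (fun b => s b ∈ Ph)).card := claim2
      _ ≡ Sa.card [MOD q] := claim8
      _ ≡ 0 [MOD q] := claim7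
  have : q ∣ 1 := (Nat.modEq_zero_iff_dvd).mp claim9
  have h1 := Nat.le_of_dvd (by norm_num) this
  omega

end Cfsg.Agent.S2531
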