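import Cfsg.Statements.S2532
import Mathlib

set_option autoImplicit false
open Cfsg

namespace Cfsg.Agent.S2532

open Finset

theorem core {H Ω : Type*} [Group H] [Finite H] [Fintype Ω] [DecidableEq Ω] [MulAction H Ω] (r : ℕ)
    (hc : r * Nat.card H * 2 ^ Nat.card H ≤ Fintype.card Ω) :
    ∃ τ : Equiv.Perm (Fin r) →* Equiv.Perm Ω, Function.Injective τ ∧
      ∀ σ (h : H) (x : Ω), τ σ (h • x) = h • τ σ x := by
  classical
  have := Fintype.ofFinite H
  set n := Nat.card H with hn_def
  have hn : 0 < n := Nat.card_pos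
  have hfinsub : Finite (Subgroup H) := Finite.of_injective (fun K : Subgroup H => (K : Set H)) SetLike.coe_injective
  have := Fintype.ofFinite (Subgroup H)
  have hsub : Fintype.card (Subgroup H) ≤ 2 ^ n := by
    have h1 : Fintype.card (Subgroup H) ≤ Fintype.card (Set H) :=
      Fintype.card_le_of_injective (fun K : Subgroup H => (K : Set H)) SetLike.coe_injective
    rw [Fintype.card_set] at h1
    rw [hn_def, Nat.card_eq_fintype_card]
    exact h1
  obtain ⟨T, hT⟩ := Fintype.exists_le_card_fiber_of_mul_le_card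
    (f := fun x : Ω => MulAction.stabilizer H x) (n := r * n) (by
      calc Fintype.card (Subgroup H) * (r * n) ≤ 2 ^ n * (r * n) := Nat.mul_le_mul_right _ hsub
        _ = r * n * 2 ^ n := by ring
        _ ≤ _ := hc)
  set A : Finset Ω := univ.filter (fun x => MulAction.stabilizer H x = T) with hA
  let π : Ω → MulAction.orbitRel.Quotient H Ω := fun x => Quotient.mk'' x
  have hfib : ∀ c ∈ A.image π, (A.filter (fun x => π x = c)).card ≤ n := by
    intro c hc'
    obtain ⟨x₀, -, rfl⟩ := Finset.mem_image.mp hc'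
    have hsub' : A.filter (fun x => π x = π x₀) ⊆ (univ : Finset H).image (fun h => h • x₀) := by
      intro x hx
      have hx' := (Finset.mem_filter.mp hx).2
      have : x ∈ MulAction.orbit H x₀ := by
        have h2 : MulAction.orbitRel H Ω x x₀ := Quotient.eq''.mp hx'
        exact (MulAction.orbitRel_apply).mp h2
      obtain ⟨h, rfl⟩ := this
      exact Finset.mem_image.mpr ⟨h, mem_univ _, rfl⟩
    calc _ ≤ ((univ : Finset H).image (fun h => h • x₀)).card := Finset.card_le_card hsub'
      _ ≤ (univ : Finset H).card := Finset.card_image_le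
      _ = n := by rw [Finset.card_univ, hn_def, Nat.card_eq_fintype_card]
  have hcard := Finset.card_le_mul_card_image A n hfib
  have hr : r ≤ (A.image π).card := by
    have h3 : r * n ≤ n * (A.image π).card := hT.trans hcard
    rw [mul_comm] at h3
    exact Nat.le_of_mul_le_mul_left h3 hn
  obtain ⟨j⟩ : Nonempty (Fin r ↪ (A.image π)) :=
    Function.Embedding.nonempty_of_card_le (by rw [Fintype.card_fin, Fintype.card_coe]; exact hr)
  have hchoose : ∀ i : Fin r, ∃ x ∈ A, π x = j i := fun i => Finset.mem_image.mp (j i).2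
  choose a haA haπ using hchoose
  have hstab : ∀ i, MulAction.stabilizer H (a i) = T := fun i => (Finset.mem_filter.mp (haA i)).2
  have hwell : ∀ (i : Fin r) (g g' : H), (QuotientGroup.leftRel T) g g' → g • a i = g' • a i := by
    intro i g g' hgg'
    rw [QuotientGroup.leftRel_apply] at hgg'
    have h4 : g⁻¹ * g' ∈ MulAction.stabilizer H (a i) := by rw [hstab]; exact hgg'
    rw [MulAction.mem_stabilizer_iff, mul_smul, inv_smul_eq_iff] at h4
    exact h4.symm
  let ι₀ : Fin r × (H ⧸ T) → Ω := fun p => Quotient.liftOn' p.2 (fun g => g • a p.1) (hwell p.1)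
  have hι₀ : ∀ (i : Fin r) (g : H), ι₀ (i, (g : H ⧸ T)) = g • a i := fun i g => rfl
  have hinj : Function.Injective ι₀ := by
    rintro ⟨i, c⟩ ⟨i', c'⟩ h
    induction c using QuotientGroup.induction_on with | H g => ?_
    induction c' using QuotientGroup.induction_on with | H g' => ?_
    rw [hι₀, hι₀] at h
    have hii : i = i' := by
      have h5 : π (a i) = π (a i') := by
        apply Quotient.eq''.mpr
        apply (MulAction.orbitRel_apply).mpr
        refine ⟨g⁻¹ * g', ?_⟩
        change (g⁻¹ * g') • a i' = a i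
        rw [mul_smul, ← h, inv_smul_smul]
      rw [haπ, haπ] at h5
      exact j.injective (Subtype.ext h5)
    subst hii
    congr 1
    apply QuotientGroup.eq.mpr
    rw [← hstab i, MulAction.mem_stabilizer_iff, mul_smul, ← h, inv_smul_smul]
  let ι : Fin r × (H ⧸ T) ↪ Ω := ⟨ι₀, hinj⟩
  have hιact : ∀ (h : H) (p : Fin r × (H ⧸ T)), h • ι p = ι (p.1, h • p.2) := by
    rintro h ⟨i, c⟩
    induction c using QuotientGroup.induction_on with | H g => ?_
    change h • ι₀ (i, (g : H ⧸ T)) = ι₀ (i, h • (g : H ⧸ T))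
    rw [hι₀, MulAction.Quotient.smul_mk, smul_eq_mul, hι₀, mul_smul]
  let ρ : Equiv.Perm (Fin r) →* Equiv.Perm (Fin r × (H ⧸ T)) :=
    { toFun := fun σ => σ.prodCongr (Equiv.refl _)
      map_one' := by ext x <;> rfl
      map_mul' := by intro σ σ'; ext x <;> rfl }
  have hρ : ∀ σ p, ρ σ p = (σ p.1, p.2) := fun σ p => rfl
  have hρinj : Function.Injective ρ := by
    intro σ σ' hσ
    ext i
    have := congrArg (fun s : Equiv.Perm (Fin r × (H ⧸ T)) => (s (i, ((1 : H) : H ⧸ T))).1) hσ
    simp only [hρ] at this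
    rw [this]
  refine ⟨(Equiv.Perm.viaEmbeddingHom ι).comp ρ, ?_, ?_⟩
  · exact (Equiv.Perm.viaEmbeddingHom_injective ι).comp hρinj
  · intro σ h x
    simp only [MonoidHom.comp_apply, Equiv.Perm.viaEmbeddingHom_apply]
    by_cases hx : x ∈ Set.range ι
    · obtain ⟨⟨i, c⟩, rfl⟩ := hx
      rw [hιact, Equiv.Perm.viaEmbedding_apply, Equiv.Perm.viaEmbedding_apply, hιact]
      rfl
    · have hx' : h • x ∉ Set.range ι := by
        rintro ⟨p, hp⟩
        apply hx
        refine ⟨(p.1, h⁻¹ • p.2), ?_⟩
        rw [← hιact, hp, inv_smul_smul]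
      rw [Equiv.Perm.viaEmbedding_apply_of_notMem _ _ _ hx', Equiv.Perm.viaEmbedding_apply_of_notMem _ _ _ hx]

/-- There is a function `f` of two natural-number arguments such that, whenever `m ≥ f(n, r)`, every subgroup of order `n` of the alternating group of degree `m` centralizes some subgroup of that alternating group isomorphic to the alternating group of degree `r`. -/
theorem result :
    ∃ f : ℕ → ℕ → ℕ, ∀ (m r : ℕ) (H : Subgroup ↥(alternatingGroup (Fin m))), f (Nat.card H) r ≤ m →
      ∃ K : Subgroup ↥(alternatingGroup (Fin m)), Nonempty (↥K ≃* ↥(alternatingGroup (Fin r))) ∧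
        K ≤ Subgroup.centralizer (H : Set ↥(alternatingGroup (Fin m))) := by
  classical
  refine ⟨fun n r => r * n * 2 ^ n, ?_⟩
  intro m r H hf
  obtain ⟨τ, hτinj, hτ⟩ := core (H := H) (Ω := Fin m) r (by simpa using hf)
  -- the sign is trivial on the alternating group
  have hsign : ∀ σ ∈ alternatingGroup (Fin r), Equiv.Perm.sign (τ σ) = 1 := by
    intro σ hσ
    let s : Equiv.Perm (Fin r) →* ℤˣ := Equiv.Perm.sign.comp τ
    by_cases hs : Function.Surjective s
    · have h1 : s = Equiv.Perm.sign := Equiv.Perm.eq_sign_of_surjective_hom hs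
      have h2 : s σ = Equiv.Perm.sign σ := by rw [h1]
      have h3 : Equiv.Perm.sign σ = 1 := Equiv.Perm.mem_alternatingGroup.mp hσ
      rw [h3] at h2
      exact h2
    · have h1 : ∀ x, s x = 1 := by
        intro x
        rcases Int.units_eq_one_or (s x) with h | h
        · exact h
        · exfalso
          apply hs
          intro y
          rcases Int.units_eq_one_or y with h' | h'
          · exact ⟨1, by rw [map_one, h']⟩
          · exact ⟨x, by rw [h, h']⟩
      exact h1 σ
  let τ' : ↥(alternatingGroup (Fin r)) →* ↥(alternatingGroup (Fin m)) :=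
    (τ.comp (alternatingGroup (Fin r)).subtype).codRestrict (alternatingGroup (Fin m))
      (fun σ => Equiv.Perm.mem_alternatingGroup.mpr (hsign σ σ.2))
  have hτ' : ∀ σ : alternatingGroup (Fin r), ((τ' σ : alternatingGroup (Fin m)) : Equiv.Perm (Fin m)) = τ σ := fun σ => rfl
  have hτ'inj : Function.Injective τ' := by
    intro σ σ' h
    have h1 := congrArg (fun z : alternatingGroup (Fin m) => (z : Equiv.Perm (Fin m))) h
    simp only [hτ'] at h1
    exact Subtype.ext (hτinj h1)
  refine ⟨τ'.range, ⟨(MonoidHom.ofInjective hτ'inj).symm⟩, ?_⟩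
  rintro _ ⟨σ, rfl⟩
  rw [Subgroup.mem_centralizer_iff]
  intro h hh
  apply Subtype.ext
  apply Equiv.ext
  intro x
  have h1 := hτ (σ : Equiv.Perm (Fin r)) (⟨h, hh⟩ : H) x
  change (h : Equiv.Perm (Fin m)) ((τ' σ : Equiv.Perm (Fin m)) x) = (τ' σ : Equiv.Perm (Fin m)) ((h : Equiv.Perm (Fin m)) x)
  rw [hτ']
  exact h1.symm

end Cfsg.Agent.S2532
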