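import Cfsg.Statements.S2533
-- import your own Cfsg.Agent.* helpers here

set_option autoImplicit false
open Cfsg
open Matrix

namespace Cfsg.Agent.S2533


local notation "SL" => Matrix.SpecialLinearGroup

variable (p : ℕ) [Fact p.Prime]

/-- The normal subgroup of exponent `p`. -/
abbrev NN := Multiplicative (Fin 3 → ZMod p)

/-- The action by inversion. -/
def phi : ℤˣ →* MulAut (NN p) where
  toFun u := if u = 1 then 1 else MulEquiv.inv _
  map_one' := by simp
  map_mul' := by
    intro a b
    rcases Int.units_eq_one_or a with rfl | rfl <;> rcases Int.units_eq_one_or b with rfl | rfl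
    · simp
    · simp
    · simp
    · simp
      ext x
      simp

/-- The group of order `2 p³`. -/
abbrev HH := NN p ⋊[phi p] ℤˣ

theorem card_HH : Nat.card (HH p) = 2 * p ^ 3 := by
  have h1 : Nat.card (HH p) = Nat.card (NN p) * Nat.card ℤˣ := by
    rw [Nat.card_congr SemidirectProduct.equivProd, Nat.card_prod]
  have h2 : Nat.card (NN p) = p ^ 3 := by
    rw [Nat.card_congr Multiplicative.toAdd, Nat.card_fun, Nat.card_zmod]
    simp
  have h3 : Nat.card ℤˣ = 2 := by
    rw [Nat.card_eq_fintype_card]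
    rfl
  rw [h1, h2, h3, mul_comm]

variable {p}

section Matrices

variable (k : ℕ)

/-- The first map. -/
def N1 : Matrix (Fin k) (Fin (k + 1)) (ZMod p) := fun i j => if (j : ℕ) = i then 1 else 0
/-- The second map. -/
def N2 : Matrix (Fin k) (Fin (k + 1)) (ZMod p) := fun i j => if (j : ℕ) = i + 1 then 1 else 0
/-- The third map. -/
def N3 : Matrix (Fin k) (Fin (k + 1)) (ZMod p) := fun i j => if (i : ℕ) = 1 ∧ (j : ℕ) = 0 then 1 else 0

/-- The linear combination. -/
def NL (x : Fin 3 → ZMod p) : Matrix (Fin k) (Fin (k + 1)) (ZMod p) :=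
  x 0 • N1 k + x 1 • N2 k + x 2 • N3 k

theorem NL_add (x y : Fin 3 → ZMod p) : NL k (x + y) = NL k x + NL k y := by
  simp only [NL, Pi.add_apply, add_smul]
  abel

theorem NL_neg (x : Fin 3 → ZMod p) : NL k (-x) = - NL k x := by
  simp only [NL, Pi.neg_apply, neg_smul]
  abel

theorem NL_zero_iff (hk : 2 ≤ k) (x : Fin 3 → ZMod p) (h : NL k x = 0) : x = 0 := by
  have e0 := congrFun (congrFun h ⟨0, by omega⟩) ⟨0, by omega⟩
  have e1 := congrFun (congrFun h ⟨0, by omega⟩) ⟨1, by omega⟩
  have e2 := congrFun (congrFun h ⟨1, by omega⟩) ⟨0, by omega⟩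
  simp [NL, N1, N2, N3] at e0 e1 e2
  funext i
  fin_cases i
  · exact e0
  · exact e1
  · exact e2

/-- The index type. -/
abbrev Idx := Fin (k + 1) ⊕ Fin k

/-- The unipotent part. -/
def f1mat (x : Fin 3 → ZMod p) : Matrix (Idx k) (Idx k) (ZMod p) := fromBlocks 1 0 (NL k x) 1

theorem f1mat_det (x : Fin 3 → ZMod p) : (f1mat k x).det = 1 := by
  simp [f1mat]

theorem f1mat_add (x y : Fin 3 → ZMod p) : f1mat k (x + y) = f1mat k x * f1mat k y := by
  simp [f1mat, fromBlocks_multiply, NL_add, add_comm]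

theorem f1mat_zero : f1mat (p := p) k 0 = 1 := by
  have h : NL (p := p) k 0 = 0 := by simp [NL]
  simp [f1mat, h, fromBlocks_one]

/-- The unipotent part as a homomorphism. -/
def f1 : NN p →* SL (Idx k) (ZMod p) where
  toFun x := ⟨f1mat k (Multiplicative.toAdd x), f1mat_det k _⟩
  map_one' := Subtype.ext (f1mat_zero k)
  map_mul' x y := Subtype.ext (f1mat_add k _ _)

/-- The involution. -/
def f2mat (u : ℤˣ) : Matrix (Idx k) (Idx k) (ZMod p) := fromBlocks 1 0 0 (((u : ℤ) : ZMod p) • 1)

theorem f2mat_det (hk : Even k) (u : ℤˣ) : (f2mat (p := p) k u).det = 1 := by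
  simp only [f2mat, Matrix.det_fromBlocks_zero₁₂, det_one, one_mul, det_smul, Fintype.card_fin]
  rcases Int.units_eq_one_or u with rfl | rfl
  · simp
  · simp [hk.neg_one_pow]

theorem f2mat_mul (u v : ℤˣ) : f2mat (p := p) k (u * v) = f2mat k u * f2mat k v := by
  simp [f2mat, fromBlocks_multiply, smul_smul, mul_comm]

/-- The involution as a homomorphism. -/
def f2 (hk : Even k) : ℤˣ →* SL (Idx k) (ZMod p) where
  toFun u := ⟨f2mat k u, f2mat_det k hk u⟩
  map_one' := Subtype.ext (by simp [f2mat, fromBlocks_one])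
  map_mul' x y := Subtype.ext (f2mat_mul k _ _)

theorem f_conj (u : ℤˣ) (x : Fin 3 → ZMod p) :
    f2mat k u * f1mat k x = f1mat k (((u : ℤ) : ZMod p) • x) * f2mat k u := by
  rcases Int.units_eq_one_or u with rfl | rfl
  · simp [f2mat, f1mat, fromBlocks_multiply]
  · have h : NL (p := p) k ((-1 : ZMod p) • x) = - NL k x := by
      rw [neg_one_smul, NL_neg]
    simp [f2mat, f1mat, fromBlocks_multiply, NL_neg]

/-- The representation. -/
def psi (hk : Even k) : HH p →* SL (Idx k) (ZMod p) :=
  SemidirectProduct.lift (f1 k) (f2 k hk) (by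
    intro u
    apply MonoidHom.ext
    intro x
    have h1 : ∀ a b c : SL (Idx k) (ZMod p), a = b * c * b⁻¹ ↔ a * b = b * c := by
      intro a b c
      constructor
      · rintro rfl
        group
      · intro h
        rw [← h]
        group
    show f1 k ((phi p u) x) = (f2 k hk u) * (f1 k x) * (f2 k hk u)⁻¹
    rw [h1]
    apply Subtype.ext
    show f1mat k (Multiplicative.toAdd ((phi p u) x)) * f2mat k u = f2mat k u * f1mat k (Multiplicative.toAdd x)
    rw [f_conj]
    congr 2
    rcases Int.units_eq_one_or u with rfl | rfl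
    · simp [phi]
    · simp [phi])

theorem psi_inl (hk : Even k) (x : NN p) :
    (↑(psi (p := p) k hk (SemidirectProduct.inl x)) : Matrix (Idx k) (Idx k) (ZMod p)) = f1mat k (Multiplicative.toAdd x) := by
  simp only [psi, SemidirectProduct.lift_inl]
  rfl

theorem psi_inr (hk : Even k) (u : ℤˣ) :
    (↑(psi (p := p) k hk (SemidirectProduct.inr u)) : Matrix (Idx k) (Idx k) (ZMod p)) = f2mat k u := by
  simp only [psi, SemidirectProduct.lift_inr]
  rfl

theorem psi_apply (hk : Even k) (h : HH p) :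
    (↑(psi (p := p) k hk h) : Matrix (Idx k) (Idx k) (ZMod p)) = f1mat k (Multiplicative.toAdd h.left) * f2mat k h.right := by
  conv_lhs => rw [← SemidirectProduct.inl_left_mul_inr_right h, map_mul]
  rw [Matrix.SpecialLinearGroup.coe_mul, psi_inl, psi_inr]

/-- The Toeplitz argument. -/
theorem toeplitz {a : Matrix (Fin (k + 1)) (Fin (k + 1)) (ZMod p)} {b : Matrix (Fin k) (Fin k) (ZMod p)}
    (h1 : b * N1 (p := p) k = N1 (p := p) k * a) (h2 : b * N2 (p := p) k = N2 (p := p) k * a) :
    a = a 0 0 • 1 ∧ b = a 0 0 • 1 := by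
  -- the entries of the products
  have e1 : ∀ (i : Fin k) (j : Fin (k + 1)), (N1 (p := p) k * a) i j = a i.castSucc j := by
    intro i j
    rw [Matrix.mul_apply, Finset.sum_eq_single i.castSucc]
    · simp [N1]
    · intro m _ hm
      have : ¬ ((m : ℕ) = i) := fun h => hm (Fin.ext (by simpa using h))
      simp [N1, this]
    · simp
  have e2 : ∀ (i : Fin k) (j : Fin (k + 1)), (N2 (p := p) k * a) i j = a i.succ j := by
    intro i j
    rw [Matrix.mul_apply, Finset.sum_eq_single i.succ]
    · simp [N2]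
    · intro m _ hm
      have : ¬ ((m : ℕ) = i + 1) := fun h => hm (Fin.ext (by simpa using h))
      simp [N2, this]
    · simp
  have e3 : ∀ (i : Fin k) (j : Fin k), (b * N1 (p := p) k) i j.castSucc = b i j := by
    intro i j
    rw [Matrix.mul_apply, Finset.sum_eq_single j]
    · simp [N1]
    · intro m _ hm
      have : ¬ ((j : ℕ) = m) := fun h => hm (Fin.ext h.symm)
      simp [N1, this]
    · simp
  have e4 : ∀ (i : Fin k), (b * N1 (p := p) k) i (Fin.last k) = 0 := by
    intro i
    rw [Matrix.mul_apply]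
    apply Finset.sum_eq_zero
    intro m _
    have : ¬ (k = (m : ℕ)) := by have := m.2; omega
    simp [N1, this]
  have e5 : ∀ (i : Fin k) (j : Fin k), (b * N2 (p := p) k) i j.succ = b i j := by
    intro i j
    rw [Matrix.mul_apply, Finset.sum_eq_single j]
    · simp [N2]
    · intro m _ hm
      have : ¬ ((j : ℕ) = m) := fun h => hm (Fin.ext h.symm)
      simp [N2, this]
    · simp
  have e6 : ∀ (i : Fin k), (b * N2 (p := p) k) i 0 = 0 := by
    intro i
    rw [Matrix.mul_apply]
    apply Finset.sum_eq_zero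
    intro m _
    simp [N2]
  have r1 : ∀ (i j : Fin k), a i.castSucc j.castSucc = b i j := by
    intro i j
    exact (e1 i j.castSucc).symm.trans ((congrFun (congrFun h1 i) j.castSucc).symm.trans (e3 i j))
  have r2 : ∀ (i : Fin k), a i.castSucc (Fin.last k) = 0 := by
    intro i
    exact (e1 i (Fin.last k)).symm.trans ((congrFun (congrFun h1 i) (Fin.last k)).symm.trans (e4 i))
  have r3 : ∀ (i j : Fin k), a i.succ j.succ = b i j := by
    intro i j
    exact (e2 i j.succ).symm.trans ((congrFun (congrFun h2 i) j.succ).symm.trans (e5 i j))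
  have r4 : ∀ (i : Fin k), a i.succ 0 = 0 := by
    intro i
    exact (e2 i 0).symm.trans ((congrFun (congrFun h2 i) 0).symm.trans (e6 i))
  -- total versions
  let A : ℕ → ℕ → ZMod p := fun i j => if h : i < k + 1 ∧ j < k + 1 then a ⟨i, h.1⟩ ⟨j, h.2⟩ else 0
  have hA : ∀ (i j : Fin (k + 1)), A i j = a i j := by
    intro i j
    show (if h : (i : ℕ) < k + 1 ∧ (j : ℕ) < k + 1 then a ⟨i, h.1⟩ ⟨j, h.2⟩ else 0) = _
    rw [dif_pos ⟨i.2, j.2⟩]
  have q1 : ∀ i j, i < k → j < k → A (i + 1) (j + 1) = A i j := by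
    intro i j hi hj
    have h3 := r1 ⟨i, hi⟩ ⟨j, hj⟩
    have h4 := r3 ⟨i, hi⟩ ⟨j, hj⟩
    simp only [A]
    rw [dif_pos ⟨by omega, by omega⟩, dif_pos ⟨by omega, by omega⟩]
    exact h4.trans h3.symm
  have q2 : ∀ i, i < k → A (i + 1) 0 = 0 := by
    intro i hi
    simp only [A]
    rw [dif_pos ⟨by omega, by omega⟩]
    exact r4 ⟨i, hi⟩
  have q3 : ∀ i, i < k → A i k = 0 := by
    intro i hi
    simp only [A]
    rw [dif_pos ⟨by omega, by omega⟩]
    exact r2 ⟨i, hi⟩
  have l1 : ∀ j i, j < i → i < k + 1 → A i j = 0 := by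
    intro j
    induction j with
    | zero =>
      intro i hi hi2
      obtain ⟨i, rfl⟩ : ∃ i', i = i' + 1 := ⟨i - 1, by omega⟩
      exact q2 i (by omega)
    | succ j ih =>
      intro i hi hi2
      obtain ⟨i, rfl⟩ : ∃ i', i = i' + 1 := ⟨i - 1, by omega⟩
      rw [q1 i j (by omega) (by omega)]
      exact ih i (by omega) (by omega)
  have l2 : ∀ s i j, j + s = k → i < j → A i j = 0 := by
    intro s
    induction s with
    | zero =>
      intro i j h hij
      obtain rfl : j = k := by omega
      exact q3 i hij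
    | succ s ih =>
      intro i j h hij
      rw [← q1 i j (by omega) (by omega)]
      exact ih (i + 1) (j + 1) (by omega) (by omega)
  have l3 : ∀ i, i < k + 1 → A i i = A 0 0 := by
    intro i
    induction i with
    | zero => intro _; rfl
    | succ i ih =>
      intro hi
      rw [q1 i i (by omega) (by omega)]
      exact ih (by omega)
  have h00 : A 0 0 = a 0 0 := by
    simp [A]
  have ha : a = a 0 0 • 1 := by
    ext i j
    rw [Matrix.smul_apply, Matrix.one_apply, ← hA i j, ← h00]
    by_cases hij : i = j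
    · subst hij
      simp [l3 i i.2]
    · rw [if_neg hij]
      have : (i : ℕ) ≠ j := fun h => hij (Fin.ext h)
      rcases lt_or_gt_of_ne this with h | h
      · rw [l2 (k - j) i j (by have := j.2; omega) h]
        simp
      · rw [l1 j i h i.2]
        simp
  refine ⟨ha, ?_⟩
  ext i j
  rw [← r1 i j]
  conv_lhs => rw [ha]
  simp [Matrix.one_apply, Fin.ext_iff]

end Matrices

section Transfer

variable {ι κ : Type*} [Fintype ι] [DecidableEq ι] [Fintype κ] [DecidableEq κ]

/-- Reindexing the special linear group. -/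
def slEquiv (e : ι ≃ κ) : SL ι (ZMod p) ≃* SL κ (ZMod p) where
  toFun A := ⟨Matrix.reindex e e A.1, by rw [Matrix.det_reindex_self]; exact A.2⟩
  invFun A := ⟨Matrix.reindex e.symm e.symm A.1, by rw [Matrix.det_reindex_self]; exact A.2⟩
  left_inv A := by
    apply Subtype.ext
    simp
  right_inv A := by
    apply Subtype.ext
    simp
  map_mul' A B := by
    apply Subtype.ext
    exact (Matrix.submatrix_mul_equiv A.1 B.1 _ e.symm _).symm

/-- The projection to the projective group. -/
def piP (e : ι ≃ κ) : SL ι (ZMod p) →* Matrix.ProjectiveSpecialLinearGroup κ (ZMod p) :=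
  (QuotientGroup.mk' (Subgroup.center (SL κ (ZMod p)))).comp (slEquiv e).toMonoidHom

theorem piP_surjective (e : ι ≃ κ) : Function.Surjective (piP (p := p) e) :=
  (QuotientGroup.mk'_surjective _).comp (slEquiv e).surjective

theorem piP_eq_one_iff (e : ι ≃ κ) (X : SL ι (ZMod p)) :
    piP e X = 1 ↔ ∃ c : ZMod p, (X : Matrix ι ι (ZMod p)) = c • 1 := by
  show (QuotientGroup.mk' (Subgroup.center (SL κ (ZMod p)))) (slEquiv e X) = 1 ↔ _
  rw [QuotientGroup.mk'_apply, QuotientGroup.eq_one_iff, Matrix.SpecialLinearGroup.mem_center_iff]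
  constructor
  · rintro ⟨r, -, hr⟩
    refine ⟨r, ?_⟩
    have h1 : ((slEquiv e X : SL κ (ZMod p)) : Matrix κ κ (ZMod p)) = Matrix.scalar κ r := by
      rw [hr]
    have h2 : ((slEquiv e X : SL κ (ZMod p)) : Matrix κ κ (ZMod p)) = Matrix.reindex e e X.1 := rfl
    rw [h2] at h1
    have h3 := congrArg (Matrix.reindex e.symm e.symm) h1
    simp only [Matrix.reindex_apply, Matrix.submatrix_submatrix, Equiv.symm_symm] at h3
    ext x y
    have h4 := congrFun (congrFun h3 x) y
    simpa [Matrix.scalar_apply, Matrix.diagonal_apply, Matrix.one_apply, e.injective.eq_iff] using h4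
  · rintro ⟨c, hc⟩
    have hdet : c ^ Fintype.card κ = 1 := by
      have h1 := X.2
      rw [hc, Matrix.det_smul, Matrix.det_one, mul_one] at h1
      rwa [Fintype.card_congr e] at h1
    refine ⟨c, hdet, ?_⟩
    show Matrix.scalar κ c = Matrix.reindex e e X.1
    rw [hc]
    ext x y
    simp [Matrix.scalar_apply, Matrix.diagonal_apply, Matrix.one_apply, e.symm.injective.eq_iff]

end Transfer

section Main

variable (k : ℕ) (hk : Even k) (hk2 : 2 ≤ k) (hp : p ≠ 2)

include hp in
theorem neg_one_ne_one' : (-1 : ZMod p) ≠ 1 := by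
  have : Fact (2 < p) := ⟨by
    have h1 := (Fact.out : p.Prime).two_le
    omega⟩
  exact ZMod.neg_one_ne_one

include hk2 hp in
theorem psi_scalar {hk : Even k} (h : HH p) (c : ZMod p)
    (hc : (↑(psi (p := p) k hk h) : Matrix (Idx k) (Idx k) (ZMod p)) = c • 1) : h = 1 := by
  rw [psi_apply] at hc
  have h1 : f1mat k (Multiplicative.toAdd h.left) * f2mat k h.right =
      fromBlocks 1 0 (NL k (Multiplicative.toAdd h.left)) (((h.right : ℤ) : ZMod p) • 1) := by
    simp [f1mat, f2mat, fromBlocks_multiply]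
  rw [h1] at hc
  let i0 : Fin (k + 1) := 0
  let j0 : Fin k := ⟨0, by omega⟩
  have h2 := congrFun (congrFun hc (Sum.inl i0)) (Sum.inl i0)
  simp at h2
  have h3 : c = 1 := h2.symm
  subst h3
  have h4 : NL k (Multiplicative.toAdd h.left) = 0 := by
    ext i j
    have h5 := congrFun (congrFun hc (Sum.inr i)) (Sum.inl j)
    simpa using h5
  have h6 := NL_zero_iff k hk2 _ h4
  have h7 := congrFun (congrFun hc (Sum.inr j0)) (Sum.inr j0)
  simp at h7
  have h8 : h.right = 1 := by
    rcases Int.units_eq_one_or h.right with h9 | h9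
    · exact h9
    · rw [h9] at h7
      simp at h7
      exact absurd h7 (neg_one_ne_one' hp)
  apply SemidirectProduct.ext
  · exact h6
  · exact h8

variable {k}

/-- Power relation. -/
theorem pow_rel {ι : Type*} [Fintype ι] [DecidableEq ι] {X R : Matrix ι ι (ZMod p)} {c : ZMod p}
    (h : X * R = c • (R * X)) (m : ℕ) : X * R ^ m = c ^ m • (R ^ m * X) := by
  induction m with
  | zero => simp
  | succ m ih =>
    rw [pow_succ, ← Matrix.mul_assoc, ih, Matrix.smul_mul, Matrix.mul_assoc, h, Matrix.mul_smul, smul_smul,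
      ← Matrix.mul_assoc, pow_succ]

/-- The scalar for an element of order dividing `p` is trivial. -/
theorem scalar_of_pow {ι : Type*} [Fintype ι] [DecidableEq ι] [Nonempty ι] {X R : Matrix ι ι (ZMod p)} {c : ZMod p}
    (hX : IsUnit X) (h : X * R = c • (R * X)) (hR : R ^ p = 1) : c = 1 := by
  have h1 := pow_rel h p
  rw [hR, one_mul, mul_one, ZMod.pow_card] at h1
  have hdet : IsUnit X.det := (Matrix.isUnit_iff_isUnit_det X).mp hX
  have h2 : (1 : Matrix ι ι (ZMod p)) = c • 1 := by
    have h3 := congrArg (fun M => M * X⁻¹) h1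
    simp only [Matrix.smul_mul, Matrix.mul_nonsing_inv X hdet] at h3
    exact h3
  obtain ⟨i⟩ := ‹Nonempty ι›
  have := congrFun (congrFun h2 i) i
  simp at this
  exact this.symm

theorem trace_f2 : Matrix.trace (f2mat (p := p) k (-1)) = 1 := by
  simp [f2mat, Matrix.trace, Fintype.sum_sum_type, Matrix.one_apply]

/-- The commutant. -/
theorem centr (hk2 : 2 ≤ k) (hk : Even k) (hp : p ≠ 2) (X : SL (Idx k) (ZMod p))
    (h : ∀ x : HH p, ∃ c : ZMod p, X.1 * (psi (p := p) k hk x).1 = c • ((psi (p := p) k hk x).1 * X.1)) :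
    ∃ c : ZMod p, X.1 = c • 1 := by
  have hXu : IsUnit X.1 := by
    rw [Matrix.isUnit_iff_isUnit_det, X.2]
    exact isUnit_one
  -- the involution
  have h2 : X.1 * f2mat k (-1) = f2mat k (-1) * X.1 := by
    obtain ⟨c, hc⟩ := h (SemidirectProduct.inr (-1))
    rw [show (psi (p := p) k hk (SemidirectProduct.inr (-1))).1 = f2mat k (-1) from psi_inr k hk (-1)] at hc
    have hc1 : c = 1 := by
      have h3 : Matrix.trace (X.1⁻¹ * (X.1 * f2mat (p := p) k (-1))) = Matrix.trace (f2mat (p := p) k (-1)) := by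
        rw [← Matrix.mul_assoc, Matrix.nonsing_inv_mul _ ((Matrix.isUnit_iff_isUnit_det _).mp hXu), Matrix.one_mul]
      rw [hc, Matrix.mul_smul, Matrix.trace_smul, Matrix.trace_mul_comm, Matrix.mul_assoc,
        Matrix.mul_nonsing_inv _ ((Matrix.isUnit_iff_isUnit_det _).mp hXu), Matrix.mul_one, trace_f2] at h3
      simpa using h3
    rw [hc, hc1, one_smul]
  -- the unipotent elements
  have h1 : ∀ i : Fin 3, X.1 * f1mat k (Pi.single i 1) = f1mat k (Pi.single i 1) * X.1 := by
    intro i
    let a : NN p := Multiplicative.ofAdd (Pi.single i 1)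
    obtain ⟨c, hc⟩ := h (SemidirectProduct.inl a)
    have hρ : (psi (p := p) k hk (SemidirectProduct.inl a)).1 = f1mat k (Pi.single i 1) := psi_inl k hk a
    have hpow : (f1mat (p := p) k (Pi.single i 1)) ^ p = 1 := by
      rw [← hρ, ← Matrix.SpecialLinearGroup.coe_pow, ← map_pow, ← map_pow]
      have h5 : a ^ p = 1 := by
        apply Multiplicative.toAdd.injective
        simp only [a, toAdd_pow, toAdd_ofAdd, toAdd_one]
        funext j
        simp
      rw [h5]
      simp
    rw [hρ] at hc
    have hc1 : c = 1 := scalar_of_pow hXu hc hpow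
    rw [hc, hc1, one_smul]
  -- the blocks
  set g00 := X.1.toBlocks₁₁ with hg00
  set g01 := X.1.toBlocks₁₂ with hg01
  set g10 := X.1.toBlocks₂₁ with hg10
  set g11 := X.1.toBlocks₂₂ with hg11
  have hX : X.1 = fromBlocks g00 g01 g10 g11 := (Matrix.fromBlocks_toBlocks X.1).symm
  have h20 : (2 : ZMod p) ≠ 0 := by
    intro h0
    have h3 : (-1 : ZMod p) = 1 := by
      linear_combination -h0
    exact neg_one_ne_one' hp h3
  rw [hX] at h1 h2
  simp only [f2mat, fromBlocks_multiply] at h2
  obtain ⟨-, h3, h4, -⟩ := Matrix.fromBlocks_inj.mp h2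
  simp at h3 h4
  have h01 : g01 = 0 := by
    have h5 : (2 : ZMod p) • g01 = 0 := by
      rw [two_smul]
      nth_rewrite 1 [← h3]
      simp
    exact (smul_eq_zero.mp h5).resolve_left h20
  have h10 : g10 = 0 := by
    have h5 : (2 : ZMod p) • g10 = 0 := by
      rw [two_smul]
      nth_rewrite 1 [h4]
      simp
    exact (smul_eq_zero.mp h5).resolve_left h20
  have hN : ∀ i, g11 * NL (p := p) k (Pi.single i 1) = NL (p := p) k (Pi.single i 1) * g00 := by
    intro i
    have h5 := h1 i
    simp only [f1mat, fromBlocks_multiply, h01, h10] at h5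
    obtain ⟨-, -, h6, -⟩ := Matrix.fromBlocks_inj.mp h5
    simpa using h6
  have hN1 : NL (p := p) k (Pi.single 0 1) = N1 k := by
    simp [NL]
  have hN2 : NL (p := p) k (Pi.single 1 1) = N2 k := by
    simp [NL]
  have h6 := hN 0
  have h7 := hN 1
  rw [hN1] at h6
  rw [hN2] at h7
  obtain ⟨h8, h9⟩ := toeplitz k h6 h7
  refine ⟨g00 0 0, ?_⟩
  generalize g00 0 0 = β at h8 h9 ⊢
  rw [hX, h01, h10, h8, h9, ← fromBlocks_one, fromBlocks_smul]
  simp

end Main

/-- For every odd prime `p` there is a finite group `H` of order `2p³` which, for infinitely many `n`, embeds in the projective special linear group `PSL(n, p)` as a subgroup with trivial centralizer. -/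
theorem result
    (p : ℕ) [Fact p.Prime] (hp : p ≠ 2) :
    ∃ (H : Type) (_ : Group H) (_ : Finite H), Nat.card H = 2 * p ^ 3 ∧
      ∀ N : ℕ, ∃ n, N ≤ n ∧ ∃ φ : H →* Matrix.ProjectiveSpecialLinearGroup (Fin n) (ZMod p),
        Function.Injective φ ∧ Subgroup.centralizer (φ.range : Set (Matrix.ProjectiveSpecialLinearGroup (Fin n) (ZMod p))) = ⊥ := by
  classical
  refine ⟨HH p, inferInstance, Finite.of_equiv _ SemidirectProduct.equivProd.symm, card_HH p, ?_⟩
  intro N
  let k := 2 * (N + 1)
  have hk : Even k := ⟨N + 1, by simp only [k]; ring⟩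
  have hk2 : 2 ≤ k := by simp only [k]; omega
  let e : Idx k ≃ Fin (k + 1 + k) := finSumFinEquiv
  refine ⟨k + 1 + k, by simp only [k]; omega, (piP e).comp (psi k hk), ?_, ?_⟩
  · rw [injective_iff_map_eq_one]
    intro h hh
    obtain ⟨c, hc⟩ := (piP_eq_one_iff e _).mp hh
    exact psi_scalar k hk2 hp h c hc
  · rw [eq_bot_iff]
    intro y hy
    rw [Subgroup.mem_bot]
    obtain ⟨X, rfl⟩ := piP_surjective e y
    apply (piP_eq_one_iff e X).mpr
    apply centr hk2 hk hp X
    intro h
    have h1 : piP e X * piP e (psi k hk h) = piP e (psi k hk h) * piP e X := by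
      have := Subgroup.mem_centralizer_iff.mp hy _ (⟨h, rfl⟩ : (piP e).comp (psi k hk) h ∈ ((piP e).comp (psi k hk)).range)
      exact this.symm
    have h2 : piP e (X * psi k hk h * X⁻¹ * (psi k hk h)⁻¹) = 1 := by
      simp only [map_mul, map_inv]
      rw [h1]
      group
    obtain ⟨c, hc⟩ := (piP_eq_one_iff e _).mp h2
    refine ⟨c, ?_⟩
    have h3 : X * psi k hk h = (X * psi k hk h * X⁻¹ * (psi k hk h)⁻¹) * (psi k hk h * X) := by
      group
    have h4 := congrArg (fun A : SL (Idx k) (ZMod p) => A.1) h3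
    simp only [Matrix.SpecialLinearGroup.coe_mul] at h4 hc
    rw [h4, hc, Matrix.smul_mul, Matrix.one_mul]

end Cfsg.Agent.S2533
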