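import Cfsg.Statements.S2536
import Cfsg.Agent.Lib.HallPrime.Trans

set_option autoImplicit false
open Cfsg

namespace Cfsg.Agent.S2536

open Equiv Equiv.Perm MulAction
open Cfsg.Agent.Lib.HallPrime.Arith Cfsg.Agent.Lib.HallPrime.Trans

/-- The "only if" direction. -/
theorem only_if (n : ℕ) (π : Set ℕ)
    (h2 : ∃ r s : ℕ, r.Prime ∧ s.Prime ∧ r ≠ s ∧ r ∈ π ∧ s ∈ π ∧ r ≤ n ∧ s ≤ n)
    (hns : ∃ r : ℕ, r.Prime ∧ r ≤ n ∧ r ∉ π) (H : Subgroup (Perm (Fin n))) (hH : Cfsg.IsPiHall π H) :
    ((n.Prime ∧ ∀ r : ℕ, r.Prime → r ≤ n → (r ∈ π ↔ r < n)) ∨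
       ((n = 7 ∨ n = 8) ∧ ∀ r : ℕ, r.Prime → r ≤ n → (r ∈ π ↔ (r = 2 ∨ r = 3)))) := by
  classical
  obtain ⟨r₁, s₁, hr₁, hs₁, hrs, hr₁π, hs₁π, hr₁n, hs₁n⟩ := h2
  obtain ⟨q, hq, hqn, hqπ⟩ := hns
  have hn2 : 2 ≤ n := hq.two_le.trans hqn
  haveI : Nonempty (Fin n) := ⟨⟨0, by omega⟩⟩
  have hcardn : Nat.card (Fin n) = n := by simp
  obtain ⟨x₀, hx₀⟩ := Finite.exists_max (fun x : Fin n => (orbit H x).ncard)
  set O := orbit H x₀ with hO
  set a := O.ncard with ha
  have hS : ∀ g ∈ H, ∀ x, (g x ∈ O) ↔ x ∈ O := by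
    intro g hg x
    constructor
    · rintro ⟨h, hh⟩
      refine ⟨(⟨g, hg⟩ : H)⁻¹ * h, ?_⟩
      have hh' : h • x₀ = g x := hh
      show ((⟨g, hg⟩ : H)⁻¹ * h) • x₀ = x
      rw [mul_smul, hh']
      show g⁻¹ (g x) = x
      simp
    · rintro ⟨h, rfl⟩
      refine ⟨(⟨g, hg⟩ : H) * h, ?_⟩
      show ((⟨g, hg⟩ : H) * h) • x₀ = g (h • x₀)
      rw [mul_smul]
      rfl
  obtain ⟨J, hJ⟩ := index_restr H (fun x => x ∈ O) hS
  have hcardO : Nat.card {x // x ∈ O} = a := Nat.card_coe_set_eq O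
  rw [hcardn, hcardO] at hJ
  set A := (restr H (fun x => x ∈ O) hS).range with hA
  have hAH : Cfsg.IsPiHall π A := by
    constructor
    · intro p hp hpd
      exact hH.1 p hp (hpd.trans (card_range_restr_dvd H _ hS))
    · intro p hp hpπ hpd
      apply hH.2 p hp hpπ
      rw [← hJ]
      exact (hpd.trans (dvd_mul_left _ _)).trans (dvd_mul_right _ _)
  have hAtr : IsPretransitive A {x // x ∈ O} := by
    constructor
    rintro ⟨x, g, rfl⟩ ⟨y, h, rfl⟩
    have hmem : ((h * g⁻¹ : H) : Perm (Fin n)) ∈ H := (h * g⁻¹).2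
    refine ⟨⟨restr H (fun x => x ∈ O) hS ⟨_, hmem⟩, MonoidHom.mem_range.2 ⟨_, rfl⟩⟩, ?_⟩
    apply Subtype.ext
    change ((h * g⁻¹ : H) : Perm (Fin n)) (g • x₀) = h • x₀
    change (h * g⁻¹) • (g • x₀) = h • x₀
    simp [mul_smul]
  have hC := trans_main π a {x // x ∈ O} A hcardO hAH hAtr
  have hale : a ≤ n := by
    exact (Set.ncard_le_card O).trans_eq hcardn
  -- cycles lie in orbits
  have hbound : ∀ p t : ℕ, p.Prime → p ∈ π → 1 ≤ t → p ^ t ≤ n → p ^ t ≤ a := by
    intro p t hp hpπ ht hle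
    obtain ⟨z, hzH, hz, hzs⟩ := exists_cycle_of_hall hH hp hpπ ht (by rwa [hcardn])
    obtain ⟨y, hy, hall⟩ := hz
    have hsub : ((z.support : Finset (Fin n)) : Set (Fin n)) ⊆ orbit H y := by
      intro w hw
      have hw' : z w ≠ w := by simpa using hw
      obtain ⟨i, hi⟩ := hall hw'
      exact ⟨⟨z ^ i, H.zpow_mem hzH i⟩, hi⟩
    have h1 := Set.ncard_le_ncard hsub (Set.toFinite _)
    rw [Set.ncard_coe_finset, hzs] at h1
    exact h1.trans (hx₀ y)
  have hbound1 : ∀ p : ℕ, p.Prime → p ∈ π → p ≤ n → p ≤ a := by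
    intro p hp hpπ hle
    have := hbound p 1 hp hpπ (le_refl 1) (by rwa [pow_one])
    rwa [pow_one] at this
  have hr₁a := hbound1 r₁ hr₁ hr₁π hr₁n
  have hs₁a := hbound1 s₁ hs₁ hs₁π hs₁n
  have hC' : (∀ q : ℕ, q.Prime → q ≤ a → q ∈ π) ∨
      (a = 8 ∧ ∀ r : ℕ, r.Prime → r ≤ 8 → (r ∈ π ↔ r = 2 ∨ r = 3)) := by
    rcases hC with h | h | h
    · exact Or.inl h
    · exact absurd (h r₁ s₁ hr₁ hs₁ hr₁π hs₁π hr₁a hs₁a) hrs
    · exact Or.inr h
  have h2π : 2 ∈ π := by
    rcases hC' with h | h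
    · exact h 2 Nat.prime_two (hr₁.two_le.trans hr₁a)
    · exact (h.2 2 Nat.prime_two (by norm_num)).2 (Or.inl rfl)
  -- the large 2-cycle
  have hnlt : n < 2 * a := by
    have h1 := Nat.pow_log_le_self 2 (show n ≠ 0 by omega)
    have h2 := Nat.lt_pow_succ_log_self (show 1 < 2 by norm_num) n
    have h3 : 1 ≤ Nat.log 2 n := Nat.log_pos (by norm_num) hn2
    have h4 := hbound 2 (Nat.log 2 n) Nat.prime_two h2π h3 h1
    rw [pow_succ] at h2
    omega
  have hchoose : ∀ p : ℕ, p.Prime → p ∈ π → ¬ p ∣ n.choose a := by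
    intro p hp hpπ hd
    apply hH.2 p hp hpπ
    rw [← hJ]
    exact (hd.trans (dvd_mul_right _ _)).trans (dvd_mul_right _ _)
  by_cases han : a = n
  · rcases hC' with h | h
    · exact absurd (h q hq (by omega)) hqπ
    · right
      have hn8 : n = 8 := by omega
      subst hn8
      exact ⟨Or.inr rfl, h.2⟩
  have halt : a < n := by omega
  rcases hC' with h | h
  · -- all primes `≤ a` lie in `π`
    obtain ⟨b, hb⟩ : ∃ b, n = a + b := ⟨n - a, by omega⟩
    have hab : b < a := by omega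
    have hb1 : 1 ≤ b := by omega
    have hE := ecklund hab hb1 (fun p hp hpa hd => by
      apply hchoose p hp (h p hp hpa)
      rw [hb]
      have : (a + b).choose a = (a + b).choose b := by
        have := Nat.choose_symm_add (a := a) (b := b)
        exact this
      rw [this]
      exact hd)
    rcases hE with rfl | ⟨h4, h3⟩
    · left
      have hnprime : n.Prime := by
        rw [Nat.prime_def_minFac]
        refine ⟨hn2, ?_⟩
        by_contra hne
        have h1 : n.minFac ∣ n := Nat.minFac_dvd n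
        have h2 : n.minFac.Prime := Nat.minFac_prime (by omega)
        have h3 : n.minFac ≤ n := Nat.le_of_dvd (by omega) h1
        have h4 : n.minFac ≤ a := by omega
        apply hchoose _ h2 (h _ h2 h4)
        have h5 : n.choose a = n := by
          rw [hb, Nat.choose_succ_self_right]
        rw [h5]
        exact h1
      refine ⟨hnprime, ?_⟩
      intro r hr hrn
      constructor
      · intro hrπ
        have := hbound1 r hr hrπ hrn
        omega
      · intro hrlt
        exact h r hr (by omega)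
    · right
      have hn7 : n = 7 := by omega
      refine ⟨Or.inl hn7, ?_⟩
      intro r hr hrn
      constructor
      · intro hrπ
        have h5 := hbound1 r hr hrπ hrn
        have h6 := hr.two_le
        rw [h4] at h5
        interval_cases r
        · left; rfl
        · right; rfl
        · norm_num at hr
      · rintro (rfl | rfl)
        · exact h 2 Nat.prime_two (by omega)
        · exact h 3 Nat.prime_three (by omega)
  · -- `a = 8`, `8 < n < 16`
    exfalso
    obtain ⟨ha8, hπ8⟩ := h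
    have h3π : 3 ∈ π := (hπ8 3 Nat.prime_three (by norm_num)).2 (Or.inr rfl)
    have hn1 : 9 ≤ n := by omega
    have hn2 : n ≤ 15 := by omega
    have h5 := hchoose 3 Nat.prime_three h3π
    rw [ha8] at h5
    apply h5
    clear_value a O A
    clear * -hn1 hn2
    interval_cases n <;> decide

/-- A prime: the point stabilizer. -/
theorem if_prime (n : ℕ) (π : Set ℕ) (hn : n.Prime) (h : ∀ r : ℕ, r.Prime → r ≤ n → (r ∈ π ↔ r < n)) :
    Cfsg.IsEPiGroup π (Perm (Fin n)) := by
  have hpos := hn.pos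
  refine ⟨stabilizer (Perm (Fin n)) (⟨0, hpos⟩ : Fin n), ?_, ?_⟩
  · intro p hp hd
    have h1 := Subgroup.card_mul_index (stabilizer (Perm (Fin n)) (⟨0, hpos⟩ : Fin n))
    rw [index_stabilizer_of_transitive, Nat.card_perm] at h1
    simp only [Nat.card_eq_fintype_card, Fintype.card_fin] at h1 hd
    obtain ⟨m, rfl⟩ : ∃ m, n = m + 1 := ⟨n - 1, by omega⟩
    rw [Nat.factorial_succ, mul_comm] at h1
    have h2 := Nat.eq_of_mul_eq_mul_left (by omega) h1
    have h3 := (Nat.Prime.dvd_factorial hp).1 (h2 ▸ hd)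
    exact (h p hp (by omega)).2 (by omega)
  · intro p hp hpπ hd
    rw [index_stabilizer_of_transitive] at hd
    simp only [Nat.card_eq_fintype_card, Fintype.card_fin] at hd
    have h1 := (Nat.prime_dvd_prime_iff_eq hp hn).1 hd
    subst h1
    exact lt_irrefl _ ((h p hp (le_refl _)).1 hpπ)

/-- Primes dividing `2^x * 3^y`. -/
theorem prime_dvd_two_three {p x y : ℕ} (hp : p.Prime) (h : p ∣ 2 ^ x * 3 ^ y) : p = 2 ∨ p = 3 := by
  rcases (Nat.Prime.dvd_mul hp).1 h with h1 | h1
  · exact Or.inl ((Nat.prime_dvd_prime_iff_eq hp Nat.prime_two).1 (hp.dvd_of_dvd_pow h1))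
  · exact Or.inr ((Nat.prime_dvd_prime_iff_eq hp Nat.prime_three).1 (hp.dvd_of_dvd_pow h1))

/-- `n = 7`: the stabilizer of a set of size 4. -/
theorem if_seven (π : Set ℕ) (h : ∀ r : ℕ, r.Prime → r ≤ 7 → (r ∈ π ↔ (r = 2 ∨ r = 3))) :
    Cfsg.IsEPiGroup π (Perm (Fin 7)) := by
  set K := Cfsg.Agent.Lib.HallSym.Class.classPres (Setoid.ker (fun i : Fin 7 => decide (i.val < 4)))
    with hK
  have hcard : Nat.card K = 2 ^ 4 * 3 ^ 2 := by
    rw [hK, Cfsg.Agent.Lib.HallSym.AltExt.card_classPres_ker, Fintype.prod_bool]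
    have h1 : Fintype.card {a : Fin 7 // decide (a.val < 4) = true} = 4 := by decide
    have h2 : Fintype.card {a : Fin 7 // decide (a.val < 4) = false} = 3 := by decide
    rw [h1, h2]
    decide
  have hidx : K.index = 5 * 7 := by
    have h1 := Subgroup.card_mul_index K
    rw [hcard, Nat.card_perm] at h1
    simp only [Nat.card_eq_fintype_card, Fintype.card_fin] at h1
    have h2 : (7 : ℕ).factorial = 5040 := by decide
    rw [h2] at h1
    omega
  refine ⟨K, ?_, ?_⟩
  · intro p hp hd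
    rw [hcard] at hd
    have h1 := prime_dvd_two_three hp hd
    refine (h p hp ?_).2 h1
    rcases h1 with rfl | rfl <;> norm_num
  · intro p hp hpπ hd
    rw [hidx] at hd
    have h1 : p = 5 ∨ p = 7 := by
      rcases (Nat.Prime.dvd_mul hp).1 hd with h1 | h1
      · exact Or.inl ((Nat.prime_dvd_prime_iff_eq hp (by norm_num)).1 h1)
      · exact Or.inr ((Nat.prime_dvd_prime_iff_eq hp (by norm_num)).1 h1)
    have h2 := (h p hp (by rcases h1 with rfl | rfl <;> norm_num)).1 hpπ
    omega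

/-- The colouring for degree 8. -/
def col8 (i : Fin 8) : Bool := decide (i.val < 4)

/-- The stabilizer of the unordered partition into two 4-sets. -/
def P8 : Subgroup (Perm (Fin 8)) where
  carrier := {g | (∀ x, col8 (g x) = col8 x) ∨ (∀ x, col8 (g x) = !col8 x)}
  one_mem' := Or.inl (fun _ => rfl)
  mul_mem' := by
    rintro g h (hg | hg) (hh | hh)
    · exact Or.inl (fun x => by rw [Perm.mul_apply, hg, hh])
    · exact Or.inr (fun x => by rw [Perm.mul_apply, hg, hh])
    · exact Or.inr (fun x => by rw [Perm.mul_apply, hg, hh])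
    · exact Or.inl (fun x => by rw [Perm.mul_apply, hg, hh, Bool.not_not])
  inv_mem' := by
    rintro g (hg | hg)
    · left
      intro x
      have := hg (g⁻¹ x)
      rw [show g (g⁻¹ x) = x by simp] at this
      exact this.symm
    · right
      intro x
      have := hg (g⁻¹ x)
      rw [show g (g⁻¹ x) = x by simp] at this
      rw [this, Bool.not_not]

/-- `n = 8`. -/
theorem if_eight (π : Set ℕ) (h : ∀ r : ℕ, r.Prime → r ≤ 8 → (r ∈ π ↔ (r = 2 ∨ r = 3))) :
    Cfsg.IsEPiGroup π (Perm (Fin 8)) := by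
  set K := Cfsg.Agent.Lib.HallSym.Class.classPres (Setoid.ker col8) with hK
  have hmemK : ∀ g : Perm (Fin 8), g ∈ K ↔ ∀ x, col8 (g x) = col8 x := fun g => Iff.rfl
  have hcard : Nat.card K = 576 := by
    rw [hK, Cfsg.Agent.Lib.HallSym.AltExt.card_classPres_ker, Fintype.prod_bool]
    have h1 : Fintype.card {a : Fin 8 // col8 a = true} = 4 := by decide
    have h2 : Fintype.card {a : Fin 8 // col8 a = false} = 4 := by decide
    rw [h1, h2]
    decide
  have hfact : (8 : ℕ).factorial = 40320 := by decide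
  have hKidx : K.index = 70 := by
    have h1 := Subgroup.card_mul_index K
    rw [hcard, Nat.card_perm] at h1
    simp only [Nat.card_eq_fintype_card, Fintype.card_fin] at h1
    rw [hfact] at h1
    omega
  have hKle : K ≤ P8 := fun g hg => Or.inl hg
  let t : Perm (Fin 8) := Equiv.addRight 4
  have ht : ∀ x, col8 (t x) = !col8 x := by
    decide
  have htP : t ∈ P8 := Or.inr ht
  have hrel : K.relIndex P8 = 2 := by
    rw [Subgroup.relIndex, Subgroup.index_eq_two_iff]
    refine ⟨⟨t, htP⟩, ?_⟩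
    rintro ⟨b, hb⟩
    simp only [Subgroup.mem_subgroupOf, Subgroup.coe_mul]
    rw [hmemK, hmemK]
    rcases hb with hb | hb
    · right
      refine ⟨hb, ?_⟩
      intro hcon
      have h1 := hcon 0
      rw [Perm.mul_apply, hb, ht] at h1
      exact absurd h1 (by decide)
    · left
      refine ⟨fun x => ?_, ?_⟩
      · rw [Perm.mul_apply, hb, ht, Bool.not_not]
      · intro hcon
        have h1 := hcon 0
        rw [hb] at h1
        exact absurd h1 (by decide)
  have hidx : P8.index = 5 * 7 := by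
    have h1 := Subgroup.relIndex_mul_index hKle
    rw [hrel, hKidx] at h1
    omega
  have hPcard : Nat.card P8 = 2 ^ 7 * 3 ^ 2 := by
    have h1 := Subgroup.card_mul_index P8
    rw [hidx, Nat.card_perm] at h1
    simp only [Nat.card_eq_fintype_card, Fintype.card_fin] at h1 ⊢
    rw [hfact] at h1
    omega
  refine ⟨P8, ?_, ?_⟩
  · intro p hp hd
    rw [hPcard] at hd
    have h1 := prime_dvd_two_three hp hd
    refine (h p hp ?_).2 h1
    rcases h1 with rfl | rfl <;> norm_num
  · intro p hp hpπ hd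
    rw [hidx] at hd
    have h1 : p = 5 ∨ p = 7 := by
      rcases (Nat.Prime.dvd_mul hp).1 hd with h1 | h1
      · exact Or.inl ((Nat.prime_dvd_prime_iff_eq hp (by norm_num)).1 h1)
      · exact Or.inr ((Nat.prime_dvd_prime_iff_eq hp (by norm_num)).1 h1)
    have h2 := (h p hp (by rcases h1 with rfl | rfl <;> norm_num)).1 hpπ
    omega

/-- Let `π` be a set of primes and `n` a natural number such that at least two primes of `π` divide `n!` but not every prime dividing `n!` lies in `π`. Then the symmetric group of degree `n` has a Hall `π`-subgroup if and only if either `n` is prime and the primes of `π` dividing `n!` are exactly the primes smaller than `n` (a point stabilizer is then such a subgroup), or `n ∈ {7, 8}` and the primes of `π` dividing `n!` are exactly 2 and 3. -/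
theorem result (n : ℕ) (π : Set ℕ)
    (h2 : ∃ r s : ℕ, r.Prime ∧ s.Prime ∧ r ≠ s ∧ r ∈ π ∧ s ∈ π ∧ r ≤ n ∧ s ≤ n)
    (hns : ∃ r : ℕ, r.Prime ∧ r ≤ n ∧ r ∉ π) :
    Cfsg.IsEPiGroup π (Equiv.Perm (Fin n)) ↔
      ((n.Prime ∧ ∀ r : ℕ, r.Prime → r ≤ n → (r ∈ π ↔ r < n)) ∨
       ((n = 7 ∨ n = 8) ∧ ∀ r : ℕ, r.Prime → r ≤ n → (r ∈ π ↔ (r = 2 ∨ r = 3)))) := by
  constructor
  · rintro ⟨H, hH⟩
    exact only_if n π h2 hns H hH
  · rintro (⟨hn, hr⟩ | ⟨rfl | rfl, hr⟩)
    · exact if_prime n π hn hr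
    · exact if_seven π hr
    · exact if_eight π hr

end Cfsg.Agent.S2536
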