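import Cfsg.Statements.S2540
import Cfsg.Agent.Lib.Classical.NormalSL

set_option autoImplicit false
open Cfsg

namespace Cfsg.Agent.S2540

/-- Let F be a finite field and n ≥ 1, excluding the case n = 2 with #F ≤ 3. A subgroup of GL_n(F) that is normalized by every element of SL_n(F) either consists of scalar matrices or contains SL_n(F). -/
theorem result {F : Type*} [Field F] [Fintype F] (n : ℕ) (hn : 1 ≤ n) (hex : ¬ (n = 2 ∧ Fintype.card F ≤ 3)) (G : Subgroup (Matrix.GeneralLinearGroup (Fin n) F)) (hG : ∀ s : Matrix.SpecialLinearGroup (Fin n) F, ∀ g ∈ G, (Matrix.SpecialLinearGroup.toGL s) * g * (Matrix.SpecialLinearGroup.toGL s)⁻¹ ∈ G) : (∀ g ∈ G, ∃ c : F, (g : Matrix (Fin n) (Fin n) F) = c • (1 : Matrix (Fin n) (Fin n) F)) ∨ (Matrix.SpecialLinearGroup.toGL : Matrix.SpecialLinearGroup (Fin n) F →* _).range ≤ G := by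
  open Cfsg.Agent.Lib.Classical.NormalSL Cfsg.Agent.Lib.Classical.Transvections in
  rcases Nat.lt_or_ge n 2 with h1 | h2
  · right
    obtain rfl : n = 1 := by omega
    rintro _ ⟨s, rfl⟩
    have hs : s = 1 := Subsingleton.elim _ _
    rw [hs, map_one]
    exact one_mem _
  · rcases Nat.lt_or_ge n 3 with h3 | h3
    · obtain rfl : n = 2 := by omega
      have hq : 4 ≤ Fintype.card F := by
        by_contra hq
        exact hex ⟨rfl, by omega⟩
      have hq' : 4 ≤ Nat.card F := by rwa [Nat.card_eq_fintype_card]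
      obtain ⟨a, ha, ha2⟩ := exists_ne_zero_sq_ne_one (F := F) hq'
      exact scalar_or_range_le (Matrix.SL2.commutator_eq_top ha ha2)
        (Matrix.ProjectiveSpecialLinearGroup.rank_two_simple hq') G hG
    · exact scalar_or_range_le (commutator_sl_eq_top (by simpa using h3))
        (psl_isSimpleGroup (by simpa using h3)) G hG

end Cfsg.Agent.S2540
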