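import Cfsg.Statements.S2541
import Mathlib

set_option autoImplicit false
open Cfsg

namespace Cfsg.Agent.S2541

open Matrix

/-- No element of `S_6` has order 8. -/
theorem perm_six_no_order_eight (x : Equiv.Perm (Fin 6)) : orderOf x ≠ 8 := by
  intro h
  have h60 : orderOf x ∣ 60 := by
    rw [← Equiv.Perm.lcm_cycleType]
    apply Multiset.lcm_dvd.mpr
    intro c hc
    have h1 : c ≤ x.cycleType.sum := Multiset.le_sum_of_mem hc
    have h2 : x.cycleType.sum ≤ 6 := by
      simpa using Equiv.Perm.sum_cycleType_le x
    have h3 : 2 ≤ c := Equiv.Perm.two_le_of_mem_cycleType hc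
    have h4 : c ≤ 6 := h1.trans h2
    interval_cases c <;> norm_num
  rw [h] at h60
  norm_num at h60

/-- Let F be a field with 9 elements. The symmetric group S_6 is not isomorphic to PGL_2(F) (although both have index-2 subgroups isomorphic to A_6). -/
theorem result {F : Type*} [Field F] [Fintype F] (hF : Fintype.card F = 9) : ¬ Nonempty (Equiv.Perm (Fin 6) ≃* Matrix.ProjGenLinGroup (Fin 2) F) := by
  rintro ⟨e⟩
  classical
  obtain ⟨a, ha⟩ := IsCyclic.exists_generator (α := Fˣ)
  have hcard : Fintype.card Fˣ = 8 := by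
    rw [Fintype.card_units, hF]
  have ha8 : orderOf a = 8 := by
    rw [orderOf_eq_card_of_forall_mem_zpowers ha, Nat.card_eq_fintype_card, hcard]
  -- The diagonal matrix `diag(a, 1)`.
  let D : Fˣ →* GL (Fin 2) F :=
    { toFun := fun u =>
        Matrix.GeneralLinearGroup.mkOfDetNeZero (Matrix.diagonal (fun i : Fin 2 => if i = 0 then (u : F) else 1))
          (by simp [Matrix.det_diagonal])
      map_one' := by
        ext i j
        fin_cases i <;> fin_cases j <;> simp [Matrix.GeneralLinearGroup.mkOfDetNeZero]
      map_mul' := by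
        intro u v
        ext i j
        fin_cases i <;> fin_cases j <;> simp [Matrix.GeneralLinearGroup.mkOfDetNeZero, Matrix.mul_apply, Fin.sum_univ_two] }
  have hD : ∀ u : Fˣ, D u ∈ Subgroup.center (GL (Fin 2) F) → u = 1 := by
    intro u hu
    rw [Matrix.GeneralLinearGroup.mem_center_iff_val_mem_range_scalar] at hu
    obtain ⟨c, hc⟩ := hu
    have h00 := congrFun (congrFun hc 0) 0
    have h11 := congrFun (congrFun hc 1) 1
    simp [D, Matrix.GeneralLinearGroup.mkOfDetNeZero] at h00 h11
    ext
    simpa using h00.symm.trans h11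
  let g : Matrix.ProjGenLinGroup (Fin 2) F := Matrix.ProjGenLinGroup.mk (D a)
  have hg : orderOf g = 8 := by
    apply orderOf_eq_of_pow_and_pow_div_prime (by norm_num)
    · have : g ^ 8 = Matrix.ProjGenLinGroup.mk (D (a ^ 8)) := by
        simp [g, map_pow]
      rw [this, ← ha8, pow_orderOf_eq_one, map_one, map_one]
    · intro p hp hp8
      have hp2 : p = 2 := by
        have : p ∣ 2 ^ 3 := by simpa using hp8
        exact (Nat.prime_dvd_prime_iff_eq hp Nat.prime_two).mp (hp.dvd_of_dvd_pow this)
      subst hp2
      intro h4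
      have h4' : Matrix.ProjGenLinGroup.mk (D (a ^ 4)) = 1 := by
        have : g ^ (8 / 2) = Matrix.ProjGenLinGroup.mk (D (a ^ 4)) := by
          simp [g, map_pow]
        rw [← this, h4]
      rw [Matrix.ProjGenLinGroup.mk_eq_one] at h4'
      have := hD _ h4'
      have h8 : 8 ∣ 4 := by
        rw [← ha8]
        exact orderOf_dvd_of_pow_eq_one this
      norm_num at h8
  have := perm_six_no_order_eight (e.symm g)
  apply this
  rw [MulEquiv.orderOf_eq, hg]

end Cfsg.Agent.S2541
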