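import Cfsg.Statements.S2542
import Mathlib
import Cfsg.Agent.Lib.Classical.PSL211
import Cfsg.Agent.Lib.Classical.SL2.Dickson
import Cfsg.Agent.Lib.Classical.FieldTransfer
import Cfsg.Agent.Lib.QuadAct.SL2p

set_option autoImplicit false
open Cfsg


namespace Cfsg.Agent.S2542

/-- A subgroup with two double cosets gives a 2-transitive action. -/
theorem isTwoTrans {G : Type*} [Group G] (H : Subgroup G)
    (hdc : ∀ x y, x ∉ H → y ∉ H → ∃ h ∈ H, ∃ k ∈ H, y = h * x * k) :
    MulAction.IsMultiplyPretransitive G (G ⧸ H) 2 := by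
  refine ⟨fun x y => ?_⟩
  obtain ⟨s, hs⟩ := QuotientGroup.mk_surjective (x 0)
  obtain ⟨t, ht⟩ := QuotientGroup.mk_surjective (x 1)
  obtain ⟨u, hu⟩ := QuotientGroup.mk_surjective (y 0)
  obtain ⟨v, hv⟩ := QuotientGroup.mk_surjective (y 1)
  have hst : s⁻¹ * t ∉ H := by
    intro h
    have : (QuotientGroup.mk s : G ⧸ H) = QuotientGroup.mk t := QuotientGroup.eq.mpr h
    rw [hs, ht] at this
    exact absurd (x.injective this) (by decide)
  have huv : u⁻¹ * v ∉ H := by
    intro h
    have : (QuotientGroup.mk u : G ⧸ H) = QuotientGroup.mk v := QuotientGroup.eq.mpr h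
    rw [hu, hv] at this
    exact absurd (y.injective this) (by decide)
  obtain ⟨h, hh, k, hk, he⟩ := hdc _ _ hst huv
  refine ⟨u * h * s⁻¹, ?_⟩
  ext i
  fin_cases i
  · show (u * h * s⁻¹) • x 0 = y 0
    rw [← hs, ← hu]
    show (QuotientGroup.mk (u * h * s⁻¹ * s) : G ⧸ H) = _
    rw [QuotientGroup.eq]
    have : (u * h * s⁻¹ * s)⁻¹ * u = h⁻¹ := by group
    rw [this]
    exact inv_mem hh
  · show (u * h * s⁻¹) • x 1 = y 1
    rw [← ht, ← hv]
    show (QuotientGroup.mk (u * h * s⁻¹ * t) : G ⧸ H) = _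
    rw [QuotientGroup.eq]
    have : (u * h * s⁻¹ * t)⁻¹ * v = k := by
      have h1 : v = u * (h * (s⁻¹ * t) * k) := by rw [← he]; group
      rw [h1]
      group
    rw [this]
    exact hk

open Cfsg.Agent.Lib.Classical.PSL211 in
/-- The subgroup `H'` is isomorphic to `A₅`, by Dickson's theorem. -/
theorem iso_A5 : Nonempty (H' ≃* alternatingGroup (Fin 5)) := by
  have hc := card_H'
  haveI : Fact (Nat.Prime 11) := fact11
  have hsimple : IsSimpleGroup G' :=
    Matrix.ProjectiveSpecialLinearGroup.rank_two_simple (F := ZMod 11) (by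
      rw [Nat.card_eq_fintype_card, ZMod.card]; norm_num)
  rcases Cfsg.Agent.Lib.Classical.SL2.Dickson.dickson (F := ZMod 11) (q := 11) (ZMod.card 11) 11 H' with
    ⟨k, hk, h⟩ | ⟨P₀, K₀, hK₀, ⟨e⟩⟩ | ⟨⟨e⟩⟩ | ⟨⟨e⟩⟩ | h | ⟨K, _, _, m, hm, h⟩
  · exfalso
    have hk' : k ≤ 6 := by
      rcases hk with h1 | h1
      · exact Nat.le_of_dvd (by norm_num) (by simpa using h1)
      · have := Nat.le_of_dvd (by norm_num) (show k ∣ 5 by simpa using h1)
        omega
    rcases h with ⟨-, h⟩ | ⟨⟨e⟩⟩
    · have h60 : (60 : ℕ) = k := hc.symm.trans h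
      omega
    · have h1 := Nat.card_congr e.toEquiv
      rw [hc, DihedralGroup.nat_card] at h1
      omega
  · exfalso
    let P : Sylow 11 G' := P₀
    let K : Subgroup G' := K₀
    have hK : K ≤ Subgroup.normalizer ((P : Subgroup G') : Set G') := hK₀
    have h1 : Nat.card K = 60 := by
      have h0 : Nat.card H' = Nat.card K := Nat.card_congr e.toEquiv
      rw [← h0, hc]
    have h2 : 60 ∣ Nat.card (Subgroup.normalizer ((P : Subgroup G') : Set G')) := by
      rw [← h1]
      exact Subgroup.card_dvd_of_le hK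
    have h3 := Subgroup.card_mul_index (Subgroup.normalizer ((P : Subgroup G') : Set G'))
    have h30 : Nat.card (Sylow 11 G') = (Subgroup.normalizer ((P : Subgroup G') : Set G')).index :=
      P.card_eq_index_normalizer
    rw [card_G', ← h30] at h3
    have h4 := card_sylow_modEq_one 11 G'
    obtain ⟨c, hcc⟩ := h2
    rw [hcc] at h3
    have h5 : c * Nat.card (Sylow 11 G') = 11 := by
      have : 60 * (c * Nat.card (Sylow 11 G')) = 60 * 11 := by rw [← mul_assoc, h3]
      exact Nat.eq_of_mul_eq_mul_left (by norm_num) this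
    have h6 : Nat.card (Sylow 11 G') = 1 := by
      have h7 : Nat.card (Sylow 11 G') ∣ 11 := Dvd.intro_left c h5
      rcases (Nat.dvd_prime (by norm_num)).mp h7 with h8 | h8
      · exact h8
      · exfalso
        rw [h8] at h4
        exact absurd h4 (by decide)
    have h7 : (P : Subgroup G').Normal := by
      have h8 : (Subgroup.normalizer ((P : Subgroup G') : Set G')).index = 1 := by
        rw [← h30, h6]
      rw [Subgroup.index_eq_one] at h8
      exact Subgroup.normalizer_eq_top_iff.mp h8
    rcases hsimple.eq_bot_or_eq_top_of_normal _ h7 with h8 | h8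
    · have h9 := P.ne_bot_of_dvd_card (by rw [card_G']; norm_num)
      exact h9 h8
    · have h9 : IsPGroup 11 G' := by
        have := P.isPGroup'
        rw [h8] at this
        exact this.of_equiv Subgroup.topEquiv
      obtain ⟨n, hn⟩ := IsPGroup.iff_card.mp h9
      rw [card_G'] at hn
      have h10 : 5 ∣ 11 ^ n := by rw [← hn]; norm_num
      have h11 := Nat.Prime.dvd_of_dvd_pow (by norm_num) h10
      omega
  · exfalso
    have h1 := Nat.card_congr e.toEquiv
    rw [hc, Cfsg.Agent.Lib.QuadAct.SL2p.card_A4] at h1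
    omega
  · exfalso
    have h1 := Nat.card_congr e.toEquiv
    rw [hc, Cfsg.Agent.Lib.QuadAct.SL2p.card_S4] at h1
    omega
  · exact h
  · exfalso
    have hK2 : 2 ≤ Fintype.card K := Fintype.one_lt_card
    have hm0 : m ≠ 0 := by
      rintro rfl
      simp at hm
    have hK11 : Fintype.card K = 11 := by
      have h1 : Fintype.card K ∣ 11 := by
        rw [← hm]
        exact dvd_pow_self _ hm0
      rcases (Nat.dvd_prime (by norm_num)).mp h1 with h2 | h2
      · omega
      · exact h2
    have hsl : Nat.card (Matrix.SpecialLinearGroup (Fin 2) K) = 1320 := by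
      have := Cfsg.Agent.Lib.Classical.SL2Sylow.card_SL2 (F := K)
      rw [hK11] at this
      exact this
    rcases h with ⟨⟨e⟩⟩ | ⟨⟨e⟩⟩
    · have h1 := Nat.card_congr e.toEquiv
      have h2 := Cfsg.Agent.Lib.Classical.SLBasic.card_sl_eq_mul_card_psl (ι := Fin 2) (F := K)
      have h3 := Cfsg.Agent.Lib.Classical.SLBasic.card_center_sl (ι := Fin 2) (F := K)
      rw [h3, hsl, hK11, Fintype.card_fin] at h2
      norm_num [-Nat.card_eq_fintype_card] at h2
      rw [hc] at h1
      rw [← h1] at h2
      omega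
    · have h1 := Nat.card_congr e.toEquiv
      have h2 := Cfsg.Agent.Lib.Classical.SLBasic.card_pgl_eq_card_sl (ι := Fin 2) (F := K)
      rw [hc] at h1
      rw [← h1, hsl] at h2
      omega


/-- Let F be a field with 11 elements. PSL_2(F) has a subgroup H of index 11 isomorphic to the alternating group A_5, and the action of PSL_2(F) on the cosets of H is 2-transitive (of degree 11). -/
theorem result {F : Type*} [Field F] [Fintype F] (hF : Fintype.card F = 11) : ∃ H : Subgroup (Matrix.ProjectiveSpecialLinearGroup (Fin 2) F), H.index = 11 ∧ Nonempty (H ≃* alternatingGroup (Fin 5)) ∧ MulAction.IsMultiplyPretransitive (Matrix.ProjectiveSpecialLinearGroup (Fin 2) F) ((Matrix.ProjectiveSpecialLinearGroup (Fin 2) F) ⧸ H) 2 := by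
  classical
  have hcard : Fintype.card F = Fintype.card (ZMod 11) := by
    rw [hF, ZMod.card]
  let e : F ≃+* ZMod 11 := FiniteField.ringEquivOfCardEq hcard
  let E : Matrix.ProjectiveSpecialLinearGroup (Fin 2) F ≃* Cfsg.Agent.Lib.Classical.PSL211.G' :=
    Cfsg.Agent.Lib.Classical.FieldTransfer.pslCongr e
  let H := Cfsg.Agent.Lib.Classical.PSL211.H'.comap E.toMonoidHom
  refine ⟨H, ?_, ?_, ?_⟩
  · show (Subgroup.comap E.toMonoidHom _).index = 11
    rw [Subgroup.index_comap_of_surjective (f := E.toMonoidHom) _ E.surjective]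
    exact Cfsg.Agent.Lib.Classical.PSL211.index_H'
  · obtain ⟨f⟩ := iso_A5
    have hmap : H.map E.toMonoidHom = Cfsg.Agent.Lib.Classical.PSL211.H' :=
      Subgroup.map_comap_eq_self_of_surjective E.surjective _
    exact ⟨((H.equivMapOfInjective E.toMonoidHom E.injective).trans (MulEquiv.subgroupCongr hmap)).trans f⟩
  · apply isTwoTrans
    intro x y hx hy
    obtain ⟨h, hh, k, hk, he⟩ := Cfsg.Agent.Lib.Classical.PSL211.exists_mul_eq (x := E x) (y := E y) hx hy
    refine ⟨E.symm h, ?_, E.symm k, ?_, ?_⟩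
    · exact Subgroup.mem_comap.mpr (by simpa using hh)
    · exact Subgroup.mem_comap.mpr (by simpa using hk)
    · apply E.injective
      simp [he]

end Cfsg.Agent.S2542
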