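import Cfsg.Statements.S2544
import Cfsg.Agent.Lib.Classical.Flags.PSLn

set_option autoImplicit false
open Cfsg

namespace Cfsg.Agent.S2544

/-- Let F be a finite field of characteristic p and consider the projective special linear group PSL_n(F) with n ≥ 2. This group has an irreducible complex character χ whose degree equals the order of a Sylow p-subgroup (namely q^(n(n−1)/2) when #F = q) and whose restriction to any Sylow p-subgroup P is the regular character of P: χ vanishes on the non-identity elements of P. (This is the Steinberg character.) -/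
theorem result {F : Type*} [Field F] [Fintype F] (p : ℕ) [Fact p.Prime] [CharP F p] (n : ℕ) (hn : 2 ≤ n) : ∃ χ : Matrix.ProjectiveSpecialLinearGroup (Fin n) F → ℂ, Cfsg.IsIrrCharacter (Matrix.ProjectiveSpecialLinearGroup (Fin n) F) χ ∧ ∀ P : Sylow p (Matrix.ProjectiveSpecialLinearGroup (Fin n) F), χ 1 = Nat.card P ∧ ∀ x : Matrix.ProjectiveSpecialLinearGroup (Fin n) F, x ∈ P → x ≠ 1 → χ x = 0 := by
  classical
  open Cfsg.Agent.Lib.Classical.Flags in
  have hne : NeZero n := ⟨by omega⟩
  have hp := Fact.out (p := p.Prime)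
  haveI : Nonempty (Fin n) := ⟨⟨0, by omega⟩⟩
  open Cfsg.Agent.Lib.Classical.Flags in
  obtain ⟨φ, hφ, hcomp⟩ := Cfsg.Agent.Lib.Char.Linear.isIrrCharacter_descend
    (QuotientGroup.mk' (Subgroup.center (Matrix.SpecialLinearGroup (Fin n) F)))
    (QuotientGroup.mk'_surjective _) (St_SL_irr (F := F) n) (by
      intro k hk
      rw [QuotientGroup.ker_mk'] at hk
      have := St_center (F := F) n k hk
      simpa using this)
  obtain ⟨f, -, hf⟩ := FiniteField.card F p
  have hqp : p ∣ Fintype.card F := by
    rw [hf]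
    exact dvd_pow_self p f.ne_zero
  set q := Fintype.card F with hq
  have hq2 : 2 ≤ q := by
    have := Fintype.one_lt_card (α := F)
    omega
  have hpq1 : ¬ p ∣ q - 1 := by
    intro h
    have h1 := Nat.dvd_sub hqp h
    rw [Nat.sub_sub_self (by omega)] at h1
    exact hp.one_lt.ne' (Nat.dvd_one.mp h1)
  have hone : φ 1 = ((q : ℕ) : ℂ) ^ n.choose 2 := by
    have h1 := congrFun hcomp 1
    simp only [Function.comp, map_one] at h1
    rw [← h1]
    exact Cfsg.Agent.Lib.Classical.Flags.St_one (F := F) n
  obtain ⟨m, hm, hGL⟩ := Cfsg.Agent.Lib.Classical.Flags.card_GL_eq (F := F) n p hp hqp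
  have hPSL := Cfsg.Agent.Lib.Classical.SLBasic.card_gl_eq_gcd_mul_card_psl (ι := Fin n) (F := F)
  rw [hGL, Fintype.card_fin] at hPSL
  have hg : ¬ p ∣ Nat.gcd n (q - 1) := fun h => hpq1 (h.trans (Nat.gcd_dvd_right _ _))
  set C := Nat.card (Matrix.ProjectiveSpecialLinearGroup (Fin n) F) with hC
  have hC0 : C ≠ 0 := Nat.card_pos.ne'
  have hfact : C.factorization p = f * n.choose 2 := by
    have hm0 : m ≠ 0 := by
      rintro rfl
      exact hm (dvd_zero _)
    have hg0 : Nat.gcd n (q - 1) ≠ 0 := by
      intro h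
      exact hg (h ▸ dvd_zero _)
    have hq10 : q - 1 ≠ 0 := by omega
    have hPSL' : q ^ n.choose 2 * m = Nat.gcd n (q - 1) * ((q - 1) * C) := hPSL
    have hqf : q.factorization p = f := by
      rw [hf, Nat.factorization_pow]
      simp [hp.factorization_self]
    have hq0 : q ≠ 0 := by omega
    have h1 := congrArg (fun x => x.factorization p) hPSL'
    rw [Nat.factorization_mul (pow_ne_zero _ hq0) hm0, Nat.factorization_mul hg0 (mul_ne_zero hq10 hC0),
      Nat.factorization_mul hq10 hC0, Nat.factorization_pow] at h1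
    simp only [Finsupp.add_apply, Finsupp.smul_apply, smul_eq_mul] at h1
    rw [Nat.factorization_eq_zero_of_not_dvd hm, Nat.factorization_eq_zero_of_not_dvd hg,
      Nat.factorization_eq_zero_of_not_dvd hpq1, hqf] at h1
    simp only [add_zero, zero_add] at h1
    rw [← h1]
    ring
  have hcardP : ∀ P : Sylow p (Matrix.ProjectiveSpecialLinearGroup (Fin n) F), Nat.card P = q ^ n.choose 2 := by
    intro P
    rw [Sylow.card_eq_multiplicity, hfact, hf, pow_mul]
  refine ⟨φ, hφ, fun P => ⟨?_, ?_⟩⟩
  · rw [hone, hcardP]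
    push_cast
    rfl
  · intro x hx hx1
    obtain ⟨k, ρ, hirr, hρ⟩ := hφ
    have := hirr
    rw [← hρ]
    have hkdeg : k = q ^ n.choose 2 := by
      have h1 : ρ.character 1 = (k : ℂ) := by
        rw [Representation.char_one]
        simp
      rw [hρ, hone] at h1
      have h2 : ((q ^ n.choose 2 : ℕ) : ℂ) = (k : ℂ) := by
        push_cast
        exact h1
      exact (Nat.cast_injective h2).symm
    apply Cfsg.Agent.Lib.Char.DefectZero.character_eq_zero_of_defect_zero ρ p (C.factorization p) hp
    · exact Nat.ordProj_dvd _ _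
    · exact Nat.pow_succ_factorization_not_dvd hC0 hp
    · rw [Module.finrank_fintype_fun_eq_card, Fintype.card_fin, hkdeg, hfact, hf, pow_mul]
    · obtain ⟨e, he⟩ := P.isPGroup' ⟨x, hx⟩
      have he' : x ^ p ^ e = 1 := by
        have := congrArg Subtype.val he
        simpa using this
      have h1 := orderOf_dvd_of_pow_eq_one he'
      obtain ⟨j, -, hj⟩ := (Nat.dvd_prime_pow hp).mp h1
      rw [hj]
      rcases j with _ | j
      · exfalso
        apply hx1
        rw [← orderOf_eq_one_iff, hj, pow_zero]
      · exact dvd_pow_self p (Nat.succ_ne_zero j)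

end Cfsg.Agent.S2544
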