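import Cfsg.Statements.S2550
import Mathlib
import Cfsg.Agent.Lib.Classical.SLConj
import Cfsg.Agent.Lib.Classical.SLBasic

set_option autoImplicit false
open Cfsg


namespace Cfsg.Agent.S2550

open Matrix in
/-- All involutions of `PSL₃(K)`, `|K| = 4`, are conjugate. -/
theorem invol_conj {K : Type*} [Field K] [Fintype K] (hK : Fintype.card K = 4)
    (x y : Matrix.ProjectiveSpecialLinearGroup (Fin 3) K) (hx : x ^ 2 = 1) (hx1 : x ≠ 1)
    (hy : y ^ 2 = 1) (hy1 : y ≠ 1) : IsConj x y := by
  classical
  have h2 : (2 : K) = 0 := by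
    have h4 : (4 : K) = 0 := by
      have := card_nsmul_eq_zero (G := K) (x := (1 : K))
      rw [hK] at this
      simpa using this
    have h5 : (2 : K) * 2 = 0 := by rw [← h4]; norm_num
    simpa using h5
  have hmain : ∀ x : Matrix.ProjectiveSpecialLinearGroup (Fin 3) K, x ^ 2 = 1 → x ≠ 1 →
      ∃ t : Matrix.SpecialLinearGroup (Fin 3) K, QuotientGroup.mk t = x ∧
        ((t : Matrix (Fin 3) (Fin 3) K) - 1).rank = 1 ∧
        ((t : Matrix (Fin 3) (Fin 3) K) - 1) * ((t : Matrix (Fin 3) (Fin 3) K) - 1) = 0 := by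
    intro x hx hx1
    obtain ⟨s, rfl⟩ := QuotientGroup.mk_surjective x
    have hcen : s ^ 2 ∈ Subgroup.center (Matrix.SpecialLinearGroup (Fin 3) K) := by
      rw [← QuotientGroup.eq_one_iff]
      exact hx
    obtain ⟨r, hr3, hr⟩ := (Matrix.SpecialLinearGroup.mem_center_iff (A := s ^ 2)).mp hcen
    simp only [Fintype.card_fin] at hr3
    -- the scalar `r`
    let z : Matrix.SpecialLinearGroup (Fin 3) K := ⟨Matrix.scalar (Fin 3) r, by simp [hr3]⟩
    have hz : z ∈ Subgroup.center (Matrix.SpecialLinearGroup (Fin 3) K) :=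
      (Matrix.SpecialLinearGroup.mem_center_iff (A := z)).mpr ⟨r, by simpa using hr3, rfl⟩
    have hcomm : z * s = s * z := (Subgroup.mem_center_iff.mp hz s).symm
    let t := z * s
    have ht2 : (t : Matrix (Fin 3) (Fin 3) K) * t = 1 := by
      have h3 : ((s ^ 2 : Matrix.SpecialLinearGroup (Fin 3) K) : Matrix (Fin 3) (Fin 3) K) =
          Matrix.scalar (Fin 3) r := hr.symm
      have h4 : t * t = z * z * s ^ 2 := by
        show z * s * (z * s) = z * z * s ^ 2
        rw [pow_two, mul_assoc z s, ← mul_assoc s z s, ← hcomm]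
        group
      have h5 := congrArg (fun a : Matrix.SpecialLinearGroup (Fin 3) K => (a : Matrix (Fin 3) (Fin 3) K)) h4
      simp only [Matrix.SpecialLinearGroup.coe_mul] at h5
      rw [h5, h3]
      show (Matrix.scalar (Fin 3) r * Matrix.scalar (Fin 3) r) * Matrix.scalar (Fin 3) r = 1
      rw [← map_mul, ← map_mul]
      have : r * r * r = 1 := by rw [← hr3]; ring
      rw [this, map_one]
    have hmk : (QuotientGroup.mk t : Matrix.ProjectiveSpecialLinearGroup (Fin 3) K) = QuotientGroup.mk s := by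
      rw [QuotientGroup.eq]
      have : t⁻¹ * s = z⁻¹ := by
        show (z * s)⁻¹ * s = z⁻¹
        rw [hcomm]
        group
      rw [this]
      exact inv_mem hz
    have ht1 : (t : Matrix (Fin 3) (Fin 3) K) ≠ 1 := by
      intro h
      apply hx1
      rw [← hmk]
      have : t = 1 := Subtype.ext h
      rw [this]
      rfl
    have hsq : ((t : Matrix (Fin 3) (Fin 3) K) - 1) * ((t : Matrix (Fin 3) (Fin 3) K) - 1) = 0 := by
      have h6 : ((t : Matrix (Fin 3) (Fin 3) K) - 1) * ((t : Matrix (Fin 3) (Fin 3) K) - 1) =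
          (t : Matrix (Fin 3) (Fin 3) K) * t - (2 : K) • (t : Matrix (Fin 3) (Fin 3) K) + 1 := by
        rw [two_smul]
        noncomm_ring
      rw [h6, ht2, h2, zero_smul, sub_zero]
      have h7 : (1 : Matrix (Fin 3) (Fin 3) K) + 1 = (2 : K) • (1 : Matrix (Fin 3) (Fin 3) K) := by
        rw [two_smul]
      rw [h7, h2, zero_smul]
    refine ⟨t, hmk, ?_, hsq⟩
    -- the rank
    set N : Matrix (Fin 3) (Fin 3) K := (t : Matrix (Fin 3) (Fin 3) K) - 1 with hN
    have hN0 : N ≠ 0 := fun h => ht1 (sub_eq_zero.mp h)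
    have h8 : N.rank ≠ 0 := by
      intro h
      have h' : Module.finrank K (LinearMap.range N.mulVecLin) = 0 := h
      rw [Submodule.finrank_eq_zero, LinearMap.range_eq_bot] at h'
      apply hN0
      apply Matrix.toLin'.injective
      rw [map_zero]
      exact h'
    have h9 : LinearMap.range N.mulVecLin ≤ LinearMap.ker N.mulVecLin := by
      rintro _ ⟨v, rfl⟩
      rw [LinearMap.mem_ker, Matrix.mulVecLin_apply, Matrix.mulVecLin_apply, Matrix.mulVec_mulVec, hsq,
        Matrix.zero_mulVec]
    have h10 := Submodule.finrank_mono h9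
    have h11 := LinearMap.finrank_range_add_finrank_ker N.mulVecLin
    have h12 : Module.finrank K (Fin 3 → K) = 3 := by simp
    have h13 : N.rank = Module.finrank K (LinearMap.range N.mulVecLin) := rfl
    omega
  obtain ⟨t, rfl, ht1, ht2⟩ := hmain x hx hx1
  obtain ⟨u, rfl, hu1, hu2⟩ := hmain y hy hy1
  have h := Cfsg.Agent.Lib.Classical.SLConj.isConj_of_transvections t u (by simp) ⟨ht1, ht2⟩ ⟨hu1, hu2⟩
  exact MonoidHom.map_isConj (QuotientGroup.mk' _) h


/-- Let F be a field with 2 elements and K a field with 4 elements. PSL_4(F) and PSL_3(K) have the same order (20160) but are not isomorphic. -/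
theorem result {F K : Type*} [Field F] [Fintype F] [Field K] [Fintype K] (hF : Fintype.card F = 2) (hK : Fintype.card K = 4) : Nat.card (Matrix.ProjectiveSpecialLinearGroup (Fin 4) F) = Nat.card (Matrix.ProjectiveSpecialLinearGroup (Fin 3) K) ∧ ¬ Nonempty (Matrix.ProjectiveSpecialLinearGroup (Fin 4) F ≃* Matrix.ProjectiveSpecialLinearGroup (Fin 3) K) := by
  classical
  have hF2 : ∀ x : F, x = 0 ∨ x = 1 := by
    intro x
    by_contra hc
    push Not at hc
    have h3 : 3 ≤ Fintype.card F := by
      have : ({0, 1, x} : Finset F).card = 3 := by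
        rw [Finset.card_eq_three]
        exact ⟨0, 1, x, zero_ne_one, hc.1.symm, hc.2.symm, rfl⟩
      rw [← this]
      exact Finset.card_le_univ _
    omega
  have h2 : (1 : F) + 1 = 0 := by
    rcases hF2 (1 + 1) with h | h
    · exact h
    · exfalso
      have : (1 : F) = 0 := by linear_combination h
      exact one_ne_zero this
  constructor
  · have h1 := Cfsg.Agent.Lib.Classical.SLBasic.card_gl_eq_gcd_mul_card_psl (ι := Fin 4) (F := F)
    have h3 := Cfsg.Agent.Lib.Classical.SLBasic.card_gl_eq_gcd_mul_card_psl (ι := Fin 3) (F := K)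
    rw [Matrix.card_GL_field] at h1 h3
    simp only [hF, hK, Fintype.card_fin, Fin.prod_univ_four, Fin.prod_univ_three] at h1 h3
    norm_num [-Nat.card_eq_fintype_card] at h1 h3
    omega
  · rintro ⟨e⟩
    let t₁ : Matrix.SpecialLinearGroup (Fin 4) F := ⟨!![1, 1, 0, 0; 0, 1, 0, 0; 0, 0, 1, 0; 0, 0, 0, 1], by
      simp [Matrix.det_succ_row_zero, Fin.sum_univ_succ]⟩
    let t₂ : Matrix.SpecialLinearGroup (Fin 4) F := ⟨!![1, 1, 0, 0; 0, 1, 0, 0; 0, 0, 1, 1; 0, 0, 0, 1], by
      simp [Matrix.det_succ_row_zero, Fin.sum_univ_succ]⟩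
    have hsq₁ : t₁ ^ 2 = 1 := by
      rw [pow_two]
      apply Subtype.ext
      show (!![1, 1, 0, 0; 0, 1, 0, 0; 0, 0, 1, 0; 0, 0, 0, 1] : Matrix (Fin 4) (Fin 4) F) *
        !![1, 1, 0, 0; 0, 1, 0, 0; 0, 0, 1, 0; 0, 0, 0, 1] = 1
      refine Matrix.ext fun i j => ?_
      fin_cases i <;> fin_cases j <;>
        simp [Matrix.mul_apply, Fin.sum_univ_succ, h2]
    have hsq₂ : t₂ ^ 2 = 1 := by
      rw [pow_two]
      apply Subtype.ext
      show (!![1, 1, 0, 0; 0, 1, 0, 0; 0, 0, 1, 1; 0, 0, 0, 1] : Matrix (Fin 4) (Fin 4) F) *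
        !![1, 1, 0, 0; 0, 1, 0, 0; 0, 0, 1, 1; 0, 0, 0, 1] = 1
      refine Matrix.ext fun i j => ?_
      fin_cases i <;> fin_cases j <;>
        simp [Matrix.mul_apply, Fin.sum_univ_succ, h2]
    have hcen : ∀ z ∈ Subgroup.center (Matrix.SpecialLinearGroup (Fin 4) F), z = 1 := by
      intro z hz
      obtain ⟨r, hr4, hr⟩ := (Matrix.SpecialLinearGroup.mem_center_iff (A := z)).mp hz
      have hr1 : r = 1 := by
        rcases hF2 r with h | h
        · rw [h] at hr4
          simp at hr4
        · exact h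
      apply Subtype.ext
      rw [← hr, hr1]
      simp
    have hmk : ∀ u v : Matrix.SpecialLinearGroup (Fin 4) F,
        (QuotientGroup.mk u : Matrix.ProjectiveSpecialLinearGroup (Fin 4) F) = QuotientGroup.mk v → u = v := by
      intro u v h
      rw [QuotientGroup.eq] at h
      have := hcen _ h
      exact (inv_mul_eq_one.mp this)
    have hne₁ : (QuotientGroup.mk t₁ : Matrix.ProjectiveSpecialLinearGroup (Fin 4) F) ≠ 1 := by
      intro h
      have h1 := hmk t₁ 1 h
      have h3 := congrArg (fun a : Matrix.SpecialLinearGroup (Fin 4) F =>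
        (a : Matrix (Fin 4) (Fin 4) F) 0 1) h1
      simp [t₁] at h3
    have hne₂ : (QuotientGroup.mk t₂ : Matrix.ProjectiveSpecialLinearGroup (Fin 4) F) ≠ 1 := by
      intro h
      have h1 := hmk t₂ 1 h
      have h3 := congrArg (fun a : Matrix.SpecialLinearGroup (Fin 4) F =>
        (a : Matrix (Fin 4) (Fin 4) F) 0 1) h1
      simp [t₂] at h3
    have hconj := invol_conj hK (e (QuotientGroup.mk t₁)) (e (QuotientGroup.mk t₂))
      (by rw [← map_pow, ← QuotientGroup.mk_pow, hsq₁]; simp)
      (fun h => hne₁ (e.injective (h.trans (map_one e).symm)))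
      (by rw [← map_pow, ← QuotientGroup.mk_pow, hsq₂]; simp)
      (fun h => hne₂ (e.injective (h.trans (map_one e).symm)))
    have hconj' := MonoidHom.map_isConj e.symm.toMonoidHom hconj
    simp only [MulEquiv.coe_toMonoidHom, MulEquiv.symm_apply_apply] at hconj'
    obtain ⟨c, hc⟩ := isConj_iff.mp hconj'
    obtain ⟨c, rfl⟩ := QuotientGroup.mk_surjective c
    have h4 : c * t₁ * c⁻¹ = t₂ := hmk _ _ hc
    have h5 : (c : Matrix (Fin 4) (Fin 4) F) * t₁ = t₂ * c := by
      have := congrArg (fun a : Matrix.SpecialLinearGroup (Fin 4) F => (a : Matrix (Fin 4) (Fin 4) F))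
        (mul_inv_eq_iff_eq_mul.mp h4)
      simpa using this
    have ent : ∀ i j, ((c : Matrix (Fin 4) (Fin 4) F) * t₁) i j = (t₂ * (c : Matrix (Fin 4) (Fin 4) F)) i j :=
      fun i j => by rw [h5]
    have e10 := ent 0 0
    have e12 := ent 0 2
    have e13 := ent 0 3
    have e30 := ent 2 0
    have e32 := ent 2 2
    have e33 := ent 2 3
    simp [t₁, t₂, Matrix.mul_apply, Fin.sum_univ_succ] at e10 e12 e13 e30 e32 e33
    have hdet : (c : Matrix (Fin 4) (Fin 4) F).det = 0 := by
      rcases hF2 ((c : Matrix (Fin 4) (Fin 4) F) 1 1) with h | h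
      · apply Matrix.det_eq_zero_of_row_eq_zero 1
        intro j
        fin_cases j
        · exact e10
        · exact h
        · exact e12
        · exact e13
      · rcases hF2 ((c : Matrix (Fin 4) (Fin 4) F) 3 1) with h' | h'
        · apply Matrix.det_eq_zero_of_row_eq_zero 3
          intro j
          fin_cases j
          · exact e30
          · exact h'
          · exact e32
          · exact e33
        · apply Matrix.det_zero_of_row_eq (i := 1) (j := 3) (by decide)
          funext j
          fin_cases j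
          · exact e10.trans e30.symm
          · exact h.trans h'.symm
          · exact e12.trans e32.symm
          · exact e13.trans e33.symm
    rw [c.2] at hdet
    exact one_ne_zero hdet

end Cfsg.Agent.S2550
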