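import Cfsg.Statements.S2551
import Cfsg.Agent.Lib.OverLat.A8.Classify
import Cfsg.Agent.Lib.OverLat.A8.N01
import Cfsg.Agent.Lib.OverLat.V16.M12

set_option autoImplicit false
open Cfsg
open Cfsg.Agent.Lib.PermComp.Core Cfsg.Agent.Lib.PermComp.Chain Cfsg.Agent.Lib.OverLat.Core
open Cfsg.Agent.Lib.OverLat Cfsg.Agent.Lib.OverLat.Basic
open Cfsg.Agent.Lib.OverLat.A8.Common (rho rho_apply rho_injective eV rep_of_mat HH iso_of_checks)
open Cfsg.Agent.Lib.OverLat.V16.Common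
open Matrix

namespace Cfsg.Agent.S2551


set_option maxRecDepth 1000000

/-- The ambient group acting on the vectors is the image of the general linear group. -/
theorem HV_gA : HV V16.Amb.gA = (rho 4).range := by
  have hds : A8.GL4.Ds.map (·.2.1) = V16.Amb.gA := by decide +kernel
  have hle : HV V16.Amb.gA ≤ (rho 4).range := by
    apply (Subgroup.closure_le _).2
    rintro g ⟨c, hc, hg⟩
    rw [← hds] at hc
    obtain ⟨g', hg'⟩ := A8.GL4.hGL c hc
    rw [hg.unique hg']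
    exact ⟨g', rfl⟩
  have hcard : Nat.card ((rho 4).range) = 20160 := by
    rw [Nat.card_congr (MonoidHom.ofInjective (rho_injective 4)).toEquiv.symm, A8.GL4.card_GL4]
  have hc2 : Nat.card (HV V16.Amb.gA) = 20160 := by
    have h1 := card_of_check V16.M00.valid V16.M00.check
    have h2 : V16.Amb.gA = V16.M00.T := rfl
    rw [h2, h1]
    decide +kernel
  exact Subgroup.eq_of_le_of_card_ge hle (by rw [hcard, hc2])

theorem sift_le {T : List Nat} (h : allL (sift (2 ^ 4) 4 15 64 0xffffffffffffffff idc16 V16.M00.levels) T = true) :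
    HV T ≤ HV V16.Amb.gA := by
  obtain ⟨hm, hid, -, hsem, hTeq, -⟩ := main_of_checkAll (e := eV 4) (reps_of_valid16 V16.M00.valid) V16.M00.check
  have hgA : HV V16.Amb.gA = HV V16.M00.T := by
    congr 1
  rw [show HV V16.Amb.gA = H 4 15 (eV 4) (topGens V16.M00.levels) from hgA.trans hTeq]
  apply (Subgroup.closure_le _).2
  rintro g ⟨c, hc, hg⟩
  exact sift_sound_of_sem hm hid V16.M00.levels hsem c g hg ((allL_eq_true _ _).mp h c hc)

theorem TA_le : HV V16.Amb.TA ≤ HV V16.Amb.gA := sift_le (by decide +kernel)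

theorem T7_le : HV V16.M12.T ≤ HV V16.Amb.gA := sift_le (by decide +kernel)

theorem card_T7 : Nat.card (HV V16.M12.T) = 7 := by
  rw [card_of_check V16.M12.valid V16.M12.check, V16.M12.order]

theorem full : FullTo (eV 4) 2 V16.M01.levels [0] := by
  show ∃ b : V4, _ ∧ _ ∧ _
  refine ⟨![1, 0, 0, 0], by decide +kernel, by decide +kernel, ?_⟩
  show ∃ b : V4, _ ∧ _ ∧ _
  refine ⟨![0, 1, 0, 0], by decide +kernel, by decide +kernel, trivial⟩

theorem base_match (v w : V4) (hv : v ≠ 0) (hw : w ≠ 0) (hvw : v ≠ w) :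
    ∃ g ∈ HV V16.Amb.TA, g ![1, 0, 0, 0] = v ∧ g ![0, 1, 0, 0] = w := by
  obtain ⟨hm, hid, -, hsem, hTeq, -⟩ :=
    main_of_checkAll (e := eV 4) (reps_of_valid16 V16.M01.valid) V16.M01.check
  have hTA : HV V16.Amb.TA = H 4 15 (eV 4) (topGens V16.M01.levels) := hTeq
  have hfix : ∀ k ∈ H 4 15 (eV 4) (topGens V16.M01.levels), ∀ p ∈ [(0 : V4)], k p = p := by
    intro k hk p hp
    rw [← hTA] at hk
    have h1 := TA_le hk
    rw [HV_gA] at h1
    obtain ⟨g, rfl⟩ := h1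
    rw [List.mem_singleton] at hp
    subst hp
    rw [rho_apply, Matrix.mulVec_zero]
  have hnd : [v, w].Nodup := by simpa using hvw
  obtain ⟨g, hg, hM⟩ := exists_map_of_full 2 [v, w] V16.M01.levels [0] rfl hsem full hnd
    (by simpa using ⟨hv, hw⟩) hfix
  refine ⟨g, hTA ▸ hg, ?_⟩
  obtain ⟨h0, h1, -⟩ := hM
  exact ⟨h0 _ (by decide +kernel), h1 _ (by decide +kernel)⟩

theorem two_trans (v w v' w' : V4) (hv : v ≠ 0) (hw : w ≠ 0) (hvw : v ≠ w)
    (hv' : v' ≠ 0) (hw' : w' ≠ 0) (hvw' : v' ≠ w') :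
    ∃ g ∈ HV V16.Amb.TA, g v = v' ∧ g w = w' := by
  obtain ⟨a, ha, ha1, ha2⟩ := base_match v w hv hw hvw
  obtain ⟨b, hb, hb1, hb2⟩ := base_match v' w' hv' hw' hvw'
  refine ⟨b * a⁻¹, (HV V16.Amb.TA).mul_mem hb ((HV V16.Amb.TA).inv_mem ha), ?_, ?_⟩
  · rw [Equiv.Perm.mul_apply, ← ha1, ← Equiv.Perm.mul_apply a⁻¹ a, inv_mul_cancel, Equiv.Perm.one_apply, hb1]
  · rw [Equiv.Perm.mul_apply, ← ha2, ← Equiv.Perm.mul_apply a⁻¹ a, inv_mul_cancel, Equiv.Perm.one_apply, hb2]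

/-- A subgroup of order 2520 is conjugate to the standard one. -/
theorem conj_to_TA (X : Subgroup (Equiv.Perm V4)) (hX : X ≤ HV V16.Amb.gA) (hc : Nat.card X = 2520) :
    ∃ x ∈ HV V16.Amb.gA, X.map (MulAut.conj x).toMonoidHom = HV V16.Amb.TA := by
  have : Fact (Nat.Prime 7) := ⟨by norm_num⟩
  obtain ⟨c, hcc⟩ := exists_prime_orderOf_dvd_card' (G := X) 7 (by rw [hc]; norm_num)
  let Γ := HV V16.Amb.gA
  let c' : Γ := ⟨c.1, hX c.2⟩
  have hord : orderOf c' = 7 := by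
    rw [← hcc]
    have h1 : orderOf c' = orderOf (c.1) := Subgroup.orderOf_mk _ _
    have h2 : orderOf c = orderOf (c.1) := (Subgroup.orderOf_coe c).symm
    rw [h1, h2]
  let A : Subgroup Γ := Subgroup.zpowers c'
  let B : Subgroup Γ := (HV V16.M12.T).subgroupOf Γ
  have hA : Nat.card A = 7 := by
    rw [Nat.card_zpowers, hord]
  have hB : Nat.card B = 7 := by
    rw [← card_T7]
    exact Nat.card_congr (Subgroup.subgroupOfEquivOfLe T7_le).toEquiv
  have hcardΓ : Nat.card Γ = 20160 := by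
    have h1 := card_of_check V16.M00.valid V16.M00.check
    have h2 : V16.Amb.gA = V16.M00.T := rfl
    show Nat.card (HV V16.Amb.gA) = 20160
    rw [h2, h1]
    decide +kernel
  obtain ⟨y, hy⟩ := A8.Classify.exists_conj_of_card_prime A B hA hB (by rw [hcardΓ]; norm_num)
  refine ⟨(y : Equiv.Perm V4), y.2, ?_⟩
  apply V16.M12.pc
  · intro b hb
    have h1 : (⟨b, T7_le hb⟩ : Γ) ∈ B := hb
    have h2 := hy _ h1
    obtain ⟨k, hk⟩ := Subgroup.mem_zpowers_iff.mp h2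
    refine ⟨c.1 ^ k, X.zpow_mem c.2 k, ?_⟩
    have h3 : ((c' ^ k : Γ) : Equiv.Perm V4) = c.1 ^ k := by
      simp [c']
    have h4 : (y : Equiv.Perm V4)⁻¹ * b * y = c.1 ^ k := by
      rw [← h3, hk]
      rfl
    show (y : Equiv.Perm V4) * c.1 ^ k * (y : Equiv.Perm V4)⁻¹ = b
    rw [← h4]
    group
  · rintro _ ⟨a, ha, rfl⟩
    show (y : Equiv.Perm V4) * a * (y : Equiv.Perm V4)⁻¹ ∈ HV V16.Amb.gA
    exact (HV V16.Amb.gA).mul_mem ((HV V16.Amb.gA).mul_mem y.2 (hX ha)) ((HV V16.Amb.gA).inv_mem y.2)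
  · rw [← hc]
    exact Nat.card_congr (X.equivMapOfInjective _ (MulAut.conj _).injective).toEquiv.symm

/-- The statement over `ZMod 2`. -/
theorem main_zmod (H : Subgroup (GL (Fin 4) (ZMod 2))) (hH : Nat.card H = 2520) (v w v' w' : V4)
    (hv : v ≠ 0) (hw : w ≠ 0) (hvw : v ≠ w) (hv' : v' ≠ 0) (hw' : w' ≠ 0) (hvw' : v' ≠ w') :
    ∃ g ∈ H, (g : Matrix (Fin 4) (Fin 4) (ZMod 2)).mulVec v = v' ∧
      (g : Matrix (Fin 4) (Fin 4) (ZMod 2)).mulVec w = w' := by
  let X := H.map (rho 4)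
  have hX : X ≤ HV V16.Amb.gA := by
    rw [HV_gA]
    rintro _ ⟨a, -, rfl⟩
    exact ⟨a, rfl⟩
  have hc : Nat.card X = 2520 := by
    rw [← hH]
    exact Nat.card_congr (H.equivMapOfInjective _ (rho_injective 4)).toEquiv.symm
  obtain ⟨x, hx, hconj⟩ := conj_to_TA X hX hc
  rw [HV_gA] at hx
  obtain ⟨x₀, rfl⟩ := hx
  have hnz : ∀ u : V4, u ≠ 0 → rho 4 x₀ u ≠ 0 := by
    intro u hu h0
    apply hu
    apply (rho 4 x₀).injective
    rw [h0, rho_apply, Matrix.mulVec_zero]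
  have hinj : ∀ {a b : V4}, a ≠ b → rho 4 x₀ a ≠ rho 4 x₀ b := fun h h' => h ((rho 4 x₀).injective h')
  obtain ⟨y, hy, h1, h2⟩ := two_trans (rho 4 x₀ v) (rho 4 x₀ w) (rho 4 x₀ v') (rho 4 x₀ w')
    (hnz _ hv) (hnz _ hw) (hinj hvw) (hnz _ hv') (hnz _ hw') (hinj hvw')
  rw [← hconj] at hy
  obtain ⟨a, ⟨g, hg, rfl⟩, rfl⟩ := hy
  refine ⟨g, hg, ?_, ?_⟩
  · rw [← rho_apply]
    apply (rho 4 x₀).injective
    rw [← h1]
    simp [MulAut.conj_apply]
  · rw [← rho_apply]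
    apply (rho 4 x₀).injective
    rw [← h2]
    simp [MulAut.conj_apply]

/-- The subgroup of order 2520 of `A₈` is alternating. -/
theorem N01_alt : Nonempty (HH A8.N01.T ≃* alternatingGroup (Fin 7)) := by
  have hT : A8.N01.Ds.map (·.1) = A8.N01.T := by decide +kernel
  rw [← hT]
  obtain ⟨⟨f⟩, hc⟩ := iso_of_checks (e₂ := Equiv.refl (Fin 7)) (by norm_num) A8.N01.hid2 A8.N01.diag
    A8.N01.check1 A8.N01.check2 A8.N01.check3 A8.N01.o1 A8.N01.o2
  have ho3 := A8.N01.o3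
  have hindex : (H 3 7 (Equiv.refl (Fin 7)) (A8.N01.Ds.map (·.2.1))).index = 2 := by
    have h4 := Subgroup.card_mul_index (H 3 7 (Equiv.refl (Fin 7)) (A8.N01.Ds.map (·.2.1)))
    rw [hc, Nat.card_eq_fintype_card, Fintype.card_perm, Fintype.card_fin, ← ho3] at h4
    have h5 : 0 < orderC A8.N01.b_levels := by
      rw [← hc]
      exact Nat.card_pos
    exact Nat.eq_of_mul_eq_mul_left h5 h4
  have heq := Equiv.Perm.eq_alternatingGroup_of_index_eq_two hindex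
  exact ⟨f.trans (MulEquiv.subgroupCongr heq)⟩

/-- Existence over `ZMod 2`. -/
theorem exists_zmod : ∃ H : Subgroup (GL (Fin 4) (ZMod 2)), Nonempty (H ≃* alternatingGroup (Fin 7)) := by
  obtain ⟨f⟩ := A8.GL4.equiv_gl4
  obtain ⟨g⟩ := N01_alt
  have hle : HH A8.N01.T ≤ HH A8.Amb.gA := by
    obtain ⟨hm, hid, -, hsem, hTeq, -⟩ :=
      main_of_checkAll (e := A8.Common.e8) (A8.Common.reps_of_valid A8.N00.valid) A8.N00.check
    have h : allL (sift 8 3 7 24 0xffffff A8.Common.idc8 A8.N00.levels) A8.N01.T = true := by decide +kernel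
    have hgA : HH A8.Amb.gA = HH A8.N00.T := by
      congr 1
    rw [show HH A8.Amb.gA = H 3 7 A8.Common.e8 (topGens A8.N00.levels) from hgA.trans hTeq]
    apply (Subgroup.closure_le _).2
    rintro g ⟨c, hc, hg⟩
    exact sift_sound_of_sem hm hid A8.N00.levels hsem c g hg ((allL_eq_true _ _).mp h c hc)
  let S : Subgroup (HH A8.Amb.gA) := (HH A8.N01.T).subgroupOf (HH A8.Amb.gA)
  have e1 : S ≃* HH A8.N01.T := Subgroup.subgroupOfEquivOfLe hle
  exact ⟨S.map f.toMonoidHom, ⟨(S.equivMapOfInjective _ f.injective).symm.trans (e1.trans g)⟩⟩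

/-- Let F be the field with 2 elements. GL_4(F) (≅ A_8) has a subgroup isomorphic to the alternating group A_7, and every such subgroup acts 2-transitively on the 15 non-zero vectors of F⁴: any ordered pair of distinct non-zero vectors is carried to any other by some element of the subgroup. -/
theorem result {F : Type*} [Field F] [Fintype F] (hF : Fintype.card F = 2) : (∃ H : Subgroup (Matrix.GeneralLinearGroup (Fin 4) F), Nonempty (H ≃* alternatingGroup (Fin 7))) ∧ ∀ H : Subgroup (Matrix.GeneralLinearGroup (Fin 4) F), Nonempty (H ≃* alternatingGroup (Fin 7)) → ∀ v w v' w' : Fin 4 → F, v ≠ 0 → w ≠ 0 → v ≠ w → v' ≠ 0 → w' ≠ 0 → v' ≠ w' → ∃ g ∈ H, (g : Matrix (Fin 4) (Fin 4) F).mulVec v = v' ∧ (g : Matrix (Fin 4) (Fin 4) F).mulVec w = w' := by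
  classical
  let σ : ZMod 2 ≃+* F := ZMod.ringEquivOfPrime F Nat.prime_two hF
  let τ : GL (Fin 4) (ZMod 2) ≃* GL (Fin 4) F := Units.mapEquiv (RingEquiv.mapMatrix σ).toMulEquiv
  have hτ : ∀ (g : GL (Fin 4) (ZMod 2)) (x : Fin 4 → ZMod 2),
      ((τ g : GL (Fin 4) F) : Matrix (Fin 4) (Fin 4) F).mulVec (σ ∘ x) =
        σ ∘ (g : Matrix (Fin 4) (Fin 4) (ZMod 2)).mulVec x := by
    intro g x
    have h1 : ((τ g : GL (Fin 4) F) : Matrix (Fin 4) (Fin 4) F) =
        (g : Matrix (Fin 4) (Fin 4) (ZMod 2)).map σ := rfl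
    rw [h1]
    funext i
    exact (RingHom.map_mulVec (σ : ZMod 2 →+* F) _ _ i).symm
  refine ⟨?_, ?_⟩
  · obtain ⟨H, ⟨f⟩⟩ := exists_zmod
    exact ⟨H.map τ.toMonoidHom, ⟨(H.equivMapOfInjective _ τ.injective).symm.trans f⟩⟩
  · rintro H ⟨f⟩ v w v' w' hv hw hvw hv' hw' hvw'
    let H₀ : Subgroup (GL (Fin 4) (ZMod 2)) := H.comap τ.toMonoidHom
    have hcard : Nat.card H₀ = 2520 := by
      have e1 : H₀ ≃* H := by
        refine MulEquiv.mk' (Equiv.subtypeEquiv τ.toEquiv (fun a => Iff.rfl)) ?_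
        rintro ⟨a, ha⟩ ⟨b, hb⟩
        exact Subtype.ext (map_mul τ a b)
      rw [Nat.card_congr e1.toEquiv, Nat.card_congr f.toEquiv, nat_card_alternatingGroup, Nat.card_fin]
      decide
    let s : (Fin 4 → F) → (Fin 4 → ZMod 2) := fun x => σ.symm ∘ x
    have hs : ∀ x, σ ∘ s x = x := fun x => by
      funext i
      simp [s]
    have hs0 : ∀ x, x ≠ 0 → s x ≠ 0 := by
      intro x hx h0
      apply hx
      rw [← hs x, h0]
      funext i
      simp
    have hsne : ∀ {x y}, x ≠ y → s x ≠ s y := by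
      intro x y hxy h0
      apply hxy
      rw [← hs x, ← hs y, h0]
    obtain ⟨g, hg, h1, h2⟩ := main_zmod H₀ hcard (s v) (s w) (s v') (s w')
      (hs0 _ hv) (hs0 _ hw) (hsne hvw) (hs0 _ hv') (hs0 _ hw') (hsne hvw')
    refine ⟨τ g, hg, ?_, ?_⟩
    · rw [← hs v, hτ, h1, hs]
    · rw [← hs w, hτ, h2, hs]

end Cfsg.Agent.S2551
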