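import Cfsg.Statements.S2552
import Mathlib

set_option autoImplicit false
open Cfsg

namespace Cfsg.Agent.S2552

open Matrix Module

theorem exists_equiv_map {F V : Type*} [Field F] [AddCommGroup V] [Module F V] [FiniteDimensional F V]
    (U₁ U₂ : Submodule F V) (h : finrank F U₁ = finrank F U₂) :
    ∃ e : V ≃ₗ[F] V, U₁.map e.toLinearMap = U₂ := by
  obtain ⟨C₁, hC₁⟩ := Submodule.exists_isCompl U₁
  obtain ⟨C₂, hC₂⟩ := Submodule.exists_isCompl U₂
  have hc : finrank F C₁ = finrank F C₂ := by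
    have h1 := Submodule.finrank_add_eq_of_isCompl hC₁
    have h2 := Submodule.finrank_add_eq_of_isCompl hC₂
    omega
  let e₁ : U₁ ≃ₗ[F] U₂ := LinearEquiv.ofFinrankEq _ _ h
  let e₂ : C₁ ≃ₗ[F] C₂ := LinearEquiv.ofFinrankEq _ _ hc
  let e : V ≃ₗ[F] V := (Submodule.prodEquivOfIsCompl U₁ C₁ hC₁).symm ≪≫ₗ (e₁.prodCongr e₂) ≪≫ₗ
    (Submodule.prodEquivOfIsCompl U₂ C₂ hC₂)
  refine ⟨e, ?_⟩
  apply Submodule.eq_of_le_of_finrank_eq
  · rintro _ ⟨u, hu, rfl⟩
    have : e u = (e₁ ⟨u, hu⟩ : V) := by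
      simp only [e, LinearEquiv.trans_apply]
      rw [Submodule.prodEquivOfIsCompl_symm_apply_left U₁ C₁ hC₁ ⟨u, hu⟩]
      simp
    change e u ∈ U₂
    rw [this]
    exact (e₁ ⟨u, hu⟩).2
  · rw [← h]
    exact LinearEquiv.finrank_map_eq e U₁

/-- Let F be a finite field and n ≥ 1. For every k, the special linear group SL_n(F) acts transitively on the set of k-dimensional subspaces of F^n: any two subspaces of the same dimension are carried onto each other by some matrix of determinant 1. -/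
theorem result {F : Type*} [Field F] [Fintype F] (n : ℕ) (hn : 1 ≤ n) (U₁ U₂ : Submodule F (Fin n → F)) (h : Module.finrank F U₁ = Module.finrank F U₂) : ∃ g : Matrix.SpecialLinearGroup (Fin n) F, U₁.map ((Matrix.SpecialLinearGroup.toLin' g : (Fin n → F) ≃ₗ[F] (Fin n → F)) : (Fin n → F) →ₗ[F] (Fin n → F)) = U₂ := by
  classical
  by_cases hU : U₁ = ⊥
  · refine ⟨1, ?_⟩
    subst hU
    rw [finrank_bot] at h
    have : U₂ = ⊥ := Submodule.finrank_eq_zero.mp h.symm
    rw [this, Submodule.map_bot]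
  obtain ⟨e, he⟩ := exists_equiv_map U₁ U₂ h
  obtain ⟨u, hu, hu0⟩ := Submodule.exists_mem_ne_zero_of_ne_bot hU
  obtain ⟨i, hi⟩ : ∃ i, u i ≠ 0 := by
    by_contra hcon
    push Not at hcon
    exact hu0 (funext hcon)
  let E : Matrix (Fin n) (Fin n) F := LinearMap.toMatrix' e.toLinearMap
  have hEdet : E.det ≠ 0 := by
    have : IsUnit E.det := by
      have h1 : E * LinearMap.toMatrix' e.symm.toLinearMap = 1 := by
        simp only [E]
        rw [← LinearMap.toMatrix'_comp]
        simp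
      exact IsUnit.of_mul_eq_one _ (by rw [← Matrix.det_mul, h1, Matrix.det_one])
    exact this.ne_zero
  set δ := E.det with hδ
  -- the dilation
  let φ : Fin n → F := Function.update 0 i ((u i)⁻¹)
  have hφu : φ ⬝ᵥ u = 1 := by
    simp [φ, dotProduct, Function.update_apply, Finset.sum_ite_eq', hi]
  let D : Matrix (Fin n) (Fin n) F := 1 + Matrix.vecMulVec ((δ⁻¹ - 1) • u) φ
  have hDdet : D.det = δ⁻¹ := by
    have h1 : Matrix.vecMulVec ((δ⁻¹ - 1) • u) φ = (Matrix.replicateCol Unit ((δ⁻¹ - 1) • u)) * (Matrix.replicateRow Unit φ) := by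
      ext a b
      simp [Matrix.vecMulVec_apply, Matrix.mul_apply]
    simp only [D]
    rw [h1, Matrix.det_one_add_mul_comm]
    have h2 : (Matrix.replicateRow Unit φ) * (Matrix.replicateCol Unit ((δ⁻¹ - 1) • u)) = Matrix.of (fun _ _ => (δ⁻¹ - 1) * (φ ⬝ᵥ u)) := by
      ext a b
      simp only [Matrix.mul_apply, dotProduct, Matrix.replicateRow_apply, Matrix.replicateCol_apply, Pi.smul_apply, smul_eq_mul, Matrix.of_apply, Finset.mul_sum]
      exact Finset.sum_congr rfl (fun x _ => by ring)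
    rw [h2, hφu]
    simp
  have hDapply : ∀ v, D *ᵥ v = v + ((δ⁻¹ - 1) * (φ ⬝ᵥ v)) • u := by
    intro v
    simp only [D, Matrix.add_mulVec, Matrix.one_mulVec]
    congr 1
    rw [Matrix.vecMulVec_mulVec]
    ext a
    simp [mul_comm, mul_left_comm]
  let gm : Matrix (Fin n) (Fin n) F := E * D
  have hgm : gm.det = 1 := by
    simp only [gm]
    rw [Matrix.det_mul, hDdet, mul_inv_cancel₀ hEdet]
  let g : Matrix.SpecialLinearGroup (Fin n) F := ⟨gm, hgm⟩
  refine ⟨g, ?_⟩
  -- `D` preserves `U₁`.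
  have hDU : U₁.map (Matrix.toLin' D) = U₁ := by
    have hinj : Function.Injective (Matrix.toLin' D) := by
      intro a b hab
      have hu' : IsUnit D.det := by rw [hDdet]; exact (isUnit_iff_ne_zero.mpr (inv_ne_zero hEdet))
      have := (Matrix.mulVec_injective_iff_isUnit.mpr ((Matrix.isUnit_iff_isUnit_det D).mpr hu'))
      exact this hab
    apply Submodule.eq_of_le_of_finrank_eq
    · rintro _ ⟨v, hv, rfl⟩
      change D *ᵥ v ∈ U₁
      rw [hDapply]
      exact U₁.add_mem hv (U₁.smul_mem _ hu)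
    · exact (Submodule.equivMapOfInjective _ hinj U₁).finrank_eq.symm
  have hcoe : ((Matrix.SpecialLinearGroup.toLin' g : (Fin n → F) ≃ₗ[F] (Fin n → F)) : (Fin n → F) →ₗ[F] (Fin n → F)) = e.toLinearMap ∘ₗ Matrix.toLin' D := by
    refine (Matrix.SpecialLinearGroup.toLin'_to_linearMap g).trans ?_
    change Matrix.toLin' (E * D) = _
    rw [Matrix.toLin'_mul]
    simp only [E, Matrix.toLin'_toMatrix']
  rw [hcoe, Submodule.map_comp, hDU, he]

end Cfsg.Agent.S2552
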