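import Cfsg.Statements.S2561
import Cfsg.Agent.Lib.F2Quad.Types

set_option autoImplicit false
open Cfsg Cfsg.Agent.Lib.F2Quad.Basic Cfsg.Agent.Lib.F2Quad.Plus Cfsg.Agent.Lib.F2Quad.Types

namespace Cfsg.Agent.S2561

/-- The parametrization of quadratic functions by vectors. -/
noncomputable def param (m : ℕ) (w : Vm m) :
    {q : Vm m → ZMod 2 // ∀ u v : Vm m, q (u + v) = q u + q v + (Cfsg.quadFormPlus m (ZMod 2) (u + v) - Cfsg.quadFormPlus m (ZMod 2) u - Cfsg.quadFormPlus m (ZMod 2) v)} :=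
  ⟨fun v => Cfsg.quadFormPlus m (ZMod 2) v + fm m v w, fun u v => by
    rw [polar_eq]
    exact (translate_polarizes w).add u v⟩

theorem param_bij (m : ℕ) : Function.Bijective (param m) := by
  constructor
  · intro w w' h
    apply w_unique
    intro v
    have := congrArg (fun q => q.1 v) h
    simpa [param] using this
  · rintro ⟨q, hq⟩
    obtain ⟨w, hw⟩ := exists_w (polarizes_of hq)
    exact ⟨w, Subtype.ext (funext fun v => (hw v).symm)⟩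

theorem card_pol (m : ℕ) :
    Nat.card {q : Vm m → ZMod 2 // ∀ u v : Vm m, q (u + v) = q u + q v + (Cfsg.quadFormPlus m (ZMod 2) (u + v) - Cfsg.quadFormPlus m (ZMod 2) u - Cfsg.quadFormPlus m (ZMod 2) v)} = 2 ^ (2 * m) := by
  rw [← Nat.card_congr (Equiv.ofBijective _ (param_bij m)), card_V]

/-- Subsets of the set of quadratic functions defined by a predicate. -/
theorem card_sub (m : ℕ) (P : (Vm m → ZMod 2) → Prop) (R : Vm m → Prop)
    (h : ∀ w, P (fun v => Cfsg.quadFormPlus m (ZMod 2) v + fm m v w) ↔ R w) :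
    Nat.card {q : Vm m → ZMod 2 // (∀ u v : Vm m, q (u + v) = q u + q v + (Cfsg.quadFormPlus m (ZMod 2) (u + v) - Cfsg.quadFormPlus m (ZMod 2) u - Cfsg.quadFormPlus m (ZMod 2) v)) ∧ P q} = Nat.card {w : Vm m // R w} := by
  refine (Nat.card_congr (Equiv.ofBijective (fun w : {w : Vm m // R w} => (⟨(param m w.1).1, (param m w.1).2, (h w.1).mpr w.2⟩ :
    {q : Vm m → ZMod 2 // (∀ u v : Vm m, q (u + v) = q u + q v + (Cfsg.quadFormPlus m (ZMod 2) (u + v) - Cfsg.quadFormPlus m (ZMod 2) u - Cfsg.quadFormPlus m (ZMod 2) v)) ∧ P q})) ?_)).symm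
  constructor
  · rintro ⟨w, hw⟩ ⟨w', hw'⟩ he
    apply Subtype.ext
    apply (param_bij m).1
    have h' := congrArg Subtype.val he
    exact Subtype.ext h'
  · rintro ⟨q, hq, hP⟩
    obtain ⟨w, hw⟩ := (param_bij m).2 ⟨q, hq⟩
    have hqw : (fun v => Cfsg.quadFormPlus m (ZMod 2) v + fm m v w) = q := congrArg Subtype.val hw
    refine ⟨⟨w, (h w).mp (by rw [hqw]; exact hP)⟩, ?_⟩
    exact Subtype.ext hqw

/-- Fix the non-singular alternating form on the 2m-dimensional space over the field of two elements obtained by polarizing the plus-type form Σ xᵢyᵢ (m ≥ 1). The functions q on the space with q(u + v) = q(u) + q(v) + f(u, v) (the quadratic forms polarizing to f) number 2^(2m); each is equivalent under an invertible linear map either to the plus-type form or to the minus-type form Σ xᵢyᵢ + (z₁² + z₁z₂ + z₂²); and those of plus type number 2^(2m−1) + 2^(m−1), those of minus type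 2^(2m−1) − 2^(m−1). -/
theorem result (m : ℕ) (hm : 1 ≤ m) :
    Nat.card {q : (Fin m ⊕ Fin m → ZMod 2) → ZMod 2 // (∀ u v : (Fin m ⊕ Fin m → ZMod 2), q (u + v) = q u + q v + (Cfsg.quadFormPlus m (ZMod 2) (u + v) - Cfsg.quadFormPlus m (ZMod 2) u - Cfsg.quadFormPlus m (ZMod 2) v))} = 2 ^ (2 * m) ∧
    (∀ q : (Fin m ⊕ Fin m → ZMod 2) → ZMod 2, (∀ u v : (Fin m ⊕ Fin m → ZMod 2), q (u + v) = q u + q v + (Cfsg.quadFormPlus m (ZMod 2) (u + v) - Cfsg.quadFormPlus m (ZMod 2) u - Cfsg.quadFormPlus m (ZMod 2) v)) →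
      (∃ g : (Fin m ⊕ Fin m → ZMod 2) ≃ₗ[ZMod 2] (Fin m ⊕ Fin m → ZMod 2), ∀ v, q v = Cfsg.quadFormPlus m (ZMod 2) (g v)) ∨
      (∃ g : (Fin m ⊕ Fin m → ZMod 2) ≃ₗ[ZMod 2] ((Fin (m - 1) ⊕ Fin (m - 1)) ⊕ Fin 2 → ZMod 2), ∀ v, q v = Cfsg.quadFormMinus (m - 1) (ZMod 2) 1 1 (g v))) ∧
    Nat.card {q : (Fin m ⊕ Fin m → ZMod 2) → ZMod 2 // (∀ u v : (Fin m ⊕ Fin m → ZMod 2), q (u + v) = q u + q v + (Cfsg.quadFormPlus m (ZMod 2) (u + v) - Cfsg.quadFormPlus m (ZMod 2) u - Cfsg.quadFormPlus m (ZMod 2) v)) ∧ ∃ g : (Fin m ⊕ Fin m → ZMod 2) ≃ₗ[ZMod 2] (Fin m ⊕ Fin m → ZMod 2), ∀ v, q v = Cfsg.quadFormPlus m (ZMod 2) (g v)} = 2 ^ (2 * m - 1) + 2 ^ (m - 1) ∧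
    Nat.card {q : (Fin m ⊕ Fin m → ZMod 2) → ZMod 2 // (∀ u v : (Fin m ⊕ Fin m → ZMod 2), q (u + v) = q u + q v + (Cfsg.quadFormPlus m (ZMod 2) (u + v) - Cfsg.quadFormPlus m (ZMod 2) u - Cfsg.quadFormPlus m (ZMod 2) v)) ∧ ∃ g : (Fin m ⊕ Fin m → ZMod 2) ≃ₗ[ZMod 2] ((Fin (m - 1) ⊕ Fin (m - 1)) ⊕ Fin 2 → ZMod 2), ∀ v, q v = Cfsg.quadFormMinus (m - 1) (ZMod 2) 1 1 (g v)} = 2 ^ (2 * m - 1) - 2 ^ (m - 1) := by
  obtain ⟨k, rfl⟩ : ∃ k, m = k + 1 := ⟨m - 1, by omega⟩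
  refine ⟨card_pol (k + 1), ?_, ?_, ?_⟩
  · intro q hq
    obtain ⟨w, hw⟩ := exists_w (polarizes_of hq)
    rcases zmod2_cases (Cfsg.quadFormPlus (k + 1) (ZMod 2) w) with h | h
    · left
      obtain ⟨g, hg⟩ := (plus_iff (k + 1) w).mpr h
      exact ⟨g, fun v => by rw [hw, hg]⟩
    · right
      obtain ⟨g, hg⟩ := (minus_iff k w).mpr h
      exact ⟨g, fun v => by rw [hw, hg]; rfl⟩
  · rw [card_sub (k + 1) (fun q => ∃ g : Vm (k + 1) ≃ₗ[ZMod 2] Vm (k + 1), ∀ v, q v = Cfsg.quadFormPlus (k + 1) (ZMod 2) (g v))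
      (fun w => Cfsg.quadFormPlus (k + 1) (ZMod 2) w = 0) (plus_iff (k + 1)), card_zero]
    have : 2 * (k + 1) - 1 = 2 * k + 1 := by omega
    rw [this, Nat.add_sub_cancel]
  · refine (card_sub (k + 1) (fun q => ∃ g : Vm (k + 1) ≃ₗ[ZMod 2] ((Fin k ⊕ Fin k) ⊕ Fin 2 → ZMod 2), ∀ v, q v = Cfsg.quadFormMinus k (ZMod 2) 1 1 (g v))
      (fun w => Cfsg.quadFormPlus (k + 1) (ZMod 2) w = 1) (minus_iff k)).trans ?_
    rw [card_one]
    have : 2 * (k + 1) - 1 = 2 * k + 1 := by omega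
    rw [this, Nat.add_sub_cancel]

end Cfsg.Agent.S2561
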