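import Cfsg.Statements.S2562
import Cfsg.Agent.Lib.F2Quad.Types

set_option autoImplicit false
open Cfsg Cfsg.Agent.Lib.F2Quad.Basic Cfsg.Agent.Lib.F2Quad.Plus Cfsg.Agent.Lib.F2Quad.Types Cfsg.Agent.Lib.QuadFn.PlusForm Cfsg.Agent.Lib.QuadFn.MaxSingular

namespace Cfsg.Agent.S2562

theorem finrank_Vm (m : ℕ) : Module.finrank (ZMod 2) (Vm m) = 2 * m := by
  rw [Module.finrank_fintype_fun_eq_card, Fintype.card_sum, Fintype.card_fin, two_mul]

/-- The `x`-coordinate subspace. -/
def embPlus (m : ℕ) : (Fin m → ZMod 2) →ₗ[ZMod 2] Vm m where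
  toFun x := Sum.elim x 0
  map_add' x y := by ext (i | i) <;> simp
  map_smul' c x := by ext (i | i) <;> simp

theorem embPlus_inj (m : ℕ) : Function.Injective (embPlus m) := by
  intro x y h
  ext i
  exact congrFun h (.inl i)

/-- The `x`-coordinate subspace, minus-type case. -/
def embMinus (k : ℕ) : (Fin k → ZMod 2) →ₗ[ZMod 2] ((Fin k ⊕ Fin k) ⊕ Fin 2 → ZMod 2) where
  toFun x := Sum.elim (Sum.elim x 0) 0
  map_add' x y := by ext ((i | i) | i) <;> simp
  map_smul' c x := by ext ((i | i) | i) <;> simp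

theorem embMinus_inj (k : ℕ) : Function.Injective (embMinus k) := by
  intro x y h
  ext i
  exact congrFun h (.inl (.inl i))

theorem minus_bound (k : ℕ) (U : Submodule (ZMod 2) ((Fin k ⊕ Fin k) ⊕ Fin 2 → ZMod 2))
    (hU : ∀ u ∈ U, Cfsg.quadFormMinus k (ZMod 2) 1 1 u = 0) : Module.finrank (ZMod 2) U ≤ k := by
  -- transport to `Vm (k+1)`
  let U' : Submodule (ZMod 2) (Vm (k + 1)) := U.comap (iota k).toLinearMap
  have hdim : Module.finrank (ZMod 2) U' = Module.finrank (ZMod 2) U :=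
    LinearEquiv.finrank_eq ((iota k).submoduleMap U' |>.trans (LinearEquiv.ofEq _ _ (by
      ext x
      simp only [U', Submodule.mem_map, Submodule.mem_comap]
      constructor
      · rintro ⟨y, hy, rfl⟩
        exact hy
      · intro hx
        exact ⟨(iota k).symm x, by simpa using hx, by simp⟩)))
  let q₀ : Vm (k + 1) → ZMod 2 := fun v => Cfsg.quadFormPlus (k + 1) (ZMod 2) v + fm (k + 1) v (w0 k)
  have hP : Polarizes q₀ (fm (k + 1)) := translate_polarizes (w0 k)
  have hS : QSpace (fm (k + 1)) q₀ :=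
    { add := hP.add
      smul := fun a x => by
        rcases zmod2_cases a with rfl | rfl
        · rw [zero_smul, hP.map_zero]
          simp
        · rw [one_smul]
          simp
      symm := fm_symm (k + 1)
      nd := fm_nd _ }
  have hTS : TS q₀ U' := fun u hu => by
    show Cfsg.quadFormPlus (k + 1) (ZMod 2) u + fm (k + 1) u (w0 k) = 0
    rw [← minus_iota]
    exact hU _ hu
  have h1 := hS.finrank_ts_le (finrank_Vm (k + 1)) hTS
  by_contra hcon
  have h2 : Module.finrank (ZMod 2) U' = k + 1 := by omega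
  have h3 := hS.finrank_orth (finrank_Vm (k + 1)) U'
  have h4 : U' = (fm (k + 1)).orthogonal U' :=
    Submodule.eq_of_le_of_finrank_eq (hS.ts_le_orth hTS) (by omega)
  have h5 : 0 < gauss q₀ := by
    apply gauss_pos_of_lagrangian hP U' hTS
    intro v hv
    rw [h4, LinearMap.BilinForm.mem_orthogonal_iff]
    intro u hu
    show fm (k + 1) u v = 0
    rw [fm_symm]
    exact hv u hu
  have h6 : gauss q₀ = - 2 ^ (k + 1) := by
    have h7 := gauss_translate (polarizes_plus (k + 1)) (w0 k)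
    rw [plus_w0, chi_one, gauss_plus] at h7
    show gauss (fun v => _) = _
    rw [h7]
    ring
  rw [h6] at h5
  have h8 : (0:ℤ) < 2 ^ (k + 1) := by positivity
  omega

/-- Witt indices over the field of two elements, m ≥ 1: for the plus-type form Σ xᵢyᵢ in dimension 2m some m-dimensional subspace is totally singular and no totally singular subspace has larger dimension; for the minus-type form Σ xᵢyᵢ + (z₁² + z₁z₂ + z₂²) in dimension 2m the maximal dimension of a totally singular subspace is m − 1. -/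
theorem result (m : ℕ) (hm : 1 ≤ m) :
    (∃ U : Submodule (ZMod 2) (Fin m ⊕ Fin m → ZMod 2), (∀ u ∈ U, Cfsg.quadFormPlus m (ZMod 2) u = 0) ∧ Module.finrank (ZMod 2) ↥U = m) ∧
    (∀ U : Submodule (ZMod 2) (Fin m ⊕ Fin m → ZMod 2), (∀ u ∈ U, Cfsg.quadFormPlus m (ZMod 2) u = 0) → Module.finrank (ZMod 2) ↥U ≤ m) ∧
    (∃ U : Submodule (ZMod 2) ((Fin (m - 1) ⊕ Fin (m - 1)) ⊕ Fin 2 → ZMod 2), (∀ u ∈ U, Cfsg.quadFormMinus (m - 1) (ZMod 2) 1 1 u = 0) ∧ Module.finrank (ZMod 2) ↥U = m - 1) ∧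
    (∀ U : Submodule (ZMod 2) ((Fin (m - 1) ⊕ Fin (m - 1)) ⊕ Fin 2 → ZMod 2), (∀ u ∈ U, Cfsg.quadFormMinus (m - 1) (ZMod 2) 1 1 u = 0) → Module.finrank (ZMod 2) ↥U ≤ m - 1) := by
  obtain ⟨k, rfl⟩ : ∃ k, m = k + 1 := ⟨m - 1, by omega⟩
  refine ⟨⟨LinearMap.range (embPlus (k + 1)), ?_, ?_⟩, ?_, ⟨LinearMap.range (embMinus k), ?_, ?_⟩, minus_bound k⟩
  · rintro _ ⟨x, rfl⟩
    simp [Cfsg.quadFormPlus, embPlus]
  · rw [LinearMap.finrank_range_of_inj (embPlus_inj _)]
    simp
  · intro U hU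
    exact (qspace (ZMod 2) (k + 1)).finrank_ts_le (finrank_Vm (k + 1)) hU
  · rintro _ ⟨x, rfl⟩
    simp [Cfsg.quadFormMinus, embMinus]
  · have h : Module.finrank (ZMod 2) (LinearMap.range (embMinus k)) = k := by
      rw [LinearMap.finrank_range_of_inj (embMinus_inj _)]
      simp
    exact h

end Cfsg.Agent.S2562
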