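import Cfsg.Statements.S2565
import Cfsg.Agent.Lib.F2Quad.EvenSets
import Cfsg.Agent.Lib.F2Quad.OrthChain

set_option autoImplicit false
open Cfsg Cfsg.Agent.Lib.F2Quad.EvenSets Cfsg.Agent.Lib.F2Quad.OrthChain

namespace Cfsg.Agent.S2565

/-- The commutator subgroup of the full orthogonal group of the plus-type form Σ xᵢyᵢ in dimension 6 over the field of two elements (the group Ω⁺₆(2), of index 2) is isomorphic to the alternating group of degree 8. -/
theorem result :
    (Cfsg.Omega (ZMod 2) (Cfsg.quadFormPlus 3 (ZMod 2))).index = 2 ∧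
    Nonempty (↥(Cfsg.Omega (ZMod 2) (Cfsg.quadFormPlus 3 (ZMod 2))) ≃* alternatingGroup (Fin 8)) := by
  obtain ⟨φ, hinj⟩ : ∃ φ : Equiv.Perm (Pt 3) →* OG 3, Function.Injective φ := by
    obtain ⟨φ, -, h1, -, -⟩ := exists_plus 1 le_rfl odd_one
    exact ⟨φ, h1⟩
  have hcard : Nat.card (OG 3) ≤ Nat.card (Equiv.Perm (Pt 3)) := by
    refine card_OG_three.trans ?_
    rw [Nat.card_perm]
    simp [Nat.factorial]
  have hbij := hinj.bijective_of_nat_card_le hcard
  let e : Equiv.Perm (Pt 3) ≃* OG 3 := MulEquiv.ofBijective φ hbij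
  have h5 : 5 ≤ Nat.card (Pt 3) := by simp
  have hcomm : Cfsg.Omega (ZMod 2) (Cfsg.quadFormPlus 3 (ZMod 2)) = (alternatingGroup (Pt 3)).map e.toMonoidHom := by
    have h1 := alternatingGroup.commutator_perm_eq (α := Pt 3) h5
    rw [← h1]
    show commutator (OG 3) = _
    rw [commutator_def, commutator_def, Subgroup.map_commutator, Subgroup.map_top_of_surjective e.toMonoidHom e.surjective]
  constructor
  · rw [hcomm]
    have h2 : ((alternatingGroup (Pt 3)).map (e : Equiv.Perm (Pt 3) →* OG 3)).index = (alternatingGroup (Pt 3)).index :=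
      Subgroup.index_map_equiv _ e
    exact h2.trans alternatingGroup.index_eq_two
  · have e2 : Pt 3 ≃ Fin 8 := Fintype.equivFinOfCardEq (by simp)
    exact ⟨(MulEquiv.subgroupCongr hcomm).trans ((e.subgroupMap (alternatingGroup (Pt 3))).symm.trans (e2.altCongrHom))⟩

end Cfsg.Agent.S2565
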