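import Cfsg.Statements.S2566
import Cfsg.Agent.Lib.F2Quad.OrthChain

set_option autoImplicit false
open Cfsg Cfsg.Agent.Lib.F2Quad.OrthChain Cfsg.Agent.Lib.F2Quad.Plus
open scoped Matrix

namespace Cfsg.Agent.S2566

/-- The three non-zero vectors of the plane. -/
def vv : Fin 3 → Fin 2 → ZMod 2 := ![![1, 0], ![0, 1], ![1, 1]]

/-- The `2 × 2` matrix of a permutation of the three non-zero vectors. -/
def cc (σ : Equiv.Perm (Fin 3)) : Matrix (Fin 2) (Fin 2) (ZMod 2) :=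
  fun i j => vv (σ j.castSucc) i

/-- Coordinates on `2 × 2` matrices. -/
def pos : Fin 2 ⊕ Fin 2 → Fin 2 × Fin 2
  | .inl i => (0, i)
  | .inr i => (1, 1 - i)

abbrev I4 := Fin 2 ⊕ Fin 2

/-- Left multiplication. -/
def LM (σ : Equiv.Perm (Fin 3)) : Matrix I4 I4 (ZMod 2) :=
  fun p q => if (pos p).2 = (pos q).2 then cc σ (pos p).1 (pos q).1 else 0

/-- Right multiplication by the transpose. -/
def RM (σ : Equiv.Perm (Fin 3)) : Matrix I4 I4 (ZMod 2) :=
  fun p q => if (pos p).1 = (pos q).1 then cc σ (pos p).2 (pos q).2 else 0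

/-- Transposition of `2 × 2` matrices. -/
def swp : I4 → I4
  | .inl 0 => .inl 0
  | .inr 0 => .inr 0
  | .inl 1 => .inr 1
  | .inr 1 => .inl 1

def TM : Matrix I4 I4 (ZMod 2) := fun p q => if swp p = q then 1 else 0

theorem LM_one : LM 1 = 1 := by decide +kernel
theorem RM_one : RM 1 = 1 := by decide +kernel
theorem LM_mul : ∀ σ τ, LM (σ * τ) = LM σ * LM τ := by decide +kernel
theorem RM_mul : ∀ σ τ, RM (σ * τ) = RM σ * RM τ := by decide +kernel
theorem TM_sq : TM * TM = 1 := by decide +kernel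
theorem LM_Q : ∀ σ (v : I4 → ZMod 2), Cfsg.quadFormPlus 2 (ZMod 2) (LM σ *ᵥ v) = Cfsg.quadFormPlus 2 (ZMod 2) v := by decide +kernel
theorem RM_Q : ∀ σ (v : I4 → ZMod 2), Cfsg.quadFormPlus 2 (ZMod 2) (RM σ *ᵥ v) = Cfsg.quadFormPlus 2 (ZMod 2) v := by decide +kernel
theorem TM_Q : ∀ (v : I4 → ZMod 2), Cfsg.quadFormPlus 2 (ZMod 2) (TM *ᵥ v) = Cfsg.quadFormPlus 2 (ZMod 2) v := by decide +kernel
theorem LM_inj : ∀ σ τ, LM σ = LM τ → σ = τ := by decide +kernel
theorem RM_inj : ∀ σ τ, RM σ = RM τ → σ = τ := by decide +kernel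
theorem LM_RM_eq : ∀ σ τ, LM σ = RM τ → σ = 1 ∧ τ = 1 := by decide +kernel
theorem LM_RM_comm : ∀ σ τ, LM σ * RM τ = RM τ * LM σ := by decide +kernel
theorem TM_ne : ∀ σ τ, TM ≠ LM σ * RM τ := by decide +kernel
theorem TM_conj : ∀ σ, TM * LM σ * TM = RM σ := by decide +kernel

/-- The left action in the orthogonal group. -/
noncomputable def LG : Equiv.Perm (Fin 3) →* OG 2 :=
  (MonoidHom.toHomUnits ({ toFun := LM, map_one' := LM_one, map_mul' := LM_mul } : Equiv.Perm (Fin 3) →* Matrix I4 I4 (ZMod 2))).codRestrict _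
    (fun σ u _ => LM_Q σ u)

/-- The right action in the orthogonal group. -/
noncomputable def RG : Equiv.Perm (Fin 3) →* OG 2 :=
  (MonoidHom.toHomUnits ({ toFun := RM, map_one' := RM_one, map_mul' := RM_mul } : Equiv.Perm (Fin 3) →* Matrix I4 I4 (ZMod 2))).codRestrict _
    (fun σ u _ => RM_Q σ u)

/-- The transposition in the orthogonal group. -/
def TG : OG 2 :=
  ⟨⟨TM, TM, TM_sq, TM_sq⟩, fun u _ => TM_Q u⟩

theorem LG_val (σ) : (LG σ).1.1 = LM σ := rfl
theorem RG_val (σ) : (RG σ).1.1 = RM σ := rfl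
theorem TG_val : TG.1.1 = TM := rfl

theorem OG_ext {g h : OG 2} (e : g.1.1 = h.1.1) : g = h := Subtype.ext (Units.ext e)

theorem LG_inj : Function.Injective LG := fun σ τ h => LM_inj σ τ (congrArg (fun g : OG 2 => g.1.1) h)
theorem RG_inj : Function.Injective RG := fun σ τ h => RM_inj σ τ (congrArg (fun g : OG 2 => g.1.1) h)

theorem LG_RG_comm (σ τ) : LG σ * RG τ = RG τ * LG σ := OG_ext (LM_RM_comm σ τ)

/-- The direct product of the two actions. -/
noncomputable def PG : Equiv.Perm (Fin 3) × Equiv.Perm (Fin 3) →* OG 2 :=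
  LG.noncommCoprod RG LG_RG_comm

theorem PG_apply (σ τ) : PG (σ, τ) = LG σ * RG τ := rfl

theorem PG_inj : Function.Injective PG := by
  rw [injective_iff_map_eq_one]
  rintro ⟨σ, τ⟩ h
  rw [PG_apply] at h
  have h1 : LG σ = RG τ⁻¹ := by
    rw [map_inv]
    exact eq_inv_of_mul_eq_one_left h
  obtain ⟨h2, h3⟩ := LM_RM_eq _ _ (congrArg (fun g : OG 2 => g.1.1) h1)
  rw [Prod.mk_eq_one]
  exact ⟨h2, inv_eq_one.mp h3⟩

theorem range_PG : PG.range = LG.range ⊔ RG.range := by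
  apply le_antisymm
  · rintro _ ⟨⟨σ, τ⟩, rfl⟩
    rw [PG_apply]
    exact Subgroup.mul_mem_sup ⟨σ, rfl⟩ ⟨τ, rfl⟩
  · apply sup_le
    · rintro _ ⟨σ, rfl⟩
      exact ⟨(σ, 1), by rw [PG_apply, map_one, mul_one]⟩
    · rintro _ ⟨τ, rfl⟩
      exact ⟨(1, τ), by rw [PG_apply, map_one, one_mul]⟩

/-- The full orthogonal group of the plus-type form x₁y₁ + x₂y₂ in dimension 4 over the field of two elements has order 72 and is isomorphic to the wreath product of the symmetric group of degree 3 by a group of order 2: it has a normal subgroup isomorphic to the direct product of two symmetric groups of degree 3, of index 2, whose two direct factors are interchanged by conjugation by some element. -/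
theorem result :
    Nat.card ↥(Cfsg.isometryGroup (ZMod 2) (Cfsg.quadFormPlus 2 (ZMod 2))) = 72 ∧
    ∃ (A B : Subgroup ↥(Cfsg.isometryGroup (ZMod 2) (Cfsg.quadFormPlus 2 (ZMod 2)))),
      Nonempty (↥A ≃* Equiv.Perm (Fin 3)) ∧ Nonempty (↥B ≃* Equiv.Perm (Fin 3)) ∧ A ⊓ B = ⊥ ∧ (∀ a ∈ A, ∀ b ∈ B, a * b = b * a) ∧
      (A ⊔ B).index = 2 ∧ ∃ g : ↥(Cfsg.isometryGroup (ZMod 2) (Cfsg.quadFormPlus 2 (ZMod 2))), A.map (MulAut.conj g).toMonoidHom = B := by
  have hcardP : Nat.card PG.range = 36 := by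
    rw [Nat.card_congr (MonoidHom.ofInjective PG_inj).symm.toEquiv, Nat.card_prod, Nat.card_perm]
    simp [Nat.factorial]
  have hidx := Subgroup.index_mul_card PG.range
  rw [hcardP] at hidx
  have hle : Nat.card (OG 2) ≤ 72 := card_OG_two
  have hne : PG.range.index ≠ 1 := by
    intro h
    rw [Subgroup.index_eq_one] at h
    have h2 : TG ∈ PG.range := by
      rw [h]
      exact Subgroup.mem_top _
    obtain ⟨⟨σ, τ⟩, hx⟩ := h2
    rw [PG_apply] at hx
    exact TM_ne σ τ (congrArg (fun g : OG 2 => g.1.1) hx).symm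
  have hpos : Nat.card (OG 2) ≠ 0 := Nat.card_pos.ne'
  have h2 : PG.range.index = 2 := by
    have h3 : PG.range.index ≠ 0 := by
      intro h0
      rw [h0] at hidx
      omega
    have h4 : PG.range.index ≤ 2 := by omega
    omega
  refine ⟨?_, LG.range, RG.range, ⟨(MonoidHom.ofInjective LG_inj).symm⟩, ⟨(MonoidHom.ofInjective RG_inj).symm⟩, ?_, ?_, ?_, TG, ?_⟩
  · show Nat.card (OG 2) = 72
    rw [← hidx, h2]
  · rw [eq_bot_iff]
    rintro _ ⟨⟨σ, rfl⟩, ⟨τ, hτ⟩⟩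
    have h5 := LM_RM_eq σ τ (congrArg (fun g : OG 2 => g.1.1) hτ.symm)
    rw [h5.1, map_one]
    exact Subgroup.one_mem _
  · rintro _ ⟨σ, rfl⟩ _ ⟨τ, rfl⟩
    exact LG_RG_comm σ τ
  · rw [← range_PG]
    exact h2
  · apply le_antisymm
    · rintro _ ⟨_, ⟨σ, rfl⟩, rfl⟩
      refine ⟨σ, ?_⟩
      apply OG_ext
      show RM σ = TM * LM σ * TM
      rw [TM_conj]
    · rintro _ ⟨σ, rfl⟩
      refine ⟨_, ⟨σ, rfl⟩, ?_⟩
      apply OG_ext
      show TM * LM σ * TM = RM σ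
      rw [TM_conj]

end Cfsg.Agent.S2566
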