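import Cfsg.Statements.S2567
import Mathlib

set_option autoImplicit false
open Cfsg

namespace Cfsg.Agent.S2567

open Matrix

/-- Lifting elements of prime order from PGL to GL: let F be a finite field with q elements, r a prime not dividing q − 1, and x an element of order r in GL_n(F) modulo its centre (the scalar matrices). Then x has exactly one preimage in GL_n(F) of order r. -/
theorem result {F : Type*} [Field F] [Fintype F] {q n r : ℕ} (hF : Fintype.card F = q) (hr : r.Prime) (hdiv : ¬ r ∣ q - 1) (x : GL (Fin n) F ⧸ Subgroup.center (GL (Fin n) F)) (hx : orderOf x = r) : ∃! g : GL (Fin n) F, (QuotientGroup.mk g : GL (Fin n) F ⧸ Subgroup.center (GL (Fin n) F)) = x ∧ orderOf g = r := by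
  classical
  have hcard : Nat.card Fˣ = q - 1 := by
    rw [Nat.card_eq_fintype_card, Fintype.card_units, hF]
  have hcop : Nat.Coprime (Nat.card Fˣ) r := by
    rw [hcard]
    exact ((Nat.Prime.coprime_iff_not_dvd hr).mpr hdiv).symm
  obtain ⟨g₀, rfl⟩ := QuotientGroup.mk_surjective x
  have hr1 : r ≠ 1 := hr.ne_one
  -- `g₀ ^ r` is central
  have h1 : g₀ ^ r ∈ Subgroup.center (GL (Fin n) F) := by
    have : ((g₀ : GL (Fin n) F ⧸ Subgroup.center (GL (Fin n) F))) ^ r = 1 := by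
      rw [← hx]; exact pow_orderOf_eq_one _
    rw [← QuotientGroup.mk_pow, QuotientGroup.eq_one_iff] at this
    exact this
  rw [Matrix.GeneralLinearGroup.center_eq_range_scalar] at h1
  obtain ⟨u, hu⟩ := h1
  -- choose `v` with `v ^ r = u⁻¹`
  let P := powCoprime hcop
  obtain ⟨v, hv⟩ : ∃ v : Fˣ, v ^ r = u⁻¹ := ⟨P.symm u⁻¹, P.apply_symm_apply u⁻¹⟩
  have hzc : Matrix.GeneralLinearGroup.scalar (Fin n) v ∈ Subgroup.center (GL (Fin n) F) := by
    rw [Matrix.GeneralLinearGroup.center_eq_range_scalar]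
    exact ⟨v, rfl⟩
  have hcomm : Commute g₀ (Matrix.GeneralLinearGroup.scalar (Fin n) v) :=
    show g₀ * _ = _ * g₀ from (Subgroup.mem_center_iff.mp hzc g₀)
  have hmk : ∀ y : GL (Fin n) F, y ∈ Subgroup.center (GL (Fin n) F) →
      ((g₀ * y : GL (Fin n) F) : GL (Fin n) F ⧸ Subgroup.center (GL (Fin n) F)) = (g₀ : GL (Fin n) F ⧸ Subgroup.center (GL (Fin n) F)) := by
    intro y hy
    rw [QuotientGroup.mk_mul, (QuotientGroup.eq_one_iff y).mpr hy, mul_one]
  have hpow : (g₀ * Matrix.GeneralLinearGroup.scalar (Fin n) v) ^ r = 1 := by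
    rw [hcomm.mul_pow, ← hu, ← map_pow, hv, ← map_mul, mul_inv_cancel, map_one]
  have hne : ∀ g : GL (Fin n) F, (g : GL (Fin n) F ⧸ Subgroup.center (GL (Fin n) F)) = (g₀ : GL (Fin n) F ⧸ Subgroup.center (GL (Fin n) F)) → g ≠ 1 := by
    intro g hg h1'
    subst h1'
    rw [← hg] at hx
    have : orderOf ((1 : GL (Fin n) F) : GL (Fin n) F ⧸ Subgroup.center (GL (Fin n) F)) = 1 := by
      rw [orderOf_eq_one_iff]; rfl
    rw [this] at hx
    exact hr1 hx.symm
  have : Fact r.Prime := ⟨hr⟩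
  refine ⟨g₀ * Matrix.GeneralLinearGroup.scalar (Fin n) v, ⟨hmk _ hzc, ?_⟩, ?_⟩
  · exact orderOf_eq_prime hpow (hne _ (hmk _ hzc))
  · rintro g' ⟨hg', hord⟩
    set g := g₀ * Matrix.GeneralLinearGroup.scalar (Fin n) v with hg_def
    have hgmk : (g : GL (Fin n) F ⧸ Subgroup.center (GL (Fin n) F)) = (g₀ : GL (Fin n) F ⧸ Subgroup.center (GL (Fin n) F)) := hmk _ hzc
    have hz : g⁻¹ * g' ∈ Subgroup.center (GL (Fin n) F) := by
      rw [← QuotientGroup.eq, hgmk, hg']
    have hz' := hz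
    rw [Matrix.GeneralLinearGroup.center_eq_range_scalar] at hz'
    obtain ⟨w, hw⟩ := hz'
    have hcomm2 : Commute g (g⁻¹ * g') := show g * _ = _ * g from (Subgroup.mem_center_iff.mp hz g)
    have hg'eq : g' = g * (g⁻¹ * g') := by group
    have hzr : (g⁻¹ * g') ^ r = 1 := by
      have h2 : g' ^ r = 1 := by rw [← hord]; exact pow_orderOf_eq_one _
      have h3 : g' ^ r = g ^ r * (g⁻¹ * g') ^ r := by
        rw [← hcomm2.mul_pow, ← hg'eq]
      rw [h2, hpow, one_mul] at h3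
      exact h3.symm
    have hzq : (g⁻¹ * g') ^ (Nat.card Fˣ) = 1 := by
      rw [← hw, ← map_pow, pow_card_eq_one', map_one]
    have hz1 : g⁻¹ * g' = 1 := by
      have hd : orderOf (g⁻¹ * g') ∣ Nat.gcd (Nat.card Fˣ) r :=
        Nat.dvd_gcd (orderOf_dvd_of_pow_eq_one hzq) (orderOf_dvd_of_pow_eq_one hzr)
      rw [hcop.gcd_eq_one, Nat.dvd_one, orderOf_eq_one_iff] at hd
      exact hd
    rw [hg'eq, hz1, mul_one]

end Cfsg.Agent.S2567
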