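import Cfsg.Statements.S2569
import Cfsg.Agent.Lib.MatConj.Decomp
import Cfsg.Agent.Lib.Classical.MatrixBridge

set_option autoImplicit false
open Cfsg

namespace Cfsg.Agent.S2569

open Polynomial Module Matrix Cfsg.Agent.Lib.Classical.MatrixBridge

section split

variable {F : Type*} [Field F] {ι : Type*} [DecidableEq ι] (R : ι → Type*) [∀ i, AddCommGroup (R i)] [∀ i, Module F (R i)]

/-- Split off one factor of a product of modules. -/
def splitAt (i₀ : ι) : (∀ i, R i) ≃ₗ[F] (R i₀ × ∀ j : {j // j ≠ i₀}, R j) :=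
  { Equiv.piSplitAt i₀ R with
    map_add' := fun _ _ => rfl
    map_smul' := fun _ _ => rfl }

/-- Act by `f` on one factor of a product. -/
def updEquiv (i₀ : ι) (f : R i₀ ≃ₗ[F] R i₀) : (∀ i, R i) ≃ₗ[F] (∀ i, R i) :=
  (splitAt R i₀).trans ((f.prodCongr (LinearEquiv.refl F _)).trans (splitAt R i₀).symm)

variable {R} in
theorem updEquiv_apply_self (i₀ : ι) (f : R i₀ ≃ₗ[F] R i₀) (x : ∀ i, R i) :
    updEquiv R i₀ f x i₀ = f (x i₀) := by
  simp [updEquiv, splitAt, Equiv.piSplitAt]

variable {R} in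
theorem updEquiv_apply_of_ne (i₀ : ι) (f : R i₀ ≃ₗ[F] R i₀) (x : ∀ i, R i) (j : ι) (hj : j ≠ i₀) :
    updEquiv R i₀ f x j = x j := by
  simp [updEquiv, splitAt, Equiv.piSplitAt, hj]

theorem det_updEquiv [Fintype ι] [∀ i, FiniteDimensional F (R i)] (i₀ : ι) (f : R i₀ ≃ₗ[F] R i₀) :
    LinearMap.det (updEquiv R i₀ f : (∀ i, R i) →ₗ[F] (∀ i, R i)) = LinearMap.det (f : R i₀ →ₗ[F] R i₀) := by
  have h1 : (updEquiv R i₀ f : (∀ i, R i) →ₗ[F] (∀ i, R i)) =
      ((splitAt (F := F) R i₀).symm).toLinearMap ∘ₗ (LinearMap.prodMap (f : R i₀ →ₗ[F] R i₀) LinearMap.id) ∘ₗ ((splitAt (F := F) R i₀).symm.symm).toLinearMap := by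
    ext x
    rfl
  rw [h1, LinearMap.det_conj, LinearMap.det_prodMap, LinearMap.det_id, mul_one]

end split

theorem exists_comm_det {F : Type*} [Field F] [Fintype F] {p : ℕ} [Fact p.Prime] [CharP F p]
    {V : Type*} [AddCommGroup V] [Module F V] [FiniteDimensional F V] [Nontrivial V]
    (T : V →ₗ[F] V) (N : ℕ) (hN0 : 0 < N) (hNp : N.Coprime p) (hT : T ^ N = 1) (δ : F) (hδ : δ ≠ 0) :
    ∃ c : V ≃ₗ[F] V, (∀ y, c (T y) = T (c y)) ∧ LinearMap.det (c : V →ₗ[F] V) = δ := by
  classical
  obtain ⟨ι, hι, P, hP, hPm, e, Φ, hΦ⟩ := Cfsg.Agent.Lib.MatConj.Decomp.exists_decomp T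
  -- a nontrivial factor
  obtain ⟨i₀, hi₀⟩ : ∃ i, Nontrivial (AdjoinRoot (P i ^ e i)) := by
    by_contra hcon
    push Not at hcon
    have hsub : ∀ i, Subsingleton (AdjoinRoot (P i ^ e i)) := hcon
    have : Subsingleton V := Φ.toEquiv.subsingleton
    exact not_subsingleton V this
  -- the root has order dividing `N`.
  have hΦpow : ∀ (k : ℕ) (x : V) (i : ι), Φ ((T ^ k) x) i = (AdjoinRoot.root (P i ^ e i)) ^ k * Φ x i := by
    intro k
    induction k with
    | zero => intro x i; simp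
    | succ k ih =>
      intro x i
      rw [pow_succ', Module.End.mul_apply, hΦ, ih]
      ring
  have hroot : (AdjoinRoot.root (P i₀ ^ e i₀)) ^ N = 1 := by
    have h1 := hΦpow N (Φ.symm (fun _ => 1)) i₀
    rw [hT, Module.End.one_apply] at h1
    simp only [LinearEquiv.apply_symm_apply, mul_one] at h1
    exact h1.symm
  have hdvd : P i₀ ^ e i₀ ∣ X ^ N - 1 := by
    rw [← AdjoinRoot.mk_eq_zero, map_sub, map_pow, AdjoinRoot.mk_X, map_one, hroot, sub_self]
  have hNF : (N : F) ≠ 0 := by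
    intro h
    have h1 : p ∣ N := (CharP.cast_eq_zero_iff F p N).mp h
    have h2 := Nat.Coprime.eq_one_of_dvd hNp.symm h1
    exact (Fact.out : p.Prime).ne_one h2
  have hsf : Squarefree (X ^ N - 1 : F[X]) := by
    have := Polynomial.separable_X_pow_sub_C (1 : F) hNF one_ne_zero
    rw [map_one] at this
    exact this.squarefree
  have he : e i₀ = 1 := by
    have he0 : e i₀ ≠ 0 := by
      intro h
      rw [h, pow_zero] at hi₀
      obtain ⟨a, b, hab⟩ := hi₀
      exact hab (by
        have : Subsingleton (AdjoinRoot (1 : F[X])) := by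
          constructor
          intro x y
          obtain ⟨g, rfl⟩ := AdjoinRoot.mk_surjective x
          obtain ⟨g', rfl⟩ := AdjoinRoot.mk_surjective y
          rw [AdjoinRoot.mk_eq_mk]
          exact one_dvd _
        exact Subsingleton.elim _ _)
    by_contra he1
    have h2 : 2 ≤ e i₀ := by omega
    have h3 : P i₀ * P i₀ ∣ X ^ N - 1 := by
      refine Dvd.dvd.trans ?_ hdvd
      rw [← sq]
      exact pow_dvd_pow _ h2
    exact (hP i₀).not_isUnit (hsf _ h3)
  set f := P i₀ ^ e i₀ with hf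
  have hfirr : Irreducible f := by
    rw [hf, he, pow_one]
    exact hP i₀
  have hfmon : f.Monic := (hPm i₀).pow _
  have : Fact (Irreducible f) := ⟨hfirr⟩
  have : ∀ i, Module.Finite F (AdjoinRoot (P i ^ e i)) := fun i => ((hPm i).pow _).finite_adjoinRoot
  have hfinK : Finite (AdjoinRoot f) := Module.finite_of_finite F
  -- the norm
  obtain ⟨r, hr⟩ := FiniteField.norm_surjective F (AdjoinRoot f) δ
  have hr0 : r ≠ 0 := by
    rintro rfl
    rw [Algebra.norm_zero] at hr
    exact hδ hr.symm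
  -- multiplication by `r`
  let M : AdjoinRoot f ≃ₗ[F] AdjoinRoot f :=
    LinearEquiv.ofBijective (LinearMap.mulLeft F r) (by
      have hinj : Function.Injective (LinearMap.mulLeft F r) := by
        intro a b hab
        exact mul_left_cancel₀ hr0 hab
      exact ⟨hinj, LinearMap.injective_iff_surjective.mp hinj⟩)
  have hMapply : ∀ a, M a = r * a := fun a => rfl
  let C : (∀ i, AdjoinRoot (P i ^ e i)) ≃ₗ[F] (∀ i, AdjoinRoot (P i ^ e i)) := updEquiv _ i₀ M
  refine ⟨Φ.trans (C.trans Φ.symm), ?_, ?_⟩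
  · intro y
    apply Φ.injective
    simp only [LinearEquiv.trans_apply, LinearEquiv.apply_symm_apply]
    funext i
    rw [hΦ]
    simp only [LinearEquiv.apply_symm_apply]
    by_cases hi : i = i₀
    · subst hi
      change updEquiv _ i M (Φ (T y)) i = _
      rw [updEquiv_apply_self, hΦ]
      change _ = _ * updEquiv _ i M (Φ y) i
      rw [updEquiv_apply_self, hMapply, hMapply]
      ring
    · change updEquiv _ i₀ M (Φ (T y)) i = _ * updEquiv _ i₀ M (Φ y) i
      rw [updEquiv_apply_of_ne _ _ _ _ hi, updEquiv_apply_of_ne _ _ _ _ hi, hΦ]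
  · have h1 : ((Φ.trans (C.trans Φ.symm)) : V ≃ₗ[F] V).toLinearMap = (Φ.symm).toLinearMap ∘ₗ C.toLinearMap ∘ₗ (Φ.symm.symm).toLinearMap := by
      ext x
      rfl
    rw [h1, LinearMap.det_conj, det_updEquiv, ← hr, Algebra.norm_apply]
    rfl

/-- In GL_n over a finite field of characteristic p, the conjugacy class of a semisimple element (an element of order prime to p) under the special linear group is its whole GL-conjugacy class: for every such x and every invertible g there is h of determinant one with h x h⁻¹ = g x g⁻¹. -/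
theorem result {F : Type*} [Field F] [Fintype F] {p : ℕ} [Fact p.Prime] [CharP F p] {n : ℕ} (x g : GL (Fin n) F) (hx : (orderOf x).Coprime p) : ∃ h : GL (Fin n) F, (h : Matrix (Fin n) (Fin n) F).det = 1 ∧ h * x * h⁻¹ = g * x * g⁻¹ := by
  classical
  rcases Nat.eq_zero_or_pos n with rfl | hn
  · exact ⟨g, Matrix.det_isEmpty, rfl⟩
  have : NeZero n := ⟨by omega⟩
  have : Nontrivial (Fin n → F) := inferInstance
  have hord : 0 < orderOf x := orderOf_pos x
  have hδ : ((g : Matrix (Fin n) (Fin n) F).det)⁻¹ ≠ 0 := by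
    apply inv_ne_zero
    exact (Matrix.isUnit_iff_isUnit_det _).mp g.isUnit |>.ne_zero
  let T : (Fin n → F) →ₗ[F] (Fin n → F) := glToLin x
  have hTpow : ∀ k : ℕ, T ^ k = (glToLin (x ^ k) : (Fin n → F) →ₗ[F] (Fin n → F)) := by
    intro k
    induction k with
    | zero => ext; simp
    | succ k ih =>
      rw [pow_succ, ih, pow_succ, map_mul]
      rfl
  have hT : T ^ orderOf x = 1 := by
    rw [hTpow, pow_orderOf_eq_one, map_one]
    rfl
  obtain ⟨c, hc1, hc2⟩ := exists_comm_det T (orderOf x) hord hx hT _ hδ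
  let c' : GL (Fin n) F := glToLin.symm c
  have hc'x : c' * x = x * c' := by
    apply glToLin.injective
    apply LinearEquiv.ext
    intro y
    simp only [map_mul, c', MulEquiv.apply_symm_apply]
    exact hc1 y
  refine ⟨g * c', ?_, ?_⟩
  · rw [Units.val_mul, Matrix.det_mul]
    have : ((c' : GL (Fin n) F) : Matrix (Fin n) (Fin n) F).det = ((g : Matrix (Fin n) (Fin n) F).det)⁻¹ := by
      rw [← hc2, ← LinearMap.det_toMatrix']
      rfl
    rw [this, mul_inv_cancel₀]
    exact (Matrix.isUnit_iff_isUnit_det _).mp g.isUnit |>.ne_zero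
  · calc g * c' * x * (g * c')⁻¹ = g * (c' * x) * c'⁻¹ * g⁻¹ := by group
      _ = g * (x * c') * c'⁻¹ * g⁻¹ := by rw [hc'x]
      _ = g * x * g⁻¹ := by group

end Cfsg.Agent.S2569
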