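import Cfsg.Statements.S2571
import Cfsg.Agent.Lib.MatConj.RegUnip
import Cfsg.Agent.Lib.Classical.MatrixBridge

set_option autoImplicit false
open Cfsg

namespace Cfsg.Agent.S2571

open Cfsg.Agent.Lib.MatConj.RegUnip Cfsg.Agent.Lib.Classical.MatrixBridge Module Matrix

/-- Centraliser of a regular unipotent element in GL_n(q): if u is an invertible n × n matrix over the field with q elements, n ≥ 1, with (u − 1)^n = 0 and rank(u − 1) = n − 1 (a single unipotent Jordan block), then its centraliser in GL_n(q) has order (q − 1) q^(n−1). -/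
theorem result {F : Type*} [Field F] [Fintype F] {q n : ℕ} (hF : Fintype.card F = q) (hn : 1 ≤ n) (u : GL (Fin n) F) (hnil : ((u : Matrix (Fin n) (Fin n) F) - 1) ^ n = 0) (hreg : ((u : Matrix (Fin n) (Fin n) F) - 1).rank = n - 1) : Nat.card ↥(Subgroup.centralizer ({u} : Set (GL (Fin n) F))) = (q - 1) * q ^ (n - 1) := by
  classical
  set U : Matrix (Fin n) (Fin n) F := (u : Matrix (Fin n) (Fin n) F) with hU
  set N : (Fin n → F) →ₗ[F] (Fin n → F) := (U - 1).mulVecLin with hN
  have hV : finrank F (Fin n → F) = n := by simp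
  have hNnil : N ^ n = 0 := by
    rw [hN, ← mulVecLin_pow, hnil]
    ext
    simp
  have hNrank : finrank F (LinearMap.range N) = n - 1 := hreg
  have hNapply : ∀ v, N v = U *ᵥ v - v := by
    intro v
    simp [hN]
  obtain ⟨w₀, hw₀⟩ := exists_cyclic hV hNnil hNrank hn
  have hR := range_eq_ker hV hNnil hNrank hn
  -- commuting with `u` versus commuting with `N`
  have hcomm_iff : ∀ g : GL (Fin n) F, g ∈ Subgroup.centralizer ({u} : Set (GL (Fin n) F)) ↔
      ∀ x, (g : Matrix (Fin n) (Fin n) F) *ᵥ N x = N ((g : Matrix (Fin n) (Fin n) F) *ᵥ x) := by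
    intro g
    rw [Subgroup.mem_centralizer_singleton_iff]
    constructor
    · intro h x
      have h1 : (g : Matrix (Fin n) (Fin n) F) * U = U * g := by
        have := congrArg (fun z : GL (Fin n) F => (z : Matrix (Fin n) (Fin n) F)) h
        simpa using this
      rw [hNapply, hNapply, Matrix.mulVec_sub, Matrix.mulVec_mulVec, h1, Matrix.mulVec_mulVec]
    · intro h
      apply Units.ext
      apply Matrix.toLin'.injective
      refine LinearMap.ext fun x => ?_
      change ((g * u : GL (Fin n) F) : Matrix (Fin n) (Fin n) F) *ᵥ x = ((u * g : GL (Fin n) F) : Matrix (Fin n) (Fin n) F) *ᵥ x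
      simp only [Units.val_mul]
      rw [← Matrix.mulVec_mulVec, ← Matrix.mulVec_mulVec]
      have h1 := h x
      rw [hNapply, hNapply, Matrix.mulVec_sub] at h1
      exact_mod_cast sub_left_inj.mp h1
  have hcomm_pow : ∀ g : GL (Fin n) F, g ∈ Subgroup.centralizer ({u} : Set (GL (Fin n) F)) → ∀ (k : ℕ) x,
      (g : Matrix (Fin n) (Fin n) F) *ᵥ (N ^ k) x = (N ^ k) ((g : Matrix (Fin n) (Fin n) F) *ᵥ x) := by
    intro g hg k
    induction k with
    | zero => intro x; simp
    | succ k ih =>
      intro x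
      rw [pow_succ', Module.End.mul_apply, Module.End.mul_apply, (hcomm_iff g).mp hg, ih]
  have hginj : ∀ g : GL (Fin n) F, ∀ x, (g : Matrix (Fin n) (Fin n) F) *ᵥ x = 0 → x = 0 := by
    intro g x hx
    have h1 := congrArg (((g⁻¹ : GL (Fin n) F) : Matrix (Fin n) (Fin n) F) *ᵥ ·) hx
    simp only [Matrix.mulVec_mulVec, ← Units.val_mul, inv_mul_cancel, Matrix.mulVec_zero] at h1
    simpa using h1
  let Φ : ↥(Subgroup.centralizer ({u} : Set (GL (Fin n) F))) → {w : Fin n → F // w ∉ LinearMap.range N} :=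
    fun g => ⟨((g : GL (Fin n) F) : Matrix (Fin n) (Fin n) F) *ᵥ w₀, by
      rw [hR, LinearMap.mem_ker, ← hcomm_pow g g.2]
      intro h
      exact hw₀ (hginj _ _ h)⟩
  have hΦinj : Function.Injective Φ := by
    intro g g' hgg
    have h1 : ((g : GL (Fin n) F) : Matrix (Fin n) (Fin n) F) *ᵥ w₀ = ((g' : GL (Fin n) F) : Matrix (Fin n) (Fin n) F) *ᵥ w₀ :=
      congrArg Subtype.val hgg
    apply Subtype.ext
    apply glToLin.injective
    apply LinearEquiv.toLinearMap_injective
    apply (cyclicBasis hV hNnil hw₀).ext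
    intro i
    simp only [LinearEquiv.coe_coe, glToLin_apply, cyclicBasis_apply]
    rw [hcomm_pow _ g.2, hcomm_pow _ g'.2, h1]
  have hΦsurj : Function.Surjective Φ := by
    rintro ⟨w, hw⟩
    have hw' : (N ^ (n - 1)) w ≠ 0 := by
      intro h
      apply hw
      rw [hR, LinearMap.mem_ker]
      exact h
    let b := cyclicBasis hV hNnil hw₀
    let b' := cyclicBasis hV hNnil hw'
    let E : (Fin n → F) ≃ₗ[F] (Fin n → F) := b.equiv b' (Equiv.refl _)
    have hE : ∀ i : Fin n, E ((N ^ (i : ℕ)) w₀) = (N ^ (i : ℕ)) w := by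
      intro i
      have h1 : E (b i) = b' i := by simp [E]
      simpa [b, b'] using h1
    have hEN : ∀ x, E (N x) = N (E x) := by
      intro x
      have : (E.toLinearMap ∘ₗ N) = (N ∘ₗ E.toLinearMap) := by
        apply b.ext
        intro i
        simp only [LinearMap.comp_apply, LinearEquiv.coe_coe, b, cyclicBasis_apply]
        rw [hE, ← Module.End.mul_apply N, ← pow_succ']
        by_cases hi : (i : ℕ) + 1 < n
        · have := hE ⟨(i : ℕ) + 1, hi⟩
          simp only at this
          rw [this, pow_succ', Module.End.mul_apply]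
        · have hi' : (i : ℕ) + 1 = n := by have := i.2; omega
          rw [hi', hNnil, ← Module.End.mul_apply N, ← pow_succ', hi', hNnil]
          simp
      exact congrArg (fun T => T x) this
    let g : GL (Fin n) F := glToLin.symm E
    have hgmv : ∀ x, (g : Matrix (Fin n) (Fin n) F) *ᵥ x = E x := glToLin_symm_mulVec E
    have hgc : g ∈ Subgroup.centralizer ({u} : Set (GL (Fin n) F)) := by
      rw [hcomm_iff]
      intro x
      rw [hgmv, hgmv, hEN]
    refine ⟨⟨g, hgc⟩, ?_⟩
    apply Subtype.ext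
    change (g : Matrix (Fin n) (Fin n) F) *ᵥ w₀ = w
    rw [hgmv]
    have := hE ⟨0, by omega⟩
    simpa using this
  rw [Nat.card_congr (Equiv.ofBijective Φ ⟨hΦinj, hΦsurj⟩)]
  rw [Nat.card_eq_fintype_card, Fintype.card_subtype_compl]
  have hc1 : Fintype.card (Fin n → F) = q ^ n := by
    rw [Fintype.card_fun, Fintype.card_fin, hF]
  have hc2 : Fintype.card (LinearMap.range N) = q ^ (n - 1) := by
    rw [Module.card_eq_pow_finrank (K := F) (V := LinearMap.range N), hNrank, hF]
  have hc2' : Fintype.card {x // x ∈ LinearMap.range N} = q ^ (n - 1) := hc2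
  rw [hc1, hc2']
  obtain ⟨k, rfl⟩ : ∃ k, n = k + 1 := ⟨n - 1, by omega⟩
  simp only [Nat.add_sub_cancel]
  rw [pow_succ, Nat.sub_mul, one_mul, mul_comm]

end Cfsg.Agent.S2571
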