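import Cfsg.Statements.S2572
import Cfsg.Agent.Lib.Classical.SLConj
import Cfsg.Agent.Lib.Classical.MatrixBridge

set_option autoImplicit false
open Cfsg

namespace Cfsg.Agent.S2572

open Module Matrix Cfsg.Agent.Lib.Classical.MatrixBridge Cfsg.Agent.Lib.Classical.SLConj

variable {F : Type*} [Field F] {n : ℕ}

theorem vecMulVec_mulVec' (u φ x : Fin n → F) : vecMulVec u φ *ᵥ x = (φ ⬝ᵥ x) • u := by
  rw [Matrix.vecMulVec_mulVec]
  ext i
  simp [mul_comm]

theorem vecMulVec_sq (u φ : Fin n → F) (h : φ ⬝ᵥ u = 0) : vecMulVec u φ * vecMulVec u φ = 0 := by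
  apply Matrix.toLin'.injective
  refine LinearMap.ext fun x => ?_
  change (vecMulVec u φ * vecMulVec u φ) *ᵥ x = (0 : Matrix (Fin n) (Fin n) F) *ᵥ x
  rw [← Matrix.mulVec_mulVec, vecMulVec_mulVec' u φ x, Matrix.mulVec_smul, vecMulVec_mulVec' u φ u, h]
  simp

theorem finrank_range_vecMulVec (u φ : Fin n → F) (hu : u ≠ 0) (hφ : φ ≠ 0) :
    finrank F (LinearMap.range (vecMulVec u φ).mulVecLin) = 1 := by
  have h1 : LinearMap.range (vecMulVec u φ).mulVecLin = F ∙ u := by
    apply le_antisymm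
    · rintro _ ⟨x, rfl⟩
      rw [Matrix.mulVecLin_apply, vecMulVec_mulVec']
      exact Submodule.smul_mem _ _ (Submodule.mem_span_singleton_self u)
    · rw [Submodule.span_singleton_le_iff_mem]
      obtain ⟨j, hj⟩ : ∃ j, φ j ≠ 0 := by
        by_contra hcon
        push Not at hcon
        exact hφ (funext hcon)
      refine ⟨(φ j)⁻¹ • Pi.single j 1, ?_⟩
      rw [Matrix.mulVecLin_apply, vecMulVec_mulVec']
      simp [hj]
  rw [h1]
  exact finrank_span_singleton hu

/-- Every rank-one square-zero matrix is a `vecMulVec`. -/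
theorem exists_vecMulVec (N : Matrix (Fin n) (Fin n) F) (hr : N.rank = 1) (hs : N * N = 0) :
    ∃ u φ : Fin n → F, u ≠ 0 ∧ φ ≠ 0 ∧ φ ⬝ᵥ u = 0 ∧ N = vecMulVec u φ := by
  classical
  have hr' : finrank F (LinearMap.range N.mulVecLin) = 1 := hr
  obtain ⟨⟨u, hu⟩, hu0, hspan⟩ := finrank_eq_one_iff'.mp hr'
  have hu0' : u ≠ 0 := fun h => hu0 (Subtype.ext h)
  obtain ⟨j, hj⟩ : ∃ j, u j ≠ 0 := by
    by_contra hcon
    push Not at hcon
    exact hu0' (funext hcon)
  -- row vector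
  let φ : Fin n → F := fun k => (u j)⁻¹ * (N *ᵥ Pi.single k 1) j
  have hφx : ∀ x, N *ᵥ x = (φ ⬝ᵥ x) • u := by
    intro x
    obtain ⟨c, hc⟩ := hspan ⟨N *ᵥ x, ⟨x, rfl⟩⟩
    have hc' : c • u = N *ᵥ x := congrArg Subtype.val hc
    have h1 : φ ⬝ᵥ x = (u j)⁻¹ * (N *ᵥ x) j := by
      have hx : x = ∑ k, x k • Pi.single k (1 : F) := by
        ext i
        simp [Finset.sum_apply, Pi.single_apply]
      conv_rhs => rw [hx, Matrix.mulVec_sum]
      simp only [φ, dotProduct, Finset.sum_apply, Matrix.mulVec_smul, Pi.smul_apply, smul_eq_mul, Finset.mul_sum]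
      refine Finset.sum_congr rfl fun k _ => ?_
      ring
    rw [h1, ← hc']
    simp only [Pi.smul_apply, smul_eq_mul]
    rw [mul_comm c, ← mul_assoc, inv_mul_cancel₀ hj, one_mul]
  have hNeq : N = vecMulVec u φ := by
    apply Matrix.toLin'.injective
    refine LinearMap.ext fun x => ?_
    change N *ᵥ x = vecMulVec u φ *ᵥ x
    rw [vecMulVec_mulVec', hφx]
  have hφ0 : φ ≠ 0 := by
    rintro h
    have hN0 : N = 0 := by
      rw [hNeq, h]
      ext i k
      simp [vecMulVec_apply]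
    rw [hN0, Matrix.rank_zero] at hr
    exact zero_ne_one hr
  have hφu : φ ⬝ᵥ u = 0 := by
    obtain ⟨y, hy⟩ := hu
    have h2 : N *ᵥ u = 0 := by
      rw [← hy, Matrix.mulVecLin_apply, Matrix.mulVec_mulVec, hs, Matrix.zero_mulVec]
    rw [hφx] at h2
    exact (smul_eq_zero.mp h2).resolve_right hu0'
  exact ⟨u, φ, hu0', hφ0, hφu, hNeq⟩

section count

variable [Fintype F] [DecidableEq F]

/-- The pairs `(u, φ)` with `u, φ ≠ 0` and `φ(u) = 0`. -/
def pairs (F : Type*) [Field F] [Fintype F] [DecidableEq F] (n : ℕ) : Finset ((Fin n → F) × (Fin n → F)) :=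
  Finset.univ.filter (fun p => p.1 ≠ 0 ∧ p.2 ≠ 0 ∧ p.2 ⬝ᵥ p.1 = 0)

theorem mem_pairs (p : (Fin n → F) × (Fin n → F)) : p ∈ pairs F n ↔ p.1 ≠ 0 ∧ p.2 ≠ 0 ∧ p.2 ⬝ᵥ p.1 = 0 := by
  simp [pairs]

theorem card_ker_dot (φ : Fin n → F) (hφ : φ ≠ 0) :
    (Finset.univ.filter (fun u : Fin n → F => φ ⬝ᵥ u = 0)).card = Fintype.card F ^ (n - 1) := by
  classical
  let L : (Fin n → F) →ₗ[F] F :=
    { toFun := fun u => φ ⬝ᵥ u
      map_add' := fun x y => dotProduct_add φ x y
      map_smul' := fun c x => by simp [dotProduct_smul] }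
  obtain ⟨j, hj⟩ : ∃ j, φ j ≠ 0 := by
    by_contra hcon
    push Not at hcon
    exact hφ (funext hcon)
  have hLsurj : Function.Surjective L := by
    intro c
    refine ⟨(c / φ j) • Pi.single j 1, ?_⟩
    change φ ⬝ᵥ ((c / φ j) • Pi.single j 1) = c
    simp [dotProduct_smul, hj]
  have h1 := LinearMap.finrank_range_add_finrank_ker L
  rw [LinearMap.range_eq_top.mpr hLsurj, finrank_top, finrank_self] at h1
  simp only [finrank_fintype_fun_eq_card, Fintype.card_fin] at h1
  have h2 : finrank F (LinearMap.ker L) = n - 1 := by omega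
  rw [← h2, ← Module.card_eq_pow_finrank (K := F) (V := LinearMap.ker L), ← Fintype.card_subtype]
  apply Fintype.card_congr
  exact Equiv.subtypeEquivRight (fun x => by simp [L, LinearMap.mem_ker])

theorem card_pairs :
    (pairs F n).card = (Fintype.card F ^ n - 1) * (Fintype.card F ^ (n - 1) - 1) := by
  classical
  have hq : Fintype.card (Fin n → F) = Fintype.card F ^ n := by
    simp
  rw [Finset.card_eq_sum_card_fiberwise (f := Prod.snd) (t := Finset.univ.erase 0)]
  · have hfib : ∀ φ ∈ (Finset.univ.erase 0 : Finset (Fin n → F)),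
        ((pairs F n).filter (fun p => p.2 = φ)).card = Fintype.card F ^ (n - 1) - 1 := by
      intro φ hφ
      have hφ0 : φ ≠ 0 := (Finset.mem_erase.mp hφ).1
      have h1 : ((pairs F n).filter (fun p => p.2 = φ)) =
          ((Finset.univ.filter (fun u : Fin n → F => φ ⬝ᵥ u = 0)).erase 0).image (fun u => (u, φ)) := by
        ext ⟨u, ψ⟩
        simp only [pairs, Finset.mem_filter, Finset.mem_univ, true_and, Finset.mem_image,
          Finset.mem_erase, Prod.mk.injEq]
        constructor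
        · rintro ⟨⟨hu, -, h3⟩, rfl⟩
          exact ⟨u, ⟨hu, h3⟩, rfl, rfl⟩
        · rintro ⟨v, ⟨hv, h3⟩, rfl, rfl⟩
          exact ⟨⟨hv, hφ0, h3⟩, rfl⟩
      rw [h1, Finset.card_image_of_injective _ (fun a b h => (Prod.mk.inj h).1),
        Finset.card_erase_of_mem (by simp), card_ker_dot φ hφ0]
    rw [Finset.sum_congr rfl hfib, Finset.sum_const, Finset.card_erase_of_mem (Finset.mem_univ _),
      Finset.card_univ, hq, smul_eq_mul]
  · intro p hp
    have := (Finset.mem_filter.mp hp).2.2.1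
    simp [this]

/-- The matrix of the transvection attached to a pair. -/
def mat (p : (Fin n → F) × (Fin n → F)) : Matrix (Fin n) (Fin n) F := 1 + vecMulVec p.1 p.2

theorem card_fiber (p₀ : (Fin n → F) × (Fin n → F)) (hp₀ : p₀ ∈ pairs F n) :
    ((pairs F n).filter (fun p => mat p = mat p₀)).card = Fintype.card F - 1 := by
  classical
  obtain ⟨u₀, φ₀⟩ := p₀
  obtain ⟨hu₀, hφ₀, hd₀⟩ : u₀ ≠ 0 ∧ φ₀ ≠ 0 ∧ φ₀ ⬝ᵥ u₀ = 0 := by
    simpa [pairs] using hp₀
  rw [← Fintype.card_units]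
  symm
  rw [← Finset.card_univ]
  apply Finset.card_bij (fun (c : Fˣ) _ => ((c : F) • u₀, ((c : F))⁻¹ • φ₀))
  · intro c _
    refine Finset.mem_filter.mpr ⟨(mem_pairs _).mpr ⟨?_, ?_, ?_⟩, ?_⟩
    · exact smul_ne_zero c.ne_zero hu₀
    · exact smul_ne_zero (inv_ne_zero c.ne_zero) hφ₀
    · simp only [smul_dotProduct, dotProduct_smul, hd₀]; simp
    · simp only [mat]
      congr 1
      ext i j
      simp only [vecMulVec_apply, Pi.smul_apply, smul_eq_mul]
      have := c.ne_zero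
      field_simp
  · intro c _ d _ h
    have h1 := (Prod.mk.inj h).1
    obtain ⟨i, hi⟩ : ∃ i, u₀ i ≠ 0 := by
      by_contra hcon
      push Not at hcon
      exact hu₀ (funext hcon)
    have h2 := congrFun h1 i
    simp only [Pi.smul_apply, smul_eq_mul] at h2
    exact Units.ext (mul_right_cancel₀ hi h2)
  · rintro ⟨u, φ⟩ hp
    obtain ⟨hp1, hm⟩ := Finset.mem_filter.mp hp
    obtain ⟨hu, hφ, hd⟩ := (mem_pairs _).mp hp1
    have hm' : vecMulVec u φ = vecMulVec u₀ φ₀ := add_left_cancel hm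
    have hact : ∀ x, (φ ⬝ᵥ x) • u = (φ₀ ⬝ᵥ x) • u₀ := by
      intro x
      rw [← vecMulVec_mulVec', ← vecMulVec_mulVec', hm']
    obtain ⟨j, hj⟩ : ∃ j, φ₀ j ≠ 0 := by
      by_contra hcon
      push Not at hcon
      exact hφ₀ (funext hcon)
    let x : Fin n → F := (φ₀ j)⁻¹ • Pi.single j 1
    have hx : φ₀ ⬝ᵥ x = 1 := by
      simp [x, dotProduct_smul, hj]
    have h1 := hact x
    rw [hx, one_smul] at h1
    have hc0 : φ ⬝ᵥ x ≠ 0 := by
      intro h
      rw [h, zero_smul] at h1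
      exact hu₀ h1.symm
    let c : Fˣ := Units.mk0 (φ ⬝ᵥ x)⁻¹ (inv_ne_zero hc0)
    have hc : (c : F) = (φ ⬝ᵥ x)⁻¹ := rfl
    have huc : u = (c : F) • u₀ := by
      rw [← h1, hc, smul_smul, inv_mul_cancel₀ hc0, one_smul]
    have hφc : φ = ((c : F))⁻¹ • φ₀ := by
      obtain ⟨i, hi⟩ : ∃ i, u₀ i ≠ 0 := by
        by_contra hcon
        push Not at hcon
        exact hu₀ (funext hcon)
      ext k
      have h2 := congrFun (hact (Pi.single k 1)) i
      simp only [Pi.smul_apply, smul_eq_mul, dotProduct_single_one] at h2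
      rw [huc] at h2
      simp only [Pi.smul_apply, smul_eq_mul] at h2
      have h3 : φ k * (c : F) = φ₀ k := by
        apply mul_right_cancel₀ hi
        rw [← h2]; ring
      rw [Pi.smul_apply, smul_eq_mul, ← h3, mul_comm (φ k), ← mul_assoc, inv_mul_cancel₀ c.ne_zero, one_mul]
    exact ⟨c, Finset.mem_univ _, by rw [huc, hφc]⟩

end count

/-- Product formula for the order of `GL_(m+2)`. -/
theorem prod_gl_formula (q m : ℕ) :
    ∏ i : Fin (m + 2), (q ^ (m + 2) - q ^ (i : ℕ)) =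
      (q ^ (m + 2) - 1) * (q ^ (m + 1) - 1) * (q ^ (2 * m + 1) * ∏ i : Fin m, (q ^ m - q ^ (i : ℕ))) := by
  rw [Fin.prod_univ_succ, Fin.prod_univ_succ]
  simp only [Fin.val_zero, pow_zero, Fin.val_succ, zero_add, pow_one]
  have h1 : q ^ (m + 2) - q = q * (q ^ (m + 1) - 1) := by
    rw [Nat.mul_sub, mul_one, pow_succ' q (m + 1)]
  have h2 : ∀ i : Fin m, q ^ (m + 2) - q ^ ((i : ℕ) + 1 + 1) = q ^ 2 * (q ^ m - q ^ (i : ℕ)) := by
    intro i
    rw [Nat.mul_sub, ← pow_add, ← pow_add]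
    congr 2
    · ring
    · ring
  rw [h1, Finset.prod_congr rfl (fun i _ => h2 i), Finset.prod_mul_distrib, Finset.prod_const,
    Finset.card_univ, Fintype.card_fin, ← pow_mul]
  have h3 : q ^ (2 * m + 1) = q * q ^ (2 * m) := by rw [pow_succ']
  rw [h3]
  ring

/-- Centraliser of a transvection in GL_n(q), n ≥ 2: if t − 1 has rank one and square zero, the centraliser of t in GL_n(q) has order q^(2n−3) (q − 1) |GL_(n−2)(q)| (a group of order q^(2n−3) extended by GL_1(q) × GL_(n−2)(q)). -/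
theorem result {F : Type*} [Field F] [Fintype F] {q n : ℕ} (hF : Fintype.card F = q) (hn : 2 ≤ n) (t : GL (Fin n) F) (ht : Cfsg.IsTransvection (t : Matrix (Fin n) (Fin n) F)) : Nat.card ↥(Subgroup.centralizer ({t} : Set (GL (Fin n) F))) = q ^ (2 * n - 3) * (q - 1) * ∏ i : Fin (n - 2), (q ^ (n - 2) - q ^ (i : ℕ)) := by
  classical
  subst hF
  obtain ⟨m, rfl⟩ : ∃ m, n = m + 2 := ⟨n - 2, by omega⟩
  obtain ⟨hr, hs⟩ := ht
  set N : Matrix (Fin (m + 2)) (Fin (m + 2)) F := (t : Matrix (Fin (m + 2)) (Fin (m + 2)) F) - 1 with hN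
  have htN : (t : Matrix (Fin (m + 2)) (Fin (m + 2)) F) = 1 + N := by rw [hN]; abel
  let G := GL (Fin (m + 2)) F
  let T' : Finset (Matrix (Fin (m + 2)) (Fin (m + 2)) F) := (pairs F (m + 2)).image mat
  have hT'mem : ∀ M, M ∈ T' ↔ ∃ p ∈ pairs F (m + 2), mat p = M := fun M => by simp [T']
  -- the orbit equals T'
  have horbit : ((fun x : G => ((x : G) : Matrix (Fin (m + 2)) (Fin (m + 2)) F)) '' (MulAction.orbit (ConjAct G) t)) = (T' : Set _) := by
    ext M
    simp only [Set.mem_image, Finset.mem_coe, hT'mem]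
    constructor
    · rintro ⟨_, ⟨g, rfl⟩, rfl⟩
      set h : G := ConjAct.ofConjAct g with hh
      have hv : ((g • t : G) : Matrix (Fin (m + 2)) (Fin (m + 2)) F) =
          (h : Matrix (Fin (m + 2)) (Fin (m + 2)) F) * t * ((h⁻¹ : G) : Matrix (Fin (m + 2)) (Fin (m + 2)) F) := by
        rw [ConjAct.smul_def]
        rfl
      have hhinv : (h : Matrix (Fin (m + 2)) (Fin (m + 2)) F) * ((h⁻¹ : G) : Matrix (Fin (m + 2)) (Fin (m + 2)) F) = 1 := by
        rw [← Units.val_mul, mul_inv_cancel]; rfl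
      have hhinv' : ((h⁻¹ : G) : Matrix (Fin (m + 2)) (Fin (m + 2)) F) * (h : Matrix (Fin (m + 2)) (Fin (m + 2)) F) = 1 := by
        rw [← Units.val_mul, inv_mul_cancel]; rfl
      set M₀ : Matrix (Fin (m + 2)) (Fin (m + 2)) F := (h : Matrix (Fin (m + 2)) (Fin (m + 2)) F) * N * ((h⁻¹ : G) : Matrix (Fin (m + 2)) (Fin (m + 2)) F) with hM₀
      have hvM : ((g • t : G) : Matrix (Fin (m + 2)) (Fin (m + 2)) F) = 1 + M₀ := by
        rw [hv, htN, hM₀, Matrix.mul_add, Matrix.add_mul, Matrix.mul_one, hhinv]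
      have hrank : M₀.rank = 1 := by
        rw [hM₀, Matrix.rank_mul_eq_left_of_isUnit_det _ _ ((Matrix.isUnit_iff_isUnit_det _).mp (h⁻¹).isUnit),
          Matrix.rank_mul_eq_right_of_isUnit_det _ _ ((Matrix.isUnit_iff_isUnit_det _).mp h.isUnit)]
        exact hr
      have hsq : M₀ * M₀ = 0 := by
        calc M₀ * M₀ = (h : Matrix (Fin (m + 2)) (Fin (m + 2)) F) * (N * (((h⁻¹ : G) : Matrix (Fin (m + 2)) (Fin (m + 2)) F) * (h : Matrix (Fin (m + 2)) (Fin (m + 2)) F)) * N) * ((h⁻¹ : G) : Matrix (Fin (m + 2)) (Fin (m + 2)) F) := by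
              simp only [hM₀, Matrix.mul_assoc]
          _ = 0 := by
              rw [hhinv', Matrix.mul_one, hs, Matrix.mul_zero, Matrix.zero_mul]
      obtain ⟨u, φ, hu, hφ, hd, hM⟩ := exists_vecMulVec M₀ hrank hsq
      exact ⟨(u, φ), (mem_pairs _).mpr ⟨hu, hφ, hd⟩, by rw [hvM, hM]; rfl⟩
    · rintro ⟨⟨u, φ⟩, hp, rfl⟩
      obtain ⟨hu, hφ, hd⟩ := (mem_pairs _).mp hp
      have hN₂sq := vecMulVec_sq u φ hd
      obtain ⟨e, he⟩ := exists_conj_of_sq_zero N.mulVecLin (vecMulVec u φ).mulVecLin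
        (fun x => by
          rw [Matrix.mulVecLin_apply, Matrix.mulVecLin_apply, Matrix.mulVec_mulVec, hs, Matrix.zero_mulVec])
        (fun x => by
          rw [Matrix.mulVecLin_apply, Matrix.mulVecLin_apply, Matrix.mulVec_mulVec, hN₂sq, Matrix.zero_mulVec])
        (by
          rw [finrank_range_vecMulVec u φ hu hφ]
          exact hr)
      let h : G := glToLin.symm e
      have hmv : ∀ x, (h : Matrix (Fin (m + 2)) (Fin (m + 2)) F) *ᵥ x = e x := glToLin_symm_mulVec e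
      refine ⟨(ConjAct.toConjAct h) • t, ⟨ConjAct.toConjAct h, rfl⟩, ?_⟩
      have hcomm : (h : Matrix (Fin (m + 2)) (Fin (m + 2)) F) * (1 + N) = (1 + vecMulVec u φ) * h := by
        apply Matrix.toLin'.injective
        refine LinearMap.ext fun x => ?_
        change ((h : Matrix (Fin (m + 2)) (Fin (m + 2)) F) * (1 + N)) *ᵥ x = ((1 + vecMulVec u φ) * (h : Matrix (Fin (m + 2)) (Fin (m + 2)) F)) *ᵥ x
        rw [← Matrix.mulVec_mulVec, ← Matrix.mulVec_mulVec, hmv, Matrix.add_mulVec, Matrix.add_mulVec, Matrix.one_mulVec,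
          Matrix.one_mulVec, map_add, hmv]
        have := he x
        simp only [Matrix.mulVecLin_apply] at this
        rw [this]
      rw [ConjAct.smul_def]
      change (h : Matrix (Fin (m + 2)) (Fin (m + 2)) F) * t * ((h⁻¹ : G) : Matrix (Fin (m + 2)) (Fin (m + 2)) F) = 1 + vecMulVec u φ
      rw [htN, hcomm, Matrix.mul_assoc, ← Units.val_mul, mul_inv_cancel]
      simp
  have hinjval : Function.Injective (fun x : G => ((x : G) : Matrix (Fin (m + 2)) (Fin (m + 2)) F)) := Units.val_injective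
  have horbcard : (MulAction.orbit (ConjAct G) t).ncard = T'.card := by
    rw [← Set.ncard_image_of_injective _ hinjval, horbit, Set.ncard_coe_finset]
  have hind : (MulAction.stabilizer (ConjAct G) t).index = (MulAction.orbit (ConjAct G) t).ncard :=
    MulAction.index_stabilizer _ _
  have hcent : Nat.card ↥(Subgroup.centralizer ({t} : Set G)) = Nat.card (MulAction.stabilizer (ConjAct G) t) :=
    Subgroup.nat_card_centralizer_nat_card_stabilizer t
  have hmul : T'.card * Nat.card ↥(Subgroup.centralizer ({t} : Set G)) = Nat.card G := by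
    rw [← horbcard, ← hind, hcent, Subgroup.index_mul_card]
    rfl
  have hpairs : (pairs F (m + 2)).card = T'.card * (Fintype.card F - 1) := by
    rw [Finset.card_eq_sum_card_fiberwise (f := mat) (t := T') (fun p hp => Finset.mem_image_of_mem _ hp)]
    have hfib : ∀ τ ∈ T', ((pairs F (m + 2)).filter (fun p => mat p = τ)).card = Fintype.card F - 1 := by
      intro τ hτ
      obtain ⟨p₀, hp₀, rfl⟩ := (hT'mem τ).mp hτ
      exact card_fiber p₀ hp₀
    rw [Finset.sum_congr rfl hfib, Finset.sum_const, smul_eq_mul]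
  have hcardpairs := card_pairs (F := F) (n := m + 2)
  rw [show m + 2 - 1 = m + 1 from rfl] at hcardpairs
  have hq2 : 1 < Fintype.card F := Fintype.one_lt_card
  have hGcard : Nat.card G = ∏ i : Fin (m + 2), (Fintype.card F ^ (m + 2) - Fintype.card F ^ (i : ℕ)) :=
    Matrix.card_GL_field (m + 2)
  rw [prod_gl_formula] at hGcard
  set q := Fintype.card F with hq
  have hne1 : 0 < q ^ (m + 2) - 1 := Nat.sub_pos_of_lt (Nat.one_lt_pow (by omega) hq2)
  have hne2 : 0 < q ^ (m + 1) - 1 := Nat.sub_pos_of_lt (Nat.one_lt_pow (by omega) hq2)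
  have h2n : 2 * (m + 2) - 3 = 2 * m + 1 := by omega
  change Nat.card ↥(Subgroup.centralizer ({t} : Set G)) = q ^ (2 * (m + 2) - 3) * (q - 1) * ∏ i : Fin m, (q ^ m - q ^ (i : ℕ))
  rw [h2n]
  apply Nat.eq_of_mul_eq_mul_left (Nat.mul_pos hne1 hne2)
  calc (q ^ (m + 2) - 1) * (q ^ (m + 1) - 1) * Nat.card ↥(Subgroup.centralizer ({t} : Set G))
      = T'.card * (q - 1) * Nat.card ↥(Subgroup.centralizer ({t} : Set G)) := by
        rw [← hcardpairs, hpairs]
    _ = (q - 1) * (T'.card * Nat.card ↥(Subgroup.centralizer ({t} : Set G))) := by ring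
    _ = (q - 1) * Nat.card G := by rw [hmul]
    _ = _ := by
        rw [hGcard]
        ring

end Cfsg.Agent.S2572
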