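import Cfsg.Statements.S2574
import Cfsg.Agent.Lib.MatConj.RegUnip
import Cfsg.Agent.Lib.Classical.SympForm

set_option autoImplicit false
open Cfsg

namespace Cfsg.Agent.S2574

open Cfsg.Agent.Lib.MatConj.RegUnip Cfsg.Agent.Lib.Classical.SympForm Module Matrix

/-- A regular unipotent element of the symplectic group has totally isotropic small invariant subspaces: over a finite field, if u ∈ Sp_2m(F) satisfies (u − 1)^(2m) = 0 and rank(u − 1) = 2m − 1, and W is a u-invariant subspace with 2 dim W ≤ 2m, then the alternating form vanishes identically on W. -/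
theorem result {F : Type*} [Field F] [Finite F] {m : ℕ} (u : Matrix.symplecticGroup (Fin m) F) (hnil : ((u : Matrix (Fin m ⊕ Fin m) (Fin m ⊕ Fin m) F) - 1) ^ (2 * m) = 0) (hreg : ((u : Matrix (Fin m ⊕ Fin m) (Fin m ⊕ Fin m) F) - 1).rank = 2 * m - 1) (W : Submodule F (Fin m ⊕ Fin m → F)) (hW : ∀ v ∈ W, (u : Matrix (Fin m ⊕ Fin m) (Fin m ⊕ Fin m) F).mulVec v ∈ W) (hdim : 2 * Module.finrank F W ≤ 2 * m) : ∀ v ∈ W, ∀ w ∈ W, Cfsg.sympForm m F v w = 0 := by
  classical
  set U : Matrix (Fin m ⊕ Fin m) (Fin m ⊕ Fin m) F := (u : Matrix (Fin m ⊕ Fin m) (Fin m ⊕ Fin m) F) with hU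
  set AI : Matrix (Fin m ⊕ Fin m) (Fin m ⊕ Fin m) F := ((u⁻¹ : Matrix.symplecticGroup (Fin m) F) : Matrix (Fin m ⊕ Fin m) (Fin m ⊕ Fin m) F) with hAI
  have hAIU : AI * U = 1 := congrArg Subtype.val (inv_mul_cancel u)
  have hinv : ∀ a b, sympForm m F (U *ᵥ a) (U *ᵥ b) = sympForm m F a b :=
    (mem_symplecticGroup_iff U).mp u.2
  set N : (Fin m ⊕ Fin m → F) →ₗ[F] (Fin m ⊕ Fin m → F) := (U - 1).mulVecLin with hN
  have hV : finrank F (Fin m ⊕ Fin m → F) = 2 * m := by
    simp; omega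
  have hNnil : N ^ (2 * m) = 0 := by
    rw [hN, ← mulVecLin_pow, hnil]
    ext
    simp
  have hNapply : ∀ v, N v = U *ᵥ v - v := by
    intro v
    simp [hN, Matrix.sub_mulVec]
  have hWinv : ∀ v ∈ W, N v ∈ W := by
    intro v hv
    rw [hNapply]
    exact W.sub_mem (hW v hv) hv
  -- `U` is onto on `W`
  have hsurj : ∀ x ∈ W, ∃ x' ∈ W, U *ᵥ x' = x := by
    let T : W →ₗ[F] W := (U.mulVecLin).restrict hW
    have hTinj : Function.Injective T := by
      intro a b hab
      have h1 : U *ᵥ (a : Fin m ⊕ Fin m → F) = U *ᵥ (b : Fin m ⊕ Fin m → F) := congrArg Subtype.val hab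
      have h2 := congrArg (AI *ᵥ ·) h1
      simp only [Matrix.mulVec_mulVec, hAIU, Matrix.one_mulVec] at h2
      exact Subtype.ext h2
    have hTsurj := LinearMap.injective_iff_surjective.mp hTinj
    intro x hx
    obtain ⟨x', hx'⟩ := hTsurj ⟨x, hx⟩
    exact ⟨x', x'.2, congrArg Subtype.val hx'⟩
  set B := sympBilin m F with hB
  have hBapply : ∀ a b, B a b = sympForm m F a b := fun _ _ => rfl
  have hnd : B.Nondegenerate := sympBilin_nondegenerate
  set W' := B.orthogonal W with hW'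
  have hmem : ∀ y, y ∈ W' ↔ ∀ x ∈ W, sympForm m F x y = 0 := by
    intro y
    rw [hW', LinearMap.BilinForm.mem_orthogonal_iff]
    rfl
  have hW'inv : ∀ y ∈ W', N y ∈ W' := by
    intro y hy
    rw [hmem] at hy ⊢
    intro x hx
    obtain ⟨x', hx', rfl⟩ := hsurj x hx
    rw [hNapply]
    have h1 : sympForm m F (U *ᵥ x') (U *ᵥ y - y) = sympForm m F (U *ᵥ x') (U *ᵥ y) - sympForm m F (U *ᵥ x') y := by
      simp only [sympForm, Matrix.mulVec_sub, dotProduct_sub]
    rw [h1, hinv, hy x' hx', hy _ hx, sub_zero]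
  have hfin : finrank F W' = 2 * m - finrank F W := by
    rw [hW', LinearMap.BilinForm.finrank_orthogonal hnd, hV]
  have h1 := eq_ker_of_invariant (n := 2 * m) hV hNnil hreg W hWinv
  have h2 := eq_ker_of_invariant (n := 2 * m) hV hNnil hreg W' hW'inv
  have hle : W ≤ W' := by
    rw [h1, h2]
    intro x hx
    rw [LinearMap.mem_ker] at hx ⊢
    have hdd : finrank F W' = (finrank F W' - finrank F W) + finrank F W := by omega
    rw [hdd, pow_add_comp, LinearMap.comp_apply, hx, map_zero]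
  intro v hv w hw
  exact (hmem w).mp (hle hw) v hv

end Cfsg.Agent.S2574
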