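import Cfsg.Statements.S2575
import Mathlib

set_option autoImplicit false
open Cfsg

namespace Cfsg.Agent.S2575

open Matrix

theorem gcd_dvd_half {n N : ℕ} (hn : n ≠ 0) (hN : N ≠ 0) (h : padicValNat 2 n < padicValNat 2 N) :
    2 ∣ N / Nat.gcd n N := by
  set d := Nat.gcd n N with hd
  have hdpos : d ≠ 0 := Nat.gcd_ne_zero_left hn
  obtain ⟨e, he⟩ : d ∣ N := Nat.gcd_dvd_right n N
  have he0 : e ≠ 0 := by
    rintro rfl
    simp at he
    exact hN he
  have hdiv : N / d = e := by
    rw [he]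
    exact Nat.mul_div_cancel_left e (Nat.pos_of_ne_zero hdpos)
  rw [hdiv]
  by_contra h2
  have hv : padicValNat 2 e = 0 := padicValNat.eq_zero_of_not_dvd h2
  have hNd : padicValNat 2 N = padicValNat 2 d := by
    rw [he, padicValNat.mul hdpos he0, hv, add_zero]
  have hdn : padicValNat 2 d ≤ padicValNat 2 n := by
    rw [padicValNat_dvd_iff_le hn |>.symm]
    exact (pow_padicValNat_dvd).trans (Nat.gcd_dvd_left n N)
  omega

theorem neg_one_is_pow {F : Type*} [Field F] [Fintype F] {q : ℕ} (hF : Fintype.card F = q)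
    {n : ℕ} (hn : n ≠ 0) (hv : padicValNat 2 n < padicValNat 2 (q - 1)) : ∃ c : F, c ≠ 0 ∧ c ^ n = -1 := by
  classical
  have hq1 : 1 < q := by rw [← hF]; exact Fintype.one_lt_card
  have hN : q - 1 ≠ 0 := by omega
  have hcard : Nat.card Fˣ = q - 1 := by
    rw [Nat.card_eq_fintype_card, Fintype.card_units, hF]
  have h2 := gcd_dvd_half hn hN hv
  have hrange : Nat.card (powMonoidHom n : Fˣ →* Fˣ).range = (q - 1) / Nat.gcd n (q - 1) := by
    rw [IsCyclic.card_powMonoidHom_range, hcard, Nat.gcd_comm]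
  have h2' : 2 ∣ Nat.card (powMonoidHom n : Fˣ →* Fˣ).range := by
    rw [hrange]; exact h2
  have : Fact (Nat.Prime 2) := ⟨Nat.prime_two⟩
  obtain ⟨y, hy⟩ := exists_prime_orderOf_dvd_card' 2 h2'
  have hyy : (y : Fˣ) ^ 2 = 1 := by
    have h3 := pow_orderOf_eq_one y
    rw [hy] at h3
    exact_mod_cast h3
  have hyval : ((y : Fˣ) : F) ^ 2 = 1 := by
    have := congrArg (fun z : Fˣ => (z : F)) hyy
    simpa using this
  have hne : ((y : Fˣ) : F) ≠ 1 := by
    intro h
    have : y = 1 := by
      ext; simpa using h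
    rw [this, orderOf_one] at hy
    norm_num at hy
  obtain ⟨c, hc⟩ := y.2
  have hy1 : ((y : Fˣ) : F) = -1 := by
    rcases sq_eq_one_iff.mp hyval with h | h
    · exact absurd h hne
    · exact h
  refine ⟨(c : F), c.ne_zero, ?_⟩
  rw [← hy1, ← hc]
  simp

theorem not_pow_eq_neg_one {F : Type*} [Field F] [Fintype F] {q : ℕ} (hF : Fintype.card F = q) (hq : Odd q)
    {n : ℕ} (hn : n ≠ 0) (hv : padicValNat 2 (q - 1) ≤ padicValNat 2 n) (c : F) (hc0 : c ≠ 0) : c ^ n ≠ -1 := by
  classical
  intro hc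
  have hq1 : 1 < q := by rw [← hF]; exact Fintype.one_lt_card
  have hN : q - 1 ≠ 0 := by omega
  have hne : (-1 : F) ≠ 1 := by
    apply Ring.neg_one_ne_one_of_char_ne_two
    intro h2
    have h3 := FiniteField.even_card_iff_char_two.mp h2
    rw [hF] at h3
    obtain ⟨k, hk⟩ := hq
    omega
  -- write `q - 1 = 2 ^ a * N'`, with `N'` odd.
  set a := padicValNat 2 (q - 1) with ha
  obtain ⟨N', hN'⟩ : 2 ^ a ∣ q - 1 := pow_padicValNat_dvd
  have hN'odd : Odd N' := by
    rw [← Nat.not_even_iff_odd]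
    rintro ⟨k, hk⟩
    have : 2 ^ (a + 1) ∣ q - 1 := by
      rw [hN', hk, pow_succ]
      exact ⟨k, by ring⟩
    have h4 := (padicValNat_dvd_iff_le (p := 2) hN).mp this
    omega
  obtain ⟨k, hk⟩ : 2 ^ a ∣ n := (padicValNat_dvd_iff_le hn).mpr hv
  have h1 : c ^ (q - 1) = 1 := by
    rw [← hF]
    exact FiniteField.pow_card_sub_one_eq_one c hc0
  have h2 : c ^ (n * N') = -1 := by
    rw [pow_mul, hc, hN'odd.neg_one_pow]
  have h3 : c ^ (n * N') = 1 := by
    have : n * N' = (q - 1) * k := by rw [hN', hk]; ring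
    rw [this, pow_mul, h1, one_pow]
  rw [h3] at h2
  exact hne h2.symm

theorem det_eq {F : Type*} [Field F] {n : ℕ} (i : ℕ) (hi : i ≤ n) (c : F) :
    (c • Matrix.diagonal (fun j : Fin n => if (j : ℕ) < i then (-1 : F) else 1)).det = c ^ n * (-1) ^ i := by
  rw [Matrix.det_smul, Matrix.det_diagonal, Fintype.card_fin]
  congr 1
  rw [Finset.prod_ite, Finset.prod_const, Finset.prod_const_one, mul_one]
  congr 1
  rw [Finset.card_filter]
  have : (∑ j : Fin n, if (j : ℕ) < i then 1 else 0) = i := by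
    rw [Fin.sum_univ_eq_sum_range (fun j => if j < i then 1 else 0) n, ← Finset.card_filter]
    have : (Finset.range n).filter (fun j => j < i) = Finset.range i := by
      ext x
      simp only [Finset.mem_filter, Finset.mem_range]
      omega
    rw [this, Finset.card_range]
  exact this

/-- Which diagonal involutions of PGL_n(q) lie in PSL_n(q), q odd: for the diagonal matrix t with i entries −1 and n − i entries 1, some non-zero scalar multiple of t has determinant one if and only if i is even or the 2-part of q − 1 exceeds the 2-part of n (that is, −1 is an n-th power in the field exactly in the latter case). -/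
theorem result {F : Type*} [Field F] [Fintype F] {q : ℕ} (hF : Fintype.card F = q) (hq : Odd q) {n : ℕ} (hn : 1 ≤ n) (i : ℕ) (hi : i ≤ n) : (∃ c : F, c ≠ 0 ∧ (c • Matrix.diagonal (fun j : Fin n => if (j : ℕ) < i then (-1 : F) else 1)).det = 1) ↔ (Even i ∨ padicValNat 2 n < padicValNat 2 (q - 1)) := by
  have hn0 : n ≠ 0 := by omega
  constructor
  · rintro ⟨c, hc0, hc⟩
    rw [det_eq i hi] at hc
    by_contra hcon
    push Not at hcon
    obtain ⟨h1, h2⟩ := hcon
    rw [Nat.not_even_iff_odd] at h1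
    rw [h1.neg_one_pow] at hc
    apply not_pow_eq_neg_one hF hq hn0 h2 c hc0
    linear_combination -hc
  · rintro (h | h)
    · exact ⟨1, one_ne_zero, by rw [det_eq i hi, one_pow, h.neg_one_pow, one_mul]⟩
    · obtain ⟨c, hc0, hc⟩ := neg_one_is_pow hF hn0 h
      by_cases hie : Even i
      · exact ⟨1, one_ne_zero, by rw [det_eq i hi, one_pow, hie.neg_one_pow, one_mul]⟩
      · rw [Nat.not_even_iff_odd] at hie
        exact ⟨c, hc0, by rw [det_eq i hi, hc, hie.neg_one_pow]; ring⟩

end Cfsg.Agent.S2575
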