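import Cfsg.Statements.S2576
import Mathlib

set_option autoImplicit false
open Cfsg

namespace Cfsg.Agent.S2576

open Matrix

theorem gcd_dvd_half {n N : ℕ} (hn : n ≠ 0) (hN : N ≠ 0) (h : padicValNat 2 n < padicValNat 2 N) :
    ∃ e', N = Nat.gcd n N * (2 * e') := by
  set d := Nat.gcd n N with hd
  have hdpos : d ≠ 0 := Nat.gcd_ne_zero_left hn
  obtain ⟨e, he⟩ : d ∣ N := Nat.gcd_dvd_right n N
  have he0 : e ≠ 0 := by
    rintro rfl
    simp at he
    exact hN he
  by_cases h2 : 2 ∣ e
  · obtain ⟨e', rfl⟩ := h2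
    exact ⟨e', he⟩
  · exfalso
    have hv : padicValNat 2 e = 0 := padicValNat.eq_zero_of_not_dvd h2
    have hNd : padicValNat 2 N = padicValNat 2 d := by
      rw [he, padicValNat.mul hdpos he0, hv, add_zero]
    have hdn : padicValNat 2 d ≤ padicValNat 2 n := by
      rw [padicValNat_dvd_iff_le hn |>.symm]
      exact (pow_padicValNat_dvd).trans (Nat.gcd_dvd_left n N)
    omega

theorem det_eq {F : Type*} [Field F] {m : ℕ} (μ c : F) :
    (c • Matrix.blockDiagonal (fun _ : Fin m => !![(0 : F), 1; μ, 0])).det = c ^ (2 * m) * (-μ) ^ m := by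
  rw [Matrix.det_smul, Matrix.det_blockDiagonal]
  simp [Matrix.det_fin_two]

/-- Which involutions of PGL_2m(q) coming from a scalar of the quadratic extension field lie in PSL_2m(q), q odd: let μ generate the Sylow 2-subgroup of the multiplicative group of the field with q elements (μ has order the 2-part of q − 1) and let t be the block-diagonal matrix with m diagonal blocks [[0, 1], [μ, 0]] (so t² is the scalar μ and t is an involution modulo scalars). Then some non-zero scalar multiple of t has determinant one if and only if q ≡ 3 (mod 4) or the 2-part of q − 1 is less than the 2-part of 2m. -/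
theorem result {F : Type*} [Field F] [Fintype F] {q : ℕ} (hF : Fintype.card F = q) (hq : Odd q) {m : ℕ} (hm : 1 ≤ m) (μ : F) (hμ : orderOf μ = 2 ^ padicValNat 2 (q - 1)) : (∃ c : F, c ≠ 0 ∧ (c • Matrix.blockDiagonal (fun _ : Fin m => !![(0 : F), 1; μ, 0])).det = 1) ↔ (q % 4 = 3 ∨ padicValNat 2 (q - 1) < padicValNat 2 (2 * m)) := by
  classical
  have hq1 : 1 < q := by rw [← hF]; exact Fintype.one_lt_card
  have hN : q - 1 ≠ 0 := by omega
  have hm0 : m ≠ 0 := by omega
  have hne : (-1 : F) ≠ 1 := by
    apply Ring.neg_one_ne_one_of_char_ne_two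
    intro h2
    have h3 := FiniteField.even_card_iff_char_two.mp h2
    rw [hF] at h3
    obtain ⟨k, hk⟩ := hq
    omega
  set a := padicValNat 2 (q - 1) with ha
  have h2N : 2 ∣ q - 1 := by
    obtain ⟨k, hk⟩ := hq
    exact ⟨k, by omega⟩
  have ha1 : 1 ≤ a := by
    apply one_le_padicValNat_of_dvd hN h2N
  -- `μ^(2^(a-1)) = -1`
  have hμsq : μ ^ (2 ^ (a - 1)) = -1 := by
    have h1 : (μ ^ (2 ^ (a - 1))) ^ 2 = 1 := by
      rw [← pow_mul, ← pow_succ, Nat.sub_add_cancel ha1, ← hμ, pow_orderOf_eq_one]
    rcases sq_eq_one_iff.mp h1 with h | h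
    · exfalso
      have h2 := orderOf_dvd_of_pow_eq_one h
      rw [hμ] at h2
      have h3 := (Nat.pow_dvd_pow_iff_le_right (by norm_num : 1 < 2)).mp h2
      omega
    · exact h
  constructor
  · rintro ⟨c, hc0, hc⟩
    rw [det_eq] at hc
    by_cases h43 : q % 4 = 3
    · exact Or.inl h43
    right
    by_contra hlt
    have hva : padicValNat 2 (2 * m) = padicValNat 2 m + 1 := by
      rw [padicValNat.mul (by norm_num) hm0, padicValNat.self (by norm_num)]
      omega
    have hvm : padicValNat 2 m < padicValNat 2 (q - 1) := by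
      omega
    obtain ⟨e', he'⟩ := gcd_dvd_half hm0 hN hvm
    set y := c ^ 2 * (-μ) with hy
    have hμ0 : μ ≠ 0 := by
      rintro rfl
      rw [orderOf_zero] at hμ
      have : 0 < 2 ^ a := by positivity
      omega
    have hym : y ^ m = 1 := by
      rw [hy, mul_pow, ← pow_mul]
      exact hc
    have hy0 : y ≠ 0 := by
      rw [hy]
      exact mul_ne_zero (pow_ne_zero _ hc0) (neg_ne_zero.mpr hμ0)
    have hyN : y ^ (q - 1) = 1 := by
      rw [← hF]
      exact FiniteField.pow_card_sub_one_eq_one y hy0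
    have hyd : y ^ Nat.gcd m (q - 1) = 1 := pow_gcd_eq_one.mpr ⟨hym, hyN⟩
    have hyhalf : y ^ (Nat.gcd m (q - 1) * e') = 1 := by
      rw [pow_mul, hyd, one_pow]
    -- compute the same power differently
    set d := Nat.gcd m (q - 1) with hd
    -- write q - 1 = 2 ^ a * N'
    obtain ⟨N', hN'⟩ : 2 ^ a ∣ q - 1 := pow_padicValNat_dvd
    have hN'odd : Odd N' := by
      rw [← Nat.not_even_iff_odd]
      rintro ⟨k, hk⟩
      have : 2 ^ (a + 1) ∣ q - 1 := by
        rw [hN', hk, pow_succ]
        exact ⟨k, by ring⟩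
      have h4 := (padicValNat_dvd_iff_le (p := 2) hN).mp this
      omega
    have hhalf : d * e' = 2 ^ (a - 1) * N' := by
      have h5 : 2 * (d * e') = 2 * (2 ^ (a - 1) * N') := by
        have h6 : 2 ^ a = 2 * 2 ^ (a - 1) := by
          rw [← pow_succ', Nat.sub_add_cancel ha1]
        calc 2 * (d * e') = d * (2 * e') := by ring
          _ = q - 1 := he'.symm
          _ = 2 ^ a * N' := hN'
          _ = 2 * (2 ^ (a - 1) * N') := by rw [h6]; ring
      omega
    have ha2 : 2 ≤ a := by
      by_contra hlt2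
      have ha1' : a = 1 := by omega
      rw [ha1', pow_one] at hN'
      obtain ⟨k, hk⟩ := hN'odd
      obtain ⟨l, hl⟩ := hq
      omega
    have hcN : c ^ (q - 1) = 1 := by
      rw [← hF]
      exact FiniteField.pow_card_sub_one_eq_one c hc0
    have hcomp : y ^ (d * e') = -1 := by
      rw [hy, mul_pow, ← pow_mul, neg_pow, hhalf]
      have h7 : 2 * (2 ^ (a - 1) * N') = q - 1 := by
        have h6 : 2 ^ a = 2 * 2 ^ (a - 1) := by
          rw [← pow_succ', Nat.sub_add_cancel ha1]
        rw [hN', h6]; ring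
      rw [h7, hcN, one_mul]
      have h8 : Even (2 ^ (a - 1) * N') := by
        apply Even.mul_right
        have : a - 1 = (a - 2) + 1 := by omega
        rw [this, pow_succ]
        exact even_two.mul_left _
      rw [h8.neg_one_pow, one_mul, pow_mul, hμsq, hN'odd.neg_one_pow]
    rw [hcomp] at hyhalf
    exact hne hyhalf
  · rintro (h | h)
    · -- `a = 1`, so `μ = -1`
      have ha1' : a = 1 := by
        by_contra hne1
        have : 2 ^ 2 ∣ q - 1 := by
          have h9 : 2 ≤ a := by omega
          exact (pow_dvd_pow 2 h9).trans pow_padicValNat_dvd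
        omega
      rw [ha1', pow_zero, pow_one] at hμsq
      refine ⟨1, one_ne_zero, ?_⟩
      rw [det_eq, hμsq]
      simp
    · refine ⟨1, one_ne_zero, ?_⟩
      rw [det_eq]
      have hva : padicValNat 2 (2 * m) = padicValNat 2 m + 1 := by
        rw [padicValNat.mul (by norm_num) hm0, padicValNat.self (by norm_num)]
        omega
      have hdv : 2 ^ a ∣ m := (padicValNat_dvd_iff_le hm0).mpr (by omega)
      have hme : Even m := by
        have : 2 ∣ m := (dvd_pow_self 2 (by omega)).trans hdv
        exact (even_iff_two_dvd).mpr this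
      rw [one_pow, one_mul, neg_pow, hme.neg_one_pow, one_mul]
      rw [← hμ] at hdv
      exact orderOf_dvd_iff_pow_eq_one.mp hdv

end Cfsg.Agent.S2576
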