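import Cfsg.Statements.S2577
import Cfsg.Agent.Lib.MatConj.Semisimple
import Cfsg.Agent.Lib.MatConj.Tg

set_option autoImplicit false
set_option linter.unusedSectionVars false
open Cfsg Polynomial Module Cfsg.Agent.Lib.MatConj.Semisimple Cfsg.Agent.Lib.MatConj.Tg

namespace Cfsg.Agent.S2577


universe u

section LinAlg
variable {F : Type u} [Field F] {V : Type*} [AddCommGroup V] [Module F V]

theorem x_sub_ne (h2 : (2 : F) ≠ 0) : (X - 1 : F[X]) ≠ X + 1 := by
  intro h
  have h1 : eval 0 (X - 1 : F[X]) = eval 0 (X + 1 : F[X]) := by rw [h]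
  simp only [eval_sub, eval_add, eval_X, eval_one] at h1
  apply h2
  linear_combination -h1

theorem aeval_sub_one (T : V →ₗ[F] V) : aeval T (X - 1 : F[X]) = T - 1 := by simp
theorem aeval_add_one (T : V →ₗ[F] V) : aeval T (X + 1 : F[X]) = T + 1 := by simp

theorem irr_sub : Irreducible (X - 1 : F[X]) := by
  have := irreducible_X_sub_C (1 : F)
  simpa using this
theorem irr_add : Irreducible (X + 1 : F[X]) := by
  have := irreducible_X_sub_C (-1 : F)
  simpa using this
theorem mon_sub : (X - 1 : F[X]).Monic := by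
  have := monic_X_sub_C (1 : F)
  simpa using this
theorem mon_add : (X + 1 : F[X]).Monic := by
  have := monic_X_add_C (1 : F)
  simpa using this
theorem deg_sub : (X - 1 : F[X]).natDegree = 1 := by
  have := natDegree_X_sub_C (1 : F)
  simpa using this
theorem deg_add : (X + 1 : F[X]).natDegree = 1 := by
  have := natDegree_X_add_C (1 : F)
  simpa using this

variable [FiniteDimensional F V]

theorem exists_decomp_sq (h2 : (2 : F) ≠ 0) (T : V →ₗ[F] V) (hT : T ^ 2 = 1) :
    ∃ (κ : Type u) (_ : Fintype κ) (R : κ → F[X]) (Φ : V ≃ₗ[F] ∀ k, AdjoinRoot (R k)),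
      SSDecomp T R Φ ∧ ∀ k, R k = X - 1 ∨ R k = X + 1 := by
  have hsf : Squarefree (X ^ 2 - C 1 : F[X]) := (separable_X_pow_sub_C (1 : F) (by simpa using h2) one_ne_zero).squarefree
  have h0 : aeval T (X ^ 2 - C 1 : F[X]) = 0 := by
    simp [hT]
  obtain ⟨κ, hκ, R, Φ, hD, hR⟩ := exists_ssDecomp T _ hsf h0
  refine ⟨κ, hκ, R, Φ, hD, fun k => ?_⟩
  have h3 : (X ^ 2 - C 1 : F[X]) = (X - 1) * (X + 1) := by
    simp only [map_one]
    ring
  rw [h3] at hR
  rcases (hD.irr k).prime.dvd_or_dvd (hR k) with h | h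
  · exact Or.inl (eq_of_monic_of_associated (hD.monic k) mon_sub ((hD.irr k).associated_of_dvd irr_sub h))
  · exact Or.inr (eq_of_monic_of_associated (hD.monic k) mon_add ((hD.irr k).associated_of_dvd irr_add h))

open Classical in
theorem card_fiber_sub {κ : Type*} [Fintype κ] {T : V →ₗ[F] V} {R : κ → F[X]} {Φ : V ≃ₗ[F] ∀ k, AdjoinRoot (R k)}
    (h : SSDecomp T R Φ) : Nat.card {k // R k = X - 1} = finrank F (LinearMap.ker (T - 1)) := by
  have := h.finrank_ker (X - 1) irr_sub mon_sub
  rw [aeval_sub_one, deg_sub, mul_one] at this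
  rw [this, Nat.card_eq_fintype_card]

open Classical in
theorem card_fiber_add {κ : Type*} [Fintype κ] {T : V →ₗ[F] V} {R : κ → F[X]} {Φ : V ≃ₗ[F] ∀ k, AdjoinRoot (R k)}
    (h : SSDecomp T R Φ) : Nat.card {k // R k = X + 1} = finrank F (LinearMap.ker (T + 1)) := by
  have := h.finrank_ker (X + 1) irr_add mon_add
  rw [aeval_add_one, deg_add, mul_one] at this
  rw [this, Nat.card_eq_fintype_card]

/-- Dimensions of the two eigenspaces. -/
theorem finrank_ker_sum (h2 : (2 : F) ≠ 0) (T : V →ₗ[F] V) (hT : T ^ 2 = 1) :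
    finrank F (LinearMap.ker (T - 1)) + finrank F (LinearMap.ker (T + 1)) = finrank F V := by
  have h1 : LinearMap.range (T - 1) = LinearMap.ker (T + 1) := by
    ext x
    constructor
    · rintro ⟨y, rfl⟩
      rw [LinearMap.mem_ker]
      have h3 : (T + 1) * (T - 1) = T ^ 2 - 1 := by noncomm_ring
      have h4 : ((T + 1) * (T - 1)) y = 0 := by rw [h3, hT, sub_self]; rfl
      exact h4
    · intro hx
      rw [LinearMap.mem_ker] at hx
      have h5 : T x = -x := by
        have : T x + x = 0 := hx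
        exact eq_neg_of_add_eq_zero_left this
      refine ⟨(-(2 : F)⁻¹) • x, ?_⟩
      simp only [LinearMap.sub_apply, map_smul, Module.End.one_apply, h5]
      have h6 : -x - x = (-2 : F) • x := by
        rw [neg_smul, two_smul]
        abel
      have h7 : -(2 : F)⁻¹ * -2 = 1 := by
        field_simp
      rw [h6, smul_smul, h7, one_smul]
  have h3 := LinearMap.finrank_range_add_finrank_ker (T - 1)
  rw [h1] at h3
  omega

/-- Involutions with equal dimension of the `-1`-eigenspace are conjugate. -/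
theorem conj_of_sq_one (h2 : (2 : F) ≠ 0) (T T' : V →ₗ[F] V) (hT : T ^ 2 = 1) (hT' : T' ^ 2 = 1)
    (hb : finrank F (LinearMap.ker (T + 1)) = finrank F (LinearMap.ker (T' + 1))) :
    ∃ P : V ≃ₗ[F] V, ∀ x, P (T x) = T' (P x) := by
  obtain ⟨κ, hκ, R, Φ, hD, hR⟩ := exists_decomp_sq h2 T hT
  obtain ⟨κ', hκ', R', Φ', hD', hR'⟩ := exists_decomp_sq h2 T' hT'
  have ha : finrank F (LinearMap.ker (T - 1)) = finrank F (LinearMap.ker (T' - 1)) := by
    have h3 := finrank_ker_sum h2 T hT
    have h4 := finrank_ker_sum h2 T' hT'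
    omega
  refine conj_of_card hD hD' fun Q => ?_
  by_cases h1 : Q = X - 1
  · subst h1
    rw [card_fiber_sub hD, card_fiber_sub hD', ha]
  by_cases h3 : Q = X + 1
  · subst h3
    rw [card_fiber_add hD, card_fiber_add hD', hb]
  have h4 : ∀ {κ'' : Type u} [Fintype κ''] (R'' : κ'' → F[X]), (∀ k, R'' k = X - 1 ∨ R'' k = X + 1) → Nat.card {k // R'' k = Q} = 0 := by
    intro κ'' _ R'' hR''
    rw [Nat.card_eq_zero]
    left
    constructor
    rintro ⟨k, hk⟩
    rcases hR'' k with h | h
    · exact h1 (hk ▸ h)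
    · exact h3 (hk ▸ h)
  rw [h4 R hR, h4 R' hR']

/-- Conjugate maps have the same eigenspace dimensions. -/
theorem finrank_ker_add_of_conj (T T' : V →ₗ[F] V) (P : V ≃ₗ[F] V) (hP : ∀ x, P (T x) = T' (P x)) :
    finrank F (LinearMap.ker (T + 1)) = finrank F (LinearMap.ker (T' + 1)) := by
  apply LinearEquiv.finrank_eq
  refine (P.submoduleMap _).trans (LinearEquiv.ofEq _ _ ?_)
  ext y
  simp only [Submodule.mem_map, LinearMap.mem_ker, LinearMap.add_apply, Module.End.one_apply]
  constructor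
  · rintro ⟨x, hx, rfl⟩
    have h1 := congrArg P hx
    rw [map_add, hP, map_zero] at h1
    exact h1
  · intro hy
    refine ⟨P.symm y, ?_, by simp⟩
    apply P.injective
    rw [map_add, hP, map_zero]
    simpa using hy

/-- Decomposition for a map squaring to a non-square scalar. -/
theorem exists_decomp_mu {μ : F} (hμ : ¬ IsSquare μ) (T : V →ₗ[F] V) (hT : T ^ 2 = μ • 1) :
    ∃ (κ : Type u) (_ : Fintype κ) (R : κ → F[X]) (Φ : V ≃ₗ[F] ∀ k, AdjoinRoot (R k)),
      SSDecomp T R Φ ∧ ∀ k, R k = X ^ 2 - C μ := by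
  have hirr : Irreducible (X ^ 2 - C μ : F[X]) := by
    apply X_pow_sub_C_irreducible_of_prime Nat.prime_two
    intro b hb
    exact hμ ⟨b, by rw [← hb]; ring⟩
  have h0 : aeval T (X ^ 2 - C μ : F[X]) = 0 := by
    simp only [map_sub, map_pow, aeval_X, aeval_C, hT, sub_eq_zero]
    rfl
  obtain ⟨κ, hκ, R, Φ, hD, hR⟩ := exists_ssDecomp T _ hirr.squarefree h0
  refine ⟨κ, hκ, R, Φ, hD, fun k => ?_⟩
  exact eq_of_monic_of_associated (hD.monic k) (monic_X_pow_sub_C _ two_ne_zero) ((hD.irr k).associated_of_dvd hirr (hR k))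

theorem card_mu {μ : F} {κ : Type*} [Fintype κ] {T : V →ₗ[F] V} {R : κ → F[X]} {Φ : V ≃ₗ[F] ∀ k, AdjoinRoot (R k)}
    (h : SSDecomp T R Φ) (hR : ∀ k, R k = X ^ 2 - C μ) : Fintype.card κ * 2 = finrank F V := by
  have hfd : ∀ k, FiniteDimensional F (AdjoinRoot (R k)) := fun k => (AdjoinRoot.powerBasis' (h.monic k)).finite
  rw [Φ.finrank_eq, Module.finrank_pi_fintype]
  have : ∀ k, finrank F (AdjoinRoot (R k)) = 2 := by
    intro k
    rw [finrank_adjoinRoot _ (h.monic k), hR]
    exact natDegree_X_pow_sub_C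
  simp [this]

theorem conj_of_sq_mu {μ : F} (hμ : ¬ IsSquare μ) (T T' : V →ₗ[F] V) (hT : T ^ 2 = μ • 1) (hT' : T' ^ 2 = μ • 1) :
    ∃ P : V ≃ₗ[F] V, ∀ x, P (T x) = T' (P x) := by
  obtain ⟨κ, hκ, R, Φ, hD, hR⟩ := exists_decomp_mu hμ T hT
  obtain ⟨κ', hκ', R', Φ', hD', hR'⟩ := exists_decomp_mu hμ T' hT'
  have h1 := card_mu hD hR
  have h2 := card_mu hD' hR'
  have h3 : Fintype.card κ = Fintype.card κ' := by omega
  refine conj_of_card hD hD' fun Q => ?_
  by_cases h4 : Q = X ^ 2 - C μ
  · subst h4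
    have h5 : ∀ {κ'' : Type u} [Fintype κ''] (R'' : κ'' → F[X]), (∀ k, R'' k = X ^ 2 - C μ) →
        Nat.card {k // R'' k = X ^ 2 - C μ} = Fintype.card κ'' := by
      intro κ'' _ R'' hR''
      rw [← Nat.card_eq_fintype_card]
      exact Nat.card_congr (Equiv.subtypeUnivEquiv hR'')
    rw [h5 R hR, h5 R' hR', h3]
  · have h5 : ∀ {κ'' : Type u} [Fintype κ''] (R'' : κ'' → F[X]), (∀ k, R'' k = X ^ 2 - C μ) → Nat.card {k // R'' k = Q} = 0 := by
      intro κ'' _ R'' hR''
      rw [Nat.card_eq_zero]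
      left
      constructor
      rintro ⟨k, hk⟩
      exact h4 (hk ▸ hR'' k)
    rw [h5 R hR, h5 R' hR']

end LinAlg

section Exists
variable {F : Type u} [Field F] {n : ℕ}

theorem exists_sq_one (h2 : (2 : F) ≠ 0) (a b : ℕ) (hab : a + b = n) :
    ∃ g : GL (Fin n) F, g ^ 2 = 1 ∧ finrank F (LinearMap.ker (Tg g - 1)) = a ∧ finrank F (LinearMap.ker (Tg g + 1)) = b := by
  classical
  let R : Fin a ⊕ Fin b → F[X] := Sum.elim (fun _ => X - 1) (fun _ => X + 1)
  have hirr : ∀ k, Irreducible (R k) := by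
    rintro (k | k)
    · exact irr_sub
    · exact irr_add
  have hmon : ∀ k, (R k).Monic := by
    rintro (k | k)
    · exact mon_sub
    · exact mon_add
  have hsum : ∑ k, (R k).natDegree = finrank F (Fin n → F) := by
    rw [Fintype.sum_sum_type]
    simp [R, deg_sub, deg_add, hab]
  obtain ⟨T, Φ, hD⟩ := exists_ss R hirr hmon hsum
  have hT : T ^ 2 = 1 := by
    have h0 : ∀ Q : F[X], (∀ k, R k ∣ Q) → aeval T Q = 0 := by
      intro Q hQ
      apply LinearMap.ext
      intro x
      apply Φ.injective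
      ext k
      rw [hD.comm_aeval, LinearMap.zero_apply, map_zero, AdjoinRoot.mk_eq_zero.mpr (hQ k), zero_mul]
      rfl
    have h3 := h0 ((X - 1) * (X + 1)) (by
      rintro (k | k)
      · exact dvd_mul_right _ _
      · exact dvd_mul_left _ _)
    have h4 : (X - 1 : F[X]) * (X + 1) = X ^ 2 - 1 := by ring
    rw [h4] at h3
    simpa [sub_eq_zero] using h3
  obtain ⟨g, rfl⟩ := exists_of_pow T 2 two_ne_zero hT
  refine ⟨g, ?_, ?_, ?_⟩
  · rw [← Tg_eq_one_iff, ← Tg_pow, hT]
  · rw [← card_fiber_sub hD]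
    have e : {k // R k = X - 1} ≃ Fin a :=
      { toFun := fun k => match k with
          | ⟨Sum.inl j, _⟩ => j
          | ⟨Sum.inr _, h⟩ => absurd h.symm (x_sub_ne h2)
        invFun := fun j => ⟨Sum.inl j, rfl⟩
        left_inv := by
          rintro ⟨j | j, h⟩
          · rfl
          · exact absurd h.symm (x_sub_ne h2)
        right_inv := fun j => rfl }
    rw [Nat.card_congr e, Nat.card_eq_fintype_card, Fintype.card_fin]
  · rw [← card_fiber_add hD]
    have e : {k // R k = X + 1} ≃ Fin b :=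
      { toFun := fun k => match k with
          | ⟨Sum.inr j, _⟩ => j
          | ⟨Sum.inl _, h⟩ => absurd h (x_sub_ne h2)
        invFun := fun j => ⟨Sum.inr j, rfl⟩
        left_inv := by
          rintro ⟨j | j, h⟩
          · exact absurd h (x_sub_ne h2)
          · rfl
        right_inv := fun j => rfl }
    rw [Nat.card_congr e, Nat.card_eq_fintype_card, Fintype.card_fin]

theorem exists_sq_mu {μ : Fˣ} (hμ : ¬ IsSquare (μ : F)) (m : ℕ) (hm : m * 2 = n) :
    ∃ g : GL (Fin n) F, g ^ 2 = sc n μ := by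
  classical
  have hirr : Irreducible (X ^ 2 - C (μ : F) : F[X]) := by
    apply X_pow_sub_C_irreducible_of_prime Nat.prime_two
    intro b hb
    exact hμ ⟨b, by rw [← hb]; ring⟩
  let R : Fin m → F[X] := fun _ => X ^ 2 - C (μ : F)
  have hsum : ∑ k, (R k).natDegree = finrank F (Fin n → F) := by
    have : ∀ k, (R k).natDegree = 2 := fun k => natDegree_X_pow_sub_C
    simp [this, ← hm, mul_comm]
  obtain ⟨T, Φ, hD⟩ := exists_ss R (fun _ => hirr) (fun _ => monic_X_pow_sub_C _ two_ne_zero) hsum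
  have hT : T ^ 2 = (μ : F) • 1 := by
    have h0 : aeval T (X ^ 2 - C (μ : F) : F[X]) = 0 := by
      apply LinearMap.ext
      intro x
      apply Φ.injective
      ext k
      rw [hD.comm_aeval, LinearMap.zero_apply, map_zero]
      have : AdjoinRoot.mk (R k) (X ^ 2 - C (μ : F)) = 0 := AdjoinRoot.mk_eq_zero.mpr dvd_rfl
      rw [this, zero_mul]
      rfl
    simp only [map_sub, map_pow, aeval_X, aeval_C, sub_eq_zero] at h0
    exact h0
  obtain ⟨g, rfl⟩ := exists_of_inv T (((μ : F)⁻¹) • T)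
    (by
      rw [mul_smul_comm, ← pow_two, hT, smul_smul, inv_mul_cancel₀ μ.ne_zero, one_smul])
    (by
      rw [smul_mul_assoc, ← pow_two, hT, smul_smul, inv_mul_cancel₀ μ.ne_zero, one_smul])
  refine ⟨g, Tg_injective ?_⟩
  rw [← Tg_pow, hT, Tg_sc]

end Exists


section Main
variable {F : Type u} [Field F] {n : ℕ}

theorem dims_pos (h2 : (2 : F) ≠ 0) (g : GL (Fin n) F) (hg : g ^ 2 = 1) (hc : g ∉ Subgroup.center (GL (Fin n) F)) :
    0 < finrank F (LinearMap.ker (Tg g - 1)) ∧ 0 < finrank F (LinearMap.ker (Tg g + 1)) := by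
  have hT : Tg g ^ 2 = 1 := by rw [Tg_pow, hg, Tg_one]
  have hsum := finrank_ker_sum h2 (Tg g) hT
  rw [Module.finrank_fintype_fun_eq_card, Fintype.card_fin] at hsum
  constructor
  · by_contra h0
    have h3 : finrank F (LinearMap.ker (Tg g + 1)) = finrank F (Fin n → F) := by
      rw [Module.finrank_fintype_fun_eq_card, Fintype.card_fin]
      omega
    have h4 := Submodule.eq_top_of_finrank_eq h3
    apply hc
    rw [mem_center_iff_sc]
    refine ⟨-1, Tg_injective ?_⟩
    rw [Tg_sc]
    apply LinearMap.ext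
    intro x
    have h5 : x ∈ LinearMap.ker (Tg g + 1) := by
      rw [h4]
      exact Submodule.mem_top
    have h6 : Tg g x + x = 0 := h5
    have h7 := eq_neg_of_add_eq_zero_left h6
    simp [h7]
  · by_contra h0
    have h3 : finrank F (LinearMap.ker (Tg g - 1)) = finrank F (Fin n → F) := by
      rw [Module.finrank_fintype_fun_eq_card, Fintype.card_fin]
      omega
    have h4 := Submodule.eq_top_of_finrank_eq h3
    apply hc
    rw [mem_center_iff_sc]
    refine ⟨1, Tg_injective ?_⟩
    rw [Tg_sc]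
    apply LinearMap.ext
    intro x
    have h5 : x ∈ LinearMap.ker (Tg g - 1) := by
      rw [h4]
      exact Submodule.mem_top
    have h6 : Tg g x - x = 0 := h5
    have h7 := sub_eq_zero.mp h6
    simp [h7]

theorem not_center_of_dims (h2 : (2 : F) ≠ 0) (g : GL (Fin n) F)
    (ha : 0 < finrank F (LinearMap.ker (Tg g - 1))) (hb : 0 < finrank F (LinearMap.ker (Tg g + 1))) :
    g ∉ Subgroup.center (GL (Fin n) F) := by
  intro hc
  obtain ⟨c, rfl⟩ := (mem_center_iff_sc _).mp hc
  rw [Tg_sc] at ha hb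
  have key : ∀ d : F, d ≠ 0 → finrank F (LinearMap.ker (d • (1 : (Fin n → F) →ₗ[F] (Fin n → F)))) = 0 := by
    intro d hd
    have : LinearMap.ker (d • (1 : (Fin n → F) →ₗ[F] (Fin n → F))) = ⊥ := by
      rw [LinearMap.ker_eq_bot']
      intro x hx
      have h3 : d • x = 0 := hx
      exact (smul_eq_zero.mp h3).resolve_left hd
    rw [this, finrank_bot]
  have h3 : (c : F) • (1 : (Fin n → F) →ₗ[F] (Fin n → F)) - 1 = ((c : F) - 1) • 1 := by
    apply LinearMap.ext
    intro x
    simp [sub_smul]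
  have h4 : (c : F) • (1 : (Fin n → F) →ₗ[F] (Fin n → F)) + 1 = ((c : F) + 1) • 1 := by
    apply LinearMap.ext
    intro x
    simp [add_smul]
  rw [h3] at ha
  rw [h4] at hb
  have h5 : (c : F) - 1 = 0 := by
    by_contra h
    rw [key _ h] at ha
    exact lt_irrefl _ ha
  have h6 : (c : F) + 1 = 0 := by
    by_contra h
    rw [key _ h] at hb
    exact lt_irrefl _ hb
  apply h2
  linear_combination h6 - h5

theorem mk_conj {a b c : GL (Fin n) F} (h : IsConj a b) (d : Fˣ) (hb : b = sc n d * c) :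
    IsConj (a : GL (Fin n) F ⧸ Subgroup.center (GL (Fin n) F)) (c : GL (Fin n) F ⧸ Subgroup.center (GL (Fin n) F)) := by
  have h1 := MonoidHom.map_isConj (QuotientGroup.mk' (Subgroup.center (GL (Fin n) F))) h
  have h2 : ((b : GL (Fin n) F) : GL (Fin n) F ⧸ Subgroup.center (GL (Fin n) F)) = (c : GL (Fin n) F ⧸ Subgroup.center (GL (Fin n) F)) := by
    rw [QuotientGroup.eq, hb, sc_comm, mul_inv_rev, inv_mul_cancel_right]
    exact Subgroup.inv_mem _ ((mem_center_iff_sc _).mpr ⟨d, rfl⟩)
  rw [← h2]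
  exact h1

theorem no_conj {μ : Fˣ} (hn0 : 0 < n) (hμ : ¬ IsSquare (μ : F)) {a b : GL (Fin n) F} (ha : a ^ 2 = 1) (hb : b ^ 2 = sc n μ)
    (c : Fˣ) (h : IsConj a (sc n c * b)) : False := by
  have h1 := h.pow 2
  rw [ha, sc_mul_pow, hb, ← map_mul] at h1
  have h3 : sc n (c ^ 2 * μ) = 1 := isConj_one_right.mp h1
  have h4 : c ^ 2 * μ = 1 := sc_injective hn0 (h3.trans (map_one _).symm)
  apply hμ
  refine ⟨((c⁻¹ : Fˣ) : F), ?_⟩
  have h5 : μ = c⁻¹ * c⁻¹ := by
    have h6 : c⁻¹ * c⁻¹ = c⁻¹ * c⁻¹ * (c ^ 2 * μ) := by rw [h4, mul_one]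
    rw [h6]
    group
  rw [h5, Units.val_mul]

end Main

/-- Number of conjugacy classes of involutions in PGL_n(q) for q odd and n ≥ 2: there are ⌊n/2⌋ classes represented by diagonal matrices with i entries −1 (1 ≤ i ≤ n/2) and, when n is even, one more class represented by a block-diagonal matrix of 2 × 2 blocks [[0, 1], [μ, 0]] with μ a non-square (a matrix squaring to a scalar but having no eigenvalue in the field); in all ⌊n/2⌋ + 1 classes if n is even and ⌊n/2⌋ if n is odd. -/
theorem result {F : Type*} [Field F] [Fintype F] {q : ℕ} (hF : Fintype.card F = q) (hq : Odd q) {n : ℕ} (hn : 2 ≤ n) : Nat.card {C : ConjClasses (GL (Fin n) F ⧸ Subgroup.center (GL (Fin n) F)) // ∃ g : GL (Fin n) F ⧸ Subgroup.center (GL (Fin n) F), ConjClasses.mk g = C ∧ orderOf g = 2} = n / 2 + (if Even n then 1 else 0) := by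
  classical
  have hchar : ringChar F ≠ 2 := by
    intro h
    have h3 := FiniteField.even_card_of_char_two h
    rw [hF] at h3
    rcases hq with ⟨k, rfl⟩
    omega
  have h2 : (2 : F) ≠ 0 := Ring.two_ne_zero hchar
  obtain ⟨μ0, hμ0⟩ := FiniteField.exists_nonsquare hchar
  have hμne : μ0 ≠ 0 := fun h => hμ0 (h ▸ IsSquare.zero)
  let μ : Fˣ := Units.mk0 μ0 hμne
  have hμ : ¬ IsSquare (μ : F) := hμ0
  have hn0 : 0 < n := by omega
  have hS1 : ∀ i : Fin (n / 2), ∃ g : GL (Fin n) F, g ^ 2 = 1 ∧ finrank F (LinearMap.ker (Tg g - 1)) = n - (i + 1) ∧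
      finrank F (LinearMap.ker (Tg g + 1)) = i + 1 := fun i => exists_sq_one h2 _ _ (by have := i.2; omega)
  choose g1 hg1 ha1 hb1 using hS1
  have hS2 : ∀ e : PLift (Even n), ∃ g : GL (Fin n) F, g ^ 2 = sc n μ := by
    rintro ⟨m, hm⟩
    exact exists_sq_mu hμ m (by omega)
  choose g2 hg2 using hS2
  let rep : Fin (n / 2) ⊕ PLift (Even n) → GL (Fin n) F := Sum.elim g1 g2
  have hord : ∀ a, orderOf (rep a : GL (Fin n) F ⧸ Subgroup.center (GL (Fin n) F)) = 2 := by
    have hpr : Fact (Nat.Prime 2) := ⟨Nat.prime_two⟩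
    rintro (i | e)
    · apply orderOf_eq_prime
      · show ((g1 i : GL (Fin n) F) : GL (Fin n) F ⧸ Subgroup.center (GL (Fin n) F)) ^ 2 = 1
        rw [← QuotientGroup.mk_pow, hg1]
        rfl
      · show ((g1 i : GL (Fin n) F) : GL (Fin n) F ⧸ Subgroup.center (GL (Fin n) F)) ≠ 1
        rw [Ne, QuotientGroup.eq_one_iff]
        apply not_center_of_dims h2
        · rw [ha1]
          have := i.2
          omega
        · rw [hb1]
          omega
    · apply orderOf_eq_prime
      · show ((g2 e : GL (Fin n) F) : GL (Fin n) F ⧸ Subgroup.center (GL (Fin n) F)) ^ 2 = 1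
        rw [← QuotientGroup.mk_pow, hg2, QuotientGroup.eq_one_iff]
        exact (mem_center_iff_sc _).mpr ⟨μ, rfl⟩
      · show ((g2 e : GL (Fin n) F) : GL (Fin n) F ⧸ Subgroup.center (GL (Fin n) F)) ≠ 1
        rw [Ne, QuotientGroup.eq_one_iff]
        intro hc
        obtain ⟨c, hc⟩ := (mem_center_iff_sc _).mp hc
        have h3 := hg2 e
        rw [← hc, ← map_pow] at h3
        have h4 := sc_injective hn0 h3
        apply hμ
        refine ⟨(c : F), ?_⟩
        rw [← h4, Units.val_pow_eq_pow_val, pow_two]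
  let f : Fin (n / 2) ⊕ PLift (Even n) → {C : ConjClasses (GL (Fin n) F ⧸ Subgroup.center (GL (Fin n) F)) // ∃ g : GL (Fin n) F ⧸ Subgroup.center (GL (Fin n) F), ConjClasses.mk g = C ∧ orderOf g = 2} :=
    fun a => ⟨ConjClasses.mk (rep a : GL (Fin n) F ⧸ Subgroup.center (GL (Fin n) F)), _, rfl, hord a⟩
  have hf : Function.Bijective f := by
    constructor
    · have key : ∀ a b, f a = f b → IsConj (rep a : GL (Fin n) F ⧸ Subgroup.center (GL (Fin n) F)) (rep b : GL (Fin n) F ⧸ Subgroup.center (GL (Fin n) F)) :=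
        fun a b h => ConjClasses.mk_eq_mk_iff_isConj.mp (congrArg Subtype.val h)
      rintro (i | e) (j | e') h
      · obtain ⟨c, hc⟩ := conj_quot (key _ _ h)
        change IsConj (g1 i) (sc n c * g1 j) at hc
        have hsq := hc.pow 2
        rw [sc_mul_pow, hg1, hg1, mul_one] at hsq
        have h3 : sc n (c ^ 2) = 1 := isConj_one_right.mp hsq
        have hc2 : c ^ 2 = 1 := sc_injective hn0 (h3.trans (map_one _).symm)
        have hc3 : (c : F) * (c : F) = 1 := by
          have := congrArg Units.val hc2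
          rwa [Units.val_pow_eq_pow_val, pow_two, Units.val_one] at this
        obtain ⟨P, hP⟩ := (isConj_iff_T _ _).mp hc
        have hb := finrank_ker_add_of_conj _ _ P hP
        rw [Tg_sc_mul, hb1 i] at hb
        rcases mul_self_eq_one_iff.mp hc3 with h4 | h4
        · rw [h4, one_smul, hb1 j] at hb
          congr 1
          exact Fin.ext (by omega)
        · have h5 : (-1 : F) • Tg (g1 j) + 1 = -(Tg (g1 j) - 1) := by
            apply LinearMap.ext
            intro x
            simp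
            abel
          rw [h4, h5, LinearMap.ker_neg, ha1 j] at hb
          congr 1
          have hi := i.2
          have hj := j.2
          exact Fin.ext (by omega)
      · obtain ⟨c, hc⟩ := conj_quot (key _ _ h)
        exact (no_conj hn0 hμ (hg1 i) (hg2 e') c hc).elim
      · obtain ⟨c, hc⟩ := conj_quot (key _ _ h.symm)
        exact (no_conj hn0 hμ (hg1 j) (hg2 e) c hc).elim
      · have h3 : e = e' := Subsingleton.elim _ _
        rw [h3]
    · rintro ⟨C, x, rfl, hx⟩
      obtain ⟨g, rfl⟩ := QuotientGroup.mk_surjective x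
      have hng : g ∉ Subgroup.center (GL (Fin n) F) := by
        intro hc
        have h3 : (g : GL (Fin n) F ⧸ Subgroup.center (GL (Fin n) F)) = 1 := (QuotientGroup.eq_one_iff _).mpr hc
        rw [h3, orderOf_one] at hx
        omega
      have hgsq : g ^ 2 ∈ Subgroup.center (GL (Fin n) F) := by
        rw [← QuotientGroup.eq_one_iff, QuotientGroup.mk_pow, ← hx, pow_orderOf_eq_one]
      obtain ⟨l, hl⟩ := (mem_center_iff_sc _).mp hgsq
      -- the reduction to the two cases
      suffices h : ∃ (a : Fin (n / 2) ⊕ PLift (Even n)) (h : GL (Fin n) F) (d : Fˣ), IsConj (rep a) h ∧ h = sc n d * g by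
        obtain ⟨a, h, d, h3, h4⟩ := h
        refine ⟨a, Subtype.ext ?_⟩
        show ConjClasses.mk _ = ConjClasses.mk _
        exact ConjClasses.mk_eq_mk_iff_isConj.mpr (mk_conj h3 d h4)
      by_cases hsq : IsSquare (l : F)
      · obtain ⟨c0, hc0⟩ := hsq
        have hc0ne : c0 ≠ 0 := by
          rintro rfl
          exact l.ne_zero (by simpa using hc0)
        let c : Fˣ := Units.mk0 c0 hc0ne
        have hl2 : l = c * c := Units.ext hc0
        let h := sc n c⁻¹ * g
        have hh : h ^ 2 = 1 := by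
          show (sc n c⁻¹ * g) ^ 2 = 1
          rw [sc_mul_pow, ← hl, ← map_mul, hl2]
          have : c⁻¹ ^ 2 * (c * c) = 1 := by group
          rw [this, map_one]
        have hhnc : h ∉ Subgroup.center (GL (Fin n) F) := by
          intro hc
          obtain ⟨d, hd⟩ := (mem_center_iff_sc _).mp hc
          apply hng
          rw [mem_center_iff_sc]
          refine ⟨c * d, ?_⟩
          have h3 : sc n c⁻¹ * g = sc n d := hd.symm
          have h4 : sc n (c * d) = sc n c * sc n d := map_mul _ _ _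
          rw [h4, ← h3, ← mul_assoc, ← map_mul, mul_inv_cancel, map_one, one_mul]
        obtain ⟨ha, hb⟩ := dims_pos h2 h hh hhnc
        have hTh : Tg h ^ 2 = 1 := by rw [Tg_pow, hh, Tg_one]
        have hsum := finrank_ker_sum h2 (Tg h) hTh
        rw [Module.finrank_fintype_fun_eq_card, Fintype.card_fin] at hsum
        by_cases hle : finrank F (LinearMap.ker (Tg h + 1)) ≤ n / 2
        · let i : Fin (n / 2) := ⟨finrank F (LinearMap.ker (Tg h + 1)) - 1, by omega⟩
          refine ⟨.inl i, h, c⁻¹, ?_, rfl⟩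
          show IsConj (g1 i) h
          rw [isConj_iff_T]
          apply conj_of_sq_one h2 _ _ (by rw [Tg_pow, hg1, Tg_one]) hTh
          rw [hb1]
          show finrank F (LinearMap.ker (Tg h + 1)) - 1 + 1 = _
          omega
        · let i : Fin (n / 2) := ⟨finrank F (LinearMap.ker (Tg h - 1)) - 1, by omega⟩
          refine ⟨.inl i, sc n (-1) * h, -c⁻¹, ?_, ?_⟩
          · show IsConj (g1 i) _
            rw [isConj_iff_T]
            have hh' : (sc n (-1 : Fˣ) * h) ^ 2 = 1 := by
              rw [sc_mul_pow, hh, mul_one]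
              simp
            apply conj_of_sq_one h2 _ _ (by rw [Tg_pow, hg1, Tg_one]) (by rw [Tg_pow, hh', Tg_one])
            rw [hb1, Tg_sc_mul]
            have h5 : ((-1 : Fˣ) : F) • Tg h + 1 = -(Tg h - 1) := by
              apply LinearMap.ext
              intro x
              simp
              abel
            rw [h5, LinearMap.ker_neg]
            show finrank F (LinearMap.ker (Tg h - 1)) - 1 + 1 = _
            omega
          · show sc n (-1) * (sc n c⁻¹ * g) = sc n (-c⁻¹) * g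
            rw [← mul_assoc, ← map_mul]
            simp
      · -- the non-square case
        have hχ : quadraticChar F (l * μ⁻¹ : Fˣ).val = 1 := by
          rw [Units.val_mul, map_mul, quadraticChar_neg_one_iff_not_isSquare.mpr hsq]
          have h3 : quadraticChar F ((μ⁻¹ : Fˣ) : F) = -1 := by
            rw [quadraticChar_neg_one_iff_not_isSquare]
            intro hs
            apply hμ
            have : (μ : F) = (((μ⁻¹ : Fˣ) : F))⁻¹ := by simp
            rw [this]
            exact hs.inv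
          rw [h3]
          norm_num
        obtain ⟨c0, hc0⟩ := (quadraticChar_one_iff_isSquare (Units.ne_zero _)).mp hχ
        have hc0ne : c0 ≠ 0 := by
          rintro rfl
          exact (l * μ⁻¹ : Fˣ).ne_zero (by simpa using hc0)
        let c : Fˣ := Units.mk0 c0 hc0ne
        have hl2 : l * μ⁻¹ = c * c := Units.ext hc0
        let h := sc n c⁻¹ * g
        have hh : h ^ 2 = sc n μ := by
          show (sc n c⁻¹ * g) ^ 2 = sc n μ
          rw [sc_mul_pow, ← hl, ← map_mul]
          congr 1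
          have h3 : l = c * c * μ := by rw [← hl2]; group
          rw [h3]
          group
        have hTh : Tg h ^ 2 = (μ : F) • 1 := by rw [Tg_pow, hh, Tg_sc]
        have hev : Even n := by
          obtain ⟨κ, hκ, R, Φ, hD, hR⟩ := exists_decomp_mu hμ (Tg h) hTh
          have := card_mu hD hR
          rw [Module.finrank_fintype_fun_eq_card, Fintype.card_fin] at this
          exact ⟨Fintype.card κ, by omega⟩
        refine ⟨.inr ⟨hev⟩, h, c⁻¹, ?_, rfl⟩
        show IsConj (g2 ⟨hev⟩) h
        rw [isConj_iff_T]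
        exact conj_of_sq_mu hμ _ _ (by rw [Tg_pow, hg2, Tg_sc]) hTh
  rw [← Nat.card_congr (Equiv.ofBijective f hf)]
  haveI : Finite (PLift (Even n)) := Finite.of_subsingleton
  rw [Nat.card_sum, Nat.card_eq_fintype_card, Fintype.card_fin]
  congr 1
  split_ifs with he
  · haveI : Unique (PLift (Even n)) := ⟨⟨⟨he⟩⟩, fun _ => rfl⟩
    exact Nat.card_unique
  · haveI : IsEmpty (PLift (Even n)) := ⟨fun e => he e.down⟩
    exact Nat.card_of_isEmpty

end Cfsg.Agent.S2577
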