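import Cfsg.Statements.S2580
import Cfsg.Agent.Lib.MatConj.Decomp

set_option autoImplicit false
open Cfsg

namespace Cfsg.Agent.S2580

open Polynomial Matrix

variable {F : Type*} [Field F]

/-- A linear functional on `F[X]/(f)` whose associated symmetric form is non-degenerate. -/
noncomputable def lam (f : F[X]) (hf : f.Monic) : AdjoinRoot f →ₗ[F] F :=
  (lcoeff F (f.natDegree - 1)) ∘ₗ (AdjoinRoot.modByMonicHom hf)

theorem lam_nondeg (f : F[X]) (hf : f.Monic) (a : AdjoinRoot f) (ha : a ≠ 0) :
    ∃ b : AdjoinRoot f, lam f hf (b * a) ≠ 0 := by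
  set r := AdjoinRoot.modByMonicHom hf a with hr
  have har : AdjoinRoot.mk f r = a := AdjoinRoot.mk_leftInverse hf a
  have hr0 : r ≠ 0 := by
    intro h
    rw [h, map_zero] at har
    exact ha har.symm
  have hrdeg : r.degree < f.degree := by
    obtain ⟨g, rfl⟩ := AdjoinRoot.mk_surjective a
    rw [hr, AdjoinRoot.modByMonicHom_mk]
    exact degree_modByMonic_lt _ hf
  have hrnat : r.natDegree < f.natDegree := natDegree_lt_natDegree hr0 hrdeg
  set k := r.natDegree with hk
  set d := f.natDegree with hd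
  have hm : d - 1 - k + k = d - 1 := by omega
  refine ⟨AdjoinRoot.mk f (X ^ (d - 1 - k)), ?_⟩
  rw [← har, ← map_mul]
  simp only [lam, LinearMap.comp_apply, AdjoinRoot.modByMonicHom_mk, lcoeff_apply]
  have hdeg2 : (X ^ (d - 1 - k) * r).degree < f.degree := by
    rw [degree_mul, degree_X_pow, degree_eq_natDegree hr0, degree_eq_natDegree hf.ne_zero, ← hk, ← hd]
    norm_cast
    omega
  rw [(modByMonic_eq_self_iff hf).mpr hdeg2]
  have h1 := coeff_X_pow_mul r (d - 1 - k) k
  rw [add_comm k, hm] at h1
  rw [← hd, h1]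
  exact leadingCoeff_ne_zero.mpr hr0

theorem mat_ext {κ : Type*} [Fintype κ] [DecidableEq κ] {M N : Matrix κ κ F} (h : ∀ x y, x ⬝ᵥ M *ᵥ y = x ⬝ᵥ N *ᵥ y) : M = N := by
  classical
  ext i j
  have := h (Pi.single i 1) (Pi.single j 1)
  simpa using this

/-- Every square matrix over a field is similar to its transpose. -/
theorem isConj_transpose {κ : Type*} [Fintype κ] [DecidableEq κ] (A : Matrix κ κ F) : IsConj A A.transpose := by
  classical
  obtain ⟨ι, hι, p, -, hp, e, Φ, hΦ⟩ := Cfsg.Agent.Lib.MatConj.Decomp.exists_decomp (Matrix.toLin' A)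
  have hmon : ∀ i, (p i ^ e i).Monic := fun i => (hp i).pow (e i)
  -- the bilinear form
  let B : (κ → F) →ₗ[F] (κ → F) →ₗ[F] F :=
    LinearMap.mk₂ F (fun x y => ∑ i, lam (p i ^ e i) (hmon i) (Φ x i * Φ y i))
      (by intro x x' y; simp [add_mul, Finset.sum_add_distrib])
      (by intro c x y; simp [Finset.mul_sum])
      (by intro x y y'; simp [mul_add, Finset.sum_add_distrib])
      (by intro c x y; simp [Finset.mul_sum])
  have hB : ∀ x y, B x y = ∑ i, lam (p i ^ e i) (hmon i) (Φ x i * Φ y i) := fun _ _ => rfl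
  set S := LinearMap.toMatrix₂' F B with hS
  have hSB : ∀ x y, x ⬝ᵥ S *ᵥ y = B x y := by
    intro x y
    rw [hS, ← Matrix.toLinearMap₂'_apply', Matrix.toLinearMap₂'_toMatrix']
  -- `T` is self-adjoint for `B`.
  have hself : ∀ x y, B (A *ᵥ x) y = B x (A *ᵥ y) := by
    intro x y
    rw [hB, hB]
    refine Finset.sum_congr rfl fun i _ => ?_
    have h1 := hΦ x i
    have h2 := hΦ y i
    rw [Matrix.toLin'_apply] at h1 h2
    rw [h1, h2, mul_comm (AdjoinRoot.root _) (Φ x i), mul_assoc]
  have hcomm : S * A = A.transpose * S := by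
    apply mat_ext
    intro x y
    rw [← Matrix.mulVec_mulVec, ← Matrix.mulVec_mulVec,
      hSB, Matrix.dotProduct_mulVec x Aᵀ, Matrix.vecMul_transpose, hSB, hself]
  have hinj : Function.Injective (S *ᵥ ·) := by
    intro y y' hyy'
    have hy : S *ᵥ (y - y') = 0 := by
      rw [Matrix.mulVec_sub]
      exact sub_eq_zero.mpr hyy'
    have hB0 : ∀ x, B x (y - y') = 0 := by
      intro x
      rw [← hSB, hy, dotProduct_zero]
    rw [← sub_eq_zero]
    apply Φ.injective
    rw [map_zero]
    funext i
    by_contra hne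
    obtain ⟨b, hb⟩ := lam_nondeg (p i ^ e i) (hmon i) (Φ (y - y') i) hne
    apply hb
    have := hB0 (Φ.symm (Function.update 0 i b))
    rw [hB] at this
    rw [Finset.sum_eq_single i] at this
    · simpa using this
    · intro j _ hji
      simp [Function.update_of_ne hji]
    · simp
  have hunit : IsUnit S := Matrix.mulVec_injective_iff_isUnit.mp hinj
  obtain ⟨c, hc⟩ := hunit
  refine ⟨c, ?_⟩
  change (c : Matrix κ κ F) * A = A.transpose * c
  rw [hc]
  exact hcomm

/-- Over a finite field, a square matrix is similar to its transpose: for every n × n matrix A there is an invertible matrix P with P A P⁻¹ = Aᵀ (stated as conjugacy in the monoid of matrices, whose units are the invertible matrices). -/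
theorem result {F : Type*} [Field F] [Finite F] {n : ℕ} (A : Matrix (Fin n) (Fin n) F) : IsConj A A.transpose :=
  isConj_transpose A

end Cfsg.Agent.S2580
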