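import Cfsg.Statements.S2582
import Cfsg.Agent.Lib.Jordan.FormsFin
import Cfsg.Agent.Lib.Witt.SympModel

set_option autoImplicit false
open Cfsg
open Matrix
open Cfsg.Agent.Lib.Jordan.Cent Cfsg.Agent.Lib.Jordan.FormsNec Cfsg.Agent.Lib.Jordan.FormsEx Cfsg.Agent.Lib.Jordan.FormsFin
open Cfsg.Agent.Lib.Classical.SympForm

namespace Cfsg.Agent.S2582

/-- Which unipotent Jordan types occur in the finite symplectic group: over a finite field, a unipotent matrix with Jordan block sizes d_1, …, d_t (sum 2m, all at least 1) is similar to an element of Sp_2m(F) if and only if every odd block size occurs an even number of times. -/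
theorem result {F : Type*} [Field F] [Fintype F] {m t : ℕ} (d : Fin t → ℕ) (hd : ∀ k, 1 ≤ d k) (hsum : ∑ k, d k = 2 * m) : (∃ e : ((k : Fin t) × Fin (d k)) ≃ (Fin m ⊕ Fin m), ∃ A : Matrix.symplecticGroup (Fin m) F, IsConj (Matrix.reindex e e (Cfsg.jordanTypeMatrix d F)) (A : Matrix (Fin m ⊕ Fin m) (Fin m ⊕ Fin m) F)) ↔ ∀ j : ℕ, Odd j → Even (Finset.univ.filter (fun k : Fin t => d k = j)).card := by
  classical
  constructor
  · rintro ⟨e, A, hc⟩ j hj
    have hmem : (A : Matrix (Fin m ⊕ Fin m) (Fin m ⊕ Fin m) F)ᵀ * Matrix.J (Fin m) F *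
        (A : Matrix (Fin m ⊕ Fin m) (Fin m ⊕ Fin m) F) = Matrix.J (Fin m) F := SymplecticGroup.mem_iff'.mp A.2
    have hJu : IsUnit (Matrix.J (Fin m) F) :=
      (Matrix.isUnit_iff_isUnit_det _).mpr (Matrix.isUnit_det_J (Fin m) F)
    obtain ⟨G, hG, hu, hε, hd0⟩ := forms_of_conj e hmem hJu hc
    refine even_of_alt_form hG hu ?_ (hd0 ?_) j hj
    · intro x y
      have h1 : ∀ a b, Matrix.J (Fin m) F b a = (-1) * Matrix.J (Fin m) F a b := by
        intro a b
        have h2 := congrFun (congrFun (Matrix.J_transpose (Fin m) F) b) a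
        rw [Matrix.transpose_apply, Matrix.neg_apply] at h2
        rw [h2, neg_one_mul, neg_neg]
      have := hε (-1) h1 x y
      rwa [neg_one_mul] at this
    · intro v
      exact sympBilin_isAlt (m := m) (F := F) v
  · intro hpar
    obtain ⟨G, hG, hu, hs, hz⟩ := exists_alt_form (F := F) hpar
    have hcard : Fintype.card ((k : Fin t) × Fin (d k)) = Fintype.card (Fin m ⊕ Fin m) := by
      simp [hsum, two_mul]
    let e : Ix d ≃ (Fin m ⊕ Fin m) := Fintype.equivOfCardEq hcard
    let C : LinearMap.BilinForm F (Ix d → F) := Matrix.toBilin' G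
    have hC : ∀ u v, C u v = u ⬝ᵥ G *ᵥ v := fun u v => Matrix.toBilin'_apply' G u v
    have hCalt : C.IsAlt := by
      intro v
      rw [hC, dotProduct]
      have h1 : ∑ x, v x * (G *ᵥ v) x = ∑ x, ∑ y, v x * G x y * v y := by
        apply Finset.sum_congr rfl
        intro x _
        rw [Matrix.mulVec, dotProduct, Finset.mul_sum]
        apply Finset.sum_congr rfl
        intro y _
        ring
      rw [h1, ← Finset.sum_product']
      apply Finset.sum_involution (fun p _ => (p.2, p.1))
      · rintro ⟨x, y⟩ _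
        simp only
        rw [hs x y]
        ring
      · rintro ⟨x, y⟩ _ hne heq
        simp only [Prod.mk.injEq] at heq
        obtain ⟨rfl, -⟩ := heq
        simp [hz] at hne
      · intro p _
        exact Finset.mem_product.mpr ⟨Finset.mem_univ _, Finset.mem_univ _⟩
      · rintro ⟨x, y⟩ _
        rfl
    have hCnd : C.Nondegenerate := by
      constructor
      · intro x hx
        have h1 : x ᵥ* G = 0 := by
          funext y
          have h2 := hx (Pi.single y 1)
          rw [hC, Matrix.dotProduct_mulVec] at h2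
          simpa using h2
        have h3 := (Matrix.vecMul_injective_iff_isUnit).mpr hu
        apply h3
        show x ᵥ* G = 0 ᵥ* G
        rw [h1, Matrix.zero_vecMul]
      · intro y hy
        have h1 : G *ᵥ y = 0 := by
          funext x
          have h2 := hy (Pi.single x 1)
          rw [hC] at h2
          simpa using h2
        have h3 := (Matrix.mulVec_injective_iff_isUnit).mpr hu
        exact h3 (by rw [h1, Matrix.mulVec_zero])
    have hfr : Module.finrank F (Ix d → F) = 2 * m := by
      rw [Module.finrank_fintype_fun_eq_card, Fintype.card_sigma]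
      simp [hsum]
    obtain ⟨ψ, hψ⟩ := Cfsg.Agent.Lib.Witt.SympModel.exists_model C hCalt hCnd m hfr
    let R : Matrix (Ix d) (Fin m ⊕ Fin m) F := LinearMap.toMatrix' ψ.toLinearMap
    let R' : Matrix (Fin m ⊕ Fin m) (Ix d) F := LinearMap.toMatrix' ψ.symm.toLinearMap
    have hR : ∀ x, R *ᵥ x = ψ x := fun x => LinearMap.toMatrix'_mulVec _ x
    have hR' : ∀ x, R' *ᵥ x = ψ.symm x := fun x => LinearMap.toMatrix'_mulVec _ x
    have hRR' : R * R' = 1 := by
      simp only [R, R', ← LinearMap.toMatrix'_comp]
      simp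
    have hR'R : R' * R = 1 := by
      simp only [R, R', ← LinearMap.toMatrix'_comp]
      simp
    let J := jordanTypeMatrix d F
    let A : Matrix (Fin m ⊕ Fin m) (Fin m ⊕ Fin m) F := R' * J * R
    have hψA : ∀ x, ψ (A *ᵥ x) = J *ᵥ ψ x := by
      intro x
      have h0 : R * A = J * R := by
        calc R * (R' * J * R) = R * (R' * (J * R)) := by rw [Matrix.mul_assoc R' J R]
          _ = (R * R') * (J * R) := by rw [Matrix.mul_assoc]
          _ = J * R := by rw [hRR', Matrix.one_mul]
      rw [← hR, Matrix.mulVec_mulVec, h0, ← Matrix.mulVec_mulVec, hR]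
    have hAmem : A ∈ Matrix.symplecticGroup (Fin m) F := by
      rw [mem_symplecticGroup_iff]
      intro u v
      rw [← hψ, ← hψ, hψA, hψA, hC, hC, dot_mulVec_mulVec]
      rw [show Jᵀ * G * J = G from hG]
    refine ⟨e, ⟨A, hAmem⟩, ?_⟩
    let c : Matrix (Fin m ⊕ Fin m) (Fin m ⊕ Fin m) F := R'.submatrix id e.symm
    let c' : Matrix (Fin m ⊕ Fin m) (Fin m ⊕ Fin m) F := R.submatrix e.symm id
    have h1 : c * c' = 1 := by
      simp only [c, c']
      rw [Matrix.submatrix_mul_equiv, hR'R, Matrix.submatrix_id_id]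
    have h2 : c' * c = 1 := by
      simp only [c, c']
      rw [Matrix.submatrix_mul _ _ e.symm id e.symm Function.bijective_id |>.symm, hRR']
      exact Matrix.submatrix_one_equiv e.symm
    refine ⟨⟨c, c', h1, h2⟩, ?_⟩
    show c * Matrix.reindex e e J = A * c
    have h3 : c * Matrix.reindex e e J = (R' * J).submatrix id e.symm := by
      simp only [c, Matrix.reindex_apply]
      rw [Matrix.submatrix_mul_equiv]
    have h4 : A * c = (R' * J).submatrix id e.symm := by
      simp only [A, c]
      have h5 : R' * J * R * R'.submatrix id e.symm = R' * J * (R * R'.submatrix id e.symm) := Matrix.mul_assoc _ _ _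
      rw [h5]
      have h6 : R * R'.submatrix id e.symm = (1 : Matrix (Ix d) (Ix d) F).submatrix id e.symm := by
        ext x y
        exact congrFun (congrFun hRR' x) (e.symm y)
      rw [h6]
      ext x y
      simp [Matrix.mul_apply, Matrix.one_apply]
    rw [h3, h4]

end Cfsg.Agent.S2582
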