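import Cfsg.Statements.S2583
import Cfsg.Agent.Lib.Jordan.FormsFin

set_option autoImplicit false
open Cfsg
open Matrix
open Cfsg.Agent.Lib.Jordan.Cent Cfsg.Agent.Lib.Jordan.FormsNec Cfsg.Agent.Lib.Jordan.FormsEx Cfsg.Agent.Lib.Jordan.FormsFin

namespace Cfsg.Agent.S2583

/-- Which unipotent Jordan types occur in a finite orthogonal group in odd characteristic: over a finite field of odd order, a unipotent matrix with Jordan block sizes d_1, …, d_t (sum n, all at least 1) is similar to an isometry of some quadratic form on F^n with non-degenerate polar form if and only if every even block size occurs an even number of times. -/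
theorem result {F : Type*} [Field F] [Fintype F] (h2 : (2 : F) ≠ 0) {n t : ℕ} (d : Fin t → ℕ) (hd : ∀ k, 1 ≤ d k) (hsum : ∑ k, d k = n) : (∃ Q : QuadraticForm F (Fin n → F), (QuadraticMap.polarBilin Q).Nondegenerate ∧ ∃ e : ((k : Fin t) × Fin (d k)) ≃ Fin n, ∃ A : ↥(Cfsg.isometryGroup F ⇑Q), IsConj (Matrix.reindex e e (Cfsg.jordanTypeMatrix d F)) ((A : Matrix.GeneralLinearGroup (Fin n) F) : Matrix (Fin n) (Fin n) F)) ↔ ∀ j : ℕ, Even j → 0 < j → Even (Finset.univ.filter (fun k : Fin t => d k = j)).card := by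
  classical
  constructor
  · rintro ⟨Q, hQ, e, A, hc⟩ j hj hj0
    have hA : ((A : Matrix.GeneralLinearGroup (Fin n) F) : Matrix (Fin n) (Fin n) F)ᵀ * polarMat Q *
        ((A : Matrix.GeneralLinearGroup (Fin n) F) : Matrix (Fin n) (Fin n) F) = polarMat Q :=
      polarMat_iso Q _ (fun u => A.2 u u)
    obtain ⟨G, hG, hu, hε, -⟩ := forms_of_conj e hA (polarMat_isUnit Q hQ) hc
    refine even_of_sym_form h2 hG hu ?_ j hj hj0
    intro x y
    have := hε 1 (fun a b => by rw [one_mul]; exact polarMat_symm Q a b) x y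
    rwa [one_mul] at this
  · intro hpar
    obtain ⟨G, hG, hu, hs⟩ := exists_sym_form (F := F) h2 hd hpar
    have hsymm : Gᵀ = G := by
      ext x y
      exact hs x y
    have hcard : Fintype.card ((k : Fin t) × Fin (d k)) = Fintype.card (Fin n) := by
      simp [hsum]
    refine exists_Q_of_inv (Matrix.toQuadraticForm' G) (toQF_inv hG) (nondeg_toQF G ?_) (J_isUnit_of_inv hG hu)
      (Fintype.equivOfCardEq hcard)
    rw [hsymm, ← two_smul F G, Matrix.isUnit_iff_isUnit_det, Matrix.det_smul]
    exact (IsUnit.pow _ (IsUnit.mk0 _ h2)).mul ((Matrix.isUnit_iff_isUnit_det _).mp hu)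

end Cfsg.Agent.S2583
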