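import Cfsg.Statements.S2584
import Cfsg.Agent.Lib.Jordan.FormsFin

set_option autoImplicit false
open Cfsg
open Matrix
open Cfsg.Agent.Lib.Jordan.Cent Cfsg.Agent.Lib.Jordan.FormsNec Cfsg.Agent.Lib.Jordan.FormsEx Cfsg.Agent.Lib.Jordan.FormsFin

namespace Cfsg.Agent.S2584

/-- Which unipotent Jordan types occur in a finite orthogonal group in characteristic two: over a finite field of characteristic 2 and in even dimension 2m, a unipotent matrix with Jordan block sizes d_1, …, d_t (sum 2m, all at least 1) is similar to an isometry of some quadratic form on F^(2m) with non-degenerate polar form if and only if every odd block size occurs an even number of times (the same condition as for the symplectic group, which contains these orthogonal groups). -/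
theorem result {F : Type*} [Field F] [Fintype F] [CharP F 2] {m t : ℕ} (d : Fin t → ℕ) (hd : ∀ k, 1 ≤ d k) (hsum : ∑ k, d k = 2 * m) : (∃ Q : QuadraticForm F (Fin (2 * m) → F), (QuadraticMap.polarBilin Q).Nondegenerate ∧ ∃ e : ((k : Fin t) × Fin (d k)) ≃ Fin (2 * m), ∃ A : ↥(Cfsg.isometryGroup F ⇑Q), IsConj (Matrix.reindex e e (Cfsg.jordanTypeMatrix d F)) ((A : Matrix.GeneralLinearGroup (Fin (2 * m)) F) : Matrix (Fin (2 * m)) (Fin (2 * m)) F)) ↔ ∀ j : ℕ, Odd j → Even (Finset.univ.filter (fun k : Fin t => d k = j)).card := by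
  classical
  constructor
  · rintro ⟨Q, hQ, e, A, hc⟩ j hj
    have hA : ((A : Matrix.GeneralLinearGroup (Fin (2 * m)) F) : Matrix (Fin (2 * m)) (Fin (2 * m)) F)ᵀ * polarMat Q *
        ((A : Matrix.GeneralLinearGroup (Fin (2 * m)) F) : Matrix (Fin (2 * m)) (Fin (2 * m)) F) = polarMat Q :=
      polarMat_iso Q _ (fun u => A.2 u u)
    have halt : ∀ v, v ⬝ᵥ polarMat Q *ᵥ v = 0 := by
      intro v
      rw [polarMat_dot, QuadraticMap.polar_self, two_nsmul, CharTwo.add_self_eq_zero]
    obtain ⟨G, hG, hu, hε, hd0⟩ := forms_of_conj e hA (polarMat_isUnit Q hQ) hc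
    refine even_of_alt_form hG hu ?_ (hd0 halt) j hj
    intro x y
    have := hε (-1) (fun a b => by rw [neg_one_mul, CharTwo.neg_eq]; exact polarMat_symm Q a b) x y
    rwa [neg_one_mul] at this
  · intro hpar
    obtain ⟨G, hG, hu, hs, hz⟩ := exists_alt_form (F := F) hpar
    have hcard : Fintype.card ((k : Fin t) × Fin (d k)) = Fintype.card (Fin (2 * m)) := by
      simp [hsum]
    let e := Fintype.equivOfCardEq hcard
    refine exists_Q_of_inv (Matrix.toQuadraticForm' (Um e G)) (toQF_inv_char2 e hG hs hz) (nondeg_toQF _ ?_)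
      (J_isUnit_of_inv hG hu) e
    rw [Um_add e hs hz]
    exact hu

end Cfsg.Agent.S2584
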