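import Cfsg.Statements.S2585
import Cfsg.Agent.Lib.Classical.SympForm

set_option autoImplicit false
open Cfsg

namespace Cfsg.Agent.S2585

open Matrix Module Cfsg.Agent.Lib.Classical.SympForm

variable {F : Type*} [Field F] {m : ℕ}

/-- The hyperbolic quadratic map `∑ xᵢ yᵢ`. -/
def Q0 (v : Fin m ⊕ Fin m → F) : F := ∑ i, v (Sum.inl i) * v (Sum.inr i)

theorem Q0_polar [CharP F 2] (u v : Fin m ⊕ Fin m → F) :
    Q0 (u + v) - Q0 u - Q0 v = sympForm m F u v := by
  have h2 : (2 : F) = 0 := CharTwo.two_eq_zero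
  rw [sympForm_eq_sum]
  simp only [Q0]
  rw [← Finset.sum_sub_distrib, ← Finset.sum_sub_distrib]
  refine Finset.sum_congr rfl fun i _ => ?_
  simp only [Pi.add_apply]
  linear_combination (u (Sum.inl i) * v (Sum.inr i)) * h2

theorem Q0_smul (c : F) (v : Fin m ⊕ Fin m → F) : Q0 (c • v) = c ^ 2 * Q0 v := by
  simp only [Q0, Finset.mul_sum]
  refine Finset.sum_congr rfl fun i _ => ?_
  simp only [Pi.smul_apply, smul_eq_mul]
  ring

theorem sympForm_anti (x y : Fin m ⊕ Fin m → F) : sympForm m F x y = - sympForm m F y x := by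
  rw [sympForm_eq_sum, sympForm_eq_sum, ← Finset.sum_neg_distrib]
  refine Finset.sum_congr rfl fun i _ => ?_
  ring

theorem exists_repr (φ : (Fin m ⊕ Fin m → F) →ₗ[F] F) :
    ∃ y, ∀ x, φ x = sympForm m F x y := by
  have hnd := sympBilin_nondegenerate (m := m) (F := F)
  obtain ⟨y, hy⟩ := (LinearMap.BilinForm.toDual (sympBilin m F) hnd).surjective φ
  refine ⟨-y, fun x => ?_⟩
  have h1 : φ x = sympForm m F y x := by
    rw [← hy]; rfl
  have h2 : sympForm m F x (-y) = sympForm m F y x := by
    rw [sympForm_anti x (-y)]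
    simp only [sympForm, neg_dotProduct, neg_neg]
  rw [h1, h2]

/-- Over a finite field of characteristic two every element of the symplectic group is orthogonal for a suitable quadratic form: for each A in Sp_2m(F) there is a quadratic form Q on F^(2m) whose polar form is the alternating form defining Sp_2m(F) (so Q is non-degenerate) and which A preserves. Equivalently, for m ≥ 1, Sp_2m(F) is the union of the conjugates of its two orthogonal subgroups O⁺_2m(F) and O⁻_2m(F). -/
theorem result {F : Type*} [Field F] [Fintype F] [CharP F 2] {m : ℕ} (A : Matrix.symplecticGroup (Fin m) F) : ∃ Q : QuadraticForm F (Fin m ⊕ Fin m → F), (∀ u v : Fin m ⊕ Fin m → F, QuadraticMap.polar ⇑Q u v = Cfsg.sympForm m F u v) ∧ ∀ v : Fin m ⊕ Fin m → F, Q ((A : Matrix (Fin m ⊕ Fin m) (Fin m ⊕ Fin m) F).mulVec v) = Q v := by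
  classical
  have h2 : (2 : F) = 0 := CharTwo.two_eq_zero
  have : Fact (Nat.Prime 2) := ⟨Nat.prime_two⟩
  set AM : Matrix (Fin m ⊕ Fin m) (Fin m ⊕ Fin m) F := (A : Matrix (Fin m ⊕ Fin m) (Fin m ⊕ Fin m) F) with hAM
  set AI : Matrix (Fin m ⊕ Fin m) (Fin m ⊕ Fin m) F := ((A⁻¹ : Matrix.symplecticGroup (Fin m) F) : Matrix (Fin m ⊕ Fin m) (Fin m ⊕ Fin m) F) with hAI
  have hAAI : AM * AI = 1 := by
    exact congrArg Subtype.val (mul_inv_cancel A)
  have hinv : ∀ u v, sympForm m F (AM *ᵥ u) (AM *ᵥ v) = sympForm m F u v :=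
    (mem_symplecticGroup_iff AM).mp A.2
  have hadj : ∀ u v, sympForm m F (AM *ᵥ u) v = sympForm m F u (AI *ᵥ v) := by
    intro u v
    have := hinv u (AI *ᵥ v)
    rw [Matrix.mulVec_mulVec, hAAI, Matrix.one_mulVec] at this
    exact this
  have hadj' : ∀ u v, sympForm m F (AI *ᵥ u) v = sympForm m F u (AM *ᵥ v) := by
    intro u v
    have := hinv (AI *ᵥ u) v
    rw [Matrix.mulVec_mulVec, hAAI, Matrix.one_mulVec] at this
    exact this.symm
  -- the defect `D`.
  let D : (Fin m ⊕ Fin m → F) → F := fun x => Q0 (AM *ᵥ x) - Q0 x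
  have hDadd : ∀ x y, D (x + y) = D x + D y := by
    intro x y
    have h3 := Q0_polar (AM *ᵥ x) (AM *ᵥ y)
    have h4 := Q0_polar x y
    rw [hinv] at h3
    simp only [D, Matrix.mulVec_add]
    linear_combination h3 - h4
  have hDsmul : ∀ (c : F) x, D (c • x) = c ^ 2 * D x := by
    intro c x
    simp only [D, Matrix.mulVec_smul, Q0_smul]
    ring
  -- square roots.
  let σ : F ≃+* F := frobeniusEquiv F 2
  have hσ : ∀ a : F, (σ.symm a) ^ 2 = a := by
    intro a
    have := frobenius_apply_frobeniusEquiv_symm F 2 a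
    simpa [frobenius_def, σ] using this
  have hσ' : ∀ a : F, σ.symm (a ^ 2) = a := by
    intro a
    exact frobeniusEquiv_symm_pow F 2 a
  let ℓ : (Fin m ⊕ Fin m → F) →ₗ[F] F :=
    { toFun := fun x => σ.symm (D x)
      map_add' := by intro x y; simp only [hDadd, map_add]
      map_smul' := by
        intro c x
        simp only [hDsmul, map_mul, hσ', RingHom.id_apply, smul_eq_mul] }
  obtain ⟨c, hc⟩ := exists_repr ℓ
  have hD : ∀ x, D x = (sympForm m F x c) ^ 2 := by
    intro x
    rw [← hc]
    exact (hσ _).symm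
  -- solve for `w`.
  let G : (Fin m ⊕ Fin m → F) →ₗ[F] (Fin m ⊕ Fin m → F) := LinearMap.id - Matrix.toLin' AI
  have hcG : c ∈ LinearMap.range G := by
    by_contra hcon
    obtain ⟨φ, hφc, hφ⟩ := Submodule.exists_le_ker_of_notMem hcon
    obtain ⟨y, hy⟩ := exists_repr φ
    have hy0 : ∀ w, sympForm m F w (y - AM *ᵥ y) = 0 := by
      intro w
      have h5 : φ (G w) = 0 := hφ ⟨w, rfl⟩
      rw [hy] at h5
      have h6 : G w = w - AI *ᵥ w := by
        simp [G]
      rw [h6] at h5
      have h7 : sympForm m F (w - AI *ᵥ w) y = sympForm m F w y - sympForm m F (AI *ᵥ w) y := by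
        simp only [sympForm, sub_dotProduct]
      rw [h7, hadj'] at h5
      simp only [sympForm, Matrix.mulVec_sub, dotProduct_sub] at h5 ⊢
      exact h5
    have hyfix : AM *ᵥ y = y := by
      have hnd := sympBilin_nondegenerate (m := m) (F := F)
      have : y - AM *ᵥ y = 0 := by
        apply hnd.2
        intro w
        exact hy0 w
      exact (sub_eq_zero.mp this).symm
    have h8 : D y = 0 := by
      simp only [D, hyfix, sub_self]
    rw [hD] at h8
    have h9 : sympForm m F y c = 0 := by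
      simpa using h8
    apply hφc
    rw [hy]
    rw [sympForm_anti, h9, neg_zero]
  obtain ⟨w, hw⟩ := hcG
  have hwc : AI *ᵥ w = w - c := by
    have h13 : w - AI *ᵥ w = c := by
      rw [← hw]; simp [G]
    rw [← h13]; abel
  -- the quadratic form
  let ψ : (Fin m ⊕ Fin m → F) →ₗ[F] F :=
    { toFun := fun x => sympForm m F x w
      map_add' := by intro x y; simp only [sympForm, add_dotProduct]
      map_smul' := by intro a x; simp only [sympForm, smul_dotProduct, RingHom.id_apply, smul_eq_mul] }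
  let Qh : QuadraticForm F (Fin m ⊕ Fin m → F) :=
    ∑ i : Fin m, QuadraticMap.linMulLin (LinearMap.proj (Sum.inl i)) (LinearMap.proj (Sum.inr i))
  have hQh : ∀ v, Qh v = Q0 v := by
    intro v
    simp [Qh, Q0, QuadraticMap.linMulLin_apply]
  let Q : QuadraticForm F (Fin m ⊕ Fin m → F) := Qh + QuadraticMap.linMulLin ψ ψ
  have hQ : ∀ v, Q v = Q0 v + (sympForm m F v w) ^ 2 := by
    intro v
    simp only [Q, _root_.add_apply, QuadraticMap.linMulLin_apply, hQh]
    rw [sq]
    rfl
  refine ⟨Q, ?_, ?_⟩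
  · intro u v
    rw [QuadraticMap.polar, hQ, hQ, hQ, ← Q0_polar u v]
    have h14 : sympForm m F (u + v) w = sympForm m F u w + sympForm m F v w := by
      simp only [sympForm, add_dotProduct]
    rw [h14]
    linear_combination (sympForm m F u w * sympForm m F v w) * h2
  · intro v
    rw [hQ, hQ]
    have h15 : Q0 (AM *ᵥ v) = Q0 v + (sympForm m F v c) ^ 2 := by
      have := hD v
      simp only [D] at this
      linear_combination this
    rw [h15, hadj, hwc]
    have h16 : sympForm m F v (w - c) = sympForm m F v w - sympForm m F v c := by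
      simp only [sympForm, Matrix.mulVec_sub, dotProduct_sub]
    rw [h16]
    linear_combination ((sympForm m F v c)^2 - sympForm m F v w * sympForm m F v c) * h2

end Cfsg.Agent.S2585
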