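import Cfsg.Statements.S2586
import Cfsg.Agent.S2580

set_option autoImplicit false
open Cfsg

namespace Cfsg.Agent.S2586

open Matrix

/-- Over a finite field, every element of the symplectic group Sp_2m(F) is conjugate by an invertible matrix to its inverse. -/
theorem result {F : Type*} [Field F] [Finite F] {m : ℕ} (A : Matrix.symplecticGroup (Fin m) F) : IsConj (A : Matrix (Fin m ⊕ Fin m) (Fin m ⊕ Fin m) F) ((A⁻¹ : Matrix.symplecticGroup (Fin m) F) : Matrix (Fin m ⊕ Fin m) (Fin m ⊕ Fin m) F) := by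
  classical
  refine (Cfsg.Agent.S2580.isConj_transpose _).trans ?_
  -- `A⁻¹ = (-J) * Aᵀ * J`
  rw [SymplecticGroup.coe_inv]
  have hJ : (-J (Fin m) F) * J (Fin m) F = 1 := by
    rw [Matrix.neg_mul, J_squared, neg_neg]
  have hJ' : J (Fin m) F * (-J (Fin m) F) = 1 := by
    rw [Matrix.mul_neg, J_squared, neg_neg]
  let c : (Matrix (Fin m ⊕ Fin m) (Fin m ⊕ Fin m) F)ˣ := ⟨-J (Fin m) F, J (Fin m) F, hJ, hJ'⟩
  refine ⟨c, ?_⟩
  change (-J (Fin m) F) * _ = ((-J (Fin m) F) * _ * J (Fin m) F) * (-J (Fin m) F)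
  rw [Matrix.mul_assoc _ (J _ _) (-J _ _), hJ', Matrix.mul_one]

end Cfsg.Agent.S2586
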