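import Cfsg.Statements.S2590
import Cfsg.Agent.Lib.Wall.PolarQuad
import Cfsg.Agent.Lib.Orth.Bridge

set_option autoImplicit false
open Cfsg

namespace Cfsg.Agent.S2590

open scoped Matrix

/-- Two semisimple elements of odd order of a finite orthogonal group (isometry group of a quadratic form on F^n with non-degenerate polar form, F finite of characteristic p; the elements have odd order prime to p) are conjugate in the orthogonal group if and only if they are conjugate in GL_n(F). -/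
theorem result {F : Type*} [Field F] [Fintype F] {p : ℕ} [Fact p.Prime] [CharP F p] {n : ℕ} (Q : QuadraticForm F (Fin n → F)) (hQ : (QuadraticMap.polarBilin Q).Nondegenerate) (A B : ↥(Cfsg.isometryGroup F ⇑Q)) (hodd : Odd (orderOf A)) (hA : (orderOf A).Coprime p) : IsConj A B ↔ IsConj ((A : Matrix.GeneralLinearGroup (Fin n) F) : Matrix (Fin n) (Fin n) F) ((B : Matrix.GeneralLinearGroup (Fin n) F) : Matrix (Fin n) (Fin n) F) := by
  classical
  constructor
  · intro h
    exact MonoidHom.map_isConj ((Units.coeHom (Matrix (Fin n) (Fin n) F)).comp (Cfsg.isometryGroup F ⇑Q).subtype) h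
  · rintro ⟨c, hc⟩
    let φ := Matrix.toLinAlgEquiv' (R := F) (n := Fin n)
    have hφ : ∀ (M : Matrix (Fin n) (Fin n) F) x, φ M x = M *ᵥ x := fun M x => Matrix.toLinAlgEquiv'_apply M x
    let MA : Matrix (Fin n) (Fin n) F := ((A : Matrix.GeneralLinearGroup (Fin n) F) : Matrix (Fin n) (Fin n) F)
    let MB : Matrix (Fin n) (Fin n) F := ((B : Matrix.GeneralLinearGroup (Fin n) F) : Matrix (Fin n) (Fin n) F)
    let MAi : Matrix (Fin n) (Fin n) F := (((A⁻¹ : Cfsg.isometryGroup F ⇑Q) : Matrix.GeneralLinearGroup (Fin n) F) : Matrix (Fin n) (Fin n) F)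
    let MBi : Matrix (Fin n) (Fin n) F := (((B⁻¹ : Cfsg.isometryGroup F ⇑Q) : Matrix.GeneralLinearGroup (Fin n) F) : Matrix (Fin n) (Fin n) F)
    have hval : ∀ x y : Cfsg.isometryGroup F ⇑Q, (((x * y : Cfsg.isometryGroup F ⇑Q) : Matrix.GeneralLinearGroup (Fin n) F) : Matrix (Fin n) (Fin n) F) = ((x : Matrix.GeneralLinearGroup (Fin n) F) : Matrix (Fin n) (Fin n) F) * ((y : Matrix.GeneralLinearGroup (Fin n) F) : Matrix (Fin n) (Fin n) F) := fun _ _ => rfl
    have hval1 : (((1 : Cfsg.isometryGroup F ⇑Q) : Matrix.GeneralLinearGroup (Fin n) F) : Matrix (Fin n) (Fin n) F) = 1 := rfl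
    have hA1 : MA * MAi = 1 := by
      rw [← hval1, ← mul_inv_cancel A]
      exact (hval _ _).symm
    have hA2 : MAi * MA = 1 := by
      rw [← hval1, ← inv_mul_cancel A]
      exact (hval _ _).symm
    have hB1 : MB * MBi = 1 := by
      rw [← hval1, ← mul_inv_cancel B]
      exact (hval _ _).symm
    have hB2 : MBi * MB = 1 := by
      rw [← hval1, ← inv_mul_cancel B]
      exact (hval _ _).symm
    have hcm : (c : Matrix (Fin n) (Fin n) F) * MA = MB * c := hc
    have hAn : MA ^ orderOf A = 1 := by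
      have hpow : ∀ k : ℕ, (((A ^ k : Cfsg.isometryGroup F ⇑Q) : Matrix.GeneralLinearGroup (Fin n) F) : Matrix (Fin n) (Fin n) F) = MA ^ k := by
        intro k
        induction k with
        | zero => rfl
        | succ k ih => rw [pow_succ, hval, ih, pow_succ]
      rw [← hpow, pow_orderOf_eq_one]
      rfl
    have hBn : MB ^ orderOf A = 1 := by
      have h1 : SemiconjBy (c : Matrix (Fin n) (Fin n) F) MA MB := hc
      have h3 := (h1.pow_right (orderOf A)).eq
      rw [hAn, mul_one] at h3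
      have h5 : (c : Matrix (Fin n) (Fin n) F) * ((c⁻¹ : (Matrix (Fin n) (Fin n) F)ˣ) : Matrix (Fin n) (Fin n) F) = 1 := c.mul_inv
      calc MB ^ orderOf A = MB ^ orderOf A * (c * ((c⁻¹ : (Matrix (Fin n) (Fin n) F)ˣ) : Matrix (Fin n) (Fin n) F)) := by rw [h5, mul_one]
        _ = (MB ^ orderOf A * c) * ((c⁻¹ : (Matrix (Fin n) (Fin n) F)ˣ) : Matrix (Fin n) (Fin n) F) := by rw [mul_assoc]
        _ = 1 := by rw [← h3, h5]
    have hn : ((orderOf A : ℕ) : F) ≠ 0 := by
      intro h0
      have h1 : p ∣ orderOf A := (CharP.cast_eq_zero_iff F p _).mp h0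
      have h3 := Nat.eq_one_of_dvd_coprimes hA h1 (dvd_refl p)
      exact (Fact.out : p.Prime).one_lt.ne' h3
    obtain ⟨g, hg1, hg2⟩ := Cfsg.Agent.Lib.Wall.PolarQuad.exists_conj_quad hQ (a := φ MA) (a' := φ MAi) (b := φ MB) (b' := φ MBi)
      (G := φ c) (G' := φ ((c⁻¹ : (Matrix (Fin n) (Fin n) F)ˣ) : Matrix (Fin n) (Fin n) F)) hn hodd
      (by rw [← map_mul, hA1, map_one]) (by rw [← map_mul, hA2, map_one]) (by rw [← map_mul, hB1, map_one]) (by rw [← map_mul, hB2, map_one])
      (by rw [← map_mul, c.mul_inv, map_one]) (by rw [← map_mul, c.inv_mul, map_one])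
      (fun x => by
        rw [hφ]
        exact A.2 x 0)
      (fun x => by
        rw [hφ]
        exact B.2 x 0)
      (by rw [← map_mul, ← map_mul, hcm])
      (by rw [← map_pow, hAn, map_one]) (by rw [← map_pow, hBn, map_one])
    let e : Cfsg.Agent.Lib.Witt.Quadratic.isoGroup Q := ⟨g, hg1⟩
    let d := (Cfsg.Agent.Lib.Orth.Bridge.toIso Q).symm e
    have hd : ∀ x, ((d : Matrix.GeneralLinearGroup (Fin n) F) : Matrix (Fin n) (Fin n) F) *ᵥ x = g x := fun x =>
      Cfsg.Agent.Lib.Orth.Bridge.toIso_symm_mulVec Q e x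
    refine isConj_iff.mpr ⟨d, ?_⟩
    rw [mul_inv_eq_iff_eq_mul]
    apply Subtype.ext
    apply Units.ext
    apply Matrix.ext_iff_mulVec.2
    intro x
    show (((d : Matrix.GeneralLinearGroup (Fin n) F) : Matrix (Fin n) (Fin n) F) * MA) *ᵥ x = (MB * ((d : Matrix.GeneralLinearGroup (Fin n) F) : Matrix (Fin n) (Fin n) F)) *ᵥ x
    rw [← Matrix.mulVec_mulVec, ← Matrix.mulVec_mulVec, hd, hd]
    have := hg2 x
    rw [hφ, hφ] at this
    exact this

end Cfsg.Agent.S2590
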