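import Cfsg.Statements.S2591
import Cfsg.Agent.Lib.SpReg.Classes

set_option autoImplicit false
open Cfsg

namespace Cfsg.Agent.S2591

open Cfsg.Agent.Lib.SpReg.Classes Cfsg.Agent.Lib.SpReg.SpMat

/-- Over a finite field of odd order and for m ≥ 1, the regular unipotent elements of Sp_2m(F) (u − 1 nilpotent of rank 2m − 1, a single Jordan block) form exactly two conjugacy classes of Sp_2m(F) (one class under the similarity group, which splits in two). -/
theorem result {F : Type*} [Field F] [Fintype F] {q : ℕ} (hF : Fintype.card F = q) (hq : Odd q) {m : ℕ} (hm : 1 ≤ m) : Nat.card {C : ConjClasses ↥(Matrix.symplecticGroup (Fin m) F) // ∃ u : Matrix.symplecticGroup (Fin m) F, ConjClasses.mk u = C ∧ ((u : Matrix (Fin m ⊕ Fin m) (Fin m ⊕ Fin m) F) - 1) ^ (2 * m) = 0 ∧ ((u : Matrix (Fin m ⊕ Fin m) (Fin m ⊕ Fin m) F) - 1).rank = 2 * m - 1} = 2 := by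
  classical
  have h2 : (2 : F) ≠ 0 := by
    obtain ⟨p, hp⟩ := CharP.exists F
    intro h
    have h1 : p = 2 := by
      haveI := hp
      have hpp := CharP.char_is_prime F p
      have h3 : (p : ℕ) ∣ 2 := by
        rw [← CharP.cast_eq_zero_iff F p]
        exact_mod_cast h
      exact (Nat.prime_dvd_prime_iff_eq hpp Nat.prime_two).mp h3
    subst h1
    have hcard : 2 ∣ Fintype.card F := by
      obtain ⟨n, hpp, hn⟩ := FiniteField.card F 2
      rw [hn]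
      exact dvd_pow_self _ (n.ne_zero)
    rw [hF] at hcard
    exact (Nat.not_even_iff_odd.mpr hq) (even_iff_two_dvd.mpr hcard)
  have hch : ringChar F ≠ 2 := by
    intro h
    apply h2
    have := ringChar.Nat.cast_ringChar (R := F)
    rw [h] at this
    exact_mod_cast this
  obtain ⟨ν, hν⟩ := FiniteField.exists_nonsquare hch
  obtain ⟨u₀, hu₀1, hu₀2, hu₀3⟩ := Cfsg.Agent.Lib.SpReg.Exists.exists_regular (m := m) h2 hm
  have hreg₀ : IsRegSp u₀ := ⟨hu₀1, hu₀2, hu₀3⟩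
  obtain ⟨u₁, hreg₁, hu₁⟩ := exists_other h2 hm hreg₀ hν
  -- representatives
  obtain ⟨a, b, hra, hrb, hsa, hsb⟩ : ∃ a b : Matrix (Fin m ⊕ Fin m) (Fin m ⊕ Fin m) F, IsRegSp a ∧ IsRegSp b ∧ Sq a ∧ ¬ Sq b := by
    by_cases h : Sq u₀
    · exact ⟨u₀, u₁, hreg₀, hreg₁, h, fun h1 => hu₁.mp h1 h⟩
    · exact ⟨u₁, u₀, hreg₁, hreg₀, hu₁.mpr h, h⟩
  have hsp : ∀ {x : Matrix (Fin m ⊕ Fin m) (Fin m ⊕ Fin m) F}, IsRegSp x → x ∈ Matrix.symplecticGroup (Fin m) F :=
    fun h => (adj_mul_eq_one_iff _).mp h.iso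
  let A : Matrix.symplecticGroup (Fin m) F := ⟨a, hsp hra⟩
  let B : Matrix.symplecticGroup (Fin m) F := ⟨b, hsp hrb⟩
  have hconj : ∀ x y : Matrix.symplecticGroup (Fin m) F, ∀ g : Matrix (Fin m ⊕ Fin m) (Fin m ⊕ Fin m) F, adj g * g = 1 → g * (x : Matrix (Fin m ⊕ Fin m) (Fin m ⊕ Fin m) F) = y * g → IsConj x y := by
    intro x y g h1 h3
    have hg : g ∈ Matrix.symplecticGroup (Fin m) F := (adj_mul_eq_one_iff _).mp h1
    refine isConj_iff.mpr ⟨⟨g, hg⟩, ?_⟩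
    rw [mul_inv_eq_iff_eq_mul]
    exact Subtype.ext h3
  have hinv : ∀ x y : Matrix.symplecticGroup (Fin m) F, IsRegSp (x : Matrix (Fin m ⊕ Fin m) (Fin m ⊕ Fin m) F) → IsRegSp (y : Matrix (Fin m ⊕ Fin m) (Fin m ⊕ Fin m) F) → IsConj x y → (Sq (x : Matrix (Fin m ⊕ Fin m) (Fin m ⊕ Fin m) F) → Sq (y : Matrix (Fin m ⊕ Fin m) (Fin m ⊕ Fin m) F)) := by
    intro x y hx hy h
    obtain ⟨c, hc⟩ := isConj_iff.mp h
    have h1 : c * x = y * c := by rw [← hc]; group
    exact sq_conj h2 hx.nilp hy.nilp ((adj_mul_eq_one_iff _).mpr c.2) (congrArg Subtype.val h1)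
  let T := {C : ConjClasses ↥(Matrix.symplecticGroup (Fin m) F) // ∃ u : Matrix.symplecticGroup (Fin m) F, ConjClasses.mk u = C ∧ ((u : Matrix (Fin m ⊕ Fin m) (Fin m ⊕ Fin m) F) - 1) ^ (2 * m) = 0 ∧ ((u : Matrix (Fin m ⊕ Fin m) (Fin m ⊕ Fin m) F) - 1).rank = 2 * m - 1}
  let f : Bool → T := fun t => match t with
    | true => ⟨ConjClasses.mk A, A, rfl, hra.nil, hra.rank⟩
    | false => ⟨ConjClasses.mk B, B, rfl, hrb.nil, hrb.rank⟩
  have hf : Function.Bijective f := by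
    constructor
    · have key : ConjClasses.mk A ≠ ConjClasses.mk B := by
        intro h
        exact hsb (hinv A B hra hrb (ConjClasses.mk_eq_mk_iff_isConj.mp h) hsa)
      rintro (_ | _) (_ | _) h
      · rfl
      · exact absurd (congrArg Subtype.val h).symm key
      · exact absurd (congrArg Subtype.val h) key
      · rfl
    · rintro ⟨C, u, rfl, hu1, hu2⟩
      have hr : IsRegSp (u : Matrix (Fin m ⊕ Fin m) (Fin m ⊕ Fin m) F) :=
        ⟨(adj_mul_eq_one_iff _).mpr u.2, hu1, hu2⟩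
      by_cases hs : Sq (u : Matrix (Fin m ⊕ Fin m) (Fin m ⊕ Fin m) F)
      · obtain ⟨g, hg1, hg2⟩ := conj_of_sq_iff h2 hm hra hr (iff_of_true hsa hs)
        refine ⟨true, Subtype.ext ?_⟩
        exact ConjClasses.mk_eq_mk_iff_isConj.mpr (hconj A u g hg1 hg2)
      · obtain ⟨g, hg1, hg2⟩ := conj_of_sq_iff h2 hm hrb hr (iff_of_false hsb hs)
        refine ⟨false, Subtype.ext ?_⟩
        exact ConjClasses.mk_eq_mk_iff_isConj.mpr (hconj B u g hg1 hg2)
  show Nat.card T = 2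
  rw [← Nat.card_congr (Equiv.ofBijective f hf)]
  simp

end Cfsg.Agent.S2591
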