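import Cfsg.Statements.S2592
import Cfsg.Agent.Lib.SpReg.Matrix

set_option autoImplicit false
open Cfsg

namespace Cfsg.Agent.S2592

/-- Over a finite field with q elements, q odd, the centraliser in Sp_2m(F) (m ≥ 1) of a regular unipotent element (u − 1 nilpotent of rank 2m − 1) has order 2 q^m. -/
theorem result {F : Type*} [Field F] [Fintype F] {q : ℕ} (hF : Fintype.card F = q) (hq : Odd q) {m : ℕ} (hm : 1 ≤ m) (u : Matrix.symplecticGroup (Fin m) F) (hnil : ((u : Matrix (Fin m ⊕ Fin m) (Fin m ⊕ Fin m) F) - 1) ^ (2 * m) = 0) (hreg : ((u : Matrix (Fin m ⊕ Fin m) (Fin m ⊕ Fin m) F) - 1).rank = 2 * m - 1) : Nat.card ↥(Subgroup.centralizer ({u} : Set ↥(Matrix.symplecticGroup (Fin m) F))) = 2 * q ^ m := by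
  have h2 : (2 : F) ≠ 0 := by
    obtain ⟨p, hp⟩ := CharP.exists F
    intro h
    have h1 : p = 2 := by
      haveI := hp
      have hpp := CharP.char_is_prime F p
      have h3 : (p : ℕ) ∣ 2 := by
        rw [← CharP.cast_eq_zero_iff F p]
        exact_mod_cast h
      exact (Nat.prime_dvd_prime_iff_eq hpp Nat.prime_two).mp h3
    subst h1
    have hcard : 2 ∣ Fintype.card F := by
      obtain ⟨n, hpp, hn⟩ := FiniteField.card F 2
      rw [hn]
      exact dvd_pow_self _ (n.ne_zero)
    rw [hF] at hcard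
    exact (Nat.not_even_iff_odd.mpr hq) (even_iff_two_dvd.mpr hcard)
  rw [Cfsg.Agent.Lib.SpReg.SpMat.card_centralizer h2 hm u hnil hreg, hF]

end Cfsg.Agent.S2592
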