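import Cfsg.Statements.S2593
import Cfsg.Agent.Lib.Inv2.Count
import Cfsg.Agent.Lib.Classical.SympForm

set_option autoImplicit false
open Cfsg

namespace Cfsg.Agent.S2593

/-- Number of conjugacy classes of involutions in the symplectic group Sp_2m(F) over a finite field of characteristic two (m ≥ 1): for each s with 1 ≤ s ≤ m there is one class with rank(t − 1) = s if s is odd and two if s is even (according as v ↦ f(v, tv), f the symplectic form, vanishes identically or not), so m + ⌊m/2⌋ classes in all. -/
theorem result {F : Type*} [Field F] [Fintype F] [CharP F 2] {m : ℕ} (hm : 1 ≤ m) : Nat.card {C : ConjClasses ↥(Matrix.symplecticGroup (Fin m) F) // ∃ g : Matrix.symplecticGroup (Fin m) F, ConjClasses.mk g = C ∧ orderOf g = 2} = m + m / 2 := by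
  classical
  haveI : Fintype F := Fintype.ofFinite F
  rw [Cfsg.Agent.Lib.Inv2.Group.card_classes_congr (Cfsg.Agent.Lib.Classical.SympForm.spEquiv (m := m) (F := F))]
  apply Cfsg.Agent.Lib.Inv2.Count.card_isomGroup Cfsg.Agent.Lib.Classical.SympForm.sympBilin_isAlt
    Cfsg.Agent.Lib.Classical.SympForm.sympBilin_nondegenerate (by simp; ring)
  refine ⟨fun i => Pi.single (Sum.inl i) 1, ?_, ?_⟩
  · have h := (Pi.basisFun F (Fin m ⊕ Fin m)).linearIndependent.comp (Sum.inl : Fin m → Fin m ⊕ Fin m) Sum.inl_injective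
    have e : (fun i : Fin m => (Pi.single (Sum.inl i) 1 : Fin m ⊕ Fin m → F)) =
        (Pi.basisFun F (Fin m ⊕ Fin m)) ∘ Sum.inl := by
      ext i j
      simp [Pi.basisFun_apply]
    rw [e]
    exact h
  · intro i j
    rw [Cfsg.Agent.Lib.Classical.SympForm.sympBilin_apply, Cfsg.Agent.Lib.Classical.SympForm.sympForm_single_inl]
    simp

end Cfsg.Agent.S2593
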