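import Cfsg.Statements.S2594
import Cfsg.Agent.Lib.Classical.SympForm
import Cfsg.Agent.Lib.Classical.SympCount

set_option autoImplicit false
open Cfsg

namespace Cfsg.Agent.S2594

open Matrix Cfsg Cfsg.Agent.Lib.Classical.SympForm

variable {m : ℕ} {F : Type*} [Field F]

theorem form_alt (x y : Fin m ⊕ Fin m → F) : sympForm m F x y = - sympForm m F y x := by
  rw [sympForm_eq_sum, sympForm_eq_sum, ← Finset.sum_neg_distrib]
  exact Finset.sum_congr rfl fun i _ => by ring

theorem form_self (x : Fin m ⊕ Fin m → F) : sympForm m F x x = 0 := sympBilin_isAlt x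

theorem form_add_left (x y z : Fin m ⊕ Fin m → F) :
    sympForm m F (x + y) z = sympForm m F x z + sympForm m F y z := by
  simp [sympForm, add_dotProduct]

theorem form_add_right (x y z : Fin m ⊕ Fin m → F) :
    sympForm m F x (y + z) = sympForm m F x y + sympForm m F x z := by
  simp [sympForm, mulVec_add, dotProduct_add]

theorem form_smul_left (c : F) (x z : Fin m ⊕ Fin m → F) :
    sympForm m F (c • x) z = c * sympForm m F x z := by
  simp [sympForm, smul_dotProduct]

theorem form_smul_right (c : F) (x z : Fin m ⊕ Fin m → F) :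
    sympForm m F x (c • z) = c * sympForm m F x z := by
  simp [sympForm, mulVec_smul, dotProduct_smul]

theorem exists_form_ne {v : Fin m ⊕ Fin m → F} (hv : v ≠ 0) :
    ∃ x, sympForm m F x v ≠ 0 := by
  by_contra h
  push Not at h
  apply hv
  ext (i | i)
  · have := h (Pi.single (Sum.inr i) 1)
    rw [form_alt, sympForm_single_inr] at this
    simpa using this
  · have := h (Pi.single (Sum.inl i) 1)
    rw [form_alt, sympForm_single_inl] at this
    simpa using this

/-- A rank-one element of `Sp` is a transvection. -/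
theorem exists_transvection (t : Matrix.symplecticGroup (Fin m) F)
    (ht : ((t : Matrix (Fin m ⊕ Fin m) (Fin m ⊕ Fin m) F) - 1).rank = 1) :
    ∃ (v : Fin m ⊕ Fin m → F) (c : F), v ≠ 0 ∧ c ≠ 0 ∧
      (t : Matrix (Fin m ⊕ Fin m) (Fin m ⊕ Fin m) F) = Cfsg.sympTransvection m v c := by
  have h1 : Module.finrank F
      (LinearMap.range (Matrix.mulVecLin ((t : Matrix (Fin m ⊕ Fin m) (Fin m ⊕ Fin m) F) - 1))) = 1 := ht
  obtain ⟨⟨v, hv'⟩, hne, hspan⟩ := finrank_eq_one_iff'.mp h1
  have hv : v ≠ 0 := fun h => hne (Subtype.ext h)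
  have hc : ∀ x : Fin m ⊕ Fin m → F, ∃ c : F, (t : Matrix _ _ F) *ᵥ x = x + c • v := by
    intro x
    obtain ⟨c, hc⟩ := hspan ⟨((t : Matrix _ _ F) - 1) *ᵥ x, ⟨x, rfl⟩⟩
    refine ⟨c, ?_⟩
    have := congrArg Subtype.val hc
    simp only [Submodule.coe_smul] at this
    rw [this, Matrix.sub_mulVec, Matrix.one_mulVec]
    abel
  choose c hc using hc
  have hpres : ∀ x y, sympForm m F ((t : Matrix _ _ F) *ᵥ x) ((t : Matrix _ _ F) *ᵥ y) = sympForm m F x y :=
    (mem_symplecticGroup_iff _).1 t.2
  have key : ∀ x y, c y * sympForm m F x v = c x * sympForm m F y v := by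
    intro x y
    have := hpres x y
    rw [hc, hc, form_add_left, form_add_right, form_add_right, form_smul_right, form_smul_left,
      form_smul_left, form_smul_right, form_self, form_alt v y] at this
    linear_combination this
  obtain ⟨x₀, hx₀⟩ := exists_form_ne hv
  refine ⟨v, c x₀ / sympForm m F x₀ v, hv, ?_, ?_⟩
  · intro h0
    have h00 : c x₀ = 0 := by
      rcases div_eq_zero_iff.1 h0 with h | h
      · exact h
      · exact absurd h hx₀
    have hall : ∀ y, c y = 0 := by
      intro y
      have := key x₀ y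
      rw [h00, zero_mul] at this
      exact (mul_eq_zero.1 this).resolve_right hx₀
    have hone : t.1 = 1 := by
      apply Matrix.ext_iff_mulVec.2
      intro x
      rw [hc, hall]
      simp
    rw [hone] at ht
    simp at ht
  · apply Matrix.ext_iff_mulVec.2
    intro y
    rw [hc, sympTransvection_mulVec]
    congr 2
    have := key x₀ y
    field_simp
    exact this

variable [CharP F 2]

theorem two_eq_zero' : (2 : F) = 0 := by
  have := CharP.cast_eq_zero F 2
  simpa using this

/-- In characteristic two the direction of a transvection with parameter one is determined. -/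
theorem eq_of_transvection_eq {v w : Fin m ⊕ Fin m → F} (hv : v ≠ 0)
    (h : Cfsg.sympTransvection m v 1 = Cfsg.sympTransvection m w 1) : v = w := by
  have hform : ∀ x, sympForm m F x v • v = sympForm m F x w • w := by
    intro x
    have := congrArg (fun M => M *ᵥ x) h
    simp only [sympTransvection_mulVec, one_mul] at this
    exact add_left_cancel this
  obtain ⟨x, hx⟩ := exists_form_ne hv
  set a := sympForm m F x v
  have hv' : v = (a⁻¹ * sympForm m F x w) • w := by
    rw [mul_smul, ← hform x, smul_smul, inv_mul_cancel₀ hx, one_smul]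
  set b := a⁻¹ * sympForm m F x w with hb
  have hw : w ≠ 0 := by
    rintro rfl
    apply hv
    simpa using hv'
  obtain ⟨y, hy⟩ := exists_form_ne hw
  have h2 := hform y
  rw [hv', form_smul_right, smul_smul] at h2
  have h3 : (b * sympForm m F y w * b - sympForm m F y w) • w = 0 := by
    rw [sub_smul, h2, sub_self]
  have h4 : b * sympForm m F y w * b - sympForm m F y w = 0 :=
    (smul_eq_zero.1 h3).resolve_right hw
  have h5 : (b - 1) ^ 2 * sympForm m F y w = 0 := by
    linear_combination h4 + (sympForm m F y w) * (1 - b) * (two_eq_zero' (F := F))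
  have h6 : b = 1 := by
    have := (mul_eq_zero.1 h5).resolve_right hy
    have := pow_eq_zero_iff (two_ne_zero) |>.1 this
    exact sub_eq_zero.1 this
  rw [hv', h6, one_smul]

theorem exists_transvection_one [Fintype F] (t : Matrix.symplecticGroup (Fin m) F)
    (ht : ((t : Matrix (Fin m ⊕ Fin m) (Fin m ⊕ Fin m) F) - 1).rank = 1) :
    ∃ (v : Fin m ⊕ Fin m → F), v ≠ 0 ∧
      (t : Matrix (Fin m ⊕ Fin m) (Fin m ⊕ Fin m) F) = Cfsg.sympTransvection m v 1 := by
  obtain ⟨v, c, hv, hc, hvc⟩ := exists_transvection t ht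
  have hch : ringChar F = 2 := CharP.ringChar_of_prime_eq_zero Nat.prime_two (two_eq_zero' (F := F))
  obtain ⟨a, ha⟩ := FiniteField.isSquare_of_char_two hch c
  have ha0 : a ≠ 0 := by
    rintro rfl
    apply hc
    simpa using ha
  refine ⟨a • v, smul_ne_zero ha0 hv, ?_⟩
  rw [sympTransvection_smul, hvc, ha]
  congr 1
  ring

/-- The action of `Sp` on vectors. -/
@[reducible] noncomputable def act : MulAction (Matrix.symplecticGroup (Fin m) F) (Fin m ⊕ Fin m → F) where
  smul A x := A.1 *ᵥ x
  one_smul x := by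
    show (1 : Matrix _ _ F) *ᵥ x = x
    simp
  mul_smul A B x := by
    show (A.1 * B.1) *ᵥ x = A.1 *ᵥ (B.1 *ᵥ x)
    simp [Matrix.mulVec_mulVec]

theorem centralizer_eq {v : Fin m ⊕ Fin m → F} (hv : v ≠ 0) (t : Matrix.symplecticGroup (Fin m) F)
    (htv : (t : Matrix (Fin m ⊕ Fin m) (Fin m ⊕ Fin m) F) = Cfsg.sympTransvection m v 1) :
    Subgroup.centralizer ({t} : Set (Matrix.symplecticGroup (Fin m) F)) =
      @MulAction.stabilizer _ _ _ (act (m := m) (F := F)) v := by
  letI := act (m := m) (F := F)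
  ext A
  rw [Subgroup.mem_centralizer_singleton_iff, MulAction.mem_stabilizer_iff]
  show _ ↔ A.1 *ᵥ v = v
  have hconj := sp_mul_sympTransvection_mul_inv A v 1
  constructor
  · intro h
    have h2 : A.1 * (t : Matrix _ _ F) * (A⁻¹).1 = (t : Matrix _ _ F) := by
      have : A * t * A⁻¹ = t := by
        rw [h, mul_inv_cancel_right]
      exact congrArg Subtype.val this
    rw [htv, hconj] at h2
    have hAv : A.1 *ᵥ v ≠ 0 := by
      intro h0
      have : (A⁻¹).1 *ᵥ (A.1 *ᵥ v) = v := by
        rw [Matrix.mulVec_mulVec, ← Submonoid.coe_mul, inv_mul_cancel]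
        simp
      rw [h0] at this
      apply hv
      rw [← this]
      simp
    exact eq_of_transvection_eq hAv h2
  · intro h
    rw [h] at hconj
    rw [← htv] at hconj
    have : A * t * A⁻¹ = t := Subtype.ext hconj
    exact mul_inv_eq_iff_eq_mul.1 this

/-- Over a finite field with q elements, q even, an element t of Sp_2m(F) with rank(t − 1) = 1 (a symplectic transvection) has centraliser in Sp_2m(F) of order q^(2m−1) · |Sp_(2m−2)(q)| = q^(2m−1) · q^((m−1)²) · Π_(i=1)^(m−1) (q^(2i) − 1). -/
theorem result {F : Type*} [Field F] [Fintype F] [CharP F 2] {q : ℕ} (hF : Fintype.card F = q) {m : ℕ} (hm : 1 ≤ m) (t : Matrix.symplecticGroup (Fin m) F) (ht : ((t : Matrix (Fin m ⊕ Fin m) (Fin m ⊕ Fin m) F) - 1).rank = 1) : Nat.card ↥(Subgroup.centralizer ({t} : Set ↥(Matrix.symplecticGroup (Fin m) F))) = q ^ (2 * m - 1) * (q ^ ((m - 1) ^ 2) * ∏ i : Fin (m - 1), (q ^ (2 * ((i : ℕ) + 1)) - 1)) := by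
  classical
  subst hF
  letI := act (m := m) (F := F)
  obtain ⟨v, hv, htv⟩ := exists_transvection_one t ht
  rw [centralizer_eq hv t htv]
  have hidx := MulAction.index_stabilizer (Matrix.symplecticGroup (Fin m) F) v
  have horb : MulAction.orbit (Matrix.symplecticGroup (Fin m) F) v = {x | x ≠ 0} := by
    ext w
    constructor
    · rintro ⟨A, rfl⟩
      show A.1 *ᵥ v ≠ 0
      intro h0
      have : (A⁻¹).1 *ᵥ (A.1 *ᵥ v) = v := by
        rw [Matrix.mulVec_mulVec, ← Submonoid.coe_mul, inv_mul_cancel]
        simp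
      rw [h0] at this
      apply hv
      rw [← this]
      simp
    · intro hw
      obtain ⟨A, -, hA⟩ := exists_closure_ne_zero v w hv hw
      exact ⟨A, hA⟩
  have hq : Nat.card F = Fintype.card F := Nat.card_eq_fintype_card
  have hcardV : (Set.ncard {x : Fin m ⊕ Fin m → F | x ≠ 0}) = Fintype.card F ^ (2 * m) - 1 := by
    have : {x : Fin m ⊕ Fin m → F | x ≠ 0} = ({0} : Set _)ᶜ := by
      ext x
      simp
    rw [this, Set.ncard_compl, Set.ncard_singleton]
    congr 1
    simp [Nat.card_eq_fintype_card, two_mul]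
  rw [horb, hcardV] at hidx
  have hmul := Subgroup.card_mul_index (MulAction.stabilizer (Matrix.symplecticGroup (Fin m) F) v)
  rw [hidx, Cfsg.Agent.Lib.Classical.SympCount.card_symplecticGroup hq m] at hmul
  have hq2 : 2 ≤ Fintype.card F := Fintype.one_lt_card
  obtain ⟨k, rfl⟩ : ∃ k, m = k + 1 := ⟨m - 1, by omega⟩
  simp only [Nat.add_sub_cancel]
  rw [Finset.prod_range_succ] at hmul
  have hpos : 0 < Fintype.card F ^ (2 * (k + 1)) - 1 := by
    have : 1 < Fintype.card F ^ (2 * (k + 1)) := Nat.one_lt_pow (by omega) (by omega)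
    omega
  apply Nat.eq_of_mul_eq_mul_right hpos
  rw [hmul, ← Finset.prod_range (fun i => Fintype.card F ^ (2 * (i + 1)) - 1)]
  have hexp : (k + 1) ^ 2 = (2 * (k + 1) - 1) + k ^ 2 := by
    have : 2 * (k + 1) - 1 = 2 * k + 1 := by omega
    rw [this]
    ring
  rw [Nat.add_sub_cancel, hexp, pow_add]
  ring

end Cfsg.Agent.S2594
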