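import Cfsg.Statements.S2597
import Cfsg.Agent.Lib.Inv2.OmegaFinal

set_option autoImplicit false
open Cfsg

namespace Cfsg.Agent.S2597

/-- Number of conjugacy classes of involutions in Ω⁺_2m(F) (the commutator subgroup of the orthogonal group of Σ x_i y_i) over a finite field F of characteristic two, m ≥ 1, excluding the case m = 2 over the field of two elements: the involutions of Ω are those with s = rank(t − 1) even, giving two O-classes for each even s with 2 ≤ s ≤ m, each of which is a single Ω-class except that for m even the class with s = m and v ↦ f(v, tv) identically zero splits in two; in all 2⌊m/2⌋ + 1 classes if m is even and 2⌊m/2⌋ if m is odd. -/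
theorem result {F : Type*} [Field F] [Fintype F] [CharP F 2] {m : ℕ} (hm : 1 ≤ m) (h : Fintype.card F ≠ 2 ∨ m ≠ 2) : Nat.card {C : ConjClasses ↥(Cfsg.Omega F (Cfsg.quadFormPlus m F)) // ∃ g : ↥(Cfsg.Omega F (Cfsg.quadFormPlus m F)), ConjClasses.mk g = C ∧ orderOf g = 2} = 2 * (m / 2) + (if Even m then 1 else 0) := by
  have hQ := Cfsg.Agent.Lib.Orth.Forms.plusForm_nondeg (F := F) m
  have hgen := Cfsg.Agent.Lib.Orth.Bridge.hgen (Cfsg.Agent.Lib.Orth.Forms.plusForm m F) hQ (by
    rcases h with h | h
    · exact Or.inl h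
    · right
      simp
      omega)
  have h1 := Cfsg.Agent.Lib.Inv2.Group.card_classes_congr
    (Cfsg.Agent.Lib.Inv2.OmegaFinal.commEquiv (Cfsg.Agent.Lib.Orth.Bridge.toIso (Cfsg.Agent.Lib.Orth.Forms.plusForm m F)))
  have h2 := Cfsg.Agent.Lib.Inv2.OmegaCount.card_commutator hm (Cfsg.Agent.Lib.Inv2.Models.frames_plus (F := F) m) hgen
  refine h1.trans (h2.trans ?_)
  simp only [true_and]
  rw [two_mul]

end Cfsg.Agent.S2597
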