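import Cfsg.Statements.S2598
import Cfsg.Agent.Lib.Inv2.OmegaFinal

set_option autoImplicit false
open Cfsg

namespace Cfsg.Agent.S2598

/-- Number of conjugacy classes of involutions in Ω⁻_2m(F) (the commutator subgroup of the orthogonal group of an elliptic quadratic form, Σ_(i<m−1) x_i y_i plus an anisotropic binary form) over a finite field F of characteristic two, m ≥ 1: the involutions of Ω are those with s = rank(t − 1) even, one O-class for each even s with 2 ≤ s ≤ m on which v ↦ f(v, tv) is not identically zero and one for each even s with 2 ≤ s < m on which it is zero (f the polar form; in characteristic 2, f(v, tv) = Q(v + tv)), none of which splits in Ω; in all ⌊m/2⌋ + ⌊(m − 1)/2⌋. -/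
theorem result {F : Type*} [Field F] [Fintype F] [CharP F 2] {m : ℕ} (hm : 1 ≤ m) (a b : F) (hab : ∀ z₁ z₂ : F, z₁ ^ 2 + a * z₁ * z₂ + b * z₂ ^ 2 = 0 → z₁ = 0 ∧ z₂ = 0) : Nat.card {C : ConjClasses ↥(Cfsg.Omega F (Cfsg.quadFormMinus (m - 1) F a b)) // ∃ g : ↥(Cfsg.Omega F (Cfsg.quadFormMinus (m - 1) F a b)), ConjClasses.mk g = C ∧ orderOf g = 2} = m / 2 + (m - 1) / 2 := by
  obtain ⟨k, rfl⟩ : ∃ k, m = k + 1 := ⟨m - 1, by omega⟩
  have hQ := Cfsg.Agent.Lib.Orth.Forms.minusForm_nondeg (F := F) k hab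
  have HF := Cfsg.Agent.Lib.Inv2.Models.frames_minus (F := F) k hab
  have hgen : ∀ g ∈ Cfsg.Agent.Lib.Witt.Quadratic.isoGroup (Cfsg.Agent.Lib.Orth.Forms.minusForm k F a b),
      g ∈ Cfsg.Agent.Lib.Orth.Gen.W (Cfsg.Agent.Lib.Orth.Forms.minusForm k F a b) := by
    by_cases hc : Fintype.card F ≠ 2 ∨ Fintype.card ((Fin k ⊕ Fin k) ⊕ Fin 2) ≠ 4
    · exact Cfsg.Agent.Lib.Orth.Bridge.hgen _ hQ hc
    · push Not at hc
      have hk : k = 1 := by
        have := hc.2
        simp at this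
        omega
      subst hk
      exact Cfsg.Agent.Lib.Inv2.OmegaFinal.hgen_of_no_plane hQ HF.ts
  have h1 := Cfsg.Agent.Lib.Inv2.Group.card_classes_congr
    (Cfsg.Agent.Lib.Inv2.OmegaFinal.commEquiv (Cfsg.Agent.Lib.Orth.Bridge.toIso (Cfsg.Agent.Lib.Orth.Forms.minusForm k F a b)))
  have h2 := Cfsg.Agent.Lib.Inv2.OmegaCount.card_commutator (by omega) HF hgen
  refine h1.trans (h2.trans ?_)
  have e1 : ¬ (k = k + 1 ∧ Even (k + 1)) := fun h => by omega
  rw [if_neg e1]
  simp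

end Cfsg.Agent.S2598
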