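import Cfsg.Statements.S2599

set_option autoImplicit false
open Cfsg

namespace Cfsg.Agent.S2599

/-- An irreducible invariant subspace of a semisimple isometry is non-degenerate or totally singular: let Q be a quadratic form on F^n (F finite of characteristic p) with non-degenerate polar form f, x an isometry of Q of order prime to p, and U a non-zero x-invariant subspace containing no x-invariant subspace other than 0 and U. Then U meets its f-orthogonal trivially, or Q vanishes on U, or p = 2, U is a line spanned by a non-singular vector and x fixes U pointwise. -/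
theorem result {F : Type*} [Field F] [Fintype F] {p : ℕ} [Fact p.Prime] [CharP F p] {n : ℕ} (Q : QuadraticForm F (Fin n → F)) (hQ : (QuadraticMap.polarBilin Q).Nondegenerate) (x : ↥(Cfsg.isometryGroup F ⇑Q)) (hx : (orderOf x).Coprime p) (U : Submodule F (Fin n → F)) (hU0 : U ≠ ⊥) (hUx : ∀ u ∈ U, ((x : Matrix.GeneralLinearGroup (Fin n) F) : Matrix (Fin n) (Fin n) F).mulVec u ∈ U) (hirr : ∀ W : Submodule F (Fin n → F), W ≤ U → (∀ w ∈ W, ((x : Matrix.GeneralLinearGroup (Fin n) F) : Matrix (Fin n) (Fin n) F).mulVec w ∈ W) → W = ⊥ ∨ W = U) : U ⊓ LinearMap.BilinForm.orthogonal (QuadraticMap.polarBilin Q) U = ⊥ ∨ (∀ u ∈ U, Q u = 0) ∨ (p = 2 ∧ Module.finrank F U = 1 ∧ (∃ u ∈ U, Q u ≠ 0) ∧ ∀ u ∈ U, ((x : Matrix.GeneralLinearGroup (Fin n) F) : Matrix (Fin n) (Fin n) F).mulVec u = u) := by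
  set M : Matrix (Fin n) (Fin n) F := ((x : Matrix.GeneralLinearGroup (Fin n) F) : Matrix (Fin n) (Fin n) F) with hM
  have hisom : ∀ u, Q (M.mulVec u) = Q u := fun u => x.2 u u
  have hpol : ∀ u v, QuadraticMap.polar Q (M.mulVec u) (M.mulVec v) = QuadraticMap.polar Q u v := by
    intro u v
    simp only [QuadraticMap.polar, ← Matrix.mulVec_add, hisom]
  have hinj : Function.Injective M.mulVec :=
    Matrix.mulVec_injective_of_isUnit (x : Matrix.GeneralLinearGroup (Fin n) F).isUnit
  -- surjectivity of `M` on `U`
  have hsurj : ∀ u ∈ U, ∃ u' ∈ U, M.mulVec u' = u := by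
    let L : U →ₗ[F] U := (Matrix.mulVecLin M).restrict (fun u hu => hUx u hu)
    have hLinj : Function.Injective L := by
      intro a b hab
      apply Subtype.ext
      apply hinj
      exact congrArg Subtype.val hab
    have hLsurj : Function.Surjective L := LinearMap.injective_iff_surjective.mp hLinj
    intro u hu
    obtain ⟨u', hu'⟩ := hLsurj ⟨u, hu⟩
    exact ⟨u', u'.2, congrArg Subtype.val hu'⟩
  have hradinv : ∀ w ∈ U ⊓ LinearMap.BilinForm.orthogonal (QuadraticMap.polarBilin Q) U,
      M.mulVec w ∈ U ⊓ LinearMap.BilinForm.orthogonal (QuadraticMap.polarBilin Q) U := by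
    intro w hw
    refine ⟨hUx w hw.1, ?_⟩
    refine LinearMap.BilinForm.mem_orthogonal_iff.mpr ?_
    intro u hu
    obtain ⟨u', hu'U, rfl⟩ := hsurj u hu
    have h := (LinearMap.BilinForm.mem_orthogonal_iff.mp hw.2) u' hu'U
    show QuadraticMap.polar Q (M.mulVec u') (M.mulVec w) = 0
    rw [hpol]
    exact h
  rcases hirr _ inf_le_left hradinv with h0 | h1
  · exact Or.inl h0
  right
  -- `U` is totally isotropic for the polar form
  have hiso : ∀ u ∈ U, ∀ v ∈ U, QuadraticMap.polar Q u v = 0 := by
    intro u hu v hv
    have hv' : v ∈ U ⊓ LinearMap.BilinForm.orthogonal (QuadraticMap.polarBilin Q) U := by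
      rw [h1]; exact hv
    exact (LinearMap.BilinForm.mem_orthogonal_iff.mp hv'.2) u hu
  by_cases hp : p = 2
  · subst hp
    -- the singular vectors of `U` form an invariant subspace
    let W : Submodule F (Fin n → F) :=
      { carrier := {u | u ∈ U ∧ Q u = 0}
        add_mem' := by
          rintro a b ⟨ha, ha0⟩ ⟨hb, hb0⟩
          refine ⟨U.add_mem ha hb, ?_⟩
          have := hiso a ha b hb
          simp only [QuadraticMap.polar] at this
          rw [ha0, hb0] at this
          simpa using this
        zero_mem' := ⟨U.zero_mem, map_zero Q⟩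
        smul_mem' := by
          rintro c a ⟨ha, ha0⟩
          refine ⟨U.smul_mem c ha, ?_⟩
          rw [QuadraticMap.map_smul, ha0]; simp }
    have hWinv : ∀ w ∈ W, M.mulVec w ∈ W := by
      rintro w ⟨hw, hw0⟩
      exact ⟨hUx w hw, by rw [hisom]; exact hw0⟩
    rcases hirr W (fun w hw => hw.1) hWinv with hW0 | hWU
    · right
      have hne : ∃ u ∈ U, u ≠ 0 := by
        by_contra hcon
        push Not at hcon
        exact hU0 ((Submodule.eq_bot_iff U).mpr hcon)
      obtain ⟨u, huU, hu0⟩ := hne
      have hQu : Q u ≠ 0 := by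
        intro h
        have : u ∈ W := ⟨huU, h⟩
        rw [hW0] at this
        exact hu0 ((Submodule.mem_bot F).mp this)
      have hspan : ∀ v ∈ U, ∃ c : F, v = c • u := by
        intro v hv
        obtain ⟨c, hc⟩ : IsSquare (Q v / Q u) := FiniteField.isSquare_of_char_two (ringChar.eq F 2) _
        refine ⟨c, ?_⟩
        have hcQ : c * c * Q u = Q v := by
          rw [← hc]; field_simp
        have hmem : v + c • u ∈ W := by
          refine ⟨U.add_mem hv (U.smul_mem c huU), ?_⟩
          have := hiso v hv (c • u) (U.smul_mem c huU)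
          simp only [QuadraticMap.polar, QuadraticMap.map_smul, smul_eq_mul] at this
          have h2 : Q (v + c • u) = Q v + c * c * Q u := by
            linear_combination this
          rw [h2, hcQ]
          exact CharTwo.add_self_eq_zero _
        rw [hW0] at hmem
        have := (Submodule.mem_bot F).mp hmem
        have hh : v = - (c • u) := eq_neg_of_add_eq_zero_left this
        rw [hh]
        exact neg_eq_iff_add_eq_zero.mpr (by
          rw [← two_smul F (c • u), show (2 : F) = 0 from CharTwo.two_eq_zero, zero_smul])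
      refine ⟨rfl, ?_, ⟨u, huU, hQu⟩, ?_⟩
      · have : Module.finrank F U = 1 := by
          rw [finrank_eq_one_iff']
          refine ⟨⟨u, huU⟩, ?_, ?_⟩
          · intro h
            exact hu0 (congrArg Subtype.val h)
          · rintro ⟨v, hv⟩
            obtain ⟨c, hc⟩ := hspan v hv
            exact ⟨c, Subtype.ext hc.symm⟩
        exact this
      · intro v hv
        obtain ⟨c, rfl⟩ := hspan v hv
        obtain ⟨a, ha⟩ := hspan (M.mulVec u) (hUx u huU)
        have hq := hisom u
        rw [ha, QuadraticMap.map_smul, smul_eq_mul] at hq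
        have h1a : a * a = 1 := by
          apply mul_right_cancel₀ hQu
          rw [one_mul]; exact hq
        have ha1 : a = 1 := by
          have : (a + 1) * (a + 1) = 0 := by
            have h4 : (a + 1) * (a + 1) = a * a + 1 + (2 : F) * a := by ring
            rw [h4, h1a]
            rw [show (2 : F) = 0 from CharTwo.two_eq_zero]
            simp [CharTwo.add_self_eq_zero]
          have h5 : a + 1 = 0 := by simpa using this
          have : a = -1 := eq_neg_of_add_eq_zero_left h5
          rw [this]; exact CharTwo.neg_eq _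
        rw [Matrix.mulVec_smul, ha, ha1, one_smul]
    · left
      intro u hu
      rw [← hWU] at hu
      exact hu.2
  · left
    intro u hu
    have h2 : (2 : F) ≠ 0 := by
      intro h
      have : (p : ℕ) ∣ 2 := (CharP.cast_eq_zero_iff F p 2).mp (by simpa using h)
      have hp2 := (Nat.prime_dvd_prime_iff_eq (Fact.out : p.Prime) Nat.prime_two).mp this
      exact hp hp2
    have := hiso u hu u hu
    have h3 := QuadraticMap.polar_self Q u
    rw [h3] at this
    simpa [h2] using this

end Cfsg.Agent.S2599
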