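import Cfsg.Statements.S2610
import Cfsg.Agent.Lib.Orth.Bridge
import Cfsg.Agent.Lib.Orth.Forms

set_option autoImplicit false
open Cfsg
open Cfsg.Agent.Lib.Orth.Refl Matrix

namespace Cfsg.Agent.S2610

/-- For a quadratic form Q on F^n with non-degenerate polar form, F finite of odd order and n ≥ 2 even, the isometry −1 lies in Ω (the commutator subgroup of the orthogonal group) if and only if the discriminant of Q (the determinant of the Gram matrix of its polar form) is a square. -/
theorem result {F : Type*} [Field F] [Fintype F] (h2 : (2 : F) ≠ 0) {n : ℕ} (hn : 2 ≤ n) (he : Even n) (Q : QuadraticForm F (Fin n → F)) (hQ : (QuadraticMap.polarBilin Q).Nondegenerate) : (∃ g : ↥(Cfsg.isometryGroup F ⇑Q), g ∈ Cfsg.Omega F ⇑Q ∧ ((g : Matrix.GeneralLinearGroup (Fin n) F) : Matrix (Fin n) (Fin n) F) = -1) ↔ IsSquare (Matrix.of (fun i j : Fin n => QuadraticMap.polar ⇑Q (Pi.single i 1) (Pi.single j 1))).det := by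
  classical
  haveI : Invertible (2:F) := invertibleOfNonzero h2
  have hc : Fintype.card F ≠ 2 := by
    intro hcard
    apply h2
    have := FiniteField.cast_card_eq_zero F
    rw [hcard] at this
    exact_mod_cast this
  have hsym : LinearMap.IsSymm (QuadraticMap.polarBilin Q : LinearMap.BilinForm F (Fin n → F)) :=
    ⟨fun x y => by
      show QuadraticMap.polar Q x y = QuadraticMap.polar Q y x
      exact QuadraticMap.polar_comm Q x y⟩
  obtain ⟨N, hNn, v, hv⟩ : ∃ N, N = n ∧ ∃ v : Module.Basis (Fin N) F (Fin n → F),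
      LinearMap.IsOrthoᵢ (QuadraticMap.polarBilin Q : LinearMap.BilinForm F (Fin n → F)) v :=
    ⟨_, by simp, LinearMap.BilinForm.exists_orthogonal_basis hsym⟩
  have hv0 : ∀ i, Q (v i) ≠ 0 := fun i h => by
    have := hv.not_isOrtho_basis_self_of_separatingLeft hQ.1 i
    apply this
    show QuadraticMap.polar Q (v i) (v i) = 0
    rw [Cfsg.Agent.Lib.Orth.Refl.polar_self_eq, h, mul_zero]
  have hortho : ∀ i j, i ≠ j → QuadraticMap.polar Q (v i) (v j) = 0 := fun i j hij => hv hij
  -- the word acts as `-1`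
  have hw : ∀ l : List (Fin N), l.Nodup → ∀ i,
      (l.map (fun j => refl Q (v j))).prod (v i) = if i ∈ l then - v i else v i := by
    intro l
    induction l with
    | nil => intro _ i; simp
    | cons a l ih =>
      intro hl i
      rw [List.nodup_cons] at hl
      simp only [List.map_cons, List.prod_cons, LinearEquiv.mul_apply]
      rw [ih hl.2 i]
      by_cases hi : i = a
      · subst hi
        simp only [hl.1, if_false, List.mem_cons, true_or, if_true]
        exact refl_self Q (hv0 i)
      · have hfix : refl Q (v a) (v i) = v i := refl_fix Q (hortho i a hi)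
        simp only [List.mem_cons, hi, false_or]
        split_ifs
        · rw [map_neg, hfix]
        · exact hfix
  let vs : List (Fin n → F) := (List.finRange N).map v
  have hvs : ∀ w ∈ vs, Q w ≠ 0 := by
    intro w hw
    obtain ⟨j, _, rfl⟩ := List.mem_map.mp hw
    exact hv0 j
  have hvsmat : ∀ x, (vs.map (refl Q)).prod x = - x := by
    intro x
    have : ((vs.map (refl Q)).prod : (Fin n → F) →ₗ[F] (Fin n → F)) = - LinearMap.id := by
      apply v.ext
      intro i
      have h3 := hw (List.finRange N) (List.nodup_finRange N) i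
      simp only [List.mem_finRange, if_true] at h3
      simp only [vs, List.map_map]
      exact h3
    exact congrArg (fun f : (Fin n → F) →ₗ[F] (Fin n → F) => f x) this
  have hmat : (vs.map (fun v => Cfsg.reflectionMatrix ⇑Q v)).prod = -1 := by
    apply Matrix.toLin'.injective
    apply LinearMap.ext
    intro x
    have h3 := Cfsg.Agent.Lib.Orth.Bridge.word_mulVec Q vs x
    rw [Matrix.toLin'_apply, Matrix.toLin'_apply, h3, hvsmat, Matrix.neg_mulVec, Matrix.one_mulVec]
  let g : ↥(Cfsg.isometryGroup F ⇑Q) := ⟨-1, (Cfsg.Agent.Lib.Orth.Bridge.mem_isometryGroup_iff _ _).mpr (fun x => by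
    show Q (((-1 : Matrix (Fin n) (Fin n) F)) *ᵥ x) = Q x
    rw [Matrix.neg_mulVec, Matrix.one_mulVec, QuadraticMap.map_neg])⟩
  have hgword : ((g : Matrix.GeneralLinearGroup (Fin n) F) : Matrix (Fin n) (Fin n) F) =
      (vs.map (fun v => Cfsg.reflectionMatrix ⇑Q v)).prod := by
    rw [hmat]
    simp [g]
  have hO := Cfsg.Agent.Lib.Orth.Bridge.word_mem_Omega_iff Q hQ (Or.inl hc) g vs hvs hgword
  have hlen : vs.length = N := by simp [vs]
  have heven : Even vs.length := by
    rw [hlen, hNn]
    exact he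
  -- Gram determinants
  let G : Matrix (Fin n) (Fin n) F := Matrix.of (fun i j : Fin n => QuadraticMap.polar ⇑Q (Pi.single i 1) (Pi.single j 1))
  obtain ⟨d, hd, hdet⟩ := Cfsg.Agent.Lib.Orth.Gram.det_gram_basis G v
  have hdiag : (Matrix.of fun i j => v i ⬝ᵥ (G.mulVec (v j))) = Matrix.diagonal (fun i => 2 * Q (v i)) := by
    ext i j
    rw [Matrix.of_apply, ← Cfsg.Agent.Lib.Orth.Forms.polar_eq_gram]
    by_cases hij : i = j
    · subst hij
      simp
    · rw [hortho i j hij]
      simp [hij]
  obtain ⟨k, hk⟩ := he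
  have hprod : (vs.map (fun v => Q v)).prod = ∏ i, Q (v i) := by
    simp only [vs, List.map_map]
    rw [← List.ofFn_eq_map, List.prod_ofFn]
    rfl
  have hdd : (2 : F) ^ k * 2 ^ k * (∏ i, Q (v i)) = d * d * G.det := by
    have hN2 : (2 : F) ^ N = 2 ^ k * 2 ^ k := by rw [hNn, hk, pow_add]
    rw [← hdet, hdiag, Matrix.det_diagonal, Finset.prod_mul_distrib, Finset.prod_const, Finset.card_univ,
      Fintype.card_fin, hN2]
  have hsq : IsSquare (vs.map (fun v => Q v)).prod ↔ IsSquare G.det := by
    rw [hprod, ← Cfsg.Agent.Lib.Orth.Gram.isSquare_mul_self_mul_iff (pow_ne_zero k h2), hdd,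
      Cfsg.Agent.Lib.Orth.Gram.isSquare_mul_self_mul_iff hd]
  constructor
  · rintro ⟨g', hg', hg'm⟩
    have h4 := Cfsg.Agent.Lib.Orth.Bridge.word_mem_Omega_iff Q hQ (Or.inl hc) g' vs hvs (hg'm.trans hmat.symm)
    exact hsq.mp (h4.mp hg').2
  · intro hs
    exact ⟨g, hO.mpr ⟨heven, hsq.mpr hs⟩, by simp [g]⟩

end Cfsg.Agent.S2610
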