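import Cfsg.Statements.S2612
import Cfsg.Agent.Lib.Orth.PlusParity

set_option autoImplicit false
open Cfsg

namespace Cfsg.Agent.S2612

/-- For the hyperbolic quadratic form Σ x_i y_i on F^(2m) (F finite, m ≥ 1, excluding m = 2 over the field of two elements), Ω⁺_2m(F) (the commutator subgroup of the orthogonal group) contains an element interchanging the two complementary maximal totally singular subspaces {y = 0} and {x = 0} if and only if m is even (dimension divisible by 4). -/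
theorem result {F : Type*} [Field F] [Fintype F] {m : ℕ} (hm : 1 ≤ m) (h : Fintype.card F ≠ 2 ∨ m ≠ 2) : (∃ g : ↥(Cfsg.isometryGroup F (Cfsg.quadFormPlus m F)), g ∈ Cfsg.Omega F (Cfsg.quadFormPlus m F) ∧ (∀ v : Fin m ⊕ Fin m → F, (∀ i, v (Sum.inr i) = 0) → ∀ i, (((g : Matrix.GeneralLinearGroup (Fin m ⊕ Fin m) F) : Matrix (Fin m ⊕ Fin m) (Fin m ⊕ Fin m) F).mulVec v) (Sum.inl i) = 0) ∧ (∀ v : Fin m ⊕ Fin m → F, (∀ i, v (Sum.inl i) = 0) → ∀ i, (((g : Matrix.GeneralLinearGroup (Fin m ⊕ Fin m) F) : Matrix (Fin m ⊕ Fin m) (Fin m ⊕ Fin m) F).mulVec v) (Sum.inr i) = 0)) ↔ Even m := by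
  open Cfsg.Agent.Lib.Orth.PlusParity Cfsg.Agent.Lib.Orth.Closure Cfsg.Agent.Lib.Orth.Forms Cfsg.Agent.Lib.Orth.Spin Cfsg.Agent.Lib.Orth.Bridge Cfsg.Agent.Lib.QuadFn.PlusForm in
  have hc := plus_card (F := F) h
  constructor
  · rintro ⟨g, hg, h1, h3⟩
    have h4 := (mem_Omega_iff (plusForm m F) (plusForm_nondeg m) hc g).mp hg
    have h5 := rp_plus h g
    rw [h4.1] at h5
    have h6 : (stdM F m ⊓ (stdM F m).map (Matrix.mulVecLin ((g : Matrix.GeneralLinearGroup (Fin m ⊕ Fin m) F) : Matrix (Fin m ⊕ Fin m) (Fin m ⊕ Fin m) F))) = ⊥ := by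
      rw [eq_bot_iff]
      rintro x ⟨hx1, y, hy, rfl⟩
      have hy2 : ∀ i, y (Sum.inr i) = 0 := by
        intro i
        have : LinearMap.funLeft F F (Sum.inr : Fin m → Fin m ⊕ Fin m) y = 0 := hy
        exact congrFun this i
      have hx2 : ∀ i, (Matrix.mulVecLin ((g : Matrix.GeneralLinearGroup (Fin m ⊕ Fin m) F) : Matrix (Fin m ⊕ Fin m) (Fin m ⊕ Fin m) F) y) (Sum.inr i) = 0 := by
        intro i
        have : LinearMap.funLeft F F (Sum.inr : Fin m → Fin m ⊕ Fin m) (Matrix.mulVecLin ((g : Matrix.GeneralLinearGroup (Fin m ⊕ Fin m) F) : Matrix (Fin m ⊕ Fin m) (Fin m ⊕ Fin m) F) y) = 0 := hx1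
        exact congrFun this i
      rw [Submodule.mem_bot]
      funext k
      rcases k with k | k
      · exact h1 y hy2 k
      · exact hx2 k
    rw [h6, finrank_bot, Nat.sub_zero] at h5
    exact (ZMod.natCast_eq_zero_iff_even).mp h5.symm
  · intro he
    obtain ⟨vs, h1, h3, h4, h5⟩ := exists_word_swap (F := F) m le_rfl
    let g := (vs.map (reflEl (plusForm m F))).prod
    have hgv := word_val (plusForm m F) vs
    have hact : ∀ x k, (((g : Matrix.GeneralLinearGroup (Fin m ⊕ Fin m) F) : Matrix (Fin m ⊕ Fin m) (Fin m ⊕ Fin m) F).mulVec x) k =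
        x (Sum.swap k) := by
      intro x k
      rw [hgv, word_mulVec, h5]
      rcases k with k | k <;> simp
    refine ⟨g, ?_, ?_, ?_⟩
    · refine (word_mem_Omega_iff (plusForm m F) (plusForm_nondeg m) hc g vs h1 hgv).mpr ?_
      rw [h3, h4, he.neg_one_pow]
      exact ⟨he, IsSquare.one⟩
    · intro v hv i
      rw [hact]
      exact hv i
    · intro v hv i
      rw [hact]
      exact hv i

end Cfsg.Agent.S2612
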