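import Cfsg.Statements.S2614
import Cfsg.Agent.Lib.Orth.Words

set_option autoImplicit false
open Cfsg

namespace Cfsg.Agent.S2614

/-- For the form x_0² + Σ x_j y_j on F^(2m+1), F finite with q elements, q odd, and 1 ≤ i ≤ m: the involution of determinant one negating the first i hyperbolic pairs (and fixing x_0 and the other pairs) lies in Ω_(2m+1)(q) (commutator subgroup of the orthogonal group) if and only if q^i ≡ 1 (mod 4); its (−1)-eigenspace is a hyperbolic 2i-space. -/
theorem result {F : Type*} [Field F] [Fintype F] {q : ℕ} (hF : Fintype.card F = q) (hq : Odd q) {m : ℕ} (i : ℕ) (hi : 1 ≤ i) (him : i ≤ m) : (∃ g : ↥(Cfsg.isometryGroup F (Cfsg.quadFormOdd m F)), g ∈ Cfsg.Omega F (Cfsg.quadFormOdd m F) ∧ ((g : Matrix.GeneralLinearGroup (Unit ⊕ (Fin m ⊕ Fin m)) F) : Matrix (Unit ⊕ (Fin m ⊕ Fin m)) (Unit ⊕ (Fin m ⊕ Fin m)) F) = Matrix.diagonal (fun k : Unit ⊕ (Fin m ⊕ Fin m) => if (Sum.elim (fun _ : Unit => i) (Sum.elim (fun j : Fin m => (j : ℕ)) (fun j : Fin m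 => (j : ℕ))) k) < i then (-1 : F) else 1)) ↔ q ^ i % 4 = 1 := by
  have h2 : (2 : F) ≠ 0 := by
    intro h20
    have hch : ringChar F = 2 := CharP.ringChar_of_prime_eq_zero Nat.prime_two (by exact_mod_cast h20)
    obtain ⟨n, hn, hcard⟩ := FiniteField.card F (ringChar F)
    rw [hch] at hcard
    rw [hF] at hcard
    rw [hcard] at hq
    have : Even (2 ^ (n : ℕ)) := (Nat.even_pow' n.ne_zero).mpr even_two
    exact (Nat.not_even_iff_odd.mpr hq) this
  have hfun : (fun k : Unit ⊕ (Fin m ⊕ Fin m) => if (Sum.elim (fun _ : Unit => i) (Sum.elim (fun j : Fin m => (j : ℕ)) (fun j : Fin m => (j : ℕ))) k) < i then (-1 : F) else 1) =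
      (fun k : Unit ⊕ (Fin m ⊕ Fin m) => if (Sum.elim (fun _ : Unit => m) (Sum.elim (fun j : Fin m => (j : ℕ)) (fun j : Fin m => (j : ℕ))) k) < i then (-1 : F) else 1) := by
    funext k
    rcases k with k | k
    · have h3 : ¬ m < i := by omega
      simp [h3]
    · rfl
  rw [hfun]
  exact Cfsg.Agent.Lib.Orth.Words.neg_levels_mem_Omega_iff (Q := Cfsg.Agent.Lib.Orth.Forms.oddForm m F)
    (Cfsg.Agent.Lib.Orth.Forms.oddForm_nondeg m h2) hF hq _
    (fun j => Sum.inr (Sum.inl j)) (fun j => Sum.inr (Sum.inr j)) (Cfsg.Agent.Lib.Orth.Words.odd_pair m) (fun j => ⟨rfl, rfl⟩)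
    (fun k j hk => by
      rcases k with k | k | k
      · exfalso
        have h1 : m = (j : ℕ) := hk
        have := j.2
        omega
      · left
        congr 2
        exact Fin.ext hk
      · right
        congr 2
        exact Fin.ext hk) i him

end Cfsg.Agent.S2614
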