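import Cfsg.Statements.S2617

set_option autoImplicit false
open Cfsg

namespace Cfsg.Agent.S2617

/-- Two subspaces of `X → F` orthogonal for the dot product have dimensions adding to at most `|X|`. -/
private lemma finrank_add_le_of_dot {F : Type*} [Field F] {X : Type} [Fintype X] [DecidableEq X]
    (U₁ U₂ : Submodule F (X → F)) (h : ∀ u ∈ U₁, ∀ w ∈ U₂, u ⬝ᵥ w = 0) :
    Module.finrank F U₁ + Module.finrank F U₂ ≤ Fintype.card X := by
  set B : LinearMap.BilinForm F (X → F) := Matrix.toBilin' (1 : Matrix X X F) with hB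
  have hnd : B.Nondegenerate := by
    rw [hB, Matrix.nondegenerate_toBilin'_iff]
    exact Matrix.nondegenerate_iff_det_ne_zero.mpr (by simp)
  have hle : U₂ ≤ B.orthogonal U₁ := by
    intro w hw
    refine LinearMap.BilinForm.mem_orthogonal_iff.mpr fun u hu => ?_
    show B u w = 0
    rw [hB, Matrix.toBilin'_apply', Matrix.one_mulVec]
    exact h u hu w hw
  have h2 := LinearMap.BilinForm.finrank_orthogonal hnd U₁
  have h3 := Submodule.finrank_mono hle
  have h4 := Submodule.finrank_le U₁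
  simp only [Module.finrank_fintype_fun_eq_card] at h2 h4
  omega

private lemma core {F : Type*} [Field F] [Finite F] (k : ℕ) (ζ : F) (hζ : ∀ t : F, t ^ 2 + t + ζ ≠ 0) (g : (Fin (k + 1) ⊕ Fin (k + 1) → F) ≃ₗ[F] ((Fin k ⊕ Fin k) ⊕ Fin 2 → F)) (hg : ∀ v : Fin (k + 1) ⊕ Fin (k + 1) → F, Cfsg.quadFormMinus k F 1 ζ (g v) = Cfsg.quadFormPlus (k + 1) F v) : False := by
  classical
  -- the `m`-dimensional family of singular vectors
  let ι : (Fin (k + 1) → F) →ₗ[F] (Fin (k + 1) ⊕ Fin (k + 1) → F) :=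
    { toFun := fun a => Sum.elim a 0
      map_add' := fun a b => by ext (i | i) <;> simp
      map_smul' := fun c a => by ext (i | i) <;> simp }
  have hι : Function.Injective ι := by
    intro a b hab
    ext i
    exact congrFun hab (Sum.inl i)
  let G : (Fin (k + 1) → F) →ₗ[F] ((Fin k ⊕ Fin k) ⊕ Fin 2 → F) := (g : _ →ₗ[F] _).comp ι
  have hG : Function.Injective G := g.injective.comp hι
  have hGQ : ∀ a, Cfsg.quadFormMinus k F 1 ζ (G a) = 0 := by
    intro a
    show Cfsg.quadFormMinus k F 1 ζ (g (ι a)) = 0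
    rw [hg]
    simp [Cfsg.quadFormPlus, ι]
  let px : ((Fin k ⊕ Fin k) ⊕ Fin 2 → F) →ₗ[F] (Fin k → F) :=
    LinearMap.funLeft F F (fun i => Sum.inl (Sum.inl i))
  let py : ((Fin k ⊕ Fin k) ⊕ Fin 2 → F) →ₗ[F] (Fin k → F) :=
    LinearMap.funLeft F F (fun i => Sum.inl (Sum.inr i))
  let Y : (Fin (k + 1) → F) →ₗ[F] (Fin k → F) := py.comp G
  let X : (Fin (k + 1) → F) →ₗ[F] (Fin k → F) := px.comp G
  have hQexp : ∀ w : (Fin k ⊕ Fin k) ⊕ Fin 2 → F, Cfsg.quadFormMinus k F 1 ζ w =
      (px w) ⬝ᵥ (py w) + (w (Sum.inr 0) ^ 2 + 1 * w (Sum.inr 0) * w (Sum.inr 1) + ζ * w (Sum.inr 1) ^ 2) := by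
    intro w
    simp [Cfsg.quadFormMinus, px, py, dotProduct, LinearMap.funLeft_apply]
  -- anisotropy of the binary part
  have haniso : ∀ z₁ z₂ : F, z₁ ^ 2 + 1 * z₁ * z₂ + ζ * z₂ ^ 2 = 0 → z₁ = 0 ∧ z₂ = 0 := by
    intro z₁ z₂ h
    by_cases hz : z₂ = 0
    · subst hz
      refine ⟨?_, rfl⟩
      simpa using h
    · exfalso
      apply hζ (z₁ / z₂)
      field_simp
      linear_combination h
  -- kernel of `Y`: `X` is injective there
  let K : Submodule F (Fin (k + 1) → F) := LinearMap.ker Y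
  have hXinj : Function.Injective (X.domRestrict K) := by
    rw [← LinearMap.ker_eq_bot, Submodule.eq_bot_iff]
    rintro ⟨a, ha⟩ hXa
    have hXa' : X a = 0 := hXa
    have hYa : Y a = 0 := ha
    have h0 := hGQ a
    rw [hQexp] at h0
    have hpx : px (G a) = 0 := hXa'
    have hpy : py (G a) = 0 := hYa
    rw [hpx] at h0
    simp only [zero_dotProduct, zero_add] at h0
    obtain ⟨hz1, hz2⟩ := haniso _ _ h0
    have : G a = 0 := by
      ext (((i | i)) | i)
      · exact congrFun hpx i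
      · exact congrFun hpy i
      · fin_cases i
        · exact hz1
        · exact hz2
    have ha0 : a = 0 := hG (by rw [this, map_zero])
    exact Subtype.ext ha0
  -- orthogonality
  have horth : ∀ a ∈ K, ∀ b, X a ⬝ᵥ Y b = 0 := by
    intro a ha b
    have hYa : py (G a) = 0 := ha
    have h1 := hGQ (a + b)
    have h2 := hGQ a
    have h3 := hGQ b
    rw [hQexp, map_add, map_add, map_add, hYa, zero_add, add_dotProduct] at h1
    rw [hQexp, hYa, dotProduct_zero, zero_add] at h2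
    rw [hQexp] at h3
    have hh : ((G a) (Sum.inr 0)) = 0 ∧ ((G a) (Sum.inr 1)) = 0 := haniso _ _ h2
    simp only [Pi.add_apply, hh.1, hh.2, zero_add] at h1
    show px (G a) ⬝ᵥ py (G b) = 0
    linear_combination h1 - h3
  have hdim := finrank_add_le_of_dot (LinearMap.range (X.domRestrict K)) (LinearMap.range Y)
    (by
      rintro _ ⟨⟨a, ha⟩, rfl⟩ _ ⟨b, rfl⟩
      exact horth a ha b)
  rw [LinearMap.finrank_range_of_inj hXinj, Fintype.card_fin] at hdim
  have hrn := LinearMap.finrank_range_add_finrank_ker Y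
  simp only [Module.finrank_fintype_fun_eq_card, Fintype.card_fin] at hrn
  have : Module.finrank F K = Module.finrank F (LinearMap.ker Y) := rfl
  omega

/-- The two standard quadratic forms of even dimension 2m over a finite field are not isometric: there is no linear isomorphism carrying the elliptic form Σ_(i<m−1) x_i y_i + z₁² + z₁z₂ + ζ z₂² (t² + t + ζ without roots) to the hyperbolic form Σ_(i<m) x_i y_i (they have different Witt index). -/
theorem result {F : Type*} [Field F] [Finite F] {m : ℕ} (hm : 1 ≤ m) (ζ : F) (hζ : ∀ t : F, t ^ 2 + t + ζ ≠ 0) (g : (Fin m ⊕ Fin m → F) ≃ₗ[F] ((Fin (m - 1) ⊕ Fin (m - 1)) ⊕ Fin 2 → F)) : ¬ (∀ v : Fin m ⊕ Fin m → F, Cfsg.quadFormMinus (m - 1) F 1 ζ (g v) = Cfsg.quadFormPlus m F v) := by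
  intro hg
  obtain ⟨k, rfl⟩ : ∃ k, m = k + 1 := ⟨m - 1, by omega⟩
  exact core k ζ hζ g hg
end Cfsg.Agent.S2617
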