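import Cfsg.Statements.S2619

set_option autoImplicit false
open Cfsg

namespace Cfsg.Agent.S2619

/-- Over a finite field of characteristic two, given an alternating bilinear form B on a finite-dimensional space, a basis (v_i) and scalars (λ_i), there is exactly one quadratic form whose polar form is B and whose value at each v_i is λ_i. -/
theorem result {F V ι : Type*} [Field F] [Finite F] [CharP F 2] [AddCommGroup V] [Module F V] [Fintype ι] (b : Module.Basis ι F V) (B : LinearMap.BilinForm F V) (hB : B.IsAlt) (c : ι → F) : ∃! Q : QuadraticForm F V, QuadraticMap.polarBilin Q = B ∧ ∀ i, Q (b i) = c i := by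
  classical
  let _ : LinearOrder ι := LinearOrder.lift' (Fintype.equivFin ι) (Fintype.equivFin ι).injective
  have hsymm : ∀ x y, B x y = B y x := by
    intro x y
    exact (hB.neg_eq y x).symm.trans (CharTwo.neg_eq (B y x))
  let M : Matrix ι ι F := fun i j => if i < j then B (b i) (b j) else if i = j then c i else 0
  let A : LinearMap.BilinForm F V := Matrix.toBilin b M
  have hA : ∀ i j, A (b i) (b j) = M i j := by
    intro i j
    have h : LinearMap.BilinForm.toMatrix b A = M := by
      simp [A]
    rw [← h, LinearMap.BilinForm.toMatrix_apply]
  refine ⟨LinearMap.BilinMap.toQuadraticMap A, ⟨?_, ?_⟩, ?_⟩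
  · refine LinearMap.BilinForm.ext_basis b fun i j => ?_
    show QuadraticMap.polar (LinearMap.BilinMap.toQuadraticMap A) (b i) (b j) = B (b i) (b j)
    rw [LinearMap.BilinMap.polar_toQuadraticMap, hA, hA]
    simp only [M]
    rcases lt_trichotomy i j with h | h | h
    · simp [h, not_lt.mpr h.le, h.ne']
    · subst h
      simp [hB.self_eq_zero, CharTwo.add_self_eq_zero]
    · simp [h, not_lt.mpr h.le, h.ne', hsymm (b i) (b j)]
  · intro i
    show A (b i) (b i) = c i
    rw [hA]
    simp [M]
  · rintro Q' ⟨hpol, hval⟩
    have hv : ∀ v : V, Q' v = A v v := by
      intro v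
      have hmem : v ∈ Submodule.span F (Set.range b) := by
        rw [b.span_eq]; trivial
      have hAval : ∀ i, A (b i) (b i) = c i := by
        intro i
        rw [hA]; simp [M]
      have hApol : ∀ x y, A x y + A y x = B x y := by
        intro x y
        have : QuadraticMap.polar (LinearMap.BilinMap.toQuadraticMap A) x y = B x y := by
          have h2 : QuadraticMap.polarBilin (LinearMap.BilinMap.toQuadraticMap A) = B := by
            refine LinearMap.BilinForm.ext_basis b fun i j => ?_
            show QuadraticMap.polar (LinearMap.BilinMap.toQuadraticMap A) (b i) (b j) = B (b i) (b j)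
            rw [LinearMap.BilinMap.polar_toQuadraticMap, hA, hA]
            simp only [M]
            rcases lt_trichotomy i j with h | h | h
            · simp [h, not_lt.mpr h.le, h.ne']
            · subst h
              simp [hB.self_eq_zero, CharTwo.add_self_eq_zero]
            · simp [h, not_lt.mpr h.le, h.ne', hsymm (b i) (b j)]
          exact congrArg (fun C : LinearMap.BilinForm F V => C x y) h2
        rw [LinearMap.BilinMap.polar_toQuadraticMap] at this
        exact this
      have hQpol : ∀ x y, Q' (x + y) = Q' x + Q' y + B x y := by
        intro x y
        have : QuadraticMap.polar Q' x y = B x y := by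
          exact congrArg (fun C : LinearMap.BilinForm F V => C x y) hpol
        simp only [QuadraticMap.polar] at this
        rw [← this]; ring
      induction hmem using Submodule.span_induction with
      | mem x hx =>
        obtain ⟨i, rfl⟩ := hx
        rw [hval, hAval]
      | zero => simp
      | add x y _ _ hx hy =>
        rw [hQpol, hx, hy, map_add, map_add, LinearMap.add_apply, LinearMap.add_apply, ← hApol x y]
        ring
      | smul a x _ hx =>
        rw [QuadraticMap.map_smul, hx]
        simp only [map_smul, LinearMap.smul_apply, smul_eq_mul]
        ring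
    ext v
    rw [hv]
    rfl

end Cfsg.Agent.S2619
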