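import Cfsg.Statements.S2623
import Cfsg.Agent.Lib.QuadDisc.Classify
import Cfsg.Agent.Lib.Orth.Forms

set_option autoImplicit false
open Cfsg

namespace Cfsg.Agent.S2623

/-- Over a finite field of odd order, two quadratic forms on F^n with non-degenerate polar forms are isometric (related by an invertible linear change of variables) if and only if their discriminants (determinants of the Gram matrices of their polar forms) lie in the same square class. -/
theorem result {F : Type*} [Field F] [Fintype F] (h2 : (2 : F) ≠ 0) {n : ℕ} (Q₁ Q₂ : QuadraticForm F (Fin n → F)) (h₁ : (QuadraticMap.polarBilin Q₁).Nondegenerate) (h₂ : (QuadraticMap.polarBilin Q₂).Nondegenerate) : (∃ g : (Fin n → F) ≃ₗ[F] (Fin n → F), ∀ v, Q₂ (g v) = Q₁ v) ↔ IsSquare ((Matrix.of (fun i j : Fin n => QuadraticMap.polar ⇑Q₁ (Pi.single i 1) (Pi.single j 1))).det * (Matrix.of (fun i j : Fin n => QuadraticMap.polar ⇑Q₂ (Pi.single i 1) (Pi.single j 1))).det) := by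
  classical
  set G₁ : Matrix (Fin n) (Fin n) F := Matrix.of (fun i j : Fin n => QuadraticMap.polar ⇑Q₁ (Pi.single i 1) (Pi.single j 1)) with hG₁
  set G₂ : Matrix (Fin n) (Fin n) F := Matrix.of (fun i j : Fin n => QuadraticMap.polar ⇑Q₂ (Pi.single i 1) (Pi.single j 1)) with hG₂
  have hstd : ∀ (Q : QuadraticForm F (Fin n → F)), LinearMap.BilinForm.toMatrix (Pi.basisFun F (Fin n)) (QuadraticMap.polarBilin Q : LinearMap.BilinForm F (Fin n → F)) =
      Matrix.of (fun i j : Fin n => QuadraticMap.polar ⇑Q (Pi.single i 1) (Pi.single j 1)) := by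
    intro Q
    ext i j
    rw [LinearMap.BilinForm.toMatrix_apply]
    simp only [Pi.basisFun_apply]
    rfl
  constructor
  · rintro ⟨g, hg⟩
    have hpol : ∀ x y, QuadraticMap.polar ⇑Q₂ (g x) (g y) = QuadraticMap.polar ⇑Q₁ x y := by
      intro x y
      simp only [QuadraticMap.polar, ← map_add, hg]
    let b : Module.Basis (Fin n) F (Fin n → F) := (Pi.basisFun F (Fin n)).map g
    obtain ⟨d, hd, hdet⟩ := Cfsg.Agent.Lib.Orth.Gram.det_gram_basis G₂ b
    have h1 : (Matrix.of fun i j => b i ⬝ᵥ (G₂.mulVec (b j))) = G₁ := by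
      ext i j
      rw [Matrix.of_apply, hG₂, ← Cfsg.Agent.Lib.Orth.Forms.polar_eq_gram]
      simp [b, hpol, hG₁]
    rw [h1] at hdet
    rw [hdet]
    exact ⟨d * G₂.det, by ring⟩
  · intro hsq
    set B₁ : LinearMap.BilinForm F (Fin n → F) := QuadraticMap.polarBilin Q₁ with hB₁
    set B₂ : LinearMap.BilinForm F (Fin n → F) := QuadraticMap.polarBilin Q₂ with hB₂
    have hS₁ : LinearMap.BilinForm.IsSymm B₁ := ⟨fun x y => QuadraticMap.polar_comm _ x y⟩
    have hS₂ : LinearMap.BilinForm.IsSymm B₂ := ⟨fun x y => QuadraticMap.polar_comm _ x y⟩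
    obtain ⟨u₁, hu₁, e₁⟩ := Cfsg.Agent.Lib.QuadDisc.Basic.det_gram_change (Pi.basisFun F (Fin n)) (Module.finBasis F (Fin n → F)) B₁
    obtain ⟨u₂, hu₂, e₂⟩ := Cfsg.Agent.Lib.QuadDisc.Basic.det_gram_change (Pi.basisFun F (Fin n)) (Module.finBasis F (Fin n → F)) B₂
    obtain ⟨g, hg⟩ := Cfsg.Agent.Lib.QuadDisc.Classify.exists_isometry h2 B₁ B₂ h₁ h₂ hS₁ hS₂ rfl (by
      rw [e₁, e₂, hstd, hstd]
      obtain ⟨r, hr⟩ := hsq
      refine ⟨u₁ * u₂ * r, ?_⟩
      have : (Matrix.of (fun i j : Fin n => QuadraticMap.polar ⇑Q₁ (Pi.single i 1) (Pi.single j 1))).det * (Matrix.of (fun i j : Fin n => QuadraticMap.polar ⇑Q₂ (Pi.single i 1) (Pi.single j 1))).det = r * r := hr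
      linear_combination (u₁ * u₁ * (u₂ * u₂)) * this)
    refine ⟨g, fun v => ?_⟩
    have h3 := hg v v
    have h4 : B₂ (g v) (g v) = 2 * Q₂ (g v) := by
      change QuadraticMap.polar Q₂ (g v) (g v) = _
      rw [QuadraticMap.polar_self]
      simp
    have h5 : B₁ v v = 2 * Q₁ v := by
      change QuadraticMap.polar Q₁ v v = _
      rw [QuadraticMap.polar_self]
      simp
    rw [h4, h5] at h3
    exact mul_left_cancel₀ h2 h3

end Cfsg.Agent.S2623
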