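import Cfsg.Statements.S2624
import Cfsg.Agent.Lib.QuadDisc.Classify
import Cfsg.Agent.Lib.Orth.Forms

set_option autoImplicit false
open Cfsg

namespace Cfsg.Agent.S2624

/-- For a quadratic form Q on F^n with non-degenerate polar form, F finite and n ≥ 2 even, every non-zero scalar c is the multiplier of some similarity: there is an invertible linear map g with Q(g v) = c·Q(v) for all v. -/
theorem result {F : Type*} [Field F] [Fintype F] {n : ℕ} (hn : 2 ≤ n) (he : Even n) (Q : QuadraticForm F (Fin n → F)) (hQ : (QuadraticMap.polarBilin Q).Nondegenerate) (c : F) (hc : c ≠ 0) : ∃ g : (Fin n → F) ≃ₗ[F] (Fin n → F), ∀ v, Q (g v) = c * Q v := by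
  classical
  by_cases h2 : (2 : F) = 0
  · -- characteristic two: every scalar is a square
    have hch : ringChar F = 2 := CharP.ringChar_of_prime_eq_zero Nat.prime_two (by exact_mod_cast h2)
    obtain ⟨d, hd⟩ := FiniteField.isSquare_of_char_two hch c
    have hd0 : d ≠ 0 := by
      rintro rfl
      exact hc (by simpa using hd)
    refine ⟨LinearEquiv.smulOfNeZero F _ d hd0, fun v => ?_⟩
    rw [LinearEquiv.smulOfNeZero_apply, QuadraticMap.map_smul, smul_eq_mul, hd]
  · set B : LinearMap.BilinForm F (Fin n → F) := QuadraticMap.polarBilin Q with hB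
    have hS : LinearMap.BilinForm.IsSymm B := ⟨fun x y => QuadraticMap.polar_comm _ x y⟩
    have hb : LinearMap.BilinForm.Nondegenerate B := hQ
    let b := Module.finBasis F (Fin n → F)
    set d := (LinearMap.BilinForm.toMatrix b B).det with hd
    have hd0 : d ≠ 0 := (Cfsg.Agent.Lib.QuadDisc.Basic.nondegenerate_iff_det b B).mp hb
    have hcardb : Fintype.card (Fin (Module.finrank F (Fin n → F))) = n := by simp
    have hdet : (LinearMap.BilinForm.toMatrix b (c • B)).det = c ^ n * d := by
      rw [map_smul, Matrix.det_smul, hcardb]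
    have hS' : LinearMap.BilinForm.IsSymm (c • B) := hS.smul c
    have hnd : LinearMap.BilinForm.Nondegenerate (c • B) := by
      rw [Cfsg.Agent.Lib.QuadDisc.Basic.nondegenerate_iff_det b, hdet]
      exact mul_ne_zero (pow_ne_zero _ hc) hd0
    obtain ⟨g, hg⟩ := Cfsg.Agent.Lib.QuadDisc.Classify.exists_isometry h2 (c • B) B hnd hb hS' hS rfl (by
      obtain ⟨m, hm⟩ := he
      have hb' : b = Module.finBasis F (Fin n → F) := rfl
      rw [← hb', hdet, ← hd]
      refine ⟨c ^ m * d, ?_⟩
      rw [hm, pow_add]
      ring)
    refine ⟨g, fun v => ?_⟩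
    have h3 := hg v v
    simp only [LinearMap.smul_apply, smul_eq_mul] at h3
    have h4 : B (g v) (g v) = 2 * Q (g v) := by
      change QuadraticMap.polar Q (g v) (g v) = _
      rw [QuadraticMap.polar_self]
      simp
    have h5 : B v v = 2 * Q v := by
      change QuadraticMap.polar Q v v = _
      rw [QuadraticMap.polar_self]
      simp
    rw [h4, h5] at h3
    apply mul_left_cancel₀ h2
    linear_combination h3

end Cfsg.Agent.S2624
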