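import Cfsg.Statements.S2625

set_option autoImplicit false
open Cfsg

namespace Cfsg.Agent.S2625

/-- For a quadratic form Q on F^n with non-degenerate polar form, F finite and n odd (so |F| is odd), the multiplier of any similarity is a square: if g is an invertible linear map with Q(g v) = c·Q(v) for all v then c is a square. -/
theorem result {F : Type*} [Field F] [Fintype F] {n : ℕ} (hn : Odd n) (Q : QuadraticForm F (Fin n → F)) (hQ : (QuadraticMap.polarBilin Q).Nondegenerate) (g : (Fin n → F) ≃ₗ[F] (Fin n → F)) (c : F) (hg : ∀ v, Q (g v) = c * Q v) : IsSquare c := by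
  classical
  set B : LinearMap.BilinForm F (Fin n → F) := QuadraticMap.polarBilin Q with hB
  have hcomp : LinearMap.BilinForm.comp B (g : (Fin n → F) →ₗ[F] (Fin n → F)) (g : (Fin n → F) →ₗ[F] (Fin n → F)) = c • B := by
    refine LinearMap.BilinForm.ext fun u v => ?_
    show QuadraticMap.polar Q (g u) (g v) = c * QuadraticMap.polar Q u v
    simp only [QuadraticMap.polar, ← map_add, hg]
    ring
  have hdet : (LinearMap.BilinForm.toMatrix' B).det ≠ 0 := by
    have := (LinearMap.BilinForm.nondegenerate_toMatrix'_iff (B := B)).mpr hQ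
    exact (Matrix.nondegenerate_iff_det_ne_zero).mp this
  have hM := congrArg LinearMap.BilinForm.toMatrix' hcomp
  rw [LinearMap.BilinForm.toMatrix'_comp, map_smul] at hM
  have hd := congrArg Matrix.det hM
  rw [Matrix.det_mul, Matrix.det_mul, Matrix.det_transpose, Matrix.det_smul, Fintype.card_fin] at hd
  set d := (LinearMap.toMatrix' (g : (Fin n → F) →ₗ[F] (Fin n → F))).det with hd'
  have h2 : d * d = c ^ n := by
    apply mul_right_cancel₀ hdet
    rw [← hd]; ring
  obtain ⟨k, rfl⟩ := hn
  by_cases hc : c = 0
  · rw [hc]; exact IsSquare.zero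
  refine ⟨d / c ^ k, ?_⟩
  have hck : c ^ k ≠ 0 := pow_ne_zero _ hc
  field_simp
  rw [pow_two d, h2]; ring

end Cfsg.Agent.S2625
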