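import Cfsg.Statements.S2629
import Cfsg.Agent.Lib.Orth.PlusParity

set_option autoImplicit false
open Cfsg

namespace Cfsg.Agent.S2629

/-- For the hyperbolic form Σ x_i y_i on F^(2m) over a finite field of odd order (m ≥ 1), an isometry g preserves the class of the maximal totally singular subspace U₀ = {y = 0} (that is, m − dim(U₀ ∩ gU₀) is even) if and only if det g = 1: the stabiliser of each of the two classes of maximal totally singular subspaces is SO. -/
theorem result {F : Type*} [Field F] [Fintype F] (h2 : (2 : F) ≠ 0) {m : ℕ} (hm : 1 ≤ m) (g : ↥(Cfsg.isometryGroup F (Cfsg.quadFormPlus m F))) : Even (m - Module.finrank F ↥(LinearMap.ker (LinearMap.funLeft F F (Sum.inr : Fin m → Fin m ⊕ Fin m)) ⊓ (LinearMap.ker (LinearMap.funLeft F F (Sum.inr : Fin m → Fin m ⊕ Fin m))).map (Matrix.mulVecLin ((g : Matrix.GeneralLinearGroup (Fin m ⊕ Fin m) F) : Matrix (Fin m ⊕ Fin m) (Fin m ⊕ Fin m) F)))) ↔ ((g : Matrix.GeneralLinearGroup (Fin m ⊕ Fin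 m) F) : Matrix (Fin m ⊕ Fin m) (Fin m ⊕ Fin m) F).det = 1 := by
  open Cfsg.Agent.Lib.Orth.PlusParity Cfsg.Agent.Lib.Orth.Closure Cfsg.Agent.Lib.Orth.Forms Cfsg.Agent.Lib.Orth.Spin Cfsg.Agent.Lib.Orth.Bridge in
  have hc := card_ne_two_of_two_ne h2
  have h1 := rp_plus (m := m) (Or.inl hc) g
  obtain ⟨vs, hvs, hg⟩ := exists_word (plusForm m F) (plusForm_nondeg m) (plus_card (m := m) (Or.inl hc)) g
  have hrp : rp ((toIso (plusForm m F) g : Cfsg.Agent.Lib.Witt.Quadratic.isoGroup (plusForm m F)) : (Fin m ⊕ Fin m → F) ≃ₗ[F] (Fin m ⊕ Fin m → F)) = (vs.length : ZMod 2) := by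
    rw [hg, Cfsg.Agent.Lib.Orth.Closure.toIso_word]
    exact (rp_word (plusForm_nondeg m) vs hvs).2.1
  have hdet : ((g : Matrix.GeneralLinearGroup (Fin m ⊕ Fin m) F) : Matrix (Fin m ⊕ Fin m) (Fin m ⊕ Fin m) F).det = (-1) ^ vs.length := by
    rw [hg]
    have := word_val (plusForm m F) vs
    rw [this]
    exact det_word (plusForm m F) vs hvs
  have h3 : Even (m - Module.finrank F ↥(LinearMap.ker (LinearMap.funLeft F F (Sum.inr : Fin m → Fin m ⊕ Fin m)) ⊓ (LinearMap.ker (LinearMap.funLeft F F (Sum.inr : Fin m → Fin m ⊕ Fin m))).map (Matrix.mulVecLin ((g : Matrix.GeneralLinearGroup (Fin m ⊕ Fin m) F) : Matrix (Fin m ⊕ Fin m) (Fin m ⊕ Fin m) F)))) ↔ Even vs.length := by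
    rw [← ZMod.natCast_eq_zero_iff_even, ← ZMod.natCast_eq_zero_iff_even, ← hrp]
    exact (Iff.of_eq (congrArg (· = (0 : ZMod 2)) h1)).symm
  rw [h3, hdet]
  constructor
  · intro he
    exact he.neg_one_pow
  · intro h4
    by_contra hodd
    rw [Nat.not_even_iff_odd] at hodd
    rw [hodd.neg_one_pow] at h4
    apply h2
    linear_combination - h4

end Cfsg.Agent.S2629
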