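import Cfsg.Statements.S2634
import Cfsg.Agent.Lib.Orth.Trans

set_option autoImplicit false
open Cfsg

namespace Cfsg.Agent.S2634

/-- Over a finite field of characteristic two, Ω (the commutator subgroup of the orthogonal group of a quadratic form Q on F^n with non-degenerate polar form; excluding dimension 4 over the field of two elements) acts transitively on the non-singular 1-spaces: for u, v with Q(u) ≠ 0 and Q(v) ≠ 0 some element of Ω carries the line through u to the line through v. -/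
theorem result {F : Type*} [Field F] [Fintype F] [CharP F 2] {n : ℕ} (h : Fintype.card F ≠ 2 ∨ n ≠ 4) (Q : QuadraticForm F (Fin n → F)) (hQ : (QuadraticMap.polarBilin Q).Nondegenerate) (u v : Fin n → F) (hu : Q u ≠ 0) (hv : Q v ≠ 0) : ∃ g : ↥(Cfsg.isometryGroup F ⇑Q), g ∈ Cfsg.Omega F ⇑Q ∧ (F ∙ ((g : Matrix.GeneralLinearGroup (Fin n) F) : Matrix (Fin n) (Fin n) F).mulVec u) = F ∙ v := by
  open Cfsg.Agent.Lib.Orth.Trans Cfsg.Agent.Lib.Orth.Spin Cfsg.Agent.Lib.Orth.Closure Cfsg.Agent.Lib.Orth.Refl Cfsg.Agent.Lib.Witt.Quadratic in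
  have hc' : Fintype.card F ≠ 2 ∨ Fintype.card (Fin n) ≠ 4 := by simpa using h
  have hu0 : u ≠ 0 := by
    rintro rfl
    simp at hu
  have hv0 : v ≠ 0 := by
    rintro rfl
    simp at hv
  have hch : ringChar F = 2 := ringChar.eq F 2
  obtain ⟨a, ha⟩ := FiniteField.isSquare_of_char_two hch (Q v * (Q u)⁻¹)
  have ha0 : a ≠ 0 := by
    rintro rfl
    have : Q v * (Q u)⁻¹ ≠ 0 := mul_ne_zero hv (inv_ne_zero hu)
    exact this (by simpa using ha)
  have hQau : Q (a • u) = Q v := by
    rw [QuadraticMap.map_smul, smul_eq_mul, ← ha]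
    field_simp
  have hau0 : a • u ≠ 0 := smul_ne_zero ha0 hu0
  have hneg : ∀ x : Fin n → F, - x = x := fun x => by
    funext i
    simp [CharTwo.neg_eq]
  obtain ⟨k, hk, hkv⟩ := witt_family hQ (fun _ : Unit => a • u) (fun _ : Unit => v)
    (LinearIndependent.of_subsingleton () hau0) (LinearIndependent.of_subsingleton () hv0)
    (fun _ _ => by simp only [polar_self_eq, hQau]) (fun _ => hQau)
  have hgen' := Cfsg.Agent.Lib.Orth.Bridge.hgen Q hQ hc'
  have hcases : ∀ a : ZMod 2, a = 0 ∨ a = 1 := by decide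
  -- the final element of `Ω`
  obtain ⟨e, he, her, hev⟩ : ∃ e ∈ isoGroup Q, rp e = 0 ∧ e (a • u) = v := by
    rcases hcases (rp k) with hr0 | hr1
    · exact ⟨k, hk, hr0, hkv ()⟩
    · refine ⟨k * refl Q u, Subgroup.mul_mem _ hk (refl_mem Q u), ?_, ?_⟩
      · have := (rp_sn_mul hQ hgen' hk (refl_mem Q u)).1
        rw [this, hr1, rp_refl hQ hu]
        decide
      · show k (refl Q u (a • u)) = v
        rw [map_smul, refl_self Q hu, hneg]
        exact hkv ()
  obtain ⟨g, hg, hge⟩ := exists_Omega_of_iso Q hQ hc' he her (sn_char_two Q e)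
  refine ⟨g, hg, ?_⟩
  have h1 : ((g : Matrix.GeneralLinearGroup (Fin n) F) : Matrix (Fin n) (Fin n) F).mulVec u = a⁻¹ • v := by
    have h2 : ((g : Matrix.GeneralLinearGroup (Fin n) F) : Matrix (Fin n) (Fin n) F).mulVec u = e u := by
      have := congrArg (fun f : (Fin n → F) →ₗ[F] (Fin n → F) => f u) hge
      exact this
    rw [h2, ← hev, map_smul, smul_smul, inv_mul_cancel₀ ha0, one_smul]
  rw [h1]
  exact Submodule.span_singleton_smul_eq (Ne.isUnit (inv_ne_zero ha0)) v

end Cfsg.Agent.S2634
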