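import Cfsg.Statements.S2635
import Cfsg.Agent.Lib.Orth.Trans

set_option autoImplicit false
open Cfsg

namespace Cfsg.Agent.S2635

/-- Over a finite field of characteristic two, for a quadratic form Q on F^n with non-degenerate polar form, n ≥ 2, other than dimension 4 over the field of two elements, Ω (the commutator subgroup of the orthogonal group) is exactly the subgroup generated by the products of two reflections (orthogonal transvections) x ↦ x − Q(v)⁻¹ f(x, v) v, Q(v) ≠ 0: the products of an even number of reflections. -/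
theorem result {F : Type*} [Field F] [Fintype F] [CharP F 2] {n : ℕ} (hn : 2 ≤ n) (h : Fintype.card F ≠ 2 ∨ n ≠ 4) (Q : QuadraticForm F (Fin n → F)) (hQ : (QuadraticMap.polarBilin Q).Nondegenerate) : Cfsg.Omega F ⇑Q = Subgroup.closure {g : ↥(Cfsg.isometryGroup F ⇑Q) | ∃ u v : Fin n → F, Q u ≠ 0 ∧ Q v ≠ 0 ∧ ((g : Matrix.GeneralLinearGroup (Fin n) F) : Matrix (Fin n) (Fin n) F) = Cfsg.reflectionMatrix ⇑Q u * Cfsg.reflectionMatrix ⇑Q v} := by
  open Cfsg.Agent.Lib.Orth.Trans Cfsg.Agent.Lib.Orth.Spin Cfsg.Agent.Lib.Orth.Closure Cfsg.Agent.Lib.Orth.Bridge in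
  have hc' : Fintype.card F ≠ 2 ∨ Fintype.card (Fin n) ≠ 4 := by simpa using h
  have hch : ringChar F = 2 := ringChar.eq F 2
  apply le_antisymm
  · intro g hg
    obtain ⟨vs, hvs, rfl⟩ := exists_word Q hQ hc' g
    apply word_mem_pairs Q vs hvs
    have h1 := (mem_Omega_iff_char_two Q hQ hc' _).mp hg
    rw [Cfsg.Agent.Lib.Orth.Closure.toIso_word, (rp_word hQ vs hvs).2.1] at h1
    exact (ZMod.natCast_eq_zero_iff_even).mp h1
  · rw [Subgroup.closure_le]
    rintro g ⟨u, v, hu, hv, hg⟩
    have h3 := word_mem_Omega_iff Q hQ hc' g [u, v] (by simp [hu, hv]) (by simpa using hg)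
    exact h3.mpr ⟨by simp, FiniteField.isSquare_of_char_two hch _⟩

end Cfsg.Agent.S2635
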