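import Cfsg.Statements.S2636

set_option autoImplicit false
open Cfsg

namespace Cfsg.Agent.S2636

open Matrix

variable {F : Type*} [Field F] [Fintype F] (σ : F ≃+* F) (n : ℕ)

/-- The fixed field of `σ`. -/
noncomputable abbrev F₀ : Subfield F := FixedPoints.subfield (Subgroup.zpowers σ) F

theorem mem_F₀ {x : F} : x ∈ F₀ σ ↔ σ x = x := by
  show (∀ g : Subgroup.zpowers σ, g • x = x) ↔ _
  constructor
  · intro h
    exact h ⟨σ, Subgroup.mem_zpowers σ⟩
  · intro h g
    have hle : Subgroup.zpowers σ ≤ MulAction.stabilizer (F ≃+* F) x :=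
      Subgroup.zpowers_le.2 (MulAction.mem_stabilizer_iff.2 h)
    exact MulAction.mem_stabilizer_iff.1 (hle g.2)

theorem card_F₀ {q₀ r : ℕ} (hr : r.Prime) (hF : Fintype.card F = q₀ ^ r) (hσ : orderOf σ = r) :
    Nat.card (F₀ σ) = q₀ := by
  classical
  have hfin : IsOfFinOrder σ := orderOf_pos_iff.1 (hσ ▸ hr.pos)
  haveI : Finite (Subgroup.zpowers σ) := hfin.finite_zpowers.to_subtype
  haveI : Fintype (Subgroup.zpowers σ) := Fintype.ofFinite _
  have h1 : Module.finrank (F₀ σ) F = Fintype.card (Subgroup.zpowers σ) :=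
    FixedPoints.finrank_eq_card _ F
  have h2 : Fintype.card (Subgroup.zpowers σ) = r := by
    rw [← hσ, ← Nat.card_zpowers σ, Nat.card_eq_fintype_card]
  haveI : Fintype (F₀ σ) := Fintype.ofFinite _
  have h3 : Fintype.card F = Fintype.card (F₀ σ) ^ Module.finrank (F₀ σ) F :=
    Module.card_eq_pow_finrank
  rw [h1, h2, hF] at h3
  rw [Nat.card_eq_fintype_card]
  exact (Nat.pow_left_injective (n := r) (by have := hr.two_le; omega) h3).symm

/-- The subgroup of `GL_n(F)` of matrices with `σ`-fixed entries. -/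
noncomputable def Y : Subgroup (GL (Fin n) F) :=
  MonoidHom.eqLocus (Matrix.GeneralLinearGroup.map (n := Fin n) (σ : F →+* F)) (MonoidHom.id _)

variable {σ n} in
theorem mem_Y {g : GL (Fin n) F} : g ∈ Y σ n ↔ ∀ i j, σ ((g : Matrix (Fin n) (Fin n) F) i j) = (g : Matrix (Fin n) (Fin n) F) i j := by
  show Matrix.GeneralLinearGroup.map (n := Fin n) (σ : F →+* F) g = g ↔ _
  constructor
  · intro h i j
    have := congrArg (fun a : GL (Fin n) F => (a : Matrix (Fin n) (Fin n) F) i j) h
    simpa using this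
  · intro h
    ext i j
    simpa using h i j

/-- The image of `GL_n(F₀)`. -/
noncomputable def toGL : GL (Fin n) (F₀ σ) →* GL (Fin n) F :=
  Matrix.GeneralLinearGroup.map (n := Fin n) (F₀ σ).subtype

theorem toGL_injective : Function.Injective (toGL σ n) := by
  intro a b h
  ext i j
  have := congrArg (fun g : GL (Fin n) F => (g : Matrix (Fin n) (Fin n) F) i j) h
  exact this

theorem toGL_range : (toGL σ n).range = Y σ n := by
  ext g
  constructor
  · rintro ⟨a, rfl⟩
    rw [mem_Y]
    intro i j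
    exact (mem_F₀ σ).1 ((a : Matrix (Fin n) (Fin n) (F₀ σ)) i j).2
  · intro hg
    have hg' : g⁻¹ ∈ Y σ n := inv_mem hg
    rw [mem_Y] at hg hg'
    let M₀ : Matrix (Fin n) (Fin n) (F₀ σ) := fun i j => ⟨(g : Matrix (Fin n) (Fin n) F) i j, (mem_F₀ σ).2 (hg i j)⟩
    let M₁ : Matrix (Fin n) (Fin n) (F₀ σ) := fun i j => ⟨((g⁻¹ : GL (Fin n) F) : Matrix (Fin n) (Fin n) F) i j, (mem_F₀ σ).2 (hg' i j)⟩
    have hinj : Function.Injective (fun M : Matrix (Fin n) (Fin n) (F₀ σ) => M.map (F₀ σ).subtype) :=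
      Matrix.map_injective Subtype.val_injective
    have h01 : M₀ * M₁ = 1 := by
      apply hinj
      show (M₀ * M₁).map (F₀ σ).subtype = (1 : Matrix (Fin n) (Fin n) (F₀ σ)).map (F₀ σ).subtype
      rw [Matrix.map_mul, Matrix.map_one _ (map_zero _) (map_one _)]
      have h1 : M₀.map (F₀ σ).subtype = (g : Matrix (Fin n) (Fin n) F) := rfl
      have h2 : M₁.map (F₀ σ).subtype = ((g⁻¹ : GL (Fin n) F) : Matrix (Fin n) (Fin n) F) := rfl
      rw [h1, h2]
      simp
    have h10 : M₁ * M₀ = 1 := by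
      apply hinj
      show (M₁ * M₀).map (F₀ σ).subtype = (1 : Matrix (Fin n) (Fin n) (F₀ σ)).map (F₀ σ).subtype
      rw [Matrix.map_mul, Matrix.map_one _ (map_zero _) (map_one _)]
      have h1 : M₀.map (F₀ σ).subtype = (g : Matrix (Fin n) (Fin n) F) := rfl
      have h2 : M₁.map (F₀ σ).subtype = ((g⁻¹ : GL (Fin n) F) : Matrix (Fin n) (Fin n) F) := rfl
      rw [h1, h2]
      simp
    refine ⟨⟨M₀, M₁, h01, h10⟩, ?_⟩
    ext i j
    rfl

theorem card_Y : Nat.card (Y σ n) = Nat.card (GL (Fin n) (F₀ σ)) := by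
  rw [← toGL_range]
  exact (Nat.card_congr (MonoidHom.ofInjective (toGL_injective σ n)).toEquiv).symm

/-- Scalars. -/
noncomputable def sc : Fˣ →* GL (Fin n) F :=
  Units.map (Matrix.scalar (Fin n) : F →+* Matrix (Fin n) (Fin n) F).toMonoidHom

@[simp] theorem sc_val (d : Fˣ) : ((sc n d : GL (Fin n) F) : Matrix (Fin n) (Fin n) F) = (d : F) • (1 : Matrix (Fin n) (Fin n) F) := by
  ext i j
  simp [sc, Matrix.one_apply, Matrix.diagonal_apply]
  
theorem sc_commute (d : Fˣ) (g : GL (Fin n) F) : Commute (sc n d) g := by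
  apply Units.ext
  show ((sc n d : GL (Fin n) F) : Matrix (Fin n) (Fin n) F) * (g : Matrix (Fin n) (Fin n) F) = (g : Matrix (Fin n) (Fin n) F) * ((sc n d : GL (Fin n) F) : Matrix (Fin n) (Fin n) F)
  simp

/-- The product map. -/
noncomputable def φ : Fˣ × Y σ n →* GL (Fin n) F :=
  MonoidHom.noncommCoprod (sc n) (Y σ n).subtype (fun d y => sc_commute n d y)

theorem φ_apply (d : Fˣ) (y : Y σ n) : φ σ n (d, y) = sc n d * y.1 := rfl

theorem mem_range_iff (hn : 1 ≤ n) (g : GL (Fin n) F) :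
    g ∈ (φ σ n).range ↔
      ∃ c : F, c ≠ 0 ∧ (g : Matrix (Fin n) (Fin n) F).map σ = c • (g : Matrix (Fin n) (Fin n) F) := by
  constructor
  · rintro ⟨⟨d, y⟩, rfl⟩
    refine ⟨σ d / d, div_ne_zero (by simp) (by simp), ?_⟩
    ext i j
    have hy := (mem_Y.1 y.2) i j
    have hval : (((φ σ n (d, y)) : GL (Fin n) F) : Matrix (Fin n) (Fin n) F) = (d : F) • (y.1 : Matrix (Fin n) (Fin n) F) := by
      rw [φ_apply, Units.val_mul, sc_val, smul_mul_assoc, one_mul]
    rw [hval]
    simp only [Matrix.map_apply, Matrix.smul_apply, smul_eq_mul, map_mul, hy]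
    field_simp
  · rintro ⟨c, hc, hg⟩
    haveI : Nonempty (Fin n) := ⟨⟨0, hn⟩⟩
    obtain ⟨i, j, hij⟩ : ∃ i j, (g : Matrix (Fin n) (Fin n) F) i j ≠ 0 := by
      by_contra h
      push Not at h
      have h0 : (g : Matrix (Fin n) (Fin n) F) = 0 := by
        ext i j
        exact h i j
      have := g.isUnit
      rw [h0] at this
      exact not_isUnit_zero this
    set d := (g : Matrix (Fin n) (Fin n) F) i j with hd
    have hentry : ∀ a b, σ ((g : Matrix (Fin n) (Fin n) F) a b) = c * (g : Matrix (Fin n) (Fin n) F) a b := by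
      intro a b
      have := congrArg (fun M : Matrix (Fin n) (Fin n) F => M a b) hg
      simpa using this
    have hσd : σ d = c * d := hentry i j
    let du : Fˣ := Units.mk0 d hij
    refine ⟨(du, ⟨sc n du⁻¹ * g, ?_⟩), ?_⟩
    · rw [mem_Y]
      intro a b
      have : ((sc n du⁻¹ * g : GL (Fin n) F) : Matrix (Fin n) (Fin n) F) = (d⁻¹ : F) • (g : Matrix (Fin n) (Fin n) F) := by
        rw [Units.val_mul, sc_val, smul_mul_assoc, one_mul]
        rfl
      rw [this]
      simp only [Matrix.smul_apply, smul_eq_mul, map_mul, map_inv₀, hσd, hentry]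
      field_simp
    · rw [φ_apply]
      simp

theorem card_ker (n : ℕ) (hn : 1 ≤ n) : Nat.card (φ σ n).ker = Nat.card (F₀ σ)ˣ := by
  haveI : Nonempty (Fin n) := ⟨⟨0, hn⟩⟩
  have hsc : ∀ (d : Fˣ) (y : Y σ n), (d, y) ∈ (φ σ n).ker ↔ y.1 = sc n d⁻¹ := by
    intro d y
    rw [MonoidHom.mem_ker, φ_apply, map_inv]
    constructor
    · intro h
      exact eq_inv_of_mul_eq_one_right h
    · intro h
      rw [h]
      simp
  have hfix : ∀ (d : Fˣ) (y : Y σ n), (d, y) ∈ (φ σ n).ker → σ d = d := by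
    intro d y h
    have h1 := (hsc d y).1 h
    have h2 := mem_Y.1 y.2 ⟨0, hn⟩ ⟨0, hn⟩
    rw [h1, sc_val] at h2
    simp at h2
    exact h2
  refine (Nat.card_congr ?_).symm
  exact
  { toFun := fun u => ⟨(Units.map (F₀ σ).subtype.toMonoidHom u,
        ⟨sc n (Units.map (F₀ σ).subtype.toMonoidHom u)⁻¹, by
          rw [mem_Y]
          intro i j
          rw [sc_val]
          have := (mem_F₀ σ).1 ((u⁻¹ : (F₀ σ)ˣ) : F₀ σ).2
          simp only [Matrix.smul_apply, Matrix.one_apply, smul_eq_mul]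
          split_ifs
          · simpa using this
          · simp⟩),
        by
          rw [hsc]⟩
    invFun := fun x => Units.mk0 (⟨(x.1.1 : F), (mem_F₀ σ).2 (by
        obtain ⟨⟨d, y⟩, h⟩ := x
        have := hfix d y h
        simpa using this)⟩ : F₀ σ) (by
          intro h
          have := congrArg Subtype.val h
          simp at this)
    left_inv := fun u => by
      ext
      rfl
    right_inv := fun x => by
      obtain ⟨⟨d, y⟩, h⟩ := x
      have h1 := (hsc d y).1 h
      apply Subtype.ext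
      apply Prod.ext
      · ext
        rfl
      · apply Subtype.ext
        rw [h1]
        exact congrArg (fun u : Fˣ => sc n u⁻¹) (Units.ext rfl) }

/-- Centraliser of a field automorphism in PGL_n: let F be the field with q = q₀^r elements, σ a field automorphism of F of prime order r (so its fixed field has q₀ elements) and n ≥ 1. The invertible matrices g whose entrywise image under σ is a scalar multiple of g — those whose coset modulo scalars is fixed by σ — number (q − 1)/(q₀ − 1) · |GL_n(q₀)|; equivalently the centraliser in PGL_n(q) of the induced automorphism has the order of PGL_n(q₀). -/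
theorem result {F : Type*} [Field F] [Fintype F] {q₀ r n : ℕ} (hr : r.Prime) (hn : 1 ≤ n) (hF : Fintype.card F = q₀ ^ r) (σ : F ≃+* F) (hσ : orderOf σ = r) : Nat.card {g : GL (Fin n) F // ∃ c : F, c ≠ 0 ∧ (g : Matrix (Fin n) (Fin n) F).map σ = c • (g : Matrix (Fin n) (Fin n) F)} = (q₀ ^ r - 1) / (q₀ - 1) * ∏ i : Fin n, (q₀ ^ n - q₀ ^ (i : ℕ)) := by
  classical
  have hF0 := card_F₀ σ hr hF hσ
  haveI : Fintype (F₀ σ) := Fintype.ofFinite _
  have hF0' : Fintype.card (F₀ σ) = q₀ := by rw [← Nat.card_eq_fintype_card, hF0]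
  have hq₀ : 2 ≤ q₀ := by
    rw [← hF0']
    exact Fintype.one_lt_card
  have hset : Nat.card {g : GL (Fin n) F // ∃ c : F, c ≠ 0 ∧ (g : Matrix (Fin n) (Fin n) F).map σ = c • (g : Matrix (Fin n) (Fin n) F)} = Nat.card (φ σ n).range :=
    Nat.card_congr (Equiv.subtypeEquivRight fun g => (mem_range_iff σ n hn g).symm)
  rw [hset]
  have hker := card_ker σ n hn
  rw [Nat.card_units, hF0] at hker
  have hcard := Subgroup.card_mul_index (φ σ n).ker
  rw [Subgroup.index_ker, hker, Nat.card_prod, card_Y, Nat.card_units, Nat.card_eq_fintype_card (α := F), hF,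
    Matrix.card_GL_field, hF0'] at hcard
  have hdvd : q₀ - 1 ∣ q₀ ^ r - 1 := by
    have := Nat.sub_dvd_pow_sub_pow q₀ 1 r
    simpa using this
  obtain ⟨k, hk⟩ := hdvd
  have hpos : 0 < q₀ - 1 := by omega
  rw [hk, Nat.mul_div_cancel_left _ hpos]
  rw [hk, mul_assoc] at hcard
  exact (Nat.eq_of_mul_eq_mul_left hpos hcard).symm.trans rfl |>.symm

end Cfsg.Agent.S2636
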