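import Cfsg.Statements.S2637
import Cfsg.Agent.Lib.UnitT.OrderThree
import Cfsg.Agent.Lib.Classical.SympForm

set_option autoImplicit false
open Cfsg

namespace Cfsg.Agent.S2637

open Polynomial Matrix Module Cfsg.Agent.Lib.UnitT.OrderThree Cfsg.Agent.Lib.Classical.SympForm

theorem no_root {F : Type*} [Field F] [Fintype F] {q : ℕ} (hF : Fintype.card F = q) (hq : q % 3 = 2)
    (t : F) : t ^ 2 + t + 1 ≠ 0 := by
  intro ht
  have h3 : t ^ 3 = 1 := by linear_combination (t - 1) * ht
  have ht0 : t ≠ 0 := by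
    rintro rfl
    simp at ht
  have hqt : t ^ q = t := by
    rw [← hF]
    exact FiniteField.pow_card t
  have hq2 : q = 3 * (q / 3) + 2 := by omega
  have h4 : t ^ 2 = t := by
    rw [hq2, pow_add, pow_mul, h3, one_pow, one_mul] at hqt
    exact hqt
  have h5 : t = 1 := by
    have : t * (t - 1) = 0 := by linear_combination h4
    exact sub_eq_zero.1 ((mul_eq_zero.1 this).resolve_left ht0)
  rw [h5] at ht
  have h30 : ((3 : ℕ) : F) = 0 := by
    push_cast
    linear_combination ht
  have hch : ringChar F = 3 := CharP.ringChar_of_prime_eq_zero Nat.prime_three h30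
  haveI : CharP F 3 := hch ▸ ringChar.charP F
  obtain ⟨n, -, hn⟩ := FiniteField.card F 3
  have : 3 ∣ q := by
    rw [← hF, hn]
    exact dvd_pow_self 3 n.ne_zero
  omega

theorem sq_irr {F : Type*} [Field F] [Fintype F] {q : ℕ} (hF : Fintype.card F = q) (hq : q % 3 = 2) :
    Irreducible (X ^ 2 + X + 1 : F[X]) := by
  have hdeg : (X ^ 2 + X + 1 : F[X]).natDegree = 2 := by compute_degree!
  have hmonic : (X ^ 2 + X + 1 : F[X]).Monic := by monicity!
  rw [hmonic.irreducible_iff_roots_eq_zero_of_degree_le_three (by omega) (by omega)]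
  apply Multiset.eq_zero_of_forall_notMem
  intro t ht
  have h1 := (Polynomial.mem_roots'.1 ht).2
  apply no_root hF hq t
  simpa [Polynomial.IsRoot] using h1

theorem card_formula (q m : ℕ) (hq : 1 ≤ q) :
    (((q ^ (m * (m - 1) / 2) *
      ∏ i ∈ Finset.range m, (if Even i then q ^ (i + 1) + 1 else q ^ (i + 1) - 1) : ℕ)) : ℤ) =
    (q : ℤ) ^ (m * (m - 1) / 2) * ∏ i : Fin m, ((q : ℤ) ^ ((i : ℕ) + 1) - (-1) ^ ((i : ℕ) + 1)) := by
  rw [Finset.prod_range (fun i => if Even i then q ^ (i + 1) + 1 else q ^ (i + 1) - 1)]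
  push_cast
  congr 1
  refine Finset.prod_congr rfl fun i _ => ?_
  have h1 : 1 ≤ q ^ ((i : ℕ) + 1) := Nat.one_le_pow _ _ hq
  by_cases he : Even (i : ℕ)
  · rw [if_pos he, (Even.add_one he).neg_one_pow]
    push_cast
    ring
  · rw [if_neg he, (Nat.not_even_iff_odd.1 he).add_one.neg_one_pow]
    rw [Nat.cast_sub h1]
    push_cast
    ring

/-- Centraliser of a fixed-point-free element of order three in Sp_2m(q) when q ≡ 2 (mod 3): if x ∈ Sp_2m(F) (|F| = q, m ≥ 1) satisfies x³ = 1 and x − 1 is invertible, then its centraliser in Sp_2m(F) has the order of the unitary group GU_m(q), namely q^(m(m−1)/2) Π_(i=1)^m (q^i − (−1)^i) (x lies in the centre of a subgroup GU_m(q) of Sp_2m(q)). -/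
theorem result {F : Type*} [Field F] [Fintype F] {q : ℕ} (hF : Fintype.card F = q) (hq : q % 3 = 2) {m : ℕ} (hm : 1 ≤ m) (x : Matrix.symplecticGroup (Fin m) F) (hx3 : x ^ 3 = 1) (hfpf : IsUnit ((x : Matrix (Fin m ⊕ Fin m) (Fin m ⊕ Fin m) F) - 1)) : (Nat.card ↥(Subgroup.centralizer ({x} : Set ↥(Matrix.symplecticGroup (Fin m) F))) : ℤ) = (q : ℤ) ^ (m * (m - 1) / 2) * ∏ i : Fin m, ((q : ℤ) ^ ((i : ℕ) + 1) - (-1) ^ ((i : ℕ) + 1)) := by
  classical
  have hq1 : 1 ≤ q := by omega
  set A : Matrix (Fin m ⊕ Fin m) (Fin m ⊕ Fin m) F := (x : Matrix (Fin m ⊕ Fin m) (Fin m ⊕ Fin m) F) with hA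
  have hA3 : A ^ 3 = 1 := by
    have := congrArg Subtype.val hx3
    simpa using this
  have hA0 : A ^ 2 + A + 1 = 0 := by
    have h1 : (A - 1) * (A ^ 2 + A + 1) = 0 := by
      have : (A - 1) * (A ^ 2 + A + 1) = A ^ 3 - 1 := by noncomm_ring
      rw [this, hA3, sub_self]
    exact (hfpf.mul_right_eq_zero).1 h1
  -- the field
  let p : F[X] := X ^ 2 + X + 1
  have hirr : Irreducible p := sq_irr hF hq
  haveI : Fact (Irreducible p) := ⟨hirr⟩
  let K := AdjoinRoot p
  have hdeg : p.natDegree = 2 := by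
    show (X ^ 2 + X + 1 : F[X]).natDegree = 2
    compute_degree!
  have hfin : finrank F K = 2 := by
    rw [(AdjoinRoot.powerBasis hirr.ne_zero).finrank, ← hdeg]
    rfl
  haveI : Module.Finite F K := (AdjoinRoot.powerBasis hirr.ne_zero).finite
  haveI : Finite K := Module.finite_of_finite F
  letI : Fintype K := Fintype.ofFinite K
  have hK : Fintype.card K = q ^ 2 := by
    rw [Module.card_eq_pow_finrank (K := F) (V := K), hfin, hF]
  let V := Fin m ⊕ Fin m → F
  let Al : Module.End F V := Matrix.mulVecLin A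
  have hAl : Al ^ 2 + Al + 1 = 0 := by
    apply LinearMap.ext
    intro v
    have h1 : (A ^ 2 + A + 1) *ᵥ v = 0 := by
      rw [hA0, Matrix.zero_mulVec]
    have h2 : (A ^ 2 + A + 1) *ᵥ v = A *ᵥ (A *ᵥ v) + A *ᵥ v + v := by
      rw [Matrix.add_mulVec, Matrix.add_mulVec, Matrix.one_mulVec, pow_two, Matrix.mulVec_mulVec]
    rw [h2] at h1
    exact h1
  let ι : K →ₐ[F] Module.End F V :=
    Ideal.Quotient.liftₐ (Ideal.span {p}) (aeval Al) (by
      intro a ha
      obtain ⟨b, rfl⟩ := Ideal.mem_span_singleton.1 ha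
      simp [p, hAl])
  have hιmk : ∀ r : F[X], ι (AdjoinRoot.mk p r) = aeval Al r := fun r => rfl
  letI instK : Module K V := Module.compHom V (ι : K →+* Module.End F V)
  have hsmul : ∀ (k : K) (v : V), k • v = ι k v := fun _ _ => rfl
  haveI : IsScalarTower F K V := ⟨fun c k v => by
    show ι (c • k) v = c • ι k v
    rw [map_smul]
    rfl⟩
  let ζ : K := AdjoinRoot.root p
  have hζact : ∀ v : V, ζ • v = A *ᵥ v := by
    intro v
    rw [hsmul]
    have : ι ζ = Al := by
      have h := hιmk X
      rw [aeval_X] at h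
      exact h
    rw [this]
    rfl
  have hroot : ζ ^ 2 + ζ + 1 = 0 := by
    have h1 : aeval ζ p = 0 := by
      rw [AdjoinRoot.aeval_eq, AdjoinRoot.mk_self]
    simpa [p] using h1
  have hind : ∀ a b : F, algebraMap F K a + algebraMap F K b * ζ = 0 → a = 0 ∧ b = 0 := by
    intro a b hab
    have hb : b = 0 := by
      by_contra hb
      have hb' : algebraMap F K b ≠ 0 := fun h => hb (by simpa using h)
      have hz : ζ = algebraMap F K (-(a / b)) := by
        rw [map_neg, map_div₀, ← neg_div, eq_div_iff hb', mul_comm]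
        linear_combination hab
      apply no_root hF hq (-(a / b))
      apply (algebraMap F K).injective
      rw [map_zero, map_add, map_add, map_pow, map_one, ← hz]
      exact hroot
    refine ⟨?_, hb⟩
    rw [hb, map_zero, zero_mul, add_zero] at hab
    simpa using hab
  have hspan : ∀ k : K, ∃ a b : F, k = algebraMap F K a + algebraMap F K b * ζ := by
    have hinj : Function.Injective (fun c : F × F => algebraMap F K c.1 + algebraMap F K c.2 * ζ) := by
      rintro ⟨a, b⟩ ⟨a', b'⟩ h
      have h1 := hind (a - a') (b - b') (by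
        simp only [map_sub]
        simp only at h
        linear_combination h)
      exact Prod.ext (sub_eq_zero.1 h1.1) (sub_eq_zero.1 h1.2)
    have hbij := (Fintype.bijective_iff_injective_and_card _).2
      ⟨hinj, by rw [Fintype.card_prod, hF, hK, pow_two]⟩
    intro k
    obtain ⟨⟨a, b⟩, h⟩ := hbij.2 k
    exact ⟨a, b, h.symm⟩
  have D : Data ζ (sympBilin m F : V →ₗ[F] V →ₗ[F] F) :=
    { root := hroot
      span := hspan
      ind := hind
      alt := fun v => sympBilin_isAlt v
      nd := fun v hv => sympBilin_nondegenerate.1 v hv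
      iso := fun u v => by
        rw [hζact, hζact]
        exact (mem_symplecticGroup_iff _).1 x.2 u v }
  have hζq : ζ ^ q = ζ ^ 2 := by
    have h3 : ζ ^ 3 = 1 := by linear_combination (ζ - 1) * hroot
    have hq2 : q = 3 * (q / 3) + 2 := by omega
    conv_lhs => rw [hq2]
    rw [pow_add, pow_mul, h3, one_pow, one_mul]
  have hV : finrank F V = 2 * m := by
    show finrank F (Fin m ⊕ Fin m → F) = 2 * m
    rw [Module.finrank_fintype_fun_eq_card]
    simp
    omega
  have hcard := card_cent D hK hF hζq hV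
  have hcent : Nat.card ↥(Subgroup.centralizer ({x} : Set ↥(Matrix.symplecticGroup (Fin m) F))) =
      Nat.card {g : V ≃ₗ[F] V // (∀ x y, sympBilin m F (g x) (g y) = sympBilin m F x y) ∧
        ∀ v, g (ζ • v) = ζ • g v} := by
    refine Nat.card_congr ?_
    exact
    { toFun := fun B => ⟨spLin B.1, fun u v => (mem_symplecticGroup_iff _).1 B.1.2 u v, fun v => by
        rw [hζact, hζact]
        show B.1.1 *ᵥ (A *ᵥ v) = A *ᵥ (B.1.1 *ᵥ v)
        have hc := (Subgroup.mem_centralizer_singleton_iff.1 B.2)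
        have hc' : B.1.1 * A = A * B.1.1 := congrArg Subtype.val hc
        rw [Matrix.mulVec_mulVec, Matrix.mulVec_mulVec, hc']⟩
      invFun := fun g => ⟨spEquiv.symm ⟨g.1, fun u v => g.2.1 u v⟩, by
        rw [Subgroup.mem_centralizer_singleton_iff]
        apply Subtype.ext
        apply Matrix.ext_iff_mulVec.2
        intro v
        show ((spEquiv.symm ⟨g.1, fun u v => g.2.1 u v⟩ : Matrix.symplecticGroup (Fin m) F).1 * A) *ᵥ v =
          (A * (spEquiv.symm ⟨g.1, fun u v => g.2.1 u v⟩ : Matrix.symplecticGroup (Fin m) F).1) *ᵥ v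
        rw [← Matrix.mulVec_mulVec, ← Matrix.mulVec_mulVec, spEquiv_symm_mulVec, spEquiv_symm_mulVec,
          ← hζact, ← hζact]
        exact g.2.2 v⟩
      left_inv := fun B => by
        apply Subtype.ext
        apply Subtype.ext
        apply Matrix.ext_iff_mulVec.2
        intro v
        rw [spEquiv_symm_mulVec]
        rfl
      right_inv := fun g => by
        apply Subtype.ext
        ext v i
        have := spEquiv_symm_mulVec (m := m) (F := F) ⟨g.1, fun u v => g.2.1 u v⟩ v
        exact congrFun this i }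
  rw [hcent, hcard, card_formula q m hq1]

end Cfsg.Agent.S2637
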