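import Cfsg.Statements.S2638

set_option autoImplicit false
open Cfsg

namespace Cfsg.Agent.S2638

open Polynomial Matrix

variable {F : Type*} [Field F] [Fintype F]

theorem minpoly_irred {p q : ℕ} [Fact p.Prime] [CharP F p] (hF : Fintype.card F = q) {n r : ℕ}
    (hn : 1 ≤ n) (hr : r.Prime) (hrp : r ≠ p) (hi : orderOf (q : ZMod r) = n)
    (x : GL (Fin n) F) (hx : orderOf x = r) :
    Irreducible (minpoly F (x : Matrix (Fin n) (Fin n) F)) ∧
      (minpoly F (x : Matrix (Fin n) (Fin n) F)).natDegree = n := by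
  classical
  set A : Matrix (Fin n) (Fin n) F := (x : Matrix (Fin n) (Fin n) F) with hXdef
  have hint : IsIntegral F A := Algebra.IsIntegral.isIntegral A
  have hμ0 : minpoly F A ≠ 0 := minpoly.ne_zero hint
  have hXr : A ^ r = 1 := by
    have := congrArg Units.val (pow_orderOf_eq_one x)
    rw [hx] at this
    simpa using this
  have hrF : (r : F) ≠ 0 := by
    intro h
    have := (CharP.cast_eq_zero_iff F p r).1 h
    exact hrp ((Nat.prime_dvd_prime_iff_eq (Fact.out) hr).1 this).symm
  let Φ : F[X] := ∑ i ∈ Finset.range r, (X : F[X]) ^ i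
  have hΦ : Φ * ((X : F[X]) - 1) = (X : F[X]) ^ r - 1 := geom_sum_mul _ _
  have hμdvd : minpoly F A ∣ Φ * ((X : F[X]) - 1) := by
    rw [hΦ]
    apply minpoly.dvd
    simp [hXr]
  have hnotcop : ¬ IsCoprime (minpoly F A) Φ := by
    intro hc
    have h1 : minpoly F A ∣ (X : F[X]) - 1 := hc.dvd_of_dvd_mul_left hμdvd
    have h2 : aeval A ((X : F[X]) - 1) = 0 := aeval_eq_zero_of_dvd_aeval_eq_zero h1 (minpoly.aeval F A)
    have h3 : A = 1 := by
      simpa [sub_eq_zero] using h2
    have h4 : x = 1 := Units.ext h3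
    rw [h4, orderOf_one] at hx
    exact hr.one_lt.ne hx
  obtain ⟨f, hf, hfμ, hfΦ⟩ : ∃ f, Irreducible f ∧ f ∣ minpoly F A ∧ f ∣ Φ := by
    by_contra h
    push Not at h
    apply hnotcop
    apply isCoprime_of_irreducible_dvd (fun h0 => hμ0 h0.1)
    intro z hz h1 h2
    exact h z hz h1 h2
  haveI : Fact (Irreducible f) := ⟨hf⟩
  have hfinrank : Module.finrank F (AdjoinRoot f) = f.natDegree := by
    rw [(AdjoinRoot.powerBasis hf.ne_zero).finrank]
    rfl
  haveI : Module.Finite F (AdjoinRoot f) := (AdjoinRoot.powerBasis hf.ne_zero).finite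
  haveI : Finite (AdjoinRoot f) := Module.finite_of_finite F
  let ζ : AdjoinRoot f := AdjoinRoot.root f
  have hζf : aeval ζ f = 0 := by
    rw [AdjoinRoot.aeval_eq, AdjoinRoot.mk_self]
  have hζΦ : aeval ζ Φ = 0 := aeval_eq_zero_of_dvd_aeval_eq_zero hfΦ hζf
  have hζΦ' : ∑ i ∈ Finset.range r, ζ ^ i = 0 := by
    simpa [Φ, map_sum] using hζΦ
  have hζr : ζ ^ r = 1 := by
    have := geom_sum_mul ζ r
    rw [hζΦ', zero_mul] at this
    exact (sub_eq_zero.1 this.symm)
  have hζ1 : ζ ≠ 1 := by
    intro h
    rw [h] at hζΦ'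
    simp only [one_pow, Finset.sum_const, Finset.card_range, nsmul_eq_mul, mul_one] at hζΦ'
    apply hrF
    have : algebraMap F (AdjoinRoot f) (r : F) = 0 := by simpa using hζΦ'
    exact (map_eq_zero_iff _ (algebraMap F (AdjoinRoot f)).injective).1 this
  have hζ0 : ζ ≠ 0 := by
    intro h
    rw [h, zero_pow hr.ne_zero] at hζr
    exact zero_ne_one hζr
  let u : (AdjoinRoot f)ˣ := Units.mk0 ζ hζ0
  haveI : Fact r.Prime := ⟨hr⟩
  have hu : orderOf u = r := by
    apply orderOf_eq_prime
    · exact Units.ext hζr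
    · intro h
      exact hζ1 (congrArg Units.val h)
  have hdvd : r ∣ Nat.card (AdjoinRoot f)ˣ := hu ▸ orderOf_dvd_natCard u
  have hcardL : Nat.card (AdjoinRoot f) = q ^ f.natDegree := by
    rw [Module.natCard_eq_pow_finrank (K := F), hfinrank, Nat.card_eq_fintype_card, hF]
  rw [Nat.card_units, hcardL] at hdvd
  have hq1 : 1 ≤ q ^ f.natDegree := by
    have : 0 < q := hF ▸ Fintype.card_pos
    exact Nat.one_le_pow _ _ this
  have hpow : (q : ZMod r) ^ f.natDegree = 1 := by
    have := (ZMod.natCast_eq_zero_iff (q ^ f.natDegree - 1) r).2 hdvd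
    rw [Nat.cast_sub hq1] at this
    simpa [sub_eq_zero] using this
  have hndvd : n ∣ f.natDegree := hi ▸ orderOf_dvd_of_pow_eq_one hpow
  have hfdeg : 0 < f.natDegree := hf.natDegree_pos
  have hnle : n ≤ f.natDegree := Nat.le_of_dvd hfdeg hndvd
  have hμmonic : (minpoly F A).Monic := minpoly.monic hint
  have hμle : (minpoly F A).natDegree ≤ n := by
    have h1 : minpoly F A ∣ A.charpoly := minpoly.dvd F A (Matrix.aeval_self_charpoly A)
    have h2 := Polynomial.natDegree_le_of_dvd h1 (Matrix.charpoly_monic A).ne_zero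
    simpa [Matrix.charpoly_natDegree_eq_dim] using h2
  have hfle : f.natDegree ≤ (minpoly F A).natDegree := Polynomial.natDegree_le_of_dvd hfμ hμ0
  have hdeg : (minpoly F A).natDegree = n := by omega
  have hfdeg' : f.natDegree = (minpoly F A).natDegree := by omega
  refine ⟨?_, hdeg⟩
  obtain ⟨c, hc⟩ := hfμ
  have hc0 : c ≠ 0 := by
    rintro rfl
    exact hμ0 (by simpa using hc)
  have hcdeg : c.natDegree = 0 := by
    have := congrArg natDegree hc
    rw [natDegree_mul hf.ne_zero hc0] at this
    omega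
  have hcunit : IsUnit c := by
    rw [Polynomial.natDegree_eq_zero] at hcdeg
    obtain ⟨c₀, rfl⟩ := hcdeg
    exact Polynomial.isUnit_C.2 (isUnit_iff_ne_zero.2 (by simpa using hc0))
  rw [hc]
  exact (irreducible_mul_isUnit hcunit).2 hf

theorem commute_aeval {n : ℕ} {g A : Matrix (Fin n) (Fin n) F} (h : Commute g A) (p : F[X]) :
    Commute g (aeval A p) := by
  induction p using Polynomial.induction_on' with
  | add p q hp hq =>
    rw [map_add]
    exact hp.add_right hq
  | monomial m a =>
    rw [aeval_monomial]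
    exact Commute.mul_right (Algebra.commutes a g).symm (h.pow_right m)

/-- If an element x of GL_n(q), n ≥ 1, has prime order r and the multiplicative order of q modulo r is n (r is a primitive prime divisor of q^n − 1, so x acts irreducibly), then the centraliser of x in GL_n(q) is cyclic of order q^n − 1 (the multiplicative group of the field with q^n elements, a Singer cycle). -/
theorem result {F : Type*} [Field F] [Fintype F] {p q : ℕ} [Fact p.Prime] [CharP F p] (hF : Fintype.card F = q) {n r : ℕ} (hn : 1 ≤ n) (hr : r.Prime) (hrp : r ≠ p) (hi : orderOf (q : ZMod r) = n) (x : GL (Fin n) F) (hx : orderOf x = r) : IsCyclic ↥(Subgroup.centralizer ({x} : Set (GL (Fin n) F))) ∧ Nat.card ↥(Subgroup.centralizer ({x} : Set (GL (Fin n) F))) = q ^ n - 1 := by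
  classical
  haveI : NeZero n := ⟨by omega⟩
  haveI : Nonempty (Fin n) := ⟨⟨0, hn⟩⟩
  obtain ⟨hirr, hdeg⟩ := minpoly_irred hF hn hr hrp hi x hx
  set A : Matrix (Fin n) (Fin n) F := (x : Matrix (Fin n) (Fin n) F) with hXdef
  set μ := minpoly F A with hμdef
  haveI : Fact (Irreducible μ) := ⟨hirr⟩
  have hfinrank : Module.finrank F (AdjoinRoot μ) = n := by
    rw [(AdjoinRoot.powerBasis hirr.ne_zero).finrank, ← hdeg]
    rfl
  haveI : Module.Finite F (AdjoinRoot μ) := (AdjoinRoot.powerBasis hirr.ne_zero).finite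
  haveI : Finite (AdjoinRoot μ) := Module.finite_of_finite F
  -- the embedding of the field
  let ι : AdjoinRoot μ →ₐ[F] Matrix (Fin n) (Fin n) F :=
    Ideal.Quotient.liftₐ (Ideal.span {μ}) (aeval A) (by
      intro a ha
      obtain ⟨b, rfl⟩ := Ideal.mem_span_singleton.1 ha
      simp [hμdef])
  have hιmk : ∀ p : F[X], ι (AdjoinRoot.mk μ p) = aeval A p := fun p => rfl
  have hιinj : Function.Injective ι := (ι : AdjoinRoot μ →+* Matrix (Fin n) (Fin n) F).injective
  let ιu : (AdjoinRoot μ)ˣ →* GL (Fin n) F := Units.map (ι : AdjoinRoot μ →* Matrix (Fin n) (Fin n) F)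
  have hιuval : ∀ k : (AdjoinRoot μ)ˣ, ((ιu k : GL (Fin n) F) : Matrix (Fin n) (Fin n) F) = ι k := fun k => rfl
  have hιuinj : Function.Injective ιu := by
    intro a b h
    apply Units.ext
    apply hιinj
    exact congrArg Units.val h
  have hrange : ιu.range = Subgroup.centralizer ({x} : Set (GL (Fin n) F)) := by
    ext g
    rw [Subgroup.mem_centralizer_singleton_iff]
    constructor
    · rintro ⟨k, rfl⟩
      apply Units.ext
      show ι k * A = A * ι k
      obtain ⟨p, hp⟩ := AdjoinRoot.mk_surjective (k : AdjoinRoot μ)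
      rw [← hp, hιmk]
      exact (commute_aeval (Commute.refl A) p).eq.symm
    · intro hg
      have hcomm : Commute (g : Matrix (Fin n) (Fin n) F) A := congrArg Units.val hg
      have hcommι : ∀ k, Commute (g : Matrix (Fin n) (Fin n) F) (ι k) := by
        intro k
        obtain ⟨p, rfl⟩ := AdjoinRoot.mk_surjective k
        rw [hιmk]
        exact commute_aeval hcomm p
      -- a non-zero vector
      obtain ⟨v, hv⟩ : ∃ v : Fin n → F, v ≠ 0 := ⟨fun _ => 1, fun h => one_ne_zero (congrFun h ⟨0, hn⟩)⟩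
      let κ : AdjoinRoot μ →ₗ[F] (Fin n → F) :=
        { toFun := fun k => ι k *ᵥ v
          map_add' := fun a b => by simp [Matrix.add_mulVec]
          map_smul' := fun c a => by simp [Matrix.smul_mulVec] }
      have hκ : ∀ k, κ k = ι k *ᵥ v := fun k => rfl
      have hκinj : Function.Injective κ := by
        rw [injective_iff_map_eq_zero]
        intro k hk
        by_contra hk0
        apply hv
        have h1 : ι k⁻¹ * ι k = 1 := by
          rw [← map_mul, inv_mul_cancel₀ hk0, map_one]
        have h2 : (ι k⁻¹ * ι k) *ᵥ v = 0 := by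
          rw [← Matrix.mulVec_mulVec, ← hκ, hk, Matrix.mulVec_zero]
        rw [h1, Matrix.one_mulVec] at h2
        exact h2
      have hκsurj : Function.Surjective κ :=
        (LinearMap.injective_iff_surjective_of_finrank_eq_finrank (by simp [hfinrank])).1 hκinj
      obtain ⟨a, ha⟩ := hκsurj ((g : Matrix (Fin n) (Fin n) F) *ᵥ v)
      have hga : (g : Matrix (Fin n) (Fin n) F) = ι a := by
        apply Matrix.ext_iff_mulVec.2
        intro w
        obtain ⟨k, rfl⟩ := hκsurj w
        rw [hκ, Matrix.mulVec_mulVec, (hcommι k).eq, ← Matrix.mulVec_mulVec, ← ha, hκ,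
          Matrix.mulVec_mulVec, Matrix.mulVec_mulVec, ← map_mul, ← map_mul, mul_comm]
      have ha0 : a ≠ 0 := by
        rintro rfl
        rw [map_zero] at hga
        have := g.isUnit
        rw [hga] at this
        exact not_isUnit_zero this
      exact ⟨Units.mk0 a ha0, Units.ext hga.symm⟩
  rw [← hrange]
  constructor
  · exact isCyclic_of_surjective ιu.rangeRestrict (MonoidHom.rangeRestrict_surjective _)
  · rw [← Nat.card_congr (MonoidHom.ofInjective hιuinj).toEquiv, Nat.card_units,
      Module.natCard_eq_pow_finrank (K := F), hfinrank, Nat.card_eq_fintype_card, hF]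

end Cfsg.Agent.S2638
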