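import Cfsg.Statements.S2641
import Cfsg.Agent.Lib.UnitT.EmbedO

set_option autoImplicit false
open Cfsg

namespace Cfsg.Agent.S2641

/-- For m odd, the unitary group GU_m(q) (over the field with q² elements) embeds in the orthogonal group O⁻_2m(q) of an elliptic form (Σ_(i<m−1) x_i y_i plus an anisotropic binary form) over the field with q elements (there is an injective homomorphism). -/
theorem result {K F : Type*} [Field K] [Fintype K] [Field F] [Fintype F] {q : ℕ} (hK : Fintype.card K = q ^ 2) (hF : Fintype.card F = q) (m : ℕ) (hm : Odd m) (a b : F) (hab : ∀ z₁ z₂ : F, z₁ ^ 2 + a * z₁ * z₂ + b * z₂ ^ 2 = 0 → z₁ = 0 ∧ z₂ = 0) : ∃ φ : ↥(Cfsg.GU m K q) →* ↥(Cfsg.isometryGroup F (Cfsg.quadFormMinus (m - 1) F a b)), Function.Injective φ := by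
  obtain ⟨ι⟩ := Cfsg.Agent.Lib.UnitT.Embed.exists_ringHom hK hF
  letI : Algebra F K := ι.toAlgebra
  obtain ⟨m', rfl⟩ : ∃ m', m = m' + 1 := ⟨m - 1, by obtain ⟨k, hk⟩ := hm; omega⟩
  have hm' : Even m' := by
    rcases Nat.even_or_odd m' with h | h
    · exact h
    · exact absurd hm (by simpa [Nat.odd_add_one] using h)
  obtain ⟨Θ, hΘ⟩ := Cfsg.Agent.Lib.UnitT.EmbedO.exists_Theta_odd (K := K) (F := F) hK hF hm' a b hab
  exact Cfsg.Agent.Lib.UnitT.EmbedO.embed_of_Theta (Cfsg.Agent.Lib.Orth.Forms.minusForm m' F a b) Θ hΘ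

end Cfsg.Agent.S2641
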