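import Cfsg.Statements.S2642
import Cfsg.Agent.Lib.Jordan.GU

set_option autoImplicit false
open Cfsg

namespace Cfsg.Agent.S2642

/-- Number of conjugacy classes of elements of order p in the general unitary group GU_n(q), q a power of p: every unipotent Jordan type occurs and the classes correspond to the partitions of n with all parts at most p other than the all-ones partition, exactly as in GL_n; so there are (number of partitions of n with parts ≤ p) − 1 classes. -/
theorem result {K : Type*} [Field K] [Fintype K] {p q n : ℕ} [Fact p.Prime] [CharP K p] (hK : Fintype.card K = q ^ 2) : Nat.card {C : ConjClasses ↥(Cfsg.GU n K q) // ∃ g : ↥(Cfsg.GU n K q), ConjClasses.mk g = C ∧ orderOf g = p} = (Finset.univ.filter (fun μ : Nat.Partition n => ∀ a ∈ μ.parts, a ≤ p)).card - 1 := by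
  classical
  have hq2 := Cfsg.Agent.Lib.HermCount.Field.two_le hK
  let incl : ↥(Cfsg.GU n K q) →* GL (Fin n) K := (Cfsg.GU n K q).subtype
  let f : {C : ConjClasses ↥(Cfsg.GU n K q) // ∃ g : ↥(Cfsg.GU n K q), ConjClasses.mk g = C ∧ orderOf g = p} →
      {C : ConjClasses (GL (Fin n) K) // ∃ g : GL (Fin n) K, ConjClasses.mk g = C ∧ orderOf g = p} :=
    fun C => ⟨ConjClasses.map incl C.1, by
      obtain ⟨C, g, rfl, hg⟩ := C
      refine ⟨incl g, rfl, ?_⟩
      rw [orderOf_injective incl (Cfsg.GU n K q).subtype_injective g, hg]⟩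
  have hf : Function.Bijective f := by
    constructor
    · rintro ⟨C, g, rfl, hg⟩ ⟨D, h, rfl, hh⟩ heq
      apply Subtype.ext
      have h1 : ConjClasses.mk (incl g) = ConjClasses.mk (incl h) := congrArg Subtype.val heq
      exact ConjClasses.mk_eq_mk_iff_isConj.mpr ((Cfsg.Agent.S2587.result hK g h).mpr (ConjClasses.mk_eq_mk_iff_isConj.mp h1))
    · rintro ⟨C, g, rfl, hg⟩
      have h1 : g ^ p = 1 := by rw [← hg]; exact pow_orderOf_eq_one g
      have h2 : IsNilpotent (Cfsg.Agent.Lib.Jordan.GL.Nm g) := ⟨p, (Cfsg.Agent.S2570.Nm_pow_char g).mpr h1⟩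
      have h3 := Cfsg.Agent.Lib.Jordan.GU.conj_shGL_inv hK g h2
      have h4 : IsConj (g : Matrix (Fin n) (Fin n) K) (((g : Matrix (Fin n) (Fin n) K).map (fun x : K => x ^ q)).transpose)⁻¹ := by
        have h5 := MonoidHom.map_isConj (Units.coeHom (Matrix (Fin n) (Fin n) K)) h3
        have h6 : Units.coeHom (Matrix (Fin n) (Fin n) K) (Cfsg.Agent.Lib.Jordan.GU.shGL hK g)⁻¹ = (((g : Matrix (Fin n) (Fin n) K).map (fun x : K => x ^ q)).transpose)⁻¹ := by
          rw [Units.coeHom_apply, Matrix.coe_units_inv]
          rfl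
        rw [← h6]
        exact h5
      obtain ⟨B, hB⟩ := (Cfsg.Agent.S2588.result hK g).mpr h4
      refine ⟨⟨ConjClasses.mk B, B, rfl, ?_⟩, ?_⟩
      · have h7 : orderOf (B : GL (Fin n) K) = p := by
          rw [← hg]
          exact (isConj_iff.mp hB).elim (fun c hc => by
            rw [← hc]
            exact orderOf_injective (MulAut.conj c).toMonoidHom (MulAut.conj c).injective g)
        rw [← h7]
        exact (orderOf_injective incl (Cfsg.GU n K q).subtype_injective B).symm
      · apply Subtype.ext
        show ConjClasses.mk (incl B) = ConjClasses.mk g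
        exact ConjClasses.mk_eq_mk_iff_isConj.mpr hB.symm
  rw [Nat.card_congr (Equiv.ofBijective f hf)]
  exact Cfsg.Agent.S2570.result n

end Cfsg.Agent.S2642
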