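import Cfsg.Statements.S2643
import Cfsg.Agent.Lib.Jordan.RegGU
import Cfsg.Agent.Lib.Witt.HermParabolic

set_option autoImplicit false
open Cfsg

namespace Cfsg.Agent.S2643

open Cfsg.Agent.Lib.Jordan.RegGU Cfsg.Agent.Lib.HermCount.Field
open scoped Matrix

section
variable {K : Type*} [Field K] [Fintype K] {q n : ℕ}

/-- Diagonal elements of `GU`. -/
theorem exists_diag (hK : Fintype.card K = q ^ 2) (d : Fin n → K) (hd : ∀ i, d i ^ (q + 1) = 1) :
    ∃ g : GL (Fin n) K, g ∈ GU n K q ∧ (g : Matrix (Fin n) (Fin n) K) = Matrix.diagonal d := by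
  have hne : (Matrix.diagonal d).det ≠ 0 := by
    rw [Matrix.det_diagonal, Finset.prod_ne_zero_iff]
    intro i _ h0
    have := hd i
    rw [h0, zero_pow (by omega)] at this
    exact zero_ne_one this
  refine ⟨Matrix.GeneralLinearGroup.mkOfDetNeZero _ hne, ?_, rfl⟩
  intro u v
  show hermForm n K q (Matrix.diagonal d *ᵥ u) (Matrix.diagonal d *ᵥ v) = _
  simp only [hermForm, Matrix.mulVec_diagonal]
  refine Finset.sum_congr rfl fun i _ => ?_
  rw [mul_pow]
  have := hd i
  rw [pow_succ] at this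
  linear_combination (u i * v i ^ q) * this

theorem exists_det (hK : Fintype.card K = q ^ 2) (hn : 1 ≤ n) (ε : K) (hε : ε ^ (q + 1) = 1) :
    ∃ g : GL (Fin n) K, g ∈ GU n K q ∧ (g : Matrix (Fin n) (Fin n) K).det = ε := by
  classical
  let i₀ : Fin n := ⟨0, hn⟩
  obtain ⟨g, hg, hgd⟩ := exists_diag hK (Function.update (fun _ => (1 : K)) i₀ ε) (by
    intro i
    by_cases h : i = i₀
    · subst h
      simpa using hε
    · simp [Function.update_of_ne h])
  refine ⟨g, hg, ?_⟩
  rw [hgd, Matrix.det_diagonal, Finset.prod_eq_single i₀]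
  · simp
  · intro b _ hb
    simp [Function.update_of_ne hb]
  · simp

end

/-- Regular unipotent classes of SU_n(q), n ≥ 2: the elements u of the special unitary group (isometries of Σ u_i v_i^q of determinant one over the field with q² elements) with (u − 1)^n = 0 and rank(u − 1) = n − 1 form exactly gcd(n, q + 1) conjugacy classes of SU_n(q). -/
theorem result {K : Type*} [Field K] [Fintype K] {q n : ℕ} (hK : Fintype.card K = q ^ 2) (hn : 2 ≤ n) : Nat.card {C : ConjClasses ↥(Cfsg.SU n K q) // ∃ u : ↥(Cfsg.SU n K q), ConjClasses.mk u = C ∧ (((u : GL (Fin n) K) : Matrix (Fin n) (Fin n) K) - 1) ^ n = 0 ∧ (((u : GL (Fin n) K) : Matrix (Fin n) (Fin n) K) - 1).rank = n - 1} = Nat.gcd n (q + 1) := by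
  classical
  have hq2 := two_le hK
  have hn1 : 1 ≤ n := by omega
  haveI : Nonempty (Fin n) := ⟨⟨0, hn1⟩⟩
  let δ : GL (Fin n) K →* Kˣ := Matrix.GeneralLinearGroup.det
  have hδ : ∀ g : GL (Fin n) K, ((δ g : Kˣ) : K) = (g : Matrix (Fin n) (Fin n) K).det := fun g => rfl
  let μ : Subgroup Kˣ := (powMonoidHom (q + 1) : Kˣ →* Kˣ).ker
  have hμ : ∀ x : Kˣ, x ∈ μ ↔ (x : K) ^ (q + 1) = 1 := by
    intro x
    rw [MonoidHom.mem_ker, powMonoidHom_apply]
    constructor
    · intro h
      have := congrArg (fun z : Kˣ => (z : K)) h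
      simpa using this
    · intro h
      apply Units.ext
      simpa using h
  have hcardμ : Nat.card μ = q + 1 := by
    rw [IsCyclic.card_powMonoidHom_ker, Nat.card_eq_fintype_card, Fintype.card_units, hK]
    apply Nat.gcd_eq_right
    have h1 : q ^ 2 - 1 = (q + 1) * (q - 1) := by
      obtain ⟨r, rfl⟩ : ∃ r, q = r + 1 := ⟨q - 1, by omega⟩
      simp only [Nat.add_sub_cancel]
      have : (r + 1) ^ 2 = (r + 1 + 1) * r + 1 := by ring
      omega
    rw [h1]
    exact Dvd.intro _ rfl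
  -- determinants of `GU`
  have hdetGU : ∀ g : GL (Fin n) K, g ∈ GU n K q → δ g ∈ μ := by
    intro g hg
    rw [hμ, hδ, pow_succ']
    have := Cfsg.Agent.Lib.Witt.HermParabolic.det_mul_frob hK (g : Matrix (Fin n) (Fin n) K) hg
    exact this
  -- `SU` inside `GL`
  let toG : ↥(SU n K q) →* GL (Fin n) K := (Matrix.SpecialLinearGroup.toGL).comp (SU n K q).subtype
  have htoG_inj : Function.Injective toG := by
    intro a b hab
    apply Subtype.ext
    apply Subtype.ext
    exact congrArg (fun g : GL (Fin n) K => (g : Matrix (Fin n) (Fin n) K)) hab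
  have htoG_GU : ∀ s : ↥(SU n K q), toG s ∈ GU n K q := fun s x y => s.2 x y
  have htoG_det : ∀ s : ↥(SU n K q), δ (toG s) = 1 := fun s => Units.ext s.1.2
  let mkSU : ∀ g : GL (Fin n) K, g ∈ GU n K q → δ g = 1 → ↥(SU n K q) := fun g hg hd =>
    ⟨⟨(g : Matrix (Fin n) (Fin n) K), congrArg (fun z : Kˣ => (z : K)) hd⟩, hg⟩
  have hmkSU : ∀ g hg hd, toG (mkSU g hg hd) = g := fun g hg hd => Units.ext rfl
  have hconjSU : ∀ (a b : ↥(SU n K q)) (s : GL (Fin n) K), s ∈ GU n K q → δ s = 1 → s * toG a * s⁻¹ = toG b → IsConj a b := by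
    intro a b s hs hd h
    refine isConj_iff.mpr ⟨mkSU s hs hd, htoG_inj ?_⟩
    rw [map_mul, map_mul, map_inv, hmkSU s hs hd]
    exact h
  -- the base point
  obtain ⟨u₀, hu₀, hreg₀⟩ := exists_isReg_GU hK hn1
  have hδreg : ∀ g : GL (Fin n) K, IsReg g → δ g = 1 := by
    intro g hg
    apply Units.ext
    exact det_eq_one_of_nil _ n hg.1
  -- representatives
  have hex : ∀ ε : μ, ∃ g : GL (Fin n) K, g ∈ GU n K q ∧ δ g = ε := by
    intro ε
    obtain ⟨g, hg, hd⟩ := exists_det hK hn1 (ε : Kˣ) ((hμ _).mp ε.2)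
    exact ⟨g, hg, Units.ext hd⟩
  choose g hgGU hgδ using hex
  have hvGU : ∀ ε, g ε * u₀ * (g ε)⁻¹ ∈ GU n K q := fun ε =>
    (GU n K q).mul_mem ((GU n K q).mul_mem (hgGU ε) hu₀) ((GU n K q).inv_mem (hgGU ε))
  have hvreg : ∀ ε, IsReg (g ε * u₀ * (g ε)⁻¹) := fun ε =>
    hreg₀.of_isConj (isConj_iff.mpr ⟨g ε, rfl⟩)
  let s : μ → ↥(SU n K q) := fun ε => mkSU _ (hvGU ε) (hδreg _ (hvreg ε))
  have hs : ∀ ε, toG (s ε) = g ε * u₀ * (g ε)⁻¹ := fun ε => hmkSU _ (hvGU ε) (hδreg _ (hvreg ε))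
  let T := {C : ConjClasses ↥(Cfsg.SU n K q) // ∃ u : ↥(Cfsg.SU n K q), ConjClasses.mk u = C ∧ (((u : GL (Fin n) K) : Matrix (Fin n) (Fin n) K) - 1) ^ n = 0 ∧ (((u : GL (Fin n) K) : Matrix (Fin n) (Fin n) K) - 1).rank = n - 1}
  let Fn : μ → T := fun ε => ⟨ConjClasses.mk (s ε), s ε, rfl, by
    have := hvreg ε
    rw [← hs] at this
    exact this⟩
  let P : Subgroup μ := (powMonoidHom n : μ →* μ).range
  have hFn : ∀ ε ε' : μ, Fn ε = Fn ε' ↔ ε⁻¹ * ε' ∈ P := by
    intro ε ε'
    constructor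
    · intro h
      have h1 : ConjClasses.mk (s ε) = ConjClasses.mk (s ε') := congrArg Subtype.val h
      obtain ⟨t, ht⟩ := isConj_iff.mp (ConjClasses.mk_eq_mk_iff_isConj.mp h1)
      have h2 := congrArg toG ht
      rw [map_mul, map_mul, map_inv, hs, hs] at h2
      set S := toG t with hS
      let a := (g ε')⁻¹ * S * g ε
      have haGU : a ∈ GU n K q := (GU n K q).mul_mem ((GU n K q).mul_mem ((GU n K q).inv_mem (hgGU ε')) (htoG_GU t)) (hgGU ε)
      have hau : a * u₀ = u₀ * a := by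
        have h3 : S * (g ε * u₀ * (g ε)⁻¹) = (g ε' * u₀ * (g ε')⁻¹) * S := by
          rw [← h2]
          group
        have h4 : a * u₀ = (g ε')⁻¹ * (S * (g ε * u₀ * (g ε)⁻¹)) * g ε := by
          simp only [a]
          group
        rw [h4, h3]
        simp only [a]
        group
      obtain ⟨c, hc, hdet⟩ := cent_det hK hn1 hu₀ haGU hreg₀ hau
      have hc0 : c ≠ 0 := by
        intro h0
        rw [h0, zero_pow (by omega)] at hc
        exact zero_ne_one hc
      let cu : Kˣ := Units.mk0 c hc0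
      have hcu : cu ∈ μ := (hμ _).mpr hc
      have hδa : δ a = cu ^ n := by
        apply Units.ext
        rw [hδ, hdet, Units.val_pow_eq_pow_val]
        rfl
      have hδa2 : δ a = (ε' : Kˣ)⁻¹ * ε := by
        simp only [a, map_mul, map_inv, hgδ, hS, htoG_det, mul_one]
      refine ⟨(⟨cu, hcu⟩ : μ)⁻¹, ?_⟩
      apply Subtype.ext
      simp only [powMonoidHom_apply, Subgroup.coe_pow, Subgroup.coe_inv, Subgroup.coe_mul]
      rw [inv_pow, ← hδa, hδa2]
      group
    · rintro ⟨c, hc⟩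
      have hc1 : (c : Kˣ) ^ n = (ε : Kˣ)⁻¹ * ε' := by
        have := congrArg Subtype.val hc
        simpa using this
      obtain ⟨sc, hscGU, hscd⟩ := exists_diag hK (fun _ : Fin n => ((c : Kˣ) : K)) (fun _ => (hμ _).mp c.2)
      have hsccomm : sc * u₀ = u₀ * sc := by
        apply Units.ext
        simp only [Units.val_mul]
        rw [hscd]
        ext i j
        simp [Matrix.diagonal_mul, Matrix.mul_diagonal, mul_comm]
      have hδsc : δ sc = (c : Kˣ) ^ n := by
        apply Units.ext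
        rw [hδ, hscd, Matrix.det_diagonal]
        simp
      let t := g ε' * sc⁻¹ * (g ε)⁻¹
      have htGU : t ∈ GU n K q := (GU n K q).mul_mem ((GU n K q).mul_mem (hgGU ε') ((GU n K q).inv_mem hscGU)) ((GU n K q).inv_mem (hgGU ε))
      have htδ : δ t = 1 := by
        simp only [t, map_mul, map_inv, hgδ, hδsc, hc1]
        have : ((ε' : Kˣ)) * (((ε : Kˣ))⁻¹ * ε')⁻¹ * ((ε : Kˣ))⁻¹ = 1 := by
          group
        exact this
      apply Subtype.ext
      apply ConjClasses.mk_eq_mk_iff_isConj.mpr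
      apply hconjSU _ _ t htGU htδ
      rw [hs, hs]
      have h5 : sc⁻¹ * u₀ * sc = u₀ := by
        rw [mul_assoc, ← hsccomm]
        group
      calc t * (g ε * u₀ * (g ε)⁻¹) * t⁻¹ = g ε' * (sc⁻¹ * u₀ * sc) * (g ε')⁻¹ := by
            simp only [t]
            group
        _ = _ := by rw [h5]
  have hFs : Function.Surjective Fn := by
    rintro ⟨C, u, rfl, hu1, hu2⟩
    have hureg : IsReg (toG u) := ⟨hu1, hu2⟩
    have hc : IsConj (⟨u₀, hu₀⟩ : ↥(GU n K q)) ⟨toG u, htoG_GU u⟩ :=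
      (Cfsg.Agent.S2587.result hK _ _).mpr (hreg₀.isConj hureg)
    obtain ⟨c, hc⟩ := isConj_iff.mp hc
    have hc' : (c : GL (Fin n) K) * u₀ * (c : GL (Fin n) K)⁻¹ = toG u := congrArg Subtype.val hc
    let ε : μ := ⟨δ c, hdetGU c c.2⟩
    refine ⟨ε, ?_⟩
    apply Subtype.ext
    apply ConjClasses.mk_eq_mk_iff_isConj.mpr
    apply hconjSU _ _ ((c : GL (Fin n) K) * (g ε)⁻¹) ((GU n K q).mul_mem c.2 ((GU n K q).inv_mem (hgGU ε)))
    · rw [map_mul, map_inv, hgδ]
      simp [ε]
    · rw [hs, ← hc']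
      group
  let Φ : μ ⧸ P → T := Quotient.lift Fn (fun a b hab => (hFn a b).2 (QuotientGroup.leftRel_apply.mp hab))
  have hΦ : Function.Bijective Φ := by
    constructor
    · intro a b
      induction a using QuotientGroup.induction_on with
      | H a =>
        induction b using QuotientGroup.induction_on with
        | H b =>
          intro hab
          exact QuotientGroup.eq.mpr ((hFn a b).mp hab)
    · intro t
      obtain ⟨ε, hε⟩ := hFs t
      exact ⟨(ε : μ ⧸ P), hε⟩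
  have h1 : Nat.card T = Nat.card (μ ⧸ P) := (Nat.card_congr (Equiv.ofBijective Φ hΦ)).symm
  show Nat.card T = _
  rw [h1]
  have h2 : Nat.card (μ ⧸ P) = P.index := rfl
  rw [h2, IsCyclic.index_powMonoidHom_range, hcardμ, Nat.gcd_comm]

end Cfsg.Agent.S2643
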