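import Cfsg.Statements.S2644
import Cfsg.Agent.Lib.UnitT.Basic

set_option autoImplicit false
open Cfsg

namespace Cfsg.Agent.S2644

open Matrix Cfsg Cfsg.Agent.Lib.UnitT.Basic
open Cfsg.Agent.Lib.Classical.HermBasic Cfsg.Agent.Lib.Classical.HermBridge
open Cfsg.Agent.Lib.HermCount.Field Cfsg.Agent.Lib.Witt.HermParabolic

/-- In the special unitary group SU_n(q) with n ≥ 3 (isometries of Σ u_i v_i^q of determinant one over the field with q² elements), any two transvections (elements t with t − 1 of rank one and square zero) are conjugate. -/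
theorem result {K : Type*} [Field K] [Fintype K] {q n : ℕ} (hK : Fintype.card K = q ^ 2) (hn : 3 ≤ n) (s t : ↥(Cfsg.SU n K q)) (hs : Cfsg.IsTransvection (((s : GL (Fin n) K) : Matrix (Fin n) (Fin n) K))) (ht : Cfsg.IsTransvection (((t : GL (Fin n) K) : Matrix (Fin n) (Fin n) K))) : IsConj s t := by
  classical
  have hF := hK
  have S := hform hF n
  have hσ := invol_frob hF
  obtain ⟨a₀, ha₀, ha₀'⟩ := hσ.exists_pure
  have hpres : ∀ (g : SU n K q) (x y : Fin n → K),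
      hermForm n K q ((g.1.1 : Matrix (Fin n) (Fin n) K) *ᵥ x) ((g.1.1 : Matrix (Fin n) (Fin n) K) *ᵥ y)
        = hermForm n K q x y := fun g => g.2
  obtain ⟨w, hw, hww, hsw⟩ := exists_normal hF ha₀ ha₀' _ (hpres s) hs
  obtain ⟨w', hw', hww', htw⟩ := exists_normal hF ha₀ ha₀' _ (hpres t) ht
  obtain ⟨g, hg, hgw⟩ := witt_herm hF (k := 1) (fun _ => w) (fun _ => w')
    (LinearIndependent.of_subsingleton 0 hw) (LinearIndependent.of_subsingleton 0 hw')
    (fun _ _ => by simp only [hww, hww'])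
  let M : Matrix (Fin n) (Fin n) K := LinearMap.toMatrix' (g : (Fin n → K) →ₗ[K] (Fin n → K))
  have hM : ∀ x, M *ᵥ x = g x := fun x => LinearMap.toMatrix'_mulVec _ x
  have hMiso : ∀ x y, hermForm n K q (M *ᵥ x) (M *ᵥ y) = hermForm n K q x y := by
    intro x y
    rw [hM, hM, hg]
  have hdet : M.det * M.det ^ q = 1 := det_mul_frob hF M hMiso
  have hdet0 : M.det ≠ 0 := left_ne_zero_of_mul_eq_one hdet
  obtain ⟨y, hyy, hyw, hwy⟩ := exists_nonisotropic_orth hF hn hw' hww'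
  set ζ : K := M.det⁻¹ with hζdef
  have hζ : ζ * frobHom hF ζ = 1 := by
    rw [hζdef, map_inv₀]
    show M.det⁻¹ * (M.det ^ q)⁻¹ = 1
    rw [← mul_inv, hdet, inv_one]
  let A : Matrix (Fin n) (Fin n) K := reflMat q y ζ * M
  have hAdet : A.det = 1 := by
    show (reflMat q y ζ * M).det = 1
    rw [Matrix.det_mul, det_reflMat hF y ζ hyy, hζdef, inv_mul_cancel₀ hdet0]
  have hAiso : ∀ x z, hermForm n K q (A *ᵥ x) (A *ᵥ z) = hermForm n K q x z := by
    intro x z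
    show hermForm n K q ((reflMat q y ζ * M) *ᵥ x) ((reflMat q y ζ * M) *ᵥ z) = _
    rw [← Matrix.mulVec_mulVec, ← Matrix.mulVec_mulVec, reflMat_iso hF y hyy hζ, hMiso]
  have hAw : A *ᵥ w = w' := by
    show (reflMat q y ζ * M) *ᵥ w = w'
    rw [← Matrix.mulVec_mulVec, hM, hgw ⟨0, Nat.one_pos⟩, reflMat_mulVec]
    have : hermForm n K q w' y = 0 := hwy
    rw [this]
    simp
  let A' : SU n K q := ⟨⟨A, hAdet⟩, hAiso⟩
  rw [isConj_iff]
  refine ⟨A', ?_⟩
  rw [mul_inv_eq_iff_eq_mul]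
  apply Subtype.ext
  apply Subtype.ext
  apply Matrix.ext_iff_mulVec.2
  intro x
  show (A * (s.1.1 : Matrix (Fin n) (Fin n) K)) *ᵥ x = ((t.1.1 : Matrix (Fin n) (Fin n) K) * A) *ᵥ x
  have e1 : (A * (s.1.1 : Matrix (Fin n) (Fin n) K)) *ᵥ x = A *ᵥ ((s.1.1 : Matrix (Fin n) (Fin n) K) *ᵥ x) :=
    (Matrix.mulVec_mulVec x A _).symm
  have e2 : ((t.1.1 : Matrix (Fin n) (Fin n) K) * A) *ᵥ x = (t.1.1 : Matrix (Fin n) (Fin n) K) *ᵥ (A *ᵥ x) :=
    (Matrix.mulVec_mulVec x _ A).symm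
  have e3 : hermForm n K q (A *ᵥ x) w' = hermForm n K q x w := by
    rw [← hAw, hAiso]
  rw [e1, e2, hsw, htw, Matrix.mulVec_add, Matrix.mulVec_smul, hAw, e3]

end Cfsg.Agent.S2644
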