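import Cfsg.Statements.S2665
import Mathlib
-- import your own Cfsg.Agent.* helpers here

set_option autoImplicit false
open scoped MatrixGroups
open Cfsg

namespace Cfsg.Agent.S2665

open scoped Matrix

open Polynomial in
/-- The auxiliary polynomials expressing the coordinates of a fixed vector in terms of the last coordinate. -/
noncomputable def coeffPoly {K : Type*} [Field K] (q : ℕ) (a : ℕ → K) : ℕ → K[X]
  | 0 => C (a 0) * X ^ q
  | (i + 1) => (coeffPoly q a i) ^ q + C (a (i + 1)) * X ^ q

section Lang

open Polynomial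

variable {K : Type*} [Field K] [IsAlgClosed K]

theorem coeffPoly_derivative (q : ℕ) (hq0 : (q : K) = 0) (a : ℕ → K) (i : ℕ) :
    derivative (coeffPoly q a i) = 0 := by
  induction i with
  | zero =>
    simp [coeffPoly, derivative_X_pow, hq0]
  | succ i ih =>
    simp [coeffPoly, derivative_pow, derivative_X_pow, ih, hq0]

theorem coeffPoly_natDegree (q : ℕ) (hq2 : 2 ≤ q) (a : ℕ → K) (ha : a 0 ≠ 0) (i : ℕ) :
    (coeffPoly q a i).natDegree = q ^ (i + 1) := by
  induction i with
  | zero =>
    simpa [coeffPoly] using natDegree_C_mul_X_pow q (a 0) ha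
  | succ i ih =>
    have h1 : ((coeffPoly q a i) ^ q).natDegree = q ^ (i + 1 + 1) := by
      rw [natDegree_pow, ih, pow_succ (q) (i + 1), mul_comm]
    have h2 : (C (a (i + 1)) * X ^ q : K[X]).natDegree ≤ q := natDegree_C_mul_X_pow_le _ _
    have h3 : q < q ^ (i + 1 + 1) := by
      have : q ^ (i + 1 + 1) = q * q ^ (i + 1) := by ring
      rw [this]
      have h4 : 2 ≤ q ^ (i + 1) := le_trans hq2 (Nat.le_self_pow (by omega) q)
      nlinarith
    show ((coeffPoly q a i) ^ q + C (a (i + 1)) * X ^ q).natDegree = _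
    rw [natDegree_add_eq_left_of_natDegree_lt (by omega), h1]

theorem coeffPoly_eval_zero (q : ℕ) (hq2 : 2 ≤ q) (a : ℕ → K) (i : ℕ) :
    (coeffPoly q a i).eval 0 = 0 := by
  have hq : q ≠ 0 := by omega
  induction i with
  | zero => simp [coeffPoly, hq]
  | succ i ih =>
    simp [coeffPoly, ih, hq]

theorem exists_nonzero_root (q : ℕ) (hq2 : 2 ≤ q) (hq0 : (q : K) = 0) (a : ℕ → K) (ha : a 0 ≠ 0) (m : ℕ) :
    ∃ t : K, t ≠ 0 ∧ (coeffPoly q a m).eval t = t := by
  set P : K[X] := coeffPoly q a m - X with hP
  have hder : derivative P = -1 := by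
    simp [hP, coeffPoly_derivative q hq0]
  have hdeg : P.natDegree = q ^ (m + 1) := by
    rw [hP, natDegree_sub_eq_left_of_natDegree_lt, coeffPoly_natDegree q hq2 a ha]
    rw [coeffPoly_natDegree q hq2 a ha, natDegree_X]
    have : 2 ≤ q ^ (m + 1) := le_trans hq2 (Nat.le_self_pow (by omega) q)
    omega
  have hdvd : X ∣ P := by
    rw [X_dvd_iff, coeff_zero_eq_eval_zero]
    simp [hP, coeffPoly_eval_zero q hq2]
  obtain ⟨R, hR⟩ := hdvd
  have hR0 : R.eval 0 = -1 := by
    have := congrArg (fun r => eval 0 (derivative r)) hR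
    simp only [hder, derivative_mul, derivative_X, one_mul, eval_add, eval_mul, eval_X, zero_mul, add_zero, eval_neg, eval_one] at this
    exact this.symm
  have hRne : R ≠ 0 := by
    rintro rfl
    simp at hR0
  have hRdeg : R.natDegree ≠ 0 := by
    intro h0
    have h1 : P.natDegree = R.natDegree + 1 := by
      rw [hR, natDegree_X_mul hRne]
    have : 2 ≤ q ^ (m + 1) := le_trans hq2 (Nat.le_self_pow (by omega) q)
    omega
  obtain ⟨t, ht⟩ := IsAlgClosed.exists_root R (by
    rw [degree_eq_natDegree hRne]
    exact_mod_cast hRdeg)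
  refine ⟨t, ?_, ?_⟩
  · rintro rfl
    rw [IsRoot.def, hR0] at ht
    simp at ht
  · have h1 : P.eval t = 0 := by
      rw [hR, eval_mul, ht.eq_zero, mul_zero]
    simp only [hP, eval_sub, eval_X] at h1
    exact sub_eq_zero.mp h1

variable (σ : K →+* K) (q : ℕ) (hq2 : 2 ≤ q) (hq0 : (q : K) = 0) (hσ : ∀ c, σ c = c ^ q)

include hq2 hq0 hσ

theorem exists_fixed {V : Type*} [AddCommGroup V] [Module K V] [FiniteDimensional K V]
    (φ : V →ₛₗ[σ] V) (hinj : Function.Injective φ) (v : V) (hv : v ≠ 0) :
    ∃ x : V, x ≠ 0 ∧ φ x = x := by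
  classical
  set w : ℕ → V := fun i => φ^[i] v with hw
  have hwsucc : ∀ i, w (i + 1) = φ (w i) := fun i => Function.iterate_succ_apply' φ i v
  have hex : ∃ j : ℕ, ¬ LinearIndependent K (fun i : Fin j => w i) := by
    refine ⟨Module.finrank K V + 1, fun h => ?_⟩
    have := h.fintype_card_le_finrank
    simp at this
  let D := Nat.find hex
  have hD : ¬ LinearIndependent K (fun i : Fin D => w i) := Nat.find_spec hex
  have hD0 : D ≠ 0 := by
    intro h0
    apply hD
    rw [h0]
    exact linearIndependent_empty_type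
  obtain ⟨d, hd⟩ : ∃ d, D = d + 1 := Nat.exists_eq_succ_of_ne_zero hD0
  have hind : LinearIndependent K (fun i : Fin d => w i) := by
    by_contra hc
    have := Nat.find_min hex (m := d) (by show d < D; omega)
    exact this hc
  have hmem : w d ∈ Submodule.span K (Set.range (fun i : Fin d => w i)) := by
    by_contra hc
    apply hD
    rw [hd]
    have h1 := (linearIndependent_finSnoc (v := fun i : Fin d => w i) (x := w d)).2 ⟨hind, hc⟩
    convert h1 using 1
    funext i
    refine Fin.lastCases ?_ (fun i => ?_) i <;> simp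
  obtain ⟨c, hc⟩ := (Submodule.mem_span_range_iff_exists_fun K).1 hmem
  have hd0 : d ≠ 0 := by
    rintro rfl
    apply hv
    simpa [w] using hc.symm
  obtain ⟨m, rfl⟩ : ∃ m, d = m + 1 := Nat.exists_eq_succ_of_ne_zero hd0
  set a : ℕ → K := fun i => if h : i < m + 1 then c ⟨i, h⟩ else 0 with ha
  have hsum : ∑ i ∈ Finset.range (m + 1), a i • w i = w (m + 1) := by
    rw [Finset.sum_range, ← hc]
    refine Finset.sum_congr rfl fun i _ => ?_
    simp only [ha]
    rw [dif_pos i.2]
  have hli : ∀ b : ℕ → K, ∑ i ∈ Finset.range (m + 1), b i • w i = 0 → ∀ i, i < m + 1 → b i = 0 := by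
    intro b hb i hi
    have h1 := Fintype.linearIndependent_iff.1 hind (fun i => b i) (by
      rw [Finset.sum_range] at hb
      exact hb) ⟨i, hi⟩
    exact h1
  -- `a 0 ≠ 0` since `φ` is injective
  have ha0 : a 0 ≠ 0 := by
    intro h0
    have hroot : ∀ i : ℕ, ∃ b : K, b ^ q = a (i + 1) := fun i =>
      IsAlgClosed.exists_pow_nat_eq _ (by omega)
    choose b hb using hroot
    have h1 : φ (w m) = φ (∑ i ∈ Finset.range m, b i • w i) := by
      rw [← hwsucc, ← hsum, Finset.sum_range_succ', h0, zero_smul, add_zero, map_sum]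
      refine Finset.sum_congr rfl fun i _ => ?_
      rw [LinearMap.map_smulₛₗ, hσ, hb, hwsucc]
    have h2 := hinj h1
    have h3 := hli (fun i => if i < m then b i else -1) (by
      rw [Finset.sum_range_succ]
      simp only [lt_irrefl, if_false, neg_smul, one_smul]
      have h4 : ∑ i ∈ Finset.range m, (if i < m then b i else -1) • w i = ∑ i ∈ Finset.range m, b i • w i := by
        refine Finset.sum_congr rfl fun i hi => ?_
        rw [if_pos (Finset.mem_range.1 hi)]
      rw [h4, ← h2]
      simp) m (by omega)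
    simp at h3
  obtain ⟨t, ht0, ht⟩ := exists_nonzero_root q hq2 hq0 a ha0 m
  set e : ℕ → K := fun i => (coeffPoly q a i).eval t with he
  have he0 : e 0 = a 0 * t ^ q := by simp [he, coeffPoly]
  have hesucc : ∀ i, e (i + 1) = (e i) ^ q + a (i + 1) * t ^ q := by
    intro i
    simp [he, coeffPoly]
  have hem : e m = t := ht
  refine ⟨∑ i ∈ Finset.range (m + 1), e i • w i, ?_, ?_⟩
  · intro hx
    have := hli e hx m (by omega)
    rw [hem] at this
    exact ht0 this
  · rw [map_sum]
    have h1 : ∀ i, φ (e i • w i) = (e i) ^ q • w (i + 1) := by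
      intro i
      rw [LinearMap.map_smulₛₗ, hσ, hwsucc]
    simp_rw [h1]
    rw [Finset.sum_range_succ, hem, ← hsum, Finset.sum_range_succ',
      Finset.sum_range_succ' (fun i => e i • w i) m, smul_add, Finset.smul_sum]
    have h2 : ∑ i ∈ Finset.range m, e (i + 1) • w (i + 1) =
        ∑ i ∈ Finset.range m, (e i) ^ q • w (i + 1) + ∑ i ∈ Finset.range m, t ^ q • a (i + 1) • w (i + 1) := by
      rw [← Finset.sum_add_distrib]
      refine Finset.sum_congr rfl fun i _ => ?_
      rw [hesucc, add_smul, mul_comm, mul_smul]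
    rw [h2, he0, mul_comm, mul_smul]
    abel

universe v in
theorem span_fixed (n : ℕ) : ∀ (V : Type v) [AddCommGroup V] [Module K V] [FiniteDimensional K V]
    (φ : V →ₛₗ[σ] V), Function.Injective φ → Module.finrank K V = n →
    Submodule.span K {x : V | φ x = x} = ⊤ := by
  induction n using Nat.strong_induction_on with
  | _ n ih =>
    intro V _ _ _ φ hinj hn
    by_cases hV : ∃ v : V, v ≠ 0
    · obtain ⟨v, hv⟩ := hV
      obtain ⟨x, hx0, hx⟩ := exists_fixed σ q hq2 hq0 hσ φ hinj v hv
      set W := Submodule.span K {x} with hW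
      have hWφ : W ≤ W.comap φ := by
        intro y hy
        obtain ⟨c, rfl⟩ := Submodule.mem_span_singleton.1 hy
        rw [Submodule.mem_comap, LinearMap.map_smulₛₗ, hx]
        exact Submodule.smul_mem _ _ (Submodule.mem_span_singleton_self x)
      let φ' : (V ⧸ W) →ₛₗ[σ] (V ⧸ W) := W.mapQ W φ hWφ
      have hφ' : ∀ u : V, φ' (W.mkQ u) = W.mkQ (φ u) := fun u => by
        simp [φ', Submodule.mapQ_apply]
      have hinj' : Function.Injective φ' := by
        rw [injective_iff_map_eq_zero]
        intro y hy
        obtain ⟨u, rfl⟩ := W.mkQ_surjective y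
        rw [hφ', Submodule.mkQ_apply, Submodule.Quotient.mk_eq_zero] at hy
        obtain ⟨c, hc⟩ := Submodule.mem_span_singleton.1 hy
        obtain ⟨c', hc'⟩ := IsAlgClosed.exists_pow_nat_eq c (n := q) (by omega)
        have h1 : φ (c' • x) = φ u := by
          rw [LinearMap.map_smulₛₗ, hσ, hc', hx, hc]
        rw [Submodule.mkQ_apply, Submodule.Quotient.mk_eq_zero, ← hinj h1]
        exact Submodule.smul_mem _ _ (Submodule.mem_span_singleton_self x)
      have hWrank : Module.finrank K W = 1 := finrank_span_singleton hx0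
      have hdim : Module.finrank K (V ⧸ W) < n := by
        have := Submodule.finrank_quotient_add_finrank W
        omega
      have ih' := ih _ hdim (V ⧸ W) φ' hinj' rfl
      set S := Submodule.span K {x : V | φ x = x} with hS
      have hxS : x ∈ S := Submodule.subset_span hx
      have hT : (⊤ : Submodule K (V ⧸ W)) ≤ S.map W.mkQ := by
        rw [← ih', Submodule.span_le]
        intro y hy
        obtain ⟨u, rfl⟩ := W.mkQ_surjective y
        have hy' : φ' (W.mkQ u) = W.mkQ u := hy
        rw [hφ', Submodule.mkQ_apply, Submodule.mkQ_apply, Submodule.Quotient.eq] at hy'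
        obtain ⟨c, hc⟩ := Submodule.mem_span_singleton.1 hy'
        obtain ⟨t, ht⟩ := IsAlgClosed.exists_root (X ^ q + (C c - X) : K[X]) (by
          have h1 : (C c - X : K[X]) = -(X - C c) := by ring
          rw [degree_add_eq_left_of_degree_lt, degree_X_pow]
          · exact_mod_cast (by omega : q ≠ 0)
          · rw [h1, degree_neg, degree_X_sub_C, degree_X_pow]
            exact_mod_cast (by omega : 1 < q))
        have ht' : t ^ q + (c - t) = 0 := by simpa [IsRoot.def] using ht
        have hu' : φ (u + t • x) = u + t • x := by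
          rw [map_add, LinearMap.map_smulₛₗ, hσ, hx]
          have h2 : φ u = u + c • x := by rw [hc]; abel
          rw [h2, add_assoc, ← add_smul]
          congr 2
          linear_combination ht'
        refine ⟨u + t • x, Submodule.subset_span hu', ?_⟩
        rw [map_add, map_smul]
        have h3 : W.mkQ x = 0 := by
          rw [Submodule.mkQ_apply, Submodule.Quotient.mk_eq_zero]
          exact Submodule.mem_span_singleton_self x
        rw [h3, smul_zero, add_zero]
      rw [eq_top_iff]
      intro u _
      obtain ⟨s, hs, hsu⟩ := hT (Submodule.mem_top (x := W.mkQ u))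
      rw [Submodule.mkQ_apply, Submodule.mkQ_apply, Submodule.Quotient.eq] at hsu
      obtain ⟨c, hc⟩ := Submodule.mem_span_singleton.1 hsu
      have h4 : u = s - c • x := by rw [hc]; abel
      rw [h4]
      exact S.sub_mem hs (S.smul_mem c hxS)
    · have hsub : Subsingleton V := by
        refine ⟨fun a b => ?_⟩
        by_contra hab
        apply hV
        exact ⟨a - b, sub_ne_zero.2 hab⟩
      exact Subsingleton.elim _ _

end Lang

/-- The Lang–Steinberg Theorem for the general linear group. Let `K` be an algebraically closed field of prime characteristic `p`, let `q = p^f` with `f ≥ 1`, and let `σ` be the endomorphism of GL_n(K) raising every matrix entry to the `q`-th power. Then every element `g` of GL_n(K) can be written `g = x · σ(x)⁻¹` for some `x` in GL_n(K): the map `x ↦ x σ(x)⁻¹` is surjective. -/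
theorem result {K : Type*} [Field K] [IsAlgClosed K] (p : ℕ) [Fact p.Prime] [CharP K p]
    (f : ℕ) (hf : 1 ≤ f) (n : ℕ) (g : GL (Fin n) K) :
    ∃ x : GL (Fin n) K, g = x * (Matrix.GeneralLinearGroup.map (iterateFrobenius K p f) x)⁻¹ := by
  classical
  have hfne : f ≠ 0 := by omega
  set σ : K →+* K := iterateFrobenius K p f with hσdef
  set q := p ^ f with hqdef
  have hp2 : 2 ≤ p := (Fact.out : p.Prime).two_le
  have hq2 : 2 ≤ q := le_trans hp2 (Nat.le_self_pow hfne p)
  have hq0 : (q : K) = 0 := by
    rw [hqdef, Nat.cast_pow, CharP.cast_eq_zero K p, zero_pow hfne]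
  have hσ : ∀ c, σ c = c ^ q := fun c => rfl
  let φ : (Fin n → K) →ₛₗ[σ] (Fin n → K) :=
    { toFun := fun v => (g : Matrix (Fin n) (Fin n) K) *ᵥ (fun i => σ (v i))
      map_add' := by
        intro u v
        rw [← Matrix.mulVec_add]
        congr 1
        funext i
        simp
      map_smul' := by
        intro c v
        rw [← Matrix.mulVec_smul]
        congr 1
        funext i
        simp }
  have hφ : ∀ v, φ v = (g : Matrix (Fin n) (Fin n) K) *ᵥ (fun i => σ (v i)) := fun _ => rfl
  have hinj : Function.Injective φ := by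
    intro u v huv
    rw [hφ, hφ] at huv
    have h1 := (Matrix.mulVec_injective_iff_isUnit.2 g.isUnit) huv
    funext i
    exact σ.injective (congrFun h1 i)
  have hspan := span_fixed σ q hq2 hq0 hσ n (Fin n → K) φ hinj (by simp)
  obtain ⟨f', hf1, -, hf3⟩ := Submodule.exists_fun_fin_finrank_span_eq K {x : Fin n → K | φ x = x}
  have hcard : Module.finrank K (Submodule.span K {x : Fin n → K | φ x = x}) = n := by
    rw [hspan]; simp
  let e : Fin n ≃ Fin (Module.finrank K (Submodule.span K {x : Fin n → K | φ x = x})) := finCongr hcard.symm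
  let F : Fin n → Fin n → K := f' ∘ e
  have hF1 : ∀ j, φ (F j) = F j := fun j => hf1 (e j)
  have hF3 : LinearIndependent K F := hf3.comp _ e.injective
  let A : Matrix (Fin n) (Fin n) K := Matrix.of (fun i j => F j i)
  have hA : IsUnit A := Matrix.linearIndependent_cols_iff_isUnit.1 hF3
  refine ⟨hA.unit, ?_⟩
  apply eq_mul_inv_of_mul_eq
  apply Units.ext
  ext i j
  have h2 := congrFun (hF1 j) i
  rw [hφ] at h2
  simpa [Matrix.mul_apply, Matrix.mulVec, dotProduct, A] using h2

end Cfsg.Agent.S2665
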