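import Cfsg.Statements.S2666
-- import your own Cfsg.Agent.* helpers here

set_option autoImplicit false
open Cfsg

namespace Cfsg.Agent.S2666

theorem pow_fix_aux {X : Type*} [Group X] (σ : MulAut X) (y : X) (hy : σ y = y) (e : ℕ) : (σ ^ e) y = y := by
  induction e with
  | zero => simp
  | succ n ih =>
    rw [pow_succ, MulAut.mul_apply, hy, ih]

theorem comm_aux {X : Type*} [Group X] (σ : MulAut X) (n : ℕ) (y : X) : (σ ^ n) (σ y) = σ ((σ ^ n) y) := by
  rw [← MulAut.mul_apply, ← MulAut.mul_apply, ← pow_succ, ← pow_succ']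

theorem x_fix_aux {X : Type*} [Group X] (σ : MulAut X) (e : ℕ) (a : X)
    (hfix : (σ ^ e) (a * (σ a)⁻¹) = a * (σ a)⁻¹) : σ (((σ ^ e) a)⁻¹ * a) = ((σ ^ e) a)⁻¹ * a := by
  have h1 : (σ ^ e) a * ((σ ^ e) (σ a))⁻¹ = a * (σ a)⁻¹ := by
    rw [map_mul, map_inv] at hfix
    exact hfix
  rw [comm_aux] at h1
  simp only [map_mul, map_inv]
  have h2 : ((σ ^ e) a)⁻¹ * a = (σ ((σ ^ e) a))⁻¹ * σ a := by
    have h3 := congrArg (fun z => ((σ ^ e) a)⁻¹ * z * σ a) h1
    simp only [mul_assoc, inv_mul_cancel, mul_one, inv_mul_cancel_left] at h3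
    exact h3.symm
  exact h2.symm

/-- Shintani descent, in an abstract form. Let `σ` be an automorphism of a group `X` such that the maps `a ↦ a·σ(a)⁻¹` and `a ↦ a·σᵉ(a)⁻¹` are surjective on `X` (the Lang–Steinberg property, which holds when `X` is a connected algebraic group and `σ` a Steinberg endomorphism), where `e ≥ 1`. Write `G` for the subgroup of fixed points of `σᵉ` and `H` for the subgroup of fixed points of `σ`. The `G`-conjugacy classes in the coset `G σ` of the semidirect product of `G` by `σ` correspond to the orbits of `G` on itself under twisted conjugation `g ↦ k g σ(k)⁻¹`, and the `e`-th power of `g σ` has `G`-part the norm `g σ(g) ⋯ σ^(e-1)(g)`. For `g` in `G` and any `a` with `g = a σ(a)⁻¹`, put `x = σᵉ(a)⁻¹ a`. Then: (1) `x` lies in `H`, and `a⁻¹ · (g σ(g) ⋯ σ^(e-1)(g)) · a = x`; (2) for `g, g'` in `G` with such elements `a, b` and `x, x'`, the elements `g, g'` are twisted-conjugate under `G` if and only if `x, x'` are conjugate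 in `H`; (3) every element of `H` arises as such an `x`. So `g ↦ x` induces a well-defined bijection from the twisted `G`-classes of `G` onto the conjugacy classes of `H` (the Shintani map). -/
theorem result {X : Type*} [Group X] (σ : MulAut X) (e : ℕ) (he : 1 ≤ e)
    (hL : ∀ g : X, ∃ a : X, g = a * (σ a)⁻¹) (hLe : ∀ g : X, ∃ a : X, g = a * ((σ ^ e) a)⁻¹) :
    (∀ g ∈ (MulEquiv.toMonoidHom (σ ^ e)).eqLocus (MonoidHom.id X), ∀ a : X, g = a * (σ a)⁻¹ →
        ((σ ^ e) a)⁻¹ * a ∈ (MulEquiv.toMonoidHom σ).eqLocus (MonoidHom.id X) ∧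
          a⁻¹ * ((List.range e).map (fun i => (σ ^ i) g)).prod * a = ((σ ^ e) a)⁻¹ * a) ∧
    (∀ g ∈ (MulEquiv.toMonoidHom (σ ^ e)).eqLocus (MonoidHom.id X), ∀ g' ∈ (MulEquiv.toMonoidHom (σ ^ e)).eqLocus (MonoidHom.id X), ∀ a b : X,
        g = a * (σ a)⁻¹ → g' = b * (σ b)⁻¹ →
          ((∃ k ∈ (MulEquiv.toMonoidHom (σ ^ e)).eqLocus (MonoidHom.id X), g' = k * g * (σ k)⁻¹) ↔
            (∃ h ∈ (MulEquiv.toMonoidHom σ).eqLocus (MonoidHom.id X), ((σ ^ e) b)⁻¹ * b = h * (((σ ^ e) a)⁻¹ * a) * h⁻¹))) ∧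
    (∀ x ∈ (MulEquiv.toMonoidHom σ).eqLocus (MonoidHom.id X), ∃ g ∈ (MulEquiv.toMonoidHom (σ ^ e)).eqLocus (MonoidHom.id X), ∃ a : X,
        g = a * (σ a)⁻¹ ∧ ((σ ^ e) a)⁻¹ * a = x) := by
  have htel : ∀ (g a : X), g = a * (σ a)⁻¹ → ∀ n : ℕ,
      ((List.range n).map (fun i => (σ ^ i) g)).prod = a * ((σ ^ n) a)⁻¹ := by
    intro g a ha n
    induction n with
    | zero => simp
    | succ n ih =>
      rw [List.range_succ, List.map_append, List.prod_append, ih]
      simp only [List.map_cons, List.map_nil, List.prod_cons, List.prod_nil, mul_one]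
      rw [ha, map_mul, map_inv, ← MulAut.mul_apply, ← pow_succ]
      group
  refine ⟨?_, ?_, ?_⟩
  · intro g hg a ha
    have hfix : (σ ^ e) g = g := hg
    subst ha
    refine ⟨x_fix_aux σ e a hfix, ?_⟩
    rw [htel _ a rfl e]
    group
  · intro g hg g' hg' a b ha hb
    have hfix : (σ ^ e) g = g := hg
    have hfix' : (σ ^ e) g' = g' := hg'
    constructor
    · rintro ⟨k, hk, hkk⟩
      have hk' : (σ ^ e) k = k := hk
      have h1 : (σ b)⁻¹ = b⁻¹ * k * a * (σ a)⁻¹ * (σ k)⁻¹ := by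
        have h2 := congrArg (fun z => b⁻¹ * z) (hb.symm.trans (hkk.trans (by rw [ha])))
        simpa [mul_assoc] using h2
      have h3 : σ (b⁻¹ * k * a) = b⁻¹ * k * a := by
        simp only [map_mul, map_inv]
        rw [h1]; group
      have h4 := pow_fix_aux σ _ h3 e
      simp only [map_mul, map_inv, hk'] at h4
      refine ⟨b⁻¹ * k * a, h3, ?_⟩
      set s := (σ ^ e) a with hs
      set t := (σ ^ e) b with ht
      have h5 : t⁻¹ = b⁻¹ * k * a * s⁻¹ * k⁻¹ := by
        rw [← h4]; group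
      rw [h5]; group
    · rintro ⟨h, hh, hhh⟩
      have hh' : σ h = h := hh
      have h4 := pow_fix_aux σ _ hh' e
      refine ⟨b * h * a⁻¹, ?_, ?_⟩
      · show (σ ^ e) (b * h * a⁻¹) = b * h * a⁻¹
        simp only [map_mul, map_inv, h4]
        set s := (σ ^ e) a with hs
        set t := (σ ^ e) b with ht
        have h5 : b = t * (h * (s⁻¹ * a) * h⁻¹) := by rw [← hhh]; group
        calc t * h * s⁻¹ = (t * (h * (s⁻¹ * a) * h⁻¹)) * h * a⁻¹ := by group
          _ = b * h * a⁻¹ := by rw [← h5]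
      · rw [hb, ha]
        simp only [map_mul, map_inv, hh']
        group
  · intro x hx
    obtain ⟨c, hc⟩ := hLe x⁻¹
    have hx' : σ x = x := hx
    have ht : (σ ^ e) c = x * c := by
      have h1 : x * (c * ((σ ^ e) c)⁻¹) = 1 := by rw [← hc]; group
      have h2 : x * c = (σ ^ e) c := by
        have h3 := congrArg (fun z => z * (σ ^ e) c) h1
        simpa [mul_assoc] using h3
      exact h2.symm
    refine ⟨c⁻¹ * (σ c⁻¹)⁻¹, ?_, c⁻¹, rfl, ?_⟩
    · show (σ ^ e) (c⁻¹ * (σ c⁻¹)⁻¹) = c⁻¹ * (σ c⁻¹)⁻¹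
      simp only [map_inv, map_mul, inv_inv]
      rw [comm_aux, ht, map_mul, hx']
      group
    · simp only [map_inv, inv_inv]
      rw [ht]
      group

end Cfsg.Agent.S2666
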