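import Cfsg.Statements.S2667
-- import your own Cfsg.Agent.* helpers here

set_option autoImplicit false
open Cfsg

namespace Cfsg.Agent.S2667

theorem pow_fix {X : Type*} [Group X] (σ : MulAut X) (y : X) (hy : σ y = y) (e : ℕ) : (σ ^ e) y = y := by
  induction e with
  | zero => simp
  | succ n ih =>
    rw [pow_succ, MulAut.mul_apply, hy, ih]

/-- Shintani descent, in an abstract form. Let `σ` be an automorphism of a group `X` and `e ≥ 1` (no surjectivity of the Lang maps is needed for this part; in the classical setting `X` is a connected algebraic group and `σ` a Steinberg endomorphism). Write `G` for the subgroup of fixed points of `σᵉ` and `H` for the subgroup of fixed points of `σ`. The `G`-conjugacy classes in the coset `G σ` of the semidirect product of `G` by `σ` correspond to the orbits of `G` on itself under twisted conjugation `g ↦ k g σ(k)⁻¹`, and the `e`-th power of `g σ` has `G`-part the norm `g σ(g) ⋯ σ^(e-1)(g)`. For `g` in `G` and any `a` with `g = a σ(a)⁻¹`, put `x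 = σᵉ(a)⁻¹ a`. Then conjugation by `a⁻¹` carries the twisted centralizer `{k ∈ G : k g σ(k)⁻¹ = g}` (the centralizer of `g σ` in `G`) exactly onto the centralizer of `x` in `H`: an element `k` of `X` lies in `G` and satisfies `k g σ(k)⁻¹ = g` if and only if `a⁻¹ k a` lies in `H` and commutes with `x`. In particular the two centralizers are conjugate in `X` and have the same order. -/
theorem result {X : Type*} [Group X] (σ : MulAut X) (e : ℕ) (he : 1 ≤ e)
    (g : X) (hg : g ∈ (MulEquiv.toMonoidHom (σ ^ e)).eqLocus (MonoidHom.id X)) (a : X) (ha : g = a * (σ a)⁻¹) (k : X) :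
    (k ∈ (MulEquiv.toMonoidHom (σ ^ e)).eqLocus (MonoidHom.id X) ∧ k * g * (σ k)⁻¹ = g) ↔
      (a⁻¹ * k * a ∈ (MulEquiv.toMonoidHom σ).eqLocus (MonoidHom.id X) ∧
        (a⁻¹ * k * a) * (((σ ^ e) a)⁻¹ * a) = (((σ ^ e) a)⁻¹ * a) * (a⁻¹ * k * a)) := by
  have h1 : (k * g * (σ k)⁻¹ = g) ↔ σ (a⁻¹ * k * a) = a⁻¹ * k * a := by
    subst ha
    simp only [map_mul, map_inv]
    constructor
    · intro h
      have : k * a = a * (σ a)⁻¹ * (σ k) * (σ a) := by
        have h' := congrArg (fun z => z * σ k * σ a) h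
        simpa [mul_assoc] using h'
      rw [mul_assoc a⁻¹ k a, this]
      group
    · intro h
      have : k * a = a * ((σ a)⁻¹ * (σ k) * (σ a)) := by
        rw [h]; group
      calc k * (a * (σ a)⁻¹) * (σ k)⁻¹ = (k * a) * (σ a)⁻¹ * (σ k)⁻¹ := by group
        _ = a * (σ a)⁻¹ := by rw [this]; group
  constructor
  · rintro ⟨hk, hk2⟩
    have hy : σ (a⁻¹ * k * a) = a⁻¹ * k * a := h1.1 hk2
    have hk' : (σ ^ e) k = k := hk
    refine ⟨hy, ?_⟩
    have h2 := pow_fix σ _ hy e
    simp only [map_mul, map_inv, hk'] at h2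
    set s := (σ ^ e) a with hs
    calc (a⁻¹ * k * a) * (s⁻¹ * a) = (s⁻¹ * k * s) * (s⁻¹ * a) := by rw [h2]
      _ = s⁻¹ * a * (a⁻¹ * k * a) := by group
  · rintro ⟨hy, hc⟩
    have hy' : σ (a⁻¹ * k * a) = a⁻¹ * k * a := hy
    refine ⟨?_, h1.2 hy'⟩
    show (σ ^ e) k = k
    have h2 := pow_fix σ _ hy' e
    simp only [map_mul, map_inv] at h2
    set s := (σ ^ e) a with hs
    set t := (σ ^ e) k with ht
    have h3 : s⁻¹ * t * s = a⁻¹ * k * a := h2
    have h4 : t = s * (a⁻¹ * k * a) * s⁻¹ := by rw [← h3]; group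
    rw [h4]
    have h6 : s * (a⁻¹ * k * a) * s⁻¹ = s * ((a⁻¹ * k * a) * (s⁻¹ * a)) * a⁻¹ := by group
    rw [h6, hc]
    group

end Cfsg.Agent.S2667
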