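import Cfsg.Statements.S2668
-- import your own Cfsg.Agent.* helpers here

set_option autoImplicit false
open Cfsg

namespace Cfsg.Agent.S2668

theorem pow_fix_aux {X : Type*} [Group X] (σ : MulAut X) (y : X) (hy : σ y = y) (e : ℕ) : (σ ^ e) y = y := by
  induction e with
  | zero => simp
  | succ n ih =>
    rw [pow_succ, MulAut.mul_apply, hy, ih]

/-- Shintani descent and powers (abstract form). Let `σ` be an automorphism of a group `X`, `e ≥ 1` and `d ≥ 1`, let `g` be fixed by `σᵉ` and let `a` satisfy `g = a σ(a)⁻¹`, so that the Shintani map of `(X, σ, e)` sends the class of `g σ` to the class of `x = σᵉ(a)⁻¹ a`. Put `h = g σ(g) ⋯ σ^(d-1)(g)`, the part in `X` of the `d`-th power `(g σ)^d = h σ^d`. Then `h = a σ^d(a)⁻¹` (so `a` also serves for `h` with respect to `σ^d`), `h` is fixed by `(σ^d)ᵉ`, and `(σ^d)ᵉ(a)⁻¹ a = x^d`: the Shintani map of `(X, σ^d, e)` sends the class of `(g σ)^d` to the class of `x^d`. (When `d` divides `e`, the Shintani map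 of `(X, σ^d, e/d)` sends it to the class of `x` itself, since `(σ^d)^(e/d) = σᵉ`.) -/
theorem result {X : Type*} [Group X] (σ : MulAut X) (e d : ℕ) (he : 1 ≤ e) (hd : 1 ≤ d)
    (g : X) (hg : g ∈ (MulEquiv.toMonoidHom (σ ^ e)).eqLocus (MonoidHom.id X)) (a : X) (ha : g = a * (σ a)⁻¹) :
    ((List.range d).map (fun i => (σ ^ i) g)).prod = a * ((σ ^ d) a)⁻¹ ∧
      ((List.range d).map (fun i => (σ ^ i) g)).prod ∈ (MulEquiv.toMonoidHom ((σ ^ d) ^ e)).eqLocus (MonoidHom.id X) ∧
      (((σ ^ d) ^ e) a)⁻¹ * a = (((σ ^ e) a)⁻¹ * a) ^ d := by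
  have hfix : (σ ^ e) g = g := hg
  -- `x` is fixed by `σ`
  have hcomm : ∀ (n : ℕ) (y : X), (σ ^ n) (σ y) = σ ((σ ^ n) y) := by
    intro n y
    rw [← MulAut.mul_apply, ← MulAut.mul_apply, ← pow_succ, ← pow_succ']
  have hx : σ (((σ ^ e) a)⁻¹ * a) = ((σ ^ e) a)⁻¹ * a := by
    have h1 : (σ ^ e) a * ((σ ^ e) (σ a))⁻¹ = a * (σ a)⁻¹ := by
      rw [ha, map_mul, map_inv] at hfix
      exact hfix
    rw [hcomm] at h1
    simp only [map_mul, map_inv]
    have h2 : ((σ ^ e) a)⁻¹ * a = (σ ((σ ^ e) a))⁻¹ * σ a := by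
      have h3 := congrArg (fun z => ((σ ^ e) a)⁻¹ * z * σ a) h1
      simp only [mul_assoc, inv_mul_cancel, mul_one, inv_mul_cancel_left] at h3
      exact h3.symm
    exact h2.symm
  have htel : ∀ n : ℕ, ((List.range n).map (fun i => (σ ^ i) g)).prod = a * ((σ ^ n) a)⁻¹ := by
    intro n
    induction n with
    | zero => simp
    | succ n ih =>
      rw [List.range_succ, List.map_append, List.prod_append, ih]
      simp only [List.map_cons, List.map_nil, List.prod_cons, List.prod_nil, mul_one]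
      rw [ha, map_mul, map_inv, ← MulAut.mul_apply, ← pow_succ]
      group
  have hpowe : ∀ (j : ℕ) (y : X), ((σ ^ e) ^ j) y = (σ ^ (e * j)) y := by
    intro j y
    rw [pow_mul]
  have hcommutes : (σ ^ d) ^ e = (σ ^ e) ^ d := by
    rw [← pow_mul, ← pow_mul, mul_comm]
  have hxpow : ∀ j : ℕ, (((σ ^ e) ^ j) a)⁻¹ * a = (((σ ^ e) a)⁻¹ * a) ^ j := by
    intro j
    induction j with
    | zero => simp
    | succ j ih =>
      have hfixx : ((σ ^ e) ^ j) (((σ ^ e) a)⁻¹ * a) = ((σ ^ e) a)⁻¹ * a := by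
        rw [← pow_mul]
        exact pow_fix_aux σ _ hx _
      have h2 : ((σ ^ e) ^ (j + 1)) a = ((σ ^ e) ^ j) ((σ ^ e) a) := by
        rw [pow_succ, MulAut.mul_apply]
      have h3 : (((σ ^ e) ^ (j + 1)) a)⁻¹ * ((σ ^ e) ^ j) a = ((σ ^ e) a)⁻¹ * a := by
        rw [h2]
        have h4 := hfixx
        rw [map_mul, map_inv] at h4
        exact h4
      have h5 : (((σ ^ e) a)⁻¹ * a) ^ (j + 1) = (((σ ^ e) a)⁻¹ * a) * (((σ ^ e) a)⁻¹ * a) ^ j := pow_succ' _ _
      rw [h5, ← ih, ← h3]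
      group
  have hgfix : ((σ ^ d) ^ e) g = g := by
    rw [hcommutes]
    exact pow_fix_aux (σ ^ e) g hfix d
  have hprodfix : ∀ n : ℕ, ((σ ^ d) ^ e) (((List.range n).map (fun i => (σ ^ i) g)).prod) =
      ((List.range n).map (fun i => (σ ^ i) g)).prod := by
    intro n
    induction n with
    | zero => simp
    | succ n ih =>
      rw [List.range_succ, List.map_append, List.prod_append, map_mul, ih]
      simp only [List.map_cons, List.map_nil, List.prod_cons, List.prod_nil, mul_one]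
      congr 1
      rw [← MulAut.mul_apply, ← pow_mul, ← pow_add, add_comm, pow_add, MulAut.mul_apply, pow_mul, hgfix]
  refine ⟨htel d, ?_, ?_⟩
  · show ((σ ^ d) ^ e) _ = _
    exact hprodfix d
  · rw [hcommutes]
    exact hxpow d

end Cfsg.Agent.S2668
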