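import Cfsg.Statements.S2669
-- import your own Cfsg.Agent.* helpers here

set_option autoImplicit false
open Cfsg

namespace Cfsg.Agent.S2669

theorem pow_fix_aux {X : Type*} [Group X] (σ : MulAut X) (y : X) (hy : σ y = y) (e : ℕ) : (σ ^ e) y = y := by
  induction e with
  | zero => simp
  | succ n ih =>
    rw [pow_succ, MulAut.mul_apply, hy, ih]

theorem pow_mem_aux {X : Type*} [Group X] (σ : MulAut X) (Y : Subgroup X) (hY : ∀ y : X, y ∈ Y ↔ σ y ∈ Y)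
    (n : ℕ) (y : X) (hy : y ∈ Y) : (σ ^ n) y ∈ Y := by
  induction n with
  | zero => simpa using hy
  | succ n ih =>
    rw [pow_succ', MulAut.mul_apply]
    exact (hY _).1 ih

/-- Shintani descent preserves numbers of fixed points on coset spaces (abstract form). Let `σ` be an automorphism of a group `X` and `e ≥ 1`; write `G` for the fixed points of `σᵉ` and `H` for the fixed points of `σ`, and assume `G` is finite. Let `Y` be a `σ`-stable subgroup of `X` on which the maps `a ↦ a σ(a)⁻¹` and `a ↦ a σᵉ(a)⁻¹` are surjective (as for a closed connected `σ`-stable subgroup of an algebraic group). Let `g ∈ G`, let `a ∈ X` satisfy `g = a σ(a)⁻¹` and put `x = σᵉ(a)⁻¹ a` (the Shintani image, an element of `H`). The element `g σ` of the semidirect product acts on the cosets of `Y ∩ G` in `G` by `k (Y ∩ G) ↦ g σ(k) (Y ∩ G)`, fixing that coset exactly when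 `k⁻¹ g σ(k) ∈ Y`; and `x` fixes the coset `h (Y ∩ H)` of `H` exactly when `h⁻¹ x h ∈ Y`. Then the two numbers of fixed cosets agree; in cross-multiplied form, `#{k ∈ G : k⁻¹ g σ(k) ∈ Y} · |Y ∩ H| = #{h ∈ H : h⁻¹ x h ∈ Y} · |Y ∩ G|`. -/
theorem result {X : Type*} [Group X] (σ : MulAut X) (e : ℕ) (he : 1 ≤ e)
    [Finite ↥((MulEquiv.toMonoidHom (σ ^ e)).eqLocus (MonoidHom.id X))]
    (Y : Subgroup X) (hY : ∀ y : X, y ∈ Y ↔ σ y ∈ Y)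
    (hYL : ∀ y ∈ Y, ∃ a ∈ Y, y = a * (σ a)⁻¹) (hYLe : ∀ y ∈ Y, ∃ a ∈ Y, y = a * ((σ ^ e) a)⁻¹)
    (g : X) (hg : g ∈ (MulEquiv.toMonoidHom (σ ^ e)).eqLocus (MonoidHom.id X)) (a : X) (ha : g = a * (σ a)⁻¹) :
    Nat.card {k : ↥((MulEquiv.toMonoidHom (σ ^ e)).eqLocus (MonoidHom.id X)) // (k : X)⁻¹ * g * σ k ∈ Y} *
        Nat.card ↥(Y ⊓ (MulEquiv.toMonoidHom σ).eqLocus (MonoidHom.id X)) =
      Nat.card {h : ↥((MulEquiv.toMonoidHom σ).eqLocus (MonoidHom.id X)) // (h : X)⁻¹ * (((σ ^ e) a)⁻¹ * a) * h ∈ Y} *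
        Nat.card ↥(Y ⊓ (MulEquiv.toMonoidHom (σ ^ e)).eqLocus (MonoidHom.id X)) := by
  classical
  set G := (MulEquiv.toMonoidHom (σ ^ e)).eqLocus (MonoidHom.id X) with hG
  set H := (MulEquiv.toMonoidHom σ).eqLocus (MonoidHom.id X) with hH
  have memG : ∀ z : X, z ∈ G ↔ (σ ^ e) z = z := fun z => Iff.rfl
  have memH : ∀ z : X, z ∈ H ↔ σ z = z := fun z => Iff.rfl
  have hYe : ∀ y ∈ Y, (σ ^ e) y ∈ Y := fun y hy => pow_mem_aux σ Y hY e y hy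
  have hHe : ∀ z ∈ H, (σ ^ e) z = z := fun z hz => pow_fix_aux σ z hz e
  let T := {p : ↥G × ↥H // ((p.1 : X))⁻¹ * a * ((p.2 : X))⁻¹ ∈ Y}
  -- first count
  have key1 : ∀ k : ↥G, (k : X)⁻¹ * g * σ k ∈ Y → ∃ h₀ : ↥H, (k : X)⁻¹ * a * ((h₀ : X))⁻¹ ∈ Y := by
    intro k hk
    obtain ⟨y, hy, hy2⟩ := hYL _ hk
    have h2 : σ (y⁻¹ * ((k : X)⁻¹ * a)) = y⁻¹ * ((k : X)⁻¹ * a) := by
      have h3 : (σ y)⁻¹ = y⁻¹ * ((k : X)⁻¹ * g * σ k) := by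
        rw [hy2]; group
      simp only [map_mul, map_inv]
      rw [h3, ha]
      group
    refine ⟨⟨y⁻¹ * ((k : X)⁻¹ * a), (memH _).2 h2⟩, ?_⟩
    have h4 : (k : X)⁻¹ * a * (y⁻¹ * ((k : X)⁻¹ * a))⁻¹ = y := by group
    show (k : X)⁻¹ * a * (y⁻¹ * ((k : X)⁻¹ * a))⁻¹ ∈ Y
    rw [h4]; exact hy
  have key2 : ∀ h' : ↥H, (h' : X)⁻¹ * (((σ ^ e) a)⁻¹ * a) * h' ∈ Y → ∃ k₀ : ↥G, (k₀ : X)⁻¹ * a * h' ∈ Y := by
    intro h' hh'
    have hz := Y.inv_mem hh'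
    obtain ⟨y', hy', hy2⟩ := hYLe _ hz
    have hh'e : (σ ^ e) (h' : X) = h' := hHe _ h'.2
    have hy3 : (σ ^ e) y' = (h' : X)⁻¹ * (((σ ^ e) a)⁻¹ * a) * h' * y' := by
      have h5 : ((σ ^ e) y')⁻¹ = y'⁻¹ * ((h' : X)⁻¹ * (((σ ^ e) a)⁻¹ * a) * h')⁻¹ := by
        rw [hy2]; group
      have h6 := congrArg (fun z => z⁻¹) h5
      simpa using h6
    refine ⟨⟨a * h' * y', (memG _).2 ?_⟩, ?_⟩
    · simp only [map_mul]
      rw [hh'e, hy3]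
      group
    · have h4 : (a * (h' : X) * y')⁻¹ * a * h' = y'⁻¹ := by group
      show (a * (h' : X) * y')⁻¹ * a * h' ∈ Y
      rw [h4]; exact Y.inv_mem hy'
  choose h₀ hh₀ using key1
  choose k₀ hk₀ using key2
  have hT1 : ∀ (k : ↥G) (h : ↥H), ((k : X))⁻¹ * a * ((h : X))⁻¹ ∈ Y → (k : X)⁻¹ * g * σ k ∈ Y := by
    intro k h hy
    have hh : σ (h : X) = h := h.2
    have e1 : (k : X)⁻¹ * g * σ k = ((k : X)⁻¹ * a * (h : X)⁻¹) * (σ ((k : X)⁻¹ * a * (h : X)⁻¹))⁻¹ := by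
      rw [ha]
      simp only [map_mul, map_inv, hh]
      group
    rw [e1]
    exact Y.mul_mem hy (Y.inv_mem ((hY _).1 hy))
  have hT2 : ∀ (k : ↥G) (h : ↥H), ((k : X))⁻¹ * a * ((h : X))⁻¹ ∈ Y →
      ((h⁻¹ : ↥H) : X)⁻¹ * (((σ ^ e) a)⁻¹ * a) * ((h⁻¹ : ↥H) : X) ∈ Y := by
    intro k h hy
    have hhe : (σ ^ e) (h : X) = h := hHe _ h.2
    have hke : (σ ^ e) (k : X) = k := k.2
    have e1 : ((h⁻¹ : ↥H) : X)⁻¹ * (((σ ^ e) a)⁻¹ * a) * ((h⁻¹ : ↥H) : X)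
        = ((σ ^ e) ((k : X)⁻¹ * a * (h : X)⁻¹))⁻¹ * ((k : X)⁻¹ * a * (h : X)⁻¹) := by
      simp only [map_mul, map_inv, hhe, hke, InvMemClass.coe_inv, inv_inv]
      group
    rw [e1]
    exact Y.mul_mem (Y.inv_mem (hYe _ hy)) hy
  -- two parametrisations of T
  let Φ₁ : {k : ↥G // (k : X)⁻¹ * g * σ k ∈ Y} × ↥(Y ⊓ H) → T := fun p =>
    ⟨(p.1.1, ⟨(p.2 : X)⁻¹, H.inv_mem p.2.2.2⟩ * h₀ p.1.1 p.1.2), by
      have h1 := hh₀ p.1.1 p.1.2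
      have h2 : ((p.1.1 : X))⁻¹ * a * ((((⟨(p.2 : X)⁻¹, H.inv_mem p.2.2.2⟩ * h₀ p.1.1 p.1.2 : ↥H)) : X))⁻¹
          = ((p.1.1 : X)⁻¹ * a * ((h₀ p.1.1 p.1.2 : X))⁻¹) * (p.2 : X) := by
        simp only [Subgroup.coe_mul]
        group
      simp only [] at h2 ⊢
      rw [h2]
      exact Y.mul_mem h1 p.2.2.1⟩
  have hΦ₁ : Function.Bijective Φ₁ := by
    constructor
    · rintro ⟨⟨k, hk⟩, u⟩ ⟨⟨k', hk'⟩, u'⟩ h
      have h1 := congrArg (fun t : T => t.1.1) h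
      have h2 := congrArg (fun t : T => ((t.1.2 : ↥H) : X)) h
      simp only [Φ₁, Subgroup.coe_mul] at h1 h2
      subst h1
      have h3 : (u : X) = u' := by
        have := mul_right_cancel h2
        exact inv_injective this
      exact Prod.ext rfl (Subtype.ext h3)
    · rintro ⟨⟨k, h⟩, hy⟩
      have hkA := hT1 k h hy
      refine ⟨(⟨k, hkA⟩, ⟨(h₀ k hkA : X) * (h : X)⁻¹, ?_, ?_⟩), ?_⟩
      · have e1 : (h₀ k hkA : X) * (h : X)⁻¹ = ((k : X)⁻¹ * a * ((h₀ k hkA : X))⁻¹)⁻¹ * ((k : X)⁻¹ * a * (h : X)⁻¹) := by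
          group
        rw [e1]
        exact Y.mul_mem (Y.inv_mem (hh₀ k hkA)) hy
      · exact H.mul_mem (h₀ k hkA).2 (H.inv_mem h.2)
      · apply Subtype.ext
        apply Prod.ext
        · rfl
        · apply Subtype.ext
          simp [Φ₁]
  let Φ₂ : {h : ↥H // (h : X)⁻¹ * (((σ ^ e) a)⁻¹ * a) * h ∈ Y} × ↥(Y ⊓ G) → T := fun p =>
    ⟨(k₀ p.1.1 p.1.2 * ⟨(p.2 : X), p.2.2.2⟩, p.1.1⁻¹), by
      have h1 := hk₀ p.1.1 p.1.2
      have h2 : (((k₀ p.1.1 p.1.2 * ⟨(p.2 : X), p.2.2.2⟩ : ↥G) : X))⁻¹ * a * (((p.1.1⁻¹ : ↥H) : X))⁻¹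
          = (p.2 : X)⁻¹ * (((k₀ p.1.1 p.1.2 : X))⁻¹ * a * p.1.1) := by
        simp only [Subgroup.coe_mul, InvMemClass.coe_inv]
        group
      simp only [] at h2 ⊢
      rw [h2]
      exact Y.mul_mem (Y.inv_mem p.2.2.1) h1⟩
  have hΦ₂ : Function.Bijective Φ₂ := by
    constructor
    · rintro ⟨⟨h, hh⟩, v⟩ ⟨⟨h', hh'⟩, v'⟩ e
      have h1 := congrArg (fun t : T => t.1.2) e
      have h2 := congrArg (fun t : T => ((t.1.1 : ↥G) : X)) e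
      simp only [Φ₂, Subgroup.coe_mul] at h1 h2
      have h1' := inv_injective h1
      subst h1'
      have h3 : (v : X) = v' := mul_left_cancel h2
      exact Prod.ext rfl (Subtype.ext h3)
    · rintro ⟨⟨k, h⟩, hy⟩
      have hkB := hT2 k h hy
      refine ⟨(⟨h⁻¹, hkB⟩, ⟨((k₀ h⁻¹ hkB : ↥G) : X)⁻¹ * (k : X), ?_, ?_⟩), ?_⟩
      · have e1 : ((k₀ h⁻¹ hkB : ↥G) : X)⁻¹ * (k : X)
            = (((k₀ h⁻¹ hkB : ↥G) : X)⁻¹ * a * ((h⁻¹ : ↥H) : X)) * ((k : X)⁻¹ * a * (h : X)⁻¹)⁻¹ := by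
          simp only [InvMemClass.coe_inv]
          group
        rw [e1]
        exact Y.mul_mem (hk₀ h⁻¹ hkB) (Y.inv_mem hy)
      · exact G.mul_mem (G.inv_mem (k₀ h⁻¹ hkB).2) k.2
      · apply Subtype.ext
        apply Prod.ext
        · apply Subtype.ext
          simp [Φ₂]
        · simp [Φ₂]
  calc _ = Nat.card ({k : ↥G // (k : X)⁻¹ * g * σ k ∈ Y} × ↥(Y ⊓ H)) := (Nat.card_prod _ _).symm
    _ = Nat.card T := Nat.card_congr (Equiv.ofBijective Φ₁ hΦ₁)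
    _ = Nat.card ({h : ↥H // (h : X)⁻¹ * (((σ ^ e) a)⁻¹ * a) * h ∈ Y} × ↥(Y ⊓ G)) :=
        (Nat.card_congr (Equiv.ofBijective Φ₂ hΦ₂)).symm
    _ = _ := Nat.card_prod _ _

end Cfsg.Agent.S2669
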