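import Cfsg.Statements.S2670
import Cfsg.Agent.Lib.PGLr.Linear
import Cfsg.Agent.Lib.PGLr.Rot

set_option autoImplicit false
open Cfsg

namespace Cfsg.Agent.S2670

open Cfsg.Agent.Lib.PGLr Cfsg.Agent.Lib.MatConj.Tg

/-- Number of conjugacy classes of elements of prime order r in PGL_n(q) = GL_n(q)/scalars when r divides q − 1 (n ≥ 2): the classes of elements with a diagonalisable lift correspond to the orbits of the cyclic rotation on the r-tuples of eigenvalue multiplicities (a_0, …, a_(r−1)) summing to n with every a_j < n, and when r divides n there are r − 1 further classes (lifts acting irreducibly on blocks of size r); in all (C(n+r−1, r−1) − r − [r ∣ n])/r + r·[r ∣ n] classes. -/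
theorem result {F : Type*} [Field F] [Fintype F] {q : ℕ} (hF : Fintype.card F = q) {n r : ℕ} (hn : 2 ≤ n) (hr : r.Prime) (hrq : r ∣ q - 1) : Nat.card {C : ConjClasses (GL (Fin n) F ⧸ Subgroup.center (GL (Fin n) F)) // ∃ g : GL (Fin n) F ⧸ Subgroup.center (GL (Fin n) F), ConjClasses.mk g = C ∧ orderOf g = r} = (Nat.choose (n + r - 1) (r - 1) - r - (if r ∣ n then 1 else 0)) / r + r * (if r ∣ n then 1 else 0) := by
  classical
  haveI hfact : Fact r.Prime := ⟨hr⟩
  have hn0 : 0 < n := by omega
  have hq : 2 ≤ q := hF ▸ Fintype.one_lt_card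
  have hrpos : 0 < r := hr.pos
  -- the characteristic
  have hrF : (r : F) ≠ 0 := by
    intro h0
    obtain ⟨t, ht⟩ := hrq
    have h1 : (q : F) = 0 := by
      rw [← hF]
      exact FiniteField.cast_card_eq_zero F
    have h2 : q = r * t + 1 := by omega
    rw [h2] at h1
    push_cast at h1
    rw [h0, zero_mul, zero_add] at h1
    exact one_ne_zero h1
  -- a primitive root of unity
  have hcardU : Fintype.card Fˣ = q - 1 := by
    rw [Fintype.card_units, hF]
  obtain ⟨ωu, hωu⟩ := exists_prime_orderOf_dvd_card r (hcardU ▸ hrq : r ∣ Fintype.card Fˣ)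
  have hω : IsPrimitiveRoot (ωu : F) r := IsPrimitiveRoot.coe_units_iff.2 (hωu ▸ IsPrimitiveRoot.orderOf ωu)
  have hωr : (ωu : F) ^ r = 1 := hω.pow_eq_one
  let eu : ZMod r → Fˣ := fun j => ωu ^ j.val
  let e : ZMod r → F := fun j => (eu j : F)
  have he_val : ∀ j, e j = (ωu : F) ^ j.val := fun j => by simp [e, eu]
  have he : Function.Injective e := by
    intro i j hij
    rw [he_val, he_val] at hij
    exact ZMod.val_injective r (hω.pow_inj (ZMod.val_lt _) (ZMod.val_lt _) hij)
  have he1 : ∀ j, e j ^ r = 1 := by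
    intro j
    rw [he_val, ← pow_mul, mul_comm, pow_mul, hωr, one_pow]
  have he2 : ∀ y : F, y ^ r = 1 → ∃ j, e j = y := by
    intro y hy
    obtain ⟨i, hi, rfl⟩ := hω.eq_pow_of_pow_eq_one hy
    refine ⟨(i : ZMod r), ?_⟩
    rw [he_val, ZMod.val_cast_of_lt hi]
  have he_add : ∀ i j, e (i + j) = e i * e j := by
    intro i j
    rw [he_val, he_val, he_val, ZMod.val_add, ← pow_add]
    exact (pow_eq_pow_mod _ hωr).symm
  have he_ne : ∀ j, e j ≠ 0 := fun j => (eu j).ne_zero
  -- tuples
  have hS1 : ∀ a : AA r n, ∃ g : GL (Fin n) F, g ^ r = 1 ∧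
      ∀ j, dm (Tg g) (e j) = a.1 j :=
    fun a => exists_of_tuple hrpos e he he1 a.1 a.2.1
  choose g1 hg1 hg1d using hS1
  have hg1c : ∀ a, ∀ c : Fˣ, sc n c ≠ g1 a := by
    intro a c hc
    obtain ⟨j, hj⟩ : ∃ j, a.1 j ≠ 0 := by
      by_contra hall
      push Not at hall
      have h1 := a.2.1
      rw [Finset.sum_eq_zero fun j _ => hall j] at h1
      omega
    have h2 := dm_scalar (c : F) (e j) n (Tg (g1 a))
      (by rw [← hc, Tg_sc]) (by rw [hg1d]; exact hj)
    rw [hg1d] at h2
    exact absurd h2 (a.2.2 j).ne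
  -- non-trivial cosets
  set Pw : Subgroup Fˣ := (powMonoidHom r : Fˣ →* Fˣ).range with hPw
  have hidx : Nat.card (Fˣ ⧸ Pw) = r := by
    have h1 := IsCyclic.index_powMonoidHom_range Fˣ r
    rw [Subgroup.index] at h1
    rw [← hPw] at h1
    rw [h1, Nat.card_eq_fintype_card, hcardU]
    exact Nat.gcd_eq_right hrq
  let Y := {c : Fˣ ⧸ Pw // c ≠ 1 ∧ r ∣ n}
  have hnotpow0 : ∀ c : Fˣ ⧸ Pw, c ≠ 1 → ∀ b : F, b ^ r ≠ ((Quotient.out c : Fˣ) : F) := by
    intro c hc b hb
    have hb0 : b ≠ 0 := by
      rintro rfl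
      rw [zero_pow hr.ne_zero] at hb
      exact (Quotient.out c : Fˣ).ne_zero hb.symm
    apply hc
    have h1 : (Units.mk0 b hb0) ^ r = (Quotient.out c : Fˣ) := Units.ext (by simpa using hb)
    rw [← QuotientGroup.out_eq' c, QuotientGroup.eq_one_iff]
    exact ⟨Units.mk0 b hb0, h1⟩
  have hnotpow : ∀ y : Y, ∀ b : F, b ^ r ≠ ((Quotient.out y.1 : Fˣ) : F) := fun y => hnotpow0 y.1 y.2.1
  have hS2 : ∀ y : Y, ∃ g : GL (Fin n) F, g ^ r = sc n (Quotient.out y.1 : Fˣ) := by
    intro y
    exact exists_pow_mu hr (hnotpow y) (n / r) (Nat.div_mul_cancel y.2.2)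
  choose g2 hg2 using hS2
  letI := rotAct r n
  haveI hfinAA : Finite (AA r n) := by
    haveI : Finite {a : ZMod r → ℕ // ∑ j, a j = n} := Finite.of_equiv _ (Sym.equivNatSumOfFintype (ZMod r) n)
    exact Finite.of_injective (fun a : AA r n => (⟨a.1, a.2.1⟩ : {a : ZMod r → ℕ // ∑ j, a j = n}))
      (fun a b h => by
        have h5 := congrArg Subtype.val h
        exact Subtype.ext h5)
  let Orb := Quotient (MulAction.orbitRel (Multiplicative (ZMod r)) (AA r n))
  let rep : Orb ⊕ Y → GL (Fin n) F := Sum.elim (fun o => g1 (Quotient.out o)) g2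
  have hord : ∀ a, orderOf (rep a : GL (Fin n) F ⧸ Subgroup.center (GL (Fin n) F)) = r := by
    rintro (o | y)
    · apply orderOf_eq_prime
      · change ((g1 (Quotient.out o) : GL (Fin n) F) : GL (Fin n) F ⧸ Subgroup.center (GL (Fin n) F)) ^ r = 1
        rw [← QuotientGroup.mk_pow, hg1]
        rfl
      · change ((g1 (Quotient.out o) : GL (Fin n) F) : GL (Fin n) F ⧸ Subgroup.center (GL (Fin n) F)) ≠ 1
        rw [Ne, QuotientGroup.eq_one_iff, mem_center_iff_sc]
        rintro ⟨c, hc⟩
        exact hg1c _ c hc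
    · apply orderOf_eq_prime
      · change ((g2 y : GL (Fin n) F) : GL (Fin n) F ⧸ Subgroup.center (GL (Fin n) F)) ^ r = 1
        rw [← QuotientGroup.mk_pow, hg2, QuotientGroup.eq_one_iff]
        exact (mem_center_iff_sc _).mpr ⟨_, rfl⟩
      · change ((g2 y : GL (Fin n) F) : GL (Fin n) F ⧸ Subgroup.center (GL (Fin n) F)) ≠ 1
        rw [Ne, QuotientGroup.eq_one_iff, mem_center_iff_sc]
        rintro ⟨c, hc⟩
        have h3 := hg2 y
        rw [← hc, ← map_pow] at h3
        have h4 := sc_injective hn0 h3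
        apply hnotpow y (c : F)
        rw [← h4, Units.val_pow_eq_pow_val]
  let f : Orb ⊕ Y → {C : ConjClasses (GL (Fin n) F ⧸ Subgroup.center (GL (Fin n) F)) // ∃ g : GL (Fin n) F ⧸ Subgroup.center (GL (Fin n) F), ConjClasses.mk g = C ∧ orderOf g = r} :=
    fun a => ⟨ConjClasses.mk (rep a : GL (Fin n) F ⧸ Subgroup.center (GL (Fin n) F)), _, rfl, hord a⟩
  have hg1' : ∀ a, g1 a ^ r = sc n 1 := by
    intro a
    rw [hg1]
    exact (map_one _).symm
  -- roots of unity in the units
  have heu : ∀ c : Fˣ, c ^ r = 1 → ∃ s, eu s = c := by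
    intro c hc
    obtain ⟨s, hs⟩ := he2 (c : F) (by
      have := congrArg Units.val hc
      simpa using this)
    exact ⟨s, Units.ext hs⟩
  -- twisting and multiplicities
  have hdmtw : ∀ (g : GL (Fin n) F) (s j : ZMod r),
      dm (Tg (sc n (eu s) * g)) (e (j + s))
        = dm (Tg g) (e j) := by
    intro g s j
    rw [Tg_sc_mul, he_add, mul_comm]
    exact dm_smul _ _ _ (he_ne s)
  have hscm : ∀ a b : Fˣ, sc n (a * b) = sc n a * sc n b := fun a b => map_mul _ a b
  have hsc1 : sc n (1 : Fˣ) = 1 := map_one _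
  have hf : Function.Bijective f := by
    constructor
    · have key : ∀ a b, f a = f b → IsConj (rep a : GL (Fin n) F ⧸ Subgroup.center (GL (Fin n) F)) (rep b : GL (Fin n) F ⧸ Subgroup.center (GL (Fin n) F)) :=
        fun a b h => ConjClasses.mk_eq_mk_iff_isConj.mp (congrArg Subtype.val h)
      have hcross : ∀ (a : AA r n) (y : Y) (c : Fˣ), ¬ IsConj (g1 a) (sc n c * g2 y) := by
        intro a y c hc
        have h1 := conj_pow_scalar hn0 r (hg1' _) (hg2 y) c hc
        have h2 : (((c⁻¹ : Fˣ) : F)) ^ r = ((Quotient.out y.1 : Fˣ) : F) := by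
          have h3 : (Quotient.out y.1 : Fˣ) = c⁻¹ ^ r := by
            rw [inv_pow, eq_inv_iff_mul_eq_one, mul_comm, ← h1]
          rw [h3, Units.val_pow_eq_pow_val]
        exact hnotpow y _ h2
      rintro (o | y) (o' | y') h
      · obtain ⟨c, hc⟩ := conj_quot (key _ _ h)
        change IsConj (g1 (Quotient.out o)) (sc n c * g1 (Quotient.out o')) at hc
        have h1 := conj_pow_scalar hn0 r (hg1' _) (hg1' _) c hc
        rw [mul_one] at h1
        obtain ⟨s, rfl⟩ := heu c h1.symm
        obtain ⟨P, hP⟩ := (isConj_iff_T _ _).mp hc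
        have h2 : ∀ j, (Quotient.out o).1 (j + s) = (Quotient.out o').1 j := by
          intro j
          rw [← hg1d, ← hg1d, dm_of_conj _ _ P hP, hdmtw]
        have h3 : (Multiplicative.ofAdd s : Multiplicative (ZMod r)) • Quotient.out o = Quotient.out o' := by
          apply Subtype.ext
          funext j
          exact h2 j
        congr 1
        have h4 : (Quotient.mk _ (Quotient.out o') : Orb) = Quotient.mk _ (Quotient.out o) := by
          apply Quotient.sound
          rw [← h3]
          exact ⟨_, rfl⟩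
        rw [Quotient.out_eq, Quotient.out_eq] at h4
        exact h4.symm
      · obtain ⟨c, hc⟩ := conj_quot (key _ _ h)
        exact (hcross _ y' c hc).elim
      · obtain ⟨c, hc⟩ := conj_quot (key _ _ h.symm)
        exact (hcross _ y c hc).elim
      · obtain ⟨c, hc⟩ := conj_quot (key _ _ h)
        change IsConj (g2 y) (sc n c * g2 y') at hc
        have h1 := conj_pow_scalar hn0 r (hg2 y) (hg2 y') c hc
        congr 1
        apply Subtype.ext
        rw [← QuotientGroup.out_eq' y.1, ← QuotientGroup.out_eq' y'.1]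
        apply QuotientGroup.eq.2
        refine ⟨c⁻¹, ?_⟩
        change c⁻¹ ^ r = (Quotient.out y.1 : Fˣ)⁻¹ * (Quotient.out y'.1 : Fˣ)
        rw [h1, inv_pow, mul_inv_rev, mul_comm (Quotient.out y'.1 : Fˣ)⁻¹ (c ^ r)⁻¹, inv_mul_cancel_right]
    · rintro ⟨C, x, rfl, hx⟩
      obtain ⟨g, rfl⟩ := QuotientGroup.mk_surjective x
      have hng : g ∉ Subgroup.center (GL (Fin n) F) := by
        intro hc
        have h3 : (g : GL (Fin n) F ⧸ Subgroup.center (GL (Fin n) F)) = 1 := (QuotientGroup.eq_one_iff _).mpr hc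
        rw [h3, orderOf_one] at hx
        exact hr.one_lt.ne hx
      have hgr : g ^ r ∈ Subgroup.center (GL (Fin n) F) := by
        rw [← QuotientGroup.eq_one_iff, QuotientGroup.mk_pow, ← hx, pow_orderOf_eq_one]
      obtain ⟨l, hl⟩ := (mem_center_iff_sc _).mp hgr
      suffices h : ∃ (a : Orb ⊕ Y) (h : GL (Fin n) F) (d : Fˣ), IsConj (rep a) h ∧ h = sc n d * g by
        obtain ⟨a, h, d, h3, h4⟩ := h
        refine ⟨a, Subtype.ext ?_⟩
        change ConjClasses.mk _ = ConjClasses.mk _
        exact ConjClasses.mk_eq_mk_iff_isConj.mpr (mk_conj h3 d h4)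
      by_cases hlc : (l : Fˣ ⧸ Pw) = 1
      · rw [QuotientGroup.eq_one_iff] at hlc
        obtain ⟨z, hz⟩ := hlc
        replace hz : z ^ r = l := hz
        let h := sc n z⁻¹ * g
        have hh : h ^ r = 1 := by
          change (sc n z⁻¹ * g) ^ r = 1
          rw [sc_mul_pow, ← hl, ← map_mul, ← hz, ← mul_pow, inv_mul_cancel, one_pow, map_one]
        have hhnc : ∀ c : Fˣ, sc n c ≠ h := by
          intro c hc
          apply hng
          rw [mem_center_iff_sc]
          refine ⟨z * c, ?_⟩
          rw [hscm, hc]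
          change sc n z * (sc n z⁻¹ * g) = g
          rw [← mul_assoc, ← map_mul, mul_inv_cancel, map_one, one_mul]
        have hTh : Tg h ^ r = 1 := by rw [Tg_pow, hh, Tg_one]
        let a : AA r n := ⟨fun j => dm (Tg h) (e j), by
          have h5 := dm_sum hrpos hrF hω e he he2 (Tg h) hTh
          rwa [Module.finrank_fintype_fun_eq_card, Fintype.card_fin] at h5,
          fun j => dm_lt h hn0 _ hhnc⟩
        let o : Orb := Quotient.mk _ a
        have h5 : Quotient.out o ∈ MulAction.orbit (Multiplicative (ZMod r)) a := by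
          have h6 : (Quotient.mk _ (Quotient.out o) : Orb) = Quotient.mk _ a := Quotient.out_eq o
          exact Quotient.exact h6
        obtain ⟨t, ht⟩ := h5
        let s : ZMod r := Multiplicative.toAdd t
        have hsa : ∀ j, (Quotient.out o).1 j = dm (Tg h) (e (j + s)) := by
          intro j
          rw [← ht]
          rfl
        let G := sc n (eu s)⁻¹ * h
        have hG : sc n (eu s) * G = h := by
          change sc n (eu s) * (sc n (eu s)⁻¹ * h) = h
          rw [← mul_assoc, ← map_mul, mul_inv_cancel, map_one, one_mul]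
        have hGr : G ^ r = 1 := by
          change (sc n (eu s)⁻¹ * h) ^ r = 1
          rw [sc_mul_pow, hh, mul_one]
          have h6 : (eu s)⁻¹ ^ r = 1 := by
            rw [inv_pow, inv_eq_one]
            apply Units.ext
            rw [Units.val_pow_eq_pow_val]
            exact he1 s
          rw [h6, hsc1]
        refine ⟨.inl o, G, (eu s)⁻¹ * z⁻¹, ?_, ?_⟩
        · change IsConj (g1 (Quotient.out o)) G
          rw [isConj_iff_T]
          apply conj_of_dm hrpos hrF hω _ _ (by rw [Tg_pow, hg1, Tg_one]) (by rw [Tg_pow, hGr, Tg_one])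
          intro y hy
          obtain ⟨j, rfl⟩ := he2 y hy
          rw [hg1d, hsa, ← hdmtw G s j, hG]
        · change sc n (eu s)⁻¹ * (sc n z⁻¹ * g) = _
          rw [hscm, mul_assoc]
      · have h5 : (Quotient.out (l : Fˣ ⧸ Pw) : Fˣ)⁻¹ * l ∈ Pw := QuotientGroup.eq.1 (QuotientGroup.out_eq' (l : Fˣ ⧸ Pw))
        obtain ⟨z, hz⟩ := h5
        replace hz : z ^ r = (Quotient.out (l : Fˣ ⧸ Pw) : Fˣ)⁻¹ * l := hz
        let h := sc n z⁻¹ * g
        have hh : h ^ r = sc n (Quotient.out (l : Fˣ ⧸ Pw) : Fˣ) := by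
          change (sc n z⁻¹ * g) ^ r = _
          rw [sc_mul_pow, ← hl, ← map_mul, inv_pow, hz]
          congr 1
          rw [mul_inv_rev, inv_inv, mul_comm l⁻¹, inv_mul_cancel_right]
        have hTh : Tg h ^ r = ((Quotient.out (l : Fˣ ⧸ Pw) : Fˣ) : F) • 1 := by rw [Tg_pow, hh, Tg_sc]
        have hnp := hnotpow0 (l : Fˣ ⧸ Pw) hlc
        have hrn : r ∣ n := by
          obtain ⟨κ, hκ, R, Φ, hD, hR⟩ := exists_decomp_mu hr hnp (Tg h) hTh
          have h6 := card_mu hD hR hr.ne_zero
          rw [Module.finrank_fintype_fun_eq_card, Fintype.card_fin] at h6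
          exact ⟨_, h6.symm.trans (mul_comm _ _)⟩
        refine ⟨.inr ⟨(l : Fˣ ⧸ Pw), hlc, hrn⟩, h, z⁻¹, ?_, rfl⟩
        change IsConj (g2 ⟨(l : Fˣ ⧸ Pw), hlc, hrn⟩) h
        rw [isConj_iff_T]
        exact conj_of_pow_mu hr hnp _ _ (by rw [Tg_pow, hg2, Tg_sc]) hTh
  rw [← Nat.card_congr (Equiv.ofBijective f hf)]
  haveI : Finite Orb := Quotient.finite _
  haveI : Finite Y := Subtype.finite
  rw [Nat.card_sum]
  have hcY : Nat.card Y = if r ∣ n then r - 1 else 0 := by
    split_ifs with hrn
    · have e1 : Y ≃ {c : Fˣ ⧸ Pw // c ≠ 1} :=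
        Equiv.subtypeEquivRight fun c => by simp [hrn]
      rw [Nat.card_congr e1, ← hidx]
      simp only [Nat.card_eq_fintype_card]
      rw [Fintype.card_subtype_compl, Fintype.card_subtype_eq]
    · haveI : IsEmpty Y := ⟨fun y => hrn y.2.2⟩
      exact Nat.card_of_isEmpty
  have hcO := card_orbits (r := r) (n := n) hn0
  have hcA := card_AA (r := r) (n := n) hn0
  rw [hcY]
  change Nat.card (Quotient (MulAction.orbitRel (Multiplicative (ZMod r)) (AA r n))) * r = _ at hcO
  change Nat.card (Quotient (MulAction.orbitRel (Multiplicative (ZMod r)) (AA r n))) + _ = _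
  generalize Nat.card (Quotient (MulAction.orbitRel (Multiplicative (ZMod r)) (AA r n))) = O at hcO ⊢
  rw [← hcA]
  generalize Nat.card (AA r n) = A at hcO ⊢
  have hr2 := hr.two_le
  by_cases hrn : r ∣ n
  · simp only [hrn, if_true, mul_one] at hcO ⊢
    obtain _ | O := O
    · omega
    · have h1 : O * r + 1 = A := by
        have : (O + 1) * r = O * r + r := by ring
        omega
      have h2 : A + r - r - 1 = O * r := by omega
      rw [h2, Nat.mul_div_cancel _ hrpos]
      omega
  · simp only [hrn, if_false, mul_zero, add_zero] at hcO ⊢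
    have h2 : A + r - r - 0 = O * r := by omega
    rw [h2, Nat.mul_div_cancel _ hrpos]

end Cfsg.Agent.S2670
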