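import Cfsg.Statements.S2671
import Cfsg.Agent.Lib.GUr.Fixed
import Cfsg.Agent.Lib.GUr.Pairs
import Cfsg.Agent.S2587
import Cfsg.Agent.S2588

set_option autoImplicit false
open Cfsg

namespace Cfsg.Agent.S2671

open Polynomial Module Matrix
open Cfsg.Agent.Lib.MatConj.Semisimple Cfsg.Agent.Lib.MatConj.CycloFactors Cfsg.Agent.S2568
open Cfsg.Agent.Lib.GUr Cfsg.Agent.Lib.HermCount.Field

universe u

section aux

open Classical

variable {K : Type u} [Field K] [Fintype K] {p q n r : ℕ} [Fact p.Prime] [CharP K p]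

theorem pow_eq_one_of_orderOf {G : Type*} [Monoid G] {x : G} {r : ℕ} (h : orderOf x = r) : x ^ r = 1 := by
  subst h
  exact pow_orderOf_eq_one x

theorem isConj_dual_of (σ : K ≃+* K) (g : GL (Fin n) K)
    (h : IsConj (g : Matrix (Fin n) (Fin n) K) (dualM σ g)) : IsConj g (dualG σ g) := by
  obtain ⟨c, hc⟩ := h
  refine isConj_iff.mpr ⟨c, ?_⟩
  rw [mul_inv_eq_iff_eq_mul]
  apply Units.ext
  exact hc.eq

theorem dual_of_isConj (σ : K ≃+* K) (g : GL (Fin n) K) (h : IsConj g (dualG σ g)) :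
    IsConj (g : Matrix (Fin n) (Fin n) K) (dualM σ g) :=
  MonoidHom.map_isConj (Units.coeHom _) h

theorem map_eq_dual (hK : Fintype.card K = q ^ 2) (A : Matrix (Fin n) (Fin n) K) :
    (((A.map (fun x : K => x ^ q)).transpose)⁻¹) = dualM (frobE hK) A := rfl

theorem count_main (hK : Fintype.card K = q ^ 2) (hr : r.Prime) (hrp : r ≠ p) :
    Nat.card {C : ConjClasses ↥(Cfsg.GU n K q) // ∃ g : ↥(Cfsg.GU n K q), ConjClasses.mk g = C ∧ orderOf g = r}
      = Nat.card {a : SS K r → ℕ // a ≠ 0 ∧ ∑ Q, a Q ≤ n / orderOf (((q ^ 2 : ℕ)) : ZMod r) ∧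
          ∀ Q, a (stS (frobE hK) (frobE_frobE hK) r hr Q) = a Q} := by
  set σ := frobE hK with hσ
  have hσσ : ∀ x, σ (σ x) = x := frobE_frobE hK
  set st := stS σ hσσ r hr with hst
  let A := {a : SS K r → ℕ // a ≠ 0 ∧ ∑ Q, a Q ≤ n / orderOf (((q ^ 2 : ℕ)) : ZMod r) ∧ ∀ Q, a (st Q) = a Q}
  -- representatives
  have hrep : ∀ a : A, ∃ B : ↥(Cfsg.GU n K q), orderOf B = r ∧ ∀ Q : SS K r, mt (B : GL (Fin n) K) Q.1 = a.1 Q := by
    rintro ⟨a, ha0, ha, hinv⟩
    obtain ⟨g, hg, hgm⟩ := exists_of_mult hK r hr hrp a ha0 ha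
    have hgr : g ^ r = 1 := pow_eq_one_of_orderOf hg
    have hdr : (dualG σ g) ^ r = 1 := by rw [dualG_pow, hgr, dualG_one]
    have hc : IsConj g (dualG σ g) := by
      refine isConj_of_mt hK r hr hrp g _ hgr hdr fun Q => ?_
      have hQ' := Finset.mem_erase.mp Q.2
      obtain ⟨h4, h5, h6⟩ := (mem_Th r hr Q.1).mp hQ'.2
      have h0 := coeff_zero_of_dvd_f0 r hr.ne_zero h6
      have h7 := mt_dual σ g (stp σ Q.1) (coeff_zero_of_dvd_f0 r hr.ne_zero ((mem_Th r hr _).mp (stp_mem_Th σ r hr hQ'.2)).2.2)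
      rw [stp_stp_Th σ hσσ r hr hQ'.2] at h7
      rw [h7, hgm]
      exact ((hgm (st Q)).trans (hinv Q)).symm
    obtain ⟨B, hB⟩ := (Cfsg.Agent.S2588.result hK g).mpr (dual_of_isConj σ g hc)
    refine ⟨B, ?_, fun Q => ?_⟩
    · rw [← Subgroup.orderOf_coe, ← hg]
      obtain ⟨c, hc'⟩ := isConj_iff.mp hB
      rw [← hc']
      exact (SemiconjBy.orderOf_eq c (by rw [SemiconjBy, mul_assoc, inv_mul_cancel, mul_one])).symm
    · have hQ' := Finset.mem_erase.mp Q.2
      obtain ⟨h4, h5, h6⟩ := (mem_Th r hr Q.1).mp hQ'.2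
      rw [← mt_of_isConj r hr hrp g _ hgr hB Q.1 h4 h5]
      exact hgm Q
  choose rep hrepord hrepm using hrep
  let f : A → {C : ConjClasses ↥(Cfsg.GU n K q) // ∃ g : ↥(Cfsg.GU n K q), ConjClasses.mk g = C ∧ orderOf g = r} :=
    fun a => ⟨ConjClasses.mk (rep a), rep a, rfl, hrepord a⟩
  have hf : Function.Bijective f := by
    constructor
    · intro a b h
      have h1 : ConjClasses.mk (rep a) = ConjClasses.mk (rep b) := congrArg Subtype.val h
      have h2 := ConjClasses.mk_eq_mk_iff_isConj.mp h1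
      have h3 := (Cfsg.Agent.S2587.result hK _ _).mp h2
      apply Subtype.ext
      funext Q
      have hQ' := Finset.mem_erase.mp Q.2
      obtain ⟨h4, h5, h6⟩ := (mem_Th r hr Q.1).mp hQ'.2
      have hgr : (rep a : GL (Fin n) K) ^ r = 1 := by
        have := hrepord a
        rw [← Subgroup.orderOf_coe] at this
        exact pow_eq_one_of_orderOf this
      rw [← hrepm, ← hrepm]
      exact mt_of_isConj r hr hrp _ _ hgr h3 Q.1 h4 h5
    · rintro ⟨C, g, rfl, hg⟩
      have hg' : orderOf (g : GL (Fin n) K) = r := by rw [Subgroup.orderOf_coe, hg]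
      have hgr : (g : GL (Fin n) K) ^ r = 1 := pow_eq_one_of_orderOf hg'
      have hdr : (dualG σ (g : GL (Fin n) K)) ^ r = 1 := by rw [dualG_pow, hgr, dualG_one]
      have hc : IsConj (g : GL (Fin n) K) (dualG σ g) :=
        isConj_dual_of σ _ ((Cfsg.Agent.S2588.result hK (g : GL (Fin n) K)).mp ⟨g, IsConj.refl _⟩)
      let a : SS K r → ℕ := fun Q => mt (g : GL (Fin n) K) Q.1
      have ha : a ≠ 0 := exists_mt_ne_zero hK r hr hrp _ hg'
      have hb : ∑ Q, a Q ≤ n / orderOf (((q ^ 2 : ℕ)) : ZMod r) := sum_mt_le hK r hr hrp _ hgr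
      have hinv : ∀ Q, a (st Q) = a Q := by
        intro Q
        have hQ' := Finset.mem_erase.mp Q.2
        obtain ⟨h4, h5, h6⟩ := (mem_Th r hr Q.1).mp hQ'.2
        have h0 := coeff_zero_of_dvd_f0 r hr.ne_zero h6
        have h7 := mt_dual σ (g : GL (Fin n) K) Q.1 h0
        obtain ⟨h8, h9, h10⟩ := (mem_Th r hr _).mp (stp_mem_Th σ r hr hQ'.2)
        rw [← mt_of_isConj r hr hrp _ _ hgr hc _ h8 h9] at h7
        exact h7
      refine ⟨⟨a, ha, hb, hinv⟩, ?_⟩
      apply Subtype.ext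
      show ConjClasses.mk (rep _) = ConjClasses.mk g
      apply ConjClasses.mk_eq_mk_iff_isConj.mpr
      rw [Cfsg.Agent.S2587.result hK]
      refine isConj_of_mt hK r hr hrp _ _ ?_ hgr fun Q => hrepm _ Q
      have := hrepord ⟨a, ha, hb, hinv⟩
      rw [← Subgroup.orderOf_coe] at this
      exact pow_eq_one_of_orderOf this
  exact (Nat.card_congr (Equiv.ofBijective f hf)).symm

end aux

/-- Number of conjugacy classes of elements of odd prime order r in the general unitary group GU_n(q), for r not dividing q(q + 1): let i be the multiplicative order of q modulo r, b = i if i is odd and b = i/2 if i is even, and s = (r − 1)/b. If i ≢ 2 (mod 4) the eigenvalue orbits pair off into dual pairs of totally isotropic blocks and there are C(⌊n/(2b)⌋ + s/2, s/2) − 1 classes; if i ≡ 2 (mod 4) each orbit gives a non-degenerate block of dimension i/2 and there are C(⌊2n/i⌋ + s, s) − 1 classes. -/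
theorem result {K : Type*} [Field K] [Fintype K] {p q n r i b s : ℕ} [Fact p.Prime] [CharP K p] (hK : Fintype.card K = q ^ 2) (hr : r.Prime) (hr2 : r ≠ 2) (hrp : r ≠ p) (hi : i = orderOf (q : ZMod r)) (hi2 : i ≠ 2) (hb : b = if Odd i then i else i / 2) (hs : s * b = r - 1) : Nat.card {C : ConjClasses ↥(Cfsg.GU n K q) // ∃ g : ↥(Cfsg.GU n K q), ConjClasses.mk g = C ∧ orderOf g = r} = if i % 4 = 2 then Nat.choose (2 * n / i + s) s - 1 else Nat.choose (n / (2 * b) + s / 2) (s / 2) - 1 := by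
  classical
  haveI : Fact r.Prime := ⟨hr⟩
  rw [count_main hK hr hrp]
  have hq0 : (q : ZMod r) ≠ 0 := by
    have hF : Fintype.card K = q ^ 2 := hK
    have h1 := natCast_ne_zero_zmod hF r hr hrp
    intro h
    apply h1
    rw [Nat.cast_pow, h]
    simp
  have hB : orderOf (((q ^ 2 : ℕ)) : ZMod r) = b := by
    rw [Nat.cast_pow]
    exact Cfsg.Agent.Lib.GUr.orderOf_sq_eq _ i b hi hb
  have hbpos : 0 < b := by
    rw [← hB]
    exact orderOf_pos_aux hK r hr hrp
  have hcard : Fintype.card (SS K r) = s := by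
    have h1 := card_SS hK r hr hrp
    rw [hB] at h1
    rw [Fintype.card_coe]
    exact Nat.eq_of_mul_eq_mul_right hbpos (h1.trans hs.symm)
  rw [hB]
  have hfix : ∀ Q : SS K r, stS (frobE hK) (frobE_frobE hK) r hr Q = Q ↔ i % 4 = 2 := by
    intro Q
    have h1 := stp_fixed_iff hK r hr hrp (frobE hK) q (fun E _ _ => exists_tau hK E) Q.1 Q.2
    rw [Subtype.ext_iff]
    show stp (frobE hK) Q.1 = Q.1 ↔ _
    rw [h1, hi, ← neg_mem_iff r hr2 (q : ZMod r) hq0, Nat.cast_pow]
  split_ifs with h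
  · have hib : i = 2 * b := by
      rw [hb, if_neg (by
        rw [Nat.not_odd_iff_even, Nat.even_iff]
        omega)]
      omega
    have h1 : ∀ a : SS K r → ℕ, (a ≠ 0 ∧ ∑ Q, a Q ≤ n / b ∧ ∀ Q, a (stS (frobE hK) (frobE_frobE hK) r hr Q) = a Q)
        ↔ (a ≠ 0 ∧ ∑ Q, a Q ≤ n / b) := by
      intro a
      constructor
      · rintro ⟨h2, h3, -⟩
        exact ⟨h2, h3⟩
      · rintro ⟨h2, h3⟩
        exact ⟨h2, h3, fun Q => by rw [(hfix Q).mpr h]⟩
    rw [Nat.card_congr (Equiv.subtypeEquivRight h1), count_nonzero, hcard, hib, Nat.mul_div_mul_left _ _ (by norm_num)]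
  · have h2 := count_inv (SS K r) (stS (frobE hK) (frobE_frobE hK) r hr) (stS_stS (frobE hK) (frobE_frobE hK) r hr)
      (fun Q hQ => h ((hfix Q).mp hQ)) (n / b)
    rw [hcard] at h2
    have h3 : n / b / 2 = n / (2 * b) := by
      rw [Nat.div_div_eq_div_mul, mul_comm]
    rw [h3] at h2
    rw [← h2]

end Cfsg.Agent.S2671
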