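import Cfsg.Statements.S2672
import Cfsg.Agent.Lib.PGUr.Conj
import Cfsg.Agent.Lib.PGLr.Rot
import Cfsg.Agent.Lib.Classical.SLBasic

set_option autoImplicit false
open Cfsg

namespace Cfsg.Agent.S2672

open Cfsg.Agent.Lib.PGLr Cfsg.Agent.Lib.PGUr Cfsg.Agent.Lib.MatConj.Tg Cfsg.Agent.Lib.HermCount.Field Cfsg.Agent.Lib.Witt.HermModel

/-- Number of conjugacy classes of elements of odd prime order r in PGU_n(q) = GU_n(q)/scalars (n ≥ 3) when r divides q + 1: as in the linear case with q − 1 replaced by q + 1, the classes correspond to the rotation orbits on r-tuples of eigenvalue multiplicities summing to n with every entry < n, plus r − 1 further classes when r divides n; in all (C(n+r−1, r−1) − r − [r ∣ n])/r + r·[r ∣ n]. -/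
theorem result {K : Type*} [Field K] [Fintype K] {q n r : ℕ} (hK : Fintype.card K = q ^ 2) (hn : 3 ≤ n) (hr : r.Prime) (hr2 : r ≠ 2) (hrq : r ∣ q + 1) : Nat.card {C : ConjClasses (↥(Cfsg.GU n K q) ⧸ Subgroup.center ↥(Cfsg.GU n K q)) // ∃ g : ↥(Cfsg.GU n K q) ⧸ Subgroup.center ↥(Cfsg.GU n K q), ConjClasses.mk g = C ∧ orderOf g = r} = (Nat.choose (n + r - 1) (r - 1) - r - (if r ∣ n then 1 else 0)) / r + r * (if r ∣ n then 1 else 0) := by
  classical
  haveI hfact : Fact r.Prime := ⟨hr⟩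
  have hn0 : 0 < n := by omega
  have hn2 : 2 ≤ n := by omega
  have hq := two_le hK
  have hrpos : 0 < r := hr.pos
  have hrF : (r : K) ≠ 0 := by
    intro h0
    obtain ⟨t, ht⟩ := hrq
    have h1 : ((q ^ 2 : ℕ) : K) = 0 := by
      rw [← hK]
      exact FiniteField.cast_card_eq_zero K
    have h2 : (q : K) = 0 := by
      push_cast at h1
      exact (pow_eq_zero_iff two_ne_zero).mp h1
    have h3 : ((q + 1 : ℕ) : K) = 0 := by
      rw [ht]
      push_cast
      rw [h0, zero_mul]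
    push_cast at h3
    rw [h2, zero_add] at h3
    exact one_ne_zero h3
  haveI hne : NeZero (q + 1) := ⟨by omega⟩
  have hU' : ∀ c : ↥(rootsOfUnity (q + 1) K), (c : Kˣ) ^ (q + 1) = 1 := fun c => (mem_rootsOfUnity _ _).mp c.2
  have hU : ∀ c : ↥(rootsOfUnity (q + 1) K), ((c : Kˣ) : K) ^ (q + 1) = 1 := by
    intro c
    have := congrArg Units.val (hU' c)
    simpa using this
  have hcardU : Nat.card ↥(rootsOfUnity (q + 1) K) = q + 1 := by
    rw [Cfsg.Agent.Lib.Classical.SLBasic.card_rootsOfUnity_eq_gcd (q + 1)]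
    have h3 : (q + 1) ∣ Fintype.card K - 1 := by
      rw [hK]
      have := Nat.sq_sub_sq q 1
      rw [one_pow] at this
      rw [this]
      exact Nat.dvd_mul_right _ _
    exact Nat.gcd_eq_right h3
  obtain ⟨ωu, hωu⟩ : ∃ x : ↥(rootsOfUnity (q + 1) K), orderOf x = r := exists_prime_orderOf_dvd_card' r (by rw [hcardU]; exact hrq)
  have hωu' : orderOf ((ωu : ↥(rootsOfUnity (q + 1) K)) : Kˣ) = r := by rw [Subgroup.orderOf_coe, hωu]
  have hω : IsPrimitiveRoot (((ωu : ↥(rootsOfUnity (q + 1) K)) : Kˣ) : K) r :=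
    IsPrimitiveRoot.coe_units_iff.2 (hωu' ▸ IsPrimitiveRoot.orderOf _)
  have hωr : (((ωu : ↥(rootsOfUnity (q + 1) K)) : Kˣ) : K) ^ r = 1 := hω.pow_eq_one
  let eu : ZMod r → ↥(rootsOfUnity (q + 1) K) := fun j => ωu ^ j.val
  let e : ZMod r → K := fun j => (((eu j : ↥(rootsOfUnity (q + 1) K)) : Kˣ) : K)
  have he_val : ∀ j, e j = (((ωu : ↥(rootsOfUnity (q + 1) K)) : Kˣ) : K) ^ j.val := fun j => by simp [e, eu]
  have he : Function.Injective e := by
    intro i j hij
    rw [he_val, he_val] at hij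
    exact ZMod.val_injective r (hω.pow_inj (ZMod.val_lt _) (ZMod.val_lt _) hij)
  have he1 : ∀ j, e j ^ r = 1 := by
    intro j
    rw [he_val, ← pow_mul, mul_comm, pow_mul, hωr, one_pow]
  have he2 : ∀ y : K, y ^ r = 1 → ∃ j, e j = y := by
    intro y hy
    obtain ⟨i, hi, rfl⟩ := hω.eq_pow_of_pow_eq_one hy
    refine ⟨(i : ZMod r), ?_⟩
    rw [he_val, ZMod.val_cast_of_lt hi]
  have he_add : ∀ i j, e (i + j) = e i * e j := by
    intro i j
    rw [he_val, he_val, he_val, ZMod.val_add, ← pow_add]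
    exact (pow_eq_pow_mod _ hωr).symm
  have he_ne : ∀ j, e j ≠ 0 := fun j => ((eu j : ↥(rootsOfUnity (q + 1) K)) : Kˣ).ne_zero
  -- tuples
  have hS1 : ∀ a : AA r n, ∃ g : ↥(Cfsg.GU n K q), g ^ r = 1 ∧ ∀ j, dm (Tg g.1) (e j) = a.1 j :=
    fun a => exists_tuple_unitary hK hrq e he he1 a.1 a.2.1
  choose g1 hg1 hg1d using hS1
  have hg1c : ∀ a, ∀ c : Kˣ, sc n c ≠ (g1 a).1 := by
    intro a c hc
    obtain ⟨j, hj⟩ : ∃ j, a.1 j ≠ 0 := by
      by_contra hall
      push Not at hall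
      have h1 := a.2.1
      rw [Finset.sum_eq_zero fun j _ => hall j] at h1
      omega
    have h2 := dm_scalar (c : K) (e j) n (Tg (g1 a).1) (by rw [← hc, Tg_sc]) (by rw [hg1d]; exact hj)
    rw [hg1d] at h2
    exact absurd h2 (a.2.2 j).ne
  -- non-trivial cosets
  set Pw : Subgroup ↥(rootsOfUnity (q + 1) K) := (powMonoidHom r : ↥(rootsOfUnity (q + 1) K) →* ↥(rootsOfUnity (q + 1) K)).range with hPw
  have hidx : Nat.card (↥(rootsOfUnity (q + 1) K) ⧸ Pw) = r := by
    have h1 := IsCyclic.index_powMonoidHom_range ↥(rootsOfUnity (q + 1) K) r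
    rw [Subgroup.index] at h1
    rw [← hPw] at h1
    rw [h1, hcardU]
    exact Nat.gcd_eq_right hrq
  let Y := {c : ↥(rootsOfUnity (q + 1) K) ⧸ Pw // c ≠ 1 ∧ r ∣ n}
  have hnotpow0 : ∀ c : ↥(rootsOfUnity (q + 1) K) ⧸ Pw, c ≠ 1 → ∀ b : K, b ^ r ≠ (((Quotient.out c : ↥(rootsOfUnity (q + 1) K)) : Kˣ) : K) := by
    intro c hc b hb
    have hb0 : b ≠ 0 := by
      rintro rfl
      rw [zero_pow hr.ne_zero] at hb
      exact ((Quotient.out c : ↥(rootsOfUnity (q + 1) K)) : Kˣ).ne_zero hb.symm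
    have hcop : Nat.Coprime r (q - 1) := by
      rw [Nat.Prime.coprime_iff_not_dvd hr]
      intro hd
      have h1 : r ∣ (q + 1) - (q - 1) := Nat.dvd_sub hrq hd
      have h2 : (q + 1) - (q - 1) = 2 := by omega
      rw [h2] at h1
      exact hr2 ((Nat.prime_dvd_prime_iff_eq hr Nat.prime_two).mp h1)
    have ht1 : (b ^ (q + 1)) ^ r = 1 := by
      rw [← pow_mul, mul_comm, pow_mul, hb]
      exact hU _
    have ht2 : (b ^ (q + 1)) ^ (q - 1) = 1 := by
      rw [← pow_mul]
      have h3 : (q + 1) * (q - 1) = Fintype.card K - 1 := by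
        rw [hK]
        have := Nat.sq_sub_sq q 1
        rw [one_pow] at this
        rw [this, mul_comm]
      rw [h3]
      exact FiniteField.pow_card_sub_one_eq_one b hb0
    have ht : b ^ (q + 1) = 1 := by
      have := pow_gcd_eq_one.mpr ⟨ht1, ht2⟩
      rwa [hcop.gcd_eq_one, pow_one] at this
    have hmem : Units.mk0 b hb0 ∈ rootsOfUnity (q + 1) K := by
      rw [mem_rootsOfUnity]
      apply Units.ext
      simpa using ht
    apply hc
    have h1 : ((⟨Units.mk0 b hb0, hmem⟩ : ↥(rootsOfUnity (q + 1) K))) ^ r = (Quotient.out c : ↥(rootsOfUnity (q + 1) K)) := by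
      apply Subtype.ext
      apply Units.ext
      simpa using hb
    rw [← QuotientGroup.out_eq' c, QuotientGroup.eq_one_iff]
    exact ⟨_, h1⟩
  have hnotpow : ∀ y : Y, ∀ b : K, b ^ r ≠ (((Quotient.out y.1 : ↥(rootsOfUnity (q + 1) K)) : Kˣ) : K) := fun y => hnotpow0 y.1 y.2.1
  have hS2 : ∀ y : Y, ∃ g : ↥(Cfsg.GU n K q), g.1 ^ r = sc n ((Quotient.out y.1 : ↥(rootsOfUnity (q + 1) K)) : Kˣ) := by
    intro y
    obtain ⟨T, hT, hTr⟩ := exists_unitary_mu hK hr hr2 hrq (hU _) (hnotpow y) (Nat.div_mul_cancel y.2.2)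
    obtain ⟨A, hA⟩ := exists_GU_of_isometry hK T hT
    refine ⟨A, Tg_injective ?_⟩
    have hAT : Tg A.1 = T := by
      apply LinearMap.ext
      intro x
      rw [Tg_apply, hA]
    rw [← Tg_pow, Tg_sc, hAT, hTr]
  choose g2 hg2 using hS2
  letI := rotAct r n
  haveI hfinAA : Finite (AA r n) := by
    haveI : Finite {a : ZMod r → ℕ // ∑ j, a j = n} := Finite.of_equiv _ (Sym.equivNatSumOfFintype (ZMod r) n)
    exact Finite.of_injective (fun a : AA r n => (⟨a.1, a.2.1⟩ : {a : ZMod r → ℕ // ∑ j, a j = n}))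
      (fun a b h => by
        have h5 := congrArg Subtype.val h
        exact Subtype.ext h5)
  let Orb := Quotient (MulAction.orbitRel (Multiplicative (ZMod r)) (AA r n))
  let rep : Orb ⊕ Y → ↥(Cfsg.GU n K q) := Sum.elim (fun o => g1 (Quotient.out o)) g2
  have hord : ∀ a, orderOf (rep a : (↥(Cfsg.GU n K q) ⧸ Subgroup.center ↥(Cfsg.GU n K q))) = r := by
    rintro (o | y)
    · apply orderOf_eq_prime
      · change ((g1 (Quotient.out o) : ↥(Cfsg.GU n K q)) : (↥(Cfsg.GU n K q) ⧸ Subgroup.center ↥(Cfsg.GU n K q))) ^ r = 1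
        rw [← QuotientGroup.mk_pow, hg1]
        rfl
      · change ((g1 (Quotient.out o) : ↥(Cfsg.GU n K q)) : (↥(Cfsg.GU n K q) ⧸ Subgroup.center ↥(Cfsg.GU n K q))) ≠ 1
        rw [Ne, QuotientGroup.eq_one_iff, mem_center_GU hK hn2]
        rintro ⟨c, -, hc⟩
        exact hg1c _ c hc
    · apply orderOf_eq_prime
      · change ((g2 y : ↥(Cfsg.GU n K q)) : (↥(Cfsg.GU n K q) ⧸ Subgroup.center ↥(Cfsg.GU n K q))) ^ r = 1
        rw [← QuotientGroup.mk_pow, QuotientGroup.eq_one_iff]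
        exact mem_center_of_sc _ _ (hg2 y).symm
      · change ((g2 y : ↥(Cfsg.GU n K q)) : (↥(Cfsg.GU n K q) ⧸ Subgroup.center ↥(Cfsg.GU n K q))) ≠ 1
        rw [Ne, QuotientGroup.eq_one_iff, mem_center_GU hK hn2]
        rintro ⟨c, -, hc⟩
        have h3 := hg2 y
        rw [← hc, ← map_pow] at h3
        have h4 := sc_injective hn0 h3
        apply hnotpow y (c : K)
        rw [← h4, Units.val_pow_eq_pow_val]
  let f : Orb ⊕ Y → {C : ConjClasses (↥(Cfsg.GU n K q) ⧸ Subgroup.center ↥(Cfsg.GU n K q)) // ∃ g : (↥(Cfsg.GU n K q) ⧸ Subgroup.center ↥(Cfsg.GU n K q)), ConjClasses.mk g = C ∧ orderOf g = r} :=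
    fun a => ⟨ConjClasses.mk (rep a : (↥(Cfsg.GU n K q) ⧸ Subgroup.center ↥(Cfsg.GU n K q))), _, rfl, hord a⟩
  have hg1' : ∀ a, (g1 a).1 ^ r = sc n (1 : Kˣ) := by
    intro a
    have h1 : (g1 a).1 ^ r = 1 := by
      have := congrArg Subtype.val (hg1 a)
      simpa using this
    rw [h1]
    exact (map_one _).symm
  -- scalars
  let scG : ↥(rootsOfUnity (q + 1) K) →* ↥(Cfsg.GU n K q) :=
    { toFun := fun c => ⟨sc n (c : Kˣ), sc_mem_GU (hU' c)⟩
      map_one' := by
        apply Subtype.ext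
        exact map_one (Matrix.GeneralLinearGroup.scalar (Fin n))
      map_mul' := fun a b => by
        apply Subtype.ext
        exact map_mul (Matrix.GeneralLinearGroup.scalar (Fin n)) _ _ }
  have hscG : ∀ c, (scG c).1 = sc n (c : Kˣ) := fun c => rfl
  have hcen : ∀ c, scG c ∈ Subgroup.center ↥(Cfsg.GU n K q) := fun c => mem_center_of_sc _ (c : Kˣ) rfl
  have hcen' : ∀ z ∈ Subgroup.center ↥(Cfsg.GU n K q), ∃ c : ↥(rootsOfUnity (q + 1) K), scG c = z := by
    intro z hz
    obtain ⟨c, hc, hcz⟩ := (mem_center_GU hK hn2 z).mp hz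
    exact ⟨⟨c, (mem_rootsOfUnity _ _).mpr hc⟩, Subtype.ext hcz⟩
  have hcomm : ∀ (c : ↥(rootsOfUnity (q + 1) K)) (g : ↥(Cfsg.GU n K q)), Commute (scG c) g := fun c g => (Subgroup.mem_center_iff.mp (hcen c) g).symm
  -- roots of unity in the norm-one group
  have heu : ∀ c : ↥(rootsOfUnity (q + 1) K), c ^ r = 1 → ∃ s, eu s = c := by
    intro c hc
    obtain ⟨s, hs⟩ := he2 ((c : Kˣ) : K) (by
      have := congrArg (fun x : ↥(rootsOfUnity (q + 1) K) => ((x : Kˣ) : K)) hc
      simpa using this)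
    exact ⟨s, Subtype.ext (Units.ext hs)⟩
  -- twisting and multiplicities
  have hdmtw : ∀ (g : GL (Fin n) K) (s j : ZMod r),
      dm (Tg (sc n ((eu s : ↥(rootsOfUnity (q + 1) K)) : Kˣ) * g)) (e (j + s)) = dm (Tg g) (e j) := by
    intro g s j
    rw [Tg_sc_mul, he_add, mul_comm]
    exact dm_smul _ _ _ (he_ne s)
  -- lifting conjugacy to the general linear group
  have hGL : ∀ {a b : ↥(Cfsg.GU n K q)}, IsConj a b → IsConj a.1 b.1 := fun h => MonoidHom.map_isConj (Subgroup.subtype _) h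
  have hquot : ∀ {a b : ↥(Cfsg.GU n K q)}, IsConj (a : (↥(Cfsg.GU n K q) ⧸ Subgroup.center ↥(Cfsg.GU n K q))) (b : (↥(Cfsg.GU n K q) ⧸ Subgroup.center ↥(Cfsg.GU n K q))) → ∃ c : ↥(rootsOfUnity (q + 1) K), IsConj a (scG c * b) := by
    intro a b h
    obtain ⟨z, hz, hc⟩ := conj_quot_gen h
    obtain ⟨c, rfl⟩ := hcen' z hz
    exact ⟨c, hc⟩
  have hf : Function.Bijective f := by
    constructor
    · have key : ∀ a b, f a = f b → IsConj (rep a : (↥(Cfsg.GU n K q) ⧸ Subgroup.center ↥(Cfsg.GU n K q))) (rep b : (↥(Cfsg.GU n K q) ⧸ Subgroup.center ↥(Cfsg.GU n K q))) :=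
        fun a b h => ConjClasses.mk_eq_mk_iff_isConj.mp (congrArg Subtype.val h)
      have hcross : ∀ (a : AA r n) (y : Y) (c : ↥(rootsOfUnity (q + 1) K)), ¬ IsConj (g1 a) (scG c * g2 y) := by
        intro a y c hc
        have h1 := conj_pow_scalar hn0 r (hg1' _) (hg2 y) (c : Kˣ) (hGL hc)
        have h2 : ((((c : Kˣ)⁻¹ : Kˣ) : K)) ^ r = (((Quotient.out y.1 : ↥(rootsOfUnity (q + 1) K)) : Kˣ) : K) := by
          have h3 : ((Quotient.out y.1 : ↥(rootsOfUnity (q + 1) K)) : Kˣ) = (c : Kˣ)⁻¹ ^ r := by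
            rw [inv_pow, eq_inv_iff_mul_eq_one, mul_comm, ← h1]
          rw [h3, Units.val_pow_eq_pow_val]
        exact hnotpow y _ h2
      rintro (o | y) (o' | y') h
      · obtain ⟨c, hc⟩ := hquot (key _ _ h)
        change IsConj (g1 (Quotient.out o)) (scG c * g1 (Quotient.out o')) at hc
        have h1 := conj_pow_scalar hn0 r (hg1' _) (hg1' _) (c : Kˣ) (hGL hc)
        rw [mul_one] at h1
        have hcr : c ^ r = 1 := by
          apply Subtype.ext
          exact h1.symm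
        obtain ⟨s, rfl⟩ := heu c hcr
        obtain ⟨P, hP⟩ := (isConj_iff_T _ _).mp (hGL hc)
        have h2 : ∀ j, (Quotient.out o).1 (j + s) = (Quotient.out o').1 j := by
          intro j
          rw [← hg1d, ← hg1d, dm_of_conj _ _ P hP]
          exact hdmtw _ _ _
        have h3 : (Multiplicative.ofAdd s : Multiplicative (ZMod r)) • Quotient.out o = Quotient.out o' := by
          apply Subtype.ext
          funext j
          exact h2 j
        congr 1
        have h4 : (Quotient.mk _ (Quotient.out o') : Orb) = Quotient.mk _ (Quotient.out o) := by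
          apply Quotient.sound
          rw [← h3]
          exact ⟨_, rfl⟩
        rw [Quotient.out_eq, Quotient.out_eq] at h4
        exact h4.symm
      · obtain ⟨c, hc⟩ := hquot (key _ _ h)
        exact (hcross _ y' c hc).elim
      · obtain ⟨c, hc⟩ := hquot (key _ _ h.symm)
        exact (hcross _ y c hc).elim
      · obtain ⟨c, hc⟩ := hquot (key _ _ h)
        change IsConj (g2 y) (scG c * g2 y') at hc
        have h1 := conj_pow_scalar hn0 r (hg2 y) (hg2 y') (c : Kˣ) (hGL hc)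
        congr 1
        apply Subtype.ext
        rw [← QuotientGroup.out_eq' y.1, ← QuotientGroup.out_eq' y'.1]
        apply QuotientGroup.eq.2
        refine ⟨c⁻¹, ?_⟩
        change c⁻¹ ^ r = (Quotient.out y.1 : ↥(rootsOfUnity (q + 1) K))⁻¹ * (Quotient.out y'.1 : ↥(rootsOfUnity (q + 1) K))
        have h5 : (Quotient.out y.1 : ↥(rootsOfUnity (q + 1) K)) = c ^ r * (Quotient.out y'.1 : ↥(rootsOfUnity (q + 1) K)) := by
          apply Subtype.ext
          exact h1
        rw [h5, inv_pow, mul_inv_rev, mul_comm (Quotient.out y'.1 : ↥(rootsOfUnity (q + 1) K))⁻¹ (c ^ r)⁻¹, inv_mul_cancel_right]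
    · rintro ⟨C, x, rfl, hx⟩
      obtain ⟨g, rfl⟩ := QuotientGroup.mk_surjective x
      have hng : g ∉ Subgroup.center ↥(Cfsg.GU n K q) := by
        intro hc
        have h3 : (g : (↥(Cfsg.GU n K q) ⧸ Subgroup.center ↥(Cfsg.GU n K q))) = 1 := (QuotientGroup.eq_one_iff _).mpr hc
        rw [h3, orderOf_one] at hx
        exact hr.one_lt.ne hx
      have hgr : g ^ r ∈ Subgroup.center ↥(Cfsg.GU n K q) := by
        rw [← QuotientGroup.eq_one_iff, QuotientGroup.mk_pow, ← hx, pow_orderOf_eq_one]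
      obtain ⟨l, hl⟩ := hcen' _ hgr
      suffices h : ∃ (a : Orb ⊕ Y) (h : ↥(Cfsg.GU n K q)) (d : ↥(rootsOfUnity (q + 1) K)), IsConj (rep a) h ∧ h = scG d * g by
        obtain ⟨a, h, d, h3, h4⟩ := h
        refine ⟨a, Subtype.ext ?_⟩
        change ConjClasses.mk _ = ConjClasses.mk _
        exact ConjClasses.mk_eq_mk_iff_isConj.mpr (mk_conj_gen h3 (hcen d) h4)
      by_cases hlc : (l : ↥(rootsOfUnity (q + 1) K) ⧸ Pw) = 1
      · rw [QuotientGroup.eq_one_iff] at hlc
        obtain ⟨z, hz⟩ := hlc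
        replace hz : z ^ r = l := hz
        let h : ↥(Cfsg.GU n K q) := scG z⁻¹ * g
        have hh : h ^ r = 1 := by
          change (scG z⁻¹ * g) ^ r = 1
          rw [(hcomm _ _).mul_pow, ← hl, ← map_pow, ← map_mul, inv_pow, hz, inv_mul_cancel, map_one]
        have hhnc : ∀ c : Kˣ, sc n c ≠ h.1 := by
          intro c hc
          apply hng
          have h1 : h ∈ Subgroup.center ↥(Cfsg.GU n K q) := mem_center_of_sc _ c hc
          have h2 : g = scG z * h := by
            change g = scG z * (scG z⁻¹ * g)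
            rw [← mul_assoc, ← map_mul, mul_inv_cancel, map_one, one_mul]
          rw [h2]
          exact Subgroup.mul_mem _ (hcen z) h1
        have hTh : Tg h.1 ^ r = 1 := by
          have h1 : h.1 ^ r = 1 := by
            have := congrArg Subtype.val hh
            simpa using this
          rw [Tg_pow, h1, Tg_one]
        let a : AA r n := ⟨fun j => dm (Tg h.1) (e j), by
          have h5 := dm_sum hrpos hrF hω e he he2 (Tg h.1) hTh
          rwa [Module.finrank_fintype_fun_eq_card, Fintype.card_fin] at h5,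
          fun j => dm_lt h.1 hn0 _ hhnc⟩
        let o : Orb := Quotient.mk _ a
        have h5 : Quotient.out o ∈ MulAction.orbit (Multiplicative (ZMod r)) a := by
          have h6 : (Quotient.mk _ (Quotient.out o) : Orb) = Quotient.mk _ a := Quotient.out_eq o
          exact Quotient.exact h6
        obtain ⟨t, ht⟩ := h5
        let s : ZMod r := Multiplicative.toAdd t
        have hsa : ∀ j, (Quotient.out o).1 j = dm (Tg h.1) (e (j + s)) := by
          intro j
          rw [← ht]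
          rfl
        let G : ↥(Cfsg.GU n K q) := scG (eu s)⁻¹ * h
        have hG : scG (eu s) * G = h := by
          change scG (eu s) * (scG (eu s)⁻¹ * h) = h
          rw [← mul_assoc, ← map_mul, mul_inv_cancel, map_one, one_mul]
        have hGr : G ^ r = 1 := by
          change (scG (eu s)⁻¹ * h) ^ r = 1
          rw [(hcomm _ _).mul_pow, hh, mul_one, ← map_pow]
          have h6 : (eu s)⁻¹ ^ r = 1 := by
            rw [inv_pow, inv_eq_one]
            apply Subtype.ext
            apply Units.ext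
            simpa using he1 s
          rw [h6, map_one]
        refine ⟨.inl o, G, (eu s)⁻¹ * z⁻¹, ?_, ?_⟩
        · change IsConj (g1 (Quotient.out o)) G
          apply conj_of_dm_unitary hK hrpos hrF hω hrq _ _ (hg1 _) hGr
          intro y hy
          obtain ⟨j, rfl⟩ := he2 y hy
          rw [hg1d, hsa, ← hdmtw G.1 s j]
          have h7 : sc n ((eu s : ↥(rootsOfUnity (q + 1) K)) : Kˣ) * G.1 = h.1 := congrArg Subtype.val hG
          rw [h7]
        · change scG (eu s)⁻¹ * (scG z⁻¹ * g) = _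
          rw [map_mul, mul_assoc]
      · have h5 : (Quotient.out (l : ↥(rootsOfUnity (q + 1) K) ⧸ Pw) : ↥(rootsOfUnity (q + 1) K))⁻¹ * l ∈ Pw := QuotientGroup.eq.1 (QuotientGroup.out_eq' (l : ↥(rootsOfUnity (q + 1) K) ⧸ Pw))
        obtain ⟨z, hz⟩ := h5
        replace hz : z ^ r = (Quotient.out (l : ↥(rootsOfUnity (q + 1) K) ⧸ Pw) : ↥(rootsOfUnity (q + 1) K))⁻¹ * l := hz
        let h : ↥(Cfsg.GU n K q) := scG z⁻¹ * g
        have hh : h.1 ^ r = sc n ((Quotient.out (l : ↥(rootsOfUnity (q + 1) K) ⧸ Pw) : ↥(rootsOfUnity (q + 1) K)) : Kˣ) := by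
          have h1 : h ^ r = scG (Quotient.out (l : ↥(rootsOfUnity (q + 1) K) ⧸ Pw) : ↥(rootsOfUnity (q + 1) K)) := by
            change (scG z⁻¹ * g) ^ r = _
            rw [(hcomm _ _).mul_pow, ← hl, ← map_pow, ← map_mul, inv_pow, hz]
            congr 1
            rw [mul_inv_rev, inv_inv, mul_comm l⁻¹, inv_mul_cancel_right]
          exact congrArg Subtype.val h1
        have hTh : Tg h.1 ^ r = (((Quotient.out (l : ↥(rootsOfUnity (q + 1) K) ⧸ Pw) : ↥(rootsOfUnity (q + 1) K)) : Kˣ) : K) • 1 := by rw [Tg_pow, hh, Tg_sc]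
        have hnp := hnotpow0 (l : ↥(rootsOfUnity (q + 1) K) ⧸ Pw) hlc
        have hrn : r ∣ n := by
          obtain ⟨κ, hκ, R, Φ, hD, hR⟩ := exists_decomp_mu hr hnp (Tg h.1) hTh
          have h6 := card_mu hD hR hr.ne_zero
          rw [Module.finrank_fintype_fun_eq_card, Fintype.card_fin] at h6
          exact ⟨_, h6.symm.trans (mul_comm _ _)⟩
        refine ⟨.inr ⟨(l : ↥(rootsOfUnity (q + 1) K) ⧸ Pw), hlc, hrn⟩, h, z⁻¹, ?_, rfl⟩
        change IsConj (g2 ⟨(l : ↥(rootsOfUnity (q + 1) K) ⧸ Pw), hlc, hrn⟩) h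
        obtain ⟨P, hPi, hP⟩ := conj_unitary_mu hK hr hr2 hrq (hU _) hnp (Tg (g2 ⟨(l : ↥(rootsOfUnity (q + 1) K) ⧸ Pw), hlc, hrn⟩).1) (Tg h.1)
          (iso_of_mem _) (iso_of_mem _) (by rw [Tg_pow, hg2, Tg_sc]) hTh
        exact isConj_of_intertwine hK _ _ P.toLinearMap hPi hP
  rw [← Nat.card_congr (Equiv.ofBijective f hf)]
  haveI : Finite Orb := Quotient.finite _
  haveI : Finite Y := Subtype.finite
  rw [Nat.card_sum]
  have hcY : Nat.card Y = if r ∣ n then r - 1 else 0 := by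
    split_ifs with hrn
    · have e1 : Y ≃ {c : ↥(rootsOfUnity (q + 1) K) ⧸ Pw // c ≠ 1} :=
        Equiv.subtypeEquivRight fun c => by simp [hrn]
      rw [Nat.card_congr e1, ← hidx]
      haveI : Fintype (↥(rootsOfUnity (q + 1) K) ⧸ Pw) := Fintype.ofFinite _
      simp only [Nat.card_eq_fintype_card]
      rw [Fintype.card_subtype_compl, Fintype.card_subtype_eq]
    · haveI : IsEmpty Y := ⟨fun y => hrn y.2.2⟩
      exact Nat.card_of_isEmpty
  have hcO := card_orbits (r := r) (n := n) hn0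
  have hcA := card_AA (r := r) (n := n) hn0
  rw [hcY]
  change Nat.card (Quotient (MulAction.orbitRel (Multiplicative (ZMod r)) (AA r n))) * r = _ at hcO
  change Nat.card (Quotient (MulAction.orbitRel (Multiplicative (ZMod r)) (AA r n))) + _ = _
  generalize Nat.card (Quotient (MulAction.orbitRel (Multiplicative (ZMod r)) (AA r n))) = O at hcO ⊢
  rw [← hcA]
  generalize Nat.card (AA r n) = A at hcO ⊢
  have hr2' := hr.two_le
  by_cases hrn : r ∣ n
  · simp only [hrn, if_true, mul_one] at hcO ⊢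
    obtain _ | O := O
    · omega
    · have h1 : O * r + 1 = A := by
        have : (O + 1) * r = O * r + r := by ring
        omega
      have h2 : A + r - r - 1 = O * r := by omega
      rw [h2, Nat.mul_div_cancel _ hrpos]
      omega
  · simp only [hrn, if_false, mul_zero, add_zero] at hcO ⊢
    have h2 : A + r - r - 0 = O * r := by omega
    rw [h2, Nat.mul_div_cancel _ hrpos]

end Cfsg.Agent.S2672
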