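import Cfsg.Statements.S2673
import Cfsg.Agent.Lib.SSClass.Main
-- import your own Cfsg.Agent.* helpers here

set_option autoImplicit false
open Cfsg

namespace Cfsg.Agent.S2673

/-- Number of conjugacy classes of elements of odd prime order r ≠ p in the orthogonal group O_(2m+1)(q) of x_0² + Σ x_j y_j, q odd: with i the multiplicative order of q mod r and t = (r − 1)/i, there are C(⌊m/i⌋ + t/2, t/2) − 1 classes if i is odd (dual pairs of totally singular i-blocks) and C(⌊(2m+1)/i⌋ + t, t) − 1 if i is even (elliptic i-blocks). -/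
theorem result {F : Type*} [Field F] [Fintype F] {p q : ℕ} [Fact p.Prime] [CharP F p] (hF : Fintype.card F = q) (hq : Odd q) (m r i t : ℕ) (hr : r.Prime) (hr2 : r ≠ 2) (hrp : r ≠ p) (hi : i = orderOf (q : ZMod r)) (ht : t * i = r - 1) : Nat.card {C : ConjClasses ↥(Cfsg.isometryGroup F (Cfsg.quadFormOdd m F)) // ∃ g : ↥(Cfsg.isometryGroup F (Cfsg.quadFormOdd m F)), ConjClasses.mk g = C ∧ orderOf g = r} = if Odd i then Nat.choose (m / i + t / 2) (t / 2) - 1 else Nat.choose ((2 * m + 1) / i + t) t - 1 := by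
  classical
  subst hi
  have h2 : (2 : F) ≠ 0 := by
    intro h
    have h1 : ringChar F = 2 := CharP.ringChar_of_prime_eq_zero Nat.prime_two (by exact_mod_cast h)
    have h3 := FiniteField.even_card_of_char_two h1
    rw [hF] at h3
    obtain ⟨s, hs⟩ := hq
    omega
  have hn : Fintype.card (Unit ⊕ (Fin m ⊕ Fin m)) = 2 * m + 1 := by
    simp
    omega
  have hg := Cfsg.Agent.Lib.SSClass.main_count hF hr hr2 hrp ht (Cfsg.Agent.Lib.Orth.Forms.oddForm m F)
    (Cfsg.Agent.Lib.Orth.Forms.oddForm_nondeg m h2) hn (by omega) True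
    (fun h => absurd h (by simp [Nat.even_add_one])) (fun _ => trivial) (by
      intro V₁ _ _ _ Q₁ hQ₁ d hV h2d hd
      obtain ⟨R, _, _, _, QR, hQR, Θ, c, hc, hΘ⟩ := Cfsg.Agent.Lib.SSClass.glue_odd h2 Q₁ hQ₁ (m := m) hV (by omega)
      exact ⟨R, inferInstance, inferInstance, inferInstance, QR, hQR, Θ, c, hc, hΘ⟩)
  show Nat.card {C : ConjClasses ↥(Cfsg.isometryGroup F ⇑(Cfsg.Agent.Lib.Orth.Forms.oddForm m F)) //
    ∃ g : ↥(Cfsg.isometryGroup F ⇑(Cfsg.Agent.Lib.Orth.Forms.oddForm m F)), ConjClasses.mk g = C ∧ orderOf g = r} = _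
  by_cases hodd : Odd (orderOf (q : ZMod r))
  · have h3 : (2 * m + 1) / 2 = m := by omega
    rw [if_pos hodd, hg.1 hodd, h3, if_neg (by simp)]
    simp
  · have heven := Nat.not_odd_iff_even.mp hodd
    rw [if_neg hodd, hg.2 heven, if_neg]
    · simp
    · rintro ⟨h1, -⟩
      have h3 : Even (2 * m + 1) := heven.trans_dvd h1
      simp [Nat.even_add_one] at h3

end Cfsg.Agent.S2673
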