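import Cfsg.Statements.S2674
import Cfsg.Agent.Lib.SSClass.Main
-- import your own Cfsg.Agent.* helpers here

set_option autoImplicit false
open Cfsg

namespace Cfsg.Agent.S2674

/-- Number of conjugacy classes of elements of odd prime order r ≠ p in the orthogonal group O⁺_2m(q) of Σ x_j y_j (m ≥ 1): with i the multiplicative order of q mod r and t = (r − 1)/i — if i is odd, C(⌊m/i⌋ + t/2, t/2) − 1; if i is even, C(⌊2m/i⌋ + t, t) − 1 minus, when i divides 2m with odd quotient, the C(2m/i + t − 1, t − 1) tuples using the whole space (an odd number of elliptic i-blocks fills an elliptic, not a hyperbolic, space). -/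
theorem result {F : Type*} [Field F] [Fintype F] {p q : ℕ} [Fact p.Prime] [CharP F p] (hF : Fintype.card F = q) (m r i t : ℕ) (hm : 1 ≤ m) (hr : r.Prime) (hr2 : r ≠ 2) (hrp : r ≠ p) (hi : i = orderOf (q : ZMod r)) (ht : t * i = r - 1) : Nat.card {C : ConjClasses ↥(Cfsg.isometryGroup F (Cfsg.quadFormPlus m F)) // ∃ g : ↥(Cfsg.isometryGroup F (Cfsg.quadFormPlus m F)), ConjClasses.mk g = C ∧ orderOf g = r} = if Odd i then Nat.choose (m / i + t / 2) (t / 2) - 1 else Nat.choose (2 * m / i + t) t - 1 - (if i ∣ 2 * m ∧ Odd (2 * m / i) then Nat.choose (2 * m / i + t - 1) (t - 1) else 0) := by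
  classical
  subst hi
  have hn : Fintype.card (Fin m ⊕ Fin m) = 2 * m := by
    simp
    omega
  have hg := Cfsg.Agent.Lib.SSClass.main_count hF hr hr2 hrp ht (Cfsg.Agent.Lib.Orth.Forms.plusForm m F)
    (Cfsg.Agent.Lib.Orth.Forms.plusForm_nondeg m) hn (by omega) True
    (fun _ => iff_true_intro (Cfsg.Agent.Lib.SSClass.hasLagr_plus m)) (fun _ => trivial) (by
      intro V₁ _ _ _ Q₁ hQ₁ d hV h2d hd
      obtain ⟨R, _, _, _, QR, hQR, Θ, hΘ⟩ := Cfsg.Agent.Lib.SSClass.glue_plus Q₁ hQ₁ (m := m) hV (by omega)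
        (fun h => (hd (by omega)).mpr trivial)
      exact ⟨R, inferInstance, inferInstance, inferInstance, QR, hQR, Θ, 1, one_ne_zero, fun x => by
        rw [hΘ, one_mul]
        rfl⟩)
  show Nat.card {C : ConjClasses ↥(Cfsg.isometryGroup F ⇑(Cfsg.Agent.Lib.Orth.Forms.plusForm m F)) //
    ∃ g : ↥(Cfsg.isometryGroup F ⇑(Cfsg.Agent.Lib.Orth.Forms.plusForm m F)), ConjClasses.mk g = C ∧ orderOf g = r} = _
  by_cases hodd : Odd (orderOf (q : ZMod r))
  · rw [if_pos hodd, hg.1 hodd, Nat.mul_div_cancel_left m (by norm_num), if_neg (by simp)]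
    simp
  · rw [if_neg hodd, hg.2 (Nat.not_odd_iff_even.mp hodd)]
    by_cases hc : orderOf (q : ZMod r) ∣ 2 * m ∧ Odd (2 * m / orderOf (q : ZMod r))
    · rw [if_pos hc, if_pos ⟨hc.1, by
        simp only [iff_true]
        exact Nat.not_even_iff_odd.mpr hc.2⟩]
    · rw [if_neg hc, if_neg (fun h => hc ⟨h.1, by
        have h1 := h.2
        simp only [iff_true] at h1
        exact Nat.not_even_iff_odd.mp h1⟩)]

end Cfsg.Agent.S2674
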