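import Cfsg.Statements.S2675
import Cfsg.Agent.Lib.SSClass.Main
-- import your own Cfsg.Agent.* helpers here

set_option autoImplicit false
open Cfsg

namespace Cfsg.Agent.S2675

/-- Number of conjugacy classes of elements of odd prime order r ≠ p in the orthogonal group O⁻_2m(q) of an elliptic form Σ_(j<m−1) x_j y_j + z₁² + a z₁z₂ + c z₂² (binary part anisotropic, m ≥ 1): with i the multiplicative order of q mod r and t = (r − 1)/i — if i is odd, C(⌊m/i⌋ + t/2, t/2) − 1 minus, when i divides m, the C(m/i + t/2 − 1, t/2 − 1) tuples filling the whole space (dual pairs of totally singular blocks fill a hyperbolic space); if i is even, C(⌊2m/i⌋ + t, t) − 1 minus, when i divides 2m with even quotient, the C(2m/i + t − 1, t − 1) tuples filling the whole space with an even number of elliptic blocks. -/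
theorem result {F : Type*} [Field F] [Fintype F] {p q : ℕ} [Fact p.Prime] [CharP F p] (hF : Fintype.card F = q) (m r i t : ℕ) (hm : 1 ≤ m) (a c : F) (hac : ∀ z₁ z₂ : F, z₁ ^ 2 + a * z₁ * z₂ + c * z₂ ^ 2 = 0 → z₁ = 0 ∧ z₂ = 0) (hr : r.Prime) (hr2 : r ≠ 2) (hrp : r ≠ p) (hi : i = orderOf (q : ZMod r)) (ht : t * i = r - 1) : Nat.card {C : ConjClasses ↥(Cfsg.isometryGroup F (Cfsg.quadFormMinus (m - 1) F a c)) // ∃ g : ↥(Cfsg.isometryGroup F (Cfsg.quadFormMinus (m - 1) F a c)), ConjClasses.mk g = C ∧ orderOf g = r} = if Odd i then Nat.choose (m / i + t / 2) (t / 2) - 1 - (if i ∣ m then Nat.choose (m / i + t / 2 - 1) (t / 2 - 1) else 0) else Nat.choose (2 * m / i + t) t - 1 - (if i ∣ 2 * m ∧ Even (2 * m / i) then Nat.choose (2 * m / i + t - 1) (t - 1) else 0) := by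
  classical
  subst hi
  obtain ⟨k, rfl⟩ : ∃ k, m = k + 1 := ⟨m - 1, by omega⟩
  have hn : Fintype.card ((Fin (k + 1 - 1) ⊕ Fin (k + 1 - 1)) ⊕ Fin 2) = 2 * (k + 1) := by
    simp
    omega
  have hnoL : ¬ Cfsg.Agent.Lib.SSClass.HasLagr (Cfsg.Agent.Lib.Orth.Forms.minusForm (k + 1 - 1) F a c) := by
    rintro ⟨U, hU, hd⟩
    exact Cfsg.Agent.Lib.Classical.OmegaForms.no_half_minus hac U hU hd.symm
  have hg := Cfsg.Agent.Lib.SSClass.main_count hF hr hr2 hrp ht (Cfsg.Agent.Lib.Orth.Forms.minusForm (k + 1 - 1) F a c)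
    (Cfsg.Agent.Lib.Orth.Forms.minusForm_nondeg (k + 1 - 1) hac) hn (by omega) False
    (fun _ => iff_false_intro hnoL) (fun h => by
      exact absurd h (by simp)) (by
      intro V₁ _ _ _ Q₁ hQ₁ d hV h2d hd
      obtain ⟨R, _, _, _, QR, hQR, Θ, hΘ⟩ := Cfsg.Agent.Lib.SSClass.glue_minus Q₁ hQ₁ (k := k + 1 - 1) hV (by omega)
        (fun h => by
          have h1 := hd (by omega)
          simpa using h1) hac
      exact ⟨R, inferInstance, inferInstance, inferInstance, QR, hQR, Θ, 1, one_ne_zero, fun x => by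
        rw [hΘ, one_mul]
        rfl⟩)
  show Nat.card {C : ConjClasses ↥(Cfsg.isometryGroup F ⇑(Cfsg.Agent.Lib.Orth.Forms.minusForm (k + 1 - 1) F a c)) //
    ∃ g : ↥(Cfsg.isometryGroup F ⇑(Cfsg.Agent.Lib.Orth.Forms.minusForm (k + 1 - 1) F a c)), ConjClasses.mk g = C ∧ orderOf g = r} = _
  by_cases hodd : Odd (orderOf (q : ZMod r))
  · rw [if_pos hodd, hg.1 hodd, Nat.mul_div_cancel_left (k + 1) (by norm_num)]
    by_cases hc : orderOf (q : ZMod r) ∣ k + 1
    · rw [if_pos hc, if_pos ⟨hc, not_false⟩]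
    · rw [if_neg hc, if_neg (fun h => hc h.1)]
  · rw [if_neg hodd, hg.2 (Nat.not_odd_iff_even.mp hodd)]
    by_cases hc : orderOf (q : ZMod r) ∣ 2 * (k + 1) ∧ Even (2 * (k + 1) / orderOf (q : ZMod r))
    · rw [if_pos hc, if_pos ⟨hc.1, by
        simp only [iff_false, not_not]
        exact hc.2⟩]
    · rw [if_neg hc, if_neg (fun h => hc ⟨h.1, by
        have h1 := h.2
        simp only [iff_false, not_not] at h1
        exact h1⟩)]

end Cfsg.Agent.S2675
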