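import Cfsg.Statements.S2676
import Cfsg.Agent.Lib.SpWall.Rel
-- import your own Cfsg.Agent.* helpers here

set_option autoImplicit false
open Classical
open Cfsg

namespace Cfsg.Agent.S2676

open Cfsg.Agent.Lib.SpWall.Rel Cfsg.Agent.Lib.SpWall.Forms Cfsg.Agent.Lib.SpWall.Real
open Cfsg.Agent.Lib.Jordan.Basis Cfsg.Agent.Lib.Jordan.Cent Cfsg.Agent.Lib.Jordan.FormsNec
open Cfsg.Agent.Lib.SpWall.Mult
open scoped Matrix

/-- The number of blocks of a multiset. -/
noncomputable def tOf (M : Multiset ℕ) : ℕ := M.toList.length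

/-- The block sizes of a multiset. -/
noncomputable def dOf (M : Multiset ℕ) : Fin (tOf M) → ℕ := M.toList.get

theorem mset_dOf (M : Multiset ℕ) : mset (dOf M) = M := by
  rw [mset, Fin.univ_val_map]
  have : List.ofFn (dOf M) = M.toList := List.ofFn_get M.toList
  rw [this]
  exact Multiset.coe_toList M

theorem dOf_mem (M : Multiset ℕ) (k : Fin (tOf M)) : dOf M k ∈ M := by
  rw [← Multiset.mem_toList]
  exact List.get_mem _ _

theorem dOf_pos (M : Multiset ℕ) (h0 : 0 ∉ M) (k : Fin (tOf M)) : 1 ≤ dOf M k := by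
  have := dOf_mem M k
  rcases Nat.eq_zero_or_pos (dOf M k) with h | h
  · rw [h] at this
    exact absurd this h0
  · exact h

theorem exists_dOf (M : Multiset ℕ) {a : ℕ} (ha : a ∈ M) : ∃ k, dOf M k = a := by
  rw [← mset_dOf M] at ha
  obtain ⟨k, -, hk⟩ := Multiset.mem_map.mp ha
  exact ⟨k, hk⟩

theorem card_Ix {t : ℕ} (d : Fin t → ℕ) : Fintype.card (Ix d) = (mset d).sum := by
  rw [Fintype.card_sigma, mset, Finset.sum]
  simp only [Fintype.card_fin]

/-- The condition on the partitions. -/
def Cond (p m : ℕ) (μ : Nat.Partition (2 * m)) : Prop :=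
  (∀ a ∈ μ.parts, a ≤ p) ∧ ∀ j : ℕ, Odd j → Even (μ.parts.count j)

theorem part_zero {m : ℕ} (μ : Nat.Partition (2 * m)) : 0 ∉ μ.parts :=
  fun h => absurd (μ.parts_pos h) (lt_irrefl 0)

section Main

variable {F : Type*} [Field F] [Fintype F] {p : ℕ} [Fact p.Prime] [CharP F p] {m : ℕ}

theorem two_ne_zero' (hp : p ≠ 2) : (2 : F) ≠ 0 := by
  intro h
  have h1 : ((2 : ℕ) : F) = 0 := by exact_mod_cast h
  rw [CharP.cast_eq_zero_iff F p] at h1
  have hp' : p.Prime := Fact.out
  exact hp ((Nat.prime_dvd_prime_iff_eq hp' Nat.prime_two).mp h1)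

/-- `g ^ p = 1` in terms of the nilpotent part. -/
theorem pow_eq_one_iff (g : Matrix.symplecticGroup (Fin m) F) : g ^ p = 1 ↔ (Nm' g.1) ^ p = 0 := by
  have h1 := pow_eq_one_of_nil (p := p) g.1 1
  rw [pow_one] at h1
  rw [Nm'_pow, h1]
  constructor
  · intro h
    have h2 : g.1 ^ p = 1 := by
      have := congrArg Subtype.val h
      simpa using this
    rw [h2, sub_self, Matrix.mulVecLin_zero]
  · intro h
    apply Subtype.ext
    have h3 : g.1 ^ p - 1 = 0 := by
      apply matrix_ext_mulVec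
      intro x
      have := LinearMap.congr_fun h x
      simpa [Matrix.sub_mulVec] using this
    have h4 : g.1 ^ p = 1 := sub_eq_zero.mp h3
    simpa using h4

theorem exists_rep (hp : p ≠ 2) (μ : {μ : Nat.Partition (2 * m) // Cond p m μ}) (τ : ℕ → Prop) :
    ∃ (g : Matrix.symplecticGroup (Fin m) F) (G : Matrix (Ix (dOf μ.1.parts)) (Ix (dOf μ.1.parts)) F),
      IsAltInv G ∧ Rel g.1 G ∧ g ^ p = 1 ∧ ∀ j, Even j → (∃ k, dOf μ.1.parts k = j) → (Sq G j ↔ τ j) := by
  obtain ⟨μ, hμ⟩ := μ
  have hd := dOf_pos μ.parts (part_zero μ)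
  have hpar : ∀ j, Odd j → Even (Finset.univ.filter (fun k => dOf μ.parts k = j)).card := by
    intro j hj
    rw [← count_mset, mset_dOf]
    exact hμ.2 j hj
  obtain ⟨G, hI, hu, ha, hs, hτ⟩ := exists_form (F := F) (two_ne_zero' hp) hd hpar τ
  have hG : IsAltInv G := ⟨hI, hu, ha, hs⟩
  have hcard : Fintype.card (Ix (dOf μ.parts)) = 2 * m := by
    rw [card_Ix, mset_dOf, μ.parts_sum]
  obtain ⟨g, hg, hrel⟩ := exists_of_form hG hcard
  obtain ⟨b, hb⟩ := rel_jordan hrel
  refine ⟨⟨g, hg⟩, G, hG, hrel, ?_, hτ⟩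
  rw [pow_eq_one_iff]
  rw [hb.pow_eq_zero_iff]
  intro k
  exact hμ.1 _ (dOf_mem _ k)

/-- The parameter of the sign data. -/
def tauOf {μ : Nat.Partition (2 * m)} (s : ↥(μ.parts.toFinset.filter (fun j : ℕ => Even j)) → Bool) (j : ℕ) : Prop :=
  ∃ h : j ∈ μ.parts.toFinset.filter (fun j : ℕ => Even j), s ⟨j, h⟩ = true

theorem mk_one_notMem (hp : p.Prime) (g : Matrix.symplecticGroup (Fin m) F) (h : ConjClasses.mk (1 : Matrix.symplecticGroup (Fin m) F) = ConjClasses.mk g)
    (hg : orderOf g = p) : False := by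
  have h1 := ConjClasses.mk_eq_mk_iff_isConj.mp h
  have h2 : g = 1 := isConj_one_right.mp h1
  rw [h2, orderOf_one] at hg
  exact hp.one_lt.ne hg

/-- The classes of elements of order dividing `p`. -/
theorem card_Y (hp : p ≠ 2) :
    Nat.card {C : ConjClasses ↥(Matrix.symplecticGroup (Fin m) F) // ∃ g : Matrix.symplecticGroup (Fin m) F, ConjClasses.mk g = C ∧ g ^ p = 1} =
    Nat.card (Σ μ : {μ : Nat.Partition (2 * m) // Cond p m μ}, (↥(μ.1.parts.toFinset.filter (fun j : ℕ => Even j)) → Bool)) := by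
  classical
  choose rep repG hG hrel hpow hsq using
    (fun (μ : {μ : Nat.Partition (2 * m) // Cond p m μ}) (τ : ℕ → Prop) => exists_rep (F := F) hp μ τ)
  let f : (Σ μ : {μ : Nat.Partition (2 * m) // Cond p m μ}, (↥(μ.1.parts.toFinset.filter (fun j : ℕ => Even j)) → Bool)) →
      {C : ConjClasses ↥(Matrix.symplecticGroup (Fin m) F) // ∃ g : Matrix.symplecticGroup (Fin m) F, ConjClasses.mk g = C ∧ g ^ p = 1} :=
    fun x => ⟨ConjClasses.mk (rep x.1 (tauOf x.2)), _, rfl, hpow _ _⟩
  have hf : Function.Bijective f := by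
    constructor
    · rintro ⟨μ, s⟩ ⟨μ', s'⟩ heq
      have h1 : ConjClasses.mk (rep μ (tauOf s)) = ConjClasses.mk (rep μ' (tauOf s')) := congrArg Subtype.val heq
      obtain ⟨c, hc⟩ := isConj_iff.mp (ConjClasses.mk_eq_mk_iff_isConj.mp h1)
      have hc' : c * rep μ (tauOf s) = rep μ' (tauOf s') * c := by rw [← hc]; group
      have hc'' : c.1 * (rep μ (tauOf s)).1 = (rep μ' (tauOf s')).1 * c.1 := congrArg Subtype.val hc'
      have hr1 := rel_of_conj (hrel μ (tauOf s)) c hc''
      have hr2 := hrel μ' (tauOf s')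
      obtain ⟨b, hb⟩ := rel_jordan hr1
      obtain ⟨b', hb'⟩ := rel_jordan hr2
      have hd := dOf_pos μ.1.parts (part_zero μ.1)
      have hd' := dOf_pos μ'.1.parts (part_zero μ'.1)
      have hm := mset_eq_of_conj hb hb' hd hd' (LinearEquiv.refl _ _) (fun _ => rfl)
      rw [mset_dOf, mset_dOf] at hm
      have hμ : μ = μ' := Subtype.ext (Nat.Partition.ext hm)
      subst hμ
      obtain ⟨c₁, hc₁u, hc₁, hc₁e⟩ := rel_unique hr1 hr2
      have hG1 := hG μ (tauOf s)
      have hss : s = s' := by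
        funext ⟨j, hj⟩
        have hj' := Finset.mem_filter.mp hj
        have hex := exists_dOf μ.1.parts (Multiset.mem_toFinset.mp hj'.1)
        have h3 := hsq μ (tauOf s) j hj'.2 hex
        have h4 := hsq μ (tauOf s') j hj'.2 hex
        have h5 := sq_congr hd hG1.1 hG1.2.1 hc₁u hc₁ j
        rw [hc₁e] at h5
        have h6 : tauOf s j ↔ tauOf s' j := h3.symm.trans (h5.symm.trans h4)
        rw [Bool.eq_iff_iff]
        constructor
        · intro h7
          obtain ⟨_, h8⟩ := h6.mp ⟨hj, h7⟩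
          exact h8
        · intro h7
          obtain ⟨_, h8⟩ := h6.mpr ⟨hj, h7⟩
          exact h8
      rw [hss]
    · rintro ⟨C, g, rfl, hg⟩
      have hN := (pow_eq_one_iff g).mp hg
      obtain ⟨t₁, d₁, b₁, hd₁, hb₁⟩ := exists_jordanBasis (Nm' g.1) ⟨p, hN⟩
      have hle := (hb₁.pow_eq_zero_iff p).mp hN
      have hsum : (mset d₁).sum = 2 * m := by
        have h1 := hb₁.sum_eq
        rw [Module.finrank_fintype_fun_eq_card] at h1
        simp only [Fintype.card_sum, Fintype.card_fin] at h1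
        rw [← card_Ix, Fintype.card_sigma]
        simp only [Fintype.card_fin]
        omega
      let μ₀ : Nat.Partition (2 * m) := ⟨mset d₁, fun {i} hi => by
        rcases Nat.eq_zero_or_pos i with h | h
        · rw [h] at hi
          exact absurd hi (zero_notMem_mset hd₁)
        · exact h, hsum⟩
      have hμ₀ : μ₀.parts = mset d₁ := rfl
      obtain ⟨G, hGa, hr⟩ := exists_rel g.2 hb₁ (d := dOf μ₀.parts) (by rw [mset_dOf])
      have hcond : Cond p m μ₀ := by
        constructor
        · intro a ha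
          have ha' : a ∈ Multiset.map d₁ Finset.univ.val := ha
          obtain ⟨k, -, rfl⟩ := Multiset.mem_map.mp ha'
          exact hle k
        · intro j hj
          have := even_count hGa j hj
          rw [← count_mset, mset_dOf] at this
          exact this
      let μ : {μ : Nat.Partition (2 * m) // Cond p m μ} := ⟨μ₀, hcond⟩
      let s : ↥(μ.1.parts.toFinset.filter (fun j : ℕ => Even j)) → Bool := fun j => decide (Sq G j.1)
      refine ⟨⟨μ, s⟩, ?_⟩
      apply Subtype.ext
      show ConjClasses.mk (rep μ (tauOf s)) = ConjClasses.mk g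
      apply ConjClasses.mk_eq_mk_iff_isConj.mpr
      have hd := dOf_pos μ.1.parts (part_zero μ.1)
      have hG' := hG μ (tauOf s)
      have hsqq : ∀ j, Even j → (Sq G j ↔ Sq (repG μ (tauOf s)) j) := by
        intro j hj
        by_cases hex : ∃ k, dOf μ.1.parts k = j
        · rw [hsq μ (tauOf s) j hj hex]
          have hmem : j ∈ μ.1.parts.toFinset.filter (fun j : ℕ => Even j) := by
            obtain ⟨k, hk⟩ := hex
            refine Finset.mem_filter.mpr ⟨Multiset.mem_toFinset.mpr ?_, hj⟩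
            rw [← hk]
            exact dOf_mem _ k
          constructor
          · intro h
            exact ⟨hmem, by simpa [s] using h⟩
          · rintro ⟨_, h⟩
            simpa [s] using h
        · have hemp : IsEmpty (Tp (dOf μ.1.parts) j) := ⟨fun k => hex ⟨k.1, k.2⟩⟩
          unfold Sq
          rw [Matrix.det_isEmpty, Matrix.det_isEmpty]
      obtain ⟨c, hcu, hc, hce⟩ := congr_of_sq hp hd hGa.1 hGa.2.1 hGa.2.2.1 hGa.2.2.2 hG'.1 hG'.2.1 hG'.2.2.1 hG'.2.2.2 hsqq
      have hr' := rel_congr hr hcu hc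
      rw [hce] at hr'
      obtain ⟨c', hc'S, hc'⟩ := rel_conj (hrel μ (tauOf s)) hr'
      refine isConj_iff.mpr ⟨⟨c', hc'S⟩, ?_⟩
      rw [mul_inv_eq_iff_eq_mul]
      exact Subtype.ext hc'
  exact (Nat.card_congr (Equiv.ofBijective f hf)).symm

end Main


/-- Number of conjugacy classes of elements of order p in Sp_2m(q), q a power of the odd prime p: the classes correspond to the signed partitions of 2m — partitions with all parts at most p in which every odd part has even multiplicity, each even part size that occurs carrying a sign — other than the all-ones partition; so the count is the sum over such partitions of 2^(number of distinct even parts), minus one. -/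
theorem result {F : Type*} [Field F] [Fintype F] {p : ℕ} [Fact p.Prime] [CharP F p] (hp : p ≠ 2) (m : ℕ) : Nat.card {C : ConjClasses ↥(Matrix.symplecticGroup (Fin m) F) // ∃ g : Matrix.symplecticGroup (Fin m) F, ConjClasses.mk g = C ∧ orderOf g = p} = (∑ μ ∈ Finset.univ.filter (fun μ : Nat.Partition (2 * m) => (∀ a ∈ μ.parts, a ≤ p) ∧ ∀ j : ℕ, Odd j → Even (μ.parts.count j)), 2 ^ ((μ.parts.toFinset.filter (fun j : ℕ => Even j)).card)) - 1 := by
  classical
  have hp' : p.Prime := Fact.out
  -- from `g ^ p = 1` to `orderOf g = p`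
  have hXY : Nat.card {C : ConjClasses ↥(Matrix.symplecticGroup (Fin m) F) // ∃ g : Matrix.symplecticGroup (Fin m) F, ConjClasses.mk g = C ∧ g ^ p = 1} =
      Nat.card {C : ConjClasses ↥(Matrix.symplecticGroup (Fin m) F) // ∃ g : Matrix.symplecticGroup (Fin m) F, ConjClasses.mk g = C ∧ orderOf g = p} + 1 := by
    let e : Option {C : ConjClasses ↥(Matrix.symplecticGroup (Fin m) F) // ∃ g : Matrix.symplecticGroup (Fin m) F, ConjClasses.mk g = C ∧ orderOf g = p} →
        {C : ConjClasses ↥(Matrix.symplecticGroup (Fin m) F) // ∃ g : Matrix.symplecticGroup (Fin m) F, ConjClasses.mk g = C ∧ g ^ p = 1} :=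
      fun o => o.elim ⟨ConjClasses.mk 1, 1, rfl, one_pow p⟩ (fun x => ⟨x.1, by
        obtain ⟨C, g, hC, hg⟩ := x
        exact ⟨g, hC, by rw [← hg]; exact pow_orderOf_eq_one g⟩⟩)
    have he : Function.Bijective e := by
      constructor
      · rintro (_ | ⟨C, g, rfl, hg⟩) (_ | ⟨D, g', rfl, hg'⟩) h
        · rfl
        · exact (mk_one_notMem hp' g' (congrArg Subtype.val h) hg').elim
        · exact (mk_one_notMem hp' g (congrArg Subtype.val h).symm hg).elim
        · have h1 : ConjClasses.mk g = ConjClasses.mk g' := congrArg Subtype.val h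
          simp only [Option.some.injEq]
          exact Subtype.ext h1
      · rintro ⟨C, g, rfl, hg⟩
        by_cases h1 : g = 1
        · subst h1
          exact ⟨none, rfl⟩
        · exact ⟨some ⟨ConjClasses.mk g, g, rfl, orderOf_eq_prime hg h1⟩, rfl⟩
    rw [← Nat.card_congr (Equiv.ofBijective e he), Finite.card_option]
  have hY := card_Y (F := F) (p := p) (m := m) hp
  have hsum : Nat.card (Σ μ : {μ : Nat.Partition (2 * m) // Cond p m μ}, (↥(μ.1.parts.toFinset.filter (fun j : ℕ => Even j)) → Bool)) =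
      ∑ μ ∈ Finset.univ.filter (fun μ : Nat.Partition (2 * m) => (∀ a ∈ μ.parts, a ≤ p) ∧ ∀ j : ℕ, Odd j → Even (μ.parts.count j)), 2 ^ ((μ.parts.toFinset.filter (fun j : ℕ => Even j)).card) := by
    rw [Finset.sum_subtype (p := Cond p m) _ (fun x => by simp [Cond])]
    rw [Nat.card_sigma]
    apply Finset.sum_congr rfl
    intro μ _
    rw [Nat.card_fun, Nat.card_eq_fintype_card (α := Bool), Fintype.card_bool, Nat.card_eq_fintype_card, Fintype.card_coe]
  rw [hXY, hsum] at hY
  omega

end Cfsg.Agent.S2676
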