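import Cfsg.Statements.S2678
import Cfsg.Agent.Lib.KS71.FieldEmb
import Mathlib
-- import your own Cfsg.Agent.* helpers here

set_option autoImplicit false
open Cfsg

namespace Cfsg.Agent.S2678

open Matrix

section Gram

variable {F K d : Type*} [Field F] [Field K] [Algebra F K] [Fintype d] [DecidableEq d]
  (b : Module.Basis d F K) (i₀ : d)

/-- The Gram matrix of the form `(x, y) ↦ λ(x y)` with `λ` a coordinate functional. -/
noncomputable def gram : Matrix d d F := Matrix.of fun u v => b.coord i₀ (b u * b v)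

theorem gram_transpose : (gram b i₀)ᵀ = gram b i₀ := by
  ext u v
  simp [gram, mul_comm]

theorem gram_mulVec (w : d → F) (u : d) :
    (gram b i₀ *ᵥ w) u = b.coord i₀ (b u * ∑ v, w v • b v) := by
  simp only [Matrix.mulVec, dotProduct, gram, Matrix.of_apply, Finset.mul_sum, map_sum]
  refine Finset.sum_congr rfl fun v _ => ?_
  rw [mul_smul_comm, map_smul, smul_eq_mul, mul_comm]

theorem gram_isUnit : IsUnit (gram b i₀) := by
  rw [← Matrix.mulVec_injective_iff_isUnit]
  show Function.Injective (gram b i₀).mulVecLin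
  rw [injective_iff_map_eq_zero]
  intro w hw
  set y : K := ∑ v, w v • b v with hy
  have h1 : ∀ u, b.coord i₀ (b u * y) = 0 := by
    intro u
    have hw' : gram b i₀ *ᵥ w = 0 := hw
    rw [← gram_mulVec, hw']
    rfl
  have h2 : ∀ x : K, b.coord i₀ (x * y) = 0 := by
    intro x
    rw [← b.sum_repr x, Finset.sum_mul, map_sum]
    refine Finset.sum_eq_zero fun u _ => ?_
    rw [smul_mul_assoc, map_smul, h1, smul_zero]
  have hy0 : y = 0 := by
    by_contra hne
    have h3 := h2 (b i₀ * y⁻¹)
    rw [mul_assoc, inv_mul_cancel₀ hne, mul_one] at h3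
    simp at h3
  have := Fintype.linearIndependent_iff.1 b.linearIndependent w hy0.symm.symm
  funext i
  exact this i

theorem leftMul_adj (x : K) :
    (Algebra.leftMulMatrix b x)ᵀ * gram b i₀ = gram b i₀ * Algebra.leftMulMatrix b x := by
  ext u v
  simp only [Matrix.mul_apply, Matrix.transpose_apply, gram, Matrix.of_apply, Algebra.leftMulMatrix_eq_repr_mul]
  have h1 : ∑ w, (b.repr (x * b u)) w * (b.coord i₀) (b w * b v) = b.coord i₀ ((x * b u) * b v) := by
    conv_rhs => rw [← b.sum_repr (x * b u), Finset.sum_mul, map_sum]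
    refine Finset.sum_congr rfl fun w _ => ?_
    rw [smul_mul_assoc, map_smul, smul_eq_mul]
  have h2 : ∑ w, (b.coord i₀) (b u * b w) * (b.repr (x * b v)) w = b.coord i₀ (b u * (x * b v)) := by
    conv_rhs => rw [← b.sum_repr (x * b v), Finset.mul_sum, map_sum]
    refine Finset.sum_congr rfl fun w _ => ?_
    rw [mul_smul_comm, map_smul, smul_eq_mul, mul_comm]
  rw [h1, h2]
  congr 1
  ring

end Gram

section Dag

variable {ι d R : Type*} [Fintype ι] [Fintype d] [DecidableEq ι] [DecidableEq d] [CommRing R]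

/-- The transpose on matrices of matrices. -/
def dag (Y : Matrix ι ι (Matrix d d R)) : Matrix ι ι (Matrix d d R) := Yᵀ.map (·ᵀ)

theorem dag_mul (X Y : Matrix ι ι (Matrix d d R)) : dag (X * Y) = dag Y * dag X := by
  refine Matrix.ext fun i j => ?_
  show ((X * Y) j i)ᵀ = (dag Y * dag X) i j
  rw [Matrix.mul_apply, Matrix.mul_apply, Matrix.transpose_sum]
  refine Finset.sum_congr rfl fun k _ => ?_
  show (X j k * Y k i)ᵀ = (Y k i)ᵀ * (X j k)ᵀ
  exact Matrix.transpose_mul _ _

theorem dag_one : dag (1 : Matrix ι ι (Matrix d d R)) = 1 := by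
  refine Matrix.ext fun i j => ?_
  show ((1 : Matrix ι ι (Matrix d d R)) j i)ᵀ = (1 : Matrix ι ι (Matrix d d R)) i j
  by_cases h : i = j
  · subst h
    simp
  · have h' : j ≠ i := fun e => h e.symm
    simp [Matrix.one_apply, h, h']

theorem dag_diagonal (D : ι → Matrix d d R) : dag (Matrix.diagonal D) = Matrix.diagonal (fun i => (D i)ᵀ) := by
  ext i j u v
  by_cases h : i = j
  · subst h
    simp [dag]
  · simp [dag, h]

/-- From matrices of matrices to matrices on a product, then reindexed. -/
def theta {Y : Type*} (e : (ι × d) ≃ Y) (M : Matrix ι ι (Matrix d d R)) : Matrix Y Y R :=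
  (Matrix.comp ι ι d d R M).submatrix e.symm e.symm

theorem theta_mul {Y : Type*} [Fintype Y] (e : (ι × d) ≃ Y) (M N : Matrix ι ι (Matrix d d R)) :
    theta e (M * N) = theta e M * theta e N := by
  have h : Matrix.comp ι ι d d R (M * N) = Matrix.comp ι ι d d R M * Matrix.comp ι ι d d R N :=
    (Matrix.compRingEquiv ι d R).map_mul M N
  simp only [theta, h]
  exact (Matrix.submatrix_mul_equiv _ _ _ _ _).symm

theorem theta_one {Y : Type*} [Fintype Y] [DecidableEq Y] (e : (ι × d) ≃ Y) :
    theta e (1 : Matrix ι ι (Matrix d d R)) = 1 := by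
  simp only [theta, Matrix.comp_one, Matrix.submatrix_one_equiv]

theorem theta_dag {Y : Type*} (e : (ι × d) ≃ Y) (M : Matrix ι ι (Matrix d d R)) :
    theta e (dag M) = (theta e M)ᵀ := rfl

theorem theta_injective {Y : Type*} (e : (ι × d) ≃ Y) : Function.Injective (theta (R := R) (ι := ι) (d := d) e) := by
  intro M N h
  have h1 : Matrix.comp ι ι d d R M = Matrix.comp ι ι d d R N := by
    ext x y
    have := congrFun (congrFun h (e x)) (e y)
    simpa [theta] using this
  exact (Matrix.comp ι ι d d R).injective h1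

end Dag

section Main

variable {F K : Type*} [Field F] [Field K] [Algebra F K] {d : Type*} [Fintype d] [DecidableEq d]
  (b : Module.Basis d F K) (i₀ : d) {l : Type*} [Fintype l] [DecidableEq l]

/-- The block-diagonal twist. -/
noncomputable def twist (T : Matrix d d F) : Matrix (l ⊕ l) (l ⊕ l) (Matrix d d F) :=
  Matrix.diagonal (Sum.elim (fun _ => 1) (fun _ => T))

theorem twist_mul (T T' : Matrix d d F) : twist (l := l) T * twist (l := l) T' = twist (l := l) (T * T') := by
  simp only [twist, Matrix.diagonal_mul_diagonal]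
  congr 1
  funext i
  cases i <;> simp

theorem twist_one : twist (l := l) (1 : Matrix d d F) = 1 := by
  simp only [twist]
  rw [← Matrix.diagonal_one]
  congr 1
  funext i
  cases i <;> simp

/-- The embedding of matrices. -/
noncomputable def Lam : Matrix (l ⊕ l) (l ⊕ l) K →+* Matrix (l ⊕ l) (l ⊕ l) (Matrix d d F) :=
  (Algebra.leftMulMatrix b).toRingHom.mapMatrix

theorem Lam_apply (A : Matrix (l ⊕ l) (l ⊕ l) K) (i j) : Lam b A i j = Algebra.leftMulMatrix b (A i j) := rfl

theorem abstract_chain {M : Type*} [Monoid M] (tS L J' H' H Lt dt dt' tS' : M)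
    (F1 : tS' * J' * dt' = J' * H') (Hh : H' * H = 1) (hA : L * J' * Lt = J')
    (F3 : tS * J' * H' * dt = J') :
    (tS * L * tS') * J' * (dt' * (H * Lt * H') * dt) = J' := by
  calc (tS * L * tS') * J' * (dt' * (H * Lt * H') * dt)
      = tS * L * (tS' * J' * dt') * (H * Lt * H') * dt := by simp only [mul_assoc]
    _ = tS * L * (J' * H') * (H * Lt * H') * dt := by rw [F1]
    _ = tS * (L * J' * (H' * H) * Lt) * H' * dt := by simp only [mul_assoc]
    _ = tS * J' * H' * dt := by rw [Hh, mul_one, hA]
    _ = J' := F3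

/-- The hat of a matrix. -/
noncomputable def Hat (T : Matrix d d F) : Matrix (l ⊕ l) (l ⊕ l) (Matrix d d F) :=
  Matrix.diagonal (fun _ => T)

theorem Hat_mul (T T' : Matrix d d F) : Hat (l := l) T * Hat (l := l) T' = Hat (l := l) (T * T') := by
  simp only [Hat, Matrix.diagonal_mul_diagonal]

theorem Hat_one : Hat (l := l) (1 : Matrix d d F) = 1 := by
  exact Matrix.diagonal_one

theorem dag_Lam (S S' : Matrix d d F) (h1 : S * S' = 1)
    (hadj : ∀ x : K, (Algebra.leftMulMatrix b x)ᵀ * S = S * Algebra.leftMulMatrix b x)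
    (A : Matrix (l ⊕ l) (l ⊕ l) K) :
    dag (Lam b A) = Hat S * Lam b Aᵀ * Hat S' := by
  refine Matrix.ext fun i j => ?_
  show (Algebra.leftMulMatrix b (A j i))ᵀ = _
  simp only [Hat, Matrix.mul_diagonal, Matrix.diagonal_mul, Lam_apply, Matrix.transpose_apply]
  calc (Algebra.leftMulMatrix b (A j i))ᵀ
      = (Algebra.leftMulMatrix b (A j i))ᵀ * (S * S') := by rw [h1, mul_one]
    _ = ((Algebra.leftMulMatrix b (A j i))ᵀ * S) * S' := by rw [Matrix.mul_assoc]
    _ = S * Algebra.leftMulMatrix b (A j i) * S' := by rw [hadj]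

theorem F3 (S S' : Matrix d d F) (h1 : S * S' = 1) (h2 : S' * S = 1) (hT : Sᵀ = S) :
    twist (l := l) S * Lam b (J l K) * Hat S' * dag (twist (l := l) S) = Lam b (J l K) := by
  rw [twist, dag_diagonal]
  refine Matrix.ext fun i j => ?_
  simp only [Hat, Matrix.mul_diagonal, Matrix.diagonal_mul, Lam_apply]
  rcases i with x | x <;> rcases j with y | y
  · simp [Matrix.J]
  · simp only [Sum.elim_inl, Sum.elim_inr, one_mul, hT, Matrix.mul_assoc, h2, mul_one]
  · simp only [Sum.elim_inl, Sum.elim_inr, Matrix.transpose_one, mul_one]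
    by_cases h : x = y
    · subst h
      simp [Matrix.J, h1]
    · simp [Matrix.J, h]
  · simp [Matrix.J]

/-- The main map at the level of matrices of matrices. -/
noncomputable def Phi (S S' : Matrix d d F) (A : Matrix (l ⊕ l) (l ⊕ l) K) :
    Matrix (l ⊕ l) (l ⊕ l) (Matrix d d F) :=
  twist S * Lam b A * twist S'

theorem Phi_mem (S S' : Matrix d d F) (h1 : S * S' = 1) (h2 : S' * S = 1) (hT : Sᵀ = S)
    (hadj : ∀ x : K, (Algebra.leftMulMatrix b x)ᵀ * S = S * Algebra.leftMulMatrix b x)
    (A : Matrix (l ⊕ l) (l ⊕ l) K) (hA : A * J l K * Aᵀ = J l K) :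
    Phi b S S' A * Lam b (J l K) * dag (Phi b S S' A) = Lam b (J l K) := by
  have hF3 := F3 b (l := l) S S' h1 h2 hT
  have htt' : twist (l := l) S' * twist (l := l) S = 1 := by rw [twist_mul, h2, twist_one]
  have hdd : dag (twist (l := l) S) * dag (twist (l := l) S') = 1 := by
    rw [← dag_mul, htt', dag_one]
  have hF1 : twist (l := l) S' * Lam b (J l K) * dag (twist (l := l) S') = Lam b (J l K) * Hat S' := by
    calc twist (l := l) S' * Lam b (J l K) * dag (twist (l := l) S')
        = twist (l := l) S' * (twist (l := l) S * Lam b (J l K) * Hat S' * dag (twist (l := l) S)) * dag (twist (l := l) S') := by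
          rw [hF3]
      _ = (twist (l := l) S' * twist (l := l) S) * (Lam b (J l K) * Hat S') * (dag (twist (l := l) S) * dag (twist (l := l) S')) := by
          simp only [mul_assoc]
      _ = Lam b (J l K) * Hat S' := by rw [htt', hdd, one_mul, mul_one]
  have hLam : Lam b A * Lam b (J l K) * Lam b Aᵀ = Lam b (J l K) := by
    rw [← map_mul, ← map_mul, hA]
  have hdag : dag (Phi b S S' A) = dag (twist (l := l) S') * (Hat S * Lam b Aᵀ * Hat S') * dag (twist (l := l) S) := by
    rw [Phi, dag_mul, dag_mul, dag_Lam b S S' h1 hadj]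
    simp only [mul_assoc]
  rw [hdag, Phi]
  exact abstract_chain _ _ _ _ _ _ _ _ _ hF1 (by rw [Hat_mul, h2, Hat_one]) hLam hF3

theorem Phi_mul (S S' : Matrix d d F) (h2 : S' * S = 1) (A B : Matrix (l ⊕ l) (l ⊕ l) K) :
    Phi b S S' (A * B) = Phi b S S' A * Phi b S S' B := by
  have htt' : twist (l := l) S' * twist (l := l) S = 1 := by rw [twist_mul, h2, twist_one]
  simp only [Phi, map_mul]
  calc twist S * (Lam b A * Lam b B) * twist S'
      = twist S * Lam b A * 1 * Lam b B * twist S' := by simp only [mul_one, mul_assoc]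
    _ = twist S * Lam b A * (twist (l := l) S' * twist (l := l) S) * Lam b B * twist S' := by rw [htt']
    _ = _ := by simp only [mul_assoc]

theorem Phi_one (S S' : Matrix d d F) (h1 : S * S' = 1) :
    Phi b S S' (1 : Matrix (l ⊕ l) (l ⊕ l) K) = 1 := by
  simp only [Phi, map_one, mul_one]
  rw [twist_mul, h1, twist_one]

theorem Phi_injective (S S' : Matrix d d F) (h2 : S' * S = 1) :
    Function.Injective (Phi (l := l) b S S') := by
  intro A B h
  have htt' : twist (l := l) S' * twist (l := l) S = 1 := by rw [twist_mul, h2, twist_one]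
  have h3 : ∀ A : Matrix (l ⊕ l) (l ⊕ l) K, twist (l := l) S' * Phi b S S' A * twist (l := l) S = Lam b A := by
    intro A
    calc twist (l := l) S' * Phi b S S' A * twist (l := l) S
        = (twist (l := l) S' * twist (l := l) S) * Lam b A * (twist (l := l) S' * twist (l := l) S) := by
          simp only [Phi, mul_assoc]
      _ = Lam b A := by rw [htt', one_mul, mul_one]
  have h4 : Lam b A = Lam b B := by rw [← h3 A, ← h3 B, h]
  refine Matrix.ext fun i j => ?_
  exact Algebra.leftMulMatrix_injective b (congrFun (congrFun h4 i) j)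

end Main

/-- Field-extension embedding of symplectic groups: for a field K with q² elements and a field F with q elements there is an injective homomorphism Sp_2a(K) → Sp_4a(F). -/
theorem result {K F : Type*} [Field K] [Fintype K] [Field F] [Fintype F] {q : ℕ} (hK : Fintype.card K = q ^ 2) (hF : Fintype.card F = q) (a : ℕ) : ∃ φ : ↥(Matrix.symplecticGroup (Fin a) K) →* ↥(Matrix.symplecticGroup (Fin (2 * a)) F), Function.Injective φ := by
  classical
  obtain ⟨i⟩ := Cfsg.Agent.Lib.KS71.FieldEmb.exists_ringHom_of_card (n := 2) hF hK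
  let _ : Algebra F K := i.toAlgebra
  have hfin : Module.finrank F K = 2 := Cfsg.Agent.Lib.KS71.FieldEmb.finrank_eq_of_card hF hK
  have : Module.Finite F K := Module.Finite.of_finite
  let b : Module.Basis (Fin 2) F K := Module.finBasisOfFinrankEq F K hfin
  let S : Matrix (Fin 2) (Fin 2) F := gram b 0
  have hU : IsUnit S.det := (Matrix.isUnit_iff_isUnit_det _).1 (gram_isUnit b 0)
  let S' : Matrix (Fin 2) (Fin 2) F := S⁻¹
  have h1 : S * S' = 1 := Matrix.mul_nonsing_inv _ hU
  have h2 : S' * S = 1 := Matrix.nonsing_inv_mul _ hU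
  have hT : Sᵀ = S := gram_transpose b 0
  have hadj : ∀ x : K, (Algebra.leftMulMatrix b x)ᵀ * S = S * Algebra.leftMulMatrix b x :=
    leftMul_adj b 0
  let f : Fin a × Fin 2 ≃ Fin (2 * a) := finProdFinEquiv.trans (finCongr (mul_comm a 2))
  let e : (Fin a ⊕ Fin a) × Fin 2 ≃ Fin (2 * a) ⊕ Fin (2 * a) :=
    (Equiv.sumProdDistrib _ _ _).trans (Equiv.sumCongr f f)
  have hJ : theta e (Lam b (J (Fin a) K)) = J (Fin (2 * a)) F := by
    refine Matrix.ext fun x y => ?_
    obtain ⟨⟨p, u⟩, rfl⟩ := e.surjective x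
    obtain ⟨⟨r, v⟩, rfl⟩ := e.surjective y
    simp only [theta, Matrix.submatrix_apply, Equiv.symm_apply_apply, Matrix.comp_apply, Lam_apply]
    rcases p with p | p <;> rcases r with r | r
    · simp [e, Matrix.J]
    · by_cases hpr : p = r
      · subst hpr
        by_cases huv : u = v
        · subst huv
          simp [e, Matrix.J]
        · simp [e, Matrix.J, huv, Matrix.one_apply]
      · simp [e, Matrix.J, hpr, Matrix.one_apply]
    · by_cases hpr : p = r
      · subst hpr
        by_cases huv : u = v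
        · subst huv
          simp [e, Matrix.J]
        · simp [e, Matrix.J, huv, Matrix.one_apply]
      · simp [e, Matrix.J, hpr, Matrix.one_apply]
    · simp [e, Matrix.J]
  have hmem : ∀ A : ↥(Matrix.symplecticGroup (Fin a) K),
      theta e (Phi b S S' (A : Matrix (Fin a ⊕ Fin a) (Fin a ⊕ Fin a) K)) ∈ Matrix.symplecticGroup (Fin (2 * a)) F := by
    intro A
    rw [SymplecticGroup.mem_iff, ← hJ, ← theta_dag, ← theta_mul, ← theta_mul,
      Phi_mem b S S' h1 h2 hT hadj _ (SymplecticGroup.mem_iff.1 A.2)]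
  refine ⟨{ toFun := fun A => ⟨theta e (Phi b S S' (A : Matrix (Fin a ⊕ Fin a) (Fin a ⊕ Fin a) K)), hmem A⟩
            map_one' := ?_
            map_mul' := ?_ }, ?_⟩
  · apply Subtype.ext
    show theta e (Phi b S S' (1 : Matrix (Fin a ⊕ Fin a) (Fin a ⊕ Fin a) K)) = 1
    rw [Phi_one b S S' h1, theta_one]
  · intro A B
    apply Subtype.ext
    show theta e (Phi b S S' ((A : Matrix (Fin a ⊕ Fin a) (Fin a ⊕ Fin a) K) * B)) = _
    rw [Phi_mul b S S' h2, theta_mul]
    rfl
  · intro A B h
    have h3 := congrArg Subtype.val h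
    apply Subtype.ext
    exact Phi_injective b S S' h2 (theta_injective e h3)

end Cfsg.Agent.S2678
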