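import Cfsg.Statements.S2679
import Cfsg.Agent.Lib.KS71.FieldEmb
import Mathlib
-- import your own Cfsg.Agent.* helpers here

set_option autoImplicit false
open Cfsg

namespace Cfsg.Agent.S2679

open Matrix
open scoped MatrixGroups

section Quad

variable {R : Type*} [Field R] (n : ℕ) (a c : R)

theorem quad_expand (t₀ t₁ : R) (x y : (Fin n ⊕ Fin n) ⊕ Fin 2 → R) :
    quadFormMinus n R a c (t₀ • x + t₁ • y) =
      t₀ ^ 2 * quadFormMinus n R a c x +
        t₀ * t₁ * (quadFormMinus n R a c (x + y) - quadFormMinus n R a c x - quadFormMinus n R a c y) +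
        t₁ ^ 2 * quadFormMinus n R a c y := by
  simp only [quadFormMinus, Pi.add_apply, Pi.smul_apply, smul_eq_mul]
  have hsum : ∑ i : Fin n, (t₀ * x (Sum.inl (Sum.inl i)) + t₁ * y (Sum.inl (Sum.inl i))) *
        (t₀ * x (Sum.inl (Sum.inr i)) + t₁ * y (Sum.inl (Sum.inr i))) =
      t₀ ^ 2 * ∑ i : Fin n, x (Sum.inl (Sum.inl i)) * x (Sum.inl (Sum.inr i)) +
        t₀ * t₁ * (∑ i : Fin n, (x (Sum.inl (Sum.inl i)) + y (Sum.inl (Sum.inl i))) * (x (Sum.inl (Sum.inr i)) + y (Sum.inl (Sum.inr i)))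
          - ∑ i : Fin n, x (Sum.inl (Sum.inl i)) * x (Sum.inl (Sum.inr i))
          - ∑ i : Fin n, y (Sum.inl (Sum.inl i)) * y (Sum.inl (Sum.inr i))) +
        t₁ ^ 2 * ∑ i : Fin n, y (Sum.inl (Sum.inl i)) * y (Sum.inl (Sum.inr i)) := by
    simp only [Finset.mul_sum, ← Finset.sum_add_distrib, ← Finset.sum_sub_distrib]
    refine Finset.sum_congr rfl fun i _ => ?_
    ring
  rw [hsum]
  ring

end Quad

section Map

variable {F K : Type*} [Field F] [Field K] (ι : F →+* K) (n : ℕ) (a c : F)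

theorem quad_map (x : (Fin n ⊕ Fin n) ⊕ Fin 2 → F) :
    quadFormMinus n K (ι a) (ι c) (fun s => ι (x s)) = ι (quadFormMinus n F a c x) := by
  simp [quadFormMinus, map_sum]

end Map

section Core

variable {F K : Type*} [Field F] [Field K] [Algebra F K] {d : Type*} [Fintype d]

/-- Isometries over `F` stay isometries over the extension `K`. -/
theorem isometry_extend [Fintype F] [Fintype K] (b : Module.Basis (Fin 2) F K) (n : ℕ) (a c : F)
    (g : Matrix ((Fin n ⊕ Fin n) ⊕ Fin 2) ((Fin n ⊕ Fin n) ⊕ Fin 2) F)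
    (hg : ∀ x, quadFormMinus n F a c (g *ᵥ x) = quadFormMinus n F a c x)
    (v : (Fin n ⊕ Fin n) ⊕ Fin 2 → K) :
    quadFormMinus n K (algebraMap F K a) (algebraMap F K c) ((g.map (algebraMap F K)) *ᵥ v) =
      quadFormMinus n K (algebraMap F K a) (algebraMap F K c) v := by
  classical
  set ι := algebraMap F K with hι
  -- decompose `v`
  let u : Fin 2 → ((Fin n ⊕ Fin n) ⊕ Fin 2 → F) := fun k s => b.repr (v s) k
  have hv : v = b 0 • (fun s => ι (u 0 s)) + b 1 • (fun s => ι (u 1 s)) := by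
    funext s
    have h1 := b.sum_repr (v s)
    rw [Fin.sum_univ_two] at h1
    simp only [Pi.add_apply, Pi.smul_apply, smul_eq_mul, u]
    conv_lhs => rw [← h1]
    simp only [Algebra.smul_def, hι]
    ring
  have hmap : ∀ x : (Fin n ⊕ Fin n) ⊕ Fin 2 → F, (g.map ι) *ᵥ (fun s => ι (x s)) = fun s => ι ((g *ᵥ x) s) := by
    intro x
    funext s
    simp [Matrix.mulVec, dotProduct, map_sum]
  have hmv : (g.map ι) *ᵥ v = b 0 • (fun s => ι ((g *ᵥ u 0) s)) + b 1 • (fun s => ι ((g *ᵥ u 1) s)) := by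
    conv_lhs => rw [hv]
    rw [Matrix.mulVec_add, Matrix.mulVec_smul, Matrix.mulVec_smul, hmap, hmap]
  have hadd : ∀ x y : (Fin n ⊕ Fin n) ⊕ Fin 2 → F,
      (fun s => ι (x s)) + (fun s => ι (y s)) = fun s => ι ((x + y) s) := by
    intro x y
    funext s
    simp
  conv_rhs => rw [hv]
  rw [hmv, quad_expand, quad_expand, hadd, hadd, quad_map, quad_map, quad_map, quad_map, quad_map, quad_map,
    hg, hg, ← Matrix.mulVec_add, hg]

end Core

section ChangeVar

variable {K : Type*} [Field K] (n : ℕ) (α α' : K)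

/-- The change of variables turning the binary part into a product of two linear forms. -/
def Pfun (v : (Fin n ⊕ Fin n) ⊕ Fin 2 → K) : Fin (n + 1) ⊕ Fin (n + 1) → K
  | Sum.inl i => Fin.lastCases (motive := fun _ => K) (v (Sum.inr 0) - α * v (Sum.inr 1))
      (fun j => v (Sum.inl (Sum.inl j))) i
  | Sum.inr i => Fin.lastCases (motive := fun _ => K) (v (Sum.inr 0) - α' * v (Sum.inr 1))
      (fun j => v (Sum.inl (Sum.inr j))) i

/-- The change of variables as a linear map. -/
def P : ((Fin n ⊕ Fin n) ⊕ Fin 2 → K) →ₗ[K] (Fin (n + 1) ⊕ Fin (n + 1) → K) where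
  toFun := Pfun n α α'
  map_add' u v := by
    funext z
    rcases z with i | i <;> refine Fin.lastCases ?_ (fun j => ?_) i <;> simp [Pfun] <;> ring
  map_smul' c v := by
    funext z
    rcases z with i | i <;> refine Fin.lastCases ?_ (fun j => ?_) i <;> simp [Pfun] <;> ring

theorem P_apply_inl_last (v) : P n α α' v (Sum.inl (Fin.last n)) = v (Sum.inr 0) - α * v (Sum.inr 1) := by
  simp [P, Pfun]

theorem P_apply_inr_last (v) : P n α α' v (Sum.inr (Fin.last n)) = v (Sum.inr 0) - α' * v (Sum.inr 1) := by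
  simp [P, Pfun]

theorem P_apply_inl_castSucc (v) (j : Fin n) : P n α α' v (Sum.inl j.castSucc) = v (Sum.inl (Sum.inl j)) := by
  simp [P, Pfun]

theorem P_apply_inr_castSucc (v) (j : Fin n) : P n α α' v (Sum.inr j.castSucc) = v (Sum.inl (Sum.inr j)) := by
  simp [P, Pfun]

theorem quad_P (a c : K) (hs : α + α' = -a) (hp : α * α' = c) (v : (Fin n ⊕ Fin n) ⊕ Fin 2 → K) :
    quadFormPlus (n + 1) K (P n α α' v) = quadFormMinus n K a c v := by
  simp only [quadFormPlus, quadFormMinus, Fin.sum_univ_castSucc, P_apply_inl_castSucc, P_apply_inr_castSucc,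
    P_apply_inl_last, P_apply_inr_last]
  congr 1
  have h1 : a = -(α + α') := by rw [hs]; ring
  rw [h1, ← hp]
  ring

theorem P_injective (hne : α ≠ α') : Function.Injective (P n α α') := by
  rw [injective_iff_map_eq_zero]
  intro v hv
  have h1 : v (Sum.inr 0) - α * v (Sum.inr 1) = 0 := by
    rw [← P_apply_inl_last n α α', hv]; rfl
  have h2 : v (Sum.inr 0) - α' * v (Sum.inr 1) = 0 := by
    rw [← P_apply_inr_last n α α', hv]; rfl
  have h3 : (α - α') * v (Sum.inr 1) = 0 := by linear_combination h2 - h1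
  have h4 : v (Sum.inr 1) = 0 := by
    rcases mul_eq_zero.1 h3 with h | h
    · exact absurd (sub_eq_zero.1 h) hne
    · exact h
  have h5 : v (Sum.inr 0) = 0 := by
    rw [h4, mul_zero, sub_zero] at h1
    exact h1
  funext s
  rcases s with (j | j) | k
  · exact (P_apply_inl_castSucc n α α' v j).symm.trans (by rw [hv]; rfl)
  · exact (P_apply_inr_castSucc n α α' v j).symm.trans (by rw [hv]; rfl)
  · fin_cases k
    · exact h5
    · exact h4

end ChangeVar

theorem mem_isometry_iff {K : Type*} {Z : Type} [Field K] [Fintype Z] [DecidableEq Z] (Q : (Z → K) → K) (h : GL Z K) :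
    h ∈ Cfsg.isometryGroup K Q ↔ ∀ u, Q ((h : Matrix Z Z K) *ᵥ u) = Q u :=
  ⟨fun hh u => hh u u, fun hh u _ => hh u⟩

section ConjGL

variable {K Y Z : Type*} [Field K] [Fintype Y] [Fintype Z] [DecidableEq Y] [DecidableEq Z]
  (Pm : Matrix Z Y K) (Pi : Matrix Y Z K) (h1 : Pm * Pi = 1) (h2 : Pi * Pm = 1)

/-- Conjugation by a change of basis, as a homomorphism of general linear groups. -/
def conjGL : GL Y K →* GL Z K where
  toFun h := ⟨Pm * (h : Matrix Y Y K) * Pi, Pm * ((h⁻¹ : GL Y K) : Matrix Y Y K) * Pi, by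
      calc Pm * (h : Matrix Y Y K) * Pi * (Pm * ((h⁻¹ : GL Y K) : Matrix Y Y K) * Pi)
          = Pm * (h : Matrix Y Y K) * (Pi * Pm) * ((h⁻¹ : GL Y K) : Matrix Y Y K) * Pi := by
            simp only [Matrix.mul_assoc]
        _ = Pm * ((h : Matrix Y Y K) * ((h⁻¹ : GL Y K) : Matrix Y Y K)) * Pi := by
            rw [h2, Matrix.mul_one, Matrix.mul_assoc Pm]
        _ = 1 := by
            rw [← Units.val_mul, mul_inv_cancel, Units.val_one, Matrix.mul_one, h1], by
      calc Pm * ((h⁻¹ : GL Y K) : Matrix Y Y K) * Pi * (Pm * (h : Matrix Y Y K) * Pi)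
          = Pm * ((h⁻¹ : GL Y K) : Matrix Y Y K) * (Pi * Pm) * (h : Matrix Y Y K) * Pi := by
            simp only [Matrix.mul_assoc]
        _ = Pm * (((h⁻¹ : GL Y K) : Matrix Y Y K) * (h : Matrix Y Y K)) * Pi := by
            rw [h2, Matrix.mul_one, Matrix.mul_assoc Pm]
        _ = 1 := by
            rw [← Units.val_mul, inv_mul_cancel, Units.val_one, Matrix.mul_one, h1]⟩
  map_one' := by
    apply Units.ext
    show Pm * ((1 : GL Y K) : Matrix Y Y K) * Pi = 1
    rw [Units.val_one, Matrix.mul_one, h1]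
  map_mul' a b := by
    apply Units.ext
    show Pm * ((a * b : GL Y K) : Matrix Y Y K) * Pi = (Pm * (a : Matrix Y Y K) * Pi) * (Pm * (b : Matrix Y Y K) * Pi)
    calc Pm * ((a * b : GL Y K) : Matrix Y Y K) * Pi
        = Pm * (a : Matrix Y Y K) * (b : Matrix Y Y K) * Pi := by
          simp only [Units.val_mul, Matrix.mul_assoc]
      _ = Pm * (a : Matrix Y Y K) * (Pi * Pm) * (b : Matrix Y Y K) * Pi := by
          rw [h2, Matrix.mul_one]
      _ = _ := by simp only [Matrix.mul_assoc]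

theorem conjGL_coe (h : GL Y K) : ((conjGL Pm Pi h1 h2 h : GL Z K) : Matrix Z Z K) = Pm * (h : Matrix Y Y K) * Pi := rfl

theorem conjGL_injective : Function.Injective (conjGL Pm Pi h1 h2) := by
  intro a b hab
  apply Units.ext
  have h3 : Pm * (a : Matrix Y Y K) * Pi = Pm * (b : Matrix Y Y K) * Pi := congrArg Units.val hab
  calc (a : Matrix Y Y K) = (Pi * Pm) * (a : Matrix Y Y K) * (Pi * Pm) := by rw [h2, Matrix.one_mul, Matrix.mul_one]
    _ = Pi * (Pm * (a : Matrix Y Y K) * Pi) * Pm := by simp only [Matrix.mul_assoc]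
    _ = Pi * (Pm * (b : Matrix Y Y K) * Pi) * Pm := by rw [h3]
    _ = (Pi * Pm) * (b : Matrix Y Y K) * (Pi * Pm) := by simp only [Matrix.mul_assoc]
    _ = (b : Matrix Y Y K) := by rw [h2, Matrix.one_mul, Matrix.mul_one]

end ConjGL

/-- An elliptic orthogonal group embeds in the hyperbolic orthogonal group of the same dimension over the quadratic extension: for a field F with q elements and a field K with q² elements there is an injective homomorphism from O⁻_2m(F) (isometries of Σ_(j<m−1) x_j y_j + z₁² + a z₁z₂ + c z₂², binary part anisotropic) to O⁺_2m(K) (isometries of Σ_(j<m) x_j y_j over K). -/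
theorem result {F K : Type*} [Field F] [Fintype F] [Field K] [Fintype K] {q : ℕ} (hF : Fintype.card F = q) (hK : Fintype.card K = q ^ 2) {m : ℕ} (hm : 1 ≤ m) (a c : F) (hac : ∀ z₁ z₂ : F, z₁ ^ 2 + a * z₁ * z₂ + c * z₂ ^ 2 = 0 → z₁ = 0 ∧ z₂ = 0) : ∃ φ : ↥(Cfsg.isometryGroup F (Cfsg.quadFormMinus (m - 1) F a c)) →* ↥(Cfsg.isometryGroup K (Cfsg.quadFormPlus m K)), Function.Injective φ := by
  classical
  obtain ⟨n, rfl⟩ : ∃ n, m = n + 1 := ⟨m - 1, by omega⟩
  show ∃ φ : ↥(Cfsg.isometryGroup F (Cfsg.quadFormMinus n F a c)) →* ↥(Cfsg.isometryGroup K (Cfsg.quadFormPlus (n + 1) K)), Function.Injective φ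
  obtain ⟨i⟩ := Cfsg.Agent.Lib.KS71.FieldEmb.exists_ringHom_of_card (n := 2) hF hK
  let _ : Algebra F K := i.toAlgebra
  have hfin : Module.finrank F K = 2 := Cfsg.Agent.Lib.KS71.FieldEmb.finrank_eq_of_card hF hK
  have : Module.Finite F K := Module.Finite.of_finite
  let b : Module.Basis (Fin 2) F K := Module.finBasisOfFinrankEq F K hfin
  obtain ⟨α, hα1, hα2⟩ := Cfsg.Agent.Lib.KS71.FieldEmb.exists_root_of_anisotropic hF hK a c hac
  set ι := algebraMap F K with hι
  let α' : K := -ι a - α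
  have hs : α + α' = -ι a := by simp [α']
  have hp : α * α' = ι c := by
    simp only [α']
    linear_combination -hα1
  have hne : α ≠ α' := by
    intro h
    apply hα2
    have : α' = α := h.symm
    simp only [α'] at this
    linear_combination -this
  let E := LinearMap.linearEquivOfInjective (P n α α') (P_injective n α α' hne) (by
    simp only [Module.finrank_fintype_fun_eq_card, Fintype.card_sum, Fintype.card_fin]
    omega)
  have hE : ∀ v, E v = P n α α' v := fun v => rfl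
  let Pm := LinearMap.toMatrix' E.toLinearMap
  let Pi := LinearMap.toMatrix' E.symm.toLinearMap
  have h1 : Pm * Pi = 1 := by
    rw [← LinearMap.toMatrix'_comp, ← LinearMap.toMatrix'_id]
    congr 1
    ext x
    simp
  have h2 : Pi * Pm = 1 := by
    rw [← LinearMap.toMatrix'_comp, ← LinearMap.toMatrix'_id]
    congr 1
    ext x
    simp
  have hPm : ∀ v, Pm *ᵥ v = E v := fun v => LinearMap.toMatrix'_mulVec _ _
  have hPi : ∀ v, Pi *ᵥ v = E.symm v := fun v => LinearMap.toMatrix'_mulVec _ _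
  let Φ : GL ((Fin n ⊕ Fin n) ⊕ Fin 2) F →* GL (Fin (n + 1) ⊕ Fin (n + 1)) K :=
    (conjGL Pm Pi h1 h2).comp (Matrix.GeneralLinearGroup.map ι)
  have hcoe : ∀ g : GL ((Fin n ⊕ Fin n) ⊕ Fin 2) F, ((Φ g : GL (Fin (n + 1) ⊕ Fin (n + 1)) K) : Matrix (Fin (n + 1) ⊕ Fin (n + 1)) (Fin (n + 1) ⊕ Fin (n + 1)) K) = Pm * ((g : Matrix ((Fin n ⊕ Fin n) ⊕ Fin 2) ((Fin n ⊕ Fin n) ⊕ Fin 2) F).map ι) * Pi :=
    fun g => rfl
  have hΦ : ∀ g ∈ Cfsg.isometryGroup F (Cfsg.quadFormMinus n F a c),
      Φ g ∈ Cfsg.isometryGroup K (Cfsg.quadFormPlus (n + 1) K) := by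
    intro g hg
    rw [mem_isometry_iff] at hg ⊢
    intro u
    rw [hcoe, ← Matrix.mulVec_mulVec, ← Matrix.mulVec_mulVec, hPm, hPi, hE, quad_P n α α' _ _ hs hp,
      isometry_extend b n a c _ hg]
    rw [← quad_P n α α' _ _ hs hp, ← hE, LinearEquiv.apply_symm_apply]
  refine ⟨(Φ.comp (Cfsg.isometryGroup F (Cfsg.quadFormMinus n F a c)).subtype).codRestrict _ (fun g => hΦ g g.2), ?_⟩
  intro g g' h
  have h3 : Φ g = Φ g' := congrArg Subtype.val h
  have h4 := conjGL_injective Pm Pi h1 h2 h3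
  apply Subtype.ext
  apply Units.ext
  refine Matrix.ext fun s t => ?_
  have h5 := congrArg (fun z : GL ((Fin n ⊕ Fin n) ⊕ Fin 2) K => (z : Matrix _ _ K) s t) h4
  exact ι.injective h5

end Cfsg.Agent.S2679
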