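import Cfsg.Statements.S2681
import Cfsg.Agent.Lib.Inv2.CentSp

set_option autoImplicit false
open Cfsg

namespace Cfsg.Agent.S2681

/-- Centraliser order of an involution t of Sp_2m(q), q even, with s = rank(t − 1) even and f(v, tv) = 0 for every v, f the symplectic form (type a_s): |C(t)| = q^(2ms − (3s² − s)/2) · |Sp_s(q)| · |Sp_(2m−2s)(q)|. -/
theorem result {F : Type*} [Field F] [Fintype F] [CharP F 2] {q : ℕ} (hF : Fintype.card F = q) {m s : ℕ} (t : Matrix.symplecticGroup (Fin m) F) (ht : t ^ 2 = 1) (ht1 : t ≠ 1) (hs : ((t : Matrix (Fin m ⊕ Fin m) (Fin m ⊕ Fin m) F) - 1).rank = s) (heven : Even s) (halt : ∀ v : Fin m ⊕ Fin m → F, Cfsg.sympForm m F v ((t : Matrix (Fin m ⊕ Fin m) (Fin m ⊕ Fin m) F).mulVec v) = 0) : Nat.card ↥(Subgroup.centralizer ({t} : Set ↥(Matrix.symplecticGroup (Fin m) F))) = q ^ (2 * m * s - (3 * s ^ 2 - s) / 2) * ((q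 : ℕ) ^ ((s / 2) ^ 2) * ∏ i : Fin (s / 2), (q ^ (2 * ((i : ℕ) + 1)) - 1)) * ((q : ℕ) ^ ((m - s) ^ 2) * ∏ i : Fin (m - s), (q ^ (2 * ((i : ℕ) + 1)) - 1)) := by
  obtain ⟨r, rfl⟩ := heven
  have hpos := Cfsg.Agent.Lib.Inv2.CentSp.rank_pos_of_ne t ht1
  rw [hs] at hpos
  obtain ⟨k, rfl⟩ : ∃ k, r = k + 1 := ⟨r - 1, by omega⟩
  have h2 : k + 1 + (k + 1) = 2 * (k + 1) := by ring
  rw [h2] at hs ⊢
  obtain ⟨hle, hc⟩ := Cfsg.Agent.Lib.Inv2.CentSp.mat_alt hF t ht hs halt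
  rw [hc]
  have h1 : 2 * (k + 1) / 2 = k + 1 := by omega
  rw [h1, Cfsg.Agent.Lib.Inv2.CentSp.spnum_eq_fin, Cfsg.Agent.Lib.Inv2.CentSp.spnum_eq_fin]

end Cfsg.Agent.S2681
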