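import Cfsg.Statements.S2682
import Cfsg.Agent.Lib.Inv2.CentSp

set_option autoImplicit false
open Cfsg

namespace Cfsg.Agent.S2682

/-- Centraliser order of an involution t of Sp_2m(q), q even, with s = rank(t − 1) even and f(v, tv) ≠ 0 for some v, f the symplectic form (type c_s): |C(t)| = q^(2ms − (3s² − 3s)/2 − 1) · |Sp_(s−2)(q)| · |Sp_(2m−2s)(q)|. -/
theorem result {F : Type*} [Field F] [Fintype F] [CharP F 2] {q : ℕ} (hF : Fintype.card F = q) {m s : ℕ} (t : Matrix.symplecticGroup (Fin m) F) (ht : t ^ 2 = 1) (hs : ((t : Matrix (Fin m ⊕ Fin m) (Fin m ⊕ Fin m) F) - 1).rank = s) (heven : Even s) (hna : ∃ v : Fin m ⊕ Fin m → F, Cfsg.sympForm m F v ((t : Matrix (Fin m ⊕ Fin m) (Fin m ⊕ Fin m) F).mulVec v) ≠ 0) : Nat.card ↥(Subgroup.centralizer ({t} : Set ↥(Matrix.symplecticGroup (Fin m) F))) = q ^ (2 * m * s - (3 * s ^ 2 - 3 * s) / 2 - 1) * ((q : ℕ) ^ (((s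 - 2) / 2) ^ 2) * ∏ i : Fin ((s - 2) / 2), (q ^ (2 * ((i : ℕ) + 1)) - 1)) * ((q : ℕ) ^ ((m - s) ^ 2) * ∏ i : Fin (m - s), (q ^ (2 * ((i : ℕ) + 1)) - 1)) := by
  obtain ⟨r, rfl⟩ := heven
  have hpos := Cfsg.Agent.Lib.Inv2.CentSp.rank_pos_of_nonalt t hna
  rw [hs] at hpos
  obtain ⟨k, rfl⟩ : ∃ k, r = k + 1 := ⟨r - 1, by omega⟩
  have h2 : k + 1 + (k + 1) = (2 * k + 1) + 1 := by ring
  rw [h2] at hs ⊢
  obtain ⟨hle, hc⟩ := Cfsg.Agent.Lib.Inv2.CentSp.mat_nonalt hF t ht hs hna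
  rw [hc]
  have h3 : 2 * k + 1 + 1 = 2 * k + 2 := by ring
  rw [h3] at hle ⊢
  rw [Cfsg.Agent.Lib.Inv2.FormCount.onum_even, Cfsg.Agent.Lib.Inv2.FormCount.onum_odd q k (by rw [← hF]; exact Fintype.card_pos)]
  have h1 : (2 * k + 2 - 2) / 2 = k := by omega
  rw [h1, Cfsg.Agent.Lib.Inv2.CentSp.spnum_eq_fin, Cfsg.Agent.Lib.Inv2.CentSp.spnum_eq_fin]
  have hexp : 2 * m * (2 * k + 2) - (3 * (2 * k + 2) ^ 2 - 3 * (2 * k + 2)) / 2 - 1 =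
      (2 * m * (2 * k + 2) - (3 * (2 * k + 2) ^ 2 - (2 * k + 2)) / 2) + (2 * k + 1) := by
    have ha : (2 * k + 2) ^ 2 = 2 * (2 * (k + 1) ^ 2) := by ring
    have hb : 2 * k + 2 ≤ (2 * k + 2) ^ 2 := Nat.le_self_pow (by norm_num) _
    have hc2 : (2 * k + 2) ^ 2 ≤ m * (2 * k + 2) := by
      rw [pow_two]
      exact Nat.mul_le_mul_right _ hle
    have hd : 2 * m * (2 * k + 2) = 2 * (m * (2 * k + 2)) := by ring
    rw [hd]
    generalize m * (2 * k + 2) = M at *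
    rw [ha] at hb hc2 ⊢
    generalize (k + 1) ^ 2 = A at *
    omega
  rw [hexp, pow_add]
  ring

end Cfsg.Agent.S2682
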