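import Cfsg.Statements.S2703
import Cfsg.Agent.Lib.GraphInv.PSLGam

set_option autoImplicit false
open Cfsg

namespace Cfsg.Agent.S2703

/-- Let T = PSL_n(F) over the field with q elements, q odd, n = 2m ≥ 4 even, and ι the inverse-transpose automorphism. Its centralizer in G = Inndiag(T) (the image of PGL_n(F)) is isomorphic to the projective conformal orthogonal group of the plus-type form Σ xᵢ yᵢ in dimension n when n(q − 1)/4 is even, and to that of a minus-type form (Σ xᵢ yᵢ + z₁² + a z₁ z₂ + b z₂² with anisotropic binary part) when n(q − 1)/4 is odd. -/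
theorem result {F : Type*} [Field F] [Fintype F] (hodd : Odd (Fintype.card F)) {n m : ℕ} (hm : 2 ≤ m) (hnm : n = 2 * m) (ι : MulAut (Matrix.ProjectiveSpecialLinearGroup (Fin n) F)) (hι : Cfsg.IsInverseTransposeAutPSL ι) :
    (Even (n * (Fintype.card F - 1) / 4) → Nonempty (↥(Cfsg.inndiagPSL n F ⊓ Subgroup.centralizer {ι}) ≃* Cfsg.PGO F (Cfsg.quadFormPlus m F))) ∧ (¬ Even (n * (Fintype.card F - 1) / 4) → ∃ a b : F, (∀ z₁ z₂ : F, z₁ ^ 2 + a * z₁ * z₂ + b * z₂ ^ 2 = 0 → z₁ = 0 ∧ z₂ = 0) ∧ Nonempty (↥(Cfsg.inndiagPSL n F ⊓ Subgroup.centralizer {ι}) ≃* Cfsg.PGO F (Cfsg.quadFormMinus (m - 1) F a b))) := by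
  classical
  have hn : 3 ≤ n := by omega
  have hι' : ι = Cfsg.Agent.Lib.GraphInv.PSLGam.gam (1 : GL (Fin n) F) := by
    rw [Cfsg.Agent.Lib.KS71.PSLAutGroup.eq_invTr_of_isInvTr hι]
    unfold Cfsg.Agent.Lib.GraphInv.PSLGam.gam
    simp
  subst hι'
  obtain ⟨e1⟩ := Cfsg.Agent.Lib.GraphInv.PSLGam.cent_iso (n := n) (by omega) (1 : GL (Fin n) F)
  have h2 := Cfsg.Agent.Lib.GraphInv.Model.two_ne_of_odd hodd
  have hone : ((1 : GL (Fin n) F) : Matrix (Fin n) (Fin n) F) = 1 := rfl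
  rw [hone] at e1
  obtain ⟨r, hr⟩ := hodd
  set q := Fintype.card F with hq
  have hdiv : n * (q - 1) / 4 = m * r := by
    apply Nat.div_eq_of_eq_mul_left (by norm_num)
    rw [hnm, hr]
    have : 2 * r + 1 - 1 = 2 * r := by omega
    rw [this]
    ring
  rw [hdiv, Nat.even_mul]
  have hc : Fintype.card (Fin n) = 2 * m := by simp [hnm]
  have hneg : IsSquare (-1 : F) ↔ q % 4 ≠ 3 := FiniteField.isSquare_neg_one_iff
  refine ⟨fun hev => ?_, fun hev => ?_⟩
  · have hsq : IsSquare ((1 : Matrix (Fin n) (Fin n) F).det * (-1) ^ m) := by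
      rw [Matrix.det_one, one_mul]
      rcases hev with hm' | hm'
      · rw [hm'.neg_one_pow]
        exact IsSquare.one
      · refine IsSquare.pow m (hneg.2 ?_)
        obtain ⟨t, ht⟩ := hm'
        omega
    obtain ⟨e2⟩ := Cfsg.Agent.Lib.GraphInv.Sim.Cong.proj
      (Cfsg.Agent.Lib.GraphInv.Forms.cong_Gp h2 (Matrix.transpose_one) (by simp) hc hsq)
    obtain ⟨e3⟩ := Cfsg.Agent.Lib.GraphInv.Forms.proj_Gp h2 m
    exact ⟨e1.trans (e2.trans e3)⟩
  · rw [not_or, Nat.not_even_iff_odd, Nat.not_even_iff_odd] at hev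
    obtain ⟨hmo, hro⟩ := hev
    obtain ⟨m', rfl⟩ : ∃ m', m = m' + 1 := ⟨m - 1, by omega⟩
    obtain ⟨ν, hν⟩ := FiniteField.exists_nonsquare (F := F) (fun h => h2 (by
      haveI : CharP F 2 := by
        have := ringChar.charP F
        rwa [h] at this
      exact Cfsg.Agent.Lib.GraphInv.Char2A.two_zero))
    refine ⟨0, -ν, Cfsg.Agent.Lib.GraphInv.Forms.aniso hν, ?_⟩
    have hsq : ¬ IsSquare ((1 : Matrix (Fin n) (Fin n) F).det * (-1) ^ (m' + 1)) := by
      rw [Matrix.det_one, one_mul, hmo.neg_one_pow, hneg]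
      obtain ⟨t, ht⟩ := hro
      omega
    obtain ⟨e2⟩ := Cfsg.Agent.Lib.GraphInv.Sim.Cong.proj
      (Cfsg.Agent.Lib.GraphInv.Forms.cong_Gm h2 (Matrix.transpose_one) (by simp) (by omega) hν hsq)
    obtain ⟨e3⟩ := Cfsg.Agent.Lib.GraphInv.Forms.proj_Gm h2 m' ν
    exact ⟨e1.trans (e2.trans e3)⟩

end Cfsg.Agent.S2703
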