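import Cfsg.Statements.S2710
import Cfsg.Agent.Lib.GraphInv.PSURep

set_option autoImplicit false
open Cfsg

namespace Cfsg.Agent.S2710

/-- Let T = PSU_n(q) with n ≥ 4 divisible by 4 (n = 2m) and q odd, realised over the field F with q² elements, G = Inndiag(T) the image of PGU_n(q), and φ the standard field automorphism of T attached to the q-th power map of F (it induces inverse-transpose on the unitary matrices and is a graph automorphism). Its centralizer in G is isomorphic to the projective conformal orthogonal group of the plus-type form Σ xᵢ yᵢ in dimension n over a field F₀ with q elements. (Dimensions n ≡ 2 (mod 4) are not covered.) -/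
theorem result {F : Type*} [Field F] [Fintype F] {q : ℕ} (hodd : Odd q) (hF : Fintype.card F = q ^ 2) {n m : ℕ} (hm : 2 ≤ m) (hnm : n = 2 * m) (h4 : 4 ∣ n) (F₀ : Type*) [Field F₀] [Fintype F₀] (hF₀ : Fintype.card F₀ = q) (σ : F ≃+* F) (hσ : ∀ a : F, σ a = a ^ q) (φ : MulAut (Cfsg.PSU n F q)) (hφ : Cfsg.IsFieldAutPSUOf σ φ) :
    Nonempty (↥(Cfsg.inndiagPSU n F q ⊓ Subgroup.centralizer {φ}) ≃* Cfsg.PGO F₀ (Cfsg.quadFormPlus m F₀)) := by
  classical
  obtain ⟨ι₀, C⟩ := Cfsg.Agent.Lib.GraphInv.PSURep.exists_ctx_of hF hF₀ σ hσ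
  have hn : 3 ≤ n := by omega
  have hφ' := Cfsg.Agent.Lib.AutCl.PSUField.eq_Th_of_isField hF n hφ
  have R : Cfsg.Agent.Lib.GraphInv.PSURep.Rep σ ι₀ (1 : GL (Fin n) F) (1 : GL (Fin n) F₀) (1 : GL (Fin n) F) 1 1 1 := by
    refine ⟨Or.inl rfl, by simp, by simp, one_ne_zero, ?_, ?_⟩
    · simp [Cfsg.Agent.Lib.GraphInv.PSURep.map_one_τ]
    · simp [Cfsg.Agent.Lib.GraphInv.PSURep.map_one_τ]
  obtain ⟨e1⟩ := Cfsg.Agent.Lib.GraphInv.PSURep.cent_iso C hn R
  subst hφ'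
  have hone : ((1 : GL (Fin n) F₀) : Matrix (Fin n) (Fin n) F₀) = 1 := rfl
  rw [hone] at e1
  have h2 : (2 : F₀) ≠ 0 := Cfsg.Agent.Lib.GraphInv.Model.two_ne_of_odd (by rw [hF₀]; exact hodd)
  have hc : Fintype.card (Fin n) = 2 * m := by simp [hnm]
  have hme : Even m := by
    obtain ⟨t, ht⟩ := h4
    exact ⟨t, by omega⟩
  have hsq : IsSquare ((1 : Matrix (Fin n) (Fin n) F₀).det * (-1) ^ m) := by
    rw [Matrix.det_one, one_mul, hme.neg_one_pow]
    exact IsSquare.one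
  obtain ⟨e2⟩ := Cfsg.Agent.Lib.GraphInv.Sim.Cong.proj
    (Cfsg.Agent.Lib.GraphInv.Forms.cong_Gp h2 (Matrix.transpose_one) (by simp) hc hsq)
  obtain ⟨e3⟩ := Cfsg.Agent.Lib.GraphInv.Forms.proj_Gp h2 m
  exact ⟨e1.trans (e2.trans e3)⟩

end Cfsg.Agent.S2710
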