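import Cfsg.Statements.S2712
import Cfsg.Agent.Lib.KS71.PSpClass

set_option autoImplicit false
open Cfsg

namespace Cfsg.Agent.S2712

/-- Let T = PSp_{2m}(F) be simple over the field F with p^f elements (m ≥ 2, (2m, |F|) ≠ (4, 2)), G = Inndiag(T) the image of the projective conformal symplectic group PGSp_{2m}(F), and x a field automorphism of T of prime order r. Then r divides f; C_G(x) is isomorphic to PGSp_{2m}(F₀) for a field F₀ with p^(f/r) elements; and the G-class of x is the union of exactly gcd(gcd(2, p^f − 1), r) T-classes. -/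
theorem result {F : Type*} [Field F] [Fintype F] {p f : ℕ} [Fact p.Prime] (hF : Fintype.card F = p ^ f) (hf : 1 ≤ f) {m : ℕ} (hm : 2 ≤ m) (hs : m = 2 → 3 ≤ Fintype.card F) (x : MulAut (Cfsg.PSp m F)) (hx : Cfsg.IsFieldAutClassPSp x) {r : ℕ} (hr : r.Prime) (hxr : orderOf x = r) (F₀ : Type*) [Field F₀] [Fintype F₀] (hF₀ : Fintype.card F₀ = p ^ (f / r)) :
    r ∣ f ∧ Nonempty (↥(Cfsg.inndiagPSp m F ⊓ Subgroup.centralizer {x}) ≃* Cfsg.PGSp m F₀) ∧ Cfsg.splitClassCount (Cfsg.inndiagPSp m F) (Cfsg.Inn (Cfsg.PSp m F)) x = Nat.gcd (Nat.gcd 2 (p ^ f - 1)) r := by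
  open Cfsg.Agent.Lib.KS71.PSpCore Cfsg.Agent.Lib.KS71.PSpGroup Cfsg.Agent.Lib.KS71.PSpClass
    Cfsg.Agent.Lib.KS71.ClassSplit in
  have hm1 : 1 ≤ m := by omega
  obtain ⟨α, σ, hσ, hstd⟩ := hx
  have h1 := eq_field_of_isStd hstd
  have hσr : orderOf σ = r := by
    rw [← orderOf_field hm1 σ, ← h1, Cfsg.Agent.Lib.KS71.PSLClassConj.conj_orderOf, hxr]
  subst hσr
  have hdvd := Cfsg.Agent.Lib.KS71.PSLCent.order_dvd hF hf σ
  refine ⟨hdvd, ?_, ?_⟩
  · obtain ⟨ι₀, hι⟩ := Cfsg.Agent.Lib.KS71.PSLCent.exists_embed hF hf σ hF₀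
    obtain ⟨e⟩ := cent_iso hm1 σ ι₀ hι
    exact ⟨(centConj _ (fun a b hb => inndiag_normal hm a b hb) α x _ h1).trans e⟩
  · rw [← split_conj _ _ (fun a b hb => inndiag_normal hm a b hb)
      (fun a b hb => Cfsg.Agent.Lib.KS71.PSLCent.inn_normal a b hb) α x, h1, count_field hF hm1 σ]
    exact arith (Fact.out : p.Prime) hf hr.pos hdvd

end Cfsg.Agent.S2712
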