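import Cfsg.Statements.S2725
import Cfsg.Agent.Lib.OutO.Final

set_option autoImplicit false
open Cfsg

namespace Cfsg.Agent.S2725

/-- Let T = PΩ⁺_{2m}(F) with m ≥ 4 and |F| = q odd. The inner-diagonal group G = Inndiag(T) (image of the class-preserving similarities) taken modulo the inner automorphism group T is cyclic of order 2 when m is odd and q ≡ 3 (mod 4), cyclic of order 4 when m is odd and q ≡ 1 (mod 4), and elementary abelian of order 4 when m is even. -/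
theorem result {F : Type*} [Field F] [Fintype F] (hodd : Odd (Fintype.card F)) {m : ℕ} (hm : 4 ≤ m) :
    ((Odd m ∧ Fintype.card F % 4 = 3) → (∃ φ : ↥(Cfsg.inndiagPOmegaPlus m F) →* Multiplicative (ZMod 2), Function.Surjective φ ∧ φ.ker = (Cfsg.Inn (Cfsg.POmega F (Cfsg.quadFormPlus m F))).subgroupOf (Cfsg.inndiagPOmegaPlus m F))) ∧ ((Odd m ∧ Fintype.card F % 4 = 1) → (∃ φ : ↥(Cfsg.inndiagPOmegaPlus m F) →* Multiplicative (ZMod 4), Function.Surjective φ ∧ φ.ker = (Cfsg.Inn (Cfsg.POmega F (Cfsg.quadFormPlus m F))).subgroupOf (Cfsg.inndiagPOmegaPlus m F))) ∧ (Even m → (∃ φ : ↥(Cfsg.inndiagPOmegaPlus m F) →* Multiplicative (ZMod 2 × ZMod 2), Function.Surjective φ ∧ φ.ker = (Cfsg.Inn (Cfsg.POmega F (Cfsg.quadFormPlus m F))).subgroupOf (Cfsg.inndiagPOmegaPlus m F))) := by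
  have h2 := Cfsg.Agent.Lib.OutO.Final.two_ne_of_odd hodd
  obtain ⟨D⟩ := Cfsg.Agent.Lib.OutO.Forms.plus_data h2 m
  have hv := Cfsg.Agent.Lib.OutO.Final.hv_plus (F := F) m (by omega)
  have hQ := Cfsg.Agent.Lib.Orth.Forms.plusForm_nondeg (F := F) m
  have hk := Cfsg.Agent.Lib.OutO.Forms.card_plus m
  have hk3 : 3 ≤ m := by omega
  have hneg := Cfsg.Agent.Lib.OutO.Final.neg_plus_iff hodd (m := m) (by omega)
  have hD := Cfsg.Agent.Lib.OutO.Forms.inndiag_plus_eq h2 m hv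
  rw [hD]
  refine ⟨fun h => Cfsg.Agent.Lib.OutO.Struct.T4_not (Q := Cfsg.Agent.Lib.Orth.Forms.plusForm m F) hv hQ h2 hk hk3 D (fun hn => (hneg.1 hn) h), fun h => Cfsg.Agent.Lib.OutO.Struct.T4_odd (Q := Cfsg.Agent.Lib.Orth.Forms.plusForm m F) hv hQ h2 hk hk3 D (hneg.2 ?_) h.1, fun h => Cfsg.Agent.Lib.OutO.Struct.T4_even (Q := Cfsg.Agent.Lib.Orth.Forms.plusForm m F) hv hQ h2 hk hk3 D (hneg.2 ?_) h⟩
  · rintro ⟨-, h3⟩
    omega
  · rintro ⟨h3, -⟩
    exact (Nat.not_even_iff_odd.2 h3) h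

end Cfsg.Agent.S2725
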