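import Cfsg.Statements.S2729
import Cfsg.Agent.Lib.OutO.Final

set_option autoImplicit false
open Cfsg

namespace Cfsg.Agent.S2729

set_option maxHeartbeats 2000000

/-- Let T = PΩ⁻_{2m+2}(F) with m ≥ 3 and |F| = q odd (form with anisotropic binary part). The inner-diagonal group G = Inndiag(T) (image of the class-preserving similarities) taken modulo the inner automorphism group T is cyclic of order 4 when m is even and q ≡ 3 (mod 4), and of order 2 otherwise. -/
theorem result {F : Type*} [Field F] [Fintype F] (hodd : Odd (Fintype.card F)) {m : ℕ} (hm : 3 ≤ m) (a b : F) (hab : (∀ z₁ z₂ : F, z₁ ^ 2 + a * z₁ * z₂ + b * z₂ ^ 2 = 0 → z₁ = 0 ∧ z₂ = 0)) :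
    ((Even m ∧ Fintype.card F % 4 = 3) → (∃ φ : ↥(Cfsg.inndiagPOmegaMinus m F a b) →* Multiplicative (ZMod 4), Function.Surjective φ ∧ φ.ker = (Cfsg.Inn (Cfsg.POmega F (Cfsg.quadFormMinus m F a b))).subgroupOf (Cfsg.inndiagPOmegaMinus m F a b))) ∧ (¬ (Even m ∧ Fintype.card F % 4 = 3) → (∃ φ : ↥(Cfsg.inndiagPOmegaMinus m F a b) →* Multiplicative (ZMod 2), Function.Surjective φ ∧ φ.ker = (Cfsg.Inn (Cfsg.POmega F (Cfsg.quadFormMinus m F a b))).subgroupOf (Cfsg.inndiagPOmegaMinus m F a b))) := by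
  have h2 := Cfsg.Agent.Lib.OutO.Final.two_ne_of_odd hodd
  obtain ⟨D⟩ := Cfsg.Agent.Lib.OutO.Forms.minus_data h2 m hab
  have hv := Cfsg.Agent.Lib.OutO.Final.hv_minus (F := F) m hab
  have hQ := Cfsg.Agent.Lib.Orth.Forms.minusForm_nondeg (F := F) m hab
  have hk := Cfsg.Agent.Lib.OutO.Forms.card_minus m
  have hk3 : 3 ≤ m + 1 := by omega
  have hneg := Cfsg.Agent.Lib.OutO.Final.neg_minus_iff hodd m hab
  have hD := Cfsg.Agent.Lib.OutO.Forms.inndiag_minus_eq h2 hab hv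
  rw [hD]
  constructor
  · intro h
    have h3 := Cfsg.Agent.Lib.OutO.Struct.T4_odd (Q := Cfsg.Agent.Lib.Orth.Forms.minusForm m F a b) hv hQ h2 hk hk3 D (hneg.2 h) (by simpa [Nat.odd_add_one] using h.1)
    exact h3
  · intro h
    have h3 := Cfsg.Agent.Lib.OutO.Struct.T4_not (Q := Cfsg.Agent.Lib.Orth.Forms.minusForm m F a b) hv hQ h2 hk hk3 D (fun hn => h (hneg.1 hn))
    exact h3

end Cfsg.Agent.S2729
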