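import Cfsg.Statements.S2738
import Mathlib
-- import your own Cfsg.Agent.* helpers here

set_option autoImplicit false
open Cfsg

namespace Cfsg.Agent.S2738

theorem comm_central {G : Type*} [Group G] (z₁ z₂ k₁ k₂ : G) (h₁ : ∀ g, z₁ * g = g * z₁)
    (h₂ : ∀ g, z₂ * g = g * z₂) :
    (z₁ * k₁) * (z₂ * k₂) * (z₁ * k₁)⁻¹ * (z₂ * k₂)⁻¹ = k₁ * k₂ * k₁⁻¹ * k₂⁻¹ := by
  calc (z₁ * k₁) * (z₂ * k₂) * (z₁ * k₁)⁻¹ * (z₂ * k₂)⁻¹
      = z₁ * (k₁ * (z₂ * k₂) * k₁⁻¹) * z₁⁻¹ * (z₂ * k₂)⁻¹ := by group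
    _ = (k₁ * (z₂ * k₂) * k₁⁻¹) * (z₂ * k₂)⁻¹ := by rw [h₁]; group
    _ = (k₁ * z₂) * (k₂ * k₁⁻¹ * k₂⁻¹) * z₂⁻¹ := by group
    _ = (z₂ * k₁) * (k₂ * k₁⁻¹ * k₂⁻¹) * z₂⁻¹ := by rw [h₂ k₁]
    _ = z₂ * (k₁ * k₂ * k₁⁻¹ * k₂⁻¹) * z₂⁻¹ := by group
    _ = k₁ * k₂ * k₁⁻¹ * k₂⁻¹ := by rw [h₂]; group

/-- The special linear group SL(3, 4) has centre of order 3 and does not split over it: no subgroup is a complement to the centre (so SL(3, 4) is a non-split central extension of PSL(3, 4) by a group of order 3). -/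
theorem result (F : Type*) [Field F] [Fintype F] (hF : Fintype.card F = 4) : Nat.card ↥(Subgroup.center (Matrix.SpecialLinearGroup (Fin 3) F)) = 3 ∧ ¬ ∃ K : Subgroup (Matrix.SpecialLinearGroup (Fin 3) F), Subgroup.IsComplement' (Subgroup.center (Matrix.SpecialLinearGroup (Fin 3) F)) K := by
  classical
  -- an element of order 3
  have hex : ∃ ω : F, ω ≠ 0 ∧ ω ≠ 1 := by
    by_contra hno
    push Not at hno
    have hsub : (Finset.univ : Finset F) ⊆ {0, 1} := by
      intro x _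
      by_cases hx : x = 0
      · simp [hx]
      · simp [hno x hx]
    have h1 := Finset.card_le_card hsub
    have h2 : (({0, 1} : Finset F)).card ≤ 2 := Finset.card_le_two
    rw [Finset.card_univ, hF] at h1
    omega
  obtain ⟨ω, hω0, hω1⟩ := hex
  have hω3 : ω ^ 3 = 1 := by
    have := FiniteField.pow_card_sub_one_eq_one ω hω0
    rwa [hF] at this
  constructor
  · -- the centre
    have e := (Matrix.SpecialLinearGroup.center_equiv_rootsOfUnity' (n := Fin 3) (R := F) (0 : Fin 3))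
    rw [Nat.card_congr e.toEquiv]
    have hcard : Fintype.card (Fin 3) = 3 := Fintype.card_fin 3
    have htop : rootsOfUnity (Fintype.card (Fin 3)) F = ⊤ := by
      rw [eq_top_iff]
      intro x _
      rw [mem_rootsOfUnity, hcard]
      apply Units.ext
      have := FiniteField.pow_card_sub_one_eq_one (x : F) x.ne_zero
      rw [hF] at this
      simpa using this
    rw [htop, Nat.card_congr Subgroup.topEquiv.toEquiv, Nat.card_eq_fintype_card, Fintype.card_units, hF]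
  · rintro ⟨K, hK⟩
    -- the three matrices
    let P : Matrix.SpecialLinearGroup (Fin 3) F := ⟨!![0, 0, 1; 1, 0, 0; 0, 1, 0], by
      simp [Matrix.det_fin_three]⟩
    let D : Matrix.SpecialLinearGroup (Fin 3) F := ⟨!![1, 0, 0; 0, ω ^ 2, 0; 0, 0, ω], by
      simp only [Matrix.det_fin_three]
      simp
      rw [pow_succ] at hω3
      exact hω3⟩
    let C : Matrix.SpecialLinearGroup (Fin 3) F := ⟨!![ω, 0, 0; 0, ω, 0; 0, 0, ω], by
      simp only [Matrix.det_fin_three]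
      simp
      rw [pow_succ, pow_two] at hω3
      exact hω3⟩
    have hC : C ∈ Subgroup.center (Matrix.SpecialLinearGroup (Fin 3) F) := by
      rw [Matrix.SpecialLinearGroup.mem_center_iff]
      refine ⟨ω, by simpa using hω3, ?_⟩
      ext i j
      fin_cases i <;> fin_cases j <;> simp [C]
    have hcomm : P * D = C * (D * P) := by
      apply Subtype.ext
      simp only [Matrix.SpecialLinearGroup.coe_mul]
      ext i j
      have hω3' : ω * (ω * ω) = 1 := by rw [← hω3]; ring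
      fin_cases i <;> fin_cases j <;>
        simp [P, D, C, Matrix.mul_apply, Fin.sum_univ_three, hω3', pow_two]
    obtain ⟨⟨z₁, k₁⟩, h₁⟩ := hK.2 P
    obtain ⟨⟨z₂, k₂⟩, h₂⟩ := hK.2 D
    have hz₁ : ∀ g, (z₁ : Matrix.SpecialLinearGroup (Fin 3) F) * g = g * z₁ := fun g => (Subgroup.mem_center_iff.1 z₁.2 g).symm
    have hz₂ : ∀ g, (z₂ : Matrix.SpecialLinearGroup (Fin 3) F) * g = g * z₂ := fun g => (Subgroup.mem_center_iff.1 z₂.2 g).symm
    simp only at h₁ h₂
    have hCeq : C = P * D * P⁻¹ * D⁻¹ := by rw [hcomm]; group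
    have hCk : C = (k₁ : Matrix.SpecialLinearGroup (Fin 3) F) * k₂ * (k₁ : Matrix.SpecialLinearGroup (Fin 3) F)⁻¹ * (k₂ : Matrix.SpecialLinearGroup (Fin 3) F)⁻¹ := by
      rw [hCeq, ← h₁, ← h₂]
      exact comm_central _ _ _ _ hz₁ hz₂
    have hCK : C ∈ K := by
      rw [hCk]
      exact K.mul_mem (K.mul_mem (K.mul_mem k₁.2 k₂.2) (K.inv_mem k₁.2)) (K.inv_mem k₂.2)
    have hbot := Subgroup.disjoint_def.1 hK.disjoint hC hCK
    have h5 : (C : Matrix (Fin 3) (Fin 3) F) 0 0 = ω := by simp [C]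
    rw [hbot] at h5
    apply hω1
    simpa using h5.symm

end Cfsg.Agent.S2738
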