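import Cfsg.Statements.S2739
import Mathlib
-- import your own Cfsg.Agent.* helpers here

set_option autoImplicit false
open scoped Pointwise
open Cfsg

namespace Cfsg.Agent.S2739

open Matrix in
/-- Cayley–Hamilton for 3×3 matrices, explicitly. -/
theorem ch3 {R : Type*} [CommRing R] (A : Matrix (Fin 3) (Fin 3) R) :
    A * A * A = (A 0 0 + A 1 1 + A 2 2) • (A * A)
      - (A 0 0 * A 1 1 - A 0 1 * A 1 0 + A 0 0 * A 2 2 - A 0 2 * A 2 0 + A 1 1 * A 2 2 - A 1 2 * A 2 1) • A
      + A.det • (1 : Matrix (Fin 3) (Fin 3) R) := by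
  rw [Matrix.det_fin_three]
  ext i j
  fin_cases i <;> fin_cases j <;>
    simp [Matrix.mul_apply, Fin.sum_univ_three, Matrix.smul_apply, Matrix.one_apply] <;> ring

theorem char_poly_eval {R : Type*} [CommRing R] (A : Matrix (Fin 3) (Fin 3) R) (μ : R) :
    (μ • (1 : Matrix (Fin 3) (Fin 3) R) - A).det = μ ^ 3 - (A 0 0 + A 1 1 + A 2 2) * μ ^ 2
      + (A 0 0 * A 1 1 - A 0 1 * A 1 0 + A 0 0 * A 2 2 - A 0 2 * A 2 0 + A 1 1 * A 2 2 - A 1 2 * A 2 1) * μ
      - A.det := by
  rw [Matrix.det_fin_three, Matrix.det_fin_three]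
  simp [Matrix.smul_apply, Matrix.one_apply]
  ring

section F4

variable {F : Type*} [Field F] [Fintype F] (hF : Fintype.card F = 4)

include hF

theorem two_eq_zero : (2 : F) = 0 := by
  have h1 : ((Fintype.card F : ℕ) : F) = 0 := Nat.cast_card_eq_zero F
  rw [hF] at h1
  have h2 : (2 : F) * 2 = 0 := by
    have : ((4 : ℕ) : F) = 2 * 2 := by norm_num
    rw [← this]; exact h1
  simpa using h2

theorem cube_eq_one (x : F) (hx : x ≠ 0) : x ^ 3 = 1 := by
  have := FiniteField.pow_card_sub_one_eq_one x hx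
  rwa [hF] at this

/-- A non-scalar 3×3 matrix of determinant 1 over the field of four elements, with scalar cube, has
characteristic polynomial `t^3 - 1`. -/
theorem charpoly_facts (A : Matrix (Fin 3) (Fin 3) F) (hdet : A.det = 1) (l : F) (hl : l ≠ 0)
    (hA3 : A * A * A = l • (1 : Matrix (Fin 3) (Fin 3) F))
    (hns : ∀ r : F, A ≠ r • (1 : Matrix (Fin 3) (Fin 3) F)) :
    l = 1 ∧ (A 0 0 + A 1 1 + A 2 2) = 0 ∧
      (A 0 0 * A 1 1 - A 0 1 * A 1 0 + A 0 0 * A 2 2 - A 0 2 * A 2 0 + A 1 1 * A 2 2 - A 1 2 * A 2 1) = 0 := by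
  have hch := ch3 A
  rw [hdet, hA3] at hch
  set t := A 0 0 + A 1 1 + A 2 2 with ht
  set c := A 0 0 * A 1 1 - A 0 1 * A 1 0 + A 0 0 * A 2 2 - A 0 2 * A 2 0 + A 1 1 * A 2 2 - A 1 2 * A 2 1 with hc
  set I : Matrix (Fin 3) (Fin 3) F := 1 with hI
  have hI0 : I ≠ 0 := one_ne_zero
  have h2 : (2 : F) = 0 := two_eq_zero hF
  have hneg : ∀ x : F, -x = x := fun x => by
    have : x + x = 0 := by rw [← two_mul, h2, zero_mul]
    exact neg_eq_of_add_eq_zero_left this
  have hscal : ∀ (r s : F), r ≠ 0 → r • A = s • I → False := by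
    intro r s hr h
    apply hns (s / r)
    have : A = r⁻¹ • (r • A) := by rw [smul_smul, inv_mul_cancel₀ hr, one_smul]
    rw [this, h, smul_smul, div_eq_inv_mul]
  have hsmulI : ∀ (r : F), r • I = 0 → r = 0 := by
    intro r h
    have h3 := congrFun (congrFun h 0) 0
    simpa [hI] using h3
  by_cases ht0 : t = 0
  · rw [ht0, zero_smul, zero_sub] at hch
    have h3 : c • A = (1 - l) • I := by
      have : (1 - l) • I = (1 : F) • I - l • I := sub_smul _ _ _
      rw [this, hch]
      simp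
    by_cases hc0 : c = 0
    · rw [hc0, zero_smul] at h3
      have h4 := hsmulI _ h3.symm
      exact ⟨(sub_eq_zero.1 h4).symm, ht0, hc0⟩
    · exact (hscal _ _ hc0 h3).elim
  · exfalso
    set a := c / t with ha
    set b := (l - 1) / t with hb
    have h3 : A * A = a • A + b • I := by
      have h4 : t • (A * A) = c • A + (l - 1) • I := by
        have h5 : (l - 1) • I = l • I - (1 : F) • I := sub_smul _ _ _
        rw [h5, hch]
        simp
      have h6 : A * A = t⁻¹ • (t • (A * A)) := by rw [smul_smul, inv_mul_cancel₀ ht0, one_smul]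
      rw [h6, h4, smul_add, smul_smul, smul_smul, ha, hb, div_eq_inv_mul, div_eq_inv_mul]
    have h7 : A * A * A = (a ^ 2 + b) • A + (a * b) • I := by
      calc A * A * A = (a • A + b • I) * A := by rw [h3]
        _ = a • (A * A) + b • A := by rw [add_mul, smul_mul_assoc, smul_mul_assoc, hI, one_mul]
        _ = a • (a • A + b • I) + b • A := by rw [h3]
        _ = (a ^ 2 + b) • A + (a * b) • I := by
          rw [smul_add, smul_smul, smul_smul, add_smul, pow_two]
          abel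
    rw [hA3] at h7
    by_cases hab : a ^ 2 + b = 0
    · rw [hab, zero_smul, zero_add] at h7
      have h8 : (l - a * b) • I = 0 := by
        rw [sub_smul, h7, sub_self]
      have h9 := sub_eq_zero.1 (hsmulI _ h8)
      have hb' : b = a ^ 2 := by
        have : b = -(a ^ 2) := by
          have := eq_neg_of_add_eq_zero_right hab
          exact this
        rw [this, hneg]
      have h10 : l = a ^ 3 := by rw [h9, hb']; ring
      have ha0 : a ≠ 0 := by
        rintro h0
        rw [h0] at h10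
        simp at h10
        exact hl h10
      have h11 : l = 1 := by rw [h10]; exact cube_eq_one hF a ha0
      have hb0 : b = 0 := by rw [hb, h11]; simp
      rw [hb0] at hb'
      exact ha0 (pow_eq_zero_iff (by norm_num) |>.1 hb'.symm)
    · apply hscal _ (l - a * b) hab
      rw [sub_smul, h7]
      simp

open scoped Matrix in
theorem exists_conj (A : Matrix (Fin 3) (Fin 3) F) (hdet : A.det = 1) (l : F) (hl : l ≠ 0)
    (hA3 : A * A * A = l • (1 : Matrix (Fin 3) (Fin 3) F))
    (hns : ∀ r : F, A ≠ r • (1 : Matrix (Fin 3) (Fin 3) F)) (ω : F) (hω0 : ω ≠ 0) (hω1 : ω ≠ 1) :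
    ∃ S : Matrix (Fin 3) (Fin 3) F, S.det = 1 ∧ A * S = S * Matrix.diagonal ![1, ω, ω ^ 2] := by
  classical
  obtain ⟨-, ht, hc⟩ := charpoly_facts hF A hdet l hl hA3 hns
  have hω3 : ω ^ 3 = 1 := cube_eq_one hF ω hω0
  let μ : Fin 3 → F := ![1, ω, ω ^ 2]
  have hμ3 : ∀ i, μ i ^ 3 = 1 := by
    intro i
    fin_cases i
    · simp [μ]
    · simpa [μ] using hω3
    · have : (ω ^ 2) ^ 3 = (ω ^ 3) ^ 2 := by ring
      simp [μ, this, hω3]
  have hμinj : Function.Injective μ := by
    have h1 : ω ^ 2 ≠ 1 := by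
      intro h
      apply hω1
      have : ω ^ 3 = ω ^ 2 * ω := by ring
      rw [this, h, one_mul] at hω3
      exact hω3
    have h2 : ω ^ 2 ≠ ω := by
      intro h
      apply hω1
      have h3 : ω ^ 2 = ω * ω := by ring
      rw [h3] at h
      exact mul_left_cancel₀ hω0 (by rw [h, mul_one])
    intro i j hij
    fin_cases i <;> fin_cases j <;> first
      | rfl
      | (exfalso; first
          | exact hω1 hij | exact hω1 hij.symm | exact h1 hij | exact h1 hij.symm
          | exact h2 hij | exact h2 hij.symm)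
  have hev : ∀ i : Fin 3, ∃ v : Fin 3 → F, v ≠ 0 ∧ A *ᵥ v = μ i • v := by
    intro i
    have h1 : (μ i • (1 : Matrix (Fin 3) (Fin 3) F) - A).det = 0 := by
      rw [char_poly_eval, hc, ht, hdet, hμ3]
      ring
    obtain ⟨v, hv, hv2⟩ := Matrix.exists_mulVec_eq_zero_iff.2 h1
    refine ⟨v, hv, ?_⟩
    rw [Matrix.sub_mulVec, Matrix.smul_mulVec, Matrix.one_mulVec, sub_eq_zero] at hv2
    exact hv2.symm
  choose v hv0 hv using hev
  have hli : LinearIndependent F v :=
    Module.End.eigenvectors_linearIndependent' (Matrix.mulVecLin A) μ hμinj v (fun i =>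
      Module.End.hasEigenvector_iff.2 ⟨Module.End.mem_eigenspace_iff.2 (by simpa using hv i), hv0 i⟩)
  let S₀ : Matrix (Fin 3) (Fin 3) F := Matrix.of (fun i j => v j i)
  have hS₀ : IsUnit S₀ := Matrix.linearIndependent_cols_iff_isUnit.1 hli
  have hdet0 : S₀.det ≠ 0 := by
    have := (Matrix.isUnit_iff_isUnit_det _).1 hS₀
    exact this.ne_zero
  have hAS : A * S₀ = S₀ * Matrix.diagonal μ := by
    ext i j
    have h1 := congrFun (hv j) i
    simp only [Matrix.mulVec, dotProduct, Pi.smul_apply, smul_eq_mul] at h1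
    rw [Matrix.mul_diagonal, Matrix.mul_apply]
    simp only [S₀, Matrix.of_apply]
    rw [h1, mul_comm]
  let T : Matrix (Fin 3) (Fin 3) F := Matrix.diagonal ![(S₀.det)⁻¹, 1, 1]
  have hTdet : T.det = (S₀.det)⁻¹ := by
    simp [T, Matrix.det_diagonal, Fin.prod_univ_three]
  refine ⟨S₀ * T, ?_, ?_⟩
  · rw [Matrix.det_mul, hTdet, mul_inv_cancel₀ hdet0]
  · have hcomm : Matrix.diagonal μ * T = T * Matrix.diagonal μ := by
      simp only [T, Matrix.diagonal_mul_diagonal]
      congr 1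
      funext i
      exact mul_comm _ _
    calc A * (S₀ * T) = (A * S₀) * T := by rw [Matrix.mul_assoc]
      _ = S₀ * (Matrix.diagonal μ * T) := by rw [hAS, Matrix.mul_assoc]
      _ = S₀ * (T * Matrix.diagonal μ) := by rw [hcomm]
      _ = (S₀ * T) * Matrix.diagonal μ := by rw [Matrix.mul_assoc]

/-- The conjugacy statement in PSL. -/
theorem exists_conj_psl (ω : F) (hω0 : ω ≠ 0) (hω1 : ω ≠ 1) (hD : (Matrix.diagonal ![1, ω, ω ^ 2]).det = 1)
    (x : Matrix.ProjectiveSpecialLinearGroup (Fin 3) F) (hx1 : x ≠ 1) (hx3 : x ^ 3 = 1) :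
    ∃ s : Matrix.ProjectiveSpecialLinearGroup (Fin 3) F,
      x = s * (QuotientGroup.mk ⟨Matrix.diagonal ![1, ω, ω ^ 2], hD⟩ : Matrix.ProjectiveSpecialLinearGroup (Fin 3) F) * s⁻¹ := by
  classical
  obtain ⟨A, rfl⟩ := QuotientGroup.mk_surjective x
  have h3 : A ^ 3 ∈ Subgroup.center (Matrix.SpecialLinearGroup (Fin 3) F) := by
    rw [← QuotientGroup.eq_one_iff]
    rw [QuotientGroup.mk_pow]
    exact hx3
  obtain ⟨r, hr, hr2⟩ := Matrix.SpecialLinearGroup.mem_center_iff.1 h3
  have hr0 : r ≠ 0 := by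
    rintro rfl
    simp at hr
  have hA3 : (A : Matrix (Fin 3) (Fin 3) F) * A * A = r • (1 : Matrix (Fin 3) (Fin 3) F) := by
    have h4 : ((A ^ 3 : Matrix.SpecialLinearGroup (Fin 3) F) : Matrix (Fin 3) (Fin 3) F) = A * A * A := by
      simp [pow_succ]
    rw [← h4, ← hr2]
    ext i j
    simp [Matrix.scalar_apply, Matrix.smul_apply, Matrix.one_apply, Matrix.diagonal_apply]
  have hns : ∀ r : F, (A : Matrix (Fin 3) (Fin 3) F) ≠ r • (1 : Matrix (Fin 3) (Fin 3) F) := by
    intro t ht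
    apply hx1
    rw [QuotientGroup.eq_one_iff, Matrix.SpecialLinearGroup.mem_center_iff]
    have hdet : (t • (1 : Matrix (Fin 3) (Fin 3) F)).det = 1 := by
      rw [← ht]; exact A.2
    refine ⟨t, ?_, ?_⟩
    · rw [Matrix.det_smul] at hdet
      simpa using hdet
    · rw [ht]
      ext i j
      simp [Matrix.scalar_apply, Matrix.smul_apply, Matrix.one_apply, Matrix.diagonal_apply]
  obtain ⟨S, hS1, hS2⟩ := exists_conj hF A A.2 r hr0 hA3 hns ω hω0 hω1
  let s : Matrix.SpecialLinearGroup (Fin 3) F := ⟨S, hS1⟩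
  let D : Matrix.SpecialLinearGroup (Fin 3) F := ⟨Matrix.diagonal ![1, ω, ω ^ 2], hD⟩
  have h5 : A * s = s * D := Subtype.ext hS2
  refine ⟨QuotientGroup.mk s, ?_⟩
  have h6 : A = s * D * s⁻¹ := by rw [← h5]; group
  rw [h6]
  rfl

end F4

/-- In the projective special linear group PSL(3, 4) all subgroups of order 3 are conjugate. -/
theorem result (F : Type*) [Field F] [Fintype F] (hF : Fintype.card F = 4) (X Y : Subgroup (Matrix.ProjectiveSpecialLinearGroup (Fin 3) F)) (hX : Nat.card ↥X = 3) (hY : Nat.card ↥Y = 3) : ∃ g : Matrix.ProjectiveSpecialLinearGroup (Fin 3) F, MulAut.conj g • X = Y := by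
  classical
  have hex : ∃ ω : F, ω ≠ 0 ∧ ω ≠ 1 := by
    by_contra hno
    push Not at hno
    have hsub : (Finset.univ : Finset F) ⊆ {0, 1} := by
      intro x _
      by_cases hx : x = 0
      · simp [hx]
      · simp [hno x hx]
    have h1 := Finset.card_le_card hsub
    have h2 : (({0, 1} : Finset F)).card ≤ 2 := Finset.card_le_two
    rw [Finset.card_univ, hF] at h1
    omega
  obtain ⟨ω, hω0, hω1⟩ := hex
  have hω3 : ω ^ 3 = 1 := cube_eq_one hF ω hω0
  have hD : (Matrix.diagonal ![1, ω, ω ^ 2]).det = 1 := by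
    simp [Matrix.det_diagonal, Fin.prod_univ_three]
    rw [← hω3]; ring
  -- generators
  have hgen : ∀ Z : Subgroup (Matrix.ProjectiveSpecialLinearGroup (Fin 3) F), Nat.card ↥Z = 3 →
      ∃ z : Matrix.ProjectiveSpecialLinearGroup (Fin 3) F, z ≠ 1 ∧ z ^ 3 = 1 ∧ Z = Subgroup.zpowers z := by
    intro Z hZ
    have : Fact (Nat.card ↥Z).Prime := ⟨by rw [hZ]; norm_num⟩
    obtain ⟨g, hg⟩ := isCyclic_of_prime_card (p := Nat.card ↥Z) rfl |>.exists_generator
    have hfin : Finite ↥Z := Nat.finite_of_card_ne_zero (by omega)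
    refine ⟨(g : Matrix.ProjectiveSpecialLinearGroup (Fin 3) F), ?_, ?_, ?_⟩
    · intro h1
      have h2 : g = 1 := Subtype.ext h1
      have h3 : Nat.card ↥Z = 1 := by
        rw [Nat.card_eq_one_iff_unique]
        refine ⟨⟨fun a b => ?_⟩, ⟨1⟩⟩
        obtain ⟨i, hi⟩ := hg a
        obtain ⟨j, hj⟩ := hg b
        simp [h2] at hi hj
        rw [← hi, ← hj]
      omega
    · have h2 : g ^ 3 = 1 := by
        have h := pow_card_eq_one' (x := g)
        rw [hZ] at h
        exact h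
      exact_mod_cast congrArg (fun z : ↥Z => (z : Matrix.ProjectiveSpecialLinearGroup (Fin 3) F)) h2
    · ext y
      constructor
      · intro hy
        obtain ⟨i, hi⟩ := hg ⟨y, hy⟩
        refine ⟨i, ?_⟩
        have := congrArg (fun z : ↥Z => (z : Matrix.ProjectiveSpecialLinearGroup (Fin 3) F)) hi
        simpa using this
      · rintro ⟨i, rfl⟩
        exact Z.zpow_mem g.2 i
  obtain ⟨x, hx1, hx3, rfl⟩ := hgen X hX
  obtain ⟨y, hy1, hy3, rfl⟩ := hgen Y hY
  obtain ⟨a, ha⟩ := exists_conj_psl hF ω hω0 hω1 hD x hx1 hx3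
  obtain ⟨b, hb⟩ := exists_conj_psl hF ω hω0 hω1 hD y hy1 hy3
  refine ⟨b * a⁻¹, ?_⟩
  rw [Subgroup.pointwise_smul_def]
  show Subgroup.map (MulAut.conj (b * a⁻¹)).toMonoidHom _ = _
  rw [MonoidHom.map_zpowers]
  congr 1
  show (b * a⁻¹) * x * (b * a⁻¹)⁻¹ = y
  rw [ha, hb]
  group

end Cfsg.Agent.S2739
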