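import Cfsg.Statements.S2751
import Cfsg.Agent.Lib.Goldschmidt.Struct3
import Cfsg.Agent.Lib.Goldschmidt.Bridge

set_option autoImplicit false
open Cfsg

namespace Cfsg.Agent.S2751

/-- Goldschmidt's bound for amalgams of index (3, 3): let M₁ and M₂ be finite subgroups of a group G such that M₁ ⊓ M₂ is a Sylow 2-subgroup of both M₁ and M₂, each quotient Mᵢ / O₂(Mᵢ) is isomorphic to the symmetric group of degree 3, and no nontrivial subgroup of M₁ ⊓ M₂ is normal in both M₁ and M₂. Then M₁ ⊓ M₂ has order at most 2^7. -/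
theorem result {G : Type*} [Group G] (M₁ M₂ : Subgroup G) [Finite M₁] [Finite M₂] (ha₁ : ∃ P : Sylow 2 M₁, (P : Subgroup M₁) = (M₁ ⊓ M₂).subgroupOf M₁) (ha₂ : ∃ P : Sylow 2 M₂, (P : Subgroup M₂) = (M₁ ⊓ M₂).subgroupOf M₂) (hb₁ : Nonempty (M₁ ⧸ Cfsg.pCore 2 M₁ ≃* Equiv.Perm (Fin 3))) (hb₂ : Nonempty (M₂ ⧸ Cfsg.pCore 2 M₂ ≃* Equiv.Perm (Fin 3))) (hc : ∀ N : Subgroup G, N ≤ M₁ ⊓ M₂ → (N.subgroupOf M₁).Normal → (N.subgroupOf M₂).Normal → N = ⊥) : Nat.card ↥(M₁ ⊓ M₂) ≤ 2 ^ 7 := by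
  have hSyl : IsPGroup 2 ↥(M₁ ⊓ M₂) := by
    obtain ⟨P, hP⟩ := ha₁
    have h1 : IsPGroup 2 ↥((M₁ ⊓ M₂).subgroupOf M₁) := by
      rw [← hP]
      exact P.isPGroup'
    exact h1.of_equiv (Subgroup.subgroupOfEquivOfLe (inf_le_left : M₁ ⊓ M₂ ≤ M₁))
  have L₁ : Cfsg.Agent.Lib.Goldschmidt.LS3.LocS3 M₁ M₂ := Cfsg.Agent.Lib.Goldschmidt.LS3.ls3_of M₁ M₂ ha₁ hb₁
  have L₂ : Cfsg.Agent.Lib.Goldschmidt.LS3.LocS3 M₂ M₁ :=
    Cfsg.Agent.Lib.Goldschmidt.LS3.ls3_of M₂ M₁ (by rwa [inf_comm]) hb₂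
  let T := Cfsg.Agent.Lib.Goldschmidt.Bridge.triOf L₁ L₂ hSyl hc
  have hadj : T.adj (Sum.inl ((1 : G) : G ⧸ M₁)) (Sum.inr ((1 : G) : G ⧸ M₂)) :=
    Cfsg.Agent.Lib.Amalgam.Basic.adj_inl_inr 1
  have hmain := Cfsg.Agent.Lib.Goldschmidt.Struct3.main_bound hadj
  have hSE : (Cfsg.Agent.Lib.Goldschmidt.Graph.SE (Sum.inl ((1 : G) : G ⧸ M₁) : CosetVertex M₁ M₂)
      (Sum.inr ((1 : G) : G ⧸ M₂)) : Subgroup G) = M₁ ⊓ M₂ := by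
    ext g
    simp only [Subgroup.mem_inf, MulAction.mem_stabilizer_iff, Cfsg.Agent.Lib.Amalgam.Basic.smul_inl,
      Cfsg.Agent.Lib.Amalgam.Basic.smul_inr, mul_one, Sum.inl.injEq, Sum.inr.injEq]
    rw [QuotientGroup.eq, QuotientGroup.eq, mul_one, inv_mem_iff, inv_mem_iff]
  rw [hSE] at hmain
  simpa using hmain

end Cfsg.Agent.S2751
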