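import Cfsg.Statements.S2752
import Cfsg.Agent.Lib.SThreeFree.Dual

set_option autoImplicit false
universe u
open Cfsg

namespace Cfsg.Agent.S2752

/-- Let M be an elementary abelian 2-subgroup of a finite group L and G a subgroup of L acting faithfully on M by conjugation (G normalizes M and meets C(M) trivially). Assume O₂(G) = 1, the symmetric group of degree 3 is not involved in G, and every non-abelian composition factor of G is a Suzuki group Sz(2^(2n+1)) or a group PSL₂(3^(2n+1)). Then every elementary abelian 2-subgroup A of G satisfies |M / C_M(A)| ≥ |A|² and |[M, A]| ≥ |A|². -/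
theorem result {L : Type u} [Group L] [Finite L] (M G : Subgroup L) (hM : Cfsg.IsElementaryAbelian 2 M) (hGM : G ≤ Subgroup.normalizer (M : Set L)) (hf : G ⊓ Subgroup.centralizer (M : Set L) = ⊥) (ha : Cfsg.pCore 2 ↥G = ⊥) (hb : ¬ Cfsg.Involves (Equiv.Perm (Fin 3)) ↥G) (hc : Cfsg.IsCompositionKGroupWith Cfsg.IsSuzukiOrPSL2OddPowerThree ↥G) (A : Subgroup L) (hA : A ≤ G) (hAe : Cfsg.IsElementaryAbelian 2 A) : Nat.card A ^ 2 * Nat.card ↥(M ⊓ Subgroup.centralizer (A : Set L)) ≤ Nat.card M ∧ Nat.card A ^ 2 ≤ Nat.card ↥⁅M, A⁆ := by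
  classical
  haveI hMc : IsMulCommutative M := hM.1
  letI instC : CommGroup ↥M := { (inferInstance : Group ↥M) with mul_comm := fun a b => mul_comm' a b }
  let ρ : ↥G →* AddMonoid.End (Additive ↥M) := Cfsg.Agent.Lib.CoprimeGen.Basic.conjEnd G M hGM
  have hV : ∀ v : Additive ↥M, v + v = 0 := by
    intro v
    apply Additive.toMul.injective
    apply Subtype.ext
    show ((Additive.toMul v : ↥M) : L) * (Additive.toMul v : ↥M) = 1
    rw [← pow_two]
    exact hM.2 _ (Additive.toMul v).2
  have hρ : Function.Injective ρ := by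
    rw [injective_iff_map_eq_one]
    intro g hg
    have h1 : (g : L) ∈ G ⊓ Subgroup.centralizer (M : Set L) := by
      refine ⟨g.2, Subgroup.mem_centralizer_iff.2 ?_⟩
      intro m hm
      have h2 : ρ g (Additive.ofMul (⟨m, hm⟩ : ↥M)) = Additive.ofMul (⟨m, hm⟩ : ↥M) := by rw [hg]; rfl
      have h3 := congrArg (fun v : Additive ↥M => ((Additive.toMul v : ↥M) : L)) h2
      have h4 : (g : L) * m * (g : L)⁻¹ = m := h3
      calc m * (g : L) = (g : L) * m * (g : L)⁻¹ * (g : L) := by rw [h4]
        _ = (g : L) * m := by group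
    rw [hf, Subgroup.mem_bot] at h1
    exact Subtype.ext h1
  have hA' : Cfsg.IsElementaryAbelian 2 (A.subgroupOf G) := by
    refine ⟨⟨⟨fun x y => ?_⟩⟩, fun a ha => ?_⟩
    · have := hAe.1.is_comm.comm ⟨(x : ↥G), x.2⟩ ⟨(y : ↥G), y.2⟩
      have h2 : (((x : ↥G) : L)) * ((y : ↥G) : L) = ((y : ↥G) : L) * ((x : ↥G) : L) := congrArg Subtype.val this
      apply Subtype.ext
      apply Subtype.ext
      exact h2
    · apply Subtype.ext
      exact hAe.2 _ ha
  have hcA : Nat.card (A.subgroupOf G) = Nat.card A :=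
    Nat.card_congr (Subgroup.subgroupOfEquivOfLe hA).toEquiv
  have hcM : Nat.card (Additive ↥M) = Nat.card M := rfl
  constructor
  · have hmain := Cfsg.Agent.Lib.SThreeFree.Final.main hV hρ ha hb hc (A.subgroupOf G) hA'
    rw [hcA, hcM] at hmain
    refine le_trans (Nat.mul_le_mul_left _ ?_) hmain
    let f : ↥(M ⊓ Subgroup.centralizer (A : Set L)) →
        Cfsg.Agent.Lib.SThreeFree.Module.Fix ρ (A.subgroupOf G) := fun x =>
      ⟨Additive.ofMul (⟨x, x.2.1⟩ : ↥M), by
        intro a ha'
        apply Additive.toMul.injective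
        apply Subtype.ext
        show ((a : ↥G) : L) * x * ((a : ↥G) : L)⁻¹ = x
        have h1 : ((a : ↥G) : L) * x = x * ((a : ↥G) : L) :=
          Subgroup.mem_centralizer_iff.1 x.2.2 _ ha'
        rw [h1]
        group⟩
    have hf : Function.Injective f := by
      intro x y h
      have h1 := congrArg (fun v => ((Additive.toMul (v : Additive ↥M) : ↥M) : L)) (congrArg Subtype.val h)
      exact Subtype.ext h1
    exact Nat.card_le_card_of_injective f hf
  · letI instM : Module (ZMod 2) (Additive ↥M) :=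
      AddCommGroup.zmodModule (by intro v; rw [two_nsmul]; exact hV v)
    set W : AddSubgroup (Additive ↥M) := Subgroup.toAddSubgroup (⁅M, A⁆.subgroupOf M) with hW
    have hWmem : ∀ v : Additive ↥M, v ∈ W ↔ ((Additive.toMul v : ↥M) : L) ∈ ⁅M, A⁆ := fun _ => Iff.rfl
    have hbound := Cfsg.Agent.Lib.SThreeFree.Dual.dual_bound hV hρ ha hb hc (A.subgroupOf G) hA' W
      (by
        intro a ha' v
        rw [hWmem]
        have h1 : ((Additive.toMul (ρ a v - v) : ↥M) : L) =
            ((a : ↥G) : L) * ((Additive.toMul v : ↥M) : L) * ((a : ↥G) : L)⁻¹ * ((Additive.toMul v : ↥M) : L)⁻¹ := by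
          rw [sub_eq_add_neg]
          rfl
        rw [h1, Subgroup.commutator_comm]
        exact Subgroup.commutator_mem_commutator ha' (Additive.toMul v).2)
    rw [hcA] at hbound
    refine le_trans hbound ?_
    let f : W → ↥⁅M, A⁆ := fun v => ⟨((Additive.toMul (v : Additive ↥M) : ↥M) : L), (hWmem _).1 v.2⟩
    have hf : Function.Injective f := by
      intro x y h
      apply Subtype.ext
      apply Additive.toMul.injective
      apply Subtype.ext
      have h1 : ((Additive.toMul (x : Additive ↥M) : ↥M) : L) = ((Additive.toMul (y : Additive ↥M) : ↥M) : L) :=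
        congrArg (fun z : ↥⁅M, A⁆ => (z : L)) h
      exact h1
    exact Nat.card_le_card_of_injective f hf

end Cfsg.Agent.S2752
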