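import Cfsg.Statements.S2760
import Cfsg.Agent.Lib.LocalEven.CharP
import Cfsg.Agent.Lib.Core.Basic
import Cfsg.Agent.Lib.Core.Residual

set_option autoImplicit false
open Cfsg

namespace Cfsg.Agent.S2760

/-- Let G be a finite group with C_G(O₂(G)) ≤ O₂(G) and H a subgroup of G such that H is normal in G, or the subgroup O²(H) generated by the elements of H of odd order is normal in G. Then C_H(O₂(H)) ≤ O₂(H). -/
theorem result {G : Type*} [Group G] [Finite G] (hchar : Subgroup.centralizer (Cfsg.pCore 2 G : Set G) ≤ Cfsg.pCore 2 G) (H : Subgroup G) (hH : H.Normal ∨ ((Cfsg.pResidual 2 ↥H).map H.subtype).Normal) : Subgroup.centralizer (Cfsg.pCore 2 ↥H : Set ↥H) ≤ Cfsg.pCore 2 ↥H := by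
  classical
  rcases hH with hH | hH
  · exact Cfsg.Agent.Lib.LocalEven.CharP.charP_of_normal hchar H
  · set K : Subgroup G := (Cfsg.pResidual 2 ↥H).map H.subtype with hK
    have hKc : Subgroup.centralizer (Cfsg.pCore 2 ↥K : Set ↥K) ≤ Cfsg.pCore 2 ↥K :=
      Cfsg.Agent.Lib.LocalEven.CharP.charP_of_normal hchar K
    have hRc := Cfsg.Agent.Lib.LocalEven.CharP.charP_of_mulEquiv
      (Subgroup.equivMapOfInjective (Cfsg.pResidual 2 ↥H) H.subtype H.subtype_injective).symm hKc
    have hRn : (Cfsg.pResidual 2 ↥H).Normal := Cfsg.Agent.Lib.Core.Residual.pResidual_normal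
    have hRle := Cfsg.Agent.Lib.Core.Basic.map_pCore_le_of_isSubnormal (p := 2) hRn.isSubnormal
    have hp : IsPGroup 2 (Subgroup.centralizer (Cfsg.pCore 2 ↥H : Set ↥H)) := by
      refine Cfsg.Agent.Lib.LocalEven.CharP.isPGroup_of_forall_coprime _ ?_
      intro x hx hcop
      have hxR : x ∈ Cfsg.pResidual 2 ↥H := Cfsg.Agent.Lib.Core.Residual.mem_pResidual_of_coprime hcop
      have h1 : (⟨x, hxR⟩ : Cfsg.pResidual 2 ↥H) ∈
          Subgroup.centralizer (Cfsg.pCore 2 ↥(Cfsg.pResidual 2 ↥H) : Set ↥(Cfsg.pResidual 2 ↥H)) := by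
        rw [Subgroup.mem_centralizer_iff]
        intro y hy
        apply Subtype.ext
        exact (Subgroup.mem_centralizer_iff.1 hx) _ (hRle ⟨y, hy, rfl⟩)
      have h2 := hRc h1
      have h3 : (⟨x, hxR⟩ : Cfsg.pResidual 2 ↥H) = 1 := by
        refine Cfsg.Agent.Lib.LocalEven.CharP.eq_one_of_mem_of_isPGroup_of_coprime
          Cfsg.Agent.Lib.Core.Basic.pCore_isPGroup h2 ?_
        simpa [Subgroup.orderOf_mk] using hcop
      exact congrArg Subtype.val h3
    exact Cfsg.Agent.Lib.Core.Basic.le_pCore inferInstance hp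

end Cfsg.Agent.S2760
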