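import Cfsg.Statements.S2779
import Cfsg.Agent.Lib.PReduced.NaturalSL2

set_option autoImplicit false
open Cfsg

namespace Cfsg.Agent.S2779

/-- Let L act on the elementary abelian p-group V (inside a finite group, by conjugation, faithfully) as SL₂(F) on its natural module, F a field with p^n elements, and let S be a Sylow p-subgroup of L. Then [V, S, S] = 1; |V| = p^(2n) and |C_V(S)| = p^n; and for every nonidentity s ∈ S and every v ∈ V outside C_V(S): C_V(s) = C_V(S) = [V, S] = [V, s] = the subgroup generated by the commutators [v, t], t ∈ S. -/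
theorem result {G : Type*} [Group G] [Finite G] {p : ℕ} [Fact p.Prime] {F : Type*} [Field F] [Fintype F] (n : ℕ) (hF : Fintype.card F = p ^ n) (V L : Subgroup G) (hnat : Cfsg.IsNaturalSL2Module F V L) (hf : L ⊓ Subgroup.centralizer (V : Set G) = ⊥) (S : Sylow p ↥L) (T : Subgroup G) (hT : T = ((S : Subgroup ↥L).map L.subtype)) : ⁅⁅V, T⁆, T⁆ = ⊥ ∧ Nat.card V = p ^ (2 * n) ∧ Nat.card ↥(V ⊓ Subgroup.centralizer ((T : Subgroup G) : Set G)) = p ^ n ∧ ∀ s ∈ T, s ≠ 1 → (V ⊓ Subgroup.centralizer ({s} : Set G)) = (V ⊓ Subgroup.centralizer ((T : Subgroup G) : Set G)) ∧ ⁅V, T⁆ = (V ⊓ Subgroup.centralizer ((T : Subgroup G) : Set G)) ∧ ⁅V, Subgroup.zpowers s⁆ = (V ⊓ Subgroup.centralizer ((T : Subgroup G) : Set G)) ∧ ∀ v ∈ V, v ∉ Subgroup.centralizer (T : Set G) → Subgroup.closure {x : G | ∃ t ∈ T, x = v * t * v⁻¹ * t⁻¹} = (V ⊓ Subgroup.centralizer ((T : Subgroup G) : Set G)) := by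
  classical
  haveI : CharP F p := charP_of_card_eq_prime_pow hF
  obtain ⟨C⟩ := Cfsg.Agent.Lib.PReduced.NaturalSL2.exists_coord hnat hf S T hT
  have hcard : Nat.card F = p ^ n := by rw [Nat.card_eq_fintype_card, hF]
  refine ⟨?_, ?_, ?_, ?_⟩
  · rw [C.comm_eq]
    exact C.fixed_comm
  · rw [C.card_V, hcard, ← pow_mul, mul_comm]
  · rw [C.card_fixed, hcard]
  · intro s hs hs1
    obtain ⟨a, rfl⟩ := C.exists_t_of_mem hs
    have ha : a ≠ 0 := by
      rintro rfl
      exact hs1 C.t_zero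
    refine ⟨C.fixed_single ha, C.comm_eq, C.comm_zpowers_eq ha, ?_⟩
    intro v hv hv2
    exact C.closure_comm_eq hv hv2

end Cfsg.Agent.S2779
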