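import Cfsg.Statements.S2781
import Cfsg.Agent.Lib.PReduced.RelNorm
import Cfsg.Agent.Lib.Core.Residual

set_option autoImplicit false
open Cfsg

namespace Cfsg.Agent.S2781

/-- Let H act faithfully by conjugation on the elementary abelian p-subgroup V of a finite group, let O^p(H) be the subgroup of H generated by its elements of order prime to p, and T a Sylow p-subgroup of O^p(H). If V is generated by the H-conjugates of C_V(T) (V is the smallest H-invariant subgroup containing C_V(T)), then V = [V, O^p(H)]·C_V(O^p(H)). -/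
theorem result {G : Type*} [Group G] [Finite G] {p : ℕ} [Fact p.Prime] (V H : Subgroup G) (hV : Cfsg.IsElementaryAbelian p V) (hHV : H ≤ Subgroup.normalizer (V : Set G)) (hf : H ⊓ Subgroup.centralizer (V : Set G) = ⊥) (R : Subgroup G) (hR : R = (Cfsg.pResidual p ↥H).map H.subtype) (S : Sylow p ↥R) (T : Subgroup G) (hT : T = ((S : Subgroup ↥R).map R.subtype)) (hgen : ∀ W : Subgroup G, H ≤ Subgroup.normalizer (W : Set G) → (V ⊓ Subgroup.centralizer ((T : Subgroup G) : Set G)) ≤ W → V ≤ W) : ⁅V, R⁆ ⊔ (V ⊓ Subgroup.centralizer ((R : Subgroup G) : Set G)) = V := by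
  classical
  have hcomm : IsMulCommutative V := hV.1
  have hRH : R ≤ H := by subst hR; exact Subgroup.map_subtype_le _
  have hRV : R ≤ Subgroup.normalizer (V : Set G) := hRH.trans hHV
  have hTR : T ≤ R := by subst hT; exact Subgroup.map_subtype_le _
  have hRn : ∀ h ∈ H, h ∈ Subgroup.normalizer (R : Set G) := by
    intro h hh
    have hn : (Cfsg.pResidual p ↥H).Normal := Cfsg.Agent.Lib.Core.Residual.pResidual_normal
    subst hR
    rw [Subgroup.mem_normalizer_iff]
    intro x
    constructor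
    · rintro ⟨y, hy, rfl⟩
      refine ⟨⟨h, hh⟩ * y * ⟨h, hh⟩⁻¹, hn.conj_mem y hy _, rfl⟩
    · rintro ⟨y, hy, hyx⟩
      have e : x = h⁻¹ * y * h := by
        have : (y : G) = h * x * h⁻¹ := by simpa using hyx
        rw [this]; group
      rw [e]
      have h2 := hn.conj_mem y hy (⟨h, hh⟩⁻¹)
      refine ⟨_, h2, ?_⟩
      simp
  have hcomV : ⁅V, R⁆ ≤ V := by
    rw [Subgroup.commutator_le]
    intro v hv r hr
    have h1 := Cfsg.Agent.Lib.PReduced.RelNorm.conj_mem_of_normalizer (hRV hr) (V.inv_mem hv)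
    have h2 := V.mul_mem hv h1
    simpa [commutatorElement_def, mul_assoc] using h2
  have hWV : ⁅V, R⁆ ⊔ (V ⊓ Subgroup.centralizer (R : Set G)) ≤ V := sup_le hcomV inf_le_left
  refine le_antisymm hWV (hgen _ ?_ ?_)
  · intro h hh
    have hhV := hHV hh
    have hhR := hRn h hh
    exact Cfsg.Agent.Lib.PReduced.RelNorm.mem_normalizer_sup
      (Cfsg.Agent.Lib.PReduced.RelNorm.mem_normalizer_commutator hhV hhR)
      (Cfsg.Agent.Lib.PReduced.RelNorm.mem_normalizer_inf hhV
        (Cfsg.Agent.Lib.PReduced.RelNorm.mem_normalizer_centralizer hhR))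
  · rintro v ⟨hv, hvT⟩
    set W := ⁅V, R⁆ ⊔ (V ⊓ Subgroup.centralizer (R : Set G)) with hW
    have hvc : ∀ x ∈ T, x * ((⟨v, hv⟩ : V) : G) = (⟨v, hv⟩ : V) * x := by
      intro x hx
      exact ((Subgroup.mem_centralizer_iff.1 hvT) x hx)
    have hN := Cfsg.Agent.Lib.PReduced.RelNorm.relNorm_mem_centralizer hRV ⟨v, hv⟩ hvc
    have hD := Cfsg.Agent.Lib.PReduced.RelNorm.relNorm_div_pow_mem (X := T) hRV ⟨v, hv⟩ ⁅V, R⁆
      (fun r hr => by
        have h1 := Subgroup.commutator_mem_commutator hr hv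
        rw [Subgroup.commutator_comm] at h1
        simpa [commutatorElement_def] using h1)
    have hNW : (Cfsg.Agent.Lib.PReduced.RelNorm.relNorm V R T hRV ⟨v, hv⟩ : G) ∈ W :=
      (le_sup_right : _ ≤ W) ⟨(Cfsg.Agent.Lib.PReduced.RelNorm.relNorm V R T hRV ⟨v, hv⟩).2, hN⟩
    have hDW := (le_sup_left : ⁅V, R⁆ ≤ W) hD
    have hpow : v ^ T.relIndex R ∈ W := by
      have h1 := W.mul_mem (W.inv_mem hDW) hNW
      have e : ((Cfsg.Agent.Lib.PReduced.RelNorm.relNorm V R T hRV ⟨v, hv⟩ : G) *
          (v ^ T.relIndex R)⁻¹)⁻¹ * (Cfsg.Agent.Lib.PReduced.RelNorm.relNorm V R T hRV ⟨v, hv⟩ : G)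
            = v ^ T.relIndex R := by group
      rw [e] at h1
      exact h1
    have hcop : (orderOf v).Coprime (T.relIndex R) := by
      have hord : orderOf v ∣ p := orderOf_dvd_of_pow_eq_one (hV.2 v hv)
      have hidx : ¬ p ∣ T.relIndex R := by
        have h1 : T.subgroupOf R = (S : Subgroup ↥R) := by
          subst hT
          exact Subgroup.comap_map_eq_self_of_injective R.subtype_injective _
        have h2 : T.relIndex R = (S : Subgroup ↥R).index := by
          unfold Subgroup.relIndex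
          rw [h1]
        rw [h2]
        exact S.not_dvd_index
      have hc : p.Coprime (T.relIndex R) :=
        ((Fact.out : p.Prime).coprime_iff_not_dvd).2 hidx
      exact Nat.Coprime.coprime_dvd_left hord hc
    exact Cfsg.Agent.Lib.PReduced.Basic.mem_of_pow_mem_of_coprime hcop hpow

end Cfsg.Agent.S2781
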