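import Cfsg.Statements.S2788
import Cfsg.Agent.Lib.SL2Faithful.Basic

set_option autoImplicit false
open Cfsg

namespace Cfsg.Agent.S2788

/-- Let H act faithfully by conjugation on the elementary abelian p-subgroup V of a finite group with H ≅ SL₂(F), F a field with p^n elements, S a Sylow p-subgroup of H, and A ≤ S a subgroup of order at least 3 acting quadratically on V ([V, A, A] = 1). Then |V/C_V(a)| ≥ p^n for every nonidentity a ∈ A. -/
theorem result {G : Type*} [Group G] [Finite G] {p : ℕ} [Fact p.Prime] (V H : Subgroup G) (hV : Cfsg.IsElementaryAbelian p V) (hHV : H ≤ Subgroup.normalizer (V : Set G)) (hf : H ⊓ Subgroup.centralizer (V : Set G) = ⊥) {F : Type*} [Field F] [Fintype F] (n : ℕ) (hF : Fintype.card F = p ^ n) (hiso : Nonempty (↥H ≃* Matrix.SpecialLinearGroup (Fin 2) F)) (S : Sylow p ↥H) (T : Subgroup G) (hT : T = ((S : Subgroup ↥H).map H.subtype)) (A : Subgroup G) (hA : A ≤ T) (hA3 : 3 ≤ Nat.card A) (hquad : ⁅⁅V, A⁆, A⁆ = ⊥) : ∀ a ∈ A, a ≠ 1 → p ^ n ≤ ((V ⊓ Subgroup.centralizer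 ({a} : Set G))).relIndex V := by
  intro a ha ha1
  obtain ⟨e⟩ := hiso
  have hVp : IsPGroup p V := by
    intro v
    exact ⟨1, by
      apply Subtype.ext
      simpa using hV.2 v v.2⟩
  have haH : a ∈ H := by
    have : a ∈ T := hA ha
    rw [hT] at this
    obtain ⟨x, -, rfl⟩ := Subgroup.mem_map.1 this
    exact x.2
  have hap : IsPGroup p (Subgroup.zpowers a) := by
    have hT' : IsPGroup p T := by
      rw [hT]
      exact S.isPGroup'.map _
    exact hT'.to_le (by
      rw [Subgroup.zpowers_le]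
      exact hA ha)
  exact Cfsg.Agent.Lib.SL2Faithful.Basic.pow_le_relIndex V H hVp hHV hf n hF e haH hap ha1

end Cfsg.Agent.S2788
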