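import Cfsg.Statements.S2857
import Cfsg.Agent.Lib.Amalgam.VIter

set_option autoImplicit false

open Cfsg

namespace Cfsg.Agent.S2857

/-- Let (M₁, M₂) be an amalgam pair in X satisfying the rank-two standing hypothesis. If n ≥ 2 and
V_λ^{(n)} ≤ Q_λ, then [V_λ^{(n)}, O^p(L_λ)] is not contained in V_λ^{(n-2)}. -/
theorem result {X : Type*} [Group X] {p : ℕ} [Fact p.Prime] (M₁ M₂ : Subgroup X) (h : Cfsg.IsSpeAmalgamPair p M₁ M₂) (lam : Cfsg.CosetVertex M₁ M₂) (n : ℕ) (hn : 2 ≤ n) (hVQ : Cfsg.vertexVIter p M₁ M₂ n lam ≤ Cfsg.vertexQ p lam) : ¬ ⁅Cfsg.vertexVIter p M₁ M₂ n lam, ((Cfsg.pResidual p ↥(Cfsg.pElementClosure p (MulAction.stabilizer X lam))).map (Cfsg.pElementClosure p (MulAction.stabilizer X lam)).subtype)⁆ ≤ Cfsg.vertexVIter p M₁ M₂ (n - 2) lam := by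
  intro hle
  obtain ⟨α, hα⟩ := Cfsg.Agent.Lib.Amalgam.VIter.exists_adj lam
  have hconn := Cfsg.Agent.Lib.Amalgam.Basic.connected_of_sup_eq_top h.1.1.1
  have hd1 : (Cfsg.cosetGraph M₁ M₂).dist α lam = 1 :=
    SimpleGraph.dist_eq_one_iff_adj.2 hα.symm
  have hmono : Cfsg.vertexVIter p M₁ M₂ (n - 2) lam ≤ Cfsg.vertexVIter p M₁ M₂ (n - 1) α :=
    Cfsg.Agent.Lib.Amalgam.VIter.vertexVIter_mono_of_dist hconn (by omega)
  exact Cfsg.Agent.Lib.Amalgam.VIter.not_commutator_le_neighbour h hα n (by omega) hVQ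
    (hle.trans hmono)

end Cfsg.Agent.S2857
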