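import Cfsg.Statements.S2947
import Cfsg.Agent.Lib.QuadAct.ZJ
import Cfsg.Agent.Lib.LocalEven.Util
import Cfsg.Agent.Lib.Core.Basic

set_option autoImplicit false
open Cfsg
open Subgroup

namespace Cfsg.Agent.S2947

open Subgroup in
theorem two_dvd_card_of_ne_bot {G : Type*} [Group G] [Finite G] {X : Subgroup G} (hX : IsPGroup 2 X)
    (hX1 : X ≠ ⊥) : 2 ∣ Nat.card X := by
  obtain ⟨n, hn⟩ := IsPGroup.iff_card.1 hX
  rw [hn]
  cases n with
  | zero =>
    exfalso
    apply hX1
    rw [pow_zero] at hn
    exact (Subgroup.eq_bot_of_card_eq _ hn)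
  | succ n => exact dvd_pow_self 2 (Nat.succ_ne_zero n)

/-- Let G be a finite group of characteristic 2 type in which every 2-local subgroup is solvable and the centralizer of Ω₁(Z(S)) lies in N_G(S) for every Sylow 2-subgroup S; suppose O₂(G) = 1, fix a Sylow 2-subgroup S and a 2-local subgroup M containing N_G(J(S)) (J the Thompson subgroup generated by the elementary abelian 2-subgroups of largest order). Then M is strongly embedded in G (a proper subgroup of even order whose intersection with each conjugate by an element outside M has odd order) if and only if no nontrivial 2-subgroup of M lies in a 2-local subgroup of G not contained in M. -/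
theorem result {G : Type*} [Group G] [Finite G] (hL : Cfsg.IsCharacteristicTwoType G) (hN : ∀ N : Subgroup G, Cfsg.IsTwoLocal N → Group.IsSolvable ↥N)
    (hZ : ∀ S : Sylow 2 G, Subgroup.centralizer (Cfsg.omegaCenterOf (S : Subgroup G) : Set G) ≤ Subgroup.normalizer ((S : Subgroup G) : Set G)) (hO : Cfsg.pCore 2 G = ⊥) (S : Sylow 2 G) (M : Subgroup G) (hM : Cfsg.IsTwoLocal M)
    (hMJ : Subgroup.normalizer (Cfsg.thompsonSubgroupOf 2 (S : Subgroup G) : Set G) ≤ M) :
    Cfsg.IsStronglyEmbedded M ↔ Cfsg.straddlingTwoSubgroups M = ∅ := by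
    classical
  haveI : Fact (Nat.Prime 2) := ⟨Nat.prime_two⟩
  have hSM : (S : Subgroup G) ≤ M :=
    (Cfsg.Agent.Lib.QuadAct.ZJ.sylow_le_normalizer_thompson S).trans hMJ
  constructor
  · intro hSE
    have key : ∀ X : Subgroup G, IsPGroup 2 X → X ≠ ⊥ → X ≤ M → normalizer (X : Set G) ≤ M := by
      intro X hX hX1 hXM g hg
      by_contra hgM
      have hodd := hSE.2.2 g hgM
      have hle : X ≤ M ⊓ M.map (MulAut.conj g).toMonoidHom := by
        refine le_inf hXM ?_
        intro x hx
        refine ⟨g⁻¹ * x * g, hXM ?_, by simp [mul_assoc]⟩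
        have := (mem_normalizer_iff.1 (inv_mem hg) x).1 hx
        simpa using this
      have h2 : 2 ∣ Nat.card X := two_dvd_card_of_ne_bot hX hX1
      have h3 : Nat.card X ∣ Nat.card ↥(M ⊓ M.map (MulAut.conj g).toMonoidHom) :=
        Subgroup.card_dvd_of_le hle
      exact (Nat.not_even_iff_odd.2 hodd) ((even_iff_two_dvd).2 (h2.trans h3))
    rw [Set.eq_empty_iff_forall_notMem]
    rintro T ⟨hT2, hT1, hTM, L, ⟨T', hT'2, hT'1, rfl⟩, hTL, hLM⟩
    apply hLM
    refine key T' hT'2 hT'1 ?_
    -- `P = T ⊔ T'` is a 2-group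
    have hP : IsPGroup 2 ↥(T' ⊔ T) := by
      have hn : T ≤ normalizer (T' : Set G) := hTL
      exact IsPGroup.to_sup_of_normal_left' hT'2 hT2 hn
    have hXP : T' ⊔ T ≤ M := by
      by_contra hPM
      have hlt : (T' ⊔ T) ⊓ M < T' ⊔ T := by
        refine lt_of_le_of_ne inf_le_left ?_
        intro h
        exact hPM (inf_eq_left.1 h)
      obtain ⟨y, hy, hyn⟩ := SetLike.exists_of_lt
        (Cfsg.Agent.Lib.LocalEven.Util.lt_normalizer_inf hP hlt)
      apply hyn
      refine ⟨hy.2, ?_⟩
      refine key _ (hP.to_le inf_le_left) ?_ inf_le_right hy.1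
      intro hb
      apply hT1
      rw [eq_bot_iff, ← hb]
      exact le_inf le_sup_right hTM
    exact le_sup_left.trans hXP
  · intro hempty
    have key : ∀ X : Subgroup G, IsPGroup 2 X → X ≠ ⊥ → X ≤ M → normalizer (X : Set G) ≤ M := by
      intro X hX hX1 hXM
      by_contra hn
      have hmem : X ∈ straddlingTwoSubgroups M :=
        ⟨hX, hX1, hXM, normalizer (X : Set G), ⟨X, hX, hX1, rfl⟩, le_normalizer, hn⟩
      rw [hempty] at hmem
      exact hmem
    obtain ⟨T₀, hT₀2, hT₀1, hMeq⟩ := hM
    refine ⟨?_, ?_, ?_⟩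
    · intro htop
      rw [hMeq] at htop
      have hN₀ : T₀.Normal := Subgroup.normalizer_eq_top_iff.1 htop
      have := Cfsg.Agent.Lib.Core.Basic.le_pCore (p := 2) hN₀ hT₀2
      rw [hO] at this
      exact hT₀1 (le_bot_iff.1 this)
    · have h1 : T₀ ≤ M := by rw [hMeq]; exact le_normalizer
      exact even_iff_two_dvd.2 ((two_dvd_card_of_ne_bot hT₀2 hT₀1).trans (Subgroup.card_dvd_of_le h1))
    · intro g hg
      by_contra hodd
      rw [Nat.not_odd_iff_even] at hodd
      set D := M ⊓ M.map (MulAut.conj g).toMonoidHom with hD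
      obtain ⟨x₀, hx₀⟩ := exists_prime_orderOf_dvd_card' 2 (even_iff_two_dvd.1 hodd)
      -- a maximal 2-subgroup of `D`
      let PP : Subgroup G → Prop := fun X => X ≤ D ∧ IsPGroup 2 X
      have hP₀ : PP (zpowers (x₀ : G)) := by
        refine ⟨(zpowers_le.2 x₀.2), ?_⟩
        refine IsPGroup.of_card (n := 1) ?_
        rw [Nat.card_zpowers, Subgroup.orderOf_coe, hx₀, pow_one]
      obtain ⟨T, hT0, hTmax⟩ := (Finite.exists_le_maximal hP₀)
      have hTD : T ≤ D := hTmax.prop.1
      have hT2 : IsPGroup 2 T := hTmax.prop.2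
      have hT1 : T ≠ ⊥ := by
        intro hb
        have : (x₀ : G) ∈ T := hT0 (mem_zpowers _)
        rw [hb, mem_bot] at this
        have h0 : orderOf x₀ = 1 := by
          rw [← Subgroup.orderOf_coe, this, orderOf_one]
        omega
      have hTM : T ≤ M := hTD.trans inf_le_left
      have hTg : ∀ t ∈ T, g⁻¹ * t * g ∈ M := by
        intro t ht
        have := (hTD ht).2
        obtain ⟨y, hy, hye⟩ := this
        have : g⁻¹ * t * g = y := by
          rw [← hye]; simp [mul_assoc]
        rw [this]; exact hy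
      -- `S` as a Sylow subgroup of `M`
      have hNT : normalizer (T : Set G) ≤ M := key T hT2 hT1 hTM
      have hconj : ∀ Y : Subgroup G, IsPGroup 2 Y → Y ≤ M → ∃ m ∈ M, ∀ y ∈ Y, m * y * m⁻¹ ∈ (S : Subgroup G) := by
        intro Y hY hYM
        let S' : Sylow 2 M := (S.subtype hSM)
        obtain ⟨h, hh, hh'⟩ := Cfsg.Agent.Lib.LocalEven.Util.exists_conj_into_sylow S' Y hY hYM
        refine ⟨h⁻¹, inv_mem hh, fun y hy => ?_⟩
        have := hh' y hy
        obtain ⟨z, hz, hze⟩ := this
        have hz' : (z : G) ∈ (S : Subgroup G) := by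
          have := hz
          simpa [S', Sylow.coe_subtype, Subgroup.mem_subgroupOf] using this
        have hze' : (z : G) = h⁻¹ * y * h := hze
        rw [inv_inv, ← hze']
        exact hz'
      obtain ⟨m₁, hm₁, h₁⟩ := hconj T hT2 hTM
      -- the conjugate `g⁻¹ T g`
      let T' : Subgroup G := T.map (MulAut.conj g⁻¹).toMonoidHom
      have hT'2 : IsPGroup 2 T' := hT2.map _
      have hT'M : T' ≤ M := by
        rintro _ ⟨t, ht, rfl⟩
        have := hTg t ht
        simpa using this
      obtain ⟨m₂, hm₂, h₂⟩ := hconj T' hT'2 hT'M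
      -- `S₂ = (m₂ g⁻¹)⁻¹ S (m₂ g⁻¹)` contains `T` and lies in `M^g`
      set a : G := m₂ * g⁻¹ with ha
      let S₂ : Subgroup G := (S : Subgroup G).map (MulAut.conj a⁻¹).toMonoidHom
      have hS₂2 : IsPGroup 2 S₂ := (S.isPGroup').map _
      have hTS₂ : T ≤ S₂ := by
        intro t ht
        refine ⟨a * t * a⁻¹, ?_, by simp [mul_assoc]⟩
        have := h₂ (g⁻¹ * t * g⁻¹⁻¹) ⟨t, ht, by simp⟩
        have he : m₂ * (g⁻¹ * t * g⁻¹⁻¹) * m₂⁻¹ = a * t * a⁻¹ := by
          rw [ha]; group
        rwa [he] at this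
      have hS₂D : S₂ ⊓ normalizer (T : Set G) ≤ D := by
        rintro y ⟨⟨s, hs, rfl⟩, hy2⟩
        refine ⟨hNT hy2, ?_⟩
        refine ⟨m₂⁻¹ * s * m₂, mul_mem (mul_mem (inv_mem hm₂) (hSM hs)) hm₂, ?_⟩
        simp only [ha, MulEquiv.coe_toMonoidHom, MulAut.conj_apply]
        group
      have hTeq : T = S₂ := by
        by_contra hne
        have hlt : T < S₂ := lt_of_le_of_ne hTS₂ hne
        have hlt2 := Cfsg.Agent.Lib.LocalEven.Util.lt_normalizer_inf hS₂2 hlt
        have hPR : PP (normalizer (T : Set G) ⊓ S₂) := by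
          refine ⟨?_, hS₂2.to_le inf_le_right⟩
          rw [inf_comm]; exact hS₂D
        have := hTmax.le_of_ge hPR hlt2.le
        exact absurd this (not_le_of_gt hlt2)
      -- conclude
      have hcardT : Nat.card T = Nat.card (S : Subgroup G) := by
        rw [hTeq]
        exact Subgroup.card_map_of_injective (MulAut.conj a⁻¹).injective
      -- `m₁ T m₁⁻¹ = S`
      have h1eq : T.map (MulAut.conj m₁).toMonoidHom = (S : Subgroup G) := by
        apply Subgroup.eq_of_le_of_card_ge
        · rintro _ ⟨t, ht, rfl⟩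
          exact h₁ t ht
        · rw [Subgroup.card_map_of_injective (MulAut.conj m₁).injective, hcardT]
      have h2eq : S₂.map (MulAut.conj a).toMonoidHom = (S : Subgroup G) := by
        ext y
        constructor
        · rintro ⟨_, ⟨s, hs, rfl⟩, rfl⟩
          have he : (MulAut.conj a).toMonoidHom ((MulAut.conj a⁻¹).toMonoidHom s) = s := by
            simp [mul_assoc]
          rw [he]; exact hs
        · intro hy
          exact ⟨a⁻¹ * y * a, ⟨y, hy, by simp⟩, by simp [mul_assoc]⟩
      -- `m₁⁻¹ a` normalizes `T`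
      have hnorm : m₁⁻¹ * a ∈ normalizer (T : Set G) := by
        apply Cfsg.Agent.Lib.LocalEven.Util.mem_normalizer_of_conj_le
        intro t ht
        have h3 : a * t * a⁻¹ ∈ (S : Subgroup G) := by
          rw [← h2eq]
          exact ⟨t, hTeq ▸ ht, rfl⟩
        rw [← h1eq] at h3
        obtain ⟨t', ht', he⟩ := h3
        have he' : m₁ * t' * m₁⁻¹ = a * t * a⁻¹ := he
        have : m₁⁻¹ * a * t * (m₁⁻¹ * a)⁻¹ = t' := by
          have : t' = m₁⁻¹ * (a * t * a⁻¹) * m₁ := by
            rw [← he']; group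
          rw [this]; group
        rw [this]; exact ht'
      have h4 : m₁⁻¹ * a ∈ M := hNT hnorm
      have h5 : a ∈ M := by
        have := mul_mem hm₁ h4
        simpa using this
      have h6 : g⁻¹ ∈ M := by
        have := mul_mem (inv_mem hm₂) h5
        simpa [ha] using this
      exact hg (by simpa using inv_mem h6)

end Cfsg.Agent.S2947
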