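import Cfsg.Statements.S3085
import Cfsg.Agent.Lib.PGroups.Special

set_option autoImplicit false
open Cfsg

namespace Cfsg.Agent.S3085

open Subgroup
open scoped commutatorElement

variable {Q : Type*} [Group Q]

/-- The data of an extraspecial 2-group in elementary form. -/
structure Data (z : Q) : Prop where
  z1 : z ≠ 1
  zc : ∀ x, z * x = x * z
  zz : z * z = 1
  comm : ∀ x y : Q, x * y = y * x ∨ x * y = z * (y * x)
  sq : ∀ x : Q, x * x = 1 ∨ x * x = z
  cen : ∀ c, (∀ x, c * x = x * c) → c = 1 ∨ c = z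

section
variable {z : Q} (D : Data z)
include D

theorem Data.not_comm {x y : Q} (h : x * y ≠ y * x) : x * y = z * (y * x) :=
  (D.comm x y).resolve_left h

theorem Data.not_comm' {x y : Q} (h : x * y ≠ y * x) : y * x = z * (x * y) := by
  have := D.not_comm h
  rw [this, ← mul_assoc, D.zz, one_mul]

end

open Classical in
/-- The "reflection" attached to an element with square `z`. -/
noncomputable def tFun (a x : Q) : Q := if x * a = a * x then x else x * a

theorem tFun_of_comm {a x : Q} (h : x * a = a * x) : tFun a x = x := by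
  simp [tFun, h]

theorem tFun_of_not {a x : Q} (h : x * a ≠ a * x) : tFun a x = x * a := by
  simp [tFun, h]

theorem tFun_mul {z a : Q} (D : Data z) (ha : a * a = z) (x y : Q) :
    tFun a (x * y) = tFun a x * tFun a y := by
  by_cases hx : x * a = a * x <;> by_cases hy : y * a = a * y
  · have : x * y * a = a * (x * y) := by
      rw [mul_assoc, hy, ← mul_assoc, hx, mul_assoc]
    rw [tFun_of_comm this, tFun_of_comm hx, tFun_of_comm hy]
  · have h1 := D.not_comm hy
    have : x * y * a ≠ a * (x * y) := by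
      intro h
      rw [mul_assoc, h1, ← mul_assoc, ← D.zc, mul_assoc z, ← mul_assoc x, hx] at h
      have h2 : z * (a * x * y) = a * x * y := by
        rw [← mul_assoc] at h
        have := h
        simpa [mul_assoc] using this
      exact D.z1 (by simpa using h2)
    rw [tFun_of_not this, tFun_of_comm hx, tFun_of_not hy, mul_assoc]
  · have h1 := D.not_comm hx
    have : x * y * a ≠ a * (x * y) := by
      intro h
      rw [mul_assoc, hy, ← mul_assoc, h1, ← mul_assoc a, mul_assoc z] at h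
      exact D.z1 (by simpa using h)
    rw [tFun_of_not this, tFun_of_not hx, tFun_of_comm hy, mul_assoc x y, hy, mul_assoc]
  · have h1 := D.not_comm hx
    have h2 := D.not_comm hy
    have h3 := D.not_comm' hy
    have : x * y * a = a * (x * y) := by
      calc x * y * a = x * (y * a) := by rw [mul_assoc]
        _ = x * (z * (a * y)) := by rw [h2]
        _ = z * (x * a) * y := by
            rw [← mul_assoc x z, ← D.zc x]; simp only [mul_assoc]
        _ = z * (z * (a * x)) * y := by rw [h1]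
        _ = a * (x * y) := by
            rw [← mul_assoc z z, D.zz, one_mul, mul_assoc]
    rw [tFun_of_comm this, tFun_of_not hx, tFun_of_not hy]
    symm
    calc x * a * (y * a) = x * (a * y) * a := by simp only [mul_assoc]
      _ = x * (z * (y * a)) * a := by rw [h3]
      _ = x * (z * y) * (a * a) := by simp only [mul_assoc]
      _ = x * (y * z) * z := by rw [ha, D.zc y]
      _ = x * y * (z * z) := by simp only [mul_assoc]
      _ = x * y := by rw [D.zz, mul_one]

/-- `tFun` as a homomorphism. -/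
noncomputable def tHom {z a : Q} (D : Data z) (ha : a * a = z) : Q →* Q :=
  MonoidHom.mk' (tFun a) (tFun_mul D ha)

@[simp] theorem tHom_apply {z a : Q} (D : Data z) (ha : a * a = z) (x : Q) :
    tHom D ha x = tFun a x := rfl

theorem tHom_injective {z a : Q} (D : Data z) (ha : a * a = z) :
    Function.Injective (tHom D ha) := by
  rw [injective_iff_map_eq_one]
  intro x hx
  rw [tHom_apply] at hx
  by_cases h : x * a = a * x
  · rwa [tFun_of_comm h] at hx
  · rw [tFun_of_not h] at hx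
    exact absurd (by rw [hx, eq_inv_of_mul_eq_one_left hx]; simp) h

/-- The reflection as an automorphism. -/
noncomputable def tAut [Finite Q] {z a : Q} (D : Data z) (ha : a * a = z) : MulAut Q :=
  MulEquiv.ofBijective (tHom D ha) (Finite.injective_iff_bijective.mp (tHom_injective D ha))

@[simp] theorem tAut_apply [Finite Q] {z a : Q} (D : Data z) (ha : a * a = z) (x : Q) :
    tAut D ha x = tFun a x := rfl

theorem aut_mul_conj (α : MulAut Q) (g : Q) :
    α * MulAut.conj g = MulAut.conj (α g) * α := by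
  ext x
  simp [MulAut.mul_apply, MulAut.conj_apply, map_mul]

theorem conj_eq_one_of_comm {c : Q} (h : ∀ x, c * x = x * c) : MulAut.conj c = 1 := by
  ext x
  simp [MulAut.conj_apply, h x]

theorem comm_of_conj_eq_one {c : Q} (h : MulAut.conj c = 1) (x : Q) : c * x = x * c := by
  have := DFunLike.congr_fun h x
  simp only [MulAut.conj_apply, MulAut.one_apply] at this
  rwa [mul_inv_eq_iff_eq_mul] at this

section main
variable [Finite Q] {z : Q} (D : Data z) {L : Subgroup (MulAut Q)}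
  (hL : (Cfsg.Inn Q).IsComplement' L)

omit [Finite Q] in
include hL in
theorem exists_decomp (α : MulAut Q) : ∃ (u : Q) (l : MulAut Q), l ∈ L ∧ α = MulAut.conj u * l := by
  have hb := (Subgroup.isComplement'_def.mp hL).surjective
  obtain ⟨⟨⟨_, ⟨u, rfl⟩⟩, ⟨l, hl⟩⟩, h⟩ := hb α
  exact ⟨u, l, hl, h.symm⟩

omit [Finite Q] in
include hL in
theorem conj_mem_L_eq {c : Q} (h : MulAut.conj c ∈ L) : MulAut.conj c = 1 := by
  have := hL.disjoint
  rw [Subgroup.disjoint_def] at this
  exact this ⟨c, rfl⟩ h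

include D in
theorem tAut_sq {a : Q} (ha : a * a = z) : tAut D ha * tAut D ha = MulAut.conj a := by
  ext x
  simp only [MulAut.mul_apply, tAut_apply, MulAut.conj_apply]
  by_cases h : x * a = a * x
  · rw [tFun_of_comm h, tFun_of_comm h, ← h]; group
  · have h2 : x * a * a ≠ a * (x * a) := by
      intro h3
      exact h (mul_right_cancel (by rw [h3, mul_assoc]))
    rw [tFun_of_not h, tFun_of_not h2, mul_assoc, ha, D.not_comm' h, mul_assoc, mul_assoc,
      mul_inv_cancel, mul_one, D.zc]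

omit [Finite Q] in
include D in
theorem not_central_of_sq {a : Q} (ha : a * a = z) : ¬ ∀ x, a * x = x * a := by
  intro h
  rcases D.cen a h with h1 | h1
  · rw [h1, one_mul] at ha
    exact D.z1 ha.symm
  · rw [h1, D.zz] at ha
    exact D.z1 ha.symm

include D hL in
/-- Claim (I). -/
theorem not_comm_of_decomp {a u l : _} (ha : a * a = z) (hl : l ∈ L)
    (h : tAut D ha = MulAut.conj u * l) : u * a ≠ a * u := by
  intro hc
  set t := tAut D ha with ht
  have hl' : l = MulAut.conj u⁻¹ * t := by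
    rw [h, map_inv]; group
  have hw : t u⁻¹ = u⁻¹ := by
    rw [ht, tAut_apply, tFun_of_comm]
    exact ((show Commute u a from hc).inv_left).eq
  have hww : MulAut.conj (u⁻¹ * u⁻¹) = 1 := by
    apply conj_eq_one_of_comm
    rcases D.sq u⁻¹ with h1 | h1 <;> rw [h1]
    · simp
    · exact D.zc
  have h2 : l * l = MulAut.conj a := by
    rw [hl']
    calc MulAut.conj u⁻¹ * t * (MulAut.conj u⁻¹ * t)
        = MulAut.conj u⁻¹ * (t * MulAut.conj u⁻¹) * t := by group
      _ = MulAut.conj u⁻¹ * (MulAut.conj (t u⁻¹) * t) * t := by rw [aut_mul_conj]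
      _ = MulAut.conj (u⁻¹ * u⁻¹) * (t * t) := by rw [hw, map_mul]; group
      _ = MulAut.conj a := by rw [hww, one_mul, tAut_sq D ha]
  have h3 : MulAut.conj a ∈ L := h2 ▸ L.mul_mem hl hl
  have h4 := conj_mem_L_eq hL h3
  exact not_central_of_sq D ha (comm_of_conj_eq_one h4)

include D in
theorem tAut_comm {a b : Q} (ha : a * a = z) (hb : b * b = z) (hab : a * b = b * a) :
    tAut D ha * tAut D hb = tAut D hb * tAut D ha := by
  ext x
  simp only [MulAut.mul_apply, tAut_apply]
  have hta : tFun a b = b := tFun_of_comm hab.symm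
  have htb : tFun b a = a := tFun_of_comm hab
  by_cases h1 : x * a = a * x <;> by_cases h2 : x * b = b * x
  · rw [tFun_of_comm h1, tFun_of_comm h2, tFun_of_comm h1]
  · rw [tFun_of_comm h1, tFun_of_not h2, tFun_mul D ha, tFun_of_comm h1, hta]
  · rw [tFun_of_not h1, tFun_of_comm h2, tFun_mul D hb, tFun_of_comm h2, htb, tFun_of_not h1]
  · rw [tFun_of_not h1, tFun_of_not h2, tFun_mul D ha, tFun_mul D hb, tFun_of_not h1,
      tFun_of_not h2, hta, htb, mul_assoc, mul_assoc, hab]

omit [Finite Q] in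
include D in
/-- If `u v g (v u)⁻¹` is central then `g` is central. -/
theorem central_of_conj {u v g : Q}
    (h : ∀ x, (u * v * g * (v * u)⁻¹) * x = x * (u * v * g * (v * u)⁻¹)) :
    ∀ x, g * x = x * g := by
  set n := v * u with hn
  have h0 : ∀ x, (n * g * n⁻¹) * x = x * (n * g * n⁻¹) := by
    rcases D.comm u v with h1 | h1
    · rw [h1] at h; exact h
    · rw [h1] at h
      intro x
      have h2 := h x
      have e : z * n * g * n⁻¹ = z * (n * g * n⁻¹) := by simp only [mul_assoc]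
      rw [e, mul_assoc z, ← mul_assoc x z, ← D.zc x, mul_assoc z x] at h2
      exact mul_left_cancel h2
  have h1 : n * g * n⁻¹ = g := by
    have h4 := h0 n
    rw [mul_assoc _ n⁻¹ n, inv_mul_cancel, mul_one] at h4
    have h5 : n * g = n * (n * g * n⁻¹) := h4
    exact (mul_left_cancel h5).symm
  rw [h1] at h0
  exact h0

include D hL in
/-- Claim (C). -/
theorem comm_of_decomp {a b u v l m : _} (ha : a * a = z) (hb : b * b = z) (hab : a * b = b * a)
    (hnc : ¬ ∀ x, (a * b) * x = x * (a * b)) (hl : l ∈ L) (hm : m ∈ L)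
    (hu : tAut D ha = MulAut.conj u * l) (hv : tAut D hb = MulAut.conj v * m) :
    u * b = b * u := by
  by_contra hub
  set ta := tAut D ha with hta
  set tb := tAut D hb with htb
  have hl' : l = MulAut.conj u⁻¹ * ta := by rw [hu, map_inv]; group
  have hm' : m = MulAut.conj v⁻¹ * tb := by rw [hv, map_inv]; group
  have hcomm : ta * tb = tb * ta := tAut_comm D ha hb hab
  have e1 : l * m = MulAut.conj (u⁻¹ * ta v⁻¹) * (ta * tb) := by
    rw [hl', hm', map_mul]
    calc MulAut.conj u⁻¹ * ta * (MulAut.conj v⁻¹ * tb)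
        = MulAut.conj u⁻¹ * (ta * MulAut.conj v⁻¹) * tb := by group
      _ = MulAut.conj u⁻¹ * (MulAut.conj (ta v⁻¹) * ta) * tb := by rw [aut_mul_conj]
      _ = _ := by group
  have e2 : m * l = MulAut.conj (v⁻¹ * tb u⁻¹) * (ta * tb) := by
    rw [hl', hm', map_mul, hcomm]
    calc MulAut.conj v⁻¹ * tb * (MulAut.conj u⁻¹ * ta)
        = MulAut.conj v⁻¹ * (tb * MulAut.conj u⁻¹) * ta := by group
      _ = MulAut.conj v⁻¹ * (MulAut.conj (tb u⁻¹) * tb) * ta := by rw [aut_mul_conj]
      _ = _ := by group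
  have e3 : MulAut.conj ((u⁻¹ * ta v⁻¹) * (v⁻¹ * tb u⁻¹)⁻¹) = l * m * (m * l)⁻¹ := by
    have : ∀ A B : Q, MulAut.conj (A * B⁻¹) = MulAut.conj A * (ta * tb) * (MulAut.conj B * (ta * tb))⁻¹ := by
      intro A B; rw [map_mul, map_inv]; group
    rw [e1, e2]; exact this _ _
  have hmemL : MulAut.conj ((u⁻¹ * ta v⁻¹) * (v⁻¹ * tb u⁻¹)⁻¹) ∈ L := by
    rw [e3]
    exact L.mul_mem (L.mul_mem hl hm) (L.inv_mem (L.mul_mem hm hl))
  have hcen := comm_of_conj_eq_one (conj_mem_L_eq hL hmemL)
  have hub' : u⁻¹ * b ≠ b * u⁻¹ := by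
    intro h
    exact hub (((show Commute u⁻¹ b from h).inv_left).eq |> fun h => by simpa using h)
  have e4 : tb u⁻¹ = u⁻¹ * b := by
    rw [htb, tAut_apply, tFun_of_not hub']
  -- `b` is not central
  have hbnc : ¬ ∀ x, b⁻¹ * x = x * b⁻¹ := by
    intro h
    refine not_central_of_sq D hb fun x => ?_
    have := h x
    have h2 : Commute b⁻¹ x := this
    exact (by simpa using h2.inv_left : Commute b x).eq
  by_cases hva : v⁻¹ * a = a * v⁻¹
  · have e5 : ta v⁻¹ = v⁻¹ := by rw [hta, tAut_apply, tFun_of_comm hva]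
    rw [e4, e5] at hcen
    refine hbnc (central_of_conj D (u := u⁻¹) (v := v⁻¹) fun x => ?_)
    have e6 : u⁻¹ * v⁻¹ * (v⁻¹ * (u⁻¹ * b))⁻¹ = u⁻¹ * v⁻¹ * b⁻¹ * (v⁻¹ * u⁻¹)⁻¹ := by group
    rw [← e6]
    simpa [mul_assoc] using hcen x
  · have e5 : ta v⁻¹ = v⁻¹ * a := by rw [hta, tAut_apply, tFun_of_not hva]
    rw [e4, e5] at hcen
    have hbi : b⁻¹ = z * b := by
      rw [inv_eq_iff_mul_eq_one, ← mul_assoc, ← D.zc, mul_assoc, hb, D.zz]
    refine hnc ?_
    have hg : ∀ x, (a * b⁻¹) * x = x * (a * b⁻¹) :=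
      central_of_conj D (u := u⁻¹) (v := v⁻¹) fun x => by
        have e6 : u⁻¹ * v⁻¹ * a * (v⁻¹ * (u⁻¹ * b))⁻¹ = u⁻¹ * v⁻¹ * (a * b⁻¹) * (v⁻¹ * u⁻¹)⁻¹ := by
          group
        rw [← e6]
        simpa [mul_assoc] using hcen x
    intro x
    have h1 := hg x
    have e7 : a * (z * b) = z * (a * b) := by rw [← mul_assoc, ← D.zc, mul_assoc]
    rw [hbi, e7, mul_assoc z, ← mul_assoc x z, ← D.zc x, mul_assoc z x] at h1
    exact mul_left_cancel h1

omit [Finite Q] in
include D in
theorem comm_mem_center (x y : Q) : ⁅x, y⁆ = 1 ∨ ⁅x, y⁆ = z := by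
  rcases D.comm x y with h | h
  · left; exact commutatorElement_eq_one_iff_mul_comm.mpr h
  · right; rw [commutatorElement_def, h]; group

omit [Finite Q] in
include D in
theorem comm_central (x y : Q) : ⁅x, y⁆ ∈ center Q := by
  rw [mem_center_iff]
  intro g
  rcases comm_mem_center D x y with h | h <;> rw [h]
  · simp
  · exact (D.zc g).symm

omit [Finite Q] in
include D in
theorem comm_eq_z {x y : Q} (h : x * y ≠ y * x) : ⁅x, y⁆ = z := by
  refine (comm_mem_center D x y).resolve_left ?_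
  rwa [commutatorElement_eq_one_iff_mul_comm]

omit [Finite Q] in
include D in
/-- Adjusting an element so that it commutes with a pair. -/
theorem exists_adjust {e f : Q} (hef : e * f ≠ f * e) (x : Q) :
    ∃ x' : Q, x' * e = e * x' ∧ x' * f = f * x' ∧
      ∀ y, y * e = e * y → y * f = f * y → (x' * y = y * x' ↔ x * y = y * x) := by
  have hc := comm_central D
  have hfe : f * e ≠ e * f := Ne.symm hef
  have hz1 := comm_eq_z D hef
  have hz2 := comm_eq_z D hfe
  have key : ∀ w, (w = 1 ∨ w = e ∨ w = f ∨ w = e * f) → ∀ y, y * e = e * y → y * f = f * y →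
      ⁅x * w, y⁆ = ⁅x, y⁆ := by
    intro w hw y h1 h2
    have h3 : Commute y e := h1
    have h4 : Commute y f := h2
    have h5 : ⁅w, y⁆ = 1 := by
      rw [commutatorElement_eq_one_iff_mul_comm]
      rcases hw with rfl | rfl | rfl | rfl
      · simp
      · exact h1.symm
      · exact h2.symm
      · exact ((h3.mul_right h4).eq).symm
    rw [Cfsg.Agent.Lib.PGroups.ClassTwo.comm_mul_left hc, h5, mul_one]
  have zz : z * z = 1 := D.zz
  by_cases h1 : x * e = e * x <;> by_cases h2 : x * f = f * x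
  · refine ⟨x, h1, h2, fun y _ _ => Iff.rfl⟩
  · -- multiply by `e`
    have h6 := comm_eq_z D h2
    refine ⟨x * e, ?_, ?_, fun y hy1 hy2 => ?_⟩
    · rw [h1, mul_assoc, h1]
    · rw [← commutatorElement_eq_one_iff_mul_comm, Cfsg.Agent.Lib.PGroups.ClassTwo.comm_mul_left hc,
        h6, hz1, zz]
    · rw [← commutatorElement_eq_one_iff_mul_comm, ← commutatorElement_eq_one_iff_mul_comm,
        key e (by simp) y hy1 hy2]
  · have h6 := comm_eq_z D h1
    refine ⟨x * f, ?_, ?_, fun y hy1 hy2 => ?_⟩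
    · rw [← commutatorElement_eq_one_iff_mul_comm, Cfsg.Agent.Lib.PGroups.ClassTwo.comm_mul_left hc,
        h6, hz2, zz]
    · rw [h2, mul_assoc, h2]
    · rw [← commutatorElement_eq_one_iff_mul_comm, ← commutatorElement_eq_one_iff_mul_comm,
        key f (by simp) y hy1 hy2]
  · have h6 := comm_eq_z D h1
    have h7 := comm_eq_z D h2
    have he : ⁅e, e⁆ = 1 := commutatorElement_self e
    have hf : ⁅f, f⁆ = 1 := commutatorElement_self f
    refine ⟨x * (e * f), ?_, ?_, fun y hy1 hy2 => ?_⟩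
    · rw [← commutatorElement_eq_one_iff_mul_comm, Cfsg.Agent.Lib.PGroups.ClassTwo.comm_mul_left hc,
        Cfsg.Agent.Lib.PGroups.ClassTwo.comm_mul_left hc, h6, he, hz2, one_mul, zz]
    · rw [← commutatorElement_eq_one_iff_mul_comm, Cfsg.Agent.Lib.PGroups.ClassTwo.comm_mul_left hc,
        Cfsg.Agent.Lib.PGroups.ClassTwo.comm_mul_left hc, h7, hf, hz1, mul_one, zz]
    · rw [← commutatorElement_eq_one_iff_mul_comm, ← commutatorElement_eq_one_iff_mul_comm,
        key (e * f) (by simp) y hy1 hy2]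


include D hL in
/-- Main combinatorial conclusion: three pairwise commuting noncentral square roots of `z`. -/
theorem no_complement_of_triple {b₁ b₂ b₃ : Q} (h1 : b₁ * b₁ = z) (h2 : b₂ * b₂ = z)
    (h3 : b₃ * b₃ = z) (h12 : b₁ * b₂ = b₂ * b₁) (h13 : b₁ * b₃ = b₃ * b₁)
    (h23 : b₂ * b₃ = b₃ * b₂) (n12 : ¬ ∀ x, (b₁ * b₂) * x = x * (b₁ * b₂))
    (n13 : ¬ ∀ x, (b₁ * b₃) * x = x * (b₁ * b₃))
    (n23 : ¬ ∀ x, (b₂ * b₃) * x = x * (b₂ * b₃)) : False := by
  have c12 : Commute b₁ b₂ := h12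
  have c13 : Commute b₁ b₃ := h13
  have c23 : Commute b₂ b₃ := h23
  set a := b₁ * b₂ * b₃ with ha
  have ha2 : a * a = z := by
    have : a * a = (b₁ * b₁) * (b₂ * b₂) * (b₃ * b₃) := by
      rw [ha]
      calc b₁ * b₂ * b₃ * (b₁ * b₂ * b₃) = b₁ * b₂ * (b₃ * (b₁ * b₂)) * b₃ := by group
        _ = b₁ * b₂ * ((b₁ * b₂) * b₃) * b₃ := by
            rw [((c13.mul_left c23).eq).symm]
        _ = b₁ * (b₂ * b₁) * b₂ * (b₃ * b₃) := by group
        _ = b₁ * (b₁ * b₂) * b₂ * (b₃ * b₃) := by rw [h12]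
        _ = _ := by group
    rw [this, h1, h2, h3, D.zz, one_mul]
  obtain ⟨u, l, hl, hu⟩ := exists_decomp hL (tAut D ha2)
  have zcen : ∀ x y : Q, (∀ w, (z * x) * w = w * (z * x)) → x = y → ∀ w, y * w = w * y := by
    intro x y h e w
    subst e
    have := h w
    rw [mul_assoc z, ← mul_assoc w z, ← D.zc w, mul_assoc z w] at this
    exact mul_left_cancel this
  have key : ∀ b : Q, ∀ hb : b * b = z, a * b = b * a → (¬ ∀ x, (a * b) * x = x * (a * b)) →
      u * b = b * u := by
    intro b hb hab hnc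
    obtain ⟨v, m, hm, hv⟩ := exists_decomp hL (tAut D hb)
    exact comm_of_decomp D hL ha2 hb hab hnc hl hm hu hv
  have ca1 : Commute a b₁ := ((Commute.refl b₁).mul_left c12.symm).mul_left c13.symm
  have ca2 : Commute a b₂ := (c12.mul_left (Commute.refl b₂)).mul_left c23.symm
  have ca3 : Commute a b₃ := (c13.mul_left c23).mul_left (Commute.refl b₃)
  have u1 : u * b₁ = b₁ * u := by
    refine key b₁ h1 ca1 fun h => n23 (zcen (b₂ * b₃) _ (fun w => ?_) rfl)
    have e : a * b₁ = z * (b₂ * b₃) := by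
      rw [ha, ← h1]
      calc b₁ * b₂ * b₃ * b₁ = b₁ * (b₂ * b₃ * b₁) := by group
        _ = b₁ * (b₁ * (b₂ * b₃)) := by rw [((c12.symm.mul_left c13.symm).eq)]
        _ = _ := by group
    rw [← e]; exact h w
  have u2 : u * b₂ = b₂ * u := by
    refine key b₂ h2 ca2 fun h => n13 (zcen (b₁ * b₃) _ (fun w => ?_) rfl)
    have e : a * b₂ = z * (b₁ * b₃) := by
      rw [ha]
      calc b₁ * b₂ * b₃ * b₂ = b₁ * b₂ * (b₃ * b₂) := by group
        _ = b₁ * b₂ * (b₂ * b₃) := by rw [h23]
        _ = b₁ * (b₂ * b₂) * b₃ := by group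
        _ = b₁ * z * b₃ := by rw [h2]
        _ = z * b₁ * b₃ := by rw [D.zc]
        _ = _ := by group
    rw [← e]; exact h w
  have u3 : u * b₃ = b₃ * u := by
    refine key b₃ h3 ca3 fun h => n12 (zcen (b₁ * b₂) _ (fun w => ?_) rfl)
    have e : a * b₃ = z * (b₁ * b₂) := by
      rw [ha, mul_assoc, h3, D.zc]
    rw [← e]; exact h w
  have hca : u * a = a * u := by
    have : Commute u a := (((show Commute u b₁ from u1).mul_right u2).mul_right u3)
    exact this
  exact not_comm_of_decomp D hL ha2 hl hu hca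

end main

section build

/-- A subgroup with more than two elements contains a non-central element. -/
theorem exists_noncentral {z : Q} (D : Data z) (R : Subgroup Q) (hR : 2 < Nat.card R) :
    ∃ r ∈ R, ¬ ∀ x, r * x = x * r := by
  by_contra hcon
  push Not at hcon
  have hsub : ((R : Set Q)) ⊆ {1, z} := by
    intro r hr
    simpa using D.cen r (hcon r hr)
  have hfin : (({1, z} : Set Q)).Finite := Set.toFinite _
  have : Nat.card R ≤ 2 := by
    have h1 : Nat.card R = Set.ncard (R : Set Q) := rfl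
    rw [h1]
    refine (Set.ncard_le_ncard hsub hfin).trans ?_
    exact (Set.ncard_insert_le _ _).trans (by simp)
  omega

/-- The centralizer of an element has index at most two in any subgroup. -/
theorem card_le_two_mul [Finite Q] {z : Q} (D : Data z) (R : Subgroup Q) (u : Q) :
    Nat.card R ≤ 2 * Nat.card (R ⊓ centralizer ({u} : Set Q) : Subgroup Q) := by
  classical
  have hc := comm_central D
  -- the hom `r ↦ ⁅r, u⁆` on `R` with values in the centre
  let f : R →* center Q :=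
    { toFun := fun r => ⟨⁅(r : Q), u⁆, hc _ _⟩
      map_one' := by ext; simp
      map_mul' := fun a b => by
        ext
        exact Cfsg.Agent.Lib.PGroups.ClassTwo.comm_mul_left hc _ _ _ }
  have hker : Nat.card f.ker = Nat.card (R ⊓ centralizer ({u} : Set Q) : Subgroup Q) := by
    refine Nat.card_congr ⟨fun x => ⟨x.1.1, x.1.2, ?_⟩, fun y => ⟨⟨y.1, y.2.1⟩, ?_⟩, ?_, ?_⟩
    · have h := x.2
      rw [MonoidHom.mem_ker] at h
      have h2 : ⁅(x.1 : Q), u⁆ = 1 := congrArg Subtype.val h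
      change (x.1 : Q) ∈ centralizer ({u} : Set Q)
      rw [mem_centralizer_iff]
      intro w hw
      rw [Set.mem_singleton_iff] at hw
      rw [hw]
      exact (commutatorElement_eq_one_iff_mul_comm.mp h2).symm
    · rw [MonoidHom.mem_ker]
      ext
      have h2 : (y : Q) ∈ centralizer ({u} : Set Q) := y.2.2
      rw [mem_centralizer_iff] at h2
      have h3 := h2 u rfl
      exact commutatorElement_eq_one_iff_mul_comm.mpr h3.symm
    · intro x; rfl
    · intro y; rfl
  have hrange : Nat.card f.range ≤ 2 := by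
    have h1 : Nat.card f.range ∣ Nat.card (center Q) := card_subgroup_dvd_card _
    have h2 : Nat.card (center Q) ≤ 2 := by
      have hsub : ((center Q : Subgroup Q) : Set Q) ⊆ {1, z} := by
        intro r hr
        have := D.cen r (fun x => (mem_center_iff.mp hr x).symm)
        simpa using this
      have h1 : Nat.card (center Q) = Set.ncard ((center Q : Subgroup Q) : Set Q) := rfl
      rw [h1]
      exact (Set.ncard_le_ncard hsub (Set.toFinite _)).trans
        ((Set.ncard_insert_le _ _).trans (by simp))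
    exact (Nat.le_of_dvd Nat.card_pos h1).trans h2
  have := card_mul_index f.ker
  rw [index_ker] at this
  rw [← this, hker, mul_comm]
  exact Nat.mul_le_mul_right _ hrange

theorem exists_sqrt {z : Q} (D : Data z) {e u : Q} (he : e * e = 1) (heu : e * u ≠ u * e) :
    ∃ b : Q, b * b = z ∧ e * b ≠ b * e ∧ (b = u ∨ b = u * e) := by
  rcases D.sq u with h | h
  · refine ⟨u * e, ?_, ?_, Or.inr rfl⟩
    · have h1 := D.not_comm heu
      calc u * e * (u * e) = u * (e * u) * e := by group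
        _ = u * (z * (u * e)) * e := by rw [h1]
        _ = z * (u * (u * e)) * e := by
            rw [← mul_assoc u z, ← D.zc u]; simp only [mul_assoc]
        _ = z * (u * u) * (e * e) := by simp only [mul_assoc]
        _ = z := by rw [h, he]; simp
    · intro h2
      apply heu
      have h3 : e * u * e = u * e * e := by rw [mul_assoc, h2, mul_assoc]
      exact mul_right_cancel h3
  · exact ⟨u, h, heu, Or.inl rfl⟩

theorem not_central_of_mul {a b e : Q} (h1 : a * e ≠ e * a) (h2 : b * e = e * b) :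
    ¬ ∀ x, (a * b) * x = x * (a * b) := by
  intro h
  apply h1
  have h3 := h e
  have h4 : a * b * e = a * e * b := by rw [mul_assoc, h2, mul_assoc]
  rw [h4, ← mul_assoc] at h3
  exact mul_right_cancel h3

/-- Construction of the triple. -/
theorem exists_triple [Finite Q] {z : Q} (D : Data z) (E : Subgroup Q)
    (hE : ∀ a ∈ E, a * a = 1) (hEc : ∀ a ∈ E, ∀ b ∈ E, a * b = b * a) (hcard : 16 ≤ Nat.card E) :
    ∃ b₁ b₂ b₃ : Q, b₁ * b₁ = z ∧ b₂ * b₂ = z ∧ b₃ * b₃ = z ∧ b₁ * b₂ = b₂ * b₁ ∧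
      b₁ * b₃ = b₃ * b₁ ∧ b₂ * b₃ = b₃ * b₂ ∧ (¬ ∀ x, (b₁ * b₂) * x = x * (b₁ * b₂)) ∧
      (¬ ∀ x, (b₁ * b₃) * x = x * (b₁ * b₃)) ∧ (¬ ∀ x, (b₂ * b₃) * x = x * (b₂ * b₃)) := by
  -- first pair
  obtain ⟨e₁, he₁, hn₁⟩ := exists_noncentral D E (by omega)
  push Not at hn₁
  obtain ⟨u₁, hu₁⟩ := hn₁
  set E₁ : Subgroup Q := E ⊓ centralizer ({u₁} : Set Q) with hE₁
  have hc₁ := card_le_two_mul D E u₁
  rw [← hE₁] at hc₁
  have mem₁ : ∀ {a : Q}, a ∈ E₁ → a ∈ E ∧ a * u₁ = u₁ * a := by
    intro a ha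
    refine ⟨ha.1, ?_⟩
    have h2 : a ∈ centralizer ({u₁} : Set Q) := ha.2
    rw [mem_centralizer_iff] at h2
    exact (h2 u₁ rfl).symm
  -- second pair
  obtain ⟨e₂, he₂, hn₂⟩ := exists_noncentral D E₁ (by omega)
  push Not at hn₂
  obtain ⟨u₂', hu₂'⟩ := hn₂
  obtain ⟨he₂E, he₂u₁⟩ := mem₁ he₂
  have he₁e₂ : e₁ * e₂ = e₂ * e₁ := hEc _ he₁ _ he₂E
  obtain ⟨u₂, h21, h22, h23⟩ := exists_adjust D hu₁ u₂'
  have hu₂ : e₂ * u₂ ≠ u₂ * e₂ := by
    intro h
    have h4 := (h23 e₂ he₁e₂.symm he₂u₁).mp h.symm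
    exact hu₂' h4.symm
  set E₂ : Subgroup Q := E₁ ⊓ centralizer ({u₂} : Set Q) with hE₂
  have hc₂ := card_le_two_mul D E₁ u₂
  rw [← hE₂] at hc₂
  have mem₂ : ∀ {a : Q}, a ∈ E₂ → a ∈ E₁ ∧ a * u₂ = u₂ * a := by
    intro a ha
    refine ⟨ha.1, ?_⟩
    have h2 : a ∈ centralizer ({u₂} : Set Q) := ha.2
    rw [mem_centralizer_iff] at h2
    exact (h2 u₂ rfl).symm
  -- third pair
  obtain ⟨e₃, he₃, hn₃⟩ := exists_noncentral D E₂ (by omega)
  push Not at hn₃
  obtain ⟨u₃', hu₃'⟩ := hn₃
  obtain ⟨he₃1, he₃u₂⟩ := mem₂ he₃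
  obtain ⟨he₃E, he₃u₁⟩ := mem₁ he₃1
  have he₁e₃ : e₁ * e₃ = e₃ * e₁ := hEc _ he₁ _ he₃E
  have he₂e₃ : e₂ * e₃ = e₃ * e₂ := hEc _ he₂E _ he₃E
  obtain ⟨w, w1, w2, w3⟩ := exists_adjust D hu₁ u₃'
  have hw : e₃ * w ≠ w * e₃ := by
    intro h
    have h4 := (w3 e₃ he₁e₃.symm he₃u₁).mp h.symm
    exact hu₃' h4.symm
  obtain ⟨u₃, h31, h32, h33⟩ := exists_adjust D hu₂ w
  have hu₃ : e₃ * u₃ ≠ u₃ * e₃ := by
    intro h
    have h4 := (h33 e₃ he₂e₃.symm he₃u₂).mp h.symm
    exact hw h4.symm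
  have h34 : u₃ * e₁ = e₁ * u₃ := by
    refine (h33 e₁ he₁e₂ ?_).mpr w1
    exact h21.symm
  have h35 : u₃ * u₁ = u₁ * u₃ := by
    refine (h33 u₁ he₂u₁.symm ?_).mpr w2
    exact h22.symm
  have he₁ee : e₁ * e₁ = 1 := hE _ he₁
  have he₂ee : e₂ * e₂ = 1 := hE _ he₂E
  have he₃ee : e₃ * e₃ = 1 := hE _ he₃E
  obtain ⟨b₁, b1, b1', b1''⟩ := exists_sqrt D he₁ee hu₁
  obtain ⟨b₂, b2, b2', b2''⟩ := exists_sqrt D he₂ee hu₂
  obtain ⟨b₃, b3, b3', b3''⟩ := exists_sqrt D he₃ee hu₃
  have comm_of : ∀ {b u e y : Q}, (b = u ∨ b = u * e) → u * y = y * u → e * y = y * e →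
      b * y = y * b := by
    intro b u e y hb h1 h2
    rcases hb with rfl | rfl
    · exact h1
    · exact ((show Commute u y from h1).mul_left (show Commute e y from h2)).eq
  -- commutation of the pairs
  have c1e₂ : b₁ * e₂ = e₂ * b₁ := comm_of b1'' he₂u₁.symm he₁e₂
  have c1e₃ : b₁ * e₃ = e₃ * b₁ := comm_of b1'' he₃u₁.symm he₁e₃
  have c1u₂ : b₁ * u₂ = u₂ * b₁ := comm_of b1'' h22.symm h21.symm
  have c1u₃ : b₁ * u₃ = u₃ * b₁ := comm_of b1'' h35.symm h34.symm
  have c2e₁ : b₂ * e₁ = e₁ * b₂ := comm_of b2'' h21 he₁e₂.symm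
  have c2e₃ : b₂ * e₃ = e₃ * b₂ := comm_of b2'' he₃u₂.symm he₂e₃
  have c2u₃ : b₂ * u₃ = u₃ * b₂ := comm_of b2'' h32.symm h31.symm
  have c3e₁ : b₃ * e₁ = e₁ * b₃ := comm_of b3'' h34 he₁e₃.symm
  have c3e₂ : b₃ * e₂ = e₂ * b₃ := comm_of b3'' h31 he₂e₃.symm
  have c12 : b₁ * b₂ = b₂ * b₁ := by
    have h := comm_of b2'' (u := u₂) (e := e₂) (y := b₁) c1u₂.symm c1e₂.symm
    exact h.symm
  have c13 : b₁ * b₃ = b₃ * b₁ := by
    have h := comm_of b3'' (u := u₃) (e := e₃) (y := b₁) c1u₃.symm c1e₃.symm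
    exact h.symm
  have c23 : b₂ * b₃ = b₃ * b₂ := by
    have h := comm_of b3'' (u := u₃) (e := e₃) (y := b₂) c2u₃.symm c2e₃.symm
    exact h.symm
  refine ⟨b₁, b₂, b₃, b1, b2, b3, c12, c13, c23, ?_, ?_, ?_⟩
  · exact not_central_of_mul (e := e₁) (Ne.symm b1') c2e₁
  · exact not_central_of_mul (e := e₁) (Ne.symm b1') c3e₁
  · exact not_central_of_mul (e := e₂) (Ne.symm b2') c3e₂

end build


theorem data_of_extraspecial [Finite Q] (hQ : Cfsg.IsExtraspecial 2 Q) :
    ∃ z : Q, Data z := by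
  have : Fact (Nat.Prime 2) := ⟨Nat.prime_two⟩
  have hcen := hQ.2
  have : 1 < Nat.card (center Q) := by omega
  have hnt := Finite.one_lt_card_iff_nontrivial.mp this
  obtain ⟨⟨z, hz⟩, hz1⟩ := exists_ne (1 : center Q)
  have hz1' : z ≠ 1 := fun h => hz1 (Subtype.ext h)
  have hS := hQ.1
  have huniq : ∀ c ∈ center Q, c = 1 ∨ c = z := by
    intro c hc
    by_contra hcon
    push Not at hcon
    classical
    have h3 : Finset.card ({1, ⟨z, hz⟩, ⟨c, hc⟩} : Finset (center Q)) ≤ Nat.card (center Q) := by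
      have : Fintype (center Q) := Fintype.ofFinite _
      rw [Nat.card_eq_fintype_card]
      exact Finset.card_le_univ _
    have h4 : Finset.card ({1, ⟨z, hz⟩, ⟨c, hc⟩} : Finset (center Q)) = 3 := by
      rw [Finset.card_eq_three]
      refine ⟨1, ⟨z, hz⟩, ⟨c, hc⟩, hz1.symm, ?_, ?_, rfl⟩
      · intro h; exact hcon.1 (congrArg Subtype.val h).symm
      · intro h; exact hcon.2 (congrArg Subtype.val h).symm
    omega
  have hzz : z * z = 1 := by
    have := Cfsg.Agent.Lib.PGroups.Special.IsSpecial.center_pow (p := 2) hS z hz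
    rwa [sq] at this
  refine ⟨z, ⟨hz1', fun x => (mem_center_iff.mp hz x).symm, hzz, fun x y => ?_, fun x => ?_,
    fun c hc => huniq c (mem_center_iff.mpr fun x => (hc x).symm)⟩⟩
  · rcases huniq _ (Cfsg.Agent.Lib.PGroups.Special.IsSpecial.comm_mem hS x y) with h | h
    · exact Or.inl (commutatorElement_eq_one_iff_mul_comm.mp h)
    · right
      rw [← h, commutatorElement_def]
      group
  · have := Cfsg.Agent.Lib.PGroups.Special.IsSpecial.pow_mem (p := 2) hS x
    rw [sq] at this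
    exact huniq _ this

/-- Let Q be an extraspecial 2-group of order 2^(2n+1) with n ≥ 3 that is of plus type (it contains an elementary abelian subgroup of order 2^(n+1)). Then the group of inner automorphisms of Q has no complement in the full automorphism group of Q: the extension of the inner automorphism group (elementary abelian of order 2^(2n)) by the outer automorphism group (the orthogonal group of plus type) does not split. -/
theorem result {Q : Type*} [Group Q] [Finite Q] (n : ℕ) (hn : 3 ≤ n) (hQ : Cfsg.IsExtraspecial 2 Q)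
    (hcard : Nat.card Q = 2 ^ (2 * n + 1))
    (hplus : ∃ E : Subgroup Q, Cfsg.IsElementaryAbelian 2 E ∧ Nat.card ↥E = 2 ^ (n + 1))
    (L : Subgroup (MulAut Q)) : ¬ (Cfsg.Inn Q).IsComplement' L := by
  intro hL
  obtain ⟨z, D⟩ := data_of_extraspecial hQ
  obtain ⟨E, ⟨hEc, hE2⟩, hEcard⟩ := hplus
  have hcardE : 16 ≤ Nat.card E := by
    rw [hEcard]
    calc 16 = 2 ^ (3 + 1) := by norm_num
      _ ≤ 2 ^ (n + 1) := Nat.pow_le_pow_right (by norm_num) (by omega)
  obtain ⟨b₁, b₂, b₃, h1, h2, h3, h12, h13, h23, n12, n13, n23⟩ :=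
    exists_triple D E (fun a ha => by simpa [sq] using hE2 a ha) (fun a ha b hb => by
      have := hEc.is_comm.comm (⟨a, ha⟩ : E) ⟨b, hb⟩
      exact congrArg Subtype.val this) hcardE
  exact no_complement_of_triple D hL h1 h2 h3 h12 h13 h23 n12 n13 n23

end Cfsg.Agent.S3085
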