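import Cfsg.Statements.S3103
import Cfsg.Agent.S0256
import Cfsg.Agent.Lib.QuadAct.ZJ
import Cfsg.Agent.Lib.Core.Constrained
import Cfsg.Agent.Lib.Classical.SLBasic
import Cfsg.Agent.Lib.PGroups.Basic

set_option autoImplicit false
open Cfsg

namespace Cfsg.Agent.S3103

open Matrix
open scoped commutatorElement

/-- `GL₄(2)` embeds in `A₈`. -/
theorem exists_embed_A8 :
    ∃ f : GL (Fin 4) (ZMod 2) →* ↥(alternatingGroup (Fin 8)), Function.Injective f := by
  obtain ⟨e⟩ := Cfsg.Agent.S0256.result (F := ZMod 2) (ZMod.card 2)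
  have hdet : ∀ g : GL (Fin 4) (ZMod 2), (g : Matrix (Fin 4) (Fin 4) (ZMod 2)).det = 1 := by
    intro g
    have h := (Matrix.isUnit_iff_isUnit_det _).mp g.isUnit
    have h1 : ∀ x : ZMod 2, IsUnit x → x = 1 := by decide
    exact h1 _ h
  let toSL : GL (Fin 4) (ZMod 2) →* SpecialLinearGroup (Fin 4) (ZMod 2) :=
    { toFun := fun g => ⟨g, hdet g⟩
      map_one' := Subtype.ext rfl
      map_mul' := fun a b => Subtype.ext rfl }
  have htoSL : Function.Injective toSL := by
    intro a b h
    apply Units.ext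
    exact congrArg Subtype.val h
  have hcen : Subgroup.center (SpecialLinearGroup (Fin 4) (ZMod 2)) = ⊥ := by
    apply Subgroup.eq_bot_of_card_eq
    rw [Cfsg.Agent.Lib.Classical.SLBasic.card_center_sl, ZMod.card]
    simp
  let mk : SpecialLinearGroup (Fin 4) (ZMod 2) →* ProjectiveSpecialLinearGroup (Fin 4) (ZMod 2) :=
    QuotientGroup.mk' _
  have hmk : Function.Injective mk := by
    rw [injective_iff_map_eq_one]
    intro a ha
    have : a ∈ Subgroup.center (SpecialLinearGroup (Fin 4) (ZMod 2)) :=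
      (QuotientGroup.eq_one_iff a).mp ha
    rwa [hcen, Subgroup.mem_bot] at this
  exact ⟨e.toMonoidHom.comp (mk.comp toSL), e.injective.comp (hmk.comp htoSL)⟩

/-- A small elementary abelian group has its automorphism group inside `GL₄(2)`. -/
theorem exists_embed_GL4 (V : Type*) [Group V] [Finite V] (hcomm : ∀ x y : V, x * y = y * x)
    (h2 : ∀ x : V, x ^ 2 = 1) (hcard : Nat.card V ≤ 16) :
    ∃ f : MulAut V →* GL (Fin 4) (ZMod 2), Function.Injective f := by
  classical
  letI : CommGroup V := { ‹Group V› with mul_comm := hcomm }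
  letI : Module (ZMod 2) (Additive V) := AddCommGroup.zmodModule (n := 2) (fun x => by
    change (Additive.ofMul (Additive.toMul x ^ 2)) = 0
    rw [h2]; rfl)
  have hfin : Module.Finite (ZMod 2) (Additive V) := Module.Finite.of_finite
  set d := Module.finrank (ZMod 2) (Additive V) with hd
  have hcard' : Nat.card (Additive V) = 2 ^ d := by
    rw [Module.natCard_eq_pow_finrank (K := ZMod 2), Nat.card_zmod]
  have hd4 : d ≤ 4 := by
    have h3 : 2 ^ d ≤ 2 ^ 4 := by
      rw [← hcard']
      exact hcard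
    exact (Nat.pow_le_pow_iff_right (by norm_num)).mp h3
  let U := Fin (4 - d) → ZMod 2
  have hfr : Module.finrank (ZMod 2) (Additive V × U) = Module.finrank (ZMod 2) (Fin 4 → ZMod 2) := by
    rw [Module.finrank_prod, ← hd]
    simp only [U, Module.finrank_fin_fun]
    omega
  let E : (Additive V × U) ≃ₗ[ZMod 2] (Fin 4 → ZMod 2) := LinearEquiv.ofFinrankEq _ _ hfr
  let τ : MulAut V → (Additive V ≃ₗ[ZMod 2] Additive V) := fun σ =>
    { toFun := fun v => Additive.ofMul (σ (Additive.toMul v))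
      invFun := fun v => Additive.ofMul (σ⁻¹ (Additive.toMul v))
      map_add' := fun a b => by simp
      map_smul' := fun c a => by
        have : (AddMonoidHom.toZModLinearMap 2 (MulEquiv.toAdditive (σ : V ≃* V)).toAddMonoidHom) (c • a) =
          c • (AddMonoidHom.toZModLinearMap 2 (MulEquiv.toAdditive (σ : V ≃* V)).toAddMonoidHom) a := map_smul _ _ _
        exact this
      left_inv := fun a => by simp
      right_inv := fun a => by simp }
  have hτ : ∀ σ v, τ σ v = Additive.ofMul (σ (Additive.toMul v)) := fun _ _ => rfl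
  let Φ : MulAut V →* ((Fin 4 → ZMod 2) ≃ₗ[ZMod 2] (Fin 4 → ZMod 2)) :=
    { toFun := fun σ => E.symm.trans (((τ σ).prodCongr (LinearEquiv.refl (ZMod 2) U)).trans E)
      map_one' := by
        apply LinearEquiv.ext
        intro x
        change E (τ 1 (E.symm x).1, (E.symm x).2) = x
        have h1 : τ 1 (E.symm x).1 = (E.symm x).1 := rfl
        rw [h1, Prod.mk.eta, E.apply_symm_apply]
      map_mul' := fun a b => by
        apply LinearEquiv.ext
        intro x
        change E (τ (a * b) (E.symm x).1, (E.symm x).2) =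
          E (τ a (E.symm (E (τ b (E.symm x).1, (E.symm x).2))).1,
            (E.symm (E (τ b (E.symm x).1, (E.symm x).2))).2)
        rw [E.symm_apply_apply]
        rfl }
  have hΦ : Function.Injective Φ := by
    rw [injective_iff_map_eq_one]
    intro σ hσ
    ext v
    have h1 := LinearEquiv.congr_fun hσ (E (Additive.ofMul v, 0))
    have h2 : E (τ σ (E.symm (E (Additive.ofMul v, 0))).1, (E.symm (E (Additive.ofMul v, 0))).2) =
        E (Additive.ofMul v, 0) := h1
    rw [E.symm_apply_apply] at h2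
    have h3 := E.injective h2
    have h4 : τ σ (Additive.ofMul v) = Additive.ofMul v := congrArg Prod.fst h3
    exact h4
  let toGL : ((Fin 4 → ZMod 2) ≃ₗ[ZMod 2] (Fin 4 → ZMod 2)) ≃* GL (Fin 4) (ZMod 2) :=
    (LinearMap.GeneralLinearGroup.generalLinearEquiv (ZMod 2) (Fin 4 → ZMod 2)).symm.trans
      (Matrix.GeneralLinearGroup.toLin (n := Fin 4) (R := ZMod 2)).symm
  exact ⟨toGL.toMonoidHom.comp Φ, toGL.injective.comp hΦ⟩

/-- X / Q embeds in `Aut(Q/Φ(Q))`. -/
theorem main {X : Type*} [Group X] [Finite X] (hc : Cfsg.IsPConstrained 2 X) (hO : Cfsg.oddCore X = ⊥)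
    (h4 : Cfsg.SectionalPRankLE 2 4 ↥(Cfsg.pCore 2 X)) :
    ∃ f : X ⧸ Cfsg.pCore 2 X →* ↥(alternatingGroup (Fin 8)), Function.Injective f := by
  classical
  haveI : Fact (Nat.Prime 2) := ⟨Nat.prime_two⟩
  have hchar : Subgroup.centralizer (Cfsg.pCore 2 X : Set X) ≤ Cfsg.pCore 2 X :=
    (Cfsg.Agent.Lib.Core.Constrained.isPConstrained_iff_of_bot hO).mp hc
  set Q := Cfsg.pCore 2 X with hQdef
  have hQp : IsPGroup 2 Q := Cfsg.Agent.Lib.Core.Basic.pCore_isPGroup
  haveI hQn : Q.Normal := Cfsg.pCore_normal 2 X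
  set Φ : Subgroup X := (frattini ↥Q).map Q.subtype with hΦ
  haveI hΦn : Φ.Normal := inferInstance
  set V : Subgroup (X ⧸ Φ) := Q.map (QuotientGroup.mk' Φ) with hV
  haveI hVn : V.Normal := Subgroup.Normal.map hQn _ (QuotientGroup.mk'_surjective Φ)
  have hmemΦ : ∀ q : Q, (q : X) ∈ Φ ↔ q ∈ frattini ↥Q := by
    intro q
    constructor
    · rintro ⟨r, hr, hrq⟩
      have : r = q := Subtype.ext hrq
      rwa [← this]
    · intro h
      exact ⟨q, h, rfl⟩
  -- the Frattini quotient is elementary abelian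
  have hVcomm : ∀ x y : V, x * y = y * x := by
    rintro ⟨_, a, ha, rfl⟩ ⟨_, b, hb, rfl⟩
    apply Subtype.ext
    have h1 : ⁅(⟨a, ha⟩ : Q), (⟨b, hb⟩ : Q)⁆ ∈ frattini ↥Q :=
      Cfsg.Agent.Lib.PGroups.Basic.commutator_le_frattini hQp
        (Subgroup.commutator_mem_commutator (Subgroup.mem_top _) (Subgroup.mem_top _))
    have h2 : ⁅a, b⁆ ∈ Φ := (hmemΦ _).mpr h1
    have h3 : (QuotientGroup.mk' Φ) ⁅a, b⁆ = 1 := (QuotientGroup.eq_one_iff _).mpr h2
    rw [map_commutatorElement, commutatorElement_eq_one_iff_mul_comm] at h3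
    exact h3
  have hV2 : ∀ x : V, x ^ 2 = 1 := by
    rintro ⟨_, a, ha, rfl⟩
    apply Subtype.ext
    have h1 : (⟨a, ha⟩ : Q) ^ 2 ∈ frattini ↥Q := Cfsg.Agent.Lib.PGroups.Basic.pow_mem_frattini hQp _
    have h2 : a ^ 2 ∈ Φ := (hmemΦ _).mpr h1
    have h3 : (QuotientGroup.mk' Φ) (a ^ 2) = 1 := (QuotientGroup.eq_one_iff _).mpr h2
    rw [map_pow] at h3
    exact h3
  -- its order
  have hVcard : Nat.card V ≤ 16 := by
    let ψ : Q →* X ⧸ Φ := (QuotientGroup.mk' Φ).comp Q.subtype
    have h1 : ψ.range = V := by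
      rw [MonoidHom.range_comp, Subgroup.range_subtype]
    have h2 : ψ.ker = frattini ↥Q := by
      ext q
      rw [MonoidHom.mem_ker]
      change (QuotientGroup.mk' Φ) (q : X) = 1 ↔ _
      rw [QuotientGroup.mk'_apply, QuotientGroup.eq_one_iff, hmemΦ]
    have h3 : (frattini ↥Q).index = Nat.card V := by
      rw [← h2, ← h1]
      exact Subgroup.index_ker ψ
    rw [← h3]
    let N : Subgroup (⊤ : Subgroup Q) := (frattini ↥Q).subgroupOf ⊤
    haveI : N.Normal := inferInstance
    have h5 := h4 ⊤ N ⊤ ?_ ?_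
    · rw [Subgroup.card_top] at h5
      have h6 : Nat.card ((⊤ : Subgroup Q) ⧸ N) = (frattini ↥Q).index := by
        change N.index = _
        change (frattini ↥Q).relIndex ⊤ = _
        rw [Subgroup.relIndex_top_right]
      rw [h6] at h5
      simpa using h5
    · refine ⟨⟨?_⟩⟩
      rintro ⟨a, -⟩ ⟨b, -⟩
      induction a using QuotientGroup.induction_on with | H a => ?_
      induction b using QuotientGroup.induction_on with | H b => ?_
      apply Subtype.ext
      change (QuotientGroup.mk (a * b) : (⊤ : Subgroup Q) ⧸ N) = QuotientGroup.mk (b * a)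
      rw [QuotientGroup.eq]
      have h7 : ⁅(b : Q)⁻¹, (a : Q)⁻¹⁆ ∈ frattini ↥Q :=
        Cfsg.Agent.Lib.PGroups.Basic.commutator_le_frattini hQp
          (Subgroup.commutator_mem_commutator (Subgroup.mem_top _) (Subgroup.mem_top _))
      have h8 : (a * b)⁻¹ * (b * a) = (⟨⁅(b : Q)⁻¹, (a : Q)⁻¹⁆, Subgroup.mem_top _⟩ : (⊤ : Subgroup Q)) := by
        apply Subtype.ext
        simp [commutatorElement_def, mul_assoc]
      rw [h8]
      exact h7
    · rintro a -
      induction a using QuotientGroup.induction_on with | H a => ?_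
      change (QuotientGroup.mk (a ^ 2) : (⊤ : Subgroup Q) ⧸ N) = 1
      rw [QuotientGroup.eq_one_iff]
      exact Cfsg.Agent.Lib.PGroups.Basic.pow_mem_frattini hQp (a : Q)
  obtain ⟨g, hg⟩ := exists_embed_GL4 V hVcomm hV2 hVcard
  obtain ⟨f, hf⟩ := exists_embed_A8
  let φ : X →* MulAut V := (MulAut.conjNormal (H := V)).comp (QuotientGroup.mk' Φ)
  have hφ : ∀ x, x ∈ Q ↔ φ x = 1 := by
    intro x
    constructor
    · intro hx
      ext v
      have h1 : (QuotientGroup.mk' Φ x) ∈ V := ⟨x, hx, rfl⟩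
      change ((φ x) v : X ⧸ Φ) = v
      have h2 : ((φ x) v : X ⧸ Φ) = (QuotientGroup.mk' Φ x) * (v : X ⧸ Φ) * (QuotientGroup.mk' Φ x)⁻¹ := rfl
      rw [h2]
      have h3 := hVcomm ⟨_, h1⟩ v
      have h4 := congrArg Subtype.val h3
      change (QuotientGroup.mk' Φ x) * (v : X ⧸ Φ) = (v : X ⧸ Φ) * (QuotientGroup.mk' Φ x) at h4
      rw [h4]
      group
    · intro hx
      have hle : φ.ker ≤ Cfsg.sectionKernel Q Φ := by
        intro y hy
        have hy' : φ y = 1 := hy
        change (QuotientGroup.mk' Φ y) ∈ Subgroup.centralizer ((V : Subgroup (X ⧸ Φ)) : Set (X ⧸ Φ))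
        rw [Subgroup.mem_centralizer_iff]
        intro v hv
        have h1 := congrArg (fun τ : MulAut V => ((τ ⟨v, hv⟩ : V) : X ⧸ Φ)) hy'
        have h2 : (QuotientGroup.mk' Φ y) * v * (QuotientGroup.mk' Φ y)⁻¹ = v := h1
        exact (mul_inv_eq_iff_eq_mul.mp h2).symm
      have hp : IsPGroup 2 (Cfsg.sectionKernel Q Φ) :=
        Cfsg.Agent.Lib.QuadAct.ZJ.isPGroup_sectionKernel hchar
      exact Cfsg.Agent.Lib.Core.Basic.le_pCore φ.normal_ker (hp.to_le hle) hx
  refine ⟨QuotientGroup.lift Q (f.comp (g.comp φ)) (fun x hx => ?_), ?_⟩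
  · change f (g (φ x)) = 1
    rw [(hφ x).mp hx, map_one, map_one]
  · rw [injective_iff_map_eq_one]
    intro a ha
    induction a using QuotientGroup.induction_on with | H x => ?_
    have h1 : f (g (φ x)) = 1 := ha
    have h2 : g (φ x) = 1 := hf (by rw [h1, map_one])
    have h3 : φ x = 1 := hg (by rw [h2, map_one])
    exact (QuotientGroup.eq_one_iff x).mpr ((hφ x).mpr h3)

/-- Let X be a finite 2-constrained group with no nontrivial normal subgroup of odd order such that O₂(X) has sectional 2-rank at most 4. Then X/O₂(X) is isomorphic to a subgroup of the alternating group of degree 8. -/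
theorem result {X : Type*} [Group X] [Finite X] (hc : Cfsg.IsPConstrained 2 X) (hO : Cfsg.oddCore X = ⊥)
    (h4 : Cfsg.SectionalPRankLE 2 4 ↥(Cfsg.pCore 2 X)) :
    ∃ f : X ⧸ Cfsg.pCore 2 X →* ↥(alternatingGroup (Fin 8)), Function.Injective f :=
  main hc hO h4

end Cfsg.Agent.S3103
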