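import Cfsg.Statements.S3116
import Mathlib

set_option autoImplicit false
open Cfsg

namespace Cfsg.Agent.S3116

private lemma odd_geom (k : ℤ) (hk : Odd k) (m : ℕ) (hm : Odd m) : Odd (∑ i ∈ Finset.range m, k ^ i) := by
  have h : ∀ m : ℕ, (Even (∑ i ∈ Finset.range m, k ^ i) ↔ Even m) := by
    intro m
    induction m with
    | zero => simp
    | succ j ih =>
      rw [Finset.sum_range_succ, Int.even_add, ih, Nat.even_add_one]
      have : ¬ Even (k ^ j) := by
        rw [Int.not_even_iff_odd]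
        exact hk.pow
      tauto
  rw [← Int.not_even_iff_odd, h, Nat.not_even_iff_odd]
  exact hm

private lemma coprime_two_pow_of_odd (s : ℤ) (hs : Odd s) (n : ℕ) : IsCoprime ((2 : ℤ) ^ n) s := by
  apply IsCoprime.pow_left
  obtain ⟨t, rfl⟩ := hs
  exact ⟨-t, 1, by ring⟩

private lemma dvd_sub_one (k : ℤ) (m n : ℕ) (hm : Odd m) (hn : 1 ≤ n)
    (h : (2 : ℤ) ^ n ∣ k ^ m - 1) : (2 : ℤ) ^ n ∣ k - 1 := by
  have h2 : (2 : ℤ) ∣ k ^ m - 1 := (dvd_pow_self (2 : ℤ) (by omega)).trans h
  have hkm : Odd (k ^ m) := by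
    obtain ⟨t, ht⟩ := h2
    exact ⟨t, by linarith⟩
  have hk : Odd k := by
    by_contra hcon
    rw [Int.not_odd_iff_even] at hcon
    have : Even (k ^ m) := hcon.pow_of_ne_zero (by
      rintro rfl
      exact absurd hm (by decide))
    exact (Int.not_even_iff_odd.2 hkm) this
  have hgeom := mul_geom_sum k m
  rw [← hgeom] at h
  exact (coprime_two_pow_of_odd _ (odd_geom k hk m hm) n).dvd_of_dvd_mul_right h

/-- A 2-group with a cyclic subgroup of index two whose complement consists of elements of small order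
has a 2-group as automorphism group. -/
private lemma aut_two_group {X : Type*} [Group X] [Finite X] (h2 : IsPGroup 2 X) (x y : X) (e : ℕ)
    (hy : y ∉ Subgroup.zpowers x) (hgen : ∀ g, g ∉ Subgroup.zpowers x → y⁻¹ * g ∈ Subgroup.zpowers x)
    (hout : ∀ g, g ∉ Subgroup.zpowers x → g ^ e = 1) (hxe : x ^ e ≠ 1) : IsPGroup 2 (MulAut X) := by
  haveI : Finite (MulAut X) := Finite.of_injective (fun f => (f : X → X)) DFunLike.coe_injective
  have hx1 : x ≠ 1 := by
    rintro rfl
    simp at hxe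
  obtain ⟨n, hn⟩ : ∃ n, orderOf x = 2 ^ n := (IsPGroup.iff_orderOf.1 h2) x
  have hn1 : 1 ≤ n := by
    rcases Nat.eq_zero_or_pos n with rfl | h
    · rw [pow_zero, orderOf_eq_one_iff] at hn
      exact absurd hn hx1
    · exact h
  have hdvd : ∀ c : ℤ, x ^ c = 1 ↔ (2 : ℤ) ^ n ∣ c := by
    intro c
    rw [← orderOf_dvd_iff_zpow_eq_one, hn]
    push_cast
    rfl
  have hchar : ∀ α : MulAut X, α x ∈ Subgroup.zpowers x := by
    intro α
    by_contra h
    have h3 := hout _ h
    rw [← map_pow] at h3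
    exact hxe (α.injective (by rw [h3, map_one]))
  have hCinv : ∀ (α : MulAut X) (g : X), g ∈ Subgroup.zpowers x → α g ∈ Subgroup.zpowers x := by
    intro α g hg
    obtain ⟨i, rfl⟩ := Subgroup.mem_zpowers_iff.1 hg
    rw [map_zpow]
    exact Subgroup.zpow_mem _ (hchar α) i
  have key : ∀ (β : MulAut X) (m : ℕ), Odd m → β ^ m = 1 → β = 1 := by
    intro β m hm hβ
    obtain ⟨k, hk⟩ := Subgroup.mem_zpowers_iff.1 (hchar β)
    have hpow : ∀ j : ℕ, (β ^ j) x = x ^ (k ^ j) := by
      intro j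
      induction j with
      | zero => simp
      | succ j ih =>
        rw [pow_succ, MulAut.mul_apply, ← hk, map_zpow, ih, ← zpow_mul, pow_succ]
    have h3 : x ^ (k ^ m - 1) = 1 := by
      have h4 := hpow m
      rw [hβ] at h4
      rw [zpow_sub, zpow_one, ← h4]
      simp
    have h4 := dvd_sub_one k m n hm hn1 ((hdvd _).1 h3)
    have hβx : β x = x := by
      rw [← hk]
      have h5 := (hdvd _).2 h4
      rw [zpow_sub, zpow_one] at h5
      exact mul_inv_eq_one.1 h5
    have hfix : ∀ j : ℕ, (β ^ j) x = x := by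
      intro j
      induction j with
      | zero => simp
      | succ j ih => rw [pow_succ, MulAut.mul_apply, hβx, ih]
    have hβy : β y ∉ Subgroup.zpowers x := by
      intro h5
      apply hy
      have := hCinv β⁻¹ _ h5
      simpa using this
    obtain ⟨c, hc⟩ := Subgroup.mem_zpowers_iff.1 (hgen _ hβy)
    have hβy' : β y = y * x ^ c := by rw [hc]; group
    have hpowy : ∀ j : ℕ, (β ^ j) y = y * x ^ ((j : ℤ) * c) := by
      intro j
      induction j with
      | zero => simp
      | succ j ih =>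
        rw [pow_succ, MulAut.mul_apply, hβy', map_mul, ih, map_zpow, hfix, mul_assoc, ← zpow_add]
        congr 2
        push_cast
        ring
    have h5 : x ^ ((m : ℤ) * c) = 1 := by
      have h6 := hpowy m
      rw [hβ] at h6
      have h7 : y = y * x ^ ((m : ℤ) * c) := h6
      exact (mul_eq_left.1 h7.symm)
    have h6 := (hdvd _).1 h5
    have hmodd : Odd (m : ℤ) := by exact_mod_cast hm
    have h7 : (2 : ℤ) ^ n ∣ c := (coprime_two_pow_of_odd _ hmodd n).dvd_of_dvd_mul_left h6
    have h8 : x ^ c = 1 := (hdvd _).2 h7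
    have hβy2 : β y = y := by rw [hβy', h8, mul_one]
    apply MulEquiv.ext
    intro g
    change β g = g
    by_cases hg : g ∈ Subgroup.zpowers x
    · obtain ⟨i, rfl⟩ := Subgroup.mem_zpowers_iff.1 hg
      rw [map_zpow, hβx]
    · obtain ⟨i, hi⟩ := Subgroup.mem_zpowers_iff.1 (hgen g hg)
      have : g = y * x ^ i := by rw [hi]; group
      rw [this, map_mul, map_zpow, hβx, hβy2]
  intro α
  obtain ⟨a, m, hm, ha⟩ := Nat.exists_eq_two_pow_mul_odd (orderOf_pos α).ne'
  refine ⟨a, key (α ^ (2 ^ a)) m hm ?_⟩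
  rw [← pow_mul, ← ha, pow_orderOf_eq_one]

private lemma aut_dihedral (N : ℕ) (hN : 4 ≤ N) (h2 : IsPGroup 2 (DihedralGroup N)) :
    IsPGroup 2 (MulAut (DihedralGroup N)) := by
  haveI : NeZero N := ⟨by omega⟩
  haveI : Finite (DihedralGroup N) := inferInstance
  have hord : orderOf (DihedralGroup.r 1 : DihedralGroup N) = N := DihedralGroup.orderOf_r_one
  have hrmem : ∀ i : ZMod N, (DihedralGroup.r i : DihedralGroup N) ∈
      Subgroup.zpowers (DihedralGroup.r 1 : DihedralGroup N) := by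
    intro i
    have : (DihedralGroup.r i : DihedralGroup N) = DihedralGroup.r 1 ^ (i.val) := by
      rw [DihedralGroup.r_one_pow, ZMod.natCast_val, ZMod.cast_id', id]
    rw [this]
    exact pow_mem (Subgroup.mem_zpowers _) _
  have hsr : ∀ i : ZMod N, (DihedralGroup.sr i : DihedralGroup N) ∉
      Subgroup.zpowers (DihedralGroup.r 1 : DihedralGroup N) := by
    intro i hi
    obtain ⟨k, hk⟩ := Subgroup.mem_zpowers_iff.1 hi
    have hcomm : ∀ g ∈ Subgroup.zpowers (DihedralGroup.r 1 : DihedralGroup N), ∃ j : ZMod N, g = DihedralGroup.r j := by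
      intro g hg
      obtain ⟨k, rfl⟩ := Subgroup.mem_zpowers_iff.1 hg
      induction k using Int.induction_on with
      | zero => exact ⟨0, rfl⟩
      | succ i ih =>
        obtain ⟨j, hj⟩ := ih (Subgroup.mem_zpowers_iff.2 ⟨i, rfl⟩)
        refine ⟨j + 1, ?_⟩
        rw [zpow_add, hj]
        simp [DihedralGroup.r_mul_r]
      | pred i ih =>
        obtain ⟨j, hj⟩ := ih (Subgroup.mem_zpowers_iff.2 ⟨-(i : ℤ), rfl⟩)
        refine ⟨j - 1, ?_⟩
        rw [zpow_sub, hj]
        simp [DihedralGroup.r_mul_r, sub_eq_add_neg]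
    obtain ⟨j, hj⟩ := hcomm _ hi
    exact absurd hj (by simp)
  refine aut_two_group h2 (DihedralGroup.r 1) (DihedralGroup.sr 0) 2 (hsr 0) ?_ ?_ ?_
  · rintro (g | g) hg
    · exact absurd (hrmem g) hg
    · simp only [DihedralGroup.inv_sr, DihedralGroup.sr_mul_sr]
      exact hrmem _
  · rintro (g | g) hg
    · exact absurd (hrmem g) hg
    · rw [pow_two, DihedralGroup.sr_mul_self]
  · intro h
    have := orderOf_dvd_of_pow_eq_one h
    rw [hord] at this
    have := Nat.le_of_dvd (by norm_num) this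
    omega

private lemma aut_semidihedral {X : Type*} [Group X] [Finite X] (h2 : IsPGroup 2 X) (h : Cfsg.IsQuasiDihedral X) :
    IsPGroup 2 (MulAut X) := by
  obtain ⟨n, hn, hcard, x, y, hx, hy, hyx⟩ := h
  have hy2 : y * y = 1 := by rw [← pow_two, ← hy, pow_orderOf_eq_one]
  have hyi : y⁻¹ = y := inv_eq_of_mul_eq_one_left hy2
  have hxn : (2 : ℕ) ^ n = 2 * 2 ^ (n - 1) := by
    obtain ⟨t, rfl⟩ : ∃ t, n = t + 1 := ⟨n - 1, by omega⟩
    simp [pow_succ, mul_comm]
  -- y is not in ⟨x⟩
  have h4 : 4 ≤ 2 ^ (n - 1) := by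
    calc 4 = 2 ^ 2 := by norm_num
      _ ≤ 2 ^ (n - 1) := Nat.pow_le_pow_right (by norm_num) (by omega)
  have hyC : y ∉ Subgroup.zpowers x := by
    intro hmem
    obtain ⟨k, hk⟩ := Subgroup.mem_zpowers_iff.1 hmem
    have hc : y * x = x * y := by
      rw [← hk]
      exact (Commute.zpow_self x k).eq
    have h5 : y * x * y⁻¹ = x := by rw [hc]; group
    rw [h5] at hyx
    have h6 : x ^ (2 ^ (n - 1) - 2) = 1 := by
      have h7 : 2 ^ (n - 1) - 1 = (2 ^ (n - 1) - 2) + 1 := by omega
      rw [h7, pow_succ] at hyx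
      exact (mul_eq_right.1 hyx.symm)
    have h8 := orderOf_dvd_of_pow_eq_one h6
    rw [hx] at h8
    have h9 := Nat.le_of_dvd (by omega) h8
    omega
  -- index
  have hindex : (Subgroup.zpowers x).index = 2 := by
    have h1 := (Subgroup.zpowers x).card_mul_index
    rw [Nat.card_zpowers, hx, hcard, pow_succ] at h1
    exact Nat.eq_of_mul_eq_mul_left (by positivity) h1
  have hgen : ∀ g, g ∉ Subgroup.zpowers x → y⁻¹ * g ∈ Subgroup.zpowers x := by
    intro g hg
    rw [Subgroup.mul_mem_iff_of_index_two hindex, hyi]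
    tauto
  have hout : ∀ g, g ∉ Subgroup.zpowers x → g ^ 4 = 1 := by
    intro g hg
    obtain ⟨i, hi⟩ := Subgroup.mem_zpowers_iff.1 (hgen g hg)
    have hg' : g = y * x ^ i := by rw [hi]; group
    have hconj : y * x ^ i * y⁻¹ = (x ^ (2 ^ (n - 1) - 1)) ^ i := by
      have := map_zpow (MulAut.conj y) x i
      simp only [MulAut.conj_apply] at this
      rw [this, hyx]
    have hsq : g * g = x ^ (i * (2 ^ (n - 1) : ℤ)) := by
      rw [hg']
      calc y * x ^ i * (y * x ^ i) = (y * x ^ i * y⁻¹) * (y * y) * x ^ i := by group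
        _ = (x ^ (2 ^ (n - 1) - 1)) ^ i * x ^ i := by rw [hconj, hy2, mul_one]
        _ = x ^ (i * (2 ^ (n - 1) : ℤ)) := by
          rw [← zpow_natCast, ← zpow_mul, ← zpow_add]
          congr 1
          have : ((2 ^ (n - 1) - 1 : ℕ) : ℤ) = (2 : ℤ) ^ (n - 1) - 1 := by
            rw [Nat.cast_sub (by omega)]
            push_cast
            rfl
          rw [this]
          ring
    have : g ^ 4 = (g * g) * (g * g) := by simp [pow_succ, mul_assoc]
    rw [this, hsq, ← zpow_add]
    rw [← orderOf_dvd_iff_zpow_eq_one, hx]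
    refine ⟨i, ?_⟩
    have hxn' : (2 : ℤ) ^ n = 2 * 2 ^ (n - 1) := by exact_mod_cast hxn
    push_cast
    rw [hxn']
    ring
  refine aut_two_group h2 x y 4 hyC hgen hout ?_
  intro h
  have := orderOf_dvd_of_pow_eq_one h
  rw [hx] at this
  have := Nat.le_of_dvd (by norm_num) this
  have h8 : 8 ≤ 2 ^ n := by
    calc 8 = 2 ^ 3 := by norm_num
      _ ≤ 2 ^ n := Nat.pow_le_pow_right (by norm_num) hn
  omega

/-- The automorphism group of a dihedral 2-group of order at least 8, or of a quasi-dihedral (semidihedral) 2-group of order at least 16, is a 2-group. -/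
theorem result {X : Type*} [Group X] [Finite X] (h2 : IsPGroup 2 X)
    (h : (∃ n : ℕ, 4 ≤ n ∧ Nonempty (X ≃* DihedralGroup n)) ∨ Cfsg.IsQuasiDihedral X) : IsPGroup 2 (MulAut X) := by
  rcases h with ⟨n, hn, ⟨e⟩⟩ | h
  · have h1 : IsPGroup 2 (DihedralGroup n) := h2.of_equiv e
    exact (aut_dihedral n hn h1).of_equiv (MulAut.congr e).symm
  · exact aut_semidihedral h2 h

end Cfsg.Agent.S3116
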