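import Cfsg.Statements.S3117
import Cfsg.Agent.Lib.TwoFusion.ThreeInv

set_option autoImplicit false
open Cfsg

namespace Cfsg.Agent.S3117

/-- In a 2-group with exactly three involutions, involutions commute. -/
theorem invol_comm {X : Type*} [Group X] [Finite X] (h2 : IsPGroup 2 X)
    (h3 : Nat.card {x : X // orderOf x = 2} = 3) (s t : X) (hs : s * s = 1) (ht : t * t = 1) :
    s * t = t * s := by
  classical
  by_contra hne
  have hs1 : s ≠ 1 := by
    rintro rfl
    simp at hne
  set c := s * t with hc
  have hsinv : s⁻¹ = s := inv_eq_of_mul_eq_one_left hs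
  have htinv : t⁻¹ = t := inv_eq_of_mul_eq_one_left ht
  have hcs : s * c * s = c⁻¹ := by
    rw [hc, mul_inv_rev, hsinv, htinv]
    calc s * (s * t) * s = (s * s) * t * s := by group
      _ = t * s := by rw [hs, one_mul]
  have hpow : ∀ i : ℕ, s * c ^ i * s = (c⁻¹) ^ i := by
    intro i
    induction i with
    | zero =>
      rw [pow_zero, pow_zero, mul_one, hs]
    | succ i ih =>
      rw [pow_succ]
      calc s * (c ^ i * c) * s = s * c ^ i * 1 * c * s := by simp [mul_assoc]
        _ = s * c ^ i * (s * s) * c * s := by rw [hs]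
        _ = (s * c ^ i * s) * (s * c * s) := by simp only [mul_assoc]
        _ = (c⁻¹) ^ i * c⁻¹ := by rw [ih, hcs]
        _ = (c⁻¹) ^ (i + 1) := (pow_succ _ _).symm
  have hsq : ∀ i : ℕ, (s * c ^ i) * (s * c ^ i) = 1 := by
    intro i
    calc (s * c ^ i) * (s * c ^ i) = (s * c ^ i * s) * c ^ i := by simp only [mul_assoc]
      _ = 1 := by rw [hpow]; simp
  have hc1 : c * c ≠ 1 := by
    intro h
    apply hne
    have h1 : c⁻¹ = c := inv_eq_of_mul_eq_one_left h
    rw [hc, mul_inv_rev, hsinv, htinv] at h1
    exact h1.symm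
  -- the order of `c` is at least four
  have hord : 4 ≤ orderOf c := by
    obtain ⟨k, hk⟩ := h2 c
    obtain ⟨j, _, hj⟩ := (Nat.dvd_prime_pow Nat.prime_two).mp (orderOf_dvd_of_pow_eq_one hk)
    by_contra hlt
    have hj1 : j ≤ 1 := by
      by_contra h5
      have : 2 ^ 2 ≤ 2 ^ j := Nat.pow_le_pow_right (by norm_num) (by omega)
      omega
    have hdv : orderOf c ∣ 2 := by
      rw [hj]
      interval_cases j <;> norm_num
    have := orderOf_dvd_iff_pow_eq_one.mp hdv
    rw [pow_two] at this
    exact hc1 this
  have hne1 : ∀ i : ℕ, s * c ^ i ≠ 1 := by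
    intro i h
    apply hc1
    have h1 : s = (c ^ i)⁻¹ := eq_inv_of_mul_eq_one_left h
    have h5 : s * c = c * s := by
      rw [h1, ← zpow_natCast, ← zpow_neg]
      exact (Commute.refl c).zpow_left _
    have h6 : c⁻¹ = c := by
      rw [← hcs, h5, mul_assoc, hs, mul_one]
    calc c * c = c⁻¹ * c := by rw [h6]
      _ = 1 := inv_mul_cancel c
  -- four involutions
  let f : Fin 4 → {x : X // orderOf x = 2} := fun i =>
    ⟨s * c ^ (i : ℕ), orderOf_eq_prime (by rw [pow_two]; exact hsq i) (hne1 i)⟩
  have hf : Function.Injective f := by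
    intro i j hij
    have h1 : s * c ^ (i : ℕ) = s * c ^ (j : ℕ) := congrArg Subtype.val hij
    have h5 := mul_left_cancel h1
    have h6 := pow_injOn_Iio_orderOf (x := c) (x₁ := i) (x₂ := j)
      (by simp only [Set.mem_Iio]; have := i.2; omega)
      (by simp only [Set.mem_Iio]; have := j.2; omega) h5
    exact Fin.ext h6
  have h7 := Nat.card_le_card_of_injective f hf
  rw [h3, Nat.card_eq_fintype_card, Fintype.card_fin] at h7
  omega

open Cfsg.Agent.Lib.TwoFusion.ThreeInv in
/-- The abstract statement on minimal action. -/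
theorem not_solvable_false {X : Type*} [Group X] [Finite X] (h2 : IsPGroup 2 X)
    (V : Subgroup X) (hV : ∀ y, y ∈ V ↔ y * y = 1) (hcard : Nat.card V ≤ 4)
    (D : Subgroup (MulAut X)) (hD : ⁅D, D⁆ = D) (hne : D ≠ ⊥) : False := by
  classical
  haveI : Finite D := inferInstance
  -- the minimal subgroup
  let P : Set (Subgroup X) :=
    {Y | (∀ b ∈ D, ∀ y ∈ Y, (b : MulAut X) y ∈ Y) ∧ ∃ b ∈ D, ∃ y ∈ Y, (b : MulAut X) y ≠ y}
  have hP : P.Nonempty := by
    refine ⟨⊤, fun _ _ _ _ => trivial, ?_⟩
    obtain ⟨b, hb1⟩ := Subgroup.ne_bot_iff_exists_ne_one.mp hne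
    have hb2 : (b : MulAut X) ≠ 1 := fun h => hb1 (Subtype.ext h)
    have : ∃ y, (b : MulAut X) y ≠ y := by
      by_contra hall
      push Not at hall
      exact hb2 (MulEquiv.ext hall)
    obtain ⟨y, hy⟩ := this
    exact ⟨b.1, b.2, y, trivial, hy⟩
  obtain ⟨Y, hYP, hYmin⟩ := (wellFounded_lt (α := Subgroup X)).has_min P hP
  obtain ⟨hinv, b₀, hb₀, y₀, hy₀, hne₀⟩ := hYP
  let φ : D →* MulAut Y :=
    { toFun := fun b =>
        { toFun := fun y => ⟨(b : MulAut X) y, hinv b b.2 y y.2⟩
          invFun := fun y => ⟨((b : MulAut X)⁻¹) y, hinv _ (D.inv_mem b.2) y y.2⟩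
          left_inv := fun y => Subtype.ext (MulAut.inv_apply_self _ _ _)
          right_inv := fun y => Subtype.ext (MulAut.apply_inv_self _ _ _)
          map_mul' := fun x y => Subtype.ext (map_mul (b : MulAut X) x.1 y.1) }
      map_one' := by
        ext y
        rfl
      map_mul' := fun a b => by
        ext y
        rfl }
  have hφ : ∀ (b : D) (y : Y), ((φ b y : Y) : X) = (b : MulAut X) y := fun b y => rfl
  have hc : Ctx φ :=
    { perf := (Subgroup.isPerfect_iff.mpr hD).commutator_eq_top
      p2 := h2.to_subgroup Y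
      ne := ⟨⟨b₀, hb₀⟩, ⟨y₀, hy₀⟩, fun h => hne₀ (congrArg Subtype.val h)⟩
      min := by
        intro W hW hinvW b w hw
        by_contra hnefix
        let W' : Subgroup X := W.map Y.subtype
        have hW'P : W' ∈ P := by
          refine ⟨?_, b.1, b.2, w.1, ⟨w, hw, rfl⟩, fun h => hnefix (Subtype.ext h)⟩
          rintro a ha _ ⟨z, hz, rfl⟩
          exact ⟨φ ⟨a, ha⟩ z, hinvW ⟨a, ha⟩ z hz, rfl⟩
        apply hYmin W' hW'P
        refine lt_of_le_of_ne ?_ ?_
        · rintro _ ⟨z, _, rfl⟩
          exact z.2
        · intro h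
          apply hW
          rw [eq_top_iff]
          intro z _
          have hz : z.1 ∈ W' := by rw [h]; exact z.2
          obtain ⟨z', hz', he⟩ := hz
          have : z' = z := Subtype.ext he
          rwa [← this] }
  let V₀ : Subgroup Y := V.comap Y.subtype
  have hV₀ : ∀ y, y ∈ V₀ ↔ y * y = 1 := by
    intro y
    show y.1 ∈ V ↔ _
    rw [hV]
    constructor
    · intro h
      exact Subtype.ext h
    · intro h
      exact congrArg Subtype.val h
  have hcard₀ : Nat.card V₀ ≤ 4 := by
    refine le_trans ?_ hcard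
    apply Nat.card_le_card_of_injective (fun y : V₀ => (⟨y.1.1, y.2⟩ : V))
    intro a b hab
    apply Subtype.ext
    apply Subtype.ext
    have hab' : (⟨a.1.1, a.2⟩ : V) = ⟨b.1.1, b.2⟩ := hab
    have h4 := congrArg Subtype.val hab'
    exact h4
  haveI := normal_V V₀ hV₀
  exact hc.false_of V₀ hV₀ hcard₀



/-- If X is a finite 2-group containing exactly three involutions, then the automorphism group of X is solvable. -/
theorem result {X : Type*} [Group X] [Finite X] (h2 : IsPGroup 2 X) (h3 : Nat.card {x : X // orderOf x = 2} = 3) : Group.IsSolvable (MulAut X) := by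
  classical
  by_contra hns
  -- the perfect subgroup
  let f : ℕ → ℕ := fun n => Nat.card (derivedSeries (MulAut X) n)
  let n₀ := Function.argmin f
  let D := derivedSeries (MulAut X) n₀
  have hD : ⁅D, D⁆ = D := by
    have hle : ⁅D, D⁆ ≤ D := Subgroup.commutator_le_self D
    apply Subgroup.eq_of_le_of_card_ge hle
    have : f n₀ ≤ f (n₀ + 1) := Function.argmin_le f (n₀ + 1)
    exact this
  have hne : D ≠ ⊥ := fun h => hns ((Group.isSolvable_def _).mpr ⟨n₀, h⟩)
  -- the four-group
  have hcomm := invol_comm h2 h3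
  let V : Subgroup X :=
    { carrier := {y | y * y = 1}
      one_mem' := mul_one 1
      mul_mem' := fun {a b} ha hb => by
        have ha' : a * a = 1 := ha
        have hb' : b * b = 1 := hb
        show a * b * (a * b) = 1
        calc a * b * (a * b) = a * (b * a) * b := by group
          _ = a * (a * b) * b := by rw [hcomm b a hb' ha']
          _ = (a * a) * (b * b) := by group
          _ = 1 := by rw [ha', hb', one_mul]
      inv_mem' := fun {a} ha => by
        have ha' : a * a = 1 := ha
        show a⁻¹ * a⁻¹ = 1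
        rw [← mul_inv_rev, ha', inv_one] }
  have hV : ∀ y, y ∈ V ↔ y * y = 1 := fun y => Iff.rfl
  have hcard : Nat.card V ≤ 4 := by
    let g : V → Option {x : X // orderOf x = 2} := fun y =>
      if h : y.1 = 1 then none else
        some ⟨y.1, orderOf_eq_prime (by rw [pow_two]; exact y.2) h⟩
    have hg : Function.Injective g := by
      intro a b hab
      apply Subtype.ext
      by_cases ha : a.1 = 1
      · by_cases hb : b.1 = 1
        · rw [ha, hb]
        · have h1 : g a = none := dif_pos ha
          have h2' : g b = some ⟨b.1, orderOf_eq_prime (by rw [pow_two]; exact b.2) hb⟩ := dif_neg hb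
          rw [h1, h2'] at hab
          exact absurd hab (by simp)
      · by_cases hb : b.1 = 1
        · have h1 : g b = none := dif_pos hb
          have h2' : g a = some ⟨a.1, orderOf_eq_prime (by rw [pow_two]; exact a.2) ha⟩ := dif_neg ha
          rw [h1, h2'] at hab
          exact absurd hab (by simp)
        · have h1 : g a = some ⟨a.1, orderOf_eq_prime (by rw [pow_two]; exact a.2) ha⟩ := dif_neg ha
          have h2' : g b = some ⟨b.1, orderOf_eq_prime (by rw [pow_two]; exact b.2) hb⟩ := dif_neg hb
          rw [h1, h2'] at hab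
          have h3' := Option.some.inj hab
          have h4 := congrArg Subtype.val h3'
          exact h4
    have h7 := Nat.card_le_card_of_injective g hg
    rw [Finite.card_option, h3] at h7
    exact h7
  exact not_solvable_false h2 V hV hcard D hD hne

end Cfsg.Agent.S3117
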