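import Cfsg.Statements.S3356
import Mathlib

set_option autoImplicit false

open Cfsg MulAction

namespace Cfsg.Agent.S3356

lemma dvd_card_of_orbits {G X : Type*} [Group G] [MulAction G X] [Finite X] {f : ℕ}
    (h : ∀ x : X, f ∣ Nat.card (orbit G x)) : f ∣ Nat.card X := by
  classical
  have := Fintype.ofFinite X
  have e := Nat.card_congr (MulAction.selfEquivSigmaOrbits G X)
  rw [e, Nat.card_sigma]
  exact Finset.dvd_sum fun i _ => h _

lemma block_lemma {H X : Type*} [Group H] [Finite H] [MulAction H X] (Y : Set X) (hY : Y.Finite)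
    (B : Subgroup H) (t : ℕ)
    (ht : ∀ y ∈ Y, Nat.card (stabilizer H y) = t)
    (hBY : ∀ b ∈ B, ∀ y ∈ Y, b • y ∈ Y)
    (hCB : ∀ y ∈ Y, stabilizer H y ≤ B)
    (hcop : Nat.Coprime (Nat.card Y) (Nat.card H / t)) :
    ∀ y ∈ Y, stabilizer H y = B := by
  intro y0 hy0
  let S : SubMulAction B X := ⟨Y, fun b {y} hy => hBY b b.2 y hy⟩
  have : Finite S := hY
  have hcS : Nat.card S = Nat.card Y := rfl
  have hstab : ∀ s : S, Nat.card (stabilizer B s) = t := by
    intro s
    rw [← ht s.1 s.2]
    have : stabilizer B s = (stabilizer H s.1).subgroupOf B := by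
      ext b
      simp only [mem_stabilizer_iff, Subgroup.mem_subgroupOf]
      constructor
      · intro h
        exact congrArg Subtype.val h
      · intro h
        exact Subtype.ext h
    rw [this]
    exact Nat.card_congr (Subgroup.subgroupOfEquivOfLe (hCB s.1 s.2)).toEquiv
  have ht0 : 0 < t := by
    rw [← ht y0 hy0]; exact Nat.card_pos
  -- f
  have hf : ∀ s : S, Nat.card (orbit B s) * t = Nat.card B := by
    intro s
    have h1 := Subgroup.index_mul_card (stabilizer B s)
    rw [hstab s, MulAction.index_stabilizer] at h1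
    rwa [Nat.card_coe_set_eq]
  let s0 : S := ⟨y0, hy0⟩
  set f := Nat.card (orbit B s0) with hfdef
  have hf0 : f * t = Nat.card B := hf s0
  have hall : ∀ s : S, f ∣ Nat.card (orbit B s) := by
    intro s
    have := hf s
    have h2 : Nat.card (orbit B s) = f := by
      apply Nat.eq_of_mul_eq_mul_right ht0
      rw [this, hf0]
    rw [h2]
  have hfY : f ∣ Nat.card Y := by
    rw [← hcS]; exact dvd_card_of_orbits hall
  have hfH : f ∣ Nat.card H / t := by
    have h3 := Subgroup.card_mul_index B
    rw [← hf0] at h3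
    have : Nat.card H / t = f * B.index := by
      rw [← h3]
      rw [show f * t * B.index = t * (f * B.index) by ring]
      exact Nat.mul_div_cancel_left _ ht0
    rw [this]
    exact dvd_mul_right _ _
  have hf1 : f = 1 := Nat.eq_one_of_dvd_coprimes hcop hfY hfH
  have : Nat.card B = Nat.card (stabilizer H y0) := by
    rw [← hf0, hf1, one_mul, ht y0 hy0]
  exact Subgroup.eq_of_le_of_card_ge (hCB y0 hy0) this.le

section abs

variable {H N : Type*} [Group H] [Group N] [Finite H] [Finite N] [MulDistribMulAction H N]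

lemma smul_ne_one' (h : H) {x : N} (hx : x ≠ 1) : h • x ≠ 1 := by
  intro h1
  apply hx
  have := congrArg (fun z => h⁻¹ • z) h1
  simpa using this

lemma coprime_card (hcard : ∀ x y : N, x ≠ 1 → y ≠ 1 →
      Nat.card (stabilizer H x) = Nat.card (stabilizer H y)) (x : N) (hx : x ≠ 1) :
    Nat.Coprime (Nat.card N) (Nat.card H / Nat.card (stabilizer H x)) := by
  classical
  set t := Nat.card (stabilizer H x) with ht
  have ht0 : 0 < t := Nat.card_pos
  set s := Nat.card H / t with hs
  have hsH : s * t = Nat.card H := by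
    have h1 := Subgroup.index_mul_card (stabilizer H x)
    rw [hs]
    exact Nat.div_mul_cancel ⟨_, by rw [← h1, mul_comm]⟩
  let S : SubMulAction H N := ⟨{z | z ≠ 1}, fun b {y} hy => smul_ne_one' b hy⟩
  have hall : ∀ z : S, s ∣ Nat.card (orbit H z) := by
    intro z
    have h1 := Subgroup.index_mul_card (stabilizer H z)
    rw [MulAction.index_stabilizer] at h1
    have h2 : stabilizer H z = stabilizer H (z : N) := by
      ext b
      simp only [mem_stabilizer_iff]
      constructor
      · intro h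
        exact congrArg Subtype.val h
      · intro h
        exact Subtype.ext h
    rw [h2, hcard z.1 x z.2 hx, ← ht, ← hsH] at h1
    have h3 : (orbit H z).ncard = s := Nat.eq_of_mul_eq_mul_right ht0 h1
    rw [Nat.card_coe_set_eq, h3]
  have h4 : s ∣ Nat.card S := dvd_card_of_orbits hall
  have h5 : Nat.card S + 1 = Nat.card N := by
    have := Fintype.ofFinite N
    have : Nat.card S = Nat.card {z : N // z ≠ 1} := rfl
    rw [this, Nat.card_eq_fintype_card, Nat.card_eq_fintype_card]
    have h6 : Fintype.card {z : N // z ≠ 1} = Fintype.card N - 1 := Set.card_ne_eq (1 : N)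
    have : 0 < Fintype.card N := Fintype.card_pos
    omega
  rw [← h5]
  have : Nat.Coprime s (Nat.card S + 1) := by
    obtain ⟨k, hk⟩ := h4
    rw [hk]
    simp
  exact this.symm

lemma isConj_smul (h : H) {x y : N} (hxy : IsConj x y) : IsConj (h • x) (h • y) := by
  rw [isConj_iff] at hxy ⊢
  obtain ⟨c, rfl⟩ := hxy
  exact ⟨h • c, by simp [smul_mul', smul_inv']⟩

def classStab (x : N) : Subgroup H where
  carrier := {h | IsConj x (h • x)}
  mul_mem' := by
    intro a b ha hb
    simp only [Set.mem_ofPred_eq] at *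
    rw [mul_smul]
    exact ha.trans (isConj_smul a hb)
  one_mem' := by
    show IsConj x ((1 : H) • x)
    rw [one_smul]
  inv_mem' := by
    intro a ha
    simp only [Set.mem_ofPred_eq] at *
    have := isConj_smul a⁻¹ ha
    rw [inv_smul_smul] at this
    exact this.symm

lemma class_eq (hcard : ∀ x y : N, x ≠ 1 → y ≠ 1 →
      Nat.card (stabilizer H x) = Nat.card (stabilizer H y)) (x : N) (hx : x ≠ 1) (n : N) :
    stabilizer H (n * x * n⁻¹) = stabilizer H x := by
  have hconj : ∀ y, IsConj x y → y ≠ 1 := by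
    intro y hy h1
    rw [h1, isConj_one_left] at hy
    exact hx hy
  have hYmem : ∀ y, y ∈ orbit (ConjAct N) x ↔ IsConj x y := fun y => by
    rw [ConjAct.mem_orbit_conjAct]; exact ⟨fun h => h.symm, fun h => h.symm⟩
  have key := block_lemma (H := H) (orbit (ConjAct N) x) (Set.toFinite _) (classStab x)
    (Nat.card (stabilizer H x))
    (fun y hy => hcard y x (hconj y ((hYmem y).1 hy)) hx)
    (by
      intro b hb y hy
      rw [hYmem] at hy ⊢
      have hb' : IsConj x (b • x) := hb
      exact hb'.trans (isConj_smul b hy))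
    (by
      intro y hy h hh
      rw [hYmem] at hy
      have hh' : h • y = y := hh
      have h1 := isConj_smul h hy
      rw [hh'] at h1
      show IsConj x (h • x)
      exact hy.trans h1.symm)
    (by
      have h1 : Nat.card (orbit (ConjAct N) x) ∣ Nat.card N := by
        have h2 := Subgroup.index_dvd_card (stabilizer (ConjAct N) x)
        rw [MulAction.index_stabilizer, ← Nat.card_coe_set_eq] at h2
        have h3 : Nat.card (ConjAct N) = Nat.card N := Nat.card_congr ConjAct.ofConjAct.toEquiv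
        rwa [h3] at h2
      exact (coprime_card hcard x hx).coprime_dvd_left h1)
  have hxmem : x ∈ orbit (ConjAct N) x := mem_orbit_self x
  have hymem : n * x * n⁻¹ ∈ orbit (ConjAct N) x := by
    rw [hYmem, isConj_iff]; exact ⟨n, rfl⟩
  rw [key _ hymem, key _ hxmem]

def cosetStab (L : Subgroup N) (hL : ∀ h : H, ∀ l ∈ L, h • l ∈ L) (y : N) : Subgroup H where
  carrier := {h | y⁻¹ * (h • y) ∈ L}
  mul_mem' := by
    intro a b ha hb
    simp only [Set.mem_ofPred_eq] at *
    rw [mul_smul]
    have h1 := hL a _ hb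
    rw [smul_mul', smul_inv'] at h1
    have : y⁻¹ * a • b • y = (y⁻¹ * a • y) * ((a • y)⁻¹ * a • b • y) := by group
    rw [this]
    exact L.mul_mem ha h1
  one_mem' := by simp [L.one_mem]
  inv_mem' := by
    intro a ha
    simp only [Set.mem_ofPred_eq] at *
    have h1 := L.inv_mem (hL a⁻¹ _ ha)
    rw [smul_mul', smul_inv', inv_smul_smul] at h1
    simpa using h1

lemma coset_eq (hcard : ∀ x y : N, x ≠ 1 → y ≠ 1 →
      Nat.card (stabilizer H x) = Nat.card (stabilizer H y))
    (L : Subgroup N) (hL : ∀ h : H, ∀ l ∈ L, h • l ∈ L) (y : N) (hy : y ∉ L) (l : N) (hl : l ∈ L) :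
    stabilizer H (y * l) = stabilizer H y := by
  have hy1 : y ≠ 1 := fun h => hy (h ▸ L.one_mem)
  have hne : ∀ w ∈ (fun l => y * l) '' (L : Set N), w ≠ 1 := by
    rintro w ⟨l, hl, rfl⟩ h1
    apply hy
    have : y = l⁻¹ := eq_inv_of_mul_eq_one_left h1
    rw [this]
    exact L.inv_mem hl
  have key := block_lemma (H := H) ((fun l => y * l) '' (L : Set N)) (Set.toFinite _)
    (cosetStab L hL y) (Nat.card (stabilizer H y))
    (fun w hw => hcard w y (hne w hw) hy1)
    (by
      rintro b hb _ ⟨l, hl, rfl⟩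
      refine ⟨y⁻¹ * (b • y) * (b • l), L.mul_mem hb (hL b l hl), ?_⟩
      simp [smul_mul', mul_assoc])
    (by
      rintro _ ⟨l, hl, rfl⟩ h hh
      have hh' : h • (y * l) = y * l := hh
      rw [smul_mul'] at hh'
      show y⁻¹ * (h • y) ∈ L
      have : h • y = y * l * (h • l)⁻¹ := by rw [← hh']; group
      rw [this]
      have := L.mul_mem hl (L.inv_mem (hL h l hl))
      simpa [mul_assoc] using this)
    (by
      have h1 : Nat.card ((fun l => y * l) '' (L : Set N)) ∣ Nat.card N := by
        rw [Nat.card_coe_set_eq, Set.ncard_image_of_injective _ (mul_right_injective y),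
          ← Nat.card_coe_set_eq]
        exact Subgroup.card_subgroup_dvd_card L
      exact (coprime_card hcard y hy1).coprime_dvd_left h1)
  rw [key _ ⟨l, hl, rfl⟩, key _ ⟨1, L.one_mem, by simp⟩]

lemma stab_eq_of_le (hcard : ∀ x y : N, x ≠ 1 → y ≠ 1 →
      Nat.card (stabilizer H x) = Nat.card (stabilizer H y)) {x y : N} (hx : x ≠ 1) (hy : y ≠ 1)
    (h : stabilizer H x ≤ stabilizer H y) : stabilizer H x = stabilizer H y :=
  Subgroup.eq_of_le_of_card_ge h (hcard y x hy hx).le

lemma stab_inv (x : N) : stabilizer H x⁻¹ = stabilizer H x := by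
  ext h
  simp only [mem_stabilizer_iff, smul_inv', inv_inj]

lemma le_stab_mul (x y : N) : stabilizer H x ⊓ stabilizer H y ≤ stabilizer H (x * y) := by
  intro h hh
  have h1 : h • x = x := hh.1
  have h2 : h • y = y := hh.2
  show h • (x * y) = x * y
  rw [smul_mul', h1, h2]

def fixGroup (hcard : ∀ x y : N, x ≠ 1 → y ≠ 1 →
      Nat.card (stabilizer H x) = Nat.card (stabilizer H y)) (x : N) (hx : x ≠ 1) : Subgroup N where
  carrier := {z | z = 1 ∨ stabilizer H z = stabilizer H x}
  mul_mem' := by
    intro a b ha hb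
    simp only [Set.mem_ofPred_eq] at *
    rcases ha with rfl | ha
    · simpa using hb
    rcases hb with rfl | hb
    · simpa using Or.inr ha
    by_cases h : a * b = 1
    · exact Or.inl h
    · right
      refine (stab_eq_of_le hcard hx h ?_).symm
      have := le_stab_mul (H := H) a b
      rw [ha, hb, inf_idem] at this
      exact this
  one_mem' := Or.inl rfl
  inv_mem' := by
    intro a ha
    simp only [Set.mem_ofPred_eq] at *
    rcases ha with rfl | ha
    · left; simp
    · right; rw [stab_inv, ha]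

lemma fixGroup_normal (hcard : ∀ x y : N, x ≠ 1 → y ≠ 1 →
      Nat.card (stabilizer H x) = Nat.card (stabilizer H y)) (x : N) (hx : x ≠ 1) :
    (fixGroup hcard x hx).Normal := by
  constructor
  intro z hz n
  by_cases hz1 : z = 1
  · subst hz1
    left; simp
  · rcases hz with rfl | hz
    · exact absurd rfl hz1
    · right
      rw [class_eq hcard z hz1 n, hz]

lemma commute_of_ne (hcard : ∀ x y : N, x ≠ 1 → y ≠ 1 →
      Nat.card (stabilizer H x) = Nat.card (stabilizer H y)) {x y : N} (hx : x ≠ 1) (hy : y ≠ 1)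
    (hne : stabilizer H x ≠ stabilizer H y) : Commute x y := by
  refine Subgroup.commute_of_normal_of_disjoint (fixGroup hcard x hx) (fixGroup hcard y hy)
    (fixGroup_normal hcard x hx) (fixGroup_normal hcard y hy) ?_ x y (Or.inr rfl) (Or.inr rfl)
  rw [Subgroup.disjoint_def]
  intro w hw1 hw2
  rcases hw1 with hw1 | hw1
  · exact hw1
  rcases hw2 with hw2 | hw2
  · exact hw2
  exact absurd (hw1.symm.trans hw2) hne

/-- If all stabilizers of non-identity elements coincide, one of them being nontrivial, the action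
is not faithful. -/
lemma exists_stab_ne (hcard : ∀ x y : N, x ≠ 1 → y ≠ 1 →
      Nat.card (stabilizer H x) = Nat.card (stabilizer H y))
    (hfaith : ∀ h : H, (∀ x : N, h • x = x) → h = 1)
    (hnt : ∃ x : N, x ≠ 1 ∧ stabilizer H x ≠ ⊥) (x : N) (hx : x ≠ 1) :
    ∃ y : N, y ≠ 1 ∧ stabilizer H y ≠ stabilizer H x := by
  by_contra hcon
  push Not at hcon
  obtain ⟨x0, hx0, hx0b⟩ := hnt
  apply hx0b
  rw [eq_bot_iff]
  intro h hh
  rw [Subgroup.mem_bot]
  apply hfaith
  intro z
  by_cases hz : z = 1
  · rw [hz, smul_one]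
  · have : h ∈ stabilizer H z := by
      rw [hcon z hz, ← hcon x0 hx0]; exact hh
    exact this

lemma abs_comm (hcard : ∀ x y : N, x ≠ 1 → y ≠ 1 →
      Nat.card (stabilizer H x) = Nat.card (stabilizer H y))
    (hfaith : ∀ h : H, (∀ x : N, h • x = x) → h = 1)
    (hnt : ∃ x : N, x ≠ 1 ∧ stabilizer H x ≠ ⊥) (x x' : N) : Commute x x' := by
  by_cases hx : x = 1
  · subst hx; exact Commute.one_left _
  by_cases hx' : x' = 1
  · subst hx'; exact Commute.one_right _
  by_cases hne : stabilizer H x = stabilizer H x'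
  · obtain ⟨y, hy, hyne⟩ := exists_stab_ne hcard hfaith hnt x hx
    have h1 : Commute x y := (commute_of_ne hcard hy hx hyne).symm
    have hx'y : x' * y ≠ 1 := by
      intro h
      apply hyne
      have : y = x'⁻¹ := eq_inv_of_mul_eq_one_right h
      rw [this, stab_inv, hne]
    have h2 : stabilizer H (x' * y) ≠ stabilizer H x := by
      intro h
      apply hyne
      refine (stab_eq_of_le hcard hx hy ?_).symm
      intro k hk
      have h3 : k ∈ stabilizer H (x' * y) := by rw [h]; exact hk
      have h4 : k ∈ stabilizer H x' := by rw [← hne]; exact hk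
      have h3' : k • (x' * y) = x' * y := h3
      have h4' : k • x' = x' := h4
      rw [smul_mul', h4'] at h3'
      exact mul_left_cancel h3'
    have h5 : Commute x (x' * y) := (commute_of_ne hcard hx'y hx h2).symm
    have h6 : x * x' * y = x' * x * y := by
      calc x * x' * y = x * (x' * y) := by group
        _ = (x' * y) * x := h5.eq
        _ = x' * (y * x) := by group
        _ = x' * (x * y) := by rw [h1.eq]
        _ = x' * x * y := by group
    exact mul_right_cancel h6
  · exact commute_of_ne hcard hx hx' hne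

lemma abs_exp (hcard : ∀ x y : N, x ≠ 1 → y ≠ 1 →
      Nat.card (stabilizer H x) = Nat.card (stabilizer H y))
    (hfaith : ∀ h : H, (∀ x : N, h • x = x) → h = 1)
    (hnt : ∃ x : N, x ≠ 1 ∧ stabilizer H x ≠ ⊥) :
    ∃ p : ℕ, p.Prime ∧ ∀ w : N, w ^ p = 1 := by
  have hcomm := abs_comm hcard hfaith hnt
  obtain ⟨x0, hx0, hx0b⟩ := hnt
  have hn : Nat.card N ≠ 1 := by
    intro h
    have := (Nat.card_eq_one_iff_unique.1 h).1
    exact hx0 (Subsingleton.elim _ _)
  obtain ⟨p, hp, hpd⟩ := Nat.exists_prime_and_dvd hn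
  haveI := Fact.mk hp
  obtain ⟨u, hu⟩ := exists_prime_orderOf_dvd_card' p hpd
  refine ⟨p, hp, ?_⟩
  have hu1 : u ≠ 1 := by
    intro h
    rw [h, orderOf_one] at hu
    exact hp.one_lt.ne hu
  have hup : u ^ p = 1 := by rw [← hu]; exact pow_orderOf_eq_one u
  have hpowle : ∀ z : N, stabilizer H z ≤ stabilizer H (z ^ p) := by
    intro z k hk
    have hk' : k • z = z := hk
    show k • z ^ p = z ^ p
    rw [smul_pow', hk']
  -- every element of order dividing `p` has the same stabilizer as `w`
  have hall1 : ∀ w : N, w ^ p ≠ 1 → ∀ z : N, z ≠ 1 → z ^ p = 1 →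
      stabilizer H z = stabilizer H w := by
    intro w hw z hz hzp
    have hw1 : w ≠ 1 := by
      intro h; rw [h, one_pow] at hw; exact hw rfl
    have hCw : stabilizer H w = stabilizer H (w ^ p) := stab_eq_of_le hcard hw1 hw (hpowle w)
    have h1 : (w * z) ^ p = w ^ p := by
      rw [(hcomm w z).mul_pow, hzp, mul_one]
    have h2 : w * z ≠ 1 := by
      intro h; rw [h, one_pow] at h1; exact hw h1.symm
    have h3 : stabilizer H (w * z) = stabilizer H w := by
      have := stab_eq_of_le hcard h2 hw (h1 ▸ hpowle (w * z))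
      rw [this, hCw]
    symm
    refine stab_eq_of_le hcard hw1 hz ?_
    intro k hk
    have hk' : k • w = w := hk
    have h4 : k ∈ stabilizer H (w * z) := by rw [h3]; exact hk
    have h4' : k • (w * z) = w * z := h4
    rw [smul_mul', hk'] at h4'
    exact mul_left_cancel h4'
  by_contra hcon
  push Not at hcon
  obtain ⟨w, hw⟩ := hcon
  have hw1 : w ≠ 1 := by
    intro h; rw [h, one_pow] at hw; exact hw rfl
  obtain ⟨y, hy, hyne⟩ := exists_stab_ne hcard hfaith ⟨x0, hx0, hx0b⟩ w hw1
  by_cases hyp : y ^ p = 1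
  · exact hyne (hall1 w hw y hy hyp)
  · apply hyne
    rw [← hall1 y hyp u hu1 hup, hall1 w hw u hu1 hup]

lemma abs_min (hcard : ∀ x y : N, x ≠ 1 → y ≠ 1 →
      Nat.card (stabilizer H x) = Nat.card (stabilizer H y))
    (hfaith : ∀ h : H, (∀ x : N, h • x = x) → h = 1)
    (hnt : ∃ x : N, x ≠ 1 ∧ stabilizer H x ≠ ⊥)
    (L : Subgroup N) (hL : ∀ h : H, ∀ l ∈ L, h • l ∈ L) (hLb : L ≠ ⊥) : L = ⊤ := by
  by_contra hLt
  obtain ⟨y0, hy0⟩ : ∃ y : N, y ∉ L := by
    by_contra hcon
    push Not at hcon
    exact hLt (by rw [eq_top_iff]; intro z _; exact hcon z)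
  obtain ⟨⟨l0, hl0⟩, hl01'⟩ := Subgroup.ne_bot_iff_exists_ne_one.1 hLb
  have hl01 : l0 ≠ 1 := by
    intro h2; exact hl01' (Subtype.ext h2)
  have key : ∀ y : N, y ∉ L → ∀ l ∈ L, l ≠ 1 → stabilizer H y = stabilizer H l := by
    intro y hy l hl hl1
    have hy1 : y ≠ 1 := fun h => hy (h ▸ L.one_mem)
    refine stab_eq_of_le hcard hy1 hl1 ?_
    intro k hk
    have hk' : k • y = y := hk
    have h1 : k ∈ stabilizer H (y * l) := by rw [coset_eq hcard L hL y hy l hl]; exact hk
    have h1' : k • (y * l) = y * l := h1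
    rw [smul_mul', hk'] at h1'
    exact mul_left_cancel h1'
  have hy01 : y0 ≠ 1 := fun h => hy0 (h ▸ L.one_mem)
  obtain ⟨z, hz, hzne⟩ := exists_stab_ne hcard hfaith hnt y0 hy01
  apply hzne
  by_cases hzL : z ∈ L
  · exact (key y0 hy0 z hzL hz).symm
  · rw [key z hzL l0 hl0 hl01, key y0 hy0 l0 hl0 hl01]

end abs

/-- The conjugation action of a subgroup on a normal subgroup. -/
@[reducible] def conjInst {G : Type*} [Group G] (S N : Subgroup G) [hN : N.Normal] :
    MulDistribMulAction S N :=
  MulDistribMulAction.compHom N ((MulAut.conjNormal (H := N)).comp S.subtype)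

theorem result {G Ω : Type*} [Group G] [Finite G]
    [MulAction G Ω] [FaithfulSMul G Ω] [Finite Ω] (htrans : MulAction.IsPretransitive G Ω)
    (hne : ∀ a : Ω, MulAction.stabilizer G a ≠ ⊥)
    (hhalf : ∀ a b c : Ω, b ≠ a → c ≠ a →
      Nat.card (MulAction.orbit (MulAction.stabilizer G a) b) = Nat.card (MulAction.orbit (MulAction.stabilizer G a) c))
    (N : Subgroup G) [hN : N.Normal] (hNt : MulAction.IsPretransitive N Ω) (hNr : ∀ a : Ω, MulAction.stabilizer N a = ⊥)
    (hnotF : ∃ a b : Ω, a ≠ b ∧ MulAction.stabilizer G a ⊓ MulAction.stabilizer G b ≠ ⊥) :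
    (∃ p : ℕ, p.Prime ∧ IsMulCommutative N ∧ ∀ x ∈ N, x ^ p = 1) ∧
    (∀ M : Subgroup G, M.Normal → M ≠ ⊥ → N ≤ M) := by
  obtain ⟨a, b, hab, hnt⟩ := hnotF
  set H := stabilizer G a with hHdef
  letI := conjInst H N
  have hsmul : ∀ (h : H) (n : N), ((h • n : N) : G) = h * n * (h : G)⁻¹ := fun h n => rfl
  have hfree : ∀ n : N, n • a = a → n = 1 := by
    intro n hn
    have : n ∈ stabilizer N a := hn
    rw [hNr a] at this
    simpa using this
  have hmov : ∀ (h : H) (n : N), (h : G) • ((n : G) • a) = ((h • n : N) : G) • a := by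
    intro h n
    rw [hsmul, mul_smul, mul_smul]
    have : (h : G)⁻¹ • a = a := by
      have := (h⁻¹).2
      exact this
    rw [this]
  have hinj : ∀ n m : N, (n : G) • a = (m : G) • a → n = m := by
    intro n m h
    have h1 : (m⁻¹ * n) • a = a := by
      show ((m : G)⁻¹ * n) • a = a
      rw [mul_smul, h, inv_smul_smul]
    have := hfree _ h1
    exact (inv_mul_eq_one.1 this).symm
  have hstab : ∀ n : N, stabilizer H n = stabilizer H ((n : G) • a) := by
    intro n
    ext h
    rw [mem_stabilizer_iff, mem_stabilizer_iff]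
    show h • n = n ↔ (h : G) • ((n : G) • a) = (n : G) • a
    rw [hmov]
    exact ⟨fun h1 => by rw [h1], fun h1 => hinj _ _ h1⟩
  have hne1 : ∀ n : N, n ≠ 1 → (n : G) • a ≠ a := fun n hn h => hn (hfree n h)
  have hcard : ∀ x y : N, x ≠ 1 → y ≠ 1 →
      Nat.card (stabilizer H x) = Nat.card (stabilizer H y) := by
    intro x y hx hy
    rw [hstab, hstab]
    have h1 := hhalf a _ _ (hne1 x hx) (hne1 y hy)
    have h2 := Subgroup.index_mul_card (stabilizer H ((x : G) • a))
    have h3 := Subgroup.index_mul_card (stabilizer H ((y : G) • a))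
    rw [MulAction.index_stabilizer, ← Nat.card_coe_set_eq] at h2 h3
    change Nat.card (orbit H _) = Nat.card (orbit H _) at h1
    rw [h1] at h2
    have hpos : 0 < Nat.card (orbit H ((y : G) • a)) := by
      have : Nonempty (orbit H ((y : G) • a)) := ⟨⟨_, mem_orbit_self _⟩⟩
      exact Nat.card_pos
    exact Nat.eq_of_mul_eq_mul_left hpos (h2.trans h3.symm)
  have hfaith : ∀ h : H, (∀ x : N, h • x = x) → h = 1 := by
    intro h hh
    apply Subtype.ext
    apply FaithfulSMul.eq_of_smul_eq_smul (α := Ω)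
    intro c
    obtain ⟨n, hn⟩ := hNt.exists_smul_eq a c
    have hn' : (n : G) • a = c := hn
    rw [← hn', hmov, hh]
    simp
  have hnt' : ∃ x : N, x ≠ 1 ∧ stabilizer H x ≠ ⊥ := by
    obtain ⟨n, hn⟩ := hNt.exists_smul_eq a b
    have hn' : (n : G) • a = b := hn
    refine ⟨n, ?_, ?_⟩
    · rintro rfl
      apply hab
      rw [← hn']
      simp
    · rw [hstab, hn']
      obtain ⟨⟨g, hg⟩, hg1⟩ := Subgroup.ne_bot_iff_exists_ne_one.1 hnt
      intro hbot
      have h8 : (⟨g, hg.1⟩ : H) ∈ stabilizer H b := hg.2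
      rw [hbot, Subgroup.mem_bot] at h8
      have h9 : g = 1 := by
        have := congrArg (Subtype.val) h8
        simpa using this
      exact hg1 (Subtype.ext h9)
  obtain ⟨p, hp, hexp⟩ := abs_exp hcard hfaith hnt'
  have hcomm := abs_comm hcard hfaith hnt'
  refine ⟨⟨p, hp, ⟨⟨fun x y => (hcomm x y).eq⟩⟩, fun x hx => ?_⟩, ?_⟩
  · have := hexp ⟨x, hx⟩
    exact congrArg Subtype.val this
  intro M hM hMb
  by_cases hL : M.subgroupOf N = ⊥
  · exfalso
    apply hMb
    rw [eq_bot_iff]
    intro m hm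
    rw [Subgroup.mem_bot]
    have hdis : Disjoint M N := by
      rw [Subgroup.disjoint_def]
      intro z hz1 hz2
      have : (⟨z, hz2⟩ : N) ∈ M.subgroupOf N := hz1
      rw [hL, Subgroup.mem_bot] at this
      exact congrArg Subtype.val this
    have hcm : ∀ n ∈ N, Commute m n := fun n hn =>
      Subgroup.commute_of_normal_of_disjoint M N hM hN hdis m n hm hn
    obtain ⟨n', hn'⟩ := hNt.exists_smul_eq a (m • a)
    have hn'' : (n' : G) • a = m • a := hn'
    have hg : (n' : G)⁻¹ * m = 1 := by
      apply FaithfulSMul.eq_of_smul_eq_smul (α := Ω)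
      intro c
      obtain ⟨n, hn⟩ := hNt.exists_smul_eq a c
      have hn3 : (n : G) • a = c := hn
      rw [← hn3, one_smul]
      rw [← mul_smul, mul_assoc, (hcm n n.2).eq]
      have h5 : (n' : G)⁻¹ * (n * m) = n * ((n' : G)⁻¹ * m) := by
        have h6 : Commute ((n' : G)⁻¹) (n : G) := by
          have := hcomm n'⁻¹ n
          exact congrArg Subtype.val this
        rw [← mul_assoc, h6.eq, mul_assoc]
      rw [h5, mul_smul, mul_smul, ← hn'', inv_smul_smul]
    have hmn : m = n' := (inv_mul_eq_one.1 hg).symm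
    exact (Subgroup.disjoint_def.1 hdis) hm (hmn ▸ n'.2)
  · have hLH : ∀ h : H, ∀ l ∈ M.subgroupOf N, h • l ∈ M.subgroupOf N := by
      intro h l hl
      show ((h • l : N) : G) ∈ M
      rw [hsmul]
      exact hM.conj_mem _ hl _
    have := abs_min hcard hfaith hnt' _ hLH hL
    intro z hz
    have h7 : (⟨z, hz⟩ : N) ∈ M.subgroupOf N := by rw [this]; trivial
    exact h7

end Cfsg.Agent.S3356
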