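import Mathlib
import Cfsg.Statements.S3358
import Cfsg.Agent.Lib.Zassen.FCQuot
import Cfsg.Agent.Lib.Hup.RegMain
import Cfsg.Agent.Lib.FPF.Complement
import Cfsg.Agent.Lib.Coprime.Action

set_option autoImplicit false
set_option linter.all false
open Cfsg

namespace Cfsg.Agent.S3358

open Subgroup

section generic
variable {P : Type*} [Group P]

lemma conj_pow_eq {a b : P} {r : ℕ} (h : a⁻¹ * b * a = b ^ r) (k : ℕ) :
    (a ^ k)⁻¹ * b * a ^ k = b ^ (r ^ k) := by
  induction k with
  | zero => simp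
  | succ k ih =>
    have h1 : ∀ j : ℕ, a⁻¹ * b ^ j * a = (b ^ r) ^ j := by
      intro j
      rw [← h]
      have := conj_pow (a := a⁻¹) (b := b) (i := j)
      have h3 : (a⁻¹ * b * a) ^ j = a⁻¹ * b ^ j * a := by simpa using this
      exact h3.symm
    have h2 : (a ^ (k + 1))⁻¹ * b * a ^ (k + 1) = a⁻¹ * ((a ^ k)⁻¹ * b * a ^ k) * a := by
      rw [pow_succ]
      group
    rw [h2, ih, h1, ← pow_mul, pow_succ, mul_comm r]

/-- from a conjugation relation and finite orders, every element of the generated group has normal form. -/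
lemma normal_form {a b : P} {r n m : ℕ} (h : a⁻¹ * b * a = b ^ r) (hn : a ^ n = 1) (hm : b ^ m = 1)
    (hn0 : 0 < n) (hm0 : 0 < m) (hgen : closure ({a, b} : Set P) = ⊤) (w : P) :
    ∃ i j : ℕ, i < n ∧ j < m ∧ w = b ^ j * a ^ i := by
  -- `a b a⁻¹` is a power of `b`
  have hs : a * b * a⁻¹ = b ^ (r ^ (n - 1)) := by
    have h1 := conj_pow_eq h (n - 1)
    rw [← h1]
    have h2 : a ^ (n - 1) = a⁻¹ := by
      have : a ^ (n - 1) * a = 1 := by rw [← pow_succ, Nat.sub_add_cancel hn0, hn]
      exact eq_inv_of_mul_eq_one_left this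
    rw [h2]
    group
  have hsj : ∀ j : ℕ, a * b ^ j = b ^ (r ^ (n - 1) * j) * a := by
    intro j
    have h1 : a * b ^ j * a⁻¹ = (a * b * a⁻¹) ^ j := by
      have := conj_pow (a := a) (b := b) (i := j)
      simpa using this
    rw [hs, ← pow_mul] at h1
    rw [← h1]
    group
  have key : ∀ w : P, ∃ i j : ℕ, w = b ^ j * a ^ i := by
    intro w
    have hw : w ∈ closure ({a, b} : Set P) := by rw [hgen]; trivial
    induction hw using closure_induction_left with
    | one => exact ⟨0, 0, by simp⟩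
    | mul_left x hx y _ ih =>
      obtain ⟨i, j, rfl⟩ := ih
      rcases hx with rfl | hx
      · refine ⟨i + 1, r ^ (n - 1) * j, ?_⟩
        rw [← mul_assoc, hsj, mul_assoc, pow_succ']
      · have hx' : x = b := hx
        subst hx'
        exact ⟨i, j + 1, by rw [pow_succ', mul_assoc]⟩
    | inv_mul_cancel x hx y _ ih =>
      obtain ⟨i, j, rfl⟩ := ih
      rcases hx with rfl | hx
      · have hinv : x⁻¹ = x ^ (n - 1) := by
          have : x ^ (n - 1) * x = 1 := by rw [← pow_succ, Nat.sub_add_cancel hn0, hn]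
          exact (eq_inv_of_mul_eq_one_left this).symm
        rw [hinv]
        clear hinv
        induction (n - 1) with
        | zero => exact ⟨i, j, by simp⟩
        | succ t iht =>
          obtain ⟨i', j', hh⟩ := iht
          refine ⟨i' + 1, r ^ (n - 1) * j', ?_⟩
          rw [pow_succ', mul_assoc, hh, ← mul_assoc, hsj, mul_assoc, pow_succ']
      · have hx' : x = b := hx
        subst hx'
        have hinv : x⁻¹ = x ^ (m - 1) := by
          have : x ^ (m - 1) * x = 1 := by rw [← pow_succ, Nat.sub_add_cancel hm0, hm]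
          exact (eq_inv_of_mul_eq_one_left this).symm
        refine ⟨i, (m - 1) + j, ?_⟩
        rw [hinv, pow_add, mul_assoc]
  obtain ⟨i, j, rfl⟩ := key w
  refine ⟨i % n, j % m, Nat.mod_lt _ hn0, Nat.mod_lt _ hm0, ?_⟩
  conv_lhs => rw [← Nat.div_add_mod j m, ← Nat.div_add_mod i n, pow_add, pow_add, pow_mul, pow_mul, hn, hm]
  simp

end generic

lemma dvd_of_forall (τ n : ℕ) (hn : 0 < n) (hτ : τ ∣ n) (h : ∀ p : ℕ, p.Prime → p ∣ n → τ ∣ n / p) :
    τ ∣ n / ∏ p ∈ n.primeFactors, p := by
  obtain ⟨c, rfl⟩ := hτ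
  have hτ0 : 0 < τ := Nat.pos_of_mul_pos_right hn |> fun _ => Nat.pos_of_ne_zero (by rintro rfl; simp at hn)
  have hc0 : 0 < c := Nat.pos_of_ne_zero (by rintro rfl; simp at hn)
  have hd : ∏ p ∈ (τ * c).primeFactors, p ∣ c := by
    apply Finset.prod_primes_dvd
    · intro p hp
      exact (Nat.prime_of_mem_primeFactors hp).prime
    · intro p hp
      have hp1 := Nat.prime_of_mem_primeFactors hp
      have hp2 := Nat.dvd_of_mem_primeFactors hp
      obtain ⟨t, ht⟩ := h p hp1 hp2
      have h3 : τ * c = τ * t * p := by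
        have := Nat.div_mul_cancel hp2
        rw [ht] at this
        exact this.symm
      have h4 : c = t * p := by
        rw [mul_assoc] at h3
        exact Nat.eq_of_mul_eq_mul_left hτ0 h3
      exact ⟨t, by rw [h4, mul_comm]⟩
  obtain ⟨c', hc'⟩ := hd
  refine ⟨c', ?_⟩
  set R := ∏ p ∈ (τ * c).primeFactors, p with hR
  have hR0 : 0 < R := by
    rcases Nat.eq_zero_or_pos R with h0 | h0
    · rw [h0, zero_mul] at hc'
      omega
    · exact h0
  apply Nat.div_eq_of_eq_mul_right hR0
  rw [hc']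
  ring


section pres
variable {N : Type*} [Group N] [Finite N]

/-- subgroups generated by a power of a generator of a normal cyclic subgroup are normal -/
lemma zpowers_pow_normal {y : N} (hy : (zpowers y).Normal) (t : ℕ) : (zpowers (y ^ t)).Normal := by
  constructor
  rintro _ ⟨l, rfl⟩ g
  have h1 : g * y * g⁻¹ ∈ zpowers y := hy.conj_mem y (mem_zpowers y) g
  obtain ⟨s, hs⟩ := h1
  have hs' : y ^ s = g * y * g⁻¹ := hs
  simp only
  have h2 : g * (y ^ t) ^ l * g⁻¹ = ((y ^ t) ^ s) ^ l := by
    have : (y ^ t) ^ s = (g * y * g⁻¹) ^ t := by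
      rw [← hs', ← zpow_natCast, ← zpow_natCast, ← zpow_mul, ← zpow_mul, mul_comm]
    rw [this]
    simp [conj_pow, conj_zpow]
  rw [h2]
  exact zpow_mem (zpow_mem (mem_zpowers _) s) l

theorem pres_main [IsZGroup N]
    (hpq : ∀ (B : Subgroup N) (p q : ℕ), p.Prime → q.Prime → Nat.card B = p * q → IsCyclic B) :
    ∃ n m r : ℕ, 0 < n ∧ 0 < m ∧ Nat.Coprime (r - 1) m ∧ Nat.Coprime n m ∧ 1 ≤ r ∧
        r ^ (n / ∏ p ∈ n.primeFactors, p) % m = 1 % m ∧
        Nonempty (N ≃* PresentedGroup
          ({FreeGroup.of (0 : Fin 2) ^ n, FreeGroup.of (1 : Fin 2) ^ m,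
            (FreeGroup.of (0 : Fin 2))⁻¹ * FreeGroup.of 1 * FreeGroup.of 0 * (FreeGroup.of (1 : Fin 2) ^ r)⁻¹} :
            Set (FreeGroup (Fin 2)))) := by
  have hcop := IsZGroup.coprime_commutator_index (G := N)
  obtain ⟨H, hH⟩ := Subgroup.exists_right_complement'_of_coprime hcop
  have h1 : Abelianization N ≃* H := hH.symm.QuotientMulEquiv
  haveI hHc : IsCyclic H := isCyclic_of_surjective _ h1.surjective
  haveI hCc : IsCyclic (commutator N) := IsZGroup.isCyclic_commutator N
  obtain ⟨⟨y, hyC⟩, hy⟩ := IsCyclic.exists_generator (α := commutator N)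
  obtain ⟨⟨x, hxH⟩, hx⟩ := IsCyclic.exists_generator (α := H)
  have hCy : commutator N = zpowers y := by
    apply le_antisymm
    · intro c hc
      obtain ⟨k, hk⟩ := hy ⟨c, hc⟩
      refine ⟨k, ?_⟩
      have := congrArg Subtype.val hk
      simpa using this
    · rw [zpowers_le]
      exact hyC
  have hHx : H = zpowers x := by
    apply le_antisymm
    · intro c hc
      obtain ⟨k, hk⟩ := hx ⟨c, hc⟩
      refine ⟨k, ?_⟩
      have := congrArg Subtype.val hk
      simpa using this
    · rw [zpowers_le]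
      exact hxH
  haveI hCn : (zpowers y).Normal := by rw [← hCy]; infer_instance
  set m := orderOf y with hm
  set n := orderOf x with hn
  have hmC : Nat.card (commutator N) = m := by rw [hCy, Nat.card_zpowers]
  have hnH : Nat.card H = n := by rw [hHx, Nat.card_zpowers]
  have hidx : (commutator N).index = n := by
    rw [← hnH]
    exact hH.symm.index_eq_card
  have hm0 : 0 < m := by rw [← hmC]; exact Nat.card_pos
  have hn0 : 0 < n := by rw [← hnH]; exact Nat.card_pos
  have hnm : Nat.Coprime n m := by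
    have := hcop
    rw [hmC, hidx] at this
    exact this.symm
  have hyfin : y ^ m = 1 := pow_orderOf_eq_one y
  have hxfin : x ^ n = 1 := pow_orderOf_eq_one x
  -- the exponent r
  obtain ⟨r, hr1, hr⟩ : ∃ r : ℕ, 1 ≤ r ∧ x⁻¹ * y * x = y ^ r := by
    have h2 : x⁻¹ * y * x ∈ zpowers y := by
      have := hCn.conj_mem y (mem_zpowers y) x⁻¹
      simpa using this
    obtain ⟨k, hk⟩ := (mem_powers_iff_mem_zpowers).2 h2
    refine ⟨k + m, by omega, ?_⟩
    rw [pow_add, hyfin, mul_one]
    exact hk.symm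
  -- normal form of the elements of `N`
  have hgen : ∀ a : N, ∃ i j : ℕ, a = y ^ j * x ^ i := by
    intro a
    have h2 : a ∈ commutator N ⊔ H := by rw [hH.sup_eq_top]; trivial
    obtain ⟨c, hc, h, hh, rfl⟩ := Subgroup.mem_sup_of_normal_left.1 h2
    rw [hCy] at hc
    rw [hHx] at hh
    obtain ⟨j, rfl⟩ := (mem_powers_iff_mem_zpowers).2 hc
    obtain ⟨i, rfl⟩ := (mem_powers_iff_mem_zpowers).2 hh
    exact ⟨i, j, rfl⟩
  -- coprimality of r - 1 and m
  have hcopr : Nat.Coprime (r - 1) m := by
    set t := r - 1 with ht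
    haveI hDn := zpowers_pow_normal hCn t
    let φ : N →* N ⧸ zpowers (y ^ t) := QuotientGroup.mk' _
    have hker : ∀ a, φ a = 1 ↔ a ∈ zpowers (y ^ t) := fun a => QuotientGroup.eq_one_iff a
    have hcomm : φ x * φ y = φ y * φ x := by
      have h2 : x⁻¹ * y * x = y * y ^ t := by
        rw [hr, ← pow_succ']
        congr 1
        omega
      have h3 : φ (y ^ t) = 1 := (hker _).2 (mem_zpowers _)
      have h4 : φ x⁻¹ * φ y * φ x = φ y := by
        rw [← map_mul, ← map_mul, h2, map_mul, h3, mul_one]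
      rw [map_inv] at h4
      calc φ x * φ y = φ x * ((φ x)⁻¹ * φ y * φ x) := by rw [h4]
        _ = φ y * φ x := by group
    have hab : commutator N ≤ zpowers (y ^ t) := by
      rw [_root_.commutator_def, Subgroup.commutator_le]
      intro a _ b _
      rw [← hker]
      obtain ⟨i, j, rfl⟩ := hgen a
      obtain ⟨k, l, rfl⟩ := hgen b
      have hc : Commute (φ x) (φ y) := hcomm
      rw [commutatorElement_def]
      simp only [map_mul, map_inv, map_pow]
      have hc1 : Commute (φ y ^ j * φ x ^ i) (φ y ^ l * φ x ^ k) := by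
        apply Commute.mul_left
        · apply Commute.mul_right
          · exact Commute.pow_pow (Commute.refl _) _ _
          · exact (hc.pow_pow k j).symm
        · apply Commute.mul_right
          · exact hc.pow_pow i l
          · exact Commute.pow_pow (Commute.refl _) _ _
      have := hc1.eq
      rw [this]
      group
    have hy2 : y ∈ zpowers (y ^ t) := hab hyC
    have h3 : orderOf y ∣ orderOf (y ^ t) := by
      have h4 : zpowers y ≤ zpowers (y ^ t) := by rwa [zpowers_le]
      have := Subgroup.card_dvd_of_le h4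
      simpa [Nat.card_zpowers] using this
    rw [orderOf_pow] at h3
    rw [Nat.coprime_comm]
    by_contra hg
    have hg1 : Nat.gcd m t ≠ 0 := by
      intro h0
      rw [Nat.gcd_eq_zero_iff] at h0
      omega
    have hg2 : 2 ≤ Nat.gcd m t := by
      have : Nat.gcd m t ≠ 1 := hg
      omega
    have h5 : orderOf y / Nat.gcd m t < m := Nat.div_lt_self hm0 hg2
    have h6 : 0 < orderOf y / Nat.gcd m t := Nat.div_pos (Nat.gcd_le_left t hm0) (by omega)
    have h7 := Nat.le_of_dvd h6 h3
    omega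
  -- the power condition
  have hrn : r ^ n ≡ 1 [MOD m] := by
    have h2 := conj_pow_eq hr n
    rw [hxfin] at h2
    simp only [inv_one, one_mul, mul_one] at h2
    have h3 : y ^ (r ^ n) = y ^ 1 := by rw [← h2, pow_one]
    exact (pow_eq_pow_iff_modEq).1 h3
  have hprime : ∀ p : ℕ, p.Prime → p ∣ n → (x ^ (n / p))⁻¹ * y * x ^ (n / p) = y := by
    intro p hp hpn
    set u := x ^ (n / p) with hu
    set s := r ^ (n / p) with hs
    have hus : u⁻¹ * y * u = y ^ s := conj_pow_eq hr (n / p)
    have hupow : ∀ t : ℕ, u⁻¹ * y ^ t * u = y ^ (s * t) := by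
      intro t
      have := conj_pow (a := u⁻¹) (b := y) (i := t)
      have h3 : (u⁻¹ * y * u) ^ t = u⁻¹ * y ^ t * u := by simpa using this
      rw [← h3, hus, pow_mul]
    have huo : orderOf u = p := orderOf_pow_orderOf_div (by omega) hpn
    have hq1 : ∀ q : ℕ, q.Prime → q ∣ m → s ≡ 1 [MOD q] := by
      intro q hq hqm
      set y₀ := y ^ (m / q) with hy₀
      have hy₀o : orderOf y₀ = q := orderOf_pow_orderOf_div (by omega) hqm
      haveI hK : (zpowers y₀).Normal := zpowers_pow_normal hCn _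
      have hAK : zpowers u ≤ Subgroup.normalizer ((zpowers y₀ : Subgroup N) : Set N) := by
        rw [Subgroup.normalizer_eq_top (zpowers y₀)]
        exact le_top
      have hpq' : p ≠ q := by
        rintro rfl
        have := Nat.dvd_gcd hpn hqm
        rw [hnm] at this
        exact hp.one_lt.ne' (Nat.dvd_one.1 this)
      have hinf : zpowers y₀ ⊓ zpowers u = ⊥ := by
        rw [eq_bot_iff]
        rintro z ⟨hz1, hz2⟩
        have h3 : orderOf z ∣ q := by
          have := Subgroup.card_dvd_of_le (zpowers_le.2 hz1)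
          simpa [Nat.card_zpowers, hy₀o] using this
        have h4 : orderOf z ∣ p := by
          have := Subgroup.card_dvd_of_le (zpowers_le.2 hz2)
          simpa [Nat.card_zpowers, huo] using this
        have h5 : orderOf z = 1 := by
          have h6 := Nat.dvd_gcd h3 h4
          rw [(Nat.coprime_primes hq hp).2 hpq'.symm] at h6
          exact Nat.dvd_one.1 h6
        exact orderOf_eq_one_iff.1 h5
      have hcard := Lib.Coprime.Action.card_sup_of_le_normalizer hAK hinf
      rw [Nat.card_zpowers, Nat.card_zpowers, hy₀o, huo] at hcard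
      have hcyc := hpq (zpowers y₀ ⊔ zpowers u) q p hq hp hcard.symm
      have hcomm : u * y₀ = y₀ * u := by
        letI := IsCyclic.commGroup (α := ↥(zpowers y₀ ⊔ zpowers u))
        have h3 := mul_comm (⟨u, (le_sup_right : zpowers u ≤ _) (mem_zpowers u)⟩ : ↥(zpowers y₀ ⊔ zpowers u))
          ⟨y₀, (le_sup_left : zpowers y₀ ≤ _) (mem_zpowers y₀)⟩
        exact congrArg Subtype.val h3
      have h3 := hupow (m / q)
      rw [← hy₀] at h3
      have h4 : u⁻¹ * y₀ * u = y₀ := by
        rw [mul_assoc, ← hcomm]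
        group
      rw [h4, hy₀] at h3
      have h5 : y ^ (1 * (m / q)) = y ^ (s * (m / q)) := by rw [one_mul]; exact h3
      have h6 : 1 * (m / q) ≡ s * (m / q) [MOD m] := (pow_eq_pow_iff_modEq).1 h5
      have h7 : m = q * (m / q) := (Nat.mul_div_cancel' hqm).symm
      have h8 : m / q ≠ 0 := by
        intro h0
        rw [h0, mul_zero] at h7
        omega
      have h9 : 1 * (m / q) ≡ s * (m / q) [MOD q * (m / q)] := by
        rw [← h7]
        exact h6
      exact (Nat.ModEq.mul_right_cancel' h8 h9).symm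
    -- the geometric sum
    have hspow : s ^ p ≡ 1 [MOD m] := by
      rw [hs, ← pow_mul, Nat.div_mul_cancel hpn]
      exact hrn
    have hS : Nat.Coprime (∑ i ∈ Finset.range p, s ^ i) m := by
      apply Nat.coprime_of_dvd
      intro k hk hk1 hk2
      have h3 := hq1 k hk hk2
      have h4 : ∑ i ∈ Finset.range p, s ^ i ≡ p [MOD k] := by
        have h5 : ∑ i ∈ Finset.range p, s ^ i ≡ ∑ i ∈ Finset.range p, 1 [MOD k] := by
          have h6 : ∀ i, s ^ i ≡ 1 [MOD k] := by
            intro i
            have := h3.pow i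
            rwa [one_pow] at this
          have : ∀ (t : Finset ℕ), ∑ i ∈ t, s ^ i ≡ ∑ i ∈ t, 1 [MOD k] := by
            intro t
            induction t using Finset.induction_on with
            | empty => exact Nat.ModEq.refl _
            | insert a t ha iht =>
              rw [Finset.sum_insert ha, Finset.sum_insert ha]
              exact (h6 a).add iht
          exact this _
        simpa using h5
      have h5 : k ∣ p := (Nat.modEq_zero_iff_dvd.1 (h4.symm.trans (Nat.modEq_zero_iff_dvd.2 hk1)))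
      have h6 : k ∣ n := h5.trans hpn
      have h7 := Nat.dvd_gcd h6 hk2
      rw [hnm] at h7
      exact hk.one_lt.ne' (Nat.dvd_one.1 h7)
    have hs1 : s ≡ 1 [MOD m] := by
      have h3 : (m : ℤ) ∣ (∑ i ∈ Finset.range p, (s : ℤ) ^ i) * ((s : ℤ) - 1) := by
        rw [geom_sum_mul]
        have h4 := (Nat.modEq_iff_dvd.1 hspow.symm)
        simpa using h4
      have h4 : IsCoprime (m : ℤ) (∑ i ∈ Finset.range p, (s : ℤ) ^ i) := by
        have h5 : ((∑ i ∈ Finset.range p, s ^ i : ℕ) : ℤ) = ∑ i ∈ Finset.range p, (s : ℤ) ^ i := by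
          push_cast
          rfl
        rw [← h5]
        exact Nat.isCoprime_iff_coprime.2 hS.symm
      have h5 := h4.dvd_of_dvd_mul_left h3
      exact (Nat.modEq_iff_dvd.2 (by simpa using h5)).symm
    rw [hus]
    have h3 : y ^ s = y ^ 1 := (pow_eq_pow_iff_modEq).2 hs1
    rw [h3, pow_one]
  -- from primes to the radical
  have hrad : r ^ (n / ∏ p ∈ n.primeFactors, p) % m = 1 % m := by
    set Z : Subgroup N := Subgroup.centralizer ((commutator N : Subgroup N) : Set N) with hZ
    haveI hZn : Z.Normal := Subgroup.normal_centralizer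
    have hmemZ : ∀ k : ℕ, (x ^ k)⁻¹ * y * x ^ k = y → x ^ k ∈ Z := by
      intro k hk
      rw [hZ, Subgroup.mem_centralizer_iff]
      intro c hc
      have hc' : c ∈ zpowers y := by rw [← hCy]; exact hc
      obtain ⟨l, rfl⟩ := hc'
      have h3 : y * x ^ k = x ^ k * y := by
        calc y * x ^ k = x ^ k * ((x ^ k)⁻¹ * y * x ^ k) := by group
          _ = x ^ k * y := by rw [hk]
      have h4 : Commute (x ^ k) y := h3.symm
      exact (h4.symm.zpow_left l).eq
    let ψ : N →* N ⧸ Z := QuotientGroup.mk' Z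
    have hψ : ∀ k : ℕ, (ψ x) ^ k = 1 ↔ x ^ k ∈ Z := by
      intro k
      rw [← map_pow]
      exact QuotientGroup.eq_one_iff _
    have hτn : orderOf (ψ x) ∣ n := by
      apply orderOf_dvd_of_pow_eq_one
      rw [hψ, hxfin]
      exact Z.one_mem
    have hτ := dvd_of_forall (orderOf (ψ x)) n hn0 hτn (fun p hp hpn => by
      apply orderOf_dvd_of_pow_eq_one
      rw [hψ]
      exact hmemZ _ (hprime p hp hpn))
    have h3 : x ^ (n / ∏ p ∈ n.primeFactors, p) ∈ Z := (hψ _).1 (orderOf_dvd_iff_pow_eq_one.1 hτ)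
    have h4 : y * x ^ (n / ∏ p ∈ n.primeFactors, p) = x ^ (n / ∏ p ∈ n.primeFactors, p) * y :=
      (Subgroup.mem_centralizer_iff.1 h3) y hyC
    have h5 := conj_pow_eq hr (n / ∏ p ∈ n.primeFactors, p)
    have h6 : (x ^ (n / ∏ p ∈ n.primeFactors, p))⁻¹ * y * x ^ (n / ∏ p ∈ n.primeFactors, p) = y := by
      rw [mul_assoc, h4]
      group
    rw [h6] at h5
    have h7 : y ^ 1 = y ^ (r ^ (n / ∏ p ∈ n.primeFactors, p)) := by rw [pow_one]; exact h5
    exact ((pow_eq_pow_iff_modEq).1 h7).symm
  refine ⟨n, m, r, hn0, hm0, hcopr, hnm, hr1, hrad, ?_⟩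
  -- the presentation
  set rels : Set (FreeGroup (Fin 2)) := {FreeGroup.of (0 : Fin 2) ^ n, FreeGroup.of (1 : Fin 2) ^ m,
            (FreeGroup.of (0 : Fin 2))⁻¹ * FreeGroup.of 1 * FreeGroup.of 0 * (FreeGroup.of (1 : Fin 2) ^ r)⁻¹} with hrels
  let f : Fin 2 → N := ![x, y]
  have hrel : ∀ w ∈ rels, FreeGroup.lift f w = 1 := by
    intro w hw
    rcases hw with rfl | rfl | hw
    · simp [f, hxfin]
    · simp [f, hyfin]
    · have hw' : w = (FreeGroup.of (0 : Fin 2))⁻¹ * FreeGroup.of 1 * FreeGroup.of 0 * (FreeGroup.of (1 : Fin 2) ^ r)⁻¹ := hw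
      subst hw'
      simp [f, hr]
  let F : PresentedGroup rels →* N := PresentedGroup.toGroup hrel
  let a₀ : PresentedGroup rels := PresentedGroup.of 0
  let b₀ : PresentedGroup rels := PresentedGroup.of 1
  have hFa : F a₀ = x := by simp [F, a₀, f]
  have hFb : F b₀ = y := by simp [F, b₀, f]
  have hmk : ∀ w ∈ rels, PresentedGroup.mk rels w = 1 := fun w hw => PresentedGroup.one_of_mem hw
  have ha₀n : a₀ ^ n = 1 := by
    have := hmk (FreeGroup.of (0 : Fin 2) ^ n) (by simp [hrels])
    simpa [a₀, PresentedGroup.of] using this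
  have hb₀m : b₀ ^ m = 1 := by
    have := hmk (FreeGroup.of (1 : Fin 2) ^ m) (by simp [hrels])
    simpa [b₀, PresentedGroup.of] using this
  have hab₀ : a₀⁻¹ * b₀ * a₀ = b₀ ^ r := by
    have := hmk ((FreeGroup.of (0 : Fin 2))⁻¹ * FreeGroup.of 1 * FreeGroup.of 0 * (FreeGroup.of (1 : Fin 2) ^ r)⁻¹) (by simp [hrels])
    simp only [map_mul, map_inv, map_pow] at this
    exact mul_inv_eq_one.1 this
  have hcl : closure ({a₀, b₀} : Set (PresentedGroup rels)) = ⊤ := by
    rw [← PresentedGroup.closure_range_of rels]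
    congr 1
    ext w
    constructor
    · rintro (rfl | hw)
      · exact ⟨0, rfl⟩
      · exact ⟨1, (hw : w = b₀).symm⟩
    · rintro ⟨i, rfl⟩
      fin_cases i
      · exact Or.inl rfl
      · exact Or.inr rfl
  have hform := normal_form hab₀ ha₀n hb₀m hn0 hm0 hcl
  haveI hFin : Finite (PresentedGroup rels) := by
    let g : Fin n × Fin m → PresentedGroup rels := fun z => b₀ ^ (z.2 : ℕ) * a₀ ^ (z.1 : ℕ)
    apply Finite.of_surjective g
    intro w
    obtain ⟨i, j, hi, hj, rfl⟩ := hform w
    exact ⟨(⟨i, hi⟩, ⟨j, hj⟩), rfl⟩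
  have hcardP : Nat.card (PresentedGroup rels) ≤ n * m := by
    let g : Fin n × Fin m → PresentedGroup rels := fun z => b₀ ^ (z.2 : ℕ) * a₀ ^ (z.1 : ℕ)
    have hg : Function.Surjective g := by
      intro w
      obtain ⟨i, j, hi, hj, rfl⟩ := hform w
      exact ⟨(⟨i, hi⟩, ⟨j, hj⟩), rfl⟩
    have := Nat.card_le_card_of_surjective g hg
    simpa using this
  have hcardN : Nat.card N = n * m := by
    rw [← hH.card_mul_card, hmC, hnH, mul_comm]
  have hFs : Function.Surjective F := by
    intro w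
    obtain ⟨i, j, rfl⟩ := hgen w
    refine ⟨b₀ ^ j * a₀ ^ i, ?_⟩
    rw [map_mul, map_pow, map_pow, hFa, hFb]
  have hFb' : Function.Bijective F := hFs.bijective_of_nat_card_le (by rw [hcardN]; exact hcardP)
  exact ⟨(MulEquiv.ofBijective F hFb').symm⟩

end pres


/-- Structure of solvable Frobenius complements. Let G be a finite solvable group that occurs as a Frobenius complement. Then G has a normal subgroup G₀ such that G/G₀ is isomorphic to a subgroup of Sym(4) (G₀ is the kernel of a homomorphism to Sym(4)), all Sylow subgroups of G₀ are cyclic, and G₀ has a presentation ⟨x, y | x^n = 1, y^m = 1, x⁻¹ y x = y^r⟩ with n, m ≥ 1, gcd(r − 1, m) = gcd(n, m) = 1 and r^(n/n′) ≡ 1 (mod m), where n′ is the product of the distinct primes dividing n. -/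
theorem result {G : Type*} [Group G] [Finite G] (hsol : Group.IsSolvable G)
    (hFC : ∃ (L : Type) (_ : Group L) (_ : Finite L) (H : Subgroup L), Cfsg.IsFrobeniusComplement H ∧ Nonempty (G ≃* H)) :
    ∃ G₀ : Subgroup G, G₀.Normal ∧
      (∃ f : G →* Equiv.Perm (Fin 4), f.ker = G₀) ∧
      (∀ (p : ℕ) [Fact p.Prime] (P : Sylow p G₀), IsCyclic P) ∧
      ∃ n m r : ℕ, 0 < n ∧ 0 < m ∧ Nat.Coprime (r - 1) m ∧ Nat.Coprime n m ∧ 1 ≤ r ∧
        r ^ (n / ∏ p ∈ n.primeFactors, p) % m = 1 % m ∧
        Nonempty (G₀ ≃* PresentedGroup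
          ({FreeGroup.of (0 : Fin 2) ^ n, FreeGroup.of (1 : Fin 2) ^ m,
            (FreeGroup.of (0 : Fin 2))⁻¹ * FreeGroup.of 1 * FreeGroup.of 0 * (FreeGroup.of (1 : Fin 2) ^ r)⁻¹} :
            Set (FreeGroup (Fin 2)))) := by
  obtain ⟨h2, hodd⟩ := Lib.Zassen.FCQuot.occ_H hFC
  haveI := hsol
  obtain ⟨N, hNn, hNz, hQT⟩ := Lib.Zassen.SolMain.sol_exists _ G rfl h2 hodd
  refine ⟨N, hNn, ?_, fun p _ P => hNz.isZGroup p Fact.out P, ?_⟩
  · rcases hQT with rfl | ⟨f, hf, rfl⟩ | ⟨f, hf, rfl⟩ | ⟨f, hf, rfl⟩ | ⟨f, hf, rfl⟩ | ⟨f, hf, rfl⟩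
    · exact ⟨1, MonoidHom.ker_one⟩
    · have hcard : Fintype.card (DihedralGroup 2) = Fintype.card (Fin 4) := by
        simp [DihedralGroup.card]
      let e : DihedralGroup 2 ≃ Fin 4 := Fintype.equivOfCardEq hcard
      let ι : DihedralGroup 2 →* Equiv.Perm (Fin 4) :=
        (Equiv.permCongrHom e).toMonoidHom.comp (MulAction.toPermHom (DihedralGroup 2) (DihedralGroup 2))
      have hι : Function.Injective ι := by
        intro a b hab
        have h3 : MulAction.toPermHom (DihedralGroup 2) (DihedralGroup 2) a =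
            MulAction.toPermHom (DihedralGroup 2) (DihedralGroup 2) b := (Equiv.permCongrHom e).injective hab
        exact MulAction.toPerm_injective h3
      refine ⟨ι.comp f, ?_⟩
      exact MonoidHom.ker_comp_of_injective f ι hι
    · refine ⟨(alternatingGroup (Fin 4)).subtype.comp f, ?_⟩
      exact MonoidHom.ker_comp_of_injective f _ (Subgroup.subtype_injective _)
    · exact ⟨f, rfl⟩
    · exact absurd (Group.isSolvable_of_surjective hf) Lib.Hup.RegMain.a5_not_solvable
    · exact absurd (Group.isSolvable_of_surjective hf) Equiv.Perm.not_isSolvable_fin_5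
  · refine pres_main ?_
    intro B p q hp hq hcard
    obtain ⟨L, _, _, H, hF, ⟨e⟩⟩ := hFC
    have hc := Lib.Frobenius.Theorem.kernel_isComplement' hF
    have hK : Lib.Frobenius.Theorem.kernel H ≠ ⊥ := by
      intro h
      apply hF.2.1
      rw [← Subgroup.index_eq_one, ← Lib.Frobenius.Theorem.card_kernel hF, h]
      simp
    have hH1 : H ≠ ⊥ := hF.1
    have hfpf := (Lib.Frobenius.Basic.isFrobeniusComplement_iff_of_isComplement' _ hc hK hH1).1 hF
    let f₁ : ↥N →* L := H.subtype.comp (e.toMonoidHom.comp N.subtype)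
    have hinj : Function.Injective f₁ := by
      intro a b hab
      have h3 : e a = e b := Subtype.ext hab
      exact Subtype.ext (e.injective h3)
    have hle : B.map f₁ ≤ H := by
      rintro _ ⟨b, _, rfl⟩
      exact (e b).2
    have hcard' : Nat.card (B.map f₁) = p * q := by
      rw [Subgroup.card_map_of_injective hinj, hcard]
    have hcyc := Lib.FPF.Complement.isCyclic_of_card_mul hc hK hfpf (B.map f₁) hle hp hq hcard'
    exact isCyclic_of_surjective _ (Subgroup.equivMapOfInjective B f₁ hinj).symm.surjective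

end Cfsg.Agent.S3358
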