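import Cfsg.Statements.S3360
import Cfsg.Agent.Lib.Hup.Main

set_option autoImplicit false
open Cfsg

namespace Cfsg.Agent.S3360

/-- Let q be a prime and V a non-trivial finite vector space over the field with q elements, and let G be a finite solvable group acting faithfully and linearly on V and transitively on the non-zero vectors. Then either V can be identified with the additive group of a finite field F in such a way that every element of G acts as x ↦ a·σ(x) for some a ∈ F and some field automorphism σ, or the number of elements of V is one of 3^2, 5^2, 7^2, 11^2, 23^2, 3^4. -/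
theorem result
    (q : ℕ) [Fact q.Prime] {V : Type*} [AddCommGroup V] [Module (ZMod q) V] [Finite V] [Nontrivial V]
    {G : Type*} [Group G] [Finite G] (hsol : Group.IsSolvable G)
    (ρ : G →* (V ≃ₗ[ZMod q] V)) (hρ : Function.Injective ρ)
    (htrans : ∀ v w : V, v ≠ 0 → w ≠ 0 → ∃ g : G, ρ g v = w) :
    (∃ (F : Type) (_ : Field F) (_ : Fintype F) (e : V ≃+ F),
        ∀ g : G, ∃ (a : F) (σ : F ≃+* F), ∀ v : V, e (ρ g v) = a * σ (e v)) ∨
    Nat.card V ∈ ({9, 25, 49, 121, 529, 81} : Set ℕ) := by
  classical
  let H : Subgroup (V ≃ₗ[ZMod q] V) := ρ.range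
  let e : G ≃* H := MonoidHom.ofInjective hρ
  have htr : Cfsg.Agent.Lib.Hup.Ann.Trans H := by
    intro v w hv hw
    obtain ⟨g, hg⟩ := htrans v w hv hw
    exact ⟨e g, hg⟩
  have hsH : Group.IsSolvable H := Group.isSolvable_of_surjective (f := e.toMonoidHom) e.surjective
  rcases Cfsg.Agent.Lib.Hup.Main.main_H htr hsH with ⟨F, i1, i2, e', h⟩ | h
  · left
    refine ⟨F, i1, i2, e', fun g => ?_⟩
    exact h (e g)
  · exact Or.inr h

end Cfsg.Agent.S3360
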