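import Cfsg.Statements.S3361
import Cfsg.Agent.Lib.Hup.RegMain

set_option autoImplicit false
open Cfsg

namespace Cfsg.Agent.S3361

/-- Let q be a prime and V a non-trivial finite vector space over the field with q elements, and let G be a finite solvable group acting faithfully and linearly on V and regularly on the non-zero vectors (transitively, with only the identity fixing a non-zero vector). Then either V can be identified with the additive group of a finite field F so that every element of G acts as x ↦ a·σ(x) (a ∈ F, σ a field automorphism), or V has 5^2, 7^2, 11^2 or 23^2 elements. Moreover, if q ≠ 2 then G has a normal subgroup of index 2, except that when V has 25 elements G may be isomorphic to SL(2,3) and when V has 121 elements G may be isomorphic to SL(2,3) × C₅. -/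
theorem result
    (q : ℕ) [Fact q.Prime] {V : Type*} [AddCommGroup V] [Module (ZMod q) V] [Finite V] [Nontrivial V]
    {G : Type*} [Group G] [Finite G] (hsol : Group.IsSolvable G)
    (ρ : G →* (V ≃ₗ[ZMod q] V)) (hρ : Function.Injective ρ)
    (htrans : ∀ v w : V, v ≠ 0 → w ≠ 0 → ∃ g : G, ρ g v = w)
    (hreg : ∀ v : V, v ≠ 0 → ∀ g : G, ρ g v = v → g = 1) :
    ((∃ (F : Type) (_ : Field F) (_ : Fintype F) (e : V ≃+ F),
        ∀ g : G, ∃ (a : F) (σ : F ≃+* F), ∀ v : V, e (ρ g v) = a * σ (e v)) ∨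
      Nat.card V ∈ ({25, 49, 121, 529} : Set ℕ)) ∧
    (q ≠ 2 → (∃ N : Subgroup G, N.Normal ∧ N.index = 2) ∨
      (Nat.card V = 25 ∧ Nonempty (G ≃* Matrix.SpecialLinearGroup (Fin 2) (ZMod 3))) ∨
      (Nat.card V = 121 ∧ Nonempty (G ≃* Matrix.SpecialLinearGroup (Fin 2) (ZMod 3) × Multiplicative (ZMod 5)))) := by
  classical
  let H : Subgroup (V ≃ₗ[ZMod q] V) := ρ.range
  let e : G ≃* H := MonoidHom.ofInjective hρ
  have he : ∀ g : G, ((e g : H) : V ≃ₗ[ZMod q] V) = ρ g := fun g => rfl
  have hreg' : Cfsg.Agent.Lib.PermMod.RegLin.Reg H := by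
    intro v w hv hw
    obtain ⟨g, hg⟩ := htrans v w hv hw
    refine ⟨e g, hg, ?_⟩
    rintro ⟨_, g', rfl⟩ hg'
    apply Subtype.ext
    have h1 : ρ g' v = ρ g v := by rw [hg]; exact hg'
    have h2 : g⁻¹ * g' = 1 := hreg v hv _ (by
      rw [map_mul, LinearEquiv.mul_apply, h1]
      change (ρ g⁻¹) ((ρ g) v) = v
      rw [← LinearEquiv.mul_apply, ← map_mul]
      simp)
    have h3 : g' = g := by
      rw [inv_mul_eq_one] at h2
      exact h2.symm
    rw [h3]
    rfl
  have hsH : Group.IsSolvable H := Group.isSolvable_of_surjective (f := e.toMonoidHom) e.surjective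
  refine ⟨?_, ?_⟩
  · rcases Cfsg.Agent.Lib.Hup.RegMain.reg_A hreg' hsH with ⟨F, i1, i2, e', h⟩ | h
    · left
      refine ⟨F, i1, i2, e', fun g => ?_⟩
      exact h (e g)
    · exact Or.inr h
  · intro hq
    rcases Cfsg.Agent.Lib.Hup.RegMain.reg_B hreg' hsH hq with ⟨N, hN, hidx⟩ | ⟨h1, ⟨e'⟩⟩ | ⟨h1, ⟨e'⟩⟩
    · left
      refine ⟨N.comap e.toMonoidHom, inferInstance, ?_⟩
      exact (Subgroup.index_comap_of_surjective N (f := e.toMonoidHom) e.surjective).trans hidx
    · exact Or.inr (Or.inl ⟨h1, ⟨e.trans e'⟩⟩)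
    · exact Or.inr (Or.inr ⟨h1, ⟨e.trans e'⟩⟩)

end Cfsg.Agent.S3361
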