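import Cfsg.Statements.S3362
import Cfsg.Agent.Lib.PermComp.Chain
import Cfsg.Agent.Lib.PermComp.M12Explicit
import Mathlib

set_option autoImplicit false
open Cfsg

namespace Cfsg.Agent.S3362

open Cfsg.Agent.Lib.PermComp
open Cfsg.Agent.Lib.PermComp.M12Explicit

/-- The trivial numbering of the points. -/
abbrev e12 : Fin 12 ≃ Fin 12 := Equiv.refl _

def sP : Equiv.Perm (Fin 12) := Equiv.swap (3 : Fin 12) 5 * Equiv.swap (3 : Fin 12) 4 * Equiv.swap (6 : Fin 12) 8 * Equiv.swap (6 : Fin 12) 7 * Equiv.swap (9 : Fin 12) 11 * Equiv.swap (9 : Fin 12) 10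
def tP : Equiv.Perm (Fin 12) := Equiv.swap (3 : Fin 12) 9 * Equiv.swap (3 : Fin 12) 6 * Equiv.swap (4 : Fin 12) 10 * Equiv.swap (4 : Fin 12) 7 * Equiv.swap (5 : Fin 12) 11 * Equiv.swap (5 : Fin 12) 8
def uP : Equiv.Perm (Fin 12) := Equiv.swap (4 : Fin 12) 9 * Equiv.swap (4 : Fin 12) 5 * Equiv.swap (4 : Fin 12) 6 * Equiv.swap (7 : Fin 12) 10 * Equiv.swap (7 : Fin 12) 11 * Equiv.swap (7 : Fin 12) 8
def vP : Equiv.Perm (Fin 12) := Equiv.swap (4 : Fin 12) 11 * Equiv.swap (4 : Fin 12) 5 * Equiv.swap (4 : Fin 12) 7 * Equiv.swap (6 : Fin 12) 8 * Equiv.swap (6 : Fin 12) 9 * Equiv.swap (6 : Fin 12) 10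
def wP : Equiv.Perm (Fin 12) := Equiv.swap (4 : Fin 12) 8 * Equiv.swap (4 : Fin 12) 5 * Equiv.swap (4 : Fin 12) 10 * Equiv.swap (6 : Fin 12) 7 * Equiv.swap (6 : Fin 12) 9 * Equiv.swap (6 : Fin 12) 11
def x₁P : Equiv.Perm (Fin 12) := Equiv.swap (0 : Fin 12) 3 * Equiv.swap (6 : Fin 12) 7 * Equiv.swap (8 : Fin 12) 10 * Equiv.swap (9 : Fin 12) 11
def x₂P : Equiv.Perm (Fin 12) := Equiv.swap (0 : Fin 12) 1 * Equiv.swap (6 : Fin 12) 9 * Equiv.swap (7 : Fin 12) 10 * Equiv.swap (8 : Fin 12) 11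
def x₃P : Equiv.Perm (Fin 12) := Equiv.swap (1 : Fin 12) 2 * Equiv.swap (6 : Fin 12) 11 * Equiv.swap (7 : Fin 12) 9 * Equiv.swap (8 : Fin 12) 10

theorem rep12 : Core.Rep m12_w m12_mask e12 m12_c0 sP ∧ Core.Rep m12_w m12_mask e12 m12_c1 tP ∧
    Core.Rep m12_w m12_mask e12 m12_c2 uP ∧ Core.Rep m12_w m12_mask e12 m12_c3 vP ∧
    Core.Rep m12_w m12_mask e12 m12_c4 wP ∧ Core.Rep m12_w m12_mask e12 m12_c5 x₁P ∧
    Core.Rep m12_w m12_mask e12 m12_c6 x₂P ∧ Core.Rep m12_w m12_mask e12 m12_c7 x₃P := by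
  unfold Core.Rep
  decide +kernel

theorem rep11 : Core.Rep m11_w m11_mask e12 m11_c0 sP ∧ Core.Rep m11_w m11_mask e12 m11_c1 tP ∧
    Core.Rep m11_w m11_mask e12 m11_c2 uP ∧ Core.Rep m11_w m11_mask e12 m11_c3 vP ∧
    Core.Rep m11_w m11_mask e12 m11_c4 wP ∧ Core.Rep m11_w m11_mask e12 m11_c5 x₁P ∧
    Core.Rep m11_w m11_mask e12 m11_c6 x₂P := by
  unfold Core.Rep
  decide +kernel

theorem H12_eq : Core.H m12_w m12_mask e12 m12_T =
    Subgroup.closure {sP, tP, uP, vP, wP, x₁P, x₂P, x₃P} := by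
  obtain ⟨r0, r1, r2, r3, r4, r5, r6, r7⟩ := rep12
  apply Core.H_eq_closure
  · intro c hc
    simp only [m12_T, List.mem_cons, List.not_mem_nil, or_false] at hc
    rcases hc with rfl | rfl | rfl | rfl | rfl | rfl | rfl | rfl
    · exact ⟨_, by simp, r0⟩
    · exact ⟨_, by simp, r1⟩
    · exact ⟨_, by simp, r2⟩
    · exact ⟨_, by simp, r3⟩
    · exact ⟨_, by simp, r4⟩
    · exact ⟨_, by simp, r5⟩
    · exact ⟨_, by simp, r6⟩
    · exact ⟨_, by simp, r7⟩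
  · intro g hg
    simp only [Set.mem_insert_iff, Set.mem_singleton_iff] at hg
    rcases hg with rfl | rfl | rfl | rfl | rfl | rfl | rfl | rfl
    · exact ⟨_, by simp [m12_T], r0⟩
    · exact ⟨_, by simp [m12_T], r1⟩
    · exact ⟨_, by simp [m12_T], r2⟩
    · exact ⟨_, by simp [m12_T], r3⟩
    · exact ⟨_, by simp [m12_T], r4⟩
    · exact ⟨_, by simp [m12_T], r5⟩
    · exact ⟨_, by simp [m12_T], r6⟩
    · exact ⟨_, by simp [m12_T], r7⟩

theorem H11_eq : Core.H m11_w m11_mask e12 m11_T =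
    Subgroup.closure {sP, tP, uP, vP, wP, x₁P, x₂P} := by
  obtain ⟨r0, r1, r2, r3, r4, r5, r6⟩ := rep11
  apply Core.H_eq_closure
  · intro c hc
    simp only [m11_T, List.mem_cons, List.not_mem_nil, or_false] at hc
    rcases hc with rfl | rfl | rfl | rfl | rfl | rfl | rfl
    · exact ⟨_, by simp, r0⟩
    · exact ⟨_, by simp, r1⟩
    · exact ⟨_, by simp, r2⟩
    · exact ⟨_, by simp, r3⟩
    · exact ⟨_, by simp, r4⟩
    · exact ⟨_, by simp, r5⟩
    · exact ⟨_, by simp, r6⟩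
  · intro g hg
    simp only [Set.mem_insert_iff, Set.mem_singleton_iff] at hg
    rcases hg with rfl | rfl | rfl | rfl | rfl | rfl | rfl
    · exact ⟨_, by simp [m11_T], r0⟩
    · exact ⟨_, by simp [m11_T], r1⟩
    · exact ⟨_, by simp [m11_T], r2⟩
    · exact ⟨_, by simp [m11_T], r3⟩
    · exact ⟨_, by simp [m11_T], r4⟩
    · exact ⟨_, by simp [m11_T], r5⟩
    · exact ⟨_, by simp [m11_T], r6⟩

theorem main12 : m12_mask = 2 ^ m12_w - 1 ∧
    (∀ i < m12_n, Core.app m12_w m12_mask m12_idc i = i) ∧ m12_idc < 2 ^ (m12_n * m12_w) ∧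
    Core.Sem m12_w m12_mask e12 m12_L m12_maskL m12_levels ∧
    Core.H m12_w m12_mask e12 m12_T = Core.H m12_w m12_mask e12 (Core.topGens m12_levels) ∧
    Nat.card (Core.H m12_w m12_mask e12 m12_T) = Core.orderC m12_levels := by
  obtain ⟨r0, r1, r2, r3, r4, r5, r6, r7⟩ := rep12
  refine Core.main_of_checkAll (n := 12) ?_ m12_check
  intro c hc
  simp only [m12_T, List.mem_cons, List.not_mem_nil, or_false] at hc
  rcases hc with rfl | rfl | rfl | rfl | rfl | rfl | rfl | rfl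
  · exact ⟨_, r0⟩
  · exact ⟨_, r1⟩
  · exact ⟨_, r2⟩
  · exact ⟨_, r3⟩
  · exact ⟨_, r4⟩
  · exact ⟨_, r5⟩
  · exact ⟨_, r6⟩
  · exact ⟨_, r7⟩

theorem main11 : Nat.card (Core.H m11_w m11_mask e12 m11_T) = 7920 := by
  obtain ⟨r0, r1, r2, r3, r4, r5, r6⟩ := rep11
  have h := Core.main_of_checkAll (n := 12) (e := e12) (w := m11_w) (mask := m11_mask) (T := m11_T) ?_ m11_check
  · rw [h.2.2.2.2.2, m11_order]
  intro c hc
  simp only [m11_T, List.mem_cons, List.not_mem_nil, or_false] at hc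
  rcases hc with rfl | rfl | rfl | rfl | rfl | rfl | rfl
  · exact ⟨_, r0⟩
  · exact ⟨_, r1⟩
  · exact ⟨_, r2⟩
  · exact ⟨_, r3⟩
  · exact ⟨_, r4⟩
  · exact ⟨_, r5⟩
  · exact ⟨_, r6⟩

theorem full12 : Chain.FullTo e12 5 m12_levels [] := by
  show ∃ b : Fin 12, _ ∧ _ ∧ _
  refine ⟨2, by decide +kernel, by decide +kernel, ?_⟩
  show ∃ b : Fin 12, _ ∧ _ ∧ _
  refine ⟨0, by decide +kernel, by decide +kernel, ?_⟩
  show ∃ b : Fin 12, _ ∧ _ ∧ _
  refine ⟨1, by decide +kernel, by decide +kernel, ?_⟩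
  show ∃ b : Fin 12, _ ∧ _ ∧ _
  refine ⟨3, by decide +kernel, by decide +kernel, ?_⟩
  show ∃ b : Fin 12, _ ∧ _ ∧ _
  refine ⟨4, by decide +kernel, by decide +kernel, trivial⟩

/-- The base of the chain. -/
def bb : Fin 5 → Fin 12 := ![2, 0, 1, 3, 4]

theorem exists_map (f : Fin 5 ↪ Fin 12) :
    ∃ g ∈ Core.H m12_w m12_mask e12 (Core.topGens m12_levels), ∀ i, g (bb i) = f i := by
  obtain ⟨-, -, -, hsem, -, -⟩ := main12
  have hnd : [f 0, f 1, f 2, f 3, f 4].Nodup := by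
    simp [f.injective.eq_iff]
  obtain ⟨g, hg, hM⟩ := Chain.exists_map_of_full 5 [f 0, f 1, f 2, f 3, f 4] m12_levels [] rfl hsem full12
    hnd (by simp) (by simp)
  refine ⟨g, hg, ?_⟩
  obtain ⟨h0, h1, h2, h3, h4, -⟩ := hM
  have e0 := h0 2 (by decide +kernel)
  have e1 := h1 0 (by decide +kernel)
  have e2 := h2 1 (by decide +kernel)
  have e3 := h3 3 (by decide +kernel)
  have e4 := h4 4 (by decide +kernel)
  intro i
  fin_cases i
  · exact e0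
  · exact e1
  · exact e2
  · exact e3
  · exact e4

theorem m11_le : (Subgroup.closure {sP, tP, uP, vP, wP, x₁P, x₂P} : Subgroup (Equiv.Perm (Fin 12))) ≤
    Subgroup.closure {sP, tP, uP, vP, wP, x₁P, x₂P, x₃P} := by
  apply Subgroup.closure_mono
  intro g hg
  simp only [Set.mem_insert_iff, Set.mem_singleton_iff] at hg ⊢
  rcases hg with h | h | h | h | h | h | h
  · exact Or.inl h
  · exact Or.inr (Or.inl h)
  · exact Or.inr (Or.inr (Or.inl h))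
  · exact Or.inr (Or.inr (Or.inr (Or.inl h)))
  · exact Or.inr (Or.inr (Or.inr (Or.inr (Or.inl h))))
  · exact Or.inr (Or.inr (Or.inr (Or.inr (Or.inr (Or.inl h)))))
  · exact Or.inr (Or.inr (Or.inr (Or.inr (Or.inr (Or.inr (Or.inl h))))))

theorem m11_fix : (Subgroup.closure {sP, tP, uP, vP, wP, x₁P, x₂P} : Subgroup (Equiv.Perm (Fin 12))) ≤
    MulAction.stabilizer (Equiv.Perm (Fin 12)) (2 : Fin 12) := by
  rw [Subgroup.closure_le]
  have h : sP 2 = 2 ∧ tP 2 = 2 ∧ uP 2 = 2 ∧ vP 2 = 2 ∧ wP 2 = 2 ∧ x₁P 2 = 2 ∧ x₂P 2 = 2 := by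
    decide +kernel
  obtain ⟨h0, h1, h2, h3, h4, h5, h6⟩ := h
  intro g hg
  simp only [Set.mem_insert_iff, Set.mem_singleton_iff] at hg
  rcases hg with rfl | rfl | rfl | rfl | rfl | rfl | rfl
  · exact h0
  · exact h1
  · exact h2
  · exact h3
  · exact h4
  · exact h5
  · exact h6

/-- the main theorem for the explicit generators -/
theorem main_explicit :
    MulAction.IsMultiplyPretransitive (Subgroup.closure {sP, tP, uP, vP, wP, x₁P, x₂P, x₃P} : Subgroup (Equiv.Perm (Fin 12))) (Fin 12) 5 ∧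
    (∀ y : Fin 5 ↪ Fin 12, MulAction.stabilizer (Subgroup.closure {sP, tP, uP, vP, wP, x₁P, x₂P, x₃P} : Subgroup (Equiv.Perm (Fin 12))) y = ⊥) ∧
    Nat.card (Subgroup.closure {sP, tP, uP, vP, wP, x₁P, x₂P, x₃P} : Subgroup (Equiv.Perm (Fin 12))) = 95040 ∧
    Nat.card (Subgroup.closure {sP, tP, uP, vP, wP, x₁P, x₂P} : Subgroup (Equiv.Perm (Fin 12))) = 7920 ∧
    (Subgroup.closure {sP, tP, uP, vP, wP, x₁P, x₂P} : Subgroup (Equiv.Perm (Fin 12))) =
      (Subgroup.closure {sP, tP, uP, vP, wP, x₁P, x₂P, x₃P} : Subgroup (Equiv.Perm (Fin 12))) ⊓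
        MulAction.stabilizer (Equiv.Perm (Fin 12)) (2 : Fin 12) := by
  obtain ⟨-, -, -, hsem, hHeq, hcard⟩ := main12
  set M₁₂ : Subgroup (Equiv.Perm (Fin 12)) := Subgroup.closure {sP, tP, uP, vP, wP, x₁P, x₂P, x₃P} with hM12
  set M₁₁ : Subgroup (Equiv.Perm (Fin 12)) := Subgroup.closure {sP, tP, uP, vP, wP, x₁P, x₂P} with hM11
  have hM12H : Core.H m12_w m12_mask e12 (Core.topGens m12_levels) = M₁₂ := by
    rw [← hHeq, H12_eq]
  have hc12 : Nat.card M₁₂ = 95040 := by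
    rw [hM12, ← H12_eq, hcard, m12_order]
  have hc11 : Nat.card M₁₁ = 7920 := by
    rw [hM11, ← H11_eq, main11]
  have htrans : MulAction.IsMultiplyPretransitive M₁₂ (Fin 12) 5 := by
    constructor
    intro f f'
    obtain ⟨g, hg, hgf⟩ := exists_map f
    obtain ⟨g', hg', hgf'⟩ := exists_map f'
    rw [hM12H] at hg hg'
    refine ⟨⟨g' * g⁻¹, M₁₂.mul_mem hg' (M₁₂.inv_mem hg)⟩, ?_⟩
    ext i
    show ((g' * g⁻¹) (f i) : Fin 12).val = (f' i).val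
    have h5 : g⁻¹ (g (bb i)) = bb i := by simp
    rw [Equiv.Perm.mul_apply, ← hgf i, h5, hgf']
  refine ⟨htrans, ?_, hc12, hc11, ?_⟩
  · intro y
    have h1 : (MulAction.stabilizer M₁₂ y).index = Nat.card (Fin 5 ↪ Fin 12) :=
      @MulAction.index_stabilizer_of_transitive M₁₂ (Fin 5 ↪ Fin 12) _ _ y htrans
    have h2 : Nat.card (Fin 5 ↪ Fin 12) = 95040 := by
      rw [Nat.card_eq_fintype_card, Fintype.card_embedding_eq]
      decide
    have h3 := Subgroup.card_mul_index (MulAction.stabilizer M₁₂ y)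
    rw [h1, h2, hc12] at h3
    apply Subgroup.card_eq_one.mp
    omega
  · -- the stabilizer of the point 2
    have hstab : M₁₂ ⊓ MulAction.stabilizer (Equiv.Perm (Fin 12)) (2 : Fin 12) =
        Core.H m12_w m12_mask e12 (Core.topGens [m12_lev1, m12_lev2, m12_lev3, m12_lev4]) := by
      rw [← hM12H]
      exact Chain.stab_eq hsem.1 (by decide +kernel)
    have hcard' : Nat.card (M₁₂ ⊓ MulAction.stabilizer (Equiv.Perm (Fin 12)) (2 : Fin 12) : Subgroup (Equiv.Perm (Fin 12))) = 7920 := by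
      rw [hstab, Core.card_of_sem _ hsem.2]
      decide +kernel
    have hle : M₁₁ ≤ M₁₂ ⊓ MulAction.stabilizer (Equiv.Perm (Fin 12)) (2 : Fin 12) :=
      le_inf m11_le m11_fix
    apply Subgroup.eq_of_le_of_card_ge hle
    rw [hcard', hc11]

/-- An explicit construction of the Mathieu groups of degrees 11 and 12. On the points 0, …, 11 let s = (3 4 5)(6 7 8)(9 10 11), t = (3 6 9)(4 7 10)(5 8 11), u = (4 6 5 9)(7 8 11 10), v = (4 7 5 11)(6 10 9 8), w = (4 10 5 8)(6 11 9 7), x₁ = (0 3)(6 7)(8 10)(9 11), x₂ = (0 1)(6 9)(7 10)(8 11), x₃ = (1 2)(6 11)(7 9)(8 10) (each written as a product of transpositions). Then the group M₁₂ generated by all eight permutations is sharply 5-transitive on the 12 points and has order 95040, and the group M₁₁ generated by the first seven has order 7920 and is the stabilizer of the point 2 in M₁₂. -/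
theorem result
    (s t u v w x₁ x₂ x₃ : Equiv.Perm (Fin 12))
    (hs : s = Equiv.swap (3 : Fin 12) 5 * Equiv.swap (3 : Fin 12) 4 * Equiv.swap (6 : Fin 12) 8 * Equiv.swap (6 : Fin 12) 7 * Equiv.swap (9 : Fin 12) 11 * Equiv.swap (9 : Fin 12) 10) (ht : t = Equiv.swap (3 : Fin 12) 9 * Equiv.swap (3 : Fin 12) 6 * Equiv.swap (4 : Fin 12) 10 * Equiv.swap (4 : Fin 12) 7 * Equiv.swap (5 : Fin 12) 11 * Equiv.swap (5 : Fin 12) 8)
    (hu : u = Equiv.swap (4 : Fin 12) 9 * Equiv.swap (4 : Fin 12) 5 * Equiv.swap (4 : Fin 12) 6 * Equiv.swap (7 : Fin 12) 10 * Equiv.swap (7 : Fin 12) 11 * Equiv.swap (7 : Fin 12) 8) (hv : v = Equiv.swap (4 : Fin 12) 11 * Equiv.swap (4 : Fin 12) 5 * Equiv.swap (4 : Fin 12) 7 * Equiv.swap (6 : Fin 12) 8 * Equiv.swap (6 : Fin 12) 9 * Equiv.swap (6 : Fin 12) 10) (hw : w = Equiv.swap (4 : Fin 12) 8 * Equiv.swap (4 : Fin 12) 5 * Equiv.swap (4 : Fin 12) 10 * Equiv.swap (6 : Fin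 12) 7 * Equiv.swap (6 : Fin 12) 9 * Equiv.swap (6 : Fin 12) 11)
    (hx₁ : x₁ = Equiv.swap (0 : Fin 12) 3 * Equiv.swap (6 : Fin 12) 7 * Equiv.swap (8 : Fin 12) 10 * Equiv.swap (9 : Fin 12) 11) (hx₂ : x₂ = Equiv.swap (0 : Fin 12) 1 * Equiv.swap (6 : Fin 12) 9 * Equiv.swap (7 : Fin 12) 10 * Equiv.swap (8 : Fin 12) 11)
    (hx₃ : x₃ = Equiv.swap (1 : Fin 12) 2 * Equiv.swap (6 : Fin 12) 11 * Equiv.swap (7 : Fin 12) 9 * Equiv.swap (8 : Fin 12) 10)
    (M₁₂ M₁₁ : Subgroup (Equiv.Perm (Fin 12))) (hM₁₂ : M₁₂ = Subgroup.closure {s, t, u, v, w, x₁, x₂, x₃})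
    (hM₁₁ : M₁₁ = Subgroup.closure {s, t, u, v, w, x₁, x₂}) :
    MulAction.IsMultiplyPretransitive M₁₂ (Fin 12) 5 ∧ (∀ y : Fin 5 ↪ Fin 12, MulAction.stabilizer M₁₂ y = ⊥) ∧
    Nat.card M₁₂ = 95040 ∧ Nat.card M₁₁ = 7920 ∧
    M₁₁ = M₁₂ ⊓ MulAction.stabilizer (Equiv.Perm (Fin 12)) (2 : Fin 12) := by
  subst hs ht hu hv hw hx₁ hx₂ hx₃ hM₁₂ hM₁₁
  exact main_explicit

end Cfsg.Agent.S3362
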