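import Cfsg.Statements.S3370
import Cfsg.Agent.Lib.PGroups.Presentations
import Mathlib

set_option autoImplicit false

open Cfsg Cfsg.Agent.Lib.PGroups.Presentations

namespace Cfsg.Agent.S3370

lemma arith_two (n p a : ℕ) (hp : p.Prime) (hn : 1 ≤ n) (ha : 1 ≤ a) (h : 2 ^ n = p ^ a + 1) :
    a = 1 := by
  have hn2 : 2 ∣ 2 ^ n := dvd_pow_self 2 (by omega)
  have hpodd : Odd p := by
    rcases hp.eq_two_or_odd' with rfl | h1
    · exfalso
      have h2 : 2 ∣ 2 ^ a := dvd_pow_self 2 (by omega)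
      omega
    · exact h1
  rcases Nat.even_or_odd a with ⟨b, rfl⟩ | ⟨k, rfl⟩
  · -- even exponent
    exfalso
    have hw : Odd (p ^ b) := hpodd.pow
    obtain ⟨c, hc⟩ := hw
    have h3 : p ^ (b + b) = 4 * (c * c + c) + 1 := by
      rw [pow_add, hc]; ring
    have hn1 : n = 1 := by
      by_contra hne
      obtain ⟨m, rfl⟩ : ∃ m, n = m + 2 := ⟨n - 2, by omega⟩
      rw [h3, pow_add] at h
      omega
    rw [hn1, h3] at h
    have h4 : c = 0 := by
      by_contra h5
      have : 0 < c * c + c := by positivity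
      omega
    rw [h4] at hc
    have hb : b = 0 := by
      by_contra h5
      have : p ∣ p ^ b := dvd_pow_self p h5
      rw [hc] at this
      have := hp.one_lt
      have := Nat.le_of_dvd (by omega) ‹p ∣ 2 * 0 + 1›
      omega
    omega
  · -- odd exponent
    have hdvd : p + 1 ∣ p ^ (2 * k + 1) + 1 := by
      have := Odd.nat_add_dvd_pow_add_pow p 1 (n := 2 * k + 1) ⟨k, rfl⟩
      simpa using this
    obtain ⟨Q, hQ⟩ := hdvd
    obtain ⟨c, hc⟩ := hpodd
    have hmod : p ^ 2 ≡ 1 [MOD 2 * (p + 1)] := by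
      have : p ^ 2 = 1 + 2 * (p + 1) * c := by
        rw [hc]; ring
      rw [this]
      simp [Nat.ModEq]
    have hmod2 : p ^ (2 * k + 1) ≡ p [MOD 2 * (p + 1)] := by
      have := (hmod.pow k).mul_right p
      simpa [pow_mul, pow_succ] using this
    have hQd : Q ∣ 2 ^ n := ⟨p + 1, by rw [h, hQ]; ring⟩
    obtain ⟨s, -, hs⟩ := (Nat.dvd_prime_pow Nat.prime_two).1 hQd
    have hs0 : s = 0 := by
      by_contra hs0
      obtain ⟨s', rfl⟩ : ∃ s', s = s' + 1 := ⟨s - 1, by omega⟩
      have h5 : 2 * (p + 1) ∣ p ^ (2 * k + 1) + 1 := by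
        rw [hQ, hs]
        exact ⟨2 ^ s', by ring⟩
      have h6 : p ^ (2 * k + 1) + 1 ≡ p + 1 [MOD 2 * (p + 1)] := hmod2.add_right 1
      have h7 : 2 * (p + 1) ∣ p + 1 := (Nat.ModEq.dvd_iff h6 (dvd_refl _)).1 h5
      have := Nat.le_of_dvd (by omega) h7
      omega
    rw [hs0, pow_zero] at hs
    rw [hs, mul_one] at hQ
    have h8 : p ^ (2 * k + 1) = p ^ 1 := by
      rw [pow_one]; omega
    have h9 := Nat.pow_right_injective hp.two_le h8
    exact h9

lemma geom_odd (q : ℕ) (hq : Odd q) (hq1 : 1 ≤ q) (n : ℕ) :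
    ∃ S, q ^ n = (q - 1) * S + 1 ∧ S % 2 = n % 2 ∧ n ≤ S := by
  induction n with
  | zero => exact ⟨0, by simp, rfl, le_rfl⟩
  | succ n ih =>
    obtain ⟨S, h1, h2, h3⟩ := ih
    refine ⟨q * S + 1, ?_, ?_, ?_⟩
    · obtain ⟨r, rfl⟩ : ∃ r, q = r + 1 := ⟨q - 1, by omega⟩
      rw [pow_succ, h1]
      simp only [Nat.add_sub_cancel]
      ring
    · obtain ⟨c, rfl⟩ := hq
      have : (2 * c + 1) * S + 1 = 2 * (c * S) + S + 1 := by ring
      omega
    · have : S ≤ q * S := Nat.le_mul_of_pos_left S (by omega)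
      omega

lemma arith_odd (q n a : ℕ) (hq : q.Prime) (hq2 : q ≠ 2) (hn : 2 ≤ n) (h : q ^ n = 2 ^ a + 1) :
    q = 3 ∧ n = 2 := by
  have hqodd : Odd q := hq.odd_of_ne_two hq2
  have hq3 : 3 ≤ q := by
    have := hq.two_le
    omega
  rcases Nat.even_or_odd n with ⟨b, rfl⟩ | hnodd
  · set w := q ^ b with hw
    have hb : 1 ≤ b := by omega
    have hw3 : 3 ≤ w := by
      calc 3 ≤ q := hq3
        _ = q ^ 1 := (pow_one q).symm
        _ ≤ q ^ b := Nat.pow_le_pow_right (by omega) hb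
    have hwodd : Odd w := hqodd.pow
    obtain ⟨r, hr⟩ : ∃ r, w = r + 1 := ⟨w - 1, by omega⟩
    have h1 : r * (r + 2) = 2 ^ a := by
      have : q ^ (b + b) = w * w := by rw [pow_add]
      rw [this, hr] at h
      nlinarith
    have h2 : r ∣ 2 ^ a := ⟨r + 2, h1.symm⟩
    have h3 : r + 2 ∣ 2 ^ a := ⟨r, by rw [← h1]; ring⟩
    obtain ⟨i, -, hi⟩ := (Nat.dvd_prime_pow Nat.prime_two).1 h2
    obtain ⟨j, -, hj⟩ := (Nat.dvd_prime_pow Nat.prime_two).1 h3
    have hr2 : r = 2 := by
      obtain ⟨c, hc⟩ := hwodd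
      have hreven : 2 ∣ r := by omega
      have hi0 : i ≠ 0 := by
        rintro rfl
        rw [pow_zero] at hi
        omega
      by_contra hne
      have hi2 : 2 ≤ i := by
        by_contra hlt
        have : i = 1 := by omega
        rw [this, pow_one] at hi
        exact hne hi
      obtain ⟨i', rfl⟩ : ∃ i', i = i' + 2 := ⟨i - 2, by omega⟩
      have h4 : r = 4 * 2 ^ i' := by rw [hi, pow_add]; ring
      have hj2 : 2 ≤ j := by
        by_contra hlt
        have : j ≤ 1 := by omega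
        have : 2 ^ j ≤ 2 ^ 1 := Nat.pow_le_pow_right (by omega) this
        omega
      obtain ⟨j', rfl⟩ : ∃ j', j = j' + 2 := ⟨j - 2, by omega⟩
      have h5 : r + 2 = 4 * 2 ^ j' := by rw [hj, pow_add]; ring
      omega
    have hw3' : q ^ b = 3 := by rw [← hw, hr, hr2]
    have hqd : q ∣ 3 := by
      rw [← hw3']
      exact dvd_pow_self q (by omega)
    have hq3' : q = 3 := (Nat.prime_dvd_prime_iff_eq hq Nat.prime_three).1 hqd
    subst hq3'
    have hb1 : b = 1 := by
      have : 3 ^ b = 3 ^ 1 := by simpa using hw3'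
      exact Nat.pow_right_injective (by norm_num) this
    exact ⟨rfl, by omega⟩
  · exfalso
    obtain ⟨S, h1, h2, h3⟩ := geom_odd q hqodd hq.one_lt.le n
    have h4 : S ∣ 2 ^ a := ⟨q - 1, by
      have : (q - 1) * S + 1 = 2 ^ a + 1 := by rw [← h1, h]
      have h5 : (q - 1) * S = 2 ^ a := by omega
      rw [← h5]; ring⟩
    obtain ⟨s, -, hs⟩ := (Nat.dvd_prime_pow Nat.prime_two).1 h4
    have h6 : S % 2 = 1 := by
      rw [h2]; exact Nat.odd_iff.1 hnodd
    have hs0 : s = 0 := by
      by_contra hs0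
      obtain ⟨s', rfl⟩ : ∃ s', s = s' + 1 := ⟨s - 1, by omega⟩
      rw [hs, pow_succ] at h6
      omega
    rw [hs0, pow_zero] at hs
    omega

lemma arith (q n p a : ℕ) (hq : q.Prime) (hp : p.Prime) (hn : 1 ≤ n) (ha : 1 ≤ a)
    (h : q ^ n = p ^ a + 1) : (q = 2 ∧ a = 1) ∨ (p = 2 ∧ n = 1) ∨ (p = 2 ∧ q = 3 ∧ n = 2) := by
  by_cases hq2 : q = 2
  · subst hq2
    exact Or.inl ⟨rfl, arith_two n p a hp hn ha h⟩
  · right
    have hqodd : Odd q := hq.odd_of_ne_two hq2
    have h1 : Odd (q ^ n) := hqodd.pow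
    have hp2 : p = 2 := by
      rcases hp.eq_two_or_odd' with h2 | h2
      · exact h2
      · exfalso
        have h3 : Odd (p ^ a) := h2.pow
        rw [h] at h1
        have : Even (p ^ a + 1) := h3.add_one
        exact (Nat.not_even_iff_odd.2 h1) this
    subst hp2
    by_cases hn1 : n = 1
    · exact Or.inl ⟨rfl, hn1⟩
    · right
      obtain ⟨h3, h4⟩ := arith_odd q n a hq hq2 (by omega) h
      exact ⟨rfl, h3, h4⟩

lemma card8_unique_inv {G : Type*} [Group G] [Finite G] (hG : Nat.card G = 8)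
    (huniq : ∀ t t' : G, t ^ 2 = 1 → t ≠ 1 → t' ^ 2 = 1 → t' ≠ 1 → t = t') :
    (IsCyclic G ∧ Nat.card G = 8) ∨ Nonempty (G ≃* QuaternionGroup 2) := by
  classical
  by_cases h8 : ∃ g : G, orderOf g = 8
  · obtain ⟨g, hg⟩ := h8
    exact Or.inl ⟨isCyclic_of_orderOf_eq_card g (by rw [hg, hG]), hG⟩
  right
  push Not at h8
  have : Fact (Nat.Prime 2) := ⟨Nat.prime_two⟩
  obtain ⟨c, hc⟩ := exists_prime_orderOf_dvd_card' (G := G) 2 (by rw [hG]; norm_num)
  have hc2 : c ^ 2 = 1 := by rw [← hc]; exact pow_orderOf_eq_one c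
  have hc1 : c ≠ 1 := by
    rintro rfl
    rw [orderOf_one] at hc
    omega
  -- an element outside {1,c} has order 4 and square c
  have hkey : ∀ g : G, g ≠ 1 → g ≠ c → orderOf g = 4 ∧ g ^ 2 = c := by
    intro g hg1 hgc
    have hd : orderOf g ∣ 2 ^ 3 := by
      have := orderOf_dvd_natCard g
      rwa [hG] at this
    obtain ⟨k, hk, hk2⟩ := (Nat.dvd_prime_pow Nat.prime_two).1 hd
    interval_cases k
    · simp only [pow_zero] at hk2
      exact absurd (orderOf_eq_one_iff.1 hk2) hg1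
    · simp only [pow_one] at hk2
      have : g ^ 2 = 1 := by rw [← hk2]; exact pow_orderOf_eq_one g
      exact absurd (huniq g c this hg1 hc2 hc1) hgc
    · have h4 : orderOf g = 4 := by rw [hk2]; norm_num
      refine ⟨h4, ?_⟩
      apply huniq _ _ _ _ hc2 hc1
      · rw [← pow_mul]
        rw [show 2 * 2 = 4 from rfl, ← h4]
        exact pow_orderOf_eq_one g
      · intro h
        have := orderOf_dvd_of_pow_eq_one h
        rw [h4] at this
        omega
    · exact absurd hk2 (h8 g)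
  -- the elements
  have hex : ∀ s : Subgroup G, Nat.card s < 8 → ∃ g, g ∉ s := by
    intro s hs
    by_contra hcon
    push Not at hcon
    have : s = ⊤ := by
      rw [eq_top_iff]; intro g _; exact hcon g
    rw [this, Subgroup.card_top, hG] at hs
    omega
  obtain ⟨a, ha⟩ := hex (Subgroup.zpowers c) (by rw [Nat.card_zpowers, hc]; norm_num)
  have ha1 : a ≠ 1 := fun h => ha (h ▸ Subgroup.one_mem _)
  have hac : a ≠ c := fun h => ha (h ▸ Subgroup.mem_zpowers c)
  obtain ⟨ha4, ha2⟩ := hkey a ha1 hac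
  obtain ⟨b, hb⟩ := hex (Subgroup.zpowers a) (by rw [Nat.card_zpowers, ha4]; norm_num)
  have hb1 : b ≠ 1 := fun h => hb (h ▸ Subgroup.one_mem _)
  have hcmem : c ∈ Subgroup.zpowers a := by
    rw [← ha2]
    exact Subgroup.npow_mem_zpowers a 2
  have hbc : b ≠ c := fun h => hb (h ▸ hcmem)
  obtain ⟨hb4, hb2⟩ := hkey b hb1 hbc
  have hidx : (Subgroup.zpowers a).index = 2 := by
    have := Subgroup.card_mul_index (Subgroup.zpowers a)
    rw [Nat.card_zpowers, ha4, hG] at this
    omega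
  have hnorm : (Subgroup.zpowers a).Normal := Subgroup.normal_of_index_eq_two hidx
  have hu := hnorm.conj_mem a (Subgroup.mem_zpowers a) b
  set u := b * a * b⁻¹ with hudef
  have hu2 : u ^ 2 ≠ 1 := by
    intro h
    rw [hudef, conj_pow, conj_eq_one_iff, ha2] at h
    exact hc1 h
  have hua : u = a ∨ u = a⁻¹ := by
    obtain ⟨k, hk⟩ := Subgroup.mem_zpowers_iff.1 hu
    have hk4 : a ^ (k % 4) = u := by
      have := zpow_mod_orderOf a k
      rw [ha4] at this
      rw [← hk]
      exact_mod_cast this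
    have h5 : a ^ (4 : ℕ) = 1 := by rw [← ha4]; exact pow_orderOf_eq_one a
    have hm : k % 4 = 0 ∨ k % 4 = 1 ∨ k % 4 = 2 ∨ k % 4 = 3 := by omega
    rcases hm with h6 | h6 | h6 | h6
    · exfalso
      rw [h6, zpow_zero] at hk4
      rw [← hk4, one_pow] at hu2
      exact hu2 rfl
    · left
      rw [h6, zpow_one] at hk4
      exact hk4.symm
    · exfalso
      rw [h6] at hk4
      have : u ^ 2 = 1 := by
        rw [← hk4, ← zpow_natCast, ← zpow_mul]
        have : ((2 : ℤ) * ((2 : ℕ) : ℤ)) = ((4 : ℕ) : ℤ) := by norm_num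
        rw [this, zpow_natCast, h5]
      exact hu2 this
    · right
      rw [h6] at hk4
      rw [← hk4]
      rw [eq_inv_iff_mul_eq_one, ← zpow_add_one]
      have : ((3 : ℤ) + 1) = ((4 : ℕ) : ℤ) := by norm_num
      rw [this, zpow_natCast, h5]
  have hconj : b * a * b⁻¹ = a⁻¹ := by
    rcases hua with h | h
    · exfalso
      have hcomm : b * a = a * b := by
        have := congrArg (· * b) h
        simpa [hudef] using this
      have h7 : (a * b) ^ 2 = 1 := by
        rw [pow_two, mul_assoc, ← mul_assoc b a b, hcomm, mul_assoc, ← pow_two b, hb2, ← mul_assoc,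
          ← pow_two a, ha2, ← pow_two, hc2]
      have h8' : a * b ≠ 1 := by
        intro h9
        apply hb
        have : b = a⁻¹ := eq_inv_of_mul_eq_one_right h9
        rw [this]
        exact Subgroup.inv_mem _ (Subgroup.mem_zpowers a)
      have h9 := huniq _ _ h7 h8' hc2 hc1
      apply hb
      have : a * b = a * a := by rw [h9, ← ha2, pow_two]
      rw [mul_left_cancel this]
      exact Subgroup.mem_zpowers a
    · exact h
  obtain ⟨e⟩ := nonempty_quaternion_equiv (m := 2) (a := a) (y := b) (by rw [ha4])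
    (by rw [hb2, ha2]) hconj hb (by rw [hG])
  exact ⟨e.symm⟩

abbrev M3 := Matrix (Fin 2) (Fin 2) (ZMod 3)
def X0 : M3 := !![1,2;1,1]
lemma ordX : X0^8 = 1 ∧ X0^4 ≠ 1 := by decide +kernel
lemma lemA : ∀ w : M3, w.det ≠ 0 → (∃ k : Fin 8, w * X0 = X0^(k:ℕ) * w) → (∃ i : Fin 8, w = X0^(i:ℕ)) ∨ (w * X0 = X0^3 * w) := by decide +kernel
lemma lemB : ∀ w : M3, w.det ≠ 0 → w * X0 = X0^3 * w → w^2 = 1 ∨ (w*X0)^2 = 1 := by decide +kernel
lemma lemC : X0^3 ≠ X0 := by decide +kernel

lemma gl23_sylow (S : Subgroup (GL (Fin 2) (ZMod 3))) (hS : Nat.card S = 16) :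
    ∃ x ∈ S, ∃ y ∈ S, orderOf x = 8 ∧ orderOf y = 2 ∧ y * x * y⁻¹ = x ^ 3 := by
  have hcard : Nat.card (GL (Fin 2) (ZMod 3)) = 48 := by
    rw [Matrix.card_GL_field]
    simp [Nat.card_zmod, Fin.prod_univ_two]
  have hfact : (48 : ℕ).factorization 2 = 4 := by
    have : (48 : ℕ) = 2 ^ 4 * 3 := by norm_num
    rw [this, Nat.factorization_mul (by norm_num) (by norm_num), Nat.Prime.factorization_pow Nat.prime_two]
    simp [Nat.factorization_eq_zero_of_not_dvd]
  let S' : Sylow 2 (GL (Fin 2) (ZMod 3)) := Sylow.ofCard S (by rw [hcard, hfact, hS]; norm_num)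
  let x0 : GL (Fin 2) (ZMod 3) := Matrix.GeneralLinearGroup.mkOfDetNeZero X0 (by decide +kernel)
  have hx0c : ((x0 : GL (Fin 2) (ZMod 3)) : M3) = X0 := rfl
  have hpowc : ∀ k : ℕ, ((x0 ^ k : GL (Fin 2) (ZMod 3)) : M3) = X0 ^ k := by
    intro k
    rw [Units.val_pow_eq_pow_val, hx0c]
  have hx0ord : orderOf x0 = 8 := by
    have := orderOf_eq_prime_pow (x := x0) (p := 2) (n := 2) (by
      intro h
      apply ordX.2
      have h2 : ((x0 ^ 2 ^ 2 : GL (Fin 2) (ZMod 3)) : M3) = ((1 : GL (Fin 2) (ZMod 3)) : M3) :=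
        congrArg (fun g : GL (Fin 2) (ZMod 3) => (g : M3)) h
      rw [hpowc] at h2
      simpa using h2) (by
      apply Units.ext
      rw [hpowc]
      simpa using ordX.1)
    simpa using this
  have hp : IsPGroup 2 (Subgroup.zpowers x0) :=
    IsPGroup.of_card (n := 3) (by rw [Nat.card_zpowers, hx0ord]; norm_num)
  obtain ⟨Q, hQ⟩ := hp.exists_le_sylow
  obtain ⟨c, hc⟩ := MulAction.exists_smul_eq (GL (Fin 2) (ZMod 3)) Q S'
  have hQcard : Nat.card (Q : Subgroup (GL (Fin 2) (ZMod 3))) = 16 := by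
    rw [Sylow.card_eq_multiplicity, hcard, hfact]; norm_num
  have hx0Q : x0 ∈ (Q : Subgroup (GL (Fin 2) (ZMod 3))) := hQ (Subgroup.mem_zpowers x0)
  -- an element of `Q` outside `⟨x0⟩`
  obtain ⟨w, hwQ, hw⟩ : ∃ w ∈ (Q : Subgroup (GL (Fin 2) (ZMod 3))), w ∉ Subgroup.zpowers x0 := by
    by_contra hcon
    push Not at hcon
    have : Nat.card (Q : Subgroup (GL (Fin 2) (ZMod 3))) ≤ Nat.card (Subgroup.zpowers x0) :=
      Subgroup.card_le_of_le hcon
    rw [hQcard, Nat.card_zpowers, hx0ord] at this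
    omega
  have hdet : (w : M3).det ≠ 0 :=
    ((Matrix.isUnit_iff_isUnit_det _).1 w.isUnit).ne_zero
  -- normality
  have hu : w * x0 * w⁻¹ ∈ Subgroup.zpowers x0 := by
    let H' : Subgroup (Q : Subgroup (GL (Fin 2) (ZMod 3))) := (Subgroup.zpowers x0).subgroupOf Q
    have hH' : Nat.card H' = 8 := by
      rw [Nat.card_congr (Subgroup.subgroupOfEquivOfLe hQ).toEquiv, Nat.card_zpowers, hx0ord]
    have hidx : H'.index = 2 := by
      have := Subgroup.card_mul_index H'
      rw [hH', hQcard] at this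
      omega
    have hn : H'.Normal := Subgroup.normal_of_index_eq_two hidx
    have h1 : (⟨x0, hx0Q⟩ : (Q : Subgroup (GL (Fin 2) (ZMod 3)))) ∈ H' :=
      Subgroup.mem_subgroupOf.2 (Subgroup.mem_zpowers x0)
    have h2 := hn.conj_mem _ h1 ⟨w, hwQ⟩
    exact Subgroup.mem_subgroupOf.1 h2
  obtain ⟨k, hk⟩ : ∃ k : Fin 8, (w : M3) * X0 = X0 ^ (k : ℕ) * (w : M3) := by
    rw [mem_zpowers_iff_mem_range_orderOf, Finset.mem_image] at hu
    obtain ⟨k, hk, hk2⟩ := hu
    rw [hx0ord, Finset.mem_range] at hk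
    refine ⟨⟨k, hk⟩, ?_⟩
    have h3 : w * x0 = x0 ^ k * w := by
      rw [hk2]; group
    have h4 := congrArg (fun g : GL (Fin 2) (ZMod 3) => (g : M3)) h3
    simp only [Units.val_mul, hpowc, hx0c] at h4
    exact h4
  have hrel : (w : M3) * X0 = X0 ^ 3 * (w : M3) := by
    rcases lemA _ hdet ⟨k, hk⟩ with ⟨i, hi⟩ | h
    · exfalso
      apply hw
      have : w = x0 ^ (i : ℕ) := by
        apply Units.ext
        rw [hpowc]; exact hi
      rw [this]
      exact Subgroup.npow_mem_zpowers x0 _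
    · exact h
  have hrelG : w * x0 = x0 ^ 3 * w := by
    apply Units.ext
    simp only [Units.val_mul, hpowc, hx0c]
    exact hrel
  -- the involution
  obtain ⟨y, hyQ, hy2, hyrel⟩ : ∃ y ∈ (Q : Subgroup (GL (Fin 2) (ZMod 3))), y ^ 2 = 1 ∧ y * x0 = x0 ^ 3 * y := by
    rcases lemB _ hdet hrel with h | h
    · refine ⟨w, hwQ, ?_, hrelG⟩
      apply Units.ext
      rw [Units.val_pow_eq_pow_val]
      simpa using h
    · refine ⟨w * x0, Subgroup.mul_mem _ hwQ hx0Q, ?_, ?_⟩
      · apply Units.ext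
        rw [Units.val_pow_eq_pow_val, Units.val_mul, hx0c]
        simpa using h
      · calc w * x0 * x0 = (w * x0) * x0 := rfl
          _ = x0 ^ 3 * w * x0 := by rw [hrelG]
          _ = x0 ^ 3 * (w * x0) := by group
  have hy1 : y ≠ 1 := by
    rintro rfl
    apply lemC
    have h5 := congrArg (fun g : GL (Fin 2) (ZMod 3) => (g : M3)) hyrel
    simp only [one_mul, mul_one, hpowc, hx0c] at h5
    exact h5.symm
  have hyord : orderOf y = 2 := orderOf_eq_prime hy2 hy1
  -- transport to `S`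
  have hcS : ∀ g ∈ (Q : Subgroup (GL (Fin 2) (ZMod 3))), MulAut.conj c g ∈ S := by
    intro g hg
    have h6 : MulAut.conj c g ∈ ((c • Q : Sylow 2 _) : Subgroup (GL (Fin 2) (ZMod 3))) := by
      rw [Sylow.coe_subgroup_smul]
      exact Subgroup.smul_mem_pointwise_smul _ _ _ hg
    rw [hc] at h6
    exact h6
  refine ⟨MulAut.conj c x0, hcS _ hx0Q, MulAut.conj c y, hcS _ hyQ, ?_, ?_, ?_⟩
  · rw [MulEquiv.orderOf_eq, hx0ord]
  · rw [MulEquiv.orderOf_eq, hyord]
  · rw [← map_inv, ← map_mul, ← map_mul, ← map_pow]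
    congr 1
    rw [hyrel]
    group

theorem result (q : ℕ) [Fact q.Prime] {V : Type*} [AddCommGroup V] [Module (ZMod q) V] [Finite V] [Nontrivial V]
    {G : Type*} [Group G] [Finite G] [Nontrivial G] (p : ℕ) [Fact p.Prime] (hG : IsPGroup p G)
    (ρ : G →* (V ≃ₗ[ZMod q] V)) (hρ : Function.Injective ρ)
    (htrans : ∀ v w : V, v ≠ 0 → w ≠ 0 → ∃ g : G, ρ g v = w) :
    (q = 2 ∧ p = Nat.card V - 1 ∧ Nat.card G = p) ∨
    (p = 2 ∧ Nat.card V = q ∧ (∃ m : ℕ, q = 2 ^ m + 1 ∧ Nat.card G = 2 ^ m) ∧ IsCyclic G) ∨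
    (p = 2 ∧ q = 3 ∧ Nat.card V = 9 ∧
      ((IsCyclic G ∧ Nat.card G = 8) ∨ Nonempty (G ≃* QuaternionGroup 2) ∨ (Cfsg.IsQuasiDihedral G ∧ Nat.card G = 16))) := by
  classical
  have hqp : q.Prime := Fact.out
  have hpp : p.Prime := Fact.out
  obtain ⟨v0, hv0⟩ := exists_ne (0 : V)
  letI act : MulAction G V := MulAction.compHom V ρ
  have hsm : ∀ (g : G) (v : V), g • v = ρ g v := fun g v => rfl
  have hfaith : ∀ g : G, (∀ v, ρ g v = v) → g = 1 := by
    intro g hg
    apply hρ
    rw [map_one]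
    ext v
    simpa using hg v
  have hne0 : ∀ (g : G) (v : V), v ≠ 0 → ρ g v ≠ 0 := by
    intro g v hv h
    apply hv
    simpa using h
  have horb : ∀ v : V, v ≠ 0 → MulAction.orbit G v = {w | w ≠ 0} := by
    intro v hv
    ext w
    constructor
    · rintro ⟨g, rfl⟩
      exact hne0 g v hv
    · intro hw
      obtain ⟨g, hg⟩ := htrans v w hv hw
      exact ⟨g, hg⟩
  have hcardS : {w : V | w ≠ 0}.ncard + 1 = Nat.card V := by
    haveI := Fintype.ofFinite V
    rw [← Nat.card_coe_set_eq]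
    have h6 : Fintype.card {z : V // z ≠ 0} = Fintype.card V - 1 := Set.card_ne_eq (0 : V)
    have h7 : Nat.card {w : V | w ≠ 0} = Fintype.card {z : V // z ≠ 0} := Nat.card_eq_fintype_card
    rw [h7, h6, Nat.card_eq_fintype_card]
    have : 0 < Fintype.card V := Fintype.card_pos
    omega
  have hcG : ∀ v : V, v ≠ 0 → (Nat.card V - 1) * Nat.card (MulAction.stabilizer G v) = Nat.card G := by
    intro v hv
    have h1 := Subgroup.index_mul_card (MulAction.stabilizer G v)
    rw [MulAction.index_stabilizer, horb v hv] at h1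
    rw [← h1, ← hcardS]
    simp
  have hN1 : 1 ≤ Nat.card V - 1 := by
    have : v0 ∈ {w : V | w ≠ 0} := hv0
    have h2 : {w : V | w ≠ 0}.Nonempty := ⟨v0, this⟩
    have h3 := (Set.ncard_pos (Set.toFinite _)).2 h2
    omega
  obtain ⟨kk, hkk⟩ := IsPGroup.iff_card.1 hG
  have hdvd : Nat.card V - 1 ∣ p ^ kk := by
    rw [← hkk, ← hcG v0 hv0]
    exact dvd_mul_right _ _
  obtain ⟨a, -, ha⟩ := (Nat.dvd_prime_pow hpp).1 hdvd
  have ha0 : a ≠ 0 := by
    rintro rfl
    rw [pow_zero] at ha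
    have hone : {w : V | w ≠ 0}.ncard = 1 := by omega
    obtain ⟨x, hx⟩ := Set.ncard_eq_one.1 hone
    obtain ⟨g, hg⟩ := exists_ne (1 : G)
    apply hg
    apply hfaith
    intro v
    by_cases hv : v = 0
    · rw [hv, map_zero]
    · have h1 : v ∈ ({x} : Set V) := by rw [← hx]; exact hv
      have h2 : ρ g v ∈ ({x} : Set V) := by rw [← hx]; exact hne0 g v hv
      rw [Set.mem_singleton_iff] at h1 h2
      exact h2.trans h1.symm
  haveI : Module.Finite (ZMod q) V := Module.Finite.of_finite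
  set n := Module.finrank (ZMod q) V with hn
  have hNn : Nat.card V = q ^ n := by
    rw [Module.natCard_eq_pow_finrank (K := ZMod q) (V := V), Nat.card_zmod]
  have hn1 : 1 ≤ n := by
    have : 0 < Module.finrank (ZMod q) V := Module.finrank_pos
    exact this
  have hpow : q ^ n = p ^ a + 1 := by
    rw [← hNn, ← ha]
    omega
  rcases arith q n p a hqp hpp hn1 (by omega) hpow with ⟨hq2, ha1⟩ | ⟨hp2, hn1'⟩ | ⟨hp2, hq3, hn2⟩
  · -- `q = 2`, `|V| - 1 = p`
    left
    rw [ha1, pow_one] at ha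
    refine ⟨hq2, ha.symm, ?_⟩
    let S : SubMulAction G V :=
      { carrier := {w | w ≠ 0}
        smul_mem' := fun g v hv => hne0 g v hv }
    have hcS : Nat.card S = p := by
      have : Nat.card S = {w : V | w ≠ 0}.ncard := Nat.card_coe_set_eq _
      rw [this]
      omega
    let P := MulAction.stabilizer G v0
    have hP : IsPGroup p P := hG.to_subgroup P
    have hmod := hP.card_modEq_card_fixedPoints S
    rw [hcS] at hmod
    let s0 : S := ⟨v0, hv0⟩
    have hs0 : s0 ∈ MulAction.fixedPoints P S := by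
      rintro ⟨g, hg⟩
      apply Subtype.ext
      exact hg
    have hfpos : 0 < Nat.card (MulAction.fixedPoints P S) := by
      haveI : Nonempty (MulAction.fixedPoints P S) := ⟨⟨s0, hs0⟩⟩
      exact Nat.card_pos
    have hfdvd : p ∣ Nat.card (MulAction.fixedPoints P S) :=
      (Nat.modEq_zero_iff_dvd.1 (hmod.symm.trans (by simp [Nat.ModEq])))
    have hfle : p ≤ Nat.card (MulAction.fixedPoints P S) := Nat.le_of_dvd hfpos hfdvd
    have hfuniv : MulAction.fixedPoints P S = Set.univ := by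
      apply Set.eq_of_subset_of_ncard_le (Set.subset_univ _) _ (Set.toFinite _)
      rw [Set.ncard_univ, hcS, ← Nat.card_coe_set_eq]
      exact hfle
    have hPb : ∀ g : P, (g : G) = 1 := by
      intro g
      apply hfaith
      intro v
      by_cases hv : v = 0
      · rw [hv, map_zero]
      · have h1 : (⟨v, hv⟩ : S) ∈ MulAction.fixedPoints P S := by rw [hfuniv]; trivial
        have h2 := h1 g
        exact congrArg Subtype.val h2
    have hPcard : Nat.card P = 1 := by
      rw [Nat.card_eq_one_iff_unique]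
      refine ⟨⟨fun a b => Subtype.ext ((hPb a).trans (hPb b).symm)⟩, ⟨1⟩⟩
    have := hcG v0 hv0
    rw [hPcard, mul_one, ha] at this
    exact this.symm
  · -- `n = 1`
    right; left
    rw [hn1', pow_one] at hNn hpow
    have hsc : ∀ w : V, ∃ c : ZMod q, c • v0 = w :=
      (finrank_eq_one_iff_of_nonzero' v0 hv0).1 (by rw [← hn, hn1'])
    have hstab : Nat.card (MulAction.stabilizer G v0) = 1 := by
      rw [Nat.card_eq_one_iff_unique]
      refine ⟨⟨?_⟩, ⟨1⟩⟩
      have hall : ∀ g : MulAction.stabilizer G v0, (g : G) = 1 := by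
        rintro ⟨g, hg⟩
        apply hfaith
        intro v
        obtain ⟨c, rfl⟩ := hsc v
        have hg' : ρ g v0 = v0 := hg
        rw [map_smul, hg']
      exact fun a b => Subtype.ext ((hall a).trans (hall b).symm)
    have hcardG : Nat.card G = p ^ a := by
      have := hcG v0 hv0
      rw [hstab, mul_one, ha] at this
      exact this.symm
    refine ⟨hp2, hNn, ⟨a, by rw [hpow, hp2], by rw [hcardG, hp2]⟩, ?_⟩
    choose cf hcf using fun g : G => hsc (ρ g v0)
    have hinj0 : ∀ c c' : ZMod q, c • v0 = c' • v0 → c = c' := fun c c' h =>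
      smul_left_injective (ZMod q) hv0 h
    let f : G →* ZMod q :=
      { toFun := cf
        map_one' := by
          apply hinj0
          rw [hcf]; simp
        map_mul' := by
          intro g h
          apply hinj0
          rw [hcf, map_mul, LinearEquiv.mul_apply, ← hcf h, map_smul, ← hcf g, smul_smul, mul_comm] }
    have hf : Function.Injective f := by
      intro g h hgh
      have hgh' : cf g = cf h := hgh
      apply hρ
      ext v
      obtain ⟨c, rfl⟩ := hsc v
      rw [map_smul, map_smul, ← hcf g, ← hcf h, hgh']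
    exact isCyclic_of_subgroup_isDomain f hf
  · -- `q = 3`, `n = 2`
    right; right
    subst hq3
    subst hp2
    have hN9 : Nat.card V = 9 := by rw [hNn, hn2]; norm_num
    refine ⟨rfl, rfl, hN9, ?_⟩
    have hhalf : ∀ v : V, v ≠ 0 → 8 * Nat.card (MulAction.stabilizer G v) = Nat.card G := by
      intro v hv
      have := hcG v hv
      rwa [hN9] at this
    -- the matrix representation
    let b : Module.Basis (Fin 2) (ZMod 3) V := Module.finBasisOfFinrankEq (ZMod 3) V hn2
    let ψ0 : G →* Matrix (Fin 2) (Fin 2) (ZMod 3) :=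
      ((LinearMap.toMatrixAlgEquiv b : Module.End (ZMod 3) V ≃ₐ[ZMod 3] Matrix (Fin 2) (Fin 2) (ZMod 3)).toRingEquiv.toMulEquiv.toMonoidHom).comp
        ((LinearEquiv.automorphismGroup.toLinearMapMonoidHom).comp ρ)
    have hψ0 : Function.Injective ψ0 := by
      intro g h hgh
      apply hρ
      have h1 := (LinearMap.toMatrixAlgEquiv b).injective hgh
      have h2 : ((ρ g : V ≃ₗ[ZMod 3] V) : V →ₗ[ZMod 3] V) = (ρ h : V ≃ₗ[ZMod 3] V) := h1
      ext v
      exact congrArg (fun f : V →ₗ[ZMod 3] V => f v) h2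
    let φ : G →* GL (Fin 2) (ZMod 3) := ψ0.toHomUnits
    have hφ : Function.Injective φ := by
      intro g h hgh
      apply hψ0
      have := congrArg (fun u : GL (Fin 2) (ZMod 3) => (u : Matrix (Fin 2) (Fin 2) (ZMod 3))) hgh
      simpa [φ] using this
    have hcard48 : Nat.card (GL (Fin 2) (ZMod 3)) = 48 := by
      rw [Matrix.card_GL_field]
      simp [Fin.prod_univ_two]
    have hcφ : Nat.card φ.range = Nat.card G :=
      (Nat.card_congr (MonoidHom.ofInjective hφ).toEquiv).symm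
    have hdvd48 : Nat.card G ∣ 48 := by
      rw [← hcφ, ← hcard48]
      exact Subgroup.card_subgroup_dvd_card _
    have h8dvd : 8 ∣ Nat.card G := ⟨_, (hhalf v0 hv0).symm⟩
    obtain ⟨k, hk⟩ := IsPGroup.iff_card.1 hG
    have hk3 : 3 ≤ k := by
      rw [hk] at h8dvd
      have : 2 ^ 3 ∣ 2 ^ k := h8dvd
      exact (Nat.pow_dvd_pow_iff_le_right (by norm_num)).1 this
    have hk4 : k ≤ 4 := by
      by_contra hcon
      have h5 : 2 ^ 5 ∣ 2 ^ k := pow_dvd_pow 2 (by omega)
      rw [← hk] at h5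
      have := h5.trans hdvd48
      norm_num at this
    have hk34 : k = 3 ∨ k = 4 := by omega
    rcases hk34 with rfl | rfl
    · -- regular
      have hG8 : Nat.card G = 8 := by rw [hk]; norm_num
      have hreg : ∀ v : V, v ≠ 0 → ∀ g : G, ρ g v = v → g = 1 := by
        intro v hv g hg
        have h1 := hhalf v hv
        rw [hG8] at h1
        have h2 : Nat.card (MulAction.stabilizer G v) = 1 := by omega
        have h3 := (Nat.card_eq_one_iff_unique.1 h2).1
        have h4 : (⟨g, hg⟩ : MulAction.stabilizer G v) = 1 := Subsingleton.elim _ _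
        exact congrArg Subtype.val h4
      have hneg : ∀ t : G, t ^ 2 = 1 → t ≠ 1 → ∀ v, ρ t v = -v := by
        intro t ht2 ht1 v
        have htt : ∀ w, ρ t (ρ t w) = w := by
          intro w
          have : ρ (t ^ 2) w = w := by rw [ht2]; simp
          rwa [pow_two, map_mul, LinearEquiv.mul_apply] at this
        by_contra hne
        have h3 : v + ρ t v ≠ 0 := by
          intro h
          exact hne (eq_neg_of_add_eq_zero_right h)
        apply ht1
        apply hreg _ h3
        rw [map_add, htt, add_comm]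
      have huniq : ∀ t t' : G, t ^ 2 = 1 → t ≠ 1 → t' ^ 2 = 1 → t' ≠ 1 → t = t' := by
        intro t t' h1 h2 h3 h4
        apply hρ
        ext v
        rw [hneg t h1 h2, hneg t' h3 h4]
      rcases card8_unique_inv hG8 huniq with h | h
      · exact Or.inl h
      · exact Or.inr (Or.inl h)
    · -- order 16
      right; right
      have hG16 : Nat.card G = 16 := by rw [hk]; norm_num
      refine ⟨?_, hG16⟩
      obtain ⟨x, ⟨x', rfl⟩, y, ⟨y', rfl⟩, hx, hy, hrel⟩ :=
        gl23_sylow φ.range (by rw [hcφ, hG16])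
      refine ⟨3, le_rfl, by rw [hG16]; norm_num, x', y', ?_, ?_, ?_⟩
      · rw [← orderOf_injective φ hφ x', hx]; norm_num
      · rw [← orderOf_injective φ hφ y', hy]
      · apply hφ
        simpa using hrel

end Cfsg.Agent.S3370
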