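import Cfsg.Statements.S3380
import Cfsg.Agent.Lib.PGroups.CyclicNormal
import Cfsg.Agent.Lib.PGroups.NormalRankTwo
import Cfsg.Agent.Lib.PGroups.Presentations
import Cfsg.Agent.Lib.PGroups.Basic
import Cfsg.Agent.Lib.PGroups.Special
import Cfsg.Agent.Lib.PGroups.MaxAbelian
import Cfsg.Agent.Lib.Coprime.Action
import Mathlib

set_option autoImplicit false

open Cfsg

namespace Cfsg.Agent.S3380

open scoped commutatorElement

section Ops

variable {q : ℕ} [Fact q.Prime] {V : Type*} [AddCommGroup V] [Module (ZMod q) V]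
  {G : Type*} [Group G] (ρ : G →* (V ≃ₗ[ZMod q] V)) (p : ℕ)

/-- The norm operator of `u`. -/
def T (u : G) : V →ₗ[ZMod q] V := ∑ i ∈ Finset.range p, ((ρ (u ^ i)) : V →ₗ[ZMod q] V)

lemma T_apply (u : G) (v : V) : T ρ p u v = ∑ i ∈ Finset.range p, ρ (u ^ i) v := by
  simp [T, LinearMap.sum_apply]

/-- The fixed space of `u`. -/
def Fx (u : G) : Submodule (ZMod q) V where
  carrier := {v | ρ u v = v}
  add_mem' := by
    intro a b ha hb
    simp only [Set.mem_ofPred_eq] at ha hb ⊢
    rw [map_add, ha, hb]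
  zero_mem' := by simp
  smul_mem' := by
    intro c x hx
    simp only [Set.mem_ofPred_eq] at hx ⊢
    rw [map_smul, hx]

lemma mem_Fx {u : G} {v : V} : v ∈ Fx ρ u ↔ ρ u v = v := Iff.rfl

variable {ρ p}

lemma pow_fix {u : G} {w : V} (hw : ρ u w = w) (i : ℕ) : ρ (u ^ i) w = w := by
  induction i with
  | zero => simp
  | succ i ih =>
    rw [pow_succ, map_mul, LinearEquiv.mul_apply, hw, ih]

lemma T_mem {u : G} (hu : u ^ p = 1) (v : V) : T ρ p u v ∈ Fx ρ u := by
  rw [mem_Fx, T_apply, map_sum]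
  have h1 : ∀ i, ρ u (ρ (u ^ i) v) = ρ (u ^ (i + 1)) v := by
    intro i
    rw [pow_succ', map_mul, LinearEquiv.mul_apply]
  simp only [h1]
  have h2 := Finset.sum_range_succ (fun i => ρ (u ^ i) v) p
  have h3 := Finset.sum_range_succ' (fun i => ρ (u ^ i) v) p
  simp only [pow_zero] at h3
  rw [h2, hu] at h3
  simpa using h3.symm

lemma T_self {u : G} {w : V} (hw : ρ u w = w) : T ρ p u w = (p : ZMod q) • w := by
  rw [T_apply]
  simp only [pow_fix hw]
  simp [Finset.sum_const, Nat.cast_smul_eq_nsmul]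

/-- The norm of a non-trivial central element of order `p` vanishes on an irreducible faithful
module. -/
lemma T_central (hρ : Function.Injective ρ)
    (hirr : ∀ W : Submodule (ZMod q) V, (∀ g : G, ∀ w ∈ W, ρ g w ∈ W) → W = ⊥ ∨ W = ⊤)
    {y : G} (hc : ∀ g, g * y = y * g) (hy1 : y ≠ 1) (hyp : y ^ p = 1) (v : V) : T ρ p y v = 0 := by
  have hinv : ∀ g : G, ∀ w ∈ Fx ρ y, ρ g w ∈ Fx ρ y := by
    intro g w hw
    rw [mem_Fx] at hw ⊢
    rw [← LinearEquiv.mul_apply, ← map_mul, ← hc g, map_mul, LinearEquiv.mul_apply, hw]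
  rcases hirr _ hinv with h | h
  · have := T_mem (ρ := ρ) hyp v
    rw [h] at this
    exact (Submodule.mem_bot _).1 this
  · exfalso
    apply hy1
    apply hρ
    rw [map_one]
    ext w
    have : w ∈ Fx ρ y := by rw [h]; trivial
    exact this

lemma T_twist {u y : G} (hc : Commute u y) {w : V} (hw : ρ u w = w) :
    T ρ p (u * y) w = T ρ p y w := by
  rw [T_apply, T_apply]
  refine Finset.sum_congr rfl fun i _ => ?_
  rw [show u * y = y * u from hc, hc.symm.mul_pow, map_mul, LinearEquiv.mul_apply, pow_fix hw]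

lemma map_Fx (g u : G) :
    (Fx ρ u).map ((ρ g : V ≃ₗ[ZMod q] V) : V →ₗ[ZMod q] V) = Fx ρ (g * u * g⁻¹) := by
  ext v
  rw [Submodule.mem_map, mem_Fx]
  constructor
  · rintro ⟨w, hw, rfl⟩
    rw [mem_Fx] at hw
    simp only [LinearEquiv.coe_coe]
    rw [← LinearEquiv.mul_apply, ← map_mul]
    simp only [mul_assoc, inv_mul_cancel, mul_one]
    rw [map_mul, LinearEquiv.mul_apply, hw]
  · intro hv
    refine ⟨ρ g⁻¹ v, ?_, ?_⟩
    · rw [mem_Fx]
      rw [← LinearEquiv.mul_apply, ← map_mul]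
      conv_rhs => rw [← hv]
      rw [← LinearEquiv.mul_apply, ← map_mul]
      congr 2
      group
    · simp only [LinearEquiv.coe_coe]
      rw [← LinearEquiv.mul_apply, ← map_mul]
      simp

lemma pow_addR {A : Type*} [AddGroup A] (x : A) (n : ℕ) :
    (Equiv.addRight x : Equiv.Perm A) ^ n = Equiv.addRight (n • x) := by
  induction n with
  | zero => ext; simp
  | succ n ih =>
    rw [pow_succ, ih]
    ext y
    simp [succ_nsmul', add_assoc]

end Ops

section Main

variable {q : ℕ} [Fact q.Prime] {V : Type*} [AddCommGroup V] [Module (ZMod q) V] [Finite V]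
  [Nontrivial V] {G : Type*} [Group G] [Finite G] (p : ℕ) [Fact p.Prime]

/-- Existence of a normal elementary abelian subgroup of order `p²`. -/
theorem exists_normal_ea (hG : IsPGroup p G) (hnc : ¬ IsCyclic G)
    (hnq : ∀ n : ℕ, ¬ Nonempty (G ≃* QuaternionGroup n))
    (hnd : ∀ n : ℕ, ¬ Nonempty (G ≃* DihedralGroup n)) (hnsd : ¬ Cfsg.IsQuasiDihedral G) :
    ∃ A : Subgroup G, A.Normal ∧ (∀ a ∈ A, a ^ p = 1) ∧ Nat.card A = p ^ 2 := by
  by_cases hp2 : p = 2
  · subst hp2
    by_cases hn : ∀ A : Subgroup G, A.Normal → IsMulCommutative A → IsCyclic A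
    · exfalso
      obtain ⟨n, a, y, hn2, ha, hcard, hy, hidx, h⟩ :=
        Cfsg.Agent.Lib.PGroups.CyclicNormal.classify hG hn hnc
      obtain ⟨m, rfl⟩ : ∃ m, n = m + 1 := ⟨n - 1, by omega⟩
      simp only [Nat.add_sub_cancel] at h
      rcases h with ⟨h1, h2⟩ | ⟨h0, h1, h2⟩ | ⟨h0, h1, h2⟩
      · obtain ⟨e⟩ := Cfsg.Agent.Lib.PGroups.Presentations.nonempty_quaternion_equiv (m := 2 ^ m)
          (a := a) (y := y) (by rw [ha]; ring) h1 h2 hy (by rw [hcard]; ring)
        exact hnq _ ⟨e.symm⟩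
      · have : NeZero (2 ^ (m + 1)) := ⟨by positivity⟩
        obtain ⟨e⟩ := Cfsg.Agent.Lib.PGroups.Presentations.nonempty_dihedral_equiv (m := 2 ^ (m + 1))
          (a := a) (y := y) ha h1 h2 hy (by rw [hcard]; ring)
        exact hnd _ ⟨e.symm⟩
      · apply hnsd
        refine ⟨m + 1, h0, hcard, a, y, ha, ?_, h2⟩
        apply orderOf_eq_prime h1
        rintro rfl
        exact hy (one_mem _)
    · push Not at hn
      obtain ⟨B, hBn, hBc, hBnc⟩ := hn
      -- the elements of square one of `B`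
      let Ω : Subgroup G :=
        { carrier := {b | b ∈ B ∧ b ^ 2 = 1}
          mul_mem' := by
            rintro x y ⟨hx, hx2⟩ ⟨hy, hy2⟩
            refine ⟨B.mul_mem hx hy, ?_⟩
            have hcomm : x * y = y * x := by
              have := hBc.is_comm.comm ⟨x, hx⟩ ⟨y, hy⟩
              exact congrArg Subtype.val this
            rw [(show Commute x y from hcomm).mul_pow, hx2, hy2, one_mul]
          one_mem' := ⟨B.one_mem, one_pow _⟩
          inv_mem' := by
            rintro x ⟨hx, hx2⟩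
            exact ⟨B.inv_mem hx, by rw [inv_pow, hx2, inv_one]⟩ }
      have hΩn : Ω.Normal := by
        refine ⟨fun x hx g => ⟨hBn.conj_mem x hx.1 g, ?_⟩⟩
        rw [conj_pow, hx.2]
        simp
      obtain ⟨x, y, hx, hy, hyx⟩ :=
        Cfsg.Agent.Lib.PGroups.NormalRankTwo.exists_two_independent_of_comm (G := B)
          (hG.to_subgroup B) (fun a b => hBc.is_comm.comm a b) hBnc
      have h4 : 2 ^ 2 ∣ Nat.card Ω := by
        obtain ⟨k, hk⟩ := (IsPGroup.iff_card).1 (hG.to_subgroup Ω)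
        rw [hk]
        apply pow_dvd_pow
        by_contra hk2
        have hk1 : k ≤ 1 := by omega
        have hle : Nat.card Ω ≤ 2 := by
          rw [hk]
          calc 2 ^ k ≤ 2 ^ 1 := Nat.pow_le_pow_right (by norm_num) hk1
            _ = 2 := rfl
        -- `1`, `x` and `y` are three different members
        have hx2 : (x : G) ^ 2 = 1 := by
          have := pow_orderOf_eq_one x
          rw [hx] at this
          exact congrArg Subtype.val this
        have hy2 : (y : G) ^ 2 = 1 := congrArg Subtype.val hy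
        have hxne : (x : G) ≠ 1 := by
          intro h
          have : x = 1 := Subtype.ext h
          rw [this, orderOf_one] at hx
          omega
        have hyne : (y : G) ≠ 1 := by
          intro h
          have : y = 1 := Subtype.ext h
          rw [this] at hyx
          exact hyx (one_mem _)
        have hxy : (x : G) ≠ y := by
          intro h
          have : y = x := (Subtype.ext h).symm
          rw [this] at hyx
          exact hyx (Subgroup.mem_zpowers x)
        classical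
        have : Fintype Ω := Fintype.ofFinite _
        have h6 : ({1, (⟨x, x.2, hx2⟩ : Ω), (⟨y, y.2, hy2⟩ : Ω)} : Finset Ω).card = 3 := by
          rw [Finset.card_eq_three]
          refine ⟨_, _, _, ?_, ?_, ?_, rfl⟩
          · intro h; exact hxne (congrArg Subtype.val h).symm
          · intro h; exact hyne (congrArg Subtype.val h).symm
          · intro h; exact hxy (congrArg (fun e : Ω => (e : G)) h)
        have h7 := Finset.card_le_univ ({1, (⟨x, x.2, hx2⟩ : Ω), (⟨y, y.2, hy2⟩ : Ω)} : Finset Ω)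
        rw [h6, ← Nat.card_eq_fintype_card] at h7
        omega
      obtain ⟨L, hLn, hLΩ, hLc⟩ :=
        Cfsg.Agent.Lib.PGroups.NormalRankTwo.exists_normal_le_card_eq hG Ω 2 h4
      exact ⟨L, hLn, fun a ha => (hLΩ ha).2, hLc⟩
  · exact Cfsg.Agent.Lib.PGroups.NormalRankTwo.exists_normal_card_sq hp2 hG hnc

/-- A `p`-group acting faithfully and irreducibly on a characteristic `p` module is trivial. -/
lemma ne_char (hG : IsPGroup p G) (ρ : G →* (V ≃ₗ[ZMod q] V)) (hρ : Function.Injective ρ)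
    (hirr : ∀ W : Submodule (ZMod q) V, (∀ g : G, ∀ w ∈ W, ρ g w ∈ W) → W = ⊥ ∨ W = ⊤)
    (hnc : ¬ IsCyclic G) : p ≠ q := by
  rintro rfl
  letI act : MulAction G V :=
    { smul := fun g v => ρ g v
      one_smul := fun v => by
        show ρ 1 v = v
        simp
      mul_smul := fun g h v => by
        show ρ (g * h) v = ρ g (ρ h v)
        simp }
  have h1 := hG.card_modEq_card_fixedPoints V
  obtain ⟨v, hv⟩ := exists_ne (0 : V)
  have h2 : p ∣ Nat.card V := by
    have h3 : addOrderOf v = p := by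
      apply addOrderOf_eq_prime _ hv
      have : ((p : ZMod p)) • v = 0 := by simp
      rwa [Nat.cast_smul_eq_nsmul] at this
    rw [← h3]
    exact addOrderOf_dvd_natCard v
  have h3 : p ∣ Nat.card (MulAction.fixedPoints G V) := (Nat.ModEq.dvd_iff h1 (dvd_refl p)).1 h2
  have h4 : ∃ w : MulAction.fixedPoints G V, (w : V) ≠ 0 := by
    by_contra hcon
    push Not at hcon
    have : Subsingleton (MulAction.fixedPoints G V) :=
      ⟨fun a b => Subtype.ext (by rw [hcon a, hcon b])⟩
    have h0 : (0 : V) ∈ MulAction.fixedPoints G V := fun g => by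
      show ρ g 0 = 0
      simp
    have : Nonempty (MulAction.fixedPoints G V) := ⟨⟨0, h0⟩⟩
    have h5 : Nat.card (MulAction.fixedPoints G V) = 1 := Nat.card_unique
    rw [h5] at h3
    exact (Fact.out : p.Prime).one_lt.ne' (Nat.dvd_one.1 h3)
  obtain ⟨⟨w, hw⟩, hw0⟩ := h4
  let W : Submodule (ZMod p) V :=
    { carrier := {v | ∀ g : G, ρ g v = v}
      add_mem' := by
        intro a b ha hb g
        rw [map_add, ha g, hb g]
      zero_mem' := fun g => by simp
      smul_mem' := by
        intro c x hx g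
        rw [map_smul, hx g] }
  rcases hirr W (fun g w hw => by
      show ∀ g' : G, ρ g' (ρ g w) = ρ g w
      intro g'
      rw [hw g, hw g']) with h | h
  · have hwW : w ∈ W := fun g => hw g
    rw [h] at hwW
    exact hw0 ((Submodule.mem_bot _).1 hwW)
  · apply hnc
    have hsub : Subsingleton G := ⟨fun g g' => by
      apply hρ
      ext x
      have hx : x ∈ W := by rw [h]; trivial
      rw [hx g, hx g']⟩
    infer_instance

theorem main_aux (hG : IsPGroup p G) (ρ : G →* (V ≃ₗ[ZMod q] V)) (hρ : Function.Injective ρ)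
    (hirr : ∀ W : Submodule (ZMod q) V, (∀ g : G, ∀ w ∈ W, ρ g w ∈ W) → W = ⊥ ∨ W = ⊤)
    (hnc : ¬ IsCyclic G) (hnq : ∀ n : ℕ, ¬ Nonempty (G ≃* QuaternionGroup n))
    (hnd : ∀ n : ℕ, ¬ Nonempty (G ≃* DihedralGroup n)) (hnsd : ¬ Cfsg.IsQuasiDihedral G) :
    ∃ (H : Subgroup G) (W : Fin p → Submodule (ZMod q) V), H.index = p ∧
      iSup W = ⊤ ∧ iSupIndep W ∧
      (∀ h ∈ H, ∀ i, ∀ w ∈ W i, ρ h w ∈ W i) ∧
      (∀ i, ∃ h ∈ H, h ≠ 1 ∧ ∀ w ∈ W i, ρ h w = w) ∧
      ∀ g : G, g ∉ H → ∃ σ : Equiv.Perm (Fin p), orderOf σ = p ∧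
        ∀ i, (W i).map (ρ g : V →ₗ[ZMod q] V) = W (σ i) := by
  classical
  have hpp : p.Prime := Fact.out
  have hqp : q.Prime := Fact.out
  haveI : NeZero p := ⟨hpp.ne_zero⟩
  have hpq : (p : ZMod q) ≠ 0 := by
    rw [Ne, ZMod.natCast_eq_zero_iff]
    intro h
    exact ne_char p hG ρ hρ hirr hnc ((Nat.prime_dvd_prime_iff_eq hqp hpp).1 h).symm
  obtain ⟨A, hAn, hAp, hAc⟩ := exists_normal_ea p hG hnc hnq hnd hnsd
  have hAne : A ≠ ⊥ := by
    intro h
    rw [h, Subgroup.card_bot] at hAc
    have : 1 < p ^ 2 := Nat.one_lt_pow (by norm_num) hpp.one_lt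
    omega
  obtain ⟨z, hzA, hzZ, hzp⟩ := Cfsg.Agent.Lib.PGroups.Basic.exists_central_orderOf_eq hG A hAne
  have hzc : ∀ g, g * z = z * g := Subgroup.mem_center_iff.1 hzZ
  have hzpc : ∀ (g : G) (k : ℕ), g * z ^ k = z ^ k * g := fun g k =>
    ((show Commute g z from hzc g).pow_right k)
  have hzp1 : z ^ p = 1 := by rw [← hzp]; exact pow_orderOf_eq_one z
  have hz1 : ∀ i : ℕ, 0 < i → i < p → z ^ i ≠ 1 := fun i h0 h1 =>
    pow_ne_one_of_lt_orderOf h0.ne' (by rw [hzp]; exact h1)
  let P := Subgroup.zpowers z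
  have hPn : P.Normal := by
    constructor
    rintro x ⟨k, rfl⟩ g
    have : Commute g (z ^ k) := (show Commute g z from hzc g).zpow_right k
    have h2 : g * z ^ k * g⁻¹ = z ^ k := by
      rw [this.eq]; group
    simp only [h2]
    exact ⟨k, rfl⟩
  have hPA : P ≤ A := (Subgroup.zpowers_le).2 hzA
  have hPc : Nat.card P = p := by rw [Nat.card_zpowers, hzp]
  have hidx : P.relIndex A = p := by
    have h1 := Cfsg.Agent.Lib.Coprime.Action.card_eq_card_mul_relIndex hPA
    rw [hAc, hPc, pow_two] at h1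
    exact (Nat.eq_of_mul_eq_mul_left hpp.pos h1).symm
  obtain ⟨a, haA, haP⟩ : ∃ a ∈ A, a ∉ P := by
    by_contra h
    push Not at h
    have h1 : Nat.card A ≤ Nat.card P := Subgroup.card_le_of_le h
    rw [hAc, hPc, pow_two] at h1
    have := hpp.one_lt
    nlinarith
  have hap : a ^ p = 1 := hAp a haA
  have hc : ∀ g : G, ∃ t, t < p ∧ g * a * g⁻¹ = a * z ^ t := by
    intro g
    have h1 : ⁅a⁻¹, g⁆ ∈ P :=
      Cfsg.Agent.Lib.PGroups.MaxAbelian.comm_mem_of_relIndex_eq hG hidx (A.inv_mem haA) g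
    obtain ⟨n, hn⟩ := (mem_powers_iff_mem_zpowers).2 h1
    refine ⟨n % p, Nat.mod_lt _ hpp.pos, ?_⟩
    rw [← hzp, pow_mod_orderOf]
    have hn' : z ^ n = ⁅a⁻¹, g⁆ := hn
    rw [hn', commutatorElement_def]
    group
  have hpow : ∀ k : ℕ, (a * z ^ k) ^ p = 1 := by
    intro k
    rw [(show Commute a (z ^ k) from hzpc a k).mul_pow, hap, one_mul, ← pow_mul, mul_comm, pow_mul,
      hzp1, one_pow]
  have hTz : ∀ (i : ℕ), 0 < i → i < p → ∀ v, T ρ p (z ^ i) v = 0 := by
    intro i h0 h1 v
    refine T_central hρ hirr (fun g => hzpc g i) (hz1 i h0 h1) ?_ v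
    rw [← pow_mul, mul_comm, pow_mul, hzp1, one_pow]
  let W : Fin p → Submodule (ZMod q) V := fun i => Fx ρ (a * z ^ (i : ℕ))
  have hWsup : iSup W = ⊤ := by
    rw [eq_top_iff]
    intro v _
    have hid : ∑ k : Fin p, T ρ p (a * z ^ (k : ℕ)) v = (p : ZMod q) • v := by
      rw [Fin.sum_univ_eq_sum_range (fun k => T ρ p (a * z ^ k) v) p]
      simp only [T_apply]
      rw [Finset.sum_comm]
      have h1 : ∀ i ∈ Finset.range p, ∑ k ∈ Finset.range p, ρ ((a * z ^ k) ^ i) v =
          ρ (a ^ i) (T ρ p (z ^ i) v) := by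
        intro i _
        rw [T_apply, map_sum]
        refine Finset.sum_congr rfl fun k _ => ?_
        rw [(show Commute a (z ^ k) from hzpc a k).mul_pow, map_mul, LinearEquiv.mul_apply, ← pow_mul,
          ← pow_mul, mul_comm]
      rw [Finset.sum_congr rfl h1, Finset.sum_eq_single 0]
      · simp only [pow_zero, map_one, LinearEquiv.coe_one, id_eq]
        exact T_self (by simp)
      · intro i hi hi0
        rw [hTz i (Nat.pos_of_ne_zero hi0) (Finset.mem_range.1 hi) v, map_zero]
      · intro h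
        exact absurd (Finset.mem_range.2 hpp.pos) h
    have hmem : (p : ZMod q) • v ∈ iSup W := by
      rw [← hid]
      refine Submodule.sum_mem _ fun k _ => ?_
      exact Submodule.mem_iSup_of_mem k (T_mem (hpow k) v)
    have := Submodule.smul_mem _ ((p : ZMod q)⁻¹) hmem
    rwa [smul_smul, inv_mul_cancel₀ hpq, one_smul] at this
  have hWind : iSupIndep W := by
    rw [iSupIndep_def]
    intro i
    rw [Submodule.disjoint_def]
    intro x hx hx'
    have hker : (⨆ j, ⨆ (_ : j ≠ i), W j) ≤ LinearMap.ker (T ρ p (a * z ^ (i : ℕ))) := by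
      refine iSup₂_le fun j hj w hw => ?_
      rw [LinearMap.mem_ker]
      -- reduce to the central part
      have hji : (j : ℕ) ≠ i := fun h => hj (Fin.ext h)
      let y : G := z ^ (i : ℕ) * (z ^ (j : ℕ))⁻¹
      have hy1 : y ≠ 1 := by
        intro h
        have h2 : z ^ (i : ℕ) = z ^ (j : ℕ) := by
          have := mul_inv_eq_one.1 h
          exact this
        have h3 := pow_injOn_Iio_orderOf (x := z)
          (by simpa [hzp] using i.2 : (i : ℕ) ∈ Set.Iio (orderOf z))
          (by simpa [hzp] using j.2 : (j : ℕ) ∈ Set.Iio (orderOf z)) h2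
        exact hji h3.symm
      have hyc : ∀ g, g * y = y * g := by
        intro g
        have h1 : Commute g (z ^ (i : ℕ)) := hzpc g i
        have h2 : Commute g (z ^ (j : ℕ)) := hzpc g j
        exact h1.mul_right h2.inv_right
      have hyp : y ^ p = 1 := by
        have h0 : Commute (z ^ (i : ℕ)) ((z ^ (j : ℕ))⁻¹) := by
          exact ((Commute.refl z).pow_pow _ _).inv_right
        show (z ^ (i : ℕ) * (z ^ (j : ℕ))⁻¹) ^ p = 1
        rw [h0.mul_pow, inv_pow, ← pow_mul, ← pow_mul, mul_comm, mul_comm (j : ℕ), pow_mul, pow_mul,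
          hzp1]
        simp
      have heq : a * z ^ (i : ℕ) = (a * z ^ (j : ℕ)) * y := by
        show a * z ^ (i : ℕ) = (a * z ^ (j : ℕ)) * (z ^ (i : ℕ) * (z ^ (j : ℕ))⁻¹)
        have : z ^ (j : ℕ) * (z ^ (i : ℕ) * (z ^ (j : ℕ))⁻¹) = z ^ (i : ℕ) := by
          have h0 : Commute (z ^ (j : ℕ)) (z ^ (i : ℕ)) := (Commute.refl z).pow_pow _ _
          rw [← mul_assoc, h0.eq, mul_assoc, mul_inv_cancel, mul_one]
        rw [mul_assoc, this]
      rw [heq, T_twist (hyc _) (show ρ (a * z ^ (j : ℕ)) w = w from hw)]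
      exact T_central hρ hirr hyc hy1 hyp w
    have h0 : T ρ p (a * z ^ (i : ℕ)) x = 0 := hker hx'
    rw [T_self hx] at h0
    exact (smul_eq_zero.1 h0).resolve_left hpq
  -- `a` is not central
  have hanc : ∃ g : G, g * a * g⁻¹ ≠ a := by
    by_contra hcon
    push Not at hcon
    have hall : ∀ i, W i = ⊥ := by
      intro i
      have hinv : ∀ g : G, ∀ w ∈ W i, ρ g w ∈ W i := by
        intro g w hw
        show ρ (a * z ^ (i : ℕ)) (ρ g w) = ρ g w
        have h0 : g * a = a * g := by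
          have := hcon g
          rwa [mul_inv_eq_iff_eq_mul] at this
        have h1 : (a * z ^ (i : ℕ)) * g = g * (a * z ^ (i : ℕ)) := by
          rw [mul_assoc, ← hzpc g, ← mul_assoc, ← mul_assoc, h0]
        rw [← LinearEquiv.mul_apply, ← map_mul, h1, map_mul, LinearEquiv.mul_apply]
        rw [show ρ (a * z ^ (i : ℕ)) w = w from hw]
      rcases hirr _ hinv with h | h
      · exact h
      · exfalso
        have h1 : a * z ^ (i : ℕ) = 1 := by
          apply hρ
          rw [map_one]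
          ext w
          have : w ∈ W i := by rw [h]; trivial
          exact this
        apply haP
        have : a = (z ^ (i : ℕ))⁻¹ := eq_inv_of_mul_eq_one_left h1
        rw [this]
        exact P.inv_mem (Subgroup.npow_mem_zpowers _ _)
    have : iSup W = ⊥ := by simp [hall]
    rw [hWsup] at this
    exact top_ne_bot this
  -- the homomorphism to `P`
  let c : G →* P :=
    { toFun := fun g => ⟨a⁻¹ * (g * a * g⁻¹), by
        obtain ⟨t, _, ht⟩ := hc g
        rw [ht, inv_mul_cancel_left]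
        exact Subgroup.npow_mem_zpowers _ _⟩
      map_one' := by
        ext
        simp
      map_mul' := by
        intro g h
        ext
        obtain ⟨t, _, ht⟩ := hc g
        obtain ⟨s, _, hs⟩ := hc h
        show a⁻¹ * (g * h * a * (g * h)⁻¹) = a⁻¹ * (g * a * g⁻¹) * (a⁻¹ * (h * a * h⁻¹))
        have h1 : g * h * a * (g * h)⁻¹ = g * (h * a * h⁻¹) * g⁻¹ := by group
        rw [h1, hs, ht]
        have h2 : g * (a * z ^ s) * g⁻¹ = (g * a * g⁻¹) * z ^ s := by
          simp only [mul_assoc]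
          rw [hzpc g⁻¹ s]
        rw [h2, ht]
        simp [mul_assoc] }
  have hcmem : ∀ g, g ∈ c.ker ↔ g * a * g⁻¹ = a := by
    intro g
    rw [MonoidHom.mem_ker]
    constructor
    · intro h
      have h1 : a⁻¹ * (g * a * g⁻¹) = 1 := congrArg Subtype.val h
      exact (inv_mul_eq_one.1 h1).symm
    · intro h
      ext
      show a⁻¹ * (g * a * g⁻¹) = 1
      rw [h, inv_mul_cancel]
  have hindex : c.ker.index = p := by
    rw [Subgroup.index_ker]
    have h1 : Nat.card c.range ∣ Nat.card P := Subgroup.card_subgroup_dvd_card _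
    rw [hPc] at h1
    rcases (Nat.dvd_prime hpp).1 h1 with h2 | h2
    · exfalso
      obtain ⟨g, hg⟩ := hanc
      apply hg
      rw [← hcmem, MonoidHom.mem_ker]
      have h3 : c.range = ⊥ := Subgroup.eq_bot_of_card_eq _ h2
      have h4 : c g ∈ c.range := ⟨g, rfl⟩
      rw [h3] at h4
      exact (Subgroup.mem_bot).1 h4
    · exact h2
  refine ⟨c.ker, W, hindex, hWsup, hWind, ?_, ?_, ?_⟩
  · intro h hh i w hw
    have h0 := (hcmem h).1 hh
    have h0' : h * a = a * h := by rwa [mul_inv_eq_iff_eq_mul] at h0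
    show ρ (a * z ^ (i : ℕ)) (ρ h w) = ρ h w
    have h1 : (a * z ^ (i : ℕ)) * h = h * (a * z ^ (i : ℕ)) := by
      rw [mul_assoc, ← hzpc h, ← mul_assoc, ← mul_assoc, h0']
    rw [← LinearEquiv.mul_apply, ← map_mul, h1, map_mul, LinearEquiv.mul_apply]
    rw [show ρ (a * z ^ (i : ℕ)) w = w from hw]
  · intro i
    refine ⟨a * z ^ (i : ℕ), ?_, ?_, fun w hw => hw⟩
    · rw [hcmem]
      have h1 : a * z ^ (i : ℕ) * a = a * (a * z ^ (i : ℕ)) := by
        rw [mul_assoc, ← hzpc a]
      rw [h1, mul_inv_cancel_right]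
    · intro h1
      apply haP
      have : a = (z ^ (i : ℕ))⁻¹ := eq_inv_of_mul_eq_one_left h1
      rw [this]
      exact P.inv_mem (Subgroup.npow_mem_zpowers _ _)
  · intro g hg
    obtain ⟨t, ht, hgt⟩ := hc g
    have ht0 : t ≠ 0 := by
      rintro rfl
      apply hg
      rw [hcmem, hgt]
      simp
    refine ⟨Equiv.addRight (⟨t, ht⟩ : Fin p), ?_, ?_⟩
    · apply orderOf_eq_prime
      · rw [pow_addR]
        have h2 : p • (⟨t, ht⟩ : Fin p) = 0 := by
          have h3 := addOrderOf_dvd_natCard (⟨t, ht⟩ : Fin p)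
          rw [Nat.card_fin] at h3
          exact addOrderOf_dvd_iff_nsmul_eq_zero.1 h3
        rw [h2]
        ext i
        simp
      · intro h1
        have h2 : (Equiv.addRight (⟨t, ht⟩ : Fin p)) 0 = (1 : Equiv.Perm (Fin p)) 0 := by rw [h1]
        simp only [Equiv.coe_addRight, zero_add, Equiv.Perm.coe_one, id_eq] at h2
        apply ht0
        have h3 := congrArg Fin.val h2
        simpa using h3
    · intro i
      show (Fx ρ (a * z ^ (i : ℕ))).map _ = Fx ρ (a * z ^ (((i + ⟨t, ht⟩ : Fin p)) : ℕ))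
      rw [map_Fx]
      congr 1
      have h2 : g * (a * z ^ (i : ℕ)) * g⁻¹ = (g * a * g⁻¹) * z ^ (i : ℕ) := by
        simp only [mul_assoc]
        rw [hzpc g⁻¹ i]
      have hmod : ∀ n, z ^ (n % p) = z ^ n := by
        intro n
        rw [← hzp]
        exact pow_mod_orderOf z n
      rw [h2, hgt, Fin.val_add, hmod, mul_assoc, ← pow_add, add_comm]

end Main

/-- Let a finite p-group G act faithfully and irreducibly on a non-trivial finite vector space V over the field with q elements (q prime), and suppose G is not cyclic, generalized quaternion, dihedral or semidihedral. Then G has a subgroup H of index p and V is the direct sum of p subspaces, each invariant under H, on none of which H acts faithfully, and which every element of G outside H permutes in a single p-cycle. -/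
theorem result
    (q : ℕ) [Fact q.Prime] {V : Type*} [AddCommGroup V] [Module (ZMod q) V] [Finite V] [Nontrivial V]
    {G : Type*} [Group G] [Finite G] (p : ℕ) [Fact p.Prime] (hG : IsPGroup p G)
    (ρ : G →* (V ≃ₗ[ZMod q] V)) (hρ : Function.Injective ρ)
    (hirr : ∀ W : Submodule (ZMod q) V, (∀ g : G, ∀ w ∈ W, ρ g w ∈ W) → W = ⊥ ∨ W = ⊤)
    (hnc : ¬ IsCyclic G) (hnq : ∀ n : ℕ, ¬ Nonempty (G ≃* QuaternionGroup n))
    (hnd : ∀ n : ℕ, ¬ Nonempty (G ≃* DihedralGroup n)) (hnsd : ¬ Cfsg.IsQuasiDihedral G) :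
    ∃ (H : Subgroup G) (W : Fin p → Submodule (ZMod q) V), H.index = p ∧
      iSup W = ⊤ ∧ iSupIndep W ∧
      (∀ h ∈ H, ∀ i, ∀ w ∈ W i, ρ h w ∈ W i) ∧
      (∀ i, ∃ h ∈ H, h ≠ 1 ∧ ∀ w ∈ W i, ρ h w = w) ∧
      ∀ g : G, g ∉ H → ∃ σ : Equiv.Perm (Fin p), orderOf σ = p ∧ ∀ i, (W i).map (ρ g : V →ₗ[ZMod q] V) = W (σ i) :=
  main_aux p hG ρ hρ hirr hnc hnq hnd hnsd

end Cfsg.Agent.S3380
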