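import Cfsg.Statements.S3371
import Cfsg.Agent.S3380
import Mathlib

set_option autoImplicit false

open Cfsg

namespace Cfsg.Agent.S3371

open Cfsg.Agent.S3380

open scoped commutatorElement

section Basics

variable {q : ℕ} [Fact q.Prime] {V : Type*} [AddCommGroup V] [Module (ZMod q) V]
  {G : Type*} [Group G]

/-- Stabilizer of a vector. -/
def St (ρ : G →* (V ≃ₗ[ZMod q] V)) (v : V) : Subgroup G where
  carrier := {g | ρ g v = v}
  mul_mem' := by
    intro a b ha hb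
    simp only [Set.mem_ofPred_eq] at *
    rw [map_mul, LinearEquiv.mul_apply, hb, ha]
  one_mem' := by simp
  inv_mem' := by
    intro a ha
    simp only [Set.mem_ofPred_eq] at *
    conv_lhs => rw [← ha]
    rw [← LinearEquiv.mul_apply, ← map_mul]
    simp

lemma mem_St {ρ : G →* (V ≃ₗ[ZMod q] V)} {v : V} {g : G} : g ∈ St ρ v ↔ ρ g v = v := Iff.rfl

/-- Semiregularity on the non-zero vectors. -/
def Semi (ρ : G →* (V ≃ₗ[ZMod q] V)) : Prop := ∀ v : V, v ≠ 0 → ∀ g : G, ρ g v = v → g = 1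

lemma index_St (ρ : G →* (V ≃ₗ[ZMod q] V)) (v : V) :
    (St ρ v).index = Nat.card {u : V | ∃ g : G, ρ g v = u} := by
  letI act : MulAction G V :=
    { smul := fun g v => ρ g v
      one_smul := fun v => by
        show ρ 1 v = v
        simp
      mul_smul := fun g h v => by
        show ρ (g * h) v = ρ g (ρ h v)
        simp }
  have h1 : St ρ v = MulAction.stabilizer G v := by
    ext g
    rfl
  rw [h1, MulAction.index_stabilizer, Nat.card_coe_set_eq]
  rfl

lemma inv_apply_of_fix {ρ : G →* (V ≃ₗ[ZMod q] V)} {g : G} {v w : V} (h : ρ g v = w) :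
    ρ g⁻¹ w = v := by
  rw [← h, ← LinearEquiv.mul_apply, ← map_mul]
  simp

variable [Finite G] {ρ : G →* (V ≃ₗ[ZMod q] V)}

lemma card_St_eq (hhalf : ∀ v w : V, v ≠ 0 → w ≠ 0 → Nat.card {u : V | ∃ g : G, ρ g v = u} =
      Nat.card {u : V | ∃ g : G, ρ g w = u}) {v w : V} (hv : v ≠ 0) (hw : w ≠ 0) :
    Nat.card (St ρ v) = Nat.card (St ρ w) := by
  have h1 := Subgroup.card_mul_index (St ρ v)
  have h2 := Subgroup.card_mul_index (St ρ w)
  rw [index_St, hhalf v w hv hw, ← index_St] at h1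
  rw [← h2] at h1
  exact Nat.eq_of_mul_eq_mul_right (Nat.pos_of_ne_zero Subgroup.index_ne_zero_of_finite) h1

/-- Half-transitive: all non-zero vectors have stabilizers of equal order. -/
def Half (ρ : G →* (V ≃ₗ[ZMod q] V)) : Prop :=
  ∀ v w : V, v ≠ 0 → w ≠ 0 → Nat.card (St ρ v) = Nat.card (St ρ w)

lemma eq_of_le_of_half {H K : Subgroup G} (h : H ≤ K) (hc : Nat.card K = Nat.card H) : H = K :=
  Subgroup.eq_of_le_of_card_ge h (le_of_eq hc)

/-- A splitting into invariant subspaces forces semiregularity. -/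
lemma semi_of_split (hρ : Function.Injective ρ) (hH : Half ρ)
    {U U' : Submodule (ZMod q) V} (hU : ∀ g : G, ∀ w ∈ U, ρ g w ∈ U)
    (hU' : ∀ g : G, ∀ w ∈ U', ρ g w ∈ U') (hdisj : Disjoint U U') (hsup : U ⊔ U' = ⊤)
    (hne : U ≠ ⊥) (hne' : U' ≠ ⊥) : Semi ρ := by
  have key : ∀ (A B : Submodule (ZMod q) V), (∀ g : G, ∀ w ∈ A, ρ g w ∈ A) →
      (∀ g : G, ∀ w ∈ B, ρ g w ∈ B) → Disjoint A B → ∀ u ∈ A, ∀ u' ∈ B, u ≠ 0 → u' ≠ 0 →
      St ρ u ≤ St ρ u' := by
    intro A B hA hB hd u hu u' hu' h0 h0'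
    have hsum : u + u' ≠ 0 := by
      intro h
      have h1 : u = -u' := eq_neg_of_add_eq_zero_left h
      have h2 : u ∈ B := by rw [h1]; exact B.neg_mem hu'
      exact h0 ((Submodule.disjoint_def.1 hd) u hu h2)
    have hsub : St ρ (u + u') ≤ St ρ u ⊓ St ρ u' := by
      intro g hg
      rw [mem_St, map_add] at hg
      have h1 : ρ g u - u = u' - ρ g u' := by
        rw [sub_eq_sub_iff_add_eq_add]
        rw [hg, add_comm]
      have h2 : ρ g u - u ∈ A := A.sub_mem (hA g u hu) hu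
      have h3 : ρ g u - u ∈ B := by
        rw [h1]
        exact B.sub_mem hu' (hB g u' hu')
      have h4 := (Submodule.disjoint_def.1 hd) _ h2 h3
      have h5 : ρ g u = u := sub_eq_zero.1 h4
      refine ⟨h5, ?_⟩
      rw [h5] at hg
      exact add_left_cancel hg
    have hle : St ρ (u + u') ≤ St ρ u := hsub.trans inf_le_left
    have heq : St ρ (u + u') = St ρ u := eq_of_le_of_half hle (hH _ _ h0 hsum)
    rw [← heq]
    exact hsub.trans inf_le_right
  obtain ⟨u₀, hu₀, hu₀0⟩ := (Submodule.ne_bot_iff _).1 hne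
  obtain ⟨u₀', hu₀', hu₀0'⟩ := (Submodule.ne_bot_iff _).1 hne'
  have hbot : St ρ u₀ = ⊥ := by
    rw [eq_bot_iff]
    intro g hg
    rw [Subgroup.mem_bot]
    apply hρ
    rw [map_one]
    ext v
    have hv : v ∈ U ⊔ U' := by rw [hsup]; trivial
    obtain ⟨x, hx, y, hy, rfl⟩ := Submodule.mem_sup.1 hv
    have hg' : g ∈ St ρ u₀' := key U U' hU hU' hdisj u₀ hu₀ u₀' hu₀' hu₀0 hu₀0' hg
    have h1 : ρ g x = x := by
      by_cases hx0 : x = 0
      · rw [hx0, map_zero]
      · exact key U' U hU' hU hdisj.symm u₀' hu₀' x hx hu₀0' hx0 hg'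
    have h2 : ρ g y = y := by
      by_cases hy0 : y = 0
      · rw [hy0, map_zero]
      · exact key U U' hU hU' hdisj u₀ hu₀ y hy hu₀0 hy0 hg
    simp [h1, h2]
  intro v hv g hg
  have h1 := hH v u₀ hv hu₀0
  rw [hbot, Subgroup.card_bot] at h1
  have h2 : St ρ v = ⊥ := Subgroup.eq_bot_of_card_eq _ h1
  have h3 : g ∈ St ρ v := hg
  rw [h2] at h3
  exact (Subgroup.mem_bot).1 h3

variable {p : ℕ}

/-- A central element of `p`-power order one has no fixed vectors unless the action is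
semiregular. -/
lemma fix_zero (hρ : Function.Injective ρ) (hH : Half ρ) (hns : ¬ Semi ρ)
    (hpq : (p : ZMod q) ≠ 0) {y : G} (hc : ∀ g, g * y = y * g) (hy1 : y ≠ 1) (hyp : y ^ p = 1) :
    Fx ρ y = ⊥ := by
  by_contra hne
  apply hns
  have hfix : ∀ v, T ρ p y (T ρ p y v) = (p : ZMod q) • T ρ p y v := fun v =>
    T_self (T_mem hyp v)
  have hcomp : ∀ v, v - (p : ZMod q)⁻¹ • T ρ p y v ∈ LinearMap.ker (T ρ p y) := by
    intro v
    rw [LinearMap.mem_ker, map_sub, map_smul, hfix, smul_smul, inv_mul_cancel₀ hpq, one_smul,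
      sub_self]
  refine semi_of_split hρ hH (U := Fx ρ y) (U' := LinearMap.ker (T ρ p y)) ?_ ?_ ?_ ?_ hne ?_
  · intro g w hw
    rw [mem_Fx] at hw ⊢
    rw [← LinearEquiv.mul_apply, ← map_mul, ← hc g, map_mul, LinearEquiv.mul_apply, hw]
  · intro g w hw
    rw [LinearMap.mem_ker] at hw ⊢
    have h1 : ∀ i : ℕ, ρ (y ^ i) (ρ g w) = ρ g (ρ (y ^ i) w) := by
      intro i
      rw [← LinearEquiv.mul_apply, ← map_mul, ← LinearEquiv.mul_apply, ← map_mul,
        (show Commute g (y ^ i) from (show Commute g y from hc g).pow_right i).eq]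
    rw [T_apply]
    simp only [h1]
    rw [← map_sum, ← T_apply, hw, map_zero]
  · rw [Submodule.disjoint_def]
    intro x hx hx'
    rw [LinearMap.mem_ker] at hx'
    rw [T_self hx] at hx'
    exact (smul_eq_zero.1 hx').resolve_left hpq
  · rw [eq_top_iff]
    intro v _
    have : v = (p : ZMod q)⁻¹ • T ρ p y v + (v - (p : ZMod q)⁻¹ • T ρ p y v) := by abel
    rw [this]
    refine Submodule.add_mem _ (Submodule.mem_sup_left ?_) (Submodule.mem_sup_right (hcomp v))
    exact Submodule.smul_mem _ _ (T_mem hyp v)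
  · intro hbot
    apply hy1
    apply hρ
    rw [map_one]
    ext v
    have h1 := hcomp v
    rw [hbot, Submodule.mem_bot, sub_eq_zero] at h1
    have h2 : ρ y v = v := by
      rw [h1, map_smul, (mem_Fx ρ).1 (T_mem hyp v)]
    exact h2

lemma T_zero (hρ : Function.Injective ρ) (hH : Half ρ) (hns : ¬ Semi ρ)
    (hpq : (p : ZMod q) ≠ 0) {y : G} (hc : ∀ g, g * y = y * g) (hy1 : y ≠ 1) (hyp : y ^ p = 1)
    (v : V) : T ρ p y v = 0 := by
  have h1 := T_mem (ρ := ρ) hyp v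
  rw [fix_zero hρ hH hns hpq hc hy1 hyp] at h1
  exact (Submodule.mem_bot _).1 h1

/-- The basic identity for a commuting pair. -/
lemma sum_T {a z : G} (hc : Commute a z) (v : V) :
    ∑ k ∈ Finset.range p, T ρ p (a * z ^ k) v =
      ∑ i ∈ Finset.range p, ρ (a ^ i) (T ρ p (z ^ i) v) := by
  simp only [T_apply]
  rw [Finset.sum_comm]
  refine Finset.sum_congr rfl fun i _ => ?_
  rw [map_sum]
  refine Finset.sum_congr rfl fun k _ => ?_
  rw [(hc.pow_right k).mul_pow, map_mul, LinearEquiv.mul_apply, ← pow_mul, ← pow_mul, mul_comm]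

lemma sum_T_eq (hp : 0 < p) {a z : G} (hc : Commute a z) (v : V)
    (h0 : ∀ i, 0 < i → i < p → T ρ p (z ^ i) v = 0) :
    ∑ k ∈ Finset.range p, T ρ p (a * z ^ k) v = (p : ZMod q) • v := by
  rw [sum_T hc, Finset.sum_eq_single 0]
  · simp only [pow_zero, map_one, LinearEquiv.coe_one, id_eq]
    exact T_self (by simp)
  · intro i hi hi0
    rw [h0 i (Nat.pos_of_ne_zero hi0) (Finset.mem_range.1 hi), map_zero]
  · intro h
    exact absurd (Finset.mem_range.2 hp) h

end Basics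

section PGroup

variable {q : ℕ} [Fact q.Prime] {V : Type*} [AddCommGroup V] [Module (ZMod q) V] [Finite V]
  [Nontrivial V] {G : Type*} [Group G] [Finite G] {p : ℕ} [Fact p.Prime]
  {ρ : G →* (V ≃ₗ[ZMod q] V)}

/-- In characteristic `p`, a half-transitive `p`-group is trivial. -/
lemma subsingleton_of_char (hG : IsPGroup p G) (hρ : Function.Injective ρ) (hH : Half ρ)
    (hpq : p = q) : Subsingleton G := by
  subst hpq
  letI act : MulAction G V :=
    { smul := fun g v => ρ g v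
      one_smul := fun v => by
        show ρ 1 v = v
        simp
      mul_smul := fun g h v => by
        show ρ (g * h) v = ρ g (ρ h v)
        simp }
  have h1 := hG.card_modEq_card_fixedPoints V
  obtain ⟨v, hv⟩ := exists_ne (0 : V)
  have h2 : p ∣ Nat.card V := by
    have h3 : addOrderOf v = p := by
      apply addOrderOf_eq_prime _ hv
      have : ((p : ZMod p)) • v = 0 := by simp
      rwa [Nat.cast_smul_eq_nsmul] at this
    rw [← h3]
    exact addOrderOf_dvd_natCard v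
  have h3 : p ∣ Nat.card (MulAction.fixedPoints G V) := (Nat.ModEq.dvd_iff h1 (dvd_refl p)).1 h2
  have h4 : ∃ w : MulAction.fixedPoints G V, (w : V) ≠ 0 := by
    by_contra hcon
    push Not at hcon
    have : Subsingleton (MulAction.fixedPoints G V) :=
      ⟨fun a b => Subtype.ext (by rw [hcon a, hcon b])⟩
    have h0 : (0 : V) ∈ MulAction.fixedPoints G V := fun g => by
      show ρ g 0 = 0
      simp
    have : Nonempty (MulAction.fixedPoints G V) := ⟨⟨0, h0⟩⟩
    have h5 : Nat.card (MulAction.fixedPoints G V) = 1 := Nat.card_unique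
    rw [h5] at h3
    exact (Fact.out : p.Prime).one_lt.ne' (Nat.dvd_one.1 h3)
  obtain ⟨⟨w, hw⟩, hw0⟩ := h4
  have htop : St ρ w = ⊤ := by
    rw [eq_top_iff]
    intro g _
    exact hw g
  have hall : ∀ v : V, v ≠ 0 → St ρ v = ⊤ := by
    intro v hv
    have h5 := hH v w hv hw0
    rw [htop, Subgroup.card_top] at h5
    exact Subgroup.eq_top_of_card_eq _ h5
  refine ⟨fun g g' => ?_⟩
  apply hρ
  ext x
  by_cases hx : x = 0
  · simp [hx]
  · have h5 : g ∈ St ρ x := by rw [hall x hx]; trivial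
    have h6 : g' ∈ St ρ x := by rw [hall x hx]; trivial
    rw [h5, h6]

lemma natCast_ne_zero_of_ne (hpq : p ≠ q) : (p : ZMod q) ≠ 0 := by
  have hpp : p.Prime := Fact.out
  have hqp : q.Prime := Fact.out
  rw [Ne, ZMod.natCast_eq_zero_iff]
  intro h
  exact hpq ((Nat.prime_dvd_prime_iff_eq hqp hpp).1 h).symm

/-- A semiregular action admits no commuting pair generating an elementary abelian group. -/
lemma no_semi_E (hsemi : Semi ρ) (hpq : (p : ZMod q) ≠ 0) {a z : G} (hc : Commute a z)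
    (ha : a ^ p = 1) (hz : orderOf z = p) (haz : a ∉ Subgroup.zpowers z) : False := by
  have hpp : p.Prime := Fact.out
  have hzp1 : z ^ p = 1 := by rw [← hz]; exact pow_orderOf_eq_one z
  obtain ⟨v, hv⟩ := exists_ne (0 : V)
  have hTz : ∀ (u : G) (w : V), u ≠ 1 → u ^ p = 1 → T ρ p u w = 0 := by
    intro u w hu1 hup
    by_contra h
    exact hu1 (hsemi _ h u ((mem_Fx ρ).1 (T_mem hup w)))
  have h0 : ∀ i, 0 < i → i < p → T ρ p (z ^ i) v = 0 := by
    intro i h1 h2
    refine hTz _ _ (pow_ne_one_of_lt_orderOf h1.ne' (by rw [hz]; exact h2)) ?_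
    rw [← pow_mul, mul_comm, pow_mul, hzp1, one_pow]
  have h1 := sum_T_eq (ρ := ρ) hpp.pos hc v h0
  have h2 : ∑ k ∈ Finset.range p, T ρ p (a * z ^ k) v = 0 := by
    refine Finset.sum_eq_zero fun k _ => hTz _ _ ?_ ?_
    · intro h3
      apply haz
      rw [eq_inv_of_mul_eq_one_left h3]
      exact Subgroup.inv_mem _ (Subgroup.npow_mem_zpowers _ _)
    · rw [(hc.pow_right k).mul_pow, ha, one_mul, ← pow_mul, mul_comm, pow_mul, hzp1, one_pow]
  rw [h2] at h1
  exact hv ((smul_eq_zero.1 h1.symm).resolve_left hpq)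

/-- Normal subgroups of order `p²` and exponent `p` yield a central `z` and an `a`. -/
lemma exists_za (hG : IsPGroup p G) {A : Subgroup G} (hAn : A.Normal) (hAp : ∀ a ∈ A, a ^ p = 1)
    (hAc : Nat.card A = p ^ 2) :
    ∃ z a : G, z ∈ Subgroup.center G ∧ orderOf z = p ∧ a ^ p = 1 ∧ a ∉ Subgroup.zpowers z ∧
      ∀ g : G, ⁅a⁻¹, g⁆ ∈ Subgroup.zpowers z := by
  have hpp : p.Prime := Fact.out
  have hAne : A ≠ ⊥ := by
    intro h
    rw [h, Subgroup.card_bot] at hAc
    have : 1 < p ^ 2 := Nat.one_lt_pow (by norm_num) hpp.one_lt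
    omega
  obtain ⟨z, hzA, hzZ, hzp⟩ := Cfsg.Agent.Lib.PGroups.Basic.exists_central_orderOf_eq hG A hAne
  have hzc : ∀ g, g * z = z * g := Subgroup.mem_center_iff.1 hzZ
  let P := Subgroup.zpowers z
  have hPn : P.Normal := by
    constructor
    rintro x ⟨k, rfl⟩ g
    have : Commute g (z ^ k) := (show Commute g z from hzc g).zpow_right k
    have h2 : g * z ^ k * g⁻¹ = z ^ k := by
      rw [this.eq]; group
    simp only [h2]
    exact ⟨k, rfl⟩
  have hPA : P ≤ A := (Subgroup.zpowers_le).2 hzA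
  have hPc : Nat.card P = p := by rw [Nat.card_zpowers, hzp]
  have hidx : P.relIndex A = p := by
    have h1 := Cfsg.Agent.Lib.Coprime.Action.card_eq_card_mul_relIndex hPA
    rw [hAc, hPc, pow_two] at h1
    exact (Nat.eq_of_mul_eq_mul_left hpp.pos h1).symm
  obtain ⟨a, haA, haP⟩ : ∃ a ∈ A, a ∉ P := by
    by_contra h
    push Not at h
    have h1 : Nat.card A ≤ Nat.card P := Subgroup.card_le_of_le h
    rw [hAc, hPc, pow_two] at h1
    have := hpp.one_lt
    nlinarith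
  refine ⟨z, a, hzZ, hzp, hAp a haA, haP, fun g => ?_⟩
  exact Cfsg.Agent.Lib.PGroups.MaxAbelian.comm_mem_of_relIndex_eq hG hidx (A.inv_mem haA) g

/-- The dichotomy for non-cyclic `p`-groups. -/
lemma two_cases (hG : IsPGroup p G) (hnc : ¬ IsCyclic G) :
    (∃ A : Subgroup G, A.Normal ∧ (∀ a ∈ A, a ^ p = 1) ∧ Nat.card A = p ^ 2) ∨
    (p = 2 ∧ ∃ (n : ℕ) (a y : G), 2 ≤ n ∧ orderOf a = 2 ^ n ∧ Nat.card G = 2 ^ (n + 1) ∧
      y ∉ Subgroup.zpowers a ∧ (Subgroup.zpowers a).index = 2 ∧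
      ((y ^ 2 = a ^ (2 ^ (n - 1)) ∧ y * a * y⁻¹ = a⁻¹) ∨
       (3 ≤ n ∧ y ^ 2 = 1 ∧ y * a * y⁻¹ = a⁻¹) ∨
       (3 ≤ n ∧ y ^ 2 = 1 ∧ y * a * y⁻¹ = a ^ (2 ^ (n - 1) - 1)))) := by
  by_cases hp2 : p = 2
  · subst hp2
    by_cases hn : ∀ A : Subgroup G, A.Normal → IsMulCommutative A → IsCyclic A
    · exact Or.inr ⟨rfl, Cfsg.Agent.Lib.PGroups.CyclicNormal.classify hG hn hnc⟩
    · left
      push Not at hn
      obtain ⟨B, hBn, hBc, hBnc⟩ := hn
      -- the elements of square one of `B`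
      let Ω : Subgroup G :=
        { carrier := {b | b ∈ B ∧ b ^ 2 = 1}
          mul_mem' := by
            rintro x y ⟨hx, hx2⟩ ⟨hy, hy2⟩
            refine ⟨B.mul_mem hx hy, ?_⟩
            have hcomm : x * y = y * x := by
              have := hBc.is_comm.comm ⟨x, hx⟩ ⟨y, hy⟩
              exact congrArg Subtype.val this
            rw [(show Commute x y from hcomm).mul_pow, hx2, hy2, one_mul]
          one_mem' := ⟨B.one_mem, one_pow _⟩
          inv_mem' := by
            rintro x ⟨hx, hx2⟩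
            exact ⟨B.inv_mem hx, by rw [inv_pow, hx2, inv_one]⟩ }
      have hΩn : Ω.Normal := by
        refine ⟨fun x hx g => ⟨hBn.conj_mem x hx.1 g, ?_⟩⟩
        rw [conj_pow, hx.2]
        simp
      obtain ⟨x, y, hx, hy, hyx⟩ :=
        Cfsg.Agent.Lib.PGroups.NormalRankTwo.exists_two_independent_of_comm (G := B)
          (hG.to_subgroup B) (fun a b => hBc.is_comm.comm a b) hBnc
      have h4 : 2 ^ 2 ∣ Nat.card Ω := by
        obtain ⟨k, hk⟩ := (IsPGroup.iff_card).1 (hG.to_subgroup Ω)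
        rw [hk]
        apply pow_dvd_pow
        by_contra hk2
        have hk1 : k ≤ 1 := by omega
        have hle : Nat.card Ω ≤ 2 := by
          rw [hk]
          calc 2 ^ k ≤ 2 ^ 1 := Nat.pow_le_pow_right (by norm_num) hk1
            _ = 2 := rfl
        -- `1`, `x` and `y` are three different members
        have hx2 : (x : G) ^ 2 = 1 := by
          have := pow_orderOf_eq_one x
          rw [hx] at this
          exact congrArg Subtype.val this
        have hy2 : (y : G) ^ 2 = 1 := congrArg Subtype.val hy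
        have hxne : (x : G) ≠ 1 := by
          intro h
          have : x = 1 := Subtype.ext h
          rw [this, orderOf_one] at hx
          omega
        have hyne : (y : G) ≠ 1 := by
          intro h
          have : y = 1 := Subtype.ext h
          rw [this] at hyx
          exact hyx (one_mem _)
        have hxy : (x : G) ≠ y := by
          intro h
          have : y = x := (Subtype.ext h).symm
          rw [this] at hyx
          exact hyx (Subgroup.mem_zpowers x)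
        classical
        have : Fintype Ω := Fintype.ofFinite _
        have h6 : ({1, (⟨x, x.2, hx2⟩ : Ω), (⟨y, y.2, hy2⟩ : Ω)} : Finset Ω).card = 3 := by
          rw [Finset.card_eq_three]
          refine ⟨_, _, _, ?_, ?_, ?_, rfl⟩
          · intro h; exact hxne (congrArg Subtype.val h).symm
          · intro h; exact hyne (congrArg Subtype.val h).symm
          · intro h; exact hxy (congrArg (fun e : Ω => (e : G)) h)
        have h7 := Finset.card_le_univ ({1, (⟨x, x.2, hx2⟩ : Ω), (⟨y, y.2, hy2⟩ : Ω)} : Finset Ω)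
        rw [h6, ← Nat.card_eq_fintype_card] at h7
        omega
      obtain ⟨L, hLn, hLΩ, hLc⟩ :=
        Cfsg.Agent.Lib.PGroups.NormalRankTwo.exists_normal_le_card_eq hG Ω 2 h4
      exact ⟨L, hLn, fun a ha => (hLΩ ha).2, hLc⟩
  · exact Or.inl (Cfsg.Agent.Lib.PGroups.NormalRankTwo.exists_normal_card_sq hp2 hG hnc)

end PGroup

section Key

variable {q : ℕ} [Fact q.Prime] {V : Type*} [AddCommGroup V] [Module (ZMod q) V]
  {G : Type*} [Group G] [Finite G] {p : ℕ} {ρ : G →* (V ≃ₗ[ZMod q] V)}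

/-- The key lemma: two non-zero vectors in different fixed spaces of the coset are swapped. -/
lemma key (hH : Half ρ) (hpq : (p : ZMod q) ≠ 0) (P : Subgroup G)
    (hPc : ∀ y ∈ P, ∀ g : G, g * y = y * g)
    (hT0 : ∀ y ∈ P, y ≠ 1 → ∀ v, T ρ p y v = 0) {b : G} (hb : ∀ g : G, ∃ y ∈ P, g * b * g⁻¹ = b * y)
    {y : G} (hy : y ∈ P) (hy1 : y ≠ 1) {w w' : V} (hw : ρ b w = w) (hw' : ρ (b * y) w' = w')
    (h0 : w ≠ 0) (h0' : w' ≠ 0) :
    ∃ g : G, g * b * g⁻¹ = b * y ∧ y * y = 1 ∧ ρ g w = w' ∧ ρ g w' = w := by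
  have hTy : ∀ (c y₂ : G), y₂ ∈ P → y₂ ≠ 1 → ∀ x, ρ (c * y₂) x = x → T ρ p c x = 0 := by
    intro c y₂ hy₂ hne x hx
    have h1 : c = (c * y₂) * y₂⁻¹ := by group
    have hcomm : Commute (c * y₂) y₂⁻¹ := hPc _ (P.inv_mem hy₂) _
    rw [h1, T_twist hcomm hx]
    exact hT0 _ (P.inv_mem hy₂) (inv_ne_one.2 hne) x
  have hsmul : ∀ {x : V}, (p : ZMod q) • x = 0 → x = 0 := fun h =>
    (smul_eq_zero.1 h).resolve_left hpq
  have hw'b : ¬ ρ b w' = w' := by
    intro h
    have h1 := T_self (p := p) h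
    rw [hTy b y hy hy1 w' hw'] at h1
    exact h0' (hsmul h1.symm)
  have hu : w + w' ≠ 0 := by
    intro h
    have h1 : w' = -w := eq_neg_of_add_eq_zero_right h
    apply hw'b
    rw [h1, map_neg, hw]
  -- an element of the stabilizer of the sum moving a summand
  obtain ⟨g, hgu, hgn⟩ : ∃ g ∈ St ρ (w + w'), ¬ (ρ g w = w ∧ ρ g w' = w') := by
    by_contra hcon
    push Not at hcon
    have hle : St ρ (w + w') ≤ St ρ w := fun g hg => (hcon g hg).1
    have heq : St ρ (w + w') = St ρ w := eq_of_le_of_half hle (hH _ _ h0 hu)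
    have hb1 : b ∈ St ρ (w + w') := by rw [heq]; exact hw
    exact hw'b (hcon b hb1).2
  have hg : ρ g w + ρ g w' = w + w' := by
    have := mem_St.1 hgu
    rwa [map_add] at this
  obtain ⟨y₁, hy₁, hgb⟩ := hb g
  have hgb' : (b * y₁) * g = g * b := by
    rw [← hgb]; group
  have hgby : (b * y₁ * y) * g = g * (b * y) := by
    rw [mul_assoc (b * y₁), ← hPc y hy g, ← mul_assoc, hgb', mul_assoc]
  have hfw : ρ (b * y₁) (ρ g w) = ρ g w := by
    rw [← LinearEquiv.mul_apply, ← map_mul, hgb', map_mul, LinearEquiv.mul_apply, hw]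
  have hfw' : ρ (b * y₁ * y) (ρ g w') = ρ g w' := by
    rw [← LinearEquiv.mul_apply, ← map_mul, hgby, map_mul, LinearEquiv.mul_apply, hw']
  by_cases hy₁1 : y₁ = 1
  · exfalso
    subst hy₁1
    rw [mul_one] at hfw hfw'
    apply hgn
    have hx : ρ g w - w = w' - ρ g w' := by
      rw [sub_eq_sub_iff_add_eq_add, hg, add_comm]
    have hx0 : ρ g w - w = 0 := by
      apply hsmul
      have h1 : ρ b (ρ g w - w) = ρ g w - w := by rw [map_sub, hfw, hw]
      have h2 : ρ (b * y) (ρ g w - w) = ρ g w - w := by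
        rw [hx, map_sub, hfw', hw']
      have h3 := T_self (p := p) h1
      rw [hTy b y hy hy1 _ h2] at h3
      exact h3.symm
    have h5 : ρ g w = w := sub_eq_zero.1 hx0
    refine ⟨h5, ?_⟩
    rw [h5] at hg
    exact add_left_cancel hg
  · have h1 : T ρ p b (ρ g w) = 0 := hTy b y₁ hy₁ hy₁1 _ hfw
    have h2 : T ρ p b w' = 0 := hTy b y hy hy1 _ hw'
    have h3 : T ρ p b (ρ g w') = (p : ZMod q) • w := by
      have h4 := congrArg (T ρ p b) hg
      rw [map_add, map_add, h1, h2, T_self hw, zero_add, add_zero] at h4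
      exact h4
    by_cases hyy : y₁ * y = 1
    · have hfb : ρ b (ρ g w') = ρ g w' := by
        have : b * y₁ * y = b := by rw [mul_assoc, hyy, mul_one]
        rwa [this] at hfw'
      rw [T_self hfb] at h3
      have h5 : ρ g w' = w := by
        have h6 : (p : ZMod q) • (ρ g w' - w) = 0 := by
          rw [smul_sub, h3, sub_self]
        exact sub_eq_zero.1 (hsmul h6)
      have h6 : ρ g w = w' := by
        rw [h5, add_comm] at hg
        exact add_left_cancel hg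
      have h7 : y₁ = y := by
        by_contra hne
        apply h0'
        have hm : y⁻¹ * y₁ ∈ P := P.mul_mem (P.inv_mem hy) hy₁
        have hm1 : y⁻¹ * y₁ ≠ 1 := by
          intro h
          exact hne (inv_mul_eq_one.1 h).symm
        have h8 : ρ ((b * y) * (y⁻¹ * y₁)) w' = w' := by
          have : (b * y) * (y⁻¹ * y₁) = b * y₁ := by group
          rw [this]
          rw [h6] at hfw
          exact hfw
        have h9 := T_self (p := p) hw'
        rw [hTy (b * y) _ hm hm1 _ h8] at h9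
        exact hsmul h9.symm
      subst h7
      exact ⟨g, hgb, hyy, h6, h5⟩
    · exfalso
      have h4 : T ρ p b (ρ g w') = 0 := by
        apply hTy b (y₁ * y) (P.mul_mem hy₁ hy) hyy
        rw [← mul_assoc]
        exact hfw'
      rw [h4] at h3
      exact h0 (hsmul h3.symm)

end Key

section Numeric

lemma odd_pow_form {q : ℕ} (hq : Odd q) (hq1 : 1 ≤ q) {k : ℕ} (hk : Odd k) :
    ∃ S, Odd S ∧ q ^ k = (q - 1) * S + 1 := by
  obtain ⟨j, rfl⟩ := hk
  induction j with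
  | zero => exact ⟨1, odd_one, by simp; omega⟩
  | succ j ih =>
    obtain ⟨S, hS, hq'⟩ := ih
    refine ⟨q ^ 2 * S + q + 1, ?_, ?_⟩
    · have h1 : Odd (q ^ 2 * S + q) → False := by
        intro h
        have h2 : Even (q ^ 2 * S + q) := (hq.pow.mul hS).add_odd hq
        exact (Nat.not_even_iff_odd.2 h) h2
      have h2 : Even (q ^ 2 * S + q) := (hq.pow.mul hS).add_odd hq
      exact h2.add_one
    · obtain ⟨c, rfl⟩ : ∃ c, q = c + 1 := ⟨q - 1, by omega⟩
      simp only [Nat.add_sub_cancel] at hq' ⊢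
      have : (c + 1) ^ (2 * (j + 1) + 1) = (c + 1) ^ 2 * (c + 1) ^ (2 * j + 1) := by ring
      rw [this, hq']
      ring

lemma odd_pow_form' {q : ℕ} (hq : Odd q) {k : ℕ} (hk : Odd k) :
    ∃ S, Odd S ∧ q ^ k + 1 = (q + 1) * S := by
  obtain ⟨j, rfl⟩ := hk
  induction j with
  | zero => exact ⟨1, odd_one, by simp⟩
  | succ j ih =>
    obtain ⟨S, hS, hq'⟩ := ih
    -- `q^(k+2) + 1 = q²(q+1)S - (q-1)(q+1)`
    obtain ⟨c, rfl⟩ : ∃ c, q = c + 1 := ⟨q - 1, by
      have := hq.pos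
      omega⟩
    have hS1 : 1 ≤ S := hS.pos
    refine ⟨(c + 1) ^ 2 * S - c, ?_, ?_⟩
    · have hle : c ≤ (c + 1) ^ 2 * S := by nlinarith [sq_nonneg c]
      have h1 : Odd ((c + 1) ^ 2 * S) := hq.pow.mul hS
      have h2 : Even c := Nat.not_odd_iff_even.1 (Nat.odd_add_one.1 hq)
      exact Nat.Odd.sub_even hle h1 h2
    · have hle : c ≤ (c + 1) ^ 2 * S := by nlinarith [sq_nonneg c]
      zify [hle]
      have h3 : (((c : ℤ) + 1) ^ (2 * j + 1) + 1) = (c + 1 + 1) * S := by exact_mod_cast hq'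
      have : ((c : ℤ) + 1) ^ (2 * (j + 1) + 1) = ((c : ℤ) + 1) ^ 2 * ((c + 1) ^ (2 * j + 1)) := by ring
      rw [this, eq_sub_of_add_eq h3]
      ring

/-- `q^k = 2^e + 1` forces `k = 1` or `q^k = 9`. -/
lemma pow_eq_two_pow_add_one {q k e : ℕ} (hq : q.Prime) (hqo : Odd q) (hk : 1 ≤ k)
    (h : q ^ k = 2 ^ e + 1) : k = 1 ∨ (q = 3 ∧ k = 2) := by
  rcases Nat.even_or_odd k with hev | hod
  · right
    obtain ⟨j, rfl⟩ := hev
    have hj : 1 ≤ j := by omega
    set Q := q ^ j with hQ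
    have hQ2 : 2 ≤ Q := by
      calc 2 ≤ q := hq.two_le
        _ ≤ q ^ j := Nat.le_self_pow (by omega) q
    have h1 : (Q - 1) * (Q + 1) = 2 ^ e := by
      have h2 : Q * Q = 2 ^ e + 1 := by
        rw [hQ, ← pow_add]; exact h
      obtain ⟨c, hc⟩ : ∃ c, Q = c + 1 := ⟨Q - 1, by omega⟩
      rw [hc] at h2 ⊢
      simp only [Nat.add_sub_cancel]
      nlinarith
    obtain ⟨a, -, ha⟩ := (Nat.dvd_prime_pow Nat.prime_two).1 (Dvd.intro _ h1)
    obtain ⟨b, -, hb⟩ := (Nat.dvd_prime_pow Nat.prime_two).1 (Dvd.intro_left _ h1)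
    have h3 : 2 ^ b = 2 ^ a + 2 := by omega
    have ha1 : a = 1 := by
      by_contra hne
      rcases Nat.lt_or_ge a 1 with h4 | h4
      · have : a = 0 := by omega
        subst this
        simp only [pow_zero] at h3
        have hb' : b ≠ 0 := by
          rintro rfl
          simp at h3
        obtain ⟨b', rfl⟩ : ∃ b', b = b' + 1 := ⟨b - 1, by omega⟩
        rw [pow_succ] at h3
        omega
      · have ha2 : 2 ≤ a := by omega
        obtain ⟨a', rfl⟩ : ∃ a', a = a' + 2 := ⟨a - 2, by omega⟩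
        have hb2 : 2 ≤ b := by
          by_contra hb'
          have : b ≤ 1 := by omega
          have h5 : 2 ^ b ≤ 2 ^ 1 := Nat.pow_le_pow_right (by norm_num) this
          have h6 : 1 ≤ 2 ^ a' := Nat.one_le_two_pow
          rw [pow_add] at h3
          omega
        obtain ⟨b', rfl⟩ : ∃ b', b = b' + 2 := ⟨b - 2, by omega⟩
        rw [pow_add, pow_add] at h3
        omega
    subst ha1
    have hQ3 : Q = 3 := by
      simp only [pow_one] at ha
      omega
    have hq3 : q ∣ 3 := by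
      rw [← hQ3, hQ]
      exact dvd_pow_self q (by omega)
    have hq3' : q = 3 := (Nat.prime_dvd_prime_iff_eq hq Nat.prime_three).1 hq3
    subst hq3'
    refine ⟨rfl, ?_⟩
    have : j = 1 := by
      have h4 : 3 ^ j = 3 ^ 1 := by rw [← hQ, hQ3]; rfl
      exact Nat.pow_right_injective (by norm_num : 2 ≤ 3) h4
    omega
  · left
    obtain ⟨S, hS, hf⟩ := odd_pow_form hqo hq.one_le hod
    have h1 : (q - 1) * S = 2 ^ e := by omega
    obtain ⟨a, -, ha⟩ := (Nat.dvd_prime_pow Nat.prime_two).1 (Dvd.intro_left _ h1)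
    have hS1 : S = 1 := by
      rcases Nat.eq_zero_or_pos a with h0 | h0
      · rw [ha, h0, pow_zero]
      · exfalso
        rw [ha] at hS
        exact (Nat.not_even_iff_odd.2 hS) ((Nat.even_pow.2 ⟨even_two, h0.ne'⟩))
    rw [hS1, mul_one] at hf
    have h2 : q ^ k = q ^ 1 := by
      rw [hf, pow_one]
      have := hq.one_le
      omega
    exact Nat.pow_right_injective hq.two_le h2

/-- `q^k + 1 = 2^n` with `n ≥ 2` forces `k = 1`. -/
lemma pow_add_one_eq_two_pow {q k n : ℕ} (hq : q.Prime) (hqo : Odd q) (hn : 2 ≤ n)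
    (h : q ^ k + 1 = 2 ^ n) : k = 1 := by
  rcases Nat.even_or_odd k with hev | hod
  · exfalso
    obtain ⟨j, rfl⟩ := hev
    have h1 : (q ^ j) ^ 2 % 4 = 1 := by
      have h2 : Odd (q ^ j) := hqo.pow
      obtain ⟨c, hc⟩ := h2
      rw [hc]
      have : (2 * c + 1) ^ 2 = 4 * (c * c + c) + 1 := by ring
      rw [this]
      omega
    have h3 : (q ^ (j + j)) % 4 = 1 := by
      rw [← two_mul, mul_comm, pow_mul]
      exact h1
    obtain ⟨n', rfl⟩ : ∃ n', n = n' + 2 := ⟨n - 2, by omega⟩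
    have h4 : 2 ^ (n' + 2) = 4 * 2 ^ n' := by ring
    rw [h4] at h
    omega
  · obtain ⟨S, hS, hf⟩ := odd_pow_form' hqo hod
    rw [hf] at h
    obtain ⟨a, -, ha⟩ := (Nat.dvd_prime_pow Nat.prime_two).1 (Dvd.intro_left _ h)
    have hS1 : S = 1 := by
      rcases Nat.eq_zero_or_pos a with h0 | h0
      · rw [ha, h0, pow_zero]
      · exfalso
        rw [ha] at hS
        exact (Nat.not_even_iff_odd.2 hS) ((Nat.even_pow.2 ⟨even_two, h0.ne'⟩))
    rw [hS1, mul_one] at hf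
    have h2 : q ^ k = q ^ 1 := by
      rw [pow_one]
      omega
    exact Nat.pow_right_injective hq.two_le h2

end Numeric

section Two

variable {q : ℕ} [Fact q.Prime] {V : Type*} [AddCommGroup V] [Module (ZMod q) V]
  {G : Type*} [Group G] [Finite G] {p : ℕ} {ρ : G →* (V ≃ₗ[ZMod q] V)}

omit [Finite G] in
lemma zpowers_central {z : G} (hz : z ∈ Subgroup.center G) :
    ∀ y ∈ Subgroup.zpowers z, ∀ g : G, g * y = y * g := by
  intro y hy g
  obtain ⟨k, rfl⟩ := Subgroup.mem_zpowers_iff.1 hy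
  exact (show Commute g z from (Subgroup.mem_center_iff.1 hz g)).zpow_right k

omit [Finite G] in
lemma zpowers_pow {z : G} (hzp : orderOf z = p) : ∀ y ∈ Subgroup.zpowers z, y ^ p = 1 := by
  intro y hy
  obtain ⟨k, rfl⟩ := Subgroup.mem_zpowers_iff.1 hy
  rw [← zpow_natCast, ← zpow_mul, mul_comm, zpow_mul, zpow_natCast, ← hzp, pow_orderOf_eq_one,
    one_zpow]

omit [Finite G] in
lemma conj_eq_comm (a g : G) : g * a * g⁻¹ = a * ⁅a⁻¹, g⁆ := by
  rw [commutatorElement_def]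
  group

variable [Finite V] [Nontrivial V]

lemma exists_noncentral (hρ : Function.Injective ρ) (hH : Half ρ) (hns : ¬ Semi ρ) [Fact p.Prime]
    (hpq : (p : ZMod q) ≠ 0) {z a : G} (hz : z ∈ Subgroup.center G) (hzp : orderOf z = p)
    (hap : a ^ p = 1) (haz : a ∉ Subgroup.zpowers z) : ∃ g : G, g * a * g⁻¹ ≠ a := by
  by_contra hcon
  push Not at hcon
  have hpp : p.Prime := Fact.out
  have hac : ∀ g : G, g * a = a * g := fun g => by
    have := hcon g
    rwa [mul_inv_eq_iff_eq_mul] at this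
  have hc := zpowers_central hz
  have hzc : Commute a z := (Subgroup.mem_center_iff.1 hz a)
  have hzp1 : z ^ p = 1 := by rw [← hzp]; exact pow_orderOf_eq_one z
  obtain ⟨v, hv⟩ := exists_ne (0 : V)
  have h0 : ∀ i, 0 < i → i < p → T ρ p (z ^ i) v = 0 := by
    intro i h1 h2
    refine T_zero hρ hH hns hpq (fun g => hc _ (Subgroup.npow_mem_zpowers _ _) g)
      (pow_ne_one_of_lt_orderOf h1.ne' (by rw [hzp]; exact h2)) ?_ v
    rw [← pow_mul, mul_comm, pow_mul, hzp1, one_pow]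
  have h1 := sum_T_eq (ρ := ρ) hpp.pos hzc v h0
  have h2 : ∑ k ∈ Finset.range p, T ρ p (a * z ^ k) v = 0 := by
    refine Finset.sum_eq_zero fun k _ => ?_
    refine T_zero hρ hH hns hpq ?_ ?_ ?_ v
    · intro g
      rw [← mul_assoc, hac, mul_assoc, hc _ (Subgroup.npow_mem_zpowers _ _) g, mul_assoc]
    · intro h3
      apply haz
      rw [eq_inv_of_mul_eq_one_left h3]
      exact Subgroup.inv_mem _ (Subgroup.npow_mem_zpowers _ _)
    · rw [(hzc.pow_right k).mul_pow, hap, one_mul, ← pow_mul, mul_comm, pow_mul, hzp1, one_pow]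
  rw [h2] at h1
  exact hv ((smul_eq_zero.1 h1.symm).resolve_left hpq)

/-- `p = 2` as soon as a normal elementary abelian `p²` exists and the action is not semiregular. -/
lemma p_eq_two (hρ : Function.Injective ρ) (hH : Half ρ) (hns : ¬ Semi ρ) [Fact p.Prime]
    (hpq : (p : ZMod q) ≠ 0) {z a : G} (hz : z ∈ Subgroup.center G) (hzp : orderOf z = p)
    (hap : a ^ p = 1) (haz : a ∉ Subgroup.zpowers z)
    (hcomm : ∀ g : G, ⁅a⁻¹, g⁆ ∈ Subgroup.zpowers z) : p = 2 := by
  have hpp : p.Prime := Fact.out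
  have hc := zpowers_central hz
  have hyp := zpowers_pow hzp
  have hzc : Commute a z := (Subgroup.mem_center_iff.1 hz a)
  have hzp1 : z ^ p = 1 := by rw [← hzp]; exact pow_orderOf_eq_one z
  have hT0 : ∀ y ∈ Subgroup.zpowers z, y ≠ 1 → ∀ v, T ρ p y v = 0 := fun y hy hy1 v =>
    T_zero hρ hH hns hpq (hc y hy) hy1 (hyp y hy) v
  obtain ⟨v, hv⟩ := exists_ne (0 : V)
  have h0 : ∀ i, 0 < i → i < p → T ρ p (z ^ i) v = 0 := by
    intro i h1 h2
    refine hT0 _ (Subgroup.npow_mem_zpowers _ _)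
      (pow_ne_one_of_lt_orderOf h1.ne' (by rw [hzp]; exact h2)) v
  have h1 := sum_T_eq (ρ := ρ) hpp.pos hzc v h0
  obtain ⟨k, hk⟩ : ∃ k, T ρ p (a * z ^ k) v ≠ 0 := by
    by_contra hcon
    push Not at hcon
    rw [Finset.sum_eq_zero (fun k _ => hcon k)] at h1
    exact hv ((smul_eq_zero.1 h1.symm).resolve_left hpq)
  set b := a * z ^ k with hb
  have hbp : b ^ p = 1 := by
    rw [hb, (hzc.pow_right k).mul_pow, hap, one_mul, ← pow_mul, mul_comm, pow_mul, hzp1, one_pow]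
  have hbconj : ∀ g : G, g * b * g⁻¹ = b * ⁅a⁻¹, g⁆ := by
    intro g
    have h2 : g * z ^ k = z ^ k * g := hc _ (Subgroup.npow_mem_zpowers _ _) g
    have h3 : ⁅a⁻¹, g⁆ * z ^ k = z ^ k * ⁅a⁻¹, g⁆ := hc _ (Subgroup.npow_mem_zpowers _ _) _
    calc g * b * g⁻¹ = (g * a * g⁻¹) * (g * z ^ k * g⁻¹) := by rw [hb]; group
      _ = a * ⁅a⁻¹, g⁆ * z ^ k := by
        rw [h2, conj_eq_comm]
        simp
      _ = b * ⁅a⁻¹, g⁆ := by
        rw [hb, mul_assoc, h3, mul_assoc]
  obtain ⟨g₁, hg₁⟩ := exists_noncentral hρ hH hns hpq hz hzp hap haz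
  set y₁ := ⁅a⁻¹, g₁⁆ with hy₁
  have hy₁1 : y₁ ≠ 1 := by
    intro h
    apply hg₁
    rw [conj_eq_comm, ← hy₁, h, mul_one]
  set w := T ρ p b v with hw
  have hfw : ρ b w = w := (mem_Fx ρ).1 (T_mem hbp v)
  have hfw' : ρ (b * y₁) (ρ g₁ w) = ρ g₁ w := by
    have h2 : (b * y₁) * g₁ = g₁ * b := by
      rw [← hbconj g₁]; group
    rw [← LinearEquiv.mul_apply, ← map_mul, h2, map_mul, LinearEquiv.mul_apply, hfw]
  have hw'0 : ρ g₁ w ≠ 0 := by
    intro h
    exact hk ((LinearEquiv.map_eq_zero_iff _).1 h)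
  obtain ⟨g, -, hyy, -, -⟩ := key hH hpq (Subgroup.zpowers z) hc hT0
    (fun g => ⟨⁅a⁻¹, g⁆, hcomm g, hbconj g⟩) (hcomm g₁) hy₁1 hfw hfw' hk hw'0
  have h5 : orderOf y₁ = p := orderOf_eq_prime (hyp _ (hcomm g₁)) hy₁1
  have h6 : y₁ ^ 2 = 1 := by rw [pow_two]; exact hyy
  have h7 := orderOf_dvd_of_pow_eq_one h6
  rw [h5] at h7
  exact (Nat.prime_dvd_prime_iff_eq hpp Nat.prime_two).1 h7

end Two

section E4

variable {q : ℕ} [Fact q.Prime] {V : Type*} [AddCommGroup V] [Module (ZMod q) V]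
  {G : Type*} [Group G] {ρ : G →* (V ≃ₗ[ZMod q] V)}

/-- Complementary fixed spaces of an involution. -/
lemma compl_inv (h2 : (2 : ZMod q) ≠ 0) {t z : G} (hneg : ∀ v, ρ z v = -v) (ht : t ^ 2 = 1) :
    IsCompl (Fx ρ t) (Fx ρ (t * z)) := by
  constructor
  · rw [Submodule.disjoint_def]
    intro x hx hx'
    rw [mem_Fx] at hx hx'
    rw [map_mul, LinearEquiv.mul_apply, hneg, map_neg, hx] at hx'
    have h3 : (2 : ZMod q) • x = 0 := by
      rw [two_smul]
      nth_rewrite 1 [← hx']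
      simp
    exact (smul_eq_zero.1 h3).resolve_left h2
  · rw [codisjoint_iff, eq_top_iff]
    intro v _
    have htt : ∀ w, ρ t (ρ t w) = w := by
      intro w
      rw [← LinearEquiv.mul_apply, ← map_mul, ← pow_two, ht]
      simp
    have h3 : v = (2 : ZMod q)⁻¹ • (v + ρ t v) + (2 : ZMod q)⁻¹ • (v - ρ t v) := by
      rw [← smul_add]
      have h4 : v + ρ t v + (v - ρ t v) = (2 : ZMod q) • v := by
        rw [two_smul]
        abel
      rw [h4, smul_smul, inv_mul_cancel₀ h2, one_smul]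
    rw [h3]
    refine Submodule.add_mem _ (Submodule.mem_sup_left ?_) (Submodule.mem_sup_right ?_)
    · apply Submodule.smul_mem
      rw [mem_Fx, map_add, htt, add_comm]
    · apply Submodule.smul_mem
      rw [mem_Fx, map_mul, LinearEquiv.mul_apply, hneg, map_neg, map_sub, htt]
      abel

lemma card_of_compl {A B : Submodule (ZMod q) V} (h : IsCompl A B) :
    Nat.card V = Nat.card A * Nat.card B := by
  rw [← Nat.card_prod]
  exact Nat.card_congr (Submodule.prodEquivOfIsCompl A B h).toEquiv.symm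

lemma card_Fx_conj (g u : G) : Nat.card (Fx ρ (g * u * g⁻¹)) = Nat.card (Fx ρ u) := by
  rw [← map_Fx]
  exact Nat.card_congr ((ρ g).submoduleMap (Fx ρ u)).toEquiv.symm

variable [Finite G]

/-- The coordinate description when the eigenspaces are lines. -/
lemma coord_case [Finite V] (hρ : Function.Injective ρ) (hH : Half ρ) {a z : G}
    (hneg : ∀ v, ρ z v = -v) (ha1 : a ≠ 1)
    {w₀ w₁ : V} (hw₀ : ρ a w₀ = w₀) (hw₁ : ρ (a * z) w₁ = w₁) (h0₀ : w₀ ≠ 0) (h0₁ : w₁ ≠ 0)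
    (hcompl : IsCompl (Fx ρ a) (Fx ρ (a * z))) (hcV : Nat.card V = q ^ 2)
    (hKey : ∀ w w', ρ a w = w → ρ (a * z) w' = w' → w ≠ 0 → w' ≠ 0 →
      ∃ g : G, g * a * g⁻¹ = a * z ∧ ρ g w = w' ∧ ρ g w' = w)
    (hcases : ∀ g : G, g * a * g⁻¹ = a ∨ g * a * g⁻¹ = a * z)
    (hmap0 : ∀ g : G, g * a * g⁻¹ = a * z → ∀ w, ρ a w = w → ρ (a * z) (ρ g w) = ρ g w)
    (hmap1 : ∀ g : G, g * a * g⁻¹ = a * z → ∀ w, ρ (a * z) w = w → ρ a (ρ g w) = ρ g w)
    (hmap0' : ∀ g : G, g * a * g⁻¹ = a → ∀ w, ρ a w = w → ρ a (ρ g w) = ρ g w)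
    (hmap1' : ∀ g : G, g * a * g⁻¹ = a → ∀ w, ρ (a * z) w = w → ρ (a * z) (ρ g w) = ρ g w)
    (hconj : ∀ g h : G, g * a * g⁻¹ = a * z → h * a * h⁻¹ = a * z → (g * h) * a * (g * h)⁻¹ = a) :
    ∃ e : V ≃ₗ[ZMod q] (Fin 2 → ZMod q), ∀ f : (Fin 2 → ZMod q) ≃ₗ[ZMod q] (Fin 2 → ZMod q),
        (∃ g : G, f = e.symm.trans ((ρ g).trans e)) ↔
        ∃ a s : ZMod q, a ≠ 0 ∧ (s = 1 ∨ s = -1) ∧
          ((∀ v, f v = ![a * v 0, s * a⁻¹ * v 1]) ∨ (∀ v, f v = ![s * a⁻¹ * v 1, a * v 0])) := by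
  classical
  have hdisj : ∀ x : V, ρ a x = x → ρ (a * z) x = x → x = 0 := fun x h1 h2 =>
    (Submodule.disjoint_def.1 hcompl.disjoint) x h1 h2
  have hsub0 : ∀ x : ZMod q, ρ a (x • w₀) = x • w₀ := fun x => by rw [map_smul, hw₀]
  have hsub1 : ∀ x : ZMod q, ρ (a * z) (x • w₁) = x • w₁ := fun x => by rw [map_smul, hw₁]
  let ψ : (Fin 2 → ZMod q) →ₗ[ZMod q] V :=
    (LinearMap.proj 0).smulRight w₀ + (LinearMap.proj 1).smulRight w₁
  have hψ : ∀ x, ψ x = x 0 • w₀ + x 1 • w₁ := fun x => by simp [ψ]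
  have hsplit : ∀ x y : ZMod q, x • w₀ + y • w₁ = 0 → x = 0 ∧ y = 0 := by
    intro x y hxy
    have h1 : x • w₀ = -(y • w₁) := eq_neg_of_add_eq_zero_left hxy
    have h2 : x • w₀ = 0 := by
      apply hdisj _ (hsub0 x)
      rw [h1, map_neg, hsub1]
    have h3 : y • w₁ = 0 := by
      rw [h2, zero_add] at hxy
      exact hxy
    exact ⟨(smul_eq_zero.1 h2).resolve_right h0₀, (smul_eq_zero.1 h3).resolve_right h0₁⟩
  have hinj : Function.Injective ψ := by
    rw [injective_iff_map_eq_zero]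
    intro x hx
    rw [hψ] at hx
    obtain ⟨h1, h2⟩ := hsplit _ _ hx
    funext i
    fin_cases i
    · exact h1
    · exact h2
  have hbij : Function.Bijective ψ := by
    apply hinj.bijective_of_nat_card_le
    rw [hcV, Nat.card_fun, Nat.card_fin, Nat.card_zmod]
  let E : (Fin 2 → ZMod q) ≃ₗ[ZMod q] V := LinearEquiv.ofBijective ψ hbij
  have hE : ∀ x, E x = x 0 • w₀ + x 1 • w₁ := fun x => hψ x
  have hall : ∀ v : V, ∃ x y : ZMod q, v = x • w₀ + y • w₁ := by
    intro v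
    refine ⟨(E.symm v) 0, (E.symm v) 1, ?_⟩
    rw [← hE, LinearEquiv.apply_symm_apply]
  have hW₀ : ∀ v, ρ a v = v → ∃ α : ZMod q, v = α • w₀ := by
    intro v hv
    obtain ⟨x, y, hxy⟩ := hall v
    refine ⟨x, ?_⟩
    have h1 : y • w₁ = v - x • w₀ := by rw [hxy]; abel
    have h2 : y • w₁ = 0 := by
      apply hdisj _ _ (hsub1 y)
      rw [h1, map_sub, hv, hsub0]
    rw [hxy, h2, add_zero]
  have hW₁ : ∀ v, ρ (a * z) v = v → ∃ β : ZMod q, v = β • w₁ := by
    intro v hv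
    obtain ⟨x, y, hxy⟩ := hall v
    refine ⟨y, ?_⟩
    have h1 : x • w₀ = v - y • w₁ := by rw [hxy]; abel
    have h2 : x • w₀ = 0 := by
      apply hdisj _ (hsub0 x)
      rw [h1, map_sub, hv, hsub1]
    rw [hxy, h2, zero_add]
  have hext : ∀ g g' : G, ρ g w₀ = ρ g' w₀ → ρ g w₁ = ρ g' w₁ → g = g' := by
    intro g g' h1 h2
    apply hρ
    ext v
    obtain ⟨x, y, rfl⟩ := hall v
    simp only [map_add, map_smul, h1, h2]
  have hne : ∀ (g : G) (w : V), w ≠ 0 → ρ g w ≠ 0 := fun g w hw h =>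
    hw ((LinearEquiv.map_eq_zero_iff _).1 h)
  obtain ⟨τ, hτa, hτ0, hτ1⟩ := hKey w₀ w₁ hw₀ hw₁ h0₀ h0₁
  have hd : ∀ r : ZMod q, r ≠ 0 → ∃ d : G, ρ d w₀ = r⁻¹ • w₀ ∧ ρ d w₁ = r • w₁ := by
    intro r hr
    obtain ⟨g, -, hg0, hg1⟩ := hKey w₀ (r • w₁) hw₀ (hsub1 r) h0₀ (smul_ne_zero hr h0₁)
    refine ⟨g * τ, ?_, ?_⟩
    · rw [map_mul, LinearEquiv.mul_apply, hτ0]
      rw [map_smul] at hg1
      rw [← hg1, smul_smul, inv_mul_cancel₀ hr, one_smul]
    · rw [map_mul, LinearEquiv.mul_apply, hτ1, hg0]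
  have hzw : ∀ v, ρ (a * z) v = - ρ a v := fun v => by
    rw [map_mul, LinearEquiv.mul_apply, hneg, map_neg]
  have haw₁ : ρ a w₁ = - w₁ := by
    have := hzw w₁
    rw [hw₁] at this
    nth_rewrite 2 [this]
    rw [neg_neg]
  have hazw₀ : ρ (a * z) w₀ = - w₀ := by rw [hzw, hw₀]
  -- stabilizers
  have hSt : ∀ x : G, ρ x w₀ = w₀ → x = 1 ∨ x = a := by
    have hu0 : w₀ + w₁ ≠ 0 := by
      intro h
      have h1 := hsplit 1 1 (by simpa using h)
      exact one_ne_zero h1.1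
    have hStu : ∀ x ∈ St ρ (w₀ + w₁), x = 1 ∨ x = τ := by
      intro x hx
      have hx' : ρ x w₀ + ρ x w₁ = w₀ + w₁ := by
        have := mem_St.1 hx
        rwa [map_add] at this
      rcases hcases x with h | h
      · left
        have h1 : ρ x w₀ - w₀ = w₁ - ρ x w₁ := by
          rw [sub_eq_sub_iff_add_eq_add, hx', add_comm]
        have h2 : ρ x w₀ - w₀ = 0 := by
          apply hdisj
          · rw [map_sub, hmap0' x h w₀ hw₀, hw₀]
          · rw [h1, map_sub, hmap1' x h w₁ hw₁, hw₁]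
        have h3 : ρ x w₀ = w₀ := sub_eq_zero.1 h2
        have h4 : ρ x w₁ = w₁ := by
          rw [h3] at hx'
          exact add_left_cancel hx'
        apply hext
        · simp [h3]
        · simp [h4]
      · right
        have h1 : ρ x w₁ - w₀ = w₁ - ρ x w₀ := by
          rw [sub_eq_sub_iff_add_eq_add, add_comm, hx', add_comm]
        have h2 : ρ x w₁ - w₀ = 0 := by
          apply hdisj
          · rw [map_sub, hmap1 x h w₁ hw₁, hw₀]
          · rw [h1, map_sub, hmap0 x h w₀ hw₀, hw₁]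
        have h3 : ρ x w₁ = w₀ := sub_eq_zero.1 h2
        have h4 : ρ x w₀ = w₁ := by
          rw [h3, add_comm] at hx'
          exact add_left_cancel hx'
        apply hext
        · rw [h4, hτ0]
        · rw [h3, hτ1]
    have hcu : Nat.card (St ρ (w₀ + w₁)) ≤ 2 := by
      have h1 : (St ρ (w₀ + w₁) : Set G) ⊆ ({1, τ} : Set G) := by
        intro x hx
        simpa using hStu x hx
      have h2 := Set.ncard_le_ncard h1 (Set.toFinite _)
      rw [← Nat.card_coe_set_eq] at h2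
      calc Nat.card (St ρ (w₀ + w₁)) ≤ ({1, τ} : Set G).ncard := h2
        _ ≤ 2 := by
          have h3 := Set.ncard_insert_le (1 : G) ({τ} : Set G)
          rw [Set.ncard_singleton] at h3
          exact h3
    have hc0 : Nat.card (St ρ w₀) ≤ 2 := by
      rw [hH w₀ (w₀ + w₁) h0₀ hu0]
      exact hcu
    intro x hx
    by_contra hcon
    push Not at hcon
    have h1 : ({1, a, x} : Set G) ⊆ (St ρ w₀ : Set G) := by
      intro y hy
      simp only [Set.mem_insert_iff, Set.mem_singleton_iff] at hy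
      rcases hy with rfl | rfl | rfl
      · exact (St ρ w₀).one_mem
      · exact hw₀
      · exact hx
    have h2 := Set.ncard_le_ncard h1 (Set.toFinite _)
    rw [Set.ncard_eq_three.2 ⟨1, a, x, ha1.symm, hcon.1.symm, hcon.2.symm, rfl⟩] at h2
    rw [← Nat.card_coe_set_eq] at h2
    have h3 : Nat.card (St ρ w₀ : Set G) = Nat.card (St ρ w₀) := rfl
    omega
  -- diagonal elements
  have hdiag : ∀ (h : G) (α β : ZMod q), ρ h w₀ = α • w₀ → ρ h w₁ = β • w₁ →
      α ≠ 0 ∧ (α * β = 1 ∨ α * β = -1) := by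
    intro h α β h1 h2
    have hα : α ≠ 0 := by
      rintro rfl
      rw [zero_smul] at h1
      exact hne h w₀ h0₀ h1
    refine ⟨hα, ?_⟩
    obtain ⟨d, hd0, hd1⟩ := hd α hα
    have h3 : ρ (h * d) w₀ = w₀ := by
      rw [map_mul, LinearEquiv.mul_apply, hd0, map_smul, h1, smul_smul, inv_mul_cancel₀ hα,
        one_smul]
    have h4 : ρ (h * d) w₁ = (α * β) • w₁ := by
      rw [map_mul, LinearEquiv.mul_apply, hd1, map_smul, h2, smul_smul]
    have h1w : ∀ c : ZMod q, c • w₁ = w₁ → c = 1 := by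
      intro c hc
      have : (c - 1) • w₁ = 0 := by rw [sub_smul, hc, one_smul, sub_self]
      exact sub_eq_zero.1 ((smul_eq_zero.1 this).resolve_right h0₁)
    rcases hSt _ h3 with h5 | h5
    · left
      rw [h5, map_one] at h4
      exact h1w _ h4.symm
    · right
      rw [h5, haw₁] at h4
      have : (-(α * β)) • w₁ = w₁ := by
        rw [neg_smul, ← h4, neg_neg]
      have h6 := h1w _ this
      rw [← h6, neg_neg]
  have hcomp : ∀ (g : G) (x : Fin 2 → ZMod q),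
      E ((E.symm.symm.trans ((ρ g).trans E.symm)) x) = ρ g (E x) := by
    intro g x
    simp
  have hfeq : ∀ (g : G) (f : (Fin 2 → ZMod q) ≃ₗ[ZMod q] (Fin 2 → ZMod q)),
      (∀ x, E (f x) = ρ g (E x)) → f = E.symm.symm.trans ((ρ g).trans E.symm) := by
    intro g f hf
    ext1 x
    apply E.injective
    rw [hf]
    simp
  refine ⟨E.symm, fun f => ⟨?_, ?_⟩⟩
  · rintro ⟨g, rfl⟩
    rcases hcases g with h | h
    · obtain ⟨α, hα⟩ := hW₀ _ (hmap0' g h w₀ hw₀)
      obtain ⟨β, hβ⟩ := hW₁ _ (hmap1' g h w₁ hw₁)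
      obtain ⟨hα0, hs⟩ := hdiag g α β hα hβ
      refine ⟨α, α * β, hα0, hs, Or.inl fun v => ?_⟩
      apply E.injective
      rw [hcomp, hE, hE, map_add, map_smul, map_smul, hα, hβ]
      have h7 : α * β * α⁻¹ = β := by field_simp
      simp only [Matrix.cons_val_zero, Matrix.cons_val_one, h7, smul_smul]
      rw [mul_comm α, mul_comm β]
    · obtain ⟨β, hβ⟩ := hW₁ _ (hmap0 g h w₀ hw₀)
      obtain ⟨α, hα⟩ := hW₀ _ (hmap1 g h w₁ hw₁)
      have h1 : ρ (g * τ) w₀ = α • w₀ := by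
        rw [map_mul, LinearEquiv.mul_apply, hτ0, hα]
      have h2 : ρ (g * τ) w₁ = β • w₁ := by
        rw [map_mul, LinearEquiv.mul_apply, hτ1, hβ]
      obtain ⟨hα0, hs⟩ := hdiag _ α β h1 h2
      have hβ0 : β ≠ 0 := by
        rintro rfl
        rw [zero_smul] at hβ
        exact hne g w₀ h0₀ hβ
      refine ⟨β, α * β, hβ0, hs, Or.inr fun v => ?_⟩
      apply E.injective
      rw [hcomp, hE, hE, map_add, map_smul, map_smul, hα, hβ]
      have h7 : α * β * β⁻¹ = α := by field_simp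
      simp only [Matrix.cons_val_zero, Matrix.cons_val_one, h7, smul_smul]
      rw [add_comm, mul_comm α, mul_comm β]
  · rintro ⟨A, s, hA, hs, hf⟩
    have hAi : A⁻¹ ≠ 0 := inv_ne_zero hA
    rcases hf with hf | hf
    · obtain ⟨g, hg0, hg1⟩ : ∃ g : G, ρ g w₀ = A • w₀ ∧ ρ g w₁ = (s * A⁻¹) • w₁ := by
        obtain ⟨d, hd0, hd1⟩ := hd A⁻¹ hAi
        rw [inv_inv] at hd0
        rcases hs with rfl | rfl
        · exact ⟨d, hd0, by rw [hd1, one_mul]⟩
        · refine ⟨a * d, ?_, ?_⟩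
          · rw [map_mul, LinearEquiv.mul_apply, hd0, map_smul, hw₀]
          · rw [map_mul, LinearEquiv.mul_apply, hd1, map_smul, haw₁, smul_neg, neg_mul, one_mul,
              neg_smul]
      refine ⟨g, hfeq g f fun x => ?_⟩
      rw [hf, hE, hE, map_add, map_smul, map_smul, hg0, hg1]
      simp only [Matrix.cons_val_zero, Matrix.cons_val_one, smul_smul]
      rw [mul_comm A, mul_comm (s * A⁻¹)]
    · obtain ⟨g, hg0, hg1⟩ : ∃ g : G, ρ g w₀ = A • w₁ ∧ ρ g w₁ = (s * A⁻¹) • w₀ := by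
        obtain ⟨d, hd0, hd1⟩ := hd A hA
        rcases hs with rfl | rfl
        · refine ⟨d * τ, ?_, ?_⟩
          · rw [map_mul, LinearEquiv.mul_apply, hτ0, hd1]
          · rw [map_mul, LinearEquiv.mul_apply, hτ1, hd0, one_mul]
        · refine ⟨(a * z) * d * τ, ?_, ?_⟩
          · rw [map_mul, LinearEquiv.mul_apply, hτ0, map_mul, LinearEquiv.mul_apply, hd1, map_smul,
              hw₁]
          · rw [map_mul, LinearEquiv.mul_apply, hτ1, map_mul, LinearEquiv.mul_apply, hd0, map_smul,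
              hazw₀, smul_neg, neg_mul, one_mul, neg_smul]
      refine ⟨g, hfeq g f fun x => ?_⟩
      rw [hf, hE, hE, map_add, map_smul, map_smul, hg0, hg1]
      simp only [Matrix.cons_val_zero, Matrix.cons_val_one, smul_smul]
      rw [add_comm, mul_comm A, mul_comm (s * A⁻¹)]

end E4

section E4Main

variable {q : ℕ} [Fact q.Prime] {V : Type*} [AddCommGroup V] [Module (ZMod q) V] [Finite V]
  [Nontrivial V] {G : Type*} [Group G] [Finite G] {ρ : G →* (V ≃ₗ[ZMod q] V)}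

omit [Fact q.Prime] [AddCommGroup V] [Module (ZMod q) V] [Finite V] [Nontrivial V] in
lemma mem_zpowers_two {z y : G} (hz : orderOf z = 2) (hy : y ∈ Subgroup.zpowers z) :
    y = 1 ∨ y = z := by
  obtain ⟨n, rfl⟩ := (mem_powers_iff_mem_zpowers).2 hy
  have h1 : z ^ n = z ^ (n % 2) := by
    conv_lhs => rw [← pow_mod_orderOf, hz]
  show z ^ n = 1 ∨ z ^ n = z
  rcases Nat.mod_two_eq_zero_or_one n with h | h
  · left
    rw [h1, h, pow_zero]
  · right
    rw [h1, h, pow_one]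

/-- The case of a normal four-group. -/
theorem main_E4 (hG : IsPGroup 2 G) (hρ : Function.Injective ρ) (hH : Half ρ) (hns : ¬ Semi ρ)
    (hp : ((2 : ℕ) : ZMod q) ≠ 0) {z a : G} (hz : z ∈ Subgroup.center G) (hzp : orderOf z = 2)
    (hap : a ^ 2 = 1) (haz : a ∉ Subgroup.zpowers z)
    (hcomm : ∀ g : G, ⁅a⁻¹, g⁆ ∈ Subgroup.zpowers z) :
    (Nat.card V = 81 ∧ q = 3) ∨ (Nat.card V = q ^ 2 ∧ (∃ m : ℕ, q = 2 ^ m + 1) ∧
      ∃ e : V ≃ₗ[ZMod q] (Fin 2 → ZMod q), ∀ f : (Fin 2 → ZMod q) ≃ₗ[ZMod q] (Fin 2 → ZMod q),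
        (∃ g : G, f = e.symm.trans ((ρ g).trans e)) ↔
        ∃ a s : ZMod q, a ≠ 0 ∧ (s = 1 ∨ s = -1) ∧
          ((∀ v, f v = ![a * v 0, s * a⁻¹ * v 1]) ∨ (∀ v, f v = ![s * a⁻¹ * v 1, a * v 0]))) := by
  classical
  have hqp : q.Prime := Fact.out
  have hq2 : (2 : ZMod q) ≠ 0 := by exact_mod_cast hp
  have hqne : q ≠ 2 := by
    rintro rfl
    exact hp (ZMod.natCast_self 2)
  have hqo : Odd q := hqp.odd_of_ne_two hqne
  have hzp1 : z ^ 2 = 1 := by rw [← hzp]; exact pow_orderOf_eq_one z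
  have hz1 : z ≠ 1 := by
    rintro rfl
    simp at hzp
  have hc := zpowers_central hz
  have hyp := zpowers_pow hzp
  have hT0 : ∀ y ∈ Subgroup.zpowers z, y ≠ 1 → ∀ v, T ρ 2 y v = 0 := fun y hy hy1 v =>
    T_zero hρ hH hns hp (hc y hy) hy1 (hyp y hy) v
  have hneg : ∀ v, ρ z v = -v := by
    intro v
    have h1 := hT0 z (Subgroup.mem_zpowers z) hz1 v
    rw [T_apply] at h1
    simp only [Finset.sum_range_succ, Finset.sum_range_zero, pow_zero, pow_one, zero_add, map_one,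
      LinearEquiv.coe_one, id_eq] at h1
    exact eq_neg_of_add_eq_zero_right h1
  have ha1 : a ≠ 1 := by
    rintro rfl
    exact haz (Subgroup.one_mem _)
  have hcases : ∀ g : G, g * a * g⁻¹ = a ∨ g * a * g⁻¹ = a * z := by
    intro g
    rw [conj_eq_comm]
    rcases mem_zpowers_two hzp (hcomm g) with h | h
    · left; rw [h, mul_one]
    · right; rw [h]
  have hcompl := compl_inv (ρ := ρ) hq2 hneg hap
  have hKey : ∀ w w', ρ a w = w → ρ (a * z) w' = w' → w ≠ 0 → w' ≠ 0 →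
      ∃ g : G, g * a * g⁻¹ = a * z ∧ ρ g w = w' ∧ ρ g w' = w := by
    intro w w' hw hw' h0 h0'
    obtain ⟨g, h1, -, h2, h3⟩ := key hH hp (Subgroup.zpowers z) hc hT0
      (fun g => ⟨⁅a⁻¹, g⁆, hcomm g, conj_eq_comm a g⟩) (Subgroup.mem_zpowers z) hz1 hw hw' h0 h0'
    exact ⟨g, h1, h2, h3⟩
  have hzcomm : ∀ g : G, g * z = z * g := hc z (Subgroup.mem_zpowers z)
  have hzz : z * z = 1 := by rw [← pow_two]; exact hzp1
  have hswap1 : ∀ g : G, g * a * g⁻¹ = a * z → g * (a * z) * g⁻¹ = a := by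
    intro g h
    have h1 : g * (a * z) * g⁻¹ = (g * a * g⁻¹) * z := by
      have h2 : z * g⁻¹ = g⁻¹ * z := (hzcomm g⁻¹).symm
      calc g * (a * z) * g⁻¹ = g * a * (z * g⁻¹) := by group
        _ = g * a * (g⁻¹ * z) := by rw [h2]
        _ = _ := by group
    rw [h1, h, mul_assoc, hzz, mul_one]
  have hgen : ∀ (g u u' : G), g * u * g⁻¹ = u' → ∀ w, ρ u w = w → ρ u' (ρ g w) = ρ g w := by
    intro g u u' h w hw
    subst h
    rw [← LinearEquiv.mul_apply, ← map_mul]
    have : g * u * g⁻¹ * g = g * u := by group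
    rw [this, map_mul, LinearEquiv.mul_apply, hw]
  have hmap0 : ∀ g : G, g * a * g⁻¹ = a * z → ∀ w, ρ a w = w → ρ (a * z) (ρ g w) = ρ g w :=
    fun g h w hw => hgen g a _ h w hw
  have hmap1 : ∀ g : G, g * a * g⁻¹ = a * z → ∀ w, ρ (a * z) w = w → ρ a (ρ g w) = ρ g w :=
    fun g h w hw => hgen g _ a (hswap1 g h) w hw
  have hmap0' : ∀ g : G, g * a * g⁻¹ = a → ∀ w, ρ a w = w → ρ a (ρ g w) = ρ g w :=
    fun g h w hw => hgen g a a h w hw
  have hfix1 : ∀ g : G, g * a * g⁻¹ = a → g * (a * z) * g⁻¹ = a * z := by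
    intro g h
    have h1 : g * (a * z) * g⁻¹ = (g * a * g⁻¹) * z := by
      have h2 : z * g⁻¹ = g⁻¹ * z := (hzcomm g⁻¹).symm
      calc g * (a * z) * g⁻¹ = g * a * (z * g⁻¹) := by group
        _ = g * a * (g⁻¹ * z) := by rw [h2]
        _ = _ := by group
    rw [h1, h]
  have hmap1' : ∀ g : G, g * a * g⁻¹ = a → ∀ w, ρ (a * z) w = w → ρ (a * z) (ρ g w) = ρ g w :=
    fun g h w hw => hgen g _ _ (hfix1 g h) w hw
  obtain ⟨g₁, hg₁⟩ : ∃ g₁ : G, g₁ * a * g₁⁻¹ = a * z := by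
    obtain ⟨g, hg⟩ := exists_noncentral hρ hH hns hp hz hzp hap haz
    exact ⟨g, (hcases g).resolve_left hg⟩
  have hne : ∀ (g : G) (w : V), w ≠ 0 → ρ g w ≠ 0 := fun g w hw h =>
    hw ((LinearEquiv.map_eq_zero_iff _).1 h)
  obtain ⟨w₀, w₁, hw₀, hw₁, h0₀, h0₁⟩ : ∃ w₀ w₁ : V, ρ a w₀ = w₀ ∧ ρ (a * z) w₁ = w₁ ∧ w₀ ≠ 0 ∧
      w₁ ≠ 0 := by
    obtain ⟨v, hv⟩ := exists_ne (0 : V)
    have hsup : v ∈ Fx ρ a ⊔ Fx ρ (a * z) := by
      rw [hcompl.sup_eq_top]
      trivial
    obtain ⟨x, hx, y, hy, rfl⟩ := Submodule.mem_sup.1 hsup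
    by_cases hx0 : x = 0
    · have hy0 : y ≠ 0 := by
        rintro rfl
        exact hv (by rw [hx0, add_zero])
      exact ⟨ρ g₁ y, y, hmap1 g₁ hg₁ y hy, hy, hne _ _ hy0, hy0⟩
    · exact ⟨x, ρ g₁ x, hx, hmap0 g₁ hg₁ x hx, hx0, hne _ _ hx0⟩
  set s := Nat.card (Fx ρ a) with hs
  have hcard1 : Nat.card (Fx ρ (a * z)) = s := by
    rw [← hg₁, card_Fx_conj]
  have hcV : Nat.card V = s * s := by
    rw [card_of_compl hcompl, hcard1]
  have hs2 : 2 ≤ s := by
    have : Nontrivial (Fx ρ a) :=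
      ⟨⟨⟨w₀, hw₀⟩, 0, fun h => h0₀ (congrArg Subtype.val h)⟩⟩
    exact Finite.one_lt_card
  -- the orbit of `w₀`
  have horb : {u : V | ∃ g : G, ρ g w₀ = u} =
      ((Fx ρ a : Set V) \ {0}) ∪ ((Fx ρ (a * z) : Set V) \ {0}) := by
    ext u
    constructor
    · rintro ⟨g, rfl⟩
      rcases hcases g with h | h
      · left
        exact ⟨hmap0' g h w₀ hw₀, hne g w₀ h0₀⟩
      · right
        exact ⟨hmap0 g h w₀ hw₀, hne g w₀ h0₀⟩
    · rintro (⟨hu, hu0⟩ | ⟨hu, hu0⟩)
      · obtain ⟨g, -, hg, -⟩ := hKey w₀ w₁ hw₀ hw₁ h0₀ h0₁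
        obtain ⟨g', -, hg', -⟩ := hKey u w₁ hu hw₁ hu0 h0₁
        refine ⟨g'⁻¹ * g, ?_⟩
        rw [map_mul, LinearEquiv.mul_apply, hg]
        exact inv_apply_of_fix hg'
      · obtain ⟨g, -, hg, -⟩ := hKey w₀ u hw₀ hu h0₀ hu0
        exact ⟨g, hg⟩
  have hdisjS : Disjoint ((Fx ρ a : Set V) \ {0}) ((Fx ρ (a * z) : Set V) \ {0}) := by
    rw [Set.disjoint_left]
    rintro u ⟨hu, hu0⟩ ⟨hu', -⟩
    exact hu0 ((Submodule.disjoint_def.1 hcompl.disjoint) u hu hu')
  have hind : (St ρ w₀).index = (s - 1) + (s - 1) := by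
    rw [index_St, horb, Nat.card_coe_set_eq, Set.ncard_union_eq hdisjS (Set.toFinite _) (Set.toFinite _),
      Set.ncard_sdiff_singleton_of_mem (Submodule.zero_mem _),
      Set.ncard_sdiff_singleton_of_mem (Submodule.zero_mem _),
      ← Nat.card_coe_set_eq, ← Nat.card_coe_set_eq]
    show Nat.card (Fx ρ a) - 1 + (Nat.card (Fx ρ (a * z)) - 1) = _
    rw [hcard1]
  obtain ⟨N, hN⟩ := (IsPGroup.iff_card).1 hG
  have hdvd : (St ρ w₀).index ∣ 2 ^ N := by
    rw [← hN]
    exact Subgroup.index_dvd_card _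
  obtain ⟨M, -, hM⟩ := (Nat.dvd_prime_pow Nat.prime_two).1 hdvd
  have hM1 : 1 ≤ M := by
    by_contra h
    have : M = 0 := by omega
    rw [this, pow_zero, hind] at hM
    omega
  obtain ⟨M', rfl⟩ : ∃ M', M = M' + 1 := ⟨M - 1, by omega⟩
  have hsM : s = 2 ^ M' + 1 := by
    rw [hind, pow_succ] at hM
    omega
  obtain ⟨k, hk⟩ : ∃ k, s = q ^ k := by
    have : Module.Finite (ZMod q) (Fx ρ a) := Module.Finite.of_finite
    refine ⟨Module.finrank (ZMod q) (Fx ρ a), ?_⟩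
    have h1 := Module.natCard_eq_pow_finrank (K := ZMod q) (V := Fx ρ a)
    rwa [Nat.card_zmod] at h1
  have hk1 : 1 ≤ k := by
    by_contra h
    have : k = 0 := by omega
    rw [this, pow_zero] at hk
    omega
  rcases pow_eq_two_pow_add_one hqp hqo hk1 (by rw [← hk]; exact hsM) with h1 | ⟨h1, h2⟩
  · right
    subst h1
    rw [pow_one] at hk
    have hVq : Nat.card V = q ^ 2 := by rw [hcV, hk, pow_two]
    refine ⟨hVq, ⟨M', by rw [← hk]; exact hsM⟩, ?_⟩
    refine coord_case hρ hH hneg ha1 hw₀ hw₁ h0₀ h0₁ hcompl hVq hKey hcases hmap0 hmap1 hmap0' hmap1' ?_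
    intro g h h1 h2
    have h3 : (g * h) * a * (g * h)⁻¹ = g * (h * a * h⁻¹) * g⁻¹ := by group
    rw [h3, h2]
    exact hswap1 g h1
  · left
    subst h1 h2
    refine ⟨?_, rfl⟩
    rw [hcV, hk]
    norm_num

end E4Main

section DS

variable {G : Type*} [Group G] [Finite G]

/-- The relevant facts about the central involution in a group with a cyclic maximal subgroup. -/
lemma orderOf_z {n : ℕ} (hn : 2 ≤ n) {r : G} (hr : orderOf r = 2 ^ n) :
    orderOf (r ^ (2 ^ (n - 1))) = 2 := by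
  rw [orderOf_pow_of_dvd (by positivity) (by rw [hr]; exact pow_dvd_pow 2 (by omega)), hr]
  obtain ⟨m, rfl⟩ : ∃ m, n = m + 1 := ⟨n - 1, by omega⟩
  simp only [Nat.add_sub_cancel]
  rw [pow_succ]
  exact Nat.mul_div_cancel_left _ (by positivity)

lemma z_eq_h_sq {n : ℕ} (hn : 2 ≤ n) (r : G) :
    r ^ (2 ^ (n - 1)) = r ^ (2 ^ (n - 2)) * r ^ (2 ^ (n - 2)) := by
  rw [← pow_add]
  congr 1
  obtain ⟨m, rfl⟩ : ∃ m, n = m + 2 := ⟨n - 2, by omega⟩
  simp only [Nat.add_sub_cancel]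
  rw [show m + 2 - 1 = m + 1 by omega, pow_succ]
  ring

lemma conj_of_not_mem {r y h t : G} (hidx : (Subgroup.zpowers r).index = 2)
    (hy : y ∉ Subgroup.zpowers r) (hh : h ∈ Subgroup.zpowers r) (hrel : y * h * y⁻¹ = h⁻¹)
    (ht : t ∉ Subgroup.zpowers r) : t * h * t⁻¹ = h⁻¹ := by
  have h1 : y⁻¹ * t ∈ Subgroup.zpowers r := by
    rw [Subgroup.mul_mem_iff_of_index_two hidx]
    exact ⟨fun h => absurd ((Subgroup.inv_mem_iff _).1 h) hy,
      fun h => absurd h ht⟩
  set x := y⁻¹ * t with hx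
  have ht' : t = y * x := by rw [hx]; group
  have hcomm : x * h = h * x := by
    obtain ⟨i, hi⟩ := Subgroup.mem_zpowers_iff.1 h1
    obtain ⟨j, rfl⟩ := Subgroup.mem_zpowers_iff.1 hh
    rw [← hi, ← zpow_add, ← zpow_add, add_comm]
  rw [ht']
  calc y * x * h * (y * x)⁻¹ = y * (x * h) * x⁻¹ * y⁻¹ := by group
    _ = y * h * y⁻¹ := by rw [hcomm]; group
    _ = h⁻¹ := hrel

lemma z_central {n : ℕ} (hn : 2 ≤ n) {r y : G} (hr : orderOf r = 2 ^ n)
    (hidx : (Subgroup.zpowers r).index = 2) (hy : y ∉ Subgroup.zpowers r)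
    (hrel : y * r ^ (2 ^ (n - 2)) * y⁻¹ = (r ^ (2 ^ (n - 2)))⁻¹) :
    r ^ (2 ^ (n - 1)) ∈ Subgroup.center G := by
  have hz2 : r ^ (2 ^ (n - 1)) * r ^ (2 ^ (n - 1)) = 1 := by
    have h0 := pow_orderOf_eq_one (r ^ (2 ^ (n - 1)))
    rw [orderOf_z hn hr, pow_two] at h0
    exact h0
  rw [Subgroup.mem_center_iff]
  intro g
  by_cases hg : g ∈ Subgroup.zpowers r
  · obtain ⟨i, rfl⟩ := Subgroup.mem_zpowers_iff.1 hg
    exact ((Commute.refl r).zpow_left i).pow_right _
  · have h1 := conj_of_not_mem hidx hy (Subgroup.npow_mem_zpowers r (2 ^ (n - 2))) hrel hg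
    set h := r ^ (2 ^ (n - 2)) with hh
    have h2 : g * (h * h) * g⁻¹ = (h * h)⁻¹ := by
      calc g * (h * h) * g⁻¹ = (g * h * g⁻¹) * (g * h * g⁻¹) := by group
        _ = (h * h)⁻¹ := by rw [h1]; group
    have h3 : r ^ (2 ^ (n - 1)) = h * h := z_eq_h_sq hn r
    rw [h3] at hz2 ⊢
    have h4 : (h * h)⁻¹ = h * h := inv_eq_of_mul_eq_one_left hz2
    rw [h4] at h2
    rwa [mul_inv_eq_iff_eq_mul] at h2

/-- Involutions of the cyclic subgroup. -/
lemma inv_in_R {n : ℕ} (hn : 2 ≤ n) {r u : G} (hr : orderOf r = 2 ^ n)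
    (hu : u ∈ Subgroup.zpowers r) (hu2 : u ^ 2 = 1) : u = 1 ∨ u = r ^ (2 ^ (n - 1)) := by
  obtain ⟨i, hi⟩ := (mem_powers_iff_mem_zpowers).2 hu
  have hi' : r ^ i = u := hi
  subst hi'
  have hu2' := hu2
  rw [← pow_mul] at hu2'
  have h1 := orderOf_dvd_of_pow_eq_one hu2'
  rw [hr] at h1
  obtain ⟨m, rfl⟩ : ∃ m, n = m + 1 := ⟨n - 1, by omega⟩
  rw [pow_succ, Nat.mul_dvd_mul_iff_right (by norm_num)] at h1
  obtain ⟨j, rfl⟩ := h1
  have h2 : r ^ (2 ^ m * j) ∈ Subgroup.zpowers (r ^ (2 ^ (m + 1 - 1))) := by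
    rw [pow_mul]
    exact Subgroup.npow_mem_zpowers _ _
  exact mem_zpowers_two (orderOf_z hn hr) h2

lemma z_mem_zpowers {n : ℕ} (hn : 2 ≤ n) (hG : IsPGroup 2 G) {r x : G} (hr : orderOf r = 2 ^ n)
    (hx : x ∈ Subgroup.zpowers r) (hx1 : x ≠ 1) : r ^ (2 ^ (n - 1)) ∈ Subgroup.zpowers x := by
  obtain ⟨j, hj⟩ := (IsPGroup.iff_orderOf).1 hG x
  have hj0 : j ≠ 0 := by
    rintro rfl
    rw [pow_zero, orderOf_eq_one_iff] at hj
    exact hx1 hj
  obtain ⟨j', rfl⟩ : ∃ j', j = j' + 1 := ⟨j - 1, by omega⟩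
  have h1 : orderOf (x ^ (orderOf x / 2)) = 2 :=
    orderOf_pow_orderOf_div (by rw [hj]; positivity) (by rw [hj]; exact dvd_pow_self 2 (by omega))
  set u := x ^ (orderOf x / 2) with hu
  have hu2 : u ^ 2 = 1 := by rw [← h1]; exact pow_orderOf_eq_one u
  have humem : u ∈ Subgroup.zpowers r := Subgroup.pow_mem _ hx _
  rcases inv_in_R hn hr humem hu2 with h2 | h2
  · rw [h2, orderOf_one] at h1
    omega
  · rw [← h2]
    exact Subgroup.npow_mem_zpowers _ _

lemma conj_zpowers_of_inv {r y u : G} (hrel : y * r * y⁻¹ = r⁻¹) (hu : u ∈ Subgroup.zpowers r) :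
    y * u * y⁻¹ = u⁻¹ := by
  obtain ⟨k, rfl⟩ := Subgroup.mem_zpowers_iff.1 hu
  rw [← conj_zpow, hrel, inv_zpow]

/-- Counting the involutions outside the cyclic subgroup. -/
lemma card_invs {r y : G} (hidx : (Subgroup.zpowers r).index = 2)
    (hy : y ∉ Subgroup.zpowers r) (X : Subgroup G) (hXR : X ≤ Subgroup.zpowers r)
    (hX : ∀ x ∈ Subgroup.zpowers r, (y * x) ^ 2 = 1 ↔ x ∈ X) :
    Nat.card {g : G // g ∉ Subgroup.zpowers r ∧ g ^ 2 = 1} = Nat.card X := by
  symm
  refine Nat.card_congr (Equiv.ofBijective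
    (fun x : X => (⟨y * x, ?_, ?_⟩ : {g : G // g ∉ Subgroup.zpowers r ∧ g ^ 2 = 1})) ⟨?_, ?_⟩)
  · intro h
    exact hy ((Subgroup.mul_mem_cancel_right _ (hXR x.2)).1 h)
  · exact (hX _ (hXR x.2)).2 x.2
  · intro a b hab
    have h1 : y * (a : G) = y * b := congrArg Subtype.val hab
    exact Subtype.ext (mul_left_cancel h1)
  · rintro ⟨g, hg, hg2⟩
    have h1 : y⁻¹ * g ∈ Subgroup.zpowers r := by
      rw [Subgroup.mul_mem_iff_of_index_two hidx]
      exact ⟨fun h => absurd ((Subgroup.inv_mem_iff _).1 h) hy, fun h => absurd h hg⟩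
    have h2 : y⁻¹ * g ∈ X := by
      rw [← hX _ h1, mul_inv_cancel_left]
      exact hg2
    refine ⟨⟨_, h2⟩, ?_⟩
    apply Subtype.ext
    show y * (y⁻¹ * g) = g
    group

variable {q : ℕ} [Fact q.Prime] {V : Type*} [AddCommGroup V] [Module (ZMod q) V] [Finite V]
  [Nontrivial V] {ρ : G →* (V ≃ₗ[ZMod q] V)}

/-- Non-trivial elements of the cyclic subgroup have no fixed vectors. -/
lemma fix_R (hG : IsPGroup 2 G) (hρ : Function.Injective ρ) (hH : Half ρ) (hns : ¬ Semi ρ)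
    (hp : ((2 : ℕ) : ZMod q) ≠ 0) {n : ℕ} (hn : 2 ≤ n) {r y : G} (hr : orderOf r = 2 ^ n)
    (hidx : (Subgroup.zpowers r).index = 2) (hy : y ∉ Subgroup.zpowers r)
    (hrel : y * r ^ (2 ^ (n - 2)) * y⁻¹ = (r ^ (2 ^ (n - 2)))⁻¹)
    {x : G} (hx : x ∈ Subgroup.zpowers r) (hx1 : x ≠ 1) {v : V} (hv : ρ x v = v) : v = 0 := by
  have hz := z_central hn hr hidx hy hrel
  have hzp := orderOf_z hn hr
  have hzn : r ^ (2 ^ (n - 1)) ≠ 1 := by
    intro h
    rw [h, orderOf_one] at hzp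
    omega
  have hzp1 : (r ^ (2 ^ (n - 1))) ^ 2 = 1 := by
    have h0 := pow_orderOf_eq_one (r ^ (2 ^ (n - 1)))
    rwa [orderOf_z hn hr] at h0
  have h1 := fix_zero hρ hH hns hp (Subgroup.mem_center_iff.1 hz) hzn hzp1
  have hzm := z_mem_zpowers hn hG hr hx hx1
  obtain ⟨k, hk⟩ := (mem_powers_iff_mem_zpowers).2 hzm
  have h2 : ρ (r ^ (2 ^ (n - 1))) v = v := by
    have hk' : x ^ k = r ^ (2 ^ (n - 1)) := hk
    rw [← hk']
    exact pow_fix hv k
  have h3 : v ∈ Fx ρ (r ^ (2 ^ (n - 1))) := h2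
  rw [h1] at h3
  exact (Submodule.mem_bot _).1 h3

lemma nontrivial_St (hH : Half ρ) (hns : ¬ Semi ρ) {v : V} (hv : v ≠ 0) :
    ∃ x : G, x ≠ 1 ∧ ρ x v = v := by
  by_contra hcon
  push Not at hcon
  apply hns
  intro w hw g hg
  have h1 : St ρ v = ⊥ := by
    rw [eq_bot_iff]
    intro x hx
    rw [Subgroup.mem_bot]
    by_contra hx1
    exact hcon x hx1 hx
  have h2 := hH w v hw hv
  rw [h1, Subgroup.card_bot] at h2
  have h3 : St ρ w = ⊥ := Subgroup.eq_bot_of_card_eq _ h2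
  have h4 : g ∈ St ρ w := hg
  rw [h3] at h4
  exact (Subgroup.mem_bot).1 h4

/-- The counting argument for dihedral-like groups. -/
theorem ds_core (hG : IsPGroup 2 G) (hρ : Function.Injective ρ) (hH : Half ρ) (hns : ¬ Semi ρ)
    (hp : ((2 : ℕ) : ZMod q) ≠ 0) {n : ℕ} (hn : 2 ≤ n) {r y : G} (hr : orderOf r = 2 ^ n)
    (hidx : (Subgroup.zpowers r).index = 2) (hy : y ∉ Subgroup.zpowers r)
    (hrel : y * r ^ (2 ^ (n - 2)) * y⁻¹ = (r ^ (2 ^ (n - 2)))⁻¹) (hy2 : y ^ 2 = 1) :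
    ∃ k s : ℕ, 1 ≤ k ∧ s = q ^ k ∧ Nat.card V = s * s ∧
      Nat.card {g : G // g ∉ Subgroup.zpowers r ∧ g ^ 2 = 1} = s + 1 := by
  classical
  have hq2 : (2 : ZMod q) ≠ 0 := by exact_mod_cast hp
  have hfix := fun {x : G} (hx : x ∈ Subgroup.zpowers r) (hx1 : x ≠ 1) {v : V} (hv : ρ x v = v) =>
    fix_R hG hρ hH hns hp hn hr hidx hy hrel hx hx1 hv
  set z := r ^ (2 ^ (n - 1)) with hzdef
  have hz : z ∈ Subgroup.center G := z_central hn hr hidx hy hrel
  have hzp : orderOf z = 2 := orderOf_z hn hr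
  have hzp1 : z ^ 2 = 1 := by
    rw [← hzp]
    exact pow_orderOf_eq_one _
  have hz1 : z ≠ 1 := by
    intro h
    rw [h, orderOf_one] at hzp
    omega
  have hneg : ∀ v, ρ z v = -v := by
    intro v
    have h1 := T_zero hρ hH hns hp (Subgroup.mem_center_iff.1 hz) hz1 hzp1 v
    rw [T_apply] at h1
    simp only [Finset.sum_range_succ, Finset.sum_range_zero, pow_zero, pow_one, zero_add, map_one,
      LinearEquiv.coe_one, id_eq] at h1
    exact eq_neg_of_add_eq_zero_right h1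
  set h := r ^ (2 ^ (n - 2)) with hh
  have hzh : z = h * h := z_eq_h_sq hn r
  have hz2 : z * z = 1 := by rw [← pow_two]; exact hzp1
  -- the fixed spaces of the relevant involutions
  have hcardt : ∀ t : G, t ∉ Subgroup.zpowers r → t ^ 2 = 1 →
      Nat.card V = Nat.card (Fx ρ t) * Nat.card (Fx ρ t) := by
    intro t ht ht2
    have h1 := conj_of_not_mem hidx hy (Subgroup.npow_mem_zpowers r (2 ^ (n - 2))) hrel ht
    have h2 : h * t * h⁻¹ = t * z := by
      have h3 : t⁻¹ = t := by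
        have : t * t = 1 := by rw [← pow_two]; exact ht2
        exact inv_eq_of_mul_eq_one_left this
      have h4 : t * h⁻¹ * t⁻¹ = h := by
        have : t * h⁻¹ * t⁻¹ = (t * h * t⁻¹)⁻¹ := by group
        rw [this, h1, inv_inv]
      have h5 : t * h⁻¹ = h * t := by
        calc t * h⁻¹ = (t * h⁻¹ * t⁻¹) * t := by group
          _ = h * t := by rw [h4]
      calc h * t * h⁻¹ = h * (t * h⁻¹) := by group
        _ = h * (h * t) := by rw [h5]
        _ = z * t := by rw [hzh]; group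
        _ = t * z := (Subgroup.mem_center_iff.1 hz t).symm
    have hc := compl_inv (ρ := ρ) hq2 hneg ht2
    rw [card_of_compl hc, ← h2, card_Fx_conj]
  set s := Nat.card (Fx ρ y) with hs
  have hcV : Nat.card V = s * s := hcardt y hy hy2
  have hsall : ∀ t : G, t ∉ Subgroup.zpowers r → t ^ 2 = 1 → Nat.card (Fx ρ t) = s := by
    intro t ht ht2
    have h1 := hcardt t ht ht2
    rw [hcV] at h1
    exact (Nat.mul_self_inj.1 h1).symm
  have hVgt : 1 < Nat.card V := Finite.one_lt_card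
  have hs2 : 2 ≤ s := by
    by_contra hcon
    have : s ≤ 1 := by omega
    have h1 : s * s ≤ 1 := by nlinarith
    omega
  obtain ⟨k, hk⟩ : ∃ k, s = q ^ k := by
    have : Module.Finite (ZMod q) (Fx ρ y) := Module.Finite.of_finite
    refine ⟨Module.finrank (ZMod q) (Fx ρ y), ?_⟩
    have h1 := Module.natCard_eq_pow_finrank (K := ZMod q) (V := Fx ρ y)
    rwa [Nat.card_zmod] at h1
  have hk1 : 1 ≤ k := by
    by_contra h
    have : k = 0 := by omega
    rw [this, pow_zero] at hk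
    omega
  refine ⟨k, s, hk1, hk, hcV, ?_⟩
  -- counting
  letI : Fintype V := Fintype.ofFinite V
  letI : Fintype G := Fintype.ofFinite G
  let I : Finset G := Finset.univ.filter fun g => g ∉ Subgroup.zpowers r ∧ g ^ 2 = 1
  let F : G → Finset V := fun t => Finset.univ.filter fun v => v ≠ 0 ∧ ρ t v = v
  have hcover : (Finset.univ.filter fun v : V => v ≠ 0) = I.biUnion F := by
    ext v
    simp only [Finset.mem_filter, Finset.mem_univ, true_and, Finset.mem_biUnion, I, F]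
    constructor
    · intro hv
      obtain ⟨x, hx1, hxv⟩ := nontrivial_St hH hns hv
      have hxR : x ∉ Subgroup.zpowers r := fun hm => hv (hfix hm hx1 hxv)
      have hx2 : x ^ 2 = 1 := by
        by_contra hne
        have hm : x ^ 2 ∈ Subgroup.zpowers r := Subgroup.sq_mem_of_index_two hidx x
        exact hv (hfix hm hne (pow_fix hxv 2))
      exact ⟨x, ⟨hxR, hx2⟩, hv, hxv⟩
    · rintro ⟨t, -, hv, -⟩
      exact hv
  have hdisj : ∀ t ∈ I, ∀ t' ∈ I, t ≠ t' → Disjoint (F t) (F t') := by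
    intro t ht t' ht' hne
    rw [Finset.disjoint_left]
    intro v hv hv'
    simp only [Finset.mem_filter, Finset.mem_univ, true_and, F] at hv hv'
    simp only [Finset.mem_filter, Finset.mem_univ, true_and, I] at ht ht'
    have hm : t * t' ∈ Subgroup.zpowers r := by
      rw [Subgroup.mul_mem_iff_of_index_two hidx]
      exact ⟨fun h => absurd h ht.1, fun h => absurd h ht'.1⟩
    have hne1 : t * t' ≠ 1 := by
      intro h
      have h1 : t⁻¹ = t := by
        have : t * t = 1 := by rw [← pow_two]; exact ht.2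
        exact inv_eq_of_mul_eq_one_left this
      have h2 : t' = t⁻¹ := eq_inv_of_mul_eq_one_right h
      rw [h1] at h2
      exact hne h2.symm
    apply hv.1
    apply hfix hm hne1
    rw [map_mul, LinearEquiv.mul_apply, hv'.2, hv.2]
  have hFcard : ∀ t ∈ I, (F t).card = s - 1 := by
    intro t ht
    simp only [Finset.mem_filter, Finset.mem_univ, true_and, I] at ht
    rw [← hsall t ht.1 ht.2]
    have h1 : ((F t : Finset V) : Set V) = (Fx ρ t : Set V) \ {0} := by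
      ext v
      simp only [F, Finset.coe_filter, Finset.mem_univ, true_and, Set.mem_sdiff,
        Set.mem_singleton_iff, Set.mem_ofPred_eq, SetLike.mem_coe, mem_Fx]
      tauto
    rw [← Set.ncard_coe_finset, h1, Set.ncard_sdiff_singleton_of_mem (Submodule.zero_mem _),
      ← Nat.card_coe_set_eq]
    rfl
  have hVcard : (Finset.univ.filter fun v : V => v ≠ 0).card = s * s - 1 := by
    rw [← hcV, Nat.card_eq_fintype_card, Finset.filter_ne', Finset.card_erase_of_mem (Finset.mem_univ _),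
      Finset.card_univ]
  rw [hcover, Finset.card_biUnion hdisj, Finset.sum_congr rfl hFcard, Finset.sum_const,
    smul_eq_mul] at hVcard
  have hIc : Nat.card {g : G // g ∉ Subgroup.zpowers r ∧ g ^ 2 = 1} = I.card := by
    rw [Nat.card_eq_fintype_card, Fintype.card_subtype]
  rw [hIc]
  obtain ⟨c, hc⟩ : ∃ c, s = c + 2 := ⟨s - 2, by omega⟩
  rw [hc] at hVcard ⊢
  simp only [show c + 2 - 1 = c + 1 by omega] at hVcard
  have h3 : (c + 2) * (c + 2) - 1 = (c + 3) * (c + 1) := by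
    have : (c + 2) * (c + 2) = (c + 3) * (c + 1) + 1 := by ring
    omega
  rw [h3] at hVcard
  exact Nat.eq_of_mul_eq_mul_right (by omega) hVcard

omit [Finite V] [Nontrivial V] [Fact q.Prime] [AddCommGroup V] [Module (ZMod q) V] in
lemma sd_rel {n : ℕ} (hn3 : 3 ≤ n) {r y : G} (hr : orderOf r = 2 ^ n)
    (h2 : y * r * y⁻¹ = r ^ (2 ^ (n - 1) - 1)) :
    y * r ^ (2 ^ (n - 2)) * y⁻¹ = (r ^ (2 ^ (n - 2)))⁻¹ := by
  rw [← conj_pow, h2, eq_inv_iff_mul_eq_one, ← pow_mul, ← pow_add]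
  obtain ⟨m, rfl⟩ : ∃ m, n = m + 3 := ⟨n - 3, by omega⟩
  rw [show m + 3 - 1 = m + 2 by omega, show m + 3 - 2 = m + 1 by omega]
  have h1 : (2 ^ (m + 2) - 1) * 2 ^ (m + 1) + 2 ^ (m + 1) = 2 ^ (m + 3) * 2 ^ m := by
    have h3 : 1 ≤ 2 ^ (m + 2) := Nat.one_le_two_pow
    obtain ⟨c, hc⟩ : ∃ c, 2 ^ (m + 2) = c + 1 := ⟨2 ^ (m + 2) - 1, by omega⟩
    have h4 : 2 ^ (m + 2) * 2 ^ (m + 1) = 2 ^ (m + 3) * 2 ^ m := by ring
    rw [← h4, hc]
    simp only [Nat.add_sub_cancel]
    ring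
  rw [h1, pow_mul, ← hr, pow_orderOf_eq_one, one_pow]

omit [Finite V] [Nontrivial V] [Fact q.Prime] [AddCommGroup V] [Module (ZMod q) V] in
lemma sd_inv {n : ℕ} (hn3 : 3 ≤ n) {r y : G} (hr : orderOf r = 2 ^ n) (hy2 : y ^ 2 = 1)
    (h2 : y * r * y⁻¹ = r ^ (2 ^ (n - 1) - 1)) (x : G) (hx : x ∈ Subgroup.zpowers r) :
    (y * x) ^ 2 = 1 ↔ x ∈ Subgroup.zpowers (r ^ 2) := by
  obtain ⟨i, hi⟩ := (mem_powers_iff_mem_zpowers).2 hx
  have hi' : r ^ i = x := hi
  subst hi'
  have h3 : y * r ^ i * y⁻¹ = (r ^ i) ^ (2 ^ (n - 1) - 1) := by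
    rw [← conj_pow, h2, ← pow_mul, ← pow_mul, mul_comm]
  have h4 : (y * r ^ i) ^ 2 = (r ^ i) ^ (2 ^ (n - 1)) := by
    have h5 : y * y = 1 := by rw [← pow_two]; exact hy2
    calc (y * r ^ i) ^ 2 = (y * r ^ i * y⁻¹) * (y * y) * r ^ i := by rw [pow_two]; group
      _ = (r ^ i) ^ (2 ^ (n - 1) - 1) * r ^ i := by rw [h3, h5, mul_one]
      _ = (r ^ i) ^ (2 ^ (n - 1)) := by
        rw [← pow_succ]
        congr 1
        have : 1 ≤ 2 ^ (n - 1) := Nat.one_le_two_pow
        omega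
  rw [h4, ← pow_mul]
  constructor
  · intro h5
    have h6 := orderOf_dvd_of_pow_eq_one h5
    rw [hr] at h6
    obtain ⟨m, rfl⟩ : ∃ m, n = m + 1 := ⟨n - 1, by omega⟩
    simp only [Nat.add_sub_cancel] at h6
    rw [pow_succ, mul_comm i] at h6
    have h7 : 2 ∣ i := Nat.dvd_of_mul_dvd_mul_left (by positivity : 0 < 2 ^ m) h6
    obtain ⟨j, rfl⟩ := h7
    rw [pow_mul]
    exact Subgroup.npow_mem_zpowers _ _
  · intro h5
    obtain ⟨j, hj⟩ := (mem_powers_iff_mem_zpowers).2 h5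
    have hj' : (r ^ 2) ^ j = r ^ i := hj
    have h6 : r ^ (i * 2 ^ (n - 1)) = ((r ^ i)) ^ (2 ^ (n - 1)) := by rw [pow_mul]
    rw [h6, ← hj', ← pow_mul, ← pow_mul]
    have h7 : 2 * (j * 2 ^ (n - 1)) = 2 ^ n * j := by
      obtain ⟨m, rfl⟩ : ∃ m, n = m + 1 := ⟨n - 1, by omega⟩
      simp only [Nat.add_sub_cancel]
      ring
    rw [h7, pow_mul, ← hr, pow_orderOf_eq_one, one_pow]

end DS

section Final

variable {q : ℕ} [Fact q.Prime] {V : Type*} [AddCommGroup V] [Module (ZMod q) V] [Finite V]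
  [Nontrivial V] {G : Type*} [Group G] [Finite G] {ρ : G →* (V ≃ₗ[ZMod q] V)}

/-- Cyclic groups act semiregularly. -/
lemma semi_of_cyclic {p : ℕ} [Fact p.Prime] (hG : IsPGroup p G) (hρ : Function.Injective ρ)
    (hH : Half ρ) (hns : ¬ Semi ρ) (hpq : (p : ZMod q) ≠ 0) (hcyc : IsCyclic G) : False := by
  apply hns
  by_contra hcon
  have hcomm : ∀ a b : G, a * b = b * a := hcyc.isMulCommutative.is_comm.comm
  unfold Semi at hcon
  push Not at hcon
  obtain ⟨v, hv, g, hgv, hg1⟩ := hcon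
  obtain ⟨j, hj⟩ := (IsPGroup.iff_orderOf).1 hG g
  have hj0 : j ≠ 0 := by
    rintro rfl
    rw [pow_zero, orderOf_eq_one_iff] at hj
    exact hg1 hj
  have hpp : p.Prime := Fact.out
  have h1 : orderOf (g ^ (orderOf g / p)) = p :=
    orderOf_pow_orderOf_div (by rw [hj]; exact (pow_pos hpp.pos _).ne')
      (by rw [hj]; exact dvd_pow_self p hj0)
  set y := g ^ (orderOf g / p) with hy
  have hy1 : y ≠ 1 := by
    intro h
    rw [h, orderOf_one] at h1
    exact hpp.one_lt.ne h1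
  have hyp : y ^ p = 1 := by rw [← h1]; exact pow_orderOf_eq_one y
  have h2 := fix_zero hρ hH hns hpq (fun g => hcomm g y) hy1 hyp
  have h3 : v ∈ Fx ρ y := pow_fix hgv _
  rw [h2] at h3
  exact hv ((Submodule.mem_bot _).1 h3)

end Final

/-- Let q be a prime, V a non-trivial finite vector space over the field with q elements, and G a finite p-group (p prime) acting faithfully and linearly on V such that all G-orbits on the non-zero vectors have the same size. Then one of the following holds: G is cyclic or generalized quaternion and acts semiregularly on the non-zero vectors; or V has q² elements with q = 2^m − 1 and G is dihedral of order 2^(m+1) or semidihedral of order 2^(m+2); or V has q² elements with q = 2^m + 1 and, in suitable coordinates V = F_q², G is exactly the group of maps (x, y) ↦ (a x, ± a⁻¹ y) and (x, y) ↦ (± a⁻¹ y, a x) with a ≠ 0; or V has 81 elements (q = 3) and G is a 2-group. -/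
theorem result (q : ℕ) [Fact q.Prime] {V : Type*} [AddCommGroup V] [Module (ZMod q) V] [Finite V] [Nontrivial V]
    {G : Type*} [Group G] [Finite G] (p : ℕ) [Fact p.Prime] (hG : IsPGroup p G)
    (ρ : G →* (V ≃ₗ[ZMod q] V)) (hρ : Function.Injective ρ)
    (hhalf : ∀ v w : V, v ≠ 0 → w ≠ 0 → Nat.card {u : V | ∃ g : G, ρ g v = u} = Nat.card {u : V | ∃ g : G, ρ g w = u}) :
    ((IsCyclic G ∨ ∃ n : ℕ, Nonempty (G ≃* QuaternionGroup n)) ∧ ∀ v : V, v ≠ 0 → ∀ g : G, ρ g v = v → g = 1) ∨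
    (Nat.card V = q ^ 2 ∧ ∃ m : ℕ, q = 2 ^ m - 1 ∧
      (Nonempty (G ≃* DihedralGroup (2 ^ m)) ∨ (Cfsg.IsQuasiDihedral G ∧ Nat.card G = 2 ^ (m + 2)))) ∨
    (Nat.card V = q ^ 2 ∧ (∃ m : ℕ, q = 2 ^ m + 1) ∧
      ∃ e : V ≃ₗ[ZMod q] (Fin 2 → ZMod q), ∀ f : (Fin 2 → ZMod q) ≃ₗ[ZMod q] (Fin 2 → ZMod q),
        (∃ g : G, f = e.symm.trans ((ρ g).trans e)) ↔
        ∃ a s : ZMod q, a ≠ 0 ∧ (s = 1 ∨ s = -1) ∧
          ((∀ v, f v = ![a * v 0, s * a⁻¹ * v 1]) ∨ (∀ v, f v = ![s * a⁻¹ * v 1, a * v 0]))) ∨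
    (Nat.card V = 81 ∧ q = 3 ∧ p = 2) := by
  have hH : Half ρ := fun v w hv hw => card_St_eq hhalf hv hw
  have hqp : q.Prime := Fact.out
  have hpp : p.Prime := Fact.out
  by_cases hs : Semi ρ
  · left
    refine ⟨?_, hs⟩
    by_cases hpq : p = q
    · have := subsingleton_of_char hG hρ hH hpq
      left
      infer_instance
    · by_contra hcon
      push Not at hcon
      obtain ⟨hnc, hnq⟩ := hcon
      have hp := natCast_ne_zero_of_ne hpq
      rcases two_cases hG hnc with ⟨A, hAn, hAp, hAc⟩ | ⟨rfl, n, r, y, hn, hr, hcard, hy, hidx, h⟩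
      · obtain ⟨z, a, hz, hzp, hap, haz, -⟩ := exists_za hG hAn hAp hAc
        exact no_semi_E hs hp (Subgroup.mem_center_iff.1 hz a) hap hzp haz
      · rcases h with ⟨h1, h2⟩ | ⟨-, h1, h2⟩ | ⟨hn3, h1, h2⟩
        · obtain ⟨m, rfl⟩ : ∃ m, n = m + 1 := ⟨n - 1, by omega⟩
          simp only [Nat.add_sub_cancel] at h1
          obtain ⟨e⟩ := Cfsg.Agent.Lib.PGroups.Presentations.nonempty_quaternion_equiv (m := 2 ^ m)
            (a := r) (y := y) (by rw [hr]; ring) h1 h2 hy (by rw [hcard]; ring)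
          exact (hnq _).false e.symm
        · -- dihedral
          have hrel : y * r ^ (2 ^ (n - 2)) * y⁻¹ = (r ^ (2 ^ (n - 2)))⁻¹ :=
            conj_zpowers_of_inv h2 (Subgroup.npow_mem_zpowers r _)
          have hz := z_central hn hr hidx hy hrel
          refine no_semi_E hs hp (a := y) (z := r ^ (2 ^ (n - 1)))
            (Subgroup.mem_center_iff.1 hz y) h1 (orderOf_z hn hr) ?_
          intro hm
          exact hy ((Subgroup.zpowers_le.2 (Subgroup.npow_mem_zpowers r _)) hm)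
        · -- semidihedral
          have hrel := sd_rel hn3 hr h2
          have hz := z_central hn hr hidx hy hrel
          refine no_semi_E hs hp (a := y) (z := r ^ (2 ^ (n - 1)))
            (Subgroup.mem_center_iff.1 hz y) h1 (orderOf_z hn hr) ?_
          intro hm
          exact hy ((Subgroup.zpowers_le.2 (Subgroup.npow_mem_zpowers r _)) hm)
  · right
    have hpq : p ≠ q := by
      intro h
      have := subsingleton_of_char hG hρ hH h
      exact hs (fun v _ g _ => Subsingleton.elim g 1)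
    have hp := natCast_ne_zero_of_ne hpq
    have hnc : ¬ IsCyclic G := semi_of_cyclic hG hρ hH hs hp
    rcases two_cases hG hnc with ⟨A, hAn, hAp, hAc⟩ | ⟨rfl, n, r, y, hn, hr, hcard, hy, hidx, h⟩
    · obtain ⟨z, a, hz, hzp, hap, haz, hcomm⟩ := exists_za hG hAn hAp hAc
      have hp2 := p_eq_two hρ hH hs hp hz hzp hap haz hcomm
      subst hp2
      rcases main_E4 hG hρ hH hs hp hz hzp hap haz hcomm with ⟨h1, h2⟩ | h1
      · exact Or.inr (Or.inr ⟨h1, h2, rfl⟩)
      · exact Or.inr (Or.inl h1)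
    · have hqne : q ≠ 2 := by
        intro h
        exact hpq h.symm
      have hqo : Odd q := hqp.odd_of_ne_two hqne
      rcases h with ⟨h1, h2⟩ | ⟨hn3, h1, h2⟩ | ⟨hn3, h1, h2⟩
      · -- quaternion: impossible
        exfalso
        obtain ⟨v, hv⟩ := exists_ne (0 : V)
        obtain ⟨x, hx1, hxv⟩ := nontrivial_St hH hs hv
        have hrel : y * r ^ (2 ^ (n - 2)) * y⁻¹ = (r ^ (2 ^ (n - 2)))⁻¹ :=
          conj_zpowers_of_inv h2 (Subgroup.npow_mem_zpowers r _)
        have hfix := fun {x : G} (hx : x ∈ Subgroup.zpowers r) (hx1 : x ≠ 1) {v : V}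
          (hv : ρ x v = v) => fix_R hG hρ hH hs hp hn hr hidx hy hrel hx hx1 hv
        have hxR : x ∉ Subgroup.zpowers r := fun hm => hv (hfix hm hx1 hxv)
        have hu : y⁻¹ * x ∈ Subgroup.zpowers r := by
          rw [Subgroup.mul_mem_iff_of_index_two hidx]
          exact ⟨fun h => absurd ((Subgroup.inv_mem_iff _).1 h) hy, fun h => absurd h hxR⟩
        set u := y⁻¹ * x with hudef
        have hxu : x = y * u := by rw [hudef]; group
        have hx2 : x ^ 2 = r ^ (2 ^ (n - 1)) := by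
          have h3 := conj_zpowers_of_inv h2 hu
          have h4 : Commute u (r ^ (2 ^ (n - 1))) := by
            obtain ⟨i, hi⟩ := Subgroup.mem_zpowers_iff.1 hu
            rw [← hi]
            exact ((Commute.refl r).zpow_left i).pow_right _
          calc x ^ 2 = (y * u * y⁻¹) * (y * y) * u := by rw [hxu, pow_two]; group
            _ = u⁻¹ * r ^ (2 ^ (n - 1)) * u := by rw [h3, ← pow_two, h1]
            _ = r ^ (2 ^ (n - 1)) := by rw [mul_assoc, ← h4.eq]; group
        have hz1 : r ^ (2 ^ (n - 1)) ≠ 1 := by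
          intro h
          have h5 := orderOf_z hn hr
          rw [h, orderOf_one] at h5
          omega
        apply hv
        apply hfix (Subgroup.npow_mem_zpowers r (2 ^ (n - 1))) hz1
        rw [← hx2]
        exact pow_fix hxv 2
      · -- dihedral
        left
        have hrel : y * r ^ (2 ^ (n - 2)) * y⁻¹ = (r ^ (2 ^ (n - 2)))⁻¹ :=
          conj_zpowers_of_inv h2 (Subgroup.npow_mem_zpowers r _)
        obtain ⟨k, s, hk1, hks, hcV, hI⟩ := ds_core hG hρ hH hs hp hn hr hidx hy hrel h1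
        have hI' := card_invs hidx hy (Subgroup.zpowers r) le_rfl (by
          intro x hx
          refine ⟨fun _ => hx, fun _ => ?_⟩
          have h3 := conj_zpowers_of_inv h2 hx
          have h5 : y * y = 1 := by rw [← pow_two]; exact h1
          calc (y * x) ^ 2 = (y * x * y⁻¹) * (y * y) * x := by rw [pow_two]; group
            _ = 1 := by rw [h3, h5, mul_one, inv_mul_cancel])
        rw [hI, Nat.card_zpowers, hr] at hI'
        have hk := pow_add_one_eq_two_pow hqp hqo hn (by rw [← hks]; exact hI')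
        subst hk
        rw [pow_one] at hks
        subst hks
        refine ⟨by rw [hcV, pow_two], n, by omega, Or.inl ?_⟩
        have : NeZero (2 ^ n) := ⟨by positivity⟩
        obtain ⟨e⟩ := Cfsg.Agent.Lib.PGroups.Presentations.nonempty_dihedral_equiv (m := 2 ^ n)
          (a := r) (y := y) hr h1 h2 hy (by rw [hcard]; ring)
        exact ⟨e.symm⟩
      · -- semidihedral
        left
        have hrel := sd_rel hn3 hr h2
        obtain ⟨k, s, hk1, hks, hcV, hI⟩ := ds_core hG hρ hH hs hp hn hr hidx hy hrel h1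
        have hX : Subgroup.zpowers (r ^ 2) ≤ Subgroup.zpowers r :=
          Subgroup.zpowers_le.2 (Subgroup.npow_mem_zpowers r 2)
        have hI' := card_invs hidx hy (Subgroup.zpowers (r ^ 2)) hX (sd_inv hn3 hr h1 h2)
        have hcX : Nat.card (Subgroup.zpowers (r ^ 2)) = 2 ^ (n - 1) := by
          rw [Nat.card_zpowers, orderOf_pow_of_dvd (by norm_num)
            (by rw [hr]; exact dvd_pow_self 2 (by omega)), hr]
          obtain ⟨m, rfl⟩ : ∃ m, n = m + 1 := ⟨n - 1, by omega⟩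
          simp only [Nat.add_sub_cancel]
          rw [pow_succ]
          exact Nat.mul_div_cancel _ (by norm_num)
        rw [hI, hcX] at hI'
        have hk := pow_add_one_eq_two_pow hqp hqo (by omega : 2 ≤ n - 1) (by rw [← hks]; exact hI')
        subst hk
        rw [pow_one] at hks
        subst hks
        refine ⟨by rw [hcV, pow_two], n - 1, by omega, Or.inr ⟨?_, ?_⟩⟩
        · refine ⟨n, hn3, hcard, r, y, hr, ?_, h2⟩
          apply orderOf_eq_prime h1
          rintro rfl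
          exact hy (Subgroup.one_mem _)
        · rw [hcard]
          congr 1
          omega

end Cfsg.Agent.S3371
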