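import Cfsg.Statements.S3374
import Cfsg.Agent.Lib.Frobenius.SL2Table

set_option autoImplicit false
open Cfsg

namespace Cfsg.Agent.S3374

/-- SL(2,5) occurs as a Frobenius complement: there is a finite group L with a subgroup H isomorphic to SL(2,5) which is a non-trivial proper subgroup meeting each conjugate gHg⁻¹ with g outside H trivially. -/
theorem result :
    ∃ (L : Type) (_ : Group L) (_ : Finite L) (H : Subgroup L),
      Cfsg.IsFrobeniusComplement H ∧ Nonempty (H ≃* Matrix.SpecialLinearGroup (Fin 2) (ZMod 5)) := by
  exact Cfsg.Agent.Lib.Frobenius.SL2Table.sl25_isComplement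

end Cfsg.Agent.S3374
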