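import Cfsg.Statements.S3375
import Mathlib

set_option autoImplicit false
open Cfsg

namespace Cfsg.Agent.S3375

lemma key {H : Type*} [Group H] [Finite H] (γ : MulAut H) (hγ2 : ∀ x, γ (γ x) = x)
    (K : Subgroup H) (hK : ∀ x, x ∈ K ↔ γ x = x) (A : Subgroup H)
    (hA : ∀ x, x * (γ x)⁻¹ ∈ A) (hcard : Nat.card A ≤ Nat.card (H ⧸ K)) :
    ∀ a ∈ A, γ a = a⁻¹ := by
  classical
  let F : H ⧸ K → A := fun q => Quotient.liftOn' q (fun x => (⟨x * (γ x)⁻¹, hA x⟩ : A)) (by
    intro x y hxy
    have h1 : x⁻¹ * y ∈ K := QuotientGroup.leftRel_apply.mp hxy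
    have h2 : γ (x⁻¹ * y) = x⁻¹ * y := (hK _).mp h1
    apply Subtype.ext
    show x * (γ x)⁻¹ = y * (γ y)⁻¹
    have h3 : y = x * (x⁻¹ * y) := by group
    rw [map_mul, map_inv] at h2
    have h4 : γ y = γ x * (x⁻¹ * y) := by
      rw [← h2]; group
    rw [h4]; group)
  have hinj : Function.Injective F := by
    intro p q
    induction p using QuotientGroup.induction_on with | H x => ?_
    induction q using QuotientGroup.induction_on with | H y => ?_
    intro hxy
    have h : x * (γ x)⁻¹ = y * (γ y)⁻¹ := congrArg Subtype.val hxy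
    apply QuotientGroup.eq.mpr
    rw [hK, map_mul, map_inv]
    have : (γ y)⁻¹ = y⁻¹ * (x * (γ x)⁻¹) := by rw [h]; group
    have h5 : γ y = (x * (γ x)⁻¹)⁻¹ * y := by
      rw [h]; group
    rw [h5]; group
  have hbij : Function.Bijective F :=
    (Function.Injective.bijective_of_nat_card_le hinj hcard)
  intro a ha
  obtain ⟨q, hq⟩ := hbij.2 ⟨a, ha⟩
  induction q using QuotientGroup.induction_on with | H x => ?_
  have h : x * (γ x)⁻¹ = a := congrArg Subtype.val hq
  rw [← h, map_mul, map_inv, hγ2]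
  group

lemma comm_of_inv {H : Type*} [Group H] (γ : MulAut H) (A : Subgroup H)
    (h : ∀ a ∈ A, γ a = a⁻¹) : ∀ a ∈ A, ∀ b ∈ A, a * b = b * a := by
  intro a ha b hb
  have h1 := h (a * b) (A.mul_mem ha hb)
  rw [map_mul, h a ha, h b hb] at h1
  have h2 : (a⁻¹ * b⁻¹)⁻¹ = ((a * b)⁻¹)⁻¹ := by rw [h1]
  simpa using h2.symm

/-- Let γ be an automorphism of order 2 of a finite group H. (i) If γ fixes only the identity, then H is abelian and γ inverts every element. (ii) If γ has exactly two fixed points and H has a subgroup of index 2, then H has a γ-invariant abelian subgroup of index 2 on which γ acts by inversion. -/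
theorem result {H : Type*} [Group H] [Finite H] (γ : MulAut H) (hγ : orderOf γ = 2) :
    ((∀ h : H, γ h = h → h = 1) → (∀ a b : H, a * b = b * a) ∧ ∀ h : H, γ h = h⁻¹) ∧
    ((Nat.card {h : H // γ h = h} = 2 ∧ ∃ M : Subgroup H, M.index = 2) →
      ∃ A : Subgroup H, A.index = 2 ∧ IsMulCommutative A ∧ (∀ a ∈ A, γ a ∈ A) ∧ ∀ a ∈ A, γ a = a⁻¹) := by
  classical
  have hγ2 : ∀ x, γ (γ x) = x := by
    intro x
    have : γ ^ 2 = 1 := by rw [← hγ]; exact pow_orderOf_eq_one γ
    have h2 : (γ ^ 2) x = x := by rw [this]; rfl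
    rw [pow_two] at h2
    exact h2
  -- the fixed subgroup
  let K : Subgroup H :=
    { carrier := {x | γ x = x}
      mul_mem' := by
        intro a b ha hb
        show γ (a * b) = a * b
        rw [map_mul, show γ a = a from ha, show γ b = b from hb]
      one_mem' := by show γ 1 = 1; simp
      inv_mem' := by
        intro a ha
        show γ a⁻¹ = a⁻¹
        rw [map_inv, show γ a = a from ha] }
  have hK : ∀ x, x ∈ K ↔ γ x = x := fun x => Iff.rfl
  refine ⟨?_, ?_⟩
  · intro hfix
    have hKbot : K = ⊥ := by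
      rw [eq_bot_iff]
      intro x hx
      exact (Subgroup.mem_bot).mpr (hfix x hx)
    have hinv : ∀ a ∈ (⊤ : Subgroup H), γ a = a⁻¹ := by
      refine key γ hγ2 K hK ⊤ (fun x => Subgroup.mem_top _) ?_
      rw [hKbot, Nat.card_congr (QuotientGroup.quotientBot (G := H)).toEquiv]
      exact (Nat.card_congr Subgroup.topEquiv.toEquiv).le
    refine ⟨fun a b => comm_of_inv γ ⊤ hinv a (Subgroup.mem_top _) b (Subgroup.mem_top _),
      fun h => hinv h (Subgroup.mem_top _)⟩
  · rintro ⟨hcard, M, hM⟩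
    have hKcard : Nat.card K = 2 := hcard
    have hmul : ∀ a b : H, a * b ∈ M ↔ (a ∈ M ↔ b ∈ M) := fun a b =>
      Subgroup.mul_mem_iff_of_index_two hM
    -- a γ-invariant subgroup of index two
    have hexists : ∃ A : Subgroup H, A.index = 2 ∧ (∀ a ∈ A, γ a ∈ A) := by
      by_cases hinvM : ∀ x, x ∈ M ↔ γ x ∈ M
      · exact ⟨M, hM, fun a ha => (hinvM a).mp ha⟩
      · push_neg at hinvM
        obtain ⟨c, hc⟩ := hinvM
        let A : Subgroup H :=
          { carrier := {x | x ∈ M ↔ γ x ∈ M}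
            mul_mem' := by
              intro a b ha hb
              show a * b ∈ M ↔ γ (a * b) ∈ M
              have ha' : a ∈ M ↔ γ a ∈ M := ha
              have hb' : b ∈ M ↔ γ b ∈ M := hb
              rw [map_mul, hmul, hmul, ha', hb']
            one_mem' := by
              show (1 : H) ∈ M ↔ γ 1 ∈ M
              simp [M.one_mem]
            inv_mem' := by
              intro a ha
              show a⁻¹ ∈ M ↔ γ a⁻¹ ∈ M
              have ha' : a ∈ M ↔ γ a ∈ M := ha
              rw [map_inv, M.inv_mem_iff, M.inv_mem_iff]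
              exact ha' }
        refine ⟨A, ?_, ?_⟩
        · rw [Subgroup.index_eq_two_iff]
          refine ⟨c, fun b => ?_⟩
          have hb1 : b * c ∈ A ↔ (b * c ∈ M ↔ γ (b * c) ∈ M) := Iff.rfl
          have hb2 : b ∈ A ↔ (b ∈ M ↔ γ b ∈ M) := Iff.rfl
          rw [hb1, hb2, map_mul, hmul, hmul]
          rcases hc with ⟨h1, h2⟩ | ⟨h1, h2⟩ <;>
            by_cases h3 : b ∈ M <;> by_cases h4 : γ b ∈ M <;> simp [Xor', h1, h2, h3, h4]
        · intro a ha
          show γ a ∈ M ↔ γ (γ a) ∈ M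
          rw [hγ2]
          exact (show a ∈ M ↔ γ a ∈ M from ha).symm
    obtain ⟨A, hAidx, hAinv⟩ := hexists
    have hAinv' : ∀ a, a ∈ A ↔ γ a ∈ A := fun a =>
      ⟨hAinv a, fun h => by have := hAinv _ h; rwa [hγ2] at this⟩
    have hmulA : ∀ a b : H, a * b ∈ A ↔ (a ∈ A ↔ b ∈ A) := fun a b =>
      Subgroup.mul_mem_iff_of_index_two hAidx
    have hinv : ∀ a ∈ A, γ a = a⁻¹ := by
      refine key γ hγ2 K hK A ?_ ?_
      · intro x
        rw [hmulA, A.inv_mem_iff]
        exact hAinv' x
      · have h1 : Nat.card H = Nat.card (H ⧸ K) * Nat.card K :=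
          Subgroup.card_eq_card_quotient_mul_card_subgroup K
        have h2 : A.index * Nat.card A = Nat.card H := Subgroup.index_mul_card A
        rw [hKcard] at h1
        rw [hAidx] at h2
        omega
    refine ⟨A, hAidx, ?_, hAinv, hinv⟩
    have := comm_of_inv γ A hinv
    exact ⟨⟨fun a b => Subtype.ext (this a a.2 b b.2)⟩⟩

end Cfsg.Agent.S3375
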