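import Cfsg.Statements.S3379
import Mathlib

set_option autoImplicit false
open Cfsg
open scoped commutatorElement

namespace Cfsg.Agent.S3379

/-- Let G be a finite group all of whose Sylow subgroups are cyclic. Then G is generated by two elements x and y of coprime orders n and m with x⁻¹yx = y^r, where gcd(r − 1, m) = 1 and r^n ≡ 1 (mod m). -/
theorem result {G : Type*} [Group G] [Finite G]
    (hZ : ∀ (p : ℕ) [Fact p.Prime] (P : Sylow p G), IsCyclic (P : Subgroup G)) :
    ∃ (x y : G) (n m r : ℕ), Subgroup.closure {x, y} = ⊤ ∧ orderOf x = n ∧ orderOf y = m ∧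
      x⁻¹ * y * x = y ^ r ∧ Nat.Coprime (r - 1) m ∧ Nat.Coprime n m ∧ 1 ≤ r ∧ r ^ n % m = 1 % m := by
  classical
  have hZG : IsZGroup G := ⟨fun p hp P => by
    have := Fact.mk hp
    exact hZ p P⟩
  set D : Subgroup G := commutator G with hD
  have hDcyc : IsCyclic D := IsZGroup.isCyclic_commutator G
  have hcop : (Nat.card D).Coprime D.index := IsZGroup.coprime_commutator_index G
  obtain ⟨T, hT⟩ := Subgroup.exists_right_complement'_of_coprime hcop
  have hTeq : Abelianization G ≃* T := hT.symm.QuotientMulEquiv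
  have hTcyc : IsCyclic T := isCyclic_of_surjective _ hTeq.surjective
  obtain ⟨y', hy'⟩ := hDcyc.exists_generator
  obtain ⟨x', hx'⟩ := hTcyc.exists_generator
  set y : G := (y' : G) with hy
  set x : G := (x' : G) with hx
  have hyD : y ∈ D := y'.2
  have hxT : x ∈ T := x'.2
  have hDz : ∀ z ∈ D, ∃ k : ℕ, y ^ k = z := by
    intro z hz
    have h1 : (⟨z, hz⟩ : D) ∈ Subgroup.zpowers y' := hy' _
    have h2 : (⟨z, hz⟩ : D) ∈ Submonoid.powers y' := mem_powers_iff_mem_zpowers.mpr h1
    obtain ⟨k, hk⟩ := h2
    exact ⟨k, congrArg Subtype.val hk⟩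
  have hTz : ∀ z ∈ T, ∃ k : ℕ, x ^ k = z := by
    intro z hz
    have h1 : (⟨z, hz⟩ : T) ∈ Subgroup.zpowers x' := hx' _
    have h2 : (⟨z, hz⟩ : T) ∈ Submonoid.powers x' := mem_powers_iff_mem_zpowers.mpr h1
    obtain ⟨k, hk⟩ := h2
    exact ⟨k, congrArg Subtype.val hk⟩
  have hordy : orderOf y = Nat.card D := by
    rw [hy, Subgroup.orderOf_coe, orderOf_eq_card_of_forall_mem_zpowers hy']
  have hordx : orderOf x = Nat.card T := by
    rw [hx, Subgroup.orderOf_coe, orderOf_eq_card_of_forall_mem_zpowers hx']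
  have hmpos : 0 < orderOf y := by rw [hordy]; exact Nat.card_pos
  obtain ⟨k, hk⟩ := hDz (x⁻¹ * y * x) ((inferInstance : D.Normal).conj_mem y hyD x⁻¹ |> fun h => by
    simpa using h)
  set r : ℕ := k + orderOf y with hr
  have hrpos : 1 ≤ r := by omega
  have hyr : x⁻¹ * y * x = y ^ r := by
    rw [hr, pow_add, pow_orderOf_eq_one, mul_one, hk]
  refine ⟨x, y, orderOf x, orderOf y, r, ?_, rfl, rfl, hyr, ?_, ?_, hrpos, ?_⟩
  · -- generation
    rw [eq_top_iff]
    intro g _
    obtain ⟨⟨d, t⟩, e⟩ := hT.2 g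
    have e' : g = (d : G) * (t : G) := e.symm
    obtain ⟨a, ha⟩ := hDz d d.2
    obtain ⟨b, hb⟩ := hTz t t.2
    rw [e', ← ha, ← hb]
    have h1 : x ∈ Subgroup.closure {x, y} := Subgroup.subset_closure (by simp)
    have h2 : y ∈ Subgroup.closure {x, y} := Subgroup.subset_closure (by simp)
    exact Subgroup.mul_mem _ (Subgroup.pow_mem _ h2 a) (Subgroup.pow_mem _ h1 b)
  · -- `gcd (r - 1) m = 1`
    set w : G := y ^ (r - 1) with hw
    set N : Subgroup G := Subgroup.zpowers w with hN
    have hNn : N.Normal := by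
      constructor
      intro n hn g
      obtain ⟨s, hs⟩ := hDz (g * y * g⁻¹) ((inferInstance : D.Normal).conj_mem y hyD g)
      have hw2 : g * w * g⁻¹ = w ^ s := by
        rw [hw, ← conj_pow, ← hs, ← pow_mul, ← pow_mul, mul_comm]
      obtain ⟨z, rfl⟩ := hn
      show g * w ^ z * g⁻¹ ∈ N
      rw [← conj_zpow, hw2]
      exact Subgroup.zpow_mem _ (Subgroup.pow_mem _ (Subgroup.mem_zpowers w) s) z
    set φ := QuotientGroup.mk' N with hφ
    have hφw : φ w = 1 := (QuotientGroup.eq_one_iff w).mpr (Subgroup.mem_zpowers w)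
    have hcomm : φ x * φ y = φ y * φ x := by
      have h1 : φ (x⁻¹ * y * x) = φ y := by
        have e : y ^ r = y ^ (r - 1) * y := by
          rw [← pow_succ]
          congr 1
          omega
        rw [hyr, e, map_mul, ← hw, hφw, one_mul]
      rw [map_mul, map_mul, map_inv] at h1
      calc φ x * φ y = φ x * ((φ x)⁻¹ * φ y * φ x) := by rw [h1]
        _ = φ y * φ x := by group
    have hgen : Subgroup.closure ({x, y} : Set G) = ⊤ := by
      rw [eq_top_iff]
      intro g _
      obtain ⟨⟨d, t⟩, e⟩ := hT.2 g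
      have e' : g = (d : G) * (t : G) := e.symm
      obtain ⟨a, ha⟩ := hDz d d.2
      obtain ⟨b, hb⟩ := hTz t t.2
      rw [e', ← ha, ← hb]
      have h1 : x ∈ Subgroup.closure {x, y} := Subgroup.subset_closure (by simp)
      have h2 : y ∈ Subgroup.closure {x, y} := Subgroup.subset_closure (by simp)
      exact Subgroup.mul_mem _ (Subgroup.pow_mem _ h2 a) (Subgroup.pow_mem _ h1 b)
    -- `G / N` is abelian
    have hab : ∀ a b : G ⧸ N, a * b = b * a := by
      have hcl : Subgroup.closure ({φ x, φ y} : Set (G ⧸ N)) = ⊤ := by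
        have h1 := congrArg (Subgroup.map φ) hgen
        rw [MonoidHom.map_closure, Set.image_pair,
          Subgroup.map_top_of_surjective φ (QuotientGroup.mk'_surjective N)] at h1
        exact h1
      have hle : Subgroup.closure ({φ x, φ y} : Set (G ⧸ N)) ≤
          Subgroup.centralizer (Subgroup.closure ({φ x, φ y} : Set (G ⧸ N)) : Set (G ⧸ N)) := by
        rw [Subgroup.closure_le]
        intro u hu
        rw [SetLike.mem_coe, Subgroup.mem_centralizer_iff]
        intro v hv
        have hv' : v ∈ Subgroup.centralizer ({φ x, φ y} : Set (G ⧸ N)) := by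
          have hle2 : Subgroup.closure ({φ x, φ y} : Set (G ⧸ N)) ≤
              Subgroup.centralizer ({φ x, φ y} : Set (G ⧸ N)) := by
            rw [Subgroup.closure_le]
            intro t ht
            rw [SetLike.mem_coe, Subgroup.mem_centralizer_iff]
            intro w' hw'
            rcases ht with rfl | rfl <;> rcases hw' with rfl | rfl
            · rfl
            · exact hcomm.symm
            · exact hcomm
            · rfl
          exact hle2 hv
        exact (Subgroup.mem_centralizer_iff.mp hv' u hu).symm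
      intro a b
      have ha : a ∈ Subgroup.closure ({φ x, φ y} : Set (G ⧸ N)) := by rw [hcl]; exact Subgroup.mem_top a
      have hb : b ∈ Subgroup.closure ({φ x, φ y} : Set (G ⧸ N)) := by rw [hcl]; exact Subgroup.mem_top b
      exact Subgroup.mem_centralizer_iff.mp (hle hb) a ha
    have hDN : D ≤ N := by
      rw [hD, commutator_def, Subgroup.commutator_le]
      intro g _ h _
      have h1 : φ ⁅g, h⁆ = 1 := by
        rw [map_commutatorElement, commutatorElement_eq_one_iff_mul_comm]
        exact hab _ _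
      exact (QuotientGroup.eq_one_iff _).mp h1
    have hyN : y ∈ N := hDN hyD
    have hNle : N ≤ Subgroup.zpowers y := by
      rw [hN, Subgroup.zpowers_le, hw]
      exact Subgroup.pow_mem _ (Subgroup.mem_zpowers y) _
    have hzeq : N = Subgroup.zpowers y := by
      apply le_antisymm hNle
      rw [Subgroup.zpowers_le]
      exact hyN
    have hord : orderOf w = orderOf y := by
      rw [← Nat.card_zpowers, ← Nat.card_zpowers, ← hN, hzeq]
    rw [hw, orderOf_pow] at hord
    have hg : (orderOf y).gcd (r - 1) = 1 := by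
      have hd : (orderOf y).gcd (r - 1) ∣ orderOf y := Nat.gcd_dvd_left _ _
      obtain ⟨c, hc⟩ := hd
      have hgpos : 0 < (orderOf y).gcd (r - 1) := Nat.gcd_pos_of_pos_left _ hmpos
      rw [Nat.div_eq_of_eq_mul_right hgpos hc] at hord
      have hc1 : c * 1 = c * (orderOf y).gcd (r - 1) := by
        rw [mul_one, mul_comm c]
        rw [← hc, hord]
      have hcpos : 0 < c := by
        rw [hord]
        exact hmpos
      exact (Nat.eq_of_mul_eq_mul_left hcpos hc1).symm
    rw [Nat.coprime_comm]
    exact hg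
  · rw [hordx, hordy, Nat.coprime_comm, ← hT.symm.index_eq_card]
    exact hcop
  · -- `r ^ n ≡ 1`
    have h1 : ∀ j : ℕ, x⁻¹ ^ j * y * x ^ j = y ^ (r ^ j) := by
      intro j
      induction j with
      | zero => simp
      | succ j ih =>
        have e : x⁻¹ ^ (j + 1) * y * x ^ (j + 1) = x⁻¹ * (x⁻¹ ^ j * y * x ^ j) * x := by
          rw [pow_succ', pow_succ]
          group
        rw [e, ih]
        have e2 : x⁻¹ * y ^ r ^ j * x = (x⁻¹ * y * x) ^ r ^ j := by
          have := conj_pow (a := x⁻¹) (b := y) (i := r ^ j)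
          simpa using this.symm
        rw [e2, hyr, ← pow_mul, pow_succ, mul_comm]
    have h2 := h1 (orderOf x)
    rw [inv_pow, pow_orderOf_eq_one, inv_one, one_mul, mul_one] at h2
    have h3 : y ^ 1 = y ^ (r ^ orderOf x) := by rw [pow_one]; exact h2
    exact (pow_eq_pow_iff_modEq.mp h3).symm
end Cfsg.Agent.S3379
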