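import Cfsg.Statements.S3381
import Mathlib

set_option autoImplicit false

open Cfsg

namespace Cfsg.Agent.S3381

lemma fix_eq {G : Type*} [Group G] {P : G → Prop} (hs : Nat.card {g : G // P g} = 2) (h1 : P 1)
    {t : G} (ht : P t) (ht1 : t ≠ 1) (g : G) (hg : P g) : g = 1 ∨ g = t := by
  obtain ⟨y, -, hy⟩ := (Nat.card_eq_two_iff' (⟨1, h1⟩ : {g : G // P g})).1 hs
  by_cases hg1 : g = 1
  · exact Or.inl hg1
  · right
    have e1 := hy ⟨g, hg⟩ (fun h => hg1 (congrArg Subtype.val h))
    have e2 := hy ⟨t, ht⟩ (fun h => ht1 (congrArg Subtype.val h))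
    exact congrArg Subtype.val (e1.trans e2.symm)

lemma exists_fix {G : Type*} [Group G] {P : G → Prop} (hs : Nat.card {g : G // P g} = 2) (h1 : P 1) :
    ∃ t, t ≠ 1 ∧ P t := by
  obtain ⟨y, hy1, -⟩ := (Nat.card_eq_two_iff' (⟨1, h1⟩ : {g : G // P g})).1 hs
  exact ⟨y.1, fun h => hy1 (Subtype.ext h), y.2⟩

section
variable (q : ℕ) [Fact q.Prime] {V : Type*} [AddCommGroup V] [Module (ZMod q) V] [Finite V]
    [Nontrivial V]
    {G : Type*} [Group G] [Finite G] (ρ : G →* (V ≃ₗ[ZMod q] V))

include q in
/-- every central involution acts as `-1`, and the characteristic is not `2`. -/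
lemma central_neg (hρ : Function.Injective ρ)
    (hstab : ∀ v : V, v ≠ 0 → Nat.card {g : G // ρ g v = v} = 2)
    (c : G) (hc : orderOf c = 2) (hcc : c ∈ Subgroup.center G) :
    (2 : ZMod q) ≠ 0 ∧ ∀ v, ρ c v = -v := by
  have hc2 : c ^ 2 = 1 := by rw [← hc]; exact pow_orderOf_eq_one c
  have hc1 : c ≠ 1 := by
    rintro rfl
    rw [orderOf_one] at hc
    omega
  have hcc2 : ∀ v, ρ c (ρ c v) = v := by
    intro v
    have : ρ (c ^ 2) v = v := by rw [hc2]; simp
    rwa [pow_two, map_mul, LinearEquiv.mul_apply] at this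
  have hcomm : ∀ (g : G) (v : V), ρ g (ρ c v) = ρ c (ρ g v) := by
    intro g v
    have h := Subgroup.mem_center_iff.1 hcc g
    have := congrArg (fun f : V ≃ₗ[ZMod q] V => f v) (congrArg ρ h)
    simpa [map_mul, LinearEquiv.mul_apply] using this
  have h11 : ∀ v : V, ρ 1 v = v := by intro v; simp
  -- a vector moved by `c`
  obtain ⟨w, hw⟩ : ∃ w, ρ c w ≠ w := by
    by_contra hcon
    push Not at hcon
    apply hc1
    apply hρ
    rw [map_one]
    ext v
    simpa using hcon v
  have hw0 : w ≠ 0 := by
    rintro rfl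
    exact hw (map_zero _)
  obtain ⟨t, ht1, htw⟩ := exists_fix (hstab w hw0) (h11 w)
  set u := ρ c w - w with hu
  have hu0 : u ≠ 0 := sub_ne_zero.2 hw
  have hcu : ρ c u = -u := by
    rw [hu, map_sub, hcc2]; abel
  have htu : ρ t u = u := by
    rw [hu, map_sub, hcomm, htw]
  have htc : t ≠ c := by
    rintro rfl
    exact hw htw
  have hune : u ≠ -u := by
    intro h
    have h2 : ρ c u = u := by rw [hcu]; exact h.symm
    rcases fix_eq (hstab u hu0) (h11 u) htu ht1 c h2 with h3 | h3
    · exact hc1 h3
    · exact htc h3.symm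
  have h2 : (2 : ZMod q) ≠ 0 := by
    intro h
    apply hune
    have : (2 : ZMod q) • u = 0 := by rw [h, zero_smul]
    rw [two_smul] at this
    exact eq_neg_of_add_eq_zero_left this
  refine ⟨h2, ?_⟩
  have hnofix : ∀ v, v ≠ 0 → ρ c v ≠ v := by
    intro v hv0 hv
    set y := v + u with hy
    have hcy : ρ c y = v - u := by
      rw [hy, map_add, hv, hcu]; abel
    have hy0 : y ≠ 0 := by
      intro h
      have h3 : v - u = 0 := by rw [← hcy, h, map_zero]
      have h4 : v = -u := eq_neg_of_add_eq_zero_left h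
      have h5 : v = u := sub_eq_zero.1 h3
      exact hune (h5.symm.trans h4)
    obtain ⟨s, hs1, hsy⟩ := exists_fix (hstab y hy0) (h11 y)
    have hs2 : ρ s (v - u) = v - u := by
      rw [← hcy, hcomm, hsy]
    have hsy' : ρ s v + ρ s u = v + u := by rw [← map_add]; exact hsy
    have hs2' : ρ s v - ρ s u = v - u := by rw [← map_sub]; exact hs2
    have hsv : ρ s v = v := by
      have h6 : (2 : ZMod q) • ρ s v = (2 : ZMod q) • v := by
        rw [two_smul, two_smul]
        calc ρ s v + ρ s v = (ρ s v + ρ s u) + (ρ s v - ρ s u) := by abel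
          _ = (v + u) + (v - u) := by rw [hsy', hs2']
          _ = v + v := by abel
      exact smul_right_injective V h2 h6
    have hsu : ρ s u = u := by
      have h6 := hsy'
      rw [hsv] at h6
      exact add_left_cancel h6
    have hsc : s = c := by
      rcases fix_eq (hstab v hv0) (h11 v) hv hc1 s hsv with h3 | h3
      · exact absurd h3 hs1
      · exact h3
    rw [hsc, hcu] at hsu
    exact hune hsu.symm
  intro v
  by_contra hne
  have h3 : v + ρ c v ≠ 0 := by
    intro h
    exact hne (eq_neg_of_add_eq_zero_right h)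
  apply hnofix _ h3
  rw [map_add, hcc2, add_comm]

end

theorem result
    (q : ℕ) [Fact q.Prime] {V : Type*} [AddCommGroup V] [Module (ZMod q) V] [Finite V] [Nontrivial V]
    {G : Type*} [Group G] [Finite G] (ρ : G →* (V ≃ₗ[ZMod q] V)) (hρ : Function.Injective ρ)
    (hstab : ∀ v : V, v ≠ 0 → Nat.card {g : G // ρ g v = v} = 2)
    (z : G) (hz : orderOf z = 2) (hzc : z ∈ Subgroup.center G) :
    ∃ r : ℕ, Nat.card V = q ^ (2 * r) ∧
      Nat.card {g : G // orderOf g = 2 ∧ g ∉ Subgroup.center G} = q ^ r + 1 := by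
  classical
  obtain ⟨h2, hzneg⟩ := central_neg q ρ hρ hstab z hz hzc
  have h11 : ∀ v : V, ρ 1 v = v := by intro v; simp
  have hz2 : z ^ 2 = 1 := by rw [← hz]; exact pow_orderOf_eq_one z
  have hz1 : z ≠ 1 := by
    rintro rfl
    rw [orderOf_one] at hz
    omega
  have hzcomm : ∀ g : G, z * g = g * z := fun g => (Subgroup.mem_center_iff.1 hzc g).symm
  have hTiff : ∀ t : G, (orderOf t = 2 ∧ t ∉ Subgroup.center G) ↔ (orderOf t = 2 ∧ t ≠ z) := by
    intro t
    refine and_congr_right fun ht => ⟨?_, ?_⟩
    · rintro h rfl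
      exact h hzc
    · intro h htc
      apply h
      apply hρ
      ext v
      rw [(central_neg q ρ hρ hstab t ht htc).2, hzneg]
  let T : G → Prop := fun t => orderOf t = 2 ∧ t ≠ z
  -- the fixed spaces
  let A : G → Submodule (ZMod q) V := fun t => LinearMap.ker ((ρ t).toLinearMap - LinearMap.id)
  have hA : ∀ t v, v ∈ A t ↔ ρ t v = v := by
    intro t v
    simp only [A, LinearMap.mem_ker, LinearMap.sub_apply, LinearEquiv.coe_coe, LinearMap.id_apply,
      sub_eq_zero]
  have hneg : ∀ (t : G) (v : V), ρ (z * t) v = - ρ t v := by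
    intro t v
    rw [map_mul, LinearEquiv.mul_apply, hzneg]
  have hTz : ∀ t, T t → T (z * t) := by
    rintro t ⟨ht, htz⟩
    have ht2 : t ^ 2 = 1 := by rw [← ht]; exact pow_orderOf_eq_one t
    constructor
    · apply orderOf_eq_prime
      · rw [(show Commute z t from hzcomm t).mul_pow, hz2, ht2, one_mul]
      · intro h
        apply htz
        have h3 : t = z⁻¹ := eq_inv_of_mul_eq_one_right h
        rw [h3, inv_eq_of_mul_eq_one_left]
        rw [← pow_two, hz2]
    · intro h
      have h3 : t = 1 := by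
        have : z * t = z * 1 := by rw [h, mul_one]
        exact mul_left_cancel this
      rw [h3, orderOf_one] at ht
      omega
  have hzz : ∀ t, z * (z * t) = t := by
    intro t
    rw [← mul_assoc, ← pow_two, hz2, one_mul]
  have h2u : IsUnit (2 : ZMod q) := h2.isUnit
  have hrho2 : ∀ t, T t → ∀ v, ρ t (ρ t v) = v := by
    rintro t ⟨ht, -⟩ v
    have ht2 : t ^ 2 = 1 := by rw [← ht]; exact pow_orderOf_eq_one t
    have : ρ (t ^ 2) v = v := by rw [ht2]; simp
    rwa [pow_two, map_mul, LinearEquiv.mul_apply] at this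
  have hcompl : ∀ t, T t → IsCompl (A t) (A (z * t)) := by
    intro t htT
    constructor
    · rw [Submodule.disjoint_def]
      intro v hv1 hv2
      rw [hA] at hv1 hv2
      rw [hneg, hv1] at hv2
      have h3 : (2 : ZMod q) • v = 0 := by
        rw [two_smul]
        nth_rw 1 [← hv2]
        simp
      exact (smul_eq_zero.1 h3).resolve_left h2
    · rw [codisjoint_iff, eq_top_iff]
      intro v _
      have hv : v = (2 : ZMod q)⁻¹ • (v + ρ t v) + (2 : ZMod q)⁻¹ • (v - ρ t v) := by
        rw [← smul_add]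
        have : v + ρ t v + (v - ρ t v) = (2 : ZMod q) • v := by
          rw [two_smul]; abel
        rw [this, smul_smul, inv_mul_cancel₀ h2, one_smul]
      rw [hv]
      apply Submodule.add_mem_sup
      · rw [hA, map_smul, map_add, hrho2 t htT, add_comm]
      · rw [hA, hneg, map_smul, map_sub, hrho2 t htT, ← smul_neg]
        congr 1
        abel
  haveI : Module.Finite (ZMod q) V := Module.Finite.of_finite
  let D := Module.finrank (ZMod q) V
  let d : G → ℕ := fun t => Module.finrank (ZMod q) (A t)
  have hD : ∀ t, T t → d t + d (z * t) = D := fun t ht =>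
    Submodule.finrank_add_eq_of_isCompl (hcompl t ht)
  -- uniqueness
  have huniq : ∀ t t' : G, T t → T t' → ∀ v, v ≠ 0 → ρ t v = v → ρ t' v = v → t = t' := by
    intro t t' ht ht' v hv h1 h3
    have ht1 : t ≠ 1 := by
      rintro rfl
      have := ht.1
      rw [orderOf_one] at this
      omega
    have ht1' : t' ≠ 1 := by
      rintro rfl
      have := ht'.1
      rw [orderOf_one] at this
      omega
    rcases fix_eq (hstab v hv) (h11 v) h1 ht1 t' h3 with h4 | h4
    · exact absurd h4 ht1'
    · exact h4.symm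
  have hdis : ∀ t t', T t → T t' → t ≠ t' → d t + d t' ≤ D := by
    intro t t' ht ht' hne
    apply Submodule.finrank_add_finrank_le_of_disjoint
    rw [Submodule.disjoint_def]
    intro v hv1 hv2
    by_contra hv
    exact hne (huniq t t' ht ht' v hv ((hA _ _).1 hv1) ((hA _ _).1 hv2))
  -- existence
  have hex : ∀ v : V, v ≠ 0 → ∃ t, T t ∧ ρ t v = v := by
    intro v hv
    obtain ⟨t, ht1, htv⟩ := exists_fix (hstab v hv) (h11 v)
    refine ⟨t, ⟨?_, ?_⟩, htv⟩
    · apply orderOf_eq_prime _ ht1
      have h3 : ρ (t ^ 2) v = v := by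
        rw [pow_two, map_mul, LinearEquiv.mul_apply, htv, htv]
      rcases fix_eq (hstab v hv) (h11 v) htv ht1 _ h3 with h4 | h4
      · exact h4
      · exfalso
        apply ht1
        rw [pow_two] at h4
        exact mul_left_cancel (a := t) (by rw [h4, mul_one])
    · rintro rfl
      rw [hzneg] at htv
      have h3 : (2 : ZMod q) • v = 0 := by
        rw [two_smul]
        nth_rw 1 [← htv]
        simp
      exact hv ((smul_eq_zero.1 h3).resolve_left h2)
  have hnontriv : ∀ t, T t → ∃ a ∈ A t, a ≠ 0 := by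
    rintro t ⟨ht, htz⟩
    have ht1 : t ≠ 1 := by
      rintro rfl
      rw [orderOf_one] at ht
      omega
    by_contra hcon
    push Not at hcon
    apply htz
    apply hρ
    ext v
    rw [hzneg]
    have h3 : v + ρ t v = 0 := by
      apply hcon
      rw [hA, map_add, hrho2 t ⟨ht, htz⟩, add_comm]
    exact eq_neg_of_add_eq_zero_right h3
  -- every `t` has the dimension `D / 2`
  have hhalf : ∀ t, T t → 2 * d t = D := by
    intro t ht
    obtain ⟨a, ha, ha0⟩ := hnontriv t ht
    obtain ⟨b, hb, hb0⟩ := hnontriv (z * t) (hTz t ht)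
    have hab : a + b ≠ 0 := by
      intro h
      have h3 : a = -b := eq_neg_of_add_eq_zero_left h
      have hb' : -b ∈ A (z * t) := (A (z * t)).neg_mem hb
      rw [← h3] at hb'
      have := (Submodule.disjoint_def.1 (hcompl t ht).1) a ha hb'
      exact ha0 this
    obtain ⟨t', ht', ht'v⟩ := hex _ hab
    have hta : ρ t a = a := (hA _ _).1 ha
    have htb : ρ t b = -b := by
      have := (hA _ _).1 hb
      rw [hneg] at this
      exact neg_eq_iff_eq_neg.1 this
    have hne1 : t ≠ t' := by
      rintro rfl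
      rw [map_add, hta, htb] at ht'v
      have h3 : (2 : ZMod q) • b = 0 := by
        rw [two_smul]
        have h5 := add_left_cancel ht'v
        nth_rw 1 [← h5]
        simp
      exact hb0 ((smul_eq_zero.1 h3).resolve_left h2)
    have hne2 : z * t ≠ t' := by
      rintro rfl
      rw [map_add, hneg, hneg, hta, htb, neg_neg] at ht'v
      have h5 := add_right_cancel ht'v
      have h3 : (2 : ZMod q) • a = 0 := by
        rw [two_smul]
        nth_rw 1 [← h5]
        simp
      exact ha0 ((smul_eq_zero.1 h3).resolve_left h2)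
    have hne3 : t ≠ z * t' := by
      intro h
      apply hne2
      rw [h, hzz]
    have hne4 : z * t ≠ z * t' := fun h => hne1 (mul_left_cancel h)
    have e1 := hD t ht
    have e2 := hD t' ht'
    have e3 := hdis t t' ht ht' hne1
    have e4 := hdis (z * t) t' (hTz t ht) ht' hne2
    have e5 := hdis t (z * t') ht (hTz t' ht') hne3
    have e6 := hdis (z * t) (z * t') (hTz t ht) (hTz t' ht') hne4
    omega
  obtain ⟨v0, hv0⟩ := exists_ne (0 : V)
  obtain ⟨t0, ht0, -⟩ := hex v0 hv0
  set r := d t0 with hr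
  have hdr : ∀ t, T t → d t = r := by
    intro t ht
    have := hhalf t ht
    have := hhalf t0 ht0
    omega
  have hDr : D = 2 * r := (hhalf t0 ht0).symm
  have hcardV : Nat.card V = q ^ (2 * r) := by
    rw [← hDr, Module.natCard_eq_pow_finrank (K := ZMod q) (V := V), Nat.card_zmod]
  have hcardA : ∀ t, T t → Nat.card (A t) = q ^ r := by
    intro t ht
    rw [Module.natCard_eq_pow_finrank (K := ZMod q) (V := A t), Nat.card_zmod]
    rw [show Module.finrank (ZMod q) (A t) = r from hdr t ht]
  refine ⟨r, hcardV, ?_⟩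
  -- counting
  haveI := Fintype.ofFinite V
  haveI := Fintype.ofFinite G
  let Tf : Finset G := Finset.univ.filter T
  let Sf : Finset V := Finset.univ.filter (· ≠ 0)
  have hcount := Finset.sum_card_bipartiteAbove_eq_sum_card_bipartiteBelow
    (s := Sf) (t := Tf) (fun v t => ρ t v = v)
  have hleft : ∀ v ∈ Sf, (Tf.bipartiteAbove (fun v t => ρ t v = v) v).card = 1 := by
    intro v hv
    have hv0 : v ≠ 0 := by simpa [Sf] using hv
    obtain ⟨t, ht, htv⟩ := hex v hv0
    rw [Finset.card_eq_one]
    refine ⟨t, ?_⟩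
    ext t'
    simp only [Finset.bipartiteAbove, Finset.mem_filter, Finset.mem_singleton, Tf,
      Finset.mem_univ, true_and]
    constructor
    · rintro ⟨ht', h3⟩
      exact huniq t' t ht' ht v hv0 h3 htv
    · rintro rfl
      exact ⟨ht, htv⟩
  have hright : ∀ t ∈ Tf, (Sf.bipartiteBelow (fun v t => ρ t v = v) t).card + 1 = q ^ r := by
    intro t ht
    have htT : T t := by simpa [Tf] using ht
    rw [← hcardA t htT]
    have h3 : Nat.card (A t) = ((Finset.univ.filter (fun v : V => ρ t v = v)).card) := by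
      rw [Nat.card_eq_fintype_card, ← Fintype.card_subtype]
      exact Fintype.card_congr (Equiv.subtypeEquivRight (fun v => hA t v))
    rw [h3]
    have h4 : Finset.univ.filter (fun v : V => ρ t v = v) =
        insert 0 (Sf.bipartiteBelow (fun v t => ρ t v = v) t) := by
      ext v
      simp only [Finset.mem_filter, Finset.mem_univ, true_and, Finset.mem_insert,
        Finset.bipartiteBelow, Sf]
      constructor
      · intro h
        by_cases hv : v = 0
        · exact Or.inl hv
        · exact Or.inr ⟨hv, h⟩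
      · rintro (rfl | h)
        · simp
        · exact h.2
    rw [h4, Finset.card_insert_of_notMem]
    simp [Finset.bipartiteBelow, Sf]
  have hsum1 : ∑ v ∈ Sf, (Tf.bipartiteAbove (fun v t => ρ t v = v) v).card = Sf.card := by
    rw [Finset.sum_congr rfl hleft]
    simp
  have hSf : Sf.card + 1 = q ^ (2 * r) := by
    rw [← hcardV, Nat.card_eq_fintype_card]
    have : Sf = Finset.univ.erase 0 := by
      ext v; simp [Sf]
    rw [this, Finset.card_erase_of_mem (Finset.mem_univ _), Finset.card_univ]
    have : 0 < Fintype.card V := Fintype.card_pos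
    omega
  have hsum2 : ∑ t ∈ Tf, (Sf.bipartiteBelow (fun v t => ρ t v = v) t).card = Tf.card * (q ^ r - 1) := by
    rw [Finset.sum_congr rfl (g := fun _ => q ^ r - 1)]
    · simp
    · intro t ht
      have := hright t ht
      omega
  have hr0 : 0 < r := by
    by_contra h0
    have hr00 : r = 0 := by omega
    rw [hr00] at hSf
    have : Sf.card = 0 := by simpa using hSf
    have hv0S : v0 ∈ Sf := by simp [Sf, hv0]
    rw [Finset.card_eq_zero] at this
    rw [this] at hv0S
    simp at hv0S
  have hqr : 1 < q ^ r := Nat.one_lt_pow hr0.ne' (Fact.out : q.Prime).one_lt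
  have hfinal : Tf.card = q ^ r + 1 := by
    have h5 : Tf.card * (q ^ r - 1) = Sf.card := by
      rw [← hsum2, ← hcount, hsum1]
    have h6 : (q ^ r + 1) * (q ^ r - 1) = Sf.card := by
      have h7 : q ^ (2 * r) = q ^ r * q ^ r := by rw [two_mul, pow_add]
      obtain ⟨k, hk⟩ : ∃ k, q ^ r = k + 1 := ⟨q ^ r - 1, by omega⟩
      rw [hk] at h7 ⊢
      simp only [Nat.add_sub_cancel]
      have h8 : Sf.card + 1 = (k + 1) * (k + 1) := by rw [hSf, h7]
      nlinarith
    exact Nat.eq_of_mul_eq_mul_right (by omega) (h5.trans h6.symm)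
  rw [← hfinal]
  rw [Nat.card_eq_fintype_card, Fintype.card_subtype]
  congr 1
  ext g
  simp only [Finset.mem_filter, Finset.mem_univ, true_and, Tf]
  exact hTiff g

end Cfsg.Agent.S3381
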