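import Cfsg.Statements.S3382
import Mathlib

set_option autoImplicit false

open Cfsg

namespace Cfsg.Agent.S3382

section abstract

variable {T : Type*} [Group T]

lemma pow_fix (α : MulAut T) {d : T} (hd : α d = d) (n : ℕ) : (α ^ n) d = d := by
  induction n with
  | zero => simp
  | succ n ih => rw [pow_succ, MulAut.mul_apply, hd, ih]

lemma pow_stab (α : MulAut T) {x d : T} (hd : α d = d) (hx : α x = x * d) (n : ℕ) :
    (α ^ n) x = x * d ^ n := by
  induction n with
  | zero => simp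
  | succ n ih => rw [pow_succ, MulAut.mul_apply, hx, map_mul, ih, pow_fix α hd, pow_succ, mul_assoc]

lemma stab_eq_one (α : MulAut T) {r : ℕ} (hr : Odd r) (hα : α ^ r = 1) {x d : T} (hd : α d = d)
    (hx : α x = x * d) {N : ℕ} (hdN : d ^ (2 ^ N) = 1) : d = 1 := by
  have h1 := pow_stab α hd hx r
  rw [hα, MulAut.one_apply] at h1
  have h2 : d ^ r = 1 := by
    have : x * 1 = x * d ^ r := by rw [mul_one]; exact h1
    exact (mul_left_cancel this).symm
  have h3 : orderOf d ∣ r := orderOf_dvd_of_pow_eq_one h2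
  have h4 : orderOf d ∣ 2 ^ N := orderOf_dvd_of_pow_eq_one hdN
  have hc : Nat.Coprime r (2 ^ N) := (Nat.coprime_two_right.2 hr).pow_right N
  exact orderOf_eq_one_iff.1 (Nat.eq_one_of_dvd_coprimes hc h3 h4)

lemma geom_odd (q : ℕ) (hq : Odd q) (hq1 : 1 ≤ q) (n : ℕ) :
    ∃ S, q ^ n = (q - 1) * S + 1 ∧ S % 2 = n % 2 := by
  induction n with
  | zero => exact ⟨0, by simp, rfl⟩
  | succ n ih =>
    obtain ⟨S, h1, h2⟩ := ih
    refine ⟨q * S + 1, ?_, ?_⟩
    · obtain ⟨r, rfl⟩ : ∃ r, q = r + 1 := ⟨q - 1, by omega⟩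
      rw [pow_succ, h1]
      simp only [Nat.add_sub_cancel]
      ring
    · obtain ⟨c, rfl⟩ := hq
      have : (2 * c + 1) * S + 1 = 2 * (c * S) + S + 1 := by ring
      omega

lemma odd_root (k r s : ℕ) (hr : Odd r) (h : k ^ r ≡ 1 [MOD 2 ^ s]) : k ≡ 1 [MOD 2 ^ s] := by
  rcases Nat.eq_zero_or_pos s with rfl | hs
  · simp [Nat.ModEq, Nat.mod_one]
  have hk : Odd k := by
    by_contra hk
    rw [Nat.not_odd_iff_even] at hk
    have h2 : (2 : ℕ) ∣ 2 ^ s := dvd_pow_self 2 hs.ne'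
    have h3 : k ^ r ≡ 1 [MOD 2] := h.of_dvd h2
    have hr0 : r ≠ 0 := by
      rintro rfl
      simp at hr
    have h4 : Even (k ^ r) := hk.pow_of_ne_zero hr0
    rw [Nat.ModEq] at h3
    have := Nat.even_iff.1 h4
    omega
  have hk1 : 1 ≤ k := hk.pos
  obtain ⟨S, h1, h2⟩ := geom_odd k hk hk1 r
  have hSodd : Odd S := by
    rw [Nat.odd_iff, h2]; exact Nat.odd_iff.1 hr
  have h3 : 2 ^ s ∣ (k - 1) * S := by
    have h5 : (k - 1) * S + 1 ≡ 0 + 1 [MOD 2 ^ s] := by
      rw [← h1]; simpa using h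
    exact (Nat.modEq_zero_iff_dvd).1 (Nat.ModEq.add_right_cancel' 1 h5)
  have hc : Nat.Coprime (2 ^ s) S := (Nat.coprime_two_left.2 hSodd).pow_left s
  have h4 : 2 ^ s ∣ k - 1 := hc.dvd_of_dvd_mul_right h3
  exact ((Nat.modEq_iff_dvd' hk1).2 h4).symm

lemma pow_aut (α : MulAut T) {y : T} {k : ℕ} (h : α y = y ^ k) (n : ℕ) :
    (α ^ n) y = y ^ (k ^ n) := by
  induction n with
  | zero => simp
  | succ n ih => rw [pow_succ, MulAut.mul_apply, h, map_pow, ih, ← pow_mul, pow_succ]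

theorem abs_main (P : T → Prop) (g u : T) (m : ℕ) (hm : 3 ≤ m)
    (hmul : ∀ x y, P x → P y → P (x * y)) (hcomm : ∀ x y, P x → P y → x * y = y * x)
    (h4 : ∀ x, ¬ P x → x ^ 4 = 1) (hnp : ∀ x y, ¬ P x → ¬ P y → P (x * y))
    (hgen : ∀ x, P x → ∃ i j : ℕ, x = g ^ i * u ^ j)
    (hPg : P g) (hPu : P u) (hg : orderOf g = 2 ^ m) (hu : u ^ 2 = 1) (hug : ∀ i : ℕ, u ≠ g ^ i)
    (α : MulAut T) (r : ℕ) (hr : Odd r) (hα : α ^ r = 1) : α = 1 := by
  have hg2m : g ^ (2 ^ m) = 1 := by rw [← hg]; exact pow_orderOf_eq_one g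
  have hPpow : ∀ x, P x → ∀ n : ℕ, P (x ^ (n + 1)) := by
    intro x hx n
    induction n with
    | zero => simpa using hx
    | succ n ih => rw [pow_succ]; exact hmul _ _ ih hx
  have hP1 : P 1 := by
    have h1 := hPpow g hPg (2 ^ m - 1)
    rwa [Nat.sub_add_cancel Nat.one_le_two_pow, hg2m] at h1
  have hguu : Commute g u := hcomm g u hPg hPu
  set e := g ^ (2 ^ m - 1) with he
  have hPe : P e := by
    have h1 : 2 ^ m - 1 = (2 ^ m - 2) + 1 := by
      have : 2 ≤ 2 ^ m := by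
        calc 2 = 2 ^ 1 := rfl
          _ ≤ 2 ^ m := Nat.pow_le_pow_right (by norm_num) (by omega)
      omega
    rw [he, h1]
    exact hPpow g hPg _
  have heg : e * g = 1 := by
    rw [he, ← pow_succ, Nat.sub_add_cancel Nat.one_le_two_pow, hg2m]
  have hg4 : g ^ 4 ≠ 1 := by
    intro h
    have h1 := orderOf_dvd_of_pow_eq_one h
    rw [hg] at h1
    have h2 : 2 ^ 3 ∣ 2 ^ m := pow_dvd_pow 2 hm
    have h3 := h2.trans h1
    norm_num at h3
  -- `α` preserves `P`
  have hPα : ∀ d, P d → P (α d) := by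
    have hbig : ∀ d, d ^ 4 ≠ 1 → P (α d) := by
      intro d hd
      by_contra hcon
      apply hd
      have := h4 _ hcon
      rw [← map_pow] at this
      exact (map_eq_one_iff α α.injective).1 this
    intro d hd
    by_cases hd4 : d ^ 4 = 1
    · have hd' : d = (d * e) * g := by rw [mul_assoc, heg, mul_one]
      rw [hd', map_mul]
      apply hmul _ _ _ (hbig g hg4)
      apply hbig
      intro h5
      apply hg4
      have h6 : Commute d e := hcomm d e hd hPe
      rw [h6.mul_pow, hd4, one_mul] at h5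
      have h7 : (e * g) ^ 4 = e ^ 4 * g ^ 4 := (show Commute e g from hcomm e g hPe hPg).mul_pow 4
      rw [heg, one_pow, h5, one_mul] at h7
      exact h7.symm
    · exact hbig d hd4
  have hPαn : ∀ n : ℕ, ∀ d, P d → P ((α ^ n) d) := by
    intro n
    induction n with
    | zero => intro d hd; simpa using hd
    | succ n ih =>
      intro d hd
      rw [pow_succ, MulAut.mul_apply]
      exact ih _ (hPα d hd)
  have hPback : ∀ x, P (α x) → P x := by
    intro x hx
    obtain ⟨r', rfl⟩ : ∃ r', r = r' + 1 := ⟨r - 1, by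
      have := hr.pos
      omega⟩
    have h1 : (α ^ r') (α x) = x := by
      rw [← MulAut.mul_apply, ← pow_succ, hα, MulAut.one_apply]
    rw [← h1]
    exact hPαn r' _ hx
  -- powers of elements of `P`
  set c := g ^ (2 ^ (m - 1)) with hc
  have h2m : 2 ^ m = 2 * 2 ^ (m - 1) := by
    obtain ⟨m', rfl⟩ : ∃ m', m = m' + 1 := ⟨m - 1, by omega⟩
    simp [pow_succ, mul_comm]
  have hc2 : c ^ 2 = 1 := by
    rw [hc, ← pow_mul, mul_comm, ← h2m, hg2m]
  have hc1 : c ≠ 1 := by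
    intro h
    have h1 := orderOf_dvd_of_pow_eq_one h
    rw [hg] at h1
    have h2 := (Nat.pow_dvd_pow_iff_le_right (by norm_num : 1 < 2)).1 h1
    omega
  have hPc : P c := by
    have h1 : 2 ^ (m - 1) = (2 ^ (m - 1) - 1) + 1 := (Nat.sub_add_cancel Nat.one_le_two_pow).symm
    rw [hc, h1]
    exact hPpow g hPg _
  have hcpow : ∀ t : ℕ, c ^ t = 1 ∨ c ^ t = c := by
    intro t
    induction t with
    | zero => left; simp
    | succ t ih =>
      rcases ih with h | h
      · right; rw [pow_succ, h, one_mul]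
      · left; rw [pow_succ, h, ← pow_two, hc2]
  -- elements of `P` of order dividing `2`
  have hsq : ∀ x, P x → x ^ 2 = 1 → x = 1 ∨ x = c ∨ x = u ∨ x = c * u := by
    intro x hx hx2
    obtain ⟨i, j, rfl⟩ := hgen x hx
    have hu2 : (u ^ j) ^ 2 = 1 := by
      rw [← pow_mul, mul_comm, pow_mul, hu, one_pow]
    rw [(hguu.pow_pow i j).mul_pow, hu2, mul_one, ← pow_mul] at hx2
    have h1 := orderOf_dvd_of_pow_eq_one hx2
    rw [hg, h2m] at h1
    rw [mul_comm 2 (2 ^ (m - 1))] at h1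
    obtain ⟨t, ht⟩ := Nat.dvd_of_mul_dvd_mul_right (by norm_num) h1
    have hgi : g ^ i = c ^ t := by rw [hc, ← pow_mul, ht]
    have huj : u ^ j = 1 ∨ u ^ j = u := by
      rcases Nat.even_or_odd' j with ⟨j', rfl | rfl⟩
      · left; rw [pow_mul, hu, one_pow]
      · right; rw [pow_succ, pow_mul, hu, one_pow, one_mul]
    rw [hgi]
    rcases hcpow t with h5 | h5 <;> rcases huj with h6 | h6 <;> rw [h5, h6] <;> simp
  have huc : u ≠ c := hug _
  have hαg2 : ∃ k : ℕ, α (g ^ 2) = (g ^ 2) ^ k := by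
    obtain ⟨i, j, hij⟩ := hgen _ (hPα g hPg)
    refine ⟨i, ?_⟩
    rw [map_pow, hij, (hguu.pow_pow i j).mul_pow, ← pow_mul u, mul_comm j 2, pow_mul u, hu, one_pow,
      mul_one, ← pow_mul, ← pow_mul, mul_comm]
  -- `c` is fixed
  have hαc : α c = c := by
    obtain ⟨i, j, hij⟩ := hgen _ (hPα g hPg)
    have h1 : α c = c ^ i := by
      rw [hc, map_pow, hij, (hguu.pow_pow i j).mul_pow]
      have h3 : (u ^ j) ^ (2 ^ (m - 1)) = 1 := by
        obtain ⟨m', hm'⟩ : ∃ m', m - 1 = m' + 1 := ⟨m - 2, by omega⟩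
        rw [hm', pow_succ 2 m', ← pow_mul, mul_comm, mul_comm (2 ^ m') 2, mul_assoc, pow_mul, hu,
          one_pow]
      rw [h3, mul_one, ← pow_mul, ← pow_mul, mul_comm]
    rcases hcpow i with h2 | h2
    · exfalso
      rw [h2] at h1
      exact hc1 ((map_eq_one_iff α α.injective).1 h1)
    · rw [h1, h2]
  -- `u` is fixed
  have hαu : α u = u := by
    have h1 : (α u) ^ 2 = 1 := by rw [← map_pow, hu, map_one]
    rcases hsq _ (hPα u hPu) h1 with h2 | h2 | h2 | h2
    · exfalso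
      have : u = 1 := (map_eq_one_iff α α.injective).1 h2
      have h3 := hug 0
      rw [pow_zero] at h3
      exact h3 this
    · exfalso
      rw [← hαc] at h2
      exact huc (α.injective h2)
    · exact h2
    · exfalso
      have hcu : α u = u * c := by rw [h2]; exact hcomm c u hPc hPu
      have := stab_eq_one α hr hα hαc hcu (N := 1) (by simpa using hc2)
      exact hc1 this
  -- `g ^ 2` is fixed
  have hαy : α (g ^ 2) = g ^ 2 := by
    obtain ⟨k, hk⟩ := hαg2
    have h1 := pow_aut α hk r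
    rw [hα, MulAut.one_apply] at h1
    have hordy : orderOf (g ^ 2) = 2 ^ (m - 1) := by
      rw [orderOf_pow_of_dvd (by norm_num) (by rw [hg, h2m]; exact dvd_mul_right _ _), hg, h2m]
      exact Nat.mul_div_cancel_left _ (by norm_num)
    have h3 : (g ^ 2) ^ 1 = (g ^ 2) ^ (k ^ r) := by rw [pow_one]; exact h1
    have h4' := (pow_eq_pow_iff_modEq.1 h3).symm
    rw [hordy] at h4'
    have h5 := odd_root k r (m - 1) hr h4'
    rw [← hordy] at h5
    have h6 := (pow_eq_pow_iff_modEq.2 h5)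
    rw [hk, h6, pow_one]
  -- `g` is fixed
  have hge : g * e = 1 := by
    rw [he, ← pow_succ', Nat.sub_add_cancel Nat.one_le_two_pow, hg2m]
  have hαg : α g = g := by
    set d := e * α g with hd
    have hPd : P d := hmul _ _ hPe (hPα g hPg)
    have hd2 : d ^ 2 = 1 := by
      have h1 : Commute e (α g) := hcomm _ _ hPe (hPα g hPg)
      rw [hd, h1.mul_pow, ← map_pow, hαy]
      have h2 : (e * g) ^ 2 = e ^ 2 * g ^ 2 := (show Commute e g from hcomm e g hPe hPg).mul_pow 2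
      rw [← h2, heg, one_pow]
    have hcu : α (c * u) = c * u := by rw [map_mul, hαc, hαu]
    have hαd : α d = d := by
      rcases hsq d hPd hd2 with h | h | h | h <;> rw [h]
      · exact map_one α
      · exact hαc
      · exact hαu
      · exact hcu
    have hgd : α g = g * d := by
      rw [hd, ← mul_assoc, hge, one_mul]
    have := stab_eq_one α hr hα hαd hgd (N := 1) (by simpa using hd2)
    rw [hgd, this, mul_one]
  have hfixP : ∀ x, P x → α x = x := by
    intro x hx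
    obtain ⟨i, j, rfl⟩ := hgen x hx
    rw [map_mul, map_pow, map_pow, hαg, hαu]
  have hpow2m : ∀ x, P x → x ^ (2 ^ m) = 1 := by
    intro x hx
    obtain ⟨i, j, rfl⟩ := hgen x hx
    have huu : (u ^ j) ^ (2 ^ m) = 1 := by
      rw [h2m, pow_mul, ← pow_mul u j 2, mul_comm j 2, pow_mul, hu, one_pow, one_pow]
    rw [(hguu.pow_pow i j).mul_pow, huu, mul_one, ← pow_mul, mul_comm, pow_mul, hg2m, one_pow]
  ext x
  rw [MulAut.one_apply]
  by_cases hx : P x
  · exact hfixP x hx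
  · have hy : ¬ P (α x) := fun h => hx (hPback x h)
    have hx4 := h4 x hx
    have hinv : x⁻¹ = x * x * x := by
      rw [inv_eq_iff_mul_eq_one]
      have : x * (x * x * x) = x ^ 4 := by
        simp only [pow_succ, pow_zero, one_mul, mul_assoc]
      rw [this, hx4]
    set d := x⁻¹ * α x with hd
    have hPd : P d := by
      rw [hd, hinv, mul_assoc (x * x)]
      exact hmul _ _ (hnp _ _ hx hx) (hnp _ _ hx hy)
    have hxd : α x = x * d := by
      rw [hd, mul_inv_cancel_left]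
    have := stab_eq_one α hr hα (hfixP d hPd) hxd (hpow2m d hPd)
    rw [hxd, this, mul_one]

theorem abs_three (P : T → Prop) (w : T)
    (hmul : ∀ x y, P x → P y → P (x * y))
    (hw4 : w ^ 4 = 1) (hw2 : w ^ 2 ≠ 1) (hPw : P w)
    (hP : ∀ x, P x → x = 1 ∨ x = w ^ 2 ∨ x = w ∨ x = w ^ 3)
    (h2 : ∀ x, ¬ P x → x ^ 2 = 1) (hnp : ∀ x y, ¬ P x → ¬ P y → P (x * y))
    (α : MulAut T) (r : ℕ) (hr : Odd r) (hα : α ^ r = 1) : α = 1 := by
  have hw3 : (w ^ 3) ^ 2 = w ^ 2 := by
    have : (w ^ 3) ^ 2 = w ^ 4 * w ^ 2 := by rw [← pow_mul, ← pow_add]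
    rw [this, hw4, one_mul]
  have hw22 : (w ^ 2) ^ 2 = 1 := by rw [← pow_mul]; exact hw4
  have hαw2 : (α w) ^ 2 ≠ 1 := by
    rw [← map_pow]
    intro h
    exact hw2 ((map_eq_one_iff α α.injective).1 h)
  have hPαw : P (α w) := by
    by_contra h
    exact hαw2 (h2 _ h)
  have hc : α (w ^ 2) = w ^ 2 := by
    rw [map_pow]
    rcases hP _ hPαw with h | h | h | h
    · exfalso; rw [h, one_pow] at hαw2; exact hαw2 rfl
    · exfalso; rw [h, hw22] at hαw2; exact hαw2 rfl
    · rw [h]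
    · rw [h, hw3]
  have hαw : α w = w := by
    rcases hP _ hPαw with h | h | h | h
    · exfalso; rw [h, one_pow] at hαw2; exact hαw2 rfl
    · exfalso; rw [h, hw22] at hαw2; exact hαw2 rfl
    · exact h
    · exfalso
      have h5 : α w = w * w ^ 2 := by rw [h, pow_succ' w 2]
      have := stab_eq_one α hr hα hc h5 (N := 1) (by simpa using hw22)
      exact hw2 this
  have hfixP : ∀ x, P x → α x = x := by
    intro x hx
    rcases hP x hx with h | h | h | h <;> rw [h]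
    · exact map_one α
    · exact hc
    · exact hαw
    · rw [map_pow, hαw]
  ext x
  rw [MulAut.one_apply]
  by_cases hx : P x
  · exact hfixP x hx
  · have hy : ¬ P (α x) := by
      intro h
      apply hx
      have h5 := hfixP _ h
      have h6 : α x = x := α.injective h5
      rw [h6] at h
      exact h
    have hinv : x⁻¹ = x := by
      rw [inv_eq_iff_mul_eq_one, ← pow_two, h2 x hx]
    set d := x⁻¹ * α x with hd
    have hPd : P d := by
      rw [hd, hinv]
      exact hnp _ _ hx hy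
    have hxd : α x = x * d := by
      rw [hd, mul_inv_cancel_left]
    have hd4 : d ^ (2 ^ 2) = 1 := by
      rcases hP d hPd with h | h | h | h <;> rw [h]
      · simp
      · rw [← pow_mul]
        rw [show 2 * 2 ^ 2 = 4 * 2 by norm_num, pow_mul, hw4, one_pow]
      · exact hw4
      · rw [← pow_mul]
        rw [show 3 * 2 ^ 2 = 4 * 3 by norm_num, pow_mul, hw4, one_pow]
    have := stab_eq_one α hr hα (hfixP d hPd) hxd hd4
    rw [hxd, this, mul_one]

end abstract

section concrete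

variable {q : ℕ} [Fact q.Prime]

abbrev L (q : ℕ) [Fact q.Prime] := (Fin 2 → ZMod q) ≃ₗ[ZMod q] (Fin 2 → ZMod q)

def IsD (f : L q) (a s : ZMod q) : Prop := ∀ v, f v = ![a * v 0, s * a⁻¹ * v 1]
def IsW (f : L q) (a s : ZMod q) : Prop := ∀ v, f v = ![s * a⁻¹ * v 1, a * v 0]

lemma IsD.mul {f f' : L q} {a s b t : ZMod q} (h : IsD f a s) (h' : IsD f' b t) :
    IsD (f * f') (a * b) (s * t) := by
  intro v
  rw [LinearEquiv.mul_apply, h', h]
  ext i; fin_cases i <;> simp [mul_inv] <;> ring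

lemma IsD.mulW {f f' : L q} {a s b t : ZMod q} (hs : s ≠ 0) (h : IsD f a s) (h' : IsW f' b t) :
    IsW (f * f') (s * a⁻¹ * b) (s * t) := by
  intro v
  rw [LinearEquiv.mul_apply, h', h]
  ext i; fin_cases i
  · simp [mul_inv]
    field_simp
  · simp [mul_inv]
    ring

lemma IsW.mulD {f f' : L q} {a s b t : ZMod q} (h : IsW f a s) (h' : IsD f' b t) :
    IsW (f * f') (a * b) (s * t) := by
  intro v
  rw [LinearEquiv.mul_apply, h', h]
  ext i; fin_cases i <;> simp [mul_inv] <;> ring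

lemma IsW.mul {f f' : L q} {a s b t : ZMod q} (hs : s ≠ 0) (h : IsW f a s) (h' : IsW f' b t) :
    IsD (f * f') (s * a⁻¹ * b) (s * t) := by
  intro v
  rw [LinearEquiv.mul_apply, h', h]
  ext i; fin_cases i
  · simp [mul_inv]
    ring
  · simp [mul_inv]
    field_simp

lemma isD_one : IsD (1 : L q) 1 1 := by
  intro v
  ext i; fin_cases i <;> simp

lemma IsD.pow {f : L q} {a s : ZMod q} (h : IsD f a s) (n : ℕ) : IsD (f ^ n) (a ^ n) (s ^ n) := by
  induction n with
  | zero => simpa using isD_one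
  | succ n ih =>
    rw [pow_succ, pow_succ, pow_succ]
    exact ih.mul h

lemma IsD.eq {f f' : L q} {a s : ZMod q} (h : IsD f a s) (h' : IsD f' a s) : f = f' :=
  LinearEquiv.ext fun v => (h v).trans (h' v).symm

lemma IsW.eq {f f' : L q} {a s : ZMod q} (h : IsW f a s) (h' : IsW f' a s) : f = f' :=
  LinearEquiv.ext fun v => (h v).trans (h' v).symm

lemma IsD.unique {f : L q} {a s b t : ZMod q} (ha : a ≠ 0) (h : IsD f a s) (h' : IsD f b t) :
    a = b ∧ s = t := by
  have h1 := (h ![1, 0]).symm.trans (h' ![1, 0])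
  have h2 := congrFun h1 0
  simp at h2
  subst h2
  refine ⟨rfl, ?_⟩
  have h3 := (h ![0, 1]).symm.trans (h' ![0, 1])
  have h4 := congrFun h3 1
  simp at h4
  rcases h4 with h4 | h4
  · exact h4
  · exact absurd h4 ha

/-- the diagonal maps -/
def mkD (a s : ZMod q) (ha : a ≠ 0) (hs : s ≠ 0) : L q where
  toFun v := ![a * v 0, s * a⁻¹ * v 1]
  map_add' := by
    intro x y
    ext i; fin_cases i <;> simp <;> ring
  map_smul' := by
    intro c x
    ext i; fin_cases i <;> simp <;> ring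
  invFun v := ![a⁻¹ * v 0, (s * a⁻¹)⁻¹ * v 1]
  left_inv := by
    intro v
    ext i; fin_cases i
    · simp; field_simp
    · simp; field_simp
  right_inv := by
    intro v
    ext i; fin_cases i
    · simp; field_simp
    · simp; field_simp

lemma isD_mkD (a s : ZMod q) (ha : a ≠ 0) (hs : s ≠ 0) : IsD (mkD a s ha hs) a s := fun _ => rfl

/-- the antidiagonal maps -/
def mkW (a s : ZMod q) (ha : a ≠ 0) (hs : s ≠ 0) : L q where
  toFun v := ![s * a⁻¹ * v 1, a * v 0]
  map_add' := by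
    intro x y
    ext i; fin_cases i <;> simp <;> ring
  map_smul' := by
    intro c x
    ext i; fin_cases i <;> simp <;> ring
  invFun v := ![a⁻¹ * v 1, (s * a⁻¹)⁻¹ * v 0]
  left_inv := by
    intro v
    ext i; fin_cases i
    · simp; field_simp
    · simp; field_simp
  right_inv := by
    intro v
    ext i; fin_cases i
    · simp; field_simp
    · simp; field_simp

lemma isW_mkW (a s : ZMod q) (ha : a ≠ 0) (hs : s ≠ 0) : IsW (mkW a s ha hs) a s := fun _ => rfl

lemma sign_ne_zero {s : ZMod q} (hs : s = 1 ∨ s = -1) : s ≠ 0 := by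
  rcases hs with rfl | rfl
  · exact one_ne_zero
  · exact neg_ne_zero.2 one_ne_zero

lemma sign_mul {s t : ZMod q} (hs : s = 1 ∨ s = -1) (ht : t = 1 ∨ t = -1) :
    s * t = 1 ∨ s * t = -1 := by
  rcases hs with rfl | rfl <;> rcases ht with rfl | rfl <;> simp

lemma sign_sq {s : ZMod q} (hs : s = 1 ∨ s = -1) : s * s = 1 := by
  rcases hs with rfl | rfl <;> simp

theorem key_main (m : ℕ) (hm : 3 ≤ m) (hq : q = 2 ^ m + 1) (T : Subgroup (L q))
    (hT : ∀ f, f ∈ T ↔ ∃ a s : ZMod q, a ≠ 0 ∧ (s = 1 ∨ s = -1) ∧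
      ((∀ v, f v = ![a * v 0, s * a⁻¹ * v 1]) ∨ (∀ v, f v = ![s * a⁻¹ * v 1, a * v 0])))
    (α : MulAut T) (r : ℕ) (hr : Odd r) (hα : α ^ r = 1) : α = 1 := by
  classical
  let P : T → Prop := fun x => ∃ a s : ZMod q, a ≠ 0 ∧ (s = 1 ∨ s = -1) ∧ IsD (x : L q) a s
  have hPN : ∀ x : T, ¬ P x → ∃ a s : ZMod q, a ≠ 0 ∧ (s = 1 ∨ s = -1) ∧ IsW (x : L q) a s := by
    intro x hx
    obtain ⟨a, s, ha, hs, h | h⟩ := (hT x.1).1 x.2
    · exact absurd ⟨a, s, ha, hs, h⟩ hx
    · exact ⟨a, s, ha, hs, h⟩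
  have hq3 : 2 < q := by
    have : 2 ^ 3 ≤ 2 ^ m := Nat.pow_le_pow_right (by norm_num) hm
    omega
  haveI : Fact (2 < q) := ⟨hq3⟩
  have hneg1 : (-1 : ZMod q) ≠ 1 := ZMod.neg_one_ne_one
  -- a generator
  have hcardU : Nat.card (ZMod q)ˣ = 2 ^ m := by
    rw [Nat.card_eq_fintype_card, ZMod.card_units, hq]; simp
  obtain ⟨ζ, hζ⟩ := IsCyclic.exists_generator (α := (ZMod q)ˣ)
  have hζord : orderOf ζ = 2 ^ m := by
    rw [← hcardU]; exact orderOf_eq_card_of_forall_mem_zpowers hζ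
  set z : ZMod q := (ζ : ZMod q) with hz
  have hz0 : z ≠ 0 := ζ.ne_zero
  have hzpow : ∀ a : ZMod q, a ≠ 0 → ∃ i : ℕ, a = z ^ i := by
    intro a ha
    have h1 := hζ (Units.mk0 a ha)
    rw [← mem_powers_iff_mem_zpowers] at h1
    obtain ⟨i, hi⟩ := h1
    refine ⟨i, ?_⟩
    have := congrArg Units.val hi
    simpa using this.symm
  have h10 : (1 : ZMod q) ≠ 0 := one_ne_zero
  have hn10 : (-1 : ZMod q) ≠ 0 := neg_ne_zero.2 one_ne_zero
  let g : T := ⟨mkD z 1 hz0 h10, (hT _).2 ⟨z, 1, hz0, Or.inl rfl, Or.inl (isD_mkD z 1 hz0 h10)⟩⟩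
  let u : T := ⟨mkD 1 (-1) h10 hn10,
    (hT _).2 ⟨1, -1, h10, Or.inr rfl, Or.inl (isD_mkD 1 (-1) h10 hn10)⟩⟩
  have hgD : IsD (g : L q) z 1 := isD_mkD z 1 hz0 h10
  have huD : IsD (u : L q) 1 (-1) := isD_mkD 1 (-1) h10 hn10
  have hgpow : ∀ n : ℕ, IsD ((g ^ n : T) : L q) (z ^ n) 1 := by
    intro n
    have := hgD.pow n
    rw [one_pow] at this
    exact this
  have hupow : ∀ n : ℕ, IsD ((u ^ n : T) : L q) 1 ((-1) ^ n) := by
    intro n
    have := huD.pow n
    rw [one_pow] at this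
    exact this
  have hone : ∀ x : T, IsD (x : L q) 1 1 → x = 1 := by
    intro x hx
    apply Subtype.ext
    exact hx.eq isD_one
  have hisone : ∀ a s : ZMod q, IsD ((1 : T) : L q) a s → a = 1 ∧ s = 1 := by
    intro a s h
    have := IsD.unique (by exact h10) isD_one h
    exact ⟨this.1.symm, this.2.symm⟩
  refine abs_main (T := T) P g u m hm ?_ ?_ ?_ ?_ ?_ ⟨z, 1, hz0, Or.inl rfl, hgD⟩
    ⟨1, -1, h10, Or.inr rfl, huD⟩ ?_ ?_ ?_ α r hr hα
  · rintro x y ⟨a, s, ha, hs, hx⟩ ⟨b, t, hb, ht, hy⟩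
    exact ⟨a * b, s * t, mul_ne_zero ha hb, sign_mul hs ht, hx.mul hy⟩
  · rintro x y ⟨a, s, ha, hs, hx⟩ ⟨b, t, hb, ht, hy⟩
    apply Subtype.ext
    have h1 := hx.mul hy
    have h2 := hy.mul hx
    rw [mul_comm b a, mul_comm t s] at h2
    exact h1.eq h2
  · intro x hx
    obtain ⟨a, s, ha, hs, hw⟩ := hPN x hx
    have h1 : IsD ((x * x : T) : L q) (s * a⁻¹ * a) (s * s) := hw.mul (sign_ne_zero hs) hw
    have h2 : IsD ((x * x * (x * x) : T) : L q) _ _ := h1.mul h1
    have h3 : x ^ 4 = x * x * (x * x) := by simp [pow_succ, mul_assoc]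
    rw [h3]
    apply hone
    have h4 : s * a⁻¹ * a = s := by field_simp
    rw [h4, sign_sq hs] at h2
    simpa using h2
  · intro x y hx hy
    obtain ⟨a, s, ha, hs, hw⟩ := hPN x hx
    obtain ⟨b, t, hb, ht, hw'⟩ := hPN y hy
    refine ⟨s * a⁻¹ * b, s * t, ?_, sign_mul hs ht, hw.mul (sign_ne_zero hs) hw'⟩
    exact mul_ne_zero (mul_ne_zero (sign_ne_zero hs) (inv_ne_zero ha)) hb
  · rintro x ⟨a, s, ha, hs, hx⟩
    obtain ⟨i, rfl⟩ := hzpow a ha
    obtain ⟨j, hj⟩ : ∃ j : ℕ, s = (-1) ^ j := by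
      rcases hs with rfl | rfl
      · exact ⟨0, by simp⟩
      · exact ⟨1, by simp⟩
    refine ⟨i, j, ?_⟩
    apply Subtype.ext
    have h1 : IsD ((g ^ i * u ^ j : T) : L q) (z ^ i * 1) (1 * (-1) ^ j) :=
      (hgpow i).mul (hupow j)
    rw [mul_one, one_mul, ← hj] at h1
    exact hx.eq h1
  · rw [← hζord]
    rw [orderOf_eq_orderOf_iff]
    intro n
    constructor
    · intro h
      have h1 := hgpow n
      rw [h] at h1
      have h2 := (hisone _ _ h1).1
      apply Units.ext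
      simpa using h2
    · intro h
      have h1 := hgpow n
      have h2 : z ^ n = 1 := by
        have := congrArg Units.val h
        simpa using this
      rw [h2] at h1
      exact hone _ (by simpa using h1)
  · apply hone
    have h1 : IsD ((u * u : T) : L q) (1 * 1) ((-1) * (-1)) := huD.mul huD
    have h2 : u ^ 2 = u * u := pow_two u
    rw [h2]
    simpa using h1
  · intro i hi
    have h1 := hgpow i
    rw [← hi] at h1
    have h2 := IsD.unique h10 huD h1
    exact hneg1 h2.2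

theorem key_three (T : Subgroup (L 3))
    (hT : ∀ f, f ∈ T ↔ ∃ a s : ZMod 3, a ≠ 0 ∧ (s = 1 ∨ s = -1) ∧
      ((∀ v, f v = ![a * v 0, s * a⁻¹ * v 1]) ∨ (∀ v, f v = ![s * a⁻¹ * v 1, a * v 0])))
    (α : MulAut T) (r : ℕ) (hr : Odd r) (hα : α ^ r = 1) : α = 1 := by
  classical
  have hsq : ∀ a : ZMod 3, a ≠ 0 → a * a = 1 := by decide
  have hcases : ∀ a : ZMod 3, a ≠ 0 → a = 1 ∨ a = -1 := by decide
  have hinv1 : (-1 : ZMod 3)⁻¹ = -1 := inv_neg_one
  have hneg1 : (-1 : ZMod 3) ≠ 1 := by decide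
  have h10 : (1 : ZMod 3) ≠ 0 := by decide
  have hn10 : (-1 : ZMod 3) ≠ 0 := by decide
  let P : T → Prop := fun x => (∃ a : ZMod 3, a ≠ 0 ∧ IsD (x : L 3) a 1) ∨
    (∃ a : ZMod 3, a ≠ 0 ∧ IsW (x : L 3) a (-1))
  have hN : ∀ x : T, ¬ P x → (∃ a : ZMod 3, a ≠ 0 ∧ IsD (x : L 3) a (-1)) ∨
      (∃ a : ZMod 3, a ≠ 0 ∧ IsW (x : L 3) a 1) := by
    intro x hx
    obtain ⟨a, s, ha, hs, h | h⟩ := (hT x.1).1 x.2
    · rcases hs with rfl | rfl
      · exact absurd (Or.inl ⟨a, ha, h⟩) hx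
      · exact Or.inl ⟨a, ha, h⟩
    · rcases hs with rfl | rfl
      · exact Or.inr ⟨a, ha, h⟩
      · exact absurd (Or.inr ⟨a, ha, h⟩) hx
  have hone : ∀ x : T, IsD (x : L 3) 1 1 → x = 1 := by
    intro x hx
    apply Subtype.ext
    exact hx.eq isD_one
  let w : T := ⟨mkW 1 (-1) h10 hn10,
    (hT _).2 ⟨1, -1, h10, Or.inr rfl, Or.inr (isW_mkW 1 (-1) h10 hn10)⟩⟩
  have hwW : IsW (w : L 3) 1 (-1) := isW_mkW 1 (-1) h10 hn10
  have hw2D : IsD ((w ^ 2 : T) : L 3) (-1) 1 := by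
    have h1 : IsD ((w * w : T) : L 3) _ _ := hwW.mul hn10 hwW
    rw [pow_two]
    simpa using h1
  have hw3W : IsW ((w ^ 3 : T) : L 3) (-1) (-1) := by
    have h1 : IsW ((w ^ 2 * w : T) : L 3) _ _ := hw2D.mulW h10 hwW
    rw [pow_succ]
    simpa [hinv1] using h1
  refine abs_three (T := T) P w ?_ ?_ ?_ (Or.inr ⟨1, h10, hwW⟩) ?_ ?_ ?_ α r hr hα
  · rintro x y (⟨a, ha, hx⟩ | ⟨a, ha, hx⟩) (⟨b, hb, hy⟩ | ⟨b, hb, hy⟩)
    · left
      refine ⟨a * b, mul_ne_zero ha hb, ?_⟩
      have := hx.mul hy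
      simpa using this
    · right
      refine ⟨1 * a⁻¹ * b, mul_ne_zero (mul_ne_zero h10 (inv_ne_zero ha)) hb, ?_⟩
      have := hx.mulW h10 hy
      simpa using this
    · right
      refine ⟨a * b, mul_ne_zero ha hb, ?_⟩
      have := hx.mulD hy
      simpa using this
    · left
      refine ⟨(-1) * a⁻¹ * b, mul_ne_zero (mul_ne_zero hn10 (inv_ne_zero ha)) hb, ?_⟩
      have := hx.mul hn10 hy
      simpa using this
  · apply hone
    have h1 : IsD ((w ^ 2 * w ^ 2 : T) : L 3) _ _ := hw2D.mul hw2D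
    have h2 : w ^ 4 = w ^ 2 * w ^ 2 := by rw [← pow_add]
    rw [h2]
    simpa using h1
  · intro h
    rw [h] at hw2D
    have := IsD.unique h10 isD_one hw2D
    exact hneg1 this.1.symm
  · rintro x (⟨a, ha, hx⟩ | ⟨a, ha, hx⟩)
    · rcases hcases a ha with rfl | rfl
      · left; exact hone x hx
      · right; left
        apply Subtype.ext
        exact hx.eq hw2D
    · rcases hcases a ha with rfl | rfl
      · right; right; left
        apply Subtype.ext
        exact hx.eq hwW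
      · right; right; right
        apply Subtype.ext
        exact hx.eq hw3W
  · intro x hx
    rw [pow_two]
    apply hone
    rcases hN x hx with ⟨a, ha, h⟩ | ⟨a, ha, h⟩
    · have h1 : IsD ((x * x : T) : L 3) _ _ := h.mul h
      rw [hsq a ha] at h1
      simpa using h1
    · have h1 : IsD ((x * x : T) : L 3) _ _ := h.mul h10 h
      have h2 : (1 : ZMod 3) * a⁻¹ * a = 1 := by
        rw [one_mul, inv_mul_cancel₀ ha]
      rw [h2] at h1
      simpa using h1
  · intro x y hx hy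
    rcases hN x hx with ⟨a, ha, h⟩ | ⟨a, ha, h⟩ <;> rcases hN y hy with ⟨b, hb, h'⟩ | ⟨b, hb, h'⟩
    · left
      refine ⟨a * b, mul_ne_zero ha hb, ?_⟩
      have := h.mul h'
      simpa using this
    · right
      refine ⟨(-1) * a⁻¹ * b, mul_ne_zero (mul_ne_zero hn10 (inv_ne_zero ha)) hb, ?_⟩
      have := h.mulW hn10 h'
      simpa using this
    · right
      refine ⟨a * b, mul_ne_zero ha hb, ?_⟩
      have := h.mulD h'
      simpa using this
    · left
      refine ⟨1 * a⁻¹ * b, mul_ne_zero (mul_ne_zero h10 (inv_ne_zero ha)) hb, ?_⟩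
      have := h.mul h10 h'
      simpa using this

theorem key_two (T : Subgroup (L 2))
    (hT : ∀ f, f ∈ T ↔ ∃ a s : ZMod 2, a ≠ 0 ∧ (s = 1 ∨ s = -1) ∧
      ((∀ v, f v = ![a * v 0, s * a⁻¹ * v 1]) ∨ (∀ v, f v = ![s * a⁻¹ * v 1, a * v 0])))
    (α : MulAut T) : α = 1 := by
  classical
  have hcases : ∀ a : ZMod 2, a ≠ 0 → a = 1 := by decide
  have hs1 : ∀ s : ZMod 2, (s = 1 ∨ s = -1) → s = 1 := by decide
  have hform : ∀ x : T, x = 1 ∨ IsW (x : L 2) 1 1 := by
    intro x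
    obtain ⟨a, s, ha, hs, h | h⟩ := (hT x.1).1 x.2
    · left
      rw [hcases a ha, hs1 s hs] at h
      apply Subtype.ext
      exact (show IsD (x : L 2) 1 1 from h).eq isD_one
    · right
      rw [hcases a ha, hs1 s hs] at h
      exact h
  refine MulEquiv.ext fun x => ?_
  rw [MulAut.one_apply]
  rcases hform x with rfl | hx
  · exact map_one α
  · rcases hform (α x) with h | h
    · have h1 : x = 1 := (map_eq_one_iff α α.injective).1 h
      rw [h1, map_one]
    · apply Subtype.ext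
      exact h.eq hx

end concrete

theorem result (q m : ℕ) [Fact q.Prime] (hq : q = 2 ^ m + 1) (hq5 : q ≠ 5)
    (T : Subgroup ((Fin 2 → ZMod q) ≃ₗ[ZMod q] (Fin 2 → ZMod q)))
    (hT : ∀ f, f ∈ T ↔ ∃ a s : ZMod q, a ≠ 0 ∧ (s = 1 ∨ s = -1) ∧
      ((∀ v, f v = ![a * v 0, s * a⁻¹ * v 1]) ∨ (∀ v, f v = ![s * a⁻¹ * v 1, a * v 0]))) :
    IsPGroup 2 (MulAut T) := by
  have key : ∀ (α : MulAut T) (r : ℕ), Odd r → α ^ r = 1 → α = 1 := by
    intro α r hr hα
    have hm : m = 0 ∨ m = 1 ∨ 3 ≤ m := by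
      by_contra hcon
      have : m = 2 := by omega
      subst this
      exact hq5 (by rw [hq]; norm_num)
    rcases hm with rfl | rfl | hm
    · have hq2 : q = 2 := by rw [hq]; norm_num
      subst hq2
      exact key_two T hT α
    · have hq3 : q = 3 := by rw [hq]; norm_num
      subst hq3
      exact key_three T hT α r hr hα
    · exact key_main m hm hq T hT α r hr hα
  haveI : Finite (L q) := Finite.of_injective (fun f : L q => (f : (Fin 2 → ZMod q) → (Fin 2 → ZMod q)))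
    DFunLike.coe_injective
  haveI : Finite (MulAut T) := Finite.of_injective (fun f : MulAut T => (f : T → T))
    DFunLike.coe_injective
  intro α
  obtain ⟨k, r, hr, hk⟩ := Nat.exists_eq_two_pow_mul_odd (orderOf_pos α).ne'
  refine ⟨k, key _ r hr ?_⟩
  rw [← pow_mul, ← hk]
  exact pow_orderOf_eq_one α

end Cfsg.Agent.S3382
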