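import Cfsg.Statements.S3383
import Cfsg.Agent.Lib.Frobenius.Basic
import Mathlib

set_option autoImplicit false
open Cfsg

namespace Cfsg.Agent.S3383

open Cfsg.Agent.Lib.Frobenius.Basic
open scoped Pointwise

variable {L : Type*} [Group L] [Finite L]

lemma mem_K {H : Subgroup L} {K : Subgroup L} (hK : (K : Set L) = Cfsg.frobeniusKernel H) (x : L) :
    x ∈ K ↔ (x = 1 ∨ ∀ g : L, g⁻¹ * x * g ∉ H) := by
  have : x ∈ (K : Set L) ↔ x ∈ Cfsg.frobeniusKernel H := by rw [hK]
  rw [SetLike.mem_coe] at this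
  rw [this]
  simp only [Cfsg.frobeniusKernel, Set.mem_setOf_eq, mem_conj_iff]

lemma normal_K {H K : Subgroup L} (hK : (K : Set L) = Cfsg.frobeniusKernel H) : K.Normal := by
  constructor
  intro n hn g
  rw [mem_K hK] at hn ⊢
  rcases hn with h | h
  · left; simp [h]
  · right
    intro g'
    have := h (g⁻¹ * g')
    intro hcontra
    apply this
    have e : (g⁻¹ * g')⁻¹ * n * (g⁻¹ * g') = g'⁻¹ * g * n * (g⁻¹ * g') := by group
    rw [e]
    have e2 : g'⁻¹ * (g * n * g⁻¹) * g' = g'⁻¹ * g * n * (g⁻¹ * g') := by group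
    rw [← e2]
    exact hcontra

lemma le_or_le {H K : Subgroup L} (hH : Cfsg.IsFrobeniusComplement H)
    (hK : (K : Set L) = Cfsg.frobeniusKernel H) (N : Subgroup L) (hN : N.Normal) : K ≤ N ∨ N ≤ K := by
  classical
  by_cases hNK : N ≤ K
  · exact Or.inr hNK
  · left
    obtain ⟨n, hn, hnK⟩ := SetLike.not_le_iff_exists.mp hNK
    rw [mem_K hK] at hnK
    push Not at hnK
    obtain ⟨hn1, g, hg⟩ := hnK
    set n₀ := g⁻¹ * n * g with hn₀
    have hn₀N : n₀ ∈ N := by
      have := hN.conj_mem n hn g⁻¹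
      simpa [hn₀] using this
    have hn₀1 : n₀ ≠ 1 := by
      intro h
      apply hn1
      have : n = g * n₀ * g⁻¹ := by rw [hn₀]; group
      rw [this, h]; simp
    have hKn := normal_K hK
    -- centraliser in K of n₀ is trivial
    have hcent : ∀ u ∈ K, u * n₀ * u⁻¹ = n₀ → u = 1 := by
      intro u hu hc
      rw [mem_K hK] at hu
      rcases hu with hu | hu
      · exact hu
      · exfalso
        by_cases huH : u ∈ H
        · have := hu 1
          simp at this
          exact this huH
        · have : n₀ = 1 := by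
            refine eq_one_of_mem_of_conj_mem hH huH hg ?_
            rw [hc]; exact hg
          exact hn₀1 this
    let φ : K → K := fun k => ⟨k * (n₀ * (k : L)⁻¹ * n₀⁻¹), K.mul_mem k.2 (by
      have := hKn.conj_mem _ (K.inv_mem k.2) n₀
      simpa using this)⟩
    have hinj : Function.Injective φ := by
      intro a b hab
      have h : (a : L) * (n₀ * (a : L)⁻¹ * n₀⁻¹) = b * (n₀ * (b : L)⁻¹ * n₀⁻¹) := congrArg Subtype.val hab
      have hu := hcent ((b : L)⁻¹ * a) (K.mul_mem (K.inv_mem b.2) a.2) (by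
        have h2 : (b : L)⁻¹ * a * (n₀ * (a : L)⁻¹ * n₀⁻¹) * n₀ * (b : L) = n₀ := by
          calc (b : L)⁻¹ * a * (n₀ * (a : L)⁻¹ * n₀⁻¹) * n₀ * (b : L)
              = (b : L)⁻¹ * ((a : L) * (n₀ * (a : L)⁻¹ * n₀⁻¹)) * n₀ * (b : L) := by group
            _ = (b : L)⁻¹ * ((b : L) * (n₀ * (b : L)⁻¹ * n₀⁻¹)) * n₀ * (b : L) := by rw [h]
            _ = n₀ := by group
        calc (b : L)⁻¹ * a * n₀ * ((b : L)⁻¹ * a)⁻¹ = (b : L)⁻¹ * a * n₀ * ((a : L)⁻¹ * b) := by group
          _ = (b : L)⁻¹ * a * (n₀ * (a : L)⁻¹ * n₀⁻¹) * n₀ * (b : L) := by group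
          _ = n₀ := h2)
      apply Subtype.ext
      have : (a : L) = b := by
        have := hu
        rw [inv_mul_eq_one] at this
        exact this.symm
      exact this
    have hsurj : Function.Surjective φ := Finite.surjective_of_injective hinj
    intro k hk
    obtain ⟨k', hk'⟩ := hsurj ⟨k, hk⟩
    have : k = (k' : L) * (n₀ * (k' : L)⁻¹ * n₀⁻¹) := (congrArg Subtype.val hk').symm
    rw [this]
    have e : (k' : L) * (n₀ * (k' : L)⁻¹ * n₀⁻¹) = ((k' : L) * n₀ * (k' : L)⁻¹) * n₀⁻¹ := by group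
    rw [e]
    exact N.mul_mem (hN.conj_mem _ hn₀N _) (N.inv_mem hn₀N)

/-- Let H be a Frobenius complement in a finite group L and K the Frobenius kernel (as a subgroup). Then K is characteristic in L, and every normal subgroup of L either contains K or is contained in K. -/
theorem result {L : Type*} [Group L] [Finite L]
    (H : Subgroup L) (hH : Cfsg.IsFrobeniusComplement H)
    (K : Subgroup L) (hK : (K : Set L) = Cfsg.frobeniusKernel H) :
    K.Characteristic ∧ ∀ N : Subgroup L, N.Normal → K ≤ N ∨ N ≤ K := by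
  refine ⟨?_, fun N hN => le_or_le hH hK N hN⟩
  have hKn := normal_K hK
  rw [Subgroup.characteristic_iff_le_comap]
  intro σ
  have hnorm : (K.comap σ.toMonoidHom).Normal := hKn.comap _
  -- `K.comap σ` has the same cardinality as `K`
  have hcard : Nat.card (K.comap σ.toMonoidHom) = Nat.card K := by
    refine Nat.card_congr ?_
    exact (σ.subgroupMap (K.comap σ.toMonoidHom)).toEquiv.trans (by
      have : (K.comap σ.toMonoidHom).map σ.toMonoidHom = K := by
        exact Subgroup.map_comap_eq_self_of_surjective σ.surjective K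
      exact Equiv.setCongr (congrArg (fun S : Subgroup L => (S : Set L)) this))
  rcases le_or_le hH hK _ hnorm with h | h
  · exact h
  · have := Subgroup.eq_of_le_of_card_ge h (by rw [hcard])
    rw [this]

end Cfsg.Agent.S3383
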