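import Cfsg.Statements.S3419
import Cfsg.Agent.Lib.AltSpec.Main
import Cfsg.Agent.Lib.Solvable.Hall
import Mathlib

set_option autoImplicit false

open Cfsg

namespace Cfsg.Agent.S3419

open Cfsg.Agent.Lib.AltSpec

/-- Elements of mixed order in groups of order `r c` with a unique Sylow `r`-subgroup. -/
theorem hall_elem {K : Type*} [Group K] [Finite K] {r s c : ℕ} (hr : r.Prime) (hs : s.Prime)
    (hrs : r ≠ s) (hK : Nat.card K = r * c) (hrc : ¬ r ∣ c) (hsc : s ∣ c) (hsr : ¬ s ∣ r - 1)
    (hdiv : ∀ d, d ∣ c → d ≡ 1 [MOD r] → d = 1) : ∃ g : K, orderOf g = r * s := by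
  have : Fact r.Prime := ⟨hr⟩
  have : Fact s.Prime := ⟨hs⟩
  obtain ⟨P⟩ : Nonempty (Sylow r K) := inferInstance
  have hi : ¬ r ∣ (P : Subgroup K).index := P.not_dvd_index
  obtain ⟨k, hk⟩ := (IsPGroup.iff_card).1 P.isPGroup'
  have hmul := (P : Subgroup K).card_mul_index
  rw [hK, hk] at hmul
  have hc0 : c ≠ 0 := by
    rintro rfl
    exact hrc (dvd_zero _)
  have hk1 : k = 1 := by
    rcases k with _ | _ | k
    · simp only [pow_zero, one_mul] at hmul
      exact absurd (Dvd.intro _ hmul.symm) hi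
    · rfl
    · exfalso
      apply hrc
      have h1 : r ^ (k + 1 + 1) = r * (r * r ^ k) := by ring
      rw [h1, mul_assoc] at hmul
      have h2 := Nat.eq_of_mul_eq_mul_left hr.pos hmul
      rw [← h2, mul_assoc]
      exact dvd_mul_right _ _
  subst hk1
  rw [pow_one] at hk hmul
  have hic : (P : Subgroup K).index = c := Nat.eq_of_mul_eq_mul_left hr.pos hmul
  have hcard1 : Nat.card (Sylow r K) = 1 :=
    hdiv _ (by rw [← hic]; exact P.card_dvd_index) (card_sylow_modEq_one r K)
  have hsub : Subsingleton (Sylow r K) := (Nat.card_eq_one_iff_unique.1 hcard1).1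
  have hnorm : (P : Subgroup K).Normal := Sylow.normal_of_subsingleton P
  obtain ⟨y, hy⟩ := exists_prime_orderOf_dvd_card' (G := K) s (by rw [hK]; exact hsc.trans (dvd_mul_left _ _))
  refine exists_orderOf_mul hr hs hrs hk hy ?_ hsr
  rw [Subgroup.normalizer_eq_top]
  trivial

/-- Let n ≥ 5 and let G be a finite group with the same order and the same set of element orders as the alternating group of degree n. Then G is not solvable. -/
theorem result {G : Type*} [Group G] [Finite G] (n : ℕ) (hn : 5 ≤ n)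
    (hcard : Nat.card G = Nat.card ↥(alternatingGroup (Fin n)))
    (hspec : Set.range (orderOf : G → ℕ) = Set.range (orderOf : ↥(alternatingGroup (Fin n)) → ℕ)) :
    ¬ Group.IsSolvable G := by
  intro hsolv
  have hmixed : ∀ (r s : ℕ) (_ : r.Prime) (_ : s.Prime) (_ : r ≠ s) (_ : n < r * s) (_ : n < r + s),
      (∃ g : G, orderOf g = r * s) → False := by
    intro r s hr hs hrs h1 h2 ⟨g, hg⟩
    have h3 : r * s ∈ Set.range (orderOf : G → ℕ) := ⟨g, hg⟩
    rw [hspec] at h3
    exact not_mem_orders hr hs hrs h1 h2 h3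
  rcases (by omega : n = 6 ∨ n = 10 ∨ (n ≠ 6 ∧ n ≠ 10)) with rfl | rfl | ⟨h6, h10⟩
  · have h2 := two_mul_card_alt (n := 6) (by omega)
    rw [← hcard, show Nat.factorial 6 = 720 from rfl] at h2
    obtain ⟨K, hK⟩ := Cfsg.Agent.Lib.Solvable.Hall.exists_card_eq (G := G) 45 8 (by omega) (by norm_num)
    obtain ⟨g, hg⟩ := hall_elem (K := K) (r := 5) (s := 3) (c := 9) (by norm_num) (by norm_num)
      (by norm_num) (by rw [hK]) (by norm_num) (by norm_num) (by norm_num)
      (by
        intro d hd hmod
        have hle := Nat.le_of_dvd (by norm_num) hd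
        interval_cases d <;> first | rfl | (exfalso; revert hd; decide) | (exfalso; revert hmod; decide))
    exact hmixed 5 3 (by norm_num) (by norm_num) (by norm_num) (by norm_num) (by norm_num)
      ⟨g, by rw [Subgroup.orderOf_coe, hg]⟩
  · have h2 := two_mul_card_alt (n := 10) (by omega)
    rw [← hcard, show Nat.factorial 10 = 3628800 from rfl] at h2
    obtain ⟨K, hK⟩ := Cfsg.Agent.Lib.Solvable.Hall.exists_card_eq (G := G) 175 10368 (by omega) (by norm_num)
    obtain ⟨g, hg⟩ := hall_elem (K := K) (r := 7) (s := 5) (c := 25) (by norm_num) (by norm_num)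
      (by norm_num) (by rw [hK]) (by norm_num) (by norm_num) (by norm_num)
      (by
        intro d hd hmod
        have hle := Nat.le_of_dvd (by norm_num) hd
        interval_cases d <;> first | rfl | (exfalso; revert hd; decide) | (exfalso; revert hmod; decide))
    exact hmixed 7 5 (by norm_num) (by norm_num) (by norm_num) (by norm_num) (by norm_num)
      ⟨g, by rw [Subgroup.orderOf_coe, hg]⟩
  · have key : ∃ p q : ℕ, p.Prime ∧ q.Prime ∧ q < p ∧ n < 2 * q ∧ p ≤ n := by
      rcases (by omega : n = 5 ∨ n = 7 ∨ n = 8 ∨ n = 9 ∨ n = 11 ∨ 12 ≤ n) with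
        rfl | rfl | rfl | rfl | rfl | h
      · exact ⟨5, 3, by norm_num, by norm_num, by norm_num, by norm_num, by norm_num⟩
      · exact ⟨7, 5, by norm_num, by norm_num, by norm_num, by norm_num, by norm_num⟩
      · exact ⟨7, 5, by norm_num, by norm_num, by norm_num, by norm_num, by norm_num⟩
      · exact ⟨7, 5, by norm_num, by norm_num, by norm_num, by norm_num, by norm_num⟩
      · exact ⟨11, 7, by norm_num, by norm_num, by norm_num, by norm_num, by norm_num⟩
      · obtain ⟨p, q, hp, hq, hqp, h1, h2⟩ := TwoPrimes.two_primes (n / 2) (by omega)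
        exact ⟨p, q, hp, hq, hqp, by omega, by omega⟩
    obtain ⟨p, q, hp, hq, hqp, h1, h2⟩ := key
    obtain ⟨N, H, hN, hH, hNH, hs, hd⟩ := alt_section n (by omega) hcard hspec p hp h2 (by omega)
    have hnc := not_comm_of_two_primes hp hq (by omega) (hd p hp (by omega) h2) (hd q hq h1 (by omega))
    have hsolvH : Group.IsSolvable H := inferInstance
    have hsolvQ : Group.IsSolvable (H ⧸ N.subgroupOf H) := inferInstance
    have hcomm := (IsSimpleGroup.comm_iff_isSolvable (G := H ⧸ N.subgroupOf H)).2 hsolvQ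
    exact hnc ⟨⟨hcomm⟩⟩

end Cfsg.Agent.S3419
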