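import Cfsg.Statements.S3420
import Cfsg.Agent.Lib.AltSpec.Main
import Mathlib

set_option autoImplicit false

open Cfsg

namespace Cfsg.Agent.S3420

open Cfsg.Agent.Lib.AltSpec

/-- Let n ≥ 11 and let G be a finite group with the same order and the same set of element orders as the alternating group of degree n. Then G has normal subgroups N < H such that H/N is a non-abelian simple group whose order is divisible by every prime p with n/2 < p ≤ n. -/
theorem result {G : Type*} [Group G] [Finite G] (n : ℕ) (hn : 11 ≤ n)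
    (hcard : Nat.card G = Nat.card ↥(alternatingGroup (Fin n)))
    (hspec : Set.range (orderOf : G → ℕ) = Set.range (orderOf : ↥(alternatingGroup (Fin n)) → ℕ)) :
    ∃ (N H : Subgroup G) (_ : N.Normal), H.Normal ∧ N < H ∧
      IsSimpleGroup (↥H ⧸ N.subgroupOf H) ∧ ¬ IsMulCommutative (↥H ⧸ N.subgroupOf H) ∧
      ∀ p : ℕ, p.Prime → n < 2 * p → p ≤ n → p ∣ Nat.card (↥H ⧸ N.subgroupOf H) := by
  have key : ∃ p q : ℕ, p.Prime ∧ q.Prime ∧ q < p ∧ n < 2 * q ∧ p ≤ n := by
    rcases Nat.lt_or_ge n 12 with h | h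
    · have : n = 11 := by omega
      subst this
      exact ⟨11, 7, by norm_num, by norm_num, by norm_num, by norm_num, by norm_num⟩
    · obtain ⟨p, q, hp, hq, hqp, h1, h2⟩ := TwoPrimes.two_primes (n / 2) (by omega)
      exact ⟨p, q, hp, hq, hqp, by omega, by omega⟩
  obtain ⟨p, q, hp, hq, hqp, h1, h2⟩ := key
  obtain ⟨N, H, hN, hH, hNH, hs, hd⟩ := alt_section n (by omega) hcard hspec p hp h2 (by omega)
  refine ⟨N, H, hN, hH, hNH, hs, ?_, hd⟩
  exact not_comm_of_two_primes hp hq (by omega) (hd p hp (by omega) h2) (hd q hq h1 (by omega))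

end Cfsg.Agent.S3420
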