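import Mathlib
import Cfsg.Statements.S4003
import Cfsg.Agent.Lib.PGroups.NormalRankTwo
import Cfsg.Agent.Lib.PGroups.Basic

set_option autoImplicit false
set_option linter.all false
open Cfsg

namespace Cfsg.Agent.S4003

open Subgroup

section gen

variable {G : Type*} [Group G] [Finite G]

lemma card_gen (q₀ : G) : Nat.card {q : G // zpowers q = zpowers q₀} = (orderOf q₀).totient := by
  classical
  haveI : Fintype G := Fintype.ofFinite G
  haveI : Fintype (zpowers q₀) := Fintype.ofFinite _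
  have h := IsCyclic.card_orderOf_eq_totient (α := zpowers q₀) (d := orderOf q₀)
    (by rw [← Nat.card_eq_fintype_card, Nat.card_zpowers])
  rw [← h, ← Nat.card_eq_fintype_card (α := {a : zpowers q₀ // orderOf a = orderOf q₀})
    |>.trans (Fintype.card_subtype _)]
  apply Nat.card_congr
  refine
    { toFun := fun q => ⟨⟨q.1, by have h0 := mem_zpowers q.1; rwa [q.2] at h0⟩, ?_⟩
      invFun := fun a => ⟨a.1.1, ?_⟩
      left_inv := fun q => rfl
      right_inv := fun a => rfl }
  · rw [Subgroup.orderOf_mk, ← Nat.card_zpowers, q.2, Nat.card_zpowers]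
  · have h1 : orderOf a.1.1 = orderOf q₀ := by rw [Subgroup.orderOf_coe]; exact a.2
    apply Subgroup.eq_of_le_of_card_ge
    · rw [zpowers_le]; exact a.1.2
    · rw [Nat.card_zpowers, Nat.card_zpowers, h1]

/-- a generator-closed set of elements of order `d`. -/
lemma ncard_eq_totient_mul (S : Set G) (d : ℕ) (hord : ∀ q ∈ S, orderOf q = d)
    (hcl : ∀ q ∈ S, ∀ k : ℕ, k.Coprime d → q ^ k ∈ S) :
    S.ncard = d.totient * ((fun q => zpowers q) '' S).ncard := by
  classical
  haveI : Fintype G := Fintype.ofFinite G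
  haveI : Finite (Subgroup G) := inferInstance
  haveI : Fintype (Subgroup G) := Fintype.ofFinite _
  have hfib : ∀ C ∈ ((fun q => zpowers q) '' S),
      ({q ∈ S | zpowers q = C}).ncard = d.totient := by
    rintro C ⟨q₀, hq₀, rfl⟩
    have h1 := card_gen q₀
    rw [hord q₀ hq₀] at h1
    rw [← h1, ← Nat.card_coe_set_eq]
    apply Nat.card_congr
    refine
      { toFun := fun q => ⟨q.1, q.2.2⟩
        invFun := fun q => ⟨q.1, ?_, q.2⟩
        left_inv := fun q => rfl
        right_inv := fun q => rfl }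
    have h2 : q.1 ∈ zpowers q₀ := by have h0 := mem_zpowers q.1; rwa [q.2] at h0
    obtain ⟨k, hk'⟩ := (mem_powers_iff_mem_zpowers.2 h2)
    have hk : q₀ ^ k = q.1 := hk'
    have h3 : orderOf q.1 = d := by
      rw [← Nat.card_zpowers, q.2, Nat.card_zpowers, hord q₀ hq₀]
    have h4 : orderOf (q₀ ^ k) = d := by rw [hk]; exact h3
    have hpos : 0 < d := by
      rw [← hord q₀ hq₀]
      exact orderOf_pos q₀
    have h5 : k.Coprime d := by
      rw [orderOf_pow, hord q₀ hq₀] at h4
      have h6 := Nat.div_mul_cancel (Nat.gcd_dvd_left d k)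
      rw [h4] at h6
      have h7 : d.gcd k = 1 := by
        have : d * d.gcd k = d * 1 := by rw [h6, mul_one]
        exact Nat.eq_of_mul_eq_mul_left hpos this
      rw [Nat.Coprime, Nat.gcd_comm]
      exact h7
    have := hcl q₀ hq₀ k h5
    rw [hk] at this
    exact this
  -- sum over fibres
  have hS : S.Finite := Set.toFinite S
  have hI : ((fun q => zpowers q) '' S).Finite := Set.toFinite _
  have key : S.ncard = ∑ C ∈ hI.toFinset, ({q ∈ S | zpowers q = C}).ncard := by
    have h1 := Finset.card_eq_sum_card_fiberwise (s := hS.toFinset) (t := hI.toFinset)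
      (f := fun q => zpowers q) (by
        intro q hq
        simp only [Set.Finite.coe_toFinset] at hq ⊢
        exact ⟨q, hq, rfl⟩)
    rw [Set.ncard_eq_toFinset_card S hS, h1]
    apply Finset.sum_congr rfl
    intro C _
    rw [Set.ncard_eq_toFinset_card _ (Set.toFinite _)]
    congr 1
    ext q
    simp
  rw [key, Finset.sum_congr rfl (fun C hC => hfib C (by simpa using hC))]
  rw [Finset.sum_const, Set.ncard_eq_toFinset_card _ hI, smul_eq_mul, mul_comm]

end gen

section class2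

variable {P : Type*} [Group P]

lemma pow_comm_c {y z c : P} (h : z * y = y * z * c) (hcy : Commute c y) (hcz : Commute c z) (k : ℕ) :
    z ^ k * y = y * z ^ k * c ^ k := by
  induction k with
  | zero => simp
  | succ k ih =>
    have h1 : Commute (c ^ k) z := hcz.pow_left k
    calc z ^ (k + 1) * y = z ^ k * (z * y) := by rw [pow_succ]; group
      _ = z ^ k * (y * z * c) := by rw [h]
      _ = (z ^ k * y) * z * c := by group
      _ = (y * z ^ k * c ^ k) * z * c := by rw [ih]
      _ = y * z ^ k * (c ^ k * z) * c := by group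
      _ = y * z ^ k * (z * c ^ k) * c := by rw [h1.eq]
      _ = y * z ^ (k + 1) * c ^ (k + 1) := by
        rw [pow_succ z k, pow_succ c k]; group

lemma mul_pow_class2 {y z c : P} (h : z * y = y * z * c) (hcy : Commute c y) (hcz : Commute c z) (k : ℕ) :
    (y * z) ^ k = y ^ k * z ^ k * c ^ (k.choose 2) := by
  induction k with
  | zero => simp
  | succ k ih =>
    have h1 : Commute (c ^ (k.choose 2)) y := hcy.pow_left _
    have h2 : Commute (c ^ (k.choose 2)) z := hcz.pow_left _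
    have h3 := pow_comm_c h hcy hcz k
    have hch : (k + 1).choose 2 = k + k.choose 2 := by
      rw [Nat.choose_succ_succ' k 1]
      simp
    calc (y * z) ^ (k + 1) = (y * z) ^ k * (y * z) := pow_succ _ _
      _ = y ^ k * z ^ k * c ^ (k.choose 2) * (y * z) := by rw [ih]
      _ = y ^ k * z ^ k * (c ^ (k.choose 2) * y) * z := by group
      _ = y ^ k * z ^ k * (y * c ^ (k.choose 2)) * z := by rw [h1.eq]
      _ = y ^ k * (z ^ k * y) * c ^ (k.choose 2) * z := by group
      _ = y ^ k * (y * z ^ k * c ^ k) * c ^ (k.choose 2) * z := by rw [h3]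
      _ = y ^ k * y * z ^ k * c ^ k * (c ^ (k.choose 2) * z) := by group
      _ = y ^ k * y * z ^ k * c ^ k * (z * c ^ (k.choose 2)) := by rw [h2.eq]
      _ = y ^ k * y * z ^ k * (c ^ k * z) * c ^ (k.choose 2) := by group
      _ = y ^ k * y * z ^ k * (z * c ^ k) * c ^ (k.choose 2) := by rw [(hcz.pow_left k).eq]
      _ = y ^ (k + 1) * z ^ (k + 1) * c ^ ((k + 1).choose 2) := by
        rw [hch, pow_add c, pow_succ y, pow_succ z]; group

end class2

section fib

lemma ncard_fiberwise {α β : Type*} [Finite α] [Finite β] (S : Set α) (f : α → β) (c : ℕ)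
    (h : ∀ b ∈ f '' S, ({a ∈ S | f a = b}).ncard = c) : S.ncard = c * (f '' S).ncard := by
  classical
  have hS : S.Finite := Set.toFinite S
  have hI : (f '' S).Finite := Set.toFinite _
  have key : S.ncard = ∑ C ∈ hI.toFinset, ({q ∈ S | f q = C}).ncard := by
    have h1 := Finset.card_eq_sum_card_fiberwise (s := hS.toFinset) (t := hI.toFinset)
      (f := f) (by
        intro q hq
        simp only [Set.Finite.coe_toFinset] at hq ⊢
        exact ⟨q, hq, rfl⟩)
    rw [Set.ncard_eq_toFinset_card S hS, h1]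
    apply Finset.sum_congr rfl
    intro C _
    rw [Set.ncard_eq_toFinset_card _ (Set.toFinite _)]
    congr 1
    ext q
    simp
  rw [key, Finset.sum_congr rfl (fun C hC => h C (by simpa using hC))]
  rw [Finset.sum_const, Set.ncard_eq_toFinset_card _ hI, smul_eq_mul, mul_comm]

end fib

section pgroup

variable {P : Type*} [Group P] [Finite P] {p : ℕ} [hp : Fact p.Prime]

open Cfsg.Agent.Lib.PGroups.Basic Cfsg.Agent.Lib.PGroups.NormalRankTwo

lemma comm_mem_center (hG : IsPGroup p P) (E : Subgroup P) [hEn : E.Normal] (hE : Nat.card E = p ^ 2) :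
    ∀ z ∈ E, ∀ y : P, z⁻¹ * y⁻¹ * z * y ∈ center P := by
  classical
  have hEb : E ≠ ⊥ := by
    rintro rfl
    have : Nat.card (⊥ : Subgroup P) = 1 := Nat.card_unique
    rw [this] at hE
    have := Nat.one_lt_pow (n := 2) (by norm_num) hp.out.one_lt
    omega
  obtain ⟨w, hwE, hwZ, hwp⟩ := exists_central_orderOf_eq hG E hEb
  set E₁ := zpowers w with hE₁
  have hE₁Z : E₁ ≤ center P := by rw [hE₁, zpowers_le]; exact hwZ
  have hE₁n : E₁.Normal := by
    constructor
    intro n hn g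
    have := (mem_center_iff.mp (hE₁Z hn)) g
    rw [this, mul_inv_cancel_right]
    exact hn
  have hE₁E : E₁ ≤ E := by rw [hE₁, zpowers_le]; exact hwE
  have hE₁c : Nat.card E₁ = p := by rw [hE₁, Nat.card_zpowers, hwp]
  let π := QuotientGroup.mk' E₁
  have hπ : Function.Surjective π := QuotientGroup.mk'_surjective E₁
  haveI hNn : (E.map π).Normal := hEn.map π hπ
  have hNb : E.map π ≠ ⊥ := by
    intro h
    have h1 : E ≤ E₁ := by
      intro x hx
      have h2 : π x ∈ E.map π := mem_map_of_mem π hx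
      rw [h, mem_bot] at h2
      exact (QuotientGroup.eq_one_iff x).1 h2
    have h2 := Subgroup.card_le_of_le (H := E) (K := E₁) h1
    rw [hE, hE₁c] at h2
    have h3 := hp.out.one_lt
    nlinarith
  obtain ⟨zb, hzbN, hzbZ, hzbp⟩ := exists_central_orderOf_eq (hG.to_quotient E₁) (E.map π) hNb
  obtain ⟨z₀, hz₀E, rfl⟩ := mem_map.1 hzbN
  let K : Subgroup P := (center (P ⧸ E₁)).comap π
  have hDE : K ⊓ E = E := by
    have hle : K ⊓ E ≤ E := inf_le_right
    have hE₁D : E₁ ≤ K ⊓ E := by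
      refine le_inf ?_ hE₁E
      intro x hx
      have h1 : π x = 1 := (QuotientGroup.eq_one_iff x).2 hx
      show π x ∈ center _
      rw [h1]
      exact one_mem _
    have hz₀D : z₀ ∈ K ⊓ E := ⟨hzbZ, hz₀E⟩
    have hz₀E₁ : z₀ ∉ E₁ := by
      intro h
      have h1 : π z₀ = 1 := (QuotientGroup.eq_one_iff z₀).2 h
      rw [h1, orderOf_one] at hzbp
      exact hp.out.ne_one hzbp.symm
    have hlt : Nat.card E₁ < Nat.card ↥(K ⊓ E) := by
      have h1 : E₁ < K ⊓ E := lt_of_le_of_ne hE₁D (by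
        rintro h
        rw [← h] at hz₀D
        exact hz₀E₁ hz₀D)
      exact card_lt_of_lt h1
    have hdvd : Nat.card ↥(K ⊓ E) ∣ p ^ 2 := by
      rw [← hE]
      exact Subgroup.card_dvd_of_le hle
    obtain ⟨i, hi, hic⟩ := (Nat.dvd_prime_pow hp.out).1 hdvd
    rw [hE₁c, hic] at hlt
    have hi2 : i = 2 := by
      by_contra hne
      have : i = 0 ∨ i = 1 := by omega
      rcases this with rfl | rfl <;> simp at hlt
      exact absurd hlt (by have := hp.out.pos; omega)
    subst hi2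
    apply Subgroup.eq_of_le_of_card_ge hle
    rw [hE, hic]
  intro z hz y
  have hzK : z ∈ K := by
    rw [← hDE] at hz
    exact hz.1
  have h1 : π z ∈ center (P ⧸ E₁) := hzK
  have h2 : π (z⁻¹ * y⁻¹ * z * y) = 1 := by
    have h3 := (mem_center_iff.mp h1) (π y)
    rw [map_mul, map_mul, map_mul, map_inv, map_inv]
    have h4 : π y⁻¹ = (π y)⁻¹ := map_inv _ _
    calc (π z)⁻¹ * (π y)⁻¹ * π z * π y = (π z)⁻¹ * (π y)⁻¹ * (π z * π y) := by group
      _ = (π z)⁻¹ * (π y)⁻¹ * (π y * π z) := by rw [h3]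
      _ = 1 := by group
  exact hE₁Z ((QuotientGroup.eq_one_iff _).1 h2)

lemma mul_pow_eq (hp2 : p ≠ 2) (hG : IsPGroup p P) (E : Subgroup P) [hEn : E.Normal]
    (hE : Nat.card E = p ^ 2) (hEe : ∀ a ∈ E, a ^ p = 1) (y z : P) (hz : z ∈ E) (j : ℕ)
    (hj : j ≠ 0) : (y * z) ^ (p ^ j) = y ^ (p ^ j) := by
  set c := z⁻¹ * y⁻¹ * z * y with hc
  have hcZ : c ∈ center P := comm_mem_center hG E hE z hz y
  have hcE : c ∈ E := by
    have h1 : y⁻¹ * z * y ∈ E := by
      have := hEn.conj_mem z hz y⁻¹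
      simpa using this
    have h2 : c = z⁻¹ * (y⁻¹ * z * y) := by rw [hc]; group
    rw [h2]
    exact mul_mem (inv_mem hz) h1
  have hzy : z * y = y * z * c := by rw [hc]; group
  have hcy : Commute c y := (mem_center_iff.mp hcZ y).symm
  have hcz : Commute c z := (mem_center_iff.mp hcZ z).symm
  rw [mul_pow_class2 hzy hcy hcz]
  obtain ⟨i, rfl⟩ : ∃ i, j = i + 1 := ⟨j - 1, by omega⟩
  have h1 : z ^ p ^ (i + 1) = 1 := by
    rw [pow_succ', pow_mul, hEe z hz, one_pow]
  have hne : 2 ≠ p ^ (i + 1) := by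
    intro h
    have h3 : p ∣ 2 := by
      rw [h]
      exact dvd_pow_self p (by omega)
    exact hp2 ((Nat.prime_dvd_prime_iff_eq hp.out Nat.prime_two).1 h3)
  obtain ⟨e, he⟩ := hp.out.dvd_choose_pow (k := 2) (n := i + 1) (by norm_num) hne
  rw [he, h1, pow_mul, hEe c hcE]
  simp

lemma order_mul (hp2 : p ≠ 2) (hG : IsPGroup p P) (E : Subgroup P) [hEn : E.Normal]
    (hE : Nat.card E = p ^ 2) (hEe : ∀ a ∈ E, a ^ p = 1) {y z : P} (hz : z ∈ E) {j : ℕ}
    (hj : j ≠ 0) (hy : orderOf y = p ^ (j + 1)) : orderOf (y * z) = p ^ (j + 1) := by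
  apply orderOf_eq_prime_pow
  · rw [mul_pow_eq hp2 hG E hE hEe y z hz j hj]
    apply pow_ne_one_of_lt_orderOf
    · exact (pow_pos hp.out.pos j).ne'
    · rw [hy]
      exact Nat.pow_lt_pow_right hp.out.one_lt (by omega)
  · rw [mul_pow_eq hp2 hG E hE hEe y z hz (j + 1) (by omega), ← hy]
    exact pow_orderOf_eq_one y

/-- the main p-group lemma. -/
lemma main_pgroup (hp2 : p ≠ 2) (hG : IsPGroup p P) (hnc : ¬ IsCyclic P) (j : ℕ) (hj : j ≠ 0) :
    p ^ (j + 1) ∣ Nat.card {y : P // orderOf y = p ^ (j + 1)} := by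
  classical
  obtain ⟨E, hEn, hEe, hE⟩ := exists_normal_card_sq hp2 hG hnc
  let X : Set P := {y | orderOf y = p ^ (j + 1)}
  have hXc : Nat.card {y : P // orderOf y = p ^ (j + 1)} = X.ncard := by
    rw [← Nat.card_coe_set_eq]
    rfl
  rw [hXc]
  let π : P → P ⧸ E := fun x => (x : P ⧸ E)
  have hfib := ncard_fiberwise X π (p ^ 2) (by
    rintro _ ⟨x₀, hx₀, rfl⟩
    rw [← hE, ← Nat.card_coe_set_eq]
    apply Nat.card_congr
    refine
      { toFun := fun x => ⟨x₀⁻¹ * x.1, ?_⟩
        invFun := fun z => ⟨x₀ * z.1, order_mul hp2 hG E hE hEe z.2 hj hx₀, ?_⟩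
        left_inv := fun x => by simp
        right_inv := fun z => by simp }
    · exact QuotientGroup.eq.1 x.2.2.symm
    · apply QuotientGroup.eq.2
      simp)
  rw [hfib]
  let S := π '' X
  have hord : ∀ q ∈ S, orderOf q = p ^ (j + 1) ∨ orderOf q = p ^ j := by
    rintro _ ⟨x, hx, rfl⟩
    have hx' : orderOf x = p ^ (j + 1) := hx
    have h1 : orderOf (π x) ∣ p ^ (j + 1) := by
      apply orderOf_dvd_of_pow_eq_one
      show ((x ^ p ^ (j + 1) : P) : P ⧸ E) = 1
      rw [← hx', pow_orderOf_eq_one]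
      rfl
    obtain ⟨i, hi, hic⟩ := (Nat.dvd_prime_pow hp.out).1 h1
    by_cases hi1 : i = j + 1
    · left; rw [hic, hi1]
    by_cases hi2 : i = j
    · right; rw [hic, hi2]
    exfalso
    have hi3 : i + 1 ≤ j := by omega
    have h2 : (π x) ^ p ^ i = 1 := by
      rw [← hic]
      exact pow_orderOf_eq_one _
    have h3 : x ^ p ^ i ∈ E := by
      have h4 : ((x ^ p ^ i : P) : P ⧸ E) = 1 := h2
      exact (QuotientGroup.eq_one_iff _).1 h4
    have h4 : x ^ p ^ (i + 1) = 1 := by
      rw [pow_succ, pow_mul]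
      exact hEe _ h3
    have h5 := orderOf_dvd_of_pow_eq_one h4
    rw [hx'] at h5
    have h6 := (Nat.pow_dvd_pow_iff_le_right hp.out.one_lt).1 h5
    omega
  have hcop : ∀ k : ℕ, ∀ l : ℕ, l ≠ 0 → k.Coprime (p ^ l) → k.Coprime (p ^ (j + 1)) := by
    intro k l hl hk
    apply Nat.Coprime.pow_right
    exact Nat.Coprime.coprime_dvd_right (dvd_pow_self p hl) hk
  have hclosed : ∀ q ∈ S, ∀ k : ℕ, k.Coprime (p ^ (j + 1)) → q ^ k ∈ S := by
    rintro _ ⟨x, hx, rfl⟩ k hk
    refine ⟨x ^ k, ?_, rfl⟩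
    have hx' : orderOf x = p ^ (j + 1) := hx
    show orderOf (x ^ k) = _
    rw [Nat.Coprime.orderOf_pow (by rw [hx']; exact hk.symm), hx']
  let S₁ : Set (P ⧸ E) := {q ∈ S | orderOf q = p ^ (j + 1)}
  let S₂ : Set (P ⧸ E) := {q ∈ S | orderOf q = p ^ j}
  have h₁ := ncard_eq_totient_mul S₁ (p ^ (j + 1)) (fun q hq => hq.2) (by
    intro q hq k hk
    refine ⟨hclosed q hq.1 k hk, ?_⟩
    rw [Nat.Coprime.orderOf_pow (by rw [hq.2]; exact hk.symm), hq.2])
  have h₂ := ncard_eq_totient_mul S₂ (p ^ j) (fun q hq => hq.2) (by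
    intro q hq k hk
    refine ⟨hclosed q hq.1 k (hcop k j hj hk), ?_⟩
    rw [Nat.Coprime.orderOf_pow (by rw [hq.2]; exact hk.symm), hq.2])
  have hsplit : S.ncard = S₁.ncard + S₂.ncard := by
    have hdisj : Disjoint S₁ S₂ := by
      rw [Set.disjoint_left]
      intro q h1 h2
      have h3 := h1.2.symm.trans h2.2
      have := Nat.pow_right_injective hp.out.two_le h3
      omega
    have hU : S = S₁ ∪ S₂ := by
      ext q
      constructor
      · intro hq
        rcases hord q hq with h | h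
        · exact Or.inl ⟨hq, h⟩
        · exact Or.inr ⟨hq, h⟩
      · rintro (h | h)
        · exact h.1
        · exact h.1
    rw [hU, Set.ncard_union_eq hdisj (Set.toFinite _) (Set.toFinite _)]
  obtain ⟨i, rfl⟩ : ∃ i, j = i + 1 := ⟨j - 1, by omega⟩
  have hd₁ : p ^ i ∣ S₁.ncard := by
    rw [h₁, Nat.totient_prime_pow hp.out (by omega)]
    simp only [Nat.add_sub_cancel]
    exact Dvd.dvd.mul_right (Dvd.dvd.mul_right (pow_dvd_pow p (by omega)) _) _
  have hd₂ : p ^ i ∣ S₂.ncard := by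
    rw [h₂, Nat.totient_prime_pow hp.out (by omega)]
    simp only [Nat.add_sub_cancel]
    exact Dvd.dvd.mul_right (Dvd.dvd.mul_right (pow_dvd_pow p (by omega)) _) _
  have hd : p ^ i ∣ S.ncard := by
    rw [hsplit]
    exact dvd_add hd₁ hd₂
  have : p ^ (i + 1 + 1) = p ^ 2 * p ^ i := by ring
  rw [this]
  exact Nat.mul_dvd_mul_left _ hd

end pgroup

section main

variable {G : Type*} [Group G] [Finite G] {p : ℕ} [hp : Fact p.Prime]

lemma parts (x : G) {A m : ℕ} (hx : orderOf x = A * m) (hcop : Nat.Coprime A m) (a b : ℤ)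
    (hab : a + b = 1) (ha : (m : ℤ) ∣ a) (hb : (A : ℤ) ∣ b) :
    orderOf (x ^ a) = A ∧ orderOf (x ^ b) = m ∧ x ^ a * x ^ b = x := by
  have h3 : x ^ a * x ^ b = x := by
    rw [← zpow_add, hab, zpow_one]
  obtain ⟨v, rfl⟩ := ha
  obtain ⟨u, rfl⟩ := hb
  have h1 : (x ^ ((m : ℤ) * v)) ^ A = 1 := by
    rw [← zpow_natCast, ← zpow_mul]
    have : (m : ℤ) * v * (A : ℤ) = ((A * m : ℕ) : ℤ) * v := by push_cast; ring
    rw [this, zpow_mul, zpow_natCast, ← hx, pow_orderOf_eq_one, one_zpow]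
  have h2 : (x ^ ((A : ℤ) * u)) ^ m = 1 := by
    rw [← zpow_natCast, ← zpow_mul]
    have : (A : ℤ) * u * (m : ℤ) = ((A * m : ℕ) : ℤ) * u := by push_cast; ring
    rw [this, zpow_mul, zpow_natCast, ← hx, pow_orderOf_eq_one, one_zpow]
  have hd1 := orderOf_dvd_of_pow_eq_one h1
  have hd2 := orderOf_dvd_of_pow_eq_one h2
  have hc : Commute (x ^ ((m : ℤ) * v)) (x ^ ((A : ℤ) * u)) := (Commute.refl x).zpow_zpow _ _
  have hco : Nat.Coprime (orderOf (x ^ ((m : ℤ) * v))) (orderOf (x ^ ((A : ℤ) * u))) :=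
    Nat.Coprime.coprime_dvd_left hd1 (Nat.Coprime.coprime_dvd_right hd2 hcop)
  have h4 := hc.orderOf_mul_eq_mul_orderOf_of_coprime hco
  rw [h3, hx] at h4
  have hApos : 0 < A * m := by rw [← hx]; exact orderOf_pos x
  have hA0 : 0 < A := Nat.pos_of_mul_pos_right hApos
  have hm0 : 0 < m := Nat.pos_of_mul_pos_left hApos
  have h5 : A ∣ orderOf (x ^ ((m : ℤ) * v)) := by
    have : A ∣ orderOf (x ^ ((m : ℤ) * v)) * orderOf (x ^ ((A : ℤ) * u)) := by
      rw [← h4]; exact dvd_mul_right _ _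
    exact (Nat.Coprime.coprime_dvd_right hd2 hcop).dvd_of_dvd_mul_right this
  have h6 : m ∣ orderOf (x ^ ((A : ℤ) * u)) := by
    have : m ∣ orderOf (x ^ ((m : ℤ) * v)) * orderOf (x ^ ((A : ℤ) * u)) := by
      rw [← h4]; exact dvd_mul_left _ _
    exact (Nat.Coprime.coprime_dvd_right hd1 hcop.symm).dvd_of_dvd_mul_left this
  exact ⟨Nat.dvd_antisymm hd1 h5, Nat.dvd_antisymm hd2 h6, h3⟩

lemma unparts {y w : G} {A m : ℕ} (hy : y ^ A = 1) (hw : w ^ m = 1) (hc : Commute y w) (a b : ℤ)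
    (hab : a + b = 1) (ha : (m : ℤ) ∣ a) (hb : (A : ℤ) ∣ b) :
    (y * w) ^ a = y ∧ (y * w) ^ b = w := by
  obtain ⟨v, hv⟩ := ha
  obtain ⟨u, hu⟩ := hb
  have hya : y ^ b = 1 := by rw [hu, zpow_mul, zpow_natCast, hy, one_zpow]
  have hwa : w ^ a = 1 := by rw [hv, zpow_mul, zpow_natCast, hw, one_zpow]
  constructor
  · rw [hc.mul_zpow, hwa, mul_one]
    have : a = 1 - b := by omega
    rw [this, zpow_sub, hya, zpow_one, inv_one, mul_one]
  · rw [hc.mul_zpow, hya, one_mul]
    have : b = 1 - a := by omega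
    rw [this, zpow_sub, hwa, zpow_one, inv_one, mul_one]

/-- the conjugation action on pairs. -/
@[reducible] def pairAct (T : Subgroup G) : MulAction T (G × Subgroup G) where
  smul g q := ((g : G) * q.1 * (g : G)⁻¹, q.2.map (MulAut.conj (g : G)).toMonoidHom)
  one_smul q := by
    apply Prod.ext
    · show ((1 : T) : G) * q.1 * ((1 : T) : G)⁻¹ = q.1
      simp
    · show q.2.map (MulAut.conj ((1 : T) : G)).toMonoidHom = q.2
      ext x
      simp [Subgroup.mem_map]
  mul_smul g h q := by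
    apply Prod.ext
    · show ((g * h : T) : G) * q.1 * ((g * h : T) : G)⁻¹ =
        (g : G) * ((h : G) * q.1 * (h : G)⁻¹) * (g : G)⁻¹
      simp [mul_assoc]
    · show q.2.map (MulAut.conj ((g * h : T) : G)).toMonoidHom =
        (q.2.map (MulAut.conj (h : G)).toMonoidHom).map (MulAut.conj (g : G)).toMonoidHom
      rw [Subgroup.map_map]
      congr 1
      ext x
      simp [MulAut.conj_apply, mul_assoc]

lemma dvd_of_no_fixed {Q α : Type*} [Group Q] (hQ : IsPGroup p Q) [MulAction Q α] (S : Set α)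
    [Finite S] (hinv : ∀ (g : Q), ∀ x ∈ S, g • x ∈ S) (hfix : ∀ x ∈ S, ∃ g : Q, g • x ≠ x) :
    p ∣ S.ncard := by
  let S' : SubMulAction Q α := ⟨S, fun g {x} hx => hinv g x hx⟩
  haveI : Finite S' := ‹Finite S›
  have hemp : IsEmpty (MulAction.fixedPoints Q S') := by
    constructor
    rintro ⟨⟨x, hx⟩, hfx⟩
    obtain ⟨g, hg⟩ := hfix x hx
    apply hg
    have := hfx g
    exact congrArg Subtype.val this
  have h1 := hQ.card_modEq_card_fixedPoints S'
  rw [Nat.card_of_isEmpty (α := MulAction.fixedPoints Q S')] at h1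
  have h2 : Nat.card S' = S.ncard := Nat.card_coe_set_eq S
  rw [h2] at h1
  exact Nat.modEq_zero_iff_dvd.1 h1

end main

/-- Let G be a finite group, p an odd prime dividing the order of G whose Sylow p-subgroups are not cyclic, and n = p^s·m with s > 1 and m coprime to p. Then the number of elements of G of order n is a multiple of p^s. -/
theorem result {G : Type*} [Group G] [Finite G] (p : ℕ) [Fact p.Prime] (hodd : p ≠ 2) (hpG : p ∣ Nat.card G)
    (P : Sylow p G) (hP : ¬ IsCyclic ↥(P : Subgroup G)) (s m : ℕ) (hs : 1 < s) (hm : Nat.Coprime p m) :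
    p ^ s ∣ Nat.card {g : G // orderOf g = p ^ s * m} := by
  classical
  have hp : p.Prime := Fact.out
  obtain ⟨j, rfl⟩ : ∃ j, s = j + 1 := ⟨s - 1, by omega⟩
  have hj : j ≠ 0 := by omega
  have hcop : Nat.Coprime (p ^ (j + 1)) m := Nat.Coprime.pow_left _ hm
  -- Bezout
  obtain ⟨a, b, hab, ha, hb⟩ : ∃ a b : ℤ, a + b = 1 ∧ (m : ℤ) ∣ a ∧ ((p ^ (j + 1) : ℕ) : ℤ) ∣ b := by
    have h := Nat.gcd_eq_gcd_ab (p ^ (j + 1)) m
    rw [hcop] at h
    refine ⟨(m : ℤ) * Nat.gcdB (p ^ (j + 1)) m, ((p ^ (j + 1) : ℕ) : ℤ) * Nat.gcdA (p ^ (j + 1)) m, ?_,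
      dvd_mul_right _ _, dvd_mul_right _ _⟩
    push_cast at h ⊢
    linarith
  set A : Set G := {g | orderOf g = p ^ (j + 1) * m} with hA
  have hAc : Nat.card {g : G // orderOf g = p ^ (j + 1) * m} = A.ncard := by
    rw [← Nat.card_coe_set_eq]
    rfl
  rw [hAc]
  let F : G → G × Subgroup G := fun x => (x ^ b, zpowers (x ^ a))
  have hfib := ncard_fiberwise A F ((p ^ (j + 1)).totient) (by
    rintro _ ⟨x₀, hx₀, rfl⟩
    obtain ⟨hoa, hob, hx₀ab⟩ := parts x₀ hx₀ hcop a b hab ha hb
    have h1 := card_gen (x₀ ^ a)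
    rw [hoa] at h1
    rw [← h1, ← Nat.card_coe_set_eq]
    apply Nat.card_congr
    have hinv : ∀ y : {q : G // zpowers q = zpowers (x₀ ^ a)}, orderOf y.1 = p ^ (j + 1) ∧
        Commute y.1 (x₀ ^ b) ∧ orderOf (y.1 * x₀ ^ b) = p ^ (j + 1) * m := by
      intro y
      have h2 : orderOf y.1 = p ^ (j + 1) := by
        rw [← Nat.card_zpowers, y.2, Nat.card_zpowers, hoa]
      have h3 : Commute y.1 (x₀ ^ b) := by
        have h0 := mem_zpowers y.1
        rw [y.2] at h0
        obtain ⟨k, hk⟩ := mem_zpowers_iff.1 h0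
        rw [← hk]
        exact ((Commute.refl x₀).zpow_zpow a b).zpow_left k
      refine ⟨h2, h3, ?_⟩
      rw [h3.orderOf_mul_eq_mul_orderOf_of_coprime (by rw [h2, hob]; exact hcop), h2, hob]
    have hun : ∀ y : {q : G // zpowers q = zpowers (x₀ ^ a)},
        (y.1 * x₀ ^ b) ^ a = y.1 ∧ (y.1 * x₀ ^ b) ^ b = x₀ ^ b := by
      intro y
      obtain ⟨h2, h3, h4⟩ := hinv y
      refine unparts ?_ ?_ h3 a b hab ha hb
      · rw [← h2]; exact pow_orderOf_eq_one _
      · rw [← hob]; exact pow_orderOf_eq_one _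
    refine
      { toFun := fun x => ⟨x.1 ^ a, congrArg Prod.snd x.2.2⟩
        invFun := fun y => ⟨y.1 * x₀ ^ b, (hinv y).2.2, ?_⟩
        left_inv := ?_
        right_inv := ?_ }
    · apply Prod.ext
      · exact (hun y).2
      · show zpowers ((y.1 * x₀ ^ b) ^ a) = zpowers (x₀ ^ a)
        rw [(hun y).1]
        exact y.2
    · rintro ⟨x, hx, hFx⟩
      apply Subtype.ext
      obtain ⟨-, -, h3⟩ := parts x hx hcop a b hab ha hb
      have h4 : x ^ b = x₀ ^ b := congrArg Prod.fst hFx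
      show x ^ a * x₀ ^ b = x
      rw [← h4, h3]
    · intro y
      apply Subtype.ext
      exact (hun y).1)
  rw [hfib]
  -- the set of pairs
  set Θ : Set (G × Subgroup G) := F '' A with hΘ
  have hΘmem : ∀ q : G × Subgroup G, q ∈ Θ ↔
      orderOf q.1 = m ∧ ∃ y, orderOf y = p ^ (j + 1) ∧ Commute y q.1 ∧ q.2 = zpowers y := by
    rintro ⟨w, Y⟩
    constructor
    · rintro ⟨x, hx, hq⟩
      obtain ⟨hoa, hob, -⟩ := parts x hx hcop a b hab ha hb
      have h1 : x ^ b = w := congrArg Prod.fst hq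
      have h2 : zpowers (x ^ a) = Y := congrArg Prod.snd hq
      refine ⟨by rw [← h1]; exact hob, x ^ a, hoa, ?_, h2.symm⟩
      show Commute (x ^ a) w
      rw [← h1]
      exact (Commute.refl x).zpow_zpow a b
    · rintro ⟨h1, y, hy, hc, h2⟩
      have h1' : orderOf w = m := h1
      have hc' : Commute y w := hc
      have h2' : Y = zpowers y := h2
      refine ⟨y * w, ?_, ?_⟩
      · show orderOf (y * w) = _
        rw [hc'.orderOf_mul_eq_mul_orderOf_of_coprime (by rw [hy, h1']; exact hcop), hy, h1']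
      · have := unparts (y := y) (w := w) (A := p ^ (j + 1)) (m := m)
          (by rw [← hy]; exact pow_orderOf_eq_one _)
          (by rw [← h1']; exact pow_orderOf_eq_one _) hc' a b hab ha hb
        apply Prod.ext
        · exact this.2
        · show zpowers ((y * w) ^ a) = Y
          rw [this.1, h2']
  letI act := pairAct (P : Subgroup G)
  have hsmul : ∀ (g : (P : Subgroup G)) (q : G × Subgroup G), g • q =
      ((g : G) * q.1 * (g : G)⁻¹, q.2.map (MulAut.conj (g : G)).toMonoidHom) := fun g q => rfl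
  -- invariance
  have hΘinv : ∀ (g : (P : Subgroup G)), ∀ q ∈ Θ, g • q ∈ Θ := by
    intro g q hq
    rw [hΘmem] at hq ⊢
    obtain ⟨h1, y, hy, hc, h2⟩ := hq
    rw [hsmul]
    refine ⟨?_, (g : G) * y * (g : G)⁻¹, ?_, ?_, ?_⟩
    · show orderOf ((g : G) * q.1 * (g : G)⁻¹) = m
      rw [← h1]
      have := orderOf_injective (MulAut.conj (g : G)).toMonoidHom (MulAut.conj (g : G)).injective q.1
      simpa [MulAut.conj_apply] using this
    · rw [← hy]
      have := orderOf_injective (MulAut.conj (g : G)).toMonoidHom (MulAut.conj (g : G)).injective y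
      simpa [MulAut.conj_apply] using this
    · show (g : G) * y * (g : G)⁻¹ * ((g : G) * q.1 * (g : G)⁻¹) =
        (g : G) * q.1 * (g : G)⁻¹ * ((g : G) * y * (g : G)⁻¹)
      have hc' : y * q.1 = q.1 * y := hc
      calc (g : G) * y * (g : G)⁻¹ * ((g : G) * q.1 * (g : G)⁻¹) = (g : G) * (y * q.1) * (g : G)⁻¹ := by group
        _ = (g : G) * (q.1 * y) * (g : G)⁻¹ := by rw [hc']
        _ = _ := by group
    · show q.2.map (MulAut.conj (g : G)).toMonoidHom = _
      rw [h2, MonoidHom.map_zpowers]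
      rfl
  -- the fixed part
  set Θ₀ : Set (G × Subgroup G) :=
    {q | q ∈ Θ ∧ (∀ g ∈ (P : Subgroup G), g * q.1 * g⁻¹ = q.1) ∧ q.2 ≤ (P : Subgroup G)} with hΘ₀
  have hΘ₀inv : ∀ (g : (P : Subgroup G)), ∀ q ∈ Θ₀, g • q ∈ Θ₀ := by
    rintro g q ⟨h1, h2, h3⟩
    refine ⟨hΘinv g q h1, ?_, ?_⟩
    · intro g' hg'
      rw [hsmul]
      show g' * ((g : G) * q.1 * (g : G)⁻¹) * g'⁻¹ = (g : G) * q.1 * (g : G)⁻¹
      rw [h2 g g.2, h2 g' hg']
    · rw [hsmul]
      show q.2.map (MulAut.conj (g : G)).toMonoidHom ≤ _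
      rintro _ ⟨x, hx, rfl⟩
      show (g : G) * x * (g : G)⁻¹ ∈ _
      exact mul_mem (mul_mem g.2 (h3 hx)) (inv_mem g.2)
  have hdiff : p ∣ (Θ \ Θ₀).ncard := by
    apply dvd_of_no_fixed (Q := (P : Subgroup G)) P.isPGroup'
    · rintro g q ⟨h1, h2⟩
      refine ⟨hΘinv g q h1, fun h3 => h2 ?_⟩
      have := hΘ₀inv g⁻¹ _ h3
      rwa [inv_smul_smul] at this
    · rintro q ⟨h1, h2⟩
      by_contra hcon
      push Not at hcon
      apply h2
      refine ⟨h1, ?_, ?_⟩
      · intro g hg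
        have := hcon ⟨g, hg⟩
        rw [hsmul] at this
        exact congrArg Prod.fst this
      · rw [hΘmem] at h1
        obtain ⟨-, y, hy, -, h3⟩ := h1
        have hpY : IsPGroup p q.2 := by
          rw [h3]
          apply IsPGroup.of_card (n := j + 1)
          rw [Nat.card_zpowers, hy]
        have hnorm : (P : Subgroup G) ≤ Subgroup.normalizer (q.2 : Set G) := by
          intro g hg
          have h4 : q.2.map (MulAut.conj g).toMonoidHom = q.2 :=
            congrArg Prod.snd (hcon ⟨g, hg⟩)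
          rw [Subgroup.mem_normalizer_iff]
          intro h
          constructor
          · intro hh
            have : g * h * g⁻¹ ∈ q.2.map (MulAut.conj g).toMonoidHom := ⟨h, hh, rfl⟩
            rwa [h4] at this
          · intro hh
            rw [← h4] at hh
            obtain ⟨h', hh', he⟩ := hh
            have : h' = h := by
              have he' : g * h' * g⁻¹ = g * h * g⁻¹ := he
              exact mul_left_cancel (mul_right_cancel he')
            rwa [← this]
        have h5 := IsPGroup.to_sup_of_normal_right' P.isPGroup' hpY hnorm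
        have h6 := P.is_maximal' h5 le_sup_left
        have h7 : q.2 ≤ (P : Subgroup G) := by
          conv_rhs => rw [← h6]
          exact le_sup_right
        exact h7
  -- the product structure
  let X : Set G := {y | y ∈ (P : Subgroup G) ∧ orderOf y = p ^ (j + 1)}
  let W : Set G := {w | orderOf w = m ∧ ∀ g ∈ (P : Subgroup G), g * w * g⁻¹ = w}
  have hprod : Θ₀ = W ×ˢ ((fun q => zpowers q) '' X) := by
    ext ⟨w, Y⟩
    constructor
    · rintro ⟨h1, h2, h3⟩
      rw [hΘmem] at h1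
      obtain ⟨h4, y, hy, -, h5⟩ := h1
      refine ⟨⟨h4, h2⟩, y, ⟨?_, hy⟩, h5.symm⟩
      have h6 : Y ≤ (P : Subgroup G) := h3
      have h5' : Y = zpowers y := h5
      rw [h5', zpowers_le] at h6
      exact h6
    · rintro ⟨⟨h1, h2⟩, y, ⟨hyP, hy⟩, h3⟩
      have h3' : zpowers y = Y := h3
      refine ⟨?_, h2, ?_⟩
      · rw [hΘmem]
        refine ⟨h1, y, hy, ?_, h3'.symm⟩
        have := h2 y hyP
        exact mul_inv_eq_iff_eq_mul.1 this
      · show Y ≤ _
        rw [← h3', zpowers_le]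
        exact hyP
  have hXc := ncard_eq_totient_mul X (p ^ (j + 1)) (fun q hq => hq.2) (by
    intro q hq k hk
    refine ⟨pow_mem hq.1 k, ?_⟩
    rw [Nat.Coprime.orderOf_pow (by rw [hq.2]; exact hk.symm), hq.2])
  have hXd : p ^ (j + 1) ∣ X.ncard := by
    have h1 := main_pgroup hodd P.isPGroup' hP j hj
    have h2 : Nat.card {y : (P : Subgroup G) // orderOf y = p ^ (j + 1)} = X.ncard := by
      rw [← Nat.card_coe_set_eq]
      apply Nat.card_congr
      refine
        { toFun := fun y => ⟨y.1.1, y.1.2, by rw [Subgroup.orderOf_coe]; exact y.2⟩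
          invFun := fun y => ⟨⟨y.1, y.2.1⟩, by rw [Subgroup.orderOf_mk]; exact y.2.2⟩
          left_inv := fun y => rfl
          right_inv := fun y => rfl }
    rwa [h2] at h1
  have htot : (p ^ (j + 1)).totient = p ^ j * (p - 1) := by
    rw [Nat.totient_prime_pow hp (by omega)]
    simp
  have hpn : ¬ p ∣ p - 1 := by
    intro h
    have := Nat.le_of_dvd (by have := hp.two_le; omega) h
    have := hp.two_le
    omega
  have hc : p ∣ ((fun q => zpowers q) '' X).ncard := by
    rw [hXc, htot] at hXd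
    have h1 : p ^ j * p ∣ p ^ j * ((p - 1) * ((fun q => zpowers q) '' X).ncard) := by
      rw [← pow_succ, ← mul_assoc]
      exact hXd
    have h2 := Nat.dvd_of_mul_dvd_mul_left (pow_pos hp.pos j) h1
    rcases (Nat.Prime.dvd_mul hp).1 h2 with h3 | h3
    · exact absurd h3 hpn
    · exact h3
  have hΘ₀d : p ∣ Θ₀.ncard := by
    rw [hprod, Set.ncard_prod]
    exact Dvd.dvd.mul_left hc _
  have hΘd : p ∣ Θ.ncard := by
    have hsub : Θ₀ ⊆ Θ := fun q hq => hq.1
    rw [← Set.ncard_diff_add_ncard_of_subset hsub (Set.toFinite _)]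
    exact dvd_add hdiff hΘ₀d
  obtain ⟨c, hc'⟩ := hΘd
  rw [htot, hc', pow_succ]
  exact ⟨(p - 1) * c, by ring⟩

end Cfsg.Agent.S4003
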