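import Cfsg.Statements.S3431
import Cfsg.Agent.Lib.FG7.FrobeniusCount
import Cfsg.Agent.Lib.NSE.Search
import Cfsg.Agent.Lib.NSE.AltData
import Cfsg.Agent.S0494
import Cfsg.Agent.S0497
import Cfsg.Agent.S4003
import Mathlib

set_option autoImplicit false

open Cfsg

namespace Cfsg.Agent.S3431

open Cfsg.Agent.Lib.NSE.Search Cfsg.Agent.Lib.NSE.AltData

variable {G : Type*} [Group G] [Finite G]

theorem cnt_one : cnt G 1 = 1 := by
  unfold cnt
  simp only [orderOf_eq_one_iff]
  exact Nat.card_unique

theorem exists_of_cnt {k : ℕ} (h : cnt G k ≠ 0) : ∃ g : G, orderOf g = k := by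
  by_contra h2
  apply h
  unfold cnt
  haveI : IsEmpty {g : G // orderOf g = k} := ⟨fun g => h2 ⟨g.1, g.2⟩⟩
  exact Nat.card_of_isEmpty

theorem cnt_ne_zero {k : ℕ} {g : G} (hg : orderOf g = k) : cnt G k ≠ 0 := by
  unfold cnt
  haveI : Nonempty {g : G // orderOf g = k} := ⟨⟨g, hg⟩⟩
  exact Nat.card_pos.ne'

theorem card_pow_eq_sum (k : ℕ) (hk : k ≠ 0) :
    Nat.card {x : G // x ^ k = 1} = ∑ e ∈ k.divisors, cnt G e := by
  classical
  haveI := Fintype.ofFinite G
  rw [Nat.card_eq_fintype_card, Fintype.card_subtype]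
  rw [Finset.card_eq_sum_card_fiberwise (f := orderOf) (t := k.divisors)]
  · apply Finset.sum_congr rfl
    intro e he
    unfold cnt
    rw [Nat.card_eq_fintype_card, Fintype.card_subtype, Finset.filter_filter]
    congr 1
    ext x
    simp only [Finset.mem_filter, Finset.mem_univ, true_and, and_iff_right_iff_imp]
    intro hx
    rw [← orderOf_dvd_iff_pow_eq_one, hx]
    exact (Nat.mem_divisors.1 he).1
  · intro x hx
    have hx2 : x ^ k = 1 := by simpa using hx
    exact Nat.mem_divisors.2 ⟨orderOf_dvd_of_pow_eq_one hx2, hk⟩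

theorem facts_of (vs : List ℕ)
    (himg : ((fun m : ℕ => Nat.card {g : G // orderOf g = m}) '' Set.range (orderOf : G → ℕ)) = {v | v ∈ vs}) :
    Facts (cnt G) (Nat.card G) vs where
  h1 := cnt_one
  hN := Nat.card_pos.ne'
  hv := fun k hk => by
    obtain ⟨g, rfl⟩ := exists_of_cnt hk
    have h : cnt G (orderOf g) ∈ ((fun m : ℕ => Nat.card {g : G // orderOf g = m}) '' Set.range (orderOf : G → ℕ)) :=
      ⟨_, ⟨g, rfl⟩, rfl⟩
    rw [himg] at h
    exact h
  hdown := fun k d hd hk => by
    obtain ⟨g, rfl⟩ := exists_of_cnt hk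
    exact cnt_ne_zero (orderOf_pow_orderOf_div (orderOf_pos g).ne' hd)
  hF := fun k hk => by
    have hk0 : k ≠ 0 := by
      rintro rfl
      exact Nat.card_pos.ne' (Nat.eq_zero_of_zero_dvd hk)
    have h := Cfsg.Agent.Lib.FG7.FrobeniusCount.gcd_dvd_card_pow_eq (K := G) (c := 1) (Subgroup.one_mem _) k
    rw [Nat.gcd_eq_left hk, card_pow_eq_sum k hk0] at h
    exact h
  hdiv := fun k hk => by
    obtain ⟨g, rfl⟩ := exists_of_cnt hk
    exact orderOf_dvd_natCard g
  hS := by
    rw [← card_pow_eq_sum _ Nat.card_pos.ne']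
    symm
    have : Nat.card {x : G // x ^ Nat.card G = 1} = Nat.card G := by
      apply Nat.card_congr
      exact Equiv.subtypeUnivEquiv (fun x => pow_card_eq_one')
    exact this
  hC := fun p hp hd => by
    haveI : Fact p.Prime := ⟨hp⟩
    obtain ⟨g, hg⟩ := exists_prime_orderOf_dvd_card' p hd
    exact cnt_ne_zero hg
  hsurj := fun v hv => by
    have h : v ∈ ((fun m : ℕ => Nat.card {g : G // orderOf g = m}) '' Set.range (orderOf : G → ℕ)) := by
      rw [himg]
      exact hv
    obtain ⟨m, _, hm⟩ := h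
    exact ⟨m, hm⟩
  htot := fun k => by
    have h := Cfsg.Agent.S4003.ncard_eq_totient_mul (G := G) {g | orderOf g = k} k (fun q hq => hq)
      (fun q hq m hm => by
        have hq2 : orderOf q = k := hq
        show orderOf (q ^ m) = k
        rw [Nat.Coprime.orderOf_pow (by rw [hq2]; exact hm.symm), hq2])
    unfold cnt
    have h2 : Nat.card {g : G // orderOf g = k} = ({g | orderOf g = k} : Set G).ncard :=
      Nat.card_coe_set_eq _
    rw [h2, h]
    exact Dvd.intro _ rfl

variable {M : ℕ → ℕ} {N : ℕ} {vs : List ℕ}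

theorem K_of (hf : Facts M N vs) (KC : List (ℕ × List ℕ × List ℕ)) (pr : List ℕ)
    (hpr : ∀ v ∈ vs, ∀ p < v + 2, p.Prime → (1 + v) % p = 0 → v % (p - 1) = 0 → p ∈ pr)
    (hp0 : ∀ p ∈ pr, p ∈ KC.map Prod.fst)
    (hKK : ∀ e' ∈ KC.map Prod.fst, ∀ p ∈ pr, ∀ v ∈ vs,
      v % ((if e' % p = 0 then p else p - 1) * e'.totient) = 0 → p * e' ∈ KC.map Prod.fst) :
    ∀ e, e ≠ 1 → M e ≠ 0 → e ∈ KC.map Prod.fst := by
  intro e
  induction e using Nat.strong_induction_on with
  | _ e ih =>
    intro he1 he
    have he0 : e ≠ 0 := by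
      rintro rfl
      exact hf.hN (Nat.eq_zero_of_zero_dvd (hf.hdiv 0 he))
    have hp : e.minFac.Prime := Nat.minFac_prime he1
    have hpe : e.minFac ∣ e := Nat.minFac_dvd e
    obtain ⟨e', he'⟩ := hpe
    generalize e.minFac = p at hp he'
    have hpe : p ∣ e := ⟨e', he'⟩
    have hMp : M p ≠ 0 := hf.hdown e p hpe he
    have hvp := hf.hv p hMp
    have hpN := hf.hdiv p hMp
    have h3 := hf.hF p hpN
    rw [hp.divisors, Finset.sum_pair hp.one_lt.ne, hf.h1] at h3
    have h4 : p - 1 ∣ M p := by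
      have := hf.htot p
      rwa [Nat.totient_prime hp] at this
    have hle : p ≤ 1 + M p := Nat.le_of_dvd (by omega) h3
    have hmem := hpr (M p) hvp p (by omega) hp (Nat.mod_eq_zero_of_dvd h3) (Nat.mod_eq_zero_of_dvd h4)
    by_cases h1 : e' = 1
    · rw [he', h1, mul_one]
      exact hp0 p hmem
    · have hMe' : M e' ≠ 0 := hf.hdown e e' ⟨p, by rw [he']; ring⟩ he
      have he'0 : e' ≠ 0 := by
        rintro rfl
        exact he0 (by rw [he', mul_zero])
      have hlt : e' < e := by
        rw [he']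
        have := hp.two_le
        have h5 : 0 < e' := Nat.pos_of_ne_zero he'0
        nlinarith
      have hK' := ih e' hlt h1 hMe'
      have hφ : e.totient = (if e' % p = 0 then p else p - 1) * e'.totient := by
        rw [he']
        split_ifs with h6
        · exact Nat.totient_mul_of_prime_of_dvd hp (Nat.dvd_of_mod_eq_zero h6)
        · exact Nat.totient_mul_of_prime_of_not_dvd hp (fun h7 => h6 (Nat.mod_eq_zero_of_dvd h7))
      rw [he']
      apply hKK e' hK' p hmem (M e) (hf.hv e he)
      rw [← hφ]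
      exact Nat.mod_eq_zero_of_dvd (hf.htot e)

theorem cand_of (hf : Facts M N vs) (KC : List (ℕ × List ℕ × List ℕ))
    (h : ∀ e ∈ KC, ∀ v ∈ vs, v % e.1.totient = 0 → v ∈ e.2.1) :
    ∀ e ∈ KC, M e.1 ≠ 0 → M e.1 ∈ e.2.1 := fun e he h0 =>
  h e he _ (hf.hv _ h0) (Nat.mod_eq_zero_of_dvd (hf.htot _))

/-! ### Degree four -/

theorem rec4 (hN : Nat.card G = 12) (h3 : cnt G 3 = 8) : Nonempty (G ≃* alternatingGroup (Fin 4)) := by
  classical
  obtain ⟨x, hx⟩ := exists_of_cnt (G := G) (k := 3) (by rw [h3]; norm_num)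
  set P := Subgroup.zpowers x with hP
  have hPc : Nat.card P = 3 := by rw [hP, Nat.card_zpowers, hx]
  have hidx : P.index = 4 := by
    have := P.card_mul_index
    rw [hPc, hN] at this
    omega
  let φ := MulAction.toPermHom G (G ⧸ P)
  have hle : φ.ker ≤ P := by
    intro g hg
    have h1 : φ g = 1 := hg
    have h2 : g • ((1 : G) : G ⧸ P) = ((1 : G) : G ⧸ P) := by
      have := congrArg (fun f : Equiv.Perm (G ⧸ P) => f ((1 : G) : G ⧸ P)) h1
      exact this
    rw [MulAction.Quotient.smul_coe] at h2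
    have h3 : ((g : G) : G ⧸ P) = ((1 : G) : G ⧸ P) := by simpa using h2
    have h4 := QuotientGroup.eq.1 h3
    simpa using h4
  have hker : φ.ker = ⊥ := by
    have h1 : Nat.card φ.ker ∣ 3 := hPc ▸ Subgroup.card_dvd_of_le hle
    rcases (Nat.dvd_prime Nat.prime_three).1 h1 with h2 | h2
    · exact Subgroup.eq_bot_of_card_eq _ h2
    · exfalso
      have h4 : φ.ker = P := Subgroup.eq_of_le_of_card_ge hle (by omega)
      haveI : P.Normal := h4 ▸ φ.normal_ker
      have h5 : cnt G 3 ≤ Nat.card P := by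
        apply Nat.card_le_card_of_injective (fun g : {g : G // orderOf g = 3} =>
          (⟨g.1, ?_⟩ : P))
        · intro a b hab
          apply Subtype.ext
          exact congrArg (fun u : P => (u : G)) hab
        · have h6 := Subgroup.pow_index_mem P g.1
          rw [hidx] at h6
          have h7 : g.1 ^ 3 = 1 := by
            have h70 := pow_orderOf_eq_one g.1
            rwa [g.2] at h70
          have h8 : g.1 ^ 4 = g.1 := by
            rw [show 4 = 3 + 1 from rfl, pow_succ, h7, one_mul]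
          rwa [h8] at h6
      rw [h3, hPc] at h5
      omega
  have hinj : Function.Injective φ := (MonoidHom.ker_eq_bot_iff φ).1 hker
  have hcard : Nat.card (G ⧸ P) = 4 := hidx
  let e : (G ⧸ P) ≃ Fin 4 := Finite.equivFinOfCardEq hcard
  let ψ : G →* Equiv.Perm (Fin 4) := (e.permCongrHom.toMonoidHom).comp φ
  have hψ : Function.Injective ψ := by
    intro a b hab
    apply hinj
    exact e.permCongrHom.injective hab
  have hRc : Nat.card ψ.range = 12 := by
    rw [← hN]
    exact (Nat.card_congr (MonoidHom.ofInjective hψ).toEquiv).symm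
  have hRi : ψ.range.index = 2 := by
    have h1 := ψ.range.card_mul_index
    rw [hRc, Nat.card_perm] at h1
    simp only [Nat.card_fin, Nat.factorial] at h1
    omega
  have hR := Equiv.Perm.eq_alternatingGroup_of_index_eq_two hRi
  exact ⟨(MonoidHom.ofInjective hψ).trans (MulEquiv.subgroupCongr hR)⟩

/-! ### Simplicity in degrees 5, 6 -/

theorem coprime_mem (K : Subgroup G) [K.Normal] (g : G) (h : (orderOf g).Coprime K.index) : g ∈ K := by
  have h2 : orderOf (g : G ⧸ K) ∣ orderOf g := orderOf_map_dvd (QuotientGroup.mk' K) g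
  have h3 : orderOf (g : G ⧸ K) ∣ K.index := orderOf_dvd_natCard _
  have h4 : orderOf (g : G ⧸ K) = 1 := Nat.eq_one_of_dvd_coprimes h h2 h3
  rw [orderOf_eq_one_iff] at h4
  exact (QuotientGroup.eq_one_iff g).1 h4

theorem ncard_orders (ks : List ℕ) (hnd : ks.Nodup) :
    ({g : G | orderOf g ∈ ks}).ncard = (ks.map (cnt G)).sum := by
  induction ks with
  | nil => simp
  | cons k ks ih =>
    rw [List.nodup_cons] at hnd
    have h1 : ({g : G | orderOf g ∈ k :: ks}) = {g : G | orderOf g = k} ∪ {g : G | orderOf g ∈ ks} := by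
      ext g
      simp
    rw [h1, Set.ncard_union_eq _ (Set.toFinite _) (Set.toFinite _), ih hnd.2, List.map_cons, List.sum_cons]
    · congr 1
    · rw [Set.disjoint_left]
      intro g hg hg2
      have hg3 : orderOf g = k := hg
      have hg4 : orderOf g ∈ ks := hg2
      exact hnd.1 (hg3 ▸ hg4)

theorem sum_le_card (K : Subgroup G) (ks : List ℕ) (hnd : ks.Nodup) (h : ∀ k ∈ ks, ∀ g : G, orderOf g = k → g ∈ K) :
    (ks.map (cnt G)).sum ≤ Nat.card K := by
  rw [← ncard_orders ks hnd]
  have h2 : Nat.card K = (K : Set G).ncard := Nat.card_coe_set_eq _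
  rw [h2]
  apply Set.ncard_le_ncard _ (Set.toFinite _)
  intro g hg
  exact h _ hg g rfl

theorem mod5 {α : Type*} [Finite α] (f : α → α) (hf : ∀ a, f (f (f (f (f a)))) = a) (a0 : α) (h0 : f a0 = a0)
    (huniq : ∀ a, f a = a → a = a0) : Nat.card α % 5 = 1 := by
  classical
  haveI := Fintype.ofFinite α
  haveI : Fact (Nat.Prime 5) := ⟨Nat.prime_five⟩
  let F : Function.End α := f
  have hF : F ^ 5 ^ 1 = 1 := by
    funext a
    exact hf a
  have h := Equiv.Perm.card_fixedPoints_modEq hF
  have h2 : Fintype.card (Function.fixedPoints F) = 1 := by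
    rw [Fintype.card_eq_one_iff]
    refine ⟨⟨a0, h0⟩, ?_⟩
    rintro ⟨a, ha⟩
    exact Subtype.ext (huniq a ha)
  rw [h2, Nat.ModEq] at h
  rw [Nat.card_eq_fintype_card, h]

theorem key_mod5 (K : Subgroup G) [K.Normal] (x : G) (hx : orderOf x = 5)
    (hfix : ∀ u : K, x * (u : G) = (u : G) * x → u = 1) (P : K → Prop)
    (hP : ∀ u : K, P u → P (MulAut.conjNormal x u)) (hP1 : P 1) : Nat.card {u : K // P u} % 5 = 1 := by
  have h5 : x ^ 5 = 1 := by
    rw [← hx]
    exact pow_orderOf_eq_one x
  apply mod5 (fun u : {u : K // P u} => (⟨MulAut.conjNormal x u.1, hP u.1 u.2⟩ : {u : K // P u}))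
    _ ⟨1, hP1⟩
  · apply Subtype.ext
    exact map_one _
  · rintro ⟨u, hu⟩ h1
    apply Subtype.ext
    apply hfix
    have h2 : MulAut.conjNormal x u = u := congrArg Subtype.val h1
    have h3 : ((MulAut.conjNormal x u : K) : G) = (u : G) := congrArg Subtype.val h2
    rw [MulAut.conjNormal_apply] at h3
    show x * (u : G) = (u : G) * x
    exact mul_inv_eq_iff_eq_mul.1 h3
  · rintro ⟨u, hu⟩
    apply Subtype.ext
    apply Subtype.ext
    show ((MulAut.conjNormal x (MulAut.conjNormal x (MulAut.conjNormal x (MulAut.conjNormal x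
      (MulAut.conjNormal x u)))) : K) : G) = u
    simp only [MulAut.conjNormal_apply]
    have h6 : x * (x * (x * (x * (x * (u : G) * x⁻¹) * x⁻¹) * x⁻¹) * x⁻¹) * x⁻¹ = x ^ 5 * u * (x ^ 5)⁻¹ := by
      simp only [pow_succ, pow_zero, one_mul, mul_inv_rev, mul_assoc]
    rw [h6, h5]
    simp

theorem simple_of (hord : ∀ g : G, orderOf g = 1 ∨ orderOf g = 2 ∨ orderOf g = 3 ∨ orderOf g = 4 ∨ orderOf g = 5)
    (hcases : (Nat.card G = 60 ∧ cnt G 3 = 20 ∧ cnt G 5 = 24) ∨ (Nat.card G = 360 ∧ cnt G 3 = 80 ∧ cnt G 5 = 144)) :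
    IsSimpleGroup G := by
  classical
  have hNT : Nontrivial G := by
    rw [← Finite.one_lt_card_iff_nontrivial]
    rcases hcases with h | h <;> omega
  refine ⟨?_⟩
  intro K hK
  by_contra hcon
  push Not at hcon
  obtain ⟨hbot, htop⟩ := hcon
  have hcard := K.card_mul_index
  have hq1 : K.index ≠ 1 := fun h => htop (Subgroup.index_eq_one.1 h)
  have hq0 : K.index ≠ 0 := Subgroup.index_ne_zero_of_finite
  have hK0 : Nat.card K ≠ 0 := Nat.card_pos.ne'
  have hK1 : Nat.card K ≠ 1 := fun h => hbot (Subgroup.eq_bot_of_card_eq _ h)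
  by_cases h5 : 5 ∣ Nat.card K
  · -- the subgroup contains all elements of order 5
    have hq5 : Nat.Coprime 5 K.index := by
      rw [Nat.Prime.coprime_iff_not_dvd Nat.prime_five]
      intro h6
      have h7 : 5 * 5 ∣ Nat.card G := hcard ▸ Nat.mul_dvd_mul h5 h6
      rcases hcases with h | h <;> · rw [h.1] at h7; revert h7; decide
    have hm5 : ∀ g : G, orderOf g = 5 → g ∈ K := fun g hg => coprime_mem K g (by rw [hg]; exact hq5)
    have hm1 : ∀ g : G, orderOf g = 1 → g ∈ K := fun g hg => by
      rw [orderOf_eq_one_iff] at hg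
      rw [hg]
      exact K.one_mem
    have hs1 := sum_le_card K [1, 5] (by decide) (by
      intro k hk
      simp only [List.mem_cons, List.not_mem_nil, or_false] at hk
      rcases hk with rfl | rfl
      · exact hm1
      · exact hm5)
    simp only [List.map_cons, List.map_nil, List.sum_cons, List.sum_nil, cnt_one] at hs1
    have hq2 : K.index = 2 := by
      by_contra hne
      have hq3 : 3 ≤ K.index := by omega
      have h8 := Nat.mul_le_mul_left (Nat.card K) hq3
      rcases hcases with h | h <;> · rw [h.2.2] at hs1; rw [hcard, h.1] at h8; omega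
    have hm3 : ∀ g : G, orderOf g = 3 → g ∈ K := fun g hg => coprime_mem K g (by rw [hg, hq2]; decide)
    have hs2 := sum_le_card K [1, 3, 5] (by decide) (by
      intro k hk
      simp only [List.mem_cons, List.not_mem_nil, or_false] at hk
      rcases hk with rfl | rfl | rfl
      · exact hm1
      · exact hm3
      · exact hm5)
    simp only [List.map_cons, List.map_nil, List.sum_cons, List.sum_nil, cnt_one] at hs2
    rw [hq2] at hcard
    rcases hcases with h | h <;> · rw [h.2.1, h.2.2] at hs2; rw [h.1] at hcard; omega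
  · -- the case of a subgroup of order prime to five
    obtain ⟨x, hx⟩ := exists_of_cnt (G := G) (k := 5) (by rcases hcases with h | h <;> · rw [h.2.2]; norm_num)
    have hfix : ∀ u : K, x * (u : G) = (u : G) * x → u = 1 := by
      intro u hu
      by_contra hu1
      have hu2 : orderOf (u : G) ≠ 1 := by
        intro h6
        rw [orderOf_eq_one_iff] at h6
        exact hu1 (Subtype.ext h6)
      have hu3 : orderOf (u : G) ∣ Nat.card K := by
        rw [Subgroup.orderOf_coe]
        exact orderOf_dvd_natCard u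
      have hu4 : orderOf (u : G) ≠ 5 := fun h6 => h5 (h6 ▸ hu3)
      have hcop : (orderOf x).Coprime (orderOf (u : G)) := by
        rw [hx, Nat.Prime.coprime_iff_not_dvd Nat.prime_five]
        intro h6
        exact h5 (h6.trans hu3)
      have hcomm : Commute x (u : G) := hu
      have h7 := hcomm.orderOf_mul_eq_mul_orderOf_of_coprime hcop
      have h8 := hord (x * u)
      rw [h7, hx] at h8
      rcases hord (u : G) with h9 | h9 | h9 | h9 | h9 <;> first | exact (hu2 h9) | exact (hu4 h9) | (rw [h9] at h8; omega)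
    have hN1 : Nat.card K % 5 = 1 := by
      have h6 := key_mod5 K x hx hfix (fun _ => True) (fun _ _ => trivial) trivial
      have h7 : Nat.card {u : K // True} = Nat.card K := Nat.card_congr (Equiv.subtypeUnivEquiv (fun _ => trivial))
      rwa [h7] at h6
    have hdvd : Nat.card K ∣ Nat.card G := ⟨K.index, hcard.symm⟩
    have h672 : Nat.card K = 6 ∨ Nat.card K = 36 := by
      have hall : ∀ d ∈ (360 : ℕ).divisors, d % 5 = 1 → d ≠ 1 → d = 6 ∨ d = 36 := by decide +kernel
      have hdiv360 : Nat.card K ∣ 360 := by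
        rcases hcases with h | h
        · rw [h.1] at hdvd
          exact hdvd.trans (by norm_num)
        · rwa [h.1] at hdvd
      exact hall _ (Nat.mem_divisors.2 ⟨hdiv360, by norm_num⟩) hN1 hK1
    obtain ⟨k, hk, hgcd, harith⟩ : ∃ k : ℕ, k ∣ Nat.card K ∧ ¬ (2 ∣ k) ∧
        (∀ a : ℕ, k ∣ a → a % 5 = 1 → a < Nat.card K → False) := by
      rcases h672 with h | h
      · refine ⟨3, by rw [h]; norm_num, by norm_num, ?_⟩
        intro a h1 h2 h3
        rw [h] at h3
        omega
      · refine ⟨9, by rw [h]; norm_num, by norm_num, ?_⟩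
        intro a h1 h2 h3
        rw [h] at h3
        omega
    have hFr := Cfsg.Agent.Lib.FG7.FrobeniusCount.gcd_dvd_card_pow_eq (K := K) (c := 1) (Subgroup.one_mem _) k
    rw [Nat.gcd_eq_left hk] at hFr
    have h6 := key_mod5 K x hx hfix (fun u => u ^ k = 1) (by
      intro u hu
      show (MulAut.conjNormal x u) ^ k = 1
      rw [← map_pow, hu, map_one]) (one_pow k)
    have h2N : 2 ∣ Nat.card K := by
      rcases h672 with h | h <;> · rw [h]; norm_num
    haveI : Fact (Nat.Prime 2) := ⟨Nat.prime_two⟩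
    obtain ⟨v, hv⟩ := exists_prime_orderOf_dvd_card' (G := K) 2 h2N
    have hlt : Nat.card {u : K // u ^ k = 1} < Nat.card K := by
      apply Finite.card_subtype_lt (x := v)
      intro h7
      apply hgcd
      rw [← hv]
      exact orderOf_dvd_of_pow_eq_one h7
    exact harith _ hFr h6 hlt

/-! ### The final theorem -/

theorem orders_of (tgt : List (ℕ × ℕ)) (h : ∀ k, k ≠ 1 → cnt G k ≠ 0 → ∃ v, (k, v) ∈ tgt)
    (hsub : ∀ p ∈ tgt, p.1 = 2 ∨ p.1 = 3 ∨ p.1 = 4 ∨ p.1 = 5) (g : G) :
    orderOf g = 1 ∨ orderOf g = 2 ∨ orderOf g = 3 ∨ orderOf g = 4 ∨ orderOf g = 5 := by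
  by_cases h1 : orderOf g = 1
  · exact Or.inl h1
  · obtain ⟨v, hv⟩ := h _ h1 (cnt_ne_zero rfl)
    exact Or.inr (hsub _ hv)

/-- Let n be 4, 5 or 6 and let G be a finite group whose set of sizes of same-order classes (the set of numbers #{g : o(g) = m} over the element orders m of G) equals that of the alternating group of degree n. Then G is isomorphic to that alternating group. -/
theorem result {G : Type*} [Group G] [Finite G] (n : ℕ) (hn : n = 4 ∨ n = 5 ∨ n = 6)
    (h : ((fun m : ℕ => Nat.card {g : G // orderOf g = m}) '' Set.range (orderOf : G → ℕ)) = ((fun m : ℕ => Nat.card {g : ↥(alternatingGroup (Fin n)) // orderOf g = m}) '' Set.range (orderOf : ↥(alternatingGroup (Fin n)) → ℕ))) :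
    Nonempty (G ≃* ↥(alternatingGroup (Fin n))) := by
  rcases hn with rfl | rfl | rfl
  · rw [img4] at h
    have hf := facts_of [1, 3, 8] h
    obtain ⟨hN, hM, -⟩ := search_main hf KC4 [2, 3] _ _ _ (by decide) (by decide +kernel) (by decide +kernel)
      (K_of hf KC4 [2, 3] (by decide +kernel) (by decide +kernel) (by decide +kernel))
      (cand_of hf KC4 (by decide +kernel)) (by decide +kernel) (by norm_num) search4
    exact rec4 hN (hM (3, 8) (by simp))
  · rw [img5] at h
    have hf := facts_of [1, 15, 20, 24] h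
    obtain ⟨hN, hM, hO⟩ := search_main hf KC5 [2, 3, 5, 7] _ _ _ (by decide) (by decide +kernel) (by decide +kernel)
      (K_of hf KC5 [2, 3, 5] (by decide +kernel) (by decide +kernel) (by decide +kernel))
      (cand_of hf KC5 (by decide +kernel)) (by decide +kernel) (by norm_num) search5
    haveI := simple_of (orders_of _ hO (by decide)) (Or.inl ⟨hN, hM (3, 20) (by simp), hM (5, 24) (by simp)⟩)
    exact Cfsg.Agent.S0494.result hN
  · rw [img6] at h
    have hf := facts_of [1, 45, 80, 90, 144] h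
    obtain ⟨hN, hM, hO⟩ := search_main hf KC6 [2, 3, 5, 7, 11, 13, 17, 19, 23] _ _ _ (by decide) (by decide +kernel) (by decide +kernel)
      (K_of hf KC6 [2, 3, 5, 7] (by decide +kernel) (by decide +kernel) (by decide +kernel))
      (cand_of hf KC6 (by decide +kernel)) (by decide +kernel) (by norm_num) search6
    haveI := simple_of (orders_of _ hO (by decide)) (Or.inr ⟨hN, hM (3, 80) (by simp), hM (5, 144) (by simp)⟩)
    exact Cfsg.Agent.S0497.result hN

end Cfsg.Agent.S3431
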