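import Cfsg.Statements.S3704

set_option autoImplicit false
open Cfsg

namespace Cfsg.Agent.S3704

/-- Matrix duality: a form identity on columns gives proportionality. -/
theorem prop_of_forms {X Ω : Type*} [Fintype X] [Fintype Ω] [DecidableEq X] [DecidableEq Ω]
    (e : X ≃ Ω) (n : ℚ) (hn : n = Fintype.card Ω) (hn0 : n ≠ 0) (N₁ N₂ : X → Ω → ℚ)
    (r1 : ∀ x, ∑ ω, N₁ x ω = 0) (c1 : ∀ ω, ∑ x, N₁ x ω = 0) (c2 : ∀ ω, ∑ x, N₂ x ω = 0)
    (α β : ℚ) (hα : α ≠ 0)
    (h11 : ∀ ω ν, ∑ x, N₁ x ω * N₁ x ν = α * ((if ω = ν then 1 else 0) - 1 / n))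
    (h12 : ∀ ω ν, ∑ x, N₁ x ω * N₂ x ν = β * ((if ω = ν then 1 else 0) - 1 / n)) :
    ∀ x ν, N₂ x ν = (β / α) * N₁ x ν := by
  have hcardX : (Fintype.card X : ℚ) = n := by rw [hn, Fintype.card_congr e]
  let M : Matrix X Ω ℚ := Matrix.of fun x ω => N₁ x ω + 1 / n
  let M' : Matrix Ω X ℚ := Matrix.of fun ω x => N₁ x ω / α + 1 / n
  have h1 : M' * M = 1 := by
    ext ω ν
    rw [Matrix.mul_apply, Matrix.one_apply]
    simp only [M, M', Matrix.of_apply]
    have e1 : ∀ x, (N₁ x ω / α + 1 / n) * (N₁ x ν + 1 / n) =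
        (N₁ x ω * N₁ x ν) / α + (N₁ x ω) * (1 / n / α) + (N₁ x ν) * (1 / n) + 1 / n / n := by
      intro x; field_simp; ring
    simp_rw [e1]
    rw [Finset.sum_add_distrib, Finset.sum_add_distrib, Finset.sum_add_distrib, ← Finset.sum_div,
      ← Finset.sum_mul, ← Finset.sum_mul, h11, c1, c1, Finset.sum_const, Finset.card_univ,
      nsmul_eq_mul, hcardX]
    field_simp
    ring
  have h2 : M * M' = 1 := (Matrix.mul_eq_one_comm_of_equiv e).mpr h1
  have hdual : ∀ x y, ∑ ω, N₁ x ω * N₁ y ω = α * ((if x = y then 1 else 0) - 1 / n) := by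
    intro x y
    have h3 := congrFun (congrFun h2 x) y
    rw [Matrix.mul_apply, Matrix.one_apply] at h3
    simp only [M, M', Matrix.of_apply] at h3
    have e1 : ∀ ω, (N₁ x ω + 1 / n) * (N₁ y ω / α + 1 / n) =
        (N₁ x ω * N₁ y ω) / α + (N₁ x ω) * (1 / n) + (N₁ y ω) * (1 / n / α) + 1 / n / n := by
      intro ω; field_simp; ring
    simp_rw [e1] at h3
    rw [Finset.sum_add_distrib, Finset.sum_add_distrib, Finset.sum_add_distrib, ← Finset.sum_div,
      ← Finset.sum_mul, ← Finset.sum_mul, r1, r1, Finset.sum_const, Finset.card_univ,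
      nsmul_eq_mul, ← hn] at h3
    have h4 : (∑ ω, N₁ x ω * N₁ y ω) / α + 1 / n = if x = y then (1 : ℚ) else 0 := by
      rw [← h3]; field_simp; ring
    rw [← h4]
    field_simp
    ring
  intro x ν
  have h5 : ∑ y, (α * ((if x = y then 1 else 0) - 1 / n)) * N₂ y ν = α * N₂ x ν := by
    have e1 : ∀ y, (α * ((if x = y then 1 else 0) - 1 / n)) * N₂ y ν =
        α * ((if x = y then N₂ y ν else 0)) - (α / n) * N₂ y ν := by
      intro y; split_ifs <;> ring
    simp_rw [e1]
    rw [Finset.sum_sub_distrib, ← Finset.mul_sum, ← Finset.mul_sum, c2, mul_zero, sub_zero,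
      Finset.sum_ite_eq, if_pos (Finset.mem_univ x)]
  have h6 : ∑ y, (∑ ω, N₁ x ω * N₁ y ω) * N₂ y ν =
      ∑ ω, N₁ x ω * (β * ((if ω = ν then 1 else 0) - 1 / n)) := by
    simp_rw [Finset.sum_mul]
    rw [Finset.sum_comm]
    apply Finset.sum_congr rfl
    intro ω _
    rw [← h12, Finset.mul_sum]
    apply Finset.sum_congr rfl
    intro y _
    ring
  have h7 : ∑ ω, N₁ x ω * (β * ((if ω = ν then 1 else 0) - 1 / n)) = β * N₁ x ν := by
    have e1 : ∀ ω, N₁ x ω * (β * ((if ω = ν then 1 else 0) - 1 / n)) =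
        β * (if ω = ν then N₁ x ω else 0) - (β / n) * N₁ x ω := by
      intro ω; split_ifs <;> ring
    simp_rw [e1]
    rw [Finset.sum_sub_distrib, ← Finset.mul_sum, ← Finset.mul_sum, r1, mul_zero, sub_zero,
      Finset.sum_ite_eq', if_pos (Finset.mem_univ ν)]
  simp_rw [hdual] at h6
  rw [h5, h7] at h6
  field_simp
  linarith

section Setup

variable {G Ω : Type*} [Group G] [MulAction G Ω] (H : Subgroup G)

open Classical in
/-- incidence between cosets and points -/
noncomputable def inc (O : Set Ω) (x : G ⧸ H) (ω : Ω) : ℚ :=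
  if (Quotient.out x)⁻¹ • ω ∈ O then 1 else 0

theorem inc_smul (O : Set Ω) (hO : ∀ h ∈ H, ∀ ω, h • ω ∈ O ↔ ω ∈ O) (g : G) (x : G ⧸ H) (ω : Ω) :
    inc H O (g • x) (g • ω) = inc H O x ω := by
  classical
  have key : (Quotient.out (g • x))⁻¹ • (g • ω) ∈ O ↔ (Quotient.out x)⁻¹ • ω ∈ O := by
    have h1 : ((g * Quotient.out x : G) : G ⧸ H) = g • x := by
      have : ((Quotient.out x : G) : G ⧸ H) = x := QuotientGroup.out_eq' x
      conv_rhs => rw [← this]
      rfl
    have h2 : ((Quotient.out (g • x) : G) : G ⧸ H) = g • x := QuotientGroup.out_eq' _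
    rw [← h2] at h1
    have h3 : (Quotient.out (g • x))⁻¹ * (g * Quotient.out x) ∈ H :=
      QuotientGroup.eq.mp h1.symm
    have e : (Quotient.out (g • x))⁻¹ • (g • ω) =
        ((Quotient.out (g • x))⁻¹ * (g * Quotient.out x)) • ((Quotient.out x)⁻¹ • ω) := by
      simp only [smul_smul]
      congr 1
      group
    rw [e]
    exact hO _ h3 _
  unfold inc
  simp only [key]

theorem inc_base (O : Set Ω) (hO : ∀ h ∈ H, ∀ ω, h • ω ∈ O ↔ ω ∈ O) (ω : Ω) [Decidable (ω ∈ O)] :
    inc H O ((1 : G) : G ⧸ H) ω = if ω ∈ O then 1 else 0 := by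
  classical
  have h2 : ((Quotient.out ((1 : G) : G ⧸ H) : G) : G ⧸ H) = ((1 : G) : G ⧸ H) :=
    QuotientGroup.out_eq' _
  have h3 : (1 : G)⁻¹ * Quotient.out ((1 : G) : G ⧸ H) ∈ H := QuotientGroup.eq.mp h2.symm
  simp only [inv_one, one_mul] at h3
  have h4 := hO _ (H.inv_mem h3) ω
  unfold inc
  simp only [h4]

theorem inc_row [Fintype Ω] (O : Set Ω) [DecidablePred (· ∈ O)] (x : G ⧸ H) :
    ∑ ω, inc H O x ω = ∑ ω, if ω ∈ O then (1 : ℚ) else 0 := by
  classical
  rw [← Equiv.sum_comp (MulAction.toPerm (Quotient.out x)⁻¹ : Equiv.Perm Ω)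
    (fun ω => if ω ∈ O then (1 : ℚ) else 0)]
  apply Finset.sum_congr rfl
  intro ω _
  unfold inc
  simp only [MulAction.toPerm_apply]
  split_ifs <;> rfl

theorem inc_col [Fintype Ω] [Fintype (G ⧸ H)] [MulAction.IsPretransitive G Ω] (O : Set Ω)
    [DecidablePred (· ∈ O)] (hO : ∀ h ∈ H, ∀ ω, h • ω ∈ O ↔ ω ∈ O)
    (hcard : Fintype.card (G ⧸ H) = Fintype.card Ω) (hn : 0 < Fintype.card Ω) (ω : Ω) :
    ∑ x, inc H O x ω = ∑ ω, if ω ∈ O then (1 : ℚ) else 0 := by
  classical
  have hconst : ∀ ν, ∑ x, inc H O x ν = ∑ x, inc H O x ω := by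
    intro ν
    obtain ⟨g, rfl⟩ := MulAction.exists_smul_eq G ω ν
    rw [← Equiv.sum_comp (MulAction.toPerm g : Equiv.Perm (G ⧸ H))]
    apply Finset.sum_congr rfl
    intro x _
    exact inc_smul H O hO g x ω
  have h1 : ∑ ν : Ω, ∑ x, inc H O x ν = ∑ x : G ⧸ H, ∑ ν, inc H O x ν := Finset.sum_comm
  simp_rw [hconst, inc_row] at h1
  simp only [Finset.sum_const, Finset.card_univ, nsmul_eq_mul, hcard] at h1
  have hn' : (Fintype.card Ω : ℚ) ≠ 0 := by exact_mod_cast hn.ne'
  exact mul_left_cancel₀ hn' h1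

end Setup

/-- 2-transitive invariant forms with zero sum. -/
theorem exists_form {G Ω : Type*} [Group G] [MulAction G Ω] [Fintype Ω] [DecidableEq Ω]
    (h2 : MulAction.IsMultiplyPretransitive G Ω 2) (hn : 1 < Fintype.card Ω)
    (F : Ω → Ω → ℚ) (hF : ∀ (g : G) ω ν, F (g • ω) (g • ν) = F ω ν)
    (hsum : ∀ ω, ∑ ν, F ω ν = 0) :
    ∃ α : ℚ, ∀ ω ν, F ω ν = α * ((if ω = ν then 1 else 0) - 1 / (Fintype.card Ω : ℚ)) := by
  classical
  haveI := h2
  haveI : Nontrivial Ω := Fintype.one_lt_card_iff_nontrivial.mp hn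
  obtain ⟨ω₀, ν₀, hne⟩ := exists_pair_ne Ω
  have h2' : ∀ {a b c d : Ω}, a ≠ b → c ≠ d → ∃ g : G, g • a = c ∧ g • b = d :=
    MulAction.is_two_pretransitive_iff.mp h2
  have htr : MulAction.IsPretransitive G Ω := MulAction.isPretransitive_of_is_two_pretransitive
  set d := F ω₀ ω₀ with hd
  set e := F ω₀ ν₀ with he
  have hdiag : ∀ ω, F ω ω = d := by
    intro ω
    obtain ⟨g, rfl⟩ := MulAction.exists_smul_eq G ω₀ ω
    exact hF g _ _
  have hoff : ∀ ω ν, ω ≠ ν → F ω ν = e := by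
    intro ω ν h
    obtain ⟨g, rfl, rfl⟩ := h2' hne h
    exact hF g _ _
  have hn0 : (Fintype.card Ω : ℚ) ≠ 0 := by
    have : Fintype.card Ω ≠ 0 := by omega
    exact_mod_cast this
  have hrel : d + ((Fintype.card Ω : ℚ) - 1) * e = 0 := by
    have h3 := hsum ω₀
    rw [← Finset.add_sum_erase _ _ (Finset.mem_univ ω₀), hdiag] at h3
    rw [Finset.sum_congr rfl (fun ν hν => hoff ω₀ ν (Finset.ne_of_mem_erase hν).symm)] at h3
    rw [Finset.sum_const, Finset.card_erase_of_mem (Finset.mem_univ _), Finset.card_univ,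
      nsmul_eq_mul, Nat.cast_sub (by omega)] at h3
    simpa using h3
  refine ⟨d - e, fun ω ν => ?_⟩
  by_cases h : ω = ν
  · subst h
    rw [hdiag, if_pos rfl]
    field_simp
    linear_combination hrel
  · rw [hoff ω ν h, if_neg h]
    field_simp
    linear_combination hrel

theorem no_three {G Ω : Type*} [Group G] [Finite G] [MulAction G Ω] [Finite Ω]
    (h2 : MulAction.IsMultiplyPretransitive G Ω 2) (H : Subgroup G) (hidx : H.index = Nat.card Ω)
    (a c b : Ω) (hac : c ∉ MulAction.orbit H a) (hab : b ∉ MulAction.orbit H a)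
    (hcb : b ∉ MulAction.orbit H c) : False := by
  classical
  haveI := Fintype.ofFinite Ω
  haveI := h2
  haveI htr : MulAction.IsPretransitive G Ω := MulAction.isPretransitive_of_is_two_pretransitive
  haveI : Finite (G ⧸ H) := inferInstance
  haveI := Fintype.ofFinite (G ⧸ H)
  have hcard : Fintype.card (G ⧸ H) = Fintype.card Ω := by
    rw [← Nat.card_eq_fintype_card, ← Nat.card_eq_fintype_card, ← hidx]
    rfl
  have hac' : a ≠ c := by
    rintro rfl
    exact hac (MulAction.mem_orbit_self a)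
  have hn : 1 < Fintype.card Ω := Fintype.one_lt_card_iff.mpr ⟨a, c, hac'⟩
  set n : ℚ := (Fintype.card Ω : ℚ) with hndef
  have hn0 : n ≠ 0 := by
    have : Fintype.card Ω ≠ 0 := by omega
    simpa [hndef] using this
  let O : Ω → Set Ω := fun w => MulAction.orbit H w
  have hO : ∀ w, ∀ h ∈ H, ∀ ω, h • ω ∈ O w ↔ ω ∈ O w := by
    intro w h hh ω
    have e : h • ω = (⟨h, hh⟩ : H) • ω := rfl
    rw [e]
    constructor
    · rintro ⟨k, hk⟩
      refine ⟨(⟨h, hh⟩ : H)⁻¹ * k, ?_⟩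
      have hk' : k • w = (⟨h, hh⟩ : H) • ω := hk
      show ((⟨h, hh⟩ : H)⁻¹ * k) • w = ω
      rw [mul_smul, hk', inv_smul_smul]
    · rintro ⟨k, rfl⟩
      exact ⟨(⟨h, hh⟩ : H) * k, mul_smul _ _ _⟩
  let s : Ω → ℚ := fun w => ∑ ω, if ω ∈ O w then (1 : ℚ) else 0
  let N : Ω → G ⧸ H → Ω → ℚ := fun w x ω => inc H (O w) x ω - s w / n
  have hrow : ∀ w x, ∑ ω, N w x ω = 0 := by
    intro w x
    simp only [N, Finset.sum_sub_distrib, inc_row, Finset.sum_const, Finset.card_univ, nsmul_eq_mul]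
    rw [← hndef]
    field_simp
    simp [s]
  have hcol : ∀ w ω, ∑ x, N w x ω = 0 := by
    intro w ω
    simp only [N, Finset.sum_sub_distrib, Finset.sum_const, Finset.card_univ, nsmul_eq_mul, hcard]
    rw [inc_col H (O w) (hO w) hcard (by omega), ← hndef]
    field_simp
    simp [s]
  have hinv : ∀ w (g : G) x ω, N w (g • x) (g • ω) = N w x ω := by
    intro w g x ω
    simp only [N, inc_smul H (O w) (hO w)]
  have hform : ∀ w w', ∃ α : ℚ, ∀ ω ν, ∑ x, N w x ω * N w' x ν =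
      α * ((if ω = ν then 1 else 0) - 1 / n) := by
    intro w w'
    apply exists_form (G := G) h2 hn
    · intro g ω ν
      rw [← Equiv.sum_comp (MulAction.toPerm g : Equiv.Perm (G ⧸ H))]
      apply Finset.sum_congr rfl
      intro x _
      simp only [MulAction.toPerm_apply, hinv]
    · intro ω
      rw [Finset.sum_comm]
      simp_rw [← Finset.mul_sum, hrow, mul_zero]
      simp
  obtain ⟨α, hα⟩ := hform a a
  obtain ⟨β, hβ⟩ := hform a c
  let x₀ : G ⧸ H := ((1 : G) : G ⧸ H)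
  have hval : ∀ w ω, N w x₀ ω = (if ω ∈ O w then 1 else 0) - s w / n := by
    intro w ω
    simp only [N, x₀]
    rw [inc_base H (O w) (hO w)]
  have hα0 : α ≠ 0 := by
    rintro rfl
    have h0 : ∀ ω x, N a x ω = 0 := by
      intro ω x
      have h3 := hα ω ω
      rw [zero_mul] at h3
      have h4 : ∀ y ∈ Finset.univ, 0 ≤ N a y ω * N a y ω := fun y _ => mul_self_nonneg _
      have h5 := (Finset.sum_eq_zero_iff_of_nonneg h4).mp h3 x (Finset.mem_univ _)
      exact mul_self_eq_zero.mp h5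
    have h6 := h0 a x₀
    have h7 := h0 c x₀
    rw [hval] at h6 h7
    rw [if_pos (MulAction.mem_orbit_self a)] at h6
    rw [if_neg hac] at h7
    linarith
  have hprop := prop_of_forms (Fintype.equivOfCardEq hcard) n hndef hn0 (N a) (N c) (hrow a)
    (hcol a) (hcol c) α β hα0 hα hβ
  have h8 := hprop x₀ c
  have h9 := hprop x₀ b
  rw [hval, hval] at h8 h9
  rw [if_pos (MulAction.mem_orbit_self c), if_neg hac] at h8
  rw [if_neg hcb, if_neg hab] at h9
  have h10 : (1 : ℚ) = 0 := by linarith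
  exact one_ne_zero h10

/-- Let G be a finite group acting faithfully and 2-transitively on a finite set Ω of size n, and let H be a subgroup of index n in G which is not transitive on Ω and fixes no point of Ω. Then H has exactly two orbits on Ω. -/
theorem result {G Ω : Type*} [Group G] [Finite G] [MulAction G Ω] [FaithfulSMul G Ω] [Finite Ω] (h2 : MulAction.IsMultiplyPretransitive G Ω 2) (H : Subgroup G) (hidx : H.index = Nat.card Ω) (hnt : ¬ MulAction.IsPretransitive H Ω) (hfix : ∀ a : Ω, ∃ h : H, h • a ≠ a) : Nat.card (MulAction.orbitRel.Quotient H Ω) = 2 := by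
  classical
  haveI hfinq : Finite (MulAction.orbitRel.Quotient H Ω) := inferInstance
  haveI := Fintype.ofFinite (MulAction.orbitRel.Quotient H Ω)
  have hq : ∀ z : MulAction.orbitRel.Quotient H Ω, ∃ ω : Ω, (Quotient.mk'' ω) = z := by
    intro z
    exact ⟨z.out, Quotient.out_eq' z⟩
  have heq : ∀ ω ν : Ω, (Quotient.mk'' ω : MulAction.orbitRel.Quotient H Ω) = Quotient.mk'' ν ↔
      ω ∈ MulAction.orbit H ν := by
    intro ω ν
    rw [Quotient.eq'']
    rfl
  have hle : Nat.card (MulAction.orbitRel.Quotient H Ω) ≤ 2 := by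
    by_contra hcon
    push Not at hcon
    rw [Nat.card_eq_fintype_card, ← Finset.card_univ] at hcon
    obtain ⟨z1, -, z2, -, z3, -, h12, h13, h23⟩ := Finset.two_lt_card.mp hcon
    obtain ⟨a, rfl⟩ := hq z1
    obtain ⟨c, rfl⟩ := hq z2
    obtain ⟨b, rfl⟩ := hq z3
    apply no_three h2 H hidx a c b
    · intro h
      exact h12 ((heq _ _).mpr h).symm
    · intro h
      exact h13 ((heq _ _).mpr h).symm
    · intro h
      exact h23 ((heq _ _).mpr h).symm
  have hge : 2 ≤ Nat.card (MulAction.orbitRel.Quotient H Ω) := by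
    by_contra hcon
    push Not at hcon
    apply hnt
    rw [MulAction.pretransitive_iff_subsingleton_quotient]
    have h1 : Nat.card (MulAction.orbitRel.Quotient H Ω) ≤ 1 := by omega
    exact (Finite.card_le_one_iff_subsingleton).mp h1
  omega

end Cfsg.Agent.S3704
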