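import Cfsg.Statements.S3733
import Mathlib

set_option autoImplicit false
open Cfsg

namespace Cfsg.Agent.S3733

private lemma key {W A ι : Type*} [CommGroup W] [Group A] [Fintype A] [DecidableEq A]
    [DecidableEq ι]
    (φ : A →* MulAut W) (𝒜 : Finset ι) (mem : ι → Subgroup A) (hne : 𝒜.Nonempty)
    (hpart : ∀ a : A, a ≠ 1 → ∃! i, i ∈ 𝒜 ∧ a ∈ mem i)
    (hfix : ∀ i ∈ 𝒜, ∀ w : W, (∀ b ∈ mem i, φ b w = w) → w = 1) (v : W) :
    v ^ (𝒜.card - 1) = 1 := by
  classical
  let f : A → W := fun a => φ a v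
  -- fixed points of partial norms
  have hnorm : ∀ Q : Subgroup A, ∀ b ∈ Q, φ b (∏ a : A, if a ∈ Q then f a else 1) =
      ∏ a : A, if a ∈ Q then f a else 1 := by
    intro Q b hb
    rw [map_prod]
    refine Fintype.prod_equiv (Equiv.mulLeft b) _ _ ?_
    intro a
    simp only [Equiv.coe_mulLeft]
    by_cases ha : a ∈ Q
    · have : b * a ∈ Q := Q.mul_mem hb ha
      simp [ha, this, f, map_mul]
    · have : b * a ∉ Q := fun h => ha (by simpa [hb] using (Q.mul_mem_cancel_left hb).1 h)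
      simp [ha, this]
  have hP : ∀ i ∈ 𝒜, (∏ a : A, if a ∈ mem i then f a else 1) = 1 := by
    intro i hi
    exact hfix i hi _ (fun b hb => hnorm _ b hb)
  have htop : (∏ a : A, f a) = 1 := by
    obtain ⟨i, hi⟩ := hne
    refine hfix i hi _ (fun b _ => ?_)
    have := hnorm ⊤ b (Subgroup.mem_top b)
    simpa using this
  have h1 : (∏ i ∈ 𝒜, ∏ a : A, if a ∈ mem i then f a else 1) = 1 :=
    Finset.prod_eq_one hP
  rw [Finset.prod_comm] at h1
  -- evaluate the inner product
  have h2 : ∀ a : A, a ≠ 1 → (∏ i ∈ 𝒜, if a ∈ mem i then f a else 1) = f a := by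
    intro a ha
    obtain ⟨i, ⟨hi, hai⟩, huniq⟩ := hpart a ha
    rw [Finset.prod_eq_single i]
    · simp [hai]
    · intro j hj hji
      have : a ∉ mem j := fun h => hji (huniq j ⟨hj, h⟩)
      simp [this]
    · intro h; exact absurd hi h
  have hf1 : f 1 = v := by simp [f]
  have h3 : (∏ i ∈ 𝒜, if (1 : A) ∈ mem i then f 1 else 1) = v ^ 𝒜.card := by
    simp [hf1]
  have h4 : (∏ a : A, ∏ i ∈ 𝒜, if a ∈ mem i then f a else 1) =
      (∏ a : A, f a) * v ^ (𝒜.card - 1) := by
    have hc : 𝒜.card = (𝒜.card - 1) + 1 := (Nat.sub_add_cancel hne.card_pos).symm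
    rw [← Finset.mul_prod_erase Finset.univ _ (Finset.mem_univ (1 : A)),
      ← Finset.mul_prod_erase Finset.univ f (Finset.mem_univ (1 : A)), h3, hf1]
    have : (∏ a ∈ Finset.univ.erase (1 : A), ∏ i ∈ 𝒜, if a ∈ mem i then f a else 1) =
        ∏ a ∈ Finset.univ.erase (1 : A), f a := by
      refine Finset.prod_congr rfl fun a ha => ?_
      exact h2 a (Finset.ne_of_mem_erase ha)
    rw [this]
    conv_lhs => rw [hc, pow_succ]
    ac_rfl
  rw [h4, htop, one_mul] at h1
  exact h1

/-- Let A and V be subgroups of a finite group with V abelian and nontrivial and A normalizing V. Suppose a nonempty finite family of proper subgroups of A partitions A: every non-identity element of A lies in exactly one member. If the number of members minus one is coprime to the order of V, then some member B of the family has a non-identity fixed point on V, that is V ∩ C(B) ≠ 1. -/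
theorem result {G : Type*} [Group G] [Finite G] (A V : Subgroup G) (hVab : IsMulCommutative V) (hV : V ≠ ⊥) (hAV : A ≤ Subgroup.normalizer (V : Set G)) (𝒜 : Finset (Subgroup G)) (hne : 𝒜.Nonempty) (hprop : ∀ B ∈ 𝒜, B < A) (hpart : ∀ a ∈ A, a ≠ 1 → ∃! B, B ∈ 𝒜 ∧ a ∈ B) (hk : (𝒜.card - 1).Coprime (Nat.card V)) : ∃ B ∈ 𝒜, V ⊓ Subgroup.centralizer (B : Set G) ≠ ⊥ := by
  classical
  by_contra hcon
  push Not at hcon
  haveI := Fintype.ofFinite A
  letI : CommGroup V := { (inferInstance : Group V) with mul_comm := hVab.is_comm.comm }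
  let φ : A →* MulAut V := (Subgroup.normalizerMonoidHom V).comp (Subgroup.inclusion hAV)
  have hφ : ∀ (a : A) (w : V), ((φ a w : V) : G) = (a : G) * (w : G) * (a : G)⁻¹ := by
    intro a w
    rfl
  have hv : ∀ v : V, v ^ (𝒜.card - 1) = 1 := by
    intro v
    refine key φ 𝒜 (fun B => B.subgroupOf A) hne ?_ ?_ v
    · intro a ha
      obtain ⟨B, ⟨hB, haB⟩, hu⟩ := hpart a a.2 (fun h => ha (Subtype.ext h))
      refine ⟨B, ⟨hB, haB⟩, ?_⟩
      rintro C ⟨hC, haC⟩
      exact hu C ⟨hC, haC⟩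
    · intro B hB w hw
      have hmem : (w : G) ∈ V ⊓ Subgroup.centralizer (B : Set G) := by
        refine Subgroup.mem_inf.2 ⟨w.2, ?_⟩
        rw [Subgroup.mem_centralizer_iff]
        intro b hb
        have hbA : b ∈ A := (hprop B hB).le hb
        have := hw ⟨b, hbA⟩ hb
        have h2 := congrArg Subtype.val this
        rw [hφ] at h2
        have h3 : b * (w : G) * b⁻¹ = w := h2
        exact mul_inv_eq_iff_eq_mul.1 h3
      rw [hcon B hB] at hmem
      exact Subtype.ext (Subgroup.mem_bot.1 hmem)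
  apply hV
  rw [eq_bot_iff]
  intro x hx
  rw [Subgroup.mem_bot]
  have h1 : orderOf (⟨x, hx⟩ : V) ∣ 𝒜.card - 1 := orderOf_dvd_of_pow_eq_one (hv _)
  have h2 : orderOf (⟨x, hx⟩ : V) ∣ Nat.card V := orderOf_dvd_natCard _
  have h3 : orderOf (⟨x, hx⟩ : V) = 1 := Nat.dvd_one.1 (hk ▸ Nat.dvd_gcd h1 h2)
  have h4 := orderOf_eq_one_iff.1 h3
  exact congrArg Subtype.val h4

end Cfsg.Agent.S3733
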