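import Cfsg.Statements.S3735
import Mathlib

set_option autoImplicit false
open Cfsg

namespace Cfsg.Agent.S3735

variable {G : Type*} [Group G]

lemma conj_mem_of_le_normalizer {H U : Subgroup G} (h : H ≤ Subgroup.normalizer (U : Set G))
    {x u : G} (hx : x ∈ H) (hu : u ∈ U) : x * u * x⁻¹ ∈ U :=
  (Subgroup.mem_normalizer_iff.mp (h hx) u).mp hu

lemma le_norm {A L : Subgroup G} (h : ∀ a ∈ A, ∀ x ∈ L, a * x * a⁻¹ ∈ L) :
    A ≤ Subgroup.normalizer (L : Set G) := by
  intro a ha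
  rw [Subgroup.mem_normalizer_iff]
  intro x
  refine ⟨h a ha x, fun hx => ?_⟩
  have := h a⁻¹ (A.inv_mem ha) _ hx
  simpa [mul_assoc] using this

lemma le_norm_sup {A W K : Subgroup G} (hW : A ≤ Subgroup.normalizer (W : Set G))
    (hK : A ≤ Subgroup.normalizer (K : Set G)) : A ≤ Subgroup.normalizer ((W ⊔ K : Subgroup G) : Set G) := by
  apply le_norm
  intro a ha x hx
  have h1 : (W ⊔ K).map (MulAut.conj a).toMonoidHom ≤ W ⊔ K := by
    rw [Subgroup.map_sup]
    apply sup_le_sup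
    · rintro _ ⟨w, hw, rfl⟩
      exact conj_mem_of_le_normalizer hW ha hw
    · rintro _ ⟨w, hw, rfl⟩
      exact conj_mem_of_le_normalizer hK ha hw
  exact h1 ⟨x, hx, rfl⟩

/-- The conjugate of `U` by `h`. -/
abbrev cj (h : G) (U : Subgroup G) : Subgroup G := U.map (MulAut.conj h).toMonoidHom

lemma mem_cj {h : G} {U : Subgroup G} {x : G} : x ∈ cj h U ↔ h⁻¹ * x * h ∈ U := by
  constructor
  · rintro ⟨u, hu, rfl⟩
    simpa [mul_assoc] using hu
  · intro hx
    exact ⟨h⁻¹ * x * h, hx, by simp [mul_assoc]⟩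

lemma cj_cj (h : G) (L : Subgroup G) : cj h (cj h⁻¹ L) = L := by
  ext x
  rw [mem_cj, mem_cj]
  simp [mul_assoc]

/-- `K` is `A`-minimal. -/
def IsMin (A V K : Subgroup G) : Prop :=
  K ≠ ⊥ ∧ K ≤ V ∧ A ≤ Subgroup.normalizer (K : Set G) ∧
    ∀ L : Subgroup G, L ≤ K → A ≤ Subgroup.normalizer (L : Set G) → L = ⊥ ∨ L = K

lemma exists_isMin [Finite G] (A V W : Subgroup G) (hW : W ≠ ⊥) (hWV : W ≤ V)
    (hAW : A ≤ Subgroup.normalizer (W : Set G)) : ∃ K, IsMin A V K ∧ K ≤ W := by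
  classical
  let S : Set (Subgroup G) := {K | K ≠ ⊥ ∧ K ≤ W ∧ A ≤ Subgroup.normalizer (K : Set G)}
  have hS : S.Nonempty := ⟨W, hW, le_rfl, hAW⟩
  obtain ⟨K, hK, hmin⟩ := S.toFinite.exists_minimalFor id S hS
  refine ⟨K, ⟨hK.1, hK.2.1.trans hWV, hK.2.2, ?_⟩, hK.2.1⟩
  intro L hLK hAL
  by_cases hL : L = ⊥
  · exact Or.inl hL
  · right
    have hLS : L ∈ S := ⟨hL, hLK.trans hK.2.1, hAL⟩
    exact le_antisymm hLK (hmin hLS hLK)

lemma mem_sup_of_comm {V W K : Subgroup G} (hcomm : ∀ a ∈ V, ∀ b ∈ V, a * b = b * a)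
    (hW : W ≤ V) (hK : K ≤ V) {x : G} (hx : x ∈ W ⊔ K) : ∃ w ∈ W, ∃ k ∈ K, x = w * k := by
  rw [← Subgroup.closure_eq W, ← Subgroup.closure_eq K, ← Subgroup.closure_union] at hx
  induction hx using Subgroup.closure_induction with
  | mem y hy =>
    rcases hy with hy | hy
    · exact ⟨y, hy, 1, K.one_mem, by simp⟩
    · exact ⟨1, W.one_mem, y, hy, by simp⟩
  | one => exact ⟨1, W.one_mem, 1, K.one_mem, by simp⟩
  | mul a b _ _ ha hb =>
    obtain ⟨w, hw, k, hk, rfl⟩ := ha
    obtain ⟨w', hw', k', hk', rfl⟩ := hb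
    refine ⟨w * w', W.mul_mem hw hw', k * k', K.mul_mem hk hk', ?_⟩
    have : k * w' = w' * k := hcomm _ (hK hk) _ (hW hw')
    calc w * k * (w' * k') = w * (k * w') * k' := by group
      _ = w * (w' * k) * k' := by rw [this]
      _ = w * w' * (k * k') := by group
  | inv a _ ha =>
    obtain ⟨w, hw, k, hk, rfl⟩ := ha
    refine ⟨w⁻¹, W.inv_mem hw, k⁻¹, K.inv_mem hk, ?_⟩
    rw [mul_inv_rev]
    exact hcomm _ (hK (K.inv_mem hk)) _ (hW (W.inv_mem hw))

/-- Clifford's Theorem for actions on finite abelian groups, first part. Let H and V be subgroups of a finite group with V abelian and H normalizing V, and let A be a normal subgroup of H. If every H-invariant subgroup of V has an H-invariant complement in V, then every A-invariant subgroup of V has an A-invariant complement in V. -/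
theorem result {G : Type*} [Group G] [Finite G] (H A V : Subgroup G) (hVab : IsMulCommutative V) (hHV : H ≤ Subgroup.normalizer (V : Set G)) (hAH : A ≤ H) (hAn : H ≤ Subgroup.normalizer (A : Set G)) (hss : ∀ U : Subgroup G, U ≤ V → H ≤ Subgroup.normalizer (U : Set G) → ∃ W : Subgroup G, W ≤ V ∧ H ≤ Subgroup.normalizer (W : Set G) ∧ U ⊓ W = ⊥ ∧ U ⊔ W = V) (U : Subgroup G) (hUV : U ≤ V) (hAU : A ≤ Subgroup.normalizer (U : Set G)) : ∃ W : Subgroup G, W ≤ V ∧ A ≤ Subgroup.normalizer (W : Set G) ∧ U ⊓ W = ⊥ ∧ U ⊔ W = V := by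
  classical
  -- commutativity in `V`
  have hcomm : ∀ a ∈ V, ∀ b ∈ V, a * b = b * a := by
    intro a ha b hb
    have := hVab.is_comm.comm (⟨a, ha⟩ : V) ⟨b, hb⟩
    exact congrArg Subtype.val this
  -- the join of all the `A`-minimal subgroups
  let S : Subgroup G := sSup {K | IsMin A V K}
  have hSV : S ≤ V := sSup_le fun K hK => hK.2.1
  have hconjmin : ∀ h ∈ H, ∀ K, IsMin A V K → IsMin A V (cj h K) := by
    intro h hh K hK
    have hconjA : ∀ a ∈ A, h⁻¹ * a * h ∈ A := by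
      intro a ha
      have := conj_mem_of_le_normalizer hAn (H.inv_mem hh) ha
      simpa using this
    have hconjA' : ∀ a ∈ A, h * a * h⁻¹ ∈ A := fun a ha => conj_mem_of_le_normalizer hAn hh ha
    have hgen : ∀ (h : G), (∀ a ∈ A, h⁻¹ * a * h ∈ A) → ∀ L : Subgroup G,
        A ≤ Subgroup.normalizer (L : Set G) → A ≤ Subgroup.normalizer ((cj h L : Subgroup G) : Set G) := by
      intro h hA L hL
      apply le_norm
      intro a ha x hx
      rw [mem_cj] at hx ⊢
      have := conj_mem_of_le_normalizer hL (hA a ha) hx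
      have e : h⁻¹ * a * h * (h⁻¹ * x * h) * (h⁻¹ * a * h)⁻¹ = h⁻¹ * (a * x * a⁻¹) * h := by group
      rwa [e] at this
    refine ⟨?_, ?_, hgen h hconjA K hK.2.2.1, ?_⟩
    · intro hb
      apply hK.1
      have : K = cj h⁻¹ (cj h K) := by
        have := cj_cj h⁻¹ K
        simpa using this.symm
      rw [this, hb]
      simp
    · intro x hx
      rw [mem_cj] at hx
      have h1 := hK.2.1 hx
      have := conj_mem_of_le_normalizer hHV hh h1
      simpa [mul_assoc] using this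
    · intro L hL hAL
      have hL' : cj h⁻¹ L ≤ K := by
        intro x hx
        rw [mem_cj] at hx
        have h1 := hL hx
        rw [mem_cj] at h1
        simpa [mul_assoc] using h1
      have hAL' : A ≤ Subgroup.normalizer ((cj h⁻¹ L : Subgroup G) : Set G) :=
        hgen h⁻¹ (by simpa using hconjA') L hAL
      rcases hK with ⟨_, _, _, hK4⟩
      rcases hK4 _ hL' hAL' with h2 | h2
      · left
        rw [← cj_cj h L, h2]
        simp
      · right
        rw [← cj_cj h L, h2]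
  have hHS : H ≤ Subgroup.normalizer (S : Set G) := by
    apply le_norm
    intro h hh x hx
    have h1 : S.map (MulAut.conj h).toMonoidHom ≤ S := by
      show cj h S ≤ S
      rw [cj, Subgroup.map_le_iff_le_comap]
      apply sSup_le
      intro K hK
      rw [← Subgroup.map_le_iff_le_comap]
      exact le_sSup (hconjmin h hh K hK)
    exact h1 ⟨x, hx, rfl⟩
  have hSeq : S = V := by
    obtain ⟨W, hWV, hHW, hi, hs⟩ := hss S hSV hHS
    have hWb : W = ⊥ := by
      by_contra hne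
      obtain ⟨K, hK, hKW⟩ := exists_isMin A V W hne hWV (hAH.trans hHW)
      have hKS : K ≤ S := le_sSup hK
      have : K ≤ S ⊓ W := le_inf hKS hKW
      rw [hi, le_bot_iff] at this
      exact hK.1 this
    rw [hWb, sup_bot_eq] at hs
    exact hs
  -- a maximal invariant subgroup missing U
  let T : Set (Subgroup G) := {W | W ≤ V ∧ A ≤ Subgroup.normalizer (W : Set G) ∧ U ⊓ W = ⊥}
  have hT : T.Nonempty := ⟨⊥, bot_le, by
    apply le_norm
    intro a _ x hx
    rw [Subgroup.mem_bot] at hx ⊢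
    simp [hx], by simp⟩
  obtain ⟨W, hW, hmax⟩ := T.toFinite.exists_maximalFor id T hT
  refine ⟨W, hW.1, hW.2.1, hW.2.2, ?_⟩
  by_contra hne
  have hUW : U ⊔ W ≤ V := sup_le hUV hW.1
  -- a minimal subgroup not in U ⊔ W
  obtain ⟨K, hK, hKn⟩ : ∃ K, IsMin A V K ∧ ¬ K ≤ U ⊔ W := by
    by_contra hall
    push Not at hall
    apply hne
    apply le_antisymm hUW
    rw [← hSeq]
    exact sSup_le hall
  have hAUW : A ≤ Subgroup.normalizer ((U ⊔ W : Subgroup G) : Set G) := le_norm_sup hAU hW.2.1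
  have hinf : K ⊓ (U ⊔ W) = ⊥ := by
    have hinv : A ≤ Subgroup.normalizer ((K ⊓ (U ⊔ W) : Subgroup G) : Set G) := by
      apply le_norm
      intro a ha x hx
      exact ⟨conj_mem_of_le_normalizer hK.2.2.1 ha hx.1, conj_mem_of_le_normalizer hAUW ha hx.2⟩
    rcases hK.2.2.2 _ inf_le_left hinv with h1 | h1
    · exact h1
    · exfalso
      apply hKn
      rw [← h1]
      exact inf_le_right
  have hW' : W ⊔ K ∈ T := by
    refine ⟨sup_le hW.1 hK.2.1, le_norm_sup hW.2.1 hK.2.2.1, ?_⟩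
    rw [eq_bot_iff]
    rintro x ⟨hxU, hxWK⟩
    obtain ⟨w, hw, k, hk, rfl⟩ := mem_sup_of_comm hcomm hW.1 hK.2.1 hxWK
    have hk1 : k ∈ K ⊓ (U ⊔ W) := by
      refine ⟨hk, ?_⟩
      have : k = w⁻¹ * (w * k) := by group
      rw [this]
      exact Subgroup.mul_mem _ (Subgroup.mem_sup_right (W.inv_mem hw)) (Subgroup.mem_sup_left hxU)
    rw [hinf, Subgroup.mem_bot] at hk1
    subst hk1
    rw [mul_one] at hxU ⊢
    have : w ∈ U ⊓ W := ⟨hxU, hw⟩
    rwa [hW.2.2] at this
  have hle : W ≤ W ⊔ K := le_sup_left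
  have h3 := hmax hW' hle
  apply hKn
  exact (le_sup_right.trans h3).trans le_sup_right

end Cfsg.Agent.S3735
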