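import Cfsg.Statements.S3737
import Cfsg.Agent.S3736
import Cfsg.Agent.Lib.FGS.Baer
import Mathlib

set_option autoImplicit false
open Cfsg
open scoped commutatorElement

namespace Cfsg.Agent.S3737

open Cfsg.Agent.Lib.FGS.Baer

/-- Thompson's strengthening of the P × Q lemma for odd primes. Let p be an odd prime and let P, Q and G be subgroups of a finite group with P a p-group, Q of order prime to p and normalized by P, and G a p-group normalized by both P and Q. If every element of G centralized by P is centralized by Q, then Q centralizes G. -/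
theorem result {X : Type*} [Group X] [Finite X] {p : ℕ} [Fact p.Prime] (hp : p ≠ 2) (P Q G : Subgroup X) (hP : IsPGroup p P) (hQ : (Nat.card Q).Coprime p) (hPQ : P ≤ Subgroup.normalizer (Q : Set X)) (hG : IsPGroup p G) (hPG : P ≤ Subgroup.normalizer (G : Set X)) (hQG : Q ≤ Subgroup.normalizer (G : Set X)) (hC : G ⊓ Subgroup.centralizer (P : Set X) ≤ Subgroup.centralizer (Q : Set X)) : Q ≤ Subgroup.centralizer (G : Set X) := by
  classical
  have hpp : p.Prime := Fact.out
  have hodd : Odd p := hpp.odd_of_ne_two hp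
  rw [← Subgroup.commutator_eq_bot_iff_le_centralizer, Subgroup.commutator_comm]
  by_contra hnt
  -- a minimal counterexample
  let S : Set (Subgroup X) := {U | U ≤ G ∧ P ≤ Subgroup.normalizer (U : Set X) ∧
    Q ≤ Subgroup.normalizer (U : Set X) ∧ ⁅U, Q⁆ ≠ ⊥}
  have hSne : S.Nonempty := ⟨G, le_rfl, hPG, hQG, hnt⟩
  obtain ⟨R, hR⟩ := (Set.toFinite S).exists_minimal hSne
  obtain ⟨hRG, hRP, hRQ, hRnt⟩ := hR.prop
  have hRp : IsPGroup p R := hG.to_le hRG
  have hBR : P ⊔ Q ≤ Subgroup.normalizer (R : Set X) := sup_le hRP hRQ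
  have hBQ : P ⊔ Q ≤ Subgroup.normalizer (Q : Set X) := sup_le hPQ Subgroup.le_normalizer
  have hHH := Cfsg.Agent.S3736.result (P ⊔ Q) Q R hRp hBR le_sup_right hBQ hQ hRnt
    (fun U hU hUB => by
      by_contra hc
      have hUS : U ∈ S := ⟨hU.le.trans hRG, le_sup_left.trans hUB, le_sup_right.trans hUB, hc⟩
      exact absurd (hR.eq_of_le hUS hU.le) hU.ne)
  obtain ⟨-, hcl, -, hexp'⟩ := hHH
  have hexpR := hexp' hp
  -- the group `E = ↥R`
  have hexpE : ∀ x : R, x ^ p = 1 := fun x => Subtype.ext (by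
    simpa using hexpR x x.2)
  have hcE : ∀ a b : R, ⁅a, b⁆ ∈ Subgroup.center R := by
    rcases hcl with hab | hsp
    · intro a b
      have : ⁅a, b⁆ = 1 := by
        rw [commutatorElement_eq_one_iff_mul_comm]
        exact hab.1.is_comm.comm a b
      rw [this]; exact Subgroup.one_mem _
    · intro a b
      exact Cfsg.Agent.Lib.PGroups.Special.IsSpecial.comm_mem hsp a b
  letI : AddCommGroup R := addCommGroup p hcE hodd hexpE
  haveI : Fintype Q := Fintype.ofFinite Q
  have hVp : ∀ v : R, p • v = 0 := by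
    intro v
    rw [nsmul_eq_pow hcE hodd hexpE, hexpE]
    rfl
  -- the actions
  let ρ := R.normalizerMonoidHom
  let ρP : P →* AddMonoid.End R :=
    (endOf p hcE hodd hexpE).comp (ρ.comp (Subgroup.inclusion hRP))
  let ρQ : Q →* AddMonoid.End R :=
    (endOf p hcE hodd hexpE).comp (ρ.comp (Subgroup.inclusion hRQ))
  have hρP : ∀ (s : P) (v : R), ((ρP s v : R) : X) = (s : X) * v * (s : X)⁻¹ := fun _ _ => rfl
  have hρQ : ∀ (s : Q) (v : R), ((ρQ s v : R) : X) = (s : X) * v * (s : X)⁻¹ := fun _ _ => rfl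
  have htriv := trivial_of_fixed_le hVp hP ρP ρQ (by rw [← Nat.card_eq_fintype_card]; exact hQ)
    (fun s => by
      refine ⟨{ toFun := fun q => ⟨(s : X) * q * (s : X)⁻¹,
                  Subgroup.le_normalizer_iff.1 hPQ s s.2 q q.2⟩
                invFun := fun q => ⟨(s : X)⁻¹ * q * s, by
                  have := Subgroup.le_normalizer_iff.1 hPQ _ (P.inv_mem s.2) q q.2
                  simpa using this⟩
                left_inv := fun q => Subtype.ext (by simp [mul_assoc])
                right_inv := fun q => Subtype.ext (by simp [mul_assoc]) }, ?_⟩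
      intro q
      ext v
      show (s : X) * ((q : X) * v * (q : X)⁻¹) * (s : X)⁻¹ =
        ((s : X) * q * (s : X)⁻¹) * ((s : X) * v * (s : X)⁻¹) * ((s : X) * q * (s : X)⁻¹)⁻¹
      group)
    (fun v hv q => by
      have h1 : (v : X) ∈ G ⊓ Subgroup.centralizer (P : Set X) := by
        refine Subgroup.mem_inf.2 ⟨hRG v.2, ?_⟩
        rw [Subgroup.mem_centralizer_iff]
        intro s hs
        have h2 := congrArg Subtype.val (hv ⟨s, hs⟩)
        rw [hρP] at h2
        exact mul_inv_eq_iff_eq_mul.1 h2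
      have h3 := (Subgroup.mem_centralizer_iff.1 (hC h1)) q q.2
      apply Subtype.ext
      rw [hρQ]
      exact mul_inv_eq_of_eq_mul h3)
  apply hRnt
  rw [eq_bot_iff, Subgroup.commutator_le]
  intro r hr q hq
  rw [Subgroup.mem_bot, commutatorElement_eq_one_iff_mul_comm]
  have h := congrArg Subtype.val (htriv ⟨q, hq⟩ ⟨r, hr⟩)
  rw [hρQ] at h
  exact (mul_inv_eq_iff_eq_mul.1 h).symm

end Cfsg.Agent.S3737
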