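import Cfsg.Statements.S3738
import Cfsg.Agent.S3736
import Cfsg.Agent.Lib.FGS.QuadCW
import Mathlib

set_option autoImplicit false
open Cfsg
open scoped commutatorElement

namespace Cfsg.Agent.S3738

open Cfsg.Agent.Lib.FGS.QuadCW Cfsg.Agent.Lib.FGS.CoprimeMod Cfsg.Agent.Lib.Coprime.Action
  Cfsg.Agent.Lib.PGroups.Special Subgroup

private theorem card_dvd_of_conj_free {G : Type*} [Group G] [Finite G] (A : Subgroup G) (X : Set G)
    (hX : ∀ a ∈ A, ∀ x ∈ X, a * x * a⁻¹ ∈ X)
    (hfree : ∀ a ∈ A, ∀ x ∈ X, a * x * a⁻¹ = x → a = 1) : Nat.card A ∣ Nat.card X := by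
  classical
  letI : MulAction A X :=
    { smul := fun a x => ⟨(a : G) * x * (a : G)⁻¹, hX a a.2 x x.2⟩
      one_smul := by
        intro x
        apply Subtype.ext
        change ((1 : A) : G) * x * ((1 : A) : G)⁻¹ = x
        simp
      mul_smul := by
        intro a b x
        apply Subtype.ext
        change ((a * b : A) : G) * x * ((a * b : A) : G)⁻¹ =
          (a : G) * ((b : G) * x * (b : G)⁻¹) * (a : G)⁻¹
        simp only [Subgroup.coe_mul]
        group }
  have hsmul : ∀ (a : A) (x : X), ((a • x : X) : G) = (a : G) * x * (a : G)⁻¹ := fun _ _ => rfl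
  have hst : ∀ b : X, MulAction.stabilizer A b = ⊥ := by
    intro b
    rw [eq_bot_iff]
    intro a ha
    have h1 : a • b = b := ha
    have h2 : (a : G) * b * (a : G)⁻¹ = b := by
      rw [← hsmul, h1]
    have := hfree a a.2 b b.2 h2
    exact (Subgroup.mem_bot).mpr (Subtype.ext this)
  have e := MulAction.selfEquivOrbitsQuotientProd (G := A) (X := X) hst
  rw [Nat.card_congr e, Nat.card_prod]
  exact dvd_mul_left _ _

/-- `2^m ≡ 1 mod 9` with `m ≠ 0` forces `m ≥ 6`. -/
private lemma six_le {m : ℕ} (h : 9 ∣ 2 ^ m - 1) (h0 : m ≠ 0) : 6 ≤ m := by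
  by_contra hlt
  push Not at hlt
  interval_cases m <;> omega

/-- In a cyclic 3-group, every element of order 3 generates the subgroup generated by `w`. -/
private lemma pow_eq_w {X : Type*} [Group X] {d y : X} {n : ℕ} (hn : 1 ≤ n) (hd : orderOf d = 3 ^ n)
    (hy : y ∈ Subgroup.zpowers d) (hy3 : y ^ 3 = 1) (hy1 : y ≠ 1) :
    ∃ j : ℕ, y ^ j = d ^ 3 ^ (n - 1) := by
  have hfin : IsOfFinOrder d := by
    rw [← orderOf_pos_iff, hd]; positivity
  obtain ⟨k, hk⟩ := (hfin.mem_powers_iff_mem_zpowers).2 hy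
  have hk' : d ^ k = y := hk
  subst hk'
  have h1 : orderOf d ∣ k * 3 := by
    apply orderOf_dvd_of_pow_eq_one
    rw [pow_mul]; exact hy3
  rw [hd] at h1
  obtain ⟨n', rfl⟩ : ∃ n', n = n' + 1 := ⟨n - 1, by omega⟩
  rw [pow_succ, Nat.mul_dvd_mul_iff_right (by norm_num)] at h1
  obtain ⟨t, rfl⟩ := h1
  simp only [Nat.add_sub_cancel]
  set w := d ^ 3 ^ n' with hw
  have hw3 : w ^ 3 = 1 := by
    rw [hw, ← pow_mul, ← pow_succ, ← hd, pow_orderOf_eq_one]
  have e : ∀ a : ℕ, (d ^ (3 ^ n' * t)) ^ a = w ^ (t * a) := by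
    intro a
    rw [← pow_mul, hw, ← pow_mul, mul_assoc]
  have ht : t % 3 ≠ 0 := by
    intro h
    apply hy1
    obtain ⟨s, rfl⟩ := Nat.dvd_of_mod_eq_zero h
    have := e 1
    rw [pow_one] at this
    rw [this, mul_one, pow_mul, hw3, one_pow]
  have hmod : t % 3 = 1 ∨ t % 3 = 2 := by omega
  have hpowmod : ∀ a : ℕ, w ^ a = w ^ (a % 3) := by
    intro a
    conv_lhs => rw [← Nat.div_add_mod a 3, pow_add, pow_mul, hw3, one_pow, one_mul]
  rcases hmod with h1 | h2
  · refine ⟨1, ?_⟩
    rw [e, mul_one, hpowmod, h1, pow_one]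
  · refine ⟨2, ?_⟩
    rw [e, hpowmod]
    have : t * 2 % 3 = 1 := by omega
    rw [this, pow_one]

/-- Let d be a non-identity 3-element of a finite group and P a 2-subgroup normalized by d on which ⟨d⟩ acts faithfully (no non-identity power of d centralizes P) and without non-identity fixed points (C_P(d) = 1). If every abelian subgroup of P has 2-rank at most 2, then d has order 3. -/
theorem result {X : Type*} [Group X] [Finite X] (d : X) (n : ℕ) (hn : 1 ≤ n) (hd : orderOf d = 3 ^ n) (P : Subgroup X) (hP : IsPGroup 2 P) (hdP : d ∈ Subgroup.normalizer (P : Set X)) (hfaith : Subgroup.zpowers d ⊓ Subgroup.centralizer (P : Set X) = ⊥) (hfpf : P ⊓ Subgroup.centralizer {d} = ⊥) (hrank : ∀ V : Subgroup X, V ≤ P → IsMulCommutative V → Cfsg.PRankLE 2 2 V) : orderOf d = 3 := by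
  classical
  haveI : Fact (Nat.Prime 2) := ⟨Nat.prime_two⟩
  haveI : Fact (Nat.Prime 3) := ⟨Nat.prime_three⟩
  by_contra hne
  have hn2 : 2 ≤ n := by
    by_contra h
    have : n = 1 := by omega
    rw [this, pow_one] at hd
    exact hne hd
  -- rank consequence
  have hrk : ∀ V : Subgroup X, V ≤ P → IsMulCommutative V → (∀ a ∈ V, a ^ 2 = 1) →
      Nat.card V ≤ 4 := by
    intro V hV hc h2
    have h1 := hrank V hV hc ⊤ (by
      exact ⟨⟨fun a b => Subtype.ext (Subtype.ext (congrArg Subtype.val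
        (hc.is_comm.comm ⟨a.1.1, a.1.2⟩ ⟨b.1.1, b.1.2⟩)))⟩⟩) (fun a _ => Subtype.ext (h2 a a.2))
    simpa using h1
  set A : Subgroup X := Subgroup.zpowers d with hA
  have hAP : A ≤ Subgroup.normalizer (P : Set X) := by rwa [hA, Subgroup.zpowers_le]
  set w : X := d ^ 3 ^ (n - 1) with hw
  have hwA : w ∈ A := A.pow_mem (Subgroup.mem_zpowers d) _
  have hw3 : w ^ 3 = 1 := by
    rw [hw, ← pow_mul, ← pow_succ, show n - 1 + 1 = n by omega, ← hd, pow_orderOf_eq_one]
  have hw1 : w ≠ 1 := by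
    intro h
    have h1 : orderOf d ∣ 3 ^ (n - 1) := orderOf_dvd_of_pow_eq_one h
    rw [hd] at h1
    have h2 := (Nat.pow_dvd_pow_iff_le_right (by norm_num : 1 < 3)).1 h1
    omega
  have hwo : orderOf w = 3 := orderOf_eq_prime hw3 hw1
  set A₀ : Subgroup X := Subgroup.zpowers w with hA₀
  have hA₀A : A₀ ≤ A := by rwa [hA₀, Subgroup.zpowers_le]
  have hA₀c : Nat.card A₀ = 3 := by rw [hA₀, Nat.card_zpowers, hwo]
  have hwnP : w ∉ Subgroup.centralizer (P : Set X) := by
    intro h
    have : w ∈ A ⊓ Subgroup.centralizer (P : Set X) := ⟨hwA, h⟩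
    rw [hfaith] at this
    exact hw1 (Subgroup.mem_bot.1 this)
  have hnt : ⁅P, A₀⁆ ≠ ⊥ := by
    intro h
    have h1 : ⁅A₀, P⁆ = ⊥ := by rw [Subgroup.commutator_comm]; exact h
    exact hwnP (Subgroup.commutator_eq_bot_iff_le_centralizer.1 h1 (Subgroup.mem_zpowers w))
  -- a minimal subgroup
  let S : Set (Subgroup X) := {U | U ≤ P ∧ A ≤ Subgroup.normalizer (U : Set X) ∧ ⁅U, A₀⁆ ≠ ⊥}
  have hSne : S.Nonempty := ⟨P, le_rfl, hAP, hnt⟩
  obtain ⟨R, hR⟩ := (Set.toFinite S).exists_minimal hSne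
  obtain ⟨hRP, hRA, hRnt⟩ := hR.prop
  have hRp : IsPGroup 2 R := hP.to_le hRP
  have hAabel : A ≤ Subgroup.normalizer (A₀ : Set X) := by
    rw [Subgroup.le_normalizer_iff]
    intro a ha y hy
    have h1 : a * y * a⁻¹ = y := by
      rw [hA, Subgroup.mem_zpowers_iff] at ha
      rw [hA₀, Subgroup.mem_zpowers_iff] at hy
      obtain ⟨i, rfl⟩ := ha
      obtain ⟨j, rfl⟩ := hy
      have hc : Commute (d ^ i) (w ^ j) := by
        rw [hw]
        exact ((Commute.refl d).pow_right _).zpow_zpow i j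
      exact mul_inv_eq_of_eq_mul hc.eq
    rw [h1]; exact hy
  have hcop3 : (Nat.card A₀).Coprime 2 := by rw [hA₀c]; norm_num
  have hHH := Cfsg.Agent.S3736.result A A₀ R hRp hRA hA₀A hAabel hcop3 hRnt
    (fun U hU hUA => by
      by_contra hc
      have hUS : U ∈ S := ⟨hU.le.trans hRP, hUA, hc⟩
      exact absurd (hR.eq_of_le hUS hU.le) hU.ne)
  obtain ⟨hRcomm, hcl, -, -⟩ := hHH
  have hRne : R ≠ ⊥ := by
    rintro rfl
    exact hRnt (Subgroup.commutator_bot_left _)
  -- the Frattini subgroup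
  set Φ : Subgroup X := (frattini ↥R).map R.subtype with hΦdef
  have hΦR : Φ ≤ R := Subgroup.map_subtype_le _
  have hA₀R : A₀ ≤ Subgroup.normalizer (R : Set X) := hA₀A.trans hRA
  have hΦA : A ≤ Subgroup.normalizer (Φ : Set X) := hRA.trans (normalizer_le_normalizer_map R _)
  set D : Subgroup X := ⁅R, R⁆ with hDdef
  have hDmap : (commutator ↥R).map R.subtype = D := by
    rw [_root_.commutator_def, Subgroup.map_commutator, ← MonoidHom.range_eq_map,
      Subgroup.range_subtype]
  have hDΦ : D ≤ Φ := by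
    rw [← hDmap]
    exact Subgroup.map_mono (Cfsg.Agent.Lib.PGroups.Basic.commutator_le_frattini hRp)
  have hcopR : (Nat.card A₀).Coprime (Nat.card R) := by
    obtain ⟨k, hk⟩ := IsPGroup.iff_card.1 hRp
    rw [hk]
    exact hcop3.pow_right k
  have hCD : R ⊓ Subgroup.centralizer (A₀ : Set X) ≤ D :=
    inf_centralizer_le_of_comm A₀ R D hA₀R (le_normalizer_commutator_of_le hA₀R hA₀R)
      (le_normalizer_commutator_left R R) le_rfl hcopR hRcomm
  -- freeness
  have hfree : ∀ a ∈ A, ∀ x ∈ ((R : Set X) \ Φ), a * x * a⁻¹ = x → a = 1 := by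
    rintro a ha x ⟨hxR, hxΦ⟩ hfix
    by_contra ha1
    -- `a` has a power of order 3
    have hfin : IsOfFinOrder a := by
      have : Finite X := inferInstance
      exact isOfFinOrder_of_finite a
    have h3 : 3 ∣ orderOf a := by
      have h4 : orderOf a ∣ orderOf d := by
        rw [hA, Subgroup.mem_zpowers_iff] at ha
        obtain ⟨i, rfl⟩ := ha
        exact orderOf_dvd_of_pow_eq_one (by
          rw [← zpow_natCast, ← zpow_mul, mul_comm, zpow_mul, zpow_natCast, pow_orderOf_eq_one,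
            one_zpow])
      rw [hd] at h4
      obtain ⟨j, -, hj⟩ := (Nat.dvd_prime_pow Nat.prime_three).1 h4
      rcases Nat.eq_zero_or_pos j with rfl | hj0
      · rw [pow_zero] at hj
        exact absurd (orderOf_eq_one_iff.1 hj) ha1
      · rw [hj]
        exact dvd_pow_self 3 hj0.ne'
    set y := a ^ (orderOf a / 3) with hy
    have hyo : orderOf y = 3 := orderOf_pow_orderOf_div (orderOf_pos a).ne' h3
    have hyA : y ∈ A := A.pow_mem ha _
    have hy3 : y ^ 3 = 1 := by rw [← hyo]; exact pow_orderOf_eq_one y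
    have hy1 : y ≠ 1 := by
      intro h
      rw [h, orderOf_one] at hyo
      norm_num at hyo
    obtain ⟨j, hj⟩ := pow_eq_w hn hd hyA hy3 hy1
    have hcomm : Commute a x := by
      have : a * x = x * a := by
        have := mul_inv_eq_iff_eq_mul.1 hfix
        exact this
      exact this
    have hwx : Commute w x := by
      rw [hw, ← hj, hy, ← pow_mul]
      exact hcomm.pow_left _
    have hxC : x ∈ Subgroup.centralizer (A₀ : Set X) := by
      rw [Subgroup.mem_centralizer_iff]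
      intro u hu
      have hu' : u ∈ Subgroup.zpowers w := hu
      rw [Subgroup.mem_zpowers_iff] at hu'
      obtain ⟨i, rfl⟩ := hu'
      exact (hwx.zpow_left i).eq
    exact hxΦ (hDΦ (hCD ⟨hxR, hxC⟩))
  have hdvd := card_dvd_of_conj_free A ((R : Set X) \ Φ)
    (fun a ha x hx => by
      refine ⟨Subgroup.le_normalizer_iff.1 hRA a ha x hx.1, fun h => hx.2 ?_⟩
      have := Subgroup.le_normalizer_iff.1 hΦA _ (A.inv_mem ha) _ h
      simpa [mul_assoc] using this) hfree
  have hAc : Nat.card A = 3 ^ n := by rw [hA, Nat.card_zpowers, hd]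
  -- the orders
  obtain ⟨r, hr⟩ := IsPGroup.iff_card.1 hRp
  have hpΦ : IsPGroup 2 Φ := hRp.to_le hΦR
  obtain ⟨f, hf⟩ := IsPGroup.iff_card.1 hpΦ
  have hfr : f ≤ r := by
    have := Subgroup.card_le_of_le hΦR
    rw [hf, hr] at this
    exact (Nat.pow_le_pow_iff_right (by norm_num)).1 this
  have hΦne : Φ ≠ R := by
    intro h
    have htop : frattini ↥R = ⊤ := by
      apply Subgroup.map_injective R.subtype_injective
      rw [← hΦdef, h, ← MonoidHom.range_eq_map, Subgroup.range_subtype]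
    haveI hRnt' : Nontrivial R := (Subgroup.nontrivial_iff_ne_bot R).2 hRne
    obtain ⟨M, hM, -⟩ := (eq_top_or_exists_le_coatom (⊥ : Subgroup ↥R)).resolve_left bot_ne_top
    have : frattini ↥R ≤ M := by
      unfold frattini Order.radical
      exact iInf₂_le M hM
    rw [htop] at this
    exact hM.1 (top_le_iff.1 this)
  have hcardE : Nat.card ((R : Set X) \ Φ : Set X) = 2 ^ f * (2 ^ (r - f) - 1) := by
    rw [Nat.card_coe_set_eq, Set.ncard_sdiff (by exact hΦR)]
    rw [show ((R : Set X)).ncard = Nat.card R from (Nat.card_coe_set_eq _).symm,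
      show ((Φ : Set X)).ncard = Nat.card Φ from (Nat.card_coe_set_eq _).symm, hr, hf, Nat.mul_sub,
      ← pow_add, mul_one]
    congr 2
    omega
  rw [hcardE, hAc] at hdvd
  have h9 : 9 ∣ 2 ^ f * (2 ^ (r - f) - 1) :=
    dvd_trans (by
      rw [show (9 : ℕ) = 3 ^ 2 by norm_num]
      exact pow_dvd_pow 3 hn2) hdvd
  have h9' : 9 ∣ 2 ^ (r - f) - 1 :=
    (Nat.Coprime.dvd_of_dvd_mul_left (Nat.Coprime.pow_right f (by norm_num)) h9)
  have hm0 : r - f ≠ 0 := by
    intro h
    apply hΦne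
    apply Subgroup.eq_of_le_of_card_ge hΦR
    rw [hr, hf, show r = f by omega]
  have hm6 := six_le h9' hm0
  rcases hcl with hab | hsp
  · -- elementary abelian: too large
    have h1 := hrk R hRP hab.1 hab.2
    rw [hr] at h1
    have h2 : 2 ^ 6 ≤ 2 ^ r := Nat.pow_le_pow_right (by norm_num) (by omega)
    omega
  · -- special
    set Z : Subgroup R := Subgroup.center R with hZ
    have hcR : ∀ a b : R, ⁅a, b⁆ ∈ Subgroup.center R := IsSpecial.comm_mem hsp
    have hpowZ : ∀ x : R, x ^ 2 ∈ Z := IsSpecial.pow_mem hsp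
    have hZ2 : ∀ z ∈ Z, z ^ 2 = 1 := IsSpecial.center_pow hsp
    have hZΦ : frattini ↥R = Z := hsp.2.1
    obtain ⟨k, hk⟩ := IsPGroup.iff_card.1 (hRp.to_subgroup Z)
    let Zt : Subgroup X := Z.map R.subtype
    have hZtc : Nat.card Zt = Nat.card Z := Subgroup.card_map_of_injective R.subtype_injective
    have hZtR : Zt ≤ R := Subgroup.map_subtype_le _
    have hZtab : IsMulCommutative Zt := by
      refine ⟨⟨?_⟩⟩
      rintro ⟨_, u, hu, rfl⟩ ⟨_, v, hv, rfl⟩
      apply Subtype.ext
      show (u : X) * (v : X) = (v : X) * (u : X)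
      exact congrArg Subtype.val ((Subgroup.mem_center_iff.1 hv) u)
    have hk2 : Nat.card Zt ≤ 4 := hrk Zt (hZtR.trans hRP) hZtab (by
      rintro _ ⟨u, hu, rfl⟩
      exact congrArg Subtype.val (hZ2 u hu))
    have hk' : k ≤ 2 := by
      rw [hZtc, hk] at hk2
      have h4 : 2 ^ k ≤ 2 ^ 2 := by simpa using hk2
      exact (Nat.pow_le_pow_iff_right (by norm_num)).1 h4
    have hZidx : Z.index = 2 ^ (r - f) := by
      have h1 := Subgroup.card_mul_index Z
      have h2 : Nat.card Z = 2 ^ f := by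
        rw [← hZΦ]
        have : Nat.card Φ = Nat.card (frattini ↥R) :=
          Subgroup.card_map_of_injective R.subtype_injective
        rw [← this, hf]
      rw [h2, hr, show r = f + (r - f) by omega, pow_add] at h1
      have h3 := Nat.eq_of_mul_eq_mul_left (by positivity) h1
      rw [h3]
    obtain ⟨x, -, hxZ, hx⟩ := core hcR Z ⊤ Z ⊥ le_rfl hZ2 (fun x _ => hpowZ x)
      (fun x _ y _ => hcR x y) le_rfl (r - f) k
      (by rw [Subgroup.relIndex_top_right]; exact hZidx)
      (by rw [Subgroup.relIndex_bot_left]; exact hk) (by omega)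
    have hx2 : x ^ 2 = 1 := Subgroup.mem_bot.1 hx
    -- the elementary abelian subgroup `⟨Z, x⟩`
    let W : Subgroup R := Z ⊔ Subgroup.zpowers x
    have hWmem : ∀ u ∈ W, ∃ z ∈ Z, ∃ i : ℤ, u = z * x ^ i := by
      intro u hu
      rw [Subgroup.mem_sup_of_normal_left] at hu
      obtain ⟨z, hz, y, hy, rfl⟩ := hu
      rw [Subgroup.mem_zpowers_iff] at hy
      obtain ⟨i, rfl⟩ := hy
      exact ⟨z, hz, i, rfl⟩
    let Wt : Subgroup X := W.map R.subtype
    have hWtc : Nat.card Wt = Nat.card W := Subgroup.card_map_of_injective R.subtype_injective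
    have hWab : ∀ u ∈ W, ∀ v ∈ W, u * v = v * u := by
      intro u hu v hv
      obtain ⟨z, hz, i, rfl⟩ := hWmem u hu
      obtain ⟨z', hz', j, rfl⟩ := hWmem v hv
      have h1 := (Subgroup.mem_center_iff.1 hz') (z * x ^ i)
      have h2 := (Subgroup.mem_center_iff.1 hz) (x ^ j)
      have h3 : x ^ i * x ^ j = x ^ j * x ^ i := by
        rw [← zpow_add, ← zpow_add, add_comm]
      calc z * x ^ i * (z' * x ^ j) = z' * (z * x ^ i) * x ^ j := by
            rw [← mul_assoc, ← h1]
        _ = z' * (z * (x ^ i * x ^ j)) := by simp only [mul_assoc]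
        _ = z' * (z * (x ^ j * x ^ i)) := by rw [h3]
        _ = z' * ((z * x ^ j) * x ^ i) := by simp only [mul_assoc]
        _ = z' * ((x ^ j * z) * x ^ i) := by rw [h2]
        _ = z' * x ^ j * (z * x ^ i) := by simp only [mul_assoc]
    have hW2 : ∀ u ∈ W, u ^ 2 = 1 := by
      intro u hu
      obtain ⟨z, hz, i, rfl⟩ := hWmem u hu
      have h1 := (Subgroup.mem_center_iff.1 hz) (x ^ i)
      have h2 : (x ^ i) ^ 2 = 1 := by
        rw [← zpow_natCast, ← zpow_mul, mul_comm, zpow_mul, zpow_natCast, hx2, one_zpow]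
      have h3 : (z * x ^ i) ^ 2 = z ^ 2 * (x ^ i) ^ 2 := by
        rw [sq, sq, sq]
        calc z * x ^ i * (z * x ^ i) = z * (x ^ i * z) * x ^ i := by simp only [mul_assoc]
          _ = z * (z * x ^ i) * x ^ i := by rw [h1]
          _ = z * z * (x ^ i * x ^ i) := by simp only [mul_assoc]
      rw [h3, h2, hZ2 z hz, one_mul]
    have hWt4 : Nat.card Wt ≤ 4 := hrk Wt ((Subgroup.map_subtype_le _).trans hRP) (by
      refine ⟨⟨?_⟩⟩
      rintro ⟨_, u, hu, rfl⟩ ⟨_, v, hv, rfl⟩
      apply Subtype.ext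
      show (u : X) * (v : X) = (v : X) * (u : X)
      exact congrArg Subtype.val (hWab u hu v hv)) (by
      rintro _ ⟨u, hu, rfl⟩
      exact congrArg Subtype.val (hW2 u hu))
    rw [hWtc] at hWt4
    -- `|W| ≥ 2 |Z|`
    have hZW : Z ≤ W := le_sup_left
    have hxW : x ∈ W := (le_sup_right : Subgroup.zpowers x ≤ W) (Subgroup.mem_zpowers x)
    have hZltW : Z ≠ W := fun h => hxZ (h ▸ hxW)
    have hcardWZ : 2 * Nat.card Z ≤ Nat.card W := by
      have h1 := Cfsg.Agent.Lib.Coprime.Action.card_eq_card_mul_relIndex hZW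
      have h2 : Z.relIndex W ≠ 0 := by
        intro h
        rw [h, mul_zero] at h1
        exact Nat.card_pos.ne' h1
      rw [h1, mul_comm]
      refine Nat.mul_le_mul_left _ ?_
      have h3 : Z.relIndex W ≠ 1 := fun h =>
        hZltW (le_antisymm hZW (Subgroup.relIndex_eq_one.1 h))
      omega
    have hk1 : k ≤ 1 := by
      have h1 : 2 ^ (k + 1) ≤ 2 ^ 2 := by
        rw [pow_succ, mul_comm, ← hk]
        exact hcardWZ.trans hWt4
      have := (Nat.pow_le_pow_iff_right (by norm_num)).1 h1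
      omega
    haveI hRnt' : Nontrivial R := (Subgroup.nontrivial_iff_ne_bot R).2 hRne
    have hZnt : Nontrivial Z := IsPGroup.center_nontrivial hRp
    have hk0 : k ≠ 0 := by
      rintro rfl
      rw [pow_zero] at hk
      have := (Nat.card_eq_one_iff_unique.1 hk).1
      exact not_subsingleton Z this
    have hk2eq : Nat.card Z = 2 := by
      rw [hk, show k = 1 by omega, pow_one]
    obtain ⟨z, hz, huniq⟩ := (Nat.card_eq_two_iff' (1 : Z)).1 hk2eq
    have hdZt : d ∈ Subgroup.normalizer (Zt : Set X) :=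
      normalizer_le_normalizer_map R Z (hRA (Subgroup.mem_zpowers d))
    have h1 := (Subgroup.mem_normalizer_iff.1 hdZt ((z : R) : X)).1 ⟨z, z.2, rfl⟩
    obtain ⟨z', hz', e⟩ := h1
    have hz1 : ((z : R) : X) ≠ 1 := fun h => hz (Subtype.ext (Subtype.ext h))
    have hy1 : (⟨z', hz'⟩ : Z) ≠ 1 := by
      intro h
      have h2 : ((z' : R) : X) = 1 := congrArg (fun u : Z => ((u : R) : X)) h
      have e' : d * ((z : R) : X) * d⁻¹ = 1 := by
        rw [← h2]
        exact e.symm
      apply hz1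
      have h3 : d * ((z : R) : X) = d := mul_inv_eq_one.1 e'
      simpa using h3
    have hyz := huniq _ hy1
    have hzz : ((z' : R) : X) = ((z : R) : X) := congrArg (fun u : Z => ((u : R) : X)) hyz
    have hcomm : d * ((z : R) : X) = ((z : R) : X) * d := by
      have h2 : d * ((z : R) : X) * d⁻¹ = ((z : R) : X) := by
        have e2 : ((z' : R) : X) = d * ((z : R) : X) * d⁻¹ := e
        rw [← e2, hzz]
      exact mul_inv_eq_iff_eq_mul.1 h2
    have hmemP : ((z : R) : X) ∈ P ⊓ Subgroup.centralizer {d} := by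
      refine ⟨hRP (z : R).2, ?_⟩
      show ((z : R) : X) ∈ Subgroup.centralizer {d}
      rw [Subgroup.mem_centralizer_iff]
      intro h hh
      rw [Set.mem_singleton_iff] at hh
      rw [hh]
      exact hcomm
    rw [hfpf] at hmemP
    exact hz1 (Subgroup.mem_bot.1 hmemP)

end Cfsg.Agent.S3738
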