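import Cfsg.Statements.S3739
import Mathlib
import Cfsg.Agent.Lib.FGS.QuadCW
import Cfsg.Agent.Lib.Coprime.Complement
import Cfsg.Agent.Lib.Coprime.Action
import Cfsg.Agent.Lib.PGroups.Basic
import Cfsg.Agent.Lib.Core.Basic

set_option autoImplicit false
set_option linter.unusedSectionVars false
set_option linter.unusedVariables false

open Cfsg

namespace Cfsg.Agent.S3739

open Subgroup Cfsg.Agent.Lib.Coprime.Action
open scoped commutatorElement

/-- The number of fixed points of a map of order three. -/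
theorem card_fix_modEq {Y : Type*} [Fintype Y] [DecidableEq Y] (ε : Y → Y)
    (hε : ∀ x, ε (ε (ε x)) = x) (s : Finset Y) (hs : ∀ x ∈ s, ε x ∈ s) :
    s.card ≡ (s.filter (fun x => ε x = x)).card [MOD 3] := by
  haveI : Fact (Nat.Prime 3) := ⟨Nat.prime_three⟩
  let f : Function.End s := fun x => ⟨ε x, hs x x.2⟩
  have hf : f ^ 3 ^ 1 = 1 := by
    funext x
    apply Subtype.ext
    show ε (ε (ε x)) = x
    exact hε x
  have h1 := Equiv.Perm.card_fixedPoints_modEq hf
  have h2 : Fintype.card (Function.fixedPoints f) = (s.filter (fun x => ε x = x)).card := by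
    rw [← Fintype.card_coe]
    refine Fintype.card_congr ⟨fun x => ⟨x.1.1, Finset.mem_filter.2 ⟨x.1.2, congrArg Subtype.val x.2⟩⟩,
      fun x => ⟨⟨x.1, (Finset.mem_filter.1 x.2).1⟩, Subtype.ext (Finset.mem_filter.1 x.2).2⟩,
      fun x => rfl, fun x => rfl⟩
  rw [h2, Fintype.card_coe] at h1
  exact h1

/-- The combinatorial heart. -/
theorem contra {Y : Type*} [Group Y] [Finite Y] (a b : Y)
    (ha : a ≠ 1) (hb : b ≠ 1) (hab : a ≠ b) (ha2 : a ^ 2 = 1) (hb2 : b ^ 2 = 1)
    (hac : ∀ x, a * x = x * a) (hbc : ∀ x, b * x = x * b)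
    (hsq : ∀ x : Y, x ^ 2 = 1 ∨ x ^ 2 = a ∨ x ^ 2 = b ∨ x ^ 2 = a * b)
    (hinv : ∀ x : Y, x ^ 2 = 1 → x = 1 ∨ x = a ∨ x = b ∨ x = a * b)
    (hcomm : ∀ x y : Y, ⁅x, y⁆ = 1 ∨ ⁅x, y⁆ = a ∨ ⁅x, y⁆ = b ∨ ⁅x, y⁆ = a * b)
    (δ ε : Y ≃* Y) (hδa : δ a = b) (hδb : δ b = a * b)
    (hε : ∀ x, ε (ε (ε x)) = x) (hεa : ε a = a) (hεb : ε b = b) : ∀ x, ε x = x := by
  classical
  haveI : Fintype Y := Fintype.ofFinite Y
  have haa : a * a = 1 := by rw [← pow_two, ha2]
  have hbb : b * b = 1 := by rw [← pow_two, hb2]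
  have hba : b * a = a * b := hbc a
  have hab1 : a * b ≠ 1 := by
    intro h
    apply hab
    have : b = a⁻¹ := eq_inv_of_mul_eq_one_right h
    rw [this, inv_eq_of_mul_eq_one_left haa]
  have haba : a * b ≠ a := fun h => hb (by simpa using h)
  have habb : a * b ≠ b := fun h => ha (by simpa using h)
  have t1 : a * (a * b) = b := by rw [← mul_assoc, haa, one_mul]
  have t3 : b * (a * b) = a := by rw [← mul_assoc, hba, mul_assoc, hbb, mul_one]
  have t4 : a * b * a = b := by rw [mul_assoc, hba, t1]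
  have t5 : a * b * b = a := by rw [mul_assoc, hbb, mul_one]
  have t6 : a * b * (a * b) = 1 := by rw [mul_assoc, t3, haa]
  let W : Subgroup Y :=
    { carrier := {x | x = 1 ∨ x = a ∨ x = b ∨ x = a * b}
      one_mem' := Or.inl rfl
      mul_mem' := by
        rintro x y hx hy
        rcases hx with hx | hx | hx | hx <;> rcases hy with hy | hy | hy | hy <;> rw [hx, hy]
        · exact Or.inl (one_mul 1)
        · exact Or.inr (Or.inl (one_mul a))
        · exact Or.inr (Or.inr (Or.inl (one_mul b)))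
        · exact Or.inr (Or.inr (Or.inr (one_mul _)))
        · exact Or.inr (Or.inl (mul_one a))
        · exact Or.inl haa
        · exact Or.inr (Or.inr (Or.inr rfl))
        · exact Or.inr (Or.inr (Or.inl t1))
        · exact Or.inr (Or.inr (Or.inl (mul_one b)))
        · exact Or.inr (Or.inr (Or.inr hba))
        · exact Or.inl hbb
        · exact Or.inr (Or.inl t3)
        · exact Or.inr (Or.inr (Or.inr (mul_one _)))
        · exact Or.inr (Or.inr (Or.inl t4))
        · exact Or.inr (Or.inl t5)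
        · exact Or.inl t6
      inv_mem' := by
        have hai : a⁻¹ = a := inv_eq_of_mul_eq_one_left haa
        have hbi : b⁻¹ = b := inv_eq_of_mul_eq_one_left hbb
        rintro x (hx | hx | hx | hx) <;> rw [hx]
        · exact Or.inl inv_one
        · exact Or.inr (Or.inl hai)
        · exact Or.inr (Or.inr (Or.inl hbi))
        · refine Or.inr (Or.inr (Or.inr ?_))
          rw [_root_.mul_inv_rev, hai, hbi, hba] }
  have hWmem : ∀ x, x ∈ W ↔ (x = 1 ∨ x = a ∨ x = b ∨ x = a * b) := fun x => Iff.rfl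
  let S0 : Finset Y := {1, a, b, a * b}
  have hS0 : S0.card = 4 := by
    have h1 : (1 : Y) ∉ ({a, b, a * b} : Finset Y) := by
      simp only [Finset.mem_insert, Finset.mem_singleton, not_or]
      exact ⟨ha.symm, hb.symm, hab1.symm⟩
    have h2 : a ∉ ({b, a * b} : Finset Y) := by
      simp only [Finset.mem_insert, Finset.mem_singleton, not_or]
      exact ⟨hab, haba.symm⟩
    have h3 : b ∉ ({a * b} : Finset Y) := by
      simp only [Finset.mem_singleton]
      exact habb.symm
    rw [Finset.card_insert_of_notMem h1, Finset.card_insert_of_notMem h2,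
      Finset.card_insert_of_notMem h3, Finset.card_singleton]
  have hS0mem : ∀ x, x ∈ S0 ↔ x ∈ W := by
    intro x
    simp only [S0, Finset.mem_insert, Finset.mem_singleton]
    rfl
  have hWcard : Nat.card W = 4 := by
    rw [← hS0, Nat.card_eq_fintype_card, ← Fintype.card_coe]
    exact Fintype.card_congr ⟨fun x => ⟨x.1, (hS0mem _).2 x.2⟩, fun x => ⟨x.1, (hS0mem _).1 x.2⟩,
      fun x => rfl, fun x => rfl⟩
  have hWsq : ∀ u ∈ W, u ^ 2 = 1 := by
    rintro u (hu | hu | hu | hu) <;> rw [hu]
    · simp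
    · exact ha2
    · exact hb2
    · rw [pow_two, mul_assoc, ← mul_assoc b, hba, mul_assoc, hbb, mul_one, haa]
  have hWc : ∀ u ∈ W, ∀ x, u * x = x * u := by
    rintro u (hu | hu | hu | hu) x <;> rw [hu]
    · simp
    · exact hac x
    · exact hbc x
    · rw [mul_assoc, hbc x, ← mul_assoc, hac x, mul_assoc]
  have hsqW : ∀ x, x ^ 2 ∈ W := fun x => hsq x
  have hcW : ∀ x y : Y, ⁅x, y⁆ ∈ W := fun x y => hcomm x y
  have hWcenter : W ≤ center Y := by
    intro u hu
    rw [mem_center_iff]
    intro x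
    exact (hWc u hu x).symm
  haveI hWn : W.Normal := by
    constructor
    intro n hn g
    rw [← hWc n hn g]
    simpa using hn
  have hx4 : ∀ x : Y, x ^ 4 = 1 := by
    intro x
    have : x ^ 4 = (x ^ 2) ^ 2 := by rw [← pow_mul]
    rw [this]
    exact hWsq _ (hsqW x)
  haveI hFact2 : Fact (Nat.Prime 2) := ⟨Nat.prime_two⟩
  have hY2 : IsPGroup 2 Y := fun x => ⟨2, by simpa using hx4 x⟩
  obtain ⟨n, hn⟩ := hY2.index W
  have hcardY : Nat.card Y = 4 * 2 ^ n := by
    rw [← Subgroup.card_mul_index W, hWcard, hn]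
  have hn4 : n ≤ 4 := by
    by_contra hlt
    push Not at hlt
    obtain ⟨x, -, hxW, hx⟩ := Cfsg.Agent.Lib.FGS.QuadCW.core
      (fun p q => hWcenter (hcW p q)) W ⊤ W ⊥ hWcenter hWsq (fun x _ => hsqW x)
      (fun x _ y _ => hcW x y) le_rfl n 2
      (by rw [Subgroup.relIndex_top_right]; exact hn)
      (by rw [Subgroup.relIndex_bot_left, hWcard]; norm_num) (by omega)
    exact hxW (hinv x (Subgroup.mem_bot.1 hx))
  -- the fibres of the squaring map
  let Sf : Y → Finset Y := fun v => Finset.univ.filter (fun x => x ^ 2 = v)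
  have hcardY' : Fintype.card Y = (Sf 1).card + (Sf a).card + (Sf b).card + (Sf (a * b)).card := by
    have h1 := Finset.card_eq_sum_card_fiberwise (f := fun x : Y => x ^ 2) (s := Finset.univ)
      (t := S0) (by
        intro x _
        exact (hS0mem _).2 (hsqW x))
    rw [Finset.card_univ] at h1
    rw [h1]
    have h2 : 1 ∉ ({a, b, a * b} : Finset Y) := by
      simp only [Finset.mem_insert, Finset.mem_singleton, not_or]
      exact ⟨ha.symm, hb.symm, hab1.symm⟩
    have h3 : a ∉ ({b, a * b} : Finset Y) := by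
      simp only [Finset.mem_insert, Finset.mem_singleton, not_or]
      exact ⟨hab, haba.symm⟩
    have h4 : b ∉ ({a * b} : Finset Y) := by
      simp only [Finset.mem_singleton]
      exact habb.symm
    simp only [S0]
    rw [Finset.sum_insert h2, Finset.sum_insert h3, Finset.sum_insert h4, Finset.sum_singleton]
    simp only [Sf]
    ring
  have hS1 : (Sf 1).card = 4 := by
    rw [← hS0]
    congr 1
    ext x
    simp only [Sf, Finset.mem_filter, Finset.mem_univ, true_and]
    rw [hS0mem]
    exact ⟨fun h => hinv x h, fun h => hWsq x h⟩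
  have hSδ : ∀ v, (Sf v).card = (Sf (δ v)).card := by
    intro v
    apply Finset.card_bij (fun x _ => δ x)
    · intro x hx
      simp only [Sf, Finset.mem_filter, Finset.mem_univ, true_and] at hx ⊢
      rw [← map_pow, hx]
    · intro x _ y _ h
      exact δ.injective h
    · intro y hy
      simp only [Sf, Finset.mem_filter, Finset.mem_univ, true_and] at hy
      refine ⟨δ.symm y, ?_, by simp⟩
      simp only [Sf, Finset.mem_filter, Finset.mem_univ, true_and]
      apply δ.injective
      rw [map_pow, MulEquiv.apply_symm_apply, hy]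
  have hSab : (Sf a).card = (Sf b).card := by rw [hSδ a, hδa]
  have hSb : (Sf b).card = (Sf (a * b)).card := by rw [hSδ b, hδb]
  set s := (Sf a).card with hs
  have hY4 : Fintype.card Y = 4 + 3 * s := by
    rw [hcardY', hS1, ← hSb, ← hSab]
    ring
  -- fixed points
  have hYcard : Fintype.card Y = 4 * 2 ^ n := by rw [← Nat.card_eq_fintype_card]; exact hcardY
  let Cf : Y → Finset Y := fun v => (Sf v).filter (fun x => ε x = x)
  have hCmod : ∀ v, ε v = v → (Sf v).card ≡ (Cf v).card [MOD 3] := by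
    intro v hv
    apply card_fix_modEq ε hε
    intro x hx
    simp only [Sf, Finset.mem_filter, Finset.mem_univ, true_and] at hx ⊢
    rw [← map_pow, hx, hv]
  have hεab : ε (a * b) = a * b := by rw [map_mul, hεa, hεb]
  have hCbig : ∀ v, (Cf v).card ≠ 0 → 4 ≤ (Cf v).card := by
    intro v hv
    obtain ⟨x, hx⟩ := Finset.card_ne_zero.1 hv
    simp only [Cf, Sf, Finset.mem_filter, Finset.mem_univ, true_and] at hx
    rw [← hS0]
    apply Finset.card_le_card_of_injOn (fun w => x * w)
    · intro w hw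
      have hw' : w ∈ W := (hS0mem w).1 hw
      have hwfix : ε w = w := by
        rcases hw' with h | h | h | h <;> rw [h]
        · simp
        · exact hεa
        · exact hεb
        · exact hεab
      simp only [Cf, Sf, Finset.mem_coe, Finset.mem_filter, Finset.mem_univ, true_and]
      constructor
      · have h1 := hWsq w hw'
        have h2 := hWc w hw' x
        calc (x * w) ^ 2 = x * (w * x) * w := by rw [pow_two]; group
          _ = x * (x * w) * w := by rw [h2]
          _ = x ^ 2 * w ^ 2 := by rw [pow_two, pow_two]; group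
          _ = v := by rw [h1, mul_one, hx.1]
      · rw [map_mul, hx.2, hwfix]
    · intro u _ w _ h
      exact mul_left_cancel h
  let C : Subgroup Y :=
    { carrier := {x | ε x = x}
      one_mem' := map_one ε
      mul_mem' := by
        intro x y hx hy
        show ε (x * y) = x * y
        rw [map_mul, hx, hy]
      inv_mem' := by
        intro x hx
        show ε x⁻¹ = x⁻¹
        rw [map_inv, hx] }
  have hCcard : Nat.card C = (Cf 1).card + (Cf a).card + (Cf b).card + (Cf (a * b)).card := by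
    have h0 : Nat.card C = (Finset.univ.filter (fun x => ε x = x)).card := by
      rw [Nat.card_eq_fintype_card, ← Fintype.card_coe]
      exact Fintype.card_congr ⟨fun x => ⟨x.1, Finset.mem_filter.2 ⟨Finset.mem_univ _, x.2⟩⟩,
        fun x => ⟨x.1, (Finset.mem_filter.1 x.2).2⟩, fun x => rfl, fun x => rfl⟩
    rw [h0]
    have h1 := Finset.card_eq_sum_card_fiberwise (f := fun x : Y => x ^ 2)
      (s := Finset.univ.filter (fun x => ε x = x))
      (t := S0) (by
        intro x _
        exact (hS0mem _).2 (hsqW x))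
    rw [h1]
    have h2 : 1 ∉ ({a, b, a * b} : Finset Y) := by
      simp only [Finset.mem_insert, Finset.mem_singleton, not_or]
      exact ⟨ha.symm, hb.symm, hab1.symm⟩
    have h3 : a ∉ ({b, a * b} : Finset Y) := by
      simp only [Finset.mem_insert, Finset.mem_singleton, not_or]
      exact ⟨hab, haba.symm⟩
    have h4 : b ∉ ({a * b} : Finset Y) := by
      simp only [Finset.mem_singleton]
      exact habb.symm
    simp only [S0]
    rw [Finset.sum_insert h2, Finset.sum_insert h3, Finset.sum_insert h4, Finset.sum_singleton]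
    have e : ∀ v, ((Finset.univ.filter (fun x => ε x = x)).filter (fun x => x ^ 2 = v)) = Cf v := by
      intro v
      ext x
      simp only [Cf, Sf, Finset.mem_filter, Finset.mem_univ, true_and]
      exact and_comm
    simp only [e]
    ring
  have hC1 : 4 ≤ (Cf 1).card := by
    apply hCbig
    apply Finset.card_ne_zero.2
    exact ⟨1, by simp [Cf, Sf]⟩
  have hCmodY : Fintype.card Y ≡ Nat.card C [MOD 3] := by
    have h1 := card_fix_modEq ε hε Finset.univ (fun x _ => Finset.mem_univ _)
    rw [Finset.card_univ] at h1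
    have h0 : Nat.card C = (Finset.univ.filter (fun x => ε x = x)).card := by
      rw [Nat.card_eq_fintype_card, ← Fintype.card_coe]
      exact Fintype.card_congr ⟨fun x => ⟨x.1, Finset.mem_filter.2 ⟨Finset.mem_univ _, x.2⟩⟩,
        fun x => ⟨x.1, (Finset.mem_filter.1 x.2).2⟩, fun x => rfl, fun x => rfl⟩
    rw [h0]
    exact h1
  have hCdvd : Nat.card C ∣ Nat.card Y := Subgroup.card_subgroup_dvd_card C
  have hfin : Nat.card C = Nat.card Y → ∀ x, ε x = x := by
    intro h x
    have h1 : C = ⊤ := Subgroup.eq_top_of_card_eq C h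
    have h2 : x ∈ C := by rw [h1]; exact mem_top x
    exact h2
  have hmodn : ∀ v, ε v = v → s ≡ (Cf v).card [MOD 3] → True := fun _ _ _ => trivial
  have hsa : s ≡ (Cf a).card [MOD 3] := hCmod a hεa
  have hsb : s ≡ (Cf b).card [MOD 3] := by
    have := hCmod b hεb
    rwa [← hSab] at this
  have hsab : s ≡ (Cf (a * b)).card [MOD 3] := by
    have := hCmod (a * b) hεab
    rwa [← hSb, ← hSab] at this
  unfold Nat.ModEq at hsa hsb hsab hCmodY
  have hCleY : Nat.card C ≤ Fintype.card Y := by
    rw [← Nat.card_eq_fintype_card]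
    exact Subgroup.card_le_card_group C
  interval_cases n
  · -- `n = 0`
    apply hfin
    rw [hcardY]
    omega
  · exfalso
    omega
  · apply hfin
    rw [hcardY]
    have h3 : s = 4 := by omega
    have hca := hCbig a (by omega)
    have hcb := hCbig b (by omega)
    have hcab := hCbig (a * b) (by omega)
    omega
  · exfalso
    omega
  · apply hfin
    rw [hcardY]
    have h3 : s = 20 := by omega
    have hca := hCbig a (by omega)
    have hcb := hCbig b (by omega)
    have hcab := hCbig (a * b) (by omega)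
    have hca' : 5 ≤ (Cf a).card := by omega
    have hge : 19 ≤ Nat.card C := by omega
    rw [hcardY] at hCdvd
    have h64 : Nat.card C ∣ 2 ^ 6 := by
      have e : 4 * 2 ^ 4 = 2 ^ 6 := by norm_num
      rwa [e] at hCdvd
    obtain ⟨k, hk, hc⟩ := (Nat.dvd_prime_pow Nat.prime_two).1 h64
    rw [hYcard] at hCmodY
    have h1 : (4 * 2 ^ 4) % 3 = 1 := by norm_num
    rw [h1, hc] at hCmodY
    rw [hc] at hge ⊢
    have h2 : k = 6 := by
      interval_cases k
      all_goals first | rfl | (exfalso; revert hge hCmodY; norm_num)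
    rw [h2]
    norm_num

/-- Conjugation as an automorphism of a normalized subgroup. -/
def conjOn {G : Type*} [Group G] (Y : Subgroup G) (g : G) (hg : g ∈ normalizer (Y : Set G)) : Y ≃* Y where
  toFun x := ⟨g * x * g⁻¹, (mem_normalizer_iff.1 hg x).1 x.2⟩
  invFun x := ⟨g⁻¹ * x * g, by
    have := (mem_normalizer_iff.1 hg (g⁻¹ * x * g)).2
    apply this
    have e : g * (g⁻¹ * (x : G) * g) * g⁻¹ = x := by group
    rw [e]
    exact x.2⟩
  left_inv x := by
    apply Subtype.ext
    show g⁻¹ * (g * (x : G) * g⁻¹) * g = x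
    group
  right_inv x := by
    apply Subtype.ext
    show g * (g⁻¹ * (x : G) * g) * g⁻¹ = x
    group
  map_mul' x y := by
    apply Subtype.ext
    show g * ((x : G) * y) * g⁻¹ = (g * x * g⁻¹) * (g * y * g⁻¹)
    group

variable {G : Type*} [Group G] [Finite G]

theorem normalizer_of_char {G : Type*} [Group G] (Y : Subgroup G) (g : G) (hg : g ∈ normalizer (Y : Set G))
    (C : Subgroup Y) (hC : C.Characteristic) : g ∈ normalizer ((C.map Y.subtype : Subgroup G) : Set G) := by
  have hfix := hC.fixed (conjOn Y g hg)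
  rw [mem_normalizer_iff]
  intro h
  constructor
  · rintro ⟨x, hx, rfl⟩
    have h1 : conjOn Y g hg x ∈ C := by
      have : x ∈ C.comap (conjOn Y g hg).toMonoidHom := by rw [hfix]; exact hx
      exact this
    exact ⟨_, h1, rfl⟩
  · rintro ⟨y, hy, hyh⟩
    have hh : h ∈ Y := by
      refine (mem_normalizer_iff.1 hg h).2 ?_
      rw [← hyh]
      exact y.2
    have h1 : conjOn Y g hg ⟨h, hh⟩ = y := by
      apply Subtype.ext
      exact hyh.symm
    have h2 : (⟨h, hh⟩ : Y) ∈ C.comap (conjOn Y g hg).toMonoidHom := by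
      show conjOn Y g hg ⟨h, hh⟩ ∈ C
      rw [h1]
      exact hy
    rw [hfix] at h2
    exact ⟨_, h2, rfl⟩

/-- The structure of the minimal subgroup. -/
theorem struct_Y {Y : Type*} [Group Y] [Finite Y] (hp : IsPGroup 2 Y) (ε : Y ≃* Y)
    (hε : ∀ x, ε (ε (ε x)) = x) (hne : ∃ x, ε x ≠ x)
    (hC : ∀ C : Subgroup Y, C.Characteristic → C ≠ ⊤ → ∀ u ∈ C, ε u = u) :
    (∀ x y : Y, ⁅x, y⁆ ∈ center Y) ∧ (∀ x y : Y, ⁅x, y⁆ ^ 2 = 1) ∧ (∀ x : Y, x ^ 2 ∈ center Y) ∧ ∀ x : Y, x ^ 4 = 1 := by
  classical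
  haveI hFact2 : Fact (Nat.Prime 2) := ⟨Nat.prime_two⟩
  have hstar : ∀ C : Subgroup Y, C.Characteristic → (∀ x, x⁻¹ * ε x ∈ C) → C = ⊤ := by
    intro C hc hx
    by_contra hne'
    have h1 := hC C hc hne'
    obtain ⟨x₀, hx₀⟩ := hne
    apply hx₀
    set y := x₀⁻¹ * ε x₀ with hy
    have hfy : ε y = y := h1 y (hx x₀)
    have e1 : ε x₀ = x₀ * y := by rw [hy]; group
    have h2 : x₀ = x₀ * y * y * y := by
      have := hε x₀
      rw [e1, map_mul, e1, hfy, map_mul, map_mul, e1, hfy] at this
      exact this.symm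
    have h3 : y ^ 3 = 1 := by
      have h4 : x₀ * y ^ 3 = x₀ * 1 := by
        rw [mul_one]
        conv_rhs => rw [h2]
        simp only [pow_succ, pow_zero, one_mul, mul_assoc]
      exact mul_left_cancel h4
    obtain ⟨k, hk⟩ := hp y
    have h5 := orderOf_dvd_of_pow_eq_one h3
    have h6 := orderOf_dvd_of_pow_eq_one hk
    have h7 : Nat.Coprime 3 (2 ^ k) := Nat.Coprime.pow_right k (by norm_num)
    have h8 : orderOf y ∣ 1 := by
      have := Nat.dvd_gcd h5 h6
      rwa [h7.gcd_eq_one] at this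
    have h9 : y = 1 := orderOf_eq_one_iff.1 (Nat.dvd_one.1 h8)
    rw [e1, h9, mul_one]
  -- the Frattini subgroup
  haveI hnt : Nontrivial Y := by
    obtain ⟨x, hx⟩ := hne
    exact ⟨⟨ε x, x, hx⟩⟩
  set Φ : Subgroup Y := frattini Y with hΦ
  have hΦne : Φ ≠ ⊤ := by
    intro htop
    have hYnil : Group.IsNilpotent Y := hp.isNilpotent
    obtain ⟨M, hM⟩ : ∃ M : Subgroup Y, IsCoatom M := by
      obtain hb | ⟨M, hM, -⟩ := eq_top_or_exists_le_coatom (⊥ : Subgroup Y)
      · exact absurd hb bot_ne_top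
      · exact ⟨M, hM⟩
    have : Φ ≤ M := by
      rw [hΦ]
      unfold frattini Order.radical
      exact iInf₂_le M hM
    rw [htop] at this
    exact hM.1 (top_le_iff.1 this)
  haveI hΦc : Φ.Characteristic := frattini_characteristic
  have hfΦ := hC Φ hΦc hΦne
  have hsqΦ : ∀ x : Y, x ^ 2 ∈ Φ := fun x => Cfsg.Agent.Lib.PGroups.Basic.pow_mem_frattini hp x
  have hcommΦ : ∀ x y : Y, ⁅x, y⁆ ∈ Φ := fun x y =>
    Cfsg.Agent.Lib.PGroups.Basic.commutator_le_frattini hp (Subgroup.commutator_mem_commutator (mem_top x) (mem_top y))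
  haveI hΦn : Φ.Normal := Subgroup.normal_of_characteristic Φ
  -- `Φ` is central
  have hΦcen : ∀ w ∈ Φ, ∀ x : Y, w * x = x * w := by
    have hU : centralizer (Φ : Set Y) = ⊤ := by
      apply hstar _ Subgroup.characteristic_centralizer
      intro x
      rw [mem_centralizer_iff]
      intro w hw
      have h1 : ε (x * w * x⁻¹) = x * w * x⁻¹ := hfΦ _ (hΦn.conj_mem w hw x)
      rw [map_mul, map_mul, map_inv, hfΦ w hw] at h1
      have h2 : (ε x) * w * (ε x)⁻¹ = x * w * x⁻¹ := h1
      calc w * (x⁻¹ * ε x) = x⁻¹ * (x * w * x⁻¹) * ε x := by group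
        _ = x⁻¹ * ((ε x) * w * (ε x)⁻¹) * ε x := by rw [h2]
        _ = x⁻¹ * ε x * w := by group
    intro w hw x
    have h1 : x ∈ centralizer (Φ : Set Y) := by rw [hU]; exact mem_top x
    exact (mem_centralizer_iff.1 h1 w hw)
  have hcen : ∀ w ∈ Φ, w ∈ center Y := by
    intro w hw
    rw [mem_center_iff]
    intro x
    exact (hΦcen w hw x).symm
  -- commutators have order two
  have hc2 : ∀ x y : Y, ⁅x, y⁆ ^ 2 = 1 := by
    intro x y
    set c := ⁅x, y⁆ with hc
    have hcc : ∀ z, c * z = z * c := hΦcen c (hcommΦ x y)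
    have e1 : x * y * x⁻¹ = c * y := by
      rw [hc, commutatorElement_def]
      group
    have e2 : x * (x * y * x⁻¹) * x⁻¹ = c * c * y := by
      rw [e1]
      calc x * (c * y) * x⁻¹ = (x * c) * y * x⁻¹ := by group
        _ = (c * x) * y * x⁻¹ := by rw [hcc x]
        _ = c * (x * y * x⁻¹) := by group
        _ = c * (c * y) := by rw [e1]
        _ = c * c * y := by group
    have e3 : x ^ 2 * y = y * x ^ 2 := hΦcen _ (hsqΦ x) y
    have e4 : x * (x * y * x⁻¹) * x⁻¹ = y := by
      calc x * (x * y * x⁻¹) * x⁻¹ = (x ^ 2 * y) * (x ^ 2)⁻¹ := by rw [pow_two]; group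
        _ = y := by rw [e3]; group
    rw [e4] at e2
    have e5 : c * c * y = 1 * y := by rw [← e2, one_mul]
    rw [pow_two]
    exact mul_right_cancel e5
  -- the elements with `x ^ 4 = 1`
  have hmul4 : ∀ x y : Y, x ^ 4 = 1 → y ^ 4 = 1 → (x * y) ^ 4 = 1 := by
    intro x y hx hy
    set c := ⁅y, x⁆ with hc
    have hcc : ∀ z, c * z = z * c := hΦcen c (hcommΦ y x)
    have hc22 : c * c = 1 := by rw [← pow_two]; exact hc2 y x
    have e1 : y * x = c * (x * y) := by
      rw [hc, commutatorElement_def]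
      group
    have e2 : (x * y) ^ 2 = c * (x ^ 2 * y ^ 2) := by
      calc (x * y) ^ 2 = x * (y * x) * y := by rw [pow_two]; group
        _ = x * (c * (x * y)) * y := by rw [e1]
        _ = (x * c) * x * y * y := by group
        _ = (c * x) * x * y * y := by rw [hcc x]
        _ = c * (x ^ 2 * y ^ 2) := by rw [pow_two, pow_two]; group
    have hx2 := hΦcen _ (hsqΦ x)
    have hy2 := hΦcen _ (hsqΦ y)
    calc (x * y) ^ 4 = ((x * y) ^ 2) ^ 2 := by rw [← pow_mul]
      _ = (c * (x ^ 2 * y ^ 2)) * (c * (x ^ 2 * y ^ 2)) := by rw [e2, pow_two]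
      _ = (c * c) * ((x ^ 2 * y ^ 2) * (x ^ 2 * y ^ 2)) := by
          have e5 : (x ^ 2 * y ^ 2) * c = c * (x ^ 2 * y ^ 2) := (hcc _).symm
          calc (c * (x ^ 2 * y ^ 2)) * (c * (x ^ 2 * y ^ 2))
              = c * ((x ^ 2 * y ^ 2) * c) * (x ^ 2 * y ^ 2) := by simp only [mul_assoc]
            _ = c * (c * (x ^ 2 * y ^ 2)) * (x ^ 2 * y ^ 2) := by rw [e5]
            _ = _ := by simp only [mul_assoc]
      _ = (x ^ 2 * y ^ 2) * (x ^ 2 * y ^ 2) := by rw [hc22, one_mul]
      _ = (x ^ 2 * x ^ 2) * (y ^ 2 * y ^ 2) := by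
          have e6 := hy2 (x ^ 2)
          calc (x ^ 2 * y ^ 2) * (x ^ 2 * y ^ 2) = x ^ 2 * (y ^ 2 * x ^ 2) * y ^ 2 := by simp only [mul_assoc]
            _ = x ^ 2 * (x ^ 2 * y ^ 2) * y ^ 2 := by rw [e6]
            _ = _ := by simp only [mul_assoc]
      _ = 1 := by
          rw [← pow_add, ← pow_add]
          norm_num [hx, hy]
  let T : Subgroup Y :=
    { carrier := {x | x ^ 4 = 1}
      one_mem' := one_pow 4
      mul_mem' := fun {x y} hx hy => hmul4 x y hx hy
      inv_mem' := fun {x} hx => by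
        show x⁻¹ ^ 4 = 1
        rw [inv_pow, show x ^ 4 = 1 from hx, inv_one] }
  have hTc : T.Characteristic := by
    rw [characteristic_iff_comap_eq]
    intro φ
    ext x
    show (φ x) ^ 4 = 1 ↔ x ^ 4 = 1
    rw [← map_pow]
    exact map_eq_one_iff φ φ.injective
  have hT : T = ⊤ := by
    apply hstar T hTc
    intro x
    show (x⁻¹ * ε x) ^ 4 = 1
    set y := x⁻¹ * ε x with hy
    have e0 : ε x = x * y := by rw [hy]; group
    have h1 : (x * y) ^ 2 = x ^ 2 := by
      rw [← e0, ← map_pow]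
      exact hfΦ _ (hsqΦ x)
    set c := ⁅y, x⁆ with hc
    have hcc : ∀ z, c * z = z * c := hΦcen c (hcommΦ y x)
    have hc22 : c * c = 1 := by rw [← pow_two]; exact hc2 y x
    have e1 : y * x = c * (x * y) := by
      rw [hc, commutatorElement_def]
      group
    have e2 : (x * y) ^ 2 = c * (x ^ 2 * y ^ 2) := by
      calc (x * y) ^ 2 = x * (y * x) * y := by rw [pow_two]; group
        _ = x * (c * (x * y)) * y := by rw [e1]
        _ = (x * c) * x * y * y := by group
        _ = (c * x) * x * y * y := by rw [hcc x]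
        _ = c * (x ^ 2 * y ^ 2) := by rw [pow_two, pow_two]; group
    have e3 : c * y ^ 2 = 1 := by
      have h2 : x ^ 2 * (c * y ^ 2) = x ^ 2 * 1 := by
        rw [mul_one]
        nth_rw 2 [← h1]
        rw [e2]
        rw [← mul_assoc, ← mul_assoc, ← hcc (x ^ 2)]
      exact mul_left_cancel h2
    have e4 : y ^ 2 = c := by
      have h3 : c * y ^ 2 = c * c := by rw [e3, hc22]
      exact mul_left_cancel h3
    calc y ^ 4 = y ^ 2 * y ^ 2 := by rw [← pow_add]
      _ = 1 := by rw [e4, hc22]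
  refine ⟨fun x y => hcen _ (hcommΦ x y), hc2, fun x => hcen _ (hsqΦ x), fun x => ?_⟩
  have : x ∈ T := by rw [hT]; exact mem_top x
  exact this

/-- Under the assumption of no `E₈`, every elementary abelian `2`-subgroup has at most `4` elements. -/
theorem card_le_four (hno : ¬ ∃ E : Subgroup G, Cfsg.IsElementaryAbelian 2 E ∧ Nat.card E = 8)
    (E : Subgroup G) (hE : Cfsg.IsElementaryAbelian 2 E) : Nat.card E ≤ 4 := by
  classical
  haveI : Fact (Nat.Prime 2) := ⟨Nat.prime_two⟩
  have hp : IsPGroup 2 E := by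
    intro x
    refine ⟨1, Subtype.ext ?_⟩
    simpa using hE.2 x x.2
  obtain ⟨k, hk⟩ := IsPGroup.iff_card.1 hp
  by_contra hlt
  push Not at hlt
  have hk3 : 3 ≤ k := by
    by_contra h
    have : k ≤ 2 := by omega
    have h1 : 2 ^ k ≤ 2 ^ 2 := Nat.pow_le_pow_right (by norm_num) this
    rw [hk] at hlt
    omega
  have hdvd : 2 ^ 3 ∣ Nat.card E := by
    rw [hk]
    exact pow_dvd_pow 2 hk3
  obtain ⟨F, hF⟩ := Sylow.exists_subgroup_card_pow_prime 2 hdvd
  apply hno
  refine ⟨F.map E.subtype, ?_, ?_⟩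
  · refine ⟨⟨⟨?_⟩⟩, ?_⟩
    · rintro ⟨_, x, _, rfl⟩ ⟨_, y, _, rfl⟩
      apply Subtype.ext
      have := hE.1
      show (x : G) * (y : G) = (y : G) * (x : G)
      exact congrArg Subtype.val (mul_comm' x y)
    · rintro _ ⟨x, _, rfl⟩
      exact hE.2 x x.2
  · rw [Subgroup.card_map_of_injective E.subtype_injective, hF]
    norm_num

/-- An involution commuting with a four-group lies in it. -/
theorem mem_of_comm (hno : ¬ ∃ E : Subgroup G, Cfsg.IsElementaryAbelian 2 E ∧ Nat.card E = 8)
    {W : Subgroup G} (hW : Cfsg.IsElementaryAbelian 2 W) (hcard : Nat.card W = 4) {t : G}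
    (ht : t ^ 2 = 1) (hc : ∀ w ∈ W, w * t = t * w) : t ∈ W := by
  classical
  set Z : Subgroup G := zpowers t with hZ
  have hZn : Z ≤ normalizer (W : Set G) := by
    rw [hZ, Subgroup.zpowers_le, mem_normalizer_iff]
    intro w
    have e : t * w * t⁻¹ = w ∨ True := Or.inr trivial
    constructor
    · intro hw
      rw [(hc w hw).symm]
      simpa using hw
    · intro hw
      have h1 := hc _ hw
      have h2 : t * (t * w * t⁻¹) * t⁻¹ = t * w * t⁻¹ := by
        rw [← h1]
        group
      have h3 : t * w * t⁻¹ = w := by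
        have := mul_left_cancel (a := t) (b := (t * w * t⁻¹) * t⁻¹) (c := w * t⁻¹) (by
          simpa [mul_assoc] using h2)
        exact mul_right_cancel this
      rwa [h3] at hw
  have hE : Cfsg.IsElementaryAbelian 2 (W ⊔ Z) := by
    have hcomm : ∀ w ∈ W, ∀ i : ℤ, w * t ^ i = t ^ i * w := fun w hw i =>
      ((show Commute w t from hc w hw).zpow_right i).eq
    have hWc : ∀ x ∈ W, ∀ y ∈ W, x * y = y * x := by
      intro x hx y hy
      have := hW.1
      exact congrArg Subtype.val (mul_comm' (⟨x, hx⟩ : W) ⟨y, hy⟩)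
    refine ⟨⟨⟨?_⟩⟩, ?_⟩
    · rintro ⟨x, hx⟩ ⟨y, hy⟩
      obtain ⟨u, hu, z, hz, rfl⟩ := exists_mul_of_mem_sup hZn hx
      obtain ⟨v, hv, z', hz', rfl⟩ := exists_mul_of_mem_sup hZn hy
      obtain ⟨i, rfl⟩ := mem_zpowers_iff.1 hz
      obtain ⟨j, rfl⟩ := mem_zpowers_iff.1 hz'
      apply Subtype.ext
      show u * t ^ i * (v * t ^ j) = v * t ^ j * (u * t ^ i)
      calc u * t ^ i * (v * t ^ j) = u * (t ^ i * v) * t ^ j := by group
        _ = u * (v * t ^ i) * t ^ j := by rw [hcomm v hv i]
        _ = (u * v) * (t ^ i * t ^ j) := by group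
        _ = (v * u) * (t ^ j * t ^ i) := by rw [hWc u hu v hv, zpow_mul_comm]
        _ = v * (u * t ^ j) * t ^ i := by group
        _ = v * (t ^ j * u) * t ^ i := by rw [hcomm u hu j]
        _ = v * t ^ j * (u * t ^ i) := by group
    · intro x hx
      obtain ⟨u, hu, z, hz, rfl⟩ := exists_mul_of_mem_sup hZn hx
      obtain ⟨i, rfl⟩ := mem_zpowers_iff.1 hz
      have h1 : u ^ 2 = 1 := hW.2 u hu
      have h2 : (t ^ i) ^ 2 = 1 := by
        rw [← zpow_natCast, ← zpow_mul, mul_comm, zpow_mul, zpow_natCast, ht, one_zpow]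
      have hc' : Commute u (t ^ i) := hcomm u hu i
      rw [hc'.mul_pow, h1, h2, one_mul]
  have h4 := card_le_four hno _ hE
  have h5 : W = W ⊔ Z := Subgroup.eq_of_le_of_card_ge le_sup_left (by rw [hcard]; exact h4)
  have h6 : t ∈ W ⊔ Z := (le_sup_right : Z ≤ W ⊔ Z) (mem_zpowers t)
  rwa [← h5] at h6

theorem eq_of_three {W I : Subgroup G} (hW : Nat.card W = 4) (hI : I ≤ W) {x y : G} (hx : x ∈ I) (hy : y ∈ I)
    (hx1 : x ≠ 1) (hy1 : y ≠ 1) (hxy : x ≠ y) : I = W := by
  classical
  haveI : Fintype I := Fintype.ofFinite I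
  have h1 : 3 ≤ Nat.card I := by
    rw [Nat.card_eq_fintype_card]
    have hs : ({⟨1, I.one_mem⟩, ⟨x, hx⟩, ⟨y, hy⟩} : Finset I).card = 3 := by
      rw [Finset.card_insert_of_notMem, Finset.card_insert_of_notMem, Finset.card_singleton]
      · simp only [Finset.mem_singleton, Subtype.mk.injEq]
        exact hxy
      · simp only [Finset.mem_insert, Finset.mem_singleton, Subtype.mk.injEq, not_or]
        exact ⟨hx1.symm, hy1.symm⟩
    rw [← hs]
    exact Finset.card_le_univ _
  have h2 : Nat.card I ∣ 4 := by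
    rw [← hW]
    exact Subgroup.card_dvd_of_le hI
  have h3 : Nat.card I ≤ 4 := Nat.le_of_dvd (by norm_num) h2
  have h4 : Nat.card I = 4 := by
    interval_cases h : Nat.card I
    · exact absurd h2 (by norm_num)
    · rfl
  exact Subgroup.eq_of_le_of_card_ge hI (by rw [hW, h4])

/-- Let G be a finite group with C_G(O₂(G)) ≤ O₂(G) containing an element of order 6, and let d be a non-identity 3-element of G normalizing a nontrivial elementary abelian 2-subgroup W with C_W(d) = 1. Then G has an elementary abelian subgroup of order 8. -/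
theorem result {G : Type*} [Group G] [Finite G] (hchar : Subgroup.centralizer (Cfsg.pCore 2 G : Set G) ≤ Cfsg.pCore 2 G) (hsix : ∃ g : G, orderOf g = 6) (d : G) (hd1 : d ≠ 1) (hd : IsPGroup 3 ↥(Subgroup.zpowers d)) (W : Subgroup G) (hW : Cfsg.IsElementaryAbelian 2 W) (hW1 : W ≠ ⊥) (hdW : d ∈ Subgroup.normalizer (W : Set G)) (hfpf : W ⊓ Subgroup.centralizer {d} = ⊥) : ∃ E : Subgroup G, Cfsg.IsElementaryAbelian 2 E ∧ Nat.card E = 8 := by
  classical
  by_contra hno
  haveI hFact2 : Fact (Nat.Prime 2) := ⟨Nat.prime_two⟩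
  have hE := card_le_four hno
  have hfix : ∀ x ∈ W, d * x * d⁻¹ = x → x = 1 := by
    intro x hx h
    have h1 : x ∈ W ⊓ Subgroup.centralizer {d} := by
      refine ⟨hx, Subgroup.mem_centralizer_singleton_iff.2 ?_⟩
      calc x * d = (d * x * d⁻¹) * d := by rw [h]
        _ = d * x := by group
    rw [hfpf, Subgroup.mem_bot] at h1
    exact h1
  have hdWc : ∀ x ∈ W, d * x * d⁻¹ ∈ W := fun x hx => (mem_normalizer_iff.1 hdW x).1 hx
  have hWc : ∀ x ∈ W, ∀ y ∈ W, x * y = y * x := by
    intro x hx y hy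
    have := hW.1
    exact congrArg Subtype.val (mul_comm' (⟨x, hx⟩ : W) ⟨y, hy⟩)
  have hWp : IsPGroup 2 W := by
    intro x
    refine ⟨1, Subtype.ext ?_⟩
    simpa using hW.2 x x.2
  -- the order of `W`
  obtain ⟨⟨a, haW⟩, ha0⟩ := Subgroup.ne_bot_iff_exists_ne_one.1 hW1
  have ha1 : a ≠ 1 := fun h => ha0 (Subtype.ext h)
  have hstep : ∀ x ∈ W, x ≠ 1 → d * x * d⁻¹ ≠ x := fun x hx h1 h => h1 (hfix x hx h)
  have hcardW : Nat.card W = 4 := by
    have hle := hE W hW
    obtain ⟨k, hk⟩ := IsPGroup.iff_card.1 hWp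
    have hb : d * a * d⁻¹ ≠ 1 := by
      intro h
      apply ha1
      have : a = d⁻¹ * (d * a * d⁻¹) * d := by group
      rw [this, h]
      group
    haveI : Fintype W := Fintype.ofFinite W
    have h3 : 3 ≤ Nat.card W := by
      rw [Nat.card_eq_fintype_card]
      have hs : ({⟨1, W.one_mem⟩, ⟨a, haW⟩, ⟨d * a * d⁻¹, hdWc a haW⟩} : Finset W).card = 3 := by
        rw [Finset.card_insert_of_notMem, Finset.card_insert_of_notMem, Finset.card_singleton]
        · simp only [Finset.mem_singleton, Subtype.mk.injEq]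
          exact (hstep a haW ha1).symm
        · simp only [Finset.mem_insert, Finset.mem_singleton, Subtype.mk.injEq, not_or]
          exact ⟨ha1.symm, hb.symm⟩
      rw [← hs]
      exact Finset.card_le_univ _
    rw [hk] at hle h3 ⊢
    have hk2 : k = 2 := by
      have h1 : k ≤ 2 := by
        by_contra h
        have : 2 ^ 3 ≤ 2 ^ k := Nat.pow_le_pow_right (by norm_num) (by omega)
        omega
      interval_cases k
      · omega
      · omega
      · rfl
    rw [hk2]
    norm_num
  set b : G := d * a * d⁻¹ with hb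
  have hbW : b ∈ W := hdWc a haW
  have hab : a ≠ b := (hstep a haW ha1).symm
  have hb1 : b ≠ 1 := by
    intro h
    apply ha1
    have : a = d⁻¹ * (d * a * d⁻¹) * d := by group
    rw [this, ← hb, h]
    group
  have ha2 : a ^ 2 = 1 := hW.2 a haW
  have hb2 : b ^ 2 = 1 := hW.2 b hbW
  have hall : ∀ x ∈ W, x = 1 ∨ x = a ∨ x = b ∨ x = a * b := by
    let S : Finset G := {1, a, b, a * b}
    have hab1 : a * b ≠ 1 := by
      intro h
      apply hab
      have h1 : b = a⁻¹ := eq_inv_of_mul_eq_one_right h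
      rw [h1]
      exact (inv_eq_of_mul_eq_one_left (by rw [← pow_two, ha2])).symm
    have haba : a * b ≠ a := fun h => hb1 (by simpa using h)
    have habb : a * b ≠ b := fun h => ha1 (by simpa using h)
    have hS : S.card = 4 := by
      have h1 : (1 : G) ∉ ({a, b, a * b} : Finset G) := by
        simp only [Finset.mem_insert, Finset.mem_singleton, not_or]
        exact ⟨ha1.symm, hb1.symm, hab1.symm⟩
      have h2 : a ∉ ({b, a * b} : Finset G) := by
        simp only [Finset.mem_insert, Finset.mem_singleton, not_or]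
        exact ⟨hab, haba.symm⟩
      have h3 : b ∉ ({a * b} : Finset G) := by
        simp only [Finset.mem_singleton]
        exact habb.symm
      rw [Finset.card_insert_of_notMem h1, Finset.card_insert_of_notMem h2,
        Finset.card_insert_of_notMem h3, Finset.card_singleton]
    haveI : Fintype W := Fintype.ofFinite W
    intro x hx
    by_contra hxS
    have hxS' : x ∉ S := by
      simpa [S] using hxS
    have h5 : (insert x S).card = 5 := by rw [Finset.card_insert_of_notMem hxS', hS]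
    have hle : (insert x S).card ≤ Nat.card W := by
      rw [Nat.card_eq_fintype_card]
      have hmem : ∀ y ∈ insert x S, y ∈ W := by
        intro y hy
        simp only [S, Finset.mem_insert, Finset.mem_singleton] at hy
        rcases hy with h | h | h | h | h <;> rw [h]
        · exact hx
        · exact W.one_mem
        · exact haW
        · exact hbW
        · exact W.mul_mem haW hbW
      rw [← Fintype.card_coe]
      exact Fintype.card_le_of_injective (fun y => (⟨y.1, hmem y.1 y.2⟩ : W))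
        (fun u v h => Subtype.ext (congrArg (fun w : W => w.1) h))
    omega
  have hbW2 : d * b * d⁻¹ = a * b := by
    have hc1 := hdWc b hbW
    have hc2 : d * b * d⁻¹ ≠ 1 := by
      intro h
      apply hb1
      have : b = d⁻¹ * (d * b * d⁻¹) * d := by group
      rw [this, h]
      group
    have hc3 : d * b * d⁻¹ ≠ b := hstep b hbW hb1
    rcases hall _ hc1 with h | h | h | h
    · exact absurd h hc2
    · exfalso
      -- `d` would fix `ab`
      have hab1 : a * b ≠ 1 := by
        intro h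
        apply hab
        have h1 : b = a⁻¹ := eq_inv_of_mul_eq_one_right h
        rw [h1]
        exact (inv_eq_of_mul_eq_one_left (by rw [← pow_two, ha2])).symm
      apply hstep (a * b) (W.mul_mem haW hbW) hab1
      have e : d * (a * b) * d⁻¹ = (d * a * d⁻¹) * (d * b * d⁻¹) := by group
      rw [e, ← hb, h, hWc b hbW a haW]
    · exact absurd h hc3
    · exact h
  -- the group `Q`
  set Q : Subgroup G := Cfsg.pCore 2 G with hQ
  haveI hQn : Q.Normal := Cfsg.pCore_normal 2 G
  have hQp : IsPGroup 2 Q := Cfsg.Agent.Lib.Core.Basic.pCore_isPGroup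
  obtain ⟨g, hg⟩ := hsix
  have hQ1 : Q ≠ ⊥ := by
    intro h
    have h1 : g ∈ centralizer (Q : Set G) := by
      rw [mem_centralizer_iff]
      intro x hx
      have : x ∈ (⊥ : Subgroup G) := by rw [← h]; exact hx
      rw [Subgroup.mem_bot] at this
      rw [this]
      simp
    have h2 := hchar h1
    rw [h, Subgroup.mem_bot] at h2
    rw [h2, orderOf_one] at hg
    omega
  -- the central involutions of `Q`
  let Z₁ : Subgroup G :=
    { carrier := {z | z ∈ Q ∧ (∀ q ∈ Q, z * q = q * z) ∧ z ^ 2 = 1}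
      one_mem' := ⟨Q.one_mem, by simp, by simp⟩
      mul_mem' := by
        rintro x y ⟨hx, hx1, hx2⟩ ⟨hy, hy1, hy2⟩
        refine ⟨Q.mul_mem hx hy, ?_, ?_⟩
        · intro q hq
          rw [mul_assoc, hy1 q hq, ← mul_assoc, hx1 q hq, mul_assoc]
        · have hc : Commute x y := hx1 y hy
          rw [hc.mul_pow, hx2, hy2, one_mul]
      inv_mem' := by
        rintro x ⟨hx, hx1, hx2⟩
        refine ⟨Q.inv_mem hx, ?_, ?_⟩
        · intro q hq
          have h1 : Commute x q := hx1 q hq
          exact (h1.inv_left).eq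
        · rw [inv_pow, hx2, inv_one] }
  have hZ₁mem : ∀ z, z ∈ Z₁ ↔ (z ∈ Q ∧ (∀ q ∈ Q, z * q = q * z) ∧ z ^ 2 = 1) := fun z => Iff.rfl
  haveI hZ₁n : Z₁.Normal := by
    constructor
    rintro z ⟨hz, hz1, hz2⟩ h
    refine ⟨hQn.conj_mem z hz h, ?_, ?_⟩
    · intro q hq
      have h1 := hz1 (h⁻¹ * q * h) (by simpa using hQn.conj_mem q hq h⁻¹)
      calc h * z * h⁻¹ * q = h * (z * (h⁻¹ * q * h)) * h⁻¹ := by group
        _ = h * ((h⁻¹ * q * h) * z) * h⁻¹ := by rw [h1]
        _ = q * (h * z * h⁻¹) := by group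
    · rw [conj_pow, hz2]
      group
  have hZ₁p : IsPGroup 2 Z₁ := hQp.to_le (fun z hz => hz.1)
  have hZ₁E : Cfsg.IsElementaryAbelian 2 Z₁ := by
    refine ⟨⟨⟨?_⟩⟩, fun z hz => hz.2.2⟩
    rintro ⟨x, hx⟩ ⟨y, hy⟩
    apply Subtype.ext
    exact hx.2.1 y hy.1
  have hZ₁1 : Z₁ ≠ ⊥ := by
    obtain ⟨u, hu, hu1, huC⟩ := Cfsg.Agent.Lib.Coprime.Complement.exists_ne_one_mem_centralizer hQp hQp
      (fun x hx => by
        rw [Subgroup.normalizer_eq_top Q]
        exact mem_top x) hQ1
    obtain ⟨k, hk⟩ := (IsPGroup.iff_orderOf.1 hQp) ⟨u, hu⟩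
    have hk' : orderOf u = 2 ^ k := by rwa [Subgroup.orderOf_mk] at hk
    have hk0 : k ≠ 0 := by
      rintro rfl
      rw [pow_zero, orderOf_eq_one_iff] at hk'
      exact hu1 hk'
    obtain ⟨m, rfl⟩ := Nat.exists_eq_succ_of_ne_zero hk0
    set z := u ^ 2 ^ m with hz
    have hz2 : z ^ 2 = 1 := by
      rw [hz, ← pow_mul, ← pow_succ, ← hk']
      exact pow_orderOf_eq_one u
    have hz1 : z ≠ 1 := by
      intro h
      have h1 := orderOf_dvd_of_pow_eq_one h
      rw [hk', pow_succ] at h1
      have h2 : 2 ^ m * 2 ≤ 2 ^ m := Nat.le_of_dvd (by positivity) h1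
      have : 0 < 2 ^ m := by positivity
      omega
    have hzZ : z ∈ Z₁ := by
      refine ⟨Q.pow_mem hu _, ?_, hz2⟩
      intro q hq
      have h1 : Commute q u := mem_centralizer_iff.1 huC q hq
      exact (h1.pow_right _).eq.symm
    intro h
    rw [h, Subgroup.mem_bot] at hzZ
    exact hz1 hzZ
  -- `W ≤ Z₁`
  have hWZ : W ≤ Z₁ := by
    obtain ⟨z, hzZ, hz1, hzC⟩ := Cfsg.Agent.Lib.Coprime.Complement.exists_ne_one_mem_centralizer hWp hZ₁p
      (fun x hx => by
        rw [Subgroup.normalizer_eq_top Z₁]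
        exact mem_top x) hZ₁1
    have hzW : z ∈ W := by
      apply mem_of_comm hno hW hcardW hzZ.2.2
      intro w hw
      exact (mem_centralizer_iff.1 hzC w hw)
    have hdz : d * z * d⁻¹ ∈ Z₁ := hZ₁n.conj_mem z hzZ d
    have h1 : W ⊓ Z₁ = W := by
      apply eq_of_three hcardW inf_le_left (x := z) (y := d * z * d⁻¹) ⟨hzW, hzZ⟩ ⟨hdWc z hzW, hdz⟩ hz1
      · intro h
        apply hz1
        have : z = d⁻¹ * (d * z * d⁻¹) * d := by group
        rw [this, h]
        group
      · exact (hstep z hzW hz1).symm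
    rw [← h1]
    exact inf_le_right
  have hWeq : W = Z₁ := Subgroup.eq_of_le_of_card_ge hWZ (by rw [hcardW]; exact hE _ hZ₁E)
  have hWn : W.Normal := by rw [hWeq]; exact hZ₁n
  have hWQ : ∀ w ∈ W, ∀ q ∈ Q, w * q = q * w := fun w hw q hq => (hWZ hw).2.1 q hq
  -- involutions commuting with `W`
  have hinvol : ∀ t : G, t ^ 2 = 1 → (∀ w ∈ W, w * t = t * w) → t ∈ W :=
    fun t ht hc => mem_of_comm hno hW hcardW ht hc
  -- the element `e`
  set e : G := g ^ 2 with he
  set t : G := g ^ 3 with ht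
  have he3 : e ^ 3 = 1 := by
    rw [he, ← pow_mul, show 2 * 3 = 6 by norm_num, ← hg]
    exact pow_orderOf_eq_one g
  have ht2 : t ^ 2 = 1 := by
    rw [ht, ← pow_mul, show 3 * 2 = 6 by norm_num, ← hg]
    exact pow_orderOf_eq_one g
  have he1 : e ≠ 1 := by
    intro h
    have := orderOf_dvd_of_pow_eq_one h
    rw [hg] at this
    omega
  have ht1 : t ≠ 1 := by
    intro h
    have := orderOf_dvd_of_pow_eq_one h
    rw [hg] at this
    omega
  have het : e * t = t * e := by
    rw [he, ht, ← pow_add, ← pow_add, add_comm]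
  have heW : ∀ x ∈ W, e * x * e⁻¹ ∈ W := fun x hx => hWn.conj_mem x hx e
  have heinj : ∀ x, e * x * e⁻¹ = 1 → x = 1 := by
    intro x h
    have : x = e⁻¹ * (e * x * e⁻¹) * e := by group
    rw [this, h]
    group
  -- `e` centralizes `W`
  have heC : ∀ x ∈ W, e * x * e⁻¹ = x := by
    by_contra hnc
    push Not at hnc
    obtain ⟨x₀, hx₀, hx₀e⟩ := hnc
    -- no nontrivial fixed points
    have hnofix : ∀ y ∈ W, y ≠ 1 → e * y * e⁻¹ ≠ y := by
      intro y hy hy1 hfx
      -- the fixed subgroup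
      have hsub : W ⊓ centralizer ({e} : Set G) ≠ W := by
        intro h
        apply hx₀e
        have h1 : x₀ ∈ W ⊓ centralizer ({e} : Set G) := by rw [h]; exact hx₀
        have h2 := Subgroup.mem_centralizer_singleton_iff.1 h1.2
        calc e * x₀ * e⁻¹ = x₀ * e * e⁻¹ := by rw [h2]
          _ = x₀ := by group
      -- count fixed points
      haveI : Fintype W := Fintype.ofFinite W
      let σ : W → W := fun u => ⟨e * u * e⁻¹, heW u u.2⟩
      have hσ : ∀ u, σ (σ (σ u)) = u := by
        intro u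
        apply Subtype.ext
        show e * (e * (e * (u : G) * e⁻¹) * e⁻¹) * e⁻¹ = u
        have h1 : e * (e * (e * (u : G) * e⁻¹) * e⁻¹) * e⁻¹ = e ^ 3 * u * (e ^ 3)⁻¹ := by
          simp only [pow_succ, pow_zero, one_mul]
          group
        rw [h1, he3]
        group
      have hmod := card_fix_modEq σ hσ Finset.univ (fun x _ => Finset.mem_univ _)
      rw [Finset.card_univ, ← Nat.card_eq_fintype_card, hcardW] at hmod
      set F := (Finset.univ.filter (fun u : W => σ u = u)) with hF
      have h1mem : (⟨1, W.one_mem⟩ : W) ∈ F := by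
        simp only [hF, Finset.mem_filter, Finset.mem_univ, true_and]
        apply Subtype.ext
        show e * 1 * e⁻¹ = 1
        group
      have hymem : (⟨y, hy⟩ : W) ∈ F := by
        simp only [hF, Finset.mem_filter, Finset.mem_univ, true_and]
        exact Subtype.ext hfx
      have hFc : 2 ≤ F.card := by
        have : ({⟨1, W.one_mem⟩, ⟨y, hy⟩} : Finset W) ⊆ F := by
          intro u hu
          simp only [Finset.mem_insert, Finset.mem_singleton] at hu
          rcases hu with h | h <;> rw [h]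
          · exact h1mem
          · exact hymem
        have h2 := Finset.card_le_card this
        rw [Finset.card_pair] at h2
        · exact h2
        · intro h
          exact hy1 (congrArg Subtype.val h).symm
      have hFle : F.card ≤ 4 := by
        rw [← hcardW, Nat.card_eq_fintype_card]
        exact Finset.card_le_univ _
      have hF4 : F.card = 4 := by
        unfold Nat.ModEq at hmod
        omega
      have hx₀mem : (⟨x₀, hx₀⟩ : W) ∈ F := by
        have h2 : F = Finset.univ := by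
          apply Finset.eq_univ_of_card
          rw [hF4, ← Nat.card_eq_fintype_card, hcardW]
        rw [h2]
        exact Finset.mem_univ _
      simp only [hF, Finset.mem_filter, Finset.mem_univ, true_and] at hx₀mem
      exact hx₀e (congrArg Subtype.val hx₀mem)
    -- `t` centralizes `W`
    obtain ⟨y, hyW, hy1, hyt⟩ := Cfsg.Agent.Lib.Coprime.Complement.exists_ne_one_mem_centralizer
      (p := 2) (T := zpowers t) (U := W) (by
        intro x
        obtain ⟨x, hx⟩ := x
        obtain ⟨i, rfl⟩ := mem_zpowers_iff.1 hx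
        refine ⟨1, Subtype.ext ?_⟩
        show (t ^ i) ^ 2 ^ 1 = 1
        rw [pow_one, ← zpow_natCast, ← zpow_mul, mul_comm, zpow_mul, zpow_natCast, ht2, one_zpow]) hWp
      (fun x hx => by
        rw [Subgroup.normalizer_eq_top W]
        exact mem_top x) hW1
    have hyt' : y * t = t * y := mem_centralizer_iff.1 hyt t (mem_zpowers t) |>.symm
    have hety : (e * y * e⁻¹) * t = t * (e * y * e⁻¹) := by
      have het' : e⁻¹ * t = t * e⁻¹ := by
        have h1 : Commute e t := het
        exact h1.inv_left.eq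
      calc (e * y * e⁻¹) * t = e * y * (e⁻¹ * t) := by group
        _ = e * y * (t * e⁻¹) := by rw [het']
        _ = e * (y * t) * e⁻¹ := by group
        _ = e * (t * y) * e⁻¹ := by rw [hyt']
        _ = (e * t) * y * e⁻¹ := by group
        _ = (t * e) * y * e⁻¹ := by rw [het]
        _ = t * (e * y * e⁻¹) := by group
    have hI : W ⊓ centralizer ({t} : Set G) = W := by
      apply eq_of_three hcardW inf_le_left (x := y) (y := e * y * e⁻¹)
        ⟨hyW, Subgroup.mem_centralizer_singleton_iff.2 hyt'⟩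
        ⟨heW y hyW, Subgroup.mem_centralizer_singleton_iff.2 hety⟩ hy1
      · exact fun h => hy1 (heinj y h)
      · exact (hnofix y hyW hy1).symm
    have htW : t ∈ W := by
      apply hinvol t ht2
      intro w hw
      have h1 : w ∈ W ⊓ centralizer ({t} : Set G) := by rw [hI]; exact hw
      exact Subgroup.mem_centralizer_singleton_iff.1 h1.2
    apply hnofix t htW ht1
    rw [het]
    group
  -- `e` moves `Q`
  have h2el : ∀ y ∈ Q, y ^ 3 = 1 → y = 1 := by
    intro y hy h3
    obtain ⟨k, hk⟩ := hQp ⟨y, hy⟩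
    have hk' : y ^ 2 ^ k = 1 := congrArg Subtype.val hk
    have h5 := orderOf_dvd_of_pow_eq_one h3
    have h6 := orderOf_dvd_of_pow_eq_one hk'
    have h7 : Nat.Coprime 3 (2 ^ k) := Nat.Coprime.pow_right k (by norm_num)
    have h8 : orderOf y ∣ 1 := by
      have := Nat.dvd_gcd h5 h6
      rwa [h7.gcd_eq_one] at this
    exact orderOf_eq_one_iff.1 (Nat.dvd_one.1 h8)
  have heQ : ∃ q ∈ Q, e * q ≠ q * e := by
    by_contra hcon
    push Not at hcon
    have h1 : e ∈ centralizer (Q : Set G) := by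
      rw [mem_centralizer_iff]
      intro q hq
      exact (hcon q hq).symm
    exact he1 (h2el e (hchar h1) he3)
  -- the minimal subgroup
  let 𝓕 : Set (Subgroup G) := {Y | Y ≤ Q ∧ d ∈ normalizer (Y : Set G) ∧ e ∈ normalizer (Y : Set G) ∧ ∃ y ∈ Y, e * y ≠ y * e}
  have hQF : Q ∈ 𝓕 := by
    refine ⟨le_rfl, ?_, ?_, heQ⟩
    · rw [Subgroup.normalizer_eq_top Q]; exact mem_top d
    · rw [Subgroup.normalizer_eq_top Q]; exact mem_top e
  obtain ⟨Y, hYmin⟩ := (Set.toFinite 𝓕).exists_minimal ⟨Q, hQF⟩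
  obtain ⟨hYQ, hdY, heY, hYmove⟩ := hYmin.prop
  have hminY : ∀ U : Subgroup G, U ≤ Y → d ∈ normalizer (U : Set G) → e ∈ normalizer (U : Set G) → U ≠ Y →
      ∀ u ∈ U, e * u = u * e := by
    intro U hUY hdU heU hne u hu
    by_contra hmove
    have hUF : U ∈ 𝓕 := ⟨hUY.trans hYQ, hdU, heU, u, hu, hmove⟩
    exact hne (le_antisymm hUY (hYmin.le_of_le hUF hUY))
  have hYp : IsPGroup 2 Y := hQp.to_le hYQ
  let ε : Y ≃* Y := conjOn Y e heY
  let δ : Y ≃* Y := conjOn Y d hdY
  have hεv : ∀ x : Y, (ε x : G) = e * x * e⁻¹ := fun x => rfl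
  have hδv : ∀ x : Y, (δ x : G) = d * x * d⁻¹ := fun x => rfl
  have hε3 : ∀ x, ε (ε (ε x)) = x := by
    intro x
    apply Subtype.ext
    show e * (e * (e * (x : G) * e⁻¹) * e⁻¹) * e⁻¹ = x
    have h1 : e * (e * (e * (x : G) * e⁻¹) * e⁻¹) * e⁻¹ = e ^ 3 * x * (e ^ 3)⁻¹ := by
      simp only [pow_succ, pow_zero, one_mul]
      group
    rw [h1, he3]
    group
  have hεne : ∃ x, ε x ≠ x := by
    obtain ⟨y, hy, hye⟩ := hYmove
    refine ⟨⟨y, hy⟩, fun h => hye ?_⟩
    have h1 : e * y * e⁻¹ = y := congrArg Subtype.val h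
    calc e * y = (e * y * e⁻¹) * e := by group
      _ = y * e := by rw [h1]
  have hYC : ∀ C : Subgroup Y, C.Characteristic → C ≠ ⊤ → ∀ u ∈ C, ε u = u := by
    intro C hc hne u hu
    have h1 := hminY (C.map Y.subtype) (Subgroup.map_subtype_le C) (normalizer_of_char Y d hdY C hc)
      (normalizer_of_char Y e heY C hc) (by
        intro h
        apply hne
        rw [eq_top_iff]
        intro x _
        have hx : (x : G) ∈ C.map Y.subtype := by rw [h]; exact x.2
        obtain ⟨z, hz, hzx⟩ := hx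
        have : z = x := Subtype.ext hzx
        rwa [← this]) u ⟨u, hu, rfl⟩
    apply Subtype.ext
    show e * (u : G) * e⁻¹ = u
    have h2 : e * (u : G) = u * e := h1
    rw [h2]
    group
  obtain ⟨hc1, hc2, hs1, hx4⟩ := struct_Y hYp ε hε3 hεne hYC
  -- involutions of `Y` lie in `W`
  have hYinv : ∀ x ∈ Y, x ^ 2 = 1 → x ∈ W := by
    intro x hx hx2
    apply hinvol x hx2
    intro w hw
    exact hWQ w hw x (hYQ hx)
  -- `W ≤ Y`
  have hWY : W ≤ Y := by
    obtain ⟨x₀, hx₀⟩ := hεne
    have hx₀1 : x₀ ≠ 1 := by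
      rintro rfl
      exact hx₀ (map_one ε)
    have hex : ∃ u ∈ Y, u ≠ 1 ∧ u ^ 2 = 1 := by
      by_cases h : x₀ ^ 2 = 1
      · exact ⟨x₀, x₀.2, fun h' => hx₀1 (Subtype.ext h'), by
          have := congrArg Subtype.val h
          simpa using this⟩
      · refine ⟨(x₀ ^ 2 : Y), (x₀ ^ 2 : Y).2, fun h' => h (Subtype.ext h'), ?_⟩
        have h4 := hx4 x₀
        have h5 : ((x₀ ^ 2 : Y) : G) ^ 2 = ((x₀ ^ 4 : Y) : G) := by
          simp [← pow_mul]
        rw [h5, h4]
        rfl
    obtain ⟨u, huY, hu1, hu2⟩ := hex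
    have huW := hYinv u huY hu2
    have hdu : d * u * d⁻¹ ∈ Y := (mem_normalizer_iff.1 hdY u).1 huY
    have h1 : W ⊓ Y = W := by
      apply eq_of_three hcardW inf_le_left (x := u) (y := d * u * d⁻¹) ⟨huW, huY⟩ ⟨hdWc u huW, hdu⟩ hu1
      · intro h
        apply hu1
        have : u = d⁻¹ * (d * u * d⁻¹) * d := by group
        rw [this, h]
        group
      · exact (hstep u huW hu1).symm
    rw [← h1]
    exact inf_le_right
  let a' : Y := ⟨a, hWY haW⟩
  let b' : Y := ⟨b, hWY hbW⟩
  have hallY : ∀ x : Y, (x : G) ∈ W → x = 1 ∨ x = a' ∨ x = b' ∨ x = a' * b' := by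
    intro x hx
    rcases hall x hx with h | h | h | h
    · exact Or.inl (Subtype.ext h)
    · exact Or.inr (Or.inl (Subtype.ext h))
    · exact Or.inr (Or.inr (Or.inl (Subtype.ext h)))
    · exact Or.inr (Or.inr (Or.inr (Subtype.ext h)))
  have hfix' := contra a' b' (fun h => ha1 (congrArg Subtype.val h)) (fun h => hb1 (congrArg Subtype.val h))
    (fun h => hab (congrArg Subtype.val h)) (Subtype.ext ha2) (Subtype.ext hb2)
    (fun x => Subtype.ext (hWQ a haW x (hYQ x.2))) (fun x => Subtype.ext (hWQ b hbW x (hYQ x.2)))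
    (fun x => by
      apply hallY (x ^ 2)
      apply hYinv _ (x ^ 2).2
      have h4 := hx4 x
      have h5 : ((x ^ 2 : Y) : G) ^ 2 = ((x ^ 4 : Y) : G) := by
        simp [← pow_mul]
      rw [h5, h4]
      rfl)
    (fun x hx => by
      apply hallY x
      apply hYinv x x.2
      have := congrArg Subtype.val hx
      simpa using this)
    (fun x y => by
      apply hallY ⁅x, y⁆
      apply hYinv _ (⁅x, y⁆ : Y).2
      have := congrArg Subtype.val (hc2 x y)
      simpa using this)
    δ ε (Subtype.ext rfl) (Subtype.ext hbW2) hε3 (Subtype.ext (heC a haW)) (Subtype.ext (heC b hbW))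
  obtain ⟨x₀, hx₀⟩ := hεne
  exact hx₀ (hfix' x₀)

end Cfsg.Agent.S3739
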