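import Cfsg.Statements.S3740
import Mathlib
import Cfsg.Agent.Lib.PGroups.Presentations
import Cfsg.Agent.Lib.Coprime.Action

set_option autoImplicit false
set_option linter.unusedSectionVars false
set_option linter.unusedVariables false

open Cfsg

namespace Cfsg.Agent.S3740

open Subgroup Matrix

/-- Generators of `SL₂(3)`. -/
def sS3 : Matrix.SpecialLinearGroup (Fin 2) (ZMod 3) := ⟨!![0, -1; 1, 0], by decide⟩

/-- Generators of `SL₂(3)`. -/
def tT3 : Matrix.SpecialLinearGroup (Fin 2) (ZMod 3) := ⟨!![1, 1; 0, 1], by decide⟩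

theorem all3 : ∀ x : Matrix.SpecialLinearGroup (Fin 2) (ZMod 3), ∃ a : Fin 3, ∃ b : Fin 4, ∃ c : Fin 3,
    x = tT3 ^ a.val * sS3 ^ b.val * tT3 ^ c.val := by
  decide +kernel

theorem card3 : Nat.card (Matrix.SpecialLinearGroup (Fin 2) (ZMod 3)) = 24 := by
  rw [Nat.card_eq_fintype_card]
  decide +kernel

section Coordinates

variable {F : Type} [Field F]

local notation "SL" => Matrix.SpecialLinearGroup (Fin 2) F

theorem det_eq (x : SL) : x.1 0 0 * x.1 1 1 - x.1 0 1 * x.1 1 0 = 1 := by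
  have := x.2
  rwa [Matrix.det_fin_two] at this

theorem mul00 (x y : SL) : (x * y).1 0 0 = x.1 0 0 * y.1 0 0 + x.1 0 1 * y.1 1 0 := by
  simp [Matrix.SpecialLinearGroup.coe_mul, Matrix.mul_apply, Fin.sum_univ_two]

theorem mul01 (x y : SL) : (x * y).1 0 1 = x.1 0 0 * y.1 0 1 + x.1 0 1 * y.1 1 1 := by
  simp [Matrix.SpecialLinearGroup.coe_mul, Matrix.mul_apply, Fin.sum_univ_two]

theorem mul10 (x y : SL) : (x * y).1 1 0 = x.1 1 0 * y.1 0 0 + x.1 1 1 * y.1 1 0 := by
  simp [Matrix.SpecialLinearGroup.coe_mul, Matrix.mul_apply, Fin.sum_univ_two]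

theorem mul11 (x y : SL) : (x * y).1 1 1 = x.1 1 0 * y.1 0 1 + x.1 1 1 * y.1 1 1 := by
  simp [Matrix.SpecialLinearGroup.coe_mul, Matrix.mul_apply, Fin.sum_univ_two]

theorem inv00 (x : SL) : (x⁻¹).1 0 0 = x.1 1 1 := by
  simp [Matrix.SpecialLinearGroup.coe_inv, Matrix.adjugate_fin_two]

theorem inv01 (x : SL) : (x⁻¹).1 0 1 = - x.1 0 1 := by
  simp [Matrix.SpecialLinearGroup.coe_inv, Matrix.adjugate_fin_two]

theorem inv10 (x : SL) : (x⁻¹).1 1 0 = - x.1 1 0 := by
  simp [Matrix.SpecialLinearGroup.coe_inv, Matrix.adjugate_fin_two]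

theorem inv11 (x : SL) : (x⁻¹).1 1 1 = x.1 0 0 := by
  simp [Matrix.SpecialLinearGroup.coe_inv, Matrix.adjugate_fin_two]

theorem ext2 {x y : SL} (h00 : x.1 0 0 = y.1 0 0) (h01 : x.1 0 1 = y.1 0 1)
    (h10 : x.1 1 0 = y.1 1 0) (h11 : x.1 1 1 = y.1 1 1) : x = y := by
  apply Subtype.ext
  ext i j
  fin_cases i <;> fin_cases j <;> assumption

/-- The standard transvection. -/
def tT : SL := ⟨!![1, 1; 0, 1], by simp [Matrix.det_fin_two]⟩

/-- Minus the identity. -/
def mO : SL := ⟨!![-1, 0; 0, -1], by simp [Matrix.det_fin_two]⟩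

@[simp] theorem tT00 : (tT : SL).1 0 0 = 1 := rfl
@[simp] theorem tT01 : (tT : SL).1 0 1 = 1 := rfl
@[simp] theorem tT10 : (tT : SL).1 1 0 = 0 := rfl
@[simp] theorem tT11 : (tT : SL).1 1 1 = 1 := rfl
@[simp] theorem mO00 : (mO : SL).1 0 0 = -1 := rfl
@[simp] theorem mO01 : (mO : SL).1 0 1 = 0 := rfl
@[simp] theorem mO10 : (mO : SL).1 1 0 = 0 := rfl
@[simp] theorem mO11 : (mO : SL).1 1 1 = -1 := rfl

@[simp] theorem one00 : (1 : SL).1 0 0 = 1 := by simp
@[simp] theorem one01 : (1 : SL).1 0 1 = 0 := by simp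
@[simp] theorem one10 : (1 : SL).1 1 0 = 0 := by simp
@[simp] theorem one11 : (1 : SL).1 1 1 = 1 := by simp

/-- The trace. -/
def tr (x : SL) : F := x.1 0 0 + x.1 1 1

theorem tr_comm (x y : SL) : tr (x * y) = tr (y * x) := by
  simp only [tr, mul00, mul11]
  ring

theorem tr_conj (x g : SL) : tr (g⁻¹ * x * g) = tr x := by
  rw [mul_assoc, tr_comm, mul_assoc, mul_inv_cancel, mul_one]

theorem tr_inv (x : SL) : tr (x⁻¹) = tr x := by
  simp only [tr, inv00, inv11]
  ring

theorem tr_mO_mul (x : SL) : tr (mO * x) = - tr x := by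
  simp only [tr, mul00, mul11, mO00, mO01, mO10, mO11]
  ring

theorem tr_tT : tr (tT : SL) = 2 := by
  simp only [tr, tT00, tT11]
  norm_num

theorem tr_mul_tT (x : SL) : tr (x * tT) = tr x + x.1 1 0 := by
  simp only [tr, mul00, mul11, tT00, tT01, tT10, tT11]
  ring

theorem mO_central (x : SL) : mO * x = x * mO := by
  apply ext2 <;> simp only [mul00, mul01, mul10, mul11, mO00, mO01, mO10, mO11] <;> ring

theorem mO_mul_mO : (mO : SL) * mO = 1 := by
  apply ext2 <;> simp only [mul00, mul01, mul10, mul11, mO00, mO01, mO10, mO11] <;> simp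

/-- Cayley--Hamilton in coordinates. -/
theorem sq_of_tr_zero {x : SL} (h : tr x = 0) : x * x = mO := by
  have hd := det_eq x
  have h1 : x.1 1 1 = - x.1 0 0 := by
    have : x.1 0 0 + x.1 1 1 = 0 := h
    linear_combination this
  apply ext2 <;> simp only [mul00, mul01, mul10, mul11, mO00, mO01, mO10, mO11, h1] <;> rw [h1] at hd
  · linear_combination -hd
  · ring
  · ring
  · linear_combination -hd

theorem conj_tT (x : SL) : tT * x * tT⁻¹ = ⟨!![x.1 0 0 + x.1 1 0, x.1 0 1 + x.1 1 1 - x.1 0 0 - x.1 1 0;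
    x.1 1 0, x.1 1 1 - x.1 1 0], by
      have hd := det_eq x
      rw [Matrix.det_fin_two]
      simp only [Matrix.of_apply, Matrix.cons_val', Matrix.cons_val_zero, Matrix.cons_val_one,
        Matrix.empty_val', Matrix.cons_val_fin_one]
      linear_combination hd⟩ := by
  apply ext2
  · simp [mul00, mul01, mul10, mul11, inv00, inv01, inv10, inv11]
  · simp [mul00, mul01, mul10, mul11, inv00, inv01, inv10, inv11]; ring
  · simp [mul00, mul01, mul10, mul11, inv00, inv01, inv10, inv11]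
  · simp [mul00, mul01, mul10, mul11, inv00, inv01, inv10, inv11]; ring

end Coordinates

section Main

variable {F : Type} [Field F] [Fintype F] {p : ℕ} [hpp : Fact p.Prime] [hch : CharP F p]

local notation "SL" => Matrix.SpecialLinearGroup (Fin 2) F

theorem two_ne (hp : p ≠ 2) : (2 : F) ≠ 0 := by
  intro h
  have h1 : ((2 : ℕ) : F) = 0 := by exact_mod_cast h
  rw [CharP.cast_eq_zero_iff F p 2] at h1
  exact hp ((Nat.prime_dvd_prime_iff_eq hpp.out Nat.prime_two).1 h1)

theorem mO_ne_one (hp : p ≠ 2) : (mO : SL) ≠ 1 := by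
  intro h
  have h1 : (mO : SL).1 0 0 = (1 : SL).1 0 0 := by rw [h]
  simp only [mO00, one00] at h1
  apply two_ne (F := F) hp
  linear_combination -h1

/-- An element of trace `2` has `p`-th power one. -/
theorem pow_eq_one_of_tr (x : SL) (h : tr x = 2) : x ^ p = 1 := by
  have hd := det_eq x
  have h1 : x.1 1 1 = 2 - x.1 0 0 := by
    have : x.1 0 0 + x.1 1 1 = 2 := h
    linear_combination this
  set M : Matrix (Fin 2) (Fin 2) F := x.1 - 1 with hM
  have hM2 : M * M = 0 := by
    rw [h1] at hd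
    ext i j
    fin_cases i <;> fin_cases j <;>
      simp [hM, Matrix.mul_apply, Fin.sum_univ_two, h1, Matrix.sub_apply, Matrix.one_apply]
    · linear_combination -hd
    · ring
    · ring
    · linear_combination -hd
  have hpow : x.1 ^ p = 1 := by
    have hcomm : Commute M (1 : Matrix (Fin 2) (Fin 2) F) := Commute.one_right M
    have e : x.1 = M + 1 := by rw [hM]; abel
    rw [e, add_pow_char_of_commute _ hcomm, one_pow]
    have hp2 : 2 ≤ p := hpp.out.two_le
    obtain ⟨k, hk⟩ : ∃ k, p = k + 2 := ⟨p - 2, by omega⟩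
    rw [hk, pow_add, pow_two, hM2, mul_zero, zero_add]
  apply Subtype.ext
  rw [Matrix.SpecialLinearGroup.coe_pow, hpow]
  rfl

theorem eq_one_of_pow (Rr : Subgroup SL) (hRr : (Nat.card Rr).Coprime p) {x : SL} (hx : x ∈ Rr) (h : x ^ p = 1) : x = 1 := by
  have h1 : orderOf x ∣ p := orderOf_dvd_of_pow_eq_one h
  have h2 : orderOf x ∣ Nat.card Rr := Subgroup.orderOf_dvd_natCard Rr hx
  have h3 := Nat.dvd_gcd h2 h1
  rw [hRr.gcd_eq_one] at h3
  exact orderOf_eq_one_iff.1 (Nat.dvd_one.1 h3)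

theorem eq_one_of_tr (Rr : Subgroup SL) (hRr : (Nat.card Rr).Coprime p) {x : SL} (hx : x ∈ Rr) (h : tr x = 2) : x = 1 :=
  eq_one_of_pow Rr hRr hx (pow_eq_one_of_tr x h)

theorem eq_mO_of_tr (Rr : Subgroup SL) (hRr : (Nat.card Rr).Coprime p) (hp : p ≠ 2) {x : SL} (hx : x ∈ Rr) (h : tr x = -2) : x = mO := by
  have h1 : tr (mO * x) = 2 := by rw [tr_mO_mul, h]; ring
  have h2 := pow_eq_one_of_tr _ h1
  have h3 : (x * x) ^ p = 1 := by
    have e : x * x = (mO * x) * (mO * x) := by
      rw [mul_assoc, ← mul_assoc x, ← mO_central x, mul_assoc mO, ← mul_assoc, mO_mul_mO, one_mul]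
    rw [e, ← pow_two, ← pow_mul, mul_comm, pow_mul, h2, one_pow]
  have h4 : x * x = 1 := eq_one_of_pow Rr hRr (mul_mem hx hx) h3
  have hd := det_eq x
  have h5 : x.1 1 1 = -2 - x.1 0 0 := by
    have : x.1 0 0 + x.1 1 1 = -2 := h
    linear_combination this
  have h00 : (x * x).1 0 0 = (1 : SL).1 0 0 := by rw [h4]
  have h01 : (x * x).1 0 1 = (1 : SL).1 0 1 := by rw [h4]
  have h10 : (x * x).1 1 0 = (1 : SL).1 1 0 := by rw [h4]
  have h11 : (x * x).1 1 1 = (1 : SL).1 1 1 := by rw [h4]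
  simp only [mul00, mul01, mul10, mul11, one00, one01, one10, one11] at h00 h01 h10 h11
  rw [h5] at hd h01 h10 h11
  have h2ne := two_ne (F := F) hp
  apply ext2
  · simp only [mO00]
    have : 2 * (x.1 0 0 + 1) = 0 := by
      linear_combination -h00 - hd
    have h6 := (mul_eq_zero.1 this).resolve_left h2ne
    linear_combination h6
  · simp only [mO01]
    have : 2 * x.1 0 1 = 0 := by linear_combination -h01
    exact (mul_eq_zero.1 this).resolve_left h2ne
  · simp only [mO10]
    have : 2 * x.1 1 0 = 0 := by linear_combination -h10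
    exact (mul_eq_zero.1 this).resolve_left h2ne
  · simp only [mO11]
    rw [h5]
    have : 2 * (x.1 0 0 + 1) = 0 := by
      linear_combination -h00 - hd
    have h6 := (mul_eq_zero.1 this).resolve_left h2ne
    linear_combination -h6

/-- Elements of `Rr` commuting with `T` are `±1`. -/
theorem comm_tT (Rr : Subgroup SL) (hRr : (Nat.card Rr).Coprime p) (hp : p ≠ 2) {x : SL} (hx : x ∈ Rr) (h : x * tT = tT * x) : x = 1 ∨ x = mO := by
  have h00 : (x * tT).1 0 0 = (tT * x).1 0 0 := by rw [h]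
  have h01 : (x * tT).1 0 1 = (tT * x).1 0 1 := by rw [h]
  simp only [mul00, mul01, tT00, tT01, tT10, tT11] at h00 h01
  have hg : x.1 1 0 = 0 := by linear_combination -h00
  have hα : x.1 1 1 = x.1 0 0 := by linear_combination -h01
  have hd := det_eq x
  rw [hg, hα] at hd
  have h2 : (x.1 0 0 - 1) * (x.1 0 0 + 1) = 0 := by linear_combination hd
  rcases mul_eq_zero.1 h2 with h3 | h3
  · left
    apply eq_one_of_tr Rr hRr hx
    simp only [tr, hα]
    linear_combination 2 * h3
  · right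
    apply eq_mO_of_tr Rr hRr hp hx
    simp only [tr, hα]
    linear_combination 2 * h3

/-- The conjugate by `T` is not `-x`. -/
theorem conj_ne_neg (hp : p ≠ 2) (x : SL) : tT * x * tT⁻¹ ≠ mO * x := by
  intro h
  rw [conj_tT] at h
  have h00 : (⟨!![x.1 0 0 + x.1 1 0, x.1 0 1 + x.1 1 1 - x.1 0 0 - x.1 1 0; x.1 1 0, x.1 1 1 - x.1 1 0], by
      have hd := det_eq x
      rw [Matrix.det_fin_two]
      simp only [Matrix.of_apply, Matrix.cons_val', Matrix.cons_val_zero, Matrix.cons_val_one,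
        Matrix.empty_val', Matrix.cons_val_fin_one]
      linear_combination hd⟩ : SL).1 = (mO * x).1 := congrArg Subtype.val h
  have h1 := congrFun (congrFun h00 0) 0
  have h2 := congrFun (congrFun h00 1) 0
  have h3 := congrFun (congrFun h00 1) 1
  simp only [mul00, mul10, mul11, mO00, mO01, mO10, mO11, Matrix.of_apply, Matrix.cons_val',
    Matrix.cons_val_zero, Matrix.cons_val_one, Matrix.empty_val', Matrix.cons_val_fin_one] at h1 h2 h3
  have h2ne := two_ne (F := F) hp
  have hg : x.1 1 0 = 0 := by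
    have : 2 * x.1 1 0 = 0 := by linear_combination h2
    exact (mul_eq_zero.1 this).resolve_left h2ne
  have hα : x.1 0 0 = 0 := by
    have : 2 * x.1 0 0 = 0 := by
      rw [hg] at h1
      linear_combination h1
    exact (mul_eq_zero.1 this).resolve_left h2ne
  have hd := det_eq x
  rw [hg, hα] at hd
  simp at hd

/-- `a` acts fixed point freely modulo `±1`. -/
theorem exists_rep (Rr : Subgroup SL) (hRr : (Nat.card Rr).Coprime p) (hp : p ≠ 2)
    (hT : ∀ r ∈ Rr, tT * r * tT⁻¹ ∈ Rr) (r : SL) (hr : r ∈ Rr) :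
    ∃ s ∈ Rr, r = s⁻¹ * tT * s * tT⁻¹ ∨ r = mO * (s⁻¹ * tT * s * tT⁻¹) := by
  classical
  haveI : Finite SL := by
    unfold Matrix.SpecialLinearGroup
    infer_instance
  let σ : Rr →* Rr :=
    { toFun := fun x => ⟨(tT : SL) * (x : SL) * (tT : SL)⁻¹, hT x x.2⟩
      map_one' := by
        apply Subtype.ext
        simp
      map_mul' := by
        intro x y
        apply Subtype.ext
        simp only [Subgroup.coe_mul]
        group }
  have hσ : ∀ x : Rr, (σ x : SL) = (tT : SL) * (x : SL) * (tT : SL)⁻¹ := fun x => rfl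
  let Z : Subgroup Rr :=
    { carrier := {z | (z : SL) = 1 ∨ (z : SL) = mO}
      one_mem' := Or.inl rfl
      mul_mem' := by
        rintro a b (ha | ha) (hb | hb)
        · left; simp [ha, hb]
        · right; simp [ha, hb]
        · right; simp [ha, hb]
        · left; simp [ha, hb, mO_mul_mO]
      inv_mem' := by
        rintro a (ha | ha)
        · left; simp [ha]
        · right
          have : (mO : SL)⁻¹ = mO := by
            rw [inv_eq_iff_mul_eq_one, mO_mul_mO]
          simp [ha, this] }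
  have hZmem : ∀ z : Rr, z ∈ Z ↔ ((z : SL) = 1 ∨ (z : SL) = mO) := fun z => Iff.rfl
  haveI hZn : Z.Normal := by
    constructor
    intro n hn g
    rw [hZmem] at hn ⊢
    rcases hn with hn | hn
    · left; simp [hn]
    · right
      simp only [Subgroup.coe_mul, Subgroup.coe_inv, hn]
      rw [← mO_central]
      simp
  have hZσ : Z ≤ Z.comap σ := by
    intro z hz
    rw [Subgroup.mem_comap, hZmem, hσ]
    rw [hZmem] at hz
    rcases hz with hz | hz
    · left; simp [hz]
    · right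
      rw [hz, ← mO_central]
      simp
  let σb : Rr ⧸ Z →* Rr ⧸ Z := QuotientGroup.map Z Z σ hZσ
  have hσb : ∀ x : Rr, σb (QuotientGroup.mk x) = QuotientGroup.mk (σ x) := fun x => rfl
  have hfix : ∀ u : Rr ⧸ Z, σb u = u → u = 1 := by
    intro u hu
    obtain ⟨w, rfl⟩ := QuotientGroup.mk_surjective u
    rw [hσb] at hu
    have h1 : (σ w)⁻¹ * w ∈ Z := QuotientGroup.eq.1 hu
    rw [hZmem] at h1
    rw [QuotientGroup.eq_one_iff, hZmem]
    have hc : (w : SL) * (tT : SL) = (tT : SL) * (w : SL) := by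
      rcases h1 with h1 | h1
      · simp only [Subgroup.coe_mul, Subgroup.coe_inv, hσ] at h1
        have h2 : (w : SL) = (tT : SL) * (w : SL) * (tT : SL)⁻¹ := by
          rw [inv_mul_eq_one] at h1
          exact h1.symm
        calc (w : SL) * (tT : SL) = ((tT : SL) * (w : SL) * (tT : SL)⁻¹) * (tT : SL) := by rw [← h2]
          _ = (tT : SL) * (w : SL) := by group
      · exfalso
        simp only [Subgroup.coe_mul, Subgroup.coe_inv, hσ] at h1
        apply conj_ne_neg (F := F) hp (w : SL)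
        have h2 : (w : SL) = (tT : SL) * (w : SL) * (tT : SL)⁻¹ * mO := by
          rw [← h1]
          group
        have h3 : (tT : SL) * (w : SL) * (tT : SL)⁻¹ = mO * (w : SL) := by
          calc (tT : SL) * (w : SL) * (tT : SL)⁻¹
              = (tT : SL) * (w : SL) * (tT : SL)⁻¹ * (mO * mO) := by rw [mO_mul_mO, mul_one]
            _ = mO * ((tT : SL) * (w : SL) * (tT : SL)⁻¹ * mO) := by
                rw [mO_central ((tT : SL) * (w : SL) * (tT : SL)⁻¹ * mO)]
                simp only [mul_assoc]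
            _ = mO * (w : SL) := by rw [← h2]
        exact h3
    exact comm_tT Rr hRr hp w.2 hc
  let f : Rr ⧸ Z → Rr ⧸ Z := fun u => u⁻¹ * σb u
  have hfinj : Function.Injective f := by
    intro u v huv
    have h1 : σb (v * u⁻¹) = v * u⁻¹ := by
      have h2 : σb v = v * (u⁻¹ * σb u) := by
        have : v⁻¹ * σb v = u⁻¹ * σb u := huv.symm
        rw [← this]
        group
      rw [map_mul, map_inv, h2]
      group
    have h3 := hfix _ h1
    have h4 : v = u := by
      rwa [mul_inv_eq_one] at h3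
    exact h4.symm
  have hfsurj : Function.Surjective f := Finite.injective_iff_surjective.1 hfinj
  obtain ⟨u, hu⟩ := hfsurj (QuotientGroup.mk ⟨r, hr⟩)
  obtain ⟨s, rfl⟩ := QuotientGroup.mk_surjective u
  have hu' : (QuotientGroup.mk (s⁻¹ * σ s) : Rr ⧸ Z) = QuotientGroup.mk ⟨r, hr⟩ := hu
  have h5 : (s⁻¹ * σ s)⁻¹ * ⟨r, hr⟩ ∈ Z := QuotientGroup.eq.1 hu'
  rw [hZmem] at h5
  simp only [Subgroup.coe_mul, Subgroup.coe_inv, hσ] at h5
  refine ⟨s, s.2, ?_⟩
  have e : (s : SL)⁻¹ * (tT : SL) * (s : SL) * (tT : SL)⁻¹ = (s : SL)⁻¹ * ((tT : SL) * (s : SL) * (tT : SL)⁻¹) := by group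
  rw [e]
  rcases h5 with h5 | h5
  · left
    exact (inv_mul_eq_one.1 h5).symm
  · right
    have h6 : r = ((s : SL)⁻¹ * ((tT : SL) * (s : SL) * (tT : SL)⁻¹)) * mO := by
      rw [← h5]
      group
    rw [h6, mO_central]

/-- The trace dichotomy. -/
theorem tr_mul_tT_cases (Rr : Subgroup SL) (hRr : (Nat.card Rr).Coprime p) (hp : p ≠ 2)
    (hT : ∀ r ∈ Rr, tT * r * tT⁻¹ ∈ Rr) (r : SL) (hr : r ∈ Rr) :
    tr r + r.1 1 0 = 2 ∨ tr r + r.1 1 0 = -2 := by
  rw [← tr_mul_tT]
  obtain ⟨s, hs, h | h⟩ := exists_rep Rr hRr hp hT r hr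
  · left
    have e : r * tT = s⁻¹ * tT * s := by
      rw [h]
      group
    rw [e, tr_conj, tr_tT]
  · right
    have e : r * tT = mO * (s⁻¹ * tT * s) := by
      rw [h]
      group
    rw [e, tr_mO_mul, tr_conj, tr_tT]

theorem tr_cases (Rr : Subgroup SL) (hRr : (Nat.card Rr).Coprime p) (hp : p ≠ 2)
    (hT : ∀ r ∈ Rr, tT * r * tT⁻¹ ∈ Rr) (r : SL) (hr : r ∈ Rr) :
    r = 1 ∨ r = mO ∨ tr r = 0 := by
  have h1 := tr_mul_tT_cases Rr hRr hp hT r hr
  have h2 := tr_mul_tT_cases Rr hRr hp hT r⁻¹ (inv_mem hr)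
  rw [tr_inv, inv10] at h2
  have h2ne := two_ne (F := F) hp
  rcases h1 with h1 | h1 <;> rcases h2 with h2 | h2
  · left
    apply eq_one_of_tr Rr hRr hr
    have : 2 * (tr r - 2) = 0 := by linear_combination h1 + h2
    have h6 := (mul_eq_zero.1 this).resolve_left h2ne
    linear_combination h6
  · right; right
    have : 2 * tr r = 0 := by linear_combination h1 + h2
    exact (mul_eq_zero.1 this).resolve_left h2ne
  · right; right
    have : 2 * tr r = 0 := by linear_combination h1 + h2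
    exact (mul_eq_zero.1 this).resolve_left h2ne
  · right; left
    apply eq_mO_of_tr Rr hRr hp hr
    have : 2 * (tr r + 2) = 0 := by linear_combination h1 + h2
    have h6 := (mul_eq_zero.1 this).resolve_left h2ne
    linear_combination h6

theorem inv_of_sq {r : SL} (h : r * r = mO) : r⁻¹ = mO * r := by
  rw [inv_eq_iff_mul_eq_one]
  rw [mO_central, ← mul_assoc, h, mO_mul_mO]

/-- Anticommutation. -/
theorem anti (Rr : Subgroup SL) (hRr : (Nat.card Rr).Coprime p) (hp : p ≠ 2)
    (hT : ∀ r ∈ Rr, tT * r * tT⁻¹ ∈ Rr) {r s : SL} (hr : r ∈ Rr) (hs : s ∈ Rr)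
    (hr0 : tr r = 0) (hs0 : tr s = 0) (h1 : r ≠ s) (h2 : r ≠ mO * s) :
    tr (r * s) = 0 ∧ r * s = mO * (s * r) := by
  have hr2 := sq_of_tr_zero hr0
  have hs2 := sq_of_tr_zero hs0
  have hri := inv_of_sq hr2
  have hsi := inv_of_sq hs2
  have h0 : tr (r * s) = 0 := by
    rcases tr_cases Rr hRr hp hT (r * s) (mul_mem hr hs) with h | h | h
    · exfalso
      have e : s = r⁻¹ := eq_inv_of_mul_eq_one_right h
      apply h2
      rw [e, hri, ← mul_assoc, mO_mul_mO, one_mul]
    · exfalso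
      have e : s = r⁻¹ * mO := by
        rw [← h]
        group
      apply h1
      rw [e, hri, mul_assoc, ← mO_central, ← mul_assoc, mO_mul_mO, one_mul]
    · exact h
  refine ⟨h0, ?_⟩
  have h3 := sq_of_tr_zero h0
  have h4 := inv_of_sq h3
  have h5 : r * s = mO * (r * s)⁻¹ := by
    rw [h4, ← mul_assoc, mO_mul_mO, one_mul]
  rw [h5, _root_.mul_inv_rev, hri, hsi]
  congr 1
  rw [mul_assoc mO s, ← mul_assoc s, ← mO_central s, mul_assoc mO s, ← mul_assoc mO, mO_mul_mO, one_mul]

theorem conj00 (x : SL) : ((tT : SL) * x * (tT : SL)⁻¹).1 0 0 = x.1 0 0 + x.1 1 0 := by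
  simp [mul00, mul10, inv00, inv10]

theorem conj10 (x : SL) : ((tT : SL) * x * (tT : SL)⁻¹).1 1 0 = x.1 1 0 := by
  simp [mul00, mul10, inv00, inv10]

theorem tr_conj' (x g : SL) : tr (g * x * g⁻¹) = tr x := by
  have := tr_conj x g⁻¹
  rwa [inv_inv] at this

theorem tr_one_ne (hp : p ≠ 2) : tr (1 : SL) ≠ 0 := by
  simp only [tr, one00, one11]
  intro h
  apply two_ne (F := F) hp
  linear_combination h

theorem tr_mO_ne (hp : p ≠ 2) : tr (mO : SL) ≠ 0 := by
  simp only [tr, mO00, mO11]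
  intro h
  apply two_ne (F := F) hp
  linear_combination -h

/-- The data of the quaternion group. -/
theorem exists_data (Rr : Subgroup SL) (hRr : (Nat.card Rr).Coprime p) (hp : p ≠ 2)
    (hT : ∀ r ∈ Rr, tT * r * tT⁻¹ ∈ Rr) (hnt : ∃ r ∈ Rr, r * tT ≠ tT * r) :
    ∃ i j : SL, i ∈ Rr ∧ j ∈ Rr ∧ tr i = 0 ∧ tr j = 0 ∧ j = tT * i * tT⁻¹ ∧ i * j = mO * (j * i) ∧
      ∀ r ∈ Rr, r = 1 ∨ r = mO ∨ r = i ∨ r = mO * i ∨ r = j ∨ r = mO * j ∨ r = i * j ∨ r = mO * (i * j) := by
  obtain ⟨i, hi, hiT⟩ := hnt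
  have hi0 : tr i = 0 := by
    rcases tr_cases Rr hRr hp hT i hi with h | h | h
    · exfalso; apply hiT; rw [h]; group
    · exfalso; apply hiT; rw [h]; exact mO_central (tT : SL)
    · exact h
  set j : SL := tT * i * tT⁻¹ with hj
  have hjR : j ∈ Rr := hT i hi
  have hj0 : tr j = 0 := by rw [hj, tr_conj', hi0]
  have hij : i ≠ j := by
    intro h
    apply hiT
    calc i * tT = (tT * i * tT⁻¹) * tT := by rw [← hj, ← h]
      _ = tT * i := by group
  have hij' : i ≠ mO * j := by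
    intro h
    apply conj_ne_neg (F := F) hp i
    rw [← hj, h, ← mul_assoc, mO_mul_mO, one_mul]
  obtain ⟨hk0, hcomm⟩ := anti Rr hRr hp hT hi hjR hi0 hj0 hij hij'
  refine ⟨i, j, hi, hjR, hi0, hj0, rfl, hcomm, ?_⟩
  intro r hr
  by_contra hno
  push Not at hno
  obtain ⟨h1, h2, h3, h4, h5, h6, h7, h8⟩ := hno
  have hr0 : tr r = 0 := (tr_cases Rr hRr hp hT r hr).resolve_left h1 |>.resolve_left h2
  have ha1 := (anti Rr hRr hp hT hr hi hr0 hi0 h3 h4).2
  have ha2 := (anti Rr hRr hp hT hr hjR hr0 hj0 h5 h6).2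
  have ha3 := (anti Rr hRr hp hT hr (mul_mem hi hjR) hr0 hk0 h7 h8).2
  have h9 : r * (i * j) = (i * j) * r := by
    calc r * (i * j) = (r * i) * j := by group
      _ = mO * (i * r) * j := by rw [ha1]
      _ = mO * i * (r * j) := by group
      _ = mO * i * (mO * (j * r)) := by rw [ha2]
      _ = (mO * mO) * (i * (j * r)) := by
          have e1 : mO * i * (mO * (j * r)) = (mO * i * mO) * (j * r) := by simp only [mul_assoc]
          rw [e1, mul_assoc mO i mO, ← mO_central i, ← mul_assoc, mO_mul_mO, one_mul]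
          simp only [mul_assoc, one_mul]
          rw [← mul_assoc mO, mO_mul_mO, one_mul]
      _ = (i * j) * r := by rw [mO_mul_mO, one_mul]; simp only [mul_assoc]
  rw [h9] at ha3
  have h10 : (mO : SL) = 1 := by
    have h11 : (i * j) * r = mO * ((i * j) * r) := ha3
    have h12 := mul_right_cancel (a := (1 : SL)) (b := (i * j) * r) (c := mO) (by rw [one_mul]; exact h11)
    exact h12.symm
  exact mO_ne_one hp h10

/-- The characteristic is three. -/
theorem char_three (Rr : Subgroup SL) (hRr : (Nat.card Rr).Coprime p) (hp : p ≠ 2)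
    (hT : ∀ r ∈ Rr, tT * r * tT⁻¹ ∈ Rr) {i j : SL} (hi : i ∈ Rr) (hj : j ∈ Rr)
    (hi0 : tr i = 0) (hj0 : tr j = 0) (hji : j = tT * i * tT⁻¹) (hc : i * j = mO * (j * i))
    (hall : ∀ r ∈ Rr, r = 1 ∨ r = mO ∨ r = i ∨ r = mO * i ∨ r = j ∨ r = mO * j ∨ r = i * j ∨ r = mO * (i * j)) :
    p = 3 := by
  have h2ne := two_ne (F := F) hp
  set γ : F := i.1 1 0 with hγ
  have hγ1 : γ ≠ 0 := by
    intro h0
    have := tr_mul_tT_cases Rr hRr hp hT i hi
    rw [hi0, ← hγ, h0] at this
    rcases this with h | h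
    · apply h2ne; linear_combination -h
    · apply h2ne; linear_combination h
  have hj00 : j.1 0 0 = i.1 0 0 + γ := by rw [hji, conj00]
  have hj10 : j.1 1 0 = γ := by rw [hji, conj10]
  set l : SL := tT * j * tT⁻¹ with hl
  have hlR : l ∈ Rr := hT j hj
  have hl0 : tr l = 0 := by rw [hl, tr_conj', hj0]
  have hl00 : l.1 0 0 = i.1 0 0 + 2 * γ := by rw [hl, conj00, hj00, hj10]; ring
  have hl10 : l.1 1 0 = γ := by rw [hl, conj10, hj10]
  have hlj : l ≠ j := by
    intro h
    have h1 : l.1 0 0 = j.1 0 0 := by rw [h]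
    rw [hl00, hj00] at h1
    apply hγ1
    linear_combination h1
  have hlj' : l ≠ mO * j := fun h => conj_ne_neg (F := F) hp j h
  have hji' : j * i = mO * (i * j) := by
    rw [hc, ← mul_assoc, mO_mul_mO, one_mul]
  have hjj : j * j = mO := sq_of_tr_zero hj0
  have hjij : j * (i * j) = i := by
    rw [← mul_assoc, hji', mul_assoc, mul_assoc, hjj, ← mO_central i, ← mul_assoc, mO_mul_mO, one_mul]
  have hm : ∀ ε : SL, (ε = 1 ∨ ε = mO) → l = ε * (i * j) → tT * l * tT⁻¹ = i := by
    intro ε hε hle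
    have hconj : (tT : SL) * (ε * (i * j)) * (tT : SL)⁻¹ = ε * (j * l) := by
      have e1 : (tT : SL) * ε * (tT : SL)⁻¹ = ε := by
        rcases hε with rfl | rfl
        · group
        · rw [← mO_central]
          group
      calc (tT : SL) * (ε * (i * j)) * (tT : SL)⁻¹
          = ((tT : SL) * ε * (tT : SL)⁻¹) * (((tT : SL) * i * (tT : SL)⁻¹) * ((tT : SL) * j * (tT : SL)⁻¹)) := by group
        _ = ε * (j * l) := by rw [e1, ← hji, ← hl]
    rw [hle, hconj, hle]
    have hε2 : ε * ε = 1 := by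
      rcases hε with rfl | rfl
      · simp
      · exact mO_mul_mO
    have hεc : j * ε = ε * j := by
      rcases hε with rfl | rfl
      · simp
      · exact (mO_central j).symm
    calc ε * (j * (ε * (i * j))) = ε * ((j * ε) * (i * j)) := by simp only [mul_assoc]
      _ = ε * ((ε * j) * (i * j)) := by rw [hεc]
      _ = (ε * ε) * (j * (i * j)) := by simp only [mul_assoc]
      _ = i := by rw [hε2, one_mul, hjij]
  have h3 : (3 : F) = 0 := by
    have hfin : ∀ ε : SL, (ε = 1 ∨ ε = mO) → l = ε * (i * j) → (3 : F) = 0 := by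
      intro ε hε hle
      have hm' := hm ε hε hle
      have h1 : ((tT : SL) * l * (tT : SL)⁻¹).1 0 0 = i.1 0 0 := by rw [hm']
      rw [conj00, hl00, hl10] at h1
      have h4 : 3 * γ = 0 := by linear_combination h1
      exact (mul_eq_zero.1 h4).resolve_right hγ1
    rcases hall l hlR with h | h | h | h | h | h | h | h
    · exact absurd (h ▸ hl0) (tr_one_ne hp)
    · exact absurd (h ▸ hl0) (tr_mO_ne hp)
    · exfalso
      have h1 : l.1 0 0 = i.1 0 0 := by rw [h]
      rw [hl00] at h1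
      have h4 : 2 * γ = 0 := by linear_combination h1
      exact hγ1 ((mul_eq_zero.1 h4).resolve_left h2ne)
    · exfalso
      have h1 : l.1 1 0 = (mO * i).1 1 0 := by rw [h]
      rw [hl10, mul10] at h1
      simp only [mO10, mO11] at h1
      have h4 : 2 * γ = 0 := by rw [hγ] at h1 ⊢; linear_combination h1
      exact hγ1 ((mul_eq_zero.1 h4).resolve_left h2ne)
    · exact absurd h hlj
    · exact absurd h hlj'
    · exact hfin 1 (Or.inl rfl) (by rw [one_mul]; exact h)
    · exact hfin mO (Or.inr rfl) h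
  have h4 : ((3 : ℕ) : F) = 0 := by exact_mod_cast h3
  rw [CharP.cast_eq_zero_iff F p 3] at h4
  exact (Nat.prime_dvd_prime_iff_eq hpp.out Nat.prime_three).1 h4

/-- The quaternion group. -/
theorem quat (Rr : Subgroup SL) (hp : p ≠ 2) {i j : SL} (hi : i ∈ Rr) (hj : j ∈ Rr)
    (hi0 : tr i = 0) (hj0 : tr j = 0) (hc : i * j = mO * (j * i))
    (hall : ∀ r ∈ Rr, r = 1 ∨ r = mO ∨ r = i ∨ r = mO * i ∨ r = j ∨ r = mO * j ∨ r = i * j ∨ r = mO * (i * j)) :
    Nat.card Rr = 8 ∧ Nonempty (QuaternionGroup 2 ≃* Rr) := by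
  classical
  haveI : Finite SL := by
    unfold Matrix.SpecialLinearGroup
    infer_instance
  haveI : Fact (Nat.Prime 2) := ⟨Nat.prime_two⟩
  have hii : i * i = mO := sq_of_tr_zero hi0
  have hjj : j * j = mO := sq_of_tr_zero hj0
  have hmne : (mO : SL) ≠ 1 := mO_ne_one hp
  let a : Rr := ⟨i, hi⟩
  let y : Rr := ⟨j, hj⟩
  have ha : orderOf a = 2 * 2 := by
    have h1 : orderOf a = 2 ^ (1 + 1) := by
      apply orderOf_eq_prime_pow
      · intro h
        have h2 : (a ^ 2 ^ 1 : Rr).1 = 1 := by rw [h]; rfl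
        apply hmne
        rw [← hii, ← h2]
        simp [a, pow_two]
      · apply Subtype.ext
        show (i : SL) ^ 2 ^ (1 + 1) = 1
        have : (i : SL) ^ 2 ^ (1 + 1) = (i * i) * (i * i) := by
          norm_num
          simp only [pow_succ, pow_zero, one_mul, mul_assoc]
        rw [this, hii, mO_mul_mO]
    rw [h1]
    norm_num
  have hy2 : y ^ 2 = a ^ 2 := by
    apply Subtype.ext
    show (j : SL) ^ 2 = (i : SL) ^ 2
    rw [pow_two, pow_two, hii, hjj]
  have hji' : j * i = mO * (i * j) := by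
    rw [hc, ← mul_assoc, mO_mul_mO, one_mul]
  have hconj : y * a * y⁻¹ = a⁻¹ := by
    apply Subtype.ext
    show (j : SL) * i * j⁻¹ = i⁻¹
    rw [hji', inv_of_sq hii, mul_assoc, mul_assoc, mul_inv_cancel, mul_one]
  have hy : y ∉ zpowers a := by
    intro h
    obtain ⟨k, hk⟩ := Subgroup.mem_zpowers_iff.1 h
    have h1 : a * y = y * a := by
      rw [← hk]
      exact (Commute.zpow_right (Commute.refl a) k).eq
    have h2 : i * j = j * i := congrArg Subtype.val h1
    rw [hc] at h2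
    apply hmne
    have h3 : (1 : SL) * (j * i) = mO * (j * i) := by rw [one_mul]; exact h2.symm
    exact (mul_right_cancel h3).symm
  have hcard : Nat.card Rr = 4 * 2 := by
    have hle : Nat.card Rr ≤ 8 := by
      let S : Finset SL := {1, mO, i, mO * i, j, mO * j, i * j, mO * (i * j)}
      have hS : S.card ≤ 8 :=
        (Finset.card_insert_le _ _).trans (Nat.succ_le_succ ((Finset.card_insert_le _ _).trans
          (Nat.succ_le_succ Finset.card_le_six)))
      have hinj : Function.Injective (fun r : Rr => (⟨r.1, by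
          have := hall r.1 r.2
          simp only [S, Finset.mem_insert, Finset.mem_singleton]
          exact this⟩ : S)) := by
        intro u v h
        exact Subtype.ext (congrArg (fun w : S => w.1) h)
      have := Nat.card_le_card_of_injective _ hinj
      rw [Nat.card_eq_fintype_card (α := S), Fintype.card_coe] at this
      exact this.trans hS
    have hdvd : 4 ∣ Nat.card Rr := by
      have := orderOf_dvd_natCard a
      rwa [ha] at this
    have hne : Nat.card Rr ≠ 4 := by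
      intro h
      have h1 : Nat.card (zpowers a) = 4 := by
        rw [Nat.card_zpowers, ha]
      have h2 : zpowers a = ⊤ := by
        apply Subgroup.eq_top_of_card_eq
        rw [h1, h]
      exact hy (h2 ▸ Subgroup.mem_top y)
    obtain ⟨k, hk⟩ := hdvd
    have hpos : 0 < Nat.card Rr := Nat.card_pos
    have hk1 : k = 2 := by
      have h1 : k ≠ 0 := by
        rintro rfl
        omega
      have h2 : k ≠ 1 := by
        rintro rfl
        omega
      omega
    rw [hk, hk1]
  exact ⟨hcard, Cfsg.Agent.Lib.PGroups.Presentations.nonempty_quaternion_equiv (m := 2) ha hy2 hconj hy hcard⟩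

end Main

section Three

variable {F : Type} [Field F] [Fintype F] [hpp : Fact (Nat.Prime 3)] [hch : CharP F 3]

local notation "SL" => Matrix.SpecialLinearGroup (Fin 2) F

/-- The iso with `SL₂(3)`. -/
theorem sl23 (Rr : Subgroup SL) (hRc : Nat.card Rr = 8)
    (hT : ∀ r ∈ Rr, tT * r * tT⁻¹ ∈ Rr) {i : SL} (hi : i ∈ Rr) (hi0 : tr i = 0) (hγ : i.1 1 0 = 1) :
    Nonempty (↥(Rr ⊔ zpowers (tT : SL)) ≃* Matrix.SpecialLinearGroup (Fin 2) (ZMod 3)) := by
  classical
  haveI : Finite SL := by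
    unfold Matrix.SpecialLinearGroup
    infer_instance
  set α : F := i.1 0 0 with hα
  have hi11 : i.1 1 1 = -α := by
    have : i.1 0 0 + i.1 1 1 = 0 := hi0
    rw [hα]
    linear_combination this
  have hi01 : i.1 0 1 = -1 - α ^ 2 := by
    have hd := det_eq i
    rw [hi11, hγ, ← hα] at hd
    linear_combination -hd
  let P : SL := ⟨!![1, α; 0, 1], by simp [Matrix.det_fin_two]⟩
  have hP00 : P.1 0 0 = 1 := rfl
  have hP01 : P.1 0 1 = α := rfl
  have hP10 : P.1 1 0 = 0 := rfl
  have hP11 : P.1 1 1 = 1 := rfl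
  let φ : ZMod 3 →+* F := ZMod.castHom (dvd_refl 3) F
  let m : Matrix.SpecialLinearGroup (Fin 2) (ZMod 3) →* SL := Matrix.SpecialLinearGroup.map φ
  have hm : ∀ (x : Matrix.SpecialLinearGroup (Fin 2) (ZMod 3)) (a b : Fin 2), (m x).1 a b = φ (x.1 a b) := by
    intro x a b
    rfl
  let ψ : Matrix.SpecialLinearGroup (Fin 2) (ZMod 3) →* SL := (MulAut.conj P).toMonoidHom.comp m
  have hψ : ∀ x, ψ x = P * m x * P⁻¹ := fun x => rfl
  have hψinj : Function.Injective ψ := by
    intro x y hxy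
    have h1 : m x = m y := (MulAut.conj P).injective hxy
    apply Subtype.ext
    ext a b
    have h2 : (m x).1 a b = (m y).1 a b := by rw [h1]
    rw [hm, hm] at h2
    exact φ.injective h2
  have hφ1 : φ 1 = 1 := map_one φ
  have hφ0 : φ 0 = 0 := map_zero φ
  have hφm : φ (-1) = -1 := by rw [map_neg, hφ1]
  have hT3 : ψ tT3 = tT := by
    rw [hψ]
    have e0 : (m tT3).1 0 0 = 1 := by rw [hm]; exact hφ1
    have e1 : (m tT3).1 0 1 = 1 := by rw [hm]; exact hφ1
    have e2 : (m tT3).1 1 0 = 0 := by rw [hm]; exact hφ0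
    have e3 : (m tT3).1 1 1 = 1 := by rw [hm]; exact hφ1
    apply ext2 <;> simp [mul00, mul01, mul10, mul11, inv00, inv01, inv10, inv11, hP00, hP01, hP10, hP11, e0, e1, e2, e3]
  have hS3 : ψ sS3 = i := by
    rw [hψ]
    have e0 : (m sS3).1 0 0 = 0 := by rw [hm]; exact hφ0
    have e1 : (m sS3).1 0 1 = -1 := by rw [hm]; exact hφm
    have e2 : (m sS3).1 1 0 = 1 := by rw [hm]; exact hφ1
    have e3 : (m sS3).1 1 1 = 0 := by rw [hm]; exact hφ0
    apply ext2 <;> simp [mul00, mul01, mul10, mul11, inv00, inv01, inv10, inv11, hP00, hP01, hP10, hP11, e0, e1, e2, e3, hi11, hi01, hγ, ← hα]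
    ring
  have hrange : ψ.range ≤ Rr ⊔ zpowers (tT : SL) := by
    rintro _ ⟨x, rfl⟩
    obtain ⟨a, b, c, rfl⟩ := all3 x
    rw [map_mul, map_mul, map_pow, map_pow, map_pow, hT3, hS3]
    have h1 : (tT : SL) ∈ Rr ⊔ zpowers (tT : SL) := (le_sup_right : zpowers (tT : SL) ≤ _) (mem_zpowers _)
    have h2 : i ∈ Rr ⊔ zpowers (tT : SL) := (le_sup_left : Rr ≤ _) hi
    exact mul_mem (mul_mem (pow_mem h1 _) (pow_mem h2 _)) (pow_mem h1 _)
  have hT3pow : (tT : SL) ^ 3 = 1 := by
    apply pow_eq_one_of_tr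
    exact tr_tT
  have hTne : (tT : SL) ≠ 1 := by
    intro h
    have h1 : (tT : SL).1 0 1 = (1 : SL).1 0 1 := by rw [h]
    simp at h1
  have hTord : orderOf (tT : SL) = 3 := orderOf_eq_prime hT3pow hTne
  have hZc : Nat.card (zpowers (tT : SL)) = 3 := by rw [Nat.card_zpowers, hTord]
  have hnorm : zpowers (tT : SL) ≤ normalizer (Rr : Set SL) := by
    rw [Subgroup.zpowers_le, Subgroup.mem_normalizer_iff]
    intro r
    constructor
    · exact hT r
    · intro h
      have h3 : (tT : SL) ^ 2 * (tT * r * tT⁻¹) * ((tT : SL) ^ 2)⁻¹ ∈ Rr := by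
        rw [pow_two]
        have h4 := hT _ (hT _ h)
        have e : (tT : SL) * tT * (tT * r * tT⁻¹) * (tT * tT)⁻¹ = tT * (tT * (tT * r * tT⁻¹) * tT⁻¹) * tT⁻¹ := by group
        rw [e]
        exact h4
      have e : (tT : SL) ^ 2 * (tT * r * tT⁻¹) * ((tT : SL) ^ 2)⁻¹ = (tT : SL) ^ 3 * r * ((tT : SL) ^ 3)⁻¹ := by
        simp only [pow_succ, pow_zero, one_mul]
        group
      rw [e, hT3pow] at h3
      simpa using h3
  have hcardle : Nat.card (↥(Rr ⊔ zpowers (tT : SL))) ≤ 24 := by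
    have hsurj : Function.Surjective (fun q : Rr × zpowers (tT : SL) =>
        (⟨q.1.1 * q.2.1, mul_mem ((le_sup_left : Rr ≤ _) q.1.2) ((le_sup_right : zpowers (tT : SL) ≤ _) q.2.2)⟩ :
          ↥(Rr ⊔ zpowers (tT : SL)))) := by
      rintro ⟨x, hx⟩
      obtain ⟨r, hr, z, hz, rfl⟩ := Cfsg.Agent.Lib.Coprime.Action.exists_mul_of_mem_sup hnorm hx
      exact ⟨(⟨r, hr⟩, ⟨z, hz⟩), rfl⟩
    have := Nat.card_le_card_of_surjective _ hsurj
    rw [Nat.card_prod, hRc, hZc] at this
    simpa using this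
  have hrc : Nat.card ψ.range = 24 := by
    rw [← card3]
    exact (Nat.card_congr (MonoidHom.ofInjective hψinj).toEquiv).symm
  have heq : ψ.range = Rr ⊔ zpowers (tT : SL) :=
    Subgroup.eq_of_le_of_card_ge hrange (by rw [hrc]; exact hcardle)
  exact ⟨(MulEquiv.subgroupCongr heq.symm).trans (MonoidHom.ofInjective hψinj).symm⟩

end Three

section Conj

variable {F : Type} [Field F] [Fintype F] {p : ℕ} [hpp : Fact p.Prime] [hch : CharP F p]

local notation "SL" => Matrix.SpecialLinearGroup (Fin 2) F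

/-- The theorem for the standard transvection. -/
theorem main_T (Rr : Subgroup SL) (hRr : (Nat.card Rr).Coprime p) (hp : p ≠ 2)
    (hT : ∀ r ∈ Rr, tT * r * tT⁻¹ ∈ Rr) (hnt : ∃ r ∈ Rr, r * tT ≠ tT * r) :
    p = 3 ∧ Nonempty (QuaternionGroup 2 ≃* Rr) ∧
      Nonempty (↥(Rr ⊔ zpowers (tT : SL)) ≃* Matrix.SpecialLinearGroup (Fin 2) (ZMod 3)) := by
  obtain ⟨i, j, hi, hj, hi0, hj0, hji, hc, hall⟩ := exists_data Rr hRr hp hT hnt
  have hp3 := char_three Rr hRr hp hT hi hj hi0 hj0 hji hc hall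
  obtain ⟨hcard, hq⟩ := quat Rr hp hi hj hi0 hj0 hc hall
  refine ⟨hp3, hq, ?_⟩
  subst hp3
  have hcases := tr_mul_tT_cases Rr hRr hp hT i hi
  rw [hi0, zero_add] at hcases
  have h30 : (3 : F) = 0 := by
    have h4 : ((3 : ℕ) : F) = 0 := (CharP.cast_eq_zero_iff F 3 3).2 dvd_rfl
    exact_mod_cast h4
  rcases hcases with h | h
  · -- `γ = 2 = -1`
    have hi1 : mO * i ∈ Rr := by
      refine mul_mem ?_ hi
      rw [← sq_of_tr_zero hi0]
      exact mul_mem hi hi
    refine sl23 Rr hcard hT hi1 ?_ ?_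
    · rw [tr_mO_mul, hi0, neg_zero]
    · rw [mul10]
      simp only [mO10, mO11, h]
      linear_combination -h30
  · -- `γ = -2 = 1`
    refine sl23 Rr hcard hT hi hi0 ?_
    rw [h]
    linear_combination -h30

/-- Unipotent normal form. -/
theorem exists_normal_form (a : SL) (ha1 : a ≠ 1) (ha : IsPGroup p ↥(Subgroup.zpowers a)) :
    ∃ c : SL →* SL, Function.Injective c ∧ c a = tT := by
  classical
  haveI : Finite SL := by
    unfold Matrix.SpecialLinearGroup
    infer_instance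
  -- the trace of `a` is two
  set t : F := tr a with ht
  set M : Matrix (Fin 2) (Fin 2) F := a.1 - 1 with hM
  have hd := det_eq a
  have hMM : M * M = (t - 2) • a.1 := by
    have ht' : t = a.1 0 0 + a.1 1 1 := rfl
    ext i j
    fin_cases i <;> fin_cases j <;>
      simp [hM, Matrix.mul_apply, Fin.sum_univ_two, Matrix.sub_apply, Matrix.one_apply, ht']
    · linear_combination -hd
    · ring
    · ring
    · linear_combination -hd
  obtain ⟨k, hk⟩ : ∃ k, a ^ p ^ k = 1 := by
    obtain ⟨k, hk⟩ := ha ⟨a, mem_zpowers a⟩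
    exact ⟨k, congrArg Subtype.val hk⟩
  have hMpow : M ^ p ^ k = 0 := by
    have hcomm : Commute a.1 (1 : Matrix (Fin 2) (Fin 2) F) := Commute.one_right _
    rw [hM, sub_pow_char_pow_of_commute p k hcomm, one_pow]
    have h1 : a.1 ^ p ^ k = 1 := by
      rw [← Matrix.SpecialLinearGroup.coe_pow, hk]
      rfl
    rw [h1, sub_self]
  have hdetM : M.det = 0 := by
    have h1 := congrArg Matrix.det hMpow
    rw [Matrix.det_pow, Matrix.det_zero] at h1
    exact pow_eq_zero_iff (pow_ne_zero _ (hpp.out.ne_zero)) |>.1 h1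
  have ht2 : t = 2 := by
    have h1 := congrArg Matrix.det hMM
    rw [Matrix.det_mul, hdetM, mul_zero, Matrix.smul_eq_diagonal_mul, Matrix.det_mul, a.2, mul_one,
      Matrix.det_diagonal] at h1
    simp only [Fin.prod_univ_two] at h1
    have h2 : t - 2 = 0 := by
      have := h1.symm
      rcases mul_eq_zero.1 this with h | h <;> exact h
    linear_combination h2
  have h11 : a.1 1 1 = 2 - a.1 0 0 := by
    have : a.1 0 0 + a.1 1 1 = 2 := ht2
    linear_combination this
  rw [h11] at hd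
  set n : F := a.1 0 0 - 1 with hn
  have hn2 : n ^ 2 + a.1 0 1 * a.1 1 0 = 0 := by
    rw [hn]
    linear_combination -hd
  -- the conjugating matrix
  have key : ∃ Q : Matrix (Fin 2) (Fin 2) F, Q.det ≠ 0 ∧ a.1 * Q = Q * (tT : SL).1 := by
    by_cases hb : a.1 0 1 = 0
    · have hn0 : n = 0 := by
        rw [hb, zero_mul, add_zero] at hn2
        exact pow_eq_zero_iff (two_ne_zero) |>.1 hn2
      have hγ : a.1 1 0 ≠ 0 := by
        intro hγ
        apply ha1
        apply ext2
        · rw [one00]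
          linear_combination hn0
        · rw [hb, one01]
        · rw [hγ, one10]
        · rw [one11, h11]
          linear_combination -hn0
      refine ⟨!![0, 1; a.1 1 0, 0], ?_, ?_⟩
      · rw [Matrix.det_fin_two]
        simp [hγ]
      · ext i j
        have h00 : a.1 0 0 = 1 := by linear_combination hn0
        fin_cases i <;> fin_cases j <;>
          simp [Matrix.mul_apply, Fin.sum_univ_two, tT, hb, h11, h00]
        · ring
    · refine ⟨!![a.1 0 1, 0; -n, 1], ?_, ?_⟩
      · rw [Matrix.det_fin_two]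
        simp [hb]
      · ext i j
        fin_cases i <;> fin_cases j <;>
          simp [Matrix.mul_apply, Fin.sum_univ_two, tT, h11]
        · rw [hn]; ring
        · linear_combination hn2 - n * hn
        · linear_combination hn
  obtain ⟨Q, hQ, hQa⟩ := key
  have hQu : IsUnit Q.det := isUnit_iff_ne_zero.2 hQ
  have hQi1 : Q⁻¹ * Q = 1 := Matrix.nonsing_inv_mul Q hQu
  have hQi2 : Q * Q⁻¹ = 1 := Matrix.mul_nonsing_inv Q hQu
  let c : SL →* SL :=
    { toFun := fun x => ⟨Q⁻¹ * x.1 * Q, by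
        rw [Matrix.det_mul, Matrix.det_mul, x.2, mul_one, ← Matrix.det_mul, hQi1, Matrix.det_one]⟩
      map_one' := by
        apply Subtype.ext
        show Q⁻¹ * (1 : SL).1 * Q = 1
        rw [Matrix.SpecialLinearGroup.coe_one, mul_one, hQi1]
      map_mul' := by
        intro x y
        apply Subtype.ext
        show Q⁻¹ * (x * y).1 * Q = (Q⁻¹ * x.1 * Q) * (Q⁻¹ * y.1 * Q)
        rw [Matrix.SpecialLinearGroup.coe_mul]
        calc Q⁻¹ * (x.1 * y.1) * Q = Q⁻¹ * x.1 * (Q * Q⁻¹) * y.1 * Q := by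
              rw [hQi2, mul_one]; simp only [mul_assoc]
          _ = (Q⁻¹ * x.1 * Q) * (Q⁻¹ * y.1 * Q) := by simp only [mul_assoc] }
  have hc : ∀ x : SL, (c x).1 = Q⁻¹ * x.1 * Q := fun x => rfl
  refine ⟨c, ?_, ?_⟩
  · intro x y hxy
    apply Subtype.ext
    have h1 : (c x).1 = (c y).1 := by rw [hxy]
    rw [hc, hc] at h1
    calc x.1 = Q * (Q⁻¹ * x.1 * Q) * Q⁻¹ := by
          simp only [← mul_assoc]
          rw [hQi2, one_mul, mul_assoc, hQi2, mul_one]
      _ = Q * (Q⁻¹ * y.1 * Q) * Q⁻¹ := by rw [h1]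
      _ = y.1 := by
          simp only [← mul_assoc]
          rw [hQi2, one_mul, mul_assoc, hQi2, mul_one]
  · apply Subtype.ext
    rw [hc, mul_assoc, hQa, ← mul_assoc, hQi1, one_mul]

end Conj

/-- Let F be a finite field of odd characteristic p and let a be a p-element of SL₂(F) normalizing a subgroup R of order prime to p with [R, a] ≠ 1. Then p = 3, R is a quaternion group of order 8, and R⟨a⟩ is isomorphic to SL₂(3). -/
theorem result (F : Type) [Field F] [Fintype F] {p : ℕ} [Fact p.Prime] [CharP F p] (hp : p ≠ 2) (a : Matrix.SpecialLinearGroup (Fin 2) F) (ha : IsPGroup p ↥(Subgroup.zpowers a)) (R : Subgroup (Matrix.SpecialLinearGroup (Fin 2) F)) (hR : (Nat.card R).Coprime p) (haR : a ∈ Subgroup.normalizer (R : Set (Matrix.SpecialLinearGroup (Fin 2) F))) (hnt : ⁅R, Subgroup.zpowers a⁆ ≠ ⊥) : p = 3 ∧ Nonempty (↥R ≃* QuaternionGroup 2) ∧ Nonempty (↥(R ⊔ Subgroup.zpowers a) ≃* Matrix.SpecialLinearGroup (Fin 2) (ZMod 3)) := by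
  classical
  have hex : ∃ r ∈ R, r * a ≠ a * r := by
    by_contra hno
    push Not at hno
    apply hnt
    rw [Subgroup.commutator_eq_bot_iff_le_centralizer]
    intro r hr
    rw [Subgroup.mem_centralizer_iff]
    intro z hz
    obtain ⟨k, rfl⟩ := Subgroup.mem_zpowers_iff.1 hz
    exact ((show Commute a r from (hno r hr).symm).zpow_left k).eq
  have ha1 : a ≠ 1 := by
    rintro rfl
    obtain ⟨r, _, hr⟩ := hex
    simp at hr
  obtain ⟨c, hcinj, hca⟩ := exists_normal_form a ha1 ha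
  set Rr := R.map c with hRr
  have hcard : Nat.card Rr = Nat.card R := Subgroup.card_map_of_injective hcinj
  have hT : ∀ r ∈ Rr, tT * r * tT⁻¹ ∈ Rr := by
    rintro _ ⟨r, hr, rfl⟩
    exact ⟨a * r * a⁻¹, (Subgroup.mem_normalizer_iff.1 haR r).1 hr, by
      rw [map_mul, map_mul, map_inv, hca]⟩
  have hnt' : ∃ r ∈ Rr, r * tT ≠ tT * r := by
    obtain ⟨r, hr, hne⟩ := hex
    refine ⟨c r, ⟨r, hr, rfl⟩, ?_⟩
    rw [← hca, ← map_mul, ← map_mul]
    exact fun h => hne (hcinj h)
  obtain ⟨h3, ⟨e1⟩, ⟨e2⟩⟩ := main_T Rr (by rw [hcard]; exact hR) hp hT hnt'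
  refine ⟨h3, ⟨(Subgroup.equivMapOfInjective R c hcinj).trans e1.symm⟩, ?_⟩
  have hmap : (R ⊔ zpowers a).map c = Rr ⊔ zpowers tT := by
    rw [Subgroup.map_sup, MonoidHom.map_zpowers, hca]
  exact ⟨(Subgroup.equivMapOfInjective _ c hcinj).trans ((MulEquiv.subgroupCongr hmap).trans e2)⟩

end Cfsg.Agent.S3740
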