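import Cfsg.Statements.S3741
import Cfsg.Agent.Lib.PGroups.Special
import Mathlib

set_option autoImplicit false
open Cfsg
open scoped commutatorElement

namespace Cfsg.Agent.S3741

variable {G : Type*} [Group G]

private lemma le_norm (A B : Subgroup G) :
    A ≤ Subgroup.normalizer ((⁅A, B⁆ : Subgroup G) : Set G) := by
  have hfw : ∀ a ∈ A, ∀ y ∈ (⁅A, B⁆ : Subgroup G), a * y * a⁻¹ ∈ (⁅A, B⁆ : Subgroup G) := by
    intro a ha y hy
    rw [Subgroup.commutator_def] at hy ⊢
    induction hy using Subgroup.closure_induction with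
    | mem x hx =>
      obtain ⟨a', ha', b, hb, rfl⟩ := hx
      have h1 : a * ⁅a', b⁆ * a⁻¹ = ⁅a * a', b⁆ * ⁅a, b⁆⁻¹ := by
        simp only [commutatorElement_def]; group
      rw [h1]
      exact Subgroup.mul_mem _ (Subgroup.subset_closure ⟨_, A.mul_mem ha ha', b, hb, rfl⟩)
        (Subgroup.inv_mem _ (Subgroup.subset_closure ⟨a, ha, b, hb, rfl⟩))
    | one => simp
    | mul x y _ _ hx hy =>
      have : a * (x * y) * a⁻¹ = (a * x * a⁻¹) * (a * y * a⁻¹) := by group
      rw [this]
      exact Subgroup.mul_mem _ hx hy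
    | inv x _ hx =>
      have : a * x⁻¹ * a⁻¹ = (a * x * a⁻¹)⁻¹ := by group
      rw [this]
      exact Subgroup.inv_mem _ hx
  intro a ha
  rw [Subgroup.mem_normalizer_iff]
  intro y
  refine ⟨fun hy => hfw a ha y hy, fun hy => ?_⟩
  have := hfw a⁻¹ (A.inv_mem ha) _ hy
  simpa [mul_assoc] using this

open Classical in
private lemma count_fiber [Finite G] {p : ℕ} [hp : Fact p.Prime] {A B Z : Subgroup G}
    (hZ : Nat.card Z = p) (hmem : ∀ a ∈ A, ∀ b ∈ B, ⁅a, b⁆ ∈ Z)
    (hcent : ∀ z ∈ Z, ∀ b ∈ B, z * b = b * z) (a : G) (ha : a ∈ A) :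
    p * Nat.card {b : B // a * (b : G) = b * a} =
      if a ∈ Subgroup.centralizer (B : Set G) then p * Nat.card B else Nat.card B := by
  classical
  let φ : B →* Z := MonoidHom.mk' (fun b => ⟨⁅a, (b : G)⁆, hmem a ha b b.2⟩) (by
    intro b₁ b₂
    apply Subtype.ext
    have h2 := hcent _ (hmem a ha b₂ b₂.2) _ (B.inv_mem b₁.2)
    simp only [Subgroup.coe_mul]
    calc ⁅a, (b₁ : G) * b₂⁆ = a * b₁ * a⁻¹ * (⁅a, (b₂ : G)⁆ * (b₁ : G)⁻¹) := by
          simp only [commutatorElement_def]; group
      _ = a * b₁ * a⁻¹ * ((b₁ : G)⁻¹ * ⁅a, (b₂ : G)⁆) := by rw [h2]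
      _ = ⁅a, (b₁ : G)⁆ * ⁅a, (b₂ : G)⁆ := by
          simp only [commutatorElement_def]; group)
  have hker : ∀ b : B, b ∈ φ.ker ↔ a * (b : G) = b * a := by
    intro b
    rw [MonoidHom.mem_ker]
    constructor
    · intro h
      have h1 : ⁅a, (b : G)⁆ = 1 := congrArg Subtype.val h
      exact commutatorElement_eq_one_iff_mul_comm.1 h1
    · intro h
      apply Subtype.ext
      exact commutatorElement_eq_one_iff_mul_comm.2 h
  have hcard : Nat.card {b : B // a * (b : G) = b * a} = Nat.card φ.ker :=
    Nat.card_congr (Equiv.subtypeEquivRight fun b => (hker b).symm)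
  rw [hcard]
  split_ifs with hc
  · have htop : φ.ker = ⊤ := by
      rw [eq_top_iff]
      intro b _
      rw [hker]
      exact (Subgroup.mem_centralizer_iff.1 hc b b.2).symm
    rw [htop]
    simp
  · have hmul := Subgroup.card_mul_index φ.ker
    rw [Subgroup.index_ker] at hmul
    haveI : Fact (Nat.card Z).Prime := by rw [hZ]; exact hp
    have hr : φ.range = ⊤ := by
      rcases φ.range.eq_bot_or_eq_top_of_prime_card with h | h
      · exfalso
        apply hc
        rw [Subgroup.mem_centralizer_iff]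
        intro b hb
        have : (⟨b, hb⟩ : B) ∈ φ.ker := by
          rw [MonoidHom.mem_ker]
          have : φ ⟨b, hb⟩ ∈ φ.range := ⟨_, rfl⟩
          rw [h] at this
          exact Subgroup.mem_bot.1 this
        exact ((hker _).1 this).symm
      · exact h
    rw [hr] at hmul
    simp only [Subgroup.card_top] at hmul
    rw [hZ] at hmul
    rw [mul_comm]
    exact hmul

private lemma count_sum [Finite G] {p : ℕ} [hp : Fact p.Prime] {A B Z : Subgroup G}
    [Fintype A] [Fintype B]
    (hZ : Nat.card Z = p) (hmem : ∀ a ∈ A, ∀ b ∈ B, ⁅a, b⁆ ∈ Z)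
    (hcent : ∀ z ∈ Z, ∀ b ∈ B, z * b = b * z) :
    ∃ c c' : ℕ, c = Nat.card ((Subgroup.centralizer (B : Set G)).subgroupOf A) ∧
      c + c' = Nat.card A ∧
      (∑ a : A, p * Nat.card {b : B // (a : G) * (b : G) = b * a}) =
        c * (p * Nat.card B) + c' * Nat.card B := by
  classical
  let C := (Subgroup.centralizer (B : Set G)).subgroupOf A
  refine ⟨(Finset.univ.filter (fun a : A => a ∈ C)).card,
    (Finset.univ.filter (fun a : A => ¬ a ∈ C)).card, ?_, ?_, ?_⟩
  · rw [Nat.card_eq_fintype_card (α := C), Fintype.card_subtype]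
  · rw [Finset.card_filter_add_card_filter_not, Nat.card_eq_fintype_card, Finset.card_univ]
  · rw [Finset.sum_congr rfl (fun (a : A) _ => count_fiber hZ hmem hcent (a : G) a.2)]
    have : ∀ a : A, (if (a : G) ∈ Subgroup.centralizer (B : Set G) then p * Nat.card B
        else Nat.card B) = if a ∈ C then p * Nat.card B else Nat.card B := by
      intro a; rfl
    simp only [this]
    rw [Finset.sum_ite, Finset.sum_const, Finset.sum_const, smul_eq_mul, smul_eq_mul]

/-- Let A and B be subgroups of a finite p-group with [A, B] ≤ A ∩ B and [A, B] of order at most p. Then |A : C_A(B)| = |B : C_B(A)|. -/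
theorem result {G : Type*} [Group G] [Finite G] {p : ℕ} [Fact p.Prime] (hG : IsPGroup p G) (A B : Subgroup G) (hAB : ⁅A, B⁆ ≤ A ⊓ B) (hcard : Nat.card ↥⁅A, B⁆ ≤ p) : (A ⊓ Subgroup.centralizer (B : Set G)).relIndex A = (B ⊓ Subgroup.centralizer (A : Set G)).relIndex B := by
  classical
  have hp : p.Prime := Fact.out
  rw [Subgroup.inf_relIndex_left, Subgroup.inf_relIndex_left]
  set Z : Subgroup G := ⁅A, B⁆ with hZdef
  obtain ⟨k, hk⟩ := IsPGroup.iff_card.1 (hG.to_subgroup Z)
  have hk1 : k ≤ 1 := by
    rw [hk] at hcard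
    exact (Nat.pow_le_pow_iff_right hp.one_lt).1 (by simpa using hcard)
  interval_cases k
  · -- trivial commutator
    have hbot : Z = ⊥ := Subgroup.eq_bot_of_card_eq _ (by simpa using hk)
    have h1 : A ≤ Subgroup.centralizer (B : Set G) :=
      Subgroup.commutator_eq_bot_iff_le_centralizer.1 hbot
    have h2 : B ≤ Subgroup.centralizer (A : Set G) := by
      have : ⁅B, A⁆ = ⊥ := by rw [Subgroup.commutator_comm]; exact hbot
      exact Subgroup.commutator_eq_bot_iff_le_centralizer.1 this
    rw [Subgroup.relIndex_eq_one.2 h1, Subgroup.relIndex_eq_one.2 h2]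
  · have hZp : Nat.card Z = p := by simpa using hk
    -- centrality of `Z`
    let H := Subgroup.normalizer (Z : Set G)
    have hAH : A ≤ H := le_norm A B
    have hBH : B ≤ H := by
      have := le_norm B A
      rwa [Subgroup.commutator_comm] at this
    have hZH : Z ≤ H := Subgroup.le_normalizer
    haveI hn : (Z.subgroupOf H).Normal := Subgroup.normal_in_normalizer
    have hcardZ' : Nat.card (Z.subgroupOf H) = p := by
      rw [Nat.card_congr (Subgroup.subgroupOfEquivOfLe hZH).toEquiv]; exact hZp
    have hc := Cfsg.Agent.Lib.PGroups.Special.le_center_of_card_eq (hG.to_subgroup H)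
      (Z.subgroupOf H) hcardZ'
    have hcentH : ∀ z ∈ Z, ∀ g ∈ H, z * g = g * z := by
      intro z hz g hg
      have h1 : (⟨z, hZH hz⟩ : H) ∈ Subgroup.center H := hc hz
      have h2 := Subgroup.mem_center_iff.1 h1 ⟨g, hg⟩
      exact (congrArg Subtype.val h2).symm
    have hmem : ∀ a ∈ A, ∀ b ∈ B, ⁅a, b⁆ ∈ Z := fun a ha b hb =>
      Subgroup.commutator_mem_commutator ha hb
    have hmem' : ∀ b ∈ B, ∀ a ∈ A, ⁅b, a⁆ ∈ Z := fun b hb a ha => by
      have := Z.inv_mem (hmem a ha b hb)
      rwa [commutatorElement_inv] at this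
    haveI := Fintype.ofFinite A
    haveI := Fintype.ofFinite B
    obtain ⟨c, c', hc1, hc2, hc3⟩ := count_sum hZp hmem (fun z hz b hb => hcentH z hz b (hBH hb))
    obtain ⟨d, d', hd1, hd2, hd3⟩ := count_sum (A := B) (B := A) hZp hmem'
      (fun z hz b hb => hcentH z hz b (hAH hb))
    have hdc : (∑ a : A, p * Nat.card {b : B // (a : G) * (b : G) = b * a}) =
        ∑ b : B, p * Nat.card {a : A // (b : G) * (a : G) = a * b} := by
      rw [← Finset.mul_sum, ← Finset.mul_sum]
      congr 1
      have h := Finset.sum_card_bipartiteAbove_eq_sum_card_bipartiteBelow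
        (s := (Finset.univ : Finset A)) (t := (Finset.univ : Finset B))
        (fun (a : A) (b : B) => (a : G) * (b : G) = b * a)
      simp only [Finset.bipartiteAbove, Finset.bipartiteBelow] at h
      simp only [Nat.card_eq_fintype_card, Fintype.card_subtype]
      rw [h]
      refine Finset.sum_congr rfl fun b _ => ?_
      congr 1
      ext a
      simp [eq_comm]
    rw [hc3, hd3] at hdc
    -- arithmetic
    have hpos : 0 < p - 1 := by have := hp.two_le; omega
    have key : c * Nat.card B = d * Nat.card A := by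
      have h1 : (c : ℤ) * (p * Nat.card B) + c' * Nat.card B =
          d * (p * Nat.card A) + d' * Nat.card A := by exact_mod_cast hdc
      have h2 : (c : ℤ) + c' = Nat.card A := by exact_mod_cast hc2
      have h3 : (d : ℤ) + d' = Nat.card B := by exact_mod_cast hd2
      have h4 : ((c : ℤ) * Nat.card B - d * Nat.card A) * ((p : ℤ) - 1) = 0 := by
        have e1 : (c' : ℤ) = Nat.card A - c := by linarith
        have e2 : (d' : ℤ) = Nat.card B - d := by linarith
        rw [e1, e2] at h1
        linear_combination h1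
      have h5 : (p : ℤ) - 1 ≠ 0 := by
        have : (2 : ℤ) ≤ p := by exact_mod_cast hp.two_le
        omega
      have h6 := (mul_eq_zero.1 h4).resolve_right h5
      have h7 : (c : ℤ) * Nat.card B = d * Nat.card A := by linarith
      exact_mod_cast h7
    have e1 : c * (Subgroup.centralizer (B : Set G)).relIndex A = Nat.card A := by
      rw [hc1]; exact Subgroup.card_mul_index _
    have e2 : d * (Subgroup.centralizer (A : Set G)).relIndex B = Nat.card B := by
      rw [hd1]; exact Subgroup.card_mul_index _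
    have hc0 : 0 < c := by
      rw [hc1]; exact Nat.card_pos
    have hd0 : 0 < d := by
      rw [hd1]; exact Nat.card_pos
    rw [← e1, ← e2] at key
    have : c * d * (Subgroup.centralizer (A : Set G)).relIndex B =
        c * d * (Subgroup.centralizer (B : Set G)).relIndex A := by
      nlinarith [key]
    exact (Nat.eq_of_mul_eq_mul_left (Nat.mul_pos hc0 hd0) this).symm

end Cfsg.Agent.S3741
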