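import Cfsg.Statements.S3746
import Cfsg.Agent.Lib.Components.Central

set_option autoImplicit false
open Cfsg

namespace Cfsg.Agent.S3746

/-- Let Z ≤ Z(G) be a central subgroup of a finite group G and E a subgroup of G containing Z whose image E/Z is a component of G/Z (subnormal and quasisimple). Then the derived subgroup [E, E] is a component of G. -/
theorem result {G : Type*} [Group G] [Finite G] (Z : Subgroup G) (hZ : Z ≤ Subgroup.center G) [Z.Normal] (E : Subgroup G) (hZE : Z ≤ E) (hE : Cfsg.IsComponent (E.map (QuotientGroup.mk' Z))) : Cfsg.IsComponent ⁅E, E⁆ := by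
  open Cfsg.Agent.Lib.Components.Central Cfsg.Agent.Lib.Components.Basic in
  have hEc : E = (E.map (QuotientGroup.mk' Z)).comap (QuotientGroup.mk' Z) := by
    rw [Subgroup.comap_map_eq, QuotientGroup.ker_mk', sup_eq_left.mpr hZE]
  have hsub : E.IsSubnormal := by
    rw [hEc]; exact hE.1.comap _
  let f : E →* (E.map (QuotientGroup.mk' Z)) := (QuotientGroup.mk' Z).subgroupMap E
  have hf : Function.Surjective f := (QuotientGroup.mk' Z).subgroupMap_surjective E
  have hker : f.ker ≤ Subgroup.center E := by
    intro x hx
    have hx' : ((x : G) : G ⧸ Z) = 1 := congrArg Subtype.val (MonoidHom.mem_ker.mp hx)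
    have hz : (x : G) ∈ Z := (QuotientGroup.eq_one_iff _).mp hx'
    rw [Subgroup.mem_center_iff]
    intro y
    apply Subtype.ext
    exact ((Subgroup.mem_center_iff.mp (hZ hz)) y)
  obtain ⟨-, h2⟩ := commutator_quasisimple_of_central_ker f hf hker hE.2
  have e : ⁅E, E⁆ = (commutator E).map E.subtype := E.map_subtype_commutator.symm
  refine ⟨?_, ?_⟩
  · have hN : (⁅E, E⁆.subgroupOf E).Normal := by
      rw [e, Subgroup.subgroupOf, Subgroup.comap_map_eq_self_of_injective E.subtype_injective]
      infer_instance
    exact Subgroup.IsSubnormal.step _ E (e.le.trans (Subgroup.map_subtype_le _)) hsub hN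
  · rw [e]
    exact (quasisimple_map_subtype_iff _).2 h2

end Cfsg.Agent.S3746
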