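import Cfsg.Statements.S3747
import Cfsg.Agent.Lib.Components.Central

set_option autoImplicit false
open Cfsg

namespace Cfsg.Agent.S3747

/-- Let G be a finite group. (a) If K is a component of G with trivial centre, then the normal closure of K in G is a minimal normal subgroup of G. (b) If the Fitting subgroup of G is trivial, then the layer E(G) is generated by the minimal normal subgroups of G. -/
theorem result {G : Type*} [Group G] [Finite G] : (∀ K : Subgroup G, Cfsg.IsComponent K → Subgroup.center ↥K = ⊥ → (Subgroup.normalClosure (K : Set G) ≠ ⊥ ∧ ∀ N : Subgroup G, N.Normal → N ≤ Subgroup.normalClosure (K : Set G) → N = ⊥ ∨ N = Subgroup.normalClosure (K : Set G))) ∧ (Cfsg.fittingSubgroup G = ⊥ → sSup {N : Subgroup G | N ≠ ⊥ ∧ N.Normal ∧ ∀ N' : Subgroup G, N'.Normal → N' ≤ N → N' = ⊥ ∨ N' = N} = Cfsg.layer G) := by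
  classical
  open Cfsg.Agent.Lib.Components.Central in
  refine ⟨fun K hK hZ => normalClosure_minimal hK hZ, fun hF => ?_⟩
  open Cfsg.Agent.Lib.Components.Central Cfsg.Agent.Lib.Components.Basic in
  apply le_antisymm
  · apply sSup_le
    rintro N ⟨hne, hN, hmin⟩
    exact Cfsg.Agent.Lib.Components.Central.minimal_normal_le_layer hF hne hN hmin
  · rw [Cfsg.layer]
    apply sSup_le
    rintro K hK
    have h1 := Cfsg.Agent.Lib.Components.Central.center_component_eq_bot_of_fitting hF hK
    have h2 := Cfsg.Agent.Lib.Components.Central.normalClosure_minimal hK h1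
    have h3 : Subgroup.normalClosure (K : Set G) ∈ {N : Subgroup G | N ≠ ⊥ ∧ N.Normal ∧ ∀ N' : Subgroup G, N'.Normal → N' ≤ N → N' = ⊥ ∨ N' = N} :=
      ⟨h2.1, Subgroup.normalClosure_normal, h2.2⟩
    exact (le_trans Subgroup.subset_normalClosure (le_sSup h3 : _ ≤ _))

end Cfsg.Agent.S3747
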