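import Cfsg.Statements.S3749
import Cfsg.Agent.Lib.Components.Primitive

set_option autoImplicit false
open Cfsg

namespace Cfsg.Agent.S3749

/-- Call a proper subgroup M of G primitive when M = N_G(N) for every non-trivial normal subgroup N of M. Let M be a primitive subgroup of the finite group G, p a prime with O_p(M) ≠ 1, and N a normal subgroup of G with M ∩ N = 1. Then p does not divide the order of N; for every prime q there is exactly one Sylow q-subgroup of N normalized by M; and if the order of N has at least two prime divisors then M is not a maximal subgroup of G. -/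
theorem result {G : Type*} [Group G] [Finite G] (M : Subgroup G) (hM : M ≠ ⊤) (hprim : ∀ N : Subgroup G, N ≤ M → M ≤ Subgroup.normalizer (N : Set G) → N ≠ ⊥ → Subgroup.normalizer (N : Set G) = M) {p : ℕ} [Fact p.Prime] (hOp : Cfsg.pCore p ↥M ≠ ⊥) (N : Subgroup G) [N.Normal] (hMN : M ⊓ N = ⊥) : ¬ p ∣ Nat.card N ∧ (∀ q : ℕ, [Fact q.Prime] → ∃! Q : Sylow q ↥N, M ≤ Subgroup.normalizer ((Q : Subgroup ↥N).map N.subtype : Set G)) ∧ ((∃ q r : ℕ, q.Prime ∧ r.Prime ∧ q ≠ r ∧ q ∣ Nat.card N ∧ r ∣ Nat.card N) → ¬ IsCoatom M) := by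
  classical
  open Subgroup Cfsg.Agent.Lib.Components.Basic Cfsg.Agent.Lib.Components.Layer
    Cfsg.Agent.Lib.Components.Central Cfsg.Agent.Lib.Components.Primitive
    Cfsg.Agent.Lib.Components.Rel Cfsg.Agent.Lib.Coprime.Action
    Cfsg.Agent.Lib.Core.Basic in
  open scoped Pointwise in
  set P : Subgroup G := (Cfsg.pCore p ↥M).map M.subtype with hPdef
  have hPp : IsPGroup p P := (pCore_isPGroup (p := p) (G := M)).map M.subtype
  have hPM : P ≤ M := Subgroup.map_subtype_le _
  have hPne : P ≠ ⊥ := by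
    intro h
    exact hOp ((Subgroup.map_eq_bot_iff_of_injective _ M.subtype_injective).1 h)
  have hMP : M ≤ Subgroup.normalizer (P : Set G) := le_normalizer_map _ inferInstance
  have hNP : Subgroup.normalizer (P : Set G) = M := hprim P hPM hMP hPne
  have hCM : Subgroup.centralizer (P : Set G) ≤ M := hNP ▸ Subgroup.centralizer_le_normalizer _
  have hPN : P ≤ Subgroup.normalizer (N : Set G) := by
    rw [Subgroup.normalizer_eq_top_iff.mpr inferInstance]; exact le_top
  -- `p` does not divide `|N|`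
  have h1 : ¬ p ∣ Nat.card N := by
    intro hdvd
    let : MulAction P N := MulAction.compHom N ((MulAut.conjNormal (H := N)).comp P.subtype)
    have hact : ∀ (x : P) (u : N), ((x • u : N) : G) = x * u * (x : G)⁻¹ := fun x u => rfl
    have hfix : (1 : N) ∈ MulAction.fixedPoints P N := by
      intro x
      apply Subtype.ext
      rw [hact]
      simp
    obtain ⟨b, hb, hne⟩ := hPp.exists_fixed_point_of_prime_dvd_card_of_fixed_point N hdvd hfix
    have hbC : (b : G) ∈ Subgroup.centralizer (P : Set G) := by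
      rw [Subgroup.mem_centralizer_iff]
      intro x hx
      have := congrArg Subtype.val (hb ⟨x, hx⟩)
      rw [hact] at this
      simp only at this
      rw [mul_inv_eq_iff_eq_mul] at this
      exact this
    have : (b : G) ∈ M ⊓ N := ⟨hCM hbC, b.2⟩
    rw [hMN, Subgroup.mem_bot] at this
    exact hne (Subtype.ext this.symm)
  have hcop : (Nat.card P).Coprime (Nat.card N) := by
    obtain ⟨k, hk⟩ := IsPGroup.iff_card.mp hPp
    rw [hk]
    exact Nat.Coprime.pow_left _ ((Nat.Prime.coprime_iff_not_dvd Fact.out).2 h1)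
  have hnil : Group.IsNilpotent P := hPp.isNilpotent
  have hsolv : Group.IsSolvable P ∨ Group.IsSolvable N := Or.inl inferInstance
  have hCbot : N ⊓ Subgroup.centralizer (P : Set G) = ⊥ := by
    rw [eq_bot_iff, ← hMN]
    exact fun c hc => ⟨hCM hc.2, hc.1⟩
  have huniq : ∀ (q : ℕ) [Fact q.Prime] (Q₁ Q₂ : Subgroup G), IsSylowIn q Q₁ N → IsSylowIn q Q₂ N →
      P ≤ Subgroup.normalizer (Q₁ : Set G) → P ≤ Subgroup.normalizer (Q₂ : Set G) → Q₁ = Q₂ := by
    intro q _ Q₁ Q₂ h₁ h₂ h₃ h₄
    obtain ⟨c, hc, hcc⟩ := invariant_sylowIn_conj hPN hcop hsolv h₁ h₂ h₃ h₄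
    rw [hCbot, Subgroup.mem_bot] at hc
    rw [hc] at hcc
    simpa using hcc
  have hinv : ∀ (q : ℕ) [Fact q.Prime], ∃ Q : Subgroup G, IsSylowIn q Q N ∧ M ≤ Subgroup.normalizer (Q : Set G) := by
    intro q _
    obtain ⟨Q, hQ, hQP⟩ := exists_invariant_sylowIn (p := q) hPN hcop hsolv
    refine ⟨Q, hQ, ?_⟩
    intro m hm
    have hmN : m ∈ Subgroup.normalizer (N : Set G) := by
      rw [Subgroup.normalizer_eq_top_iff.mpr inferInstance]; exact mem_top m
    have h2 : IsSylowIn q (MulAut.conj m • Q) N := hQ.conj_of_mem_normalizer hmN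
    have h3 : P ≤ Subgroup.normalizer ((MulAut.conj m • Q : Subgroup G) : Set G) := by
      intro a ha
      apply mem_normalizer_conj_iff.mpr
      apply hQP
      have := (Subgroup.mem_normalizer_iff.mp (hMP (inv_mem hm)) a).1 ha
      simpa using this
    have := huniq q _ _ hQ h2 hQP h3
    exact mem_normalizer_of_conj_smul_eq this.symm
  refine ⟨h1, ?_, ?_⟩
  · intro q _
    obtain ⟨Q, hQ, hQM⟩ := hinv q
    obtain ⟨Q', hQ'⟩ := exists_sylow_of_isSylowIn hQ
    refine ⟨Q', ?_, ?_⟩
    · show M ≤ Subgroup.normalizer (((Q' : Subgroup N).map N.subtype : Subgroup G) : Set G)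
      rw [hQ']; exact hQM
    · intro Q₂ hQ₂
      have h3 : ((Q₂ : Subgroup N).map N.subtype) = (Q' : Subgroup N).map N.subtype := by
        rw [hQ']
        exact huniq q _ _ (isSylowIn_map Q₂) hQ (hPM.trans hQ₂) (hPM.trans hQM)
      exact Sylow.ext ((Subgroup.map_injective N.subtype_injective) h3)
  · rintro ⟨q, r, hq, hr, hqr, hqd, hrd⟩ hco
    have : Fact q.Prime := ⟨hq⟩
    obtain ⟨Q, hQ, hQM⟩ := hinv q
    have hQne : ¬ Q ≤ M := by
      intro hle
      have h2 : Q = ⊥ := by
        rw [eq_bot_iff, ← hMN]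
        exact le_inf hle hQ.1
      have h3 := card_eq_card_mul_relIndex hQ.1
      rw [h2, Subgroup.card_bot, one_mul] at h3
      apply hQ.2.2
      rw [h2, ← h3]
      exact hqd
    have hlt : M < M ⊔ Q := lt_of_le_of_ne le_sup_left (fun h => hQne (by rw [h]; exact le_sup_right))
    have htop : M ⊔ Q = ⊤ := hco.2 _ hlt
    have hNQ : N ≤ Q := by
      intro x hx
      have hx' : x ∈ Q ⊔ M := by rw [sup_comm, htop]; exact mem_top x
      obtain ⟨k, hk, a, ha, rfl⟩ := exists_mul_of_mem_sup hQM hx'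
      have ha2 : a ∈ N := by
        have : a = k⁻¹ * (k * a) := by group
        rw [this]
        exact N.mul_mem (N.inv_mem (hQ.1 hk)) hx
      have : a ∈ M ⊓ N := ⟨ha, ha2⟩
      rw [hMN, Subgroup.mem_bot] at this
      rw [this, mul_one]
      exact hk
    have hNq : IsPGroup q N := hQ.2.1.to_le hNQ
    obtain ⟨k, hk⟩ := IsPGroup.iff_card.mp hNq
    rw [hk] at hrd
    exact hqr ((Nat.prime_dvd_prime_iff_eq hr hq).1 (hr.dvd_of_dvd_pow hrd)).symm

end Cfsg.Agent.S3749
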