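import Cfsg.Statements.S3750
import Cfsg.Agent.Lib.Components.Primitive

set_option autoImplicit false
open Cfsg

namespace Cfsg.Agent.S3750

open Subgroup Cfsg.Agent.Lib.Components.Basic Cfsg.Agent.Lib.Components.Layer
  Cfsg.Agent.Lib.Components.Central Cfsg.Agent.Lib.Components.Primitive
  Cfsg.Agent.Lib.Core.Basic in

/-- Call a proper subgroup M of G primitive when M = N_G(N) for every non-trivial normal subgroup N of M. Let M be a primitive subgroup of the finite group G and N a normal subgroup of G with M ∩ F*(N) ≠ 1. Then F(G) = 1 and F*(N) = F*(G) = E(G); in particular every minimal normal subgroup of G is contained in N. -/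
theorem result {G : Type*} [Group G] [Finite G] (M : Subgroup G) (hM : M ≠ ⊤) (hprim : ∀ N : Subgroup G, N ≤ M → M ≤ Subgroup.normalizer (N : Set G) → N ≠ ⊥ → Subgroup.normalizer (N : Set G) = M) (N : Subgroup G) [N.Normal] (hMF : M ⊓ (Cfsg.generalizedFittingSubgroup ↥N).map N.subtype ≠ ⊥) : Cfsg.fittingSubgroup G = ⊥ ∧ (Cfsg.generalizedFittingSubgroup ↥N).map N.subtype = Cfsg.generalizedFittingSubgroup G ∧ Cfsg.generalizedFittingSubgroup G = Cfsg.layer G ∧ ∀ K : Subgroup G, K.Normal → K ≠ ⊥ → (∀ K' : Subgroup G, K'.Normal → K' ≤ K → K' = ⊥ ∨ K' = K) → K ≤ N := by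
  open Subgroup Cfsg.Agent.Lib.Components.Basic Cfsg.Agent.Lib.Components.Layer
    Cfsg.Agent.Lib.Components.Central Cfsg.Agent.Lib.Components.Primitive
    Cfsg.Agent.Lib.Core.Basic in
  have hNsub : N.IsSubnormal := Subgroup.Normal.isSubnormal inferInstance
  have hFs : (Cfsg.generalizedFittingSubgroup ↥N).map N.subtype = Cfsg.generalizedFittingSubgroup G ⊓ N :=
    map_generalizedFitting_of_isSubnormal hNsub
  have hGFn : (Cfsg.generalizedFittingSubgroup G).Normal :=
    Cfsg.Agent.Lib.Components.Basic.generalizedFitting_normal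
  set Fs := (Cfsg.generalizedFittingSubgroup ↥N).map N.subtype with hFsdef
  have hFsn : Fs.Normal := by rw [hFs]; infer_instance
  set A : Subgroup G := M ⊓ Fs with hA
  have hAM : M ≤ Subgroup.normalizer (A : Set G) := by
    intro m hm
    rw [Subgroup.mem_normalizer_iff]
    intro x
    constructor
    · rintro ⟨h1, h2⟩
      exact ⟨M.mul_mem (M.mul_mem hm h1) (M.inv_mem hm), hFsn.conj_mem x h2 m⟩
    · rintro ⟨h1, h2⟩
      have e : x = m⁻¹ * (m * x * m⁻¹) * m := by group
      rw [e]
      refine ⟨M.mul_mem (M.mul_mem (M.inv_mem hm) h1) hm, ?_⟩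
      have := hFsn.conj_mem _ h2 m⁻¹
      simpa using this
  have hNA : Subgroup.normalizer (A : Set G) = M := hprim A inf_le_left hAM hMF
  have hCM : Subgroup.centralizer (A : Set G) ≤ M := hNA ▸ Subgroup.centralizer_le_normalizer _
  -- `F(G) = 1`
  have hF : Cfsg.fittingSubgroup G = ⊥ := by
    have hnil : Group.IsNilpotent (Cfsg.fittingSubgroup G) := fittingSubgroup_isNilpotent
    have h1 : (Subgroup.center (Cfsg.fittingSubgroup G)).map (Cfsg.fittingSubgroup G).subtype ≤ M := by
      refine le_trans ?_ hCM
      rintro _ ⟨z, hz, rfl⟩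
      rw [Subgroup.mem_centralizer_iff]
      rintro a ⟨-, ha⟩
      have ha' : a ∈ Fs := ha
      have hc1 : Fs ≤ Subgroup.centralizer
          (((Subgroup.center (Cfsg.fittingSubgroup G)).map (Cfsg.fittingSubgroup G).subtype : Subgroup G) : Set G) := by
        rw [hFsdef, Cfsg.generalizedFittingSubgroup, Subgroup.map_sup]
        apply sup_le
        · have h2 := map_layer_le_of_isSubnormal hNsub
          refine h2.trans ?_
          intro l hl
          rw [Subgroup.mem_centralizer_iff]
          rintro _ ⟨y, _, rfl⟩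
          have := Subgroup.commutator_eq_bot_iff_le_centralizer.mp
            (Cfsg.Agent.Lib.Components.Basic.commutator_layer_fitting (G := G)) hl
          exact (Subgroup.mem_centralizer_iff.mp this y y.2)
        · rw [map_fittingSubgroup_of_isSubnormal hNsub]
          rintro f ⟨hf, -⟩
          rw [Subgroup.mem_centralizer_iff]
          rintro _ ⟨y, hy, rfl⟩
          have := Subgroup.mem_center_iff.mp hy ⟨f, hf⟩
          exact (congrArg Subtype.val this).symm
      exact (Subgroup.mem_centralizer_iff.mp (hc1 ha') _ ⟨z, hz, rfl⟩).symm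
    have h2 : (Subgroup.center (Cfsg.fittingSubgroup G)).map (Cfsg.fittingSubgroup G).subtype = ⊥ :=
      eq_bot_of_isSubnormal_le hM hprim (isSubnormal_of_le_fitting (Subgroup.map_subtype_le _)) h1
    have h3 : Subgroup.center (Cfsg.fittingSubgroup G) = ⊥ :=
      (Subgroup.map_eq_bot_iff_of_injective _ (Subgroup.subtype_injective _)).1 h2
    have h4 := subsingleton_of_center_eq_bot h3
    rw [eq_bot_iff]
    intro x hx
    have : (⟨x, hx⟩ : Cfsg.fittingSubgroup G) = 1 := Subsingleton.elim _ _
    exact congrArg Subtype.val this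
  -- `F*(G) = E(G)`
  have hGF : Cfsg.generalizedFittingSubgroup G = Cfsg.layer G := by
    rw [Cfsg.generalizedFittingSubgroup, hF, sup_bot_eq]
  -- `E(G) ≤ N`
  have hLN : Cfsg.layer G ≤ N := by
    apply sSup_le
    intro K hK
    rcases component_le_or_commutator_eq_bot hK hNsub with h | h
    · exact h
    · exfalso
      apply ne_bot_of_quasisimple hK.2
      apply eq_bot_of_isSubnormal_le hM hprim hK.1
      refine le_trans ?_ hCM
      intro k hk
      rw [Subgroup.mem_centralizer_iff]
      rintro a ⟨-, ha⟩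
      have ha2 : a ∈ N := by
        have : a ∈ Fs := ha
        rw [hFs] at this
        exact this.2
      have := Subgroup.commutator_eq_bot_iff_le_centralizer.mp h hk
      exact (Subgroup.mem_centralizer_iff.mp this a ha2)
  refine ⟨hF, ?_, hGF, ?_⟩
  · rw [hFs, inf_eq_left, hGF]
    exact hLN
  · intro K hK hne hmin
    exact (minimal_normal_le_layer hF hne hK hmin).trans hLN

end Cfsg.Agent.S3750
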