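import Cfsg.Statements.S3751
import Cfsg.Agent.Lib.Components.Primitive
import Cfsg.Agent.Lib.CharP.Basic

set_option autoImplicit false
open Cfsg

namespace Cfsg.Agent.S3751

open Subgroup Cfsg.Agent.Lib.CharP.Basic Cfsg.Agent.Lib.Subnormal.Basic Cfsg.Agent.Lib.Coprime.Action
open scoped Pointwise commutatorElement

/-- `p`-local subgroups. -/
def IsLoc {G : Type*} [Group G] (p : ℕ) (L : Subgroup G) : Prop :=
  ∃ T : Subgroup G, IsPGroup p T ∧ T ≠ ⊥ ∧ L = normalizer (T : Set G)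

/-- maximal `p`-local subgroups. -/
def IsML {G : Type*} [Group G] (p : ℕ) (M : Subgroup G) : Prop :=
  IsLoc p M ∧ ∀ L, IsLoc p L → M ≤ L → L = M

/-- `P` is a maximal `p`-subgroup of `M`. -/
def MaxP {G : Type*} [Group G] (p : ℕ) (P M : Subgroup G) : Prop :=
  P ≤ M ∧ ∀ T : Subgroup G, IsPGroup p T → P ≤ T → T ≤ M → T = P

section
variable {G : Type*} [Group G] [Finite G] {p : ℕ} [Fact p.Prime]

theorem exists_isML_ge {L : Subgroup G} (hL : IsLoc p L) : ∃ M, IsML p M ∧ L ≤ M := by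
  obtain ⟨M, hLM, hM⟩ := Finite.exists_le_maximal (p := IsLoc p) (a := L) hL
  exact ⟨M, ⟨hM.prop, fun L' hL' hle => le_antisymm (hM.le_of_ge hL' hle) hle⟩, hLM⟩

theorem IsLoc.conj {L : Subgroup G} (hL : IsLoc p L) (g : G) : IsLoc p (MulAut.conj g • L) := by
  obtain ⟨T, hT, hne, rfl⟩ := hL
  refine ⟨MulAut.conj g • T, hT.map _, ?_, ?_⟩
  · intro h
    apply hne
    have := congrArg (fun X => MulAut.conj g⁻¹ • X) h
    simpa [conj_inv_conj] using this
  · ext a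
    rw [mem_conj, mem_normalizer_conj_iff]

theorem IsML.conj {M : Subgroup G} (hM : IsML p M) (g : G) : IsML p (MulAut.conj g • M) := by
  refine ⟨hM.1.conj g, fun L hL hle => ?_⟩
  have h1 : M ≤ MulAut.conj g⁻¹ • L := by
    have := conj_mono (g := g⁻¹) hle
    rwa [conj_inv_conj] at this
  have h2 := hM.2 _ (hL.conj g⁻¹) h1
  rw [← h2, conj_conj_inv]

theorem le_normalizer_OpIn {A X : Subgroup G} (hX : X ≤ normalizer (A : Set G)) :
    X ≤ normalizer (OpIn p A : Set G) := by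
  rw [Subgroup.le_normalizer_iff]
  intro x hx y hy
  have hx' := hX hx
  refine OpIn_conj_of_normalizes (fun w hw => ?_) (fun w hw => ?_) hy
  · exact inv_conj_mem_of_le_normalizer hX hx hw
  · exact conj_mem_of_le_normalizer hX hx hw

/-- A nontrivial normal subgroup of a maximal `p`-local of characteristic `p` is self-normalized. -/
theorem IsML.normalizer_eq {M A : Subgroup G} (hM : IsML p M) (hchar : CharPIn p M) (hne : A ≠ ⊥)
    (hAM : A ≤ M) (hMA : M ≤ normalizer (A : Set G)) : normalizer (A : Set G) = M := by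
  set Q := OpIn p M with hQ
  have h1 : A ⊓ Q ≠ ⊥ := by
    intro hbot
    apply hne
    rw [eq_bot_iff, ← hbot]
    intro a ha
    refine ⟨ha, hchar a (hAM ha) ?_⟩
    intro y hy
    have h2 : ⁅a, y⁆ ∈ A ⊓ Q := by
      constructor
      · rw [commutatorElement_def]
        have : a * y * a⁻¹ * y⁻¹ = a * (y * a⁻¹ * y⁻¹) := by group
        rw [this]
        exact A.mul_mem ha (conj_mem_of_le_normalizer hMA (OpIn_le p M hy) (A.inv_mem ha))
      · rw [commutatorElement_def]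
        have : a * y * a⁻¹ * y⁻¹ = (a * y * a⁻¹) * y⁻¹ := rfl
        rw [this]
        exact Q.mul_mem (OpIn_conj (hAM ha) hy) (Q.inv_mem hy)
    rw [hbot, mem_bot, commutatorElement_eq_one_iff_mul_comm] at h2
    exact h2
  have h2 : A ⊓ Q ≤ OpIn p A := by
    apply le_OpIn inf_le_left ((OpIn_isPGroup p M).to_le inf_le_right)
    rintro h hh y ⟨hy1, hy2⟩
    exact ⟨A.mul_mem (A.mul_mem hh hy1) (A.inv_mem hh), OpIn_conj (hAM hh) hy2⟩
  have h3 : OpIn p A ≠ ⊥ := fun h => h1 (le_bot_iff.1 (h ▸ h2))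
  have h4 : normalizer (A : Set G) ≤ normalizer (OpIn p A : Set G) := le_normalizer_OpIn le_rfl
  have h5 := hM.2 _ ⟨_, OpIn_isPGroup p A, h3, rfl⟩ (hMA.trans h4)
  exact le_antisymm (h5 ▸ h4) hMA

theorem IsML.normalizer_le {M : Subgroup G} (hM : IsML p M) : normalizer (M : Set G) ≤ M := by
  obtain ⟨⟨T, hT, hne, hMT⟩, hmax⟩ := hM
  have h1 : T ≤ OpIn p M := by
    apply le_OpIn _ hT
    · intro h hh y hy
      rw [hMT] at hh
      exact conj_mem_of_le_normalizer le_rfl hh hy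
    · rw [hMT]; exact le_normalizer
  have h2 : OpIn p M ≠ ⊥ := fun h => hne (le_bot_iff.1 (h ▸ h1))
  have h3 : M ≤ normalizer (OpIn p M : Set G) := by
    rw [Subgroup.le_normalizer_iff]
    intro x hx y hy
    exact OpIn_conj hx hy
  have h4 := hmax _ ⟨_, OpIn_isPGroup p M, h2, rfl⟩ h3
  have h5 : normalizer (M : Set G) ≤ normalizer (OpIn p M : Set G) := le_normalizer_OpIn le_rfl
  exact h5.trans h4.le

theorem OpIn_le_of_maxP {P M : Subgroup G} (hP : IsPGroup p P) (h : MaxP p P M) : OpIn p M ≤ P := by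
  have h1 : P ≤ normalizer (OpIn p M : Set G) := by
    rw [Subgroup.le_normalizer_iff]
    intro x hx y hy
    exact OpIn_conj (h.1 hx) hy
  have h2 := IsPGroup.to_sup_of_normal_left' (OpIn_isPGroup p M) hP h1
  have h3 := h.2 _ h2 le_sup_right (sup_le (OpIn_le p M) h.1)
  rw [← h3]
  exact le_sup_left

/-- Growth of `p`-subgroups. -/
theorem exists_grow {P M : Subgroup G} (hP : IsPGroup p P) (hPM : P ≤ M) (h : ¬ MaxP p P M) :
    ∃ P' : Subgroup G, IsPGroup p P' ∧ P < P' ∧ P' ≤ M ∧ P' ≤ normalizer (P : Set G) := by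
  have : ∃ T : Subgroup G, IsPGroup p T ∧ P ≤ T ∧ T ≤ M ∧ T ≠ P := by
    by_contra hcon
    push Not at hcon
    exact h ⟨hPM, fun T h1 h2 h3 => hcon T h1 h2 h3⟩
  obtain ⟨T, hT, hPT, hTM, hne⟩ := this
  have hTnil : Group.IsNilpotent T := hT.isNilpotent
  have hlt : P.subgroupOf T < ⊤ := by
    apply lt_top_iff_ne_top.mpr
    intro h1
    exact hne (le_antisymm (Subgroup.subgroupOf_eq_top.mp h1) hPT)
  have hgrow := Group.normalizerCondition_of_isNilpotent (P.subgroupOf T) hlt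
  obtain ⟨x, hx1, hx2⟩ := SetLike.exists_of_lt hgrow
  refine ⟨T ⊓ normalizer (P : Set G), hT.to_le inf_le_left, ?_, inf_le_left.trans hTM, inf_le_right⟩
  have hxT : (x : G) ∈ T ⊓ normalizer (P : Set G) := by
    refine ⟨x.2, ?_⟩
    show (x : G) ∈ normalizer (P : Set G)
    rw [Subgroup.mem_normalizer_iff]
    intro y
    constructor
    · intro hy
      exact (Subgroup.mem_normalizer_iff.mp hx1 ⟨y, hPT hy⟩).mp hy
    · intro hy
      have hyR : y ∈ T := by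
        have : y = (x : G)⁻¹ * ((x : G) * y * (x : G)⁻¹) * x := by group
        rw [this]
        exact T.mul_mem (T.mul_mem (T.inv_mem x.2) (hPT hy)) x.2
      exact (Subgroup.mem_normalizer_iff.mp hx1 ⟨y, hyR⟩).mpr hy
  refine lt_of_le_of_ne (le_inf hPT le_normalizer) (fun he => hx2 ?_)
  have := hxT
  rw [← he] at this
  exact this

theorem MaxP.conj {P M : Subgroup G} (h : MaxP p P M) {y : G} (hy : y ∈ normalizer (P : Set G)) :
    MaxP p P (MulAut.conj y • M) := by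
  have e : MulAut.conj y • P = P := conj_eq_of_mem_normalizer hy
  have e' : MulAut.conj y⁻¹ • P = P := conj_eq_of_mem_normalizer (inv_mem hy)
  refine ⟨?_, fun T hT h1 h2 => ?_⟩
  · have := conj_mono (g := y) h.1
    rwa [e] at this
  · have h3 : MulAut.conj y⁻¹ • T ≤ M := by
      have := conj_mono (g := y⁻¹) h2
      rwa [conj_inv_conj] at this
    have h4 : P ≤ MulAut.conj y⁻¹ • T := by
      have := conj_mono (g := y⁻¹) h1
      rwa [e'] at this
    have h5 : MulAut.conj y⁻¹ • T = P := h.2 _ (hT.map _) h4 h3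
    have h6 := conj_conj_inv y T
    rw [h5, e] at h6
    exact h6.symm

/-- Case analysis on growth. -/
theorem exists_pair {P M₁ M₂ : Subgroup G} (hPp : IsPGroup p P) (hPne : P ≠ ⊥)
    (h₁ : IsML p M₁) (h₂ : IsML p M₂) (hne : M₁ ≠ M₂) (hP₁ : P ≤ M₁) (hP₂ : P ≤ M₂)
    (hmax : ∀ P' : Subgroup G, IsPGroup p P' → P < P' → ∀ M₃ M₄ : Subgroup G, IsML p M₃ → IsML p M₄ →
      P' ≤ M₃ → P' ≤ M₄ → M₃ = M₄) :
    ∃ M₃ M₄ : Subgroup G, IsML p M₃ ∧ IsML p M₄ ∧ M₃ ≠ M₄ ∧ MaxP p P M₃ ∧ MaxP p P M₄ := by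
  have step : ∀ M M' : Subgroup G, IsML p M → IsML p M' → M ≠ M' → P ≤ M → P ≤ M' → MaxP p P M → ¬ MaxP p P M' →
      ∃ M₃ M₄ : Subgroup G, IsML p M₃ ∧ IsML p M₄ ∧ M₃ ≠ M₄ ∧ MaxP p P M₃ ∧ MaxP p P M₄ := by
    intro M M' hM hM' hne' hPM hPM' hmaxM hnot
    obtain ⟨P', hP'p, hlt, hP'M, hP'N⟩ := exists_grow hPp hPM' hnot
    have hnle : ¬ P' ≤ M := fun hle => hne' (hmax P' hP'p hlt _ _ hM hM' hle hP'M)
    obtain ⟨y, hy, hyM⟩ := SetLike.not_le_iff_exists.mp hnle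
    refine ⟨M, MulAut.conj y • M, hM, hM.conj y, ?_, hmaxM, hmaxM.conj (hP'N hy)⟩
    intro he
    exact hyM (hM.normalizer_le (mem_normalizer_of_conj_eq he.symm))
  by_cases hm₁ : MaxP p P M₁ <;> by_cases hm₂ : MaxP p P M₂
  · exact ⟨M₁, M₂, h₁, h₂, hne, hm₁, hm₂⟩
  · exact step M₁ M₂ h₁ h₂ hne hP₁ hP₂ hm₁ hm₂
  · exact step M₂ M₁ h₂ h₁ hne.symm hP₂ hP₁ hm₂ hm₁
  · exfalso
    obtain ⟨P', hP'p, hlt, hP'M, hP'N⟩ := exists_grow hPp hP₂ hm₂
    obtain ⟨P'', hP''p, hlt'', hP''M, hP''N⟩ := exists_grow hPp hP₁ hm₁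
    obtain ⟨M₃, hM₃, hNM₃⟩ := exists_isML_ge (p := p) (L := normalizer (P : Set G)) ⟨P, hPp, hPne, rfl⟩
    have e1 := hmax P' hP'p hlt _ _ h₂ hM₃ hP'M (hP'N.trans hNM₃)
    have e2 := hmax P'' hP''p hlt'' _ _ h₁ hM₃ hP''M (hP''N.trans hNM₃)
    exact hne (e2.trans e1.symm)

end

/-- Two distinct subgroups M₁, M₂ of G form a primitive pair when, for {i, j} = {1, 2}, every non-trivial normal subgroup A of M_i contained in M₁ ∩ M₂ satisfies N_{M_j}(A) = M₁ ∩ M₂; the pair has characteristic p when moreover C_{M_i}(O_p(M_i)) ≤ O_p(M_i) for both i and O_p(M₁)O_p(M₂) ≤ M₁ ∩ M₂. Let G be a finite group, p a prime dividing its order, with O_p(G) = 1 and every p-local subgroup of characteristic p. Then either G has a primitive pair of characteristic p, or every maximal p-local subgroup M of G is strongly p-embedded in G: M is a proper subgroup, p divides its order, and for every g ∉ M the order of M ∩ gMg⁻¹ is prime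 to p. -/
theorem result {G : Type*} [Group G] [Finite G] {p : ℕ} [Fact p.Prime] (hloc : Cfsg.IsOfLocalCharacteristic p G) (hOp : Cfsg.pCore p G = ⊥) : (∃ M₁ M₂ : Subgroup G, M₁ ≠ M₂ ∧ (∀ A : Subgroup G, A ≠ ⊥ → A ≤ M₁ ⊓ M₂ → (M₁ ≤ Subgroup.normalizer (A : Set G) → M₂ ⊓ Subgroup.normalizer (A : Set G) = M₁ ⊓ M₂) ∧ (M₂ ≤ Subgroup.normalizer (A : Set G) → M₁ ⊓ Subgroup.normalizer (A : Set G) = M₁ ⊓ M₂)) ∧ Subgroup.centralizer (Cfsg.pCore p ↥M₁ : Set ↥M₁) ≤ Cfsg.pCore p ↥M₁ ∧ Subgroup.centralizer (Cfsg.pCore p ↥M₂ : Set ↥M₂) ≤ Cfsg.pCore p ↥M₂ ∧ (Cfsg.pCore p ↥M₁).map M₁.subtype ⊔ (Cfsg.pCore p ↥M₂).map M₂.subtype ≤ M₁ ⊓ M₂) ∨ (∀ M : Subgroup G, (∃ T : Subgroup G, IsPGroup p T ∧ T ≠ ⊥ ∧ M = Subgroup.normalizer (T : Set G)) → (∀ L : Subgroup G, (∃ T : Subgroup G, IsPGroup p T ∧ T ≠ ⊥ ∧ L = Subgroup.normalizer (T : Set G)) → M ≤ L → L = M) → M ≠ ⊤ ∧ p ∣ Nat.card M ∧ ∀ g : G, g ∉ M → ¬ p ∣ Nat.card ↥(M ⊓ M.map (MulAut.conj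 g).toMonoidHom)) := by
  classical
  have hchar : ∀ L : Subgroup G, IsLoc p L → CharPIn p L := by
    rintro L ⟨T, hT, hne, rfl⟩
    exact charPIn_iff.2 (hloc.2 T hT hne)
  set S : Subgroup G → Prop := fun P => IsPGroup p P ∧ P ≠ ⊥ ∧
    ∃ M₁ M₂ : Subgroup G, IsML p M₁ ∧ IsML p M₂ ∧ M₁ ≠ M₂ ∧ P ≤ M₁ ∧ P ≤ M₂ with hS
  by_cases hex : ∃ P, S P
  · left
    obtain ⟨P₀, hP₀⟩ := hex
    obtain ⟨P, -, hP⟩ := Finite.exists_le_maximal (p := S) (a := P₀) hP₀
    obtain ⟨hPp, hPne, M₁, M₂, h₁, h₂, hne, hP₁, hP₂⟩ := hP.prop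
    have hmax : ∀ P' : Subgroup G, IsPGroup p P' → P < P' → ∀ M₃ M₄ : Subgroup G, IsML p M₃ → IsML p M₄ →
        P' ≤ M₃ → P' ≤ M₄ → M₃ = M₄ := by
      intro P' hP' hlt M₃ M₄ hM₃ hM₄ h3 h4
      by_contra hne'
      have hSP' : S P' := ⟨hP', fun h => hPne (le_bot_iff.1 (h ▸ hlt.le)), M₃, M₄, hM₃, hM₄, hne', h3, h4⟩
      exact absurd (hP.le_of_ge hSP' hlt.le) (not_le_of_gt hlt)
    obtain ⟨M₃, M₄, h₃, h₄, hne', hm₃, hm₄⟩ := exists_pair hPp hPne h₁ h₂ hne hP₁ hP₂ hmax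
    refine ⟨M₃, M₄, hne', ?_, charPIn_iff.1 (hchar _ h₃.1), charPIn_iff.1 (hchar _ h₄.1), ?_⟩
    · intro A hA hAle
      refine ⟨fun hN => ?_, fun hN => ?_⟩
      · rw [h₃.normalizer_eq (hchar _ h₃.1) hA (hAle.trans inf_le_left) hN, inf_comm]
      · rw [h₄.normalizer_eq (hchar _ h₄.1) hA (hAle.trans inf_le_right) hN]
    · apply sup_le
      · exact le_inf (OpIn_le p M₃) ((OpIn_le_of_maxP hPp hm₃).trans hm₄.1)
      · exact le_inf ((OpIn_le_of_maxP hPp hm₄).trans hm₃.1) (OpIn_le p M₄)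
  · right
    intro M hMloc hMmax
    have hML : IsML p M := ⟨hMloc, hMmax⟩
    refine ⟨?_, ?_, ?_⟩
    · obtain ⟨T, hT, hne, rfl⟩ := hMloc
      intro htop
      apply hne
      have hTn : T.Normal := Subgroup.normalizer_eq_top_iff.mp htop
      rw [eq_bot_iff, ← hOp]
      exact Cfsg.Agent.Lib.Core.Basic.le_pCore hTn hT
    · obtain ⟨T, hT, hne, hMT⟩ := hMloc
      have hTM : T ≤ M := hMT ▸ Subgroup.le_normalizer
      obtain ⟨k, hk⟩ := IsPGroup.iff_card.mp hT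
      have hk0 : k ≠ 0 := by
        intro h0
        rw [h0, pow_zero] at hk
        exact hne ((Subgroup.card_eq_one).1 hk)
      have h1 : p ∣ Nat.card T := by
        rw [hk]; exact dvd_pow_self p hk0
      exact h1.trans (Subgroup.card_dvd_of_le hTM)
    · intro g hg hdvd
      apply hex
      obtain ⟨x, hx⟩ := exists_prime_orderOf_dvd_card' p hdvd
      have hxne : x ≠ 1 := by
        intro h1
        rw [h1, orderOf_one] at hx
        exact (Fact.out : p.Prime).one_lt.ne hx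
      have hxG : orderOf (x : G) = p := by rw [Subgroup.orderOf_coe]; exact hx
      refine ⟨Subgroup.zpowers (x : G), ?_, ?_, M, MulAut.conj g • M, hML, hML.conj g, ?_, ?_, ?_⟩
      · rw [IsPGroup.iff_card, Nat.card_zpowers, hxG]
        exact ⟨1, (pow_one p).symm⟩
      · intro h
        rw [Subgroup.zpowers_eq_bot] at h
        exact hxne (Subtype.ext h)
      · intro he
        exact hg (hML.normalizer_le (mem_normalizer_of_conj_eq he.symm))
      · rw [Subgroup.zpowers_le]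
        exact x.2.1
      · rw [Subgroup.zpowers_le]
        exact x.2.2

end Cfsg.Agent.S3751
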