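import Cfsg.Statements.S3752
import Cfsg.Agent.Lib.Components.Bender

set_option autoImplicit false
open Cfsg

namespace Cfsg.Agent.S3752

/-- Bender's Theorem on primitive pairs. Two distinct subgroups M₁, M₂ of G form a primitive pair when, for {i, j} = {1, 2}, every non-trivial normal subgroup A of M_i contained in M₁ ∩ M₂ satisfies N_{M_j}(A) = M₁ ∩ M₂; the pair has characteristic p when moreover C_{M_i}(O_p(M_i)) ≤ O_p(M_i) for both i and O_p(M₁)O_p(M₂) ≤ M₁ ∩ M₂. If (M₁, M₂) is a primitive pair of the finite group G with F*(M₁) ≤ M₂ and F*(M₂) ≤ M₁, then for some prime p the pair has characteristic p. -/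
theorem result {G : Type*} [Group G] [Finite G] (M₁ M₂ : Subgroup G) (hne : M₁ ≠ M₂) (hP : ∀ A : Subgroup G, A ≠ ⊥ → A ≤ M₁ ⊓ M₂ → (M₁ ≤ Subgroup.normalizer (A : Set G) → M₂ ⊓ Subgroup.normalizer (A : Set G) = M₁ ⊓ M₂) ∧ (M₂ ≤ Subgroup.normalizer (A : Set G) → M₁ ⊓ Subgroup.normalizer (A : Set G) = M₁ ⊓ M₂)) (h₁ : (Cfsg.generalizedFittingSubgroup ↥M₁).map M₁.subtype ≤ M₂) (h₂ : (Cfsg.generalizedFittingSubgroup ↥M₂).map M₂.subtype ≤ M₁) : ∃ p : ℕ, p.Prime ∧ Subgroup.centralizer (Cfsg.pCore p ↥M₁ : Set ↥M₁) ≤ Cfsg.pCore p ↥M₁ ∧ Subgroup.centralizer (Cfsg.pCore p ↥M₂ : Set ↥M₂) ≤ Cfsg.pCore p ↥M₂ ∧ (Cfsg.pCore p ↥M₁).map M₁.subtype ⊔ (Cfsg.pCore p ↥M₂).map M₂.subtype ≤ M₁ ⊓ M₂ := by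
  open Cfsg.Agent.Lib.Components.Bender Cfsg.Agent.Lib.Components.Rel Cfsg.Agent.Lib.CharP.Basic in
  obtain ⟨p, hp, e1, e2⟩ := bender hne hP h₁ h₂
  have : Fact p.Prime := ⟨hp⟩
  have hch : ∀ M : Subgroup G, FsIn M = OpIn p M → Subgroup.centralizer (Cfsg.pCore p ↥M : Set ↥M) ≤ Cfsg.pCore p ↥M := by
    intro M h
    apply charPIn_iff.1
    intro g hg hcomm
    rw [← h]
    refine inf_centralizer_FsIn_le M ⟨hg, ?_⟩
    show g ∈ Subgroup.centralizer (FsIn M : Set G)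
    rw [h, Subgroup.mem_centralizer_iff]
    intro y hy
    exact (hcomm y hy).symm
  refine ⟨p, hp, hch M₁ e1, hch M₂ e2, sup_le ?_ ?_⟩
  · have h3 : (Cfsg.pCore p ↥M₁).map M₁.subtype = OpIn p M₁ := rfl
    rw [h3, ← e1]
    exact le_inf (FsIn_le M₁) h₁
  · have h3 : (Cfsg.pCore p ↥M₂).map M₂.subtype = OpIn p M₂ := rfl
    rw [h3, ← e2]
    exact le_inf h₂ (FsIn_le M₂)

end Cfsg.Agent.S3752
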