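import Cfsg.Statements.S3753
import Cfsg.Agent.Lib.ZJ.QdStable
import Cfsg.Agent.Lib.Invol2.QdFree
import Cfsg.Agent.Lib.QuadAct.OmegaZ
import Cfsg.Agent.Lib.LocalStruct.PCoreOf

set_option autoImplicit false
set_option linter.unusedSectionVars false
set_option linter.unusedVariables false
set_option linter.style.haveILetI false
set_option linter.unusedSimpArgs false
open Cfsg

open scoped commutatorElement

namespace Cfsg.Agent.S3753

open Subgroup Cfsg.Agent.Lib.Core.Basic Cfsg.Agent.Lib.LocalStruct.Basic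
open Cfsg.Agent.Lib.LocalStruct.PCoreOf Cfsg.Agent.Lib.LocalStruct.Comm

section X

variable {X : Type*} [Group X] [Finite X] {p : ℕ} [Fact p.Prime]

/-- If `R` normalizes the abelian group `A` and `a ∈ A`, then `[R, a, a] = 1`. -/
lemma comm_zpowers_bot {R A : Subgroup X} (hA : ∀ x ∈ A, ∀ y ∈ A, x * y = y * x)
    (hR : R ≤ normalizer (A : Set X)) {a : X} (ha : a ∈ A) :
    ⁅⁅R, zpowers a⁆, zpowers a⁆ = ⊥ := by
  have hza : zpowers a ≤ A := zpowers_le.2 ha
  have h1 : ⁅R, zpowers a⁆ ≤ A := by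
    rw [commutator_le]
    intro r hr t ht
    have e2 : ⁅r, t⁆ = (r * t * r⁻¹) * t⁻¹ := by
      rw [commutatorElement_def]
    rw [e2]
    exact mul_mem ((mem_normalizer_iff.1 (hR hr) _).1 (hza ht)) (inv_mem (hza ht))
  rw [eq_bot_iff, commutator_le]
  intro x hx t ht
  have h2 := hA x (h1 hx) t (hza ht)
  rw [mem_bot, commutatorElement_eq_one_iff_mul_comm]
  exact h2

/-- Stability on the core. -/
lemma mem_core_of_quad_core
    (hst : ∀ (P : Subgroup X) [P.Normal], IsPGroup p P → IsPStableOn p P)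
    (hc : centralizer (pCore p X : Set X) ≤ pCore p X) (a : X)
    (h : ⁅⁅pCore p X, zpowers a⁆, zpowers a⁆ = ⊥) : a ∈ pCore p X := by
  have h1 := hst (pCore p X) pCore_isPGroup a h
  have hle : (pCore p (X ⧸ centralizer (pCore p X : Set X))).comap
      (QuotientGroup.mk' (centralizer (pCore p X : Set X))) ≤ pCore p X := by
    refine le_pCore inferInstance ?_
    refine IsPGroup.comap_of_ker_isPGroup pCore_isPGroup _ ?_
    rw [QuotientGroup.ker_mk']
    exact (pCore_isPGroup (p := p) (G := X)).to_le hc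
  exact hle h1

/-- The subgroup generated by the centres of the Sylow subgroups. -/
def ZZ (p : ℕ) (X : Type*) [Group X] : Subgroup X :=
  ⨆ S : Sylow p X, (S : Subgroup X) ⊓ centralizer ((S : Subgroup X) : Set X)

lemma ZZ_le (hc : centralizer (pCore p X : Set X) ≤ pCore p X) :
    ZZ p X ≤ pCore p X ⊓ centralizer (pCore p X : Set X) := by
  refine iSup_le fun S => ?_
  rintro x ⟨-, hx⟩
  have h1 : x ∈ centralizer (pCore p X : Set X) := by
    exact Subgroup.centralizer_le (fun y hy => pCore_le_sylow S hy) hx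
  exact ⟨hc h1, h1⟩

lemma ZZ_normal : (ZZ p X).Normal := by
  constructor
  intro n hn g
  have hle : ZZ p X ≤ (ZZ p X).comap (MulAut.conj g).toMonoidHom := by
    unfold ZZ
    refine iSup_le fun S => ?_
    rintro x ⟨hx1, hx2⟩
    rw [Subgroup.mem_comap]
    refine le_iSup (fun S : Sylow p X =>
      (S : Subgroup X) ⊓ centralizer ((S : Subgroup X) : Set X)) (g • S) ⟨?_, ?_⟩
    · rw [Sylow.coe_subgroup_smul]
      exact ⟨x, hx1, rfl⟩
    · refine Subgroup.mem_centralizer_iff.mpr ?_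
      intro y hy
      rw [SetLike.mem_coe, Sylow.coe_subgroup_smul] at hy
      obtain ⟨z, hz, rfl⟩ := hy
      have := Subgroup.mem_centralizer_iff.mp hx2 z hz
      show g * z * g⁻¹ * (g * x * g⁻¹) = g * x * g⁻¹ * (g * z * g⁻¹)
      calc g * z * g⁻¹ * (g * x * g⁻¹) = g * (z * x) * g⁻¹ := by group
        _ = g * (x * z) * g⁻¹ := by rw [this]
        _ = _ := by group
  exact hle hn

lemma ZZ_gen : ZZ p X = ⨆ S : Sylow p X, ZZ p X ⊓ centralizer ((S : Subgroup X) : Set X) := by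
  apply le_antisymm
  · refine iSup_le fun S => ?_
    refine le_trans ?_ (le_iSup (fun S : Sylow p X =>
      ZZ p X ⊓ centralizer ((S : Subgroup X) : Set X)) S)
    rintro x ⟨hx1, hx2⟩
    exact ⟨le_iSup (fun S : Sylow p X =>
      (S : Subgroup X) ⊓ centralizer ((S : Subgroup X) : Set X)) S ⟨hx1, hx2⟩, hx2⟩
  · exact iSup_le fun S => inf_le_left

lemma ZZ_ne_bot [Nontrivial X] (hc : centralizer (pCore p X : Set X) ≤ pCore p X) :
    ZZ p X ≠ ⊥ := by
  have hQ : pCore p X ≠ ⊥ := by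
    intro h
    rw [h] at hc
    have h1 : centralizer ((⊥ : Subgroup X) : Set X) = ⊤ := by
      rw [eq_top_iff]
      intro x _
      rw [Subgroup.mem_centralizer_iff]
      intro y hy
      have : y = 1 := by simpa using hy
      simp [this]
    rw [h1] at hc
    exact top_ne_bot (le_bot_iff.mp hc)
  let S : Sylow p X := Classical.arbitrary _
  have hS : (S : Subgroup X) ≠ ⊥ := by
    intro h
    apply hQ
    have := pCore_le_sylow (p := p) S
    rw [h] at this
    exact le_bot_iff.mp this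
  have hnt : Nontrivial (S : Subgroup X) := (Subgroup.nontrivial_iff_ne_bot _).2 hS
  have hcz := S.isPGroup'.center_nontrivial
  obtain ⟨z, hz⟩ := exists_ne (1 : Subgroup.center (S : Subgroup X))
  intro hbot
  have hmem : ((z : (S : Subgroup X)) : X) ∈ ZZ p X := by
    refine le_iSup (fun S : Sylow p X =>
      (S : Subgroup X) ⊓ centralizer ((S : Subgroup X) : Set X)) S ⟨(z : (S : Subgroup X)).2, ?_⟩
    show ((z : (S : Subgroup X)) : X) ∈ centralizer ((S : Subgroup X) : Set X)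
    rw [Subgroup.mem_centralizer_iff]
    intro y hy
    have := (Subgroup.mem_center_iff.mp z.2) ⟨y, hy⟩
    exact congrArg Subtype.val this
  rw [hbot, mem_bot] at hmem
  apply hz
  apply Subtype.ext
  apply Subtype.ext
  exact hmem

/-- Quadratic action on `ZZ` is trivial. -/
lemma quad_ZZ (hst : ∀ (P : Subgroup X) [P.Normal], IsPGroup p P → IsPStableOn p P)
    (hc : centralizer (pCore p X : Set X) ≤ pCore p X) (a : X)
    (h : ⁅⁅ZZ p X, zpowers a⁆, zpowers a⁆ = ⊥) : a ∈ centralizer (ZZ p X : Set X) := by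
  haveI : (ZZ p X).Normal := ZZ_normal
  have hZp : IsPGroup p (ZZ p X) :=
    (pCore_isPGroup (p := p) (G := X)).to_le ((ZZ_le hc).trans inf_le_left)
  have h1 := hst (ZZ p X) hZp a h
  rw [Cfsg.Agent.Lib.QuadAct.OmegaZ.pCore_quotient_centralizer_eq_bot (ZZ p X) ZZ_gen,
    mem_bot, QuotientGroup.eq_one_iff] at h1
  exact h1

/-- A normal `p`-subgroup of a normal subgroup lies in the `p`-core. -/
lemma le_core_of_normal_normal {E W : Subgroup X} (hE : E.Normal) (hWE : W ≤ E)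
    (hEW : E ≤ normalizer (W : Set X)) (hW : IsPGroup p W) : W ≤ pCore p X := by
  have h1 : W ≤ pCoreOf p E := le_pCoreOf hWE hEW hW
  have hN : (pCoreOf p E).Normal := by
    constructor
    intro y hy g
    have h2 : (pCoreOf p E).map (MulAut.conj g).toMonoidHom = pCoreOf p (E.map (MulAut.conj g).toMonoidHom) :=
      pCoreOf_conj g E
    have h3 : E.map (MulAut.conj g).toMonoidHom = E := by
      apply mem_normalizer_iff_map.mp
      rw [Subgroup.mem_normalizer_iff]
      intro x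
      constructor
      · exact fun hx => hE.conj_mem x hx g
      · intro hx
        have := hE.conj_mem _ hx g⁻¹
        simpa [mul_assoc] using this
    rw [h3] at h2
    rw [← h2]
    exact ⟨y, hy, rfl⟩
  exact h1.trans (le_pCore hN (isPGroup_pCoreOf E))

/-- Main lemma: in `X`, with `E`, `K` normal and `K / E` a `p`-group, a `p`-subgroup `P₀` normalized
by `E` satisfies `P₀ ∩ K ≤ O_p(X)`. -/
lemma inf_le_core {E K P₀ : Subgroup X} (hE : E.Normal) (hK : K.Normal)
    (hKE : ∀ k ∈ K, ∃ n : ℕ, k ^ (p ^ n) ∈ E) (hP₀ : IsPGroup p P₀)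
    (hEP : E ≤ normalizer (P₀ : Set X)) : P₀ ⊓ K ≤ pCore p X := by
  rintro y ⟨hyP, hyK⟩
  -- (i) commutators of `P₀` with `E` lie in the core
  have hi : ∀ w ∈ P₀, ∀ e ∈ E, ⁅w, e⁆ ∈ pCore p X := by
    intro w hw e he
    have hWn : E ≤ normalizer ((P₀ ⊓ E : Subgroup X) : Set X) := by
      intro e' he'
      rw [Subgroup.mem_normalizer_iff]
      intro x
      constructor
      · rintro ⟨h1, h2⟩
        exact ⟨(Subgroup.mem_normalizer_iff.1 (hEP he') x).1 h1, hE.conj_mem x h2 e'⟩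
      · rintro ⟨h1, h2⟩
        refine ⟨(Subgroup.mem_normalizer_iff.1 (hEP he') x).2 h1, ?_⟩
        have := hE.conj_mem _ h2 e'⁻¹
        simpa [mul_assoc] using this
    have hW : P₀ ⊓ E ≤ pCore p X :=
      le_core_of_normal_normal hE inf_le_right hWn (hP₀.to_le inf_le_left)
    apply hW
    rw [Subgroup.mem_inf]
    constructor
    · have e1 : ⁅w, e⁆ = w * (e * w⁻¹ * e⁻¹) := by
        rw [commutatorElement_def]; group
      rw [e1]
      exact mul_mem hw ((Subgroup.mem_normalizer_iff.1 (hEP he) _).1 (inv_mem hw))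
    · have e1 : ⁅w, e⁆ = (w * e * w⁻¹) * e⁻¹ := by
        rw [commutatorElement_def]
      rw [e1]
      exact mul_mem (hE.conj_mem e he w) (inv_mem he)
  -- (ii) the group `L`
  let Q := pCore p X
  let L : Subgroup X := K ⊓ (centralizer ((E.map (QuotientGroup.mk' Q) : Subgroup (X ⧸ Q)) :
    Set (X ⧸ Q))).comap (QuotientGroup.mk' Q)
  have hLmem : ∀ x, x ∈ L ↔ x ∈ K ∧ ∀ e ∈ E, ⁅x, e⁆ ∈ Q := by
    intro x
    constructor
    · rintro ⟨h1, h2⟩
      refine ⟨h1, fun e he => ?_⟩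
      have h3 := Subgroup.mem_centralizer_iff.mp (Subgroup.mem_comap.mp h2)
        (QuotientGroup.mk' Q e) ⟨e, he, rfl⟩
      rw [← QuotientGroup.eq_one_iff, commutatorElement_def]
      simp only [QuotientGroup.mk_mul, QuotientGroup.mk_inv]
      have h4 : (QuotientGroup.mk e : X ⧸ Q) * (QuotientGroup.mk x : X ⧸ Q) =
          (QuotientGroup.mk x : X ⧸ Q) * (QuotientGroup.mk e : X ⧸ Q) := h3
      rw [← h4]
      group
    · rintro ⟨h1, h2⟩
      refine ⟨h1, Subgroup.mem_comap.mpr (Subgroup.mem_centralizer_iff.mpr ?_)⟩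
      rintro _ ⟨e, he, rfl⟩
      have h3 := h2 e he
      rw [← QuotientGroup.eq_one_iff, commutatorElement_def] at h3
      simp only [QuotientGroup.mk_mul, QuotientGroup.mk_inv] at h3
      have h5 := mul_inv_eq_one.1 h3
      have h6 := mul_inv_eq_iff_eq_mul.1 h5
      exact h6.symm
  have hLn : L.Normal := by
    have hX : (E.map (QuotientGroup.mk' Q)).Normal :=
      Subgroup.Normal.map hE _ QuotientGroup.mk_surjective
    have : (centralizer ((E.map (QuotientGroup.mk' Q) : Subgroup (X ⧸ Q)) : Set (X ⧸ Q))).Normal :=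
      normal_centralizer
    exact Subgroup.normal_inf_normal _ _
  -- (iii) `y ∈ L`
  have hyL : y ∈ L := (hLmem y).2 ⟨hyK, fun e he => hi y hyP e he⟩
  -- (iv) a Sylow subgroup of `L` containing `y`
  let y' : L := ⟨y, hyL⟩
  have hy'p : IsPGroup p (zpowers y') := by
    obtain ⟨k, hk⟩ := hP₀ ⟨y, hyP⟩
    have hk' : y ^ p ^ k = 1 := congrArg Subtype.val hk
    rw [isPGroup_iff_pow_pow_eq_one]
    rintro ⟨z, n, rfl⟩
    refine ⟨k, ?_⟩
    apply Subtype.ext
    show (y' ^ n) ^ (p ^ k) = 1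
    have hy'k : y' ^ (p ^ k) = 1 := Subtype.ext hk'
    rw [← zpow_natCast, ← zpow_mul, mul_comm, zpow_mul, zpow_natCast, hy'k, one_zpow]
  obtain ⟨S, hS⟩ := hy'p.exists_le_sylow
  have hyS : y' ∈ (S : Subgroup L) := hS (mem_zpowers y')
  -- decomposition
  have hdec : ∀ l : L, ∃ s ∈ (S : Subgroup L), ((s⁻¹ * l : L) : X) ∈ E := by
    let F : Subgroup L := E.subgroupOf L
    haveI hFn : F.Normal := hE.subgroupOf L
    have hqp : IsPGroup p (L ⧸ F) := by
      rw [isPGroup_iff_pow_pow_eq_one]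
      intro q
      obtain ⟨l, rfl⟩ := QuotientGroup.mk_surjective q
      obtain ⟨n, hn⟩ := hKE l.1 ((hLmem l.1).1 l.2).1
      refine ⟨n, ?_⟩
      rw [← QuotientGroup.mk_pow, QuotientGroup.eq_one_iff]
      exact Subgroup.mem_subgroupOf.2 (by simpa using hn)
    let S' : Sylow p (L ⧸ F) := S.mapSurjective (QuotientGroup.mk'_surjective F)
    have htop : (S' : Subgroup (L ⧸ F)) = ⊤ :=
      (S'.is_maximal' (IsPGroup.to_subgroup hqp ⊤) le_top).symm
    intro l
    have h1 : (QuotientGroup.mk l : L ⧸ F) ∈ (S' : Subgroup (L ⧸ F)) := by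
      rw [htop]; trivial
    have h2 : (S' : Subgroup (L ⧸ F)) = (S : Subgroup L).map (QuotientGroup.mk' F) :=
      Sylow.coe_mapSurjective _ _
    rw [h2] at h1
    obtain ⟨s, hs, hsl⟩ := h1
    refine ⟨s, hs, ?_⟩
    have h3 : s⁻¹ * l ∈ F := QuotientGroup.eq.mp hsl
    exact Subgroup.mem_subgroupOf.1 h3
  -- the core of `X` inside `L` lies in `S`
  have hQS : Q.subgroupOf L ≤ (S : Subgroup L) := by
    haveI : (Q.subgroupOf L).Normal := (pCore_normal p X).subgroupOf L
    have hp : IsPGroup p (Q.subgroupOf L) :=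
      (pCore_isPGroup (p := p) (G := X)).comap_of_injective L.subtype L.subtype_injective
    exact IsPGroup.le_sylow_of_normal hp S
  -- normality of `S`
  have hSn : (S : Subgroup L).Normal := by
    constructor
    intro s hs l
    obtain ⟨s', hs', hf⟩ := hdec l
    set f : L := s'⁻¹ * l with hfdef
    have hl : l = s' * f := by simp [hfdef]
    have hc1 : ⁅(s : X), (f : X)⁆ ∈ Q := ((hLmem s.1).1 s.2).2 _ hf
    have hc2 : ⁅f, s⁆ ∈ (S : Subgroup L) := by
      apply hQS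
      rw [Subgroup.mem_subgroupOf]
      have : ((⁅f, s⁆ : L) : X) = ⁅(s : X), (f : X)⁆⁻¹ := by
        rw [commutatorElement_inv]; rfl
      rw [this]
      exact inv_mem hc1
    have e1 : l * s * l⁻¹ = s' * (⁅f, s⁆ * s) * s'⁻¹ := by
      rw [hl, commutatorElement_def]; group
    rw [e1]
    exact mul_mem (mul_mem hs' (mul_mem hc2 hs)) (inv_mem hs')
  -- conclusion
  have h1 : y' ∈ pCore p L := le_pCore hSn S.isPGroup' hyS
  have h2 : y ∈ pCoreOf p L := ⟨y', h1, rfl⟩
  exact le_core_of_normal_normal hLn (pCoreOf_le L) (le_normalizer_pCoreOf L) (isPGroup_pCoreOf L) h2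

/-- The key local lemma in `X`. -/
lemma mem_core_of_quad (hst : ∀ (P : Subgroup X) [P.Normal], IsPGroup p P → IsPStableOn p P)
    {V D P₀ : Subgroup X} [hV : V.Normal] (hVp : IsPGroup p V)
    (hCD : centralizer (V : Set X) ≤ D) (hP₀ : IsPGroup p P₀) (hDP : D ≤ normalizer (P₀ : Set X))
    {a : X} (haP : a ∈ P₀) (hq : ⁅⁅V, zpowers a⁆, zpowers a⁆ = ⊥) : a ∈ pCore p X := by
  have h1 := hst V hVp a hq
  haveI hCn : (centralizer (V : Set X)).Normal := normal_centralizer
  refine inf_le_core (E := centralizer (V : Set X))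
    (K := (pCore p (X ⧸ centralizer (V : Set X))).comap (QuotientGroup.mk' (centralizer (V : Set X))))
    (P₀ := P₀) hCn inferInstance ?_ hP₀ (hCD.trans hDP) ⟨haP, h1⟩
  intro k hk
  obtain ⟨n, hn⟩ := (isPGroup_iff_pow_pow_eq_one.mp
    (pCore_isPGroup (p := p) (G := X ⧸ centralizer (V : Set X)))) ⟨_, hk⟩
  refine ⟨n, ?_⟩
  have h2 : (QuotientGroup.mk' (centralizer (V : Set X)) k) ^ p ^ n = 1 := congrArg Subtype.val hn
  rw [← map_pow] at h2
  exact (QuotientGroup.eq_one_iff _).mp h2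

end X

section GLev

variable {G : Type*} [Group G] [Finite G] {p : ℕ} [Fact p.Prime]

/-- `Z(M)`: the image in `G` of the subgroup generated by the centres of the Sylow subgroups. -/
def ZZof (p : ℕ) (M : Subgroup G) : Subgroup G := (ZZ p M).map M.subtype

lemma subgroupOf_comm {M A : Subgroup G} (hA : ∀ x ∈ A, ∀ y ∈ A, x * y = y * x) :
    ∀ x ∈ A.subgroupOf M, ∀ y ∈ A.subgroupOf M, x * y = y * x := by
  intro x hx y hy
  apply Subtype.ext
  exact hA _ (Subgroup.mem_subgroupOf.1 hx) _ (Subgroup.mem_subgroupOf.1 hy)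

lemma le_normalizer_subgroupOf {M A : Subgroup G} {R : Subgroup M}
    (hR : R.map M.subtype ≤ normalizer (A : Set G)) :
    R ≤ normalizer ((A.subgroupOf M : Subgroup M) : Set M) := by
  intro r hr
  rw [Subgroup.mem_normalizer_iff]
  intro x
  have h1 := Subgroup.mem_normalizer_iff.1 (hR ⟨r, hr, rfl⟩) (x : G)
  simpa [Subgroup.mem_subgroupOf] using h1

lemma G1 {M : Subgroup G}
    (hst : ∀ (P : Subgroup M) [P.Normal], IsPGroup p P → IsPStableOn p P)
    (hc : centralizer (pCore p M : Set M) ≤ pCore p M)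
    {A : Subgroup G} (hAM : A ≤ M) (hA : ∀ x ∈ A, ∀ y ∈ A, x * y = y * x)
    (hQ : pCoreOf p M ≤ normalizer (A : Set G)) {a : G} (ha : a ∈ A) : a ∈ pCoreOf p M := by
  have h1 := comm_zpowers_bot (R := pCore p M) (A := A.subgroupOf M) (subgroupOf_comm hA)
    (le_normalizer_subgroupOf hQ) (a := ⟨a, hAM ha⟩) (Subgroup.mem_subgroupOf.2 ha)
  exact ⟨_, mem_core_of_quad_core hst hc _ h1, rfl⟩

lemma G2 {M : Subgroup G}
    (hst : ∀ (P : Subgroup M) [P.Normal], IsPGroup p P → IsPStableOn p P)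
    (hc : centralizer (pCore p M : Set M) ≤ pCore p M)
    {A : Subgroup G} (hAM : A ≤ M) (hA : ∀ x ∈ A, ∀ y ∈ A, x * y = y * x)
    (hZ : ZZof p M ≤ normalizer (A : Set G)) {a : G} (ha : a ∈ A) {z : G} (hz : z ∈ ZZof p M) :
    a * z = z * a := by
  have h1 := comm_zpowers_bot (R := ZZ p M) (A := A.subgroupOf M) (subgroupOf_comm hA)
    (le_normalizer_subgroupOf hZ) (a := ⟨a, hAM ha⟩) (Subgroup.mem_subgroupOf.2 ha)
  have h2 := quad_ZZ hst hc _ h1
  obtain ⟨z', hz', rfl⟩ := hz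
  have h3 := Subgroup.mem_centralizer_iff.mp h2 z' hz'
  exact (congrArg Subtype.val h3).symm

lemma G3 {M : Subgroup G}
    (hst : ∀ (P : Subgroup M) [P.Normal], IsPGroup p P → IsPStableOn p P)
    {V D P₀ A : Subgroup G} (hVM : V ≤ M) (hMV : M ≤ normalizer (V : Set G)) (hVp : IsPGroup p V)
    (hCD : M ⊓ centralizer (V : Set G) ≤ D) (hP₀p : IsPGroup p P₀)
    (hDP : M ⊓ D ≤ normalizer (P₀ : Set G)) (hAM : A ≤ M)
    (hA : ∀ x ∈ A, ∀ y ∈ A, x * y = y * x) (hVA : V ≤ normalizer (A : Set G))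
    {a : G} (ha : a ∈ A) (haP : a ∈ P₀) : a ∈ pCoreOf p M := by
  haveI hVn : (V.subgroupOf M).Normal :=
    (Subgroup.normal_subgroupOf_iff_le_normalizer hVM).mpr hMV
  have hVp' : IsPGroup p (V.subgroupOf M) := hVp.comap_of_injective M.subtype M.subtype_injective
  have hP' : IsPGroup p (P₀.subgroupOf M) := hP₀p.comap_of_injective M.subtype M.subtype_injective
  have hq := comm_zpowers_bot (R := V.subgroupOf M) (A := A.subgroupOf M) (subgroupOf_comm hA)
    (le_normalizer_subgroupOf (by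
      rw [Subgroup.map_subgroupOf_eq_of_le hVM]; exact hVA)) (a := ⟨a, hAM ha⟩)
    (Subgroup.mem_subgroupOf.2 ha)
  have hCD' : centralizer ((V.subgroupOf M : Subgroup M) : Set M) ≤ D.subgroupOf M := by
    intro c hc
    rw [Subgroup.mem_subgroupOf]
    apply hCD
    refine ⟨c.2, Subgroup.mem_centralizer_iff.mpr ?_⟩
    intro v hv
    have := Subgroup.mem_centralizer_iff.mp hc ⟨v, hVM hv⟩ (Subgroup.mem_subgroupOf.2 hv)
    exact congrArg Subtype.val this
  have hDP' : D.subgroupOf M ≤ normalizer ((P₀.subgroupOf M : Subgroup M) : Set M) := by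
    intro d hd
    rw [Subgroup.mem_normalizer_iff]
    intro x
    have h1 := Subgroup.mem_normalizer_iff.1 (hDP ⟨d.2, Subgroup.mem_subgroupOf.1 hd⟩) (x : G)
    simpa [Subgroup.mem_subgroupOf] using h1
  exact ⟨_, mem_core_of_quad hst hVp' hCD' hP' hDP' (Subgroup.mem_subgroupOf.2 haP) hq, rfl⟩

end GLev

section Amalgam

variable {G : Type*} [Group G] [Finite G] {p : ℕ} [Fact p.Prime]

/-- Conjugate of a subgroup. -/
abbrev cj (g : G) (H : Subgroup G) : Subgroup G := H.map (MulAut.conj g).toMonoidHom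

/-- The hypotheses on the family `M`. -/
structure Amal (p : ℕ) (M : Bool → Subgroup G) : Prop where
  hst : ∀ (t : Bool) (P : Subgroup (M t)) [P.Normal], IsPGroup p P → IsPStableOn p P
  hc : ∀ t : Bool, centralizer (pCore p (M t) : Set (M t)) ≤ pCore p (M t)
  hO : ∀ t : Bool, pCoreOf p (M t) ≤ M (!t)
  hF : ∀ (t : Bool) (A : Subgroup G), A ≠ ⊥ → A ≤ M t → A ≤ M (!t) →
    M t ≤ normalizer (A : Set G) → M (!t) ⊓ normalizer (A : Set G) ≤ M t
  hne : ∀ t : Bool, M t ≠ ⊥

variable {M : Bool → Subgroup G}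

lemma Amal.hO' (h : Amal p M) (t : Bool) : pCoreOf p (M (!t)) ≤ M t := by
  simpa using h.hO (!t)

lemma cj_comm {H : Subgroup G} (hH : ∀ x ∈ H, ∀ y ∈ H, x * y = y * x) (g : G) :
    ∀ x ∈ cj g H, ∀ y ∈ cj g H, x * y = y * x := by
  rintro _ ⟨x, hx, rfl⟩ _ ⟨y, hy, rfl⟩
  simp only [← map_mul, hH x hx y hy]

lemma cj_mul_of_norm (g : G) {m : G} {H : Subgroup G} (hm : m ∈ normalizer (H : Set G)) :
    cj (g * m) H = cj g H := by
  show H.map (MulAut.conj (g * m)).toMonoidHom = _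
  rw [map_conj_mul, mem_normalizer_iff_map.mp hm]

lemma Z_le (h : Amal p M) (t : Bool) : ZZof p (M t) ≤ pCoreOf p (M t) :=
  Subgroup.map_mono ((ZZ_le (h.hc t)).trans inf_le_left)

lemma Z_comm (h : Amal p M) (t : Bool) : ∀ x ∈ ZZof p (M t), ∀ y ∈ ZZof p (M t), x * y = y * x := by
  rintro _ ⟨x, hx, rfl⟩ _ ⟨y, hy, rfl⟩
  have hx' := (ZZ_le (h.hc t) hx).1
  have hy' := (ZZ_le (h.hc t) hy).2
  have := Subgroup.mem_centralizer_iff.mp hy' x hx'
  exact congrArg Subtype.val this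

lemma Z_norm (t : Bool) : M t ≤ normalizer (ZZof p (M t) : Set G) := by
  intro m hm
  haveI : (ZZ p (M t)).Normal := ZZ_normal
  have : ZZof p (M t) ≤ normalizer (ZZof p (M t) : Set G) := by
    intro x hx; exact Subgroup.le_normalizer hx
  apply mem_normalizer_of_conj_mem
  rintro _ ⟨x, hx, rfl⟩
  exact ⟨⟨m, hm⟩ * x * (⟨m, hm⟩ : M t)⁻¹, ‹(ZZ p (M t)).Normal›.conj_mem x hx _, by simp⟩

lemma Z_ne (h : Amal p M) (t : Bool) : ZZof p (M t) ≠ ⊥ := by
  haveI : Nontrivial (M t) := (Subgroup.nontrivial_iff_ne_bot _).2 (h.hne t)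
  intro hb
  apply ZZ_ne_bot (p := p) (h.hc t)
  exact (Subgroup.map_eq_bot_iff_of_injective _ (M t).subtype_injective).1 hb

lemma Z_le' (h : Amal p M) (t : Bool) : ZZof p (M t) ≤ pCoreOf p (M (!t)) := by
  intro a ha
  exact G1 (h.hst (!t)) (h.hc (!t)) ((Z_le h t).trans (h.hO t)) (Z_comm h t)
    ((h.hO' t).trans (Z_norm t)) ha

lemma Z_le'' (h : Amal p M) (t : Bool) : ZZof p (M (!t)) ≤ pCoreOf p (M t) := by
  simpa using Z_le' h (!t)

lemma Z_conj_comm (h : Amal p M) (t : Bool) {g : G} (hg : g ∈ M (!t)) {a : G}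
    (ha : a ∈ cj g (ZZof p (M t))) {z : G} (hz : z ∈ ZZof p (M t)) : a * z = z * a := by
  have hgN : g ∈ normalizer (pCoreOf p (M (!t)) : Set G) := le_normalizer_pCoreOf _ hg
  have hAQ : cj g (ZZof p (M t)) ≤ pCoreOf p (M (!t)) := by
    have := map_conj_mono g (Z_le' h t)
    rwa [mem_normalizer_iff_map.mp hgN] at this
  refine G2 (h.hst t) (h.hc t) (hAQ.trans (h.hO' t)) (cj_comm (Z_comm h t) g) ?_ ha hz
  intro z' hz'
  rw [normalizer_map_conj, mem_conj_iff]
  apply Z_norm t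
  apply h.hO' t
  have h1 := Z_le' h t hz'
  exact (Subgroup.mem_normalizer_iff.1 (inv_mem hgN) z').1 h1 |> fun h2 => by
    simpa using h2

/-- The normal closure in `M t` of the `Z` of the other group. -/
def VV (p : ℕ) (M : Bool → Subgroup G) (t : Bool) : Subgroup G :=
  ⨆ m : M t, cj (m : G) (ZZof p (M (!t)))

lemma cj_le_VV (t : Bool) {m : G} (hm : m ∈ M t) : cj m (ZZof p (M (!t))) ≤ VV p M t :=
  le_iSup (fun m : M t => cj (m : G) (ZZof p (M (!t)))) ⟨m, hm⟩

lemma Z_le_VV (t : Bool) : ZZof p (M (!t)) ≤ VV p M t := by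
  have := cj_le_VV (p := p) t (one_mem (M t))
  rwa [cj, map_conj_one] at this

lemma VV_le (h : Amal p M) (t : Bool) : VV p M t ≤ pCoreOf p (M t) := by
  refine iSup_le fun m => ?_
  have := map_conj_mono (m : G) (Z_le'' h t)
  rwa [mem_normalizer_iff_map.mp (le_normalizer_pCoreOf _ m.2)] at this

lemma VV_comm (h : Amal p M) (t : Bool) : ∀ x ∈ VV p M t, ∀ y ∈ VV p M t, x * y = y * x := by
  have key : ∀ m n : M t, ∀ a ∈ cj (m : G) (ZZof p (M (!t))), ∀ b ∈ cj (n : G) (ZZof p (M (!t))),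
      a * b = b * a := by
    rintro ⟨m, hm⟩ ⟨n, hn⟩ a ha _ ⟨z, hz, rfl⟩
    have hg : n⁻¹ * m ∈ M (!(!t)) := by
      rw [Bool.not_not]; exact mul_mem (inv_mem hn) hm
    have ha' : n⁻¹ * a * n ∈ cj (n⁻¹ * m) (ZZof p (M (!t))) := by
      obtain ⟨w, hw, rfl⟩ := ha
      refine ⟨w, hw, ?_⟩
      show (n⁻¹ * m) * w * (n⁻¹ * m)⁻¹ = n⁻¹ * (m * w * m⁻¹) * n
      group
    have h1 := Z_conj_comm h (!t) hg ha' hz
    show a * (n * z * n⁻¹) = (n * z * n⁻¹) * a
    calc a * (n * z * n⁻¹) = n * ((n⁻¹ * a * n) * z) * n⁻¹ := by group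
      _ = n * (z * (n⁻¹ * a * n)) * n⁻¹ := by rw [h1]
      _ = _ := by group
  have h1 : ∀ n : M t, VV p M t ≤ centralizer ((cj (n : G) (ZZof p (M (!t))) : Subgroup G) : Set G) := by
    intro n
    refine iSup_le fun m => ?_
    intro a ha
    rw [Subgroup.mem_centralizer_iff]
    intro b hb
    exact (key m n a ha b hb).symm
  have h2 : VV p M t ≤ centralizer ((VV p M t : Subgroup G) : Set G) := by
    refine iSup_le fun n => ?_
    rw [Subgroup.le_centralizer_iff]
    exact h1 n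
  intro x hx y hy
  exact (Subgroup.mem_centralizer_iff.mp (h2 hy) x hx)

lemma VV_norm (t : Bool) : M t ≤ normalizer (VV p M t : Set G) := by
  intro m₀ hm₀
  apply mem_normalizer_of_conj_mem
  intro x hx
  have hle : (VV p M t).map (MulAut.conj m₀).toMonoidHom ≤ VV p M t := by
    rw [VV, Subgroup.map_iSup]
    refine iSup_le fun m => ?_
    have e : ((cj (m : G) (ZZof p (M (!t)))).map (MulAut.conj m₀).toMonoidHom) =
        cj (m₀ * m : G) (ZZof p (M (!t))) := (map_conj_mul _ _ _).symm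
    rw [e]
    exact cj_le_VV t (mul_mem hm₀ m.2)
  exact hle ⟨x, hx, rfl⟩

lemma VV_ne (h : Amal p M) (t : Bool) : VV p M t ≠ ⊥ := by
  intro hb
  apply Z_ne h (!t)
  exact le_bot_iff.mp (hb ▸ Z_le_VV t)

lemma VV_cent (h : Amal p M) (t : Bool) : M t ⊓ centralizer (VV p M t : Set G) ≤ M (!t) := by
  rintro c ⟨hc1, hc2⟩
  have h1 := h.hF (!t) (ZZof p (M (!t))) (Z_ne h (!t)) ((Z_le h _).trans (pCoreOf_le _))
    ((Z_le h _).trans (h.hO _)) (Z_norm _)
  apply h1
  refine ⟨by simpa using hc1, ?_⟩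
  apply mem_normalizer_of_conj_mem
  intro z hz
  have h2 := Subgroup.mem_centralizer_iff.mp hc2 z (Z_le_VV t hz)
  have e : c * z * c⁻¹ = z := by
    rw [← h2]; group
  rwa [e]

lemma VV_le' (h : Amal p M) (t : Bool) : VV p M t ≤ pCoreOf p (M (!t)) := by
  intro a ha
  exact G1 (h.hst (!t)) (h.hc (!t)) ((VV_le h t).trans (h.hO t)) (VV_comm h t)
    ((h.hO' t).trans (VV_norm t)) ha

lemma base_local (h : Amal p M) (t : Bool) {A : Subgroup G} (hAM : A ≤ M t)
    (hA : ∀ x ∈ A, ∀ y ∈ A, x * y = y * x) (hVA : VV p M t ≤ normalizer (A : Set G))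
    {a : G} (ha : a ∈ A) (haQ : a ∈ pCoreOf p (M (!t))) : a ∈ pCoreOf p (M t) := by
  refine G3 (h.hst t) (V := VV p M t) (D := M (!t)) (P₀ := pCoreOf p (M (!t))) (A := A)
    ((VV_le h t).trans (pCoreOf_le _)) (VV_norm t)
    ((isPGroup_pCoreOf _).to_le (VV_le h t)) (VV_cent h t) (isPGroup_pCoreOf _)
    (inf_le_right.trans (le_normalizer_pCoreOf _)) hAM hA hVA ha haQ

/-! ### The coset graph -/

/-- Adjacency. -/
def Adj (M : Bool → Subgroup G) (x y : Bool × G) : Prop :=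
  y.1 = !x.1 ∧ ∃ m ∈ M x.1, ∃ n ∈ M y.1, x.2 * m = y.2 * n

lemma Adj.symm {x y : Bool × G} (h : Adj M x y) : Adj M y x := by
  obtain ⟨h1, m, hm, n, hn, e⟩ := h
  exact ⟨by simp [h1], n, hn, m, hm, e.symm⟩

/-- Walks of length `n`. -/
def W (M : Bool → Subgroup G) : ℕ → Bool × G → Bool × G → Prop
  | 0, x, y => x = y
  | n + 1, x, y => ∃ z, W M n x z ∧ Adj M z y

lemma W_cons {x z y : Bool × G} (h : Adj M x z) {n : ℕ} (hw : W M n z y) : W M (n + 1) x y := by
  induction n generalizing y with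
  | zero => exact ⟨x, rfl, (show z = y from hw) ▸ h⟩
  | succ n ih =>
    obtain ⟨z', h1, h2⟩ := hw
    exact ⟨z', ih h1, h2⟩

lemma W_first {n : ℕ} {x y : Bool × G} (hw : W M (n + 1) x y) : ∃ z, Adj M x z ∧ W M n z y := by
  induction n generalizing y with
  | zero =>
    obtain ⟨z, h1, h2⟩ := hw
    exact ⟨y, (show x = z from h1) ▸ h2, rfl⟩
  | succ n ih =>
    obtain ⟨z', h1, h2⟩ := hw
    obtain ⟨z, h3, h4⟩ := ih h1
    exact ⟨z, h3, ⟨z', h4, h2⟩⟩

lemma W_symm {n : ℕ} {x y : Bool × G} (hw : W M n x y) : W M n y x := by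
  induction n generalizing x y with
  | zero => exact (show x = y from hw).symm
  | succ n ih =>
    obtain ⟨z, h1, h2⟩ := hw
    exact W_cons h2.symm (ih h1)

lemma W_add {n k : ℕ} {x y z : Bool × G} (h1 : W M n x y) (h2 : W M k y z) : W M (n + k) x z := by
  induction k generalizing z with
  | zero => exact (show y = z from h2) ▸ h1
  | succ k ih =>
    obtain ⟨w, h3, h4⟩ := h2
    exact ⟨w, ih h3, h4⟩

/-- Left translation. -/
def LL (m : G) (x : Bool × G) : Bool × G := (x.1, m * x.2)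

lemma Adj_LL (m : G) {x y : Bool × G} (h : Adj M x y) : Adj M (LL m x) (LL m y) := by
  obtain ⟨h1, a, ha, b, hb, e⟩ := h
  refine ⟨h1, a, ha, b, hb, ?_⟩
  simp only [LL, mul_assoc, e]

lemma W_LL (m : G) {n : ℕ} {x y : Bool × G} (h : W M n x y) : W M n (LL m x) (LL m y) := by
  induction n generalizing y with
  | zero => exact congrArg (LL m) (show x = y from h)
  | succ n ih =>
    obtain ⟨z, h1, h2⟩ := h
    exact ⟨LL m z, ih h1, Adj_LL m h2⟩

/-- The vertex data. -/
def GV (M : Bool → Subgroup G) (x : Bool × G) : Subgroup G := cj x.2 (M x.1)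
/-- The vertex data. -/
def QV (p : ℕ) (M : Bool → Subgroup G) (x : Bool × G) : Subgroup G := cj x.2 (pCoreOf p (M x.1))
/-- The vertex data. -/
def VV' (p : ℕ) (M : Bool → Subgroup G) (x : Bool × G) : Subgroup G := cj x.2 (VV p M x.1)

lemma adj_Q_le_G (h : Amal p M) {x y : Bool × G} (ha : Adj M x y) : QV p M x ≤ GV M y := by
  obtain ⟨s, g⟩ := x
  obtain ⟨t, k⟩ := y
  obtain ⟨h1, m, hm, n, hn, e⟩ := ha
  simp only at h1 hm hn e
  subst h1
  have e1 : QV p M (s, g) = cj (g * m) (pCoreOf p (M s)) :=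
    (cj_mul_of_norm g (le_normalizer_pCoreOf _ hm)).symm
  have e2 : GV M (!s, k) = cj (g * m) (M (!s)) := by
    rw [e]
    exact (cj_mul_of_norm k (Subgroup.le_normalizer hn)).symm
  rw [e1, e2]
  exact map_conj_mono _ (h.hO s)

lemma adj_V_le_Q (h : Amal p M) {x y : Bool × G} (ha : Adj M x y) : VV' p M x ≤ QV p M y := by
  obtain ⟨s, g⟩ := x
  obtain ⟨t, k⟩ := y
  obtain ⟨h1, m, hm, n, hn, e⟩ := ha
  simp only at h1 hm hn e
  subst h1
  have e1 : VV' p M (s, g) = cj (g * m) (VV p M s) :=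
    (cj_mul_of_norm g (VV_norm s hm)).symm
  have e2 : QV p M (!s, k) = cj (g * m) (pCoreOf p (M (!s))) := by
    rw [e]
    exact (cj_mul_of_norm k (le_normalizer_pCoreOf _ hn)).symm
  rw [e1, e2]
  exact map_conj_mono _ (VV_le' h s)

lemma G_norm_V (x : Bool × G) : GV M x ≤ normalizer (VV' p M x : Set G) := by
  show cj x.2 (M x.1) ≤ normalizer ((cj x.2 (VV p M x.1) : Subgroup G) : Set G)
  rw [normalizer_map_conj]
  exact map_conj_mono _ (VV_norm _)

lemma V_comm (h : Amal p M) (x : Bool × G) : ∀ a ∈ VV' p M x, ∀ b ∈ VV' p M x, a * b = b * a :=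
  cj_comm (VV_comm h _) _

lemma step (h : Amal p M) {x y z x' : Bool × G} (h1 : VV' p M x ≤ QV p M y) (hyz : Adj M y z)
    (hxx : Adj M x x') (h2 : VV' p M z ≤ QV p M x') : VV' p M x ≤ QV p M z := by
  obtain ⟨r, k₁⟩ := y
  obtain ⟨s, k⟩ := z
  obtain ⟨hs, m, hm, n, hn, e⟩ := hyz
  simp only at hs hm hn e
  subst hs
  set u : G := k * n with hu
  have e1 : QV p M (r, k₁) = cj u (pCoreOf p (M r)) := by
    rw [← e]
    exact (cj_mul_of_norm k₁ (le_normalizer_pCoreOf _ hm)).symm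
  have e2 : QV p M (!r, k) = cj u (pCoreOf p (M (!r))) :=
    (cj_mul_of_norm k (le_normalizer_pCoreOf _ hn)).symm
  have e3 : VV' p M (!r, k) = cj u (VV p M (!r)) :=
    (cj_mul_of_norm k (VV_norm _ hn)).symm
  rw [e1] at h1
  rw [e3] at h2
  rw [e2]
  intro a ha
  have hA' : cj u⁻¹ (VV' p M x) ≤ M (!r) := by
    have h3 : cj u⁻¹ (VV' p M x) ≤ pCoreOf p (M r) := by
      have := (le_map_conj_iff u).mp h1
      exact this
    exact h3.trans (h.hO r)
  have hAQ : u⁻¹ * a * u ∈ pCoreOf p (M r) := mem_conj_iff.mp (h1 ha)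
  have ha' : u⁻¹ * a * u ∈ cj u⁻¹ (VV' p M x) := by
    refine ⟨a, ha, ?_⟩
    simp [MulAut.conj_apply]
  have hVA : VV p M (!r) ≤ normalizer ((cj u⁻¹ (VV' p M x) : Subgroup G) : Set G) := by
    intro v hv
    rw [normalizer_map_conj, mem_conj_iff]
    rw [inv_inv]
    apply G_norm_V x
    apply adj_Q_le_G h hxx.symm
    apply h2
    refine ⟨v, hv, ?_⟩
    simp [MulAut.conj_apply]
  have hr : u⁻¹ * a * u ∈ pCoreOf p (M (!(!r))) := by simpa using hAQ
  have h5 := base_local h (!r) hA' (cj_comm (V_comm h x) u⁻¹) hVA ha' hr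
  exact mem_conj_iff.mpr h5

theorem V_le_Q (h : Amal p M) : ∀ (n : ℕ) (x y : Bool × G), W M n x y → VV' p M x ≤ QV p M y := by
  have h1 : ∀ (n : ℕ) (x y : Bool × G), W M (n + 1) x y → VV' p M x ≤ QV p M y := by
    intro n
    induction n with
    | zero =>
      rintro x y ⟨z, hz, hzy⟩
      have : x = z := hz
      subst this
      exact adj_V_le_Q h hzy
    | succ n ih =>
      intro x z hw
      obtain ⟨y, hxy, hyz⟩ := id hw
      obtain ⟨x', hxx, hxz⟩ := W_first hw
      exact step h (ih x y hxy) hyz hxx (ih z x' (W_symm hxz))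
  rintro n x y hw
  cases n with
  | zero =>
    have : x = y := hw
    subst this
    exact map_conj_mono _ (VV_le h _)
  | succ n => exact h1 n x y hw

theorem amal_false (h : Amal p M) (hne' : M true ≠ M false) : False := by
  let x₀ : Bool × G := (true, 1)
  let R : Set (Bool × G) := {x | ∃ n, W M n x₀ x}
  have hmem : ∀ x ∈ R, ∀ y ∈ R, VV' p M x ≤ QV p M y := by
    rintro x ⟨n, hn⟩ y ⟨k, hk⟩
    exact V_le_Q h _ x y (W_add (W_symm hn) hk)
  let N : Subgroup G := ⨆ x : R, VV' p M x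
  have hNle : ∀ y ∈ R, N ≤ QV p M y := fun y hy => iSup_le fun x => hmem x x.2 y hy
  have hx₀ : x₀ ∈ R := ⟨0, rfl⟩
  have hadj : Adj M x₀ (false, 1) :=
    ⟨rfl, 1, one_mem _, 1, one_mem _, rfl⟩
  have hx₁ : ((false, 1) : Bool × G) ∈ R := ⟨1, x₀, rfl, hadj⟩
  have hNt : N ≤ pCoreOf p (M true) := by
    have := hNle x₀ hx₀
    have e : QV p M x₀ = pCoreOf p (M true) := map_conj_one _
    rwa [e] at this
  have hNf : N ≤ pCoreOf p (M false) := by
    have := hNle (false, 1) hx₁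
    have e : QV p M (false, 1) = pCoreOf p (M false) := map_conj_one _
    rwa [e] at this
  have hL : ∀ t : Bool, ∀ m ∈ M t, ∀ x ∈ R, LL m x ∈ R := by
    rintro t m hm x ⟨n, hn⟩
    have h1 : W M 2 x₀ (LL m x₀) := by
      cases t with
      | true =>
        refine ⟨(false, m), ⟨x₀, rfl, ?_⟩, ?_⟩
        · exact ⟨rfl, m, hm, 1, one_mem _, by simp [x₀]⟩
        · exact ⟨rfl, 1, one_mem _, 1, one_mem _, by simp [x₀, LL]⟩
      | false =>
        refine ⟨(false, 1), ⟨x₀, rfl, hadj⟩, ?_⟩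
        exact ⟨rfl, m, hm, 1, one_mem _, by simp [x₀, LL]⟩
    exact ⟨2 + n, W_add h1 (W_LL m hn)⟩
  have hNnorm : ∀ t : Bool, M t ≤ normalizer (N : Set G) := by
    intro t m hm
    apply mem_normalizer_of_conj_mem
    intro y hy
    have hle : N.map (MulAut.conj m).toMonoidHom ≤ N := by
      show (⨆ x : R, VV' p M x).map (MulAut.conj m).toMonoidHom ≤ _
      rw [Subgroup.map_iSup]
      refine iSup_le fun x => ?_
      have e : (VV' p M x).map (MulAut.conj m).toMonoidHom = VV' p M (LL m x) :=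
        (map_conj_mul _ _ _).symm
      rw [e]
      exact le_iSup (fun x : R => VV' p M x) ⟨LL m x, hL t m hm x x.2⟩
    exact hle ⟨y, hy, rfl⟩
  have hNne : N ≠ ⊥ := by
    intro hb
    apply VV_ne h true
    have h1 : VV' p M x₀ ≤ N := le_iSup (fun x : R => VV' p M x) ⟨x₀, hx₀⟩
    have e : VV' p M x₀ = VV p M true := map_conj_one _
    rw [e, hb] at h1
    exact le_bot_iff.mp h1
  have hNMt : N ≤ M true := hNt.trans (pCoreOf_le _)
  have hNMf : N ≤ M false := hNf.trans (pCoreOf_le _)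
  have h1 := h.hF true N hNne hNMt hNMf (hNnorm true)
  have h2 := h.hF false N hNne hNMf hNMt (hNnorm false)
  apply hne'
  apply le_antisymm
  · intro x hx
    exact h2 ⟨hx, hNnorm true hx⟩
  · intro x hx
    exact h1 ⟨hx, hNnorm false hx⟩

end Amalgam

section Qd

variable {p : ℕ} [Fact p.Prime]

/-- `qd p` has a non-commutative `2`-subgroup. -/
lemma exists_two_subgroup (hp : p ≠ 2) :
    ∃ U : Subgroup (qd p), IsPGroup 2 U ∧ ∃ x ∈ U, ∃ y ∈ U, x * y ≠ y * x := by
  classical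
  obtain ⟨a, b, hab⟩ := ZMod.sq_add_sq p (-1)
  let mI : Matrix.SpecialLinearGroup (Fin 3) (ZMod p) :=
    ⟨!![0, 1, 0; -1, 0, 0; 0, 0, 1], by simp [Matrix.det_fin_three]⟩
  let mJ : Matrix.SpecialLinearGroup (Fin 3) (ZMod p) :=
    ⟨!![a, b, 0; b, -a, 0; 0, 0, 1], by
      simp [Matrix.det_fin_three]
      linear_combination -hab⟩
  have hI : mI ∈ qd p := by
    refine Subgroup.subset_closure ⟨?_, ?_, ?_⟩ <;> simp [mI]
  have hJ : mJ ∈ qd p := by
    refine Subgroup.subset_closure ⟨?_, ?_, ?_⟩ <;> simp [mJ]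
  have hII : (mI * mI) * (mI * mI) = 1 := by
    apply Subtype.ext
    simp only [Matrix.SpecialLinearGroup.coe_mul, Matrix.SpecialLinearGroup.coe_one]
    ext i j
    fin_cases i <;> fin_cases j <;>
      simp [mI, Matrix.mul_apply, Fin.sum_univ_three]
  have hJJ : mJ * mJ = mI * mI := by
    apply Subtype.ext
    simp only [Matrix.SpecialLinearGroup.coe_mul]
    ext i j
    fin_cases i <;> fin_cases j <;>
      simp [mI, mJ, Matrix.mul_apply, Fin.sum_univ_three] <;>
      first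
        | ring1
        | linear_combination hab
  have hIJI : mI * mJ * mI = mJ := by
    apply Subtype.ext
    simp only [Matrix.SpecialLinearGroup.coe_mul]
    ext i j
    fin_cases i <;> fin_cases j <;>
      simp [mI, mJ, Matrix.mul_apply, Fin.sum_univ_three]
  have hne : mI * mI ≠ 1 := by
    intro h
    have h1 := congrArg (fun g : Matrix.SpecialLinearGroup (Fin 3) (ZMod p) =>
      (g : Matrix (Fin 3) (Fin 3) (ZMod p)) 0 0) h
    simp only [Matrix.SpecialLinearGroup.coe_mul, Matrix.SpecialLinearGroup.coe_one] at h1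
    simp [mI, Matrix.mul_apply, Fin.sum_univ_three] at h1
    haveI : Fact (2 < p) := ⟨by
      have := (Fact.out : p.Prime).two_le
      omega⟩
    exact ZMod.neg_one_ne_one h1
  let I' : qd p := ⟨mI, hI⟩
  let J' : qd p := ⟨mJ, hJ⟩
  have hII' : (I' * I') * (I' * I') = 1 := Subtype.ext hII
  have hJJ' : J' * J' = I' * I' := Subtype.ext hJJ
  have hIJI' : I' * J' * I' = J' := Subtype.ext hIJI
  have hp4 : ∀ z : qd p, (z * z) * (z * z) = 1 → IsPGroup 2 (zpowers z) := by
    intro z hz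
    have hz4 : z ^ (2 ^ 2) = 1 := by
      rw [show (2 : ℕ) ^ 2 = 1 + 1 + (1 + 1) by norm_num, pow_add, pow_add, pow_one]
      exact hz
    rw [isPGroup_iff_pow_pow_eq_one]
    rintro ⟨w, n, rfl⟩
    refine ⟨2, ?_⟩
    apply Subtype.ext
    show (z ^ n) ^ (2 ^ 2) = 1
    rw [← zpow_natCast, ← zpow_mul, mul_comm, zpow_mul, zpow_natCast, hz4, one_zpow]
  have hJnorm : zpowers J' ≤ normalizer ((zpowers I' : Subgroup (qd p)) : Set (qd p)) := by
    rw [zpowers_le]
    apply mem_normalizer_of_conj_mem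
    rintro _ ⟨n, rfl⟩
    have e0 : J' * I' * J'⁻¹ = I'⁻¹ := by
      have e1 : J' * I' = I'⁻¹ * J' := by
        calc J' * I' = I'⁻¹ * (I' * J' * I') := by group
          _ = I'⁻¹ * J' := by rw [hIJI']
      rw [e1]; group
    show J' * I' ^ n * J'⁻¹ ∈ zpowers I'
    rw [← conj_zpow, e0]
    exact zpow_mem (inv_mem (mem_zpowers I')) n
  refine ⟨zpowers J' ⊔ zpowers I', ?_, I', ?_, J', ?_, ?_⟩
  · exact IsPGroup.to_sup_of_normal_right' (hp4 J' (by rw [hJJ']; exact hII')) (hp4 I' hII') hJnorm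
  · exact (le_sup_right : zpowers I' ≤ _) (mem_zpowers I')
  · exact (le_sup_left : zpowers J' ≤ _) (mem_zpowers J')
  · intro hc
    apply hne
    have h1 : mI * mJ = mJ * mI := congrArg Subtype.val hc
    have h2 : mJ * (mI * mI) = mJ := by
      calc mJ * (mI * mI) = (mJ * mI) * mI := by group
        _ = (mI * mJ) * mI := by rw [h1]
        _ = mJ := hIJI
    simpa using h2

/-- A group with commutative Sylow `2`-subgroups does not involve `Qd(p)`, `p` odd. -/
theorem not_involves_qd (hp : p ≠ 2) {X : Type*} [Group X] [Finite X]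
    (hX : ∀ S : Sylow 2 X, IsMulCommutative (S : Subgroup X)) : ¬ Cfsg.Involves (qd p) X := by
  rintro ⟨K, R, hR, ⟨e⟩⟩
  obtain ⟨U, hU, x, hx, y, hy, hxy⟩ := exists_two_subgroup (p := p) hp
  let f : K →* qd p := e.toMonoidHom.comp (QuotientGroup.mk' (R.subgroupOf K))
  have hf : Function.Surjective f := e.surjective.comp (QuotientGroup.mk'_surjective _)
  let S : Sylow 2 K := Classical.arbitrary _
  have hSG : IsPGroup 2 ((S : Subgroup K).map K.subtype) := S.isPGroup'.map K.subtype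
  obtain ⟨Q, hQ⟩ := hSG.exists_le_sylow
  have hSc : ∀ x ∈ (S : Subgroup K), ∀ y ∈ (S : Subgroup K), x * y = y * x := by
    intro x hx y hy
    have hx' : (x : X) ∈ (Q : Subgroup X) := hQ ⟨x, hx, rfl⟩
    have hy' : (y : X) ∈ (Q : Subgroup X) := hQ ⟨y, hy, rfl⟩
    obtain ⟨⟨hcomm⟩⟩ := hX Q
    have := hcomm ⟨_, hx'⟩ ⟨_, hy'⟩
    apply Subtype.ext
    exact congrArg (fun z : (Q : Subgroup X) => (z : X)) this
  let S' : Sylow 2 (qd p) := S.mapSurjective hf
  have hS'c : ∀ x ∈ (S' : Subgroup (qd p)), ∀ y ∈ (S' : Subgroup (qd p)), x * y = y * x := by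
    rintro _ ⟨x, hx, rfl⟩ _ ⟨y, hy, rfl⟩
    rw [← map_mul, hSc x hx y hy, map_mul]
  obtain ⟨P, hP⟩ := hU.exists_le_sylow
  have hPc := Cfsg.Agent.Lib.Invol2.QdFree.sylow_comm_of_conj S' hS'c P
  obtain ⟨⟨hcomm⟩⟩ := hPc
  have := hcomm ⟨x, hP hx⟩ ⟨y, hP hy⟩
  exact hxy (congrArg (fun z : (P : Subgroup (qd p)) => (z : qd p)) this)

end Qd

section Final

variable {G : Type*} [Group G] [Finite G] {p : ℕ} [Fact p.Prime]

lemma eq_bot_of_core_bot {M : Subgroup G} (hc : centralizer (pCore p M : Set M) ≤ pCore p M)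
    (h : pCoreOf p M = ⊥) : M = ⊥ := by
  have h1 : pCore p M = ⊥ :=
    (Subgroup.map_eq_bot_iff_of_injective _ M.subtype_injective).1 h
  rw [h1] at hc
  rw [eq_bot_iff]
  intro x hx
  have h2 : (⟨x, hx⟩ : M) ∈ centralizer (((⊥ : Subgroup M) : Subgroup M) : Set M) := by
    rw [Subgroup.mem_centralizer_iff]
    intro y hy
    have : y = 1 := by simpa using hy
    simp [this]
  have h3 := hc h2
  rw [Subgroup.mem_bot] at h3 ⊢
  exact congrArg Subtype.val h3

lemma le_core_of_comm_sylow {M : Subgroup G} (hc : centralizer (pCore p M : Set M) ≤ pCore p M)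
    (hS : ∀ S : Sylow p M, IsMulCommutative (S : Subgroup M)) {R : Subgroup G} (hRM : R ≤ M)
    (hR : IsPGroup p R) : R ≤ pCoreOf p M := by
  have hR' : IsPGroup p (R.subgroupOf M) := hR.comap_of_injective M.subtype M.subtype_injective
  obtain ⟨S, hRS⟩ := hR'.exists_le_sylow
  have hSc : (S : Subgroup M) ≤ pCore p M := by
    intro s hs
    apply hc
    rw [Subgroup.mem_centralizer_iff]
    intro q hq
    obtain ⟨⟨hcomm⟩⟩ := hS S
    have := hcomm ⟨q, pCore_le_sylow S hq⟩ ⟨s, hs⟩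
    exact congrArg Subtype.val this
  intro r hr
  exact ⟨⟨r, hRM hr⟩, hSc (hRS (Subgroup.mem_subgroupOf.2 hr)), rfl⟩

end Final

/-- Two distinct subgroups M₁, M₂ of G form a primitive pair when, for {i, j} = {1, 2}, every non-trivial normal subgroup A of M_i contained in M₁ ∩ M₂ satisfies N_{M_j}(A) = M₁ ∩ M₂; the pair has characteristic p when moreover C_{M_i}(O_p(M_i)) ≤ O_p(M_i) for both i and O_p(M₁)O_p(M₂) ≤ M₁ ∩ M₂. If the finite group G has a primitive pair (M₁, M₂) of characteristic p for some prime p, then M₁ or M₂ has non-abelian Sylow 2-subgroups. In particular no group of odd order has a primitive pair of characteristic p. -/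
theorem result {G : Type*} [Group G] [Finite G] {p : ℕ} [Fact p.Prime] (M₁ M₂ : Subgroup G) (hne : M₁ ≠ M₂) (hP : ∀ A : Subgroup G, A ≠ ⊥ → A ≤ M₁ ⊓ M₂ → (M₁ ≤ Subgroup.normalizer (A : Set G) → M₂ ⊓ Subgroup.normalizer (A : Set G) = M₁ ⊓ M₂) ∧ (M₂ ≤ Subgroup.normalizer (A : Set G) → M₁ ⊓ Subgroup.normalizer (A : Set G) = M₁ ⊓ M₂)) (hc₁ : Subgroup.centralizer (Cfsg.pCore p ↥M₁ : Set ↥M₁) ≤ Cfsg.pCore p ↥M₁) (hc₂ : Subgroup.centralizer (Cfsg.pCore p ↥M₂ : Set ↥M₂) ≤ Cfsg.pCore p ↥M₂) (hO : (Cfsg.pCore p ↥M₁).map M₁.subtype ⊔ (Cfsg.pCore p ↥M₂).map M₂.subtype ≤ M₁ ⊓ M₂) : (∃ S : Sylow 2 ↥M₁, ¬ IsMulCommutative (S : Subgroup ↥M₁)) ∨ (∃ S : Sylow 2 ↥M₂, ¬ IsMulCommutative (S : Subgroup ↥M₂)) := by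
  classical
  by_contra hcon
  push Not at hcon
  obtain ⟨h₁, h₂⟩ := hcon
  let M : Bool → Subgroup G := fun t => cond t M₁ M₂
  have hcM : ∀ t : Bool, centralizer (pCore p (M t) : Set (M t)) ≤ pCore p (M t) := by
    intro t; cases t
    · exact hc₂
    · exact hc₁
  have hOM : ∀ t : Bool, pCoreOf p (M t) ≤ M (!t) := by
    intro t; cases t
    · exact (le_sup_right.trans hO).trans inf_le_left
    · exact (le_sup_left.trans hO).trans inf_le_right
  have hFM : ∀ (t : Bool) (A : Subgroup G), A ≠ ⊥ → A ≤ M t → A ≤ M (!t) →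
      M t ≤ normalizer (A : Set G) → M (!t) ⊓ normalizer (A : Set G) ≤ M t := by
    intro t A hA h1 h2 h3; cases t
    · have := (hP A hA (le_inf h2 h1)).2 h3
      rw [show M (!false) ⊓ normalizer (A : Set G) = M₁ ⊓ normalizer (A : Set G) from rfl, this]
      exact inf_le_right
    · have := (hP A hA (le_inf h1 h2)).1 h3
      rw [show M (!true) ⊓ normalizer (A : Set G) = M₂ ⊓ normalizer (A : Set G) from rfl, this]
      exact inf_le_left
  have hMne : M true ≠ M false := hne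
  have hneM : ∀ t : Bool, M t ≠ ⊥ := by
    intro t ht
    have h1 : pCoreOf p (M (!t)) = ⊥ := by
      rw [eq_bot_iff]
      have h2 : pCoreOf p (M (!t)) ≤ M t := by simpa using hOM (!t)
      rwa [ht] at h2
    have h3 := eq_bot_of_core_bot (hcM (!t)) h1
    cases t
    · exact hMne (h3.trans ht.symm)
    · exact hMne (ht.trans h3.symm)
  by_cases hp : p = 2
  · subst hp
    have hS : ∀ t : Bool, ∀ S : Sylow 2 (M t), IsMulCommutative (S : Subgroup (M t)) := by
      intro t; cases t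
      · exact h₂
      · exact h₁
    have hle : ∀ t : Bool, pCoreOf 2 (M (!t)) ≤ pCoreOf 2 (M t) := by
      intro t
      refine le_core_of_comm_sylow (hcM t) (hS t) ?_ (isPGroup_pCoreOf _)
      simpa using hOM (!t)
    have heq : pCoreOf 2 (M true) = pCoreOf 2 (M false) :=
      le_antisymm (hle false) (hle true)
    have hA : pCoreOf 2 (M true) ≠ ⊥ := fun hb => hneM true (eq_bot_of_core_bot (hcM true) hb)
    have h1 := hFM true _ hA (pCoreOf_le _) (hOM true) (le_normalizer_pCoreOf _)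
    have h2 := hFM false (pCoreOf 2 (M true)) hA (heq ▸ pCoreOf_le _)
      (pCoreOf_le _) (heq ▸ le_normalizer_pCoreOf _)
    apply hMne
    apply le_antisymm
    · intro x hx
      exact h2 ⟨hx, le_normalizer_pCoreOf _ hx⟩
    · intro x hx
      refine h1 ⟨hx, ?_⟩
      rw [heq]
      exact le_normalizer_pCoreOf _ hx
  · have hfree : ∀ t : Bool, ¬ Cfsg.Involves (qd p) (M t) := by
      intro t; cases t
      · exact not_involves_qd hp h₂
      · exact not_involves_qd hp h₁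
    have hst : ∀ (t : Bool) (P : Subgroup (M t)) [P.Normal], IsPGroup p P → IsPStableOn p P :=
      fun t P _ hPp => Cfsg.Agent.Lib.ZJ.QdStable.isPStableOn_of_not_involves hp (hfree t) P hPp
    exact amal_false ⟨hst, hcM, hOM, hFM, hneM⟩ hMne

end Cfsg.Agent.S3753
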