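import Cfsg.Statements.S3754
import Mathlib
import Cfsg.Agent.Lib.CoprimeGen.Basic
import Cfsg.Agent.Lib.QuadAct.Sections
import Cfsg.Agent.Lib.PGroups.Basic
import Cfsg.Agent.Lib.Core.Residual

set_option autoImplicit false
set_option linter.unusedSectionVars false
set_option linter.unusedVariables false

open Cfsg

namespace Cfsg.Agent.S3754

open Subgroup Cfsg.Agent.Lib.Coprime.Action
open scoped commutatorElement

section Aux

variable {G : Type*} [Group G] [Finite G] {p : ℕ} [hpf : Fact p.Prime]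

/-- A `p'`-element of `N A` (with `A` a `p`-group normalizing `N`) lies in `N`. -/
theorem mem_of_coprime_of_mem_sup {A N : Subgroup G} (hA : IsPGroup p A)
    (hN : A ≤ normalizer (N : Set G)) {y : G} (hy : y ∈ N ⊔ A) (hc : (orderOf y).Coprime p) :
    y ∈ N := by
  obtain ⟨k, hk, a, ha, rfl⟩ := exists_mul_of_mem_sup hN hy
  have hpow : ∀ m : ℕ, ∃ k' ∈ N, (k * a) ^ m = k' * a ^ m := by
    intro m
    induction m with
    | zero => exact ⟨1, N.one_mem, by simp⟩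
    | succ m ih =>
      obtain ⟨k', hk', e⟩ := ih
      refine ⟨k' * (a ^ m * k * (a ^ m)⁻¹), N.mul_mem hk' (conj_mem_of_le_normalizer hN (A.pow_mem ha m) hk), ?_⟩
      rw [pow_succ, e, pow_succ]
      group
  obtain ⟨k', hk', e⟩ := hpow (orderOf (k * a))
  rw [pow_orderOf_eq_one] at e
  have h1 : a ^ orderOf (k * a) ∈ N := by
    have : a ^ orderOf (k * a) = k'⁻¹ := by
      rw [eq_inv_iff_mul_eq_one, mul_comm_of_eq_one e.symm]
    rw [this]
    exact N.inv_mem hk'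
  obtain ⟨t, ht⟩ := hA ⟨a, ha⟩
  have ht' : a ^ p ^ t = 1 := congrArg Subtype.val ht
  have hc' : (orderOf (k * a)).Coprime (p ^ t) := Nat.Coprime.pow_right t hc
  have h2 : a ∈ N := by
    have hgcd := Nat.gcd_eq_gcd_ab (orderOf (k * a)) (p ^ t)
    rw [hc'.gcd_eq_one] at hgcd
    have h3 : a = (a ^ orderOf (k * a)) ^ (Nat.gcdA (orderOf (k * a)) (p ^ t)) := by
      have h4 : a ^ ((orderOf (k * a) : ℤ) * Nat.gcdA (orderOf (k * a)) (p ^ t) +
          ((p ^ t : ℕ) : ℤ) * Nat.gcdB (orderOf (k * a)) (p ^ t)) = a := by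
        rw [← hgcd]
        simp
      rw [zpow_add, zpow_mul, zpow_mul a ((p ^ t : ℕ) : ℤ), zpow_natCast, zpow_natCast, ht', one_zpow, mul_one] at h4
      exact h4.symm
    rw [h3]
    exact N.zpow_mem h1 _
  exact N.mul_mem hk h2
  where
    mul_comm_of_eq_one {x y : G} (h : x * y = 1) : y * x = 1 := by
      rw [mul_eq_one_iff_eq_inv] at h ⊢
      rw [h, inv_inv]

/-- Lifting `p'`-elements. -/
theorem exists_coprime_lift {H : Type*} [Group H] (f : G →* H) (l : G)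
    (h : (orderOf (f l)).Coprime p) :
    ∃ s : ℕ, (orderOf (l ^ s)).Coprime p ∧ f (l ^ s) = f l := by
  have hpp : p.Prime := hpf.out
  have hne : orderOf l ≠ 0 := (orderOf_pos l).ne'
  obtain ⟨k, m, hm, hkm⟩ := Nat.exists_eq_pow_mul_and_not_dvd hne p hpp.ne_one
  have hcop : (p ^ k).Coprime m := Nat.Coprime.pow_left k ((Nat.Prime.coprime_iff_not_dvd hpp).2 hm)
  have hd : orderOf (f l) ∣ m := by
    have h1 : orderOf (f l) ∣ p ^ k * m := by
      rw [← hkm]
      exact orderOf_map_dvd f l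
    exact (Nat.Coprime.pow_right k h).dvd_of_dvd_mul_left h1
  obtain ⟨s, hs0, hs1⟩ := Nat.chineseRemainder hcop 0 1
  refine ⟨s, ?_, ?_⟩
  · have h1 : (l ^ s) ^ m = 1 := by
      have hdvd : p ^ k ∣ s := (Nat.modEq_zero_iff_dvd).1 hs0
      obtain ⟨c, rfl⟩ := hdvd
      rw [← pow_mul, show p ^ k * c * m = (p ^ k * m) * c by ring, pow_mul, ← hkm, pow_orderOf_eq_one, one_pow]
    have h2 := orderOf_dvd_of_pow_eq_one h1
    exact Nat.Coprime.coprime_dvd_left h2 ((Nat.Prime.coprime_iff_not_dvd hpp).2 hm).symm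
  · rw [map_pow]
    have h1 : s ≡ 1 [MOD orderOf (f l)] := hs1.of_dvd hd
    have := (pow_eq_pow_iff_modEq (x := f l)).2 h1
    rw [this, pow_one]

/-- An element of coprime order with `p`-power order is trivial. -/
theorem eq_one_of_pow_eq_one_of_coprime {D : Subgroup G} (hD : (Nat.card D).Coprime p) {c : G}
    (hc : c ∈ D) {t : ℕ} (h : c ^ p ^ t = 1) : c = 1 := by
  have h1 : orderOf c ∣ p ^ t := orderOf_dvd_of_pow_eq_one h
  have h2 : orderOf c ∣ Nat.card D := by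
    have := Subgroup.orderOf_dvd_natCard D hc
    exact this
  have h3 : orderOf c ∣ 1 := by
    have := Nat.dvd_gcd h1 h2
    rwa [(Nat.Coprime.pow_left t hD.symm).gcd_eq_one] at this
  exact orderOf_eq_one_iff.1 (Nat.dvd_one.1 h3)

end Aux

section Bar

variable {G : Type*} [Group G] [Finite G] {p : ℕ} [hpf : Fact p.Prime]

/-- The minimality argument. -/
theorem le_closure_of_minimal {D₀ : Subgroup G} {a x : G} (ha : a ^ p = 1)
    (hcop : (Nat.card D₀).Coprime p)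
    (hmin : ∀ D : Subgroup G, D ≤ D₀ → zpowers a ≤ normalizer (D : Set G) → (∃ d ∈ D, a * d ≠ d * a) → D₀ ≤ D)
    (hD₀ : zpowers a ≤ normalizer (D₀ : Set G)) (hx : x ∈ D₀) (hax : a * x ≠ x * a) :
    D₀ ≤ closure {a, x * a * x⁻¹} := by
  set T := closure {a, x * a * x⁻¹} with hT
  have haT : a ∈ T := subset_closure (by simp)
  have hbT : x * a * x⁻¹ ∈ T := subset_closure (by simp)
  have ha' : a ∈ normalizer (D₀ : Set G) := hD₀ (mem_zpowers a)
  have hcD : a⁻¹ * (x * a * x⁻¹) ∈ D₀ := by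
    have h1 : a⁻¹ * x * a ∈ D₀ := by
      have := conj_mem_of_le_normalizer hD₀ (Subgroup.inv_mem _ (mem_zpowers a)) hx
      simpa using this
    have : a⁻¹ * (x * a * x⁻¹) = (a⁻¹ * x * a) * x⁻¹ := by group
    rw [this]
    exact D₀.mul_mem h1 (D₀.inv_mem hx)
  have hcT : a⁻¹ * (x * a * x⁻¹) ∈ T := T.mul_mem (T.inv_mem haT) hbT
  have hN : zpowers a ≤ normalizer ((T ⊓ D₀ : Subgroup G) : Set G) := by
    rw [Subgroup.le_normalizer_iff]
    intro h hh k hk
    refine ⟨?_, conj_mem_of_le_normalizer hD₀ hh hk.2⟩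
    have hhT : h ∈ T := (Subgroup.zpowers_le.2 haT) hh
    exact T.mul_mem (T.mul_mem hhT hk.1) (T.inv_mem hhT)
  have hmove : ∃ d ∈ T ⊓ D₀, a * d ≠ d * a := by
    refine ⟨_, ⟨hcT, hcD⟩, ?_⟩
    intro hcomm
    -- `a` commutes with `b = x a x⁻¹`
    set b := x * a * x⁻¹ with hb
    have hab : Commute a b := by
      have h1 : a * (a⁻¹ * b) = (a⁻¹ * b) * a := hcomm
      have h2 : b = a⁻¹ * b * a := by
        rw [← h1]
        group
      show a * b = b * a
      calc a * b = a * (a⁻¹ * b * a) := by rw [← h2]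
        _ = b * a := by group
    have hbp : b ^ p = 1 := by
      rw [hb, conj_pow, ha]
      group
    have hcp : (a⁻¹ * b) ^ p ^ 1 = 1 := by
      rw [pow_one, (hab.inv_left).mul_pow, hbp, inv_pow, ha]
      simp
    have hc1 := eq_one_of_pow_eq_one_of_coprime hcop hcD hcp
    apply hax
    have h3 : x * a * x⁻¹ = a := by
      have : a * (a⁻¹ * (x * a * x⁻¹)) = x * a * x⁻¹ := by group
      rw [← this, hc1, mul_one]
    calc a * x = (x * a * x⁻¹) * x := by rw [h3]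
      _ = x * a := by group
  exact (hmin _ inf_le_right hN hmove).trans inf_le_left

/-- The data in the quotient group. -/
theorem exists_data (Ab Kb : Subgroup G) [Kb.Normal] (hAb : Cfsg.IsElementaryAbelian p Ab)
    (hAb1 : Ab ≠ ⊥) (hKb : (Nat.card Kb).Coprime p)
    (hC : centralizer (Kb : Set G) ≤ Kb) :
    ∃ (B D₀ : Subgroup G) (a : G), B ≤ Ab ∧ B.relIndex Ab = p ∧ a ∈ Ab ∧
      (∀ y ∈ Ab, ∃ b ∈ B, ∃ k : ℕ, y = b * a ^ k) ∧ D₀ ≤ Kb ∧ D₀ ≤ centralizer (B : Set G) ∧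
      Ab ≤ normalizer (D₀ : Set G) ∧ (∃ d ∈ D₀, a * d ≠ d * a) ∧
      (∀ x ∈ D₀, a * x ≠ x * a → D₀ ≤ closure {a, x * a * x⁻¹}) := by
  classical
  have hpp : p.Prime := hpf.out
  have hAbcomm : ∀ x ∈ Ab, ∀ y ∈ Ab, x * y = y * x := by
    intro x hx y hy
    haveI := hAb.1
    have := mul_comm' (⟨x, hx⟩ : Ab) ⟨y, hy⟩
    exact congrArg Subtype.val this
  have hAbn : Ab ≤ normalizer (Kb : Set G) := by
    rw [Subgroup.le_normalizer_iff]
    intro h _ k hk
    exact ‹Kb.Normal›.conj_mem k hk h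
  have hgen := Cfsg.Agent.Lib.CoprimeGen.Basic.eq_hyperJoin hAb
    (fun hd => hpp.one_lt.ne' (Nat.Coprime.eq_one_of_dvd hKb.symm hd)) hAbn
  -- a hyperplane with nontrivial action
  have hex : ∃ B : Subgroup G, B ≤ Ab ∧ B.relIndex Ab ≤ p ∧ ∃ a ∈ Ab, ∃ d ∈ Kb ⊓ centralizer (B : Set G), a * d ≠ d * a := by
    by_contra hno
    push Not at hno
    apply hAb1
    have h1 : Kb ≤ centralizer (Ab : Set G) := by
      rw [hgen]
      apply iSup_le
      rintro ⟨B, hB1, hB2⟩ d hd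
      rw [Subgroup.mem_centralizer_iff]
      intro a ha
      exact hno B hB1 hB2 a ha d hd
    have h2 : Ab ≤ centralizer (Kb : Set G) := by
      intro a ha
      rw [Subgroup.mem_centralizer_iff]
      intro k hk
      exact (Subgroup.mem_centralizer_iff.1 (h1 hk) a ha).symm
    rw [eq_bot_iff]
    intro a ha
    have h3 := hC (h2 ha)
    have h4 : a ^ p ^ 1 = 1 := by rw [pow_one]; exact hAb.2 a ha
    rw [Subgroup.mem_bot]
    exact eq_one_of_pow_eq_one_of_coprime hKb h3 h4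
  obtain ⟨B, hB1, hB2, a, haAb, d₁, hd₁, had₁⟩ := hex
  have haB : a ∉ B := by
    intro h
    exact had₁ (Subgroup.mem_centralizer_iff.1 hd₁.2 a h)
  have hAbp : IsPGroup p Ab := by
    intro y
    refine ⟨1, Subtype.ext ?_⟩
    simpa using hAb.2 y y.2
  have hidx : B.relIndex Ab = p := by
    obtain ⟨k, hk⟩ := hAbp.index (B.subgroupOf Ab)
    have hk' : B.relIndex Ab = p ^ k := hk
    rw [hk'] at hB2 ⊢
    rcases k with _ | k
    · exfalso
      simp only [pow_zero] at hk'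
      exact haB (Subgroup.relIndex_eq_one.1 hk' haAb)
    · have h2 : k = 0 := by
        by_contra hne
        have : p ^ 1 < p ^ (k + 1) := Nat.pow_lt_pow_right hpp.one_lt (by omega)
        rw [pow_one] at this
        omega
      subst h2
      simp
  -- decomposition of elements of `Ab`
  have hdec : ∀ y ∈ Ab, ∃ b ∈ B, ∃ k : ℕ, y = b * a ^ k := by
    intro y hy
    have hBn : (B.subgroupOf Ab).Normal := by
      constructor
      intro n hn g
      show (g : G) * n * (g : G)⁻¹ ∈ B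
      rw [hAbcomm g g.2 n n.2]
      have hn' : (n : G) ∈ B := hn
      simpa using hn'
    have hcard : Nat.card (Ab ⧸ B.subgroupOf Ab) = p := by
      rw [← hidx]
      rfl
    have h1 : (QuotientGroup.mk ⟨a, haAb⟩ : Ab ⧸ B.subgroupOf Ab) ≠ 1 := by
      intro h
      exact haB ((QuotientGroup.eq_one_iff (⟨a, haAb⟩ : Ab)).1 h)
    have h2 := mem_zpowers_of_prime_card hcard (g := QuotientGroup.mk ⟨a, haAb⟩)
      (g' := QuotientGroup.mk ⟨y, hy⟩) h1
    rw [mem_powers_iff_mem_zpowers.symm] at h2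
    obtain ⟨k, hk⟩ := h2
    refine ⟨y * (a ^ k)⁻¹, ?_, k, by group⟩
    have h3 : (QuotientGroup.mk (⟨y, hy⟩ * (⟨a, haAb⟩ ^ k)⁻¹ : Ab) : Ab ⧸ B.subgroupOf Ab) = 1 := by
      rw [QuotientGroup.mk_mul, QuotientGroup.mk_inv, QuotientGroup.mk_pow]
      simp only at hk
      rw [hk, mul_inv_cancel]
    have h4 := (QuotientGroup.eq_one_iff _).1 h3
    exact h4
  -- minimal subgroup
  have hstart : Kb ⊓ centralizer (B : Set G) ∈
      {D : Subgroup G | D ≤ Kb ⊓ centralizer (B : Set G) ∧ zpowers a ≤ normalizer (D : Set G) ∧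
        ∃ d ∈ D, a * d ≠ d * a} := by
    refine ⟨le_rfl, ?_, d₁, hd₁, had₁⟩
    rw [Subgroup.le_normalizer_iff]
    intro h hh k hk
    have hhAb : h ∈ Ab := Subgroup.zpowers_le.2 haAb hh
    refine ⟨‹Kb.Normal›.conj_mem k hk.1 h, ?_⟩
    show h * k * h⁻¹ ∈ centralizer (B : Set G)
    rw [Subgroup.mem_centralizer_iff]
    intro b hb
    have h1 := Subgroup.mem_centralizer_iff.1 hk.2 b hb
    have h2 := hAbcomm h hhAb b (hB1 hb)
    have h3 : b * h⁻¹ = h⁻¹ * b := by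
      calc b * h⁻¹ = h⁻¹ * (h * b) * h⁻¹ := by group
        _ = h⁻¹ * (b * h) * h⁻¹ := by rw [h2]
        _ = h⁻¹ * b := by group
    calc b * (h * k * h⁻¹) = (b * h) * k * h⁻¹ := by group
      _ = (h * b) * k * h⁻¹ := by rw [h2]
      _ = h * (b * k) * h⁻¹ := by group
      _ = h * (k * b) * h⁻¹ := by rw [h1]
      _ = h * k * (b * h⁻¹) := by group
      _ = h * k * (h⁻¹ * b) := by rw [h3]
      _ = h * k * h⁻¹ * b := by group
  obtain ⟨D₀, hD₀min⟩ := (Set.toFinite {D : Subgroup G | D ≤ Kb ⊓ centralizer (B : Set G) ∧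
    zpowers a ≤ normalizer (D : Set G) ∧ ∃ d ∈ D, a * d ≠ d * a}).exists_minimal ⟨_, hstart⟩
  obtain ⟨hD₁, hD₂, hD₃⟩ := hD₀min.1
  have hD₀K : D₀ ≤ Kb := hD₁.trans inf_le_left
  have hD₀C : D₀ ≤ centralizer (B : Set G) := hD₁.trans inf_le_right
  have hD₀cop : (Nat.card D₀).Coprime p :=
    Nat.Coprime.coprime_dvd_left (Subgroup.card_dvd_of_le hD₀K) hKb
  refine ⟨B, D₀, a, hB1, hidx, haAb, hdec, hD₀K, hD₀C, ?_, hD₃, ?_⟩
  · rw [Subgroup.le_normalizer_iff]
    intro y hy k hk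
    obtain ⟨b, hb, n, rfl⟩ := hdec y hy
    have h1 : a ^ n * k * (a ^ n)⁻¹ ∈ D₀ :=
      conj_mem_of_le_normalizer hD₂ (Subgroup.pow_mem _ (mem_zpowers a) n) hk
    have h2 : b * (a ^ n * k * (a ^ n)⁻¹) * b⁻¹ = a ^ n * k * (a ^ n)⁻¹ := by
      have := Subgroup.mem_centralizer_iff.1 (hD₀C h1) b hb
      rw [this]
      group
    have h3 : b * a ^ n * k * (b * a ^ n)⁻¹ = b * (a ^ n * k * (a ^ n)⁻¹) * b⁻¹ := by group
    rw [h3, h2]
    exact h1
  · intro x hx hax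
    apply le_closure_of_minimal (hAb.2 a haAb) hD₀cop _ hD₂ hx hax
    intro D hD hDn hDm
    exact hD₀min.2 ⟨hD.trans hD₁, hDn, hDm⟩ hD

end Bar

section Main

variable {M : Type*} [Group M] [Finite M] {p : ℕ} [hpf : Fact p.Prime]

/-- `O^p(L)` viewed in the ambient group. -/
noncomputable def Res (p : ℕ) (L : Subgroup M) : Subgroup M := (Cfsg.pResidual p ↥L).map L.subtype

theorem mem_Res {L : Subgroup M} {y : M} (hy : y ∈ L) (hc : (orderOf y).Coprime p) : y ∈ Res p L := by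
  refine ⟨⟨y, hy⟩, Subgroup.subset_closure ?_, rfl⟩
  show (orderOf (⟨y, hy⟩ : L)).Coprime p
  rwa [Subgroup.orderOf_mk]

theorem Res_le_of_forall {L N : Subgroup M} (h : ∀ y ∈ L, (orderOf y).Coprime p → y ∈ N) :
    Res p L ≤ N := by
  apply (Subgroup.map_le_iff_le_comap).2
  apply (Subgroup.closure_le _).2
  intro g hg
  have hg' : (orderOf g).Coprime p := hg
  rw [← Subgroup.orderOf_coe] at hg'
  exact h g g.2 hg'

theorem Res_le (L : Subgroup M) : Res p L ≤ L := Subgroup.map_subtype_le _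

theorem le_normalizer_Res (L : Subgroup M) : L ≤ normalizer (Res p L : Set M) := by
  rw [Subgroup.le_normalizer_iff]
  rintro h hh _ ⟨g, hg, rfl⟩
  have hn : (Cfsg.pResidual p ↥L).Normal := Cfsg.Agent.Lib.Core.Residual.pResidual_normal
  exact ⟨⟨h, hh⟩ * g * (⟨h, hh⟩ : L)⁻¹, hn.conj_mem g hg _, rfl⟩

end Main

theorem result {M : Type*} [Group M] [Finite M] {p : ℕ} [Fact p.Prime] (hM : Cfsg.IsPSolvable p M) (A : Subgroup M) (hA : IsPGroup p A) (hΦ : (frattini ↥A).map A.subtype ≤ Cfsg.pCore p M) (hnot : ¬ A ≤ Cfsg.pCore p M) : ∃ x ∈ (Cfsg.pPrimeCore p (M ⧸ Cfsg.pCore p M)).comap (QuotientGroup.mk' (Cfsg.pCore p M)), x ∈ (Cfsg.pResidual p ↥(A ⊔ A.map (MulAut.conj x).toMonoidHom)).map (A ⊔ A.map (MulAut.conj x).toMonoidHom).subtype ∧ (Cfsg.pResidual p ↥(A ⊔ A.map (MulAut.conj x).toMonoidHom)).map (A ⊔ A.map (MulAut.conj x).toMonoidHom).subtype ≤ (Cfsg.pPrimeCore p (M ⧸ Cfsg.pCore p M)).comap (QuotientGroup.mk' (Cfsg.pCore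 p M)) ∧ ⁅(Cfsg.pResidual p ↥(A ⊔ A.map (MulAut.conj x).toMonoidHom)).map (A ⊔ A.map (MulAut.conj x).toMonoidHom).subtype, A⁆ = (Cfsg.pResidual p ↥(A ⊔ A.map (MulAut.conj x).toMonoidHom)).map (A ⊔ A.map (MulAut.conj x).toMonoidHom).subtype ∧ (A ⊓ (Cfsg.pCore p ↥(A ⊔ A.map (MulAut.conj x).toMonoidHom)).map (A ⊔ A.map (MulAut.conj x).toMonoidHom).subtype).relIndex A = p ∧ ⁅A ⊓ (Cfsg.pCore p ↥(A ⊔ A.map (MulAut.conj x).toMonoidHom)).map (A ⊔ A.map (MulAut.conj x).toMonoidHom).subtype, A ⊔ A.map (MulAut.conj x).toMonoidHom⁆ ≤ Cfsg.pCore p M := by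
  classical
  have hpp : p.Prime := Fact.out
  set P := Cfsg.pCore p M with hP
  set π : M →* M ⧸ P := QuotientGroup.mk' P with hπ
  have hπs : Function.Surjective π := QuotientGroup.mk'_surjective P
  have hπ1 : ∀ y, π y = 1 ↔ y ∈ P := fun y => QuotientGroup.eq_one_iff y
  have hPp : IsPGroup p P := Cfsg.Agent.Lib.Core.Basic.pCore_isPGroup
  have hbot : Cfsg.pCore p (M ⧸ P) = ⊥ := Cfsg.Agent.Lib.Core.Basic.pCore_quotient_eq_bot
  have hS : Cfsg.IsPSolvable p (M ⧸ P) :=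
    Cfsg.Agent.Lib.Core.PSolvable.isPSolvable_of_surjective π hπs hM
  have hC := Cfsg.Agent.Lib.QuadAct.Sections.centralizer_pPrimeCore_le hS hbot
  have hKcop : (Nat.card (Cfsg.pPrimeCore p (M ⧸ P))).Coprime p :=
    Cfsg.Agent.Lib.Core.Basic.pPrimeCore_coprime
  set Kb := Cfsg.pPrimeCore p (M ⧸ P) with hKb
  set Ab := A.map π with hAb
  have hAbe : Cfsg.IsElementaryAbelian p Ab := by
    constructor
    · refine ⟨⟨?_⟩⟩
      rintro ⟨_, x, hx, rfl⟩ ⟨_, y, hy, rfl⟩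
      apply Subtype.ext
      show π x * π y = π y * π x
      have h1 : ⁅(⟨x, hx⟩ : A), (⟨y, hy⟩ : A)⁆ ∈ frattini A :=
        Cfsg.Agent.Lib.PGroups.Basic.commutator_le_frattini hA
          (Subgroup.commutator_mem_commutator (Subgroup.mem_top _) (Subgroup.mem_top _))
      have h2 : x * y * x⁻¹ * y⁻¹ ∈ P := hΦ ⟨_, h1, rfl⟩
      have h3 := (hπ1 _).2 h2
      simp only [map_mul, map_inv] at h3
      calc π x * π y = (π x * π y * (π x)⁻¹ * (π y)⁻¹) * (π y * π x) := by group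
        _ = π y * π x := by rw [h3, one_mul]
    · rintro _ ⟨x, hx, rfl⟩
      have h1 := Cfsg.Agent.Lib.PGroups.Basic.pow_mem_frattini hA (⟨x, hx⟩ : A)
      have h2 : x ^ p ∈ P := hΦ ⟨_, h1, rfl⟩
      have h3 := (hπ1 _).2 h2
      rwa [map_pow] at h3
  have hAbp : IsPGroup p Ab := by
    intro y
    refine ⟨1, Subtype.ext ?_⟩
    simpa using hAbe.2 y y.2
  have hAb1 : Ab ≠ ⊥ := by
    intro h
    apply hnot
    intro y hy
    rw [← hπ1]
    have : π y ∈ Ab := ⟨y, hy, rfl⟩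
    rw [h, Subgroup.mem_bot] at this
    exact this
  obtain ⟨B, D₀, a, hBAb, hBi, haAb, hdec, hD₀K, hD₀C, hAbD₀, ⟨d₀, hd₀, had₀⟩, hclos⟩ :=
    exists_data Ab Kb hAbe hAb1 hKcop hC
  have hD₀cop : (Nat.card D₀).Coprime p :=
    Nat.Coprime.coprime_dvd_left (Subgroup.card_dvd_of_le hD₀K) hKcop
  have hAbcomm : ∀ x ∈ Ab, ∀ y ∈ Ab, x * y = y * x := by
    intro x hx y hy
    haveI := hAbe.1
    have := mul_comm' (⟨x, hx⟩ : Ab) ⟨y, hy⟩
    exact congrArg Subtype.val this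
  obtain ⟨α₀, hα₀, hα₀a⟩ := haAb
  have hα₀a' : π α₀ = a := hα₀a
  -- the subgroups `L x`
  let L : M → Subgroup M := fun x => A ⊔ A.map (MulAut.conj x).toMonoidHom
  have hAL : ∀ x, A ≤ L x := fun x => le_sup_left
  have hconjL : ∀ x, ∀ α ∈ A, x * α * x⁻¹ ∈ L x := fun x α hα =>
    Subgroup.mem_sup_right ⟨α, hα, rfl⟩
  have hLmap1 : ∀ x, π x ∈ D₀ → a * π x ≠ π x * a → D₀ ≤ (L x).map π := by
    intro x hx hax
    refine (hclos _ hx hax).trans ?_
    apply (Subgroup.closure_le _).2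
    rintro y (rfl | rfl)
    · exact ⟨α₀, hAL x hα₀, hα₀a⟩
    · refine ⟨x * α₀ * x⁻¹, hconjL x α₀ hα₀, ?_⟩
      simp only [map_mul, map_inv, hα₀a']
  have hLmap2 : ∀ x, π x ∈ D₀ → (L x).map π ≤ D₀ ⊔ Ab := by
    intro x hx
    show (A ⊔ A.map (MulAut.conj x).toMonoidHom).map π ≤ D₀ ⊔ Ab
    rw [Subgroup.map_sup]
    apply sup_le le_sup_right
    rintro _ ⟨_, ⟨α, hα, rfl⟩, rfl⟩
    have hαb : π α ∈ Ab := ⟨α, hα, rfl⟩
    have e : π ((MulAut.conj x).toMonoidHom α) = (π x * (π α * (π x)⁻¹ * (π α)⁻¹)) * π α := by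
      show π (x * α * x⁻¹) = _
      simp only [map_mul, map_inv]
      group
    rw [e]
    refine Subgroup.mul_mem _ (Subgroup.mem_sup_left (D₀.mul_mem hx ?_)) (Subgroup.mem_sup_right hαb)
    exact conj_mem_of_le_normalizer hAbD₀ hαb (D₀.inv_mem hx)
  have hRes2 : ∀ x, π x ∈ D₀ → (Res p (L x)).map π ≤ D₀ := by
    intro x hx
    apply (Subgroup.map_le_iff_le_comap).2
    apply Res_le_of_forall
    intro y hy hc
    show π y ∈ D₀
    apply mem_of_coprime_of_mem_sup hAbp hAbD₀ (hLmap2 x hx ⟨y, hy, rfl⟩)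
    exact Nat.Coprime.coprime_dvd_left (orderOf_map_dvd π y) hc
  have hRes1 : ∀ x, D₀ ≤ (L x).map π → D₀ ≤ (Res p (L x)).map π := by
    intro x h d hd
    obtain ⟨l, hl, rfl⟩ := h hd
    have hc : (orderOf (π l)).Coprime p :=
      Nat.Coprime.coprime_dvd_left (Subgroup.orderOf_dvd_natCard D₀ hd) hD₀cop
    obtain ⟨s, hs1, hs2⟩ := exists_coprime_lift π l hc
    exact ⟨l ^ s, mem_Res ((L x).pow_mem hl s) hs1, hs2⟩
  -- the minimal choice
  obtain ⟨x₁, hx₁⟩ := hπs d₀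
  obtain ⟨Y, hYmin⟩ := (Set.toFinite {Y : Subgroup M | ∃ x, π x ∈ D₀ ∧ a * π x ≠ π x * a ∧ Y = L x}).exists_minimal
    ⟨L x₁, x₁, by rw [hx₁]; exact hd₀, by rw [hx₁]; exact had₀, rfl⟩
  obtain ⟨x₀, hx₀, hx₀a, rfl⟩ := hYmin.1
  obtain ⟨w, hwR, hwπ⟩ := hRes1 x₀ (hLmap1 x₀ hx₀ hx₀a) hx₀
  have hwL : w ∈ L x₀ := Res_le _ hwR
  have hwD : π w ∈ D₀ := by rw [hwπ]; exact hx₀
  have hwa : a * π w ≠ π w * a := by rw [hwπ]; exact hx₀a
  have hLw : L w = L x₀ := by
    have hle : L w ≤ L x₀ := by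
      apply sup_le (hAL x₀)
      rintro _ ⟨α, hα, rfl⟩
      exact (L x₀).mul_mem ((L x₀).mul_mem hwL (hAL x₀ hα)) ((L x₀).inv_mem hwL)
    exact le_antisymm hle (hYmin.2 ⟨w, hwD, hwa, rfl⟩ hle)
  have hwRw : w ∈ Res p (L w) := by rw [hLw]; exact hwR
  have hπLC : ∀ l ∈ L w, ∀ b ∈ B, π l * b = b * π l := by
    intro l hl b hb
    have h1 : π l ∈ D₀ ⊔ Ab := hLmap2 w hwD ⟨l, hl, rfl⟩
    have h2 : D₀ ⊔ Ab ≤ centralizer (B : Set (M ⧸ P)) := by
      apply sup_le hD₀C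
      intro y hy
      rw [Subgroup.mem_centralizer_iff]
      intro b' hb'
      exact hAbcomm b' (hBAb hb') y hy
    exact (Subgroup.mem_centralizer_iff.1 (h2 h1) b hb).symm
  have hDL : D₀ ≤ (L w).map π := hLmap1 w hwD hwa
  -- the `p`-core of `L w`
  have hJ1 : ∀ y ∈ A, π y ∈ B → y ∈ (Cfsg.pCore p ↥(L w)).map (L w).subtype := by
    intro y hy hyB
    set N : Subgroup ↥(L w) := (B.comap π).subgroupOf (L w) with hN
    have hNn : N.Normal := by
      constructor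
      intro n hn g
      show π ((g : M) * n * (g : M)⁻¹) ∈ B
      have hn' : π (n : M) ∈ B := hn
      have h1 := hπLC g g.2 _ hn'
      simp only [map_mul, map_inv]
      rw [h1]
      simpa using hn'
    have hNp : IsPGroup p N := by
      rintro ⟨n, hn⟩
      have hn' : π (n : M) ∈ B := hn
      have h1 : (π (n : M)) ^ p = 1 := hAbe.2 _ (hBAb hn')
      have h2 : (n : M) ^ p ∈ P := (hπ1 _).1 (by rw [map_pow]; exact h1)
      obtain ⟨t, ht⟩ := hPp ⟨_, h2⟩
      refine ⟨t + 1, ?_⟩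
      apply Subtype.ext
      apply Subtype.ext
      have ht' : ((n : M) ^ p) ^ p ^ t = 1 := congrArg Subtype.val ht
      show (n : M) ^ p ^ (t + 1) = 1
      rw [pow_succ', pow_mul]
      exact ht'
    have hle := Cfsg.Agent.Lib.Core.Basic.le_pCore hNn hNp
    exact ⟨⟨y, hAL w hy⟩, hle hyB, rfl⟩
  have hJ2 : ∀ y ∈ A, y ∈ (Cfsg.pCore p ↥(L w)).map (L w).subtype → π y ∈ B := by
    rintro y hy ⟨j, hj, rfl⟩
    set y := ((L w).subtype j) with hyy
    have hyb : π y ∈ Ab := ⟨y, hy, rfl⟩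
    have hcommD : ∀ d ∈ D₀, π y * d = d * π y := by
      intro d hd
      obtain ⟨l, hl, rfl⟩ := hDL hd
      set c : ↥(L w) := j * (⟨l, hl⟩ * j⁻¹ * (⟨l, hl⟩ : L w)⁻¹) with hc
      have hcJ : c ∈ Cfsg.pCore p ↥(L w) :=
        Subgroup.mul_mem _ hj ((Cfsg.pCore_normal p _).conj_mem _ (Subgroup.inv_mem _ hj) _)
      obtain ⟨t, ht⟩ := (Cfsg.Agent.Lib.Core.Basic.pCore_isPGroup (p := p) (G := ↥(L w))) ⟨c, hcJ⟩
      have ht' : c ^ p ^ t = 1 := congrArg Subtype.val ht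
      have ht'' : (c : M) ^ p ^ t = 1 := by
        have := congrArg Subtype.val ht'
        simpa using this
      have hce : (c : M) = y * l * y⁻¹ * l⁻¹ := by
        simp [hc, hyy, mul_assoc]
      have h1 : π (c : M) ∈ D₀ := by
        rw [hce]
        simp only [map_mul, map_inv]
        exact D₀.mul_mem (conj_mem_of_le_normalizer hAbD₀ hyb hd) (D₀.inv_mem hd)
      have h2 : (π (c : M)) ^ p ^ t = 1 := by rw [← map_pow, ht'', map_one]
      have h3 := eq_one_of_pow_eq_one_of_coprime hD₀cop h1 h2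
      rw [hce] at h3
      simp only [map_mul, map_inv] at h3
      calc π y * π l = (π y * π l * (π y)⁻¹ * (π l)⁻¹) * (π l * π y) := by group
        _ = π l * π y := by rw [h3, one_mul]
    obtain ⟨b, hb, k, hk⟩ := hdec _ hyb
    have hak : a ^ k * d₀ = d₀ * a ^ k := by
      have h1 := hcommD d₀ hd₀
      have h2 : b * d₀ = d₀ * b := (Subgroup.mem_centralizer_iff.1 (hD₀C hd₀) b hb)
      rw [hk] at h1
      have h3 : b * (a ^ k * d₀) = b * (d₀ * a ^ k) := by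
        calc b * (a ^ k * d₀) = d₀ * (b * a ^ k) := by rw [← mul_assoc, h1]
          _ = (d₀ * b) * a ^ k := by group
          _ = b * (d₀ * a ^ k) := by rw [← h2]; group
      exact mul_left_cancel h3
    by_cases hpk : p ∣ k
    · obtain ⟨m, rfl⟩ := hpk
      have : a ^ (p * m) = 1 := by rw [pow_mul, hAbe.2 a ⟨α₀, hα₀, hα₀a⟩, one_pow]
      rw [hk, this, mul_one]
      exact hb
    · exfalso
      apply had₀
      have hcop : k.Coprime p := ((Nat.Prime.coprime_iff_not_dvd hpp).2 hpk).symm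
      have hgcd := Nat.gcd_eq_gcd_ab k p
      rw [hcop.gcd_eq_one] at hgcd
      have h3 : a = (a ^ k) ^ (Nat.gcdA k p) := by
        have h4 : a ^ ((k : ℤ) * Nat.gcdA k p + (p : ℤ) * Nat.gcdB k p) = a := by
          rw [← hgcd]
          simp
        rw [zpow_add, zpow_mul, zpow_mul a (p : ℤ), zpow_natCast, zpow_natCast,
          hAbe.2 a ⟨α₀, hα₀, hα₀a⟩, one_zpow, mul_one] at h4
        exact h4.symm
      have hc : Commute (a ^ k) d₀ := hak
      rw [h3]
      exact (hc.zpow_left _).eq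
  have hinf : A ⊓ (Cfsg.pCore p ↥(L w)).map (L w).subtype = A ⊓ B.comap π := by
    ext y
    constructor
    · rintro ⟨h1, h2⟩
      exact ⟨h1, hJ2 y h1 h2⟩
    · rintro ⟨h1, h2⟩
      exact ⟨h1, hJ1 y h1 h2⟩
  have hfinal4 : ⁅Res p (L w), A⁆ = Res p (L w) := by
    set R := Res p (L w) with hR
    have hRn := le_normalizer_Res (p := p) (L w)
    apply le_antisymm
    · rw [Subgroup.commutator_le]
      intro r hr α hα
      have : r * α * r⁻¹ * α⁻¹ = r * (α * r⁻¹ * α⁻¹) := by group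
      rw [commutatorElement_def, this]
      exact R.mul_mem hr (conj_mem_of_le_normalizer hRn (hAL w hα) (R.inv_mem hr))
    · have hAR' : A ≤ normalizer ((⁅R, A⁆ : Subgroup M) : Set M) := by
        rw [Subgroup.le_normalizer_iff]
        intro α hα k hk
        have h1 : (⁅R, A⁆ : Subgroup M).map (MulAut.conj α).toMonoidHom ≤ ⁅R, A⁆ := by
          rw [Subgroup.map_commutator]
          apply Subgroup.commutator_mono
          · rintro _ ⟨r, hr, rfl⟩
            exact conj_mem_of_le_normalizer hRn (hAL w hα) hr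
          · rintro _ ⟨β, hβ, rfl⟩
            exact A.mul_mem (A.mul_mem hα hβ) (A.inv_mem hα)
        exact h1 ⟨k, hk, rfl⟩
      have hLR : L w ≤ ⁅R, A⁆ ⊔ A := by
        apply sup_le le_sup_right
        rintro _ ⟨α, hα, rfl⟩
        have e : (MulAut.conj w).toMonoidHom α = (w * α * w⁻¹ * α⁻¹) * α := by
          show w * α * w⁻¹ = _
          group
        rw [e]
        exact Subgroup.mul_mem _ (Subgroup.mem_sup_left
          (Subgroup.commutator_mem_commutator hwRw hα)) (Subgroup.mem_sup_right hα)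
      apply Res_le_of_forall
      intro y hy hc
      exact mem_of_coprime_of_mem_sup hA hAR' (hLR hy) hc
  refine ⟨w, hD₀K hwD, hwRw, ?_, hfinal4, ?_, ?_⟩
  · exact (Subgroup.map_le_iff_le_comap).1 ((hRes2 w hwD).trans hD₀K)
  · show (A ⊓ (Cfsg.pCore p ↥(L w)).map (L w).subtype).relIndex A = p
    rw [hinf, Subgroup.inf_relIndex_left, Subgroup.relIndex_comap]
    exact hBi
  · show ⁅A ⊓ (Cfsg.pCore p ↥(L w)).map (L w).subtype, L w⁆ ≤ P
    rw [Subgroup.commutator_le]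
    rintro u ⟨huA, huJ⟩ l hl
    rw [← hπ1]
    have h1 := hJ2 u huA huJ
    have h2 := hπLC l hl _ h1
    rw [commutatorElement_def]
    simp only [map_mul, map_inv]
    rw [← h2]
    group

end Cfsg.Agent.S3754
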