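import Cfsg.Statements.S3755
import Mathlib
import Cfsg.Agent.Lib.CoprimeGen.Basic
import Cfsg.Agent.Lib.PReduced.DihedralSection
import Cfsg.Agent.Lib.Coprime.Complement
import Cfsg.Agent.Lib.Coprime.Abelian

set_option autoImplicit false
set_option linter.unusedSectionVars false
set_option linter.unusedVariables false

open Cfsg

namespace Cfsg.Agent.S3755

open Subgroup Cfsg.Agent.Lib.Coprime.Action
open scoped commutatorElement

variable {X : Type*} [Group X] [Finite X]

/-- Inverted elements of order three give `S₃`. -/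
theorem involves_of_inverted_three {G : Type*} [Group G] [Finite G] {a y : G}
    (ha : a ^ 2 = 1) (ha1 : a ≠ 1) (hy : y ^ 3 = 1) (hy1 : y ≠ 1) (hay : a * y * a⁻¹ = y⁻¹) :
    Cfsg.Involves (Equiv.Perm (Fin 3)) G := by
  classical
  haveI : Fact (Nat.Prime 3) := ⟨by norm_num⟩
  have h1 := Cfsg.Agent.Lib.PReduced.DihedralSection.involves_of_inverted (p := 3) (by norm_num)
    (x := a) (y := y) ⟨1, by rw [pow_one]; exact orderOf_eq_prime ha ha1⟩
    ⟨1, by rw [pow_one]; exact orderOf_eq_prime hy hy1⟩ hy1 hay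
  let a3 : Equiv.Perm (Fin 3) := ⟨![1, 2, 0], ![2, 0, 1], by decide, by decide⟩
  let b3 : Equiv.Perm (Fin 3) := ⟨![1, 0, 2], ![1, 0, 2], by decide, by decide⟩
  have hgen3 : closure ({a3, b3} : Set (Equiv.Perm (Fin 3))) = ⊤ := by
    have hall : ∀ σ : Equiv.Perm (Fin 3), ∃ (i : Fin 3) (j : Fin 2), σ = a3 ^ i.val * b3 ^ j.val := by
      decide +kernel
    rw [eq_top_iff]
    intro σ _
    obtain ⟨i, j, rfl⟩ := hall σ
    exact mul_mem (pow_mem (subset_closure (by simp)) _) (pow_mem (subset_closure (by simp)) _)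
  obtain ⟨ι⟩ := Cfsg.Agent.Lib.PReduced.DihedralSection.nonempty_dihedral_of_closure (p := 3)
    (a := a3) (b := b3) (by decide) (by decide) (by decide) (by decide) (by decide) (by decide) hgen3
  obtain ⟨K, R, hR, ⟨e⟩⟩ := h1
  exact ⟨K, R, hR, ⟨e.trans ι.symm⟩⟩

theorem le_normalizer_commutator {H U Z : Subgroup X} (hU : H ≤ normalizer (U : Set X))
    (hZ : H ≤ normalizer (Z : Set X)) : H ≤ normalizer ((⁅U, Z⁆ : Subgroup X) : Set X) := by
  rw [Subgroup.le_normalizer_iff]
  intro h hh k hk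
  have h1 : (⁅U, Z⁆ : Subgroup X).map (MulAut.conj h).toMonoidHom ≤ ⁅U, Z⁆ := by
    rw [Subgroup.map_commutator]
    apply Subgroup.commutator_mono
    · rintro _ ⟨r, hr, rfl⟩
      exact conj_mem_of_le_normalizer hU hh hr
    · rintro _ ⟨β, hβ, rfl⟩
      exact conj_mem_of_le_normalizer hZ hh hβ
  exact h1 ⟨k, hk, rfl⟩

/-- A dihedral action on an elementary abelian `2`-group without fixed points of `x`. -/
theorem four_le_relIndex (W₀ : Subgroup X) {a x : X} {r : ℕ} (hr : r.Prime) (hr5 : 5 ≤ r)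
    (hW₀ : IsPGroup 2 W₀) (hW₀c : ∀ u ∈ W₀, ∀ v ∈ W₀, u * v = v * u)
    (hx : x ^ r = 1) (ha : a ^ 2 = 1) (hax : a * x * a⁻¹ = x⁻¹)
    (hW₀a : ∀ w ∈ W₀, a * w * a⁻¹ ∈ W₀) (hW₀x : ∀ w ∈ W₀, x * w * x⁻¹ ∈ W₀)
    (hfpf : ∀ w ∈ W₀, x * w = w * x → w = 1) (hW₁ : W₀ ≠ ⊥) :
    4 ≤ (W₀ ⊓ centralizer ({a} : Set X)).relIndex W₀ := by
  classical
  set C := W₀ ⊓ centralizer ({a} : Set X) with hC
  have hrcop : ∀ t, 0 < t → t < 5 → Nat.Coprime t r := by
    intro t h0 h5
    apply Nat.Coprime.symm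
    rw [Nat.Prime.coprime_iff_not_dvd hr]
    intro hd
    have := Nat.le_of_dvd h0 hd
    omega
  have hcomm_of_pow : ∀ (t : ℕ) (u : X), Nat.Coprime t r → x ^ t * u = u * x ^ t → x * u = u * x := by
    intro t u hc h
    have hgcd := Nat.gcd_eq_gcd_ab t r
    rw [hc.gcd_eq_one] at hgcd
    have h3 : x = (x ^ t) ^ (Nat.gcdA t r) := by
      have h4 : x ^ ((t : ℤ) * Nat.gcdA t r + (r : ℤ) * Nat.gcdB t r) = x := by
        rw [← hgcd]
        simp
      rw [zpow_add, zpow_mul, zpow_mul x (r : ℤ), zpow_natCast, zpow_natCast, hx, one_zpow, mul_one] at h4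
      exact h4.symm
    have hc' : Commute (x ^ t) u := h
    rw [h3]
    exact (hc'.zpow_left _).eq
  -- `W₀` is large
  have hlarge : 5 ≤ Nat.card W₀ := by
    obtain ⟨w₀, hw₀⟩ := (Subgroup.ne_bot_iff_exists_ne_one).1 hW₁
    have hw₀1 : (w₀ : X) ≠ 1 := fun h => hw₀ (Subtype.ext h)
    have hconj : ∀ i : ℕ, x ^ i * (w₀ : X) * (x ^ i)⁻¹ ∈ W₀ := by
      intro i
      induction i with
      | zero => simpa using w₀.2
      | succ i ih =>
        have := hW₀x _ ih
        have e : x ^ (i + 1) * (w₀ : X) * (x ^ (i + 1))⁻¹ = x * (x ^ i * (w₀ : X) * (x ^ i)⁻¹) * x⁻¹ := by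
          rw [pow_succ']
          group
        rw [e]
        exact this
    let f : Fin 5 → W₀ := fun i => ⟨x ^ i.val * (w₀ : X) * (x ^ i.val)⁻¹, hconj i⟩
    have hlt : ∀ i j : ℕ, i < j → j < 5 → x ^ i * (w₀ : X) * (x ^ i)⁻¹ ≠ x ^ j * (w₀ : X) * (x ^ j)⁻¹ := by
      intro i j hij hj h
      obtain ⟨t, rfl⟩ : ∃ t, j = i + t := ⟨j - i, by omega⟩
      have h1 : x ^ t * (w₀ : X) = (w₀ : X) * x ^ t := by
        have h2 : x ^ i * ((w₀ : X) * (x ^ t * (x ^ t)⁻¹)) * (x ^ i)⁻¹ = x ^ i * (x ^ t * (w₀ : X) * (x ^ t)⁻¹) * (x ^ i)⁻¹ := by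
          simpa [pow_add, mul_assoc] using h
        have h3 : (w₀ : X) * (x ^ t * (x ^ t)⁻¹) = x ^ t * (w₀ : X) * (x ^ t)⁻¹ := by
          have := mul_right_cancel (mul_left_cancel (a := x ^ i) (by simpa [mul_assoc] using h2 : x ^ i * (((w₀ : X) * (x ^ t * (x ^ t)⁻¹)) * (x ^ i)⁻¹) = x ^ i * ((x ^ t * (w₀ : X) * (x ^ t)⁻¹) * (x ^ i)⁻¹)))
          exact this
        rw [mul_inv_cancel, mul_one] at h3
        calc x ^ t * (w₀ : X) = (x ^ t * (w₀ : X) * (x ^ t)⁻¹) * x ^ t := by group
          _ = (w₀ : X) * x ^ t := by rw [← h3]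
      have h4 := hcomm_of_pow t _ (hrcop t (by omega) (by omega)) h1
      exact hw₀1 (hfpf _ w₀.2 h4)
    have hinj : Function.Injective f := by
      intro i j hij
      have hij' : x ^ i.val * (w₀ : X) * (x ^ i.val)⁻¹ = x ^ j.val * (w₀ : X) * (x ^ j.val)⁻¹ :=
        congrArg Subtype.val hij
      by_contra hne
      rcases Fin.lt_or_lt_of_ne hne with h | h
      · exact hlt _ _ h j.2 hij'
      · exact hlt _ _ h i.2 hij'.symm
    have := Nat.card_le_card_of_injective f hinj
    simpa using this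
  -- `C ∩ xC = 1`
  set C' := C.map (MulAut.conj x).toMonoidHom with hC'
  have hC'W : C' ≤ W₀ := by
    rintro _ ⟨w, hw, rfl⟩
    exact hW₀x w hw.1
  have hinf : C ⊓ C' = ⊥ := by
    rw [eq_bot_iff]
    rintro u ⟨huC, ⟨w, hw, rfl⟩⟩
    rw [Subgroup.mem_bot]
    set u := (MulAut.conj x).toMonoidHom w with hu
    have hue : u = x * w * x⁻¹ := rfl
    have h1 : a * u = u * a := (Subgroup.mem_centralizer_singleton_iff.1 huC.2).symm
    have h2 : a * w = w * a := (Subgroup.mem_centralizer_singleton_iff.1 hw.2).symm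
    have hax' : a * x = x⁻¹ * a := by
      calc a * x = (a * x * a⁻¹) * a := by group
        _ = x⁻¹ * a := by rw [hax]
    have hax'' : a * x⁻¹ = x * a := by
      have : a * x⁻¹ * a⁻¹ = x := by
        have h5 : a * x⁻¹ * a⁻¹ = (a * x * a⁻¹)⁻¹ := by group
        rw [h5, hax, inv_inv]
      calc a * x⁻¹ = (a * x⁻¹ * a⁻¹) * a := by group
        _ = x * a := by rw [this]
    -- compute `a u a⁻¹` in two ways
    have h3 : a * (x * w * x⁻¹) * a⁻¹ = (a * x * a⁻¹) * (a * w * a⁻¹) * (a * x * a⁻¹)⁻¹ := by group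
    have h4 : a * w * a⁻¹ = w := by rw [h2]; group
    have h5 : a * u * a⁻¹ = u := by rw [h1]; group
    rw [h4, hax, inv_inv, ← hue, h5] at h3
    have h6 : x ^ 2 * w = w * x ^ 2 := by
      calc x ^ 2 * w = x * (x * w * x⁻¹) * x := by rw [pow_two]; group
        _ = x * (x⁻¹ * w * x) * x := by rw [← hue, h3]
        _ = w * x ^ 2 := by rw [pow_two]; group
    have h7 := hcomm_of_pow 2 w (hrcop 2 (by omega) (by omega)) h6
    have h8 := hfpf w hw.1 h7
    rw [hue, h8]
    group
  have hcle : Nat.card C ≤ C.relIndex W₀ := by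
    have h1 : C.relIndex C' = Nat.card C' := by
      rw [← Subgroup.inf_relIndex_right, hinf, Subgroup.relIndex_bot_left]
    have h2 : Nat.card C' = Nat.card C :=
      Subgroup.card_map_of_injective (MulAut.conj x).injective
    rw [← h2, ← h1]
    exact Subgroup.relIndex_le_of_le_right hC'W Subgroup.FiniteIndex.index_ne_zero
  have hCW : C ≤ W₀ := inf_le_left
  have hcard := Cfsg.Agent.Lib.Coprime.Action.card_eq_card_mul_relIndex hCW
  obtain ⟨k, hk⟩ := hW₀.index (C.subgroupOf W₀)
  have hk' : C.relIndex W₀ = 2 ^ k := hk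
  by_contra hlt
  have hk1 : k < 2 := by
    by_contra hge
    apply hlt
    rw [hk']
    calc 4 = 2 ^ 2 := by norm_num
      _ ≤ 2 ^ k := Nat.pow_le_pow_right (by norm_num) (by omega)
  have h2 : C.relIndex W₀ ≤ 2 := by
    rw [hk']
    calc 2 ^ k ≤ 2 ^ 1 := Nat.pow_le_pow_right (by norm_num) (by omega)
      _ = 2 := by norm_num
  have h3 : Nat.card W₀ ≤ 4 := by
    rw [hcard]
    calc Nat.card C * C.relIndex W₀ ≤ 2 * 2 := Nat.mul_le_mul (hcle.trans h2) h2
      _ = 4 := by norm_num
  omega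

/-- The main estimate. -/
theorem main (M V : Subgroup X) (hV : Cfsg.IsElementaryAbelian 2 V)
    (hMV : M ≤ Subgroup.normalizer (V : Set X)) (hfaith : M ⊓ Subgroup.centralizer (V : Set X) = ⊥)
    (hcon : Subgroup.centralizer (Cfsg.pPrimeCore 2 ↥M : Set ↥M) ≤ Cfsg.pPrimeCore 2 ↥M)
    (hno : ¬ Cfsg.Involves (Equiv.Perm (Fin 3)) ↥M) (n : ℕ) :
    ∀ A : Subgroup X, Nat.card A = n → A ≤ M → Cfsg.IsElementaryAbelian 2 A →
      Nat.card A ^ 2 ≤ (V ⊓ Subgroup.centralizer (A : Set X)).relIndex V := by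
  classical
  haveI : Fact (Nat.Prime 2) := ⟨Nat.prime_two⟩
  induction n using Nat.strong_induction_on with
  | _ n ih =>
    intro A hAn hAM hA
    by_cases hA1 : A = ⊥
    · subst hA1
      simp only [Subgroup.card_bot, one_pow]
      exact Nat.pos_of_ne_zero Subgroup.FiniteIndex.index_ne_zero
    set Kx : Subgroup X := (Cfsg.pPrimeCore 2 ↥M).map M.subtype with hKx
    have hKxM : Kx ≤ M := Subgroup.map_subtype_le _
    have hKodd : (Nat.card Kx).Coprime 2 := by
      rw [hKx, Subgroup.card_map_of_injective M.subtype_injective]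
      exact Cfsg.Agent.Lib.Core.Basic.pPrimeCore_coprime
    have hMK : M ≤ normalizer (Kx : Set X) := by
      rw [Subgroup.le_normalizer_iff]
      rintro h hh _ ⟨k, hk, rfl⟩
      have hn : (Cfsg.pPrimeCore 2 ↥M).Normal := Cfsg.pPrimeCore_normal 2 _
      exact ⟨⟨h, hh⟩ * k * (⟨h, hh⟩ : M)⁻¹, hn.conj_mem k hk _, rfl⟩
    have hAbcomm : ∀ x ∈ A, ∀ y ∈ A, x * y = y * x := by
      intro x hx y hy
      haveI := hA.1
      have := mul_comm' (⟨x, hx⟩ : A) ⟨y, hy⟩
      exact congrArg Subtype.val this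
    have hAp : IsPGroup 2 A := by
      intro y
      refine ⟨1, Subtype.ext ?_⟩
      simpa using hA.2 y y.2
    have hgen := Cfsg.Agent.Lib.CoprimeGen.Basic.eq_hyperJoin hA
      (fun hd => Nat.prime_two.one_lt.ne' (Nat.Coprime.eq_one_of_dvd hKodd.symm hd))
      (hAM.trans hMK)
    have hex : ∃ B : Subgroup X, B ≤ A ∧ B.relIndex A ≤ 2 ∧ ∃ a ∈ A, ∃ d ∈ Kx ⊓ centralizer (B : Set X), a * d ≠ d * a := by
      by_contra hno'
      push Not at hno'
      apply hA1
      have h1 : Kx ≤ centralizer (A : Set X) := by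
        rw [hgen]
        apply iSup_le
        rintro ⟨B, hB1, hB2⟩ d hd
        rw [Subgroup.mem_centralizer_iff]
        intro a ha
        exact hno' B hB1 hB2 a ha d hd
      rw [eq_bot_iff]
      intro a ha
      rw [Subgroup.mem_bot]
      have h3 : (⟨a, hAM ha⟩ : M) ∈ Subgroup.centralizer (Cfsg.pPrimeCore 2 ↥M : Set ↥M) := by
        rw [Subgroup.mem_centralizer_iff]
        intro k hk
        apply Subtype.ext
        have hk' : (k : X) ∈ Kx := ⟨k, hk, rfl⟩
        exact (Subgroup.mem_centralizer_iff.1 (h1 hk') a ha).symm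
      have h4 := hcon h3
      have h5 : a ∈ Kx := ⟨_, h4, rfl⟩
      have h6 : a ^ 2 = 1 := hA.2 a ha
      have h7 : orderOf a ∣ 2 := orderOf_dvd_of_pow_eq_one h6
      have h8 : orderOf a ∣ Nat.card Kx := Subgroup.orderOf_dvd_natCard Kx h5
      have h9 : orderOf a ∣ 1 := by
        have := Nat.dvd_gcd h8 h7
        rwa [hKodd.gcd_eq_one] at this
      exact orderOf_eq_one_iff.1 (Nat.dvd_one.1 h9)
    obtain ⟨B, hB1, hB2, a, haA, d, hd, had⟩ := hex
    have haB : a ∉ B := fun h => had (Subgroup.mem_centralizer_iff.1 hd.2 a h)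
    have ha2 : a ^ 2 = 1 := hA.2 a haA
    have ha1 : a ≠ 1 := fun h => haB (h ▸ B.one_mem)
    have haM : a ∈ M := hAM haA
    have hidx : B.relIndex A = 2 := by
      obtain ⟨k, hk⟩ := hAp.index (B.subgroupOf A)
      have hk' : B.relIndex A = 2 ^ k := hk
      rw [hk'] at hB2 ⊢
      rcases k with _ | k
      · exfalso
        simp only [pow_zero] at hk'
        exact haB (Subgroup.relIndex_eq_one.1 hk' haA)
      · have h2 : k = 0 := by
          by_contra hne
          have : 2 ^ 1 < 2 ^ (k + 1) := Nat.pow_lt_pow_right (by norm_num) (by omega)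
          omega
        subst h2
        simp
    have hBA_card : Nat.card A = Nat.card B * 2 := by
      rw [Cfsg.Agent.Lib.Coprime.Action.card_eq_card_mul_relIndex hB1, hidx]
    have hdec : ∀ y ∈ A, ∃ b ∈ B, y = b ∨ y = b * a := by
      intro y hy
      by_cases hyB : y ∈ B
      · exact ⟨y, hyB, Or.inl rfl⟩
      · have hBn : (B.subgroupOf A).Normal := by
          constructor
          intro n hn g
          show (g : X) * n * (g : X)⁻¹ ∈ B
          rw [hAbcomm g g.2 n n.2]
          have hn' : (n : X) ∈ B := hn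
          simpa using hn'
        have hcard : (B.subgroupOf A).index = 2 := hidx
        have h1 := (Subgroup.index_eq_two_iff.1 hcard)
        have hmem : ∀ u v : A, (u : X) ∉ B → (v : X) ∉ B → ((u : X) * (v : X)) ∈ B := by
          intro u v hu hv
          exact Subgroup.mul_mem_iff_of_index_two hcard |>.2 (by
            constructor
            · intro h; exact absurd h hu
            · intro h; exact absurd h hv) |> fun h => h
        refine ⟨y * a, hmem ⟨y, hy⟩ ⟨a, haA⟩ hyB haB, Or.inr ?_⟩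
        have : a * a = 1 := by rw [← pow_two, ha2]
        rw [mul_assoc, this, mul_one]
    -- the element `y` inverted by `a`
    set y : X := d⁻¹ * (a * d * a⁻¹) with hy
    have hdK : d ∈ Kx := hd.1
    have hdB : d ∈ centralizer (B : Set X) := hd.2
    have haKx : ∀ k ∈ Kx, a * k * a⁻¹ ∈ Kx := fun k hk =>
      conj_mem_of_le_normalizer hMK haM hk
    have hyK : y ∈ Kx := mul_mem (inv_mem hdK) (haKx d hdK)
    have haB' : ∀ b ∈ B, a * b = b * a := fun b hb => hAbcomm a haA b (hB1 hb)
    have hyB : y ∈ centralizer (B : Set X) := by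
      refine mul_mem (inv_mem hdB) ?_
      rw [Subgroup.mem_centralizer_iff]
      intro b hb
      have h1 := Subgroup.mem_centralizer_iff.1 hdB b hb
      have h2 := haB' b hb
      have h3 : a⁻¹ * b = b * a⁻¹ := by
        calc a⁻¹ * b = a⁻¹ * (b * a) * a⁻¹ := by group
          _ = a⁻¹ * (a * b) * a⁻¹ := by rw [h2]
          _ = b * a⁻¹ := by group
      calc b * (a * d * a⁻¹) = (b * a) * d * a⁻¹ := by group
        _ = a * (b * d) * a⁻¹ := by rw [← h2]; group
        _ = a * (d * b) * a⁻¹ := by rw [h1]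
        _ = a * d * (b * a⁻¹) := by group
        _ = a * d * (a⁻¹ * b) := by rw [h3]
        _ = a * d * a⁻¹ * b := by group
    have hainv : a⁻¹ = a := by
      rw [inv_eq_iff_mul_eq_one, ← pow_two, ha2]
    have hay : a * y * a⁻¹ = y⁻¹ := by
      have haa : a * a = 1 := by rw [← pow_two, ha2]
      have e1 : a * (d⁻¹ * (a * d * a⁻¹)) * a⁻¹ = a * d⁻¹ * a * d * (a * a)⁻¹ := by group
      have e2 : (d⁻¹ * (a * d * a⁻¹))⁻¹ = a * d⁻¹ * a⁻¹ * d := by group
      rw [hy, e1, e2, haa, hainv]
      simp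
    have hy1 : y ≠ 1 := by
      intro h
      apply had
      rw [hy, inv_mul_eq_one] at h
      calc a * d = (a * d * a⁻¹) * a := by group
        _ = d * a := by rw [← h]
    -- take a prime order power `x`
    have hoy : orderOf y ≠ 1 := fun h => hy1 (orderOf_eq_one_iff.1 h)
    obtain ⟨r, hr, hry⟩ := Nat.exists_prime_and_dvd hoy
    set x : X := y ^ (orderOf y / r) with hxdef
    have hoypos : 0 < orderOf y := orderOf_pos y
    have hxo : orderOf x = r := orderOf_pow_orderOf_div hoypos.ne' hry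
    have hxr : x ^ r = 1 := by rw [← hxo]; exact pow_orderOf_eq_one x
    have hx1 : x ≠ 1 := by
      intro h
      rw [h, orderOf_one] at hxo
      exact hr.one_lt.ne hxo
    have hax : a * x * a⁻¹ = x⁻¹ := by
      rw [hxdef, ← conj_pow, hay, inv_pow]
    have hxK : x ∈ Kx := pow_mem hyK _
    have hxB : x ∈ centralizer (B : Set X) := pow_mem hyB _
    have hxM : x ∈ M := hKxM hxK
    have hr2 : r ≠ 2 := by
      intro h
      have h1 : orderOf x ∣ Nat.card Kx := Subgroup.orderOf_dvd_natCard Kx hxK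
      rw [hxo, h] at h1
      have := Nat.Coprime.eq_one_of_dvd hKodd.symm h1
      omega
    have hr3 : r ≠ 3 := by
      intro h
      apply hno
      refine involves_of_inverted_three (a := (⟨a, haM⟩ : M)) (y := (⟨x, hxM⟩ : M)) ?_ ?_ ?_ ?_ ?_
      · exact Subtype.ext ha2
      · exact fun h => ha1 (congrArg Subtype.val h)
      · apply Subtype.ext
        show x ^ 3 = 1
        rw [← h]; exact hxr
      · exact fun h => hx1 (congrArg Subtype.val h)
      · exact Subtype.ext hax
    have hr5 : 5 ≤ r := by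
      have h2 := hr.two_le
      by_contra hlt
      have : r = 4 := by omega
      subst this
      exact absurd hr (by norm_num)
    -- the commutator `W = [V, x]`
    set Z : Subgroup X := zpowers x with hZ
    have hZM : Z ≤ M := by
      rw [hZ, Subgroup.zpowers_le]; exact hxM
    have hZV : Z ≤ normalizer (V : Set X) := hZM.trans hMV
    have hZcard : Nat.card Z = r := by
      rw [hZ, Nat.card_zpowers, hxo]
    have hVp : IsPGroup 2 V := by
      intro v
      refine ⟨1, Subtype.ext ?_⟩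
      simpa using hV.2 v v.2
    haveI : IsMulCommutative V := hV.1
    have hcop : (Nat.card V).Coprime (Nat.card Z) := by
      obtain ⟨k, hk⟩ := IsPGroup.iff_card.1 hVp
      rw [hk, hZcard]
      apply Nat.Coprime.pow_left
      exact (Nat.coprime_primes Nat.prime_two hr).2 (Ne.symm hr2)
    set W : Subgroup X := ⁅V, Z⁆ with hW
    have hVV : ∀ u ∈ V, ∀ v ∈ V, u * v = v * u := by
      intro u hu v hv
      have := mul_comm' (⟨u, hu⟩ : V) ⟨v, hv⟩
      exact congrArg Subtype.val this
    have hWV : W ≤ V := by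
      rw [hW, Subgroup.commutator_le]
      intro v hv z hz
      rw [commutatorElement_def]
      have h1 : z * v⁻¹ * z⁻¹ ∈ V := conj_mem_of_le_normalizer hZV hz (inv_mem hv)
      have e : v * z * v⁻¹ * z⁻¹ = v * (z * v⁻¹ * z⁻¹) := by group
      rw [e]
      exact mul_mem hv h1
    have hW1 : W ≠ ⊥ := by
      intro h
      have h1 : Z ≤ centralizer (V : Set X) := by
        have := Subgroup.commutator_eq_bot_iff_le_centralizer.1 h
        exact (Subgroup.le_centralizer_iff).1 this
      have h2 : x ∈ M ⊓ centralizer (V : Set X) := ⟨hxM, h1 (Subgroup.mem_zpowers x)⟩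
      rw [hfaith, Subgroup.mem_bot] at h2
      exact hx1 h2
    have hcop' : (Nat.card Z).Coprime (Nat.card V) := hcop.symm
    have hVC := Cfsg.Agent.Lib.Coprime.Abelian.inf_commutator_eq_bot hZV hcop'
    -- the fixed points of `B` on `W`
    have hBM : B ≤ M := hB1.trans hAM
    have hBV : B ≤ normalizer (V : Set X) := hBM.trans hMV
    have hBZ : B ≤ normalizer (Z : Set X) := by
      rw [Subgroup.le_normalizer_iff]
      intro b hb z hz
      obtain ⟨i, rfl⟩ := Subgroup.mem_zpowers_iff.1 hz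
      have h1 : b * x * b⁻¹ = x := by
        have := Subgroup.mem_centralizer_iff.1 hxB b hb
        rw [this]; group
      rw [← conj_zpow, h1]
      exact Subgroup.zpow_mem_zpowers x i
    have hBW : B ≤ normalizer (W : Set X) := le_normalizer_commutator hBV hBZ
    have hWp : IsPGroup 2 W := hVp.to_le hWV
    have hBp : IsPGroup 2 B := hAp.to_le hB1
    obtain ⟨u, huW, hu1, huC⟩ := Cfsg.Agent.Lib.Coprime.Complement.exists_ne_one_mem_centralizer hBp hWp hBW hW1
    set W₀ : Subgroup X := W ⊓ centralizer (B : Set X) with hW₀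
    have hW₀1 : W₀ ≠ ⊥ := by
      intro h
      have : u ∈ W₀ := ⟨huW, huC⟩
      rw [h, Subgroup.mem_bot] at this
      exact hu1 this
    have hW₀V : W₀ ≤ V := inf_le_left.trans hWV
    have hW₀p : IsPGroup 2 W₀ := hVp.to_le hW₀V
    have hZZ : Z ≤ normalizer (Z : Set X) := Subgroup.le_normalizer
    have hZW : Z ≤ normalizer (W : Set X) := le_normalizer_commutator hZV hZZ
    have haZ : ∀ z ∈ Z, a * z * a⁻¹ ∈ Z := by
      intro z hz
      obtain ⟨i, rfl⟩ := Subgroup.mem_zpowers_iff.1 hz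
      rw [← conj_zpow, hax]
      exact zpow_mem (inv_mem (Subgroup.mem_zpowers x)) i
    have haNZ : a ∈ normalizer (Z : Set X) := by
      rw [Subgroup.mem_normalizer_iff]
      intro z
      refine ⟨haZ z, fun h => ?_⟩
      have h1 := haZ _ h
      have e : a * (a * z * a⁻¹) * a⁻¹ = z := by
        have haa : a * a = 1 := by rw [← pow_two, ha2]
        have : a * (a * z * a⁻¹) * a⁻¹ = (a * a) * z * (a * a)⁻¹ := by group
        rw [this, haa]
        group
      rwa [e] at h1
    have hazZ : zpowers a ≤ normalizer (Z : Set X) := by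
      rw [Subgroup.zpowers_le]; exact haNZ
    have hazV : zpowers a ≤ normalizer (V : Set X) := by
      rw [Subgroup.zpowers_le]; exact hMV haM
    have hazW : zpowers a ≤ normalizer (W : Set X) := le_normalizer_commutator hazV hazZ
    have haW : ∀ w ∈ W, a * w * a⁻¹ ∈ W := fun w hw =>
      conj_mem_of_le_normalizer hazW (Subgroup.mem_zpowers a) hw
    have hf := four_le_relIndex W₀ hr hr5 hW₀p
      (fun u hu v hv => hVV u (hW₀V hu) v (hW₀V hv)) hxr ha2 hax
      ?_ ?_ ?_ hW₀1
    · -- conclusion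
      have hbB : Nat.card B < n := by
        rw [← hAn, hBA_card]
        have : 0 < Nat.card B := Nat.card_pos
        omega
      have hBel : Cfsg.IsElementaryAbelian 2 B := by
        refine ⟨⟨⟨fun u v => Subtype.ext (hAbcomm _ (hB1 u.2) _ (hB1 v.2))⟩⟩, ?_⟩
        intro u hu
        exact hA.2 u (hB1 hu)
      have hih := ih _ hbB B rfl hBM hBel
      set Y : Subgroup X := V ⊓ centralizer (B : Set X) with hY
      set D : Subgroup X := V ⊓ centralizer (A : Set X) with hD
      have hDY : D ≤ Y := inf_le_inf_left _ (Subgroup.centralizer_le hB1)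
      have hYV : Y ≤ V := inf_le_left
      have hmul := Subgroup.relIndex_mul_relIndex D Y V hDY hYV
      have hW₀Y : W₀ ≤ Y := le_inf hW₀V inf_le_right
      have hle : D.relIndex W₀ ≤ D.relIndex Y :=
        Subgroup.relIndex_le_of_le_right hW₀Y Subgroup.FiniteIndex.index_ne_zero
      have heq : (W₀ ⊓ centralizer ({a} : Set X)) = D ⊓ W₀ := by
        ext w
        constructor
        · rintro ⟨hw, hwa⟩
          refine ⟨⟨hW₀V hw, ?_⟩, hw⟩
          refine Subgroup.mem_centralizer_iff.2 ?_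
          intro y hy
          obtain ⟨b, hb, rfl | rfl⟩ := hdec y hy
          · exact Subgroup.mem_centralizer_iff.1 hw.2 _ hb
          · have h1 := Subgroup.mem_centralizer_iff.1 hw.2 _ hb
            have h2 := Subgroup.mem_centralizer_singleton_iff.1 hwa
            rw [mul_assoc, h2.symm, ← mul_assoc, h1, mul_assoc]
        · rintro ⟨hw, hw₀⟩
          refine ⟨hw₀, ?_⟩
          refine Subgroup.mem_centralizer_singleton_iff.2 ?_
          exact (Subgroup.mem_centralizer_iff.1 hw.2 a haA).symm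
      have hidxeq : (W₀ ⊓ centralizer ({a} : Set X)).relIndex W₀ = D.relIndex W₀ := by
        rw [heq, Subgroup.inf_relIndex_right]
      rw [hidxeq] at hf
      rw [← hmul, hBA_card, mul_pow]
      calc Nat.card B ^ 2 * 2 ^ 2 = 4 * Nat.card B ^ 2 := by ring
        _ ≤ D.relIndex Y * Y.relIndex V := Nat.mul_le_mul (hf.trans hle) hih
    · -- `a` acts on `W₀`
      intro w hw
      refine ⟨haW w hw.1, ?_⟩
      refine Subgroup.mem_centralizer_iff.2 ?_
      intro b hb
      have h1 := Subgroup.mem_centralizer_iff.1 hw.2 b hb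
      have h2 := haB' b hb
      have h3 : a⁻¹ * b = b * a⁻¹ := by
        calc a⁻¹ * b = a⁻¹ * (b * a) * a⁻¹ := by group
          _ = a⁻¹ * (a * b) * a⁻¹ := by rw [h2]
          _ = b * a⁻¹ := by group
      calc b * (a * w * a⁻¹) = (b * a) * w * a⁻¹ := by group
        _ = a * (b * w) * a⁻¹ := by rw [← h2]; group
        _ = a * (w * b) * a⁻¹ := by rw [h1]
        _ = a * w * (b * a⁻¹) := by group
        _ = a * w * (a⁻¹ * b) := by rw [h3]
        _ = a * w * a⁻¹ * b := by group
    · -- `x` acts on `W₀`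
      intro w hw
      refine ⟨conj_mem_of_le_normalizer hZW (Subgroup.mem_zpowers x) hw.1, ?_⟩
      refine Subgroup.mem_centralizer_iff.2 ?_
      intro b hb
      have h1 := Subgroup.mem_centralizer_iff.1 hw.2 b hb
      have h2 := Subgroup.mem_centralizer_iff.1 hxB b hb
      have h3 : x⁻¹ * b = b * x⁻¹ := by
        calc x⁻¹ * b = x⁻¹ * (b * x) * x⁻¹ := by group
          _ = x⁻¹ * (x * b) * x⁻¹ := by rw [h2]
          _ = b * x⁻¹ := by group
      calc b * (x * w * x⁻¹) = (b * x) * w * x⁻¹ := by group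
        _ = x * (b * w) * x⁻¹ := by rw [h2]; group
        _ = x * (w * b) * x⁻¹ := by rw [h1]
        _ = x * w * (b * x⁻¹) := by group
        _ = x * w * (x⁻¹ * b) := by rw [h3]
        _ = x * w * x⁻¹ * b := by group
    · -- fixed point free
      intro w hw hwx
      have h1 : w ∈ (V ⊓ centralizer (Z : Set X)) ⊓ W := by
        refine ⟨⟨hW₀V hw, ?_⟩, hw.1⟩
        refine Subgroup.mem_centralizer_iff.2 ?_
        intro z hz
        obtain ⟨i, rfl⟩ := Subgroup.mem_zpowers_iff.1 hz
        exact ((show Commute x w from hwx).zpow_left i).eq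
      rw [hVC, Subgroup.mem_bot] at h1
      exact h1

/-- Let M and V be subgroups of a finite group with V an elementary abelian 2-group, M normalizing V and acting faithfully on it (M ∩ C(V) = 1), and C_M(O_{2'}(M)) ≤ O_{2'}(M). If some elementary abelian 2-subgroup A of M satisfies |V : C_V(A)| < |A|², then M has a section isomorphic to the symmetric group of degree 3. -/
theorem result {X : Type*} [Group X] [Finite X] (M V : Subgroup X) (hV : Cfsg.IsElementaryAbelian 2 V) (hMV : M ≤ Subgroup.normalizer (V : Set X)) (hfaith : M ⊓ Subgroup.centralizer (V : Set X) = ⊥) (hcon : Subgroup.centralizer (Cfsg.pPrimeCore 2 ↥M : Set ↥M) ≤ Cfsg.pPrimeCore 2 ↥M) (A : Subgroup X) (hAM : A ≤ M) (hA : Cfsg.IsElementaryAbelian 2 A) (hsmall : (V ⊓ Subgroup.centralizer (A : Set X)).relIndex V < Nat.card A ^ 2) : Cfsg.Involves (Equiv.Perm (Fin 3)) ↥M := by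
  by_contra hno
  exact absurd (main M V hV hMV hfaith hcon hno _ A rfl hAM hA) (not_le.2 hsmall)

end Cfsg.Agent.S3755
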