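import Cfsg.Statements.S3760
import Mathlib

set_option autoImplicit false
open Cfsg

namespace Cfsg.Agent.S3760

private lemma mem_map_conj {G : Type*} [Group G] (K : Subgroup G) (g y : G) :
    y ∈ K.map (MulAut.conj g).toMonoidHom ↔ g⁻¹ * y * g ∈ K := by
  constructor
  · rintro ⟨k, hk, rfl⟩
    simpa [MulAut.conj_apply, mul_assoc] using hk
  · intro h
    refine ⟨_, h, ?_⟩
    simp [MulAut.conj_apply, mul_assoc]

private lemma mem_normalizer_of_map_eq {G : Type*} [Group G] (K : Subgroup G) (g h : G)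
    (hgh : K.map (MulAut.conj g).toMonoidHom = K.map (MulAut.conj h).toMonoidHom) :
    h⁻¹ * g ∈ Subgroup.normalizer (K : Set G) := by
  rw [Subgroup.mem_normalizer_iff]
  intro k
  have h1 : ∀ y, g⁻¹ * y * g ∈ K ↔ h⁻¹ * y * h ∈ K := by
    intro y
    rw [← mem_map_conj, hgh, mem_map_conj]
  constructor
  · intro hk
    -- (h⁻¹ g) k (h⁻¹ g)⁻¹ = h⁻¹ (g k g⁻¹) h
    have := (h1 (g * k * g⁻¹)).1 (by simpa [mul_assoc] using hk)
    simpa [mul_assoc] using this
  · intro hk
    have h2 := (h1 (g * k * g⁻¹)).2 (by simpa [mul_assoc] using hk)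
    simpa [mul_assoc] using h2

private lemma map_eq_of_mem_normalizer {G : Type*} [Group G] (K : Subgroup G) (g n : G)
    (hn : n ∈ Subgroup.normalizer (K : Set G)) :
    K.map (MulAut.conj (g * n)).toMonoidHom = K.map (MulAut.conj g).toMonoidHom := by
  ext y
  rw [mem_map_conj, mem_map_conj]
  rw [Subgroup.mem_normalizer_iff] at hn
  have h0 : (g * n)⁻¹ * y * (g * n) = n⁻¹ * (g⁻¹ * y * g) * n := by group
  rw [h0]
  have h1 := hn (n⁻¹ * (g⁻¹ * y * g) * n)
  have e : n * (n⁻¹ * (g⁻¹ * y * g) * n) * n⁻¹ = g⁻¹ * y * g := by group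
  rw [e] at h1
  exact h1

/-- Let the group G act transitively on a set X, let x ∈ X with stabilizer H = G_x, and let K ≤ H. Then N_G(K) acts transitively on the set of fixed points of K if and only if every G-conjugate of K contained in H is already an H-conjugate of K. -/
theorem result {G : Type*} [Group G] {X : Type*} [MulAction G X] (htrans : ∀ a b : X, ∃ g : G, g • a = b) (x : X) (K : Subgroup G) (hK : K ≤ MulAction.stabilizer G x) : (∀ a b : X, (∀ k ∈ K, k • a = a) → (∀ k ∈ K, k • b = b) → ∃ g ∈ Subgroup.normalizer (K : Set G), g • a = b) ↔ ∀ g : G, K.map (MulAut.conj g).toMonoidHom ≤ MulAction.stabilizer G x → ∃ h ∈ MulAction.stabilizer G x, K.map (MulAut.conj g).toMonoidHom = K.map (MulAut.conj h).toMonoidHom := by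
  constructor
  · intro hN g hg
    have h1 : ∀ k ∈ K, k • (g⁻¹ • x) = g⁻¹ • x := by
      intro k hk
      have h2 : g * k * g⁻¹ ∈ MulAction.stabilizer G x := hg ⟨k, hk, by simp [MulAut.conj_apply]⟩
      have h3 : (g * k * g⁻¹) • x = x := h2
      calc k • (g⁻¹ • x) = g⁻¹ • ((g * k * g⁻¹) • x) := by
            simp [smul_smul, mul_assoc]
        _ = g⁻¹ • x := by rw [h3]
    obtain ⟨n, hn, hnx⟩ := hN (g⁻¹ • x) x h1 (fun k hk => hK hk)
    refine ⟨g * n⁻¹, ?_, ?_⟩
    · rw [MulAction.mem_stabilizer_iff]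
      have : n⁻¹ • x = g⁻¹ • x := by
        exact inv_smul_eq_iff.2 hnx.symm
      rw [mul_smul, this]; simp
    · exact (map_eq_of_mem_normalizer K g n⁻¹ (Subgroup.inv_mem _ hn)).symm
  · intro hconj
    -- key: every fixed point can be moved to `x`
    have key : ∀ a : X, (∀ k ∈ K, k • a = a) → ∃ n ∈ Subgroup.normalizer (K : Set G), n • a = x := by
      intro a ha
      obtain ⟨u, hu⟩ := htrans x a
      have hle : K.map (MulAut.conj u⁻¹).toMonoidHom ≤ MulAction.stabilizer G x := by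
        rintro y ⟨k, hk, rfl⟩
        rw [MulAction.mem_stabilizer_iff]
        simp only [MulEquiv.coe_toMonoidHom, MulAut.conj_apply, inv_inv]
        have := ha k hk
        rw [← hu] at this
        calc (u⁻¹ * k * u) • x = u⁻¹ • (k • (u • x)) := by simp [mul_smul]
          _ = u⁻¹ • (u • x) := by rw [this]
          _ = x := by simp
      obtain ⟨h, hh, he⟩ := hconj u⁻¹ hle
      refine ⟨h⁻¹ * u⁻¹, mem_normalizer_of_map_eq K u⁻¹ h he, ?_⟩
      rw [← hu]
      have h3 : h • x = x := hh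
      calc (h⁻¹ * u⁻¹) • u • x = h⁻¹ • x := by simp [mul_smul]
        _ = h⁻¹ • (h • x) := by rw [h3]
        _ = x := by simp
    intro a b ha hb
    obtain ⟨n₁, hn₁, h₁⟩ := key a ha
    obtain ⟨n₂, hn₂, h₂⟩ := key b hb
    refine ⟨n₂⁻¹ * n₁, Subgroup.mul_mem _ (Subgroup.inv_mem _ hn₂) hn₁, ?_⟩
    rw [mul_smul, h₁, ← h₂]; simp

end Cfsg.Agent.S3760
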