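import Cfsg.Statements.S3761
import Mathlib
import Cfsg.Agent.Lib.PGroups.CyclicNormal
import Cfsg.Agent.Lib.PGroups.ClassTwo
import Cfsg.Agent.Lib.PGroups.Presentations
import Cfsg.Agent.Lib.Coprime.Action

set_option autoImplicit false
set_option linter.unusedSectionVars false
set_option linter.unusedVariables false

open Cfsg

namespace Cfsg.Agent.S3761

open Subgroup
open scoped commutatorElement
open Cfsg.Agent.Lib.PGroups.CyclicNormal Cfsg.Agent.Lib.PGroups.ClassTwo
open Cfsg.Agent.Lib.PGroups.Presentations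

section Arith

theorem odd_arith {p : ℕ} (hp : p.Prime) (hodd : p ≠ 2) {n : ℕ} {r : ℤ}
    (h : (p : ℤ) ^ n ∣ r ^ p - 1) (hn : 1 ≤ n) : (p : ℤ) ^ (n - 1) ∣ r - 1 := by
  haveI : Fact p.Prime := ⟨hp⟩
  have hpz : Prime (p : ℤ) := Nat.prime_iff_prime_int.1 hp
  have h1 : (p : ℤ) ∣ r ^ p - 1 := (dvd_pow_self _ (by omega)).trans h
  have h2 : (p : ℤ) ∣ r - 1 := by
    have h3 : ((r : ZMod p)) ^ p = 1 := by
      have := (ZMod.intCast_zmod_eq_zero_iff_dvd (r ^ p - 1) p).2 h1
      push_cast at this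
      exact sub_eq_zero.1 this
    rw [ZMod.pow_card] at h3
    have : ((r - 1 : ℤ) : ZMod p) = 0 := by
      push_cast
      rw [h3, sub_self]
    exact (ZMod.intCast_zmod_eq_zero_iff_dvd _ p).1 this
  have h3 : ¬ (p : ℤ) ∣ r := by
    intro h4
    have : (p : ℤ) ∣ 1 := by
      have := dvd_sub h4 h2
      simpa using this
    exact hpz.not_unit (isUnit_of_dvd_one this)
  have hoddp : Odd p := hp.odd_of_ne_two hodd
  have h4 := Int.emultiplicity_pow_sub_pow hp hoddp (x := r) (y := 1) (by simpa using h2) h3 p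
  rw [one_pow, Nat.Prime.emultiplicity_self hp] at h4
  have h5 : (n : ℕ∞) ≤ emultiplicity (p : ℤ) (r ^ p - 1) := le_emultiplicity_of_pow_dvd h
  rw [h4] at h5
  apply pow_dvd_of_le_emultiplicity
  obtain ⟨m, rfl⟩ : ∃ m, n = m + 1 := ⟨n - 1, by omega⟩
  simp only [Nat.add_sub_cancel]
  rcases eq_or_ne (emultiplicity (p : ℤ) (r - 1)) ⊤ with h6 | h6
  · rw [h6]; exact le_top
  · obtain ⟨k, hk⟩ := ENat.ne_top_iff_exists.1 h6
    rw [← hk] at h5 ⊢
    have : ((m + 1 : ℕ) : ℕ∞) ≤ ((k + 1 : ℕ) : ℕ∞) := by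
      push_cast
      exact_mod_cast h5
    have h7 : m + 1 ≤ k + 1 := by exact_mod_cast this
    exact_mod_cast (by omega : m ≤ k)

end Arith

variable {G : Type*} [Group G]

theorem conj_pow_of {g a : G} {r : ℤ} (h : g * a * g⁻¹ = a ^ r) (k : ℕ) :
    g ^ k * a * (g ^ k)⁻¹ = a ^ (r ^ k) := by
  induction k with
  | zero => simp
  | succ k ih =>
    have e : g ^ (k + 1) * a * (g ^ (k + 1))⁻¹ = g * (g ^ k * a * (g ^ k)⁻¹) * g⁻¹ := by
      rw [pow_succ']
      group
    rw [e, ih, conj_zpow_of h, pow_succ']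

theorem mem_of_zpow_mem {H : Subgroup G} {s : G} {p : ℕ} (hp : p.Prime) (hs : s ^ p = 1) (hs' : s ∉ H)
    {k : ℤ} (hk : s ^ k ∈ H) : s ^ k = 1 := by
  by_cases hd : (p : ℤ) ∣ k
  · obtain ⟨m, rfl⟩ := hd
    rw [zpow_mul, zpow_natCast, hs, one_zpow]
  · exfalso
    apply hs'
    have hc : IsCoprime k (p : ℤ) :=
      ((Nat.prime_iff_prime_int.1 hp).coprime_iff_not_dvd.2 hd).symm
    obtain ⟨a, b, hab⟩ := hc
    have : s = (s ^ k) ^ a := by
      have h1 : s ^ (a * k + b * p) = s := by rw [hab, zpow_one]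
      rw [zpow_add, mul_comm b, zpow_mul s (p : ℤ) b, zpow_natCast, hs, one_zpow, mul_one, mul_comm,
        zpow_mul] at h1
      exact h1.symm
    rw [this]
    exact H.zpow_mem hk a

section CaseB

variable [Finite G] {p : ℕ} [hpf : Fact p.Prime]

theorem mem_M_iff {u : G} (h : G) :
    h ∈ Subgroup.centralizer (Cfsg.powerClosure p 1 (zpowers u) : Set G) ↔ h * u ^ p = u ^ p * h := by
  constructor
  · intro hh
    have h1 : u ^ p ∈ Cfsg.powerClosure p 1 (zpowers u) :=
      Subgroup.subset_closure ⟨u, mem_zpowers u, by rw [pow_one]⟩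
    exact (Subgroup.mem_centralizer_iff.1 hh _ h1).symm
  · intro hh
    rw [Subgroup.mem_centralizer_iff]
    intro w hw
    have hle : Cfsg.powerClosure p 1 (zpowers u) ≤ Subgroup.centralizer ({h} : Set G) := by
      apply (Subgroup.closure_le _).2
      rintro y ⟨x, hx, rfl⟩
      obtain ⟨i, rfl⟩ := Subgroup.mem_zpowers_iff.1 hx
      rw [SetLike.mem_coe, Subgroup.mem_centralizer_singleton_iff, pow_one]
      have hc : Commute h (u ^ p) := hh
      have e : (u ^ i) ^ p = (u ^ p) ^ i := by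
        rw [← zpow_natCast, ← zpow_natCast, ← zpow_mul, ← zpow_mul, mul_comm]
      rw [e]
      exact (hc.zpow_right i).symm.eq
    have := Subgroup.mem_centralizer_singleton_iff.1 (hle hw)
    exact this

theorem caseB (u t : G) (n : ℕ) (hn2 : 2 ≤ n) (hord : orderOf u = p ^ n)
    (hnorm : (zpowers u).Normal) (hC : Subgroup.centralizer (zpowers u : Set G) = zpowers u)
    (hcase : p ≠ 2 ∨ 3 ≤ n) (ht : t * u ^ p = u ^ p * t) (htU : t ∉ zpowers u) :
    (zpowers u).relIndex (Subgroup.centralizer (Cfsg.powerClosure p 1 (zpowers u) : Set G)) = p ∧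
    Cfsg.IsElementaryAbelian p (Cfsg.omegaOne p (Subgroup.centralizer (Cfsg.powerClosure p 1 (zpowers u) : Set G))) ∧
    Nat.card ↥(Cfsg.omegaOne p (Subgroup.centralizer (Cfsg.powerClosure p 1 (zpowers u) : Set G))) = p ^ 2 ∧
    (Cfsg.omegaOne p (Subgroup.centralizer (Cfsg.powerClosure p 1 (zpowers u) : Set G))).Characteristic := by
  classical
  have hpp : p.Prime := hpf.out
  have hp0 : (p : ℤ) ≠ 0 := by exact_mod_cast hpp.ne_zero
  set M := Subgroup.centralizer (Cfsg.powerClosure p 1 (zpowers u) : Set G) with hM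
  have hMmem : ∀ h, h ∈ M ↔ h * u ^ p = u ^ p * h := fun h => mem_M_iff h
  obtain ⟨m, rfl⟩ : ∃ m, n = m + 2 := ⟨n - 2, by omega⟩
  set q := p ^ (m + 1) with hq
  have hpq : (p : ℤ) ^ (m + 2) = q * p := by rw [hq]; push_cast; ring
  have hu1 : ∀ i : ℤ, u ^ i = 1 ↔ (q : ℤ) * p ∣ i := by
    intro i
    rw [← orderOf_dvd_iff_zpow_eq_one, hord, ← hpq]
    push_cast
    rfl
  have hq0 : (q : ℤ) ≠ 0 := by
    rw [hq]; push_cast; exact pow_ne_zero _ hp0
  have huip : ∀ i : ℤ, u ^ (i * p) = 1 ↔ (q : ℤ) ∣ i := by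
    intro i
    rw [hu1, mul_dvd_mul_iff_right hp0]
  set z := u ^ q with hz
  have hzi : ∀ i : ℤ, z ^ i = u ^ ((q : ℤ) * i) := by
    intro i
    rw [hz, zpow_mul, zpow_natCast]
  have hzp : z ^ p = 1 := by
    rw [hz, ← pow_mul, mul_comm, ← pow_succ', ← hord]
    · exact pow_orderOf_eq_one u
  have hz1 : z ≠ 1 := by
    intro h
    have h1 := (hzi 1)
    rw [zpow_one, h, mul_one] at h1
    have h2 := (hu1 q).1 h1.symm
    have h3 : (q : ℤ) * p ∣ q * 1 := by simpa using h2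
    rw [mul_dvd_mul_iff_left hq0] at h3
    have := Int.eq_one_of_dvd_one (by positivity) h3
    have hp2 : 2 ≤ p := hpp.two_le
    omega
  have hzord : orderOf z = p := orderOf_eq_prime hzp hz1
  have hzpz : ∀ i : ℤ, z ^ i = 1 ↔ (p : ℤ) ∣ i := by
    intro i
    rw [← orderOf_dvd_iff_zpow_eq_one, hzord]
  have hzU : z ∈ zpowers u := Subgroup.pow_mem _ (mem_zpowers u) _
  -- elements of `M` commute with `z`
  have hzM : ∀ h ∈ M, h * z = z * h := by
    intro h hh
    have h1 : Commute h (u ^ p) := (hMmem h).1 hh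
    have h2 : z = (u ^ p) ^ (p ^ m) := by
      rw [hz, hq, ← pow_mul, pow_succ' p m]
    rw [h2]
    exact (h1.pow_right _).eq
  -- action of elements of `M`
  have hact : ∀ h ∈ M, ∃ e : ℤ, h * u * h⁻¹ = z ^ e * u := by
    intro h hh
    obtain ⟨r, hr⟩ := exists_conj_eq_zpow hnorm h
    have h1 : h * u ^ (p : ℤ) * h⁻¹ = u ^ (r * p) := conj_zpow_of hr p
    have h2 : h * u ^ (p : ℤ) * h⁻¹ = u ^ (p : ℤ) := by
      rw [zpow_natCast, (hMmem h).1 hh]
      group
    rw [h2] at h1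
    have h3 : u ^ ((r - 1) * p) = 1 := by
      rw [sub_mul, one_mul, zpow_sub, ← h1]
      group
    obtain ⟨e, he⟩ := (huip _).1 h3
    refine ⟨e, ?_⟩
    rw [hr, hzi, ← he, ← zpow_add_one]
    congr 1
    ring
  have hU : ∀ h, h ∈ zpowers u ↔ h * u * h⁻¹ = u := by
    intro h
    constructor
    · rintro ⟨i, rfl⟩
      have : (u ^ i) * u = u * u ^ i := (Commute.zpow_left (Commute.refl u) i).eq
      simp only
      rw [this]
      group
    · intro h1
      have := mem_centralizer_zpowers h1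
      rw [hC] at this
      exact this
  have huM : u ∈ M := by
    rw [hMmem, ← pow_succ, ← pow_succ']
  have hzM' : z ∈ M := M.pow_mem huM _
  set Z := zpowers z with hZ
  have hZcard : Nat.card Z = p := by rw [hZ, Nat.card_zpowers, hzord]
  have hZpr : Fact (Nat.card Z).Prime := ⟨by rw [hZcard]; exact hpp⟩
  have hZcomm : ∀ h ∈ M, ∀ x ∈ Z, h * x = x * h := by
    rintro h hh _ ⟨i, rfl⟩
    exact ((Commute.zpow_right (hzM h hh) i)).eq
  have hZexp : ∀ x ∈ Z, x ^ p = 1 := by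
    rintro _ ⟨i, rfl⟩
    simp only
    rw [← zpow_natCast, ← zpow_mul, mul_comm, zpow_mul, zpow_natCast, hzp, one_zpow]
  -- the homomorphism `ψ`
  have hcZ : ∀ h : M, (h : G) * u * (h : G)⁻¹ * u⁻¹ ∈ Z := by
    rintro ⟨h, hh⟩
    obtain ⟨e, he⟩ := hact h hh
    show h * u * h⁻¹ * u⁻¹ ∈ Z
    rw [he, mul_inv_cancel_right]
    exact zpow_mem (mem_zpowers z) e
  let ψ : M →* Z := MonoidHom.mk' (fun h => ⟨(h : G) * u * (h : G)⁻¹ * u⁻¹, hcZ h⟩) (by
    intro a b
    apply Subtype.ext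
    show ((a * b : M) : G) * u * ((a * b : M) : G)⁻¹ * u⁻¹ =
      ((a : G) * u * (a : G)⁻¹ * u⁻¹) * ((b : G) * u * (b : G)⁻¹ * u⁻¹)
    have h1 := hZcomm a a.2 _ (hcZ b)
    have h2 : (b : G) * u * (b : G)⁻¹ * u⁻¹ * ((a : G) * u * (a : G)⁻¹ * u⁻¹) =
       ((a : G) * u * (a : G)⁻¹ * u⁻¹) * ((b : G) * u * (b : G)⁻¹ * u⁻¹) := by
      obtain ⟨i, hi⟩ := hcZ a
      obtain ⟨j, hj⟩ := hcZ b
      simp only at hi hj
      rw [← hi, ← hj]
      exact (Commute.zpow_zpow_self z j i).eq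
    rw [← h2]
    have h3 : ((a * b : M) : G) * u * ((a * b : M) : G)⁻¹ * u⁻¹ =
      (a : G) * ((b : G) * u * (b : G)⁻¹ * u⁻¹) * u * (a : G)⁻¹ * u⁻¹ := by
      show (a : G) * (b : G) * u * ((a : G) * (b : G))⁻¹ * u⁻¹ = _
      group
    rw [h3, h1]
    group)
  have hψ : ∀ h : M, ((ψ h : Z) : G) = (h : G) * u * (h : G)⁻¹ * u⁻¹ := fun h => rfl
  have hψ1 : ∀ h : M, ψ h = 1 ↔ (h : G) ∈ zpowers u := by
    intro h
    rw [hU, Subtype.ext_iff, hψ]
    show _ = (1 : G) ↔ _
    rw [mul_inv_eq_one]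
  have htM : t ∈ M := (hMmem t).2 ht
  have hψker : ψ.ker = (zpowers u).subgroupOf M := by
    ext h
    rw [MonoidHom.mem_ker, hψ1]
    rfl
  have htop : ∀ h : M, (h : G) ∉ zpowers u → Subgroup.zpowers (ψ h) = ⊤ := by
    intro h hh
    rcases Subgroup.eq_bot_or_eq_top_of_prime_card (Subgroup.zpowers (ψ h)) with h1 | h1
    · exfalso
      apply hh
      rw [← hψ1]
      rwa [Subgroup.zpowers_eq_bot] at h1
    · exact h1
  have hrange : ψ.range = ⊤ := by
    rw [eq_top_iff, ← htop ⟨t, htM⟩ htU, Subgroup.zpowers_le]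
    exact ⟨⟨t, htM⟩, rfl⟩
  have hB1 : (zpowers u).relIndex M = p := by
    show ((zpowers u).subgroupOf M).index = p
    rw [← hψker, Subgroup.index_ker, hrange, Subgroup.card_top, hZcard]
  -- powers
  have hcommval : ∀ (b : G) (e : ℤ), b * u * b⁻¹ = z ^ e * u → ∀ i : ℤ, ⁅b, u ^ i⁆ = z ^ (e * i) := by
    intro b e hb i
    have h1 : Commute (z ^ e) u := ((Commute.pow_left (Commute.refl u) q).zpow_left e)
    rw [commutatorElement_def, ← conj_zpow, hb, h1.mul_zpow, ← zpow_mul, mul_inv_cancel_right]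
  have hformula : ∀ (b : G) (e : ℤ), b ∈ M → b * u * b⁻¹ = z ^ e * u → ∀ i : ℤ,
      (u ^ i * b) ^ p = u ^ (i * p) * b ^ p * z ^ (e * i * (p.choose 2 : ℤ)) := by
    intro b e hbM hb i
    have hc := hcommval b e hb i
    have h1 : Commute ⁅b, u ^ i⁆ (u ^ i) := by
      rw [hc]
      exact ((Commute.pow_left (Commute.refl u) q).zpow_left _).zpow_right _
    have h2 : Commute ⁅b, u ^ i⁆ b := by
      rw [hc]
      exact Commute.zpow_left (show Commute z b from (hzM b hbM).symm) _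
    rw [mul_pow_of_comm h1 h2, hc, ← zpow_natCast (u ^ i), ← zpow_mul, ← zpow_natCast (z ^ _), ← zpow_mul]
  -- `t^p ∈ U`
  obtain ⟨e, he⟩ := hact t htM
  have hep : ¬ (p : ℤ) ∣ e := by
    intro h
    apply htU
    rw [hU, he, (hzpz e).2 h, one_mul]
  have htpU : t ^ p ∈ zpowers u := by
    have h1 : ψ (⟨t, htM⟩ ^ p) = 1 := by
      rw [map_pow]
      apply Subtype.ext
      exact hZexp _ (ψ ⟨t, htM⟩).2
    exact (hψ1 _).1 h1
  obtain ⟨c, hc⟩ := Subgroup.mem_zpowers_iff.1 htpU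
  have hpc : (p : ℤ) ∣ c := by
    have h1 : t * u ^ c * t⁻¹ = u ^ c := by
      rw [hc, ← pow_succ', pow_succ, mul_inv_cancel_right]
    have hr : t * u * t⁻¹ = u ^ ((q : ℤ) * e + 1) := by
      rw [he, hzi, zpow_add_one]
    have h2 := conj_zpow_of hr c
    rw [h1] at h2
    have h3 : u ^ ((q : ℤ) * e * c) = 1 := by
      have : (q : ℤ) * e * c = ((q : ℤ) * e + 1) * c - c := by ring
      rw [this, zpow_sub, ← h2]
      group
    rw [hu1, mul_assoc, mul_dvd_mul_iff_left hq0] at h3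
    exact ((Nat.prime_iff_prime_int.1 hpp).dvd_or_dvd h3).resolve_left hep
  obtain ⟨a, rfl⟩ := hpc
  -- an element of order `p` outside `U`
  have h10 : u ^ (-a * p) * t ^ p = 1 := by
    rw [← hc, ← zpow_add]
    have : -a * (p : ℤ) + (p : ℤ) * a = 0 := by ring
    rw [this, zpow_zero]
  have hs : ∃ i : ℤ, (u ^ i * t) ^ p = 1 := by
    have h0 := hformula t e htM he (-a)
    rw [h10, one_mul] at h0
    by_cases hp2 : p = 2
    · subst hp2
      have hm1 : 1 ≤ m := by
        have := hcase.resolve_left (by simp)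
        omega
      have hchoose : (Nat.choose 2 2 : ℤ) = 1 := by norm_num
      rw [hchoose, mul_one] at h0
      by_cases ha : (2 : ℤ) ∣ a
      · refine ⟨-a, ?_⟩
        rw [h0, hzpz]
        exact Dvd.dvd.mul_left ((dvd_neg).2 (by exact_mod_cast ha)) _
      · -- correct by `u ^ (2 ^ m)`
        have hzodd : z ^ (e * -a) = z := by
          have h1 : z ^ (e * -a - 1) = 1 := by
            rw [hzpz]
            have he' : ¬ (2 : ℤ) ∣ e := by exact_mod_cast hep
            have : e % 2 = 1 := by omega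
            have : a % 2 = 1 := by omega
            have h2 : (e * -a - 1) % 2 = 0 := by
              rw [show e * -a - 1 = -(e * a) - 1 by ring]
              have h3 : (e * a) % 2 = 1 := by
                rw [Int.mul_emod]; simp [*]
              omega
            push_cast
            omega
          rw [zpow_sub, zpow_one, mul_inv_eq_one] at h1
          exact h1
        set s₀ := u ^ (-a) * t with hs₀
        have hs₀M : s₀ ∈ M := M.mul_mem (M.zpow_mem huM _) htM
        have hs₀u : s₀ * u * s₀⁻¹ = z ^ e * u := by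
          have h1 : s₀ * u * s₀⁻¹ = u ^ (-a) * (t * u * t⁻¹) * (u ^ (-a))⁻¹ := by
            rw [hs₀]; group
          rw [h1, he]
          have hcz : Commute (u ^ (-a)) (z ^ e * u) :=
            Commute.mul_right (((Commute.pow_right (Commute.refl u) q).zpow_right e).zpow_left _)
              ((Commute.refl u).zpow_left _)
          rw [hcz.eq, mul_inv_cancel_right]
        have h1 := hformula s₀ e hs₀M hs₀u ((2 : ℤ) ^ m)
        refine ⟨(2 : ℤ) ^ m + -a, ?_⟩
        rw [zpow_add, mul_assoc]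
        show (u ^ ((2 : ℤ) ^ m) * s₀) ^ 2 = 1
        rw [h1, hchoose, mul_one, h0, hzodd]
        have h2 : u ^ ((2 : ℤ) ^ m * (2 : ℕ)) = z := by
          rw [hz, hq, ← zpow_natCast]
          congr 1
        have h3 : z ^ (e * (2 : ℤ) ^ m) = 1 := by
          rw [hzpz]
          exact Dvd.dvd.mul_left (by push_cast; exact dvd_pow_self _ (by omega)) _
        rw [h2, h3, mul_one, ← pow_two, hzp]
    · refine ⟨-a, ?_⟩
      rw [h0, hzpz]
      have := prime_dvd_choose_two hpp hp2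
      exact Dvd.dvd.mul_left (by exact_mod_cast this) _
  obtain ⟨i₀, hi₀⟩ := hs
  set s := u ^ i₀ * t with hs
  have hsM : s ∈ M := M.mul_mem (M.zpow_mem huM _) htM
  have hsU : s ∉ zpowers u := by
    intro h
    apply htU
    have : t = (u ^ i₀)⁻¹ * s := by rw [hs]; group
    rw [this]
    exact Subgroup.mul_mem _ (Subgroup.inv_mem _ (zpow_mem (mem_zpowers u) _)) h
  have hsord : orderOf s = p := orderOf_eq_prime hi₀ (by
    intro h
    apply hsU
    rw [h]
    exact Subgroup.one_mem _)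
  -- Elements of order `p` of `M`
  have hchar : ∀ x ∈ M, x ^ p = 1 → x ∈ Z ⊔ zpowers s := by
    intro x hx hxp
    have h1 : ψ ⟨x, hx⟩ ∈ Subgroup.zpowers (ψ ⟨s, hsM⟩) := by
      rw [htop ⟨s, hsM⟩ hsU]
      trivial
    obtain ⟨k, hk⟩ := Subgroup.mem_zpowers_iff.1 h1
    set b := s ^ k with hb
    have hbM : b ∈ M := M.zpow_mem hsM k
    have hbp : b ^ p = 1 := by
      rw [hb, ← zpow_natCast, ← zpow_mul, mul_comm, zpow_mul, zpow_natCast, hi₀, one_zpow]
    have h2 : (⟨x, hx⟩ * (⟨b, hbM⟩ : M)⁻¹ : M) ∈ ψ.ker := by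
      rw [MonoidHom.mem_ker, map_mul, map_inv, ← hk, mul_inv_eq_one, ← map_zpow]
      rfl
    have h3 : x * b⁻¹ ∈ zpowers u := (hψ1 _).1 h2
    obtain ⟨i, hi⟩ := Subgroup.mem_zpowers_iff.1 h3
    have hxe : x = u ^ i * b := by rw [hi]; group
    obtain ⟨eb, heb⟩ := hact b hbM
    have h4 := hformula b eb hbM heb i
    rw [← hxe, hxp, hbp, mul_one] at h4
    have hqi : (q : ℤ) ∣ i := by
      by_cases hp2 : p = 2
      · subst hp2
        have hm1 : 1 ≤ m := by
          have := hcase.resolve_left (by simp)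
          omega
        obtain ⟨m', rfl⟩ : ∃ m', m = m' + 1 := ⟨m - 1, by omega⟩
        have hchoose : (Nat.choose 2 2 : ℤ) = 1 := by norm_num
        rw [hchoose, mul_one, hzi, ← zpow_add] at h4
        have h5 := (hu1 _).1 h4.symm
        have hqval : (q : ℤ) = 2 * 2 ^ (m' + 1) := by rw [hq]; push_cast; ring
        have h6 : (q : ℤ) * (2 : ℕ) ∣ 2 * (i * (2 * (2 ^ m' * eb) + 1)) := by
          convert h5 using 1
          rw [hqval]; push_cast; ring
        have h7 : (q : ℤ) ∣ i * (2 * (2 ^ m' * eb) + 1) := by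
          have e2 : (q : ℤ) * (2 : ℕ) = 2 * q := by push_cast; ring
          rw [e2, mul_dvd_mul_iff_left (by norm_num)] at h6
          exact h6
        have hcop : IsCoprime (q : ℤ) (2 * (2 ^ m' * eb) + 1) := by
          rw [hq]; push_cast; exact isCoprime_two_pow_odd _ _
        exact hcop.dvd_of_dvd_mul_right h7
      · have h5 : z ^ (eb * i * (p.choose 2 : ℤ)) = 1 := by
          rw [hzpz]
          exact Dvd.dvd.mul_left (by exact_mod_cast prime_dvd_choose_two hpp hp2) _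
        rw [h5, mul_one] at h4
        exact (huip i).1 h4.symm
    obtain ⟨i', rfl⟩ := hqi
    rw [hxe, ← hzi]
    exact Subgroup.mul_mem _ (Subgroup.mem_sup_left (zpow_mem (mem_zpowers z) i'))
      (Subgroup.mem_sup_right (zpow_mem (mem_zpowers s) k))
  -- `Z` is normal
  have hZn : Z.Normal := by
    constructor
    rintro _ ⟨k, rfl⟩ g
    simp only
    obtain ⟨r, hr⟩ := exists_conj_eq_zpow hnorm g
    have h1 : g * z * g⁻¹ = z ^ r := by
      have h2 := conj_zpow_of hr (q : ℤ)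
      rw [zpow_natCast] at h2
      rw [hz, h2, hzi r, mul_comm]
    rw [← conj_zpow, h1]
    exact zpow_mem (zpow_mem (mem_zpowers z) r) k
  set E := Z ⊔ zpowers s with hE
  have hEform : ∀ x ∈ E, ∃ y ∈ Z, ∃ w ∈ zpowers s, y * w = x := by
    intro x hx
    exact Subgroup.mem_sup_of_normal_left.1 hx
  have hzs : Commute z s := (hzM s hsM).symm
  have hEmem : ∀ x, x ∈ E ↔ x ∈ M ∧ x ^ p = 1 := by
    intro x
    constructor
    · intro hx
      obtain ⟨y, ⟨i, rfl⟩, w, ⟨k, rfl⟩, rfl⟩ := hEform x hx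
      simp only
      refine ⟨M.mul_mem (M.zpow_mem hzM' _) (M.zpow_mem hsM _), ?_⟩
      rw [(hzs.zpow_zpow i k).mul_pow, hZexp _ (zpow_mem (mem_zpowers z) i), one_mul,
        ← zpow_natCast, ← zpow_mul, mul_comm, zpow_mul, zpow_natCast, hi₀, one_zpow]
    · rintro ⟨h1, h2⟩
      exact hchar x h1 h2
  have hΩ : Cfsg.omegaOne p M = E := by
    apply le_antisymm
    · apply (Subgroup.closure_le _).2
      rintro x ⟨h1, h2⟩
      exact (hEmem x).2 ⟨h1, h2⟩
    · apply sup_le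
      · rw [hZ, Subgroup.zpowers_le]
        exact Subgroup.subset_closure ⟨hzM', hzp⟩
      · rw [Subgroup.zpowers_le]
        exact Subgroup.subset_closure ⟨hsM, hi₀⟩
  rw [hΩ]
  have hinf : Z ⊓ zpowers s = ⊥ := by
    rw [eq_bot_iff]
    rintro x ⟨h1, ⟨k, rfl⟩⟩
    have h2 : s ^ k ∈ zpowers u := by
      obtain ⟨i, hi⟩ := Subgroup.mem_zpowers_iff.1 h1
      simp only at hi
      rw [← hi]
      exact zpow_mem hzU i
    exact mem_of_zpow_mem hpp hi₀ hsU h2
  have hEcard : Nat.card E = p ^ 2 := by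
    have h1 : Z.relIndex E = Nat.card (zpowers s) := by
      rw [hE, Subgroup.relIndex_sup_left]
      rw [← Subgroup.inf_relIndex_right, hinf, Subgroup.relIndex_bot_left]
    have h2 : Nat.card (zpowers s) = p := by rw [Nat.card_zpowers, hsord]
    have h3 := Cfsg.Agent.Lib.Coprime.Action.card_eq_card_mul_relIndex (H := Z) (K := E) le_sup_left
    rw [h3, hZcard, h1, h2, pow_two]
  -- `M` is normal
  have hMn : ∀ x ∈ M, ∀ g : G, g * x * g⁻¹ ∈ M := by
    intro x hx g
    rw [hMmem]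
    obtain ⟨r, hr⟩ := exists_conj_eq_zpow hnorm g⁻¹
    have h1 : g⁻¹ * u ^ p * g⁻¹⁻¹ = (u ^ p) ^ r := by
      have h2 := conj_zpow_of hr (p : ℤ)
      rw [zpow_natCast] at h2
      rw [h2, ← zpow_natCast, ← zpow_mul, mul_comm]
    have h3 : Commute x (u ^ p) := (hMmem x).1 hx
    have h4 : x * (g⁻¹ * u ^ p * g) = (g⁻¹ * u ^ p * g) * x := by
      have : g⁻¹ * u ^ p * g = (u ^ p) ^ r := by simpa using h1
      rw [this]
      exact (h3.zpow_right r).eq
    calc g * x * g⁻¹ * u ^ p = g * (x * (g⁻¹ * u ^ p * g)) * g⁻¹ := by group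
      _ = g * ((g⁻¹ * u ^ p * g) * x) * g⁻¹ := by rw [h4]
      _ = u ^ p * (g * x * g⁻¹) := by group
  have hEn : E.Normal := by
    constructor
    intro x hx g
    obtain ⟨h1, h2⟩ := (hEmem x).1 hx
    refine (hEmem _).2 ⟨hMn x h1 g, ?_⟩
    rw [conj_pow, h2]
    group
  have huniq : ∀ E' : Subgroup G, E'.Normal → (∀ y ∈ E', y ^ p = 1) → E' ≤ E := by
    intro E' hE'n hE'p y hy
    refine (hEmem y).2 ⟨?_, hE'p y hy⟩
    set w := y * u * y⁻¹ * u⁻¹ with hw
    have hwE' : w ∈ E' := by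
      have : w = y * (u * y⁻¹ * u⁻¹) := by rw [hw]; group
      rw [this]
      exact E'.mul_mem hy (hE'n.conj_mem _ (E'.inv_mem hy) u)
    have hwU : w ∈ zpowers u :=
      Subgroup.mul_mem _ (hnorm.conj_mem _ (mem_zpowers u) y) (Subgroup.inv_mem _ (mem_zpowers u))
    obtain ⟨i, hi⟩ := Subgroup.mem_zpowers_iff.1 hwU
    have hwp := hE'p w hwE'
    rw [← hi, ← zpow_natCast, ← zpow_mul] at hwp
    have h1 : Commute w u := by
      rw [← hi]
      exact (Commute.refl u).zpow_left i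
    have h2 : y * u * y⁻¹ = w * u := by rw [hw]; group
    rw [hMmem]
    have h3 : y * u ^ p * y⁻¹ = u ^ p := by
      rw [← conj_pow, h2, h1.mul_pow, ← hi, ← zpow_natCast (u ^ i), ← zpow_mul, hwp, one_mul]
    calc y * u ^ p = (y * u ^ p * y⁻¹) * y := by group
      _ = u ^ p * y := by rw [h3]
  refine ⟨hB1, ⟨⟨⟨?_⟩⟩, fun a ha => ((hEmem a).1 ha).2⟩, hEcard, ?_⟩
  · rintro ⟨a, ha⟩ ⟨b, hb⟩
    apply Subtype.ext
    show a * b = b * a
    obtain ⟨y, hy, w, hw, rfl⟩ := hEform a ha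
    obtain ⟨y', hy', w', hw', rfl⟩ := hEform b hb
    obtain ⟨i, rfl⟩ := Subgroup.mem_zpowers_iff.1 hy
    obtain ⟨i', rfl⟩ := Subgroup.mem_zpowers_iff.1 hy'
    obtain ⟨k, rfl⟩ := Subgroup.mem_zpowers_iff.1 hw
    obtain ⟨k', rfl⟩ := Subgroup.mem_zpowers_iff.1 hw'
    have c1 : Commute (z ^ i) (z ^ i') := Commute.zpow_zpow_self z i i'
    have c2 : Commute (z ^ i) (s ^ k') := hzs.zpow_zpow i k'
    have c3 : Commute (s ^ k) (z ^ i') := (hzs.zpow_zpow i' k).symm
    have c4 : Commute (s ^ k) (s ^ k') := Commute.zpow_zpow_self s k k'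
    exact (Commute.mul_left (c1.mul_right c2) (c3.mul_right c4)).eq
  · rw [Subgroup.characteristic_iff_map_eq]
    intro φ
    have h1 : (E.map φ.toMonoidHom).Normal := hEn.map _ φ.surjective
    have h2 := huniq _ h1 (by
      rintro _ ⟨x, hx, rfl⟩
      have := ((hEmem x).1 hx).2
      show (φ x) ^ p = 1
      rw [← map_pow, this, map_one])
    apply Subgroup.eq_of_le_of_card_ge h2
    rw [Subgroup.card_map_of_injective φ.injective]

end CaseB

section CaseA

variable [Finite G]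

theorem caseA (hG : IsPGroup 2 G) (u g : G) (n : ℕ) (hn2 : 2 ≤ n) (hord : orderOf u = 2 ^ n)
    (hnorm : (zpowers u).Normal) (hC : Subgroup.centralizer (zpowers u : Set G) = zpowers u)
    (hgU : g ∉ zpowers u)
    (hcase : n = 2 ∨ ∀ h : G, h * u ^ 2 = u ^ 2 * h → h ∈ zpowers u) :
    Nat.card G = 2 ^ (n + 1) ∧ ((∃ m : ℕ, Nonempty (G ≃* DihedralGroup m)) ∨
      (∃ m : ℕ, Nonempty (G ≃* QuaternionGroup m)) ∨ Cfsg.IsQuasiDihedral G) := by
  classical
  obtain ⟨m, rfl⟩ : ∃ m, n = m + 2 := ⟨n - 2, by omega⟩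
  set q : ℕ := 2 ^ (m + 1) with hq
  have hq2 : (2 : ℤ) ^ (m + 2) = q * 2 := by rw [hq]; push_cast; ring
  have hu1 : ∀ i : ℤ, u ^ i = 1 ↔ (q : ℤ) * 2 ∣ i := by
    intro i
    rw [← hq2]
    exact zpow_eq_one_iff_dvd hord i
  have hU : ∀ h, h ∈ zpowers u ↔ h * u * h⁻¹ = u := by
    intro h
    constructor
    · rintro ⟨i, rfl⟩
      have : (u ^ i) * u = u * u ^ i := (Commute.zpow_left (Commute.refl u) i).eq
      simp only
      rw [this]
      group
    · intro h1
      have := mem_centralizer_zpowers h1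
      rw [hC] at this
      exact this
  have hUr : ∀ (h : G) (r : ℤ), h * u * h⁻¹ = u ^ r → (h ∈ zpowers u ↔ (q : ℤ) * 2 ∣ r - 1) := by
    intro h r hr
    rw [hU, hr, ← hu1, zpow_sub, zpow_one, mul_inv_eq_one]
  have hodd : ∀ (h : G) (r : ℤ), h * u * h⁻¹ = u ^ r → r % 2 = 1 := fun h r hr =>
    odd_of_conj (by omega) hord hr
  -- commuting with `u ^ 2`
  have hU2 : ∀ (h : G) (r : ℤ), h * u * h⁻¹ = u ^ r → (q : ℤ) ∣ r - 1 → h * u ^ 2 = u ^ 2 * h := by
    intro h r hr hd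
    obtain ⟨k, hk⟩ := hd
    have h1 := conj_zpow_of hr 2
    have h2 : u ^ (r * 2) = u ^ (2 : ℤ) := by
      rw [show r * 2 = (q : ℤ) * 2 * k + 2 by linear_combination 2 * hk, zpow_add,
        (hu1 _).2 (dvd_mul_right _ _), one_mul]
    have e : u ^ (2 : ℤ) = u ^ 2 := by rw [zpow_two, pow_two]
    rw [h2, e] at h1
    calc h * u ^ 2 = (h * u ^ 2 * h⁻¹) * h := by group
      _ = u ^ 2 * h := by rw [h1]
  have hroot : ∀ (h : G) (r : ℤ), h * u * h⁻¹ = u ^ r → h ^ 2 ∈ zpowers u → (2 : ℤ) ^ (m + 1 + 1) ∣ r ^ 2 - 1 := by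
    intro h r hr hh
    have h1 := conj_pow_of hr 2
    rw [(hU _).1 hh] at h1
    have h2 : u ^ (r ^ 2 - 1) = 1 := by
      rw [zpow_sub, zpow_one, ← h1]
      group
    have := (hu1 _).1 h2
    rw [show (m + 1 + 1) = m + 2 from rfl, hq2]
    exact this
  have h41 : ∀ (h : G) (r : ℤ), h * u * h⁻¹ = u ^ r → h ^ 2 ∈ zpowers u → r % 4 = 1 → h ∈ zpowers u := by
    intro h r hr hh hr4
    have h1 := dvd_sub_one (hroot h r hr hh) hr4
    have hq1 : (q : ℤ) = 2 ^ (m + 1) := by rw [hq]; push_cast; rfl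
    rcases hcase with h2 | h2
    · have hm0 : m = 0 := by omega
      subst hm0
      rw [hUr h r hr]
      have hq4 : (q : ℤ) * 2 = 4 := by rw [hq1]; norm_num
      rw [hq4]
      omega
    · rw [← hq1] at h1
      exact h2 h (hU2 h r hr h1)
  have hsq : ∀ (r : ℤ), r % 2 = 1 → r ^ 2 % 4 = 1 := by
    intro r hr
    obtain ⟨a, rfl⟩ : ∃ a, r = 2 * a + 1 := ⟨r / 2, by omega⟩
    have : (2 * a + 1) ^ 2 = 4 * (a ^ 2 + a) + 1 := by ring
    rw [this]
    omega
  -- Fact 1
  have hfact1 : ∀ h : G, h ^ 2 ∈ zpowers u := by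
    intro h
    by_contra hh
    have hex : ∃ j, h ^ 2 ^ (j + 1) ∈ zpowers u := by
      obtain ⟨k, hk⟩ := hG h
      refine ⟨k, ?_⟩
      rw [pow_succ, pow_mul, hk, one_pow]
      exact Subgroup.one_mem _
    have hj0 : Nat.find hex ≠ 0 := by
      intro h0
      have := Nat.find_spec hex
      rw [h0] at this
      simp only [zero_add, pow_one] at this
      exact hh this
    obtain ⟨j, hj⟩ := Nat.exists_eq_succ_of_ne_zero hj0
    have h1 : h ^ 2 ^ (j + 1) ∉ zpowers u := Nat.find_min hex (by omega)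
    have h2 : (h ^ 2 ^ (j + 1)) ^ 2 ∈ zpowers u := by
      have := Nat.find_spec hex
      rw [hj] at this
      rw [← pow_mul, ← pow_succ]
      exact this
    obtain ⟨r, hr⟩ := exists_conj_eq_zpow hnorm h
    have h3 := conj_pow_of hr (2 ^ (j + 1))
    apply h1
    apply h41 _ _ h3 h2
    rw [pow_succ 2 j, mul_comm, pow_mul]
    have h4 : (r ^ 2) ≡ 1 [ZMOD 4] := by
      have := hsq r (hodd h r hr)
      exact this
    have h5 := h4.pow (2 ^ j)
    rw [one_pow] at h5
    exact h5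
  -- Fact 2
  have hfact2 : ∀ (h : G) (r : ℤ), h * u * h⁻¹ = u ^ r → h ∉ zpowers u → r % 4 = 3 := by
    intro h r hr hh
    have h1 := hodd h r hr
    by_contra h2
    exact hh (h41 h r hr (hfact1 h) (by omega))
  -- Fact 3
  have hfact3 : ∀ a b : G, a ∉ zpowers u → b ∉ zpowers u → a * b ∈ zpowers u := by
    intro a b ha hb
    obtain ⟨r, hr⟩ := exists_conj_eq_zpow hnorm a
    obtain ⟨r', hr'⟩ := exists_conj_eq_zpow hnorm b
    have h1 : (a * b) * u * (a * b)⁻¹ = u ^ (r * r') := by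
      have : (a * b) * u * (a * b)⁻¹ = a * (b * u * b⁻¹) * a⁻¹ := by group
      rw [this, hr', conj_zpow_of hr]
    apply h41 _ _ h1 (hfact1 _)
    have h2 := hfact2 a r hr ha
    have h3 := hfact2 b r' hr' hb
    rw [Int.mul_emod, h2, h3]
    rfl
  have hidx : (zpowers u).index = 2 := by
    rw [Subgroup.index_eq_two_iff]
    refine ⟨g, fun b => ?_⟩
    by_cases hb : b ∈ zpowers u
    · right
      refine ⟨hb, fun h => hgU ?_⟩
      have : g = b⁻¹ * (b * g) := by group
      rw [this]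
      exact Subgroup.mul_mem _ (Subgroup.inv_mem _ hb) h
    · left
      exact ⟨hfact3 b g hb hgU, hb⟩
  have hcard : Nat.card G = 2 ^ (m + 2 + 1) := by
    have := Subgroup.card_mul_index (zpowers u)
    rw [hidx, Nat.card_zpowers, hord] at this
    rw [← this]
    ring
  refine ⟨hcard, ?_⟩
  -- structure
  obtain ⟨r, hr⟩ := exists_conj_eq_zpow hnorm g
  have hr4 := hfact2 g r hr hgU
  obtain ⟨k, hk⟩ := dvd_add_one (hroot g r hr (hfact1 g)) hr4
  have hq1 : (q : ℤ) = 2 ^ (m + 1) := by rw [hq]; push_cast; rfl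
  rw [← hq1] at hk
  obtain ⟨c, hc⟩ := Subgroup.mem_zpowers_iff.1 (hfact1 g)
  have hcr : u ^ ((r - 1) * c) = 1 := by
    have h1 := conj_zpow_of hr c
    have h2 : g * u ^ c * g⁻¹ = u ^ c := by
      rw [hc, (Commute.self_pow g 2).eq, mul_inv_cancel_right]
    rw [h2] at h1
    have : (r - 1) * c = r * c - c := by ring
    rw [this, zpow_sub, ← h1]
    group
  have hcr' := (hu1 _).1 hcr
  set z := u ^ q with hz
  have hzi : ∀ i : ℤ, z ^ i = u ^ ((q : ℤ) * i) := by
    intro i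
    rw [hz, zpow_mul, zpow_natCast]
  have hz2 : z ^ (2 : ℕ) = 1 := by
    rw [← zpow_natCast, hzi, hu1]
    exact_mod_cast dvd_rfl
  have hzz : ∀ i : ℤ, i % 2 = 0 → z ^ i = 1 := by
    intro i hi
    obtain ⟨a, rfl⟩ : ∃ a, i = 2 * a := ⟨i / 2, by omega⟩
    rw [zpow_mul, show z ^ (2 : ℤ) = z ^ (2 : ℕ) by rw [zpow_two, pow_two], hz2, one_zpow]
  have hzodd : ∀ i : ℤ, i % 2 = 1 → z ^ i = z := by
    intro i hi
    have : i = (i - 1) + 1 := by ring
    rw [this, zpow_add_one, hzz _ (by omega), one_mul]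
  have hcases : ∃ c' : ℤ, c = (q : ℤ) * c' := by
    rcases Int.emod_two_eq_zero_or_one k with hk2 | hk2
    · -- `r ≡ -1`
      obtain ⟨k', rfl⟩ : ∃ k', k = 2 * k' := ⟨k / 2, by omega⟩
      have h1 : (q : ℤ) * 2 ∣ (r + 1) * c := by
        rw [hk]
        exact ⟨k' * c, by ring⟩
      have h2 : (q : ℤ) * 2 ∣ 2 * c := by
        have e2 : 2 * c = (r + 1) * c - (r - 1) * c := by ring
        rw [e2]
        exact dvd_sub h1 hcr'
      rw [mul_comm (q : ℤ) 2, mul_dvd_mul_iff_left (by norm_num)] at h2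
      exact h2
    · -- `r ≡ -1 + 2^(m+1)`
      have hm0 : m ≠ 0 := by
        rintro rfl
        have hq' : (q : ℤ) = 2 := by rw [hq1]; norm_num
        rw [hq'] at hk
        obtain ⟨a, rfl⟩ : ∃ a, k = 2 * a + 1 := ⟨k / 2, by omega⟩
        omega
      obtain ⟨m', rfl⟩ : ∃ m', m = m' + 1 := ⟨m - 1, by omega⟩
      have hqv : (q : ℤ) = 2 * 2 ^ (m' + 1) := by rw [hq1]; ring
      have h1 : r - 1 = 2 * (2 * (2 ^ m' * k - 1) + 1) := by
        have : r = q * k - 1 := by linarith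
        rw [this, hqv]
        ring
      rw [h1, mul_comm (q : ℤ) 2, mul_assoc, mul_dvd_mul_iff_left (by norm_num)] at hcr'
      have hcop : IsCoprime (q : ℤ) (2 * (2 ^ m' * k - 1) + 1) := by
        rw [hq1]
        exact isCoprime_two_pow_odd _ _
      exact hcop.dvd_of_dvd_mul_left hcr'
  obtain ⟨c', rfl⟩ := hcases
  have hg2 : g ^ 2 = z ^ c' := by rw [← hc, hzi]
  have hqne : NeZero q := ⟨by rw [hq]; positivity⟩
  have hordq : orderOf u = 2 * q := by rw [hord, hq]; ring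
  rcases Int.emod_two_eq_zero_or_one k with hk2 | hk2
  · -- `g` inverts `u`
    obtain ⟨k', rfl⟩ : ∃ k', k = 2 * k' := ⟨k / 2, by omega⟩
    have hinv : g * u * g⁻¹ = u⁻¹ := by
      rw [hr, eq_inv_iff_mul_eq_one, ← zpow_add_one, hu1, hk]
      exact ⟨k', by ring⟩
    rcases Int.emod_two_eq_zero_or_one c' with hc2 | hc2
    · left
      have hne : NeZero (2 * q) := ⟨by have := hqne.out; omega⟩
      refine ⟨2 * q, ?_⟩
      have := nonempty_dihedral_equiv (m := 2 * q) hordq (y := g) (by rw [hg2, hzz _ hc2]) hinv hgU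
        (by rw [hcard, hq]; ring)
      exact this.map MulEquiv.symm
    · right; left
      refine ⟨q, ?_⟩
      have := nonempty_quaternion_equiv (m := q) hordq (y := g) (by rw [hg2, hzodd _ hc2]) hinv hgU
        (by rw [hcard, hq]; ring)
      exact this.map MulEquiv.symm
  · -- semidihedral
    right; right
    have hm0 : m ≠ 0 := by
      rintro rfl
      have hq' : (q : ℤ) = 2 := by rw [hq1]; norm_num
      rw [hq'] at hk
      obtain ⟨a, rfl⟩ : ∃ a, k = 2 * a + 1 := ⟨k / 2, by omega⟩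
      omega
    obtain ⟨a, rfl⟩ : ∃ a, k = 2 * a + 1 := ⟨k / 2, by omega⟩
    have hur : u ^ r = u ^ (2 ^ (m + 2 - 1) - 1) := by
      have hq3 : 2 ^ (m + 2 - 1) - 1 = q - 1 := by
        rw [hq]
        rfl
      have hq4 : ((q - 1 : ℕ) : ℤ) = (q : ℤ) - 1 := by
        rw [Nat.cast_sub (by rw [hq]; exact Nat.one_le_two_pow)]
        rfl
      rw [hq3, ← zpow_natCast, hq4]
      have h1 : r = (q : ℤ) * 2 * a + ((q : ℤ) - 1) := by linarith
      rw [h1, zpow_add, (hu1 _).2 (dvd_mul_right _ _), one_mul]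
    have hfinish : ∀ y : G, y ∉ zpowers u → y ^ 2 = 1 → y * u * y⁻¹ = u ^ r → Cfsg.IsQuasiDihedral G := by
      intro y hyU hy2 hyc
      refine ⟨m + 2, by omega, hcard, u, y, hord, ?_, ?_⟩
      · apply orderOf_eq_prime hy2
        rintro rfl
        exact hyU (Subgroup.one_mem _)
      · rw [hyc, hur]
    rcases Int.emod_two_eq_zero_or_one c' with hc2 | hc2
    · exact hfinish g hgU (by rw [hg2, hzz _ hc2]) hr
    · apply hfinish (g * u)
      · intro h
        apply hgU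
        have : g = g * u * u⁻¹ := by group
        rw [this]
        exact Subgroup.mul_mem _ h (Subgroup.inv_mem _ (mem_zpowers u))
      · have h1 : (g * u) ^ 2 = (g * u * g⁻¹) * g ^ 2 * u := by
          rw [pow_two, pow_two]
          group
        rw [h1, hr, hg2, hzodd _ hc2]
        have h2 : u ^ r * z * u = u ^ (r + q + 1) := by
          rw [hz, zpow_add_one, zpow_add, zpow_natCast]
        rw [h2, hu1]
        exact ⟨a + 1, by linear_combination hk⟩
      · have : g * u * u * (g * u)⁻¹ = g * u * g⁻¹ := by group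
        rw [this, hr]

end CaseA

theorem result {G : Type*} [Group G] [Finite G] {p : ℕ} [Fact p.Prime] (hG : IsPGroup p G) (hna : ¬ IsMulCommutative G) (U : Subgroup G) [U.Normal] (hU : IsCyclic U) (n : ℕ) (hUn : Nat.card U = p ^ n) (hC : Subgroup.centralizer (U : Set G) = U) : (p = 2 ∧ Nat.card G = 2 ^ (n + 1) ∧ ((∃ m : ℕ, Nonempty (G ≃* DihedralGroup m)) ∨ (∃ m : ℕ, Nonempty (G ≃* QuaternionGroup m)) ∨ Cfsg.IsQuasiDihedral G)) ∨ (U.relIndex (Subgroup.centralizer (Cfsg.powerClosure p 1 U : Set G)) = p ∧ Cfsg.IsElementaryAbelian p (Cfsg.omegaOne p (Subgroup.centralizer (Cfsg.powerClosure p 1 U : Set G))) ∧ Nat.card ↥(Cfsg.omegaOne p (Subgroup.centralizer (Cfsg.powerClosure p 1 U : Set G))) = p ^ 2 ∧ (Cfsg.omegaOne p (Subgroup.centralizer (Cfsg.powerClosure p 1 U : Set G))).Characteristic) := by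
  classical
  have hpp : p.Prime := Fact.out
  obtain ⟨u, rfl⟩ : ∃ u, U = zpowers u := by
    obtain ⟨⟨u₀, hu₀⟩⟩ := hU
    refine ⟨u₀, le_antisymm ?_ (Subgroup.zpowers_le.2 u₀.2)⟩
    intro x hx
    obtain ⟨k, hk⟩ := hu₀ ⟨x, hx⟩
    have : (u₀ : G) ^ k = x := congrArg Subtype.val hk
    exact ⟨k, this⟩
  have hnorm : (zpowers u).Normal := inferInstance
  have hord : orderOf u = p ^ n := by rw [← Nat.card_zpowers]; exact hUn
  have hu1 : ∀ i : ℤ, u ^ i = 1 ↔ (p : ℤ) ^ n ∣ i := by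
    intro i
    rw [← orderOf_dvd_iff_zpow_eq_one, hord]
    push_cast
    rfl
  have hUc : ∀ h, h * u * h⁻¹ = u → h ∈ zpowers u := by
    intro h h1
    have := mem_centralizer_zpowers h1
    rwa [hC] at this
  have hne : ∃ g₀, g₀ ∉ zpowers u := by
    by_contra hall
    push Not at hall
    apply hna
    refine ⟨⟨fun a b => ?_⟩⟩
    obtain ⟨i, rfl⟩ := Subgroup.mem_zpowers_iff.1 (hall a)
    obtain ⟨j, rfl⟩ := Subgroup.mem_zpowers_iff.1 (hall b)
    exact (Commute.zpow_zpow_self u i j).eq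
  obtain ⟨g₀, hg₀⟩ := hne
  obtain ⟨g, hgU, hgp⟩ : ∃ g, g ∉ zpowers u ∧ g ^ p ∈ zpowers u := by
    have hex : ∃ j, g₀ ^ p ^ j ∈ zpowers u := by
      obtain ⟨k, hk⟩ := hG g₀
      exact ⟨k, by rw [hk]; exact Subgroup.one_mem _⟩
    have hj0 : Nat.find hex ≠ 0 := by
      intro h0
      have := Nat.find_spec hex
      rw [h0] at this
      simp only [pow_zero, pow_one] at this
      exact hg₀ this
    obtain ⟨j, hj⟩ := Nat.exists_eq_succ_of_ne_zero hj0
    refine ⟨g₀ ^ p ^ j, Nat.find_min hex (by omega), ?_⟩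
    have := Nat.find_spec hex
    rw [hj] at this
    rw [← pow_mul, ← pow_succ]
    exact this
  obtain ⟨r, hr⟩ := exists_conj_eq_zpow hnorm g
  have hrp : (p : ℤ) ^ n ∣ r ^ p - 1 := by
    have h1 := conj_pow_of hr p
    obtain ⟨i, hi⟩ := Subgroup.mem_zpowers_iff.1 hgp
    have h2 : g ^ p * u * (g ^ p)⁻¹ = u := by
      rw [← hi]
      have : (u ^ i) * u = u * u ^ i := (Commute.zpow_left (Commute.refl u) i).eq
      rw [this]
      group
    rw [h2] at h1
    rw [← hu1, zpow_sub, zpow_one, ← h1]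
    group
  have hn2 : 2 ≤ n := by
    by_contra hlt
    apply hgU
    apply hUc
    rw [hr]
    have h0 : u ^ (r - 1) = 1 := by
      rw [hu1]
      have hn1 : n = 0 ∨ n = 1 := by omega
      rcases hn1 with rfl | rfl
      · simp
      · rw [pow_one] at hrp ⊢
        have h3 : ((r : ZMod p)) ^ p = 1 := by
          have := (ZMod.intCast_zmod_eq_zero_iff_dvd (r ^ p - 1) p).2 hrp
          push_cast at this
          exact sub_eq_zero.1 this
        rw [ZMod.pow_card] at h3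
        have : ((r - 1 : ℤ) : ZMod p) = 0 := by
          push_cast
          rw [h3, sub_self]
        exact (ZMod.intCast_zmod_eq_zero_iff_dvd _ p).1 this
    rw [zpow_sub, zpow_one, mul_inv_eq_one] at h0
    exact h0
  by_cases hp2 : p = 2
  · subst hp2
    by_cases h2 : n = 2
    · left
      exact ⟨rfl, caseA hG u g n hn2 hord hnorm hC hgU (Or.inl h2)⟩
    · by_cases ht : ∃ t : G, t * u ^ 2 = u ^ 2 * t ∧ t ∉ zpowers u
      · obtain ⟨t, ht1, ht2⟩ := ht
        right
        exact caseB u t n hn2 hord hnorm hC (Or.inr (by omega)) ht1 ht2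
      · left
        refine ⟨rfl, caseA hG u g n hn2 hord hnorm hC hgU (Or.inr ?_)⟩
        intro h hh
        by_contra hU'
        exact ht ⟨h, hh, hU'⟩
  · right
    apply caseB u g n hn2 hord hnorm hC (Or.inl hp2) _ hgU
    obtain ⟨e, he⟩ := odd_arith hpp hp2 hrp (by omega)
    have h1 := conj_zpow_of hr (p : ℤ)
    have h2 : u ^ (r * p) = u ^ (p : ℤ) := by
      have h3 : r * p = (p : ℤ) ^ n * e + p := by
        obtain ⟨m, rfl⟩ : ∃ m, n = m + 1 := ⟨n - 1, by omega⟩
        simp only [Nat.add_sub_cancel] at he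
        rw [pow_succ]
        linear_combination (p : ℤ) * he
      rw [h3, zpow_add, (hu1 _).2 (dvd_mul_right _ _), one_mul]
    rw [h2, zpow_natCast] at h1
    calc g * u ^ p = (g * u ^ p * g⁻¹) * g := by group
      _ = u ^ p * g := by rw [h1]

end Cfsg.Agent.S3761
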