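import Cfsg.Statements.S3763
import Cfsg.Agent.Lib.PGroups.ExtraRank

set_option autoImplicit false
open Cfsg

namespace Cfsg.Agent.S3763



/-- Let E be an extraspecial 2-group of order 2^(2n+1). Then the largest elementary abelian subgroups of E have order 2^n or 2^(n+1); and two extraspecial 2-groups of the same order whose largest elementary abelian subgroups have the same order are isomorphic. -/
theorem result {E : Type*} [Group E] [Finite E] (hE : Cfsg.IsExtraspecial 2 E) (n : ℕ) (hn : Nat.card E = 2 ^ (2 * n + 1)) : ((Cfsg.PRankLE 2 n E ∧ ¬ Cfsg.PRankLE 2 (n - 1) E) ∨ (Cfsg.PRankLE 2 (n + 1) E ∧ ¬ Cfsg.PRankLE 2 n E)) ∧ ∀ (E' : Type*) [Group E'] [Finite E'], Cfsg.IsExtraspecial 2 E' → Nat.card E' = Nat.card E → (∀ k : ℕ, Cfsg.PRankLE 2 k E ↔ Cfsg.PRankLE 2 k E') → Nonempty (E ≃* E') := by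
  have h := Cfsg.Agent.Lib.PGroups.Special.extraLike_of_isExtraspecial hE
  obtain ⟨m', hm, hc', hN⟩ := Cfsg.Agent.Lib.PGroups.ExtraIso.count_of_isExtraspecial hE
  have hmm : m' = n := by
    rw [hn] at hc'
    have := Nat.pow_right_injective (le_refl 2) hc'
    omega
  subst hmm
  refine ⟨?_, ?_⟩
  · rcases hN with h1 | h1
    · right
      exact Cfsg.Agent.Lib.PGroups.ExtraRank.prank_of_plus h hn h1
    · left
      exact Cfsg.Agent.Lib.PGroups.ExtraRank.prank_of_minus h hm hn h1
  · intro E' _ _ hE' hcard hrank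
    have h' := Cfsg.Agent.Lib.PGroups.Special.extraLike_of_isExtraspecial hE'
    obtain ⟨m'', hm'', hc'', hN'⟩ := Cfsg.Agent.Lib.PGroups.ExtraIso.count_of_isExtraspecial hE'
    have hmm : m'' = m' := by
      rw [hcard, hn] at hc''
      have := Nat.pow_right_injective (le_refl 2) hc''
      omega
    subst hmm
    have hcE' : Nat.card E' = 2 ^ (2 * m'' + 1) := hc''
    apply Cfsg.Agent.Lib.PGroups.ExtraIso.nonempty_equiv_of_count h h' hcard.symm
    rcases hN with h1 | h1 <;> rcases hN' with h2 | h2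
    · rw [h1, h2]
    · exfalso
      have h3 := (Cfsg.Agent.Lib.PGroups.ExtraRank.prank_of_plus h hn h1).2
      have h4 := (Cfsg.Agent.Lib.PGroups.ExtraRank.prank_of_minus h' hm'' hcE' h2).1
      exact h3 ((hrank _).mpr h4)
    · exfalso
      have h3 := (Cfsg.Agent.Lib.PGroups.ExtraRank.prank_of_plus h' hcE' h2).2
      have h4 := (Cfsg.Agent.Lib.PGroups.ExtraRank.prank_of_minus h hm hn h1).1
      exact h3 ((hrank _).mp h4)
    · omega

end Cfsg.Agent.S3763
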