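import Cfsg.Statements.S3764
import Cfsg.Agent.Lib.HallHigman.Extraspecial

set_option autoImplicit false
open Cfsg
open Cfsg.Agent.Lib.HallHigman Module
open scoped commutatorElement

namespace Cfsg.Agent.S3764

/-- Let p, q, r be distinct primes and let X, Q, V be subgroups of a finite group with X of order r, Q an extraspecial q-group normalized by X with C_Q(X) = Z(Q), and V an elementary abelian p-group normalized by X and Q on which XQ acts faithfully ((X ⊔ Q) ∩ C(V) = 1). If C_V(X) = 1, then q = 2, r = 2^n + 1 for some n, and Q has order 2^(2n+1). -/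
theorem result {G : Type*} [Group G] [Finite G] {p q r : ℕ} (hp : p.Prime) (hq : q.Prime) (hr : r.Prime) (hpq : p ≠ q) (hpr : p ≠ r) (hqr : q ≠ r) (X Q V : Subgroup G) (hX : Nat.card X = r) (hQ : Cfsg.IsExtraspecial q ↥Q) (hXQ : X ≤ Subgroup.normalizer (Q : Set G)) (hCQ : Q ⊓ Subgroup.centralizer (X : Set G) = (Subgroup.center ↥Q).map Q.subtype) (hV : Cfsg.IsElementaryAbelian p V) (hXV : X ≤ Subgroup.normalizer (V : Set G)) (hQV : Q ≤ Subgroup.normalizer (V : Set G)) (hfaith : (X ⊔ Q) ⊓ Subgroup.centralizer (V : Set G) = ⊥) (hCV : V ⊓ Subgroup.centralizer (X : Set G) = ⊥) : q = 2 ∧ ∃ n : ℕ, r = 2 ^ n + 1 ∧ Nat.card Q = 2 ^ (2 * n + 1) := by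
  classical
    haveI hpf : Fact p.Prime := ⟨hp⟩
    haveI hqf : Fact q.Prime := ⟨hq⟩
    haveI hrf : Fact r.Prime := ⟨hr⟩
    obtain ⟨x₀, hx₀X, hord₀, hzx⟩ := FixedPoints.exists_generator_of_prime hr hX
    have hXL : X ≤ X ⊔ Q := le_sup_left
    have hQL : Q ≤ X ⊔ Q := le_sup_right
    obtain ⟨W, i1, i2, i3, ρ, ι, hadd, hbij, hact⟩ :=
      Section.exists_module_of_normalizer (p := p) V (X ⊔ Q) hV.1 hV.2 (sup_le hXV hQV)
    let e : Q.subgroupOf (X ⊔ Q) ≃* Q := Subgroup.subgroupOfEquivOfLe hQL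
    have hQp : IsPGroup q (Q.subgroupOf (X ⊔ Q)) := hQ.1.1.of_equiv e.symm
    have hQZ : Nat.card (Subgroup.center (Q.subgroupOf (X ⊔ Q))) = q := by
      rw [← hQ.2]
      exact Nat.card_congr (Subgroup.centerCongr e).toEquiv
    have hQc := Extraspecial.commutator_eq_center_congr e hQ.1.2.2
    let x : ↥(X ⊔ Q) := ⟨x₀, hXL hx₀X⟩
    have hx : x ∈ Subgroup.normalizer ((Q.subgroupOf (X ⊔ Q) : Subgroup _) : Set ↥(X ⊔ Q)) := by
      rw [Subgroup.mem_normalizer_iff]
      intro g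
      have := Subgroup.mem_normalizer_iff.mp (hXQ hx₀X) g.1
      simpa [Subgroup.mem_subgroupOf, x] using this
    have hord : orderOf x = r := by
      rw [← hord₀]
      exact Subgroup.orderOf_mk _ _
    have hC : ∀ g ∈ Q.subgroupOf (X ⊔ Q), g * x = x * g → ∀ h ∈ Q.subgroupOf (X ⊔ Q),
        g * h = h * g := by
      intro g hg hgx h hh
      have hg' : g.1 ∈ Q := hg
      have hh' : h.1 ∈ Q := hh
      have hgx' : g.1 * x₀ = x₀ * g.1 := congrArg Subtype.val hgx
      have h1 : g.1 ∈ Q ⊓ Subgroup.centralizer (X : Set G) := by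
        refine ⟨hg', ?_⟩
        apply Subgroup.mem_centralizer_iff.mpr
        intro z hz
        rw [SetLike.mem_coe, ← hzx] at hz
        obtain ⟨k, rfl⟩ := Subgroup.mem_zpowers_iff.mp hz
        have h5 : Commute x₀ g.1 := hgx'.symm
        exact (h5.zpow_left k).eq
      rw [hCQ] at h1
      obtain ⟨c, hc, hce⟩ := h1
      have h2 := Subgroup.mem_center_iff.mp hc ⟨h.1, hh'⟩
      apply Subtype.ext
      have h3 : h.1 * c.1 = c.1 * h.1 := congrArg Subtype.val h2
      have h4 : c.1 = g.1 := hce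
      rw [h4] at h3
      exact h3.symm
    have hfaith : ∀ g ∈ Q.subgroupOf (X ⊔ Q), ρ g = 1 → g = 1 := by
      intro g hg hρg
      apply Subtype.ext
      have h1 : g.1 ∈ (X ⊔ Q) ⊓ Subgroup.centralizer (V : Set G) := by
        refine ⟨g.2, ?_⟩
        apply Subgroup.mem_centralizer_iff.mpr
        intro v hv
        have hm : g.1 * v * g.1⁻¹ ∈ V :=
          (Subgroup.mem_normalizer_iff.mp ((sup_le hXV hQV) g.2) v).mp hv
        have h2 := hact g ⟨v, hv⟩ ⟨_, hm⟩ rfl
        rw [hρg, Module.End.one_apply] at h2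
        have h3 : v = g.1 * v * g.1⁻¹ := congrArg Subtype.val (hbij.1 h2)
        calc v * g.1 = g.1 * v * g.1⁻¹ * g.1 := by rw [← h3]
          _ = g.1 * v := by group
      rw [hfaith, Subgroup.mem_bot] at h1
      exact h1
    have hι1 : ι 1 = 0 := by
      have h1 := hadd 1 1
      rw [mul_one] at h1
      simpa using h1
    have hfree : ∀ v, ρ x v = v → v = 0 := by
      intro v hv
      obtain ⟨a, rfl⟩ := hbij.2 v
      have hm : x₀ * a.1 * x₀⁻¹ ∈ V :=
        (Subgroup.mem_normalizer_iff.mp (hXV hx₀X) a.1).mp a.2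
      have h2 := hact x a ⟨_, hm⟩ rfl
      rw [hv] at h2
      have h3 : a.1 = x₀ * a.1 * x₀⁻¹ := congrArg Subtype.val (hbij.1 h2)
      have h4 : a.1 ∈ V ⊓ Subgroup.centralizer (X : Set G) := by
        refine ⟨a.2, ?_⟩
        apply Subgroup.mem_centralizer_iff.mpr
        intro z hz
        rw [SetLike.mem_coe, ← hzx] at hz
        obtain ⟨k, rfl⟩ := Subgroup.mem_zpowers_iff.mp hz
        have h5 : Commute x₀ a.1 := by
          change x₀ * a.1 = a.1 * x₀
          calc x₀ * a.1 = x₀ * a.1 * x₀⁻¹ * x₀ := by group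
            _ = a.1 * x₀ := by rw [← h3]
        exact (h5.zpow_left k).eq
      rw [hCV, Subgroup.mem_bot] at h4
      have h6 : a = 1 := Subtype.ext h4
      rw [h6, hι1]
    have hq0 : (q : ZMod p) ≠ 0 := by
      intro h
      rw [ZMod.natCast_eq_zero_iff] at h
      exact hpq ((Nat.prime_dvd_prime_iff_eq hp hq).mp h)
    have hr0 : (r : ZMod p) ≠ 0 := by
      intro h
      rw [ZMod.natCast_eq_zero_iff] at h
      exact hpr ((Nat.prime_dvd_prime_iff_eq hp hr).mp h)
    obtain ⟨h2, n, hn, hc⟩ := Extraspecial.of_free hq0 hr0 hqr ρ (Q.subgroupOf (X ⊔ Q)) hQp hQZ hQc x hx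
      hord hC hfaith hfree
    refine ⟨h2, n, hn, ?_⟩
    rw [← hc]
    exact (Nat.card_congr e.toEquiv).symm

end Cfsg.Agent.S3764
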