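import Cfsg.Statements.S3765
import Cfsg.Agent.Lib.HallHigman.FixedPoints

set_option autoImplicit false
open Cfsg
open Cfsg.Agent.Lib.HallHigman

namespace Cfsg.Agent.S3765

/-- Let p, q, r be distinct primes and let X, Q, V be subgroups of a finite group with X of order r normalizing the q-group Q and acting faithfully on it (X ∩ C(Q) = 1), and V a nontrivial elementary abelian p-group normalized by X and Q on which XQ acts faithfully. If q = 2 and r has the form 2^n + 1, assume in addition that Q is abelian. Then C_V(X) ≠ 1. -/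
theorem result {G : Type*} [Group G] [Finite G] {p q r : ℕ} (hp : p.Prime) (hq : q.Prime) (hr : r.Prime) (hpq : p ≠ q) (hpr : p ≠ r) (hqr : q ≠ r) (X Q V : Subgroup G) (hX : Nat.card X = r) (hQ : IsPGroup q Q) (hXQ : X ≤ Subgroup.normalizer (Q : Set G)) (hXfaith : X ⊓ Subgroup.centralizer (Q : Set G) = ⊥) (hV : Cfsg.IsElementaryAbelian p V) (hV1 : V ≠ ⊥) (hXV : X ≤ Subgroup.normalizer (V : Set G)) (hQV : Q ≤ Subgroup.normalizer (V : Set G)) (hfaith : (X ⊔ Q) ⊓ Subgroup.centralizer (V : Set G) = ⊥) (hexc : q = 2 → (∃ n : ℕ, r = 2 ^ n + 1) → IsMulCommutative Q) : V ⊓ Subgroup.centralizer (X : Set G) ≠ ⊥ := by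
  classical
    intro hCV
    have hXc : ¬ Q ≤ Subgroup.centralizer (X : Set G) := by
      intro hle
      obtain ⟨x, hxX, hord, -⟩ := FixedPoints.exists_generator_of_prime hr hX
      have h1 : X ≤ Subgroup.centralizer (Q : Set G) := Subgroup.le_centralizer_iff.mp hle
      have h2 : x ∈ X ⊓ Subgroup.centralizer (Q : Set G) := ⟨hxX, h1 hxX⟩
      rw [hXfaith, Subgroup.mem_bot] at h2
      rw [h2, orderOf_one] at hord
      exact hr.one_lt.ne hord
    obtain ⟨m, hm, hrm, hnc⟩ := FixedPoints.fixed_of_subgroups hp hq hr hpq hpr hqr X Q V hX hQ hXQ hXc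
      hV.1 hV.2 hXV hQV
      (fun g hg hgc => by
        have hmem : g ∈ (X ⊔ Q) ⊓ Subgroup.centralizer (V : Set G) :=
          ⟨(le_sup_right : Q ≤ X ⊔ Q) hg, hgc⟩
        rw [hfaith, Subgroup.mem_bot] at hmem
        exact hmem) hCV
    have hq2 := FixedPoints.eq_two_of_eq_pow_add_one hq hr hm hrm
    subst hq2
    exact hnc (hexc rfl ⟨m, hrm⟩)

end Cfsg.Agent.S3765
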