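import Cfsg.Statements.S3766
import Cfsg.Agent.Lib.Solvable.Fitting
import Cfsg.Agent.Lib.FGS.Comm
import Cfsg.Agent.Lib.Transfer.Basic
import Mathlib

set_option autoImplicit false
open Cfsg
open scoped commutatorElement

namespace Cfsg.Agent.S3766

open Cfsg.Agent.Lib.FGS.Comm Cfsg.Agent.Lib.Core.Basic

variable {G : Type*} [Group G]

/-- The chain `[W, X, ..., X]`. -/
private def I (X W : Subgroup G) : ℕ → Subgroup G
  | 0 => W
  | k + 1 => ⁅I X W k, X⁆

private lemma I_normal (X W : Subgroup G) [X.Normal] [W.Normal] (k : ℕ) : (I X W k).Normal := by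
  induction k with
  | zero => exact ‹W.Normal›
  | succ k ih =>
    haveI := ih
    show (⁅I X W k, X⁆ : Subgroup G).Normal
    infer_instance

private lemma I_mono (X : Subgroup G) {W W' : Subgroup G} (h : W ≤ W') (k : ℕ) :
    I X W k ≤ I X W' k := by
  induction k with
  | zero => exact h
  | succ k ih => exact Subgroup.commutator_mono ih le_rfl

private lemma I_succ' (X W : Subgroup G) (k : ℕ) : I X W (k + 1) = I X ⁅W, X⁆ k := by
  induction k with
  | zero => rfl
  | succ k ih =>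
    show ⁅I X W (k + 1), X⁆ = ⁅I X ⁅W, X⁆ k, X⁆
    rw [ih]

/-- `[W, γ_k(X)] ≤ [W, X, ..., X]` (`k+1` copies). -/
private lemma commutator_lcs_le' (X : Subgroup G) [X.Normal] (k : ℕ) :
    ∀ (W : Subgroup G) [W.Normal], ⁅W, X.lowerCentralSeries k⁆ ≤ I X W (k + 1) := by
  induction k with
  | zero =>
    intro W _
    exact le_rfl
  | succ k ih =>
    intro W hW
    rw [Subgroup.commutator_comm, Subgroup.lowerCentralSeries_succ]
    haveI := I_normal X W (k + 1 + 1)
    apply three_le (R := I X W (k + 1 + 1))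
    · rw [Subgroup.commutator_comm X W, I_succ']
      exact ih ⁅W, X⁆
    · exact Subgroup.commutator_mono (ih W) le_rfl

private lemma I_eq_bot_of_lcs (F X : Subgroup G) [X.Normal] [F.Normal]
    (m : ℕ) (hF : X.lowerCentralSeries m ≤ F) (j : ℕ) :
    X.lowerCentralSeries (m + j) ≤ I X F j := by
  induction j with
  | zero => exact hF
  | succ j ih =>
    show ⁅X.lowerCentralSeries (m + j), X⁆ ≤ ⁅I X F j, X⁆
    exact Subgroup.commutator_mono ih le_rfl

/-- `X` chain on `W`: every normal subgroup below a group on which `X` centralizes all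
chief factors is annihilated by iterating. -/
private lemma exists_I_eq_bot [Finite G] (X F : Subgroup G) [X.Normal]
    (hX : ∀ U V : Subgroup G, (U.Normal ∧ V.Normal ∧ V < U ∧
      ∀ W : Subgroup G, W.Normal → V ≤ W → W ≤ U → W = V ∨ W = U) → U ≤ F →
      ∀ u ∈ U, ∀ x ∈ X, ⁅u, x⁆ ∈ V) :
    ∀ (n : ℕ) (W : Subgroup G), Nat.card W = n → W.Normal → W ≤ F → ∃ m, I X W m = ⊥ := by
  intro n
  induction n using Nat.strong_induction_on with
  | _ n ih =>
    intro W hn hWn hWF
    by_cases hW : W = ⊥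
    · exact ⟨0, hW⟩
    -- maximal normal subgroup strictly below `W`
    let S : Set (Subgroup G) := {T | T.Normal ∧ T < W}
    have hbot : (⊥ : Subgroup G) ∈ S := ⟨inferInstance, bot_lt_iff_ne_bot.2 hW⟩
    obtain ⟨V, -, hV⟩ := (Set.toFinite S).exists_le_maximal hbot
    obtain ⟨hVn, hVW⟩ := hV.prop
    have hchief : ∀ T : Subgroup G, T.Normal → V ≤ T → T ≤ W → T = V ∨ T = W := by
      intro T hTn hVT hTW
      by_cases hTe : T = W
      · exact Or.inr hTe
      · left
        have : T ∈ S := ⟨hTn, lt_of_le_of_ne hTW hTe⟩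
        exact hV.eq_of_ge this hVT
    have hcomm : ⁅W, X⁆ ≤ V := by
      rw [Subgroup.commutator_le]
      intro u hu x hx
      exact hX W V ⟨hWn, hVn, hVW, hchief⟩ hWF u hu x hx
    have hlt : Nat.card V < n := by
      rw [← hn]
      refine lt_of_le_of_ne (Subgroup.card_le_of_le hVW.le) (fun h => ?_)
      exact hVW.ne (Subgroup.eq_of_le_of_card_ge hVW.le h.ge)
    obtain ⟨m, hm⟩ := ih _ hlt V rfl hVn (hVW.le.trans hWF)
    refine ⟨m + 1, ?_⟩
    rw [I_succ', eq_bot_iff, ← hm]
    exact I_mono X hcomm m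

/-- Chief factors are centralized by normal nilpotent subgroups. -/
private lemma comm_mem_of_nilpotent (F : Subgroup G) [F.Normal] (hF : Group.IsNilpotent F)
    (U V : Subgroup G) (hU : U.Normal) (hV : V.Normal) (hVU : V < U)
    (hchief : ∀ W : Subgroup G, W.Normal → V ≤ W → W ≤ U → W = V ∨ W = U) :
    ⁅U, F⁆ ≤ V := by
  haveI := hU
  haveI := hV
  have hW : (⁅U, F⁆ ⊔ V).Normal := inferInstance
  rcases hchief _ hW le_sup_right (sup_le (Subgroup.commutator_le_left _ _) hVU.le) with h | h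
  · rw [← h]; exact le_sup_left
  · exfalso
    obtain ⟨n, hn⟩ := (Subgroup.isNilpotent_iff_lowerCentralSeries F).1 hF
    have hI : ∀ k, (I F U (k + 1)) ≤ F.lowerCentralSeries k := by
      intro k
      induction k with
      | zero => exact Subgroup.commutator_le_right _ _
      | succ k ih => exact Subgroup.commutator_mono ih le_rfl
    have hsup : ∀ k, U ≤ I F U k ⊔ V := by
      intro k
      induction k with
      | zero => exact le_sup_left
      | succ k ih =>
        haveI := I_normal F U k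
        refine h.symm.le.trans (sup_le ?_ le_sup_right)
        rw [Subgroup.commutator_le]
        intro u hu f hf
        have hu' := ih hu
        rw [← SetLike.mem_coe, Subgroup.mul_normal] at hu'
        obtain ⟨x, hx, v, hv, rfl⟩ := hu'
        have e : ⁅x * v, f⁆ = (x * ⁅v, f⁆ * x⁻¹) * ⁅x, f⁆ := by
          simp only [commutatorElement_def]; group
        rw [e, sup_comm]
        refine Subgroup.mul_mem_sup ?_ (Subgroup.commutator_mem_commutator hx hf)
        exact hV.conj_mem _ (Subgroup.commutator_le_left V F (Subgroup.commutator_mem_commutator hv hf)) x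
    have h1 := hsup (n + 1)
    have h2 : I F U (n + 1) = ⊥ := by
      rw [eq_bot_iff, ← hn]; exact hI n
    rw [h2, bot_sup_eq] at h1
    exact absurd hVU (not_lt_of_ge h1)

/-- Let G be a finite solvable group and N a normal subgroup of G. Call a pair V < U of normal subgroups of G a chief factor of G when no normal subgroup of G lies strictly between them; an element g centralizes the chief factor U/V when u g u⁻¹ g⁻¹ ∈ V for all u ∈ U. Then an element of G lies in the Fitting subgroup F(N) if and only if it lies in N and centralizes every chief factor of G; and also if and only if it lies in N and centralizes every chief factor U/V of G with U ≤ F(N). -/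
theorem result {G : Type*} [Group G] [Finite G] (hG : Group.IsSolvable G) (N : Subgroup G) [N.Normal] (g : G) : (g ∈ (Cfsg.fittingSubgroup ↥N).map N.subtype ↔ g ∈ N ∧ ∀ U V : Subgroup G, (U.Normal ∧ V.Normal ∧ V < U ∧ ∀ W : Subgroup G, W.Normal → V ≤ W → W ≤ U → W = V ∨ W = U) → ∀ u ∈ U, u * g * u⁻¹ * g⁻¹ ∈ V) ∧ (g ∈ (Cfsg.fittingSubgroup ↥N).map N.subtype ↔ g ∈ N ∧ ∀ U V : Subgroup G, (U.Normal ∧ V.Normal ∧ V < U ∧ ∀ W : Subgroup G, W.Normal → V ≤ W → W ≤ U → W = V ∨ W = U) → U ≤ (Cfsg.fittingSubgroup ↥N).map N.subtype → ∀ u ∈ U, u * g * u⁻¹ * g⁻¹ ∈ V) := by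
  classical
  set F : Subgroup G := (Cfsg.fittingSubgroup ↥N).map N.subtype with hFdef
  haveI hFn : F.Normal :=
    Cfsg.Agent.Lib.Transfer.Basic.map_subtype_normal_of_characteristic N _
  have hFN : F ≤ N := by
    rintro _ ⟨x, _, rfl⟩
    exact x.2
  have hFnil : Group.IsNilpotent F := by
    have h1 : Group.IsNilpotent (Cfsg.fittingSubgroup ↥N) := fittingSubgroup_isNilpotent
    exact (Group.isNilpotent_congr
      ((Cfsg.fittingSubgroup ↥N).equivMapOfInjective N.subtype N.subtype_injective)).1 h1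
  -- step (i)
  have hstep1 : ∀ x ∈ F, x ∈ N ∧ ∀ U V : Subgroup G, (U.Normal ∧ V.Normal ∧ V < U ∧ ∀ W : Subgroup G, W.Normal → V ≤ W → W ≤ U → W = V ∨ W = U) → ∀ u ∈ U, u * x * u⁻¹ * x⁻¹ ∈ V := by
    intro x hx
    refine ⟨hFN hx, ?_⟩
    rintro U V ⟨hU, hV, hVU, hch⟩ u hu
    exact comm_mem_of_nilpotent F hFnil U V hU hV hVU hch
      (Subgroup.commutator_mem_commutator hu hx)
  -- the subgroup `C`
  let C : Subgroup G :=
    { carrier := {x | x ∈ N ∧ ∀ U V : Subgroup G, (U.Normal ∧ V.Normal ∧ V < U ∧ ∀ W : Subgroup G, W.Normal → V ≤ W → W ≤ U → W = V ∨ W = U) → U ≤ F → ∀ u ∈ U, ⁅u, x⁆ ∈ V}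
      one_mem' := by
        refine ⟨N.one_mem, ?_⟩
        intro U V _ _ u _
        simp [V.one_mem]
      mul_mem' := by
        rintro a b ⟨haN, ha⟩ ⟨hbN, hb⟩
        refine ⟨N.mul_mem haN hbN, ?_⟩
        intro U V h hUF u hu
        have e : ⁅u, a * b⁆ = ⁅u, a⁆ * (a * ⁅u, b⁆ * a⁻¹) := by
          simp only [commutatorElement_def]; group
        rw [e]
        exact V.mul_mem (ha U V h hUF u hu) (h.2.1.conj_mem _ (hb U V h hUF u hu) a)
      inv_mem' := by
        rintro a ⟨haN, ha⟩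
        refine ⟨N.inv_mem haN, ?_⟩
        intro U V h hUF u hu
        have e : ⁅u, a⁻¹⁆ = a⁻¹ * ⁅u, a⁆⁻¹ * a := by
          simp only [commutatorElement_def]; group
        rw [e]
        have := h.2.1.conj_mem _ (V.inv_mem (ha U V h hUF u hu)) a⁻¹
        simpa using this }
  have hmemC : ∀ x, x ∈ C ↔ x ∈ N ∧ ∀ U V : Subgroup G, (U.Normal ∧ V.Normal ∧ V < U ∧ ∀ W : Subgroup G, W.Normal → V ≤ W → W ≤ U → W = V ∨ W = U) → U ≤ F → ∀ u ∈ U, ⁅u, x⁆ ∈ V := fun x => Iff.rfl
  haveI hCn : C.Normal := by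
    constructor
    rintro a ⟨haN, ha⟩ h
    refine ⟨(inferInstance : N.Normal).conj_mem _ haN h, ?_⟩
    intro U V hc hUF u hu
    have e : ⁅u, h * a * h⁻¹⁆ = h * ⁅h⁻¹ * u * h, a⁆ * h⁻¹ := by
      simp only [commutatorElement_def]; group
    rw [e]
    refine hc.2.1.conj_mem _ (ha U V hc hUF _ ?_) h
    have := hc.1.conj_mem _ hu h⁻¹
    simpa using this
  have hCN : C ≤ N := fun x hx => hx.1
  -- step (iii)
  have hstep3 : C ≤ F := by
    obtain ⟨m, hm⟩ := exists_I_eq_bot C F (fun U V h hUF u hu x hx =>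
      ((hmemC x).1 hx).2 U V h hUF u hu) _ F rfl hFn le_rfl
    have hm1 : I C F (m + 1) = ⊥ := by
      show ⁅I C F m, C⁆ = ⊥
      rw [hm, Subgroup.commutator_bot_left]
    have h1 : ⁅F, C.lowerCentralSeries m⁆ = ⊥ := by
      rw [eq_bot_iff, ← hm1]
      exact commutator_lcs_le' C m F
    have hcent : C.lowerCentralSeries m ≤ F := by
      intro x hx
      have hxN : x ∈ N := hCN (Subgroup.lowerCentralSeries_le_self _ _ hx)
      -- `x` centralizes `F`
      have hxc : ∀ f ∈ F, f * x = x * f := by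
        intro f hf
        have : ⁅f, x⁆ ∈ (⊥ : Subgroup G) := by
          rw [← h1]
          exact Subgroup.commutator_mem_commutator hf hx
        exact commutatorElement_eq_one_iff_mul_comm.1 (Subgroup.mem_bot.1 this)
      have h2 : (⟨x, hxN⟩ : N) ∈ Subgroup.centralizer (Cfsg.fittingSubgroup ↥N : Set ↥N) := by
        rw [Subgroup.mem_centralizer_iff]
        intro y hy
        apply Subtype.ext
        exact hxc _ ⟨y, hy, rfl⟩
      haveI : Group.IsSolvable G := hG
      have h3 := Cfsg.Agent.Lib.Solvable.Fitting.centralizer_fittingSubgroup_le h2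
      exact ⟨_, h3, rfl⟩
    have hnil : Group.IsNilpotent C := by
      refine Subgroup.isNilpotent_of_lowerCentralSeries_eq_bot (n := m + (m + 1)) ?_
      rw [eq_bot_iff, ← hm1]
      exact I_eq_bot_of_lcs F C m hcent (m + 1)
    -- `C` is a normal nilpotent subgroup of `N`
    have hC' : (C.subgroupOf N).Normal := inferInstance
    have hnil' : Group.IsNilpotent (C.subgroupOf N) :=
      (Group.isNilpotent_congr (Subgroup.subgroupOfEquivOfLe hCN)).2 hnil
    have h4 := le_fittingSubgroup hC' hnil'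
    intro x hx
    exact ⟨⟨x, hCN hx⟩, h4 hx, rfl⟩
  have hmain : g ∈ F → g ∈ N ∧ ∀ U V : Subgroup G, (U.Normal ∧ V.Normal ∧ V < U ∧ ∀ W : Subgroup G, W.Normal → V ≤ W → W ≤ U → W = V ∨ W = U) → ∀ u ∈ U, u * g * u⁻¹ * g⁻¹ ∈ V := hstep1 g
  have h23 : (g ∈ N ∧ ∀ U V : Subgroup G, (U.Normal ∧ V.Normal ∧ V < U ∧ ∀ W : Subgroup G, W.Normal → V ≤ W → W ≤ U → W = V ∨ W = U) → U ≤ F → ∀ u ∈ U, u * g * u⁻¹ * g⁻¹ ∈ V) → g ∈ F := by
    rintro ⟨hgN, hg⟩
    exact hstep3 ⟨hgN, fun U V h hUF u hu => hg U V h hUF u hu⟩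
  refine ⟨⟨hmain, ?_⟩, ⟨?_, h23⟩⟩
  · rintro ⟨hgN, hg⟩
    exact h23 ⟨hgN, fun U V h _ u hu => hg U V h u hu⟩
  · intro hgF
    obtain ⟨hgN, hg⟩ := hmain hgF
    exact ⟨hgN, fun U V h _ u hu => hg U V h u hu⟩

end Cfsg.Agent.S3766
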