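import Cfsg.Statements.S3767
import Cfsg.Agent.Lib.ExtraFix.Linear
import Cfsg.Agent.Lib.PGroups.Special

set_option autoImplicit false
set_option linter.unusedSectionVars false
set_option linter.unusedSimpArgs false
open Cfsg

namespace Cfsg.Agent.S3767

open Subgroup Cfsg.Agent.Lib.PGroups.Special Cfsg.Agent.Lib.PGroups.ClassTwo
open scoped commutatorElement

section Bridge

variable {E : Type*} [Group E] {p : ℕ} [Fact p.Prime] [Finite E]

theorem of_surj : Function.Surjective (Abelianization.of : E →* Abelianization E) :=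
  QuotientGroup.mk'_surjective _

theorem of_eq_one_iff {a : E} : Abelianization.of a = 1 ↔ a ∈ commutator E :=
  QuotientGroup.eq_one_iff a

/-- The commutator form. -/
noncomputable def commF (hc : ∀ a b : E, ⁅a, b⁆ ∈ center E) (ι : center E ≃* Multiplicative (ZMod p)) :
    E →* (Abelianization E →* Multiplicative (ZMod p)) where
  toFun a := Abelianization.lift (ι.toMonoidHom.comp (commHomRight hc a))
  map_one' := by
    apply MonoidHom.ext
    intro u
    obtain ⟨b, rfl⟩ := of_surj u
    simp only [Abelianization.lift_apply_of, MonoidHom.comp_apply, MonoidHom.one_apply]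
    have : commHomRight hc 1 b = 1 := Subtype.ext (by simp [commHomRight_coe])
    rw [this]
    simp
  map_mul' a a' := by
    apply MonoidHom.ext
    intro u
    obtain ⟨b, rfl⟩ := of_surj u
    simp only [Abelianization.lift_apply_of, MonoidHom.comp_apply, MonoidHom.mul_apply]
    rw [← map_mul]
    congr 1
    exact Subtype.ext (by simpa [commHomRight_coe] using comm_mul_left hc a a' b)

/-- The commutator form on the abelianization. -/
noncomputable def commF' (hc : ∀ a b : E, ⁅a, b⁆ ∈ center E) (ι : center E ≃* Multiplicative (ZMod p)) :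
    Abelianization E →* (Abelianization E →* Multiplicative (ZMod p)) :=
  Abelianization.lift (commF hc ι)

theorem commF'_of (hc : ∀ a b : E, ⁅a, b⁆ ∈ center E) (ι : center E ≃* Multiplicative (ZMod p))
    (a b : E) : commF' hc ι (Abelianization.of a) (Abelianization.of b)
      = ι ⟨⁅a, b⁆, hc a b⟩ := by
  simp only [commF', Abelianization.lift_apply_of]
  simp only [commF, MonoidHom.coe_mk, OneHom.coe_mk, Abelianization.lift_apply_of, MonoidHom.comp_apply]
  rfl

/-- Additive form. -/
noncomputable def formAdd (hc : ∀ a b : E, ⁅a, b⁆ ∈ center E) (ι : center E ≃* Multiplicative (ZMod p)) :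
    Additive (Abelianization E) →+ Additive (Abelianization E) →+ ZMod p where
  toFun u :=
    { toFun := fun v => Multiplicative.toAdd (commF' hc ι u.toMul v.toMul)
      map_zero' := by simp
      map_add' := fun x y => by simp }
  map_zero' := by ext v; simp
  map_add' x y := by ext v; simp

theorem formAdd_of (hc : ∀ a b : E, ⁅a, b⁆ ∈ center E) (ι : center E ≃* Multiplicative (ZMod p))
    (a b : E) : formAdd hc ι (Additive.ofMul (Abelianization.of a)) (Additive.ofMul (Abelianization.of b))
      = Multiplicative.toAdd (ι ⟨⁅a, b⁆, hc a b⟩) := by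
  change Multiplicative.toAdd (commF' hc ι (Abelianization.of a) (Abelianization.of b)) = _
  rw [commF'_of]

/-- Theorem for an automorphism `σ`. -/
theorem main_aut (hE : Cfsg.IsExtraspecial p E) (n : ℕ) (hn : Nat.card E = p ^ (2 * n + 1))
    (σ : E →* E) {h : ℕ} (hpos : 0 < h) (hcop : h.Coprime p)
    (hσZ : ∀ z ∈ center E, σ z = z) (hσh : ∀ a, σ^[h] a = a)
    (hfpf : ∀ k, ¬ h ∣ k → ∀ a, σ^[k] a = a → a ∈ center E) :
    h ∣ p ^ n + 1 ∨ h ∣ p ^ n - 1 := by
  have hp := (Fact.out : p.Prime)
  have hX := extraLike_of_isExtraspecial hE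
  have hc := hX.comm_mem
  have hcomm : commutator E = center E := hE.1.2.2
  obtain ι : center E ≃* Multiplicative (ZMod p) := mulEquivOfPrimeCardEq hE.2 (by simp [Nat.card_zmod])
  let T : Additive (Abelianization E) →+ Additive (Abelianization E) :=
    MonoidHom.toAdditive (Abelianization.map σ)
  have hTof : ∀ a, T (Additive.ofMul (Abelianization.of a)) = Additive.ofMul (Abelianization.of (σ a)) :=
    fun a => rfl
  have hTk : ∀ k a, T^[k] (Additive.ofMul (Abelianization.of a))
      = Additive.ofMul (Abelianization.of (σ^[k] a)) := by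
    intro k
    induction k with
    | zero => intro a; rfl
    | succ k ih =>
      intro a
      rw [Function.iterate_succ_apply', ih, hTof, Function.iterate_succ_apply']
  have hsurj : ∀ v : Additive (Abelianization E), ∃ a, v = Additive.ofMul (Abelianization.of a) := by
    intro v
    obtain ⟨a, ha⟩ := of_surj v.toMul
    exact ⟨a, by rw [ha]; rfl⟩
  have hcenter_pow : ∀ z ∈ center E, z ^ p = 1 := hX.center_pow
  -- the final application
  apply Cfsg.Agent.Lib.ExtraFix.Linear.final_add (V := Additive (Abelianization E))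
    (B := formAdd hc ι) (T := T) (h := h) (n := n)
  · -- exponent p
    intro v
    obtain ⟨a, rfl⟩ := hsurj v
    rw [← ofMul_pow, ← map_pow]
    have : Abelianization.of (a ^ p) = 1 := by
      rw [of_eq_one_iff, hcomm]
      exact hX.pow_mem a
    rw [this]
    rfl
  · -- alternating
    intro v
    obtain ⟨a, rfl⟩ := hsurj v
    rw [formAdd_of]
    have : (⟨⁅a, a⁆, hc a a⟩ : center E) = 1 := Subtype.ext (by simp)
    rw [this]
    simp
  · -- nondegenerate
    intro v hv
    obtain ⟨a, rfl⟩ := hsurj v
    have : a ∈ center E := by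
      rw [mem_center_iff]
      intro g
      have h1 := hv (Additive.ofMul (Abelianization.of g))
      rw [formAdd_of] at h1
      have h2 : (⟨⁅a, g⁆, hc a g⟩ : center E) = 1 := by
        apply ι.injective
        rw [map_one]
        exact h1
      have h3 : ⁅a, g⁆ = 1 := congrArg Subtype.val h2
      exact (commutatorElement_eq_one_iff_mul_comm.1 h3).symm
    have h4 : Abelianization.of a = 1 := by
      rw [of_eq_one_iff, hcomm]
      exact this
    rw [h4]
    rfl
  · -- isometry
    intro u v
    obtain ⟨a, rfl⟩ := hsurj u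
    obtain ⟨b, rfl⟩ := hsurj v
    rw [hTof, hTof, formAdd_of, formAdd_of]
    congr 2
    apply Subtype.ext
    change ⁅σ a, σ b⁆ = ⁅a, b⁆
    rw [← map_commutatorElement]
    exact hσZ _ (hc a b)
  · exact hpos
  · exact hcop
  · intro v
    obtain ⟨a, rfl⟩ := hsurj v
    rw [hTk, hσh]
  · intro k hk v hv
    obtain ⟨a, rfl⟩ := hsurj v
    rw [hTk] at hv
    have h1 : Abelianization.of (σ^[k] a) = Abelianization.of a := Additive.ofMul.injective hv
    -- σ^[k] a = a * z
    have hz : (σ^[k] a) * a⁻¹ ∈ center E := by
      rw [← hcomm, ← of_eq_one_iff, map_mul, map_inv, h1, mul_inv_cancel]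
    obtain ⟨z, hzc, hzdef⟩ : ∃ z ∈ center E, σ^[k] a = z * a :=
      ⟨_, hz, by group⟩
    have hzfix : ∀ j, (σ^[k])^[j] z = z := by
      intro j
      apply Function.iterate_fixed
      apply Function.iterate_fixed
      exact hσZ z hzc
    have hpowk : ∀ j, (σ^[k])^[j] a = z ^ j * a := by
      intro j
      induction j with
      | zero => simp
      | succ j ih =>
        rw [Function.iterate_succ_apply', ih]
        have hmul : ∀ x y, σ^[k] (x * y) = σ^[k] x * σ^[k] y := by
          intro x y
          exact iterate_map_mul σ k x y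
        have hpw : ∀ i : ℕ, σ^[k] (z ^ i) = z ^ i := by
          intro i
          induction i with
          | zero => simp [iterate_map_one]
          | succ i ihi => rw [pow_succ, hmul, ihi]; congr 1; exact Function.iterate_fixed (hσZ z hzc) k
        rw [hmul, hzdef, hpw, pow_succ, mul_assoc]
    have hzh : z ^ h = 1 := by
      have h2 := hpowk h
      have h3 : (σ^[k])^[h] a = a := by
        rw [← Function.iterate_mul, mul_comm, Function.iterate_mul]
        exact Function.iterate_fixed (hσh a) k
      rw [h3] at h2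
      exact (mul_eq_right.1 h2.symm)
    have hz1 : z = 1 := by
      have := (pow_gcd_eq_one).2 ⟨hzh, hcenter_pow z hzc⟩
      rwa [hcop, pow_one] at this
    rw [hz1, one_mul] at hzdef
    have hac := hfpf k hk a hzdef
    have : Abelianization.of a = 1 := by
      rw [of_eq_one_iff, hcomm]
      exact hac
    rw [this]
    rfl
  · -- the order
    have h1 : Nat.card E = Nat.card (Abelianization E) * Nat.card (commutator E) :=
      Subgroup.card_eq_card_quotient_mul_card_subgroup (commutator E)
    rw [hn, hcomm, hE.2, pow_succ] at h1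
    have h2 : Nat.card (Abelianization E) = p ^ (2 * n) :=
      (Nat.eq_of_mul_eq_mul_right hp.pos h1).symm
    exact h2

end Bridge

/-- Let P be an extraspecial p-group of order p^(2n+1) and H a cyclic group of order h prime to p acting on P (inside a common finite group: H normalizes P) so that C_P(x) = Z(P) for every non-identity x ∈ H. Then h divides p^n + 1 or h divides p^n − 1. -/
theorem result {G : Type*} [Group G] [Finite G] {p : ℕ} [Fact p.Prime] (P H : Subgroup G) (hP : Cfsg.IsExtraspecial p ↥P) (n : ℕ) (hn : Nat.card P = p ^ (2 * n + 1)) (hH : IsCyclic H) (hcop : (Nat.card H).Coprime p) (hHP : H ≤ Subgroup.normalizer (P : Set G)) (hfix : ∀ x ∈ H, x ≠ 1 → P ⊓ Subgroup.centralizer {x} = (Subgroup.center ↥P).map P.subtype) : Nat.card H ∣ p ^ n + 1 ∨ Nat.card H ∣ p ^ n - 1 := by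
  obtain ⟨g, hg⟩ := IsCyclic.exists_generator (α := H)
  have hgN : (g : G) ∈ Subgroup.normalizer (P : Set G) := hHP g.2
  have hnorm : ∀ a : P, (g : G) * a * (g : G)⁻¹ ∈ P := fun a =>
    (Subgroup.mem_normalizer_iff.1 hgN a).1 a.2
  let σ : P →* P :=
    { toFun := fun a => ⟨(g : G) * a * (g : G)⁻¹, hnorm a⟩
      map_one' := Subtype.ext (by simp)
      map_mul' := fun a b => Subtype.ext (by
        change (g : G) * ((a : G) * b) * (g : G)⁻¹ = ((g : G) * a * (g : G)⁻¹) * ((g : G) * b * (g : G)⁻¹)
        group) }
  have hσk : ∀ (k : ℕ) (a : P), ((σ^[k] a : P) : G) = (g : G) ^ k * a * ((g : G) ^ k)⁻¹ := by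
    intro k a
    induction k with
    | zero => simp
    | succ k ih =>
      rw [Function.iterate_succ_apply']
      change (g : G) * ((σ^[k] a : P) : G) * (g : G)⁻¹ = _
      rw [ih]
      group
  have hcard : Nat.card H = orderOf (g : G) := by
    rw [Subgroup.orderOf_coe, ← Nat.card_zpowers]
    rw [(Subgroup.eq_top_iff' _).2 hg, Subgroup.card_top]
  have hmemcen : ∀ a : P, (a : G) ∈ (Subgroup.center ↥P).map P.subtype → a ∈ Subgroup.center ↥P := by
    intro a ha
    obtain ⟨b, hb, hab⟩ := ha
    have : b = a := Subtype.ext hab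
    exact this ▸ hb
  have hpowne : ∀ k, ¬ Nat.card H ∣ k → ((g : G) ^ k ≠ 1 ∧ (g : G) ^ k ∈ H) := by
    intro k hk
    refine ⟨fun h1 => hk ?_, pow_mem g.2 k⟩
    rw [hcard]
    exact orderOf_dvd_of_pow_eq_one h1
  apply main_aut hP n hn σ (Nat.card_pos) hcop
  · -- g centralizes the centre
    intro z hz
    by_cases hg1 : (g : G) = 1
    · apply Subtype.ext
      change (g : G) * z * (g : G)⁻¹ = z
      simp [hg1]
    · have hz' : (z : G) ∈ P ⊓ Subgroup.centralizer {(g : G)} := by
        rw [hfix g g.2 hg1]
        exact ⟨z, hz, rfl⟩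
      have h2 := (Subgroup.mem_centralizer_singleton_iff.1 hz'.2)
      apply Subtype.ext
      change (g : G) * z * (g : G)⁻¹ = z
      rw [← h2]
      group
  · intro a
    apply Subtype.ext
    rw [hσk, hcard, pow_orderOf_eq_one]
    simp
  · intro k hk a ha
    obtain ⟨hne, hmem⟩ := hpowne k hk
    apply hmemcen
    rw [← hfix _ hmem hne]
    refine Subgroup.mem_inf.2 ⟨a.2, Subgroup.mem_centralizer_singleton_iff.2 ?_⟩
    have := congrArg (Subtype.val) ha
    rw [hσk] at this
    exact (mul_inv_eq_iff_eq_mul.1 this).symm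

end Cfsg.Agent.S3767
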