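import Cfsg.Statements.S3769
import Cfsg.Agent.Lib.HallHigman.FixedPoints

set_option autoImplicit false
open Cfsg
open Cfsg.Agent.Lib.HallHigman
open scoped commutatorElement

namespace Cfsg.Agent.S3769

/-- Let G and V be subgroups of a finite group with G solvable of odd order normalizing V, V an elementary abelian ℓ-group for a prime ℓ not dividing the order of G, and suppose G has a normal Hall subgroup K with a complement R of prime order. If C_V(R) = 1, then [R, K] centralizes V. -/
theorem result {X : Type*} [Group X] [Finite X] (G : Subgroup X) (hsolv : Group.IsSolvable G) (hodd : Odd (Nat.card G)) (V : Subgroup X) {ℓ : ℕ} (hℓ : ℓ.Prime) (hV : Cfsg.IsElementaryAbelian ℓ V) (hℓG : ¬ ℓ ∣ Nat.card G) (hGV : G ≤ Subgroup.normalizer (V : Set X)) (K R : Subgroup X) (hKG : K ≤ G) (hKn : G ≤ Subgroup.normalizer (K : Set X)) (hHall : (Nat.card K).Coprime (K.relIndex G)) (hRG : R ≤ G) (hR : (Nat.card R).Prime) (hKR : K ⊓ R = ⊥) (hKRG : K ⊔ R = G) (hCV : V ⊓ Subgroup.centralizer (R : Set X) = ⊥)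 : ⁅R, K⁆ ≤ Subgroup.centralizer (V : Set X) := by
  classical
    haveI hℓf : Fact ℓ.Prime := ⟨hℓ⟩
    set r := Nat.card R with hrdef
    haveI hrf : Fact r.Prime := ⟨hR⟩
    obtain ⟨x, hxR, hord, hzx⟩ := FixedPoints.exists_generator_of_prime hR rfl
    obtain ⟨W, i1, i2, i3, ρ, ι, hadd, hbij, hact⟩ :=
      Section.exists_module_of_normalizer (p := ℓ) V G hV.1 hV.2 hGV
    have hι1 : ι 1 = 0 := by
      have := hadd 1 1
      rw [mul_one] at this
      simpa using this
    have hxG : x ∈ G := hRG hxR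
    let x' : G := ⟨x, hxG⟩
    let K' : Subgroup G := K.subgroupOf G
    have hordx' : orderOf x' = r := by
      rw [Subgroup.orderOf_mk, hord]
    have hKn' : x' ∈ Subgroup.normalizer (K' : Set G) := by
      rw [Subgroup.mem_normalizer_iff]
      intro h
      exact Subgroup.mem_normalizer_iff.mp (hKn hxG) h.1
    have hK'card : Nat.card K' = Nat.card K :=
      Nat.card_congr (Subgroup.subgroupOfEquivOfLe hKG).toEquiv
    have hdvdK : Nat.card K ∣ Nat.card G := Subgroup.card_dvd_of_le hKG
    have hindex : K.relIndex G = r := by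
      have hnorm : K'.Normal := by
        constructor
        intro k hk g
        exact (Subgroup.mem_normalizer_iff.mp (hKn g.2) k.1).mp hk
      -- `G = K R` with `K ∩ R = 1`
      have h1 : K'.relIndex ⊤ = K.relIndex G := by
        rw [Subgroup.relIndex_top_right]
        rfl
      have hsup : (K ⊔ R : Subgroup X) = G := hKRG
      have hcard : Nat.card G = Nat.card K * Nat.card R := by
        have hNK : R ≤ Subgroup.normalizer (K : Set X) := hRG.trans hKn
        have := Cfsg.Agent.Lib.Coprime.Action.card_sup_of_le_normalizer (A := R) (K := K) hNK hKR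
        rw [hsup] at this
        exact this.symm
      have h2 := Cfsg.Agent.Lib.Coprime.Action.card_eq_card_mul_relIndex hKG
      rw [hcard] at h2
      exact (Nat.eq_of_mul_eq_mul_left Nat.card_pos h2).symm
    have hcopK : (Nat.card K').Coprime r := by
      rw [hK'card, ← hindex]
      exact hHall
    have hℓK : ∀ q : ℕ, q.Prime → q ∣ Nat.card K' → (q : ZMod ℓ) ≠ 0 := by
      intro q hq hd h
      rw [ZMod.natCast_eq_zero_iff] at h
      rw [hK'card] at hd
      have : ℓ = q := (Nat.prime_dvd_prime_iff_eq hℓ hq).mp h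
      subst this
      exact hℓG (hd.trans hdvdK)
    have hrd : r ∣ Nat.card G := Subgroup.card_dvd_of_le hRG
    have hrF : (r : ZMod ℓ) ≠ 0 := by
      intro h
      rw [ZMod.natCast_eq_zero_iff] at h
      exact hℓG (h.trans hrd)
    have hfree : ∀ w, ρ x' w = w → w = 0 := by
      intro w hw
      obtain ⟨v, rfl⟩ := hbij.2 w
      have hm : x * v.1 * x⁻¹ ∈ V := (Subgroup.mem_normalizer_iff.mp (hGV hxG) v.1).mp v.2
      have h1 := hact x' v ⟨_, hm⟩ rfl
      rw [hw] at h1
      have h2 : v.1 = x * v.1 * x⁻¹ := congrArg Subtype.val (hbij.1 h1)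
      have h3 : x * v.1 = v.1 * x := by
        calc x * v.1 = x * v.1 * x⁻¹ * x := by group
          _ = v.1 * x := by rw [← h2]
      have h4 : v.1 ∈ V ⊓ Subgroup.centralizer (R : Set X) := by
        refine ⟨v.2, ?_⟩
        rw [← hzx]
        apply Subgroup.mem_centralizer_iff.mpr
        intro z hz
        obtain ⟨k, rfl⟩ := Subgroup.mem_zpowers_iff.mp hz
        have h5 : Commute x v.1 := h3
        exact (h5.zpow_left k).eq
      rw [hCV, Subgroup.mem_bot] at h4
      have h6 : v = 1 := Subtype.ext h4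
      rw [h6, hι1]
    have hnoexc : ∀ q m : ℕ, q.Prime → q ∣ Nat.card K' → 1 ≤ m → r ≠ q ^ m + 1 := by
      intro q m hq hd hm hrm
      have hq2 := FixedPoints.eq_two_of_eq_pow_add_one hq hR hm hrm
      subst hq2
      rw [hK'card] at hd
      have h2 : 2 ∣ Nat.card G := hd.trans hdvdK
      exact (Nat.not_even_iff_odd.mpr hodd) (even_iff_two_dvd.mpr h2)
    have hmain := FixedPoints.commute_of_free hrF ρ x' hordx' K' hKn' hcopK hℓK hfree hnoexc
    -- conclusion
    rw [Subgroup.commutator_le]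
    intro z hz k hk
    rw [Subgroup.mem_centralizer_iff]
    intro v hv
    rw [← hzx] at hz
    have hkG : k ∈ G := hKG hk
    have hfinx : IsOfFinOrder x := isOfFinOrder_of_finite x
    obtain ⟨j, rfl⟩ := hfinx.mem_powers_iff_mem_zpowers.mpr hz
    simp only
    have hpow : ∀ (j : ℕ) (g : G), g ∈ K' → x' ^ j * g * (x' ^ j)⁻¹ ∈ K' ∧
        ρ (x' ^ j * g * (x' ^ j)⁻¹) = ρ g := by
      intro j
      induction j with
      | zero =>
        intro g hg
        simpa using hg
      | succ j ih =>
        intro g hg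
        obtain ⟨h1, h2⟩ := ih g hg
        have e : x' ^ (j + 1) * g * (x' ^ (j + 1))⁻¹ = x' * (x' ^ j * g * (x' ^ j)⁻¹) * x'⁻¹ := by
          rw [pow_succ']
          group
        rw [e]
        refine ⟨(Subgroup.mem_normalizer_iff.mp hKn' _).mp h1, ?_⟩
        rw [hmain _ h1, h2]
    let z' : G := x' ^ j
    have hz'e : z'.1 = x ^ j := rfl
    let k' : G := ⟨k, hkG⟩
    have hk' : k' ∈ K' := hk
    let c : G := z' * k' * z'⁻¹ * k'⁻¹
    have hρc : ρ c = 1 := by
      have e : ρ c = ρ (z' * k' * z'⁻¹) * ρ k'⁻¹ := map_mul _ _ _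
      rw [e, (hpow j k' hk').2, ← map_mul, mul_inv_cancel, map_one]
    have hm : c.1 * v * c.1⁻¹ ∈ V := (Subgroup.mem_normalizer_iff.mp (hGV c.2) v).mp hv
    have h1 := hact c ⟨v, hv⟩ ⟨_, hm⟩ rfl
    rw [hρc, Module.End.one_apply] at h1
    have h2 : v = c.1 * v * c.1⁻¹ := congrArg Subtype.val (hbij.1 h1)
    have h3 : c.1 = ⁅x ^ j, k⁆ := rfl
    rw [← h3]
    symm
    calc c.1 * v = c.1 * v * c.1⁻¹ * c.1 := by group
      _ = v * c.1 := by rw [← h2]

end Cfsg.Agent.S3769
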