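import Cfsg.Statements.S3771
import Cfsg.Agent.Lib.PGroups.MaxAbelian
import Mathlib

set_option autoImplicit false
open Cfsg

namespace Cfsg.Agent.S3771

/-- Let p be a prime and R a finite p-group of p-rank at most 2 (no elementary abelian subgroup of order p³) in which every element has order dividing p. Then R has order at most p³. -/
theorem result {R : Type*} [Group R] [Finite R] {p : ℕ} [Fact p.Prime] (hR : IsPGroup p R) (hrank : Cfsg.PRankLE p 2 R) (hexp : ∀ x : R, x ^ p = 1) : Nat.card R ≤ p ^ 3 := by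
  classical
  -- choose a maximal normal abelian subgroup
  let S : Set (Subgroup R) := {B | B.Normal ∧ IsMulCommutative B}
  have hbot : (⊥ : Subgroup R) ∈ S := ⟨inferInstance, ⟨⟨fun a b => by
    apply Subtype.ext
    have h1 : (a : R) = 1 := Subgroup.mem_bot.1 a.2
    have h2 : (b : R) = 1 := Subgroup.mem_bot.1 b.2
    simp [h1, h2]⟩⟩⟩
  have hfin : S.Finite := Set.toFinite S
  obtain ⟨A, _, hA⟩ := hfin.exists_le_maximal hbot
  obtain ⟨hAn, hAc⟩ := hA.prop
  haveI := hAn
  have hcard : Nat.card A ≤ p ^ 2 := hrank A hAc (fun a _ => hexp a)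
  obtain ⟨a, ha⟩ := IsPGroup.iff_card.1 (hR.to_subgroup A)
  have hp : 1 < p := (Fact.out : p.Prime).one_lt
  have ha2 : a ≤ 2 := by
    rw [ha] at hcard
    exact (Nat.pow_le_pow_iff_right hp).1 hcard
  have h := Cfsg.Agent.Lib.PGroups.MaxAbelian.card_le_of_maximal hR A hAc
    (fun B hBn hBc hAB => hA.eq_of_ge ⟨hBn, hBc⟩ hAB) a ha
  refine h.trans (Nat.pow_le_pow_right (by omega) ?_)
  interval_cases a <;> simp

end Cfsg.Agent.S3771
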