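import Cfsg.Statements.S3773
import Cfsg.Agent.Lib.FGS.QuadCW
import Cfsg.Agent.Lib.PGroups.Basic
import Mathlib

set_option autoImplicit false
open Cfsg
open scoped commutatorElement

namespace Cfsg.Agent.S3773

open Cfsg.Agent.Lib.FGS.QuadCW Cfsg.Agent.Lib.PGroups.ClassTwo Subgroup

/-- A homomorphism to `ZMod 2` nontrivial on `g₀` has kernel of index 2. -/
private lemma index_ker_eq_two {Γ : Type*} [Group Γ] (φ : Γ →* Multiplicative (ZMod 2)) (g₀ : Γ)
    (h : φ g₀ ≠ 1) : φ.ker.index = 2 := by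
  rw [Subgroup.index_ker]
  haveI : Fact (Nat.card (Multiplicative (ZMod 2))).Prime := by
    rw [show Nat.card (Multiplicative (ZMod 2)) = 2 by simp]
    exact ⟨Nat.prime_two⟩
  have hr : φ.range = ⊤ := by
    rcases φ.range.eq_bot_or_eq_top_of_prime_card with h1 | h1
    · exfalso
      apply h
      have : φ g₀ ∈ φ.range := ⟨g₀, rfl⟩
      rw [h1] at this
      exact Subgroup.mem_bot.1 this
    · exact h1
  rw [hr]
  simp

/-- Let G be a finite 2-group of nilpotency class at most 2 and exponent dividing 4 in which the elements x with x² = 1 form a subgroup N. Then |G| ≤ |N|³, and |G| < |N|³ unless G is special. -/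
theorem result {G : Type*} [Group G] [Finite G] (hG : IsPGroup 2 G) (hcl : (⊤ : Subgroup G).lowerCentralSeries 2 = ⊥) (hexp : ∀ x : G, x ^ 4 = 1) (hN : ∀ x y : G, x ^ 2 = 1 → y ^ 2 = 1 → (x * y) ^ 2 = 1) : Nat.card G ≤ Nat.card {x : G // x ^ 2 = 1} ^ 3 ∧ (¬ Cfsg.IsSpecial 2 G → Nat.card G < Nat.card {x : G // x ^ 2 = 1} ^ 3) := by
  classical
  haveI : Fact (Nat.Prime 2) := ⟨Nat.prime_two⟩
  -- central commutators
  have hc : ∀ a b : G, ⁅a, b⁆ ∈ center G := by
    intro a b
    rw [mem_center_iff]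
    intro g
    have h1 : ⁅⁅a, b⁆, g⁆ ∈ (⊤ : Subgroup G).lowerCentralSeries 2 := by
      rw [show (2 : ℕ) = 1 + 1 from rfl, Subgroup.lowerCentralSeries_succ,
        Subgroup.lowerCentralSeries_succ]
      exact Subgroup.commutator_mem_commutator
        (Subgroup.commutator_mem_commutator (Subgroup.mem_top a) (Subgroup.mem_top b))
        (Subgroup.mem_top g)
    rw [hcl, Subgroup.mem_bot] at h1
    exact (commutatorElement_eq_one_iff_mul_comm.1 h1).symm
  -- the subgroup `N`
  let N : Subgroup G :=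
    { carrier := {x | x ^ 2 = 1}
      one_mem' := one_pow 2
      mul_mem' := fun {a b} ha hb => hN a b ha hb
      inv_mem' := fun {a} ha => by
        show a⁻¹ ^ 2 = 1
        rw [inv_pow, show a ^ 2 = 1 from ha, inv_one] }
  have hmemN : ∀ x, x ∈ N ↔ x ^ 2 = 1 := fun x => Iff.rfl
  haveI hNn : N.Normal := by
    constructor
    intro n hn g
    rw [hmemN] at hn ⊢
    rw [conj_pow, hn]
    simp
  have hcardN : Nat.card {x : G // x ^ 2 = 1} = Nat.card N := rfl
  rw [hcardN]
  have hsqN : ∀ x : G, x ^ 2 ∈ N := fun x => by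
    rw [hmemN, ← pow_mul]
    exact hexp x
  have hmulsq : ∀ x y : G, (x * y) ^ 2 = x ^ 2 * y ^ 2 * ⁅y, x⁆ := by
    intro x y
    rw [Cfsg.Agent.Lib.PGroups.ClassTwo.mul_pow hc]
    simp
  have hcN : ∀ x y : G, ⁅x, y⁆ ∈ N := by
    intro x y
    have h1 := hmulsq y x
    have h2 : ⁅x, y⁆ = (y ^ 2 * x ^ 2)⁻¹ * (y * x) ^ 2 := by
      rw [h1]; group
    rw [h2]
    exact N.mul_mem (N.inv_mem (N.mul_mem (hsqN y) (hsqN x))) (hsqN _)
  have hcomm2 : ∀ x y : G, ⁅x, y⁆ ^ 2 = 1 := fun x y => (hmemN _).1 (hcN x y)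
  have hsqZ : ∀ x : G, x ^ 2 ∈ center G := by
    intro x
    rw [mem_center_iff]
    intro g
    have h1 : ⁅x ^ 2, g⁆ = 1 := by rw [comm_pow_left hc, hcomm2]
    exact (commutatorElement_eq_one_iff_mul_comm.1 h1).symm
  -- dimensions
  have hpN : IsPGroup 2 N := hG.to_subgroup N
  obtain ⟨t, ht⟩ := IsPGroup.iff_card.1 hpN
  have hpQ : IsPGroup 2 (G ⧸ N) := hG.to_quotient N
  obtain ⟨d, hd⟩ := IsPGroup.iff_card.1 hpQ
  have hindex : N.index = 2 ^ d := by rw [Subgroup.index_eq_card]; exact hd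
  let Z₀ : Subgroup G := N ⊓ center G
  have hpZ : IsPGroup 2 Z₀ := hG.to_subgroup Z₀
  obtain ⟨k, hk⟩ := IsPGroup.iff_card.1 hpZ
  have hkt : k ≤ t := by
    have h1 : Nat.card Z₀ ≤ Nat.card N := Subgroup.card_le_of_le inf_le_left
    rw [hk, ht] at h1
    exact (Nat.pow_le_pow_iff_right (by norm_num)).1 h1
  have hdk : d ≤ 2 * k := by
    by_contra hlt
    push Not at hlt
    obtain ⟨x, -, hxN, hx⟩ := core hc N ⊤ Z₀ ⊥ inf_le_right (fun u hu => hu.1)
      (fun x _ => ⟨hsqN x, hsqZ x⟩) (fun x _ y _ => ⟨hcN x y, hc x y⟩) inf_le_left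
      d k (by rw [Subgroup.relIndex_top_right]; exact hindex)
      (by rw [Subgroup.relIndex_bot_left]; exact hk) hlt
    exact hxN ((hmemN x).2 (Subgroup.mem_bot.1 hx))
  have hcardG : Nat.card G = 2 ^ t * 2 ^ d := by
    rw [← Subgroup.card_mul_index N, ht, hindex]
  have hmain : Nat.card G ≤ Nat.card N ^ 3 := by
    rw [hcardG, ht, ← pow_add, ← pow_mul]
    apply Nat.pow_le_pow_right (by norm_num)
    omega
  refine ⟨hmain, fun hns => lt_of_le_of_ne hmain (fun heq => hns ?_)⟩
  -- the equality case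
  have hd2t : d = 2 * t := by
    rw [hcardG, ht, ← pow_add, ← pow_mul] at heq
    have := Nat.pow_right_injective (le_refl 2) heq
    omega
  have hkt' : k = t := by omega
  have hZ₀N : Z₀ = N := by
    apply Subgroup.eq_of_le_of_card_ge inf_le_left
    rw [hk, ht, hkt']
  have hNc : N ≤ center G := by
    rw [← hZ₀N]; exact inf_le_right
  have hN2 : ∀ u ∈ N, u ^ 2 = 1 := fun u hu => hu
  -- `Z(G) = N`
  have hcenter : center G ≤ N := by
    intro z hz
    by_contra hzN
    set e := z ^ 2 with he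
    have he1 : e ≠ 1 := fun h => hzN ((hmemN z).2 h)
    have heN : e ∈ N := hsqN z
    obtain ⟨φ, hφN, hφz⟩ := exists_hyperplane N (fun g => by rw [← sq]; exact hsqN g) z hzN
    set M₀ := φ.ker with hM₀
    have hM₀i : M₀.index = 2 := index_ker_eq_two φ z hφz
    have hdpos : 1 ≤ d := by
      by_contra h0
      have hd0 : d = 0 := by omega
      rw [hd0] at hindex
      have : N = ⊤ := Subgroup.index_eq_one.1 (by simpa using hindex)
      exact hzN (this ▸ Subgroup.mem_top z)
    have hrel : N.relIndex M₀ = 2 ^ (d - 1) := by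
      have h1 := Subgroup.relIndex_mul_index hφN
      rw [hM₀i, hindex] at h1
      obtain ⟨d', rfl⟩ : ∃ d', d = d' + 1 := ⟨d - 1, by omega⟩
      rw [pow_succ] at h1
      simpa using Nat.eq_of_mul_eq_mul_right (by norm_num) h1
    have horder : orderOf e = 2 := orderOf_eq_prime (hN2 e heN) he1
    have hKle : Subgroup.zpowers e ≤ N := by rwa [Subgroup.zpowers_le]
    have hKcard : Nat.card (Subgroup.zpowers e) = 2 := by rw [Nat.card_zpowers, horder]
    have htpos : 1 ≤ t := by
      by_contra h0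
      have ht0 : t = 0 := by omega
      rw [ht0, pow_zero] at ht
      have : N = ⊥ := Subgroup.eq_bot_of_card_eq _ ht
      rw [this] at heN
      exact he1 (Subgroup.mem_bot.1 heN)
    have hKrel : (Subgroup.zpowers e).relIndex N = 2 ^ (t - 1) := by
      have h1 := Subgroup.relIndex_mul_relIndex (⊥ : Subgroup G) (Subgroup.zpowers e) N bot_le hKle
      rw [Subgroup.relIndex_bot_left, Subgroup.relIndex_bot_left, hKcard, ht] at h1
      obtain ⟨t', rfl⟩ : ∃ t', t = t' + 1 := ⟨t - 1, by omega⟩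
      rw [pow_succ, mul_comm] at h1
      simpa using Nat.eq_of_mul_eq_mul_right (by norm_num) h1
    obtain ⟨x, hxM, hxN, hxK⟩ := core hc N M₀ N (Subgroup.zpowers e) hNc hN2
      (fun x _ => hsqN x) (fun x _ y _ => hcN x y) le_rfl (d - 1) (t - 1) hrel hKrel (by omega)
    rw [Subgroup.mem_zpowers_iff] at hxK
    obtain ⟨i, hi⟩ := hxK
    rw [← zpow_mod_orderOf, horder] at hi
    rcases Int.emod_two_eq_zero_or_one i with h2 | h2
    · rw [show (((2 : ℕ) : ℤ)) = 2 from rfl, h2, zpow_zero] at hi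
      exact hxN ((hmemN x).2 hi.symm)
    · rw [show (((2 : ℕ) : ℤ)) = 2 from rfl, h2, zpow_one] at hi
      have h3 : (x * z) ^ 2 = 1 := by
        rw [hmulsq, commutatorElement_eq_one_iff_mul_comm.2 ((mem_center_iff.1 hz) x).symm, mul_one,
          ← hi, ← he, ← sq]
        exact hN2 e heN
      have h4 : x * z ∈ M₀ := hφN ((hmemN _).2 h3)
      have h5 : z ∈ M₀ := by
        have := M₀.mul_mem (M₀.inv_mem hxM) h4
        simpa using this
      exact hφz (MonoidHom.mem_ker.1 h5)
  have hcenterEq : center G = N := le_antisymm hcenter hNc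
  -- `G' = N`
  have hder : N ≤ commutator G := by
    intro n hn
    by_contra hnD
    let R : Subgroup N := (commutator G).subgroupOf N
    have hRn : R.Normal := inferInstance
    have hg₀ : (⟨n, hn⟩ : N) ∉ R := hnD
    obtain ⟨φ, hφR, hφg⟩ := exists_hyperplane R (fun g => by
      have : g * g = 1 := by
        apply Subtype.ext
        have := hN2 g g.2
        rw [sq] at this
        simpa using this
      rw [this]
      exact R.one_mem) ⟨n, hn⟩ hg₀
    have hK₁i : φ.ker.index = 2 := index_ker_eq_two φ _ hφg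
    let K₀ : Subgroup G := φ.ker.map N.subtype
    have hK₀N : K₀ ≤ N := Subgroup.map_subtype_le _
    have hK₀mem : ∀ (u : G) (hu : u ∈ N), u ∈ K₀ ↔ φ ⟨u, hu⟩ = 1 := by
      intro u hu
      constructor
      · rintro ⟨v, hv, rfl⟩
        exact hv
      · intro h
        exact ⟨⟨u, hu⟩, h, rfl⟩
    have hcommK : ∀ x y : G, φ ⟨⁅x, y⁆, hcN x y⟩ = 1 := by
      intro x y
      have h1 : (⟨⁅x, y⁆, hcN x y⟩ : N) ∈ R := by
        show ⁅x, y⁆ ∈ commutator G
        rw [commutator_def]
        exact Subgroup.commutator_mem_commutator (Subgroup.mem_top x) (Subgroup.mem_top y)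
      exact hφR h1
    let ψ : G →* Multiplicative (ZMod 2) :=
      { toFun := fun g => φ ⟨g ^ 2, hsqN g⟩
        map_one' := by
          have : (⟨(1 : G) ^ 2, hsqN 1⟩ : N) = 1 := Subtype.ext (by simp)
          rw [this, map_one]
        map_mul' := fun g h => by
          have : (⟨(g * h) ^ 2, hsqN (g * h)⟩ : N) =
              ⟨g ^ 2, hsqN g⟩ * ⟨h ^ 2, hsqN h⟩ * ⟨⁅h, g⁆, hcN h g⟩ :=
            Subtype.ext (hmulsq g h)
          rw [this, map_mul, map_mul, hcommK, mul_one] }
    have hψ : ∀ g, ψ g = φ ⟨g ^ 2, hsqN g⟩ := fun g => rfl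
    have hNM : N ≤ ψ.ker := by
      intro u hu
      rw [MonoidHom.mem_ker, hψ]
      have : (⟨u ^ 2, hsqN u⟩ : N) = 1 := Subtype.ext (hN2 u hu)
      rw [this, map_one]
    have hMi : ψ.ker.index ∣ 2 := by
      rw [Subgroup.index_ker]
      have := Subgroup.card_subgroup_dvd_card ψ.range
      simpa using this
    have hrel0 := Subgroup.relIndex_mul_index hNM
    rw [hindex] at hrel0
    have htpos : 1 ≤ t := by
      by_contra h0
      have ht0 : t = 0 := by omega
      rw [ht0, pow_zero] at ht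
      have h1 : N = ⊥ := Subgroup.eq_bot_of_card_eq _ ht
      rw [h1] at hn
      apply hnD
      rw [Subgroup.mem_bot.1 hn]
      exact Subgroup.one_mem _
    obtain ⟨d'', hd'', hdd⟩ : ∃ d'', N.relIndex ψ.ker = 2 ^ d'' ∧ d ≤ d'' + 1 := by
      rcases (Nat.dvd_prime Nat.prime_two).1 hMi with h1 | h1
      · refine ⟨d, ?_, by omega⟩
        rw [h1, mul_one] at hrel0
        exact hrel0
      · refine ⟨d - 1, ?_, by omega⟩
        rw [h1] at hrel0
        obtain ⟨d', hd'⟩ : ∃ d', d = d' + 1 := ⟨d - 1, by omega⟩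
        rw [hd', pow_succ] at hrel0
        have := Nat.eq_of_mul_eq_mul_right (by norm_num) hrel0
        rw [this, hd']
        simp
    have hK₀card : Nat.card K₀ = 2 ^ (t - 1) := by
      have h1 : Nat.card K₀ = Nat.card φ.ker := Subgroup.card_map_of_injective N.subtype_injective
      have h2 := Subgroup.card_mul_index φ.ker
      rw [hK₁i, ht] at h2
      obtain ⟨t', ht'⟩ : ∃ t', t = t' + 1 := ⟨t - 1, by omega⟩
      rw [ht', pow_succ] at h2
      rw [h1, Nat.eq_of_mul_eq_mul_right (by norm_num) h2, ht']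
      simp
    obtain ⟨x, -, hxN, hx⟩ := core hc N ψ.ker K₀ ⊥ (hK₀N.trans hNc) (fun u hu => hN2 u (hK₀N hu))
      (fun x hx => by
        rw [hK₀mem _ (hsqN x)]
        exact hx)
      (fun x _ y _ => by
        rw [hK₀mem _ (hcN x y)]
        exact hcommK x y)
      hK₀N d'' (t - 1) hd'' (by rw [Subgroup.relIndex_bot_left]; exact hK₀card) (by omega)
    exact hxN ((hmemN x).2 (Subgroup.mem_bot.1 hx))
  have hderEq : commutator G = N := by
    refine le_antisymm ?_ hder
    rw [commutator_def, Subgroup.commutator_le]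
    intro x _ y _
    exact hcN x y
  have hfrat : frattini G = N := by
    refine le_antisymm ?_ (hder.trans (Cfsg.Agent.Lib.PGroups.Basic.commutator_le_frattini hG))
    exact Cfsg.Agent.Lib.PGroups.Basic.frattini_le_of_normal N hderEq.le hsqN
  exact ⟨hG, hfrat.trans hcenterEq.symm, hderEq.trans hcenterEq.symm⟩

end Cfsg.Agent.S3773
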