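import Cfsg.Statements.S3774
import Cfsg.Agent.Lib.PGroups.Basic
import Mathlib

set_option autoImplicit false
open Cfsg

namespace Cfsg.Agent.S3774

/-- Elementary substitute for Zsigmondy. -/
lemma dvd_of_primes_dvd (k g : ℕ) (hk : 1 ≤ k)
    (h : ∀ r : ℕ, r.Prime → r ∣ 2 ^ k - 1 → r ∣ 2 ^ g - 1) : k ∣ g := by
  set L := Nat.gcd k g with hL
  have hLk : L ∣ k := Nat.gcd_dvd_left k g
  have hLg : L ∣ g := Nat.gcd_dvd_right k g
  have hLpos : 0 < L := Nat.gcd_pos_of_pos_left _ hk
  obtain ⟨c, hc⟩ := hLk
  have hcpos : 0 < c := by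
    rcases Nat.eq_zero_or_pos c with rfl | h0
    · omega
    · exact h0
  have h1 : ∀ r : ℕ, r.Prime → r ∣ 2 ^ k - 1 → r ∣ 2 ^ L - 1 := by
    intro r hr hrk
    have := Nat.dvd_gcd hrk (h r hr hrk)
    rwa [Nat.pow_sub_one_gcd_pow_sub_one] at this
  set A := 2 ^ L with hA
  have hA2 : 2 ≤ A := by
    calc 2 = 2 ^ 1 := by norm_num
      _ ≤ 2 ^ L := Nat.pow_le_pow_right (by norm_num) hLpos
  have hkA : 2 ^ k = A ^ c := by rw [hc, pow_mul]
  suffices hc1 : c = 1 by
    rw [hc, hc1, mul_one]
    exact hLg
  by_contra hne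
  have hc2 : 2 ≤ c := by omega
  -- S = geom sum
  set S := ∑ i ∈ Finset.range c, A ^ i with hS
  have hmul : S * (A - 1) = A ^ c - 1 := by
    rw [hS, Nat.geomSum_eq hA2 c]
    have : A - 1 ∣ A ^ c - 1 := by
      have := Nat.sub_dvd_pow_sub_pow A 1 c
      rwa [one_pow] at this
    exact Nat.div_mul_cancel this
  have hApos : 0 < A - 1 := by omega
  have hSc : S ∣ c := by
    apply (Nat.dvd_iff_prime_pow_dvd_dvd c S).2
    intro r e hr hre
    rcases Nat.eq_zero_or_pos e with rfl | he
    · simp
    have hrS : r ∣ S := (dvd_pow_self r (by omega)).trans hre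
    have hrN : r ∣ A ^ c - 1 := hmul ▸ Dvd.dvd.mul_right hrS _
    have hrA : r ∣ A - 1 := by
      have := h1 r hr (by rw [hkA]; exact hrN)
      exact this
    have hr2 : r ≠ 2 := by
      rintro rfl
      have h3 : Odd (A - 1) := by
        have : Even A := by
          rw [hA]
          exact (Nat.even_pow.mpr ⟨even_two, by omega⟩)
        exact Nat.Even.sub_odd (by omega) this odd_one
      exact (Nat.not_even_iff_odd.mpr h3) (even_iff_two_dvd.mpr hrA)
    have hrodd : Odd r := hr.odd_of_ne_two hr2
    haveI : Fact r.Prime := ⟨hr⟩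
    have hrAn : ¬ r ∣ A := by
      intro h4
      have h5 : r ∣ A - (A - 1) := Nat.dvd_sub h4 hrA
      have h6 : A - (A - 1) = 1 := by omega
      rw [h6] at h5
      exact hr.one_lt.ne' (Nat.dvd_one.mp h5)
    have hlte := padicValNat.pow_sub_pow (p := r) hrodd (x := A) (y := 1) (by omega) (by simpa using hrA) hrAn
      (n := c) (by omega)
    rw [one_pow] at hlte
    have hSne : S ≠ 0 := by
      intro h0
      have : A ^ c - 1 = 0 := by rw [← hmul, h0, zero_mul]
      have h7 : 1 < A ^ c := Nat.one_lt_pow (by omega) (by omega)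
      omega
    have hval : padicValNat r (A ^ c - 1) = padicValNat r S + padicValNat r (A - 1) := by
      rw [← hmul]
      exact padicValNat.mul hSne (by omega)
    have hvS : padicValNat r S = padicValNat r c := by omega
    have he' : e ≤ padicValNat r S := (padicValNat_dvd_iff_le hSne).mp hre
    rw [hvS] at he'
    exact (padicValNat_dvd_iff_le (by omega)).mpr he'
  have hSle : S ≤ c := Nat.le_of_dvd hcpos hSc
  -- but S > c
  have hgt : c < S := by
    have h3 : ∀ n : ℕ, n + 2 < ∑ i ∈ Finset.range (n + 2), A ^ i := by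
      intro n
      induction n with
      | zero =>
        simp [Finset.sum_range_succ]
        omega
      | succ n ih =>
        rw [Finset.sum_range_succ]
        have : 1 ≤ A ^ (n + 2) := Nat.one_le_pow _ _ (by omega)
        omega
    obtain ⟨c', rfl⟩ : ∃ c', c = c' + 2 := ⟨c - 2, by omega⟩
    exact h3 c'
  omega

variable {G : Type*} [Group G] [Finite G]

/-- Let G be a nontrivial finite 2-group whose automorphism group permutes the involutions of G transitively. Then every involution of G is central, so that the involutions together with 1 form the subgroup Ω₁(Z(G)), and if this subgroup has order q then |G| is a power of q. -/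
theorem result {G : Type*} [Group G] [Finite G] [Nontrivial G] (hG : IsPGroup 2 G) (htrans : ∀ x y : G, x ≠ 1 → x ^ 2 = 1 → y ≠ 1 → y ^ 2 = 1 → ∃ a : MulAut G, a x = y) : (∀ x : G, x ^ 2 = 1 → x ∈ Subgroup.center G) ∧ ∃ m : ℕ, Nat.card G = Nat.card {z : G // z ^ 2 = 1} ^ m := by
  classical
  haveI : Fact (Nat.Prime 2) := ⟨Nat.prime_two⟩
  -- a central involution
  obtain ⟨z, -, hzc, hz2⟩ := Cfsg.Agent.Lib.PGroups.Basic.exists_central_orderOf_eq hG (⊤ : Subgroup G) (by simp)
  have hz1 : z ≠ 1 := by
    rintro rfl
    simp at hz2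
  have hzs : z ^ 2 = 1 := by rw [← hz2]; exact pow_orderOf_eq_one z
  have hcentral : ∀ x : G, x ^ 2 = 1 → x ∈ Subgroup.center G := by
    intro x hx
    by_cases hx1 : x = 1
    · rw [hx1]; exact Subgroup.one_mem _
    obtain ⟨a, rfl⟩ := htrans z x hz1 hzs hx1 hx
    rw [Subgroup.mem_center_iff] at hzc ⊢
    intro g
    obtain ⟨h, rfl⟩ := a.surjective g
    rw [← map_mul, ← map_mul, hzc]
  refine ⟨hcentral, ?_⟩
  -- the subgroup of involutions
  let E : Subgroup G :=
    { carrier := {x | x ^ 2 = 1}
      mul_mem' := by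
        intro a b ha hb
        have hc : Commute a b := by
          have := (Subgroup.mem_center_iff.mp (hcentral a ha)) b
          exact this.symm
        show (a * b) ^ 2 = 1
        rw [hc.mul_pow, show a ^ 2 = 1 from ha, show b ^ 2 = 1 from hb, one_mul]
      one_mem' := by simp
      inv_mem' := by
        intro a ha
        show a⁻¹ ^ 2 = 1
        rw [inv_pow, show a ^ 2 = 1 from ha, inv_one] }
  have hEcard : Nat.card {z : G // z ^ 2 = 1} = Nat.card E := rfl
  obtain ⟨k, hk⟩ := IsPGroup.iff_card.mp (hG.to_subgroup E)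
  obtain ⟨g, hg⟩ := IsPGroup.iff_card.mp hG
  rw [hEcard, hk, hg]
  have hk1 : 1 ≤ k := by
    rcases Nat.eq_zero_or_pos k with rfl | h0
    · exfalso
      rw [pow_zero] at hk
      have : Subsingleton E := (Nat.card_eq_one_iff_unique.mp hk).1
      have h2 : (⟨z, hzs⟩ : E) = 1 := Subsingleton.elim _ _
      exact hz1 (congrArg Subtype.val h2)
    · exact h0
  have key : k ∣ g := by
    apply dvd_of_primes_dvd k g hk1
    intro r hr hrk
    haveI : Fact r.Prime := ⟨hr⟩
    haveI : Finite (MulAut G) := Finite.of_injective (fun a : MulAut G => (a : G → G)) DFunLike.coe_injective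
    obtain T : Sylow r (MulAut G) := default
    have hTp : IsPGroup r (T : Subgroup (MulAut G)) := T.isPGroup'
    have hmod := hTp.card_modEq_card_fixedPoints G
    -- fixed points are trivial
    have hfix : Nat.card (MulAction.fixedPoints (T : Subgroup (MulAut G)) G) = 1 := by
      rw [Nat.card_eq_one_iff_unique]
      refine ⟨?_, ⟨⟨1, ?_⟩⟩⟩
      · constructor
        rintro ⟨a, ha⟩ ⟨b, hb⟩
        suffices h : ∀ x : G, x ∈ MulAction.fixedPoints (T : Subgroup (MulAut G)) G → x = 1 from
          Subtype.ext ((h a ha).trans (h b hb).symm)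
        intro x hx
        by_contra hx1
        -- an involution in ⟨x⟩
        obtain ⟨s, hs⟩ := (hG x)
        have hord : ∃ n : ℕ, orderOf x = 2 ^ (n + 1) := by
          obtain ⟨m, -, hm⟩ := (Nat.dvd_prime_pow Nat.prime_two).mp (orderOf_dvd_of_pow_eq_one hs)
          rcases m with _ | m
          · simp at hm
            exact absurd hm hx1
          · exact ⟨m, hm⟩
        obtain ⟨n, hn⟩ := hord
        set y := x ^ (2 ^ n) with hy
        have hy2 : y ^ 2 = 1 := by
          rw [hy, ← pow_mul, ← pow_succ, ← hn]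
          exact pow_orderOf_eq_one x
        have hy1 : y ≠ 1 := by
          intro h4
          have h5 := orderOf_dvd_of_pow_eq_one h4
          rw [hn] at h5
          have h6 := Nat.le_of_dvd (by positivity) h5
          have h7 : 2 ^ n < 2 ^ (n + 1) := Nat.pow_lt_pow_right (by norm_num) (by omega)
          omega
        have hTy : (T : Subgroup (MulAut G)) ≤ MulAction.stabilizer (MulAut G) y := by
          intro t ht
          rw [MulAction.mem_stabilizer_iff]
          have h8 : t • x = x := hx ⟨t, ht⟩
          rw [hy, smul_pow', h8]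
        have hnd : ¬ r ∣ (MulAction.stabilizer (MulAut G) y).index := by
          intro h9
          exact T.not_dvd_index (h9.trans (Subgroup.index_dvd_of_le hTy))
        apply hnd
        rw [MulAction.index_stabilizer]
        have horb : MulAction.orbit (MulAut G) y = {w : G | w ^ 2 = 1} \ {1} := by
          ext w
          constructor
          · rintro ⟨a, rfl⟩
            refine ⟨?_, ?_⟩
            · show ((a • y) ^ 2 = 1)
              rw [← smul_pow', hy2, smul_one]
            · intro h10
              apply hy1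
              have h11 : a y = 1 := h10
              exact (map_eq_one_iff a a.injective).mp h11
          · rintro ⟨h10, h11⟩
            obtain ⟨a, ha⟩ := htrans y w hy1 hy2 h11 h10
            exact ⟨a, ha⟩
        rw [horb, Set.ncard_sdiff_singleton_of_mem (by simp)]
        have h12 : Set.ncard {w : G | w ^ 2 = 1} = 2 ^ k := by
          rw [← hk]
          exact (Nat.card_coe_set_eq _).symm
        rw [h12]
        exact hrk
      · intro t
        exact smul_one _
    rw [hfix, hg] at hmod
    have h13 : 1 ≤ 2 ^ g := Nat.one_le_two_pow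
    exact (Nat.modEq_iff_dvd' h13).mp hmod.symm
  obtain ⟨m, rfl⟩ := key
  exact ⟨m, by rw [pow_mul]⟩

end Cfsg.Agent.S3774
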