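import Cfsg.Statements.S3775
import Mathlib

set_option autoImplicit false

open Cfsg

namespace Cfsg.Agent.S3775

section Maschke

variable {V : Type*} [CommGroup V] [Finite V] {p : ℕ} [Fact p.Prime]

theorem exists_retraction_aux [Module (ZMod p) (Additive V)] (S : Subgroup V) :
    ∃ τ : V →* V, (∀ v, τ v ∈ S) ∧ ∀ s ∈ S, τ s = s := by
  classical
  let S₁ : Submodule (ZMod p) (Additive V) :=
    AddSubgroup.toZModSubmodule p (Subgroup.toAddSubgroup S)
  obtain ⟨q, hq⟩ := Submodule.exists_isCompl S₁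
  let π := S₁.linearProjOfIsCompl q hq
  have hmem : ∀ v : V, Additive.toMul (π (Additive.ofMul v) : Additive V) ∈ S := by
    intro v
    exact (π (Additive.ofMul v)).2
  refine ⟨MonoidHom.mk' (fun v => Additive.toMul (π (Additive.ofMul v) : Additive V)) ?_, ?_, ?_⟩
  · intro a b
    show Additive.toMul (π (Additive.ofMul a + Additive.ofMul b) : Additive V) = _
    rw [map_add]
    rfl
  · exact hmem
  · intro s hs
    have hs' : Additive.ofMul s ∈ S₁ := by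
      show Additive.ofMul s ∈ Subgroup.toAddSubgroup S
      exact hs
    show Additive.toMul (π (Additive.ofMul s) : Additive V) = s
    rw [show π (Additive.ofMul s) = ⟨Additive.ofMul s, hs'⟩ from
      Submodule.linearProjOfIsCompl_apply_left hq ⟨Additive.ofMul s, hs'⟩]
    rfl

theorem exists_retraction (hV : ∀ v : V, v ^ p = 1) (S : Subgroup V) :
    ∃ τ : V →* V, (∀ v, τ v ∈ S) ∧ ∀ s ∈ S, τ s = s := by
  letI : Module (ZMod p) (Additive V) := AddCommGroup.zmodModule (n := p) (fun v => by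
    show Additive.ofMul ((Additive.toMul v) ^ p) = 0
    rw [hV]; rfl)
  exact exists_retraction_aux (p := p) S

theorem maschke {Γ : Type*} [Group Γ] [Finite Γ] (hΓ : (Nat.card Γ).Coprime p)
    (hV : ∀ v : V, v ^ p = 1) (ρ : Γ →* Monoid.End V) (S : Subgroup V)
    (hS : ∀ g, ∀ s ∈ S, ρ g s ∈ S) :
    ∃ S' : Subgroup V, (∀ g, ∀ s ∈ S', ρ g s ∈ S') ∧ S ⊓ S' = ⊥ ∧ S ⊔ S' = ⊤ := by
  classical
  haveI := Fintype.ofFinite Γ
  obtain ⟨τ, hτS, hτs⟩ := exists_retraction hV S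
  have hρ1 : ∀ g (v : V), ρ g (ρ g⁻¹ v) = v := by
    intro g v
    have : ρ g * ρ g⁻¹ = 1 := by rw [← map_mul, mul_inv_cancel, map_one]
    exact DFunLike.congr_fun this v
  let τ' : V →* V := MonoidHom.mk' (fun v => ∏ g : Γ, ρ g (τ (ρ g⁻¹ v))) (by
    intro a b
    rw [← Finset.prod_mul_distrib]
    apply Finset.prod_congr rfl
    intro g _
    simp only [map_mul])
  have hτ' : ∀ v, τ' v = ∏ g : Γ, ρ g (τ (ρ g⁻¹ v)) := fun v => rfl
  have hτ'S : ∀ v, τ' v ∈ S := by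
    intro v
    rw [hτ']
    exact Subgroup.prod_mem _ fun g _ => hS g _ (hτS _)
  have hτ's : ∀ s ∈ S, τ' s = s ^ Nat.card Γ := by
    intro s hs
    rw [hτ', Nat.card_eq_fintype_card, ← Finset.card_univ, ← Finset.prod_const]
    apply Finset.prod_congr rfl
    intro g _
    rw [hτs _ (hS g⁻¹ s hs), hρ1]
  have hequiv : ∀ h (v : V), τ' (ρ h v) = ρ h (τ' v) := by
    intro h v
    rw [hτ', hτ', map_prod]
    apply Fintype.prod_equiv (Equiv.mulLeft h⁻¹)
    intro g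
    simp only [Equiv.coe_mulLeft]
    have e1 : ρ g⁻¹ (ρ h v) = ρ (h⁻¹ * g)⁻¹ v := by
      rw [mul_inv_rev, inv_inv, map_mul]
      rfl
    have e2 : ρ g (τ (ρ (h⁻¹ * g)⁻¹ v)) = ρ h (ρ (h⁻¹ * g) (τ (ρ (h⁻¹ * g)⁻¹ v))) := by
      have : ρ h * ρ (h⁻¹ * g) = ρ g := by rw [← map_mul]; simp
      rw [← this]
      rfl
    rw [e1, e2]
  -- inverse of `|Γ|` mod `p`
  obtain ⟨m, hm⟩ : ∃ m, ∀ s : V, (s ^ Nat.card Γ) ^ m = s := by
    have hp1 : 1 < p := (Fact.out : p.Prime).one_lt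
    obtain ⟨m, _, hm⟩ := Nat.exists_mul_mod_eq_one_of_coprime hΓ hp1
    refine ⟨m, fun s => ?_⟩
    rw [← pow_mul, pow_eq_pow_mod _ (hV s), hm, pow_one]
  refine ⟨τ'.ker, ?_, ?_, ?_⟩
  · intro g s hs
    rw [MonoidHom.mem_ker] at hs ⊢
    rw [hequiv, hs, map_one]
  · rw [eq_bot_iff]
    rintro s ⟨hsS, hsk⟩
    have hsk' : τ' s = 1 := hsk
    rw [hτ's s hsS] at hsk'
    rw [Subgroup.mem_bot, ← hm s, hsk', one_pow]
  · rw [eq_top_iff]
    intro v _
    rw [Subgroup.mem_sup]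
    set u := (τ' v) ^ m with hu
    have huS : u ∈ S := S.pow_mem (hτ'S v) m
    refine ⟨u, huS, u⁻¹ * v, ?_, by group⟩
    have hun : u ^ Nat.card Γ = τ' v := by
      rw [hu, ← pow_mul, mul_comm, pow_mul, hm]
    rw [MonoidHom.mem_ker, map_mul, map_inv, hτ's u huS, hun]
    simp

end Maschke

section Sec

variable {A : Type*} [CommGroup A] [Finite A] {p : ℕ} [Fact p.Prime]

/-- **Maschke** for a section `R / T`. -/
theorem section_maschke (X : Subgroup (MulAut A)) (hX : (Nat.card X).Coprime p)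
    (T S R : Subgroup A) (hT : ∀ x ∈ X, ∀ t ∈ T, x t ∈ T) (hS : ∀ x ∈ X, ∀ s ∈ S, x s ∈ S)
    (hR : ∀ x ∈ X, ∀ r ∈ R, x r ∈ R) (hTS : T ≤ S) (hSR : S ≤ R) (hpow : ∀ r ∈ R, r ^ p ∈ T) :
    ∃ S' : Subgroup A, (∀ x ∈ X, ∀ s ∈ S', x s ∈ S') ∧ T ≤ S' ∧ S' ≤ R ∧ S ⊓ S' = T ∧ S ⊔ S' = R := by
  classical
  set T' : Subgroup R := T.subgroupOf R with hT'
  let res (x : X) : R →* R :=
    ((x : MulAut A).toMonoidHom.comp R.subtype).codRestrict R (fun r => hR x x.2 r r.2)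
  have hres : ∀ (x : X) (r : R), (res x r : A) = (x : MulAut A) r := fun _ _ => rfl
  have hresT : ∀ x : X, T' ≤ T'.comap (res x) := by
    intro x r hr
    exact hT x x.2 r hr
  let act (x : X) : (R ⧸ T') →* (R ⧸ T') := QuotientGroup.map T' T' (res x) (hresT x)
  have hact : ∀ (x : X) (r : R), act x (QuotientGroup.mk r) = QuotientGroup.mk (res x r) :=
    fun _ _ => rfl
  let ρ : X →* Monoid.End (R ⧸ T') :=
    { toFun := act
      map_one' := by
        apply MonoidHom.ext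
        intro q
        obtain ⟨r, rfl⟩ := QuotientGroup.mk_surjective q
        rw [hact]
        congr 1
      map_mul' := by
        intro x y
        apply MonoidHom.ext
        intro q
        obtain ⟨r, rfl⟩ := QuotientGroup.mk_surjective q
        rw [hact]
        rfl }
  have hρ : ∀ (x : X) (r : R), ρ x (QuotientGroup.mk r) = QuotientGroup.mk (res x r) :=
    fun _ _ => rfl
  have hV : ∀ v : R ⧸ T', v ^ p = 1 := by
    intro v
    obtain ⟨r, rfl⟩ := QuotientGroup.mk_surjective v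
    rw [← QuotientGroup.mk_pow, QuotientGroup.eq_one_iff]
    exact hpow r r.2
  set S₁ : Subgroup (R ⧸ T') := (S.subgroupOf R).map (QuotientGroup.mk' T') with hS₁
  obtain ⟨S₂, hinv, hinf, hsup⟩ := maschke (p := p) hX hV ρ S₁ (by
    rintro x _ ⟨s, hs, rfl⟩
    exact ⟨res x s, hS x x.2 s hs, rfl⟩)
  have hker : ∀ r : R, (QuotientGroup.mk r : R ⧸ T') = 1 ↔ (r : A) ∈ T := by
    intro r
    rw [QuotientGroup.eq_one_iff]
    rfl
  refine ⟨(S₂.comap (QuotientGroup.mk' T')).map R.subtype, ?_, ?_, ?_, ?_, ?_⟩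
  · rintro x hx _ ⟨r, hr, rfl⟩
    refine ⟨res ⟨x, hx⟩ r, ?_, rfl⟩
    exact hinv ⟨x, hx⟩ _ hr
  · intro t ht
    refine ⟨⟨t, hTS.trans hSR ht⟩, ?_, rfl⟩
    show (QuotientGroup.mk ⟨t, hTS.trans hSR ht⟩ : R ⧸ T') ∈ S₂
    rw [(hker ⟨t, hTS.trans hSR ht⟩).2 ht]
    exact S₂.one_mem
  · exact Subgroup.map_subtype_le _
  · apply le_antisymm
    · rintro s ⟨hsS, ⟨r, hr, hrs⟩⟩
      have hr' : (QuotientGroup.mk r : R ⧸ T') ∈ S₂ := hr
      have hr'' : (QuotientGroup.mk r : R ⧸ T') ∈ S₁ := by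
        refine ⟨r, ?_, rfl⟩
        show (r : A) ∈ S
        have : (r : A) = s := hrs
        rwa [this]
      have h0 : (QuotientGroup.mk r : R ⧸ T') ∈ S₁ ⊓ S₂ := ⟨hr'', hr'⟩
      rw [hinf, Subgroup.mem_bot, hker] at h0
      have : (r : A) = s := hrs
      rwa [← this]
    · intro t ht
      refine ⟨hTS ht, ⟨t, hTS.trans hSR ht⟩, ?_, rfl⟩
      show (QuotientGroup.mk ⟨t, hTS.trans hSR ht⟩ : R ⧸ T') ∈ S₂
      rw [(hker ⟨t, hTS.trans hSR ht⟩).2 ht]
      exact S₂.one_mem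
  · apply le_antisymm
    · exact sup_le hSR (Subgroup.map_subtype_le _)
    · intro r hr
      have h1 : (QuotientGroup.mk ⟨r, hr⟩ : R ⧸ T') ∈ S₁ ⊔ S₂ := by rw [hsup]; trivial
      rw [Subgroup.mem_sup] at h1
      obtain ⟨a, ⟨s, hs, rfl⟩, b, hb, hab⟩ := h1
      obtain ⟨c, rfl⟩ := QuotientGroup.mk_surjective b
      have h2 : (QuotientGroup.mk' T' s * QuotientGroup.mk c : R ⧸ T') = QuotientGroup.mk ⟨r, hr⟩ := hab
      have h3 : ((s * c)⁻¹ * ⟨r, hr⟩ : R) ∈ T' := by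
        rw [← QuotientGroup.eq]
        rw [QuotientGroup.mk_mul]
        exact h2
      have h4 : ((s * c)⁻¹ * ⟨r, hr⟩ : R).1 ∈ T := h3
      have h5 : r = (s : A) * ((c : A) * ((s * c)⁻¹ * ⟨r, hr⟩ : R).1) := by
        show r = (s : A) * ((c : A) * (((s : A) * c)⁻¹ * r))
        group
      rw [h5]
      refine Subgroup.mul_mem _ (Subgroup.mem_sup_left hs) ?_
      apply Subgroup.mem_sup_right
      refine ⟨c * ((s * c)⁻¹ * ⟨r, hr⟩ : R), ?_, rfl⟩
      show (QuotientGroup.mk (c * ((s * c)⁻¹ * ⟨r, hr⟩ : R)) : R ⧸ T') ∈ S₂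
      have h6 : (QuotientGroup.mk ((s * c)⁻¹ * ⟨r, hr⟩ : R) : R ⧸ T') = 1 := (hker _).2 h4
      rw [QuotientGroup.mk_mul, h6, mul_one]
      exact hb

/-- Invariant subgroups. -/
def Inv (X : Subgroup (MulAut A)) (B : Subgroup A) : Prop := ∀ x ∈ X, ∀ b ∈ B, x b ∈ B

theorem inv_iff (X : Subgroup (MulAut A)) (B : Subgroup A) :
    (∀ x ∈ X, B.map x.toMonoidHom = B) ↔ Inv X B := by
  constructor
  · intro h x hx b hb
    rw [← h x hx]
    exact ⟨b, hb, rfl⟩
  · intro h x hx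
    apply le_antisymm
    · rintro _ ⟨b, hb, rfl⟩
      exact h x hx b hb
    · intro b hb
      refine ⟨x⁻¹ b, h _ (X.inv_mem hx) b hb, ?_⟩
      show x (x⁻¹ b) = b
      have : x * x⁻¹ = 1 := mul_inv_cancel x
      exact DFunLike.congr_fun this b

omit [Finite A] [Fact p.Prime] in
theorem exists_order_p (hA : IsPGroup p A) {b : A} (hb : b ≠ 1) :
    ∃ m : ℕ, b ^ p ^ m ≠ 1 ∧ (b ^ p ^ m) ^ p = 1 := by
  classical
  have hex : ∃ k, b ^ p ^ k = 1 := hA b
  have h0 : Nat.find hex ≠ 0 := by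
    intro h
    have := Nat.find_spec hex
    rw [h] at this
    simp at this
    exact hb this
  obtain ⟨m, hm⟩ := Nat.exists_eq_succ_of_ne_zero h0
  refine ⟨m, ?_, ?_⟩
  · exact Nat.find_min hex (by omega)
  · have := Nat.find_spec hex
    rw [hm, Nat.succ_eq_add_one, pow_succ, pow_mul] at this
    exact this

theorem inv_inf {X : Subgroup (MulAut A)} {B C : Subgroup A} (hB : Inv X B) (hC : Inv X C) :
    Inv X (B ⊓ C) := fun x hx _ hb => ⟨hB x hx _ hb.1, hC x hx _ hb.2⟩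

theorem inv_sup {X : Subgroup (MulAut A)} {B C : Subgroup A} (hB : Inv X B) (hC : Inv X C) :
    Inv X (B ⊔ C) := by
  intro x hx b hb
  rw [Subgroup.mem_sup] at hb ⊢
  obtain ⟨u, hu, v, hv, rfl⟩ := hb
  exact ⟨x u, hB x hx u hu, x v, hC x hx v hv, (map_mul x u v).symm⟩

theorem inv_ker (X : Subgroup (MulAut A)) (n : ℕ) : Inv X (powMonoidHom n : A →* A).ker := by
  intro x _ b hb
  rw [MonoidHom.mem_ker] at hb ⊢
  have hb' : b ^ n = 1 := hb
  show (x b) ^ n = 1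
  rw [← map_pow, hb', map_one]

theorem inv_map {X : Subgroup (MulAut A)} {B : Subgroup A} (hB : Inv X B) (n : ℕ) :
    Inv X (B.map (powMonoidHom n : A →* A)) := by
  rintro x hx _ ⟨b, hb, rfl⟩
  refine ⟨x b, hB x hx b hb, ?_⟩
  show (x b) ^ n = x (b ^ n)
  rw [map_pow]

theorem inv_comap {X : Subgroup (MulAut A)} {B : Subgroup A} (hB : Inv X B) (n : ℕ) :
    Inv X (B.comap (powMonoidHom n : A →* A)) := by
  intro x hx b hb
  have hb' : b ^ n ∈ B := hb
  show (x b) ^ n ∈ B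
  rw [← map_pow]
  exact hB x hx _ hb'

omit [Finite A] in
theorem card_map_mul (f : A →* A) (B : Subgroup A) [Finite B] :
    Nat.card (B.map f) * Nat.card ↥(B ⊓ f.ker) = Nat.card B := by
  have h1 := Subgroup.card_mul_index (f.comp B.subtype).ker
  have h2 : (f.comp B.subtype).ker.index = Nat.card (B.map f) := by
    rw [Subgroup.index_ker, MonoidHom.range_comp, Subgroup.range_subtype]
  have h3 : Nat.card (f.comp B.subtype).ker = Nat.card ↥(B ⊓ f.ker) := by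
    apply Nat.card_congr
    exact
      { toFun := fun y => ⟨y.1.1, y.1.2, y.2⟩
        invFun := fun y => ⟨⟨y.1, y.2.1⟩, y.2.2⟩
        left_inv := fun _ => rfl
        right_inv := fun _ => rfl }
  rw [← h2, ← h3, mul_comm]
  exact h1

/-- `(iii) ⟹ (ii)` for invariant subgroups. -/
theorem concl_of_hyp (X : Subgroup (MulAut A)) (hA : IsPGroup p A) (n : ℕ) :
    ∀ A' : Subgroup A, Nat.card A' = n → Inv X A' →
      (∀ B : Subgroup A, Inv X B → B ≤ A' → (∀ b ∈ B, b ^ p = 1) →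
        B = ⊥ ∨ ∀ a ∈ A', a ^ p = 1 → a ∈ B) →
      ∀ B : Subgroup A, Inv X B → B ≤ A' → ∃ i : ℕ, ∀ a ∈ A', (a ∈ B ↔ a ^ p ^ i = 1) := by
  induction n using Nat.strong_induction_on with
  | _ n ih =>
    intro A' hcard hA' hyp B hB hBA'
    by_cases hB0 : B = ⊥
    · refine ⟨0, fun a _ => ?_⟩
      rw [hB0, Subgroup.mem_bot]
      simp
    · -- `B` contains all elements of order `p` in `A'`
      have hO : ∀ a ∈ A', a ^ p = 1 → a ∈ B := by
        have h1 : Inv X (B ⊓ (powMonoidHom p : A →* A).ker) := inv_inf hB (inv_ker X p)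
        rcases hyp _ h1 (inf_le_left.trans hBA') (fun b hb => hb.2) with h | h
        · exfalso
          obtain ⟨b, hb, hb1⟩ := (Subgroup.ne_bot_iff_exists_ne_one (H := B)).1 hB0 |>.imp
            (fun x hx => hx) |> fun ⟨x, hx⟩ => (⟨x.1, x.2, fun h => hx (Subtype.ext h)⟩ : ∃ b, b ∈ B ∧ b ≠ 1)
          obtain ⟨m, hm, hm1⟩ := exists_order_p hA hb1
          have : b ^ p ^ m ∈ B ⊓ (powMonoidHom p : A →* A).ker := ⟨B.pow_mem hb _, hm1⟩
          rw [h, Subgroup.mem_bot] at this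
          exact hm this
        · intro a ha hap
          exact (h a ha hap).1
      set A'' := A'.map (powMonoidHom p : A →* A) with hA''
      have hA''le : A'' ≤ A' := by
        rintro _ ⟨a, ha, rfl⟩
        exact A'.pow_mem ha p
      have hlt : Nat.card A'' < n := by
        have hne : A'' ≠ A' := by
          intro he
          -- the `p`-power map is bijective on `A'`: contradiction
          obtain ⟨b, hb, hb1⟩ := (Subgroup.ne_bot_iff_exists_ne_one (H := B)).1 hB0 |>.imp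
            (fun x hx => hx) |> fun ⟨x, hx⟩ => (⟨x.1, x.2, fun h => hx (Subtype.ext h)⟩ : ∃ b, b ∈ B ∧ b ≠ 1)
          obtain ⟨m, hm, hm1⟩ := exists_order_p hA hb1
          have h1 := card_map_mul (powMonoidHom p : A →* A) A'
          rw [← hA'', he] at h1
          have hpos : 0 < Nat.card A' := Nat.card_pos
          have h2 : Nat.card ↥(A' ⊓ (powMonoidHom p : A →* A).ker) = 1 := by
            have : Nat.card A' * Nat.card ↥(A' ⊓ (powMonoidHom p : A →* A).ker) = Nat.card A' * 1 := by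
              rw [h1, mul_one]
            exact Nat.eq_of_mul_eq_mul_left hpos this
          have h3 := (Subgroup.card_eq_one.1 h2)
          have h4 : b ^ p ^ m ∈ A' ⊓ (powMonoidHom p : A →* A).ker :=
            ⟨A'.pow_mem (hBA' hb) _, hm1⟩
          rw [h3, Subgroup.mem_bot] at h4
          exact hm h4
        rw [← hcard]
        exact Nat.lt_of_le_of_ne (Subgroup.card_le_of_le hA''le)
          (fun h => hne (Subgroup.eq_of_le_of_card_ge hA''le h.ge))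
      obtain ⟨j, hj⟩ := ih _ hlt A'' rfl (inv_map hA' p) (by
        intro D hD hDA'' hDp
        rcases hyp D hD (hDA''.trans hA''le) hDp with h | h
        · exact Or.inl h
        · exact Or.inr fun a ha hap => h a (hA''le ha) hap) _ (inv_map hB p) (Subgroup.map_mono hBA')
      refine ⟨j + 1, fun a ha => ?_⟩
      have hapm : a ^ p ∈ A'' := ⟨a, ha, rfl⟩
      have e : a ^ p ^ (j + 1) = (a ^ p) ^ p ^ j := by
        rw [← pow_mul, pow_succ, mul_comm]
      rw [e, ← hj _ hapm]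
      constructor
      · intro hab
        exact ⟨a, hab, rfl⟩
      · rintro ⟨b, hb, hba⟩
        have hba' : b ^ p = a ^ p := hba
        have h1 : a * b⁻¹ ∈ B := by
          apply hO _ (A'.mul_mem ha (A'.inv_mem (hBA' hb)))
          rw [mul_pow, inv_pow, hba', mul_inv_cancel]
        have : a = a * b⁻¹ * b := by group
        rw [this]
        exact B.mul_mem h1 hb

/-- `(i) ⟹ (iii)`. -/
theorem hyp_of_indec (X : Subgroup (MulAut A)) (hX : (Nat.card X).Coprime p) (hA : IsPGroup p A)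
    (hi : ¬ ∃ B C : Subgroup A, B ≠ ⊥ ∧ C ≠ ⊥ ∧ Inv X B ∧ Inv X C ∧ B ⊓ C = ⊥ ∧ B ⊔ C = ⊤)
    (B₀ : Subgroup A) (hB₀ : Inv X B₀) (hB₀p : ∀ b ∈ B₀, b ^ p = 1) (hB₀1 : B₀ ≠ ⊥) :
    ∀ a : A, a ^ p = 1 → a ∈ B₀ := by
  classical
  -- the exponent
  have hex : ∃ e, ∀ a : A, a ^ p ^ e = 1 := by
    obtain ⟨n, hn⟩ := IsPGroup.iff_card.1 hA
    refine ⟨n, fun a => ?_⟩
    rw [← hn]
    exact pow_card_eq_one'
  have hntriv : ∃ b : A, b ≠ 1 := by
    obtain ⟨x, hx⟩ := (Subgroup.ne_bot_iff_exists_ne_one (H := B₀)).1 hB₀1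
    exact ⟨x.1, fun h => hx (Subtype.ext h)⟩
  have h0 : Nat.find hex ≠ 0 := by
    intro h
    have := Nat.find_spec hex
    rw [h] at this
    obtain ⟨b, hb⟩ := hntriv
    have h1 := this b
    simp at h1
    exact hb h1
  obtain ⟨e, he⟩ := Nat.exists_eq_succ_of_ne_zero h0
  have hPe : ∀ a : A, a ^ p ^ (e + 1) = 1 := by
    have := Nat.find_spec hex
    rw [he] at this
    exact this
  have hnPe : ¬ ∀ a : A, a ^ p ^ e = 1 := Nat.find_min hex (by omega)
  set O : Subgroup A := (powMonoidHom (p ^ e) : A →* A).ker with hO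
  have hOmem : ∀ a, a ∈ O ↔ a ^ p ^ e = 1 := fun a => Iff.rfl
  have htop : ¬ (⊤ : Subgroup A) ≤ O := by
    intro h
    exact hnPe fun a => h (Subgroup.mem_top a)
  obtain ⟨B, hBmin⟩ := (Set.toFinite {B : Subgroup A | Inv X B ∧ ¬ B ≤ O}).exists_minimal
    ⟨⊤, (fun _ _ _ _ => Subgroup.mem_top _), htop⟩
  have hBinv : Inv X B := hBmin.1.1
  have hBO : ¬ B ≤ O := hBmin.1.2
  have hBle : ∀ C : Subgroup A, Inv X C → ¬ C ≤ O → C ≤ B → B ≤ C := fun C h1 h2 h3 =>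
    hBmin.2 ⟨h1, h2⟩ h3
  set Y : Subgroup A := B.map (powMonoidHom (p ^ e) : A →* A) with hY
  have hYinv : Inv X Y := inv_map hBinv _
  have hYmem : ∀ y, y ∈ Y ↔ ∃ b ∈ B, b ^ p ^ e = y := fun y => Iff.rfl
  have hY1 : Y ≠ ⊥ := by
    intro h
    apply hBO
    intro b hb
    have : b ^ p ^ e ∈ Y := (hYmem _).2 ⟨b, hb, rfl⟩
    rw [h, Subgroup.mem_bot] at this
    exact this
  -- (a) `Y` is irreducible
  have hirr : ∀ U : Subgroup A, Inv X U → U ≤ Y → U ≠ ⊥ → Y ≤ U := by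
    intro U hU hUY hU1
    obtain ⟨x, hx⟩ := (Subgroup.ne_bot_iff_exists_ne_one (H := U)).1 hU1
    have hx1 : (x : A) ≠ 1 := fun h => hx (Subtype.ext h)
    obtain ⟨b₀, hb₀, hb₀x⟩ := (hYmem _).1 (hUY x.2)
    have hB1 : B ≤ B ⊓ U.comap (powMonoidHom (p ^ e) : A →* A) := by
      apply hBle _ (inv_inf hBinv (inv_comap hU _)) _ inf_le_left
      intro h
      have : b₀ ∈ O := h ⟨hb₀, by
        show b₀ ^ p ^ e ∈ U
        rw [hb₀x]
        exact x.2⟩
      rw [hOmem, hb₀x] at this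
      exact hx1 this
    rintro y hy
    obtain ⟨b, hb, rfl⟩ := (hYmem _).1 hy
    exact (hB1 hb).2
  -- (b) `Y = Ω₁(B)`
  have hYΩ : Y = B ⊓ (powMonoidHom p : A →* A).ker := by
    set T : Subgroup A := B.map (powMonoidHom p : A →* A) with hT
    have hTS : T ≤ B ⊓ O := by
      rintro _ ⟨b, hb, rfl⟩
      refine ⟨B.pow_mem hb p, ?_⟩
      show (b ^ p) ^ p ^ e = 1
      rw [← pow_mul, ← pow_succ']
      exact hPe b
    obtain ⟨S', hS'inv, hTS', hS'B, hinf, hsup⟩ := section_maschke X hX T (B ⊓ O) B (inv_map hBinv p)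
      (inv_inf hBinv (inv_ker X _)) hBinv hTS inf_le_left (fun r hr => ⟨r, hr, rfl⟩)
    have hS'O : ¬ S' ≤ O := by
      intro h
      have : S' ≤ B ⊓ O := le_inf hS'B h
      rw [sup_eq_left.2 this] at hsup
      apply hBO
      rw [← hsup]
      exact inf_le_right
    have hS'eq : S' = B := le_antisymm hS'B (hBle S' hS'inv hS'O hS'B)
    have hST : B ⊓ O = T := by
      rw [hS'eq] at hinf
      rw [← hinf]
      exact (inf_eq_left.2 inf_le_left).symm
    have h1 := card_map_mul (powMonoidHom p : A →* A) B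
    have h2 := card_map_mul (powMonoidHom (p ^ e) : A →* A) B
    rw [← hT] at h1
    rw [← hY, ← hO, hST] at h2
    have h3 : Nat.card T * Nat.card Y = Nat.card T * Nat.card ↥(B ⊓ (powMonoidHom p : A →* A).ker) := by
      rw [h1, mul_comm, h2]
    have h4 := Nat.eq_of_mul_eq_mul_left Nat.card_pos h3
    have hle : Y ≤ B ⊓ (powMonoidHom p : A →* A).ker := by
      rintro _ ⟨b, hb, rfl⟩
      refine ⟨B.pow_mem hb _, ?_⟩
      show (b ^ p ^ e) ^ p = 1
      rw [← pow_mul, ← pow_succ]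
      exact hPe b
    exact Subgroup.eq_of_le_of_card_ge hle h4.ge
  -- (c) maximal `D` missing `Y`
  obtain ⟨D, -, hDmax⟩ := (Set.toFinite {D : Subgroup A | Inv X D ∧ D ⊓ Y = ⊥}).exists_le_maximal
    (a := ⊥) ⟨(fun x _ b hb => by
      rw [Subgroup.mem_bot] at hb ⊢
      rw [hb, map_one]), bot_inf_eq _⟩
  have hDinv : Inv X D := hDmax.1.1
  have hDY : D ⊓ Y = ⊥ := hDmax.1.2
  have hDp : ∀ w : A, w ^ p ∈ D → w ∈ Y ⊔ D := by
    have hSR : Y ⊔ D ≤ D.comap (powMonoidHom p : A →* A) := by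
      apply sup_le
      · intro y hy
        have : y ∈ (powMonoidHom p : A →* A).ker := by
          rw [hYΩ] at hy
          exact hy.2
        show y ^ p ∈ D
        have h1 : y ^ p = 1 := this
        rw [h1]
        exact D.one_mem
      · intro d hd
        exact D.pow_mem hd p
    obtain ⟨S', hS'inv, hTS', hS'R, hinf, hsup⟩ := section_maschke X hX D (Y ⊔ D)
      (D.comap (powMonoidHom p : A →* A)) hDinv (inv_sup hYinv hDinv) (inv_comap hDinv p) le_sup_right hSR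
      (fun r hr => hr)
    have hS'D : S' = D := by
      by_contra hne
      have hlt : D < S' := lt_of_le_of_ne hTS' (Ne.symm hne)
      have h1 : S' ⊓ Y ≠ ⊥ := by
        intro h
        exact absurd (hDmax.2 ⟨hS'inv, h⟩ hTS') (not_le_of_gt hlt)
      have h2 := hirr _ (inv_inf hS'inv hYinv) inf_le_right h1
      have h3 : Y ≤ D := by
        rw [← hinf]
        exact le_inf le_sup_left (h2.trans inf_le_left)
      apply hY1
      rw [eq_bot_iff, ← hDY]
      exact le_inf h3 le_rfl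
    intro w hw
    have : w ∈ (Y ⊔ D) ⊔ S' := by
      rw [hsup]
      exact hw
    rw [hS'D, sup_assoc, sup_idem] at this
    exact this
  -- (d) `B D = A`
  have hd : ∀ k, k ≤ e + 1 → ∀ a : A, a ^ p ^ k ∈ D → a ∈ B ⊔ D := by
    intro k
    induction k with
    | zero =>
      intro _ a ha
      rw [pow_zero, pow_one] at ha
      exact Subgroup.mem_sup_right ha
    | succ k ih =>
      intro hk a ha
      have h1 : (a ^ p ^ k) ^ p ∈ D := by
        rw [← pow_mul, ← pow_succ]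
        exact ha
      have h2 := hDp _ h1
      rw [Subgroup.mem_sup] at h2
      obtain ⟨y, hy, d, hd, hyd⟩ := h2
      obtain ⟨b, hb, rfl⟩ := (hYmem _).1 hy
      have hc : (b ^ p ^ (e - k)) ^ p ^ k = b ^ p ^ e := by
        rw [← pow_mul, ← pow_add]
        congr 2
        omega
      have h3 : (a * (b ^ p ^ (e - k))⁻¹) ^ p ^ k ∈ D := by
        rw [mul_pow, inv_pow, hc, ← hyd]
        have : b ^ p ^ e * d * (b ^ p ^ e)⁻¹ = d := by
          rw [mul_comm (b ^ p ^ e) d, mul_assoc, mul_inv_cancel, mul_one]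
        rw [this]
        exact hd
      have h4 := ih (by omega) _ h3
      have : a = (a * (b ^ p ^ (e - k))⁻¹) * b ^ p ^ (e - k) := by group
      rw [this]
      exact Subgroup.mul_mem _ h4 (Subgroup.mem_sup_left (B.pow_mem hb _))
  have hBD : B ⊔ D = ⊤ := by
    rw [eq_top_iff]
    intro a _
    apply hd (e + 1) le_rfl
    rw [hPe a]
    exact D.one_mem
  have hBDinf : B ⊓ D = ⊥ := by
    rw [eq_bot_iff]
    rintro x ⟨hxB, hxD⟩
    by_contra hx1
    rw [Subgroup.mem_bot] at hx1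
    obtain ⟨m, hm, hm1⟩ := exists_order_p hA hx1
    have h1 : x ^ p ^ m ∈ Y := by
      rw [hYΩ]
      exact ⟨B.pow_mem hxB _, hm1⟩
    have h2 : x ^ p ^ m ∈ D ⊓ Y := ⟨D.pow_mem hxD _, h1⟩
    rw [hDY, Subgroup.mem_bot] at h2
    exact hm h2
  have hB1 : B ≠ ⊥ := by
    intro h
    apply hBO
    rw [h]
    exact bot_le
  have hD0 : D = ⊥ := by
    by_contra hD1
    exact hi ⟨B, D, hB1, hD1, hBinv, hDinv, hBDinf, hBD⟩
  have hBtop : B = ⊤ := by
    rw [hD0, sup_bot_eq] at hBD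
    exact hBD
  have hB₀Y : B₀ ≤ Y := by
    intro b hb
    rw [hYΩ, hBtop]
    exact ⟨Subgroup.mem_top _, hB₀p b hb⟩
  have hYB₀ := hirr B₀ hB₀ hB₀Y hB₀1
  intro a ha
  apply hYB₀
  rw [hYΩ, hBtop]
  exact ⟨Subgroup.mem_top _, ha⟩

end Sec

theorem result {A : Type*} [CommGroup A] [Finite A] {p : ℕ} [Fact p.Prime] (hA : IsPGroup p A) (X : Subgroup (MulAut A)) (hX : (Nat.card X).Coprime p) : ((¬ ∃ B C : Subgroup A, B ≠ ⊥ ∧ C ≠ ⊥ ∧ (∀ x ∈ X, B.map x.toMonoidHom = B) ∧ (∀ x ∈ X, C.map x.toMonoidHom = C) ∧ B ⊓ C = ⊥ ∧ B ⊔ C = ⊤) ↔ (∀ B : Subgroup A, (∀ x ∈ X, B.map x.toMonoidHom = B) → ∃ i : ℕ, ∀ a : A, a ∈ B ↔ a ^ p ^ i = 1)) ∧ ((∀ B : Subgroup A, (∀ x ∈ X, B.map x.toMonoidHom = B) → ∃ i : ℕ, ∀ a : A, a ∈ B ↔ a ^ p ^ i = 1) ↔ (∀ B : Subgroup A, (∀ x ∈ X, B.map x.toMonoidHom = B) → (∀ b ∈ B, b ^ p = 1) → B = ⊥ ∨ ∀ a : A, a ∈ B ↔ a ^ p = 1)) := by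
  simp only [inv_iff]
  have h23 : (∀ B : Subgroup A, Inv X B → ∃ i : ℕ, ∀ a : A, a ∈ B ↔ a ^ p ^ i = 1) →
      (∀ B : Subgroup A, Inv X B → (∀ b ∈ B, b ^ p = 1) → B = ⊥ ∨ ∀ a : A, a ∈ B ↔ a ^ p = 1) := by
    intro h B hB hBp
    obtain ⟨i, hi⟩ := h B hB
    by_cases hi0 : i = 0
    · left
      rw [eq_bot_iff]
      intro a ha
      have := (hi a).1 ha
      rw [hi0] at this
      simpa using this
    · right
      intro a
      refine ⟨hBp a, fun ha => (hi a).2 ?_⟩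
      obtain ⟨j, rfl⟩ := Nat.exists_eq_succ_of_ne_zero hi0
      rw [Nat.succ_eq_add_one, pow_succ, mul_comm, pow_mul, ha, one_pow]
  have h32 : (∀ B : Subgroup A, Inv X B → (∀ b ∈ B, b ^ p = 1) → B = ⊥ ∨ ∀ a : A, a ∈ B ↔ a ^ p = 1) →
      (∀ B : Subgroup A, Inv X B → ∃ i : ℕ, ∀ a : A, a ∈ B ↔ a ^ p ^ i = 1) := by
    intro h B hB
    obtain ⟨i, hi⟩ := concl_of_hyp X hA (Nat.card (⊤ : Subgroup A)) ⊤ rfl
      (fun _ _ _ _ => Subgroup.mem_top _) (by
        intro D hD _ hDp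
        rcases h D hD hDp with h1 | h1
        · exact Or.inl h1
        · exact Or.inr fun a _ ha => (h1 a).2 ha) B hB le_top
    exact ⟨i, fun a => hi a (Subgroup.mem_top a)⟩
  have h13 : (¬ ∃ B C : Subgroup A, B ≠ ⊥ ∧ C ≠ ⊥ ∧ Inv X B ∧ Inv X C ∧ B ⊓ C = ⊥ ∧ B ⊔ C = ⊤) →
      (∀ B : Subgroup A, Inv X B → (∀ b ∈ B, b ^ p = 1) → B = ⊥ ∨ ∀ a : A, a ∈ B ↔ a ^ p = 1) := by
    intro h B hB hBp
    by_cases hB1 : B = ⊥
    · exact Or.inl hB1
    · right
      intro a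
      exact ⟨hBp a, hyp_of_indec X hX hA h B hB hBp hB1 a⟩
  have h21 : (∀ B : Subgroup A, Inv X B → ∃ i : ℕ, ∀ a : A, a ∈ B ↔ a ^ p ^ i = 1) →
      (¬ ∃ B C : Subgroup A, B ≠ ⊥ ∧ C ≠ ⊥ ∧ Inv X B ∧ Inv X C ∧ B ⊓ C = ⊥ ∧ B ⊔ C = ⊤) := by
    rintro h ⟨B, C, hB1, hC1, hB, hC, hinf, -⟩
    obtain ⟨i, hi⟩ := h B hB
    obtain ⟨j, hj⟩ := h C hC
    obtain ⟨x, hx⟩ := (Subgroup.ne_bot_iff_exists_ne_one (H := B)).1 hB1
    have hx1 : (x : A) ≠ 1 := fun h => hx (Subtype.ext h)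
    obtain ⟨m, hm, hm1⟩ := exists_order_p hA hx1
    have hj0 : j ≠ 0 := by
      rintro rfl
      apply hC1
      rw [eq_bot_iff]
      intro a ha
      simpa using (hj a).1 ha
    have h1 : (x : A) ^ p ^ m ∈ C := by
      apply (hj _).2
      obtain ⟨k, rfl⟩ := Nat.exists_eq_succ_of_ne_zero hj0
      rw [Nat.succ_eq_add_one, pow_succ, mul_comm, pow_mul, hm1, one_pow]
    have h2 : (x : A) ^ p ^ m ∈ B ⊓ C := ⟨B.pow_mem x.2 _, h1⟩
    rw [hinf, Subgroup.mem_bot] at h2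
    exact hm h2
  exact ⟨⟨fun h => h32 (h13 h), h21⟩, ⟨h23, h32⟩⟩

end Cfsg.Agent.S3775
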