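import Cfsg.Statements.S3776
import Cfsg.Agent.Lib.SuzukiSolv.Setup
import Cfsg.Agent.Lib.PGroups.Basic

set_option autoImplicit false
open Cfsg

namespace Cfsg.Agent.S3776


/-- Let G be a finite non-abelian 2-group with more than one involution admitting a solvable group of automorphisms that permutes its involutions transitively. Then the derived subgroup, the Frattini subgroup and the centre of G coincide and consist exactly of the elements x with x² = 1. -/
theorem result {G : Type*} [Group G] [Finite G] (hG : IsPGroup 2 G) (hna : ¬ IsMulCommutative G) (htwo : ∃ x y : G, x ≠ y ∧ x ≠ 1 ∧ x ^ 2 = 1 ∧ y ≠ 1 ∧ y ^ 2 = 1) (hY : ∃ Y : Subgroup (MulAut G), Group.IsSolvable Y ∧ ∀ x y : G, x ≠ 1 → x ^ 2 = 1 → y ≠ 1 → y ^ 2 = 1 → ∃ a ∈ Y, a x = y) : commutator G = frattini G ∧ frattini G = Subgroup.center G ∧ ∀ x : G, x ∈ Subgroup.center G ↔ x ^ 2 = 1 := by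
  classical
  haveI : Fact (Nat.Prime 2) := ⟨Nat.prime_two⟩
  obtain ⟨Y, hYs, htr⟩ := hY
  obtain ⟨x₀, y₀, hxy₀, hx₀, hx₀2, hy₀, hy₀2⟩ := htwo
  have hnc : ∃ x y : G, x * y ≠ y * x := by
    by_contra hcon
    push Not at hcon
    exact hna ⟨⟨hcon⟩⟩
  have two' : ∃ x y : G, x ≠ y ∧ x ≠ 1 ∧ x * x = 1 ∧ y ≠ 1 ∧ y * y = 1 :=
    ⟨x₀, y₀, hxy₀, hx₀, by rwa [← pow_two], hy₀, by rwa [← pow_two]⟩
  have trans' : ∀ x y : G, x ≠ 1 → x * x = 1 → y ≠ 1 → y * y = 1 → ∃ k ∈ Y, k x = y := by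
    intro x y hx hx2 hy hy2
    exact htr x y hx (by rwa [pow_two]) hy (by rwa [pow_two])
  obtain ⟨F, iF, iFt, hch, e, d, a₀, k₀, h, FD⟩ :=
    Cfsg.Agent.Lib.SuzukiSolv.Setup.exists_data hG two' hYs trans'
  have hsq : ∀ g : G, g * g ∈ Subgroup.center G :=
    fun g => Cfsg.Agent.Lib.SuzukiSolv.Higman.sq_center FD h hnc g
  have hz2 : ∀ z ∈ Subgroup.center G, z * z = 1 :=
    fun z hz => Cfsg.Agent.Lib.SuzukiSolv.Central.center_sq h hnc hz
  have hom : ∀ x : G, x * x = 1 → x ∈ Subgroup.center G := fun x hx => h.invol_center hx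
  have hcomm : commutator G ≤ Subgroup.center G := by
    rw [commutator_def, Subgroup.commutator_le]
    intro g _ l _
    have e1 : g * l * g⁻¹ * l⁻¹ = ((g * l) * (g * l)) * ((l⁻¹ * (g * g)⁻¹ * l) * (l⁻¹ * l⁻¹)) := by
      group
    show g * l * g⁻¹ * l⁻¹ ∈ _
    rw [e1]
    have h2 : l⁻¹ * (g * g)⁻¹ * l ∈ Subgroup.center G := by
      have := (inferInstance : (Subgroup.center G).Normal).conj_mem _ (Subgroup.inv_mem _ (hsq g)) l⁻¹
      simpa using this
    exact Subgroup.mul_mem _ (hsq _) (Subgroup.mul_mem _ h2 (hsq _))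
  have hfr : frattini G ≤ Subgroup.center G :=
    Cfsg.Agent.Lib.PGroups.Basic.frattini_le_of_normal (p := 2) _ hcomm
      (fun x => by rw [pow_two]; exact hsq x)
  have hcf : commutator G ≤ frattini G := Cfsg.Agent.Lib.PGroups.Basic.commutator_le_frattini hG
  have hzc : Subgroup.center G ≤ commutator G := by
    intro z hz
    by_cases hz1 : z = 1
    · rw [hz1]
      exact Subgroup.one_mem _
    -- a nontrivial commutator
    obtain ⟨x, y, hxy⟩ := hnc
    have hc1 : x * y * x⁻¹ * y⁻¹ ≠ 1 := by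
      intro h1
      apply hxy
      have h2 : x * y = y * x := by
        calc x * y = (x * y * x⁻¹ * y⁻¹) * (y * x) := by group
          _ = y * x := by rw [h1, one_mul]
      exact h2
    have hcm : x * y * x⁻¹ * y⁻¹ ∈ commutator G := by
      rw [commutator_def]
      exact Subgroup.commutator_mem_commutator (Subgroup.mem_top _) (Subgroup.mem_top _)
    obtain ⟨n, h1, h2⟩ := Cfsg.Agent.Lib.SuzukiTwo.Basic.exists_pow_invol hG hc1
    obtain ⟨k, -, hk⟩ := trans' _ _ h1 h2 hz1 (hz2 z hz)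
    rw [← hk]
    have hchar : (commutator G).Characteristic := by
      rw [commutator_def]
      infer_instance
    have h3 := hchar.fixed k
    have h4 : (x * y * x⁻¹ * y⁻¹) ^ n ∈ commutator G := Subgroup.pow_mem _ hcm n
    rw [← h3] at h4
    exact h4
  refine ⟨le_antisymm hcf (hfr.trans hzc), le_antisymm hfr (hzc.trans hcf), fun x => ?_⟩
  rw [pow_two]
  exact ⟨hz2 x, hom x⟩

end Cfsg.Agent.S3776
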