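import Cfsg.Statements.S3778
import Mathlib
import Cfsg.Agent.Lib.FGS.Comm

set_option autoImplicit false

open Cfsg

namespace Cfsg.Agent.S3778

open Cfsg.Agent.Lib.FGS.Comm

section
variable {G : Type*} [Group G]

/-- `g` acts non-trivially on `γ_i / γ_{i+2}`. -/
def Bad (g : G) (i : ℕ) : Prop :=
  ∃ x ∈ (⊤ : Subgroup G).lowerCentralSeries i, x * g * x⁻¹ * g⁻¹ ∉ (⊤ : Subgroup G).lowerCentralSeries (i + 2)

instance lcs_normal (i : ℕ) : ((⊤ : Subgroup G).lowerCentralSeries i).Normal := by
  induction i with
  | zero => simpa using (inferInstance : (⊤ : Subgroup G).Normal)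
  | succ i ih =>
    rw [Subgroup.lowerCentralSeries_succ]
    infer_instance

theorem bad_not_mem {g : G} {i : ℕ} (h : Bad g i) :
    ¬ ((⊤ : Subgroup G).lowerCentralSeries i ≤
      (⊤ : Subgroup G).lowerCentralSeries (i + 1) ⊔ Subgroup.centralizer ({g} : Set G)) := by
  obtain ⟨x, hx, hxg⟩ := h
  intro hle
  have hx2 := hle hx
  rw [Subgroup.mem_sup_of_normal_left] at hx2
  obtain ⟨y, hy, z, hz, rfl⟩ := hx2
  apply hxg
  have hzg : z * g = g * z := by
    have := Subgroup.mem_centralizer_iff.1 hz g rfl
    exact this.symm
  have e : y * z * g * (y * z)⁻¹ * g⁻¹ = y * g * y⁻¹ * g⁻¹ := by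
    have : y * z * g = y * g * z := by rw [mul_assoc, hzg, mul_assoc]
    rw [this]
    group
  rw [e]
  have : y * g * y⁻¹ * g⁻¹ ∈ ⁅(⊤ : Subgroup G).lowerCentralSeries (i + 1), (⊤ : Subgroup G)⁆ :=
    Subgroup.commutator_mem_commutator hy (Subgroup.mem_top g)
  exact this

open Classical in
/-- Chain of subgroups `γ_n C`. -/
theorem pow_card_le_index [Finite G] {p : ℕ} [Fact p.Prime] (hG : IsPGroup p G) (g : G) (n : ℕ) :
    p ^ ((Finset.range n).filter (fun i => Bad g i)).card ≤
      ((⊤ : Subgroup G).lowerCentralSeries n ⊔ Subgroup.centralizer ({g} : Set G)).index := by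
  induction n with
  | zero => simp
  | succ n ih =>
    set C := Subgroup.centralizer ({g} : Set G)
    have hle : (⊤ : Subgroup G).lowerCentralSeries (n + 1) ⊔ C ≤
        (⊤ : Subgroup G).lowerCentralSeries n ⊔ C := by
      apply sup_le_sup_right
      rw [Subgroup.lowerCentralSeries_succ]
      exact Subgroup.commutator_le_left _ _
    have e := Subgroup.relIndex_mul_index hle
    rw [← e, Finset.range_add_one, Finset.filter_insert]
    by_cases hb : Bad g n
    · rw [if_pos hb, Finset.card_insert_of_notMem (by simp), pow_succ, mul_comm]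
      refine Nat.mul_le_mul ?_ ih
      apply le_relIndex_of_not_le hG
      intro h3
      exact bad_not_mem hb ((le_sup_left.trans h3))
    · rw [if_neg hb]
      have hpos : 0 < ((⊤ : Subgroup G).lowerCentralSeries (n + 1) ⊔ C).relIndex
          ((⊤ : Subgroup G).lowerCentralSeries n ⊔ C) := Nat.pos_of_ne_zero Subgroup.FiniteIndex.index_ne_zero
      calc _ ≤ _ := ih
        _ ≤ _ := Nat.le_mul_of_pos_left _ hpos

/-- The subgroup of elements acting trivially on `γ_i / γ_{i+2}`. -/
def goodSubgroup (G : Type*) [Group G] (i : ℕ) : Subgroup G where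
  carrier := {g | ¬ Bad g i}
  one_mem' := by
    rintro ⟨x, _, hx⟩
    apply hx
    simp [Subgroup.one_mem]
  mul_mem' := by
    intro a b ha hb
    simp only [Set.mem_setOf_eq, Bad, not_exists, not_and, not_not] at ha hb ⊢
    intro x hx
    have h1 := ha x hx
    have h2 := hb x hx
    have hn : ((⊤ : Subgroup G).lowerCentralSeries (i + 2)).Normal := inferInstance
    have h3 := hn.conj_mem _ h2 a
    have e : x * (a * b) * x⁻¹ * (a * b)⁻¹ = (x * a * x⁻¹ * a⁻¹) * (a * (x * b * x⁻¹ * b⁻¹) * a⁻¹) := by group
    rw [e]
    exact Subgroup.mul_mem _ h1 h3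
  inv_mem' := by
    intro a ha
    simp only [Set.mem_setOf_eq, Bad, not_exists, not_and, not_not] at ha ⊢
    intro x hx
    have h1 := ha x hx
    have hn : ((⊤ : Subgroup G).lowerCentralSeries (i + 2)).Normal := inferInstance
    have h3 := hn.conj_mem _ h1 a⁻¹
    have e : x * a⁻¹ * x⁻¹ * a⁻¹⁻¹ = (a⁻¹ * (x * a * x⁻¹ * a⁻¹) * a⁻¹⁻¹)⁻¹ := by group
    rw [e]
    exact Subgroup.inv_mem _ h3

theorem goodSubgroup_ne_top [Group.IsNilpotent G] {i : ℕ}
    (hne : (⊤ : Subgroup G).lowerCentralSeries (i + 1) ≠ ⊥) : goodSubgroup G i ≠ ⊤ := by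
  intro htop
  apply hne
  apply eq_bot_of_le_commutator_top
  rw [Subgroup.lowerCentralSeries_succ, Subgroup.commutator_le]
  intro x hx g _
  have hg : g ∈ goodSubgroup G i := by rw [htop]; trivial
  have hg' : ¬ Bad g i := hg
  simp only [Bad, not_exists, not_and, not_not] at hg'
  have := hg' x hx
  rw [show (i + 2) = (i + 1) + 1 from rfl, Subgroup.lowerCentralSeries_succ, Subgroup.lowerCentralSeries_succ] at this
  exact this

end

theorem result {G : Type*} [Group G] [Finite G] {p : ℕ} [Fact p.Prime] (hG : IsPGroup p G) (b : ℕ) (hb : ∀ x : G, (Subgroup.centralizer ({x} : Set G)).index ≤ p ^ b) : ∃ c : ℕ, (⊤ : Subgroup G).lowerCentralSeries c = ⊥ ∧ (b ≠ 0 → (c - 1) * (p - 1) < b * p ∧ c ≤ 2 * b) ∧ (b = 0 → c ≤ 1) := by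
  classical
  haveI : Fintype G := Fintype.ofFinite G
  haveI hnil : Group.IsNilpotent G := hG.isNilpotent
  have hex : ∃ n, (⊤ : Subgroup G).lowerCentralSeries n = ⊥ :=
    (Subgroup.nilpotent_iff_lowerCentralSeries (G := G)).1 hnil
  have hp2 : 2 ≤ p := (Fact.out : p.Prime).two_le
  refine ⟨Nat.find hex, Nat.find_spec hex, ?_, ?_⟩
  · set c := Nat.find hex with hc
    intro hb0
    have hne : ∀ i, i + 1 < c → (⊤ : Subgroup G).lowerCentralSeries (i + 1) ≠ ⊥ := by
      intro i hi
      exact Nat.find_min hex hi
    have hcount : (c - 1) * (p - 1) < b * p := by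
      -- each row has few bad elements
      have h1 : ∀ i ∈ Finset.range (c - 1), (p - 1) * Fintype.card G ≤
          p * (Finset.univ.filter (fun g : G => Bad g i)).card := by
        intro i hi
        have hi' : i + 1 < c := by
          have := Finset.mem_range.1 hi
          omega
        have hproper := goodSubgroup_ne_top (hne i hi')
        have hidx : p ≤ (goodSubgroup G i).index := by
          have := le_relIndex_of_not_le hG (H := goodSubgroup G i) (K := ⊤) (fun h => hproper (top_le_iff.1 h))
          rwa [Subgroup.relIndex_top_right] at this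
        have hcard := Subgroup.card_mul_index (goodSubgroup G i)
        rw [Nat.card_eq_fintype_card (α := G)] at hcard
        have hsplit : (Finset.univ.filter (fun g : G => Bad g i)).card +
            Nat.card (goodSubgroup G i) = Fintype.card G := by
          have h := Finset.card_filter_add_card_filter_not (s := (Finset.univ : Finset G)) (fun g : G => Bad g i)
          rw [Finset.card_univ] at h
          rw [← h]
          congr 1
          rw [Nat.card_eq_fintype_card, Fintype.card_subtype]
          congr 1
          ext g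
          simp only [Finset.mem_filter, Finset.mem_univ, true_and]
          rfl
        have hpC : p * Nat.card (goodSubgroup G i) ≤ Fintype.card G := by
          rw [← hcard, mul_comm]
          exact Nat.mul_le_mul_left _ hidx
        obtain ⟨q, rfl⟩ : ∃ q, p = q + 1 := ⟨p - 1, by omega⟩
        simp only [Nat.add_sub_cancel]
        nlinarith
      have h2 : ∀ g : G, g ≠ 1 → ((Finset.range (c - 1)).filter (fun i => Bad g i)).card ≤ b := by
        intro g _
        have h3 := pow_card_le_index hG g (c - 1)
        have h4 : ((⊤ : Subgroup G).lowerCentralSeries (c - 1) ⊔ Subgroup.centralizer ({g} : Set G)).index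
            ≤ (Subgroup.centralizer ({g} : Set G)).index := Subgroup.index_antitone le_sup_right
        have h5 := (h3.trans h4).trans (hb g)
        exact (Nat.pow_le_pow_iff_right (by omega)).1 h5
      have h3 : ((Finset.range (c - 1)).filter (fun i => Bad (1 : G) i)).card = 0 := by
        rw [Finset.card_eq_zero, Finset.filter_eq_empty_iff]
        intro i _
        rintro ⟨x, _, hx⟩
        apply hx
        simp [Subgroup.one_mem]
      have hswap : ∑ i ∈ Finset.range (c - 1), (Finset.univ.filter (fun g : G => Bad g i)).card =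
          ∑ g : G, ((Finset.range (c - 1)).filter (fun i => Bad g i)).card := by
        simp only [Finset.card_filter]
        rw [Finset.sum_comm]
      have h4 : ∑ g : G, ((Finset.range (c - 1)).filter (fun i => Bad g i)).card ≤
          (Fintype.card G - 1) * b := by
        rw [← Finset.add_sum_erase Finset.univ _ (Finset.mem_univ (1 : G)), h3, zero_add]
        calc _ ≤ ∑ g ∈ Finset.univ.erase (1 : G), b := by
              apply Finset.sum_le_sum
              intro g hg
              exact h2 g (Finset.ne_of_mem_erase hg)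
          _ = _ := by
              rw [Finset.sum_const, Finset.card_erase_of_mem (Finset.mem_univ _), Finset.card_univ]
              simp
      have h5 : (c - 1) * ((p - 1) * Fintype.card G) ≤
          p * ∑ i ∈ Finset.range (c - 1), (Finset.univ.filter (fun g : G => Bad g i)).card := by
        rw [Finset.mul_sum]
        calc (c - 1) * ((p - 1) * Fintype.card G)
            = ∑ i ∈ Finset.range (c - 1), ((p - 1) * Fintype.card G) := by simp
          _ ≤ _ := Finset.sum_le_sum h1
      rw [hswap] at h5
      have hGpos : 0 < Fintype.card G := Fintype.card_pos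
      have h6 : (c - 1) * (p - 1) * Fintype.card G < b * p * Fintype.card G := by
        have hbpos : 0 < b := Nat.pos_of_ne_zero hb0
        have hlt : (Fintype.card G - 1) * b < Fintype.card G * b :=
          (Nat.mul_lt_mul_right hbpos).2 (by omega)
        calc (c - 1) * (p - 1) * Fintype.card G = (c - 1) * ((p - 1) * Fintype.card G) := by ring
          _ ≤ p * ∑ g : G, ((Finset.range (c - 1)).filter (fun i => Bad g i)).card := h5
          _ ≤ p * ((Fintype.card G - 1) * b) := Nat.mul_le_mul_left _ h4
          _ < p * (Fintype.card G * b) := (Nat.mul_lt_mul_left (by omega)).2 hlt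
          _ = b * p * Fintype.card G := by ring
      exact Nat.lt_of_mul_lt_mul_right h6
    refine ⟨hcount, ?_⟩
    -- `c ≤ 2 * b`
    obtain ⟨q, hq⟩ : ∃ q, p = q + 2 := ⟨p - 2, by omega⟩
    have hq' : p - 1 = q + 1 := by omega
    rw [hq', hq] at hcount
    have : (c - 1) * (q + 1) < (2 * b) * (q + 1) := by nlinarith
    have := Nat.lt_of_mul_lt_mul_right this
    omega
  · rintro rfl
    simp only [pow_zero] at hb
    have h1 : ∀ x : G, Subgroup.centralizer ({x} : Set G) = ⊤ := by
      intro x
      have : (Subgroup.centralizer ({x} : Set G)).index = 1 := by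
        have h2 : (Subgroup.centralizer ({x} : Set G)).index ≠ 0 := Subgroup.FiniteIndex.index_ne_zero
        have := hb x
        omega
      exact Subgroup.index_eq_one.1 this
    have h2 : (⊤ : Subgroup G).lowerCentralSeries 1 = ⊥ := by
      rw [Subgroup.lowerCentralSeries_one, commutator_def, eq_bot_iff, Subgroup.commutator_le]
      intro x _ y _
      have hy : y ∈ Subgroup.centralizer ({x} : Set G) := by rw [h1]; trivial
      have := Subgroup.mem_centralizer_iff.1 hy x rfl
      rw [Subgroup.mem_bot, commutatorElement_def]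
      rw [this]
      group
    exact Nat.find_min' hex h2

end Cfsg.Agent.S3778
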