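import Cfsg.Statements.S3780
import Cfsg.Agent.Lib.FGS.AbelianRank

set_option autoImplicit false
open Cfsg

namespace Cfsg.Agent.S3780

open Cfsg.Agent.Lib.FGS.AbelianRank

section
variable {A : Type*} [AddCommGroup A] [Finite A]

/-- `{v | p • v = 0 ∧ T^i v = 0}`. -/
def K (p : ℕ) (T : AddMonoid.End A) (i : ℕ) : AddSubgroup A where
  carrier := {v | p • v = 0 ∧ (T ^ i) v = 0}
  add_mem' := by
    rintro a b ⟨h1, h2⟩ ⟨h3, h4⟩
    exact ⟨by rw [smul_add, h1, h3, add_zero], by rw [map_add, h2, h4, add_zero]⟩
  zero_mem' := ⟨by simp, by simp⟩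
  neg_mem' := by
    rintro a ⟨h1, h2⟩
    exact ⟨by rw [smul_neg, h1, neg_zero], by rw [map_neg, h2, neg_zero]⟩

lemma mem_K {p : ℕ} {T : AddMonoid.End A} {i : ℕ} {v : A} :
    v ∈ K p T i ↔ p • v = 0 ∧ (T ^ i) v = 0 := Iff.rfl

lemma card_K_succ (p : ℕ) (T : AddMonoid.End A) (i : ℕ) :
    Nat.card (K p T (i + 1)) ≤ Nat.card (K p T 1) * Nat.card (K p T i) := by
  let f : K p T (i + 1) →+ K p T i :=
    { toFun := fun v => ⟨T v.1, by
        refine ⟨?_, ?_⟩
        · rw [← map_nsmul, v.2.1, map_zero]
        · have h := v.2.2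
          rw [pow_succ] at h
          exact h⟩
      map_zero' := by ext; simp
      map_add' := by intro a b; ext; simp }
  have h1 : Nat.card (K p T (i + 1)) = Nat.card f.ker * Nat.card f.range := by
    have h2 := AddSubgroup.card_mul_index f.ker
    rw [AddSubgroup.index_ker] at h2
    exact h2.symm
  rw [h1]
  apply Nat.mul_le_mul
  · apply Nat.card_le_card_of_injective (fun x : f.ker => (⟨x.1.1, by
      refine ⟨x.1.2.1, ?_⟩
      have hx : f x.1 = 0 := x.2
      have hx2 : T x.1.1 = 0 := congrArg Subtype.val hx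
      simpa using hx2⟩ : K p T 1))
    intro a b hab
    have h2' := congrArg Subtype.val hab
    have h2 : (a.1.1 : A) = b.1.1 := h2'
    ext
    exact h2
  · exact Nat.card_le_card_of_injective Subtype.val Subtype.val_injective

lemma card_K_le (p : ℕ) (T : AddMonoid.End A) (i : ℕ) :
    Nat.card (K p T i) ≤ Nat.card (K p T 1) ^ i := by
  induction i with
  | zero =>
    have : Subsingleton (K p T 0) := by
      constructor
      rintro ⟨a, ha⟩ ⟨b, hb⟩
      have h1 : a = 0 := by simpa using ha.2
      have h2 : b = 0 := by simpa using hb.2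
      ext
      simp [h1, h2]
    simp
  | succ i ih =>
    calc Nat.card (K p T (i + 1)) ≤ Nat.card (K p T 1) * Nat.card (K p T i) := card_K_succ p T i
      _ ≤ Nat.card (K p T 1) * Nat.card (K p T 1) ^ i := Nat.mul_le_mul_left _ ih
      _ = Nat.card (K p T 1) ^ (i + 1) := by rw [pow_succ, mul_comm]

end

lemma sub_one_pow_eq {R : Type*} [Ring R] {p : ℕ} (hp : p.Prime) (x : R) (hx : x ^ p = 1) :
    ∃ s : R, (x - 1) ^ p = s * (p : R) := by
  obtain ⟨r, hr⟩ := (Commute.neg_one_right x).exists_add_pow_prime_eq hp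
  rw [sub_eq_add_neg, hr, hx]
  have c : ∀ y : R, (p : R) * y = y * (p : R) := fun y => Nat.cast_commute p y
  rcases hp.eq_two_or_odd' with rfl | hodd
  · refine ⟨1 + x * (-1) * r, ?_⟩
    rw [neg_one_sq]
    have h2 : (2 : ℕ) * x * (-1) * r = (x * (-1) * r) * ((2 : ℕ) : R) := by
      rw [c x, mul_assoc x, c (-1), ← mul_assoc, mul_assoc _ _ r, c r, ← mul_assoc]
    rw [h2, add_mul, one_mul]
    push_cast
    rw [one_add_one_eq_two]
  · refine ⟨x * (-1) * r, ?_⟩
    rw [hodd.neg_one_pow]
    simp only [add_neg_cancel, zero_add]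
    rw [c x, mul_assoc x, c (-1), ← mul_assoc, mul_assoc _ _ r, c r, ← mul_assoc]

/-- Let V be a finite abelian p-group and α an automorphism of V of order p whose fixed-point subgroup has order p^n. Then V can be generated by pn elements: some subset of V with at most pn elements generates V. -/
theorem result {V : Type*} [CommGroup V] [Finite V] {p : ℕ} [Fact p.Prime] (hV : IsPGroup p V) (α : MulAut V) (hα : orderOf α = p) (n : ℕ) (hfix : Nat.card {v : V // α v = v} = p ^ n) : ∃ S : Finset V, S.card ≤ p * n ∧ Subgroup.closure (S : Set V) = ⊤ := by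
  apply exists_finset_closure_eq_top hV
  -- additive world
  let a : AddMonoid.End (Additive V) := (α.toMonoidHom).toAdditive
  have hap : a ^ p = 1 := by
    have h1 : α ^ p = 1 := by rw [← hα]; exact pow_orderOf_eq_one α
    have h2 : ∀ (k : ℕ) (v : V), (a ^ k) (Additive.ofMul v) = Additive.ofMul ((α ^ k) v) := by
      intro k
      induction k with
      | zero => intro v; simp
      | succ k ih =>
        intro v
        rw [pow_succ, pow_succ, MulAut.mul_apply]
        rw [← ih]
        rfl
    ext v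
    obtain ⟨w, rfl⟩ := Additive.ofMul.surjective v
    rw [h2, h1]
    rfl
  let T : AddMonoid.End (Additive V) := a - 1
  have hTp : ∀ v : Additive V, p • v = 0 → (T ^ p) v = 0 := by
    intro v hv
    obtain ⟨r, hr⟩ := sub_one_pow_eq (Fact.out : p.Prime) a hap
    have h5 : (r * (p : AddMonoid.End (Additive V))) v = r (p • v) := rfl
    have h3 : (T ^ p) v = (r * (p : AddMonoid.End (Additive V))) v := by
      rw [show T ^ p = r * (p : AddMonoid.End (Additive V)) from hr]
    rw [h3, h5, hv, map_zero]
  -- count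
  have h1 := card_K_le p T p
  have hK1 : Nat.card (K p T 1) ≤ p ^ n := by
    rw [← hfix]
    apply Nat.card_le_card_of_injective (fun x : K p T 1 => (⟨Additive.toMul x.1, by
      have h2 : T x.1 = 0 := by simpa using x.2.2
      have h3 : a x.1 - x.1 = 0 := h2
      have h4 : a x.1 = x.1 := by
        rw [sub_eq_zero] at h3
        exact h3
      exact congrArg Additive.toMul h4⟩ : {v : V // α v = v}))
    intro x y hxy
    have h2' := congrArg Subtype.val hxy
    have h2 : Additive.toMul x.1 = Additive.toMul y.1 := h2'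
    ext
    exact Additive.toMul.injective h2
  have hK : Nat.card (powMonoidHom p : V →* V).ker ≤ Nat.card (K p T p) := by
    apply Nat.card_le_card_of_injective (fun x : (powMonoidHom p : V →* V).ker => (⟨Additive.ofMul x.1, by
      have h2 : x.1 ^ p = 1 := x.2
      have h3 : p • (Additive.ofMul x.1) = 0 := congrArg Additive.ofMul h2
      exact ⟨h3, hTp _ h3⟩⟩ : K p T p))
    intro x y hxy
    have h2' := congrArg Subtype.val hxy
    have h2 : Additive.ofMul x.1 = Additive.ofMul y.1 := h2'
    ext
    exact Additive.ofMul.injective h2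
  calc Nat.card (powMonoidHom p : V →* V).ker ≤ Nat.card (K p T p) := hK
    _ ≤ Nat.card (K p T 1) ^ p := h1
    _ ≤ (p ^ n) ^ p := Nat.pow_le_pow_left hK1 p
    _ = p ^ (p * n) := by rw [← pow_mul, mul_comm]

end Cfsg.Agent.S3780
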