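import Cfsg.Statements.S3781
import Cfsg.Agent.Lib.FGS.Comm

set_option autoImplicit false
open Cfsg

namespace Cfsg.Agent.S3781

open Cfsg.Agent.Lib.FGS.Comm

lemma lcs_normal {G : Type*} [Group G] (N : Subgroup G) [N.Normal] (k : ℕ) :
    (N.lowerCentralSeries k).Normal := by
  induction k with
  | zero => simpa
  | succ k ih =>
    rw [Subgroup.lowerCentralSeries_succ]
    infer_instance

/-- Let G be a finite p-group and n ≥ 1, and write γ_1(G) = G, γ_{k+1}(G) = [γ_k(G), G], and likewise γ_k(N) for a subgroup N. Let N be a normal subgroup of G contained in γ_n(G). If i > 1 and γ_{i+1}(N) ≠ 1, then |γ_i(N) : γ_{i+1}(N)| ≥ p^n. -/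
theorem result {G : Type*} [Group G] [Finite G] {p : ℕ} [Fact p.Prime] (hG : IsPGroup p G) (n : ℕ) (hn : 1 ≤ n) (N : Subgroup G) [N.Normal] (hN : N ≤ (⊤ : Subgroup G).lowerCentralSeries (n - 1)) (i : ℕ) (hi : 1 < i) (hne : N.lowerCentralSeries i ≠ ⊥) : p ^ n ≤ (N.lowerCentralSeries i).relIndex (N.lowerCentralSeries (i - 1)) := by
  obtain ⟨i', rfl⟩ : ∃ i', i = i' + 1 := ⟨i - 1, by omega⟩
  obtain ⟨n', rfl⟩ : ∃ n', n = n' + 1 := ⟨n - 1, by omega⟩
  simp only [Nat.add_sub_cancel] at hN ⊢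
  set M := N.lowerCentralSeries i' with hM
  have hMn : M.Normal := lcs_normal N i'
  set Q := N.lowerCentralSeries (i' + 1) with hQ
  have hQn : Q.Normal := lcs_normal N (i' + 1)
  have hQe : Q = ⁅M, N⁆ := rfl
  have hQM : Q ≤ M := by
    rw [hQe]
    exact Subgroup.commutator_le_left _ _
  by_contra hlt
  have h1 : iter M n' ≤ Q := by
    by_contra h2
    exact hlt (pow_le_relIndex_of_not_iter_le hG Q n' M hQM h2)
  have h2 : Q ≤ ⁅Q, (⊤ : Subgroup G)⁆ := by
    calc Q = ⁅M, N⁆ := hQe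
      _ ≤ ⁅M, (⊤ : Subgroup G).lowerCentralSeries n'⁆ := Subgroup.commutator_mono le_rfl hN
      _ ≤ iter M (n' + 1) := commutator_lcs_le n' M
      _ = ⁅iter M n', (⊤ : Subgroup G)⁆ := rfl
      _ ≤ ⁅Q, (⊤ : Subgroup G)⁆ := Subgroup.commutator_mono h1 le_rfl
  have : Group.IsNilpotent G := hG.isNilpotent
  exact hne (eq_bot_of_le_commutator_top h2)

end Cfsg.Agent.S3781
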