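import Cfsg.Statements.S3784
import Mathlib.NumberTheory.Fermat

set_option autoImplicit false
open Cfsg

namespace Cfsg.Agent.S3784

lemma add_aux (q : ℕ) (hq : Odd q) (t : ℕ) : ∃ k, Odd k ∧ q ^ (2 * t + 1) + 1 = (q + 1) * k := by
  induction t with
  | zero => exact ⟨1, odd_one, by simp⟩
  | succ t ih =>
    obtain ⟨k, hk, e⟩ := ih
    have hq1 : 1 ≤ q := hq.pos
    have hk1 : 1 ≤ k := hk.pos
    have hle : q - 1 ≤ q ^ 2 * k := by
      calc q - 1 ≤ q := Nat.sub_le _ _
        _ ≤ q ^ 2 := Nat.le_self_pow (by norm_num) q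
        _ ≤ q ^ 2 * k := Nat.le_mul_of_pos_right _ hk1
    refine ⟨q ^ 2 * k - (q - 1), ?_, ?_⟩
    · have h1 : Odd (q ^ 2 * k) := (hq.pow).mul hk
      have h2 : Even (q - 1) := hq.tsub_odd odd_one
      exact Nat.Odd.sub_even hle h1 h2
    · obtain ⟨r, rfl⟩ : ∃ r, q = r + 1 := ⟨q - 1, by omega⟩
      have hle' : r ≤ (r + 1) ^ 2 * k := by simpa using hle
      simp only [Nat.add_sub_cancel]
      zify [hle']
      have e' : ((r : ℤ) + 1) ^ (2 * t + 1) + 1 = (r + 1 + 1) * k := by exact_mod_cast e
      have : ((r : ℤ) + 1) ^ (2 * (t + 1) + 1) = ((r : ℤ) + 1) ^ (2 * t + 1) * (r + 1) ^ 2 := by ring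
      rw [this]
      have e'' : ((r : ℤ) + 1) ^ (2 * t + 1) = (r + 1 + 1) * k - 1 := by linarith
      rw [e'']
      ring

lemma sub_aux (p : ℕ) (hp : Odd p) (t : ℕ) : ∃ k, Odd k ∧ p ^ (2 * t + 1) = (p - 1) * k + 1 := by
  induction t with
  | zero =>
    refine ⟨1, odd_one, ?_⟩
    have := hp.pos
    simp
    omega
  | succ t ih =>
    obtain ⟨k, hk, e⟩ := ih
    refine ⟨p ^ 2 * k + p + 1, ?_, ?_⟩
    · have h1 : Odd (p ^ 2 * k) := (hp.pow).mul hk
      have h2 : Even (p + 1) := hp.add_odd odd_one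
      have : p ^ 2 * k + p + 1 = p ^ 2 * k + (p + 1) := by ring
      rw [this]
      exact h1.add_even h2
    · obtain ⟨r, rfl⟩ : ∃ r, p = r + 1 := ⟨p - 1, by have := hp.pos; omega⟩
      simp only [Nat.add_sub_cancel] at e ⊢
      have : (r + 1) ^ (2 * (t + 1) + 1) = (r + 1) ^ (2 * t + 1) * (r + 1) ^ 2 := by ring
      rw [this, e]
      ring

lemma eq_one_of_odd_dvd_two_pow {k n : ℕ} (hk : Odd k) (h : k ∣ 2 ^ n) : k = 1 := by
  have hc : Nat.Coprime k (2 ^ n) := Nat.Coprime.pow_right _ (Nat.coprime_two_right.mpr hk)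
  exact Nat.Coprime.eq_one_of_dvd hc h

/-- Let p, q be primes and a, b positive integers with p^a = q^b + 1. Then either p = 2, b = 1, a is prime and q = 2^a − 1; or q = 2, a = 1, b is a power of 2 and p = 2^b + 1; or p^a = 9 and q^b = 8. -/
theorem result (p q a b : ℕ) (hp : p.Prime) (hq : q.Prime) (ha : 1 ≤ a) (hb : 1 ≤ b) (h : p ^ a = q ^ b + 1) : (p = 2 ∧ b = 1 ∧ a.Prime ∧ q + 1 = 2 ^ a) ∨ (q = 2 ∧ a = 1 ∧ (∃ m : ℕ, b = 2 ^ m) ∧ p = 2 ^ b + 1) ∨ (p ^ a = 9 ∧ q ^ b = 8) := by
  have ha0 : a ≠ 0 := by omega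
  have hb0 : b ≠ 0 := by omega
  rcases eq_or_ne p 2 with rfl | hp2
  · -- p = 2
    left
    refine ⟨rfl, ?_⟩
    have hqodd : Odd q := by
      rcases hq.eq_two_or_odd' with rfl | h'
      · exfalso
        have h1 : Even (2 ^ a) := (even_two).pow_of_ne_zero ha0 |>.elim (fun r hr => ⟨r, hr⟩)
        have h2 : Even (2 ^ b) := (even_two).pow_of_ne_zero hb0 |>.elim (fun r hr => ⟨r, hr⟩)
        rw [h] at h1
        exact (Nat.not_even_iff_odd.mpr (h2.add_one)) h1
      · exact h'
    have hq2 := hq.two_le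
    rcases Nat.even_or_odd' b with ⟨t, rfl | rfl⟩
    · exfalso
      -- b = 2t : q^(2t) ≡ 1 mod 4
      have hmod : (q ^ t) ^ 2 % 4 = 1 := by
        have hx : Odd (q ^ t) := hqodd.pow
        obtain ⟨y, hy⟩ := hx
        rw [hy]
        have : (2 * y + 1) ^ 2 = 4 * (y ^ 2 + y) + 1 := by ring
        rw [this]
        omega
      rw [pow_mul', ] at h
      have hm2 : 2 ^ a % 4 = 2 := by rw [h]; omega
      have ha1 : a = 1 := by
        by_contra hne
        obtain ⟨c, rfl⟩ : ∃ c, a = c + 2 := ⟨a - 2, by omega⟩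
        rw [pow_add] at hm2
        norm_num at hm2
      subst ha1
      have : (q ^ t) ^ 2 = 1 := by omega
      have h3 : q ^ (2 * t) = 1 := by rw [pow_mul']; exact this
      have ht : t ≠ 0 := by omega
      have : 1 < q ^ (2 * t) := Nat.one_lt_pow (by omega) (by omega)
      omega
    · obtain ⟨k, hk, e⟩ := add_aux q hqodd t
      have hdvd : k ∣ 2 ^ a := by rw [h, e]; exact Dvd.intro_left _ rfl
      have hk1 := eq_one_of_odd_dvd_two_pow hk hdvd
      subst hk1
      rw [mul_one] at e
      have hqb : q ^ (2 * t + 1) = q := by omega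
      have hb1 : 2 * t + 1 = 1 := by
        exact Nat.pow_right_injective hq2 (by simpa using hqb)
      refine ⟨hb1, ?_, ?_⟩
      · rw [hb1, pow_one] at h
        have hq' : (2 ^ a - 1).Prime := by
          have : 2 ^ a - 1 = q := by omega
          rw [this]; exact hq
        have ha1 : a ≠ 1 := by
          rintro rfl
          omega
        exact (Nat.prime_of_pow_sub_one_prime ha1 hq').2
      · rw [hb1, pow_one] at h
        exact h.symm
  · have hpodd : Odd p := hp.odd_of_ne_two hp2
    have hpa : Odd (p ^ a) := hpodd.pow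
    rcases eq_or_ne q 2 with rfl | hq2
    · -- q = 2
      rcases Nat.even_or_odd' a with ⟨c, rfl | rfl⟩
      · right; right
        set x := p ^ c with hx
        have hxodd : Odd x := hpodd.pow
        have hsq : x ^ 2 = 2 ^ b + 1 := by rw [hx, ← pow_mul, mul_comm]; exact h
        have hc0 : c ≠ 0 := by omega
        have hx3 : 3 ≤ x := by
          have h1 : p ≤ p ^ c := Nat.le_self_pow hc0 p
          have h2 := hp.two_le
          have : p ≠ 2 := hp2
          omega
        obtain ⟨y, hy⟩ : ∃ y, x = y + 1 := ⟨x - 1, by omega⟩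
        have hfac : y * (y + 2) = 2 ^ b := by
          rw [hy] at hsq
          nlinarith
        obtain ⟨u, -, hu⟩ := (Nat.dvd_prime_pow Nat.prime_two).1 (Dvd.intro _ hfac)
        obtain ⟨v, -, hv⟩ := (Nat.dvd_prime_pow Nat.prime_two).1 (Dvd.intro_left _ hfac)
        have hy2 : y = 2 := by
          rw [hu] at hv
          have hu0 : u ≠ 0 := by
            rintro rfl
            have : y = 1 := by simpa using hu
            omega
          obtain ⟨u', rfl⟩ : ∃ u', u = u' + 1 := ⟨u - 1, by omega⟩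
          have hv0 : v ≠ 0 := by
            rintro rfl
            simp at hv
          obtain ⟨v', rfl⟩ : ∃ v', v = v' + 1 := ⟨v - 1, by omega⟩
          rw [pow_succ, pow_succ] at hv
          have h5 : 2 ^ u' + 1 = 2 ^ v' := by omega
          have hu'0 : u' = 0 := by
            by_contra hne
            have h6 : Even (2 ^ u') := (even_two).pow_of_ne_zero hne |>.elim (fun r hr => ⟨r, hr⟩)
            have h7 : 2 ^ v' ≠ 1 := by
              intro h8
              have : 2 ^ u' = 0 := by omega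
              simp at this
            have hv'0 : v' ≠ 0 := by rintro rfl; simp at h7
            have h8 : Even (2 ^ v') := (even_two).pow_of_ne_zero hv'0 |>.elim (fun r hr => ⟨r, hr⟩)
            rw [← h5] at h8
            exact (Nat.not_even_iff_odd.mpr h6.add_one) h8
          subst hu'0
          rw [hu]; simp
        subst hy2
        have hx3' : x = 3 := hy
        constructor
        · rw [pow_mul', ← hx, hx3']; norm_num
        · have : 2 ^ b + 1 = 9 := by rw [← hsq, hx3']; norm_num
          omega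
      · right; left
        obtain ⟨k, hk, e⟩ := sub_aux p hpodd c
        have : 2 ^ b = (p - 1) * k := by omega
        have hdvd : k ∣ 2 ^ b := by rw [this]; exact Dvd.intro_left _ rfl
        have hk1 := eq_one_of_odd_dvd_two_pow hk hdvd
        subst hk1
        rw [mul_one] at this e
        have hp1 : 1 ≤ p := hp.one_lt.le
        have hpp : p ^ (2 * c + 1) = p := by omega
        have ha1 : 2 * c + 1 = 1 := by
          exact Nat.pow_right_injective hp.two_le (by simpa using hpp)
        have hpeq : p = 2 ^ b + 1 := by omega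
        refine ⟨rfl, ha1, ?_, hpeq⟩
        have hP : (2 ^ b + 1).Prime := hpeq ▸ hp
        exact Nat.pow_of_pow_add_prime (by norm_num) hb0 hP
    · exfalso
      have hqodd : Odd q := hq.odd_of_ne_two hq2
      have : Even (q ^ b + 1) := (hqodd.pow).add_odd odd_one
      rw [← h] at this
      exact (Nat.not_even_iff_odd.mpr hpa) this

end Cfsg.Agent.S3784
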