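import Cfsg.Statements.S3785
import Cfsg.Agent.Lib.FGS.OmegaFix
import Cfsg.Agent.Lib.Solvable.Fitting
import Mathlib

set_option autoImplicit false
open Cfsg

namespace Cfsg.Agent.S3785

open Cfsg.Agent.Lib.FGS.Stability Cfsg.Agent.Lib.FGS.OmegaFix Cfsg.Agent.Lib.Core.Basic

/-- Let G be a finite solvable group whose Fitting subgroup F(G) has odd order. If an element g of G commutes with every element of prime order of F(G), then g ∈ F(G). -/
theorem result {G : Type*} [Group G] [Finite G] (hG : Group.IsSolvable G) (hodd : Odd (Nat.card (Cfsg.fittingSubgroup G))) (g : G) (hg : ∀ x ∈ Cfsg.fittingSubgroup G, (orderOf x).Prime → g * x = x * g) : g ∈ Cfsg.fittingSubgroup G := by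
  classical
  haveI := hG
  set F : Subgroup G := Cfsg.fittingSubgroup G with hF
  let Ω : Set G := {x | x ∈ F ∧ (orderOf x).Prime}
  let C : Subgroup G := Subgroup.centralizer Ω
  haveI hCn : C.Normal := by
    constructor
    intro n hn h
    rw [Subgroup.mem_centralizer_iff]
    rintro x ⟨hxF, hxo⟩
    have hord : orderOf (h⁻¹ * x * h) = orderOf x := by
      have := MulEquiv.orderOf_eq (MulAut.conj h⁻¹) x
      simpa [MulAut.conj_apply] using this
    have hmem : h⁻¹ * x * h ∈ Ω := by
      refine ⟨?_, by rw [hord]; exact hxo⟩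
      have := (inferInstance : F.Normal).conj_mem x hxF h⁻¹
      simpa using this
    have h1 := (Subgroup.mem_centralizer_iff.1 hn) _ hmem
    calc x * (h * n * h⁻¹) = h * ((h⁻¹ * x * h) * n) * h⁻¹ := by group
      _ = h * (n * (h⁻¹ * x * h)) * h⁻¹ := by rw [h1]
      _ = h * n * h⁻¹ * x := by group
  have hgC : g ∈ C := by
    rw [Subgroup.mem_centralizer_iff]
    rintro x ⟨hxF, hxo⟩
    exact (hg x hxF hxo).symm
  -- the key step
  have hkey : ∀ (q : ℕ) [Fact q.Prime], ∀ y ∈ C, (orderOf y).Coprime q →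
      y ∈ Subgroup.centralizer (Cfsg.pCore q G : Set G) := by
    intro q hq y hy hcop
    by_cases hq2 : q = 2
    · subst hq2
      have h1 : Cfsg.pCore 2 G = ⊥ := by
        obtain ⟨k, hk⟩ := IsPGroup.iff_card.1 (pCore_isPGroup (p := 2) (G := G))
        have h2 : Nat.card (Cfsg.pCore 2 G) ∣ Nat.card F := by
          have hle : Cfsg.pCore 2 G ≤ F := pCore_le_fittingSubgroup 2
          exact Subgroup.card_dvd_of_le hle
        have h3 : Odd (Nat.card (Cfsg.pCore 2 G)) := Odd.of_dvd_nat hodd h2
        rcases Nat.eq_zero_or_pos k with rfl | hk0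
        · exact Subgroup.eq_bot_of_card_eq _ (by simpa using hk)
        · exfalso
          rw [hk] at h3
          exact (Nat.not_even_iff_odd.2 h3) ((Nat.even_pow' hk0.ne').2 even_two)
      rw [h1, Subgroup.mem_centralizer_iff]
      intro x hx
      have h4 : x = 1 := Subgroup.mem_bot.1 hx
      simp [h4]
    · apply mem_centralizer_of_fixes hq2 _ pCore_isPGroup y
      · rw [Subgroup.normalizer_eq_top]; trivial
      · exact hcop
      · intro x hx hord
        have hq' : (q : ℕ).Prime := Fact.out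
        have : x ∈ Ω := ⟨pCore_le_fittingSubgroup q hx, by rw [hord]; exact hq'⟩
        exact ((Subgroup.mem_centralizer_iff.1 hy) x this).symm
  have hchain : ∀ W ∈ Set.range (fun p : Nat.Primes => Cfsg.pCore (p : ℕ) G),
      W.Normal ∧ ∃ m, chain C W m = ⊥ := by
    rintro _ ⟨p, rfl⟩
    haveI : Fact (p : ℕ).Prime := ⟨p.2⟩
    refine ⟨inferInstance, ?_⟩
    exact exists_chain_eq_bot_of_pgroup C (Cfsg.pCore (p : ℕ) G) pCore_isPGroup
      (hkey (p : ℕ)) _ _ rfl inferInstance le_rfl
  obtain ⟨-, m, hm⟩ := exists_chain_sSup_eq_bot C _ hchain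
  rw [sSup_range, ← fittingSubgroup_eq_iSup_pCore] at hm
  have hnil : Group.IsNilpotent C :=
    isNilpotent_of_chain F C m hm (fun x hx =>
      Cfsg.Agent.Lib.Solvable.Fitting.centralizer_fittingSubgroup_le hx.2)
  exact le_fittingSubgroup hCn hnil hgC

end Cfsg.Agent.S3785
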