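import Cfsg.Statements.S3797
import Cfsg.Agent.Lib.TwoAuto.Reduced

set_option autoImplicit false
set_option linter.style.haveILetI false
set_option linter.unusedSectionVars false

open Cfsg

namespace Cfsg.Agent.S3797

open Cfsg.Agent.Lib.Core.Basic Cfsg.Agent.Lib.Core.PLength Cfsg.Agent.Lib.Core.Series
  Cfsg.Agent.Lib.TwoAuto.Main Cfsg.Agent.Lib.TwoAuto.Reduce Cfsg.Agent.Lib.TwoAuto.Reduced
open scoped commutatorElement Pointwise

/-- Let G be a finite solvable group of even order whose Sylow 2-subgroups contain more than one involution, and suppose all involutions of G are conjugate. Then G has 2-length at most 1, and a Sylow 2-subgroup S of G is either homocyclic (a direct product of cyclic groups of one common order) or a non-abelian 2-group with more than one involution admitting a solvable group of automorphisms transitive on its involutions. -/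
theorem result {G : Type*} [Group G] [Finite G] (hG : Group.IsSolvable G) (heven : Even (Nat.card G)) (S : Sylow 2 G) (htwo : ∃ x y : G, x ∈ (S : Subgroup G) ∧ y ∈ (S : Subgroup G) ∧ x ≠ y ∧ x ≠ 1 ∧ x ^ 2 = 1 ∧ y ≠ 1 ∧ y ^ 2 = 1) (hconj : ∀ x y : G, x ≠ 1 → x ^ 2 = 1 → y ≠ 1 → y ^ 2 = 1 → IsConj x y) : Cfsg.PLengthLE 2 1 G ∧ ((∃ m r : ℕ, Nonempty (↥(S : Subgroup G) ≃* (Fin r → Multiplicative (ZMod (2 ^ m))))) ∨ (¬ IsMulCommutative (S : Subgroup G) ∧ ∃ Y : Subgroup (MulAut ↥(S : Subgroup G)), Group.IsSolvable Y ∧ ∀ x y : ↥(S : Subgroup G), x ≠ 1 → x ^ 2 = 1 → y ≠ 1 → y ^ 2 = 1 → ∃ a ∈ Y, a x = y)) := by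
  classical
  haveI h2f : Fact (Nat.Prime 2) := ⟨Nat.prime_two⟩
  haveI := hG
  have hconj' : AllConj G := fun x y h1 h2 h3 h4 =>
    hconj x y h1 (by rw [sq]; exact h2) h3 (by rw [sq]; exact h4)
  obtain ⟨x, y, hxS, hyS, hne, hx1, hx2, hy1, hy2⟩ := htwo
  have hL : PLengthLE 2 1 G :=
    main' hconj' S hxS hyS hne hx1 (by rw [← sq]; exact hx2) hy1 (by rw [← sq]; exact hy2)
  refine ⟨hL, ?_⟩
  set O : Subgroup G := pPrimeCore 2 G with hOdef
  have hOc : (Nat.card O).Coprime 2 := pPrimeCore_coprime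
  have hSO : ∀ u ∈ (S : Subgroup G), u ∈ O → u = 1 := by
    intro u hu hu'
    have h1 : (⟨u, hu'⟩ : O) = 1 := by
      obtain ⟨k, hk⟩ := S.isPGroup' ⟨u, hu⟩
      have h2 : (⟨u, hu'⟩ : O) ^ 2 ^ k = 1 := by
        apply Subtype.ext
        have h3 : u ^ 2 ^ k = 1 := congrArg Subtype.val hk
        exact h3
      have h3 := orderOf_dvd_of_pow_eq_one h2
      have h4 : Nat.Coprime (orderOf (⟨u, hu'⟩ : O)) (2 ^ k) :=
        Nat.Coprime.pow_right _ (Nat.Coprime.coprime_dvd_left (orderOf_dvd_natCard _) hOc)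
      exact orderOf_eq_one_iff.1 (Nat.Coprime.eq_one_of_dvd h4 h3)
    exact congrArg Subtype.val h1
  have hL' : (Nat.card (G ⧸ pPrimePCore 2 G)).Coprime 2 := pLengthLE_zero_iff.1 (pLengthLE_succ_iff.1 hL)
  set N₀ : Subgroup G := pPrimePCore 2 G with hN₀def
  have hSN₀ : (S : Subgroup G) ≤ N₀ := by
    intro s hs
    rw [← QuotientGroup.eq_one_iff]
    obtain ⟨k, hk⟩ := S.isPGroup' ⟨s, hs⟩
    have hk' : s ^ 2 ^ k = 1 := congrArg Subtype.val hk
    have h1 : ((s : G) : G ⧸ N₀) ^ 2 ^ k = 1 := by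
      rw [← QuotientGroup.mk_pow, hk']
      rfl
    have h2 := orderOf_dvd_of_pow_eq_one h1
    have h3 : orderOf ((s : G) : G ⧸ N₀) ∣ Nat.card (G ⧸ N₀) := orderOf_dvd_natCard _
    have h4 : Nat.Coprime (orderOf ((s : G) : G ⧸ N₀)) (2 ^ k) :=
      Nat.Coprime.pow_right _ (Nat.Coprime.coprime_dvd_left h3 hL')
    exact orderOf_eq_one_iff.1 (Nat.Coprime.eq_one_of_dvd h4 h2)
  haveI hN₀n : N₀.Normal := inferInstance
  have hF := Sylow.normalizer_sup_eq_top' S hSN₀
  -- the image of `S`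
  let f : (S : Subgroup G) →* G ⧸ O := (QuotientGroup.mk' O).comp (S : Subgroup G).subtype
  have hfinj : Function.Injective f := by
    rw [injective_iff_map_eq_one]
    intro a ha
    have h1 : ((a : G) : G ⧸ O) = 1 := ha
    rw [QuotientGroup.eq_one_iff] at h1
    exact Subtype.ext (hSO a a.2 h1)
  have hfle : f.range ≤ pCore 2 (G ⧸ O) := by
    rintro _ ⟨a, rfl⟩
    exact hSN₀ a.2
  have hfcard : Nat.card f.range = Nat.card (S : Subgroup G) :=
    Nat.card_congr (MonoidHom.ofInjective hfinj).toEquiv.symm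
  have hfeq : f.range = pCore 2 (G ⧸ O) := by
    apply Subgroup.eq_of_le_of_card_ge hfle
    rw [hfcard]
    obtain ⟨b, hb⟩ : ∃ b, Nat.card (pCore 2 (G ⧸ O)) = 2 ^ b := exists_card_pCore
    have h1 : 2 ^ b ∣ Nat.card G := by
      rw [← hb]
      exact (Subgroup.card_subgroup_dvd_card _).trans (Subgroup.card_quotient_dvd_card O)
    have h2 := S.pow_dvd_card_of_pow_dvd_card h1
    rw [hb]
    exact Nat.le_of_dvd Nat.card_pos h2
  have hmk : ∀ w ∈ N₀, ∃ s ∈ (S : Subgroup G), s⁻¹ * w ∈ O := by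
    intro w hw
    have h1 : ((w : G) : G ⧸ O) ∈ f.range := by
      rw [hfeq]
      exact hw
    obtain ⟨a, ha⟩ := h1
    refine ⟨a, a.2, ?_⟩
    have h2 : ((a : G) : G ⧸ O) = ((w : G) : G ⧸ O) := ha
    rwa [QuotientGroup.eq] at h2
  have hdec : ∀ c : G, ∃ n ∈ Subgroup.normalizer ((S : Subgroup G) : Set G), ∃ o ∈ O, c = n * o := by
    intro c
    have h1 : c ∈ ((Subgroup.normalizer ((S : Subgroup G) : Set G) ⊔ N₀ : Subgroup G) : Set G) := by
      have hF' : Subgroup.normalizer ((S : Subgroup G) : Set G) ⊔ N₀ = ⊤ := hF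
      rw [SetLike.mem_coe, hF']
      exact Subgroup.mem_top c
    rw [Subgroup.mul_normal] at h1
    obtain ⟨n, hn, w, hw, rfl⟩ := Set.mem_mul.1 h1
    obtain ⟨s, hs, hso⟩ := hmk w hw
    refine ⟨n * s, Subgroup.mul_mem _ hn (Subgroup.le_normalizer hs), s⁻¹ * w, hso, ?_⟩
    group
  -- the group `Y`
  let φ : Subgroup.normalizer ((S : Subgroup G) : Set G) →* MulAut (S : Subgroup G) :=
    (S : Subgroup G).normalizerMonoidHom
  have hYs : Group.IsSolvable φ.range := solvable_of_surjective (f := φ.rangeRestrict) φ.rangeRestrict_surjective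
  have hYt : ∀ x y : (S : Subgroup G), x ≠ 1 → x ^ 2 = 1 → y ≠ 1 → y ^ 2 = 1 → ∃ a ∈ φ.range, a x = y := by
    intro a b ha1 ha2 hb1 hb2
    obtain ⟨c, hc⟩ := isConj_iff.1 (hconj (a : G) (b : G) (fun h => ha1 (Subtype.ext h))
      (congrArg Subtype.val ha2) (fun h => hb1 (Subtype.ext h)) (congrArg Subtype.val hb2))
    obtain ⟨n, hn, o, ho, hcn⟩ := hdec c⁻¹
    have hn' : n⁻¹ ∈ Subgroup.normalizer ((S : Subgroup G) : Set G) := Subgroup.inv_mem _ hn
    refine ⟨φ ⟨n⁻¹, hn'⟩, ⟨_, rfl⟩, ?_⟩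
    apply Subtype.ext
    change n⁻¹ * (a : G) * (n⁻¹)⁻¹ = b
    have hx' : n⁻¹ * (a : G) * (n⁻¹)⁻¹ ∈ (S : Subgroup G) :=
      (Subgroup.mem_normalizer_iff.1 hn' _).1 a.2
    set x' := n⁻¹ * (a : G) * (n⁻¹)⁻¹ with hx'def
    have hc' : c = o⁻¹ * n⁻¹ := by
      have : c = (c⁻¹)⁻¹ := by group
      rw [this, hcn]
      group
    have hb : (b : G) = o⁻¹ * x' * o := by
      rw [← hc, hc', hx'def]
      group
    have hd : x'⁻¹ * b ∈ O := by
      have h1 : x'⁻¹ * o⁻¹ * x' ∈ O := by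
        have := (inferInstance : O.Normal).conj_mem _ (O.inv_mem ho) x'⁻¹
        simpa using this
      have h2 : x'⁻¹ * b = (x'⁻¹ * o⁻¹ * x') * o := by
        rw [hb]
        group
      rw [h2]
      exact O.mul_mem h1 ho
    have hd1 := hSO _ (Subgroup.mul_mem _ (Subgroup.inv_mem _ hx') b.2) hd
    rw [inv_mul_eq_one] at hd1
    exact hd1
  by_cases hab : IsMulCommutative (S : Subgroup G)
  · left
    apply homocyclic_of_transitive (fun a b => hab.is_comm.comm a b) S.isPGroup'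
    intro a b h1 h2 h3 h4
    obtain ⟨c, -, hc⟩ := hYt a b h1 h2 h3 h4
    exact ⟨c, hc⟩
  · right
    exact ⟨hab, φ.range, hYs, hYt⟩

end Cfsg.Agent.S3797
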