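import Cfsg.Statements.S3798
import Cfsg.Agent.Lib.Core.PLength
import Cfsg.Agent.Lib.Core.PSolvable
import Cfsg.Agent.Lib.PGroups.Critical
import Cfsg.Agent.Lib.Coprime.Complement

set_option autoImplicit false
set_option linter.style.haveILetI false
set_option linter.unusedSectionVars false

open Cfsg

namespace Cfsg.Agent.S3798

open Cfsg.Agent.Lib.Core.Basic Cfsg.Agent.Lib.Core.PSolvable Cfsg.Agent.Lib.Core.PLength
open scoped Pointwise

universe u

/-- Preimages of characteristic subgroups of quotients by characteristic subgroups. -/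
lemma comap_char {G : Type*} [Group G] (M : Subgroup G) [M.Characteristic] (X : Subgroup (G ⧸ M))
    [X.Characteristic] : (X.comap (QuotientGroup.mk' M)).Characteristic := by
  classical
  rw [Subgroup.characteristic_iff_map_le]
  intro a
  rintro _ ⟨x, hx, rfl⟩
  have hmap : M.map (a : G →* G) = M := by
    have h1 := (inferInstance : M.Characteristic).fixed a.symm
    ext y
    constructor
    · rintro ⟨z, hz, rfl⟩
      have : z ∈ M.comap a.symm.toMonoidHom := by rw [h1]; exact hz
      rw [Subgroup.mem_comap] at this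
      rw [← h1]
      simpa using hz
    · intro hy
      refine ⟨a.symm y, ?_, by simp⟩
      rw [← h1] at hy
      exact hy
  let b : (G ⧸ M) ≃* (G ⧸ M) := QuotientGroup.congr M M a hmap
  have h2 := (inferInstance : X.Characteristic).fixed b
  have h3 : b ((x : G ⧸ M)) ∈ X := by
    have : (x : G ⧸ M) ∈ X.comap b.toMonoidHom := by rw [h2]; exact hx
    exact this
  exact h3

/-- `A ⊓ C(B)` is characteristic. -/
lemma inf_centralizer_char {G : Type*} [Group G] (A B : Subgroup G) [hA : A.Characteristic]
    [hB : B.Characteristic] : (A ⊓ Subgroup.centralizer (B : Set G)).Characteristic := by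
  rw [Subgroup.characteristic_iff_map_le]
  rintro a _ ⟨x, ⟨hx1, hx2⟩, rfl⟩
  refine ⟨?_, ?_⟩
  · have h1 : x ∈ A.comap a.toMonoidHom := by rw [hA.fixed a]; exact hx1
    exact h1
  · change a x ∈ Subgroup.centralizer (B : Set G)
    change x ∈ Subgroup.centralizer (B : Set G) at hx2
    rw [Subgroup.mem_centralizer_iff] at hx2 ⊢
    intro b hb
    have h1 : a.symm b ∈ B := by
      have : a.symm b ∈ B.comap a.toMonoidHom := by
        change a (a.symm b) ∈ B
        simpa using hb
      rwa [hB.fixed a] at this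
    have h2 := hx2 _ h1
    have h3 := congrArg a h2
    simpa using h3

/-- The reduced case of the Gaschütz-Yen theorem. -/
theorem reduced {G : Type u} [Group G] [Finite G] {p : ℕ} [hpf : Fact p.Prime] (hp2 : p ≠ 2)
    (hG : IsPSolvable p G) (hO : pPrimeCore p G = ⊥)
    (htrans : ∀ U V : Subgroup G, Nat.card U = p → Nat.card V = p → ∃ a : MulAut G, U.map a.toMonoidHom = V) :
    (Nat.card (G ⧸ pCore p G)).Coprime p := by
  classical
  have hp : p.Prime := hpf.out
  -- a characteristic `p`-subgroup contains all elements of order `p`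
  have hA : ∀ L : Subgroup G, L.Characteristic → L ≠ ⊥ → IsPGroup p L → ∀ x : G, x ^ p = 1 → x ∈ L := by
    intro L hLc hL0 hLp x hx
    by_cases hx1 : x = 1
    · rw [hx1]; exact L.one_mem
    have hxo : orderOf x = p := orderOf_eq_prime hx hx1
    haveI : Nontrivial L := (Subgroup.nontrivial_iff_ne_bot L).2 hL0
    have hd : p ∣ Nat.card L := by
      obtain ⟨k, hk⟩ := IsPGroup.iff_card.1 hLp
      rw [hk]
      have hk0 : k ≠ 0 := by
        rintro rfl
        have h1 : Nat.card L = 1 := by simpa using hk
        have := Finite.one_lt_card (α := L)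
        omega
      exact dvd_pow_self p hk0
    obtain ⟨y, hy⟩ := exists_prime_orderOf_dvd_card' (G := L) p hd
    have hyo : orderOf (y : G) = p := by
      rw [← hy]
      exact Subgroup.orderOf_coe y
    obtain ⟨a, ha⟩ := htrans (Subgroup.zpowers x) (Subgroup.zpowers (y : G))
      (by rw [Nat.card_zpowers, hxo]) (by rw [Nat.card_zpowers, hyo])
    have h1 : a x ∈ Subgroup.zpowers (y : G) := by
      rw [← ha]
      exact ⟨x, Subgroup.mem_zpowers x, rfl⟩
    have h2 : a x ∈ L := by
      have : Subgroup.zpowers (y : G) ≤ L := by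
        rw [Subgroup.zpowers_le]
        exact y.2
      exact this h1
    have h3 := hLc.fixed a
    have h4 : x ∈ L.comap a.toMonoidHom := h2
    rw [h3] at h4
    exact h4
  set P : Subgroup G := pCore p G with hPdef
  have hPp : IsPGroup p P := pCore_isPGroup
  haveI hPn : P.Normal := inferInstance
  have hC : Subgroup.centralizer (P : Set G) ≤ P := centralizer_pCore_le_of_isPSolvable hG hO
  have hGq : IsPSolvable p (G ⧸ P) := isPSolvable_of_surjective (QuotientGroup.mk' P) QuotientGroup.mk_surjective hG
  have hOq : pCore p (G ⧸ P) = ⊥ := pCore_quotient_eq_bot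
  -- the trivial case
  by_cases hP0 : P = ⊥
  · have h1 : ∀ x : G, x ∈ P := by
      intro x
      apply hC
      rw [Subgroup.mem_centralizer_iff]
      intro y hy
      rw [hP0, SetLike.mem_coe, Subgroup.mem_bot] at hy
      rw [hy, one_mul, mul_one]
    have : Subsingleton (G ⧸ P) := by
      have htop : P = ⊤ := by
        ext x
        simp [h1 x]
      rw [htop]
      exact QuotientGroup.subsingleton_quotient_top
    rw [Nat.card_of_subsingleton (1 : G ⧸ P)]
    exact Nat.coprime_one_left p
  -- all elements of order `p` lie in `Z(P)`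
  have hZc : (P ⊓ Subgroup.centralizer (P : Set G)).Characteristic := inf_centralizer_char P P
  have hE : ∀ x : G, x ^ p = 1 → x ∈ P ∧ ∀ w ∈ P, w * x = x * w := by
    intro x hx
    have h1 := hA _ hZc (by
      obtain ⟨u, hu, hu1, huc⟩ := Cfsg.Agent.Lib.Coprime.Complement.exists_ne_one_mem_centralizer hPp hPp
        Subgroup.le_normalizer hP0
      intro h
      apply hu1
      have : u ∈ P ⊓ Subgroup.centralizer (P : Set G) := ⟨hu, huc⟩
      rw [h] at this
      exact this) (hPp.to_le inf_le_left) x hx
    refine ⟨h1.1, ?_⟩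
    intro w hw
    exact Subgroup.mem_centralizer_iff.1 h1.2 w hw
  -- the trivial `p'`-core of the quotient
  by_cases hQ0 : pPrimeCore p (G ⧸ P) = ⊥
  · have h1 := centralizer_pCore_le_of_isPSolvable hGq hQ0
    rw [hOq] at h1
    have : Subsingleton (G ⧸ P) := by
      refine ⟨fun a b => ?_⟩
      have ha : a ∈ (⊥ : Subgroup (G ⧸ P)) := h1 (by
        rw [Subgroup.mem_centralizer_iff]
        intro y hy
        rw [SetLike.mem_coe, Subgroup.mem_bot] at hy
        rw [hy, one_mul, mul_one])
      have hb : b ∈ (⊥ : Subgroup (G ⧸ P)) := h1 (by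
        rw [Subgroup.mem_centralizer_iff]
        intro y hy
        rw [SetLike.mem_coe, Subgroup.mem_bot] at hy
        rw [hy, one_mul, mul_one])
      rw [Subgroup.mem_bot] at ha hb
      rw [ha, hb]
    rw [Nat.card_of_subsingleton (1 : G ⧸ P)]
    exact Nat.coprime_one_left p
  -- the Hall subgroup `Q`
  set K : Subgroup G := (pPrimeCore p (G ⧸ P)).comap (QuotientGroup.mk' P) with hKdef
  have hPK : P ≤ K := by
    intro x hx
    have : ((x : G) : G ⧸ P) = 1 := (QuotientGroup.eq_one_iff x).2 hx
    change ((x : G) : G ⧸ P) ∈ pPrimeCore p (G ⧸ P)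
    rw [this]
    exact Subgroup.one_mem _
  have hKc : K.Characteristic := comap_char P _
  have hKmap : K.map (QuotientGroup.mk' P) = pPrimeCore p (G ⧸ P) :=
    Subgroup.map_comap_eq_self_of_surjective QuotientGroup.mk_surjective _
  have hKcard : Nat.card (K.map (QuotientGroup.mk' P)) * Nat.card P = Nat.card K :=
    Cfsg.Agent.Lib.Coprime.SchurZassenhaus.card_map_mk_of_le P K hPK
  have hKq : (Nat.card (K.map (QuotientGroup.mk' P))).Coprime p := by
    rw [hKmap]
    exact pPrimeCore_coprime
  obtain ⟨pk, hpk⟩ := IsPGroup.iff_card.1 hPp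
  haveI hPKn : (P.subgroupOf K).Normal := inferInstance
  have hidx : (P.subgroupOf K).index = Nat.card (K.map (QuotientGroup.mk' P)) := by
    have h1 := Subgroup.card_mul_index (P.subgroupOf K)
    rw [Cfsg.Agent.Lib.Coprime.SchurZassenhaus.card_subgroupOf_of_le hPK] at h1
    apply Nat.eq_of_mul_eq_mul_left (Nat.card_pos (α := P))
    rw [h1, ← hKcard, mul_comm]
  have hcopN : Nat.Coprime (Nat.card (P.subgroupOf K)) (P.subgroupOf K).index := by
    rw [Cfsg.Agent.Lib.Coprime.SchurZassenhaus.card_subgroupOf_of_le hPK, hidx, hpk]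
    exact Nat.Coprime.pow_left _ hKq.symm
  obtain ⟨H, hH⟩ := Subgroup.exists_right_complement'_of_coprime hcopN
  set Q : Subgroup G := H.map K.subtype with hQdef
  have hQK : Q ≤ K := by
    rintro _ ⟨x, -, rfl⟩
    exact x.2
  have hQcard : Nat.card Q = Nat.card (K.map (QuotientGroup.mk' P)) := by
    rw [hQdef, Subgroup.card_map_of_injective K.subtype_injective, ← hidx]
    exact hH.symm.index_eq_card.symm
  have hQcop : (Nat.card Q).Coprime p := by rw [hQcard]; exact hKq
  have hPQ : P ⊔ Q = K := by
    apply le_antisymm (sup_le hPK hQK)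
    have h1 := hH.sup_eq_top
    intro x hx
    have h2 : (⟨x, hx⟩ : K) ∈ P.subgroupOf K ⊔ H := by rw [h1]; exact Subgroup.mem_top _
    have h3 : (P.subgroupOf K ⊔ H).map K.subtype ≤ P ⊔ Q := by
      rw [Subgroup.map_sup]
      apply sup_le_sup
      · rintro _ ⟨y, hy, rfl⟩
        exact hy
      · exact le_rfl
    exact h3 ⟨_, h2, rfl⟩
  have hPQdisj : P ⊓ Q = ⊥ :=
    Cfsg.Agent.Lib.Coprime.SchurZassenhaus.disjoint_of_coprime_card (by
      rw [hpk]
      exact Nat.Coprime.pow_left _ hQcop.symm)
  -- the case distinction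
  by_cases hL : P ⊓ Subgroup.centralizer (K : Set G) = ⊥
  · -- `C_P(K) = 1`: `Q` has a complement
    have hCPQ : ∀ w ∈ P, (∀ q ∈ Q, w * q = q * w) → w = 1 := by
      intro w hw hwq
      by_contra hw1
      obtain ⟨k, hk⟩ := (IsPGroup.iff_orderOf.1 hPp) ⟨w, hw⟩
      have hk' : orderOf w = p ^ k := by rw [← hk]; exact (Subgroup.orderOf_mk w hw).symm
      have hk0 : k ≠ 0 := by
        rintro rfl
        rw [pow_zero, orderOf_eq_one_iff] at hk'
        exact hw1 hk'
      obtain ⟨j, rfl⟩ := Nat.exists_eq_succ_of_ne_zero hk0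
      have h1 : (w ^ p ^ j) ^ p = 1 := by
        rw [← pow_mul, ← pow_succ, ← hk']
        exact pow_orderOf_eq_one w
      have h2 : w ^ p ^ j ≠ 1 := by
        apply pow_ne_one_of_lt_orderOf (pow_ne_zero _ hp.ne_zero)
        rw [hk']
        exact Nat.pow_lt_pow_right hp.one_lt (Nat.lt_succ_self j)
      obtain ⟨h3, h4⟩ := hE _ h1
      apply h2
      have h5 : w ^ p ^ j ∈ P ⊓ Subgroup.centralizer (K : Set G) := by
        refine ⟨h3, ?_⟩
        have h6 : K ≤ Subgroup.centralizer ({w ^ p ^ j} : Set G) := by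
          rw [← hPQ]
          apply sup_le
          · intro v hv
            rw [Subgroup.mem_centralizer_iff]
            rintro _ rfl
            exact (h4 v hv).symm
          · intro q hq
            rw [Subgroup.mem_centralizer_iff]
            rintro _ rfl
            exact ((show Commute w q from hwq q hq).pow_left _)
        change w ^ p ^ j ∈ Subgroup.centralizer (K : Set G)
        rw [Subgroup.mem_centralizer_iff]
        intro v hv
        have h7 := h6 hv
        rw [Subgroup.mem_centralizer_iff] at h7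
        exact (h7 _ rfl).symm
      rw [hL] at h5
      exact h5
    have hNP : P ⊓ Subgroup.normalizer (Q : Set G) = ⊥ := by
      rw [eq_bot_iff]
      rintro w ⟨hw, hwn⟩
      apply hCPQ w hw
      intro q hq
      have h1 : w * q * w⁻¹ * q⁻¹ ∈ P ⊓ Q := by
        constructor
        · have h2 : q * w⁻¹ * q⁻¹ ∈ P := hPn.conj_mem _ (P.inv_mem hw) q
          rw [mul_assoc, mul_assoc]
          apply P.mul_mem hw
          rw [← mul_assoc]
          exact h2
        · apply Q.mul_mem _ (Q.inv_mem hq)
          exact (Subgroup.mem_normalizer_iff.1 hwn q).1 hq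
      rw [hPQdisj, Subgroup.mem_bot] at h1
      have h2 : w * q * w⁻¹ = q := by
        have := mul_inv_eq_one.1 h1
        exact this
      rw [mul_inv_eq_iff_eq_mul] at h2
      exact h2
    -- Frattini
    haveI hKn : K.Normal := inferInstance
    have hFr : ∀ g : G, ∃ n ∈ P, n⁻¹ * g ∈ Subgroup.normalizer (Q : Set G) := by
      intro g
      have hconjle : MulAut.conj g • Q ≤ P ⊔ Q := by
        rw [hPQ]
        rintro _ ⟨x, hx, rfl⟩
        exact hKn.conj_mem x (hQK hx) g
      obtain ⟨n, hn, hnc⟩ := Cfsg.Agent.Lib.Coprime.Complement.exists_conj_of_le_sup (N := P) (K := Q)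
        (K₁ := MulAut.conj g • Q) (by
          rw [Subgroup.normalizer_eq_top_iff.mpr hPn]
          exact le_top)
        hconjle
        (Cfsg.Agent.Lib.Coprime.SchurZassenhaus.card_conj_smul g Q)
        (by rw [hpk]; exact Nat.Coprime.pow_left _ hQcop.symm)
        (Or.inl (by
          haveI : Group.IsNilpotent P := hPp.isNilpotent
          infer_instance))
      refine ⟨n, hn, ?_⟩
      rw [Subgroup.mem_normalizer_iff]
      intro x
      have key : ∀ y, n * y * n⁻¹ ∈ MulAut.conj g • Q ↔ y ∈ Q := by
        intro y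
        rw [← hnc, Cfsg.Agent.Lib.Coprime.SchurZassenhaus.mem_conj_smul_iff]
        have : n⁻¹ * (n * y * n⁻¹) * n = y := by group
        rw [this]
      have h1 := key (n⁻¹ * g * x * (n⁻¹ * g)⁻¹)
      rw [Cfsg.Agent.Lib.Coprime.SchurZassenhaus.mem_conj_smul_iff] at h1
      have h2 : g⁻¹ * (n * (n⁻¹ * g * x * (n⁻¹ * g)⁻¹) * n⁻¹) * g = x := by group
      rw [h2] at h1
      exact h1
    -- the conclusion
    by_contra hnc
    have hd : p ∣ Nat.card (G ⧸ P) := by
      rw [Nat.coprime_comm, Nat.Prime.coprime_iff_not_dvd hp, not_not] at hnc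
      exact hnc
    obtain ⟨y, hy⟩ := exists_prime_orderOf_dvd_card' (G := G ⧸ P) p hd
    obtain ⟨g, rfl⟩ := QuotientGroup.mk_surjective y
    obtain ⟨n, hn, hm⟩ := hFr g
    set m := n⁻¹ * g with hmdef
    have hmg : ((m : G) : G ⧸ P) = (g : G ⧸ P) := by
      rw [hmdef, QuotientGroup.mk_mul, QuotientGroup.mk_inv, (QuotientGroup.eq_one_iff n).2 hn, inv_one, one_mul]
    have h1 : m ^ p ∈ P := by
      rw [← QuotientGroup.eq_one_iff, QuotientGroup.mk_pow, hmg, ← hy]
      exact pow_orderOf_eq_one _
    have h2 : m ^ p ∈ P ⊓ Subgroup.normalizer (Q : Set G) := ⟨h1, Subgroup.pow_mem _ hm p⟩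
    rw [hNP, Subgroup.mem_bot] at h2
    have h3 := (hE m h2).1
    have h4 : (g : G ⧸ P) = 1 := by rw [← hmg]; exact (QuotientGroup.eq_one_iff m).2 h3
    rw [h4, orderOf_one] at hy
    exact hp.one_lt.ne hy
  · -- `C_P(K) ≠ 1`: `Q` centralizes `Ω₁(P)`, hence `P`
    exfalso
    apply hQ0
    have hLc : (P ⊓ Subgroup.centralizer (K : Set G)).Characteristic := inf_centralizer_char P K
    have hall : ∀ x : G, x ^ p = 1 → x ∈ P ⊓ Subgroup.centralizer (K : Set G) :=
      hA _ hLc hL (hPp.to_le inf_le_left)
    have hQtriv : ∀ q ∈ Q, q = 1 := by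
      intro q hq
      have h1 : (MulAut.conjNormal q : MulAut P) = 1 := by
        apply Cfsg.Agent.Lib.PGroups.Critical.eq_one_of_fixes_omega hp2 hPp
        · -- the order is prime to `p`
          have h2 : orderOf (MulAut.conjNormal q : MulAut P) ∣ orderOf q := orderOf_map_dvd _ _
          have h3 : orderOf q ∣ Nat.card Q := by
            have := orderOf_dvd_natCard (⟨q, hq⟩ : Q)
            rwa [Subgroup.orderOf_mk] at this
          exact Nat.Coprime.coprime_dvd_left (h2.trans h3) hQcop
        · intro x hx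
          apply Subtype.ext
          rw [MulAut.conjNormal_apply]
          have h2 := hall x (by rw [← Subgroup.coe_pow, hx]; rfl)
          have h3 := Subgroup.mem_centralizer_iff.1 h2.2 q (hQK hq)
          rw [h3]
          simp
      have h2 : q ∈ Subgroup.centralizer (P : Set G) := by
        rw [Subgroup.mem_centralizer_iff]
        intro w hw
        have h3 : (MulAut.conjNormal q : MulAut P) ⟨w, hw⟩ = ⟨w, hw⟩ := by rw [h1]; rfl
        have h4 := congrArg Subtype.val h3
        rw [MulAut.conjNormal_apply] at h4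
        rw [mul_inv_eq_iff_eq_mul] at h4
        exact h4.symm
      have h3 : q ∈ P ⊓ Q := ⟨hC h2, hq⟩
      rw [hPQdisj, Subgroup.mem_bot] at h3
      exact h3
    have hKP : K = P := by
      apply le_antisymm _ hPK
      rw [← hPQ]
      apply sup_le le_rfl
      intro q hq
      rw [hQtriv q hq]
      exact P.one_mem
    rw [← hKmap, hKP, eq_bot_iff]
    rintro _ ⟨x, hx, rfl⟩
    exact (QuotientGroup.eq_one_iff x).2 hx

/-- The Gaschütz–Yen Theorem: let G be a finite p-soluble group, p an odd prime dividing its order, such that the automorphism group of G permutes the subgroups of G of order p transitively. Then G has p-length at most 1. -/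
theorem result {G : Type*} [Group G] [Finite G] {p : ℕ} [Fact p.Prime] (hp : p ≠ 2) (hdvd : p ∣ Nat.card G) (hG : Cfsg.IsPSolvable p G) (htrans : ∀ U V : Subgroup G, Nat.card U = p → Nat.card V = p → ∃ a : MulAut G, U.map a.toMonoidHom = V) : Cfsg.PLengthLE p 1 G := by
  classical
  have hp' : p.Prime := Fact.out
  set N : Subgroup G := pPrimeCore p G with hNdef
  haveI hNn : N.Normal := inferInstance
  have hNc : (Nat.card N).Coprime p := pPrimeCore_coprime
  -- the quotient has the same property
  have hq : (Nat.card ((G ⧸ N) ⧸ pCore p (G ⧸ N))).Coprime p := by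
    apply reduced hp (isPSolvable_of_surjective (QuotientGroup.mk' N) QuotientGroup.mk_surjective hG)
      pPrimeCore_quotient_eq_bot
    -- lifting subgroups of order `p`
    have hlift : ∀ U : Subgroup (G ⧸ N), Nat.card U = p →
        ∃ U₀ : Subgroup G, Nat.card U₀ = p ∧ U₀.map (QuotientGroup.mk' N) = U := by
      intro U hU
      obtain ⟨y, hy⟩ := exists_prime_orderOf_dvd_card' (G := U) p (by rw [hU])
      have hyo : orderOf (y : G ⧸ N) = p := by rw [← hy]; exact Subgroup.orderOf_coe y
      obtain ⟨g, hg⟩ := QuotientGroup.mk_surjective (y : G ⧸ N)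
      have hgp : g ^ p ∈ N := by
        rw [← QuotientGroup.eq_one_iff, QuotientGroup.mk_pow, hg, ← hyo]
        exact pow_orderOf_eq_one _
      set g₀ : G := g ^ Nat.card N with hg₀
      have h1 : g₀ ^ p = 1 := by
        rw [hg₀, ← pow_mul, mul_comm, pow_mul]
        have := pow_card_eq_one' (x := (⟨g ^ p, hgp⟩ : N))
        exact congrArg Subtype.val this
      have h2 : ((g₀ : G) : G ⧸ N) = (y : G ⧸ N) ^ Nat.card N := by
        rw [hg₀, QuotientGroup.mk_pow, hg]
      have h3 : ((g₀ : G) : G ⧸ N) ≠ 1 := by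
        rw [h2]
        intro h
        have h4 := orderOf_dvd_of_pow_eq_one h
        rw [hyo] at h4
        have := Nat.Coprime.eq_one_of_dvd hNc.symm h4
        exact hp'.one_lt.ne' this
      have h4 : g₀ ≠ 1 := by
        intro h
        apply h3
        rw [h]
        rfl
      have h5 : orderOf g₀ = p := orderOf_eq_prime h1 h4
      refine ⟨Subgroup.zpowers g₀, by rw [Nat.card_zpowers, h5], ?_⟩
      rw [MonoidHom.map_zpowers]
      apply Subgroup.eq_of_le_of_card_ge
      · rw [Subgroup.zpowers_le]
        change ((g₀ : G) : G ⧸ N) ∈ U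
        rw [h2]
        exact U.pow_mem y.2 _
      · rw [Nat.card_zpowers, hU]
        have h6 : orderOf (QuotientGroup.mk' N g₀) = p := by
          apply orderOf_eq_prime
          · rw [← map_pow, h1, map_one]
          · exact h3
        rw [h6]
    intro U V hU hV
    obtain ⟨U₀, hU₀, rfl⟩ := hlift U hU
    obtain ⟨V₀, hV₀, rfl⟩ := hlift V hV
    obtain ⟨a, ha⟩ := htrans U₀ V₀ hU₀ hV₀
    have hmap : N.map (a : G →* G) = N := by
      apply Subgroup.eq_of_le_of_card_ge
      · rintro _ ⟨x, hx, rfl⟩
        have h1 := (inferInstance : N.Characteristic).fixed a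
        have h2 : x ∈ N.comap a.toMonoidHom := by rw [h1]; exact hx
        exact h2
      · exact le_of_eq (Nat.card_congr (a.subgroupMap N).toEquiv)
    refine ⟨QuotientGroup.congr N N a hmap, ?_⟩
    rw [← ha]
    ext y
    constructor
    · rintro ⟨_, ⟨x, hx, rfl⟩, rfl⟩
      exact ⟨a x, ⟨x, hx, rfl⟩, rfl⟩
    · rintro ⟨_, ⟨x, hx, rfl⟩, rfl⟩
      exact ⟨(x : G ⧸ N), ⟨x, hx, rfl⟩, rfl⟩
  have h1 : PLengthLE p 1 (G ⧸ N) := by
    have := PLengthLE.of_ker (p := p) (a := 1) (b := 0) (QuotientGroup.mk' (pCore p (G ⧸ N)))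
      QuotientGroup.mk_surjective (by
        rw [QuotientGroup.ker_mk']
        exact pLengthLE_one_of_isPGroup pCore_isPGroup) (pLengthLE_zero_iff.2 hq)
    simpa using this
  have := PLengthLE.of_ker (p := p) (a := 0) (b := 1) (QuotientGroup.mk' N)
    QuotientGroup.mk_surjective (by
      rw [QuotientGroup.ker_mk', pLengthLE_zero_iff]
      exact hNc) h1
  simpa using this

end Cfsg.Agent.S3798
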