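-- Statement S3799.
import Cfsg.Statements.S3799
import Cfsg.Agent.Lib.PGroups.Special
import Mathlib

set_option autoImplicit false
open Cfsg

namespace Cfsg.Agent.S3799

section Aux

open Subgroup Cfsg.Agent.Lib.PGroups.Special
open scoped commutatorElement

/-- The Heisenberg group. -/
@[ext] structure Heis (n p : ℕ) : Type where
  a : Fin n → ZMod p
  b : Fin n → ZMod p
  c : ZMod p

variable {n p : ℕ}

instance : Mul (Heis n p) := ⟨fun u v => ⟨u.a + v.a, u.b + v.b, u.c + v.c + u.a ⬝ᵥ v.b⟩⟩
instance : One (Heis n p) := ⟨⟨0, 0, 0⟩⟩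
instance : Inv (Heis n p) := ⟨fun u => ⟨-u.a, -u.b, -u.c + u.a ⬝ᵥ u.b⟩⟩

@[simp] theorem Heis.mul_a (u v : Heis n p) : (u * v).a = u.a + v.a := rfl
@[simp] theorem Heis.mul_b (u v : Heis n p) : (u * v).b = u.b + v.b := rfl
@[simp] theorem Heis.mul_c (u v : Heis n p) : (u * v).c = u.c + v.c + u.a ⬝ᵥ v.b := rfl
@[simp] theorem Heis.one_a : (1 : Heis n p).a = 0 := rfl
@[simp] theorem Heis.one_b : (1 : Heis n p).b = 0 := rfl
@[simp] theorem Heis.one_c : (1 : Heis n p).c = 0 := rfl
@[simp] theorem Heis.inv_a (u : Heis n p) : (u⁻¹).a = -u.a := rfl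
@[simp] theorem Heis.inv_b (u : Heis n p) : (u⁻¹).b = -u.b := rfl
@[simp] theorem Heis.inv_c (u : Heis n p) : (u⁻¹).c = -u.c + u.a ⬝ᵥ u.b := rfl

instance : Group (Heis n p) :=
  Group.ofLeftAxioms
    (by
      intro x y z
      ext i
      · simp [add_assoc]
      · simp [add_assoc]
      · simp [add_dotProduct, dotProduct_add]
        ring)
    (by intro x; ext i <;> simp)
    (by intro x; ext i <;> simp [neg_dotProduct])

/-- As a type. -/
def Heis.equiv (n p : ℕ) : Heis n p ≃ (Fin n → ZMod p) × (Fin n → ZMod p) × ZMod p where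
  toFun u := (u.a, u.b, u.c)
  invFun q := ⟨q.1, q.2.1, q.2.2⟩
  left_inv _ := rfl
  right_inv _ := rfl

theorem Heis.pow_eq (u : Heis n p) (k : ℕ) :
    u ^ k = ⟨k • u.a, k • u.b, k • u.c + (k.choose 2 : ZMod p) * (u.a ⬝ᵥ u.b)⟩ := by
  induction k with
  | zero => ext i <;> simp
  | succ k ih =>
    rw [pow_succ, ih]
    ext i
    · simp [add_smul]
    · simp [add_smul]
    · show (k • u.c + (k.choose 2 : ZMod p) * (u.a ⬝ᵥ u.b)) + u.c + (k • u.a) ⬝ᵥ u.b =
        (k + 1) • u.c + ((k + 1).choose 2 : ZMod p) * (u.a ⬝ᵥ u.b)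
      rw [smul_dotProduct, Nat.choose_succ_succ]
      simp only [Nat.choose_one_right, nsmul_eq_mul, Nat.cast_add, Nat.cast_one]
      ring

variable [hp : Fact p.Prime]

instance : Finite (Heis n p) := Finite.of_equiv _ (Heis.equiv n p).symm

theorem Heis.card : Nat.card (Heis n p) = p ^ (1 + 2 * n) := by
  rw [Nat.card_congr (Heis.equiv n p), Nat.card_prod, Nat.card_prod]
  simp only [Nat.card_eq_fintype_card, Fintype.card_fun, ZMod.card, Fintype.card_fin]
  ring

theorem Heis.pow_p (h2 : p ≠ 2) (u : Heis n p) : u ^ p = 1 := by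
  rw [Heis.pow_eq]
  have h1 : ((p.choose 2 : ℕ) : ZMod p) = 0 := by
    rw [ZMod.natCast_eq_zero_iff]
    apply (Nat.Prime.dvd_choose_self hp.out (by norm_num) _)
    have := hp.out.two_le
    omega
  ext i
  · simp
  · simp
  · simp [h1]

theorem Heis.isPGroup (h2 : p ≠ 2) : IsPGroup p (Heis n p) :=
  fun u => ⟨1, by rw [pow_one]; exact Heis.pow_p h2 u⟩

theorem Heis.mem_center_iff (hn : 1 ≤ n) (u : Heis n p) :
    u ∈ center (Heis n p) ↔ u.a = 0 ∧ u.b = 0 := by
  rw [Subgroup.mem_center_iff]
  constructor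
  · intro hu
    have key : ∀ v : Heis n p, v.a ⬝ᵥ u.b = u.a ⬝ᵥ v.b := by
      intro v
      have := congrArg Heis.c (hu v)
      simp only [Heis.mul_c] at this
      have h3 : v.c + u.c = u.c + v.c := add_comm _ _
      rw [h3] at this
      exact add_left_cancel this
    constructor
    · funext i
      have := key ⟨0, Pi.single i 1, 0⟩
      simpa using this.symm
    · funext i
      have := key ⟨Pi.single i 1, 0, 0⟩
      simpa using this
  · rintro ⟨h1, h3⟩ v
    ext i
    · simp [h1]
    · simp [h3]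
    · simp [h1, h3]
      ring

/-- The centre as the image of `c`. -/
theorem Heis.card_center (hn : 1 ≤ n) : Nat.card (center (Heis n p)) = p := by
  have e : (center (Heis n p)) ≃ ZMod p :=
    { toFun := fun u => (u : Heis n p).c
      invFun := fun c => ⟨⟨0, 0, c⟩, (Heis.mem_center_iff hn _).mpr ⟨rfl, rfl⟩⟩
      left_inv := by
        rintro ⟨u, hu⟩
        obtain ⟨h1, h3⟩ := (Heis.mem_center_iff hn u).mp hu
        apply Subtype.ext
        ext i
        · simp [h1]
        · simp [h3]
        · rfl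
      right_inv := fun c => rfl }
  rw [Nat.card_congr e, Nat.card_eq_fintype_card, ZMod.card]

theorem Heis.extraLike (h2 : p ≠ 2) (hn : 1 ≤ n) : ExtraLike p (Heis n p) where
  isPGroup := Heis.isPGroup h2
  card_center := Heis.card_center hn
  comm_mem := by
    intro x y
    rw [Heis.mem_center_iff hn]
    simp only [commutatorElement_def]
    constructor
    · simp
    · simp
  pow_mem := by
    intro x
    rw [Heis.pow_p h2]
    exact one_mem _

theorem Heis.not_comm (hn : 1 ≤ n) : ¬ IsMulCommutative (Heis n p) := by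
  intro hc
  have i : Fin n := ⟨0, hn⟩
  have h1 := hc.is_comm.comm (⟨Pi.single i 1, 0, 0⟩ : Heis n p) ⟨0, Pi.single i 1, 0⟩
  have h3 := congrArg Heis.c h1
  simp at h3

theorem Heis.isExtraspecial (h2 : p ≠ 2) (hn : 1 ≤ n) : Cfsg.IsExtraspecial p (Heis n p) :=
  (Heis.extraLike h2 hn).isExtraspecial (Heis.not_comm hn)

/-- The space on which the Heisenberg group acts. -/
abbrev HV (n p : ℕ) : Type := ZMod p × (Fin n → ZMod p) × ZMod p

/-- The action. -/
def Heis.act (u : Heis n p) : Module.End (ZMod p) (HV n p) where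
  toFun q := (q.1 + u.a ⬝ᵥ q.2.1 + u.c * q.2.2, q.2.1 + q.2.2 • u.b, q.2.2)
  map_add' := by
    intro x y
    ext i
    · simp [dotProduct_add, mul_add]
      ring
    · simp [add_smul]
      ring
    · simp
  map_smul' := by
    intro r x
    ext i
    · simp [dotProduct_smul, mul_add]
      ring
    · simp [smul_add, mul_smul, mul_comm]
    · simp

/-- The representation on `HV`. -/
def Heis.rep : Heis n p →* Module.End (ZMod p) (HV n p) where
  toFun := Heis.act
  map_one' := by
    ext q i <;> simp [Heis.act]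
  map_mul' := by
    intro x y
    apply LinearMap.ext
    intro q
    ext i
    · simp [Heis.act, add_dotProduct, dotProduct_add, add_mul, dotProduct_smul]
      ring
    · simp [Heis.act, smul_add]
      ring
    · simp [Heis.act]

theorem Heis.rep_injective : Function.Injective (Heis.rep : Heis n p →* Module.End (ZMod p) (HV n p)) := by
  intro x y hxy
  have key : ∀ q : HV n p, Heis.act x q = Heis.act y q := fun q => LinearMap.congr_fun hxy q
  have h1 := key (0, 0, 1)
  simp only [Heis.act, LinearMap.mk_coe, AddHom.coe_mk] at h1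
  have hc : x.c = y.c := by simpa using congrArg Prod.fst h1
  have hb : x.b = y.b := by simpa using congrArg (fun q => q.2.1) h1
  have ha : x.a = y.a := by
    funext i
    have h3 := key (0, Pi.single i 1, 0)
    simp only [Heis.act, LinearMap.mk_coe, AddHom.coe_mk] at h3
    simpa using congrArg Prod.fst h3
  ext i
  · rw [ha]
  · rw [hb]
  · exact hc

/-- The embedding into `GL`. -/
theorem Heis.exists_embedding (n p : ℕ) [hp : Fact p.Prime] :
    ∃ f : Heis n p →* Matrix.GeneralLinearGroup (Fin (n + 2)) (ZMod p), Function.Injective f := by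
  have hfin : Module.finrank (ZMod p) (HV n p) = Module.finrank (ZMod p) (Fin (n + 2) → ZMod p) := by
    simp [Module.finrank_prod]
    omega
  let e : HV n p ≃ₗ[ZMod p] (Fin (n + 2) → ZMod p) := LinearEquiv.ofFinrankEq _ _ hfin
  let f₀ : Heis n p →* LinearMap.GeneralLinearGroup (ZMod p) (HV n p) := MonoidHom.toHomUnits Heis.rep
  let f₁ : Heis n p →* LinearMap.GeneralLinearGroup (ZMod p) (Fin (n + 2) → ZMod p) :=
    (LinearMap.GeneralLinearGroup.congrLinearEquiv e).toMonoidHom.comp f₀
  let f : Heis n p →* Matrix.GeneralLinearGroup (Fin (n + 2)) (ZMod p) :=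
    (Matrix.GeneralLinearGroup.toLin (n := Fin (n + 2)) (R := ZMod p)).symm.toMonoidHom.comp f₁
  refine ⟨f, ?_⟩
  intro x y hxy
  have h1 : f₁ x = f₁ y := (Matrix.GeneralLinearGroup.toLin (n := Fin (n + 2)) (R := ZMod p)).symm.injective hxy
  have h2 : f₀ x = f₀ y := (LinearMap.GeneralLinearGroup.congrLinearEquiv e).injective h1
  apply Heis.rep_injective
  exact congrArg Units.val h2

theorem mem_center_of_equiv {A B : Type*} [Group A] [Group B] (φ : A ≃* B) {z : A}
    (hz : z ∈ center A) : φ z ∈ center B := by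
  rw [Subgroup.mem_center_iff] at hz ⊢
  intro g
  obtain ⟨g₀, rfl⟩ := φ.surjective g
  rw [← map_mul, ← map_mul, hz]

theorem extraLike_of_equiv {A B : Type*} [Group A] [Group B] {p : ℕ} (φ : A ≃* B) (h : ExtraLike p A) :
    ExtraLike p B where
  isPGroup := IsPGroup.of_equiv h.isPGroup φ
  card_center := by
    rw [← h.card_center]
    exact Nat.card_congr (Subgroup.centerCongr φ).toEquiv.symm
  comm_mem := by
    intro x y
    obtain ⟨a, rfl⟩ := φ.surjective x
    obtain ⟨b, rfl⟩ := φ.surjective y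
    rw [← map_commutatorElement]
    exact mem_center_of_equiv φ (h.comm_mem a b)
  pow_mem := by
    intro x
    obtain ⟨a, rfl⟩ := φ.surjective x
    rw [← map_pow]
    exact mem_center_of_equiv φ (h.pow_mem a)

end Aux

/-- For every odd prime p and every n ≥ 1 there is an extraspecial p-group of order p^(1+2n) and exponent p; concretely, the general linear group of degree n + 2 over the field with p elements contains such a subgroup. -/
theorem result (p : ℕ) [Fact p.Prime] (hp : p ≠ 2) (n : ℕ) (hn : 1 ≤ n) : ∃ E : Subgroup (Matrix.GeneralLinearGroup (Fin (n + 2)) (ZMod p)), Cfsg.IsExtraspecial p ↥E ∧ Nat.card E = p ^ (1 + 2 * n) ∧ ∀ x ∈ E, x ^ p = 1 := by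
  obtain ⟨f, hf⟩ := Heis.exists_embedding n p
  refine ⟨f.range, ?_, ?_, ?_⟩
  · let φ : Heis n p ≃* f.range := MonoidHom.ofInjective hf
    have hext := Heis.extraLike (n := n) hp hn
    apply Cfsg.Agent.Lib.PGroups.Special.ExtraLike.isExtraspecial (extraLike_of_equiv φ hext)
    intro hc
    apply Heis.not_comm (n := n) (p := p) hn
    constructor
    constructor
    intro x y
    apply φ.injective
    rw [map_mul, map_mul]
    exact hc.is_comm.comm _ _
  · rw [← Heis.card (n := n)]
    exact Nat.card_congr (MonoidHom.ofInjective hf).toEquiv.symm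
  · rintro _ ⟨u, rfl⟩
    rw [← map_pow, Heis.pow_p hp, map_one]

end Cfsg.Agent.S3799
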