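import Cfsg.Statements.S3950
import Cfsg.Agent.Lib.Schur.Heis
import Cfsg.Agent.Lib.Schur.Stem

set_option autoImplicit false
open Cfsg

namespace Cfsg.Agent.S3950

open Subgroup Cfsg.Agent.Lib.Schur.BiExt

private lemma isCyclic_pi_of_coprime {ι : Type*} [Fintype ι] [DecidableEq ι] (n : ι → ℕ) [∀ i, NeZero (n i)]
    (h : ∀ i j, i ≠ j → Nat.Coprime (n i) (n j)) :
    IsCyclic ((i : ι) → Multiplicative (ZMod (n i))) := by
  let g : (i : ι) → Multiplicative (ZMod (n i)) := fun _ => Multiplicative.ofAdd 1
  have hpow : ∀ k : ℕ, g ^ k = 1 ↔ ∀ i, n i ∣ k := by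
    intro k
    constructor
    · intro hk i
      have h1 := congrFun hk i
      have h2 : (Multiplicative.ofAdd (1 : ZMod (n i))) ^ k = 1 := h1
      rw [← ofAdd_nsmul, ofAdd_eq_one, nsmul_eq_mul, mul_one, ZMod.natCast_eq_zero_iff] at h2
      exact h2
    · intro hk
      funext i
      show (Multiplicative.ofAdd (1 : ZMod (n i))) ^ k = 1
      rw [← ofAdd_nsmul, ofAdd_eq_one, nsmul_eq_mul, mul_one, ZMod.natCast_eq_zero_iff]
      exact hk i
  have hcard : Nat.card ((i : ι) → Multiplicative (ZMod (n i))) = ∏ i, n i := by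
    rw [Nat.card_pi]
    apply Finset.prod_congr rfl
    intro i _
    rw [Nat.card_congr Multiplicative.toAdd, Nat.card_zmod]
  apply isCyclic_of_orderOf_eq_card g
  rw [hcard]
  apply Nat.dvd_antisymm
  · apply orderOf_dvd_of_pow_eq_one
    rw [hpow]
    intro i
    exact Finset.dvd_prod_of_mem n (Finset.mem_univ i)
  · apply Finset.prod_dvd_of_isRelPrime
    · intro i _ j _ hij
      exact Nat.coprime_iff_isRelPrime.1 (h i j hij)
    · intro i _
      exact (hpow _).1 (pow_orderOf_eq_one g) i

/-- A finite abelian group has trivial Schur multiplier if and only if it is cyclic. -/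
theorem result {G : Type*} [CommGroup G] [Finite G] : Cfsg.HasCyclicSchurMultiplier G 1 ↔ IsCyclic G := by
  constructor
  · intro hM
    by_contra hnc
    classical
    obtain ⟨ι, _, n, hn, ⟨e⟩⟩ := CommGroup.equiv_prod_multiplicative_zmod_of_finite G
    have hne : ∀ i, NeZero (n i) := fun i => ⟨by have := hn i; omega⟩
    have hex : ∃ i j, i ≠ j ∧ ¬ Nat.Coprime (n i) (n j) := by
      by_contra hcon
      push Not at hcon
      apply hnc
      have := isCyclic_pi_of_coprime n hcon
      exact isCyclic_of_surjective e.symm.toMonoidHom e.symm.surjective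
    obtain ⟨i, j, hij, hcop⟩ := hex
    obtain ⟨p, hp, hpi, hpj⟩ := Nat.Prime.not_coprime_iff_dvd.1 hcop
    have : Fact p.Prime := ⟨hp⟩
    let χ₁ : G → ZMod p := fun x => ZMod.castHom hpi (ZMod p) (Multiplicative.toAdd (e x i))
    let χ₂ : G → ZMod p := fun x => ZMod.castHom hpj (ZMod p) (Multiplicative.toAdd (e x j))
    have hχ₁ : ∀ x y, χ₁ (x * y) = χ₁ x + χ₁ y := by
      intro x y
      show ZMod.castHom hpi (ZMod p) (Multiplicative.toAdd ((e (x * y)) i)) = _
      rw [map_mul]
      show ZMod.castHom hpi (ZMod p) (Multiplicative.toAdd (e x i) + Multiplicative.toAdd (e y i)) = _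
      rw [map_add]
    have hχ₂ : ∀ x y, χ₂ (x * y) = χ₂ x + χ₂ y := by
      intro x y
      show ZMod.castHom hpj (ZMod p) (Multiplicative.toAdd ((e (x * y)) j)) = _
      rw [map_mul]
      show ZMod.castHom hpj (ZMod p) (Multiplicative.toAdd (e x j) + Multiplicative.toAdd (e y j)) = _
      rw [map_add]
    let c : Bichar G (ZMod p) :=
      { f := fun x y => χ₁ x * χ₂ y
        mul_left := fun a b d => by rw [hχ₁, add_mul]
        mul_right := fun a b d => by rw [hχ₂, mul_add] }
    let a : G := e.symm (Pi.mulSingle i (Multiplicative.ofAdd 1))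
    let b : G := e.symm (Pi.mulSingle j (Multiplicative.ofAdd 1))
    have hab : a * b = b * a := mul_comm a b
    have hχa1 : χ₁ a = 1 := by
      show ZMod.castHom hpi (ZMod p) (Multiplicative.toAdd ((e (e.symm _)) i)) = 1
      rw [e.apply_symm_apply, Pi.mulSingle_eq_same, toAdd_ofAdd, map_one]
    have hχa2 : χ₂ a = 0 := by
      show ZMod.castHom hpj (ZMod p) (Multiplicative.toAdd ((e (e.symm _)) j)) = 0
      rw [e.apply_symm_apply, Pi.mulSingle_eq_of_ne hij.symm, toAdd_one, map_zero]
    have hχb1 : χ₁ b = 0 := by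
      show ZMod.castHom hpi (ZMod p) (Multiplicative.toAdd ((e (e.symm _)) i)) = 0
      rw [e.apply_symm_apply, Pi.mulSingle_eq_of_ne hij, toAdd_one, map_zero]
    have hχb2 : χ₂ b = 1 := by
      show ZMod.castHom hpj (ZMod p) (Multiplicative.toAdd ((e (e.symm _)) j)) = 1
      rw [e.apply_symm_apply, Pi.mulSingle_eq_same, toAdd_ofAdd, map_one]
    have hΔ : c.f a b - c.f b a = 1 := by
      show χ₁ a * χ₂ b - χ₁ b * χ₂ a = 1
      rw [hχa1, hχa2, hχb1, hχb2]
      ring
    have hstem : IsStemExtension (Heis.proj c) := by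
      refine ⟨Heis.proj_surjective, ?_, ?_⟩
      · intro x hx
        have h1 : x = Heis.ofV c (Multiplicative.ofAdd x.snd) := by
          apply Heis.ext'
          · exact hx
          · rfl
        rw [h1]
        exact Heis.ofV_mem_center _
      · intro x hx
        have h1 : x = Heis.ofV c (Multiplicative.ofAdd x.snd) := by
          apply Heis.ext'
          · exact hx
          · rfl
        have h2 := Heis.ofV_mem_commutator (c := c) hab (x.snd.val : ℤ)
        have h3 : (x.snd.val : ℤ) • (c.f a b - c.f b a) = x.snd := by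
          rw [hΔ]
          simp
        rw [h3, ← h1] at h2
        exact h2
    obtain ⟨π, hπ⟩ := hM.2 (Heis c) (Heis.proj c) hstem
    have hsub : Subsingleton (Heis.proj c).ker := by
      refine ⟨fun x y => ?_⟩
      obtain ⟨u, rfl⟩ := hπ x
      obtain ⟨v, rfl⟩ := hπ y
      rw [Subsingleton.elim u v]
    have h0 : Heis.kerEquiv c (Multiplicative.ofAdd (1 : ZMod p)) = 1 := Subsingleton.elim _ _
    have h1 := (Heis.kerEquiv c).injective (h0.trans (map_one _).symm)
    have h2 : (1 : ZMod p) = 0 := Multiplicative.ofAdd.injective h1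
    exact one_ne_zero h2
  · intro hc
    apply Cfsg.Agent.Lib.Schur.Stem.hasCyclicSchurMultiplier_one
    exact Cfsg.Agent.Lib.Schur.Stem.StemBound.of_isCyclic

end Cfsg.Agent.S3950
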