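import Cfsg.Statements.S3951
import Cfsg.Agent.Lib.Schur.Heis
import Cfsg.Agent.Lib.Schur.Stem

set_option autoImplicit false
open Cfsg

namespace Cfsg.Agent.S3951

open Subgroup Cfsg.Agent.Lib.Schur.BiExt

/-- The cocycle. -/
private noncomputable def coc (m n : ℕ) (hnm : n ∣ m) :
    Bichar (Multiplicative (ZMod m × ZMod n)) (ZMod n) where
  f x y := (ZMod.castHom hnm (ZMod n)) (Multiplicative.toAdd x).1 * (Multiplicative.toAdd y).2
  mul_left a b d := by
    show (ZMod.castHom hnm (ZMod n)) ((Multiplicative.toAdd a).1 + (Multiplicative.toAdd b).1) * _ = _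
    rw [map_add, add_mul]
  mul_right a b d := by
    show _ * ((Multiplicative.toAdd b).2 + (Multiplicative.toAdd d).2) = _
    rw [mul_add]

private lemma decomp (m n : ℕ) [NeZero m] [NeZero n] (x : Multiplicative (ZMod m × ZMod n)) :
    x = (Multiplicative.ofAdd ((0, 1) : ZMod m × ZMod n)) ^ (Multiplicative.toAdd x).2.val *
      (Multiplicative.ofAdd ((1, 0) : ZMod m × ZMod n)) ^ (Multiplicative.toAdd x).1.val := by
  apply Multiplicative.toAdd.injective
  rw [toAdd_mul, toAdd_pow, toAdd_pow, toAdd_ofAdd, toAdd_ofAdd]
  apply Prod.ext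
  · simp
  · simp

/-- For positive integers `m` and `n` with `n` dividing `m`, the Schur multiplier of the abelian group `ZMod m × ZMod n` (written multiplicatively) is cyclic of order `n`. In particular the elementary abelian group of order `p ^ 2` has multiplier of order `p`. -/
theorem result (m n : ℕ) [NeZero m] [NeZero n] (hnm : n ∣ m) : Cfsg.HasCyclicSchurMultiplier (Multiplicative (ZMod m × ZMod n)) n := by
  let G := Multiplicative (ZMod m × ZMod n)
  let a : G := Multiplicative.ofAdd (0, 1)
  let b : G := Multiplicative.ofAdd (1, 0)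
  have hab : a * b = b * a := mul_comm a b
  constructor
  · let c := coc m n hnm
    refine ⟨Heis c, inferInstance, inferInstance, Heis.proj c, ⟨Heis.proj_surjective, ?_, ?_⟩,
      ⟨(Heis.kerEquiv c).symm⟩⟩
    · intro x hx
      have h1 : x = Heis.ofV c (Multiplicative.ofAdd x.snd) := by
        apply Heis.ext'
        · exact hx
        · rfl
      rw [h1]
      exact Heis.ofV_mem_center _
    · intro x hx
      have h1 : x = Heis.ofV c (Multiplicative.ofAdd x.snd) := by
        apply Heis.ext'
        · exact hx
        · rfl
      have h2 := Heis.ofV_mem_commutator (c := c) (a := b) (b := a) hab.symm (x.snd.val : ℤ)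
      have h3 : (x.snd.val : ℤ) • (c.f b a - c.f a b) = x.snd := by
        have h4 : c.f b a - c.f a b = 1 := by
          show (ZMod.castHom hnm (ZMod n)) (1 : ZMod m) * (1 : ZMod n)
            - (ZMod.castHom hnm (ZMod n)) (0 : ZMod m) * (0 : ZMod n) = 1
          rw [map_one, map_zero]
          ring
        rw [h4]
        simp
      rw [h3, ← h1] at h2
      exact h2
  · intro Γ _ _ f hf
    have hgen : Subgroup.closure ({a, b} : Set G) = ⊤ := by
      rw [eq_top_iff]
      intro x _
      have hx : x = a ^ (Multiplicative.toAdd x).2.val * b ^ (Multiplicative.toAdd x).1.val := decomp m n x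
      rw [hx]
      exact mul_mem (pow_mem (subset_closure (by simp)) _) (pow_mem (subset_closure (by simp)) _)
    obtain ⟨c₀, hc1, hc2, hker, -⟩ := Cfsg.Agent.Lib.Schur.Stem.metacyclic (r := 1) (m := n) hf hgen
      (by
        rw [zpow_one]
        exact mul_inv_eq_of_eq_mul (mul_comm b a))
      (by
        rw [zpow_natCast]
        apply Multiplicative.toAdd.injective
        apply Prod.ext
        · simp [a]
        · simp [a])
    have hc0 : c₀ ∈ f.ker := by
      rw [MonoidHom.mem_ker, hc1]
      simp
    rw [zpow_natCast] at hc2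
    exact exists_surj_of_pow_eq_one f.ker hc2 hc0 hker

end Cfsg.Agent.S3951
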