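import Cfsg.Statements.S3952
import Cfsg.Agent.Lib.Char.Complete
import Cfsg.Agent.Lib.Char.Central
import Mathlib

set_option autoImplicit false
open Cfsg

namespace Cfsg.Agent.S3952

open Subgroup Module
open scoped ComplexConjugate

/-- Data attached to an irreducible character on a central subgroup inside the commutator subgroup. -/
private theorem irr_data {Γ : Type*} [Group Γ] [Finite Γ] (Z : Subgroup Γ) (hZ : Z ≤ center Γ)
    (hZ' : Z ≤ commutator Γ) (χ : IrrCharacter Γ) :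
    ∃ (n : ℕ) (μ : Z → ℂˣ), (χ : Γ → ℂ) 1 = n ∧ (∀ z : Z, (χ : Γ → ℂ) z = n * (μ z : ℂ)) ∧
      (∀ a b, μ (a * b) = μ a * μ b) ∧ (∀ z, μ z ^ n = 1) := by
  obtain ⟨n, ρ, hirr, hchar⟩ := χ.2
  have hne : Nontrivial (Fin n → ℂ) :=
    Cfsg.Agent.Lib.Char.Complete.nontrivial_of_isIrreducible hirr
  have hch : ∀ g, (χ : Γ → ℂ) g = ρ.character g := fun g => by rw [hchar]
  have hfr : finrank ℂ (Fin n → ℂ) = n := by simp
  have hsc : ∀ z : Z, ∃ ω : ℂ, ρ z = ω • (1 : End ℂ (Fin n → ℂ)) := by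
    intro z
    have := hirr
    exact Cfsg.Agent.Lib.Char.Central.center_acts_scalar ρ z (hZ z.2)
  choose ω hω using hsc
  have h1 : ρ (1 : Γ) = 1 := map_one ρ
  have hid : (1 : End ℂ (Fin n → ℂ)) ≠ 0 := one_ne_zero
  have hωmul : ∀ a b : Z, ω (a * b) = ω a * ω b := by
    intro a b
    have h2 : ρ ((a * b : Z) : Γ) = ρ a * ρ b := map_mul ρ _ _
    rw [hω, hω, hω, smul_mul_smul_comm, one_mul] at h2
    exact smul_left_injective _ hid h2
  have hωone : ω 1 = 1 := by
    have h2 : ρ ((1 : Z) : Γ) = 1 := map_one ρ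
    rw [hω] at h2
    have h3 : ω 1 • (1 : End ℂ (Fin n → ℂ)) = (1 : ℂ) • 1 := by rw [h2, one_smul]
    exact smul_left_injective _ hid h3
  have hω0 : ∀ z, ω z ≠ 0 := by
    intro z h0
    have h2 : ω z * ω z⁻¹ = 1 := by rw [← hωmul, mul_inv_cancel, hωone]
    rw [h0, zero_mul] at h2
    exact zero_ne_one h2
  -- the determinant
  let D : Γ →* ℂˣ := (MonoidHom.comp (LinearMap.det : End ℂ (Fin n → ℂ) →* ℂ) ρ).toHomUnits
  have hD : ∀ z : Z, ω z ^ n = 1 := by
    intro z
    have h2 : D z = 1 := Abelianization.commutator_subset_ker D (hZ' z.2)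
    have h3 : ((D z : ℂˣ) : ℂ) = LinearMap.det (ρ z) := rfl
    rw [h2, hω, Units.val_one] at h3
    have h4 : LinearMap.det (ω z • (1 : End ℂ (Fin n → ℂ))) = ω z ^ n := by
      rw [LinearMap.det_smul, hfr, map_one, mul_one]
    rw [h4] at h3
    exact h3.symm
  refine ⟨n, fun z => Units.mk0 (ω z) (hω0 z), ?_, ?_, ?_, ?_⟩
  · rw [hch]
    show LinearMap.trace ℂ _ (ρ 1) = _
    rw [map_one, LinearMap.trace_one]
    simp
  · intro z
    rw [hch, Representation.character, hω]
    show LinearMap.trace ℂ _ (ω z • (1 : End ℂ (Fin n → ℂ))) = _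
    rw [map_smul, LinearMap.trace_one]
    simp [mul_comm]
  · intro a b
    apply Units.ext
    exact hωmul a b
  · intro z
    apply Units.ext
    simpa using hD z

/-- Orthogonality on a finite group: the sum of a multiplicative function with values in `ℂˣ`. -/
private theorem sum_char {Z : Type*} [Group Z] [Fintype Z] (ν : Z → ℂˣ)
    (hν : ∀ a b, ν (a * b) = ν a * ν b) :
    ∑ z, (ν z : ℂ) = if ∀ z, ν z = 1 then (Nat.card Z : ℂ) else 0 := by
  split_ifs with h
  · simp [h]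
  · push Not at h
    obtain ⟨z₀, hz₀⟩ := h
    have h1 : ∑ z, (ν z : ℂ) = (ν z₀ : ℂ) * ∑ z, (ν z : ℂ) := by
      rw [Finset.mul_sum]
      refine Fintype.sum_equiv (Equiv.mulLeft z₀⁻¹) _ _ ?_
      intro z
      have h5 : ν z = ν z₀ * ν (z₀⁻¹ * z) := by rw [← hν, mul_inv_cancel_left]
      show (ν z : ℂ) = (ν z₀ : ℂ) * (ν (z₀⁻¹ * z) : ℂ)
      rw [h5, Units.val_mul]
    have h2 : ((ν z₀ : ℂ) - 1) * ∑ z, (ν z : ℂ) = 0 := by
      rw [sub_mul, one_mul, ← h1, sub_self]
    rcases mul_eq_zero.1 h2 with h3 | h3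
    · exfalso
      apply hz₀
      apply Units.ext
      simpa [sub_eq_zero] using h3
    · exact h3

/-- If `A` is the Schur multiplier of the finite group `Q`, then the square of the exponent of `A` divides the order of `Q`. -/
theorem result {Q : Type*} [Group Q] [Finite Q] {A : Type*} [CommGroup A] (hA : Cfsg.HasSchurMultiplier Q A) : Monoid.exponent A ^ 2 ∣ Nat.card Q := by
  classical
  obtain ⟨⟨Γ, _, _, σ, hσ, ⟨ek⟩⟩, -⟩ := hA
  let _ : Fintype Γ := Fintype.ofFinite Γ
  have := Cfsg.Agent.Lib.Char.Ortho.finite_irrCharacter (G := Γ)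
  let _ : Fintype (IrrCharacter Γ) := Fintype.ofFinite _
  let Z := σ.ker
  let _ : Fintype Z := Fintype.ofFinite Z
  have hfinA : Finite A := Finite.of_equiv _ ek.toEquiv
  choose n μ hn hμ hμmul hμpow using irr_data Z hσ.2.1 hσ.2.2
  -- a character of maximal order
  obtain ⟨x, hx⟩ : ∃ x : A, orderOf x = Monoid.exponent A :=
    Monoid.exists_orderOf_eq_exponent Monoid.ExponentExists.of_finite
  obtain ⟨e'⟩ := CommGroup.monoidHom_mulEquiv_of_hasEnoughRootsOfUnity A ℂ
  let lam₀ : A →* ℂˣ := e'.symm x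
  have hlam₀ : orderOf lam₀ = Monoid.exponent A := by
    rw [← hx]
    exact MulEquiv.orderOf_eq e'.symm x
  let lam : Z → ℂˣ := fun z => lam₀ (ek z)
  have hlammul : ∀ a b, lam (a * b) = lam a * lam b := fun a b => by
    show lam₀ (ek (a * b)) = _
    rw [map_mul, map_mul]
  have hdiv : ∀ χ : IrrCharacter Γ, (∀ z, μ χ z = lam z) → Monoid.exponent A ∣ n χ := by
    intro χ h
    rw [← hlam₀]
    apply orderOf_dvd_of_pow_eq_one
    ext a
    obtain ⟨z, rfl⟩ := ek.surjective a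
    have h1 := hμpow χ z
    rw [h z] at h1
    simpa using congrArg Units.val h1
  -- column orthogonality
  have hcol : ∀ z : Z, ∑ χ : IrrCharacter Γ, (χ : Γ → ℂ) z * conj ((χ : Γ → ℂ) 1)
      = if z = 1 then (Nat.card Γ : ℂ) else 0 := by
    intro z
    rw [Cfsg.Agent.Lib.Char.Complete.sum_irr_mul_conj]
    by_cases hz : z = 1
    · subst hz
      rw [if_pos rfl]
      have h1 : IsConj (((1 : Z) : Γ)) (1 : Γ) := IsConj.refl _
      rw [if_pos h1]
      have h2 : Nat.card (Subgroup.centralizer ({1} : Set Γ)) = Nat.card Γ := by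
        rw [Subgroup.centralizer_eq_top_iff_subset.mpr
          (Set.singleton_subset_iff.mpr (one_mem (Subgroup.center Γ)))]
        exact Nat.card_congr Subgroup.topEquiv.toEquiv
      rw [h2]
    · rw [if_neg hz]
      have h1 : ¬ IsConj (z : Γ) (1 : Γ) := by
        intro h2
        exact hz (Subtype.ext (isConj_one_right.1 h2.symm))
      rw [if_neg h1]
  have hsum : ∑ z : Z, ((lam z)⁻¹ : ℂˣ).val * ∑ χ : IrrCharacter Γ, (χ : Γ → ℂ) z * conj ((χ : Γ → ℂ) 1)
      = (Nat.card Γ : ℂ) := by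
    simp_rw [hcol]
    rw [Finset.sum_eq_single (1 : Z)]
    · rw [if_pos rfl]
      have : lam 1 = 1 := by
        show lam₀ (ek 1) = 1
        rw [map_one, map_one]
      rw [this]
      simp
    · intro b _ hb
      rw [if_neg hb, mul_zero]
    · intro h
      exact absurd (Finset.mem_univ _) h
  have hswap : ∑ z : Z, ((lam z)⁻¹ : ℂˣ).val * ∑ χ : IrrCharacter Γ, (χ : Γ → ℂ) z * conj ((χ : Γ → ℂ) 1)
      = ∑ χ : IrrCharacter Γ, ((n χ : ℂ) * (n χ : ℂ)) * ∑ z : Z, ((μ χ z * (lam z)⁻¹ : ℂˣ) : ℂ) := by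
    simp_rw [Finset.mul_sum]
    rw [Finset.sum_comm]
    refine Finset.sum_congr rfl fun χ _ => Finset.sum_congr rfl fun z _ => ?_
    rw [hμ χ z, hn χ, map_natCast, Units.val_mul]
    ring
  have hchar : ∀ χ : IrrCharacter Γ, ∑ z : Z, ((μ χ z * (lam z)⁻¹ : ℂˣ) : ℂ)
      = if ∀ z, μ χ z = lam z then (Nat.card Z : ℂ) else 0 := by
    intro χ
    rw [sum_char (fun z => μ χ z * (lam z)⁻¹) (fun a b => by
      rw [hμmul, hlammul, mul_inv]
      exact mul_mul_mul_comm _ _ _ _)]
    simp only [mul_inv_eq_one]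
  -- the numerical identity
  let S : ℕ := ∑ χ : IrrCharacter Γ, if ∀ z, μ χ z = lam z then n χ * n χ else 0
  have hS : (Nat.card Γ : ℂ) = (Nat.card Z : ℂ) * (S : ℂ) := by
    rw [← hsum, hswap]
    simp only [S]
    rw [Nat.cast_sum, Finset.mul_sum]
    refine Finset.sum_congr rfl fun χ _ => ?_
    rw [hchar χ]
    split_ifs with h
    · push_cast
      ring
    · simp
  have hS' : Nat.card Γ = Nat.card Z * S := by exact_mod_cast hS
  have hcardΓ : Nat.card Γ = Nat.card Q * Nat.card Z := by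
    rw [Subgroup.card_eq_card_quotient_mul_card_subgroup σ.ker,
      Nat.card_congr (QuotientGroup.quotientKerEquivOfSurjective σ hσ.1).toEquiv]
  have hZpos : 0 < Nat.card Z := Nat.card_pos
  have hQS : Nat.card Q = S := by
    have : Nat.card Q * Nat.card Z = S * Nat.card Z := by
      rw [← hcardΓ, hS', mul_comm]
    exact Nat.eq_of_mul_eq_mul_right hZpos this
  rw [hQS]
  apply Finset.dvd_sum
  intro χ _
  split_ifs with h
  · have := hdiv χ h
    rw [pow_two]
    exact mul_dvd_mul this this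
  · exact dvd_zero _

end Cfsg.Agent.S3952
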