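import Cfsg.Statements.S3953
import Cfsg.Agent.Lib.Schur.Transfer
import Cfsg.Agent.Lib.Schur.Stem

set_option autoImplicit false
open Cfsg

namespace Cfsg.Agent.S3953

open Subgroup Cfsg.Agent.Lib.Schur.Hopf Cfsg.Agent.Lib.Schur.Transfer

/-- The kernel of a stem extension of a finite group `T` has exponent dividing `|T|`. -/
private theorem pow_card_eq_one {Γ T : Type*} [Group Γ] [Group T] [Finite T] (σ : Γ →* T)
    (hσ : IsStemExtension σ) (z : Γ) (hz : z ∈ σ.ker) : z ^ Nat.card T = 1 := by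
  have hidx : σ.ker.index = Nat.card T := by
    rw [Subgroup.index_ker, MonoidHom.range_eq_top_of_surjective σ hσ.1]
    exact Nat.card_congr (Equiv.Set.univ T)
  have : σ.ker.FiniteIndex := ⟨by
    rw [hidx]
    exact Nat.card_pos.ne'⟩
  have h1 := Cfsg.Agent.Lib.Schur.Stem.pow_index_mem_commutator σ.ker (hσ.2.1 hz) (hσ.2.2 hz)
  have h2 : commutator σ.ker = ⊥ := by
    rw [commutator_eq_bot_iff_center_eq_top, eq_top_iff]
    intro x _
    rw [mem_center_iff]
    intro y
    apply Subtype.ext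
    exact (mem_center_iff.1 (hσ.2.1 x.2) (y : Γ))
  rw [h2, Subgroup.map_bot, Subgroup.mem_bot, hidx] at h1
  exact h1

/-- Let `P` be a Sylow `p`-subgroup of the finite group `G`, let `A` be the Schur multiplier of `G` and `B` that of `P`. Then the `p`-primary component of `A` is isomorphic to a direct factor of `B`: there are subgroups `C` and `D` of `B` meeting trivially and generating `B`, with `C` isomorphic to the `p`-primary component of `A`. -/
theorem result {G : Type*} [Group G] [Finite G] (p : ℕ) [Fact p.Prime] (P : Sylow p G) {A B : Type*} [CommGroup A] [CommGroup B] (hA : Cfsg.HasSchurMultiplier G A) (hB : Cfsg.HasSchurMultiplier P B) : ∃ C D : Subgroup B, C ⊓ D = ⊥ ∧ C ⊔ D = ⊤ ∧ Nonempty (CommGroup.primaryComponent A p ≃* C) := by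
  obtain ⟨θ, ι, h⟩ := exists_transfer_pair (P : Subgroup G) hA hB
  have hpp : p.Prime := Fact.out
  set m := (P : Subgroup G).index with hm
  have hcop : Nat.Coprime p m := (Nat.Prime.coprime_iff_not_dvd hpp).2 P.not_dvd_index
  -- the elements of `B` are `p`-elements
  obtain ⟨k, hk⟩ := IsPGroup.iff_card.1 P.isPGroup'
  have hBp : ∀ b : B, b ^ p ^ k = 1 := by
    obtain ⟨⟨Γ, _, _, σ, hσ, ⟨e⟩⟩, _⟩ := hB
    intro b
    have := pow_card_eq_one σ hσ (e.symm b : Γ) (e.symm b).2
    rw [hk] at this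
    have h2 : e.symm b ^ p ^ k = 1 := Subtype.ext this
    have h3 := congrArg e h2
    simpa using h3
  have hAp : ∀ a : A, a ∈ CommGroup.primaryComponent A p ↔ ∃ n, orderOf a = p ^ n := by
    intro a
    exact CommMonoid.mem_primaryComponent_iff_orderOf
  have hpowinj : ∀ a ∈ CommGroup.primaryComponent A p, a ^ m = 1 → a = 1 := by
    intro a ha h1
    obtain ⟨n, hn⟩ := (hAp a).1 ha
    have h2 := orderOf_dvd_of_pow_eq_one h1
    rw [hn] at h2
    have h3 : Nat.Coprime (p ^ n) m := Nat.Coprime.pow_left n hcop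
    have h4 : p ^ n = 1 := Nat.Coprime.eq_one_of_dvd h3 h2
    rw [← orderOf_eq_one_iff, hn, h4]
  refine ⟨(CommGroup.primaryComponent A p).map θ, ι.ker, ?_, ?_, ?_⟩
  · rw [eq_bot_iff]
    rintro x ⟨⟨a, ha, rfl⟩, hd⟩
    have h1 : ι (θ a) = 1 := hd
    rw [h] at h1
    rw [Subgroup.mem_bot, hpowinj a ha h1, map_one]
  · rw [eq_top_iff]
    intro b _
    by_cases hb : ι b = 1
    · exact Subgroup.mem_sup_right hb
    have hord : ∃ n, orderOf (ι b) = p ^ n := by
      have h1 : (ι b) ^ p ^ k = 1 := by rw [← map_pow, hBp, map_one]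
      obtain ⟨n, _, hn⟩ := (Nat.dvd_prime_pow hpp).1 (orderOf_dvd_of_pow_eq_one h1)
      exact ⟨n, hn⟩
    obtain ⟨n, hn⟩ := hord
    have hgt : 1 < orderOf (ι b) := by
      have h0 : 0 < orderOf (ι b) := by rw [hn]; exact pow_pos hpp.pos n
      have h1 : orderOf (ι b) ≠ 1 := fun h2 => hb (orderOf_eq_one_iff.1 h2)
      omega
    have hc2 : Nat.Coprime m (orderOf (ι b)) := by
      rw [hn]
      exact (Nat.Coprime.pow_left n hcop).symm
    obtain ⟨t, -, ht⟩ := Nat.exists_mul_mod_eq_one_of_coprime hc2 hgt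
    let a := (ι b) ^ t
    have ha1 : a ^ m = ι b := by
      rw [← pow_mul]
      have := pow_mod_orderOf (ι b) (t * m)
      rw [mul_comm t m, ht, pow_one] at this
      rw [mul_comm t m]
      exact this.symm
    have ha2 : a ∈ CommGroup.primaryComponent A p :=
      (CommGroup.primaryComponent A p).pow_mem ((hAp _).2 ⟨n, hn⟩) t
    have hb2 : (θ a)⁻¹ * b ∈ ι.ker := by
      rw [MonoidHom.mem_ker, map_mul, map_inv, h, ha1, inv_mul_cancel]
    have e1 : b = θ a * ((θ a)⁻¹ * b) := by group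
    rw [e1]
    exact Subgroup.mul_mem_sup (Subgroup.mem_map_of_mem θ ha2) hb2
  · refine ⟨MulEquiv.ofBijective (θ.subgroupMap _) ⟨?_, θ.subgroupMap_surjective _⟩⟩
    rw [injective_iff_map_eq_one]
    rintro ⟨a, ha⟩ h1
    have h2 : θ a = 1 := congrArg Subtype.val h1
    have h3 : a ^ m = 1 := by
      rw [← h, h2, map_one]
    exact Subtype.ext (hpowinj a ha h3)

end Cfsg.Agent.S3953
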