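import Cfsg.Statements.S3954
import Cfsg.Agent.Lib.Schur.Transfer

set_option autoImplicit false
open Cfsg

namespace Cfsg.Agent.S3954

open Subgroup Cfsg.Agent.Lib.Schur.Hopf Cfsg.Agent.Lib.Schur.Transfer

/-- Let `U` be a subgroup of index `m` in the finite group `G`, let `A` be the Schur multiplier of `G` and `B` that of `U`. Then the subgroup of `m`-th powers of `A` is isomorphic to a subgroup of `B`. -/
theorem result {G : Type*} [Group G] [Finite G] (U : Subgroup G) {A B : Type*} [CommGroup A] [CommGroup B] (hA : Cfsg.HasSchurMultiplier G A) (hB : Cfsg.HasSchurMultiplier U B) : ∃ C : Subgroup B, Nonempty ((powMonoidHom U.index : A →* A).range ≃* C) := by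
  obtain ⟨θ, ι, h⟩ := exists_transfer_pair U hA hB
  obtain ⟨⟨Γ, _, _, σ, _, ⟨e⟩⟩, _⟩ := hB
  have hfinB : Finite B := Finite.of_equiv _ e.toEquiv
  let X : Subgroup B := θ.range
  have hmem : ∀ x : X, ι x ∈ (powMonoidHom U.index : A →* A).range := by
    rintro ⟨_, a, rfl⟩
    exact ⟨a, (h a).symm⟩
  let f : X →* (powMonoidHom U.index : A →* A).range :=
    (ι.comp X.subtype).codRestrict _ hmem
  have hf : Function.Surjective f := by
    rintro ⟨_, a, rfl⟩
    exact ⟨⟨θ a, a, rfl⟩, Subtype.ext (h a)⟩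
  obtain ⟨g, hg⟩ := exists_injective_of_surjective f hf
  have hinj : Function.Injective (X.subtype.comp g) := X.subtype_injective.comp hg
  exact ⟨(X.subtype.comp g).range, ⟨MonoidHom.ofInjective hinj⟩⟩

end Cfsg.Agent.S3954
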