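import Cfsg.Statements.S3955
import Cfsg.Agent.Lib.Schur.Proj

set_option autoImplicit false
open Cfsg

namespace Cfsg.Agent.S3955

open Subgroup Cfsg.Agent.Lib.Schur.Hopf Cfsg.Agent.Lib.Schur.Proj
open scoped MatrixGroups

/-- Let `Q` be a finite group with Schur multiplier `A`, and let `σ : Γ →* Q` be a finite stem extension whose kernel is isomorphic to `A` (a Schur covering group of `Q`). Then every homomorphism `γ` from `Q` to the quotient of `GL n ℂ` by its centre lifts along `σ`: there is a homomorphism `ρ : Γ →* GL n ℂ` which, followed by the quotient map, equals `γ ∘ σ`. -/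
theorem result {Q : Type*} [Group Q] [Finite Q] {A : Type*} [CommGroup A] (hA : Cfsg.HasSchurMultiplier Q A) {Γ : Type*} [Group Γ] [Finite Γ] (σ : Γ →* Q) (hσ : Cfsg.IsStemExtension σ) (hk : Nonempty (σ.ker ≃* A)) (n : ℕ) (γ : Q →* (GL (Fin n) ℂ ⧸ Subgroup.center (GL (Fin n) ℂ))) : ∃ ρ : Γ →* GL (Fin n) ℂ, (QuotientGroup.mk' (Subgroup.center (GL (Fin n) ℂ))).comp ρ = γ.comp σ := by
  let π₀ := freePres Q
  have hπ₀ : Function.Surjective π₀ := freePres_surjective Q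
  obtain ⟨eA⟩ := nonempty_equiv_of_hasSchur hπ₀ hA
  obtain ⟨ek⟩ := hk
  obtain ⟨ψ, hψ, hψs, hψM⟩ := exists_map_of_stem hπ₀ σ hσ
  have hσψ : ∀ x, σ (ψ x) = hopfP π₀ x := fun x => by rw [← hψ]; rfl
  have hfinM := finite_hopfM (π := π₀) hπ₀
  -- `ψ` is injective on `M`
  have hinj : ψ.ker ⊓ hopfM π₀ = ⊥ := by
    let g : hopfM π₀ →* σ.ker := (ψ.comp (hopfM π₀).subtype).codRestrict σ.ker (fun x => by
      rw [← hψM]
      exact Subgroup.mem_map_of_mem ψ x.2)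
    have hgs : Function.Surjective g := by
      rintro ⟨k, hk⟩
      rw [← hψM] at hk
      obtain ⟨x, hx, rfl⟩ := hk
      exact ⟨⟨x, hx⟩, rfl⟩
    have hcard : Nat.card (hopfM π₀) = Nat.card σ.ker := by
      rw [Nat.card_congr eA.toEquiv.symm, Nat.card_congr ek.toEquiv]
    have hfink : Finite σ.ker := inferInstance
    have hgb : Function.Bijective g := (Nat.bijective_iff_surjective_and_card g).2 ⟨hgs, hcard⟩
    rw [eq_bot_iff]
    rintro x ⟨hx1, hx2⟩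
    have h1 : g ⟨x, hx2⟩ = 1 := by
      apply Subtype.ext
      exact hx1
    have h2 := (injective_iff_map_eq_one g).1 hgb.1 _ h1
    exact congrArg Subtype.val h2
  have hSle : ψ.ker ≤ (hopfP π₀).ker := by
    intro x hx
    rw [MonoidHom.mem_ker, ← hσψ, hx, map_one]
  -- the lift to `GL`
  have hmk : Function.Surjective (QuotientGroup.mk' (center (GL (Fin n) ℂ))) :=
    QuotientGroup.mk'_surjective _
  have hmkc : (QuotientGroup.mk' (center (GL (Fin n) ℂ))).ker ≤ center (GL (Fin n) ℂ) := by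
    rw [QuotientGroup.ker_mk']
  obtain ⟨ρ₀, hρ₀⟩ := exists_lift_comp _ hmk hmkc π₀ γ
  have hρ₀' : ∀ x, (QuotientGroup.mk' (center (GL (Fin n) ℂ))) (ρ₀ x) = γ (hopfP π₀ x) := fun x => by
    have := congrArg (fun f => f x) hρ₀
    simpa using this
  -- central character on the kernel of `ψ`
  have hcen : ∀ s : ψ.ker, ρ₀ s ∈ center (GL (Fin n) ℂ) := by
    intro s
    have h1 : (QuotientGroup.mk' (center (GL (Fin n) ℂ))) (ρ₀ s) = 1 := by
      rw [hρ₀']
      have : hopfP π₀ (s : HopfN π₀) = 1 := hSle s.2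
      rw [this, map_one]
    exact (QuotientGroup.eq_one_iff _).1 h1
  let χ : ψ.ker →* center (GL (Fin n) ℂ) :=
    (ρ₀.comp ψ.ker.subtype).codRestrict _ hcen
  -- injectivity into the abelianization
  have hKcomm : ∀ a b : ψ.ker, a * b = b * a := by
    intro a b
    apply Subtype.ext
    exact (mem_center_iff.1 (ker_hopfP_le_center π₀ (hSle a.2)) (b : HopfN π₀)).symm
  let _ : CommGroup ψ.ker := { (inferInstance : Group ψ.ker) with mul_comm := hKcomm }
  let f : ψ.ker →* Abelianization (FreeGroup Q) := (hopfQ π₀).comp ψ.ker.subtype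
  have hf : Function.Injective f := by
    rw [injective_iff_map_eq_one]
    rintro ⟨x, hx⟩ h1
    have h2 : x ∈ (hopfQ π₀).ker := h1
    rw [ker_hopfQ] at h2
    have h3 : x ∈ ψ.ker ⊓ hopfM π₀ :=
      Subgroup.mem_inf.2 ⟨hx, Subgroup.mem_inf.2 ⟨hSle hx, h2⟩⟩
    rw [hinj, Subgroup.mem_bot] at h3
    exact Subtype.ext h3
  let _ : CommGroup (center (GL (Fin n) ℂ)) :=
    { (inferInstance : Group (center (GL (Fin n) ℂ))) with
      mul_comm := fun a b => Subtype.ext (mem_center_iff.1 b.2 (a : GL (Fin n) ℂ)) }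
  obtain ⟨h, hh⟩ := exists_ext_of_divisible (Z := center (GL (Fin n) ℂ)) (center_gl_divisible n) f hf χ
  let lam : HopfN π₀ →* center (GL (Fin n) ℂ) := h.comp (hopfQ π₀)
  have hlam : ∀ s : ψ.ker, ((lam s : center (GL (Fin n) ℂ)) : GL (Fin n) ℂ) = ρ₀ s := by
    intro s
    exact congrArg Subtype.val (hh s)
  -- the corrected representation
  have hcomm : ∀ (x : HopfN π₀) (g : GL (Fin n) ℂ), g * (lam x : GL (Fin n) ℂ) = (lam x : GL (Fin n) ℂ) * g :=
    fun x g => (mem_center_iff.1 (lam x).2 g)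
  let ρ₁ : HopfN π₀ →* GL (Fin n) ℂ := MonoidHom.mk' (fun x => ρ₀ x * ((lam x : GL (Fin n) ℂ))⁻¹) (by
    intro a b
    simp only [map_mul, Subgroup.coe_mul, mul_inv_rev]
    have h1 : ∀ g, g * ((lam a : GL (Fin n) ℂ))⁻¹ = ((lam a : GL (Fin n) ℂ))⁻¹ * g := by
      intro g
      have := (mem_center_iff.1 (inv_mem (lam a).2) g)
      exact this
    calc ρ₀ a * ρ₀ b * ((lam b : GL (Fin n) ℂ)⁻¹ * (lam a : GL (Fin n) ℂ)⁻¹)
        = ρ₀ a * (ρ₀ b * (lam b : GL (Fin n) ℂ)⁻¹) * (lam a : GL (Fin n) ℂ)⁻¹ := by group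
      _ = ρ₀ a * ((lam a : GL (Fin n) ℂ)⁻¹ * (ρ₀ b * (lam b : GL (Fin n) ℂ)⁻¹)) := by
          rw [mul_assoc, h1 (ρ₀ b * (lam b : GL (Fin n) ℂ)⁻¹)]
      _ = _ := by group)
  have hker : ψ.ker ≤ ρ₁.ker := by
    intro s hs
    rw [MonoidHom.mem_ker]
    show ρ₀ s * ((lam s : GL (Fin n) ℂ))⁻¹ = 1
    rw [hlam ⟨s, hs⟩, mul_inv_cancel]
  let ρ : Γ →* GL (Fin n) ℂ := ψ.liftOfSurjective hψs ⟨ρ₁, hker⟩
  have hρ : ∀ x, ρ (ψ x) = ρ₁ x := fun x => by
    exact MonoidHom.liftOfRightInverse_comp_apply _ _ _ _ x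
  refine ⟨ρ, ?_⟩
  apply MonoidHom.ext
  intro g
  obtain ⟨x, rfl⟩ := hψs g
  show (QuotientGroup.mk' (center (GL (Fin n) ℂ))) (ρ (ψ x)) = γ (σ (ψ x))
  rw [hρ, hσψ, ← hρ₀']
  show (QuotientGroup.mk' (center (GL (Fin n) ℂ))) (ρ₀ x * ((lam x : GL (Fin n) ℂ))⁻¹) = _
  rw [map_mul, map_inv]
  have : (QuotientGroup.mk' (center (GL (Fin n) ℂ))) ((lam x : GL (Fin n) ℂ)) = 1 :=
    (QuotientGroup.eq_one_iff _).2 (lam x).2
  rw [this, inv_one, mul_one]

end Cfsg.Agent.S3955
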