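import Cfsg.Statements.S3956
import Cfsg.Agent.Lib.Schur.Proj

universe u v
set_option autoImplicit false
open Cfsg

namespace Cfsg.Agent.S3956

open Subgroup Cfsg.Agent.Lib.Schur.Hopf Cfsg.Agent.Lib.Schur.Proj
open scoped MatrixGroups commutatorElement

/-- Let `σ : Γ →* Q` be a finite stem extension of the finite group `Q` such that every homomorphism from `Q` to the quotient of `GL n ℂ` by its centre, for every `n`, lifts along `σ` to a homomorphism `Γ →* GL n ℂ`. Then `σ` is a Schur covering group of `Q`: for every finite stem extension `τ : Δ →* Q` with `Δ` in the same universe as `Q`, the kernel of `τ` is a homomorphic image of the kernel of `σ`. -/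
theorem result {Q : Type u} [Group Q] [Finite Q] {Γ : Type v} [Group Γ] [Finite Γ] (σ : Γ →* Q) (hσ : Cfsg.IsStemExtension σ) (hlift : ∀ (n : ℕ) (γ : Q →* (GL (Fin n) ℂ ⧸ Subgroup.center (GL (Fin n) ℂ))), ∃ ρ : Γ →* GL (Fin n) ℂ, (QuotientGroup.mk' (Subgroup.center (GL (Fin n) ℂ))).comp ρ = γ.comp σ) (Δ : Type u) [Group Δ] [Finite Δ] (τ : Δ →* Q) (hτ : Cfsg.IsStemExtension τ) : ∃ π : σ.ker →* τ.ker, Function.Surjective π := by
  let π₀ := freePres Q
  have hπ₀ : Function.Surjective π₀ := freePres_surjective Q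
  obtain ⟨ψ, hψ, hψs, hψM⟩ := exists_map_of_stem hπ₀ σ hσ
  obtain ⟨φ, hφ, hφs, hφM⟩ := exists_map_of_stem hπ₀ τ hτ
  have hσψ : ∀ x, σ (ψ x) = hopfP π₀ x := fun x => by rw [← hψ]; rfl
  have hτφ : ∀ x, τ (φ x) = hopfP π₀ x := fun x => by rw [← hφ]; rfl
  -- the main claim
  have hclaim : ∀ m ∈ hopfM π₀, ψ m = 1 → φ m = 1 := by
    intro m hm hψm
    by_contra hne
    have hmk : φ m ∈ τ.ker := by
      rw [← hφM]
      exact Subgroup.mem_map_of_mem φ hm
    -- a character of `ker τ` that does not kill `φ m`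
    have hcomm : ∀ a b : τ.ker, a * b = b * a := fun a b =>
      Subtype.ext (mem_center_iff.1 (hτ.2.1 b.2) (a : Δ))
    let _ : CommGroup τ.ker := { (inferInstance : Group τ.ker) with mul_comm := hcomm }
    obtain ⟨lam, hlam⟩ : ∃ lam : τ.ker →* ℂˣ, lam ⟨φ m, hmk⟩ ≠ 1 := by
      apply CommGroup.exists_apply_ne_one_of_hasEnoughRootsOfUnity
      intro h
      exact hne (congrArg Subtype.val h)
    obtain ⟨k, ρ', hk, hρ'⟩ := exists_rep_of_central_char τ.ker hτ.2.1 lam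
    have hk' : Nonempty (Fin k) := ⟨⟨0, hk⟩⟩
    -- the projective representation
    let mk := QuotientGroup.mk' (center (GL (Fin k) ℂ))
    have hscal : ∀ u : ℂˣ, Matrix.GeneralLinearGroup.scalar (Fin k) u ∈ center (GL (Fin k) ℂ) := by
      intro u
      rw [Matrix.GeneralLinearGroup.center_eq_range_scalar]
      exact ⟨u, rfl⟩
    have hle : τ.ker ≤ (mk.comp ρ').ker := by
      intro b hb
      rw [MonoidHom.mem_ker]
      show mk (ρ' b) = 1
      rw [show ρ' b = _ from hρ' ⟨b, hb⟩]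
      exact (QuotientGroup.eq_one_iff _).2 (hscal _)
    let γ : Q →* (GL (Fin k) ℂ ⧸ center (GL (Fin k) ℂ)) := τ.liftOfSurjective hτ.1 ⟨mk.comp ρ', hle⟩
    have hγ : ∀ x, γ (τ x) = mk (ρ' x) := fun x =>
      MonoidHom.liftOfRightInverse_comp_apply _ _ _ _ x
    obtain ⟨ρ, hρ⟩ := hlift k γ
    have hρ2 : ∀ g, mk (ρ g) = γ (σ g) := fun g => congrArg (fun f => f g) hρ
    -- the difference is a central character of `HopfN`
    have hcent : ∀ n, (ρ (ψ n))⁻¹ * ρ' (φ n) ∈ center (GL (Fin k) ℂ) := by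
      intro n
      apply (QuotientGroup.eq_one_iff _).1
      show mk ((ρ (ψ n))⁻¹ * ρ' (φ n)) = 1
      rw [map_mul, map_inv, hρ2, ← hγ, hσψ, hτφ, inv_mul_cancel]
    have heq : ∀ n ∈ commutator (HopfN π₀), ρ (ψ n) = ρ' (φ n) := by
      intro n hn
      have hle2 : commutator (HopfN π₀) ≤ MonoidHom.eqLocus (ρ.comp ψ) (ρ'.comp φ) := by
        rw [_root_.commutator_def, Subgroup.commutator_le]
        intro a _ b _
        show (ρ.comp ψ) ⁅a, b⁆ = (ρ'.comp φ) ⁅a, b⁆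
        rw [map_commutatorElement, map_commutatorElement]
        have ea : (ρ'.comp φ) a = (ρ.comp ψ) a * ((ρ (ψ a))⁻¹ * ρ' (φ a)) := by
          simp
        have eb : (ρ'.comp φ) b = (ρ.comp ψ) b * ((ρ (ψ b))⁻¹ * ρ' (φ b)) := by
          simp
        rw [ea, eb, comm_mul_left_center (hcent a), comm_mul_right_center (hcent b)]
      exact hle2 hn
    have h1 := heq m ((Subgroup.mem_inf.1 hm).2)
    rw [hψm, map_one] at h1
    have h2 : ρ' (φ m) = Matrix.GeneralLinearGroup.scalar (Fin k) (lam ⟨φ m, hmk⟩) := hρ' ⟨φ m, hmk⟩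
    rw [h2] at h1
    apply hlam
    apply Units.ext
    have h3 := congrArg (fun (g : GL (Fin k) ℂ) => (g : Matrix (Fin k) (Fin k) ℂ) ⟨0, hk⟩ ⟨0, hk⟩) h1
    simpa [Matrix.GeneralLinearGroup.coe_scalar] using h3.symm
  -- the map of kernels
  have hex : ∀ a : σ.ker, ∃ m : hopfM π₀, ψ m = a := by
    rintro ⟨a, ha⟩
    rw [← hψM] at ha
    obtain ⟨m, hm, rfl⟩ := ha
    exact ⟨⟨m, hm⟩, rfl⟩
  choose r hr using hex
  have hwd : ∀ m m' : hopfM π₀, ψ m = ψ m' → φ m = φ m' := by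
    intro m m' h
    have h1 : ψ ((m * m'⁻¹ : hopfM π₀) : HopfN π₀) = 1 := by
      simp [h]
    have h2 := hclaim _ (m * m'⁻¹ : hopfM π₀).2 h1
    simp only [Subgroup.coe_mul, Subgroup.coe_inv, map_mul, map_inv] at h2
    exact mul_inv_eq_one.1 h2
  have hmem : ∀ a : σ.ker, φ (r a) ∈ τ.ker := by
    intro a
    rw [← hφM]
    exact Subgroup.mem_map_of_mem φ (r a).2
  refine ⟨MonoidHom.mk' (fun a => ⟨φ (r a), hmem a⟩) ?_, ?_⟩
  · intro a b
    apply Subtype.ext
    show φ (r (a * b)) = φ (r a) * φ (r b)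
    rw [← map_mul]
    apply hwd (r (a * b)) (r a * r b)
    rw [hr]
    simp [hr]
  · rintro ⟨b, hb⟩
    rw [← hφM] at hb
    obtain ⟨m, hm, rfl⟩ := hb
    have hm1 : ψ m ∈ σ.ker := by
      rw [← hψM]
      exact Subgroup.mem_map_of_mem ψ hm
    refine ⟨⟨ψ m, hm1⟩, ?_⟩
    apply Subtype.ext
    exact hwd (r ⟨ψ m, hm1⟩) ⟨m, hm⟩ (hr _)

end Cfsg.Agent.S3956
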