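import Cfsg.Statements.S3957
import Cfsg.Agent.Lib.Schur.Hopf

universe u v
set_option autoImplicit false
open Cfsg

namespace Cfsg.Agent.S3957

open Subgroup Cfsg.Agent.Lib.Schur.Hopf

/-- Let `Q` be a finite group with Schur multiplier `A` and let `τ : Δ →* Q` be a finite stem extension, `Δ` in the universe of `Q`. Then there is a finite stem extension `σ : Γ →* Q` with kernel isomorphic to `A` (a Schur covering group) and a surjective homomorphism `β : Γ →* Δ` with `τ ∘ β = σ`. -/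
theorem result {Q : Type u} [Group Q] [Finite Q] {A : Type v} [CommGroup A] (hA : Cfsg.HasSchurMultiplier Q A) {Δ : Type u} [Group Δ] [Finite Δ] (τ : Δ →* Q) (hτ : Cfsg.IsStemExtension τ) : ∃ (Γ : Type u) (_ : Group Γ) (_ : Finite Γ) (σ : Γ →* Q), Cfsg.IsStemExtension σ ∧ Nonempty (σ.ker ≃* A) ∧ ∃ β : Γ →* Δ, Function.Surjective β ∧ τ.comp β = σ := by
  let π₀ := freePres Q
  have hπ₀ : Function.Surjective π₀ := freePres_surjective Q
  obtain ⟨eA⟩ := nonempty_equiv_of_hasSchur hπ₀ hA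
  obtain ⟨ψ, hψ, hψs, hψM⟩ := exists_map_of_stem hπ₀ τ hτ
  have hτψ : ∀ x, τ (ψ x) = hopfP π₀ x := fun x => by rw [← hψ]; rfl
  have hKle : ψ.ker ≤ (hopfP π₀).ker := by
    intro x hx
    rw [MonoidHom.mem_ker, ← hτψ, hx, map_one]
  have hKM : ψ.ker ⊔ hopfM π₀ = (hopfP π₀).ker := by
    apply le_antisymm
    · exact sup_le hKle (hopfM_le_ker π₀)
    · intro r hr
      have h1 : ψ r ∈ τ.ker := by
        rw [MonoidHom.mem_ker, hτψ]
        exact hr
      rw [← hψM] at h1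
      obtain ⟨m, hm, hmr⟩ := h1
      have h2 : r * m⁻¹ ∈ ψ.ker := by
        rw [MonoidHom.mem_ker, map_mul, map_inv, hmr, mul_inv_cancel]
      have h3 : r = r * m⁻¹ * m := by group
      rw [h3]
      exact Subgroup.mul_mem_sup h2 hm
  obtain ⟨S, hSK, h1, h2⟩ := exists_compl π₀ ψ.ker hKle hKM
  have hSle : S ≤ (hopfP π₀).ker := hSK.trans hKle
  have hSn : S.Normal := normal_of_le_center' (hSle.trans (ker_hopfP_le_center π₀))
  obtain ⟨σ, hσ, hfin, hst, ⟨he⟩⟩ := cover_of_compl (hopfP π₀) (hopfP_surjective hπ₀)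
    (ker_hopfP_le_center π₀) S hSle h1 h2
  refine ⟨HopfN π₀ ⧸ S, inferInstance, hfin, σ, hst, ⟨he.symm.trans eA.symm⟩,
    QuotientGroup.lift S ψ hSK, ?_, ?_⟩
  · intro d
    obtain ⟨x, rfl⟩ := hψs d
    exact ⟨(x : HopfN π₀ ⧸ S), rfl⟩
  · apply MonoidHom.ext
    intro x
    obtain ⟨n, rfl⟩ := QuotientGroup.mk_surjective x
    show τ (ψ n) = σ (n : HopfN π₀ ⧸ S)
    rw [hτψ, hσ]

end Cfsg.Agent.S3957
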