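import Cfsg.Statements.S3958
import Cfsg.Agent.Lib.Schur.Hopf

universe u v
set_option autoImplicit false
open Cfsg

namespace Cfsg.Agent.S3958

open Subgroup Cfsg.Agent.Lib.Schur.Hopf

/-- Let `σ : Γ →* Q` be a finite stem extension of the finite group `Q` with `Γ` of trivial Schur multiplier. Then `σ` is a Schur covering group of `Q`: for every finite stem extension `τ : Δ →* Q` with `Δ` in the same universe as `Q`, the kernel of `τ` is a homomorphic image of the kernel of `σ`. -/
theorem result {Q : Type u} [Group Q] [Finite Q] {Γ : Type v} [Group Γ] [Finite Γ] (σ : Γ →* Q) (hσ : Cfsg.IsStemExtension σ) (hΓ : Cfsg.HasCyclicSchurMultiplier Γ 1) (Δ : Type u) [Group Δ] [Finite Δ] (τ : Δ →* Q) (hτ : Cfsg.IsStemExtension τ) : ∃ π : σ.ker →* τ.ker, Function.Surjective π := by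
  let π₀ := freePres Γ
  have hπ₀ : Function.Surjective π₀ := freePres_surjective Γ
  obtain ⟨e⟩ := nonempty_equiv_of_hasSchur hπ₀ hΓ
  have hMbot : hopfM π₀ = ⊥ := by
    rw [eq_bot_iff]
    intro x hx
    have h1 : (⟨x, hx⟩ : hopfM π₀) = 1 := by
      have : (⟨x, hx⟩ : hopfM π₀) = e (e.symm ⟨x, hx⟩) := by simp
      rw [this]
      have h2 : e.symm ⟨x, hx⟩ = 1 := Subsingleton.elim _ _
      rw [h2, map_one]
    exact congrArg Subtype.val h1
  obtain ⟨φ, hφ⟩ := exists_lift_comp τ hτ.1 hτ.2.1 π₀ σ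
  have hτφ : ∀ x, τ (φ x) = σ (hopfP π₀ x) := fun x => by
    have := congrArg (fun f => f x) hφ
    simpa using this
  let N := HopfN π₀
  let p : N →* Γ := hopfP π₀
  have hp : Function.Surjective p := hopfP_surjective hπ₀
  have hc : p.ker ≤ center N := ker_hopfP_le_center π₀
  -- `p` is injective on `N'`
  have hinj : ∀ n ∈ commutator N, p n = 1 → n = 1 := by
    intro n hn h
    have h1 : n ∈ hopfM π₀ := Subgroup.mem_inf.2 ⟨h, hn⟩
    rwa [hMbot, Subgroup.mem_bot] at h1
  -- `p (N') ⊇ Γ'`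
  have hΓ' : commutator Γ ≤ (commutator N).map p := by
    apply commutator_le_map
    intro e
    obtain ⟨n, hn⟩ := hp e
    refine ⟨n, ?_⟩
    rw [hn, inv_mul_cancel]
    exact one_mem _
  have hr : ∀ a : σ.ker, ∃ n : commutator N, p n = a := by
    rintro ⟨a, ha⟩
    obtain ⟨n, hn, hna⟩ := hΓ' (hσ.2.2 ha)
    exact ⟨⟨n, hn⟩, hna⟩
  choose r hr' using hr
  have hr1 : ∀ a b : σ.ker, r (a * b) = r a * r b := by
    intro a b
    apply eq_of_mul_inv_eq_one
    have : ((r (a * b) * (r a * r b)⁻¹ : commutator N) : N) = 1 := by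
      apply hinj
      · exact Subtype.coe_prop _
      · have := hr' (a * b)
        have h2 := hr' a
        have h3 := hr' b
        simp only [Subgroup.coe_mul, Subgroup.coe_inv, map_mul, map_inv, this, h2, h3]
        group
    exact Subtype.ext this
  have hmem : ∀ a : σ.ker, φ (r a) ∈ τ.ker := by
    intro a
    rw [MonoidHom.mem_ker, hτφ]
    have : hopfP π₀ (r a : N) = a := hr' a
    rw [this]
    exact a.2
  refine ⟨MonoidHom.mk' (fun a => ⟨φ (r a), hmem a⟩) ?_, ?_⟩
  · intro a b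
    apply Subtype.ext
    simp only [Subgroup.coe_mul, hr1, map_mul]
  · -- surjectivity
    rintro ⟨b, hb⟩
    have hΔ : commutator Δ ≤ (commutator N).map φ := by
      apply commutator_le_map
      intro e
      obtain ⟨g, hg⟩ := hσ.1 (τ e)
      obtain ⟨n, hn⟩ := hp g
      refine ⟨n, hτ.2.1 ?_⟩
      rw [MonoidHom.mem_ker, map_mul, map_inv, hτφ]
      have : hopfP π₀ n = g := hn
      rw [this, hg]
      simp
    obtain ⟨n, hn, hnb⟩ := hΔ (hτ.2.2 hb)
    have hpn : σ (p n) = 1 := by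
      have h1 := hτφ n
      rw [hnb] at h1
      have h2 : τ b = 1 := hb
      rw [h2] at h1
      exact h1.symm
    refine ⟨⟨p n, hpn⟩, ?_⟩
    apply Subtype.ext
    show φ (r ⟨p n, hpn⟩) = b
    have h3 : ((r ⟨p n, hpn⟩ : commutator N) : N) = n := by
      have h4 : p (r ⟨p n, hpn⟩) = p n := hr' ⟨p n, hpn⟩
      have h5 : ((r ⟨p n, hpn⟩ : commutator N) : N) * n⁻¹ = 1 := by
        apply hinj
        · exact mul_mem (Subtype.coe_prop _) (inv_mem hn)
        · rw [map_mul, map_inv, h4, mul_inv_cancel]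
      exact mul_inv_eq_one.1 h5
    rw [h3, hnb]

end Cfsg.Agent.S3958
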