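import Cfsg.Statements.S3959
import Cfsg.Agent.Lib.Schur.Heis
import Cfsg.Agent.Lib.Schur.Hopf
import Cfsg.Agent.Lib.Schur.Stem

universe u v w
set_option autoImplicit false
open Cfsg

namespace Cfsg.Agent.S3959

open Subgroup Cfsg.Agent.Lib.Schur.BiExt Cfsg.Agent.Lib.Schur.Hopf
open scoped commutatorElement TensorProduct

/-- The tensor product of finite abelian groups is finite. -/
private lemma finite_tensor {X Y : Type*} [AddCommGroup X] [AddCommGroup Y] [Finite X] [Finite Y] :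
    Finite (TensorProduct ℤ X Y) := by
  have h1 : Module.Finite ℤ X := Module.Finite.of_finite
  have h2 : Module.Finite ℤ Y := Module.Finite.of_finite
  have h3 : Module.Finite ℤ (TensorProduct ℤ X Y) := Module.Finite.tensorProduct ℤ X Y
  have h4 : AddGroup.FG (TensorProduct ℤ X Y) := Module.Finite.iff_addGroup_fg.1 h3
  apply AddCommGroup.finite_of_fg_isAddTorsion
  intro t
  rw [isOfFinAddOrder_iff_nsmul_eq_zero]
  refine ⟨Nat.card X, Nat.card_pos, ?_⟩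
  induction t using TensorProduct.induction_on with
  | zero => simp
  | tmul x y =>
    have h5 := map_nsmul ((TensorProduct.mk ℤ X Y).flip y) (Nat.card X) x
    have h6 : Nat.card X • x = 0 := card_nsmul_eq_zero'
    rw [h6, map_zero] at h5
    exact h5.symm
  | add a b ha hb => rw [smul_add, ha, hb, add_zero]

section Cover

variable {Q₁ : Type u} {Q₂ : Type v} [Group Q₁] [Group Q₂]

/-- The abelianized image. -/
private def abF {Γ : Type*} [Group Γ] {Q : Type*} [Group Q] (σ : Γ →* Q) (x : Γ) : Additive (Abelianization Q) :=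
  Additive.ofMul (Abelianization.of (σ x))

private lemma abF_mul {Γ : Type*} [Group Γ] {Q : Type*} [Group Q] (σ : Γ →* Q) (x y : Γ) :
    abF σ (x * y) = abF σ x + abF σ y := by
  simp [abF]

private lemma abF_one {Γ : Type*} [Group Γ] {Q : Type*} [Group Q] (σ : Γ →* Q) : abF σ 1 = 0 := by
  simp [abF]

private lemma abF_of_ker {Γ : Type*} [Group Γ] {Q : Type*} [Group Q] (σ : Γ →* Q) {x : Γ} (hx : σ x = 1) :
    abF σ x = 0 := by
  simp [abF, hx]

/-- The bilinear cocycle. -/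
private def coc {Γ₁ Γ₂ : Type*} [Group Γ₁] [Group Γ₂] (σ₁ : Γ₁ →* Q₁) (σ₂ : Γ₂ →* Q₂) :
    Bichar (Γ₁ × Γ₂) (TensorProduct ℤ (Additive (Abelianization Q₁)) (Additive (Abelianization Q₂))) where
  f x y := abF σ₁ y.1 ⊗ₜ[ℤ] abF σ₂ x.2
  mul_left a b d := by
    simp only [Prod.snd_mul]
    rw [abF_mul, TensorProduct.tmul_add]
  mul_right a b d := by
    simp only [Prod.fst_mul]
    rw [abF_mul, TensorProduct.add_tmul]

private theorem exists_cover [Finite Q₁] [Finite Q₂] {A B : Type w} [CommGroup A] [CommGroup B]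
    (hA : HasSchurMultiplier Q₁ A) (hB : HasSchurMultiplier Q₂ B) :
    ∃ (Γ : Type (max u v)) (_ : Group Γ) (_ : Finite Γ) (σ : Γ →* Q₁ × Q₂), IsStemExtension σ ∧
      Nonempty (σ.ker ≃* (A × B × Multiplicative (TensorProduct ℤ (Additive (Abelianization Q₁)) (Additive (Abelianization Q₂))))) := by
  obtain ⟨⟨Γ₁, _, _, σ₁, hσ₁, ⟨e₁⟩⟩, -⟩ := hA
  obtain ⟨⟨Γ₂, _, _, σ₂, hσ₂, ⟨e₂⟩⟩, -⟩ := hB
  let c := coc σ₁ σ₂
  have hfinT : Finite (TensorProduct ℤ (Additive (Abelianization Q₁)) (Additive (Abelianization Q₂))) := by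
    have h1 : Finite (Abelianization Q₁) := inferInstanceAs (Finite (Q₁ ⧸ _))
    have h2 : Finite (Abelianization Q₂) := inferInstanceAs (Finite (Q₂ ⧸ _))
    have h3 : Finite (Additive (Abelianization Q₁)) := h1
    have h4 : Finite (Additive (Abelianization Q₂)) := h2
    exact finite_tensor
  let σ : Heis c →* Q₁ × Q₂ := (MonoidHom.prodMap σ₁ σ₂).comp (Heis.proj c)
  have hσs : Function.Surjective σ := by
    rintro ⟨u, v⟩
    obtain ⟨x, hx⟩ := hσ₁.1 u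
    obtain ⟨y, hy⟩ := hσ₂.1 v
    exact ⟨⟨(x, y), 0⟩, Prod.ext hx hy⟩
  have hker : ∀ x : Heis c, x ∈ σ.ker ↔ σ₁ x.fst.1 = 1 ∧ σ₂ x.fst.2 = 1 := by
    intro x
    rw [MonoidHom.mem_ker]
    constructor
    · intro h
      exact ⟨congrArg Prod.fst h, congrArg Prod.snd h⟩
    · rintro ⟨h1, h2⟩
      exact Prod.ext h1 h2
  -- the inclusions
  let j₁ : Γ₁ →* Heis c :=
    { toFun := fun x => ⟨(x, 1), 0⟩
      map_one' := rfl
      map_mul' := fun x y => by
        apply Heis.ext'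
        · simp
        · show (0 : TensorProduct ℤ (Additive (Abelianization Q₁)) (Additive (Abelianization Q₂))) = 0 + 0 + abF σ₁ y ⊗ₜ[ℤ] abF σ₂ 1
          rw [abF_one, TensorProduct.tmul_zero, add_zero, add_zero] }
  let j₂ : Γ₂ →* Heis c :=
    { toFun := fun x => ⟨(1, x), 0⟩
      map_one' := rfl
      map_mul' := fun x y => by
        apply Heis.ext'
        · simp
        · show (0 : TensorProduct ℤ (Additive (Abelianization Q₁)) (Additive (Abelianization Q₂))) = 0 + 0 + abF σ₁ 1 ⊗ₜ[ℤ] abF σ₂ x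
          rw [abF_one, TensorProduct.zero_tmul, add_zero, add_zero] }
  have hT : ∀ t, Heis.ofV c (Multiplicative.ofAdd t) ∈ commutator (Heis c) := by
    intro t
    induction t using TensorProduct.induction_on with
    | zero => exact one_mem _
    | tmul x y =>
      obtain ⟨u, hu⟩ : ∃ u : Γ₁, abF σ₁ u = x := by
        induction x using Additive.rec with
        | ofMul x =>
          obtain ⟨q, rfl⟩ := QuotientGroup.mk_surjective x
          obtain ⟨g, rfl⟩ := hσ₁.1 q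
          exact ⟨g, rfl⟩
      obtain ⟨v, hv⟩ : ∃ v : Γ₂, abF σ₂ v = y := by
        induction y using Additive.rec with
        | ofMul y =>
          obtain ⟨q, rfl⟩ := QuotientGroup.mk_surjective y
          obtain ⟨g, rfl⟩ := hσ₂.1 q
          exact ⟨g, rfl⟩
      have h1 := Heis.ofV_mem_commutator (c := c) (a := ((1 : Γ₁), v)) (b := (u, (1 : Γ₂)))
        (by simp) 1
      have h2 : (1 : ℤ) • (c.f ((1 : Γ₁), v) (u, (1 : Γ₂)) - c.f (u, (1 : Γ₂)) ((1 : Γ₁), v)) = x ⊗ₜ[ℤ] y := by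
        show (1 : ℤ) • (abF σ₁ u ⊗ₜ[ℤ] abF σ₂ v - abF σ₁ 1 ⊗ₜ[ℤ] abF σ₂ 1) = _
        rw [abF_one, TensorProduct.zero_tmul, sub_zero, one_smul, hu, hv]
      rwa [h2] at h1
    | add a b ha hb =>
      have := mul_mem ha hb
      rw [← map_mul] at this
      exact this
  have hdec : ∀ x : Heis c, x = j₁ x.fst.1 * j₂ x.fst.2 * Heis.ofV c (Multiplicative.ofAdd x.snd) := by
    intro x
    apply Heis.ext'
    · show x.fst = (x.fst.1 * 1, 1 * x.fst.2) * 1
      simp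
    · show x.snd = 0 + 0 + abF σ₁ 1 ⊗ₜ[ℤ] abF σ₂ 1 + x.snd + abF σ₁ 1 ⊗ₜ[ℤ] abF σ₂ (x.fst.1 * 1, 1 * x.fst.2).2
      simp [abF_one]
  have hstem : IsStemExtension σ := by
    refine ⟨hσs, ?_, ?_⟩
    · intro x hx
      obtain ⟨h1, h2⟩ := (hker x).1 hx
      apply Heis.mem_center_of
      · rw [mem_center_iff]
        rintro ⟨a, b⟩
        apply Prod.ext
        · exact mem_center_iff.1 (hσ₁.2.1 h1) a
        · exact mem_center_iff.1 (hσ₂.2.1 h2) b
      · intro g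
        show abF σ₁ g.1 ⊗ₜ[ℤ] abF σ₂ x.fst.2 = 0
        rw [abF_of_ker σ₂ h2, TensorProduct.tmul_zero]
      · intro g
        show abF σ₁ x.fst.1 ⊗ₜ[ℤ] abF σ₂ g.2 = 0
        rw [abF_of_ker σ₁ h1, TensorProduct.zero_tmul]
    · intro x hx
      obtain ⟨h1, h2⟩ := (hker x).1 hx
      rw [hdec x]
      refine mul_mem (mul_mem ?_ ?_) (hT _)
      · exact map_commutator_le j₁ (Subgroup.mem_map_of_mem _ (hσ₁.2.2 h1))
      · exact map_commutator_le j₂ (Subgroup.mem_map_of_mem _ (hσ₂.2.2 h2))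
  -- the kernel
  let toK : (σ₁.ker × σ₂.ker) × Multiplicative (TensorProduct ℤ (Additive (Abelianization Q₁)) (Additive (Abelianization Q₂))) →* σ.ker :=
    { toFun := fun z => ⟨⟨(z.1.1, z.1.2), Multiplicative.toAdd z.2⟩, (hker _).2 ⟨z.1.1.2, z.1.2.2⟩⟩
      map_one' := rfl
      map_mul' := fun z w => by
        apply Subtype.ext
        apply Heis.ext'
        · rfl
        · show Multiplicative.toAdd z.2 + Multiplicative.toAdd w.2 = Multiplicative.toAdd z.2 + Multiplicative.toAdd w.2 + abF σ₁ (w.1.1 : Γ₁) ⊗ₜ[ℤ] abF σ₂ (z.1.2 : Γ₂)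
          rw [abF_of_ker σ₁ w.1.1.2, TensorProduct.zero_tmul, add_zero] }
  have hb : Function.Bijective toK := by
    constructor
    · rw [injective_iff_map_eq_one]
      rintro ⟨⟨a, b⟩, t⟩ h
      have h1 := congrArg (fun x : σ.ker => (x : Heis c).fst) h
      have h2 := congrArg (fun x : σ.ker => (x : Heis c).snd) h
      have h3 : (a : Γ₁) = 1 := congrArg Prod.fst h1
      have h4 : (b : Γ₂) = 1 := congrArg Prod.snd h1
      have h5 : Multiplicative.toAdd t = 0 := h2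
      apply Prod.ext
      · apply Prod.ext
        · exact Subtype.ext h3
        · exact Subtype.ext h4
      · exact h5
    · rintro ⟨x, hx⟩
      obtain ⟨h1, h2⟩ := (hker x).1 hx
      exact ⟨((⟨x.fst.1, h1⟩, ⟨x.fst.2, h2⟩), Multiplicative.ofAdd x.snd), rfl⟩
  refine ⟨Heis c, inferInstance, inferInstance, σ, hstem, ⟨?_⟩⟩
  refine (MulEquiv.ofBijective toK hb).symm.trans ?_
  refine { toFun := fun z => (e₁ z.1.1, e₂ z.1.2, z.2)
           invFun := fun z => ((e₁.symm z.1, e₂.symm z.2.1), z.2.2)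
           left_inv := ?_
           right_inv := ?_
           map_mul' := ?_ }
  · intro z
    simp
  · intro z
    simp
  · intro z w
    simp

end Cover

section Upper

private theorem comm_mul_left_of_central {G : Type*} [Group G] {x y w : G} (h : ⁅y, w⁆ ∈ center G) :
    ⁅x * y, w⁆ = ⁅x, w⁆ * ⁅y, w⁆ := by
  have h2 : ⁅y, w⁆ = y * w * y⁻¹ * w⁻¹ := commutatorElement_def y w
  have h3 : ⁅x, w⁆ = x * w * x⁻¹ * w⁻¹ := commutatorElement_def x w
  have h4 : ⁅x * y, w⁆ = x * y * w * (x * y)⁻¹ * w⁻¹ := commutatorElement_def _ w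
  have hw : ∀ g : G, g * (y * w * y⁻¹ * w⁻¹) = (y * w * y⁻¹ * w⁻¹) * g := by
    intro g
    rw [← h2]
    exact mem_center_iff.1 h g
  rw [h2, h3, h4]
  have h5 := hw (x * w * x⁻¹ * w⁻¹)
  rw [h5]
  have h6 := hw x
  calc x * y * w * (x * y)⁻¹ * w⁻¹
      = (x * (y * w * y⁻¹ * w⁻¹)) * w * x⁻¹ * w⁻¹ := by group
    _ = ((y * w * y⁻¹ * w⁻¹) * x) * w * x⁻¹ * w⁻¹ := by rw [h6]
    _ = (y * w * y⁻¹ * w⁻¹) * (x * w * x⁻¹ * w⁻¹) := by group

private theorem side {Γ : Type*} [Group Γ] (K : Subgroup Γ) (hK : K ≤ center Γ) (E : Subgroup Γ)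
    {Q : Type u} [Group Q] [Finite Q] (g : E →* Q) (hg : Function.Surjective g)
    (hgK : ∀ x : E, g x = 1 → (x : Γ) ∈ K) {A : Type w} [CommGroup A] (hA : HasSchurMultiplier Q A) :
    ∃ α : A →* K, ∀ x : E, x ∈ commutator E → g x = 1 → ∃ a, (α a : Γ) = x := by
  let π₀ := freePres Q
  have hπ₀ : Function.Surjective π₀ := freePres_surjective Q
  obtain ⟨eA⟩ := nonempty_equiv_of_hasSchur hπ₀ hA
  have hc : g.ker ≤ center E := by
    intro x hx
    rw [mem_center_iff]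
    intro y
    apply Subtype.ext
    exact mem_center_iff.1 (hK (hgK x hx)) (y : Γ)
  obtain ⟨φ, hφ⟩ := exists_lift g hg hc π₀
  have hM := map_hopfM hπ₀ g φ hφ hc
  have hmem : ∀ a : A, ((φ (eA a : HopfN π₀) : E) : Γ) ∈ K := by
    intro a
    apply hgK
    have h1 : φ (eA a : HopfN π₀) ∈ (hopfM π₀).map φ := Subgroup.mem_map_of_mem φ (eA a).2
    rw [hM] at h1
    exact (Subgroup.mem_inf.1 h1).1
  refine ⟨MonoidHom.mk' (fun a => ⟨_, hmem a⟩) (fun a b => by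
    apply Subtype.ext
    show ((φ (eA (a * b) : HopfN π₀) : E) : Γ) = ((φ (eA a : HopfN π₀) : E) : Γ) * ((φ (eA b : HopfN π₀) : E) : Γ)
    rw [map_mul, Subgroup.coe_mul, map_mul, Subgroup.coe_mul]), ?_⟩
  intro x hx1 hx2
  have h1 : x ∈ (hopfM π₀).map φ := by
    rw [hM]
    exact Subgroup.mem_inf.2 ⟨hx2, hx1⟩
  obtain ⟨m, hm, rfl⟩ := h1
  refine ⟨eA.symm ⟨m, hm⟩, ?_⟩
  show ((φ (eA (eA.symm ⟨m, hm⟩) : HopfN π₀) : E) : Γ) = _
  rw [eA.apply_symm_apply]

variable {Q₁ : Type u} {Q₂ : Type v} [Group Q₁] [Group Q₂] [Finite Q₁] [Finite Q₂]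

private theorem upper {A B : Type w} [CommGroup A] [CommGroup B]
    (hA : HasSchurMultiplier Q₁ A) (hB : HasSchurMultiplier Q₂ B)
    (Γ : Type (max u v)) [Group Γ] [Finite Γ] (f : Γ →* Q₁ × Q₂) (hf : IsStemExtension f) :
    ∃ π : (A × B × Multiplicative (TensorProduct ℤ (Additive (Abelianization Q₁)) (Additive (Abelianization Q₂)))) →* f.ker,
      Function.Surjective π := by
  have hcen : f.ker ≤ center Γ := hf.2.1
  have hcomm : ∀ a b : f.ker, a * b = b * a := fun a b =>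
    Subtype.ext (mem_center_iff.1 (hcen b.2) (a : Γ))
  let _ : CommGroup f.ker := { (inferInstance : Group f.ker) with mul_comm := hcomm }
  choose s₁ hs₁ using (fun u : Q₁ => hf.1 (u, (1 : Q₂)))
  choose s₂ hs₂ using (fun v : Q₂ => hf.1 ((1 : Q₁), v))
  have hp : ∀ (x y : Γ), (f x).2 = 1 → (f y).1 = 1 → ⁅x, y⁆ ∈ f.ker := by
    intro x y hx hy
    rw [MonoidHom.mem_ker, map_commutatorElement, commutatorElement_eq_one_iff_mul_comm]
    apply Prod.ext
    · simp [hy]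
    · simp [hx]
  have hdiff : ∀ (x y : Γ) (u : Q₁) (v : Q₂), f x = (u, 1) → f y = (1, v) → ⁅x, y⁆ = ⁅s₁ u, s₂ v⁆ := by
    intro x y u v hx hy
    have hz : (s₁ u)⁻¹ * x ∈ center Γ := by
      apply hcen
      rw [MonoidHom.mem_ker, map_mul, map_inv, hs₁, hx, inv_mul_cancel]
    have hw : (s₂ v)⁻¹ * y ∈ center Γ := by
      apply hcen
      rw [MonoidHom.mem_ker, map_mul, map_inv, hs₂, hy, inv_mul_cancel]
    have ex : x = s₁ u * ((s₁ u)⁻¹ * x) := by group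
    have ey : y = s₂ v * ((s₂ v)⁻¹ * y) := by group
    conv_lhs => rw [ex, ey, comm_mul_left_center hz, comm_mul_right_center hw]
  let p : Q₁ → Q₂ → f.ker := fun u v => ⟨⁅s₁ u, s₂ v⁆, hp _ _ (by rw [hs₁]) (by rw [hs₂])⟩
  have hpl : ∀ u u' v, p (u * u') v = p u v * p u' v := by
    intro u u' v
    apply Subtype.ext
    show ⁅s₁ (u * u'), s₂ v⁆ = ⁅s₁ u, s₂ v⁆ * ⁅s₁ u', s₂ v⁆
    rw [← hdiff (s₁ u * s₁ u') (s₂ v) (u * u') v (by rw [map_mul, hs₁, hs₁]; simp) (hs₂ v)]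
    exact comm_mul_left_of_central (hcen (p u' v).2)
  have hpr : ∀ u v v', p u (v * v') = p u v * p u v' := by
    intro u v v'
    apply Subtype.ext
    show ⁅s₁ u, s₂ (v * v')⁆ = ⁅s₁ u, s₂ v⁆ * ⁅s₁ u, s₂ v'⁆
    rw [← hdiff (s₁ u) (s₂ v * s₂ v') u (v * v') (hs₁ u) (by rw [map_mul, hs₂, hs₂]; simp)]
    have h1 : ⁅s₁ u, s₂ v * s₂ v'⁆ = (⁅s₂ v * s₂ v', s₁ u⁆)⁻¹ := by
      rw [commutatorElement_inv]
    have hc' : ⁅s₂ v', s₁ u⁆ ∈ center Γ := by
      rw [← commutatorElement_inv]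
      exact inv_mem (hcen (p u v').2)
    rw [h1, comm_mul_left_of_central hc', mul_inv_rev, commutatorElement_inv, commutatorElement_inv]
    exact (mem_center_iff.1 (hcen (p u v).2) _).symm ▸ rfl
  -- the bilinear map
  let P₁ : Q₁ →* (Q₂ →* f.ker) := MonoidHom.mk' (fun u => MonoidHom.mk' (fun v => p u v) (hpr u))
    (fun u u' => by
      ext v
      show ((p (u * u') v : f.ker) : Γ) = ((p u v * p u' v : f.ker) : Γ)
      rw [hpl])
  let L₂ : (Q₂ →* f.ker) →* (Abelianization Q₂ →* f.ker) :=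
    MonoidHom.mk' (fun w => Abelianization.lift w) (fun w w' => by
      apply Abelianization.hom_ext
      ext v
      simp)
  let L₁ : Abelianization Q₁ →* (Abelianization Q₂ →* f.ker) := Abelianization.lift (L₂.comp P₁)
  have hL : ∀ u v, L₁ (Abelianization.of u) (Abelianization.of v) = p u v := by
    intro u v
    simp [L₁, L₂, P₁]
  let f' : Additive (Abelianization Q₁) →+ (Additive (Abelianization Q₂) →+ Additive f.ker) :=
    AddMonoidHom.mk' (fun x => MonoidHom.toAdditive (L₁ (Additive.toMul x))) (fun x x' => by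
      refine AddMonoidHom.ext fun y => ?_
      show Additive.ofMul ((L₁ (Additive.toMul x * Additive.toMul x')) (Additive.toMul y)) = _
      rw [map_mul]
      rfl)
  let β₀ := TensorProduct.liftAddHom f' (fun r m n => by
    rw [map_zsmul, map_zsmul]
    rfl)
  let β : Multiplicative (TensorProduct ℤ (Additive (Abelianization Q₁)) (Additive (Abelianization Q₂))) →* f.ker :=
    MonoidHom.mk' (fun t => Additive.toMul (β₀ (Multiplicative.toAdd t))) (fun a b => by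
      show Additive.toMul (β₀ (Multiplicative.toAdd a + Multiplicative.toAdd b)) = _
      rw [map_add]
      rfl)
  have hβ : ∀ u v, ∃ t, β t = p u v := by
    intro u v
    refine ⟨Multiplicative.ofAdd (Additive.ofMul (Abelianization.of u) ⊗ₜ[ℤ] Additive.ofMul (Abelianization.of v)), ?_⟩
    have h0 : β₀ (Additive.ofMul (Abelianization.of u) ⊗ₜ[ℤ] Additive.ofMul (Abelianization.of v))
        = f' (Additive.ofMul (Abelianization.of u)) (Additive.ofMul (Abelianization.of v)) :=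
      TensorProduct.liftAddHom_tmul _ _ _ _
    show Additive.toMul (β₀ (Additive.ofMul (Abelianization.of u) ⊗ₜ[ℤ] Additive.ofMul (Abelianization.of v))) = _
    rw [h0]
    exact hL u v
  -- the two sides
  let Γ₁ : Subgroup Γ := ((MonoidHom.snd Q₁ Q₂).comp f).ker
  let Γ₂ : Subgroup Γ := ((MonoidHom.fst Q₁ Q₂).comp f).ker
  have hΓ₁ : ∀ x, x ∈ Γ₁ ↔ (f x).2 = 1 := fun x => Iff.rfl
  have hΓ₂ : ∀ x, x ∈ Γ₂ ↔ (f x).1 = 1 := fun x => Iff.rfl
  let g₁ : Γ₁ →* Q₁ := (MonoidHom.fst Q₁ Q₂).comp (f.comp Γ₁.subtype)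
  let g₂ : Γ₂ →* Q₂ := (MonoidHom.snd Q₁ Q₂).comp (f.comp Γ₂.subtype)
  have hg₁ : Function.Surjective g₁ := fun u =>
    ⟨⟨s₁ u, by rw [hΓ₁, hs₁]⟩, by
      show (f (s₁ u)).1 = u
      rw [hs₁]⟩
  have hg₂ : Function.Surjective g₂ := fun v =>
    ⟨⟨s₂ v, by rw [hΓ₂, hs₂]⟩, by
      show (f (s₂ v)).2 = v
      rw [hs₂]⟩
  obtain ⟨α₁, hα₁⟩ := side f.ker hcen Γ₁ g₁ hg₁ (fun x hx => by
    have h1 : (f x).2 = 1 := x.2
    have h2 : (f x).1 = 1 := hx
    exact Prod.ext h2 h1) hA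
  obtain ⟨α₂, hα₂⟩ := side f.ker hcen Γ₂ g₂ hg₂ (fun x hx => by
    have h1 : (f x).1 = 1 := x.2
    have h2 : (f x).2 = 1 := hx
    exact Prod.ext h1 h2) hB
  refine ⟨α₁.coprod (α₂.coprod β), ?_⟩
  -- the commutator subgroup
  let P : Subgroup Γ := β.range.map f.ker.subtype
  have hPK : P ≤ f.ker := by
    rintro _ ⟨x, _, rfl⟩
    exact x.2
  have hPn : P.Normal := normal_of_le_center' (hPK.trans hcen)
  have hn₁ : (⁅Γ₁, Γ₁⁆).Normal := Subgroup.commutator_normal _ _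
  have hn₂ : (⁅Γ₂, Γ₂⁆).Normal := Subgroup.commutator_normal _ _
  let W : Subgroup Γ := (⁅Γ₁, Γ₁⁆ ⊔ ⁅Γ₂, Γ₂⁆) ⊔ P
  have hWn : W.Normal := inferInstance
  have hcl : Subgroup.closure ((Γ₁ : Set Γ) ∪ (Γ₂ : Set Γ)) = ⊤ := by
    rw [eq_top_iff]
    intro x _
    have e : x = s₁ (f x).1 * ((s₁ (f x).1)⁻¹ * x) := by group
    rw [e]
    refine mul_mem (subset_closure (Or.inl ?_)) (subset_closure (Or.inr ?_))
    · show (f (s₁ (f x).1)).2 = 1
      rw [hs₁]
    · show (f ((s₁ (f x).1)⁻¹ * x)).1 = 1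
      rw [map_mul, map_inv, hs₁]
      simp
  have hP : ∀ x ∈ Γ₁, ∀ y ∈ Γ₂, ⁅x, y⁆ ∈ P := by
    intro x hx y hy
    have e1 : f x = ((f x).1, 1) := Prod.ext rfl hx
    have e2 : f y = (1, (f y).2) := Prod.ext hy rfl
    rw [hdiff x y _ _ e1 e2]
    obtain ⟨t, ht⟩ := hβ (f x).1 (f y).2
    exact ⟨β t, ⟨t, rfl⟩, by rw [ht]; rfl⟩
  have hle : commutator Γ ≤ W := by
    apply Cfsg.Agent.Lib.Schur.Stem.commutator_le_of_closure hcl
    rintro x (hx | hx) y (hy | hy)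
    · have : ⁅x, y⁆ ∈ ⁅Γ₁, Γ₁⁆ := Subgroup.commutator_mem_commutator hx hy
      exact (le_sup_left.trans le_sup_left : ⁅Γ₁, Γ₁⁆ ≤ W) this
    · exact (le_sup_right : P ≤ W) (hP x hx y hy)
    · have h1 := hP y hy x hx
      have h2 : ⁅x, y⁆ = ⁅y, x⁆⁻¹ := (commutatorElement_inv y x).symm
      have h3 : ⁅x, y⁆ ∈ P := by
        rw [h2]
        exact inv_mem h1
      exact (le_sup_right : P ≤ W) h3
    · have : ⁅x, y⁆ ∈ ⁅Γ₂, Γ₂⁆ := Subgroup.commutator_mem_commutator hx hy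
      exact (le_sup_right.trans le_sup_left : ⁅Γ₂, Γ₂⁆ ≤ W) this
  rintro ⟨k, hk⟩
  have hkW := hle (hf.2.2 hk)
  obtain ⟨y, hy, z, hz, rfl⟩ := mem_sup_of_normal_left.1 hkW
  obtain ⟨x₁, hx₁, x₂, hx₂, rfl⟩ := mem_sup_of_normal_left.1 hy
  rw [← Subgroup.map_subtype_commutator] at hx₁ hx₂
  obtain ⟨y₁, hy₁, rfl⟩ := hx₁
  obtain ⟨y₂, hy₂, rfl⟩ := hx₂
  obtain ⟨_, ⟨t, rfl⟩, rfl⟩ := hz
  have hfz : f (β t : Γ) = 1 := (β t).2
  have hfk : f (Γ₁.subtype y₁ * Γ₂.subtype y₂ * (β t : Γ)) = 1 := hk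
  rw [map_mul, map_mul, hfz, mul_one] at hfk
  have h1 : (f (y₁ : Γ)).2 = 1 := y₁.2
  have h2 : (f (y₂ : Γ)).1 = 1 := y₂.2
  have h3 : (f (y₁ : Γ)).1 * (f (y₂ : Γ)).1 = 1 := congrArg Prod.fst hfk
  have h4 : (f (y₁ : Γ)).2 * (f (y₂ : Γ)).2 = 1 := congrArg Prod.snd hfk
  rw [h2, mul_one] at h3
  rw [h1, one_mul] at h4
  obtain ⟨a, ha⟩ := hα₁ y₁ hy₁ h3
  obtain ⟨b, hb⟩ := hα₂ y₂ hy₂ h4
  refine ⟨(a, b, t), ?_⟩
  apply Subtype.ext
  show ((α₁ a * (α₂ b * β t) : f.ker) : Γ) = (y₁ : Γ) * (y₂ : Γ) * (β t : Γ)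
  rw [Subgroup.coe_mul, Subgroup.coe_mul, ha, hb, mul_assoc]

end Upper

/-- Let `Q₁` and `Q₂` be finite groups with Schur multipliers `A` and `B`. Then the Schur multiplier of `Q₁ × Q₂` is isomorphic to `A × B × (Q₁ᵃᵇ ⊗ Q₂ᵃᵇ)`, the last factor being the tensor product over the integers of the commutator quotients, written multiplicatively. -/
theorem result {Q₁ : Type u} {Q₂ : Type v} [Group Q₁] [Group Q₂] [Finite Q₁] [Finite Q₂] {A B : Type w} [CommGroup A] [CommGroup B] (hA : Cfsg.HasSchurMultiplier Q₁ A) (hB : Cfsg.HasSchurMultiplier Q₂ B) : Cfsg.HasSchurMultiplier (Q₁ × Q₂) (A × B × Multiplicative (TensorProduct ℤ (Additive (Abelianization Q₁)) (Additive (Abelianization Q₂)))) :=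
  ⟨exists_cover hA hB, fun Γ _ _ σ hσ => upper hA hB Γ σ hσ⟩

end Cfsg.Agent.S3959
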