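import Cfsg.Statements.S3960
import Cfsg.Agent.Lib.Schur.Hopf

universe u
set_option autoImplicit false
open Cfsg

namespace Cfsg.Agent.S3960

open Subgroup Cfsg.Agent.Lib.Schur.Hopf

/-- A finite perfect group `Q` has a universal central extension: a finite perfect group `G` in the universe of `Q` and a surjective homomorphism `π : G →* Q` with central kernel such that for every group `X` in that universe and every surjective homomorphism `ξ : X →* Q` with central kernel there is exactly one homomorphism `η : G →* X` with `ξ ∘ η = π`. -/
theorem result {Q : Type u} [Group Q] [Finite Q] (hQ : Group.IsPerfect Q) : ∃ (G : Type u) (_ : Group G) (_ : Finite G) (π : G →* Q), Group.IsPerfect G ∧ Function.Surjective π ∧ π.ker ≤ Subgroup.center G ∧ ∀ (X : Type u) [Group X] (ξ : X →* Q), Function.Surjective ξ → ξ.ker ≤ Subgroup.center X → ∃! η : G →* X, ξ.comp η = π := by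
  let π₀ := freePres Q
  have hπ₀ : Function.Surjective π₀ := freePres_surjective Q
  let N := HopfN π₀
  let p : N →* Q := hopfP π₀
  have hp : Function.Surjective p := hopfP_surjective hπ₀
  have hc : p.ker ≤ center N := ker_hopfP_le_center π₀
  have hfin : Finite (commutator N) := finite_commutator_of_central_ext p hp hc
  let π : commutator N →* Q := p.comp (commutator N).subtype
  -- surjectivity
  have hmap : (commutator N).map p = ⊤ := by
    rw [_root_.commutator_def, Subgroup.map_commutator, ← MonoidHom.range_eq_map,
      MonoidHom.range_eq_top_of_surjective p hp, ← _root_.commutator_def]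
    exact hQ.commutator_eq_top
  have hπ : Function.Surjective π := by
    intro q
    have : q ∈ (commutator N).map p := by rw [hmap]; trivial
    obtain ⟨x, hx, rfl⟩ := this
    exact ⟨⟨x, hx⟩, rfl⟩
  have hdec : ∀ e : N, ∃ n : commutator N, ((commutator N).subtype n)⁻¹ * e ∈ center N := by
    intro e
    obtain ⟨n, hn⟩ := hπ (p e)
    refine ⟨n, hc ?_⟩
    rw [MonoidHom.mem_ker, map_mul, map_inv]
    have : p ((commutator N).subtype n) = π n := rfl
    rw [this, hn, inv_mul_cancel]
  have hperf : Group.IsPerfect (commutator N) := by
    constructor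
    rw [eq_top_iff]
    rintro ⟨x, hx⟩ -
    obtain ⟨y, hy, hyx⟩ := commutator_le_map (commutator N).subtype hdec hx
    have : y = ⟨x, hx⟩ := Subtype.ext hyx
    rw [← this]
    exact hy
  refine ⟨commutator N, inferInstance, hfin, π, hperf, hπ, ?_, ?_⟩
  · intro x hx
    rw [mem_center_iff]
    intro y
    apply Subtype.ext
    exact (mem_center_iff.1 (hc (show (x : N) ∈ p.ker from hx)) (y : N))
  · intro X _ ξ hξ hξc
    obtain ⟨φ, hφ⟩ := exists_lift ξ hξ hξc π₀
    refine ⟨φ.comp (commutator N).subtype, ?_, ?_⟩
    · show ξ.comp (φ.comp (commutator N).subtype) = π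
      rw [← MonoidHom.comp_assoc, hφ]
    · intro η hη
      apply eq_of_perfect hperf
      intro g
      apply hξc
      rw [MonoidHom.mem_ker, map_mul, map_inv]
      have h1 : ξ (η g) = π g := by rw [← hη]; rfl
      have h2 : ξ ((φ.comp (commutator N).subtype) g) = π g := by
        show (ξ.comp φ) _ = _
        rw [hφ]
        rfl
      rw [h1, h2, inv_mul_cancel]

end Cfsg.Agent.S3960
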