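import Cfsg.Statements.S3961
import Cfsg.Agent.Lib.Schur.Hopf

universe u v
set_option autoImplicit false
open Cfsg

namespace Cfsg.Agent.S3961

open Subgroup Cfsg.Agent.Lib.Schur.Hopf
open scoped commutatorElement

/-- Let `π : G →* Q` be a surjective homomorphism with central kernel from a finite perfect group `G` (a perfect cover of `Q`). Then `π` is universal, in the sense that every surjective homomorphism `ξ : X →* Q` with central kernel from a group `X` in the universe of `G` admits a homomorphism `η : G →* X` with `ξ ∘ η = π`, if and only if `G` has trivial Schur multiplier. -/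
theorem result {G : Type u} {Q : Type v} [Group G] [Group Q] [Finite G] (hG : Group.IsPerfect G) (π : G →* Q) (hπ : Function.Surjective π) (hker : π.ker ≤ Subgroup.center G) : (∀ (X : Type u) [Group X] (ξ : X →* Q), Function.Surjective ξ → ξ.ker ≤ Subgroup.center X → ∃ η : G →* X, ξ.comp η = π) ↔ Cfsg.HasCyclicSchurMultiplier G 1 := by
  constructor
  · intro huniv
    -- every stem extension of `G` has trivial kernel
    have hkey : ∀ (Γ : Type u) [Group Γ] [Finite Γ] (σ : Γ →* G), IsStemExtension σ → σ.ker = ⊥ := by
      intro Γ _ _ σ hσ
      have hσs := hσ.1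
      -- `Γ = Γ' · ker σ`
      have hmap : (commutator Γ).map σ = ⊤ := by
        rw [_root_.commutator_def, Subgroup.map_commutator, ← MonoidHom.range_eq_map,
          MonoidHom.range_eq_top_of_surjective σ hσs, ← _root_.commutator_def]
        exact hG.commutator_eq_top
      have hdec : ∀ x : Γ, ∃ x' ∈ commutator Γ, x'⁻¹ * x ∈ σ.ker := by
        intro x
        have : σ x ∈ (commutator Γ).map σ := by rw [hmap]; trivial
        obtain ⟨x', hx', hxx⟩ := this
        refine ⟨x', hx', ?_⟩
        rw [MonoidHom.mem_ker, map_mul, map_inv, hxx, inv_mul_cancel]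
      -- `π ∘ σ` is central
      have hcen : (π.comp σ).ker ≤ center Γ := by
        intro k hk
        have hk' : σ k ∈ π.ker := hk
        have hcomm : ∀ a : Γ, k * a * k⁻¹ * a⁻¹ ∈ center Γ := by
          intro a
          apply hσ.2.1
          rw [MonoidHom.mem_ker, map_mul, map_mul, map_mul, map_inv, map_inv]
          have := mem_center_iff.1 (hker hk') (σ a)
          rw [← this]
          group
        have hcent : commutator Γ ≤ centralizer {k} := by
          rw [_root_.commutator_def, Subgroup.commutator_le]
          intro a _ b _
          rw [mem_centralizer_iff]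
          intro y hy
          have hy' : y = k := hy
          rw [hy']
          -- `k` commutes with `⁅a, b⁆`
          have h1 : k * a * k⁻¹ = (k * a * k⁻¹ * a⁻¹) * a := by group
          have h2 : k * b * k⁻¹ = (k * b * k⁻¹ * b⁻¹) * b := by group
          have h3 : k * ⁅a, b⁆ * k⁻¹ = ⁅k * a * k⁻¹, k * b * k⁻¹⁆ := by
            simp only [commutatorElement_def]
            group
          have h4 : ⁅k * a * k⁻¹, k * b * k⁻¹⁆ = ⁅a, b⁆ := by
            rw [h1, h2]
            have c1 := hcomm a
            have c2 := hcomm b
            have e1 : (k * a * k⁻¹ * a⁻¹) * a = a * (k * a * k⁻¹ * a⁻¹) :=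
              (mem_center_iff.1 c1 a).symm
            have e2 : (k * b * k⁻¹ * b⁻¹) * b = b * (k * b * k⁻¹ * b⁻¹) :=
              (mem_center_iff.1 c2 b).symm
            rw [e1, e2, comm_mul_left_center c1, comm_mul_right_center c2]
          have h5 : k * ⁅a, b⁆ * k⁻¹ = ⁅a, b⁆ := h3.trans h4
          exact mul_inv_eq_iff_eq_mul.1 h5
        rw [mem_center_iff]
        intro x
        obtain ⟨x', hx', hz⟩ := hdec x
        have e : x = x' * (x'⁻¹ * x) := by group
        have hzc := mem_center_iff.1 (hσ.2.1 hz) k
        have hx'c := mem_centralizer_iff.1 (hcent hx') k rfl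
        have hzc : k * (x'⁻¹ * x) = (x'⁻¹ * x) * k := hzc
        set z := x'⁻¹ * x with hzdef
        rw [e]
        calc x' * z * k = x' * (z * k) := by group
          _ = x' * (k * z) := by rw [hzc]
          _ = (x' * k) * z := by group
          _ = (k * x') * z := by rw [hx'c]
          _ = k * (x' * z) := by group
      have hξs : Function.Surjective (π.comp σ) := hπ.comp hσs
      obtain ⟨η, hη⟩ := huniv Γ (π.comp σ) hξs hcen
      have hση : σ.comp η = MonoidHom.id G := by
        apply eq_of_perfect hG
        intro g
        apply hker
        rw [MonoidHom.mem_ker, map_mul, map_inv]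
        have : π (σ (η g)) = π g := by
          exact congrArg (fun f => f g) hη
        simp [this]
      have hle : commutator Γ ≤ (commutator G).map η := by
        apply commutator_le_map
        intro e
        refine ⟨σ e, hσ.2.1 ?_⟩
        rw [MonoidHom.mem_ker, map_mul, map_inv]
        have : σ (η (σ e)) = σ e := by
          have := congrArg (fun f => f (σ e)) hση
          simpa using this
        rw [this, inv_mul_cancel]
      rw [eq_bot_iff]
      intro z hz
      obtain ⟨g, _, rfl⟩ := hle (hσ.2.2 hz)
      have h1 : σ (η g) = g := by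
        have := congrArg (fun f => f g) hση
        simpa using this
      have h2 : σ (η g) = 1 := hz
      have hg1 : g = 1 := h1.symm.trans h2
      rw [Subgroup.mem_bot, hg1, map_one]
    constructor
    · refine ⟨G, inferInstance, inferInstance, MonoidHom.id G, ⟨Function.surjective_id, ?_, ?_⟩, ?_⟩
      · rw [MonoidHom.ker_id]; exact bot_le
      · rw [MonoidHom.ker_id]; exact bot_le
      · refine ⟨{ toFun := fun _ => 1, invFun := fun _ => 1, left_inv := ?_, right_inv := ?_, map_mul' := ?_ }⟩
        · intro x
          apply Subtype.ext
          have : (x : G) = 1 := x.2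
          simpa using this.symm
        · intro x
          exact Subsingleton.elim _ _
        · intro a b
          simp
    · intro Γ _ _ σ hσ
      refine ⟨1, ?_⟩
      rintro ⟨k, hk⟩
      refine ⟨1, ?_⟩
      apply Subtype.ext
      rw [hkey Γ σ hσ, Subgroup.mem_bot] at hk
      simp [hk]
  · intro hM X _ ξ hξ hξc
    let π₀ := freePres G
    have hπ₀ : Function.Surjective π₀ := freePres_surjective G
    obtain ⟨e⟩ := nonempty_equiv_of_hasSchur hπ₀ hM
    have hMbot : hopfM π₀ = ⊥ := by
      rw [eq_bot_iff]
      intro x hx
      have h1 : (⟨x, hx⟩ : hopfM π₀) = 1 := by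
        have : (⟨x, hx⟩ : hopfM π₀) = e (e.symm ⟨x, hx⟩) := by simp
        rw [this]
        have h2 : e.symm ⟨x, hx⟩ = 1 := Subsingleton.elim _ _
        rw [h2, map_one]
      exact congrArg Subtype.val h1
    obtain ⟨φ, hφ⟩ := exists_lift_comp ξ hξ hξc π₀ π
    let N := HopfN π₀
    let p : N →* G := hopfP π₀
    have hp : Function.Surjective p := hopfP_surjective hπ₀
    let r : commutator N →* G := p.comp (commutator N).subtype
    have hrb : Function.Bijective r := by
      constructor
      · rw [injective_iff_map_eq_one]
        rintro ⟨x, hx⟩ h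
        have h1 : x ∈ hopfM π₀ := Subgroup.mem_inf.2 ⟨h, hx⟩
        rw [hMbot, Subgroup.mem_bot] at h1
        exact Subtype.ext h1
      · intro g
        have hmap : (commutator N).map p = ⊤ := by
          rw [_root_.commutator_def, Subgroup.map_commutator, ← MonoidHom.range_eq_map,
            MonoidHom.range_eq_top_of_surjective p hp, ← _root_.commutator_def]
          exact hG.commutator_eq_top
        have : g ∈ (commutator N).map p := by rw [hmap]; trivial
        obtain ⟨x, hx, rfl⟩ := this
        exact ⟨⟨x, hx⟩, rfl⟩
    let er := MulEquiv.ofBijective r hrb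
    refine ⟨(φ.comp (commutator N).subtype).comp er.symm.toMonoidHom, ?_⟩
    ext g
    have h1 : r (er.symm g) = g := er.apply_symm_apply g
    have h2 : ξ (φ ((er.symm g : commutator N) : N)) = π (p ((er.symm g : commutator N) : N)) := by
      have := congrArg (fun f => f ((er.symm g : commutator N) : N)) hφ
      simpa using this
    show ξ (φ ((er.symm g : commutator N) : N)) = π g
    rw [h2]
    congr 1

end Cfsg.Agent.S3961
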