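import Cfsg.Statements.S3962
import Mathlib.GroupTheory.Commutator.Basic
import Mathlib.GroupTheory.Abelianization.Defs

set_option autoImplicit false
open Cfsg
open scoped commutatorElement

namespace Cfsg.Agent.S3962

private lemma comm_trivial {G : Type*} [Group G] (hG : Group.IsPerfect G) (g : G)
    (hcomm : ∀ h : G, g * h * g⁻¹ * h⁻¹ ∈ Subgroup.center G) (h : G) : g * h = h * g := by
  have hcen : ∀ (z : G) (h : G), z ∈ Subgroup.center G → z * h = h * z := fun z h hz =>
    ((Subgroup.mem_center_iff.mp hz) h).symm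
  -- the set of `x` such that `[g, x] = 1` contains all commutators
  have key : ∀ a b : G, g * (a * b) * g⁻¹ * (a * b)⁻¹
      = (g * a * g⁻¹ * a⁻¹) * (g * b * g⁻¹ * b⁻¹) := by
    intro a b
    have h1 := hcen _ (a) (hcomm b)
    calc g * (a * b) * g⁻¹ * (a * b)⁻¹
        = (g * a * g⁻¹ * a⁻¹) * (a * (g * b * g⁻¹ * b⁻¹) * a⁻¹) := by group
      _ = (g * a * g⁻¹ * a⁻¹) * (g * b * g⁻¹ * b⁻¹) := by
          rw [← h1]; group
  have hinv : ∀ a : G, g * a⁻¹ * g⁻¹ * a⁻¹⁻¹ = (g * a * g⁻¹ * a⁻¹)⁻¹ := by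
    intro a
    have h0 := key a a⁻¹
    have h1 : g * (a * a⁻¹) * g⁻¹ * (a * a⁻¹)⁻¹ = 1 := by group
    rw [h1] at h0
    exact (eq_inv_of_mul_eq_one_right h0.symm)
  let K : Subgroup G :=
    { carrier := {x | g * x * g⁻¹ * x⁻¹ = 1}
      one_mem' := by simp
      mul_mem' := by
        intro a b ha hb
        simp only [Set.mem_ofPred_eq] at *
        rw [key, ha, hb, one_mul]
      inv_mem' := by
        intro a ha
        simp only [Set.mem_ofPred_eq] at *
        rw [hinv, ha, inv_one] }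
  have hK : commutator G ≤ K := by
    rw [commutator_eq_closure, Subgroup.closure_le]
    rintro _ ⟨a, b, rfl⟩
    show g * ⁅a, b⁆ * g⁻¹ * ⁅a, b⁆⁻¹ = 1
    rw [commutatorElement_def]
    have e1 := key a b
    have e2 := key (a * b) (a⁻¹ * b⁻¹)
    have e3 := key a⁻¹ b⁻¹
    have e4 : a * b * a⁻¹ * b⁻¹ = (a * b) * (a⁻¹ * b⁻¹) := by group
    rw [e4, e2, e1, e3, hinv, hinv]
    have e5 := hcen _ ((g * b * g⁻¹ * b⁻¹)) (hcomm a)
    generalize (g * a * g⁻¹ * a⁻¹) = X at e5 ⊢
    generalize (g * b * g⁻¹ * b⁻¹) = Y at e5 ⊢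
    rw [e5]
    group
  have hh : h ∈ commutator G := Group.IsPerfect.mem_commutator
  have h2 : g * h * g⁻¹ * h⁻¹ = 1 := hK hh
  have : g * h * g⁻¹ = h := by
    rw [mul_inv_eq_one] at h2; exact h2
  rw [mul_inv_eq_iff_eq_mul] at this
  exact this

/-- Let `G` be a perfect group and `π : G →* Q` a surjective homomorphism whose kernel is central. Then `π` maps the centre of `G` onto the centre of `Q`. Taking `π` to be the map to `G ⧸ Z(G)` shows that the central quotient of a perfect group has trivial centre. -/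
theorem result {G Q : Type*} [Group G] [Group Q] (hG : Group.IsPerfect G) (π : G →* Q) (hπ : Function.Surjective π) (hker : π.ker ≤ Subgroup.center G) : (Subgroup.center G).map π = Subgroup.center Q := by
  apply le_antisymm
  · rintro _ ⟨g, hg, rfl⟩
    rw [Subgroup.mem_center_iff]
    intro q
    obtain ⟨h, rfl⟩ := hπ q
    rw [← map_mul, ← map_mul, (Subgroup.mem_center_iff.mp hg) h]
  · intro q hq
    obtain ⟨g, rfl⟩ := hπ q
    refine ⟨g, ?_, rfl⟩
    have hcomm : ∀ h : G, g * h * g⁻¹ * h⁻¹ ∈ Subgroup.center G := by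
      intro h
      apply hker
      rw [MonoidHom.mem_ker, map_mul, map_mul, map_mul, map_inv, map_inv,
        ← (Subgroup.mem_center_iff.mp hq) (π h)]
      group
    show g ∈ Subgroup.center G
    rw [Subgroup.mem_center_iff]
    intro h
    exact (comm_trivial hG g hcomm h).symm

end Cfsg.Agent.S3962
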