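import Cfsg.Statements.S3964
import Cfsg.Agent.Lib.Schur.Dihedral

set_option autoImplicit false
open Cfsg

namespace Cfsg.Agent.S3964

open Cfsg.Agent.Lib.Schur.Stem Cfsg.Agent.Lib.Schur.Dihedral in
/-- For odd `n` the dihedral group of order `2 n` has trivial Schur multiplier. -/
theorem result (n : ℕ) (hn : Odd n) : Cfsg.HasCyclicSchurMultiplier (DihedralGroup n) 1 := by
  have : NeZero n := ⟨hn.pos.ne'⟩
  refine hasCyclicSchurMultiplier_one fun Γ _ _ σ hσ =>
    stemBound_dihedral n (k := 1) ?_ Γ σ hσ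
  have : Nat.gcd n 2 = 1 := (Nat.coprime_two_right.2 hn)
  simp [this]

end Cfsg.Agent.S3964
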