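import Cfsg.Statements.S3965
import Cfsg.Agent.Lib.Schur.Dihedral

set_option autoImplicit false
open Cfsg

namespace Cfsg.Agent.S3965

open Cfsg.Agent.Lib.Schur.Stem Cfsg.Agent.Lib.Schur.Dihedral in
/-- For even `n ≥ 2` the dihedral group of order `2 n` has Schur multiplier cyclic of order `2`. -/
theorem result (n : ℕ) [NeZero n] (hn : Even n) : Cfsg.HasCyclicSchurMultiplier (DihedralGroup n) 2 := by
  have : NeZero (2 * n) := ⟨by have := NeZero.ne n; omega⟩
  refine hasCyclicSchurMultiplier_of Nat.prime_two.prime.squarefree (DihedralGroup (2 * n))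
    (doubleHom n) (doubleHom_isStem n hn) (card_ker_doubleHom n) ?_
  intro Γ _ _ σ hσ
  refine stemBound_dihedral n (k := 2) ?_ Γ σ hσ
  have : Nat.gcd n 2 = 2 := Nat.gcd_eq_right hn.two_dvd
  rw [this]
  exact Nat.mul_div_cancel' hn.two_dvd

end Cfsg.Agent.S3965
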