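import Cfsg.Statements.S3966
import Mathlib

set_option autoImplicit false
open Cfsg

namespace Cfsg.Agent.S3966

open QuaternionGroup DihedralGroup

open scoped commutatorElement

/-- The reduction `ZMod (2 * n) → ZMod n`. -/
private noncomputable def red (n : ℕ) : ZMod (2 * n) →+* ZMod n :=
  ZMod.castHom (Dvd.intro_left 2 rfl : n ∣ 2 * n) (ZMod n)

private lemma red_n (n : ℕ) : red n (n : ZMod (2 * n)) = 0 := by
  simp [red]

/-- The natural map from the dicyclic group to the dihedral group. -/
private noncomputable def sig (n : ℕ) : QuaternionGroup n →* DihedralGroup n where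
  toFun
    | QuaternionGroup.a i => DihedralGroup.r (red n i)
    | QuaternionGroup.xa i => DihedralGroup.sr (red n i)
  map_one' := by
    show DihedralGroup.r (red n 0) = 1
    simp
  map_mul' := by
    rintro (i | i) (j | j)
    · show DihedralGroup.r (red n (i + j)) = DihedralGroup.r _ * DihedralGroup.r _
      simp
    · show DihedralGroup.sr (red n (j - i)) = DihedralGroup.r _ * DihedralGroup.sr _
      simp
    · show DihedralGroup.sr (red n (i + j)) = DihedralGroup.sr _ * DihedralGroup.r _
      simp
    · show DihedralGroup.r (red n ((n : ZMod (2 * n)) + j - i)) = DihedralGroup.sr _ * DihedralGroup.sr _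
      simp [red_n]

private lemma sig_a (n : ℕ) (i : ZMod (2 * n)) : sig n (QuaternionGroup.a i) = DihedralGroup.r (red n i) := rfl
private lemma sig_xa (n : ℕ) (i : ZMod (2 * n)) : sig n (QuaternionGroup.xa i) = DihedralGroup.sr (red n i) := rfl

private lemma red_surj (n : ℕ) [NeZero n] : Function.Surjective (red n) :=
  ZMod.castHom_surjective _

private lemma two_n_zero (n : ℕ) : ((n : ZMod (2 * n)) + n) = 0 := by
  have : ((2 * n : ℕ) : ZMod (2 * n)) = 0 := ZMod.natCast_self _
  push_cast at this
  rw [← two_mul]; exact this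

private lemma mem_ker_iff (n : ℕ) [NeZero n] (z : QuaternionGroup n) :
    z ∈ (sig n).ker ↔ z = 1 ∨ z = QuaternionGroup.a (n : ZMod (2 * n)) := by
  rw [MonoidHom.mem_ker]
  have : NeZero (2 * n) := ⟨by have := NeZero.ne n; omega⟩
  constructor
  · intro h
    rcases z with i | i
    · rw [sig_a, DihedralGroup.one_def, DihedralGroup.r.injEq] at h
      have hi : i = ((i.val : ℕ) : ZMod (2 * n)) := (ZMod.natCast_zmod_val i).symm
      have hd : n ∣ i.val := by
        have h1 : red n ((i.val : ℕ) : ZMod (2 * n)) = 0 := by rw [← hi]; exact h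
        rw [map_natCast, ZMod.natCast_eq_zero_iff] at h1
        exact h1
      obtain ⟨t, ht⟩ := hd
      have hlt : i.val < 2 * n := ZMod.val_lt i
      have hn : 0 < n := Nat.pos_of_ne_zero (NeZero.ne n)
      have ht2 : t < 2 := by
        rw [ht, mul_comm] at hlt
        exact Nat.lt_of_mul_lt_mul_right hlt
      interval_cases t
      · left
        rw [hi, ht]; simp
      · right
        rw [hi, ht]; simp
    · rw [sig_xa] at h
      exact absurd h (by intro h'; cases h')
  · rintro (rfl | rfl)
    · simp
    · rw [sig_a, red_n]; rfl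

private lemma an_central (n : ℕ) (y : QuaternionGroup n) :
    y * QuaternionGroup.a (n : ZMod (2 * n)) = QuaternionGroup.a (n : ZMod (2 * n)) * y := by
  rcases y with i | i
  · simp [add_comm]
  · simp only [xa_mul_a, a_mul_xa, QuaternionGroup.xa.injEq]
    have := two_n_zero n
    linear_combination this

private lemma an_comm (n : ℕ) (hn : Even n) :
    QuaternionGroup.a (n : ZMod (2 * n)) ∈ commutator (QuaternionGroup n) := by
  obtain ⟨k, hk⟩ := hn
  have h2 : (QuaternionGroup.a (2 : ZMod (2 * n)) : QuaternionGroup n) ∈ commutator (QuaternionGroup n) := by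
    have hmem : ⁅(QuaternionGroup.a (1 : ZMod (2 * n)) : QuaternionGroup n), QuaternionGroup.xa (0 : ZMod (2 * n))⁆
        ∈ commutator (QuaternionGroup n) :=
      Subgroup.commutator_mem_commutator trivial trivial
    have heq : ⁅(QuaternionGroup.a (1 : ZMod (2 * n)) : QuaternionGroup n), QuaternionGroup.xa (0 : ZMod (2 * n))⁆
        = QuaternionGroup.a (2 : ZMod (2 * n)) := by
      rw [commutatorElement_def]
      have e1 : (QuaternionGroup.a (1 : ZMod (2 * n)) : QuaternionGroup n)⁻¹ = QuaternionGroup.a (-1) := rfl
      have e2 : (QuaternionGroup.xa (0 : ZMod (2 * n)) : QuaternionGroup n)⁻¹ = QuaternionGroup.xa ((n : ZMod (2 * n)) + 0) := rfl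
      rw [e1, e2]
      simp only [a_mul_xa, xa_mul_a, xa_mul_xa, QuaternionGroup.a.injEq]
      have := two_n_zero n
      linear_combination this
    rwa [heq] at hmem
  have h3 : (QuaternionGroup.a (2 : ZMod (2 * n)) : QuaternionGroup n) ^ k = QuaternionGroup.a (n : ZMod (2 * n)) := by
    have e0 : (QuaternionGroup.a (2 : ZMod (2 * n)) : QuaternionGroup n) = QuaternionGroup.a 1 ^ 2 := by
      rw [a_one_pow]; simp
    rw [e0, ← pow_mul, a_one_pow]
    congr 2
    omega
  rw [← h3]
  exact Subgroup.pow_mem _ h2 k

/-- For even `n ≥ 2` the dicyclic group of order `4 n` is a stem extension of the dihedral group of order `2 n` with kernel of order `2`: there is a surjective homomorphism `QuaternionGroup n →* DihedralGroup n` whose kernel is central, lies in the commutator subgroup and has two elements. Together with the order of the multiplier this exhibits the dicyclic group as a Schur covering group of the dihedral group. -/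
theorem result (n : ℕ) [NeZero n] (hn : Even n) : ∃ σ : QuaternionGroup n →* DihedralGroup n, Cfsg.IsStemExtension σ ∧ Nat.card σ.ker = 2 := by
  refine ⟨sig n, ⟨?_, ?_, ?_⟩, ?_⟩
  · rintro (i | i)
    · obtain ⟨j, rfl⟩ := red_surj n i
      exact ⟨QuaternionGroup.a j, rfl⟩
    · obtain ⟨j, rfl⟩ := red_surj n i
      exact ⟨QuaternionGroup.xa j, rfl⟩
  · intro z hz
    rw [mem_ker_iff] at hz
    rw [Subgroup.mem_center_iff]
    rcases hz with rfl | rfl
    · simp
    · intro y; exact an_central n y
  · intro z hz
    rw [mem_ker_iff] at hz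
    rcases hz with rfl | rfl
    · exact Subgroup.one_mem _
    · exact an_comm n hn
  · have hne : (QuaternionGroup.a (n : ZMod (2 * n)) : QuaternionGroup n) ≠ 1 := by
      intro h
      rw [QuaternionGroup.one_def, QuaternionGroup.a.injEq, ZMod.natCast_eq_zero_iff] at h
      have h1 := Nat.le_of_dvd (Nat.pos_of_ne_zero (NeZero.ne n)) h
      have h2 : 0 < n := Nat.pos_of_ne_zero (NeZero.ne n)
      omega
    have hsq : (QuaternionGroup.a (n : ZMod (2 * n)) : QuaternionGroup n) ^ 2 = 1 := by
      rw [pow_two, a_mul_a, two_n_zero]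
      rfl
    have hord : orderOf (QuaternionGroup.a (n : ZMod (2 * n)) : QuaternionGroup n) = 2 :=
      orderOf_eq_prime hsq hne
    have : (sig n).ker = Subgroup.zpowers (QuaternionGroup.a (n : ZMod (2 * n)) : QuaternionGroup n) := by
      ext z
      rw [mem_ker_iff]
      constructor
      · rintro (rfl | rfl)
        · exact Subgroup.one_mem _
        · exact Subgroup.mem_zpowers _
      · intro hz
        obtain ⟨k, rfl⟩ := Subgroup.mem_zpowers_iff.mp hz
        rcases Int.even_or_odd' k with ⟨t, rfl | rfl⟩
        · left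
          rw [zpow_mul, zpow_ofNat, hsq, one_zpow]
        · right
          rw [zpow_add, zpow_mul, zpow_ofNat, hsq, one_zpow]
          simp
    rw [this, Nat.card_zpowers, hord]

end Cfsg.Agent.S3966
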