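import Cfsg.Statements.S3968
import Cfsg.Agent.Lib.CharDeg.SmallDegree
-- import your own Cfsg.Agent.* helpers here

set_option autoImplicit false
set_option linter.style.haveILetI false
open Cfsg

namespace Cfsg.Agent.S3968

open Module
open Cfsg.Agent.Lib.Char
open Cfsg.Agent.Lib.Char.Basic
open Cfsg.Agent.Lib.Char.Ortho
open Cfsg.Agent.Lib.Char.Complete
open Cfsg.Agent.Lib.Char.Clifford
open Cfsg.Agent.Lib.Char.Degree
open Cfsg.Agent.Lib.Char.Linear
open scoped ComplexConjugate

/-- Let `p` be a prime and `G` a finite group with a faithful irreducible complex character of degree `p` (so `G` is an irreducible linear group in `p` variables). If `p ^ 2` divides the order of `G`, then the centre of `G` is nontrivial. -/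
theorem result {G : Type*} [Group G] [Finite G] (p : ℕ) (hp : p.Prime) (χ : Cfsg.IrrCharacter G) (hdeg : χ.1 1 = p) (hfaith : ∀ g : G, χ.1 g = χ.1 1 → g = 1) (hdiv : p ^ 2 ∣ Nat.card G) : Subgroup.center G ≠ ⊥ := by
  classical
  intro hZ
  cases nonempty_fintype G
  haveI : Fact p.Prime := ⟨hp⟩
  obtain ⟨χ, hχ⟩ := χ
  obtain ⟨n, ρ, hirr, rfl⟩ := hχ
  haveI := hirr
  simp only at hdeg hfaith
  have hfin : finrank ℂ (Fin n → ℂ) = p := by
    rw [Representation.char_one] at hdeg
    exact_mod_cast hdeg
  have hinj : Function.Injective ρ := by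
    intro a b hab
    have h1 : ρ (a⁻¹ * b) = 1 := by
      rw [map_mul, ← hab, ← map_mul, inv_mul_cancel, map_one]
    have h2 := hfaith (a⁻¹ * b) (by
      show LinearMap.trace ℂ _ (ρ (a⁻¹ * b)) = LinearMap.trace ℂ _ (ρ 1)
      rw [h1, show ρ 1 = 1 from map_one ρ])
    rw [inv_mul_eq_one] at h2
    exact h2
  obtain ⟨P⟩ : Nonempty (Sylow p G) := inferInstance
  obtain ⟨k, hk⟩ := IsPGroup.iff_card.mp P.isPGroup'
  have hk2 : 2 ≤ k := by
    have h1 := Sylow.pow_dvd_card_of_pow_dvd_card P hdiv
    rw [hk] at h1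
    exact (Nat.pow_dvd_pow_iff_le_right hp.one_lt).mp h1
  -- the character vanishes on the nonidentity central elements of `P`
  have hA : ∀ z : ↥(P : Subgroup G), z ∈ Subgroup.center (P : Subgroup G) → z ≠ 1 →
      ρ.character (z : G) = 0 := by
    intro z hz hz1
    have hcop : Nat.Coprime (finrank ℂ (Fin n → ℂ))
        (Subgroup.centralizer ({(z : G)} : Set G)).index := by
      rw [hfin, Nat.Prime.coprime_iff_not_dvd hp]
      intro hd
      have hle : (P : Subgroup G) ≤ Subgroup.centralizer ({(z : G)} : Set G) := by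
        intro x hx
        rw [Subgroup.mem_centralizer_singleton_iff]
        have := (Subgroup.mem_center_iff.mp hz) ⟨x, hx⟩
        exact (congrArg Subtype.val this)
      exact P.not_dvd_index (hd.trans (Subgroup.index_dvd_of_le hle))
    rcases Galois.character_eq_zero_or_norm_eq_of_coprime ρ (z : G) hcop with h0 | h1
    · exact h0
    · exfalso
      obtain ⟨ω, hω⟩ := (Eigen.norm_character_eq_iff_scalar ρ _).mp h1
      have hc : (z : G) ∈ Subgroup.center G := by
        rw [Subgroup.mem_center_iff]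
        intro x
        apply hinj
        rw [map_mul, map_mul, hω]
        ext v i
        simp
      rw [hZ, Subgroup.mem_bot] at hc
      exact hz1 (Subtype.ext hc)
  letI : Fintype ↥(P : Subgroup G) := Fintype.ofFinite _
  haveI := finite_irrCharacter (G := ↥(P : Subgroup G))
  letI : Fintype (IrrCharacter ↥(P : Subgroup G)) := Fintype.ofFinite _
  set θ : ↥(P : Subgroup G) → ℂ := fun x => ρ.character (x : G) with hθdef
  have hθ : IsCharacter ↥(P : Subgroup G) θ := isCharacter_restrict (P : Subgroup G) ⟨n, ρ, rfl⟩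
  have hθ1 : θ 1 = p := by
    show ρ.character ((1 : ↥(P : Subgroup G)) : G) = p
    exact hdeg
  by_cases hcase : ∃ ψ : IrrCharacter ↥(P : Subgroup G), classInner θ ψ.1 ≠ 0 ∧
      charDegree ψ.1 ≠ 1
  · -- `θ` is irreducible
    obtain ⟨ψ, hψ0, hψ1⟩ := hcase
    have hψc := isCharacter_of_isIrrCharacter ψ.2
    have hdn := charDegree_natCast hψc
    have hle := deg_le_of_constituent hθ ψ.2 hψ0 (a := p) (b := charDegree ψ.1) hθ1 hdn.symm
    have hdvd := charDegree_dvd_card ψ.2
    rw [hk] at hdvd
    obtain ⟨j, -, hj⟩ := (Nat.dvd_prime_pow hp).mp hdvd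
    have hj0 : j ≠ 0 := by
      rintro rfl
      exact hψ1 (by simpa using hj)
    have hge : p ≤ charDegree ψ.1 := by
      rw [hj]
      exact Nat.le_self_pow hj0 p
    have hpe : charDegree ψ.1 = p := le_antisymm hle hge
    have hθψ : θ = ψ.1 :=
      eq_of_constituent_of_deg_le hθ ψ.2 hψ0 (a := p) (b := p) hθ1 (by rw [← hdn, hpe]) le_rfl
    have hPnt : Nontrivial ↥(P : Subgroup G) := by
      apply Finite.one_lt_card_iff_nontrivial.mp
      rw [hk]
      exact Nat.one_lt_pow (by omega) hp.one_lt
    have hcn := P.isPGroup'.center_nontrivial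
    obtain ⟨z, hz⟩ := exists_ne (1 : Subgroup.center ↥(P : Subgroup G))
    have hz1 : (z : ↥(P : Subgroup G)) ≠ 1 := fun h => hz (Subtype.ext h)
    have h0 := hA z z.2 hz1
    obtain ⟨m, σ, hσirr, hσ⟩ := ψ.2
    haveI := hσirr
    obtain ⟨ω, hω⟩ := Central.center_acts_scalar σ (z : ↥(P : Subgroup G)) z.2
    have hnorm := (Eigen.norm_character_eq_iff_scalar σ (z : ↥(P : Subgroup G))).mpr ⟨ω, hω⟩
    have hfinσ : finrank ℂ (Fin m → ℂ) = p := by
      rw [← hpe, ← hσ, charDegree_character]
    rw [hfinσ, hσ, ← hθψ] at hnorm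
    have h1 : θ z = 0 := h0
    rw [h1, norm_zero] at hnorm
    have : (p : ℝ) = 0 := hnorm.symm
    have : p = 0 := by exact_mod_cast this
    exact hp.ne_zero this
  · push Not at hcase
    -- all constituents are linear, hence `P` is abelian
    have hcf : IsClassFunction ↥(P : Subgroup G) θ := isClassFunction_of_isCharacter hθ
    have hexp := classFunction_eq_sum hcf
    have hcomm : ∀ x y : ↥(P : Subgroup G), x * y = y * x := by
      intro x y
      set c := x * y * x⁻¹ * y⁻¹ with hc
      have h1 : θ c = θ 1 := by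
        rw [hexp]
        simp only [Finset.sum_apply, Pi.smul_apply, smul_eq_mul]
        refine Finset.sum_congr rfl fun ψ _ => ?_
        by_cases h0 : classInner θ ψ.1 = 0
        · rw [h0, zero_mul, zero_mul]
        · have hd := hcase ψ h0
          have hψc := isCharacter_of_isIrrCharacter ψ.2
          have hψ1 : ψ.1 1 = 1 := by
            rw [← charDegree_natCast hψc, hd]; simp
          congr 1
          rw [hψ1, hc]
          have hmul := deg_one_mul hψc hψ1
          rw [hmul, hmul, hmul]
          have hinvx : ψ.1 x * ψ.1 x⁻¹ = 1 := by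
            rw [← hmul, mul_inv_cancel, hψ1]
          have hinvy : ψ.1 y * ψ.1 y⁻¹ = 1 := by
            rw [← hmul, mul_inv_cancel, hψ1]
          linear_combination (ψ.1 y * ψ.1 y⁻¹) * hinvx + hinvy
      have h2 : ((c : ↥(P : Subgroup G)) : G) = 1 := hfaith _ h1
      have h3 : c = 1 := Subtype.ext h2
      rw [hc] at h3
      have h4 : x * y * x⁻¹ * y⁻¹ * y = 1 * y := by rw [h3]
      rw [inv_mul_cancel_right, one_mul, mul_inv_eq_iff_eq_mul] at h4
      exact h4
    have hzero : ∀ z : ↥(P : Subgroup G), z ≠ 1 → θ z = 0 := by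
      intro z hz
      exact hA z (Subgroup.mem_center_iff.mpr fun g => hcomm g z) hz
    obtain ⟨m, hm⟩ := exists_nat_classInner hθ (isCharacter_one (G := ↥(P : Subgroup G)))
    have hval : classInner θ (fun _ => (1 : ℂ)) = (Nat.card ↥(P : Subgroup G) : ℂ)⁻¹ * p := by
      rw [classInner_def, Finset.sum_eq_single (1 : ↥(P : Subgroup G))]
      · rw [hθ1]; simp
      · intro z _ hz
        rw [hzero z hz, zero_mul]
      · intro h; exact absurd (Finset.mem_univ _) h
    rw [hval, hk] at hm
    have hpk : ((p ^ k : ℕ) : ℂ) ≠ 0 := by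
      exact_mod_cast (pow_pos hp.pos k).ne'
    have h1 : (p : ℂ) = (p ^ k : ℕ) * m := by
      rw [← hm, mul_inv_cancel_left₀ hpk]
    have h2 : p = p ^ k * m := by exact_mod_cast h1
    have h3 : p ^ 2 ∣ p := by
      have h6 : p ^ 2 ∣ p ^ k * m := Dvd.dvd.mul_right (pow_dvd_pow p hk2) m
      rwa [← h2] at h6
    have h4 := Nat.le_of_dvd hp.pos h3
    have h5 : p * 2 ≤ p * p := Nat.mul_le_mul_left p hp.two_le
    nlinarith [hp.pos]

end Cfsg.Agent.S3968
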