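import Cfsg.Statements.S3970
import Cfsg.Agent.Lib.Transfer.Omega1
-- import your own Cfsg.Agent.* helpers here

set_option autoImplicit false
set_option linter.style.haveILetI false
open Cfsg

namespace Cfsg.Agent.S3970

universe u

private theorem rank_ge_two_card {X : Type*} [Group X] [Finite X] {k : ℕ}
    (hc : Nat.card X = 2 ^ k) (hr : 2 ≤ Group.rank X) : 4 ∣ Nat.card X := by
  classical
  by_contra hnd
  have hk : k ≤ 1 := by
    by_contra hk
    apply hnd
    rw [hc]
    exact (pow_dvd_pow 2 (show 2 ≤ k by omega))
  have hcyc : IsCyclic X := by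
    rcases Nat.le_one_iff_eq_zero_or_eq_one.mp hk with rfl | rfl
    · have : Subsingleton X := by
        apply (Nat.card_eq_one_iff_unique.mp (by simpa using hc)).1
      exact isCyclic_of_subsingleton
    · haveI : Fact (Nat.Prime 2) := ⟨Nat.prime_two⟩
      exact isCyclic_of_prime_card (p := 2) (by simpa using hc)
  obtain ⟨g, hg⟩ := hcyc.exists_generator
  have hcl : Subgroup.closure ((({g} : Finset X)) : Set X) = (⊤ : Subgroup X) := by
    rw [Finset.coe_singleton, eq_top_iff]
    intro x _
    have hx : x ∈ Subgroup.zpowers g := hg x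
    rw [Subgroup.zpowers_eq_closure] at hx
    exact hx
  have h1 : Group.rank X ≤ ({g} : Finset X).card := Group.rank_le hcl
  rw [Finset.card_singleton] at h1
  omega

private theorem cop_core {G : Type*} [Group G] [Finite G] (p : ℕ) (hp : p.Prime)
    (hmin : ∀ r : ℕ, r.Prime → r ∣ Nat.card G → p ≤ r) (hpd : p ∣ Nat.card G)
    (P : Sylow p G) (hr : Group.rank (P : Subgroup G) ≤ 2) (h12 : ¬ 12 ∣ Nat.card G) :
    Nat.Coprime (Nat.card G) (∏ i ∈ Finset.Icc 1 (Group.rank (P : Subgroup G)), (p ^ i - 1)) := by
  haveI : Fact p.Prime := ⟨hp⟩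
  apply Nat.Coprime.prod_right
  intro i hi
  rw [Finset.mem_Icc] at hi
  apply Nat.coprime_of_dvd
  intro r hrp hrG hri
  have hpr := hmin r hrp hrG
  have hp2 := hp.two_le
  have hi' : i = 1 ∨ i = 2 := by omega
  have hsmall : ¬ r ∣ p - 1 := by
    intro h
    have := Nat.le_of_dvd (by omega) h
    omega
  rcases hi' with rfl | rfl
  · rw [pow_one] at hri
    exact hsmall hri
  · have hfac : p ^ 2 - 1 = (p - 1) * (p + 1) := by
      obtain ⟨q, rfl⟩ : ∃ q, p = q + 1 := ⟨p - 1, by omega⟩
      simp only [Nat.add_sub_cancel]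
      nlinarith [Nat.sub_add_cancel (show 1 ≤ (q + 1) ^ 2 from Nat.one_le_pow _ _ (by omega))]
    rw [hfac] at hri
    rcases (Nat.Prime.dvd_mul hrp).mp hri with h | h
    · exact hsmall h
    · have hle := Nat.le_of_dvd (by omega) h
      have hne : r ≠ p := by
        rintro rfl
        have := (Nat.dvd_add_right (dvd_refl r)).mp h
        exact hrp.one_lt.ne' (Nat.dvd_one.mp this)
      have hreq : r = p + 1 := by omega
      subst hreq
      have hp22 : p = 2 := by
        rcases hp.eq_two_or_odd' with h2 | ⟨k, hk⟩
        · exact h2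
        · exfalso
          have : 2 ∣ p + 1 := ⟨k + 1, by omega⟩
          have h3 := (Nat.prime_dvd_prime_iff_eq Nat.prime_two hrp).mp this
          omega
      subst hp22
      apply h12
      -- `4 ∣ |P|`
      have h4 : 4 ∣ Nat.card (P : Subgroup G) := by
        obtain ⟨k, hk⟩ := IsPGroup.iff_card.mp P.isPGroup'
        exact rank_ge_two_card hk hi.2
      have h4' : 4 ∣ Nat.card G := h4.trans (Subgroup.card_subgroup_dvd_card _)
      have : 12 = 3 * 4 := rfl
      rw [this]
      exact Nat.Coprime.mul_dvd_of_dvd_of_dvd (by norm_num) hrG h4'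

private theorem core (n : ℕ) : ∀ {G : Type u} [Group G] [Finite G], Nat.card G = n →
    (∀ p : ℕ, p.Prime → p ∣ Nat.card G → (∃ q : ℕ, q.Prime ∧ q ∣ Nat.card G ∧ p < q) →
      ∀ P : Sylow p G, IsMulCommutative (P : Subgroup G) ∧ Group.rank (P : Subgroup G) ≤ 2) →
    (¬ 12 ∣ Nat.card G) → Group.IsSolvable G := by
  induction n using Nat.strong_induction_on with
  | _ n ih =>
    intro G _ _ hn h h12
    by_cases h1 : Nat.card G = 1
    · haveI : Subsingleton G := (Nat.card_eq_one_iff_unique.mp h1).1
      infer_instance
    set p := (Nat.card G).minFac with hpdef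
    have hp : p.Prime := Nat.minFac_prime h1
    haveI : Fact p.Prime := ⟨hp⟩
    have hpd : p ∣ Nat.card G := Nat.minFac_dvd _
    have hmin : ∀ r : ℕ, r.Prime → r ∣ Nat.card G → p ≤ r :=
      fun r hr hrd => Nat.minFac_le_of_dvd hr.two_le hrd
    by_cases hq : ∃ q : ℕ, q.Prime ∧ q ∣ Nat.card G ∧ p < q
    · obtain ⟨P⟩ : Nonempty (Sylow p G) := inferInstance
      obtain ⟨hab, hr⟩ := h p hp hpd hq P
      have hcop := cop_core p hp hmin hpd P hr h12
      obtain ⟨P', N, hNn, hcomp⟩ :=
        Cfsg.Agent.Lib.Transfer.Omega1.hasNormalPComplement_of_coprime_prod P hab hcop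
      haveI := hNn
      have hquot : IsPGroup p (G ⧸ N) :=
        Cfsg.Agent.Lib.Transfer.Basic.isPGroup_quotient_of_isComplement' hcomp
      have hNcop : (Nat.card N).Coprime p :=
        Cfsg.Agent.Lib.Transfer.Basic.coprime_card_of_isComplement' hcomp
      have hNlt : Nat.card N < n := by
        rw [← hn]
        have h2 : Nat.card N ∣ Nat.card G := Subgroup.card_subgroup_dvd_card N
        refine lt_of_le_of_ne (Nat.le_of_dvd Nat.card_pos h2) ?_
        intro he
        rw [he] at hNcop
        rw [Nat.coprime_comm, Nat.Prime.coprime_iff_not_dvd hp] at hNcop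
        exact hNcop hpd
      have hNd : Nat.card N ∣ Nat.card G := Subgroup.card_subgroup_dvd_card N
      have hNsol : Group.IsSolvable N := by
        refine ih _ hNlt rfl ?_ (fun h' => h12 (h'.trans hNd))
        intro r hrp hrd hqq R
        have hrG : r ∣ Nat.card G := hrd.trans hNd
        have hne : r ≠ p := by
          rintro rfl
          rw [Nat.coprime_comm, Nat.Prime.coprime_iff_not_dvd hp] at hNcop
          exact hNcop hrd
        haveI : Fact r.Prime := ⟨hrp⟩
        have hRp : IsPGroup r ((R : Subgroup N).map N.subtype) := R.isPGroup'.map _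
        have hidx : ¬ r ∣ ((R : Subgroup N).map N.subtype).index := by
          rw [Subgroup.index_map_subtype]
          intro hdv
          rcases (Nat.Prime.dvd_mul hrp).mp hdv with hd | hd
          · exact R.not_dvd_index hd
          · obtain ⟨k, hk⟩ := IsPGroup.iff_card.mp hquot
            have h3 : N.index = p ^ k := by rw [Subgroup.index, hk]
            rw [h3] at hd
            exact hne ((Nat.prime_dvd_prime_iff_eq hrp hp).mp (hrp.dvd_of_dvd_pow hd))
        let Q : Sylow r G := hRp.toSylow hidx
        have hQ : (Q : Subgroup G) = (R : Subgroup N).map N.subtype := rfl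
        obtain ⟨q, hq1, hq2, hq3⟩ := hqq
        obtain ⟨hQa, hQr⟩ := h r hrp hrG ⟨q, hq1, hq2.trans hNd, hq3⟩ Q
        let e : (R : Subgroup N) ≃* (Q : Subgroup G) :=
          (R : Subgroup N).equivMapOfInjective N.subtype N.subtype_injective
        constructor
        · refine ⟨⟨fun a b => e.injective ?_⟩⟩
          rw [map_mul, map_mul]
          exact hQa.is_comm.comm _ _
        · rw [Group.rank_congr e]
          exact hQr
      have hquotsol : Group.IsSolvable (G ⧸ N) := by
        haveI := hquot.isNilpotent
        infer_instance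
      exact Group.isSolvable_of_ker_le_range N.subtype (QuotientGroup.mk' N)
        (by rw [QuotientGroup.ker_mk', Subgroup.range_subtype])
    · -- a `p`-group
      have hcard := Nat.eq_prime_pow_of_unique_prime_dvd (n := Nat.card G) (p := p) Nat.card_pos.ne'
        (fun {d} hd hdv => by
          by_contra hne
          have hle := hmin d hd hdv
          exact hq ⟨d, hd, hdv, lt_of_le_of_ne hle (Ne.symm hne)⟩)
      have hpg : IsPGroup p G := IsPGroup.iff_card.mpr ⟨_, hcard⟩
      haveI := hpg.isNilpotent
      infer_instance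

/-- Let `G` be a finite group such that for every prime `p` dividing its order, other than the largest such prime, the Sylow `p`-subgroups are abelian and generated by at most two elements, and suppose `12` does not divide the order of `G`. Then `G` is solvable. In particular a group of cube-free order not divisible by `12` is solvable. -/
theorem result {G : Type*} [Group G] [Finite G] (h : ∀ p : ℕ, p.Prime → p ∣ Nat.card G → (∃ q : ℕ, q.Prime ∧ q ∣ Nat.card G ∧ p < q) → ∀ P : Sylow p G, IsMulCommutative (P : Subgroup G) ∧ Group.rank (P : Subgroup G) ≤ 2) (h12 : ¬ 12 ∣ Nat.card G) : Group.IsSolvable G :=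
  core _ rfl h h12

end Cfsg.Agent.S3970
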