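import Cfsg.Statements.S3971
import Cfsg.Agent.Lib.Transfer.Frobenius
import Cfsg.Agent.Lib.FG7.BurnsideBasis
-- import your own Cfsg.Agent.* helpers here

set_option autoImplicit false
set_option linter.style.haveILetI false
open Cfsg

namespace Cfsg.Agent.S3971

universe u

/-- The Frattini quotient of a 2-group with a cyclic subgroup of index at most 2 has at most 4
elements. -/
private theorem fratt_small {Q : Type*} [Group Q] [Finite Q] (hQ : IsPGroup 2 Q) (C : Subgroup Q)
    (hC : IsCyclic C) (hi : C.index ≤ 2) : Nat.card (Q ⧸ frattini Q) ≤ 4 := by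
  haveI : Fact (Nat.Prime 2) := ⟨Nat.prime_two⟩
  set Φ := frattini Q with hΦ
  let D : Subgroup (Q ⧸ Φ) := C.map (QuotientGroup.mk' Φ)
  have hDc : IsCyclic D := by
    let f : C →* D := (QuotientGroup.mk' Φ).subgroupMap C
    exact isCyclic_of_surjective f ((QuotientGroup.mk' Φ).subgroupMap_surjective C)
  have hDsq : ∀ d : D, d ^ 2 = 1 := by
    rintro ⟨d, hd⟩
    apply Subtype.ext
    obtain ⟨y, -, rfl⟩ := hd
    show ((QuotientGroup.mk' Φ) y) ^ 2 = 1
    rw [← map_pow, QuotientGroup.mk'_apply, QuotientGroup.eq_one_iff]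
    exact Cfsg.Agent.Lib.PGroups.Basic.pow_mem_frattini hQ y
  have hDcard : Nat.card D ≤ 2 := by
    obtain ⟨d, hd⟩ := IsCyclic.exists_ofOrder_eq_natCard (α := D)
    rw [← hd]
    exact orderOf_le_of_pow_eq_one (by norm_num) (hDsq d)
  have hDidx : D.index ≤ 2 :=
    (Nat.le_of_dvd (by
      have := Subgroup.index_ne_zero_of_finite (H := C)
      omega) (Subgroup.index_map_dvd C (QuotientGroup.mk'_surjective Φ))).trans hi
  rw [← Subgroup.card_mul_index D]
  exact Nat.mul_le_mul hDcard hDidx

/-- An automorphism of a 2-group with small Frattini quotient of order prime to `6` is trivial on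
the Frattini quotient, hence trivial. -/
private theorem aut_trivial {Q : Type*} [Group Q] [Finite Q] (hQ : IsPGroup 2 Q)
    (hV : Nat.card (Q ⧸ frattini Q) ≤ 4) (α : MulAut Q) (m : ℕ) (hm : α ^ m = 1)
    (hm6 : m.Coprime 6) : α = 1 := by
  haveI : Fact (Nat.Prime 2) := ⟨Nat.prime_two⟩
  set Φ := frattini Q with hΦ
  have hchar : Φ.Characteristic := frattini_characteristic
  have hmap : ∀ β : MulAut Q, Φ.map β.toMonoidHom = Φ := fun β =>
    (Subgroup.characteristic_iff_map_eq.mp hchar) β
  let σ : Equiv.Perm (Q ⧸ Φ) := (QuotientGroup.congr Φ Φ α (hmap α)).toEquiv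
  have hσ : ∀ y : Q, σ (y : Q ⧸ Φ) = ((α y : Q) : Q ⧸ Φ) := fun y => rfl
  have hpow : ∀ (k : ℕ) (y : Q), (σ ^ k) (y : Q ⧸ Φ) = (((α ^ k) y : Q) : Q ⧸ Φ) := by
    intro k
    induction k with
    | zero => intro y; rfl
    | succ k ih =>
      intro y
      rw [pow_succ', pow_succ', Equiv.Perm.mul_apply, ih, hσ]
      rfl
  have hσm : σ ^ m = 1 := by
    ext v
    obtain ⟨y, rfl⟩ := QuotientGroup.mk_surjective v
    rw [hpow, hm]
    rfl
  have hord : orderOf σ ∣ m := orderOf_dvd_of_pow_eq_one hσm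
  have hord2 : orderOf σ ∣ 24 := by
    have h1 : orderOf σ ∣ Nat.card (Equiv.Perm (Q ⧸ Φ)) := orderOf_dvd_natCard σ
    rw [Nat.card_perm] at h1
    exact h1.trans (Nat.factorial_dvd_factorial hV)
  have hcop : m.Coprime 24 := by
    have h24 : (24 : ℕ) = 6 * 4 := rfl
    have h2 : m.Coprime 2 := Nat.Coprime.coprime_dvd_right (by norm_num) hm6
    rw [h24]
    exact Nat.Coprime.mul_right hm6 (by
      have : (4 : ℕ) = 2 ^ 2 := rfl
      rw [this]
      exact Nat.Coprime.pow_right 2 h2)
  have hσ1 : σ = 1 := by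
    rw [← orderOf_eq_one_iff]
    exact Nat.eq_one_of_dvd_coprimes hcop hord hord2
  obtain ⟨n, hn⟩ := IsPGroup.iff_card.mp hQ
  obtain ⟨r, hr⟩ : ∃ r, Φ.index = 2 ^ r := by
    have : IsPGroup 2 (Q ⧸ Φ) := hQ.to_quotient Φ
    obtain ⟨r, hr⟩ := IsPGroup.iff_card.mp this
    exact ⟨r, hr⟩
  let A : Subgroup (MulAut Q) := Subgroup.zpowers α
  have hA : ∀ β ∈ A, ∀ x : Q, β x * x⁻¹ ∈ Φ := by
    have hfix : ∀ x : Q, α x * x⁻¹ ∈ Φ := by
      intro x
      have h1 : σ (x : Q ⧸ Φ) = (x : Q ⧸ Φ) := by rw [hσ1]; rfl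
      rw [hσ] at h1
      rw [← QuotientGroup.eq_one_iff, QuotientGroup.mk_mul, QuotientGroup.mk_inv, h1, mul_inv_cancel]
    have hstab : ∀ k : ℤ, ∀ x : Q, (α ^ k) x * x⁻¹ ∈ Φ := by
      have hpos : ∀ k : ℕ, ∀ x : Q, (α ^ k) x * x⁻¹ ∈ Φ := by
        intro k
        induction k with
        | zero => intro x; simp
        | succ k ih =>
          intro x
          rw [pow_succ']
          have e : (α * α ^ k) x * x⁻¹ = (α ((α ^ k) x) * ((α ^ k) x)⁻¹) * ((α ^ k) x * x⁻¹) := by
            rw [MulAut.mul_apply]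
            group
          rw [e]
          exact Φ.mul_mem (hfix _) (ih x)
      have hfin : ∀ k : ℤ, ∃ j : ℕ, α ^ k = α ^ j := by
        intro k
        have hord : 0 < orderOf α := orderOf_pos α
        refine ⟨(k % orderOf α).toNat, ?_⟩
        rw [← zpow_natCast, Int.toNat_of_nonneg (Int.emod_nonneg _ (by omega))]
        exact (zpow_mod_orderOf α k).symm
      intro k x
      obtain ⟨j, hj⟩ := hfin k
      rw [hj]
      exact hpos j x
    rintro β ⟨k, rfl⟩ x
    exact hstab k x
  have hdvd := Cfsg.Agent.Lib.FG7.BurnsideBasis.card_dvd (p := 2) hn hr A hA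
  have hAcard : Nat.card A = orderOf α := Nat.card_zpowers α
  rw [hAcard] at hdvd
  have h3 : orderOf α ∣ m := orderOf_dvd_of_pow_eq_one hm
  have hm2 : m.Coprime (2 ^ (r * (n - r))) := by
    apply Nat.Coprime.pow_right
    exact Nat.Coprime.coprime_dvd_right (by norm_num) hm6
  rw [← orderOf_eq_one_iff]
  exact Nat.eq_one_of_dvd_coprimes hm2 h3 hdvd

/-- Let `G` be a finite group of order `2 ^ a * n` with `n` odd and not divisible by `3`, and suppose `G` has an element of order `2 ^ (a - 1)` (so a Sylow `2`-subgroup has a cyclic subgroup of index at most `2`). Then `G` has a normal subgroup of order `n`. -/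
theorem result {G : Type*} [Group G] [Finite G] (a n : ℕ) (hG : Nat.card G = 2 ^ a * n) (hn : Odd n) (h3 : ¬ 3 ∣ n) (hx : ∃ x : G, orderOf x = 2 ^ (a - 1)) : ∃ N : Subgroup G, N.Normal ∧ Nat.card N = n := by
  haveI : Fact (Nat.Prime 2) := ⟨Nat.prime_two⟩
  obtain ⟨x, hx⟩ := hx
  have hn0 : n ≠ 0 := by
    rintro rfl
    simp at hn
  have hxP : IsPGroup 2 (Subgroup.zpowers x) := by
    rw [IsPGroup.iff_card]
    exact ⟨a - 1, by rw [Nat.card_zpowers, hx]⟩
  obtain ⟨P, hP⟩ := hxP.exists_le_sylow
  have hPcard : Nat.card (P : Subgroup G) = 2 ^ a := by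
    rw [P.card_eq_multiplicity, hG]
    congr 1
    rw [Nat.factorization_mul (by positivity) hn0, Nat.factorization_pow]
    have h2 : n.factorization 2 = 0 := Nat.factorization_eq_zero_of_not_dvd hn.not_two_dvd_nat
    simp [h2, Nat.Prime.factorization_self Nat.prime_two]
  -- `⟨x⟩` has index at most two in `P`
  have hidxP : (Subgroup.zpowers x).relIndex (P : Subgroup G) ≤ 2 := by
    have h1 := Subgroup.card_mul_index ((Subgroup.zpowers x).subgroupOf (P : Subgroup G))
    have h2 : Nat.card ((Subgroup.zpowers x).subgroupOf (P : Subgroup G)) = 2 ^ (a - 1) := by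
      rw [Nat.card_congr (Subgroup.subgroupOfEquivOfLe hP).toEquiv, Nat.card_zpowers, hx]
    rw [h2, hPcard] at h1
    have h3 : Subgroup.relIndex (Subgroup.zpowers x) (P : Subgroup G) =
        ((Subgroup.zpowers x).subgroupOf (P : Subgroup G)).index := rfl
    rw [h3]
    rcases Nat.eq_zero_or_pos a with rfl | ha
    · rw [show (0 - 1 : ℕ) = 0 from rfl, pow_zero, one_mul] at h1
      rw [h1]
      norm_num
    · have h4 : 2 ^ a = 2 ^ (a - 1) * 2 := by
        rw [← pow_succ]
        congr 1
        omega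
      rw [h4] at h1
      have := Nat.eq_of_mul_eq_mul_left (by positivity) h1
      omega
  have hmain := (Cfsg.Agent.Lib.Transfer.Frobenius.exists_normal_complement_iff P).mpr ?_
  · obtain ⟨N, hN, hc⟩ := hmain
    refine ⟨N, hN, ?_⟩
    have h1 := hc.card_mul_card
    rw [hPcard, hG, mul_comm] at h1
    exact Nat.eq_of_mul_eq_mul_left (by positivity) h1
  · intro Q hQP g hg hco
    -- the Frattini quotient of `Q` is small
    have hQ2 : IsPGroup 2 Q := P.2.to_le hQP
    let C : Subgroup Q := (Subgroup.zpowers x).subgroupOf Q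
    have hCc : IsCyclic C := by
      let f : C →* Subgroup.zpowers x :=
        { toFun := fun y => ⟨((y : Q) : G), y.2⟩
          map_one' := rfl
          map_mul' := fun _ _ => rfl }
      refine isCyclic_of_injective f ?_
      intro y z hyz
      apply Subtype.ext
      apply Subtype.ext
      have h := congrArg Subtype.val hyz
      exact h
    have hCi : C.index ≤ 2 := by
      have h1 : (Subgroup.zpowers x).relIndex Q ≤ (Subgroup.zpowers x).relIndex (P : Subgroup G) :=
        Subgroup.relIndex_le_of_le_right hQP (Subgroup.index_ne_zero_of_finite)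
      exact h1.trans hidxP
    have hV := fratt_small hQ2 C hCc hCi
    -- the automorphism induced by `g`
    let α : MulAut Q := Subgroup.normalizerMonoidHom Q ⟨g, hg⟩
    set m := orderOf g with hm
    have hαm : α ^ m = 1 := by
      rw [← map_pow]
      have : (⟨g, hg⟩ : Subgroup.normalizer (Q : Set G)) ^ m = 1 := by
        apply Subtype.ext
        show g ^ m = 1
        exact pow_orderOf_eq_one g
      rw [this, map_one]
    have hmn : m ∣ n := by
      have h1 : m ∣ 2 ^ a * n := hG ▸ orderOf_dvd_natCard g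
      exact (Nat.Coprime.pow_right a hco).dvd_of_dvd_mul_left h1
    have hm6 : m.Coprime 6 := by
      have h6 : (6 : ℕ) = 2 * 3 := rfl
      rw [h6]
      refine Nat.Coprime.mul_right hco ?_
      rw [Nat.coprime_comm, Nat.Prime.coprime_iff_not_dvd Nat.prime_three]
      exact fun h => h3 (h.trans hmn)
    have hα := aut_trivial hQ2 hV α m hαm hm6
    rw [Cfsg.Agent.Lib.Transfer.Frobenius.mem_centralizer_iff']
    intro y hy
    have h1 : α ⟨y, hy⟩ = ⟨y, hy⟩ := by rw [hα]; rfl
    exact congrArg Subtype.val h1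

end Cfsg.Agent.S3971
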