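import Cfsg.Statements.S3972
import Mathlib

set_option autoImplicit false
open Cfsg

namespace Cfsg.Agent.S3972

open Finset

section Core

variable {A : Type*} [AddCommGroup A] [Fintype A]

/-- A set of differences is invariant: the corresponding relation on `A` is `K`-invariant. -/
def InvS (K : Subgroup (Equiv.Perm A)) (Y : Set A) : Prop :=
  ∀ k ∈ K, ∀ a b : A, b - a ∈ Y → k b - k a ∈ Y

/-- A function of differences is invariant. -/
def InvF {R : Type*} (K : Subgroup (Equiv.Perm A)) (F : A → R) : Prop :=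
  ∀ k ∈ K, ∀ a b : A, F (k b - k a) = F (b - a)

variable {K : Subgroup (Equiv.Perm A)}

lemma InvS.iff {Y : Set A} (h : InvS K Y) {k : Equiv.Perm A} (hk : k ∈ K) (a b : A) :
    k b - k a ∈ Y ↔ b - a ∈ Y := by
  refine ⟨fun hh => ?_, h k hk a b⟩
  have := h k⁻¹ (K.inv_mem hk) (k a) (k b) hh
  simpa using this

lemma InvS.closure {Y : Set A} (h : InvS K Y) : InvS K (AddSubgroup.closure Y : Set A) := by
  intro k hk a b hab
  have key : ∀ x ∈ AddSubgroup.closure Y, ∀ a, k (a + x) - k a ∈ AddSubgroup.closure Y := by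
    intro x hx
    induction hx using AddSubgroup.closure_induction with
    | mem x hx =>
      intro a
      exact AddSubgroup.subset_closure (h k hk a (a + x) (by simpa using hx))
    | zero => intro a; simp
    | add x y _ _ ihx ihy =>
      intro a
      have := add_mem (ihx a) (ihy (a + x))
      have e : k (a + x) - k a + (k (a + x + y) - k (a + x)) = k (a + (x + y)) - k a := by
        rw [add_assoc]; abel
      rwa [e] at this
    | neg x _ ih =>
      intro a
      have := neg_mem (ih (a - x))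
      have e : -(k (a - x + x) - k (a - x)) = k (a + -x) - k a := by
        rw [sub_add_cancel, sub_eq_add_neg]; abel
      rwa [e] at this
  have := key (b - a) hab a
  simpa using this

/-- Convolution. -/
def conv {R : Type*} [Semiring R] (F G : A → R) (x : A) : R := ∑ a, F a * G (x - a)

lemma InvF.conv {R : Type*} [Semiring R] {F G : A → R} (hF : InvF K F) (hG : InvF K G) :
    InvF K (conv F G) := by
  intro k hk a b
  unfold S3972.conv
  rw [← Equiv.sum_comp ((k : Equiv.Perm A).trans (Equiv.subRight (k a)))]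
  rw [← Equiv.sum_comp (Equiv.subRight a) (fun c => F c * G (b - a - c))]
  apply Finset.sum_congr rfl
  intro d _
  simp only [Equiv.trans_apply, Equiv.subRight_apply]
  rw [hF k hk a d]
  have e1 : k b - k a - (k d - k a) = k b - k d := by abel
  have e2 : b - a - (d - a) = b - d := by abel
  rw [e1, e2, hG k hk d b]

open Classical in
/-- Characteristic function. -/
noncomputable def chi (R : Type*) [Zero R] [One R] (Y : Set A) (x : A) : R := if x ∈ Y then 1 else 0

lemma InvS.chi (R : Type*) [Zero R] [One R] {Y : Set A} (h : InvS K Y) : InvF K (chi R Y) := by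
  intro k hk a b
  unfold S3972.chi
  by_cases hh : b - a ∈ Y
  · rw [if_pos hh, if_pos ((h.iff hk a b).2 hh)]
  · rw [if_neg hh, if_neg (fun h' => hh ((h.iff hk a b).1 h'))]

open Classical in
/-- Counting. -/
noncomputable def cnt (Y Z : Set A) (x : A) : ℕ := (univ.filter (fun a => a ∈ Y ∧ x - a ∈ Z)).card

open Classical in
lemma conv_chi_nat (Y Z : Set A) : S3972.conv (chi ℕ Y) (chi ℕ Z) = cnt (A := A) Y Z := by
  funext x
  unfold S3972.conv chi cnt
  rw [Finset.card_filter]
  apply Finset.sum_congr rfl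
  intro a _
  by_cases h1 : a ∈ Y <;> by_cases h2 : x - a ∈ Z <;> simp [h1, h2]

lemma InvS.cnt {Y Z : Set A} (hY : InvS K Y) (hZ : InvS K Z) : InvF K (cnt (A := A) Y Z) := by
  rw [← conv_chi_nat]
  exact (hY.chi ℕ).conv (hZ.chi ℕ)

section Alg

variable {p : ℕ} [hp : Fact p.Prime]

abbrev GA (p : ℕ) (A : Type*) := AddMonoidAlgebra (ZMod p) A

lemma coeff_mul_eq (x y : GA p A) (a : A) : (x * y).coeff a = S3972.conv x.coeff y.coeff a := by
  rw [AddMonoidAlgebra.coeff_mul_apply_left, Finsupp.sum_fintype _ _ (by simp)]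
  unfold S3972.conv
  apply Finset.sum_congr rfl
  intro b _
  congr 2
  abel

lemma InvF.pow {ξ : GA p A} (h : InvF K ξ.coeff) (n : ℕ) : InvF K (ξ ^ n).coeff := by
  induction n with
  | zero =>
    intro k hk a b
    simp only [pow_zero, AddMonoidAlgebra.one_def, AddMonoidAlgebra.coeff_single]
    classical
    rw [Finsupp.single_apply, Finsupp.single_apply]
    have : (0 : A) = k b - k a ↔ (0 : A) = b - a := by
      rw [eq_comm, sub_eq_zero, eq_comm (a := (0 : A)), sub_eq_zero]
      exact k.injective.eq_iff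
    by_cases hh : (0 : A) = b - a
    · rw [if_pos hh, if_pos (this.2 hh)]
    · rw [if_neg hh, if_neg (fun h' => hh (this.1 h'))]
  | succ n ih =>
    intro k hk a b
    rw [pow_succ, coeff_mul_eq, coeff_mul_eq]
    exact (ih.conv h) k hk a b

open Classical in
/-- The element of the group algebra of a set. -/
noncomputable def xi (p : ℕ) (Y : Set A) : GA p A :=
  ∑ a ∈ univ.filter (· ∈ Y), AddMonoidAlgebra.single a (1 : ZMod p)

instance charPGA : CharP (GA p A) p :=
  charP_of_injective_algebraMap (algebraMap (ZMod p) (GA p A)).injective p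

open Classical in
lemma xi_pow_coeff (Y : Set A) (x : A) :
    ((xi p Y) ^ p).coeff x = (((univ.filter (· ∈ Y)).filter (fun a => p • a = x)).card : ZMod p) := by
  unfold xi
  rw [sum_pow_char]
  simp only [AddMonoidAlgebra.single_pow, one_pow]
  rw [Finset.card_filter, Nat.cast_sum]
  have : (∑ i ∈ univ.filter (· ∈ Y), AddMonoidAlgebra.single (p • i) (1 : ZMod p)).coeff x
      = ∑ i ∈ univ.filter (· ∈ Y), (AddMonoidAlgebra.single (p • i) (1 : ZMod p)).coeff x := by
    induction (univ.filter (· ∈ Y) : Finset A) using Finset.induction_on with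
    | empty => simp
    | insert a s ha ih =>
      rw [Finset.sum_insert ha, Finset.sum_insert ha, AddMonoidAlgebra.coeff_add, Finsupp.add_apply, ih]
  rw [this]
  apply Finset.sum_congr rfl
  intro a _
  rw [AddMonoidAlgebra.coeff_single, Finsupp.single_apply]
  split_ifs <;> simp

open Classical in
lemma xi_coeff (Y : Set A) : (xi p Y).coeff = chi (ZMod p) Y := by
  funext x
  unfold xi chi
  have : (∑ i ∈ univ.filter (· ∈ Y), AddMonoidAlgebra.single i (1 : ZMod p)).coeff x
      = ∑ i ∈ univ.filter (· ∈ Y), (AddMonoidAlgebra.single i (1 : ZMod p)).coeff x := by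
    induction (univ.filter (· ∈ Y) : Finset A) using Finset.induction_on with
    | empty => simp
    | insert a s ha ih =>
      rw [Finset.sum_insert ha, Finset.sum_insert ha, AddMonoidAlgebra.coeff_add, Finsupp.add_apply, ih]
  rw [this]
  simp only [AddMonoidAlgebra.coeff_single, Finsupp.single_apply]
  rw [Finset.sum_ite_eq']
  simp

end Alg

section Main

variable {p : ℕ} [hp : Fact p.Prime] {U : AddSubgroup A}

open Classical in
/-- A `U`-stable finite set has cardinality divisible by `p`. -/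
lemma dvd_card_of_stable (hUcard : Nat.card U = p) (T : Finset A)
    (hT : ∀ a ∈ T, ∀ u ∈ U, a + u ∈ T) : p ∣ T.card := by
  obtain ⟨u₀, hu₀U, hu₀⟩ : ∃ u₀ ∈ U, u₀ ≠ 0 := by
    have : Nontrivial U := by
      rw [← Finite.one_lt_card_iff_nontrivial, hUcard]; exact hp.out.one_lt
    obtain ⟨⟨x, hx⟩, hx0⟩ := exists_ne (0 : U)
    exact ⟨x, hx, fun h => hx0 (Subtype.ext h)⟩
  have hpu : p • u₀ = 0 := by
    have : p • (⟨u₀, hu₀U⟩ : U) = 0 := by
      rw [← hUcard]; exact card_nsmul_eq_zero'
    exact congrArg Subtype.val this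
  let f : Function.End T := fun a => ⟨a.1 + u₀, hT a.1 a.2 u₀ hu₀U⟩
  have hf : ∀ n : ℕ, ∀ a : T, ((f ^ n) a).1 = a.1 + n • u₀ := by
    intro n
    induction n with
    | zero => intro a; rw [pow_zero, zero_nsmul, add_zero]; rfl
    | succ n ih =>
      intro a
      rw [pow_succ']
      change ((f ^ n) a).1 + u₀ = _
      rw [ih, add_assoc, succ_nsmul]
  have hfp : f ^ p ^ 1 = 1 := by
    funext a
    apply Subtype.ext
    rw [pow_one, hf, hpu, add_zero]
    rfl
  have := Equiv.Perm.card_fixedPoints_modEq (f := f) (p := p) (n := 1) hfp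
  have hno : IsEmpty (Function.fixedPoints (f : T → T)) := by
    refine ⟨fun ⟨a, ha⟩ => hu₀ ?_⟩
    have : (f a).1 = a.1 := congrArg Subtype.val ha
    exact add_eq_left.mp this
  have h0 : Fintype.card (Function.fixedPoints (f : T → T)) = 0 := Fintype.card_eq_zero_iff.2 hno
  rw [h0, Fintype.card_coe] at this
  exact Nat.modEq_zero_iff_dvd.mp this

/-- Hypothesis: no proper nontrivial invariant subgroup. -/
def NoW (K : Subgroup (Equiv.Perm A)) : Prop :=
  ∀ W : AddSubgroup A, InvS K (W : Set A) → W = ⊥ ∨ W = ⊤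

open Classical in
lemma step1 (hUcard : Nat.card U = p) (hUmem : ∀ x, x ∈ U ↔ p • x = 0)
    (hW : NoW K) {Y : Set A} (hY : InvS K Y) :
    ∀ a ∈ Y, a ∉ U → ∀ u ∈ U, a + u ∈ Y := by
  intro a₀ ha₀ ha₀U
  set ζ : GA p A := (xi p Y) ^ p with hζ
  have hinv : InvF K ζ.coeff := by
    apply InvF.pow
    rw [xi_coeff]
    exact hY.chi _
  let X : Set A := {x | x ≠ 0 ∧ ζ.coeff x ≠ 0}
  have hX : InvS K X := by
    intro k hk a b hab
    refine ⟨?_, ?_⟩
    · intro h0
      apply hab.1
      rw [sub_eq_zero] at h0 ⊢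
      exact k.injective h0
    · rw [hinv k hk a b]; exact hab.2
  have hXsub : ∀ x ∈ X, ∃ a, p • a = x := by
    intro x hx
    have := hx.2
    rw [hζ, xi_pow_coeff] at this
    have h1 : ((univ.filter (· ∈ Y)).filter (fun a => p • a = x)).Nonempty := by
      rw [Finset.nonempty_iff_ne_empty]
      intro h
      rw [h] at this
      simp at this
    obtain ⟨a, ha⟩ := h1
    exact ⟨a, (Finset.mem_filter.mp ha).2⟩
  have hnot : ¬ Function.Surjective (fun a : A => p • a) := by
    intro hs
    have hi : Function.Injective (fun a : A => p • a) := Finite.injective_iff_surjective.mpr hs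
    have : Nontrivial U := by
      rw [← Finite.one_lt_card_iff_nontrivial, hUcard]; exact hp.out.one_lt
    obtain ⟨⟨x, hx⟩, hx0⟩ := exists_ne (0 : U)
    apply hx0
    apply Subtype.ext
    apply hi
    simp only [ZeroMemClass.coe_zero, smul_zero]
    exact (hUmem x).1 hx
  have hbot : AddSubgroup.closure X = ⊥ := by
    rcases hW _ hX.closure with h | h
    · exact h
    · exfalso
      apply hnot
      intro y
      have hy : y ∈ AddSubgroup.closure X := by rw [h]; trivial
      induction hy using AddSubgroup.closure_induction with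
      | mem x hx => exact hXsub x hx
      | zero => exact ⟨0, by simp⟩
      | add x y _ _ ihx ihy =>
        obtain ⟨a, ha⟩ := ihx
        obtain ⟨b, hb⟩ := ihy
        exact ⟨a + b, by simp only at ha hb ⊢; rw [smul_add, ha, hb]⟩
      | neg x _ ih =>
        obtain ⟨a, ha⟩ := ih
        exact ⟨-a, by simp only at ha ⊢; rw [smul_neg, ha]⟩
  have hzero : ∀ x, x ≠ 0 → ζ.coeff x = 0 := by
    intro x hx
    by_contra hne
    have : x ∈ AddSubgroup.closure X := AddSubgroup.subset_closure ⟨hx, hne⟩
    rw [hbot] at this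
    exact hx (by simpa using this)
  have hx0 : p • a₀ ≠ 0 := fun h => ha₀U ((hUmem a₀).2 h)
  have hc := hzero _ hx0
  rw [hζ, xi_pow_coeff, ZMod.natCast_eq_zero_iff] at hc
  set S := (univ.filter (· ∈ Y)).filter (fun a => p • a = p • a₀) with hS
  have ha₀S : a₀ ∈ S := by simp [hS, ha₀]
  have hSpos : 0 < S.card := Finset.card_pos.mpr ⟨_, ha₀S⟩
  have hcardge : p ≤ S.card := Nat.le_of_dvd hSpos hc
  let Uf : Finset A := univ.filter (· ∈ U)
  have hUf : Uf.card = p := by
    rw [← hUcard, Nat.card_eq_fintype_card, Fintype.card_subtype]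
  have hsub : S.image (fun a => a - a₀) ⊆ Uf := by
    intro x hx
    obtain ⟨a, ha, rfl⟩ := Finset.mem_image.mp hx
    have hpa := (Finset.mem_filter.mp ha).2
    simp only [Uf, Finset.mem_filter, Finset.mem_univ, true_and]
    rw [hUmem, smul_sub, hpa, sub_self]
  have hcard : Uf.card ≤ (S.image (fun a => a - a₀)).card := by
    rw [Finset.card_image_of_injective _ (sub_left_injective), hUf]
    exact hcardge
  have heq := Finset.eq_of_subset_of_card_le hsub hcard
  intro u hu
  have : u ∈ S.image (fun a => a - a₀) := by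
    rw [heq]; simp [Uf, hu]
  obtain ⟨a, ha, rfl⟩ := Finset.mem_image.mp this
  have : a ∈ Y := by
    have := (Finset.mem_filter.mp ha).1
    simpa using this
  simpa using this

lemma InvS.neg {Y : Set A} (hY : InvS K Y) : InvS K {x | -x ∈ Y} := by
  intro k hk a b hab
  simp only [Set.mem_ofPred_eq, neg_sub] at hab ⊢
  exact hY k hk b a hab

open Classical in
lemma step2 (hUcard : Nat.card U = p) (hUmem : ∀ x, x ∈ U ↔ p • x = 0)
    (hW : NoW K) {Y : Set A} (hY : InvS K Y) (h0 : (0 : A) ∉ Y) (hne : Y.Nonempty) :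
    ∃ u ∈ U, u ∈ Y := by
  by_contra hcon
  push Not at hcon
  have hstab : ∀ a ∈ Y, ∀ u ∈ U, a + u ∈ Y := fun a ha u hu =>
    step1 hUcard hUmem hW hY a ha (fun h => hcon a h ha) u hu
  let R : AddSubgroup A :=
    { carrier := {c | ∀ a, a ∈ Y ↔ a - c ∈ Y}
      zero_mem' := by intro a; simp
      add_mem' := by
        intro c d hc hd a
        rw [hc a, hd (a - c)]
        rw [sub_sub]
      neg_mem' := by
        intro c hc a
        have := hc (a + c)
        rw [add_sub_cancel_right] at this
        rw [sub_neg_eq_add]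
        exact this.symm }
  have hRmem : ∀ c, c ∈ R ↔ ∀ a, a ∈ Y ↔ a - c ∈ Y := fun c => Iff.rfl
  have hF := hY.cnt hY.neg
  let Yf : Finset A := univ.filter (· ∈ Y)
  have hcnt : ∀ c, c ∈ R ↔ cnt Y {x | -x ∈ Y} c = Yf.card := by
    intro c
    have hfilter : univ.filter (fun a => a ∈ Y ∧ c - a ∈ {x | -x ∈ Y}) ⊆ Yf := by
      intro a ha
      simp only [Finset.mem_filter, Finset.mem_univ, true_and, Yf] at ha ⊢
      exact ha.1
    constructor
    · intro hc
      unfold cnt
      congr 1
      ext a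
      simp only [Finset.mem_filter, Finset.mem_univ, true_and, Yf, Set.mem_ofPred_eq, neg_sub]
      exact ⟨fun h => h.1, fun h => ⟨h, (hc a).1 h⟩⟩
    · intro hc
      have heq := Finset.eq_of_subset_of_card_le hfilter hc.ge
      have hsub : ∀ a ∈ Y, a - c ∈ Y := by
        intro a ha
        have : a ∈ univ.filter (fun a => a ∈ Y ∧ c - a ∈ {x | -x ∈ Y}) := by
          rw [heq]; simp [Yf, ha]
        have := (Finset.mem_filter.mp this).2.2
        simpa using this
      have himg : Yf.image (fun a => a - c) = Yf := by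
        apply Finset.eq_of_subset_of_card_le
        · intro x hx
          obtain ⟨a, ha, rfl⟩ := Finset.mem_image.mp hx
          simp only [Yf, Finset.mem_filter, Finset.mem_univ, true_and] at ha ⊢
          exact hsub a ha
        · rw [Finset.card_image_of_injective _ sub_left_injective]
      intro a
      refine ⟨hsub a, fun h => ?_⟩
      have : a - c ∈ Yf.image (fun a => a - c) := by
        rw [himg]; simp [Yf, h]
      obtain ⟨a', ha', he⟩ := Finset.mem_image.mp this
      have : a' = a := sub_left_injective he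
      subst this
      simpa [Yf] using ha'
  have hRinv : InvS K (R : Set A) := by
    intro k hk a b hab
    change k b - k a ∈ R
    rw [hcnt, hF k hk a b, ← hcnt]
    exact hab
  rcases hW R hRinv with h | h
  · -- `U ≤ R`
    have : Nontrivial U := by
      rw [← Finite.one_lt_card_iff_nontrivial, hUcard]; exact hp.out.one_lt
    obtain ⟨⟨x, hx⟩, hx0⟩ := exists_ne (0 : U)
    have : x ∈ R := by
      rw [hRmem]
      intro a
      constructor
      · intro ha
        have := hstab a ha (-x) (neg_mem hx)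
        rwa [← sub_eq_add_neg] at this
      · intro ha
        have := hstab _ ha x hx
        simpa using this
    rw [h] at this
    exact hx0 (Subtype.ext (by simpa using this))
  · obtain ⟨a, ha⟩ := hne
    have : a ∈ R := by rw [h]; trivial
    have := ((hRmem a).1 this a).1 ha
    rw [sub_self] at this
    exact h0 this

open Classical in
lemma step3 (hUcard : Nat.card U = p) {Yi Yj : Set A}
    (hdis : ∀ a, a ∈ Yi → a ∉ Yj) (hj0 : (0 : A) ∉ Yj)
    (Si : ∀ a ∈ Yi, a ∉ U → ∀ u ∈ U, a + u ∈ Yi) (Sj : ∀ a ∈ Yj, a ∉ U → ∀ u ∈ U, a + u ∈ Yj)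
    {u y : A} (huU : u ∈ U) (huY : u ∈ Yi) (hyU : y ∉ U) (hyY : y ∈ Yi)
    (hcnt : cnt Yi Yj y = cnt Yi Yj u) :
    ∀ b ∈ U, b ∈ Yj → u - b ∈ Yi := by
  -- the part of a fibre avoiding `U`
  let T : A → Finset A := fun x => univ.filter (fun a => a ∈ Yi ∧ x - a ∈ Yj ∧ a ∉ U ∧ x - a ∉ U)
  have hT : ∀ x, p ∣ (T x).card := by
    intro x
    apply dvd_card_of_stable hUcard
    intro a ha v hv
    simp only [T, Finset.mem_filter, Finset.mem_univ, true_and] at ha ⊢
    obtain ⟨h1, h2, h3, h4⟩ := ha
    refine ⟨Si a h1 h3 v hv, ?_, ?_, ?_⟩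
    · have := Sj _ h2 h4 (-v) (neg_mem hv)
      have e : x - (a + v) = x - a + -v := by abel
      rwa [e]
    · intro h
      exact h3 (by simpa using sub_mem h hv)
    · intro h
      apply h4
      have e : x - a = x - (a + v) + v := by abel
      rw [e]
      exact add_mem h hv
  let Aj : Finset A := univ.filter (fun b => b ∈ U ∧ b ∈ Yj)
  let E : Finset A := univ.filter (fun a => a ∈ Yi ∧ a ∈ U ∧ u - a ∈ Yj)
  have hsplit : ∀ x, cnt Yi Yj x = (T x).card +
      (univ.filter (fun a => a ∈ Yi ∧ x - a ∈ Yj ∧ ¬ (a ∉ U ∧ x - a ∉ U))).card := by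
    intro x
    unfold cnt
    rw [← Finset.card_union_of_disjoint]
    · congr 1
      ext a
      simp only [T, Finset.mem_filter, Finset.mem_univ, true_and, Finset.mem_union]
      tauto
    · rw [Finset.disjoint_left]
      intro a ha hb
      simp only [T, Finset.mem_filter, Finset.mem_univ, true_and] at ha hb
      exact hb.2.2 ha.2.2
  have hy : (univ.filter (fun a => a ∈ Yi ∧ y - a ∈ Yj ∧ ¬ (a ∉ U ∧ y - a ∉ U))).card = Aj.card := by
    apply Finset.card_bij (fun a _ => y - a)
    · intro a ha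
      simp only [Finset.mem_filter, Finset.mem_univ, true_and, Aj] at ha ⊢
      obtain ⟨h1, h2, h3⟩ := ha
      refine ⟨?_, h2⟩
      by_contra hya
      have haU : a ∈ U := by
        by_contra haU
        exact h3 ⟨haU, hya⟩
      have := Sj _ h2 hya a haU
      rw [sub_add_cancel] at this
      exact hdis y hyY this
    · intro a _ b _ h
      exact sub_right_injective h
    · intro b hb
      simp only [Finset.mem_filter, Finset.mem_univ, true_and, Aj] at hb
      refine ⟨y - b, ?_, by abel⟩
      simp only [Finset.mem_filter, Finset.mem_univ, true_and, sub_sub_cancel]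
      refine ⟨?_, hb.2, fun h => h.2 hb.1⟩
      have := Si y hyY hyU (-b) (neg_mem hb.1)
      rwa [← sub_eq_add_neg] at this
  have hu : (univ.filter (fun a => a ∈ Yi ∧ u - a ∈ Yj ∧ ¬ (a ∉ U ∧ u - a ∉ U))).card = E.card := by
    congr 1
    ext a
    simp only [Finset.mem_filter, Finset.mem_univ, true_and, E]
    constructor
    · rintro ⟨h1, h2, h3⟩
      refine ⟨h1, ?_, h2⟩
      by_contra haU
      apply h3
      refine ⟨haU, fun h => haU ?_⟩
      have e : a = u - (u - a) := by abel
      rw [e]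
      exact sub_mem huU h
    · rintro ⟨h1, h2, h3⟩
      exact ⟨h1, h3, fun h => h.1 h2⟩
  have hEimg : E.image (fun a => u - a) ⊆ Aj := by
    intro b hb
    obtain ⟨a, ha, rfl⟩ := Finset.mem_image.mp hb
    simp only [Finset.mem_filter, Finset.mem_univ, true_and, E, Aj] at ha ⊢
    exact ⟨sub_mem huU ha.2.1, ha.2.2⟩
  have hEcard : (E.image (fun a => u - a)).card = E.card :=
    Finset.card_image_of_injective _ sub_right_injective
  have hAj : Aj.card < p := by
    have h1 : Aj ⊂ univ.filter (· ∈ U) := by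
      rw [Finset.ssubset_iff_of_subset]
      · refine ⟨0, ?_, ?_⟩
        · simp
        · simp [Aj, hj0]
      · intro b hb
        simp only [Finset.mem_filter, Finset.mem_univ, true_and, Aj] at hb ⊢
        exact hb.1
    have h2 := Finset.card_lt_card h1
    have h3 : (univ.filter (· ∈ U)).card = p := by
      rw [← hUcard, Nat.card_eq_fintype_card, Fintype.card_subtype]
    omega
  have hEle : E.card ≤ Aj.card := by
    rw [← hEcard]; exact Finset.card_le_card hEimg
  have hmod : E.card ≡ Aj.card [MOD p] := by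
    have h1 := hsplit y
    have h2 := hsplit u
    rw [hy] at h1
    rw [hu] at h2
    rw [hcnt, h2] at h1
    obtain ⟨c, hc⟩ := hT u
    obtain ⟨d, hd⟩ := hT y
    rw [hc, hd] at h1
    have h3 : (p * c + E.card) ≡ (p * d + Aj.card) [MOD p] := by rw [h1]
    simpa [Nat.ModEq, Nat.add_mod] using h3
  have hEq : E.card = Aj.card := Nat.ModEq.eq_of_lt_of_lt hmod (lt_of_le_of_lt hEle hAj) hAj
  have himg : E.image (fun a => u - a) = Aj := by
    apply Finset.eq_of_subset_of_card_le hEimg
    rw [hEcard, hEq]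
  intro b hbU hbY
  have : b ∈ E.image (fun a => u - a) := by
    rw [himg]; simp [Aj, hbU, hbY]
  obtain ⟨a, ha, rfl⟩ := Finset.mem_image.mp this
  simp only [Finset.mem_filter, Finset.mem_univ, true_and, E] at ha
  simpa using ha.1

/-- The stabilizer orbit of a point. -/
def orb (K : Subgroup (Equiv.Perm A)) (x : A) : Set A := {y | ∃ k ∈ K, k 0 = 0 ∧ k x = y}

lemma orb_inv (htr : ∀ x : A, Equiv.addLeft x ∈ K) (x : A) : InvS K (orb K x) := by
  rintro k hk a b ⟨k₀, hk₀, h0, hx⟩
  refine ⟨(Equiv.addLeft (-(k a))) * k * (Equiv.addLeft a) * k₀,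
    mul_mem (mul_mem (mul_mem (htr _) hk) (htr _)) hk₀, ?_, ?_⟩
  · simp [h0]
  · simp only [Equiv.Perm.coe_mul, Function.comp_apply, Equiv.coe_addLeft, hx]
    rw [add_sub_cancel]
    abel

end Main

/-- Core theorem. -/
theorem core {p : ℕ} [hp : Fact p.Prime] {U : AddSubgroup A} (hUcard : Nat.card U = p)
    (hUmem : ∀ x, x ∈ U ↔ p • x = 0) (hUtop : U ≠ ⊤)
    (K : Subgroup (Equiv.Perm A)) (htr : ∀ x : A, Equiv.addLeft x ∈ K)
    (h2 : ¬ ∀ x y : A, x ≠ 0 → y ≠ 0 → ∃ k ∈ K, k 0 = 0 ∧ k x = y) :
    ∃ W : AddSubgroup A, W ≠ ⊥ ∧ W ≠ ⊤ ∧ InvS K (W : Set A) := by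
  by_contra hno
  have hW : NoW K := by
    intro W hWinv
    by_contra hcon
    push Not at hcon
    exact hno ⟨W, hcon.1, hcon.2, hWinv⟩
  push Not at h2
  obtain ⟨x₁, x₂, h1, h2', hno12⟩ := h2
  have horbmem : ∀ x : A, x ∈ orb K x := fun x => ⟨1, K.one_mem, rfl, rfl⟩
  have horb0 : ∀ x : A, x ≠ 0 → (0 : A) ∉ orb K x := by
    rintro x hx ⟨k, _, h0, hk⟩
    apply hx
    apply k.injective
    rw [hk, h0]
  have hYi := orb_inv htr x₁
  have hYj := orb_inv htr x₂
  have hnotsub : ∀ x : A, x ≠ 0 → ∃ y ∈ orb K x, y ∉ U := by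
    intro x hx
    by_contra hcon
    push Not at hcon
    rcases hW _ (orb_inv htr x).closure with h | h
    · have : x ∈ AddSubgroup.closure (orb K x) := AddSubgroup.subset_closure (horbmem x)
      rw [h] at this
      exact hx (by simpa using this)
    · apply hUtop
      rw [eq_top_iff, ← h]
      exact (AddSubgroup.closure_le U).2 hcon
  have hdis : ∀ a, a ∈ orb K x₁ → a ∉ orb K x₂ := by
    rintro a ⟨k, hk, h0, hka⟩ ⟨k', hk', h0', hka'⟩
    apply hno12 (k'⁻¹ * k) (mul_mem (K.inv_mem hk') hk)
    · simp only [Equiv.Perm.coe_mul, Function.comp_apply, h0]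
      rw [Equiv.Perm.inv_eq_iff_eq, h0']
    · simp only [Equiv.Perm.coe_mul, Function.comp_apply, hka]
      rw [Equiv.Perm.inv_eq_iff_eq, hka']
  obtain ⟨u, huU, huY⟩ := step2 hUcard hUmem hW hYi (horb0 x₁ h1) ⟨x₁, horbmem x₁⟩
  obtain ⟨y, hyY, hyU⟩ := hnotsub x₁ h1
  obtain ⟨b, hbU, hbY⟩ := step2 hUcard hUmem hW hYj (horb0 x₂ h2') ⟨x₂, horbmem x₂⟩
  have Si := step1 hUcard hUmem hW hYi
  have Sj := step1 hUcard hUmem hW hYj
  have hconj : ∀ v ∈ orb K x₁, cnt (orb K x₁) (orb K x₂) y = cnt (orb K x₁) (orb K x₂) v := by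
    rintro v ⟨k, hk, h0, hkv⟩
    obtain ⟨k', hk', h0', hkv'⟩ := hyY
    have := (hYi.cnt hYj) (k' * k⁻¹) (mul_mem hk' (K.inv_mem hk)) 0 v
    simp only [Equiv.Perm.coe_mul, Function.comp_apply] at this
    have e0 : k⁻¹ 0 = 0 := by rw [Equiv.Perm.inv_eq_iff_eq, h0]
    have e1 : k⁻¹ v = x₁ := by rw [Equiv.Perm.inv_eq_iff_eq, hkv]
    rw [e0, e1, h0', hkv', sub_zero, sub_zero] at this
    exact this
  have hiter : ∀ n : ℕ, ∀ v ∈ U, v ∈ orb K x₁ → v - n • b ∈ orb K x₁ ∧ v - n • b ∈ U := by
    intro n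
    induction n with
    | zero => intro v hv hv'; simpa using ⟨hv', hv⟩
    | succ n ih =>
      intro v hv hv'
      obtain ⟨h3, h4⟩ := ih v hv hv'
      have := step3 hUcard hdis (horb0 x₂ h2') Si Sj h4 h3 hyU hyY (hconj _ h3) b hbU hbY
      have e : v - (n + 1) • b = v - n • b - b := by rw [succ_nsmul]; abel
      rw [e]
      exact ⟨this, sub_mem h4 hbU⟩
  -- `b` generates `U`
  have hb0 : (⟨b, hbU⟩ : U) ≠ 0 := by
    intro h
    apply horb0 x₂ h2'
    have : b = 0 := congrArg Subtype.val h
    rwa [← this]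
  have hmem := mem_multiples_of_prime_card hUcard hb0 (g' := ⟨u, huU⟩)
  obtain ⟨n, hn⟩ := AddSubmonoid.mem_multiples_iff _ _ |>.1 hmem
  have hn' : n • b = u := congrArg Subtype.val hn
  have := (hiter n u huU huY).1
  rw [hn', sub_self] at this
  exact horb0 x₁ h1 this

end Core

lemma exists_full {Ω : Type*} [Fintype Ω] {p m : ℕ} (hp : p.Prime) (hm : 1 ≤ m) (γ : Equiv.Perm Ω)
    (hγ : orderOf γ = p ^ m) : ∃ ω₀, Function.minimalPeriod γ ω₀ = p ^ m := by
  by_contra hcon
  push Not at hcon
  have hfix : ∀ ω, (γ ^ (p ^ (m - 1))) ω = ω := by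
    intro ω
    have h1 : Function.IsPeriodicPt γ (p ^ m) ω := by
      unfold Function.IsPeriodicPt Function.IsFixedPt
      rw [Equiv.Perm.iterate_eq_pow, ← hγ, pow_orderOf_eq_one]
      rfl
    have h2 := h1.minimalPeriod_dvd
    obtain ⟨e, he, h3⟩ := (Nat.dvd_prime_pow hp).1 h2
    have h4 : e ≠ m := by
      rintro rfl
      exact hcon ω h3
    have h5 : Function.minimalPeriod γ ω ∣ p ^ (m - 1) := by
      rw [h3]; exact pow_dvd_pow p (by omega)
    have h6 := (Function.isPeriodicPt_minimalPeriod γ ω).trans_dvd h5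
    unfold Function.IsPeriodicPt Function.IsFixedPt at h6
    rwa [Equiv.Perm.iterate_eq_pow] at h6
  have h1 : γ ^ (p ^ (m - 1)) = 1 := Equiv.ext hfix
  have h2 := orderOf_dvd_of_pow_eq_one h1
  rw [hγ] at h2
  have h3 := (Nat.pow_dvd_pow_iff_le_right hp.one_lt).1 h2
  omega

/-- Let `p` be a prime, `m ≥ 2`, and `G` a transitive but not doubly transitive permutation group on `p ^ m` points containing a permutation of order `p ^ m` (necessarily a full cycle). Then `G` is imprimitive, and the normal closure in `G` of the `p ^ (m - 1)`-th power of that permutation is an intransitive normal subgroup. -/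
theorem result {Ω : Type*} [Fintype Ω] [DecidableEq Ω] (p m : ℕ) (hp : p.Prime) (hm : 2 ≤ m) (hΩ : Fintype.card Ω = p ^ m) (G : Subgroup (Equiv.Perm Ω)) (htr : MulAction.IsPretransitive G Ω) (h2 : ¬ MulAction.IsMultiplyPretransitive G Ω 2) (g : G) (hg : orderOf g = p ^ m) : ¬ MulAction.IsPreprimitive G Ω ∧ ¬ MulAction.IsPretransitive (Subgroup.normalClosure ({g ^ (p ^ (m - 1))} : Set G)) Ω := by
  have : Fact p.Prime := ⟨hp⟩
  have : NeZero (p ^ m) := ⟨pow_ne_zero _ hp.ne_zero⟩
  set γ : Equiv.Perm Ω := (g : Equiv.Perm Ω) with hγdef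
  have hγ : orderOf γ = p ^ m := by rw [hγdef, Subgroup.orderOf_coe, hg]
  obtain ⟨ω₀, hω₀⟩ := exists_full hp (by omega) γ hγ
  let φ : ZMod (p ^ m) → Ω := fun x => (γ ^ x.val) ω₀
  have hφinj : Function.Injective φ := by
    intro x y hxy
    have h1 := Function.iterate_injOn_Iio_minimalPeriod (f := γ) (x := ω₀)
    have hx : x.val ∈ Set.Iio (Function.minimalPeriod γ ω₀) := by
      rw [hω₀]; exact ZMod.val_lt x
    have hy : y.val ∈ Set.Iio (Function.minimalPeriod γ ω₀) := by
      rw [hω₀]; exact ZMod.val_lt y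
    have h2 := h1 hx hy (by simpa only [Equiv.Perm.iterate_eq_pow] using hxy)
    exact ZMod.val_injective _ h2
  have hφbij : Function.Bijective φ :=
    (Fintype.bijective_iff_injective_and_card φ).2 ⟨hφinj, by rw [ZMod.card, hΩ]⟩
  let e : ZMod (p ^ m) ≃ Ω := Equiv.ofBijective φ hφbij
  have hshift : ∀ (n : ℕ) (x : ZMod (p ^ m)), (γ ^ n) (e x) = e ((n : ZMod (p ^ m)) + x) := by
    intro n x
    change (γ ^ n) ((γ ^ x.val) ω₀) = (γ ^ ((n : ZMod (p ^ m)) + x).val) ω₀
    rw [← Equiv.Perm.mul_apply, ← pow_add]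
    have h1 : ((n : ZMod (p ^ m)) + x).val = (n + x.val) % p ^ m := by
      rw [ZMod.val_add, ZMod.val_natCast]; simp [Nat.add_mod]
    rw [h1]
    have h2 : γ ^ ((n + x.val) % p ^ m) = γ ^ (n + x.val) := by
      have h3 := pow_mod_orderOf γ (n + x.val)
      rwa [hγ] at h3
    rw [h2]
  let K : Subgroup (Equiv.Perm (ZMod (p ^ m))) := G.comap (Equiv.permCongrHom e).toMonoidHom
  have hKmem : ∀ k, k ∈ K ↔ e.permCongr k ∈ G := fun k => Iff.rfl
  let cn : G → Equiv.Perm (ZMod (p ^ m)) := fun n => e.symm.permCongr (n : Equiv.Perm Ω)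
  have hcn : ∀ n, cn n ∈ K := by
    intro n
    rw [hKmem]
    have : e.permCongr (cn n) = (n : Equiv.Perm Ω) := by
      ext ω
      simp [cn, Equiv.permCongr_apply]
    rw [this]
    exact n.2
  have hcnapply : ∀ n x, cn n x = e.symm ((n : Equiv.Perm Ω) (e x)) := by
    intro n x
    simp [cn, Equiv.permCongr_apply]
  have htrans : ∀ x : ZMod (p ^ m), Equiv.addLeft x ∈ K := by
    intro x
    rw [hKmem]
    have : e.permCongr (Equiv.addLeft x) = γ ^ x.val := by
      ext ω
      obtain ⟨y, rfl⟩ := e.surjective ω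
      rw [hshift, ZMod.natCast_zmod_val]
      simp [Equiv.permCongr_apply]
    rw [this]
    exact pow_mem g.2 _
  -- the subgroup of order p
  let u₀ : ZMod (p ^ m) := ((p ^ (m - 1) : ℕ) : ZMod (p ^ m))
  let U : AddSubgroup (ZMod (p ^ m)) := AddSubgroup.zmultiples u₀
  have hpow : p ^ m = p * p ^ (m - 1) := by
    rw [← pow_succ']
    congr 1
    omega
  have hUcard : Nat.card U = p := by
    rw [Nat.card_zmultiples, ZMod.addOrderOf_coe _ (pow_ne_zero _ hp.ne_zero)]
    rw [Nat.gcd_eq_right (pow_dvd_pow p (by omega)), hpow]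
    exact Nat.mul_div_cancel _ (pow_pos hp.pos _)
  have hUmem : ∀ x, x ∈ U ↔ p • x = 0 := by
    intro x
    constructor
    · rintro ⟨z, rfl⟩
      have h1 : p • u₀ = 0 := by
        have : p • u₀ = ((p ^ m : ℕ) : ZMod (p ^ m)) := by
          simp only [u₀, nsmul_eq_mul]
          rw [hpow]
          push_cast
          ring
        rw [this, ZMod.natCast_self]
      simp only
      rw [smul_comm, h1, smul_zero]
    · intro h
      have h1 : ((p * x.val : ℕ) : ZMod (p ^ m)) = 0 := by
        push_cast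
        rw [ZMod.natCast_zmod_val]
        simpa [nsmul_eq_mul] using h
      rw [ZMod.natCast_eq_zero_iff] at h1
      have h2 : p ^ (m - 1) ∣ x.val := Nat.dvd_of_mul_dvd_mul_left hp.pos (hpow ▸ h1)
      obtain ⟨c, hc⟩ := h2
      refine ⟨(c : ℤ), ?_⟩
      have h3 : x = ((x.val : ℕ) : ZMod (p ^ m)) := (ZMod.natCast_zmod_val x).symm
      simp only [u₀]
      rw [h3, hc]
      push_cast
      simp only [zsmul_eq_mul, Int.cast_natCast]
      ring
  have hUtop : U ≠ ⊤ := by
    intro h
    have h1 : Nat.card U = p ^ m := by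
      rw [h, AddSubgroup.card_top, Nat.card_eq_fintype_card, ZMod.card]
    rw [hUcard] at h1
    have h3 : p ^ 1 < p ^ m := Nat.pow_lt_pow_right hp.one_lt (by omega)
    rw [pow_one] at h3
    omega
  have h2' : ¬ ∀ x y : ZMod (p ^ m), x ≠ 0 → y ≠ 0 → ∃ k ∈ K, k 0 = 0 ∧ k x = y := by
    intro hall
    apply h2
    rw [MulAction.is_two_pretransitive_iff]
    intro a b c d hab hcd
    obtain ⟨a', rfl⟩ := e.surjective a
    obtain ⟨b', rfl⟩ := e.surjective b
    obtain ⟨c', rfl⟩ := e.surjective c
    obtain ⟨d', rfl⟩ := e.surjective d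
    have hne1 : b' - a' ≠ 0 := fun h => hab (by rw [sub_eq_zero.mp h])
    have hne2 : d' - c' ≠ 0 := fun h => hcd (by rw [sub_eq_zero.mp h])
    obtain ⟨k, hk, hk0, hkx⟩ := hall _ _ hne1 hne2
    let k' := Equiv.addLeft c' * k * Equiv.addLeft (-a')
    have hk' : k' ∈ K := mul_mem (mul_mem (htrans _) hk) (htrans _)
    refine ⟨⟨e.permCongr k', (hKmem k').1 hk'⟩, ?_, ?_⟩
    · change (e.permCongr k') (e a') = e c'
      rw [Equiv.permCongr_apply, Equiv.symm_apply_apply]
      simp [k', hk0]
    · change (e.permCongr k') (e b') = e d'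
      rw [Equiv.permCongr_apply, Equiv.symm_apply_apply]
      have e1 : -a' + b' = b' - a' := by abel
      simp [k', e1, hkx]
  obtain ⟨W, hWbot, hWtop, hWinv⟩ := core hUcard hUmem hUtop K htrans h2'
  obtain ⟨w₁, hw₁, hw₁0⟩ : ∃ w ∈ W, w ≠ 0 := by
    obtain ⟨w, hw⟩ := (AddSubgroup.ne_bot_iff_exists_ne_zero).1 hWbot
    exact ⟨w.1, w.2, fun h => hw (Subtype.ext h)⟩
  obtain ⟨y₁, hy₁⟩ : ∃ y, y ∉ W := by
    by_contra hcon
    push Not at hcon
    exact hWtop (eq_top_iff.2 fun x _ => hcon x)
  -- `u₀ ∈ W`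
  have hu₀W : u₀ ∈ W := by
    have hdvd : p ∣ Nat.card W := by
      have h1 : Nat.card W ∣ p ^ m := by
        have := AddSubgroup.card_addSubgroup_dvd_card W
        rwa [Nat.card_eq_fintype_card (α := ZMod (p ^ m)), ZMod.card] at this
      obtain ⟨j, _, hj⟩ := (Nat.dvd_prime_pow hp).1 h1
      rw [hj]
      have hj0 : j ≠ 0 := by
        rintro rfl
        rw [pow_zero] at hj
        exact hWbot ((AddSubgroup.eq_bot_iff_card W).2 hj)
      exact dvd_pow_self p hj0
    obtain ⟨w, hw⟩ := exists_prime_addOrderOf_dvd_card' p hdvd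
    have h1 : p • (w : ZMod (p ^ m)) = 0 := by
      have := addOrderOf_nsmul_eq_zero w
      rw [hw] at this
      exact congrArg Subtype.val this
    have hwU := (hUmem _).2 h1
    have hw0 : (⟨w, hwU⟩ : U) ≠ 0 := by
      intro h
      have h2 : (w : ZMod (p ^ m)) = 0 := congrArg Subtype.val h
      have h3 : w = 0 := Subtype.ext h2
      rw [h3, addOrderOf_zero] at hw
      exact hp.one_lt.ne hw
    have hmem := mem_multiples_of_prime_card hUcard hw0 (g' := ⟨u₀, AddSubgroup.mem_zmultiples u₀⟩)
    obtain ⟨n, hn⟩ := AddSubmonoid.mem_multiples_iff _ _ |>.1 hmem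
    have hn' : n • (w : ZMod (p ^ m)) = u₀ := congrArg Subtype.val hn
    rw [← hn']
    exact W.nsmul_mem w.2 n
  have hWiff : ∀ n a b, cn n b - cn n a ∈ W ↔ b - a ∈ W := fun n a b => hWinv.iff (hcn n) a b
  open scoped Pointwise in
  constructor
  · intro hprim
    let B : Set Ω := {ω | e.symm ω ∈ W}
    have hB : MulAction.IsBlock G B := by
      rw [MulAction.isBlock_iff_smul_eq_or_disjoint]
      intro n
      by_cases hdis : Disjoint (n • B) B
      · exact Or.inr hdis
      · left
        rw [Set.not_disjoint_iff] at hdis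
        obtain ⟨ω, hω1, hω2⟩ := hdis
        obtain ⟨ω', hω', rfl⟩ := hω1
        have hkey : ∀ x, cn n x ∈ W ↔ x ∈ W := by
          intro x
          have h1 : cn n (e.symm ω') ∈ W := by
            rw [hcnapply, Equiv.apply_symm_apply]
            exact hω2
          have h3 := hWiff n (e.symm ω') x
          constructor
          · intro h
            have := h3.1 (sub_mem h h1)
            have e1 := add_mem this hω'
            simpa using e1
          · intro h
            have := h3.2 (sub_mem h hω')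
            have e1 := add_mem this h1
            simpa using e1
        ext ω''
        rw [Set.mem_smul_set_iff_inv_smul_mem]
        change e.symm (n⁻¹ • ω'') ∈ W ↔ e.symm ω'' ∈ W
        have := hkey (e.symm (n⁻¹ • ω''))
        rw [← this, hcnapply, Equiv.apply_symm_apply]
        have e2 : (n : Equiv.Perm Ω) (n⁻¹ • ω'') = ω'' := by
          have : n • (n⁻¹ • ω'') = ω'' := smul_inv_smul n ω''
          exact this
        rw [e2]
    rcases hprim.isTrivialBlock_of_isBlock hB with h | h
    · have h0 : e 0 ∈ B := by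
        change e.symm (e 0) ∈ W
        simp
      have hw : e w₁ ∈ B := by
        change e.symm (e w₁) ∈ W
        simpa using hw₁
      have := e.injective (h h0 hw)
      exact hw₁0 this.symm
    · have : e y₁ ∈ B := by rw [h]; trivial
      apply hy₁
      simpa [B] using this
  · intro hN
    let L : Subgroup G :=
      { carrier := {n | ∀ x, cn n x - x ∈ W}
        one_mem' := by
          intro x
          have : cn 1 x = x := by simp [hcnapply]
          rw [this, sub_self]
          exact W.zero_mem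
        mul_mem' := by
          intro a b ha hb x
          have h1 : cn (a * b) x = cn a (cn b x) := by
            simp [hcnapply]
          rw [h1]
          have := add_mem (ha (cn b x)) (hb x)
          simpa using this
        inv_mem' := by
          intro a ha x
          have h1 : cn a (cn a⁻¹ x) = x := by
            simp [hcnapply]
          have := ha (cn a⁻¹ x)
          rw [h1] at this
          have := neg_mem this
          simpa using this }
    have hLnorm : L.Normal := by
      constructor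
      intro n hn k x
      have h1 : cn (k * n * k⁻¹) x = cn k (cn n (cn k⁻¹ x)) := by
        simp [hcnapply]
      have h2 : cn k (cn k⁻¹ x) = x := by
        simp [hcnapply]
      rw [h1]
      have := (hWiff k (cn k⁻¹ x) (cn n (cn k⁻¹ x))).2 (hn (cn k⁻¹ x))
      rwa [h2] at this
    have hgen : g ^ (p ^ (m - 1)) ∈ L := by
      intro x
      rw [hcnapply]
      have h1 : ((g ^ (p ^ (m - 1)) : G) : Equiv.Perm Ω) (e x) = e (u₀ + x) := by
        have := hshift (p ^ (m - 1)) x
        simpa [hγdef, u₀] using this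
      rw [h1]
      simpa using hu₀W
    have hle : Subgroup.normalClosure ({g ^ (p ^ (m - 1))} : Set G) ≤ L :=
      Subgroup.normalClosure_le_normal (Set.singleton_subset_iff.2 hgen)
    obtain ⟨n, hn⟩ := hN.exists_smul_eq (e 0) (e y₁)
    have h1 := hle n.2 0
    have h2 : ((n : G) : Equiv.Perm Ω) (e 0) = e y₁ := hn
    rw [hcnapply, h2, Equiv.symm_apply_apply, sub_zero] at h1
    exact hy₁ h1

end Cfsg.Agent.S3972
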