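import Mathlib
import Cfsg.Statements.S3973
import Cfsg.Agent.Lib.Schur.Hopf

set_option autoImplicit false
set_option linter.all false
open Cfsg
open Cfsg.Agent.Lib.Schur.Hopf
open scoped IsMulCommutative

namespace Cfsg.Agent.S3973

/-- A group that is the image of a finite free `ℤ`-module has rank at most the rank of the module. -/
lemma rank_le_of_free {B : Type*} [AddCommGroup B] [Module.Free ℤ B] [Module.Finite ℤ B]
    {X : Type*} [Group X] [Group.FG X] (f : Multiplicative B →* X) (hf : Function.Surjective f) :
    Group.rank X ≤ Module.finrank ℤ B := by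
  classical
  let b := Module.finBasis ℤ B
  let S : Finset X := Finset.univ.image (fun j => f (Multiplicative.ofAdd (b j)))
  have hcl : Subgroup.closure (S : Set X) = ⊤ := by
    rw [eq_top_iff]
    intro x _
    obtain ⟨y, rfl⟩ := hf x
    have hy : Multiplicative.toAdd y ∈ Submodule.span ℤ (Set.range b) := by
      rw [b.span_eq]
      trivial
    have key : ∀ z ∈ Submodule.span ℤ (Set.range b),
        f (Multiplicative.ofAdd z) ∈ Subgroup.closure (S : Set X) := by
      intro z hz
      induction hz using Submodule.span_induction with
      | mem z hz =>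
        obtain ⟨j, rfl⟩ := hz
        apply Subgroup.subset_closure
        simp [S]
      | zero =>
        have : f (Multiplicative.ofAdd (0 : B)) = 1 := by
          rw [ofAdd_zero, map_one]
        rw [this]
        exact Subgroup.one_mem _
      | add u v _ _ hu hv =>
        rw [ofAdd_add, map_mul]
        exact Subgroup.mul_mem _ hu hv
      | smul a u _ hu =>
        have : f (Multiplicative.ofAdd (a • u)) = f (Multiplicative.ofAdd u) ^ a := by
          rw [ofAdd_zsmul, map_zpow]
        rw [this]
        exact Subgroup.zpow_mem _ hu a
    exact key _ hy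
  calc Group.rank X ≤ S.card := Group.rank_le hcl
    _ ≤ Finset.univ.card := Finset.card_image_le
    _ = Module.finrank ℤ B := by
      rw [Finset.card_univ, Fintype.card_fin]

section main

variable (n : ℕ) (rels : Finset (FreeGroup (Fin n)))

/-- The presentation map. -/
noncomputable abbrev presπ : FreeGroup (Fin n) →* PresentedGroup (rels : Set (FreeGroup (Fin n))) :=
  PresentedGroup.mk (rels : Set (FreeGroup (Fin n)))

lemma presπ_ker : (presπ n rels).ker = Subgroup.normalClosure (rels : Set (FreeGroup (Fin n))) :=
  QuotientGroup.ker_mk' _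

/-- The images of the relators lie in the kernel of the Hopf extension. -/
lemma rel_mem_ker (r : rels) :
    (((r : FreeGroup (Fin n)) : HopfN (presπ n rels))) ∈ (hopfP (presπ n rels)).ker := by
  rw [MonoidHom.mem_ker, hopfP_mk, ← MonoidHom.mem_ker, presπ_ker]
  exact Subgroup.subset_normalClosure r.2

end main

/-- If a finite group is presented by `n` generators and a finite set of `r` relators, then its Schur multiplier can be generated by `r - n` elements. In particular a finite group with a presentation having as many relators as generators has trivial Schur multiplier. -/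
theorem result (n : ℕ) (rels : Finset (FreeGroup (Fin n))) [Finite (PresentedGroup (rels : Set (FreeGroup (Fin n))))] {A : Type*} [CommGroup A] [Finite A] (hA : Cfsg.HasSchurMultiplier (PresentedGroup (rels : Set (FreeGroup (Fin n)))) A) : Group.rank A ≤ rels.card - n := by
  classical
  set π := presπ n rels with hπdef
  have hπ : Function.Surjective π := PresentedGroup.mk_surjective _
  obtain ⟨e⟩ := nonempty_equiv_of_hasSchur hπ hA
  let ι := ↥rels
  let rb : ι → Subgroup.center (HopfN π) := fun r =>
    ⟨((r : FreeGroup (Fin n)) : HopfN π), ker_hopfP_le_center _ (rel_mem_ker n rels r)⟩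
  let h : (ι → ℤ) →ₗ[ℤ] Additive (Subgroup.center (HopfN π)) :=
    (Pi.basisFun ℤ ι).constr ℤ (fun i => Additive.ofMul (rb i))
  have he : ∀ i, h (Pi.basisFun ℤ ι i) = Additive.ofMul (rb i) := fun i => by
    simp [h, Module.Basis.constr_basis]
  let P := Additive (Abelianization (FreeGroup (Fin n)))
  let qc : Additive (Subgroup.center (HopfN π)) →ₗ[ℤ] P :=
    (MonoidHom.toAdditive ((hopfQ π).comp (Subgroup.center (HopfN π)).subtype)).toIntLinearMap
  let g : (ι → ℤ) →ₗ[ℤ] P := qc ∘ₗ h
  have hge : ∀ i, g (Pi.basisFun ℤ ι i) = Additive.ofMul (Abelianization.of (i : FreeGroup (Fin n))) := by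
    intro i
    show qc (h _) = _
    rw [he]
    rfl
  -- rank of `P`
  have e1 : P ≃ₗ[ℤ] (Fin n →₀ ℤ) := (FreeAbelianGroup.equivFinsupp (Fin n)).toIntLinearEquiv
  have hP : Module.finrank ℤ P = n := by
    rw [e1.finrank_eq]
    simp
  haveI hPfree : Module.Free ℤ P := Module.Free.of_equiv e1.symm
  haveI hPfin : Module.Finite ℤ P := Module.Finite.equiv e1.symm
  set U := LinearMap.range g with hUdef
  have hRU : ∀ y ∈ π.ker, Additive.ofMul (Abelianization.of y) ∈ U := by
    let S : Subgroup (FreeGroup (Fin n)) :=
      { carrier := {y | Additive.ofMul (Abelianization.of y) ∈ U}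
        mul_mem' := by
          intro a b ha hb
          show Additive.ofMul (Abelianization.of (a * b)) ∈ U
          rw [map_mul, ofMul_mul]
          exact U.add_mem ha hb
        one_mem' := by
          show Additive.ofMul (Abelianization.of (1 : FreeGroup (Fin n))) ∈ U
          rw [map_one, ofMul_one]
          exact U.zero_mem
        inv_mem' := by
          intro a ha
          show Additive.ofMul (Abelianization.of a⁻¹) ∈ U
          rw [map_inv, ofMul_inv]
          exact U.neg_mem ha }
    haveI hSn : S.Normal := by
      constructor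
      intro y hy w
      show Additive.ofMul (Abelianization.of (w * y * w⁻¹)) ∈ U
      have : Abelianization.of (w * y * w⁻¹) = Abelianization.of y := by
        rw [map_mul, map_mul, map_inv, mul_comm (Abelianization.of w), mul_assoc, mul_inv_cancel, mul_one]
      rw [this]
      exact hy
    have hle : Subgroup.normalClosure (rels : Set (FreeGroup (Fin n))) ≤ S := by
      apply Subgroup.normalClosure_le_normal
      intro r hr
      have := hge ⟨r, hr⟩
      show Additive.ofMul (Abelianization.of r) ∈ U
      rw [← show g (Pi.basisFun ℤ ι ⟨r, hr⟩) = _ from this]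
      exact LinearMap.mem_range_self _ _
    intro y hy
    rw [hπdef, presπ_ker] at hy
    exact hle hy
  have hU : Module.finrank ℤ U = n := by
    apply le_antisymm
    · calc Module.finrank ℤ U ≤ Module.finrank ℤ P := Submodule.finrank_le U
        _ = n := hP
    · refine hP.symm.le.trans ?_
      have hm : ∀ x : P, (Nat.card (PresentedGroup (rels : Set (FreeGroup (Fin n)))) : ℤ) • x ∈ U := by
        intro x
        obtain ⟨y, rfl⟩ : ∃ y, x = Additive.ofMul (Abelianization.of y) := by
          obtain ⟨y, hy⟩ := QuotientGroup.mk_surjective (Additive.toMul x)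
          exact ⟨y, (congrArg Additive.ofMul hy).symm⟩
        have h1 : y ^ Nat.card (PresentedGroup (rels : Set (FreeGroup (Fin n)))) ∈ π.ker := by
          rw [MonoidHom.mem_ker, map_pow, pow_card_eq_one']
        have := hRU _ h1
        rw [map_pow, ofMul_pow] at this
        rw [natCast_zsmul]
        exact this
      let sc : P →ₗ[ℤ] U := LinearMap.codRestrict U
        ((Nat.card (PresentedGroup (rels : Set (FreeGroup (Fin n)))) : ℤ) • LinearMap.id) hm
      have hsc : Function.Injective sc := by
        intro a b hab
        have h1 : (Nat.card (PresentedGroup (rels : Set (FreeGroup (Fin n)))) : ℤ) • a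
            = (Nat.card (PresentedGroup (rels : Set (FreeGroup (Fin n)))) : ℤ) • b :=
          congrArg Subtype.val hab
        have h0 : (Nat.card (PresentedGroup (rels : Set (FreeGroup (Fin n)))) : ℤ) ≠ 0 := by
          exact_mod_cast Nat.card_pos.ne'
        exact smul_right_injective P h0 h1
      exact LinearMap.finrank_le_finrank_of_injective hsc
  set D := LinearMap.ker g with hDdef
  have hrn := Submodule.finrank_quotient_add_finrank D
  rw [g.quotKerEquivRange.finrank_eq] at hrn
  have hV : Module.finrank ℤ (ι → ℤ) = rels.card := by
    simp [ι]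
  rw [hU, hV] at hrn
  have hD : Module.finrank ℤ D = rels.card - n := by
    omega
  rw [← hD]
  -- the map onto `hopfM`
  have hKmem : ∀ c : ι → ℤ, hopfP π ((Additive.toMul (h c) : Subgroup.center (HopfN π)) : HopfN π) = 1 := by
    let Kp : Subgroup (Subgroup.center (HopfN π)) := ((hopfP π).comp (Subgroup.center (HopfN π)).subtype).ker
    let K' : Submodule ℤ (Additive (Subgroup.center (HopfN π))) :=
      AddSubgroup.toIntSubmodule (Subgroup.toAddSubgroup Kp)
    have hle : ∀ c ∈ Submodule.span ℤ (Set.range (Pi.basisFun ℤ ι)), h c ∈ K' := by
      intro c hc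
      induction hc using Submodule.span_induction with
      | mem z hz =>
        obtain ⟨j, rfl⟩ := hz
        rw [he]
        exact rel_mem_ker n rels j
      | zero =>
        rw [map_zero]
        exact K'.zero_mem
      | add u v _ _ hu hv =>
        rw [map_add]
        exact K'.add_mem hu hv
      | smul a u _ hu =>
        rw [map_smul]
        exact K'.smul_mem a hu
    intro c
    have := hle c (by rw [(Pi.basisFun ℤ ι).span_eq]; trivial)
    exact this
  have hQc : ∀ c : ι → ℤ, hopfQ π ((Additive.toMul (h c) : Subgroup.center (HopfN π)) : HopfN π)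
      = Additive.toMul (g c) := fun c => rfl
  have hMmem : ∀ c ∈ D, ((Additive.toMul (h c) : Subgroup.center (HopfN π)) : HopfN π) ∈ hopfM π := by
    intro c hc
    refine Subgroup.mem_inf.2 ⟨hKmem c, ?_⟩
    rw [← ker_hopfQ, MonoidHom.mem_ker, hQc]
    have : g c = 0 := hc
    rw [this]
    rfl
  let f : Multiplicative D →* hopfM π :=
    { toFun := fun x => ⟨((Additive.toMul (h (Multiplicative.toAdd x).1) : Subgroup.center (HopfN π)) : HopfN π),
        hMmem _ (Multiplicative.toAdd x).2⟩
      map_one' := by
        apply Subtype.ext
        show ((Additive.toMul (h 0) : Subgroup.center (HopfN π)) : HopfN π) = 1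
        rw [map_zero]
        rfl
      map_mul' := by
        intro a b
        apply Subtype.ext
        show ((Additive.toMul (h ((Multiplicative.toAdd a).1 + (Multiplicative.toAdd b).1)) : Subgroup.center (HopfN π)) : HopfN π) = _
        rw [map_add]
        rfl }
  have hf : Function.Surjective f := by
    rintro ⟨m, hm⟩
    have hmK := (Subgroup.mem_inf.1 hm).1
    have hmC := (Subgroup.mem_inf.1 hm).2
    -- a preimage in `F`
    obtain ⟨y, rfl⟩ := QuotientGroup.mk_surjective m
    have hy : y ∈ π.ker := hmK
    -- the image of `h` contains the kernel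
    have hS : ∀ y ∈ π.ker, ∃ c, ((Additive.toMul (h c) : Subgroup.center (HopfN π)) : HopfN π) = (y : HopfN π) := by
      let S : Subgroup (FreeGroup (Fin n)) :=
        { carrier := {y | ∃ c, ((Additive.toMul (h c) : Subgroup.center (HopfN π)) : HopfN π) = (y : HopfN π)}
          mul_mem' := by
            rintro a b ⟨c, hc⟩ ⟨d, hd⟩
            refine ⟨c + d, ?_⟩
            rw [map_add, QuotientGroup.mk_mul, ← hc, ← hd]
            rfl
          one_mem' := ⟨0, by rw [map_zero]; rfl⟩
          inv_mem' := by
            rintro a ⟨c, hc⟩
            refine ⟨-c, ?_⟩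
            rw [map_neg, QuotientGroup.mk_inv, ← hc]
            rfl }
      haveI hSn : S.Normal := by
        constructor
        rintro y ⟨c, hc⟩ w
        refine ⟨c, ?_⟩
        have hcen := Subgroup.mem_center_iff.1 (Additive.toMul (h c)).2 (w : HopfN π)
        rw [hc] at hcen
        rw [QuotientGroup.mk_mul, QuotientGroup.mk_mul, QuotientGroup.mk_inv, hc, hcen]
        group
      have hle : Subgroup.normalClosure (rels : Set (FreeGroup (Fin n))) ≤ S := by
        apply Subgroup.normalClosure_le_normal
        intro r hr
        refine ⟨Pi.basisFun ℤ ι ⟨r, hr⟩, ?_⟩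
        rw [he]
        rfl
      intro y hy
      rw [hπdef, presπ_ker] at hy
      exact hle hy
    obtain ⟨c, hc⟩ := hS y hy
    have hcD : c ∈ D := by
      have h1 : hopfQ π (y : HopfN π) = 1 := by
        have := hmC
        rw [← ker_hopfQ] at this
        exact this
      rw [← hc, hQc] at h1
      rw [hDdef, LinearMap.mem_ker]
      exact h1
    refine ⟨Multiplicative.ofAdd ⟨c, hcD⟩, ?_⟩
    apply Subtype.ext
    exact hc
  exact rank_le_of_free (e.symm.toMonoidHom.comp f) (e.symm.surjective.comp hf)

end Cfsg.Agent.S3973
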