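import Mathlib
import Cfsg.Statements.S3974
import Cfsg.Agent.Lib.Schur.Hopf

set_option autoImplicit false
set_option linter.all false
universe u v
open Cfsg
open Cfsg.Agent.Lib.Schur.Hopf

namespace Cfsg.Agent.S3974

section general

variable {F : Type u} [Group F] {Q : Type u} [Group Q] {π : F →* Q}

lemma hopfQ_surjective (π : F →* Q) : Function.Surjective (hopfQ π) := by
  intro x
  obtain ⟨f, rfl⟩ := QuotientGroup.mk_surjective x
  exact ⟨(f : HopfN π), rfl⟩

/-- The image of the kernel in the abelianization is the kernel of the map of abelianizations. -/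
lemma mem_L_iff (hπ : Function.Surjective π) (x : Abelianization F) :
    x ∈ ((hopfP π).ker).map (hopfQ π) ↔ Abelianization.map π x = 1 := by
  constructor
  · rintro ⟨k, hk, rfl⟩
    obtain ⟨r, rfl⟩ := QuotientGroup.mk_surjective k
    have hr : π r = 1 := hk
    show Abelianization.map π (Abelianization.of r) = 1
    rw [Abelianization.map_of, hr, map_one]
  · intro hx
    obtain ⟨f, rfl⟩ := QuotientGroup.mk_surjective x
    have h1 : Abelianization.of (π f) = 1 := by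
      have : Abelianization.map π (Abelianization.of f) = 1 := hx
      rwa [Abelianization.map_of] at this
    have h2 : π f ∈ commutator Q := by
      rw [← Abelianization.ker_of]
      exact h1
    have h3 : commutator Q = (commutator F).map π := by
      rw [_root_.commutator_def, _root_.commutator_def, Subgroup.map_commutator,
        Subgroup.map_top_of_surjective π hπ]
    rw [h3] at h2
    obtain ⟨f', hf', he⟩ := h2
    refine ⟨((f'⁻¹ * f : F) : HopfN π), ?_, ?_⟩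
    · show π (f'⁻¹ * f) = 1
      rw [map_mul, map_inv, he, inv_mul_cancel]
    · show Abelianization.of (f'⁻¹ * f) = _
      rw [map_mul, map_inv]
      have : Abelianization.of f' = 1 := by
        rw [← MonoidHom.mem_ker, Abelianization.ker_of]
        exact hf'
      rw [this, inv_one, one_mul]
      rfl

/-- Extension of a homomorphism from a subgroup of coprime index. -/
lemma exists_extension {B A : Type*} [CommGroup B] [CommGroup A] [Finite A] (L : Subgroup B)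
    (m : ℕ) (hm : ∀ x : B, x ^ m ∈ L) (hcop : Nat.Coprime m (Nat.card A)) (δ : L →* A) :
    ∃ ψ : B →* A, ∀ l : L, ψ l = δ l := by
  obtain ⟨u, v, huv⟩ := Nat.isCoprime_iff_coprime.2 hcop
  let pw : B →* L := (powMonoidHom m : B →* B).codRestrict L hm
  refine ⟨(zpowGroupHom u).comp (δ.comp pw), ?_⟩
  intro l
  have h1 : pw (l : B) = l ^ m := by
    apply Subtype.ext
    rfl
  show (δ (pw l)) ^ u = δ l
  rw [h1, map_pow]
  have h2 : (δ l) ^ (Nat.card A) = 1 := pow_card_eq_one'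
  calc ((δ l) ^ m) ^ u = (δ l) ^ ((u * m : ℤ)) := by
        rw [mul_comm, zpow_mul, zpow_natCast]
    _ = (δ l) ^ ((1 : ℤ) - v * (Nat.card A : ℤ)) := by
        congr 1
        linarith
    _ = δ l := by
        have h3 : (δ l) ^ ((v : ℤ) * (Nat.card A : ℤ)) = 1 := by
          rw [mul_comm, zpow_mul, zpow_natCast, h2, one_zpow]
        rw [zpow_sub, zpow_one, h3, inv_one, mul_one]

end general

section retraction

variable {F : Type u} [Group F] [IsFreeGroup F] [Group.FG F] {Q : Type u} [Group Q] [Finite Q]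
  {π : F →* Q}

/-- Any Schur cover receives a map from the Hopf extension with a retraction of the kernel onto the
multiplier. -/
lemma exists_retract (hπ : Function.Surjective π) {A : Type v} [CommGroup A] (μ : A ≃* hopfM π)
    {Γ : Type u} [Group Γ] [Finite Γ] (σ : Γ →* Q) (hσ : IsStemExtension σ) (hk : Nonempty (σ.ker ≃* A)) :
    ∃ ψ : HopfN π →* Γ, σ.comp ψ = hopfP π ∧ Function.Surjective ψ ∧
      ∃ r : (hopfP π).ker →* A,
        (∀ (a : A) (h : ((μ a : hopfM π) : HopfN π) ∈ (hopfP π).ker), r ⟨(μ a : hopfM π), h⟩ = a) ∧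
        (∀ k : (hopfP π).ker, ψ ((μ (r k) : hopfM π) : HopfN π) = ψ k) ∧
        (∀ a : A, ψ ((μ a : hopfM π) : HopfN π) = 1 → a = 1) := by
  classical
  obtain ⟨ψ, hψ, hs, hm⟩ := exists_map_of_stem hπ σ hσ
  refine ⟨ψ, hψ, hs, ?_⟩
  obtain ⟨e⟩ := hk
  have hψσ : ∀ n, σ (ψ n) = hopfP π n := fun n => by rw [← hψ]; rfl
  -- the map `A → ker σ`
  have hmem : ∀ a : A, ψ ((μ a : hopfM π) : HopfN π) ∈ σ.ker := by
    intro a
    rw [MonoidHom.mem_ker, hψσ]
    exact hopfM_le_ker π (μ a).2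
  let t : A →* σ.ker :=
    ((ψ.comp (hopfM π).subtype).comp μ.toMonoidHom).codRestrict σ.ker hmem
  have ht : Function.Surjective t := by
    rintro ⟨z, hz⟩
    rw [← hm] at hz
    obtain ⟨x, hx, rfl⟩ := hz
    refine ⟨μ.symm ⟨x, hx⟩, ?_⟩
    apply Subtype.ext
    show ψ ((μ (μ.symm ⟨x, hx⟩) : hopfM π) : HopfN π) = ψ x
    rw [MulEquiv.apply_symm_apply]
  haveI : Finite σ.ker := inferInstance
  haveI hfA : Finite A := Finite.of_equiv _ e.toEquiv
  have hcard : Nat.card A = Nat.card σ.ker := (Nat.card_congr e.toEquiv).symm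
  have htb : Function.Bijective t :=
    (Nat.bijective_iff_surjective_and_card t).2 ⟨ht, hcard⟩
  let te := MulEquiv.ofBijective t htb
  have hkk : ∀ k : (hopfP π).ker, ψ k ∈ σ.ker := by
    intro k
    rw [MonoidHom.mem_ker, hψσ]
    exact k.2
  let ψk : (hopfP π).ker →* σ.ker := (ψ.comp (hopfP π).ker.subtype).codRestrict σ.ker hkk
  have hte : ∀ a, ψ ((μ a : hopfM π) : HopfN π) = ((te a : σ.ker) : Γ) := fun a => rfl
  refine ⟨te.symm.toMonoidHom.comp ψk, ?_, ?_, ?_⟩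
  · intro a h
    apply te.injective
    apply Subtype.ext
    show ((te (te.symm (ψk _)) : σ.ker) : Γ) = _
    rw [MulEquiv.apply_symm_apply]
    rfl
  · intro k
    show ψ ((μ (te.symm (ψk k)) : hopfM π) : HopfN π) = _
    rw [hte, MulEquiv.apply_symm_apply]
    rfl
  · intro a ha
    apply te.injective
    apply Subtype.ext
    rw [← hte, ha, map_one]
    rfl

/-- The automorphism of the Hopf extension attached to a homomorphism from the abelianization. -/
lemma center_of_multiplier {π : F →* Q} (x : hopfM π) : (x : HopfN π) ∈ Subgroup.center (HopfN π) :=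
  ker_hopfP_le_center π (hopfM_le_ker π x.2)

/-- The (←) direction. -/
lemma iso_of_coprime (hπ : Function.Surjective π) {A : Type v} [CommGroup A] [Finite A] (μ : A ≃* hopfM π)
    (hcop : Nat.Coprime (Nat.card (Abelianization Q)) (Nat.card A))
    {Γ₁ Γ₂ : Type u} [Group Γ₁] [Finite Γ₁] [Group Γ₂] [Finite Γ₂] (σ₁ : Γ₁ →* Q) (σ₂ : Γ₂ →* Q)
    (h₁ : IsStemExtension σ₁) (h₂ : IsStemExtension σ₂) (k₁ : Nonempty (σ₁.ker ≃* A))
    (k₂ : Nonempty (σ₂.ker ≃* A)) : ∃ e : Γ₁ ≃* Γ₂, σ₂.comp e.toMonoidHom = σ₁ := by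
  classical
  obtain ⟨ψ₁, hψ₁, hs₁, r₁, hr₁, hrψ₁, hin₁⟩ := exists_retract hπ μ σ₁ h₁ k₁
  obtain ⟨ψ₂, hψ₂, hs₂, r₂, hr₂, hrψ₂, hin₂⟩ := exists_retract hπ μ σ₂ h₂ k₂
  have hψσ₁ : ∀ n, σ₁ (ψ₁ n) = hopfP π n := fun n => by rw [← hψ₁]; rfl
  have hψσ₂ : ∀ n, σ₂ (ψ₂ n) = hopfP π n := fun n => by rw [← hψ₂]; rfl
  have hμK : ∀ a : A, ((μ a : hopfM π) : HopfN π) ∈ (hopfP π).ker := fun a => hopfM_le_ker π (μ a).2
  -- the difference
  let d : (hopfP π).ker →* A := r₂ * r₁⁻¹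
  have hd : ∀ a : A, d ⟨(μ a : hopfM π), hμK a⟩ = 1 := by
    intro a
    show r₂ _ * (r₁ _)⁻¹ = 1
    rw [hr₁, hr₂, mul_inv_cancel]
  -- descends to `L`
  let L : Subgroup (Abelianization F) := ((hopfP π).ker).map (hopfQ π)
  let qk : (hopfP π).ker →* L := (hopfQ π).subgroupMap (hopfP π).ker
  have hqk : Function.Surjective qk := (hopfQ π).subgroupMap_surjective _
  have hker : qk.ker ≤ d.ker := by
    rintro ⟨k, hk⟩ hq
    have h1 : hopfQ π k = 1 := congrArg Subtype.val hq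
    have h2 : k ∈ commutator (HopfN π) := by
      rw [← ker_hopfQ]
      exact h1
    have h3 : k ∈ hopfM π := Subgroup.mem_inf.2 ⟨hk, h2⟩
    have h4 := hd (μ.symm ⟨k, h3⟩)
    simp only [MulEquiv.apply_symm_apply] at h4
    exact h4
  let δ : L →* A := (MonoidHom.liftOfSurjective qk hqk) ⟨d, hker⟩
  have hδ : ∀ k, δ (qk k) = d k := fun k => MonoidHom.liftOfRightInverse_comp_apply _ _ _ _ k
  -- extension
  have hm : ∀ x : Abelianization F, x ^ (Nat.card (Abelianization Q)) ∈ L := by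
    intro x
    apply (mem_L_iff hπ _).2
    rw [map_pow, pow_card_eq_one']
  obtain ⟨ψ, hψ⟩ := exists_extension L _ hm hcop δ
  -- the automorphism
  let z : HopfN π → HopfN π := fun n => (μ (ψ (hopfQ π n)) : hopfM π)
  have hzc : ∀ n x, z n * x = x * z n := by
    intro n x
    exact (Subgroup.mem_center_iff.1 (center_of_multiplier _) x).symm
  have hzm : ∀ n n', z (n * n') = z n * z n' := by
    intro n n'
    show ((μ (ψ (hopfQ π (n * n'))) : hopfM π) : HopfN π) = _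
    rw [map_mul, map_mul, map_mul]
    rfl
  let α : HopfN π →* HopfN π :=
    { toFun := fun n => n * (z n)⁻¹
      map_one' := by
        have : z 1 = 1 := by
          show ((μ (ψ (hopfQ π 1)) : hopfM π) : HopfN π) = 1
          rw [map_one, map_one, map_one]
          rfl
        rw [this]
        simp
      map_mul' := by
        intro a b
        rw [hzm, mul_inv_rev]
        have h2 : (z a)⁻¹ * (b * (z b)⁻¹) = (b * (z b)⁻¹) * (z a)⁻¹ :=
          (Subgroup.mem_center_iff.1 (Subgroup.inv_mem _ (center_of_multiplier _)) _).symm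
        calc a * b * ((z b)⁻¹ * (z a)⁻¹) = a * ((b * (z b)⁻¹) * (z a)⁻¹) := by group
          _ = a * ((z a)⁻¹ * (b * (z b)⁻¹)) := by rw [h2]
          _ = _ := by group }
  have hαp : ∀ n, hopfP π (α n) = hopfP π n := by
    intro n
    show hopfP π (n * (z n)⁻¹) = _
    rw [map_mul, map_inv]
    have : hopfP π (z n) = 1 := hμK _
    rw [this, inv_one, mul_one]
  have hqz : ∀ n, hopfQ π (z n) = 1 := by
    intro n
    have : z n ∈ (hopfQ π).ker := by
      rw [ker_hopfQ]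
      exact hopfM_le_commutator π (μ _).2
    exact this
  have hαq : ∀ n, hopfQ π (α n) = hopfQ π n := by
    intro n
    show hopfQ π (n * (z n)⁻¹) = _
    rw [map_mul, map_inv, hqz, inv_one, mul_one]
  have hαs : Function.Surjective α := by
    intro n
    refine ⟨n * z n, ?_⟩
    show n * z n * (z (n * z n))⁻¹ = n
    have : z (n * z n) = z n := by
      show ((μ (ψ (hopfQ π (n * z n))) : hopfM π) : HopfN π) = _
      rw [map_mul, hqz, mul_one]
    rw [this]
    group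
  -- retractions are compatible
  have hαK : ∀ k : (hopfP π).ker, α k ∈ (hopfP π).ker := by
    intro k
    rw [MonoidHom.mem_ker, hαp]
    exact k.2
  have hr₂α : ∀ k : (hopfP π).ker, r₂ ⟨α k, hαK k⟩ = r₁ k := by
    intro k
    have h1 : (⟨α k, hαK k⟩ : (hopfP π).ker) = k * (⟨z k, hμK _⟩ : (hopfP π).ker)⁻¹ := rfl
    rw [h1, map_mul, map_inv]
    have h2 : r₂ ⟨z k, hμK _⟩ = ψ (hopfQ π k) := hr₂ _ _
    rw [h2]
    have h3 : ψ (hopfQ π k) = d k := by
      rw [← hδ k, ← hψ (qk k)]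
      rfl
    rw [h3]
    show r₂ k * (r₂ k * (r₁ k)⁻¹)⁻¹ = r₁ k
    rw [mul_inv_rev, inv_inv, mul_comm (r₁ k), mul_inv_cancel_left]
  have hkers : ψ₁.ker = (ψ₂.comp α).ker := by
    ext n
    simp only [MonoidHom.mem_ker, MonoidHom.comp_apply]
    constructor
    · intro hn
      have hnK : n ∈ (hopfP π).ker := by
        rw [MonoidHom.mem_ker, ← hψσ₁, hn, map_one]
      have h1 : r₁ ⟨n, hnK⟩ = 1 := by
        apply hin₁
        rw [hrψ₁]
        exact hn
      have h2 := hr₂α ⟨n, hnK⟩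
      rw [h1] at h2
      rw [← hrψ₂ ⟨α n, hαK ⟨n, hnK⟩⟩, h2]
      simp
    · intro hn
      have hnK : n ∈ (hopfP π).ker := by
        rw [MonoidHom.mem_ker, ← hαp, ← hψσ₂, hn, map_one]
      have h1 : r₂ ⟨α n, hαK ⟨n, hnK⟩⟩ = 1 := by
        apply hin₂
        rw [hrψ₂]
        exact hn
      have h1' : r₁ ⟨n, hnK⟩ = 1 := (hr₂α ⟨n, hnK⟩).symm.trans h1
      rw [← show ψ₁ ((μ (r₁ ⟨n, hnK⟩) : hopfM π) : HopfN π) = ψ₁ n from hrψ₁ ⟨n, hnK⟩, h1']
      simp
  have hs₂' : Function.Surjective (ψ₂.comp α) := hs₂.comp hαs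
  let e : Γ₁ ≃* Γ₂ := (QuotientGroup.quotientKerEquivOfSurjective ψ₁ hs₁).symm.trans
    ((QuotientGroup.quotientMulEquivOfEq hkers).trans
      (QuotientGroup.quotientKerEquivOfSurjective _ hs₂'))
  have he : ∀ n, e (ψ₁ n) = ψ₂ (α n) := by
    intro n
    show (QuotientGroup.quotientKerEquivOfSurjective _ hs₂')
      (QuotientGroup.quotientMulEquivOfEq hkers
        ((QuotientGroup.quotientKerEquivOfSurjective ψ₁ hs₁).symm (ψ₁ n))) = _
    have h1 : (QuotientGroup.quotientKerEquivOfSurjective ψ₁ hs₁).symm (ψ₁ n) = (n : HopfN π ⧸ ψ₁.ker) := by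
      rw [MulEquiv.symm_apply_eq]
      rfl
    rw [h1]
    rfl
  refine ⟨e, ?_⟩
  ext g
  obtain ⟨n, rfl⟩ := hs₁ g
  show σ₂ (e (ψ₁ n)) = σ₁ (ψ₁ n)
  rw [he, hψσ₂, hαp, hψσ₁]

end retraction

section forward

variable {Q : Type u} [Group Q] [Finite Q]

/-- The (→) direction. -/
lemma coprime_of_unique {A : Type v} [CommGroup A] [Finite A] (μ : A ≃* hopfM (freePres Q))
    (huniq : ∀ (Γ₁ Γ₂ : Type u) [Group Γ₁] [Finite Γ₁] [Group Γ₂] [Finite Γ₂] (σ₁ : Γ₁ →* Q) (σ₂ : Γ₂ →* Q),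
      Cfsg.IsStemExtension σ₁ → Cfsg.IsStemExtension σ₂ → Nonempty (σ₁.ker ≃* A) → Nonempty (σ₂.ker ≃* A) →
      ∃ e : Γ₁ ≃* Γ₂, σ₂.comp e.toMonoidHom = σ₁) :
    Nat.Coprime (Nat.card (Abelianization Q)) (Nat.card A) := by
  classical
  by_contra hnc
  obtain ⟨ℓ, hℓ, hℓ1, hℓ2⟩ := Nat.Prime.not_coprime_iff_dvd.1 hnc
  haveI := Fact.mk hℓ
  set π := freePres Q with hπdef
  have hπ : Function.Surjective π := freePres_surjective Q
  let L : Subgroup (Abelianization (FreeGroup Q)) := ((hopfP π).ker).map (hopfQ π)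
  -- step 1: the element `y`
  haveI : Finite (Abelianization Q) := Finite.of_surjective _ (QuotientGroup.mk'_surjective _)
  obtain ⟨w, hw⟩ := exists_prime_orderOf_dvd_card' ℓ hℓ1
  obtain ⟨y, hy⟩ : ∃ y : Abelianization (FreeGroup Q), Abelianization.map π y = w := by
    obtain ⟨w', rfl⟩ := QuotientGroup.mk_surjective w
    obtain ⟨f, rfl⟩ := hπ w'
    exact ⟨Abelianization.of f, by rw [Abelianization.map_of]; rfl⟩
  have hyL : y ∉ L := by
    intro h
    have h1 := (mem_L_iff hπ y).1 h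
    rw [hy] at h1
    rw [h1, orderOf_one] at hw
    exact hℓ.ne_one hw.symm
  have hyℓ : y ^ ℓ ∈ L := by
    apply (mem_L_iff hπ _).2
    rw [map_pow, hy, ← hw, pow_orderOf_eq_one]
  -- torsion-freeness
  let P := Additive (Abelianization (FreeGroup Q))
  have e1 : P ≃ₗ[ℤ] (Q →₀ ℤ) := (FreeAbelianGroup.equivFinsupp Q).toIntLinearEquiv
  haveI hPfree : Module.Free ℤ P := Module.Free.of_equiv e1.symm
  have htf : ∀ a c : Abelianization (FreeGroup Q), a ^ ℓ = c ^ ℓ → a = c := by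
    intro a c hac
    have h1 : (ℓ : ℤ) • (Additive.ofMul a : P) = (ℓ : ℤ) • (Additive.ofMul c : P) := by
      rw [natCast_zsmul, natCast_zsmul]
      exact congrArg Additive.ofMul hac
    have h0 : (ℓ : ℤ) ≠ 0 := by exact_mod_cast hℓ.ne_zero
    exact Additive.ofMul.injective (smul_right_injective P h0 h1)
  -- step 2: the basis of `L`
  have hfg : Group.FG L := by
    have h1 : ((hopfP π).ker).FiniteIndex := Subgroup.finiteIndex_ker (hopfP π)
    have h2 : Group.FG ↥(hopfP π).ker := Subgroup.fg_of_index_ne_zero _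
    exact Group.fg_of_surjective ((hopfQ π).subgroupMap_surjective (hopfP π).ker)
  haveI hfree : Module.Free ℤ (Additive L) := free_of_fg L hfg
  haveI hfin : Module.Finite ℤ (Additive L) := by
    rw [Module.Finite.iff_addGroup_fg]
    exact GroupFG.iff_add_fg.1 hfg
  let b := Module.finBasis ℤ (Additive L)
  let xh : L := ⟨y ^ ℓ, hyℓ⟩
  obtain ⟨j, hj⟩ : ∃ j, ¬ (ℓ : ℤ) ∣ b.repr (Additive.ofMul xh) j := by
    by_contra hcon
    push Not at hcon
    choose t ht using hcon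
    let u : Additive L := ∑ j, t j • b j
    have hu : (ℓ : ℤ) • u = Additive.ofMul xh := by
      rw [← b.sum_repr (Additive.ofMul xh), Finset.smul_sum]
      apply Finset.sum_congr rfl
      intro j _
      rw [ht j, smul_smul]
    have h2 : (Additive.toMul u : L) ^ ℓ = xh := by
      have := congrArg Additive.toMul hu
      rw [natCast_zsmul] at this
      simpa using this
    have h3 : ((Additive.toMul u : L) : Abelianization (FreeGroup Q)) ^ ℓ = y ^ ℓ :=
      congrArg Subtype.val h2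
    apply hyL
    rw [← htf _ _ h3]
    exact (Additive.toMul u : L).2
  -- step 3: the element `c`
  obtain ⟨c, hc⟩ : ∃ c : A, c ∉ (powMonoidHom ℓ : A →* A).range := by
    by_contra hcon
    push Not at hcon
    have hsurj : Function.Surjective (powMonoidHom ℓ : A →* A) := hcon
    have hinj := Finite.injective_iff_surjective.2 hsurj
    obtain ⟨a₀, ha₀⟩ := exists_prime_orderOf_dvd_card' ℓ hℓ2
    have h1 : (powMonoidHom ℓ : A →* A) a₀ = (powMonoidHom ℓ : A →* A) 1 := by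
      show a₀ ^ ℓ = 1 ^ ℓ
      rw [one_pow, ← ha₀, pow_orderOf_eq_one]
    have h2 := hinj h1
    rw [h2, orderOf_one] at ha₀
    exact hℓ.ne_one ha₀.symm
  -- step 4: the homomorphism `δ`
  let δ : L →* A := MonoidHom.mk' (fun l => c ^ (b.repr (Additive.ofMul l) j)) (by
    intro l l'
    rw [ofMul_mul, map_add, Finsupp.add_apply, zpow_add])
  -- step 5: the first cover
  have hcK : (hopfP π).ker ≤ Subgroup.center (HopfN π) := ker_hopfP_le_center π
  have hps : Function.Surjective (hopfP π) := hopfP_surjective hπ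
  obtain ⟨S₁, hS₁K, hS₁i, hS₁s⟩ := exists_compl π ((hopfP π).ker) le_rfl (sup_eq_left.2 (hopfM_le_ker π))
  haveI hS₁n : S₁.Normal := normal_of_le_center' (hS₁K.trans hcK)
  obtain ⟨σ₁, hσ₁, hfin₁, hst₁, ⟨he₁⟩⟩ := cover_of_compl (hopfP π) hps hcK S₁ hS₁K hS₁i hS₁s
  have k₁ : Nonempty (σ₁.ker ≃* A) := ⟨he₁.symm.trans μ.symm⟩
  obtain ⟨ψ₁, hψ₁, hs₁, r₁, hr₁, hrψ₁, hin₁⟩ := exists_retract hπ μ σ₁ hst₁ k₁
  have hψσ₁ : ∀ n, σ₁ (ψ₁ n) = hopfP π n := fun n => by rw [← hψ₁]; rfl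
  have hμK : ∀ a : A, ((μ a : hopfM π) : HopfN π) ∈ (hopfP π).ker := fun a => hopfM_le_ker π (μ a).2
  have hμC : ∀ a : A, ((μ a : hopfM π) : HopfN π) ∈ commutator (HopfN π) := fun a => hopfM_le_commutator π (μ a).2
  have hqμ : ∀ a : A, hopfQ π ((μ a : hopfM π) : HopfN π) = 1 := by
    intro a
    have : ((μ a : hopfM π) : HopfN π) ∈ (hopfQ π).ker := by
      rw [ker_hopfQ]
      exact hμC a
    exact this
  -- step 7: the second retraction
  let qk : (hopfP π).ker →* L := (hopfQ π).subgroupMap (hopfP π).ker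
  have hqk1 : ∀ k : (hopfP π).ker, ((qk k : L) : Abelianization (FreeGroup Q)) = hopfQ π k := fun k => rfl
  have hqkμ : ∀ a : A, qk ⟨(μ a : hopfM π), hμK a⟩ = 1 := by
    intro a
    apply Subtype.ext
    exact hqμ a
  let r₂ : (hopfP π).ker →* A := r₁ * (δ.comp qk)
  have hr₂ : ∀ a : A, r₂ ⟨(μ a : hopfM π), hμK a⟩ = a := by
    intro a
    show r₁ _ * δ (qk _) = a
    rw [hr₁, hqkμ, map_one, mul_one]
  let S₂ : Subgroup (HopfN π) := r₂.ker.map (hopfP π).ker.subtype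
  have hS₂K : S₂ ≤ (hopfP π).ker := by
    rintro _ ⟨k, -, rfl⟩
    exact k.2
  haveI hS₂n : S₂.Normal := normal_of_le_center' (hS₂K.trans hcK)
  have hS₂mem : ∀ k : (hopfP π).ker, (k : HopfN π) * ((μ (r₂ k) : hopfM π) : HopfN π)⁻¹ ∈ S₂ := by
    intro k
    refine ⟨k * (⟨(μ (r₂ k) : hopfM π), hμK _⟩ : (hopfP π).ker)⁻¹, ?_, rfl⟩
    rw [SetLike.mem_coe, MonoidHom.mem_ker, map_mul, map_inv, hr₂, mul_inv_cancel]
  have hS₂μ : ∀ a : A, ((μ a : hopfM π) : HopfN π) ∈ S₂ → a = 1 := by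
    rintro a ⟨k, hk, hka⟩
    have h1 : k = ⟨(μ a : hopfM π), hμK a⟩ := Subtype.ext hka
    have h2 : r₂ k = 1 := hk
    rw [h1, hr₂] at h2
    exact h2
  have hS₂i : S₂ ⊓ ((hopfP π).ker ⊓ commutator (HopfN π)) = ⊥ := by
    rw [eq_bot_iff]
    rintro x ⟨hx1, hx2⟩
    have hxM : x ∈ hopfM π := hx2
    have h1 : ((μ (μ.symm ⟨x, hxM⟩) : hopfM π) : HopfN π) = x := by
      rw [MulEquiv.apply_symm_apply]
    have h2 := hS₂μ (μ.symm ⟨x, hxM⟩) (by rw [h1]; exact hx1)
    rw [h2, map_one] at h1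
    rw [Subgroup.mem_bot, ← h1]
    rfl
  have hS₂s : S₂ ⊔ ((hopfP π).ker ⊓ commutator (HopfN π)) = (hopfP π).ker := by
    apply le_antisymm
    · exact sup_le hS₂K inf_le_left
    · intro k hk
      have h1 := hS₂mem ⟨k, hk⟩
      have h2 : k = (k * ((μ (r₂ ⟨k, hk⟩) : hopfM π) : HopfN π)⁻¹) * ((μ (r₂ ⟨k, hk⟩) : hopfM π) : HopfN π) := by
        group
      rw [h2]
      exact Subgroup.mul_mem_sup h1 (μ _).2
  obtain ⟨σ₂, hσ₂, hfin₂, hst₂, ⟨he₂⟩⟩ := cover_of_compl (hopfP π) hps hcK S₂ hS₂K hS₂i hS₂s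
  have k₂ : Nonempty (σ₂.ker ≃* A) := ⟨he₂.symm.trans μ.symm⟩
  -- step 8
  obtain ⟨e, he⟩ := huniq _ _ σ₁ σ₂ hst₁ hst₂ k₁ k₂
  have heσ : ∀ g, σ₂ (e g) = σ₁ g := fun g => by rw [← he]; rfl
  -- step 9
  let ψ₂ : HopfN π →* (HopfN π ⧸ S₂) := QuotientGroup.mk' S₂
  have hψσ₂ : ∀ n, σ₂ (ψ₂ n) = hopfP π n := fun n => hσ₂ n
  have hcmem : ∀ n, (e (ψ₁ n))⁻¹ * ψ₂ n ∈ σ₂.ker := by
    intro n
    rw [MonoidHom.mem_ker, map_mul, map_inv, heσ, hψσ₁, hψσ₂, inv_mul_cancel]
  let cc : HopfN π →* σ₂.ker :=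
    { toFun := fun n => ⟨(e (ψ₁ n))⁻¹ * ψ₂ n, hcmem n⟩
      map_one' := by
        apply Subtype.ext
        simp
      map_mul' := by
        intro a b
        apply Subtype.ext
        show (e (ψ₁ (a * b)))⁻¹ * ψ₂ (a * b) = ((e (ψ₁ a))⁻¹ * ψ₂ a) * ((e (ψ₁ b))⁻¹ * ψ₂ b)
        have hz := Subgroup.mem_center_iff.1 (hst₂.2.1 (hcmem a)) (e (ψ₁ b))⁻¹
        rw [map_mul, map_mul, map_mul, mul_inv_rev]
        calc (e (ψ₁ b))⁻¹ * (e (ψ₁ a))⁻¹ * (ψ₂ a * ψ₂ b)
            = ((e (ψ₁ b))⁻¹ * ((e (ψ₁ a))⁻¹ * ψ₂ a)) * ψ₂ b := by group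
          _ = (((e (ψ₁ a))⁻¹ * ψ₂ a) * (e (ψ₁ b))⁻¹) * ψ₂ b := by rw [hz]
          _ = _ := by group }
  -- the identification of the kernel with `A`
  have htm : ∀ a : A, ψ₂ ((μ a : hopfM π) : HopfN π) ∈ σ₂.ker := by
    intro a
    rw [MonoidHom.mem_ker, hψσ₂]
    exact hμK a
  let t : A →* σ₂.ker := ((ψ₂.comp (hopfM π).subtype).comp μ.toMonoidHom).codRestrict σ₂.ker htm
  have htinj : Function.Injective t := by
    rw [injective_iff_map_eq_one]
    intro a ha
    apply hS₂μ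
    have h1 : ψ₂ ((μ a : hopfM π) : HopfN π) = 1 := congrArg Subtype.val ha
    exact (QuotientGroup.eq_one_iff _).1 h1
  have htcard : Nat.card A = Nat.card σ₂.ker :=
    (Nat.card_congr μ.toEquiv).trans (Nat.card_congr he₂.toEquiv)
  have htb : Function.Bijective t := (Nat.bijective_iff_injective_and_card t).2 ⟨htinj, htcard⟩
  let te := MulEquiv.ofBijective t htb
  let cA : HopfN π →* A := te.symm.toMonoidHom.comp cc
  have hcAk : (hopfQ π).ker ≤ cA.ker := by
    rw [ker_hopfQ]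
    exact Abelianization.commutator_subset_ker cA
  let ct : Abelianization (FreeGroup Q) →* A :=
    (MonoidHom.liftOfSurjective (hopfQ π) (hopfQ_surjective π)) ⟨cA, hcAk⟩
  have hct : ∀ n, ct (hopfQ π n) = cA n := fun n => MonoidHom.liftOfRightInverse_comp_apply _ _ _ _ n
  -- computation on the multiplier
  have hccμ : ∀ a : A, e (ψ₁ ((μ a : hopfM π) : HopfN π)) = ψ₂ ((μ a : hopfM π) : HopfN π) := by
    intro a
    have h1 : cA ((μ a : hopfM π) : HopfN π) = 1 := by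
      rw [← hct, hqμ, map_one]
    have h2 : cc ((μ a : hopfM π) : HopfN π) = 1 := by
      apply te.symm.injective
      rw [map_one]
      exact h1
    have h3 : (e (ψ₁ ((μ a : hopfM π) : HopfN π)))⁻¹ * ψ₂ ((μ a : hopfM π) : HopfN π) = 1 :=
      congrArg Subtype.val h2
    exact (inv_mul_eq_one.1 h3)
  have hψ₂k : ∀ k : (hopfP π).ker, ψ₂ k = ψ₂ ((μ (r₂ k) : hopfM π) : HopfN π) := by
    intro k
    have h1 := hS₂mem k
    have h2 : ψ₂ ((k : HopfN π) * ((μ (r₂ k) : hopfM π) : HopfN π)⁻¹) = 1 :=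
      (QuotientGroup.eq_one_iff _).2 h1
    rw [map_mul, map_inv] at h2
    exact mul_inv_eq_one.1 h2
  have hctδ : ∀ k : (hopfP π).ker, ct (hopfQ π k) = δ (qk k) := by
    intro k
    rw [hct]
    show te.symm (cc k) = _
    rw [MulEquiv.symm_apply_eq]
    apply Subtype.ext
    show (e (ψ₁ k))⁻¹ * ψ₂ k = ψ₂ ((μ (δ (qk k)) : hopfM π) : HopfN π)
    rw [← hrψ₁ k, hccμ, hψ₂k k]
    have h1 : r₂ k = r₁ k * δ (qk k) := rfl
    rw [h1, map_mul, Subgroup.coe_mul, map_mul, inv_mul_cancel_left]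
  -- the contradiction
  obtain ⟨k, hk, hke⟩ := hyℓ
  have h5 : c ^ (b.repr (Additive.ofMul xh) j) = (ct y) ^ ℓ := by
    have h6 : qk ⟨k, hk⟩ = xh := Subtype.ext hke
    have h7 := hctδ ⟨k, hk⟩
    rw [h6] at h7
    have h8 : hopfQ π ((⟨k, hk⟩ : (hopfP π).ker) : HopfN π) = y ^ ℓ := hke
    rw [h8, map_pow] at h7
    exact h7.symm
  have hcop : IsCoprime (b.repr (Additive.ofMul xh) j) (ℓ : ℤ) := by
    have hpr : Prime (ℓ : ℤ) := Nat.prime_iff_prime_int.1 hℓ
    exact ((hpr.coprime_iff_not_dvd).2 hj).symm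
  obtain ⟨s, t', hst⟩ := hcop
  apply hc
  refine ⟨(ct y) ^ s * c ^ t', ?_⟩
  show ((ct y) ^ s * c ^ t') ^ ℓ = c
  rw [mul_pow, ← zpow_natCast ((ct y) ^ s), ← zpow_mul, mul_comm s, zpow_mul, zpow_natCast (ct y), ← h5,
    ← zpow_natCast (c ^ t'), ← zpow_mul, ← zpow_mul, ← zpow_add]
  have : b.repr (Additive.ofMul xh) j * s + t' * ℓ = 1 := by linarith
  rw [this, zpow_one]

end forward

/-- Let `Q` be a finite group with Schur multiplier `A`. Any two Schur covering groups of `Q` (finite stem extensions `σ₁ : Γ₁ →* Q`, `σ₂ : Γ₂ →* Q` with kernels isomorphic to `A`, `Γ₁, Γ₂` in the universe of `Q`) are isomorphic over `Q` — there is a group isomorphism `e : Γ₁ ≃* Γ₂` with `σ₂ ∘ e = σ₁` — if and only if the order of the commutator quotient of `Q` is coprime to the order of `A`. In particular a finite perfect group has a unique Schur covering group up to isomorphism over it. -/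
theorem result {Q : Type u} [Group Q] [Finite Q] {A : Type v} [CommGroup A] (hA : Cfsg.HasSchurMultiplier Q A) : (∀ (Γ₁ Γ₂ : Type u) [Group Γ₁] [Finite Γ₁] [Group Γ₂] [Finite Γ₂] (σ₁ : Γ₁ →* Q) (σ₂ : Γ₂ →* Q), Cfsg.IsStemExtension σ₁ → Cfsg.IsStemExtension σ₂ → Nonempty (σ₁.ker ≃* A) → Nonempty (σ₂.ker ≃* A) → ∃ e : Γ₁ ≃* Γ₂, σ₂.comp e.toMonoidHom = σ₁) ↔ Nat.Coprime (Nat.card (Abelianization Q)) (Nat.card A) := by
  have hπ := freePres_surjective Q
  obtain ⟨μ⟩ := nonempty_equiv_of_hasSchur hπ hA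
  haveI := finite_hopfM hπ
  haveI : Finite A := Finite.of_equiv _ μ.symm.toEquiv
  constructor
  · intro h
    exact coprime_of_unique μ h
  · intro h Γ₁ Γ₂ _ _ _ _ σ₁ σ₂ h₁ h₂ k₁ k₂
    exact iso_of_coprime hπ μ h σ₁ σ₂ h₁ h₂ k₁ k₂

end Cfsg.Agent.S3974
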