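import Mathlib
import Cfsg.Statements.S3976
import Cfsg.Agent.S3975

set_option autoImplicit false
set_option linter.all false
open Cfsg
open scoped Pointwise

namespace Cfsg.Agent.S3976

/-- Let `p` be a prime and `G` a group of order `p ^ m`. For every `s ≤ m` the number of normal subgroups of `G` of order `p ^ s` is congruent to `1` modulo `p`. -/
theorem result {G : Type*} [Group G] [Finite G] (p m s : ℕ) (hp : p.Prime) (hG : Nat.card G = p ^ m) (hs : s ≤ m) : Nat.card {H : Subgroup G // H.Normal ∧ Nat.card H = p ^ s} ≡ 1 [MOD p] := by
  classical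
  haveI : Fact p.Prime := ⟨hp⟩
  have h1 := Cfsg.Agent.S3975.result (G := G) p s hp (by rw [hG]; exact pow_dvd_pow p hs)
  -- `G` acts on these subgroups by conjugation
  let X := {H : Subgroup G // Nat.card H = p ^ s}
  haveI : Finite X := inferInstance
  let act : MulAction G X :=
    { smul := fun g H => ⟨MulAut.conj g • H.1, by
        have : Nat.card (MulAut.conj g • H.1 : Subgroup G) = Nat.card H.1 :=
          Subgroup.card_map_of_injective (f := (MulAut.conj g).toMonoidHom) (MulAut.conj g).injective
        exact this.trans H.2⟩
      one_smul := fun H => Subtype.ext (by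
        change MulAut.conj (1 : G) • H.1 = H.1
        simp)
      mul_smul := fun a b H => Subtype.ext (by
        change MulAut.conj (a * b) • H.1 = MulAut.conj a • MulAut.conj b • H.1
        rw [map_mul, mul_smul]) }
  have hpg : IsPGroup p G := IsPGroup.of_card hG
  have h2 := hpg.card_modEq_card_fixedPoints X
  have h3 : Nat.card (MulAction.fixedPoints G X) = Nat.card {H : Subgroup G // H.Normal ∧ Nat.card H = p ^ s} := by
    apply Nat.card_congr
    refine ⟨fun H => ⟨H.1.1, ?_, H.1.2⟩, fun H => ⟨⟨H.1, H.2.2⟩, ?_⟩, fun H => rfl, fun H => rfl⟩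
    · constructor
      intro n hn g
      have h4 : g • H.1 = H.1 := H.2 g
      have h5 : MulAut.conj g • H.1.1 = H.1.1 := congrArg Subtype.val h4
      rw [← h5]
      have := Subgroup.smul_mem_pointwise_smul n (MulAut.conj g) H.1.1 hn
      simpa [MulAut.smul_def] using this
    · intro g
      apply Subtype.ext
      change MulAut.conj g • H.1 = H.1
      ext x
      rw [Subgroup.mem_pointwise_smul_iff_inv_smul_mem]
      have e : (MulAut.conj g)⁻¹ • x = g⁻¹ * x * g := by
        simp [MulAut.smul_def]
      rw [e]
      constructor
      · intro h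
        have := H.2.1.conj_mem _ h g
        simpa [mul_assoc] using this
      · intro h
        have := H.2.1.conj_mem _ h g⁻¹
        simpa using this
  rw [h3] at h2
  exact h2.symm.trans h1

end Cfsg.Agent.S3976
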