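import Mathlib
import Cfsg.Statements.S3977
import Cfsg.Agent.Lib.PGroups.CyclicNormal

set_option autoImplicit false
set_option linter.all false
open Cfsg
open Subgroup

namespace Cfsg.Agent.S3977

/-- In a finite cyclic group, the solutions of `c ^ n = 1` lie in `⟨w⟩` when `w` has order `n`. -/
lemma mem_zpowers_of_pow_eq_one' {C : Type*} [Group C] [Finite C] [IsCyclic C] {w c : C} {n : ℕ}
    (hw : orderOf w = n) (hc : c ^ n = 1) : c ∈ zpowers w := by
  classical
  have := Fintype.ofFinite C
  have hn : 0 < n := by rw [← hw]; exact orderOf_pos w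
  have h1 : (Finset.univ.filter (fun a : C => a ^ n = 1)).card ≤ n :=
    IsCyclic.card_pow_eq_one_le hn
  have hT : ((zpowers w : Set C).toFinset).card = n := by
    rw [← Nat.card_eq_card_toFinset]
    exact (Nat.card_zpowers w).trans hw
  have hsub : (zpowers w : Set C).toFinset ⊆ Finset.univ.filter (fun a : C => a ^ n = 1) := by
    intro a ha
    simp only [Set.mem_toFinset, SetLike.mem_coe, mem_zpowers_iff] at ha
    obtain ⟨i, rfl⟩ := ha
    simp only [Finset.mem_filter, Finset.mem_univ, true_and]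
    rw [← zpow_natCast, ← zpow_mul, mul_comm, zpow_mul, zpow_natCast, ← hw, pow_orderOf_eq_one, one_zpow]
  have heq := Finset.eq_of_subset_of_card_le hsub (h1.trans hT.ge)
  have hc' : c ∈ Finset.univ.filter (fun a : C => a ^ n = 1) := by
    simp [hc]
  rw [← heq] at hc'
  simpa using hc'

/-- Let `p` be a prime and `G` a group of order `p ^ m` which has exactly one subgroup of order `p ^ s`, where `1 ≤ s < m`, and where `s ≥ 2` if `p = 2`. Then `G` is cyclic. (For `p = 2` and `s = 1` the generalized quaternion groups also occur; that case is the classical criterion for a unique involution.) -/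
theorem result {G : Type*} [Group G] [Finite G] (p m s : ℕ) (hp : p.Prime) (hG : Nat.card G = p ^ m) (hs : 1 ≤ s) (hsm : s < m) (h2 : p ≠ 2 ∨ 2 ≤ s) (huniq : ∀ H K : Subgroup G, Nat.card H = p ^ s → Nat.card K = p ^ s → H = K) : IsCyclic G := by
  classical
  haveI : Fact p.Prime := ⟨hp⟩
  have hGp : IsPGroup p G := IsPGroup.of_card hG
  obtain ⟨H, hH⟩ := Sylow.exists_subgroup_card_pow_prime (G := G) p (n := s)
    (by rw [hG]; exact pow_dvd_pow p hsm.le)
  have hE : ∀ (K : Subgroup G) (j : ℕ), Nat.card K = p ^ j → j ≤ s → K ≤ H := by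
    intro K j hK hj
    obtain ⟨K', hK', hle⟩ := Sylow.exists_subgroup_card_pow_prime_le p (m := s)
      (by rw [hG]; exact pow_dvd_pow p hsm.le) K hK hj
    rwa [huniq K' H hK' hH] at hle
  obtain ⟨x, hx⟩ : ∃ x, x ∉ H := by
    by_contra hcon
    push Not at hcon
    have h3 : H = ⊤ := eq_top_iff.2 (fun y _ => hcon y)
    rw [h3, Subgroup.card_top, hG] at hH
    have := Nat.pow_right_injective hp.two_le hH
    omega
  obtain ⟨t, ht⟩ := IsPGroup.iff_orderOf.1 hGp x
  have hts : s < t := by
    by_contra hle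
    push Not at hle
    exact hx (hE (zpowers x) t (by rw [Nat.card_zpowers, ht]) hle (mem_zpowers x))
  have hHx : H ≤ zpowers x := by
    obtain ⟨K, hK⟩ := Sylow.exists_subgroup_card_pow_prime (G := zpowers x) p (n := s)
      (by rw [Nat.card_zpowers, ht]; exact pow_dvd_pow p hts.le)
    have h3 : Nat.card (K.map (zpowers x).subtype) = p ^ s := by
      rw [Subgroup.card_map_of_injective (zpowers x).subtype_injective, hK]
    have := huniq _ H h3 hH
    rw [← this]
    exact Subgroup.map_subtype_le K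
  haveI hHc : IsCyclic H :=
    isCyclic_of_injective (Subgroup.inclusion hHx) (Subgroup.inclusion_injective hHx)
  -- solutions of `c ^ n = 1` in `H`
  have huP : ∀ a ∈ H, ∀ c ∈ H, ∀ n : ℕ, orderOf a = n → c ^ n = 1 → c ∈ zpowers a := by
    intro a ha c hc n hn hcn
    have h3 : orderOf (⟨a, ha⟩ : H) = n := by rw [Subgroup.orderOf_mk]; exact hn
    have h4 : (⟨c, hc⟩ : H) ^ n = 1 := Subtype.ext hcn
    have h5 := mem_zpowers_of_pow_eq_one' h3 h4
    obtain ⟨i, hi⟩ := h5
    exact ⟨i, congrArg Subtype.val hi⟩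
  -- elements of small order
  have hsmall : ∀ (c : G) (j : ℕ), j ≤ s → c ^ p ^ j = 1 → c ∈ H := by
    intro c j hj hc
    have h3 := orderOf_dvd_of_pow_eq_one hc
    obtain ⟨i, hij, hi⟩ := (Nat.dvd_prime_pow hp).1 h3
    exact hE (zpowers c) i (by rw [Nat.card_zpowers, hi]) (hij.trans hj) (mem_zpowers c)
  by_contra hnc
  by_cases hp2 : p = 2
  · subst hp2
    have hs2 : 2 ≤ s := h2.resolve_left (by simp)
    have hn : ∀ A : Subgroup G, A.Normal → IsMulCommutative A → IsCyclic A := by
      intro B _ hB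
      by_contra hBc
      letI : CommGroup B := { (inferInstance : Group B) with mul_comm := fun a b => hB.is_comm.comm a b }
      have hBp : IsPGroup 2 B := hGp.to_subgroup B
      obtain ⟨w, hw⟩ := Monoid.exists_orderOf_eq_exponent (G := B) (Monoid.exponent_ne_zero.1 Monoid.exponent_ne_zero_of_finite)
      have hne : zpowers w ≠ ⊤ := by
        intro h
        apply hBc
        refine ⟨w, fun u => ?_⟩
        change u ∈ zpowers w
        rw [h]
        exact Subgroup.mem_top u
      have hwexp : ∀ u : B, u ^ orderOf w = 1 := by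
        intro u
        rw [hw]
        exact Monoid.pow_exponent_eq_one u
      obtain ⟨u, huw, hu2⟩ := Cfsg.Agent.Lib.PGroups.NormalRankTwo.exists_pow_eq_one_notMem_of_comm
        hBp (fun a b => mul_comm a b) w hwexp hne
      have hw1 : w ≠ 1 := by
        rintro rfl
        apply hne
        rw [eq_top_iff]
        intro v _
        have : v ^ orderOf (1 : B) = 1 := hwexp v
        rw [orderOf_one, pow_one] at this
        rw [this]
        exact Subgroup.one_mem _
      have h3 := Cfsg.Agent.Lib.PGroups.Basic.exists_orderOf_eq_of_ne_one hBp hw1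
      set t : B := w ^ (orderOf w / 2) with ht'
      have ht2 : orderOf (t : G) = 2 := by rw [Subgroup.orderOf_coe]; exact h3
      have ht2' : (t : G) ^ 2 = 1 := ht2 ▸ pow_orderOf_eq_one (t : G)
      have hu2' : (u : G) ^ 2 = 1 := congrArg Subtype.val hu2
      have htH : (t : G) ∈ H := hsmall _ 1 hs (by simpa using ht2')
      have huH : (u : G) ∈ H := hsmall _ 1 hs (by simpa using hu2')
      obtain ⟨i, hi⟩ := huP _ htH _ huH 2 ht2 hu2'
      apply huw
      refine ⟨(orderOf w / 2 : ℕ) * i, ?_⟩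
      apply Subtype.ext
      have h4 : ((t : G)) ^ i = u := hi
      simp only [zpow_mul, zpow_natCast]
      push_cast
      rw [← h4, ht']
      push_cast
      rfl
    obtain ⟨n, a, y, hn2, hao, hcard, hy, hidx, hcases⟩ :=
      Cfsg.Agent.Lib.PGroups.CyclicNormal.classify hGp hn hnc
    have hpow_le : ∀ k : ℕ, k ≤ n → orderOf (a ^ 2 ^ (n - k)) = 2 ^ k := by
      intro k hk
      have h3 : 2 ^ (n - k) ∣ orderOf a := by
        rw [hao]; exact pow_dvd_pow 2 (Nat.sub_le n k)
      rw [orderOf_pow_of_dvd (by positivity) h3, hao]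
      rw [Nat.pow_div (Nat.sub_le n k) (by norm_num)]
      congr 1
      omega
    have hzle : ∀ k : ℕ, zpowers (a ^ 2 ^ k) ≤ zpowers a := by
      intro k
      rw [Subgroup.zpowers_le]
      exact Subgroup.pow_mem _ (mem_zpowers a) _
    have ht2 := hpow_le 1 (by omega)
    rw [pow_one] at ht2
    have hpo : ∀ (z : G) (k : ℕ), orderOf z = k → z ^ k = 1 := fun z k h => h ▸ pow_orderOf_eq_one z
    have htH : a ^ 2 ^ (n - 1) ∈ H := hsmall _ 1 hs (by
      rw [pow_one]
      exact hpo _ _ ht2)
    rcases hcases with ⟨h3, -⟩ | ⟨-, h3, -⟩ | ⟨-, h3, -⟩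
    · -- quaternion type
      have hy4 : y ^ 2 ^ 2 = 1 := by
        have h4 : y ^ 2 ^ 2 = (y ^ 2) ^ 2 := by rw [← pow_mul]; norm_num
        rw [h4, h3]
        exact hpo _ _ ht2
      have hyH : y ∈ H := hsmall _ 2 hs2 hy4
      have hb4 := hpow_le 2 hn2
      have hbH : a ^ 2 ^ (n - 2) ∈ H := hsmall _ 2 hs2 (hpo _ _ hb4)
      exact hy (hzle _ (huP _ hbH _ hyH _ hb4 hy4))
    · have hyH : y ∈ H := hsmall _ 1 hs (by simpa using h3)
      exact hy (hzle _ (huP _ htH _ hyH _ ht2 h3))
    · have hyH : y ∈ H := hsmall _ 1 hs (by simpa using h3)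
      exact hy (hzle _ (huP _ htH _ hyH _ ht2 h3))
  · obtain ⟨A, hAn, hAe, hAc⟩ := Cfsg.Agent.Lib.PGroups.NormalRankTwo.exists_normal_card_sq hp2 hGp hnc
    have hAH : A ≤ H := by
      intro a ha
      exact hsmall a 1 hs (by simpa using hAe a ha)
    have hA1 : ∃ a ∈ A, a ≠ 1 := by
      by_contra hcon
      push Not at hcon
      have h3 : A = ⊥ := eq_bot_iff.2 (fun y hy => hcon y hy)
      rw [h3, Subgroup.card_bot] at hAc
      have h4 : 1 < p ^ 2 := Nat.one_lt_pow (by norm_num) hp.one_lt
      omega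
    obtain ⟨a, ha, ha1⟩ := hA1
    have hao : orderOf a = p := orderOf_eq_prime (hAe a ha) ha1
    have hAle : A ≤ zpowers a := by
      intro c hc
      exact huP a (hAH ha) c (hAH hc) p hao (hAe c hc)
    have h3 := Subgroup.card_dvd_of_le hAle
    rw [hAc, Nat.card_zpowers, hao] at h3
    have := (Nat.pow_dvd_pow_iff_le_right hp.one_lt).1 (by simpa using h3 : p ^ 2 ∣ p ^ 1)
    omega

end Cfsg.Agent.S3977
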