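import Mathlib
import Cfsg.Statements.S3978
import Cfsg.Agent.S3955
import Cfsg.Agent.S3956

set_option autoImplicit false
set_option linter.all false
open Cfsg

namespace Cfsg.Agent.S3978

lemma id_stem {Q : Type*} [Group Q] : Cfsg.IsStemExtension (MonoidHom.id Q) := by
  refine ⟨Function.surjective_id, ?_, ?_⟩
  · intro x hx
    have : x = 1 := hx
    rw [this]
    exact Subgroup.one_mem _
  · intro x hx
    have : x = 1 := hx
    rw [this]
    exact Subgroup.one_mem _

/-- A finite group `Q` has trivial Schur multiplier if and only if, for every `n`, every homomorphism from `Q` to the projective general linear group (the quotient of `GL n ℂ` by its centre) lifts to a homomorphism into `GL n ℂ`. -/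
theorem result {Q : Type*} [Group Q] [Finite Q] : Cfsg.HasCyclicSchurMultiplier Q 1 ↔ ∀ (n : ℕ) (γ : Q →* (GL (Fin n) ℂ ⧸ Subgroup.center (GL (Fin n) ℂ))), ∃ ρ : Q →* GL (Fin n) ℂ, (QuotientGroup.mk' (Subgroup.center (GL (Fin n) ℂ))).comp ρ = γ := by
  have hke : Nonempty ((MonoidHom.id Q).ker ≃* Multiplicative (ZMod 1)) := by
    haveI : Subsingleton (MonoidHom.id Q).ker := by
      constructor
      rintro ⟨a, ha⟩ ⟨b, hb⟩
      apply Subtype.ext
      have h1 : a = 1 := ha
      have h2 : b = 1 := hb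
      exact h1.trans h2.symm
    letI : Inhabited (MonoidHom.id Q).ker := ⟨1⟩
    letI : Unique (MonoidHom.id Q).ker := Unique.mk' _
    exact ⟨MulEquiv.ofUnique⟩
  constructor
  · intro h n γ
    obtain ⟨ρ, hρ⟩ := Cfsg.Agent.S3955.result h (MonoidHom.id Q) id_stem hke n γ
    exact ⟨ρ, hρ⟩
  · intro h
    refine ⟨⟨Q, inferInstance, inferInstance, MonoidHom.id Q, id_stem, hke⟩, ?_⟩
    intro Γ _ _ σ hσ
    obtain ⟨f, hf⟩ := Cfsg.Agent.S3956.result (MonoidHom.id Q) id_stem (fun n γ => by
      obtain ⟨ρ, hρ⟩ := h n γ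
      exact ⟨ρ, hρ⟩) Γ σ hσ
    refine ⟨1, ?_⟩
    intro y
    obtain ⟨x, rfl⟩ := hf y
    have : x = 1 := by
      apply Subtype.ext
      exact x.2
    rw [this, map_one]
    exact ⟨1, rfl⟩

end Cfsg.Agent.S3978
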