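import Mathlib
import Cfsg.Statements.S3979

set_option autoImplicit false
open Cfsg

namespace Cfsg.Agent.S3979

/-- A finite cyclic group has trivial Schur multiplier: every finite stem extension of it is an isomorphism, said through `HasCyclicSchurMultiplier G 1`. -/
theorem result {G : Type*} [Group G] [Finite G] [IsCyclic G] : Cfsg.HasCyclicSchurMultiplier G 1 := by
  haveI : Subsingleton (Multiplicative (ZMod 1)) :=
    inferInstanceAs (Subsingleton (ZMod 1))
  constructor
  · refine ⟨G, inferInstance, inferInstance, MonoidHom.id G, ⟨Function.surjective_id, ?_, ?_⟩, ⟨?_⟩⟩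
    · rw [MonoidHom.ker_id]; exact bot_le
    · rw [MonoidHom.ker_id]; exact bot_le
    · refine MulEquiv.mk' (Equiv.ofBijective (fun _ => 1) ⟨?_, ?_⟩) ?_
      · intro a b _
        have h1 : a = 1 := Subtype.ext (MonoidHom.mem_ker.1 a.2)
        have h2 : b = 1 := Subtype.ext (MonoidHom.mem_ker.1 b.2)
        rw [h1, h2]
      · intro b
        exact ⟨1, Subsingleton.elim _ _⟩
      · intro a b
        exact Subsingleton.elim _ _
  · intro Γ _ _ σ hσ
    refine ⟨1, ?_⟩
    intro z
    have hab := commutative_of_cyclic_center_quotient σ hσ.2.1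
    have hc : commutator Γ = ⊥ := by
      rw [commutator_eq_bot_iff_center_eq_top, eq_top_iff]
      intro x _
      rw [Subgroup.mem_center_iff]
      intro g
      exact hab g x
    have hz := hσ.2.2 z.2
    rw [hc, Subgroup.mem_bot] at hz
    exact ⟨1, Subtype.ext (by simp [hz])⟩

end Cfsg.Agent.S3979
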