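import Mathlib
import Cfsg.Statements.S3980
import Cfsg.Agent.S3959

set_option autoImplicit false
set_option linter.all false
universe u v w
open Cfsg

namespace Cfsg.Agent.S3980

lemma tensor_subsingleton {X Y : Type*} [AddCommGroup X] [AddCommGroup Y] [Finite X] [Finite Y]
    (h : Nat.Coprime (Nat.card X) (Nat.card Y)) : Subsingleton (TensorProduct ℤ X Y) := by
  constructor
  have key : ∀ t : TensorProduct ℤ X Y, t = 0 := by
    intro t
    induction t using TensorProduct.induction_on with
    | zero => rfl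
    | add a b ha hb => rw [ha, hb, add_zero]
    | tmul x y =>
      obtain ⟨u, v, huv⟩ := Nat.isCoprime_iff_coprime.2 h
      have hx : (Nat.card X : ℤ) • x = 0 := by
        rw [natCast_zsmul]
        exact card_nsmul_eq_zero'
      have hy : (Nat.card Y : ℤ) • y = 0 := by
        rw [natCast_zsmul]
        exact card_nsmul_eq_zero'
      have h1 : x ⊗ₜ[ℤ] y = ((u * (Nat.card X : ℤ) + v * (Nat.card Y : ℤ)) • x) ⊗ₜ[ℤ] y := by
        rw [huv, one_smul]
      rw [h1, add_smul, TensorProduct.add_tmul, mul_smul, hx, smul_zero, TensorProduct.zero_tmul, zero_add,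
        mul_smul, TensorProduct.smul_tmul, TensorProduct.smul_tmul, smul_comm, hy, smul_zero,
        TensorProduct.tmul_zero]
  intro a b
  rw [key a, key b]

lemma hasSchur_congr {G : Type u} [Group G] {A : Type v} {B : Type w} [CommGroup A] [CommGroup B]
    (e : A ≃* B) (h : Cfsg.HasSchurMultiplier G A) : Cfsg.HasSchurMultiplier G B := by
  obtain ⟨⟨Γ, i1, i2, σ, hσ, ⟨f⟩⟩, h2⟩ := h
  refine ⟨⟨Γ, i1, i2, σ, hσ, ⟨f.trans e⟩⟩, ?_⟩
  intro Δ _ _ τ hτ
  obtain ⟨g, hg⟩ := h2 Δ τ hτ
  exact ⟨g.comp e.symm.toMonoidHom, hg.comp e.symm.surjective⟩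

/-- Let `Q₁` and `Q₂` be finite groups whose commutator quotients have coprime orders, with Schur multipliers `A` and `B`. Then the Schur multiplier of `Q₁ × Q₂` is isomorphic to `A × B`. -/
theorem result {Q₁ : Type u} {Q₂ : Type v} [Group Q₁] [Group Q₂] [Finite Q₁] [Finite Q₂] {A B : Type w} [CommGroup A] [CommGroup B] (hA : Cfsg.HasSchurMultiplier Q₁ A) (hB : Cfsg.HasSchurMultiplier Q₂ B) (hcop : Nat.Coprime (Nat.card (Abelianization Q₁)) (Nat.card (Abelianization Q₂))) : Cfsg.HasSchurMultiplier (Q₁ × Q₂) (A × B) := by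
  have h := Cfsg.Agent.S3959.result hA hB
  haveI : Finite (Abelianization Q₁) := Finite.of_surjective _ (QuotientGroup.mk'_surjective _)
  haveI : Finite (Abelianization Q₂) := Finite.of_surjective _ (QuotientGroup.mk'_surjective _)
  haveI hs : Subsingleton (TensorProduct ℤ (Additive (Abelianization Q₁)) (Additive (Abelianization Q₂))) :=
    tensor_subsingleton (by
      rw [Nat.card_congr (Additive.toMul : Additive (Abelianization Q₁) ≃ _),
        Nat.card_congr (Additive.toMul : Additive (Abelianization Q₂) ≃ _)]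
      exact hcop)
  haveI hs' : Subsingleton (Multiplicative (TensorProduct ℤ (Additive (Abelianization Q₁)) (Additive (Abelianization Q₂)))) :=
    Multiplicative.ofAdd.symm.subsingleton
  let e : (A × B × Multiplicative (TensorProduct ℤ (Additive (Abelianization Q₁)) (Additive (Abelianization Q₂)))) ≃* (A × B) :=
    { toFun := fun x => (x.1, x.2.1)
      invFun := fun x => (x.1, x.2, 1)
      left_inv := by
        rintro ⟨a, b, c⟩
        simp [Subsingleton.elim c 1]
      right_inv := by
        rintro ⟨a, b⟩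
        rfl
      map_mul' := by
        rintro ⟨a, b, c⟩ ⟨a', b', c'⟩
        rfl }
  exact hasSchur_congr e h

end Cfsg.Agent.S3980
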