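import Mathlib
import Cfsg.Statements.S3994
import Cfsg.Agent.S3993

set_option autoImplicit false
set_option linter.all false
open Cfsg

namespace Cfsg.Agent.S3994

variable {G : Type*} [Group G] [Finite G]

lemma ncard_conjClass (x : G) :
    (ConjClasses.mk x).carrier.ncard = (Subgroup.centralizer ({x} : Set G)).index := by
  rw [← ConjAct.orbit_eq_carrier_conjClasses, ← MulAction.index_stabilizer]
  have h : Subgroup.centralizer ({x} : Set G) =
      (MulAction.stabilizer (ConjAct G) x).comap (ConjAct.toConjAct : G ≃* ConjAct G).toMonoidHom := by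
    ext z
    rw [Subgroup.mem_comap, MulAction.mem_stabilizer_iff, Subgroup.mem_centralizer_iff]
    change _ ↔ (ConjAct.toConjAct z) • x = x
    rw [ConjAct.smul_def, ConjAct.ofConjAct_toConjAct]
    constructor
    · intro h
      have h1 := h x (Set.mem_singleton x)
      rw [← h1]
      group
    · intro h w hw
      have hw' : w = x := hw
      rw [hw']
      exact (mul_inv_eq_iff_eq_mul.1 h).symm
  rw [h, Subgroup.index_comap_of_surjective _ (ConjAct.toConjAct : G ≃* ConjAct G).surjective]

/-- Arithmetic of the part of `d` prime to `n`. -/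
lemma coprime_part (d n : ℕ) (hd : 0 < d) :
    Nat.Coprime (d / Nat.gcd d (n ^ d)) n := by
  set k := Nat.gcd d (n ^ d) with hk
  have hkpos : 0 < k := Nat.gcd_pos_of_pos_left _ hd
  have hdk : k ∣ d := Nat.gcd_dvd_left _ _
  apply Nat.coprime_of_dvd
  intro p hp hpm hpn
  obtain ⟨v, d', hd', hdd⟩ := Nat.exists_eq_pow_mul_and_not_dvd hd.ne' p hp.ne_one
  have h1 : p ^ v ∣ d := ⟨d', hdd⟩
  have hvd : v ≤ d := by
    have h2 : p ^ v ≤ d := Nat.le_of_dvd hd h1
    have h3 : v < p ^ v := Nat.lt_pow_self hp.one_lt
    omega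
  have h4 : p ^ v ∣ n ^ d := (pow_dvd_pow p hvd).trans (pow_dvd_pow_of_dvd hpn d)
  have h5 : p ^ v ∣ k := Nat.dvd_gcd h1 h4
  obtain ⟨k', hk'⟩ := h5
  have h6 : d / k * k = d := Nat.div_mul_cancel hdk
  generalize d / k = m at *
  have h8 : m * k' = d' := by
    have hpv : 0 < p ^ v := pow_pos hp.pos v
    have : p ^ v * (m * k') = p ^ v * d' := by
      calc p ^ v * (m * k') = m * (p ^ v * k') := by ring
        _ = m * k := by rw [hk']
        _ = d := h6
        _ = p ^ v * d' := hdd
    exact Nat.eq_of_mul_eq_mul_left hpv this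
  apply hd'
  rw [← h8]
  exact hpm.trans (dvd_mul_right _ _)

/-- Contribution of a class is divisible by `m`. -/
lemma dvd_index_mul (d m c i e : ℕ) (hd : d = c * i) (hm : m ∣ d) (he : e = Nat.gcd c m) (hc : 0 < c) :
    m ∣ i * e := by
  subst he
  set g := Nat.gcd c m with hg
  have hgpos : 0 < g := Nat.gcd_pos_of_pos_left _ hc
  obtain ⟨c', hc'⟩ : g ∣ c := Nat.gcd_dvd_left _ _
  obtain ⟨m', hm'⟩ : g ∣ m := Nat.gcd_dvd_right _ _
  have hcop : Nat.Coprime c' m' := by
    have := Nat.coprime_div_gcd_div_gcd (m := c) (n := m) hgpos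
    rw [← hg] at this
    rwa [hc', hm', Nat.mul_div_cancel_left _ hgpos, Nat.mul_div_cancel_left _ hgpos] at this
  have h1 : m' ∣ c' * i := by
    have h2 : g * m' ∣ g * (c' * i) := by
      rw [← hm', ← mul_assoc, ← hc', ← hd]
      exact hm
    exact Nat.dvd_of_mul_dvd_mul_left hgpos h2
  have h3 : m' ∣ i := (Nat.Coprime.dvd_of_dvd_mul_left hcop.symm h1)
  rw [hm', mul_comm g m']
  exact Nat.mul_dvd_mul_right h3 g

/-- The main counting. -/
lemma main_dvd (n : ℕ) (hn : 0 < n) :
    (Nat.card G / Nat.gcd (Nat.card G) (n ^ Nat.card G)) ∣ Nat.card {g : G // n ∣ orderOf g} := by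
  classical
  haveI : Fintype G := Fintype.ofFinite G
  set d := Nat.card G with hd
  have hdpos : 0 < d := Nat.card_pos
  set k := Nat.gcd d (n ^ d) with hk
  have hkd : k ∣ d := Nat.gcd_dvd_left _ _
  set m := d / k with hm
  have hmk : m * k = d := Nat.div_mul_cancel hkd
  have hmn : Nat.Coprime m n := coprime_part d n hdpos
  have hmkc : Nat.Coprime m k := by
    apply Nat.coprime_of_dvd
    intro p hp h1 h2
    have h3 : p ∣ n ^ d := h2.trans (Nat.gcd_dvd_right _ _)
    have h4 : p ∣ n := hp.dvd_of_dvd_pow h3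
    exact hp.not_dvd_one (by
      have := Nat.dvd_gcd h1 h4
      rwa [hmn] at this)
  obtain ⟨u, v, huv⟩ := Nat.isCoprime_iff_coprime.2 hmkc
  -- `u * m + v * k = 1`
  have hpow : ∀ g : G, g ^ (m * k) = 1 := by
    intro g
    rw [hmk, hd]
    exact pow_card_eq_one'
  let φ : G → G := fun g => g ^ (u * (m : ℤ))
  let ρ : G → G := fun g => g ^ (v * (k : ℤ))
  have hφρ : ∀ g, φ g * ρ g = g := by
    intro g
    show g ^ (u * (m : ℤ)) * g ^ (v * (k : ℤ)) = g
    rw [← zpow_add, huv, zpow_one]
  have hφk : ∀ g, φ g ^ k = 1 := by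
    intro g
    show (g ^ (u * (m : ℤ))) ^ k = 1
    rw [← zpow_natCast, ← zpow_mul]
    have : u * (m : ℤ) * (k : ℤ) = u * ((m * k : ℕ) : ℤ) := by push_cast; ring
    rw [this, mul_comm, zpow_mul, zpow_natCast, hpow, one_zpow]
  have hρm : ∀ g, ρ g ^ m = 1 := by
    intro g
    show (g ^ (v * (k : ℤ))) ^ m = 1
    rw [← zpow_natCast, ← zpow_mul]
    have : v * (k : ℤ) * (m : ℤ) = v * ((m * k : ℕ) : ℤ) := by push_cast; ring
    rw [this, mul_comm, zpow_mul, zpow_natCast, hpow, one_zpow]
  have hφc : ∀ g, Commute (φ g) (ρ g) := fun g =>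
    ((Commute.refl g).zpow_zpow _ _)
  -- orders
  have hordiv : ∀ x y : G, x ^ k = 1 → y ^ m = 1 → Commute x y →
      (n ∣ orderOf (x * y) ↔ n ∣ orderOf x) := by
    intro x y hx hy hc
    have h1 : orderOf x ∣ k := orderOf_dvd_of_pow_eq_one hx
    have h2 : orderOf y ∣ m := orderOf_dvd_of_pow_eq_one hy
    have hcop : Nat.Coprime (orderOf x) (orderOf y) :=
      Nat.Coprime.coprime_dvd_left h1 (Nat.Coprime.coprime_dvd_right h2 hmkc.symm)
    rw [hc.orderOf_mul_eq_mul_orderOf_of_coprime hcop]
    constructor
    · intro h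
      exact (Nat.Coprime.dvd_of_dvd_mul_right (Nat.Coprime.coprime_dvd_right h2 hmn.symm) h)
    · intro h
      exact h.trans (dvd_mul_right _ _)
  -- unique decomposition
  have hφmul : ∀ x y : G, x ^ k = 1 → y ^ m = 1 → Commute x y → φ (x * y) = x := by
    intro x y hx hy hc
    show (x * y) ^ (u * (m : ℤ)) = x
    rw [hc.mul_zpow]
    have h1 : y ^ (u * (m : ℤ)) = 1 := by
      rw [mul_comm, zpow_mul, zpow_natCast, hy, one_zpow]
    have h2 : x ^ (u * (m : ℤ)) = x := by
      have h3 : u * (m : ℤ) = 1 - v * (k : ℤ) := by linarith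
      rw [h3, zpow_sub, zpow_one]
      have h4 : x ^ (v * (k : ℤ)) = 1 := by
        rw [mul_comm, zpow_mul, zpow_natCast, hx, one_zpow]
      rw [h4, inv_one, mul_one]
    rw [h1, h2, mul_one]
  let S : Finset G := Finset.univ.filter (fun g => n ∣ orderOf g)
  let X : Finset G := Finset.univ.filter (fun x => x ^ k = 1 ∧ n ∣ orderOf x)
  have hSmem : ∀ g, g ∈ S ↔ n ∣ orderOf g := by simp [S]
  have hXmem : ∀ x, x ∈ X ↔ x ^ k = 1 ∧ n ∣ orderOf x := by simp [X]
  have hmap : ∀ g ∈ S, φ g ∈ X := by
    intro g hg
    rw [hXmem]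
    refine ⟨hφk g, ?_⟩
    rw [← hordiv (φ g) (ρ g) (hφk g) (hρm g) (hφc g), hφρ]
    exact (hSmem g).1 hg
  let F : G → ℕ := fun x => (Finset.univ.filter (fun y : G => y ^ m = 1 ∧ Commute x y)).card
  have hcardS : S.card = ∑ x ∈ X, F x := by
    rw [Finset.card_eq_sum_card_fiberwise hmap]
    apply Finset.sum_congr rfl
    intro x hx
    obtain ⟨hx1, hx2⟩ := (hXmem x).1 hx
    apply Finset.card_bij' (fun g _ => ρ g) (fun y _ => x * y)
    · intro g hg
      simp only [Finset.mem_filter, Finset.mem_univ, true_and] at hg ⊢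
      refine ⟨hρm g, ?_⟩
      rw [← hg.2]
      exact hφc g
    · intro y hy
      simp only [Finset.mem_filter, Finset.mem_univ, true_and] at hy ⊢
      refine ⟨?_, hφmul x y hx1 hy.1 hy.2⟩
      rw [hSmem, hordiv x y hx1 hy.1 hy.2]
      exact hx2
    · intro g hg
      simp only [Finset.mem_filter, Finset.mem_univ, true_and] at hg
      rw [← hg.2]
      exact hφρ g
    · intro y hy
      simp only [Finset.mem_filter, Finset.mem_univ, true_and] at hy
      have h1 : φ (x * y) = x := hφmul x y hx1 hy.1 hy.2
      have h2 := hφρ (x * y)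
      rw [h1] at h2
      exact mul_left_cancel h2
  have hcard : Nat.card {g : G // n ∣ orderOf g} = S.card := by
    rw [Nat.card_eq_fintype_card, Fintype.card_subtype]
  rw [hcard, hcardS]
  -- grouping in classes
  have hsum := Finset.sum_fiberwise X (fun x => ConjClasses.mk x) F
  rw [← hsum]
  apply Finset.dvd_sum
  intro c _
  by_cases hne : (X.filter (fun x => ConjClasses.mk x = c)).Nonempty
  · obtain ⟨a, ha⟩ := hne
    obtain ⟨haX, hac⟩ := Finset.mem_filter.1 ha
    -- every element in the class has the same `F`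
    have hFconj : ∀ x, ConjClasses.mk x = c → F x = F a := by
      intro x hx
      have h1 : IsConj a x := ConjClasses.mk_eq_mk_iff_isConj.1 (hac.trans hx.symm)
      obtain ⟨w, hw⟩ := isConj_iff.1 h1
      apply Finset.card_bij (fun y _ => w⁻¹ * y * w)
      · intro y hy
        simp only [Finset.mem_filter, Finset.mem_univ, true_and] at hy ⊢
        constructor
        · have : (w⁻¹ * y * w) ^ m = w⁻¹ * y ^ m * w := by
            have := conj_pow (a := w⁻¹) (b := y) (i := m)
            simpa using this
          rw [this, hy.1]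
          simp
        · rw [← hw] at hy
          show a * (w⁻¹ * y * w) = (w⁻¹ * y * w) * a
          have h2 : w * a * w⁻¹ * y = y * (w * a * w⁻¹) := hy.2
          calc a * (w⁻¹ * y * w) = w⁻¹ * (w * a * w⁻¹ * y) * w := by group
            _ = w⁻¹ * (y * (w * a * w⁻¹)) * w := by rw [h2]
            _ = _ := by group
      · intro y _ z _ h
        simpa using h
      · intro y hy
        simp only [Finset.mem_filter, Finset.mem_univ, true_and] at hy
        refine ⟨w * y * w⁻¹, ?_, by group⟩
        simp only [Finset.mem_filter, Finset.mem_univ, true_and]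
        constructor
        · rw [conj_pow, hy.1]
          simp
        · rw [← hw]
          show w * a * w⁻¹ * (w * y * w⁻¹) = w * y * w⁻¹ * (w * a * w⁻¹)
          have h2 : a * y = y * a := hy.2
          calc w * a * w⁻¹ * (w * y * w⁻¹) = w * (a * y) * w⁻¹ := by group
            _ = w * (y * a) * w⁻¹ := by rw [h2]
            _ = _ := by group
    -- the fiber is the whole class
    have hfib : X.filter (fun x => ConjClasses.mk x = c) = Finset.univ.filter (fun x => ConjClasses.mk x = c) := by
      ext x
      simp only [Finset.mem_filter, Finset.mem_univ, true_and, and_iff_right_iff_imp]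
      intro hx
      have h1 : IsConj a x := ConjClasses.mk_eq_mk_iff_isConj.1 (hac.trans hx.symm)
      obtain ⟨w, hw⟩ := isConj_iff.1 h1
      obtain ⟨h2, h3⟩ := (hXmem a).1 haX
      rw [hXmem, ← hw]
      constructor
      · rw [conj_pow, h2]
        simp
      · have : orderOf (w * a * w⁻¹) = orderOf a := by
          have := orderOf_injective (MulAut.conj w).toMonoidHom (MulAut.conj w).injective a
          simpa [MulAut.conj_apply] using this
        rw [this]
        exact h3
    rw [hfib, Finset.sum_congr rfl (fun x hx => hFconj x (Finset.mem_filter.1 hx).2), Finset.sum_const,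
      smul_eq_mul]
    -- the class size
    have hclass : (Finset.univ.filter (fun x => ConjClasses.mk x = c)).card
        = (Subgroup.centralizer ({a} : Set G)).index := by
      rw [← ncard_conjClass, hac]
      rw [← Set.ncard_coe_finset]
      congr 1
      ext x
      simp [ConjClasses.mem_carrier_iff_mk_eq]
    rw [hclass]
    -- use Frobenius in the centralizer
    set C := Subgroup.centralizer ({a} : Set G) with hC
    set e := Nat.gcd (Nat.card C) m with he
    have he1 : e ∣ Nat.card C := Nat.gcd_dvd_left _ _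
    have he2 : e ∣ m := Nat.gcd_dvd_right _ _
    have hfrob := Cfsg.Agent.S3993.result (G := C) e he1
    have hFa : Nat.card {y : C // y ^ e = 1} = F a := by
      have h0 : F a = Nat.card {y : G // y ^ m = 1 ∧ Commute a y} := by
        rw [Nat.card_eq_fintype_card, Fintype.card_subtype]
      rw [h0]
      apply Nat.card_congr
      refine
        { toFun := fun y => ⟨y.1.1, ?_, ?_⟩
          invFun := fun z => ⟨⟨z.1, ?_⟩, ?_⟩
          left_inv := fun y => rfl
          right_inv := fun z => rfl }
      · obtain ⟨e', he'⟩ := he2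
        have h1 : (y.1 : C) ^ e = 1 := y.2
        have h2 : ((y.1 : C) : G) ^ e = 1 := by
          have := congrArg Subtype.val h1
          simpa using this
        rw [he', pow_mul, h2, one_pow]
      · have h1 := Subgroup.mem_centralizer_iff.1 y.1.2 a rfl
        exact h1
      · rw [hC, Subgroup.mem_centralizer_iff]
        intro w hw
        have hw' : w = a := hw
        rw [hw']
        exact z.2.2
      · have hzC : z.1 ∈ C := by
          rw [hC, Subgroup.mem_centralizer_iff]
          intro w hw
          have hw' : w = a := hw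
          rw [hw']
          exact z.2.2
        have h1 : orderOf (⟨z.1, hzC⟩ : C) ∣ Nat.card C := orderOf_dvd_natCard _
        have h2 : orderOf (⟨z.1, hzC⟩ : C) ∣ m := by
          rw [Subgroup.orderOf_mk]
          exact orderOf_dvd_of_pow_eq_one z.2.1
        exact orderOf_dvd_iff_pow_eq_one.1 (Nat.dvd_gcd h1 h2)
    rw [hFa] at hfrob
    have h1 := dvd_index_mul d m (Nat.card C) C.index e (by rw [hd]; exact C.card_mul_index.symm)
      ⟨k, hmk.symm⟩ he Nat.card_pos
    exact h1.trans (Nat.mul_dvd_mul_left _ hfrob)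
  · rw [Finset.not_nonempty_iff_eq_empty] at hne
    rw [hne]
    simp

/-- Let G be a finite group and n a positive integer. The number of elements of G whose order is divisible by n is either 0 or divisible by the largest divisor of the order of G that is coprime to n. -/
theorem result {G : Type*} [Group G] [Finite G] (n : ℕ) (hn : 0 < n) :
    Nat.card {g : G // n ∣ orderOf g} = 0 ∨
      (Nat.card G / Nat.gcd (Nat.card G) (n ^ Nat.card G)) ∣ Nat.card {g : G // n ∣ orderOf g} :=
  Or.inr (main_dvd n hn)

end Cfsg.Agent.S3994
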