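import Mathlib
import Cfsg.Statements.S3995
import Cfsg.Agent.S3993
import Cfsg.Agent.Lib.PGroups.CyclicNormal

set_option autoImplicit false
set_option linter.all false
open Cfsg

namespace Cfsg.Agent.S3995

open Subgroup Cfsg.Agent.Lib.PGroups.NormalRankTwo Cfsg.Agent.Lib.PGroups.CyclicNormal
  Cfsg.Agent.Lib.PGroups.Presentations

section count

variable {G : Type*} [Group G] [Finite G]

/-- the count of elements of order `m`. -/
noncomputable def fo (G : Type*) [Group G] (m : ℕ) : ℕ := Nat.card {g : G // orderOf g = m}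

lemma card_pow_eq (m : ℕ) (hm : m ≠ 0) :
    Nat.card {g : G // g ^ m = 1} = ∑ d ∈ m.divisors, fo G d := by
  classical
  haveI : Fintype G := Fintype.ofFinite G
  have h1 : Nat.card {g : G // g ^ m = 1} = (Finset.univ.filter (fun g : G => g ^ m = 1)).card := by
    rw [Nat.card_eq_fintype_card, Fintype.card_subtype]
  have hmap : ∀ g ∈ Finset.univ.filter (fun g : G => g ^ m = 1), orderOf g ∈ m.divisors := by
    intro g hg
    rw [Nat.mem_divisors]
    exact ⟨orderOf_dvd_of_pow_eq_one (Finset.mem_filter.1 hg).2, hm⟩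
  rw [h1, Finset.card_eq_sum_card_fiberwise hmap]
  apply Finset.sum_congr rfl
  intro d hd
  have hdm : d ∣ m := (Nat.mem_divisors.1 hd).1
  have h2 : fo G d = (Finset.univ.filter (fun g : G => orderOf g = d)).card := by
    rw [fo, Nat.card_eq_fintype_card, Fintype.card_subtype]
  rw [h2]
  congr 1
  ext g
  simp only [Finset.mem_filter, Finset.mem_univ, true_and, and_iff_right_iff_imp]
  intro hg
  apply orderOf_dvd_iff_pow_eq_one.1
  rw [hg]
  exact hdm

lemma frob (m : ℕ) (hm0 : m ≠ 0) (hm : m ∣ Nat.card G) : m ∣ ∑ d ∈ m.divisors, fo G d := by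
  rw [← card_pow_eq m hm0]
  exact Cfsg.Agent.S3993.result m hm

lemma sum_mul_prime (F : ℕ → ℕ) (a p : ℕ) (hp : p.Prime) (hpa : ¬ p ∣ a) (ha : a ≠ 0) :
    ∑ d ∈ (a * p).divisors, F d = ∑ d ∈ a.divisors, F d + ∑ d ∈ a.divisors, F (d * p) := by
  classical
  have hU : (a * p).divisors = a.divisors ∪ a.divisors.image (· * p) := by
    ext d
    simp only [Finset.mem_union, Finset.mem_image, Nat.mem_divisors]
    constructor
    · rintro ⟨hd, -⟩
      obtain ⟨x, y, hx, hy, rfl⟩ := (Nat.dvd_mul).1 hd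
      rcases (Nat.dvd_prime hp).1 hy with rfl | rfl
      · left
        simpa using ⟨hx, ha⟩
      · right
        exact ⟨x, ⟨hx, ha⟩, rfl⟩
    · rintro (⟨hd, -⟩ | ⟨x, ⟨hx, -⟩, rfl⟩)
      · exact ⟨hd.trans (dvd_mul_right a p), mul_ne_zero ha hp.ne_zero⟩
      · exact ⟨Nat.mul_dvd_mul_right hx p, mul_ne_zero ha hp.ne_zero⟩
  have hD : Disjoint a.divisors (a.divisors.image (· * p)) := by
    rw [Finset.disjoint_left]
    intro d hd hd2
    obtain ⟨x, -, rfl⟩ := Finset.mem_image.1 hd2
    have h1 : x * p ∣ a := (Nat.mem_divisors.1 hd).1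
    exact hpa ((dvd_mul_left p x).trans h1)
  rw [hU, Finset.sum_union hD, Finset.sum_image]
  intro x _ y _ h
  exact Nat.eq_of_mul_eq_mul_right hp.pos h

lemma fo_one : fo G 1 = 1 := by
  have : Nat.card {g : G // orderOf g = 1} = 1 := by
    rw [Nat.card_eq_one_iff_unique]
    refine ⟨⟨?_⟩, ⟨⟨1, orderOf_one⟩⟩⟩
    rintro ⟨a, ha⟩ ⟨b, hb⟩
    apply Subtype.ext
    exact (orderOf_eq_one_iff.1 ha).trans (orderOf_eq_one_iff.1 hb).symm
  exact this

lemma fo_eq_zero {m : ℕ} (h : ∀ g : G, orderOf g ≠ m) : fo G m = 0 := by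
  have : IsEmpty {g : G // orderOf g = m} := ⟨fun x => h x.1 x.2⟩
  exact Nat.card_of_isEmpty

lemma le_two_of_fo {x : G} (h : fo G (orderOf x) = 1) : x ^ 2 = 1 := by
  have h1 : Nat.card {g : G // orderOf g = orderOf x} = 1 := h
  obtain ⟨hs, -⟩ := Nat.card_eq_one_iff_unique.1 h1
  have h2 : (⟨x, rfl⟩ : {g : G // orderOf g = orderOf x}) = ⟨x⁻¹, orderOf_inv x⟩ := hs.elim _ _
  have h3 : x = x⁻¹ := congrArg Subtype.val h2
  rw [pow_two]
  nth_rewrite 1 [h3]
  simp

/-- Case A: all nontrivial elements have the same count. -/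
lemma caseA (n : ℕ) (hall : ∀ x : G, x ≠ 1 → fo G (orderOf x) = n) [Nontrivial G] :
    ∃ p : ℕ, p.Prime ∧ IsPGroup p G ∧ Monoid.exponent G = p := by
  classical
  have hprime : ∀ p : ℕ, p.Prime → p ∣ Nat.card G → fo G p = n := by
    intro p hp hd
    haveI := Fact.mk hp
    obtain ⟨x, hx⟩ := exists_prime_orderOf_dvd_card' p hd
    have hx1 : x ≠ 1 := by
      rintro rfl
      rw [orderOf_one] at hx
      exact hp.ne_one hx.symm
    have := hall x hx1
    rwa [hx] at this
  have hp1 : ∀ p : ℕ, p.Prime → p ∣ Nat.card G → p ∣ 1 + n := by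
    intro p hp hd
    have h1 := frob (G := G) p hp.ne_zero hd
    rw [hp.sum_divisors, fo_one, hprime p hp hd, add_comm] at h1
    exact h1
  -- no elements of order `p^2`
  have hnop2 : ∀ p : ℕ, p.Prime → ∀ x : G, orderOf x ≠ p ^ 2 := by
    intro p hp x hx
    have hd2 : p ^ 2 ∣ Nat.card G := by
      rw [← hx]
      exact orderOf_dvd_natCard x
    have hd : p ∣ Nat.card G := (dvd_pow_self p (by norm_num)).trans hd2
    have h1 := frob (G := G) (p ^ 2) (pow_ne_zero _ hp.ne_zero) hd2
    rw [Nat.sum_divisors_prime_pow hp] at h1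
    simp only [Finset.sum_range_succ, Finset.sum_range_zero, pow_zero, pow_one, zero_add] at h1
    rw [fo_one, hprime p hp hd] at h1
    have hx1 : x ≠ 1 := by
      rintro rfl
      rw [orderOf_one] at hx
      have := Nat.one_lt_pow (n := 2) (by norm_num) hp.one_lt
      omega
    have h2 := hall x hx1
    rw [hx] at h2
    rw [h2] at h1
    have h3 : p ∣ 1 + n + n := (dvd_pow_self p (by norm_num)).trans h1
    have h4 := hp1 p hp hd
    have h5 : p ∣ n := (Nat.dvd_add_right h4).1 h3
    have h6 : p ∣ 1 := (Nat.dvd_add_left h5).1 h4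
    exact hp.one_lt.ne' (Nat.dvd_one.1 h6)
  -- only one prime
  obtain ⟨p, hp, hpd⟩ : ∃ p : ℕ, p.Prime ∧ p ∣ Nat.card G :=
    Nat.exists_prime_and_dvd Finite.one_lt_card.ne'
  have huniq : ∀ {q : ℕ}, q.Prime → q ∣ Nat.card G → q = p := by
    intro q hq hqd
    by_contra hne
    have hcop : Nat.Coprime p q := (Nat.coprime_primes hp hq).2 (Ne.symm hne)
    have hpq : p * q ∣ Nat.card G := hcop.mul_dvd_of_dvd_of_dvd hpd hqd
    have hpnq : ¬ q ∣ p := fun h => hne ((Nat.prime_dvd_prime_iff_eq hq hp).1 h)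
    have h1 := frob (G := G) (p * q) (mul_ne_zero hp.ne_zero hq.ne_zero) hpq
    rw [sum_mul_prime _ p q hq hpnq hp.ne_zero, hp.sum_divisors, hp.sum_divisors, one_mul, fo_one,
      hprime p hp hpd, hprime q hq hqd] at h1
    have hdp : p ∣ n + 1 + (fo G (p * q) + n) := (dvd_mul_right p q).trans h1
    have hdq : q ∣ n + 1 + (fo G (p * q) + n) := (dvd_mul_left q p).trans h1
    have h2 := hp1 p hp hpd
    have h3 := hp1 q hq hqd
    have hp2 : p ∣ fo G (p * q) + n := by
      have : p ∣ n + 1 := by rwa [add_comm]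
      exact (Nat.dvd_add_right this).1 hdp
    have hq2 : q ∣ fo G (p * q) + n := by
      have : q ∣ n + 1 := by rwa [add_comm]
      exact (Nat.dvd_add_right this).1 hdq
    by_cases hex : ∃ x : G, orderOf x = p * q
    · obtain ⟨x, hx⟩ := hex
      have hx1 : x ≠ 1 := by
        rintro rfl
        rw [orderOf_one] at hx
        have h1 := hp.one_lt
        have h2 := hq.one_lt
        nlinarith
      have h4 := hall x hx1
      rw [hx] at h4
      rw [h4] at hp2 hq2
      -- `p ∣ 2 n`, `p ∣ n + 1`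
      have hp3 : p ∣ 2 := by
        have h5 : p ∣ 2 * (1 + n) := Dvd.dvd.mul_left h2 2
        have h6 : 2 * (1 + n) = 2 + (n + n) := by ring
        rw [h6] at h5
        exact (Nat.dvd_add_left hp2).1 h5
      have hq3 : q ∣ 2 := by
        have h5 : q ∣ 2 * (1 + n) := Dvd.dvd.mul_left h3 2
        have h6 : 2 * (1 + n) = 2 + (n + n) := by ring
        rw [h6] at h5
        exact (Nat.dvd_add_left hq2).1 h5
      have h7 := (Nat.prime_dvd_prime_iff_eq hp Nat.prime_two).1 hp3
      have h8 := (Nat.prime_dvd_prime_iff_eq hq Nat.prime_two).1 hq3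
      exact hne (h8.trans h7.symm)
    · rw [fo_eq_zero (fun x hx => hex ⟨x, hx⟩), zero_add] at hp2
      have h6 : p ∣ 1 := (Nat.dvd_add_left hp2).1 h2
      exact hp.one_lt.ne' (Nat.dvd_one.1 h6)
  haveI := Fact.mk hp
  have hcardp := Nat.eq_prime_pow_of_unique_prime_dvd (Nat.card_pos (α := G)).ne'
    (fun {d} hd hdd => huniq hd hdd)
  have hG : IsPGroup p G := IsPGroup.of_card hcardp
  refine ⟨p, hp, hG, ?_⟩
  rw [Monoid.exponent_eq_prime_iff hp]
  intro g hg
  obtain ⟨k, hk⟩ := IsPGroup.iff_orderOf.1 hG g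
  have hk1 : k ≠ 0 := by
    rintro rfl
    rw [pow_zero, orderOf_eq_one_iff] at hk
    exact hg hk
  by_contra hne
  have hk2 : 2 ≤ k := by
    by_contra hlt
    have : k = 1 := by omega
    rw [this, pow_one] at hk
    exact hne hk
  have h1 : orderOf (g ^ (orderOf g / p ^ 2)) = p ^ 2 :=
    orderOf_pow_orderOf_div (orderOf_pos g).ne' (by rw [hk]; exact pow_dvd_pow p hk2)
  exact hnop2 p hp _ h1

/-- Case of the unique involution, with an odd prime: the group is a direct product. -/
lemma caseB_odd {t : G} (n : ℕ) (hot : orderOf t = 2)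
    (huniq : ∀ x : G, orderOf x = 2 → x = t)
    (hall : ∀ x : G, x ≠ 1 → x ≠ t → fo G (orderOf x) = n)
    (p : ℕ) (hp : p.Prime) (hp2 : p ≠ 2) (hpd : p ∣ Nat.card G) :
    ∃ (p : ℕ) (P : Type) (_ : Group P) (_ : Finite P), p.Prime ∧ p ≠ 2 ∧ IsPGroup p P ∧ Monoid.exponent P = p ∧
        Nonempty (G ≃* Multiplicative (ZMod 2) × P) := by
  classical
  haveI := Fact.mk hp
  haveI h2p : Fact (Nat.Prime 2) := ⟨Nat.prime_two⟩
  -- `t` is central
  have htc : ∀ g : G, g * t = t * g := by
    intro g
    have h1 : orderOf (g * t * g⁻¹) = 2 := by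
      have := orderOf_injective (MulAut.conj g).toMonoidHom (MulAut.conj g).injective t
      rw [hot] at this
      simpa [MulAut.conj_apply] using this
    have h2 := huniq _ h1
    exact mul_inv_eq_iff_eq_mul.1 h2
  have hodd_ne : ∀ x : G, x ≠ 1 → ¬ 2 ∣ orderOf x → x ≠ t := by
    rintro x hx1 hx2 rfl
    exact hx2 (by rw [hot])
  have h2G : 2 ∣ Nat.card G := by
    rw [← hot]
    exact orderOf_dvd_natCard t
  have hp1 : p ∣ 1 + n := by
    obtain ⟨x, hx⟩ := exists_prime_orderOf_dvd_card' p hpd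
    have hx1 : x ≠ 1 := by
      rintro rfl
      rw [orderOf_one] at hx
      exact hp.ne_one hx.symm
    have hxt : x ≠ t := by
      rintro rfl
      exact hp2 (hx.symm.trans hot)
    have h1 := hall x hx1 hxt
    rw [hx] at h1
    have h2 := frob (G := G) p hp.ne_zero hpd
    rwa [hp.sum_divisors, fo_one, h1, add_comm] at h2
  have hfo2 : fo G 2 = 1 := by
    have : Nat.card {g : G // orderOf g = 2} = 1 := by
      rw [Nat.card_eq_one_iff_unique]
      refine ⟨⟨?_⟩, ⟨⟨t, hot⟩⟩⟩
      rintro ⟨a, ha⟩ ⟨b, hb⟩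
      apply Subtype.ext
      exact (huniq a ha).trans (huniq b hb).symm
    exact this
  have hfop : fo G p = n := by
    obtain ⟨x, hx⟩ := exists_prime_orderOf_dvd_card' p hpd
    have hx1 : x ≠ 1 := by
      rintro rfl
      rw [orderOf_one] at hx
      exact hp.ne_one hx.symm
    have hxt : x ≠ t := by
      rintro rfl
      exact hp2 (hx.symm.trans hot)
    have h1 := hall x hx1 hxt
    rwa [hx] at h1
  have hcop2 : Nat.Coprime 2 p := (Nat.coprime_primes Nat.prime_two hp).2 (Ne.symm hp2)
  -- no `4` in the order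
  have h4 : ¬ 4 ∣ Nat.card G := by
    intro h4G
    have hF4 := frob (G := G) (2 ^ 2) (by norm_num) (by simpa using h4G)
    rw [Nat.sum_divisors_prime_pow Nat.prime_two] at hF4
    simp only [Finset.sum_range_succ, Finset.sum_range_zero, pow_zero, pow_one, zero_add] at hF4
    rw [fo_one, hfo2] at hF4
    have h2pow : (2 : ℕ) ^ 2 = 4 := by norm_num
    rw [h2pow] at hF4
    have hne : fo G 4 ≠ 0 := by
      intro h0
      rw [h0] at hF4
      omega
    obtain ⟨y, hy⟩ : ∃ y : G, orderOf y = 4 := by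
      by_contra hcon
      push Not at hcon
      exact hne (fo_eq_zero hcon)
    have hy1 : y ≠ 1 := by
      rintro rfl
      rw [orderOf_one] at hy
      omega
    have hyt : y ≠ t := by
      rintro rfl
      omega
    have hfo4 : fo G 4 = n := by
      have := hall y hy1 hyt
      rwa [hy] at this
    -- the element of order `2 p`
    obtain ⟨x, hx⟩ := exists_prime_orderOf_dvd_card' p hpd
    have hox : orderOf (t * x) = 2 * p := by
      have hc : Commute t x := (htc x).symm
      rw [hc.orderOf_mul_eq_mul_orderOf_of_coprime (by rw [hot, hx]; exact hcop2), hot, hx]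
    have hfo2p : fo G (2 * p) = n := by
      have h1 : t * x ≠ 1 := by
        intro h
        rw [h, orderOf_one] at hox
        have := hp.two_le
        omega
      have h2 : t * x ≠ t := by
        intro h
        rw [h, hot] at hox
        have := hp.two_le
        omega
      have := hall _ h1 h2
      rwa [hox] at this
    have hcop4 : Nat.Coprime 4 p := by
      have : (4 : ℕ) = 2 ^ 2 := by norm_num
      rw [this]
      exact Nat.Coprime.pow_left 2 hcop2
    have hd4p : 4 * p ∣ Nat.card G := hcop4.mul_dvd_of_dvd_of_dvd h4G hpd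
    have hnd : ¬ p ∣ 4 := by
      intro h
      have h1 : p ∣ 2 ^ 2 := by simpa using h
      have := hp.dvd_of_dvd_pow h1
      exact hp2 ((Nat.prime_dvd_prime_iff_eq hp Nat.prime_two).1 this)
    have hF := frob (G := G) (4 * p) (by have := hp.pos; omega) hd4p
    have hdiv4 : Nat.divisors 4 = {1, 2, 4} := by decide
    rw [sum_mul_prime _ 4 p hp hnd (by norm_num), hdiv4] at hF
    simp only [Finset.sum_insert (show (1 : ℕ) ∉ ({2, 4} : Finset ℕ) by decide),
      Finset.sum_insert (show (2 : ℕ) ∉ ({4} : Finset ℕ) by decide), Finset.sum_singleton, one_mul] at hF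
    rw [fo_one, hfo2, hfo4, hfop, hfo2p] at hF
    have hdp : p ∣ 1 + (1 + n) + (n + (n + fo G (4 * p))) := (dvd_mul_left p 4).trans hF
    by_cases hex : ∃ z : G, orderOf z = 4 * p
    · obtain ⟨z, hz⟩ := hex
      have hz1 : z ≠ 1 := by
        rintro rfl
        rw [orderOf_one] at hz
        have := hp.pos
        omega
      have hzt : z ≠ t := by
        rintro rfl
        rw [hot] at hz
        have := hp.pos
        omega
      have hfo4p : fo G (4 * p) = n := by
        have := hall z hz1 hzt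
        rwa [hz] at this
      rw [hfo4p] at hdp
      have h1 : p ∣ 4 * (1 + n) := Dvd.dvd.mul_left hp1 4
      have h2 : 4 * (1 + n) = 2 + (1 + (1 + n) + (n + (n + n))) := by ring
      rw [h2] at h1
      have h3 : p ∣ 2 := (Nat.dvd_add_left hdp).1 h1
      exact hp2 ((Nat.prime_dvd_prime_iff_eq hp Nat.prime_two).1 h3)
    · rw [fo_eq_zero (fun z hz => hex ⟨z, hz⟩)] at hdp
      have h1 : p ∣ 3 * (1 + n) := Dvd.dvd.mul_left hp1 3
      have h2 : 3 * (1 + n) = 1 + (1 + (1 + n) + (n + (n + 0))) := by ring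
      rw [h2] at h1
      have h3 : p ∣ 1 := (Nat.dvd_add_left hdp).1 h1
      exact hp.one_lt.ne' (Nat.dvd_one.1 h3)
  -- the Sylow 2-subgroup
  obtain T : Sylow 2 G := default
  obtain ⟨a, ha⟩ := IsPGroup.iff_card.1 T.isPGroup'
  have ha0 : a ≠ 0 := by
    rintro rfl
    have h1 := (T : Subgroup G).card_mul_index
    rw [ha, pow_zero, one_mul] at h1
    apply T.not_dvd_index
    rw [h1]
    exact h2G
  have ha1 : a = 1 := by
    by_contra hne
    have ha2 : 2 ≤ a := by omega
    apply h4
    have h1 : (2 : ℕ) ^ 2 ∣ 2 ^ a := pow_dvd_pow 2 ha2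
    have h2 : Nat.card (T : Subgroup G) ∣ Nat.card G := Subgroup.card_subgroup_dvd_card _
    rw [ha] at h2
    have h3 := h1.trans h2
    simpa using h3
  subst ha1
  rw [pow_one] at ha
  have hTmem : ∀ x ∈ (T : Subgroup G), x = 1 ∨ x = t := by
    intro x hx
    by_cases hx1 : x = 1
    · exact Or.inl hx1
    · right
      apply huniq
      have h1 : orderOf (⟨x, hx⟩ : (T : Subgroup G)) ∣ 2 := by
        have h0 := orderOf_dvd_natCard (⟨x, hx⟩ : (T : Subgroup G))
        rwa [ha] at h0
      rw [Subgroup.orderOf_mk] at h1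
      rcases (Nat.dvd_prime Nat.prime_two).1 h1 with h2 | h2
      · exact absurd (orderOf_eq_one_iff.1 h2) hx1
      · exact h2
  have hTc : ∀ x ∈ (T : Subgroup G), ∀ g : G, g * x = x * g := by
    intro x hx g
    rcases hTmem x hx with rfl | rfl
    · simp
    · exact htc g
  have hP : Subgroup.normalizer ((T : Subgroup G) : Set G) ≤ Subgroup.centralizer ((T : Subgroup G) : Set G) := by
    intro n _
    rw [Subgroup.mem_centralizer_iff]
    intro y hy
    exact (hTc y hy n).symm
  haveI hTcommI : IsMulCommutative (T : Subgroup G) :=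
    ⟨⟨fun a b => Subtype.ext (hTc _ b.2 _)⟩⟩
  let f := MonoidHom.transferSylow T hP
  have hcompl := MonoidHom.ker_transferSylow_isComplement' T hP
  have hHcard : Nat.card f.ker = (T : Subgroup G).index := hcompl.index_eq_card.symm
  have hHodd : ¬ 2 ∣ Nat.card f.ker := by
    rw [hHcard]
    exact T.not_dvd_index
  -- elements of odd order lie in `H`
  have hoddmem : ∀ g : G, ¬ 2 ∣ orderOf g → g ∈ f.ker := by
    intro g hg
    have h1 : orderOf (f g) ∣ orderOf g := orderOf_map_dvd f g
    have h2 : orderOf (f g) ∣ 2 := by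
      have h0 := orderOf_dvd_natCard (f g)
      rwa [ha] at h0
    rcases (Nat.dvd_prime Nat.prime_two).1 h2 with h3 | h3
    · exact orderOf_eq_one_iff.1 h3
    · rw [h3] at h1
      exact absurd h1 hg
  have hHoddx : ∀ x : f.ker, ¬ 2 ∣ orderOf x := fun x h => hHodd (h.trans (orderOf_dvd_natCard x))
  have hfoH : ∀ m : ℕ, ¬ 2 ∣ m → fo f.ker m = fo G m := by
    intro m hm
    apply Nat.card_congr
    refine
      { toFun := fun y => ⟨y.1.1, by rw [Subgroup.orderOf_coe]; exact y.2⟩
        invFun := fun z => ⟨⟨z.1, hoddmem z.1 (by rw [z.2]; exact hm)⟩, by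
          rw [Subgroup.orderOf_mk]; exact z.2⟩
        left_inv := fun y => rfl
        right_inv := fun z => rfl }
  have hallH : ∀ x : f.ker, x ≠ 1 → fo f.ker (orderOf x) = n := by
    intro x hx
    rw [hfoH _ (hHoddx x), ← Subgroup.orderOf_coe]
    apply hall
    · intro h
      exact hx (Subtype.ext h)
    · apply hodd_ne
      · intro h
        exact hx (Subtype.ext h)
      · rw [Subgroup.orderOf_coe]
        exact hHoddx x
  have hpH : p ∣ Nat.card f.ker := by
    have h1 : Nat.card f.ker * Nat.card (T : Subgroup G) = Nat.card G := hcompl.card_mul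
    rw [ha] at h1
    rw [← h1] at hpd
    rcases (Nat.Prime.dvd_mul hp).1 hpd with h | h
    · exact h
    · exact absurd ((Nat.prime_dvd_prime_iff_eq hp Nat.prime_two).1 h) hp2
  haveI hHnt : Nontrivial f.ker := by
    apply Finite.one_lt_card_iff_nontrivial.1
    have := Nat.le_of_dvd Nat.card_pos hpH
    have h2 := hp.two_le
    omega
  obtain ⟨p', hp', hGp', hexp'⟩ := caseA n hallH
  have hp'2 : p' ≠ 2 := by
    rintro rfl
    haveI := Fact.mk hp'
    obtain ⟨x, hx⟩ : ∃ x : f.ker, x ≠ 1 := exists_ne 1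
    exact hHoddx x (hGp'.dvd_orderOf hx)
  -- transport to `Type`
  let μ : Shrink.{0} f.ker ≃* f.ker := Shrink.mulEquiv
  haveI hfinP : Finite (Shrink.{0} f.ker) := Finite.of_equiv _ μ.symm.toEquiv
  refine ⟨p', Shrink.{0} f.ker, inferInstance, hfinP, hp', hp'2, ?_, ?_, ?_⟩
  · exact hGp'.of_injective μ.toMonoidHom μ.injective
  · rw [Monoid.exponent_eq_of_mulEquiv μ, hexp']
  · have hc2 : Nat.card (Multiplicative (ZMod 2)) = 2 := by simp
    haveI : Fact (Nat.Prime 2) := ⟨Nat.prime_two⟩
    let e₁ : Multiplicative (ZMod 2) ≃* ↥(T : Subgroup G) := mulEquivOfPrimeCardEq hc2 ha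
    let Ψ : ↥(T : Subgroup G) × f.ker →* G := MonoidHom.mk' (fun q => (q.1 : G) * (q.2 : G)) (by
      rintro ⟨a₁, b₁⟩ ⟨a₂, b₂⟩
      show (a₁ : G) * a₂ * ((b₁ : G) * b₂) = (a₁ : G) * b₁ * ((a₂ : G) * b₂)
      have := hTc a₂ a₂.2 b₁
      calc (a₁ : G) * a₂ * ((b₁ : G) * b₂) = a₁ * (a₂ * b₁) * b₂ := by group
        _ = a₁ * (b₁ * a₂) * b₂ := by rw [this]
        _ = _ := by group)
    have hΨ : Function.Bijective Ψ := hcompl.symm
    let e₂ : ↥(T : Subgroup G) × f.ker ≃* G := MulEquiv.ofBijective Ψ hΨ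
    exact ⟨e₂.symm.trans ((e₁.symm.prodCongr μ.symm))⟩

/-- 2-group with a unique involution. -/
lemma caseB_two {t : G} (n : ℕ) (hG : IsPGroup 2 G) (hot : orderOf t = 2)
    (huniq : ∀ x : G, orderOf x = 2 → x = t)
    (hall : ∀ x : G, x ≠ 1 → x ≠ t → fo G (orderOf x) = n)
    (hex : ∃ x : G, x ≠ 1 ∧ x ≠ t) :
    Nonempty (G ≃* QuaternionGroup 2) ∨ (IsCyclic G ∧ Nat.card G = 4) := by
  classical
  haveI h2p : Fact (Nat.Prime 2) := ⟨Nat.prime_two⟩
  obtain ⟨k, hk⟩ := IsPGroup.iff_card.1 hG
  have ht1 : t ≠ 1 := by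
    rintro rfl
    rw [orderOf_one] at hot
    omega
  have hfo2 : fo G 2 = 1 := by
    have : Nat.card {g : G // orderOf g = 2} = 1 := by
      rw [Nat.card_eq_one_iff_unique]
      refine ⟨⟨?_⟩, ⟨⟨t, hot⟩⟩⟩
      rintro ⟨a, ha⟩ ⟨b, hb⟩
      apply Subtype.ext
      exact (huniq a ha).trans (huniq b hb).symm
    exact this
  have h3 : 2 < Nat.card G := by
    obtain ⟨x, hx1, hxt⟩ := hex
    haveI : Fintype G := Fintype.ofFinite G
    rw [Nat.card_eq_fintype_card]
    have hs : ({1, t, x} : Finset G).card = 3 := by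
      rw [Finset.card_eq_three]
      exact ⟨1, t, x, ht1.symm, hx1.symm, hxt.symm, rfl⟩
    have := Finset.card_le_univ ({1, t, x} : Finset G)
    omega
  have hk2 : 2 ≤ k := by
    by_contra hlt
    have : k = 0 ∨ k = 1 := by omega
    rcases this with rfl | rfl <;> simp [hk] at h3
  have h4G : 2 ^ 2 ∣ Nat.card G := by
    rw [hk]
    exact pow_dvd_pow 2 hk2
  have hF4 := frob (G := G) (2 ^ 2) (by norm_num) h4G
  rw [Nat.sum_divisors_prime_pow Nat.prime_two] at hF4
  simp only [Finset.sum_range_succ, Finset.sum_range_zero, pow_zero, pow_one, zero_add] at hF4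
  rw [fo_one, hfo2] at hF4
  have h2pow : (2 : ℕ) ^ 2 = 4 := by norm_num
  rw [h2pow] at hF4
  have hne : fo G 4 ≠ 0 := by
    intro h0
    rw [h0] at hF4
    omega
  obtain ⟨y, hy⟩ : ∃ y : G, orderOf y = 4 := by
    by_contra hcon
    push Not at hcon
    exact hne (fo_eq_zero hcon)
  have hy1 : y ≠ 1 := by
    rintro rfl
    rw [orderOf_one] at hy
    omega
  have hyt : y ≠ t := by
    rintro rfl
    omega
  have hfo4 : fo G 4 = n := by
    have := hall y hy1 hyt
    rwa [hy] at this
  rw [hfo4] at hF4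
  -- no elements of order 8
  have hno8 : ∀ x : G, orderOf x ≠ 8 := by
    intro x hx
    have hd8 : 2 ^ 3 ∣ Nat.card G := by
      have := orderOf_dvd_natCard x
      rw [hx] at this
      simpa using this
    have hF8 := frob (G := G) (2 ^ 3) (by norm_num) hd8
    rw [Nat.sum_divisors_prime_pow Nat.prime_two] at hF8
    simp only [Finset.sum_range_succ, Finset.sum_range_zero, pow_zero, pow_one, zero_add] at hF8
    have h2pow' : (2 : ℕ) ^ 2 = 4 := by norm_num
    have h2pow'' : (2 : ℕ) ^ 3 = 8 := by norm_num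
    rw [h2pow', h2pow''] at hF8
    rw [fo_one, hfo2, hfo4] at hF8
    have hx1 : x ≠ 1 := by
      rintro rfl
      rw [orderOf_one] at hx
      omega
    have hxt : x ≠ t := by
      rintro rfl
      omega
    have hfo8 : fo G 8 = n := by
      have := hall x hx1 hxt
      rwa [hx] at this
    rw [hfo8] at hF8
    omega
  have hord : ∀ x : G, orderOf x ∣ 4 := by
    intro x
    obtain ⟨j, hj⟩ := IsPGroup.iff_orderOf.1 hG x
    by_cases hj2 : j ≤ 2
    · rw [hj]
      exact pow_dvd_pow 2 hj2
    · exfalso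
      have h8 : (2 : ℕ) ^ 3 ∣ orderOf x := by
        rw [hj]
        exact pow_dvd_pow 2 (by omega)
      have h1 : orderOf (x ^ (orderOf x / 2 ^ 3)) = 2 ^ 3 :=
        orderOf_pow_orderOf_div (orderOf_pos x).ne' h8
      exact hno8 _ (by rw [h1]; norm_num)
  -- all normal abelian subgroups are cyclic
  have hn' : ∀ A : Subgroup G, A.Normal → IsMulCommutative A → IsCyclic A := by
    intro A _ hA
    by_contra hnc
    have hApG : IsPGroup 2 A := hG.to_subgroup A
    obtain ⟨B, -, hB2, hBc⟩ := exists_card_sq_of_comm hApG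
      (fun a b => mul_comm' a b) hnc
    have hle : Nat.card B ≤ 2 := by
      haveI : Fintype B := Fintype.ofFinite B
      rw [Nat.card_eq_fintype_card]
      have hsub : (Finset.univ : Finset B) ⊆
          ({⟨1, B.one_mem⟩} : Finset B) ∪
            (Finset.univ.filter (fun b : B => ((b : A) : G) = t)) := by
        intro b _
        by_cases hb : (b : A) = 1
        · apply Finset.mem_union_left
          rw [Finset.mem_singleton]
          apply Subtype.ext
          exact hb
        · apply Finset.mem_union_right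
          rw [Finset.mem_filter]
          refine ⟨Finset.mem_univ _, huniq _ ?_⟩
          have hbp : (b : A) ^ 2 = 1 := hB2 _ b.2
          have h1 : ((b : A) : G) ^ 2 = 1 := by
            have := congrArg (Subtype.val) hbp
            simpa using this
          apply orderOf_eq_prime h1
          intro h
          exact hb (Subtype.ext h)
      have hc1 : (Finset.univ.filter (fun b : B => ((b : A) : G) = t)).card ≤ 1 := by
        rw [Finset.card_le_one]
        intro a ha b hb
        rw [Finset.mem_filter] at ha hb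
        apply Subtype.ext
        apply Subtype.ext
        exact ha.2.trans hb.2.symm
      have hc2 := (Finset.card_le_card hsub).trans (Finset.card_union_le _ _)
      rw [Finset.card_singleton] at hc2
      rw [← Finset.card_univ]
      omega
    rw [hBc] at hle
    norm_num at hle
  by_cases hcyc : IsCyclic G
  · right
    refine ⟨hcyc, ?_⟩
    obtain ⟨g, hg⟩ := hcyc.exists_generator
    have h1 : orderOf g = Nat.card G := orderOf_eq_card_of_forall_mem_zpowers hg
    apply le_antisymm
    · rw [← h1]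
      exact Nat.le_of_dvd (by norm_num) (hord g)
    · exact Nat.le_of_dvd Nat.card_pos (by simpa using h4G)
  · left
    obtain ⟨m, a, z, hm2, ha, hc, hz, -, hcase⟩ := classify hG hn' hcyc
    have hm : m = 2 := by
      have h1 := hord a
      rw [ha] at h1
      have h2 : (2 : ℕ) ^ m ∣ 2 ^ 2 := by simpa using h1
      have := (Nat.pow_dvd_pow_iff_le_right (by norm_num)).1 h2
      omega
    subst hm
    rcases hcase with ⟨h1, h2⟩ | ⟨h1, -⟩ | ⟨h1, -⟩
    · have := nonempty_quaternion_equiv (m := 2) (a := a) (y := z) (by simpa using ha)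
        (by simpa using h1) h2 hz (by simpa using hc)
      obtain ⟨e⟩ := this
      exact ⟨e.symm⟩
    · omega
    · omega

end count

/-- Let G be a finite group such that the numbers of elements of each order that occurs in G (the numbers #{g : o(g) = m}, m ranging over the element orders of G) take exactly two values, 1 and some n ≠ 1. Then either G is a p-group of exponent p and order at least 3 for some prime p, or G is the quaternion group of order 8, or G is cyclic of order 4, or G ≅ Z₂ × P for a p-group P of exponent p with p an odd prime. -/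
theorem result {G : Type*} [Group G] [Finite G] (n : ℕ) (hn : n ≠ 1) (h : ((fun m : ℕ => Nat.card {g : G // orderOf g = m}) '' Set.range (orderOf : G → ℕ)) = {1, n}) :
    (∃ p : ℕ, p.Prime ∧ IsPGroup p G ∧ 3 ≤ Nat.card G ∧ Monoid.exponent G = p) ∨
      Nonempty (G ≃* QuaternionGroup 2) ∨ (IsCyclic G ∧ Nat.card G = 4) ∨
      (∃ (p : ℕ) (P : Type) (_ : Group P) (_ : Finite P), p.Prime ∧ p ≠ 2 ∧ IsPGroup p P ∧ Monoid.exponent P = p ∧
        Nonempty (G ≃* Multiplicative (ZMod 2) × P)) := by
  classical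
  have hmem : ∀ x : G, fo G (orderOf x) = 1 ∨ fo G (orderOf x) = n := by
    intro x
    have h1 : (fun m : ℕ => Nat.card {g : G // orderOf g = m}) (orderOf x) ∈ ({1, n} : Set ℕ) := by
      rw [← h]
      exact ⟨_, ⟨x, rfl⟩, rfl⟩
    have h2 : Nat.card { g : G // orderOf g = orderOf x } = 1 ∨ Nat.card { g : G // orderOf g = orderOf x } = n := by
      simpa using h1
    exact h2
  obtain ⟨x₀, hx₀⟩ : ∃ x : G, fo G (orderOf x) = n := by
    have h1 : n ∈ ((fun m : ℕ => Nat.card {g : G // orderOf g = m}) '' Set.range (orderOf : G → ℕ)) := by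
      rw [h]
      simp
    obtain ⟨m, ⟨x, rfl⟩, hm⟩ := h1
    exact ⟨x, hm⟩
  have hx₀1 : x₀ ≠ 1 := by
    rintro rfl
    rw [orderOf_one, fo_one] at hx₀
    exact hn hx₀.symm
  by_cases hB : ∃ t : G, orderOf t = 2 ∧ fo G 2 = 1
  · obtain ⟨t, hot, hfo2⟩ := hB
    have huniq : ∀ x : G, orderOf x = 2 → x = t := by
      intro x hx
      have h1 : Nat.card {g : G // orderOf g = 2} = 1 := hfo2
      obtain ⟨hs, -⟩ := Nat.card_eq_one_iff_unique.1 h1
      exact congrArg Subtype.val (hs.elim ⟨x, hx⟩ ⟨t, hot⟩)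
    have hall : ∀ x : G, x ≠ 1 → x ≠ t → fo G (orderOf x) = n := by
      intro x hx1 hxt
      rcases hmem x with h1 | h1
      · exfalso
        have h2 := le_two_of_fo h1
        exact hxt (huniq x (orderOf_eq_prime h2 hx1))
      · exact h1
    by_cases hodd : ∃ p : ℕ, p.Prime ∧ p ≠ 2 ∧ p ∣ Nat.card G
    · obtain ⟨p, hp, hp2, hpd⟩ := hodd
      exact Or.inr (Or.inr (Or.inr (caseB_odd n hot huniq hall p hp hp2 hpd)))
    · push Not at hodd
      have hG : IsPGroup 2 G := by
        haveI h2p : Fact (Nat.Prime 2) := ⟨Nat.prime_two⟩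
        apply IsPGroup.of_card
        apply Nat.eq_prime_pow_of_unique_prime_dvd (Nat.card_pos (α := G)).ne'
        intro d hd hdd
        by_contra hne
        exact hodd d hd hne hdd
      have hx₀t : x₀ ≠ t := by
        rintro rfl
        rw [hot, hfo2] at hx₀
        exact hn hx₀.symm
      rcases caseB_two n hG hot huniq hall ⟨x₀, hx₀1, hx₀t⟩ with h1 | h1
      · exact Or.inr (Or.inl h1)
      · exact Or.inr (Or.inr (Or.inl h1))
  · push Not at hB
    have hall : ∀ x : G, x ≠ 1 → fo G (orderOf x) = n := by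
      intro x hx1
      rcases hmem x with h1 | h1
      · exfalso
        have h2 := le_two_of_fo h1
        have h3 := orderOf_eq_prime h2 hx1
        apply hB x h3
        rw [h3] at h1
        exact h1
      · exact h1
    haveI : Nontrivial G := ⟨⟨x₀, 1, hx₀1⟩⟩
    obtain ⟨p, hp, hGp, hexp⟩ := caseA n hall
    left
    refine ⟨p, hp, hGp, ?_, hexp⟩
    by_contra hlt
    have h2 : 1 < Nat.card G := Finite.one_lt_card
    have hc2 : Nat.card G = 2 := by omega
    have hx0o : orderOf x₀ = 2 := by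
      have h1 := orderOf_dvd_natCard x₀
      rw [hc2] at h1
      rcases (Nat.dvd_prime Nat.prime_two).1 h1 with h3 | h3
      · exact absurd (orderOf_eq_one_iff.1 h3) hx₀1
      · exact h3
    apply hB x₀ hx0o
    have : Nat.card {g : G // orderOf g = 2} = 1 := by
      rw [Nat.card_eq_one_iff_unique]
      refine ⟨⟨?_⟩, ⟨⟨x₀, hx0o⟩⟩⟩
      rintro ⟨a, ha⟩ ⟨b, hb⟩
      apply Subtype.ext
      have ha1 : a ≠ 1 := by
        rintro rfl
        rw [orderOf_one] at ha
        omega
      have hb1 : b ≠ 1 := by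
        rintro rfl
        rw [orderOf_one] at hb
        omega
      rw [Nat.card_eq_two_iff] at hc2
      obtain ⟨u, v, huv, hU⟩ := hc2
      have hau : a = u ∨ a = v := by
        have : a ∈ ({u, v} : Set G) := by rw [hU]; trivial
        simpa using this
      have hbu : b = u ∨ b = v := by
        have : b ∈ ({u, v} : Set G) := by rw [hU]; trivial
        simpa using this
      have h1u : (1 : G) = u ∨ (1 : G) = v := by
        have : (1 : G) ∈ ({u, v} : Set G) := by rw [hU]; trivial
        simpa using this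
      rcases hau with rfl | rfl <;> rcases hbu with rfl | rfl <;> rcases h1u with h5 | h5 <;> first | rfl | exact absurd h5.symm ha1 | exact absurd h5.symm hb1
    exact this

end Cfsg.Agent.S3995
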