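import Mathlib
import Cfsg.Statements.S3997

set_option autoImplicit false
set_option linter.all false
open Cfsg

namespace Cfsg.Agent.S3997

/-- Let G and H be finite groups with the same order type: for every m they have the same number of elements of order m. If G is nilpotent then so is H. -/
theorem result {G H : Type*} [Group G] [Finite G] [Group H] [Finite H] (hT : (∀ m : ℕ, Nat.card {g : G // orderOf g = m} = Nat.card {h : H // orderOf h = m})) (hG : Group.IsNilpotent G) :
    Group.IsNilpotent H := by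
  classical
  -- order-preserving bijection
  have hfib : ∀ m, Nonempty ({g : G // orderOf g = m} ≃ {h : H // orderOf h = m}) := by
    intro m
    exact Finite.card_eq.1 (hT m)
  let e₀ : ∀ m, ({g : G // orderOf g = m} ≃ {h : H // orderOf h = m}) := fun m => (hfib m).some
  let e : G ≃ H := (Equiv.sigmaFiberEquiv (orderOf : G → ℕ)).symm.trans
    ((Equiv.sigmaCongrRight e₀).trans (Equiv.sigmaFiberEquiv (orderOf : H → ℕ)))
  have he : ∀ g, orderOf (e g) = orderOf g := by
    intro g
    exact (e₀ (orderOf g) ⟨g, rfl⟩).2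
  have hcard : Nat.card G = Nat.card H := Nat.card_congr e
  refine (Group.isNilpotent_of_finite_tfae (G := H)).out 3 0 rfl rfl |>.mp ?_
  intro p hp Q
  haveI := hp
  have hpp : p.Prime := hp.out
  obtain ⟨P⟩ : Nonempty (Sylow p G) := inferInstance
  have hPn : (P : Subgroup G).Normal :=
    (Group.isNilpotent_of_finite_tfae (G := G)).out 0 3 rfl rfl |>.mp hG p hp P
  -- `p`-elements of `G` lie in `P`
  have hPmem : ∀ g : G, (∃ k, orderOf g = p ^ k) → g ∈ (P : Subgroup G) := by
    rintro g ⟨k, hk⟩
    have h1 : IsPGroup p (Subgroup.zpowers g ⊔ (P : Subgroup G) : Subgroup G) := by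
      apply IsPGroup.to_sup_of_normal_right' (IsPGroup.of_card (n := k) (by rw [Nat.card_zpowers, hk]))
        P.isPGroup'
      rw [Subgroup.zpowers_le, Subgroup.normalizer_eq_top_iff.2 hPn]
      exact Subgroup.mem_top g
    have h2 := P.is_maximal' h1 le_sup_right
    have h3 : g ∈ (Subgroup.zpowers g ⊔ (P : Subgroup G) : Subgroup G) :=
      Subgroup.mem_sup_left (Subgroup.mem_zpowers g)
    rw [h2] at h3
    exact h3
  have hQord : ∀ h ∈ (Q : Subgroup H), ∃ k, orderOf h = p ^ k := by
    intro h hh
    obtain ⟨m, hm⟩ := IsPGroup.iff_card.1 Q.isPGroup'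
    have h6 : orderOf h ∣ p ^ m := hm ▸ Subgroup.orderOf_dvd_natCard _ hh
    obtain ⟨j, -, hj⟩ := (Nat.dvd_prime_pow hpp).1 h6
    exact ⟨j, hj⟩
  have hcardPQ : Nat.card (P : Subgroup G) = Nat.card (Q : Subgroup H) := by
    rw [Sylow.card_eq_multiplicity, Sylow.card_eq_multiplicity, hcard]
  -- every `p`-element of `H` lies in `Q`
  have hQall : ∀ h : H, (∃ k, orderOf h = p ^ k) → h ∈ (Q : Subgroup H) := by
    have hsub : e.symm '' ((Q : Subgroup H) : Set H) ⊆ ((P : Subgroup G) : Set G) := by
      rintro _ ⟨h, hh, rfl⟩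
      apply hPmem
      obtain ⟨k, hk⟩ := hQord h hh
      refine ⟨k, ?_⟩
      rw [← he, e.apply_symm_apply, hk]
    have himg : e.symm '' ((Q : Subgroup H) : Set H) = ((P : Subgroup G) : Set G) := by
      apply Set.eq_of_subset_of_ncard_le hsub
      rw [Set.ncard_image_of_injective _ e.symm.injective, ← Nat.card_coe_set_eq,
        ← Nat.card_coe_set_eq]
      exact hcardPQ.le
    rintro h ⟨k, hk⟩
    have h1 : e.symm h ∈ ((P : Subgroup G) : Set G) := by
      apply hPmem
      refine ⟨k, ?_⟩
      rw [← he, e.apply_symm_apply, hk]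
    rw [← himg] at h1
    obtain ⟨h2, hh2, hh3⟩ := h1
    rw [e.symm.injective hh3] at hh2
    exact hh2
  constructor
  intro n hn g
  apply hQall
  obtain ⟨k, hk⟩ := hQord n hn
  refine ⟨k, ?_⟩
  have := (MulAut.conj g).orderOf_eq n
  rw [MulAut.conj_apply] at this
  rw [this, hk]

end Cfsg.Agent.S3997
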