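import Cfsg.Statements.S3998
import Cfsg.Agent.Lib.SolvStruct.Super
import Mathlib

set_option autoImplicit false
open Cfsg

namespace Cfsg.Agent.S3998

open Subgroup

/-- An order-preserving bijection from equal order counts. -/
theorem exists_order_equiv {G H : Type*} [Group G] [Finite G] [Group H] [Finite H]
    (hT : ∀ m : ℕ, Nat.card {g : G // orderOf g = m} = Nat.card {h : H // orderOf h = m}) :
    ∃ e : G ≃ H, ∀ g, orderOf (e g) = orderOf g := by
  classical
  have h1 : ∀ m : ℕ, {g : G // orderOf g = m} ≃ {h : H // orderOf h = m} := fun m =>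
    (Finite.card_eq.1 (hT m)).some
  let e : G ≃ H :=
    (Equiv.sigmaFiberEquiv (orderOf : G → ℕ)).symm.trans
      ((Equiv.sigmaCongrRight h1).trans (Equiv.sigmaFiberEquiv (orderOf : H → ℕ)))
  refine ⟨e, fun g => ?_⟩
  have := ((h1 (orderOf g)) ⟨g, rfl⟩).2
  simpa [e, Equiv.sigmaFiberEquiv, Equiv.sigmaCongrRight] using this

/-- A prime order normal subgroup inside a nontrivial reached subgroup. -/
theorem exists_prime_normal {G : Type*} [Group G] [Finite G] {A : Subgroup G}
    (h : Cfsg.Agent.Lib.SolvStruct.Super.Reach A) (hA : A ≠ ⊥) :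
    ∃ y : G, (zpowers y).Normal ∧ (orderOf y).Prime := by
  induction h with
  | bot => exact absurd rfl hA
  | @step A g hA' hn ih =>
    by_cases hAbot : A = ⊥
    · subst hAbot
      simp only [bot_sup_eq] at hn hA
      have hg : g ≠ 1 := by
        rintro rfl
        exact hA (by simp)
      have ho : orderOf g ≠ 1 := fun h => hg (orderOf_eq_one_iff.1 h)
      set o := orderOf g with ho_def
      have hopos : 0 < o := orderOf_pos g
      set r := o.minFac with hr_def
      have hr : r.Prime := Nat.minFac_prime ho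
      have hrdvd : r ∣ o := Nat.minFac_dvd o
      obtain ⟨k, hk⟩ := hrdvd
      have hkdvd : k ∣ o := ⟨r, by rw [hk]; ring⟩
      have hk0 : k ≠ 0 := by
        rintro rfl
        simp at hk
        omega
      have hy : orderOf (g ^ k) = r := by
        rw [orderOf_pow_of_dvd hk0 hkdvd, ← ho_def, hk]
        exact Nat.mul_div_cancel _ (Nat.pos_of_ne_zero hk0)
      refine ⟨g ^ k, ?_, hy ▸ hr⟩
      -- key: elements of zpowers g of exponent r lie in zpowers (g^k)
      have key : ∀ a ∈ zpowers g, a ^ r = 1 → a ∈ zpowers (g ^ k) := by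
        intro a ha hra
        obtain ⟨i, rfl⟩ := mem_zpowers_iff.1 ha
        have h1 : g ^ (i * r) = 1 := by
          rw [zpow_mul, zpow_natCast] at *
          exact hra
        rw [← orderOf_dvd_iff_zpow_eq_one] at h1
        have h2 : (k : ℤ) ∣ i := by
          rw [← ho_def, hk] at h1
          have hr0 : (r : ℤ) ≠ 0 := by exact_mod_cast hr.ne_zero
          have : (r : ℤ) * (k : ℤ) ∣ i * r := by exact_mod_cast h1
          rw [mul_comm (r : ℤ)] at this
          exact (mul_dvd_mul_iff_right hr0).1 this
        obtain ⟨j, rfl⟩ := h2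
        refine mem_zpowers_iff.2 ⟨j, ?_⟩
        rw [zpow_mul, zpow_natCast]
      have hnG := hn
      refine ⟨fun n' hn' c => ?_⟩
      obtain ⟨i, rfl⟩ := mem_zpowers_iff.1 hn'
      have hc : c * g ^ k * c⁻¹ ∈ zpowers (g ^ k) := by
        refine key _ ?_ ?_
        · exact hnG.conj_mem _ (pow_mem (mem_zpowers g) k) c
        · rw [conj_pow, ← hy, pow_orderOf_eq_one, mul_one, mul_inv_cancel]
      have : c * (g ^ k) ^ i * c⁻¹ = (c * g ^ k * c⁻¹) ^ i := by
        rw [conj_zpow]
      rw [this]
      exact zpow_mem hc i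
    · exact ih hAbot

theorem exists_prime_normal_of_supersolvable {G : Type*} [Group G] [Finite G]
    (hG : Cfsg.IsSupersolvable G) (hnt : Nontrivial G) :
    ∃ y : G, (zpowers y).Normal ∧ (orderOf y).Prime :=
  exists_prime_normal (Cfsg.Agent.Lib.SolvStruct.Super.reach_top_of_isSupersolvable hG) top_ne_bot

/-- Sylow subgroup for the largest prime of a finite supersolvable group is normal. -/
theorem sylow_normal_of_largest (n : ℕ) : ∀ {G : Type*} [Group G] [Finite G], Nat.card G = n →
    Cfsg.IsSupersolvable G → ∀ (p : ℕ) [Fact p.Prime],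
    (∀ q : ℕ, q.Prime → q ∣ Nat.card G → q ≤ p) → ∀ P : Sylow p G, (P : Subgroup G).Normal := by
  induction n using Nat.strong_induction_on with
  | _ n ih =>
    intro G _ _ hcard hG p _ hmax P
    have hp : p.Prime := Fact.out
    by_cases hnt : Nontrivial G
    swap
    · rw [not_nontrivial_iff_subsingleton] at hnt
      have : (P : Subgroup G) = ⊤ := Subsingleton.elim _ _
      rw [this]
      infer_instance
    obtain ⟨y, hyN, hyp⟩ := exists_prime_normal_of_supersolvable hG hnt
    set r := orderOf y with hr_def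
    set N := zpowers y with hN_def
    have hNcard : Nat.card N = r := Nat.card_zpowers y
    have hcardpos : 0 < Nat.card G := Nat.card_pos
    have hqcard : Nat.card (G ⧸ N) * r = Nat.card G := by
      rw [← hNcard, mul_comm, ← Subgroup.index_eq_card, Subgroup.card_mul_index]
    have hlt : Nat.card (G ⧸ N) < n := by
      rw [← hcard, ← hqcard]
      have : 0 < Nat.card (G ⧸ N) := Nat.card_pos
      nlinarith [hyp.two_le]
    have hsup : Cfsg.IsSupersolvable (G ⧸ N) :=
      Cfsg.Agent.Lib.SolvStruct.Super.isSupersolvable_of_surjective (QuotientGroup.mk' N)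
        (QuotientGroup.mk'_surjective N) hG
    have hmax' : ∀ q : ℕ, q.Prime → q ∣ Nat.card (G ⧸ N) → q ≤ p := fun q hq hd =>
      hmax q hq (hqcard ▸ Dvd.dvd.mul_right hd r)
    have hsurj : Function.Surjective (QuotientGroup.mk' N) := QuotientGroup.mk'_surjective N
    let P' : Sylow p (G ⧸ N) := P.mapSurjective hsurj
    have hP'n : (P' : Subgroup (G ⧸ N)).Normal := ih _ hlt rfl hsup p hmax' P'
    obtain ⟨t, ht⟩ := IsPGroup.iff_card.1 P.2
    have hpow : ∀ a ∈ (P : Subgroup G), a ^ (p ^ t) = 1 := by
      intro a ha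
      have : (⟨a, ha⟩ : (P : Subgroup G)) ^ (p ^ t) = 1 := by
        rw [← ht]; exact pow_card_eq_one'
      simpa using congrArg Subtype.val this
    refine ⟨fun x hx g => ?_⟩
    have h1 : ((g * x * g⁻¹ : G) : G ⧸ N) ∈ (P' : Subgroup (G ⧸ N)) := by
      have hx' : (x : G ⧸ N) ∈ (P' : Subgroup (G ⧸ N)) := ⟨x, hx, rfl⟩
      have := hP'n.conj_mem _ hx' (g : G ⧸ N)
      simpa using this
    obtain ⟨a, ha, hax⟩ := h1
    have hn : a⁻¹ * (g * x * g⁻¹) ∈ N := QuotientGroup.eq.1 hax
    set w := g * x * g⁻¹ with hw
    set n := a⁻¹ * w with hn_def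
    have hwan : w = a * n := by rw [hn_def]; group
    by_cases hrp : r = p
    · -- N ≤ P
      have hNp : IsPGroup p N := by
        apply IsPGroup.of_card (n := 1)
        rw [hNcard, hrp, pow_one]
      have hle : (P : Subgroup G) ⊔ N = P := by
        have hpg : IsPGroup p ((P : Subgroup G) ⊔ N : Subgroup G) :=
          IsPGroup.to_sup_of_normal_right P.2 hNp
        exact P.3 hpg le_sup_left
      have hnP : n ∈ (P : Subgroup G) := by
        rw [← hle]
        exact (le_sup_right : N ≤ (P : Subgroup G) ⊔ N) hn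
      rw [hwan]
      exact mul_mem ha hnP
    · have hrlt : r < p := by
        refine lt_of_le_of_ne (hmax r hyp ?_) hrp
        rw [← hNcard]
        exact Subgroup.card_subgroup_dvd_card N
      -- P centralizes N
      have hcomm : a * n = n * a := by
        have hf : (MulAut.conjNormal a : MulAut N) ^ (p ^ t) = 1 := by
          rw [← map_pow, hpow a ha, map_one]
        have h1 : orderOf (MulAut.conjNormal a : MulAut N) ∣ p ^ t := orderOf_dvd_of_pow_eq_one hf
        have h2 : orderOf (MulAut.conjNormal a : MulAut N) ∣ r - 1 := by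
          have : Nat.card (MulAut N) = r - 1 := by
            rw [IsCyclic.card_mulAut, hNcard, Nat.totient_prime hyp]
          rw [← this]
          exact orderOf_dvd_natCard _
        have hcop : Nat.Coprime (p ^ t) (r - 1) := by
          apply Nat.Coprime.pow_left
          refine (Nat.Prime.coprime_iff_not_dvd hp).2 (Nat.not_dvd_of_pos_of_lt ?_ ?_)
          · have := hyp.two_le; omega
          · omega
        have h3 : orderOf (MulAut.conjNormal a : MulAut N) = 1 :=
          Nat.eq_one_of_dvd_coprimes hcop h1 h2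
        have h4 : (MulAut.conjNormal a : MulAut N) = 1 := orderOf_eq_one_iff.1 h3
        have h5 := congrArg (fun φ : MulAut N => ((φ ⟨n, hn⟩ : N) : G)) h4
        simp only [MulAut.conjNormal_apply, MulAut.one_apply] at h5
        calc a * n = (a * n * a⁻¹) * a := by group
          _ = n * a := by rw [h5]
      have hw1 : w ^ (p ^ t) = 1 := by
        rw [hw, conj_pow, hpow x hx, mul_one, mul_inv_cancel]
      have hn1 : n ^ (p ^ t) = 1 := by
        have : (a * n) ^ (p ^ t) = a ^ (p ^ t) * n ^ (p ^ t) :=
          (Commute.mul_pow hcomm _)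
        rw [← hwan, hw1, hpow a ha, one_mul] at this
        exact this.symm
      have hn2 : n ^ r = 1 := by
        have : (⟨n, hn⟩ : N) ^ r = 1 := by
          rw [← hNcard]; exact pow_card_eq_one'
        simpa using congrArg Subtype.val this
      have hn3 : n = 1 := by
        have hcop : Nat.Coprime (p ^ t) r := by
          apply Nat.Coprime.pow_left
          exact (Nat.coprime_primes hp hyp).2 (Ne.symm hrp)
        have := pow_gcd_eq_one.2 ⟨hn1, hn2⟩
        rwa [hcop.gcd_eq_one, pow_one] at this
      rw [hwan, hn3, mul_one]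
      exact ha

/-- Equal counts for any predicate on the order. -/
theorem card_pred_eq {G H : Type*} (e : G ≃ H) [Group G] [Group H]
    (he : ∀ g, orderOf (e g) = orderOf g) (S : ℕ → Prop) :
    Nat.card {g : G // S (orderOf g)} = Nat.card {h : H // S (orderOf h)} :=
  Nat.card_congr (e.subtypeEquiv (fun a => by rw [he]))

/-- Fibres of the quotient map. -/
theorem card_fiber {X : Type*} [Group X] [Finite X] (T : Subgroup X) (S : X ⧸ T → Prop) :
    Nat.card {x : X // S (x : X ⧸ T)} = Nat.card {y : X ⧸ T // S y} * Nat.card T := by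
  classical
  have : Fintype {y : X ⧸ T // S y} := Fintype.ofFinite _
  let e : {x : X // S (x : X ⧸ T)} ≃ Σ y : {y : X ⧸ T // S y}, {x : X // (x : X ⧸ T) = y.1} :=
    { toFun := fun x => ⟨⟨(x.1 : X ⧸ T), x.2⟩, ⟨x.1, rfl⟩⟩
      invFun := fun p => ⟨p.2.1, by rw [p.2.2]; exact p.1.2⟩
      left_inv := fun x => rfl
      right_inv := by
        rintro ⟨⟨y, hy⟩, ⟨x, hx⟩⟩
        simp only at hx
        subst hx
        rfl }
  rw [Nat.card_congr e, Nat.card_sigma]
  have hf : ∀ y : {y : X ⧸ T // S y}, Nat.card {x : X // (x : X ⧸ T) = y.1} = Nat.card T := by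
    rintro ⟨y, hy⟩
    obtain ⟨a, rfl⟩ := QuotientGroup.mk_surjective y
    refine Nat.card_congr
      { toFun := fun x => ⟨a⁻¹ * x.1, QuotientGroup.eq.1 x.2.symm⟩
        invFun := fun t => ⟨a * t.1, QuotientGroup.eq.2 (by simpa using t.2) |>.symm⟩
        left_inv := fun x => by ext; simp
        right_inv := fun t => by ext; simp }
  simp only [hf, Finset.sum_const, Finset.card_univ, smul_eq_mul, Nat.card_eq_fintype_card]

/-- Order of an element in the quotient by a normal Sylow subgroup. -/
theorem orderOf_mk_eq {G : Type*} [Group G] [Finite G] (p : ℕ) [Fact p.Prime] (P : Subgroup G)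
    [P.Normal] (hP : IsPGroup p P) (hcop : ¬ p ∣ Nat.card (G ⧸ P)) (x : G) :
    orderOf (x : G ⧸ P) = ordCompl[p] (orderOf x) := by
  have hp : p.Prime := Fact.out
  set o := orderOf x with ho
  have ho0 : o ≠ 0 := (orderOf_pos x).ne'
  have hd1 : orderOf (x : G ⧸ P) ∣ o := orderOf_map_dvd (QuotientGroup.mk' P) x
  have hcopd : Nat.Coprime (orderOf (x : G ⧸ P)) p := by
    apply Nat.Coprime.symm
    refine (Nat.Prime.coprime_iff_not_dvd hp).2 fun h => hcop (h.trans (orderOf_dvd_natCard _))
  have hm : Nat.Coprime (ordCompl[p] o) p := by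
    apply Nat.Coprime.symm
    exact (Nat.Prime.coprime_iff_not_dvd hp).2 (Nat.not_dvd_ordCompl hp ho0)
  have hoe : p ^ o.factorization p * ordCompl[p] o = o := Nat.ordProj_mul_ordCompl_eq_self o p
  apply Nat.dvd_antisymm
  · have : orderOf (x : G ⧸ P) ∣ p ^ o.factorization p * ordCompl[p] o := by rwa [hoe]
    exact (Nat.Coprime.dvd_of_dvd_mul_left (hcopd.pow_right _) this)
  · have h1 : (x : G ⧸ P) ^ orderOf (x : G ⧸ P) = 1 := pow_orderOf_eq_one _
    have h2 : x ^ orderOf (x : G ⧸ P) ∈ P := by
      rw [← QuotientGroup.eq_one_iff]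
      simpa using h1
    obtain ⟨k, hk⟩ := hP ⟨_, h2⟩
    have h3 : x ^ (orderOf (x : G ⧸ P) * p ^ k) = 1 := by
      rw [pow_mul]
      simpa using congrArg Subtype.val hk
    have h4 : o ∣ orderOf (x : G ⧸ P) * p ^ k := orderOf_dvd_of_pow_eq_one h3
    have h5 : ordCompl[p] o ∣ orderOf (x : G ⧸ P) * p ^ k :=
      (Nat.ordCompl_dvd o p).trans h4
    exact Nat.Coprime.dvd_of_dvd_mul_right (hm.pow_right _) h5

theorem main (n : ℕ) : ∀ {G : Type*} {H : Type*} [Group G] [Finite G] [Group H] [Finite H],
    Nat.card G = n →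
    (∀ m : ℕ, Nat.card {g : G // orderOf g = m} = Nat.card {h : H // orderOf h = m}) →
    Cfsg.IsSupersolvable G → Group.IsSolvable H := by
  induction n using Nat.strong_induction_on with
  | _ n ih =>
    intro G H _ _ _ _ hcard hT hG
    obtain ⟨e, he⟩ := exists_order_equiv hT
    have hcardH : Nat.card H = Nat.card G := (Nat.card_congr e).symm
    by_cases hnt : Nontrivial G
    swap
    · rw [not_nontrivial_iff_subsingleton] at hnt
      have : Subsingleton H := e.symm.subsingleton
      exact Group.isSolvable_of_top_eq_bot _ (Subsingleton.elim _ _)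
    have hne : (Nat.card G).primeFactors.Nonempty := by
      rw [Nat.nonempty_primeFactors]
      exact Finite.one_lt_card
    set p := (Nat.card G).primeFactors.max' hne with hp_def
    have hpmem : p ∈ (Nat.card G).primeFactors := Finset.max'_mem _ _
    have hp : p.Prime := Nat.prime_of_mem_primeFactors hpmem
    have hpd : p ∣ Nat.card G := Nat.dvd_of_mem_primeFactors hpmem
    haveI : Fact p.Prime := ⟨hp⟩
    have hmax : ∀ q : ℕ, q.Prime → q ∣ Nat.card G → q ≤ p := fun q hq hd =>
      Finset.le_max' _ _ (Nat.mem_primeFactors.2 ⟨hq, hd, Nat.card_pos.ne'⟩)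
    obtain ⟨P⟩ : Nonempty (Sylow p G) := Sylow.nonempty
    obtain ⟨Q⟩ : Nonempty (Sylow p H) := Sylow.nonempty
    haveI hPn : (P : Subgroup G).Normal := sylow_normal_of_largest _ rfl hG p hmax P
    have hcardPQ : Nat.card P = Nat.card Q := by
      rw [Sylow.card_eq_multiplicity, Sylow.card_eq_multiplicity, hcardH]
    -- p-elements of G are exactly P
    let S : ℕ → Prop := fun k => ∃ a : ℕ, k = p ^ a
    have hmemP : ∀ g : G, g ∈ (P : Subgroup G) ↔ S (orderOf g) := by
      intro g
      constructor
      · intro hg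
        obtain ⟨a, ha⟩ := (IsPGroup.iff_orderOf.1 P.2) ⟨g, hg⟩
        exact ⟨a, by simpa using ha⟩
      · rintro ⟨a, ha⟩
        have hz : IsPGroup p (zpowers g) := by
          apply IsPGroup.of_card (n := a)
          rw [Nat.card_zpowers, ha]
        obtain ⟨R, hR⟩ := hz.exists_le_sylow
        have hRP : R = P := by
          haveI := Sylow.unique_of_normal P hPn
          exact Subsingleton.elim _ _
        rw [hRP] at hR
        exact hR (mem_zpowers g)
    have hmemQ1 : ∀ h : H, h ∈ (Q : Subgroup H) → S (orderOf h) := by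
      intro h hh
      obtain ⟨a, ha⟩ := (IsPGroup.iff_orderOf.1 Q.2) ⟨h, hh⟩
      exact ⟨a, by simpa using ha⟩
    have hcS : Nat.card {h : H // S (orderOf h)} = Nat.card Q := by
      rw [← card_pred_eq e he S, ← hcardPQ]
      exact Nat.card_congr (Equiv.subtypeEquivRight (fun g => (hmemP g).symm))
    have hmemQ2 : ∀ h : H, S (orderOf h) → h ∈ (Q : Subgroup H) := by
      have hset : ((Q : Subgroup H) : Set H) = {h : H | S (orderOf h)} := by
        apply Set.eq_of_subset_of_ncard_le (fun h hh => hmemQ1 h hh) ?_ (Set.toFinite _)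
        have h1 : Nat.card {h : H // S (orderOf h)} = Set.ncard {h : H | S (orderOf h)} :=
          Nat.card_coe_set_eq _
        have h2 : Nat.card (Q : Subgroup H) = Set.ncard ((Q : Subgroup H) : Set H) :=
          Nat.card_coe_set_eq _
        change Set.ncard {h : H | S (orderOf h)} ≤ _
        exact le_of_eq (by rw [← h1, ← h2]; exact hcS)
      intro h hh
      have : h ∈ {h : H | S (orderOf h)} := hh
      rwa [← hset] at this
    haveI hQn : (Q : Subgroup H).Normal := ⟨fun h hh g =>
      hmemQ2 _ (by
        have h1 : orderOf (g * h * g⁻¹) = orderOf h := (MulAut.conj g).orderOf_eq h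
        rw [h1]; exact hmemQ1 h hh)⟩
    -- order type of the quotients
    have hT' : ∀ m : ℕ, Nat.card {x : G ⧸ (P : Subgroup G) // orderOf x = m} =
        Nat.card {y : H ⧸ (Q : Subgroup H) // orderOf y = m} := by
      intro m
      have hc1 := card_fiber (P : Subgroup G) (fun y => orderOf y = m)
      have hc2 := card_fiber (Q : Subgroup H) (fun y => orderOf y = m)
      have hnd : ¬ p ∣ Nat.card (G ⧸ (P : Subgroup G)) := by
        rw [← Subgroup.index_eq_card]; exact P.not_dvd_index
      have hnd' : ¬ p ∣ Nat.card (H ⧸ (Q : Subgroup H)) := by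
        rw [← Subgroup.index_eq_card]; exact Q.not_dvd_index
      have h1 : Nat.card {x : G // orderOf (x : G ⧸ (P : Subgroup G)) = m} =
          Nat.card {h : H // orderOf (h : H ⧸ (Q : Subgroup H)) = m} := by
        simp only [orderOf_mk_eq p _ P.2 hnd, orderOf_mk_eq p _ Q.2 hnd']
        exact card_pred_eq e he (fun k => ordCompl[p] k = m)
      rw [h1, hc2, ← hcardPQ] at hc1
      exact (Nat.eq_of_mul_eq_mul_right Nat.card_pos hc1).symm
    have hlt : Nat.card (G ⧸ (P : Subgroup G)) < n := by
      rw [← hcard, ← Subgroup.index_eq_card, ← Subgroup.card_mul_index (P : Subgroup G)]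
      have hPgt : 1 < Nat.card (P : Subgroup G) := by
        rw [Sylow.card_eq_multiplicity]
        exact Nat.one_lt_pow (hp.factorization_pos_of_dvd Nat.card_pos.ne' hpd).ne' hp.one_lt
      have hi : 0 < (P : Subgroup G).index := Nat.pos_of_ne_zero (Subgroup.index_ne_zero_of_finite)
      nlinarith
    have hsup : Cfsg.IsSupersolvable (G ⧸ (P : Subgroup G)) :=
      Cfsg.Agent.Lib.SolvStruct.Super.isSupersolvable_of_surjective (QuotientGroup.mk' _)
        (QuotientGroup.mk'_surjective _) hG
    haveI hsolvq : Group.IsSolvable (H ⧸ (Q : Subgroup H)) := ih _ hlt rfl hT' hsup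
    haveI : Group.IsNilpotent (Q : Subgroup H) := Q.2.isNilpotent
    haveI hsolQ : Group.IsSolvable (Q : Subgroup H) := IsNilpotent.to_isSolvable
    exact Group.isSolvable_of_ker_le_range (Q : Subgroup H).subtype (QuotientGroup.mk' (Q : Subgroup H))
      (by simp [QuotientGroup.ker_mk'])

/-- Let G and H be finite groups with the same order type (for every m the same number of elements of order m). If G is supersolvable then H is solvable. -/
theorem result {G H : Type*} [Group G] [Finite G] [Group H] [Finite H] (hT : (∀ m : ℕ, Nat.card {g : G // orderOf g = m} = Nat.card {h : H // orderOf h = m})) (hG : Cfsg.IsSupersolvable G) :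
    Group.IsSolvable H :=
  main _ rfl hT hG

end Cfsg.Agent.S3998
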