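import Cfsg.Statements.S4002
import Cfsg.Agent.Lib.Solvable.EPPO

set_option autoImplicit false
open Cfsg

namespace Cfsg.Agent.S4002

/-- If the set of element orders of a finite group G is {1, 2, …, n} with n ≥ 7, then G is not solvable. -/
theorem result {G : Type*} [Group G] [Finite G] (n : ℕ) (hn : 7 ≤ n) (h : Set.range (orderOf : G → ℕ) = {k : ℕ | 1 ≤ k ∧ k ≤ n}) : ¬ Group.IsSolvable G := by
  classical
  intro hsol
  -- three primes
  obtain ⟨p, q, r, hp, hq, hr, hpq, hqr, hrn, hpqn⟩ : ∃ p q r : ℕ, p.Prime ∧ q.Prime ∧ r.Prime ∧ p < q ∧ q < r ∧ r ≤ n ∧ n < p * q := by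
    by_cases h1 : n < 15
    · exact ⟨3, 5, 7, by norm_num, by norm_num, by norm_num, by norm_num, by norm_num, hn, by omega⟩
    by_cases h2 : n < 35
    · exact ⟨5, 7, 11, by norm_num, by norm_num, by norm_num, by norm_num, by norm_num, by omega, by omega⟩
    by_cases h3 : n < 77
    · exact ⟨7, 11, 13, by norm_num, by norm_num, by norm_num, by norm_num, by norm_num, by omega, by omega⟩
    have hk8 : 8 ≤ Nat.sqrt n := by
      rw [Nat.le_sqrt]
      omega
    set k := Nat.sqrt n with hk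
    have hk1 : k * k ≤ n := Nat.sqrt_le n
    have hk2 : n < (k + 1) * (k + 1) := Nat.lt_succ_sqrt n
    obtain ⟨p, hp, hp1, hp2⟩ := Nat.exists_prime_lt_and_le_two_mul k (by omega)
    obtain ⟨q, hq, hq1, hq2⟩ := Nat.exists_prime_lt_and_le_two_mul (2 * k) (by omega)
    obtain ⟨r, hr, hr1, hr2⟩ := Nat.exists_prime_lt_and_le_two_mul (2 * (2 * k)) (by omega)
    refine ⟨p, q, r, hp, hq, hr, by omega, by omega, ?_, ?_⟩
    · have : 8 * k ≤ k * k := Nat.mul_le_mul_right k hk8
      omega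
    · calc n < (k + 1) * (k + 1) := hk2
        _ ≤ p * q := Nat.mul_le_mul (by omega) (by omega)
  have hord : ∀ g : G, 1 ≤ orderOf g ∧ orderOf g ≤ n := by
    intro g
    have : orderOf g ∈ Set.range (orderOf : G → ℕ) := ⟨g, rfl⟩
    rw [h] at this
    exact this
  have hex : ∀ t : ℕ, t.Prime → t ≤ n → t ∣ Nat.card G := by
    intro t ht htn
    have : t ∈ Set.range (orderOf : G → ℕ) := by
      rw [h]
      exact ⟨ht.one_lt.le, htn⟩
    obtain ⟨g, hg⟩ := this
    rw [← hg]
    exact orderOf_dvd_natCard g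
  have hpdvd := hex p hp (by omega)
  have hqdvd := hex q hq (by omega)
  have hrdvd := hex r hr hrn
  -- the Hall subgroup
  obtain ⟨a, N₁, hN₁, hN⟩ := Nat.exists_eq_pow_mul_and_not_dvd (Nat.card_pos (α := G)).ne' p hp.ne_one
  have hN₁0 : N₁ ≠ 0 := by
    rintro rfl
    rw [mul_zero] at hN
    exact (Nat.card_pos (α := G)).ne' hN
  obtain ⟨b, N₂, hN₂, hN₁'⟩ := Nat.exists_eq_pow_mul_and_not_dvd hN₁0 q hq.ne_one
  have hN₂0 : N₂ ≠ 0 := by
    rintro rfl
    rw [mul_zero] at hN₁'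
    exact hN₁0 hN₁'
  obtain ⟨c, N₃, hN₃, hN₂'⟩ := Nat.exists_eq_pow_mul_and_not_dvd hN₂0 r hr.ne_one
  have hpq' : p ≠ q := by omega
  have hqr' : q ≠ r := by omega
  have hpr' : p ≠ r := by omega
  have hpN₃ : ¬ p ∣ N₃ := fun hd => hN₁ (by
    rw [hN₁', hN₂']
    exact Dvd.dvd.mul_left (Dvd.dvd.mul_left hd _) _)
  have hqN₃ : ¬ q ∣ N₃ := fun hd => hN₂ (by
    rw [hN₂']
    exact Dvd.dvd.mul_left hd _)
  set m := p ^ a * (q ^ b * r ^ c) with hm
  have hcard : Nat.card G = m * N₃ := by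
    rw [hN, hN₁', hN₂', hm]
    ring
  have hcop : m.Coprime N₃ := by
    rw [hm]
    refine Nat.Coprime.mul_left (Nat.Coprime.pow_left _ ((Nat.Prime.coprime_iff_not_dvd hp).mpr hpN₃)) ?_
    exact Nat.Coprime.mul_left (Nat.Coprime.pow_left _ ((Nat.Prime.coprime_iff_not_dvd hq).mpr hqN₃))
      (Nat.Coprime.pow_left _ ((Nat.Prime.coprime_iff_not_dvd hr).mpr hN₃))
  obtain ⟨H, hH⟩ := Cfsg.Agent.Lib.Solvable.Hall.exists_card_eq m N₃ hcard hcop
  have hdvd_m : ∀ t : ℕ, t.Prime → t ∣ m → t = p ∨ t = q ∨ t = r := by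
    intro t ht hd
    rw [hm] at hd
    rcases (Nat.Prime.dvd_mul ht).mp hd with h1 | h1
    · exact Or.inl ((Nat.prime_dvd_prime_iff_eq ht hp).mp (ht.dvd_of_dvd_pow h1))
    rcases (Nat.Prime.dvd_mul ht).mp h1 with h2 | h2
    · exact Or.inr (Or.inl ((Nat.prime_dvd_prime_iff_eq ht hq).mp (ht.dvd_of_dvd_pow h2)))
    · exact Or.inr (Or.inr ((Nat.prime_dvd_prime_iff_eq ht hr).mp (ht.dvd_of_dvd_pow h2)))
  have hmdvd : ∀ t : ℕ, t.Prime → t ∣ Nat.card G → ¬ t ∣ N₃ → t ∣ m := by
    intro t ht h1 h2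
    rw [hcard] at h1
    rcases (Nat.Prime.dvd_mul ht).mp h1 with h3 | h3
    · exact h3
    · exact absurd h3 h2
  have hpm := hmdvd p hp hpdvd hpN₃
  have hqm := hmdvd q hq hqdvd hqN₃
  have hrm := hmdvd r hr hrdvd hN₃
  have heppo : ∀ g : H, IsPrimePow (orderOf g) ∨ g = 1 := by
    intro g
    by_cases hg : g = 1
    · exact Or.inr hg
    left
    have hg1 : orderOf (g : G) ≠ 1 := by
      intro h1
      rw [orderOf_eq_one_iff] at h1
      exact hg (Subtype.ext h1)
    have hgd : orderOf (g : G) ∣ m := by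
      have := Subgroup.orderOf_dvd_natCard H g.2
      rwa [hH] at this
    have hgn := (hord (g : G)).2
    rw [← Subgroup.orderOf_coe]
    obtain ⟨t, ht, htd⟩ := Nat.exists_prime_and_dvd hg1
    have hunique : ∀ d : ℕ, d.Prime → d ∣ orderOf (g : G) → d = t := by
      intro d hd hdd
      by_contra hne
      have hco : d.Coprime t := (Nat.coprime_primes hd ht).mpr hne
      have hprod : d * t ∣ orderOf (g : G) := Nat.Coprime.mul_dvd_of_dvd_of_dvd hco hdd htd
      have hle : d * t ≤ n := (Nat.le_of_dvd (orderOf_pos _) hprod).trans hgn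
      have h1 := hdvd_m d hd (hdd.trans hgd)
      have h2 := hdvd_m t ht (htd.trans hgd)
      have hlarge : ∀ x y : ℕ, (x = p ∨ x = q ∨ x = r) → (y = p ∨ y = q ∨ y = r) → x ≠ y → p * q ≤ x * y := by
        intro x y hx hy hxy
        have h1 : p * q ≤ p * r := Nat.mul_le_mul_left _ hqr.le
        have h2 : p * q ≤ q * r := Nat.mul_le_mul hpq.le hqr.le
        rcases hx with hx | hx | hx <;> rcases hy with hy | hy | hy <;> rw [hx, hy] at hxy ⊢ <;>
          first
          | exact absurd rfl hxy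
          | exact le_rfl
          | exact h1
          | exact h2
          | exact (Nat.mul_comm p q).le
          | exact h1.trans (Nat.mul_comm p r).le
          | exact h2.trans (Nat.mul_comm q r).le
      have := hlarge d t h1 h2 hne
      omega
    have h3 := Nat.eq_prime_pow_of_unique_prime_dvd (orderOf_pos (g : G)).ne' (fun {d} hd hdd => hunique d hd hdd)
    rw [h3]
    refine (isPrimePow_nat_iff _).mpr ⟨t, _, ht, ?_, rfl⟩
    rw [Nat.pos_iff_ne_zero]
    intro h0
    rw [h0, pow_zero] at h3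
    exact hg1 h3
  have hle := Cfsg.Agent.Lib.Solvable.EPPO.card_primeFactors_le_two (G := H) heppo
  have hsub : ({p, q, r} : Finset ℕ) ⊆ (Nat.card H).primeFactors := by
    intro t ht
    simp only [Finset.mem_insert, Finset.mem_singleton] at ht
    rw [hH]
    have hm0 : m ≠ 0 := by
      intro h0
      rw [h0, zero_mul] at hcard
      exact (Nat.card_pos (α := G)).ne' hcard
    rcases ht with rfl | rfl | rfl
    · exact Nat.mem_primeFactors.mpr ⟨hp, hpm, hm0⟩
    · exact Nat.mem_primeFactors.mpr ⟨hq, hqm, hm0⟩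
    · exact Nat.mem_primeFactors.mpr ⟨hr, hrm, hm0⟩
  have h3 := Finset.card_le_card hsub
  have h4 : ({p, q, r} : Finset ℕ).card = 3 := by
    rw [Finset.card_eq_three]
    exact ⟨p, q, r, hpq', hpr', hqr', rfl⟩
  omega

end Cfsg.Agent.S4002
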