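import Mathlib
import Cfsg.Statements.S4005

set_option autoImplicit false
set_option linter.all false
open Cfsg

namespace Cfsg.Agent.S4005

variable {G : Type*} [Group G]

lemma braid (a b : G) (ha : a * a = 1) (hb : b * b = 1) (h : (a * b) ^ 3 = 1) :
    a * b * a = b * a * b := by
  have ainv : a⁻¹ = a := inv_eq_of_mul_eq_one_left ha
  have binv : b⁻¹ = b := inv_eq_of_mul_eq_one_left hb
  have h' : a * b * a * (b * a * b) = 1 := by simpa [pow_succ, mul_assoc] using h
  have h2 := eq_inv_of_mul_eq_one_left h'
  simpa [mul_inv_rev, ainv, binv, mul_assoc] using h2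

lemma coxeter_identity (a b c : G) (ha : a * a = 1) (hb : b * b = 1) (hc : c * c = 1)
    (hbc : b * c = c * b) (hab : (a * b) ^ 3 = 1) (hac : (a * c) ^ 3 = 1) :
    (a * b * c) ^ 4 = 1 := by
  have h1 := braid a b ha hb hab
  have h2 := braid a c ha hc hac
  have ha' : ∀ x, a * (a * x) = x := fun x => by rw [← mul_assoc, ha, one_mul]
  have hb' : ∀ x, b * (b * x) = x := fun x => by rw [← mul_assoc, hb, one_mul]
  have hc' : ∀ x, c * (c * x) = x := fun x => by rw [← mul_assoc, hc, one_mul]
  have hu : (a * b * c) * (a * b * c) = b * a * b * c * a * b := by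
    calc (a * b * c) * (a * b * c) = a * b * (c * a * c) * b := by
          simp only [mul_assoc, hbc]
          rw [← mul_assoc b c, hbc]
          simp only [mul_assoc]
      _ = a * b * (a * c * a) * b := by rw [h2]
      _ = (a * b * a) * c * a * b := by simp only [mul_assoc]
      _ = b * a * b * c * a * b := by rw [h1]
  have h4 : (a * b * c) ^ 4 = ((a * b * c) * (a * b * c)) * ((a * b * c) * (a * b * c)) := by
    simp only [pow_succ, pow_zero, one_mul, mul_assoc]
  rw [h4, hu]
  have hbcbc : b * (c * (b * c)) = 1 := by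
    rw [← mul_assoc c b c, ← hbc, mul_assoc b c c, hc, mul_one, hb]
  calc b * a * b * c * a * b * (b * a * b * c * a * b)
      = b * (a * (b * (c * (b * c) ) )) * a * b := by
        simp only [mul_assoc, hb', ha']
    _ = 1 := by
        have : a * (b * (c * (b * c))) = a := by rw [hbcbc, mul_one]
        rw [mul_assoc b, this, mul_assoc, mul_assoc, ha', hb]

lemma norm_comm {A : Type*} [CommGroup A] (hA : ∀ a : A, a * a = 1) (X Y : A → A)
    (hXm : ∀ a b, X (a * b) = X a * X b)
    (hX : ∀ a, a * X a * X (X a) = 1)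
    (hY : ∀ a, a * Y a * Y (Y a) = 1)
    (hXY : ∀ a, a * X (Y a) * X (X (Y (Y a))) = 1) (u : A) : X u = Y u := by
  have hinv : ∀ {a b c : A}, a * b * c = 1 → c = a * b := by
    intro a b c h
    have h1 : (a * b) * (a * b * c) = a * b := by rw [h, mul_one]
    rw [← mul_assoc, hA, one_mul] at h1
    exact h1
  have e1 : Y (Y u) = u * Y u := hinv (hY u)
  have e2 : X (X u) = u * X u := hinv (hX u)
  have e3 : X (X (Y u)) = Y u * X (Y u) := hinv (hX (Y u))
  have e4 := hXY u
  rw [e1, hXm, hXm, e2, e3] at e4
  -- now `u * XYu * (u * Xu * (Yu * XYu)) = 1`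
  have e5 : Y u * X u = 1 := by
    have : u * X (Y u) * (u * X u * (Y u * X (Y u))) = (u * u) * (X (Y u) * X (Y u)) * (Y u * X u) := by
      ac_rfl
    rw [this, hA, hA, one_mul, one_mul] at e4
    exact e4
  have e6 : (Y u * X u) * X u = X u := by rw [e5, one_mul]
  rw [mul_assoc, hA, mul_one] at e6
  exact e6.symm

/-- The main statement. -/
lemma main (h : Set.range (orderOf : G → ℕ) = {k : ℕ | 1 ≤ k ∧ k ≤ 3}) [Finite G] :
    (∃ N : Subgroup G, N.Normal ∧ Cfsg.IsElementaryAbelian 3 N ∧ N.index = 2) ∨
      (∃ N : Subgroup G, N.Normal ∧ Cfsg.IsElementaryAbelian 2 N ∧ N.index = 3) := by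
  have hord : ∀ x : G, orderOf x = 1 ∨ orderOf x = 2 ∨ orderOf x = 3 := by
    intro x
    have : orderOf x ∈ {k : ℕ | 1 ≤ k ∧ k ≤ 3} := by
      rw [← h]
      exact ⟨x, rfl⟩
    obtain ⟨h1, h2⟩ := this
    omega
  obtain ⟨a₀, ha₀⟩ : ∃ a : G, orderOf a = 2 := by
    have : (2 : ℕ) ∈ Set.range (orderOf : G → ℕ) := by
      rw [h]
      exact ⟨by norm_num, by norm_num⟩
    exact this
  obtain ⟨b₀, hb₀⟩ : ∃ a : G, orderOf a = 3 := by
    have : (3 : ℕ) ∈ Set.range (orderOf : G → ℕ) := by
      rw [h]
      exact ⟨by norm_num, by norm_num⟩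
    exact this
  -- centralizers of involutions
  have hcent : ∀ t x : G, orderOf t = 2 → Commute x t → x * x = 1 := by
    intro t x ht hc
    rcases hord x with h1 | h1 | h1
    · rw [orderOf_eq_one_iff] at h1
      simp [h1]
    · rw [← pow_two, ← h1, pow_orderOf_eq_one]
    · exfalso
      have h2 := hc.orderOf_mul_eq_mul_orderOf_of_coprime (by rw [h1, ht]; norm_num)
      rw [h1, ht] at h2
      rcases hord (x * t) with h3 | h3 | h3 <;> omega
  haveI h2p : Fact (Nat.Prime 2) := ⟨Nat.prime_two⟩
  haveI h3p : Fact (Nat.Prime 3) := ⟨Nat.prime_three⟩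
  obtain T : Sylow 2 G := default
  have hTsq : ∀ x ∈ (T : Subgroup G), x * x = 1 := by
    intro x hx
    obtain ⟨k, hk⟩ := (IsPGroup.iff_orderOf.1 T.isPGroup') ⟨x, hx⟩
    have hk' : orderOf x = 2 ^ k := by
      rw [← Subgroup.orderOf_mk x hx]
      exact hk
    rcases hord x with h1 | h1 | h1
    · rw [orderOf_eq_one_iff] at h1
      simp [h1]
    · rw [← pow_two, ← h1, pow_orderOf_eq_one]
    · exfalso
      rw [hk'] at h1
      have : 2 ∣ 3 := by
        rw [← h1]
        refine dvd_pow_self 2 ?_
        rintro rfl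
        simp at h1
      omega
  have hTcomm : ∀ x ∈ (T : Subgroup G), ∀ y ∈ (T : Subgroup G), x * y = y * x := by
    intro x hx y hy
    have h1 := hTsq _ ((T : Subgroup G).mul_mem hx hy)
    have h2 := hTsq _ hx
    have h3 := hTsq _ hy
    calc x * y = x * (x * y * (x * y)) * y := by rw [h1]; simp
      _ = (x * x) * y * x * (y * y) := by simp only [mul_assoc]
      _ = y * x := by rw [h2, h3]; simp
  -- a nontrivial element of `T` has centralizer `T`
  have hTmax : ∀ t ∈ (T : Subgroup G), t ≠ 1 → ∀ x : G, Commute x t → x ∈ (T : Subgroup G) := by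
    intro t ht ht1 x hx
    have hot : orderOf t = 2 := by
      apply orderOf_eq_prime
      · rw [pow_two]; exact hTsq t ht
      · exact ht1
    let C : Subgroup G := Subgroup.centralizer {t}
    have hC : IsPGroup 2 C := by
      rw [IsPGroup.iff_orderOf]
      rintro ⟨y, hy⟩
      have hy' : Commute y t := by
        have := Subgroup.mem_centralizer_iff.1 hy t rfl
        exact this.symm
      have hyy := hcent t y hot hy'
      have : orderOf (⟨y, hy⟩ : C) = orderOf y := Subgroup.orderOf_mk y hy
      rw [this]
      by_cases hy1 : y = 1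
      · exact ⟨0, by simp [hy1]⟩
      · exact ⟨1, by rw [pow_one]; apply orderOf_eq_prime (by rw [pow_two]; exact hyy) hy1⟩
    have hle : (T : Subgroup G) ≤ C := by
      intro y hy
      rw [Subgroup.mem_centralizer_iff]
      intro w hw
      have hw' : w = t := hw
      rw [hw']
      exact hTcomm t ht y hy
    have hCeq := T.is_maximal' hC hle
    have hxC : x ∈ C := by
      rw [Subgroup.mem_centralizer_iff]
      intro w hw
      have hw' : w = t := hw
      rw [hw']
      exact hx.symm.eq
    rw [hCeq] at hxC
    exact hxC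
  have hTcommI : IsMulCommutative (T : Subgroup G) :=
    ⟨⟨fun a b => Subtype.ext (hTcomm a a.2 b b.2)⟩⟩
  obtain ⟨k, hk⟩ := IsPGroup.iff_card.1 T.isPGroup'
  have hGeven : 2 ∣ Nat.card G := by
    rw [← ha₀]
    exact orderOf_dvd_natCard a₀
  have hk0 : k ≠ 0 := by
    rintro rfl
    have h1 := (T : Subgroup G).card_mul_index
    rw [hk, pow_zero, one_mul] at h1
    apply T.not_dvd_index
    rw [h1]
    exact hGeven
  by_cases hk1 : k = 1
  · -- Sylow subgroup of order two: normal complement
    left
    subst hk1
    rw [pow_one] at hk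
    have huniq : ∀ y z : (T : Subgroup G), y ≠ 1 → z ≠ 1 → y = z := by
      obtain ⟨w, -, hw⟩ := (Nat.card_eq_two_iff' (1 : (T : Subgroup G))).1 hk
      intro y z hy hz
      rw [hw y hy, hw z hz]
    have hP : Subgroup.normalizer ((T : Subgroup G) : Set G) ≤ Subgroup.centralizer ((T : Subgroup G) : Set G) := by
      intro n hn
      rw [Subgroup.mem_centralizer_iff]
      intro y hy
      by_cases hy1 : y = 1
      · simp [hy1]
      · have h1 : n * y * n⁻¹ ∈ (T : Subgroup G) := (Subgroup.mem_normalizer_iff.1 hn y).1 hy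
        have h2 : (⟨n * y * n⁻¹, h1⟩ : (T : Subgroup G)) = ⟨y, hy⟩ := by
          apply huniq
          · intro h3
            apply hy1
            have h4 : n * y * n⁻¹ = 1 := congrArg Subtype.val h3
            have h5 : n * y = n := by
              rw [mul_inv_eq_one] at h4
              exact h4
            simpa using h5
          · intro h3
            exact hy1 (congrArg Subtype.val h3)
        have h3 : n * y * n⁻¹ = y := congrArg Subtype.val h2
        rw [mul_inv_eq_iff_eq_mul] at h3
        exact h3.symm
    let f := MonoidHom.transferSylow T hP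
    have hcompl := MonoidHom.ker_transferSylow_isComplement' T hP
    have hNidx : f.ker.index = 2 := hcompl.symm.index_eq_card.trans hk
    have hNcard : Nat.card f.ker = (T : Subgroup G).index := hcompl.index_eq_card.symm
    have hNodd : ¬ 2 ∣ Nat.card f.ker := by
      rw [hNcard]
      exact T.not_dvd_index
    obtain ⟨t', ht'⟩ := exists_prime_orderOf_dvd_card' (G := (T : Subgroup G)) 2 (by rw [hk])
    set t : G := t'.1 with htdef
    have htT : t ∈ (T : Subgroup G) := t'.2
    have hot : orderOf t = 2 := by rw [htdef, Subgroup.orderOf_coe, ht']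
    have htt : t * t = 1 := by rw [← pow_two, ← hot, pow_orderOf_eq_one]
    have ht1 : t ≠ 1 := by
      intro h1
      rw [h1, orderOf_one] at hot
      omega
    have hft : f t ≠ 1 := by
      intro h1
      have h2 : t ∈ f.ker := h1
      have h3 := Subgroup.disjoint_def.1 hcompl.disjoint h2 htT
      exact ht1 h3
    have hinvert : ∀ n ∈ f.ker, t * n * t⁻¹ = n⁻¹ := by
      intro n hn
      have hfn : f n = 1 := hn
      have hs : (n * t) * (n * t) = 1 := by
        rcases hord (n * t) with h1 | h1 | h1
        · rw [orderOf_eq_one_iff] at h1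
          rw [h1, one_mul]
        · rw [← pow_two, ← h1, pow_orderOf_eq_one]
        · exfalso
          have h2 : (n * t) ^ 3 = 1 := by rw [← h1, pow_orderOf_eq_one]
          have h3 : f ((n * t) ^ 3) = 1 := by rw [h2, map_one]
          rw [map_pow, map_mul, hfn, one_mul] at h3
          have h4 : ((f t : (T : Subgroup G)) : G) * (f t : G) = 1 := hTsq _ (f t).2
          have h5 : ((f t : (T : Subgroup G)) : G) ^ 3 = 1 := by
            have := congrArg Subtype.val h3
            simpa using this
          have h6 : ((f t : (T : Subgroup G)) : G) = 1 := by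
            calc ((f t : (T : Subgroup G)) : G) = (f t : G) ^ 3 * ((f t : G) * (f t : G))⁻¹ := by group
              _ = 1 := by rw [h5, h4]; simp
          exact hft (Subtype.ext h6)
      have h1 : t⁻¹ = t := inv_eq_of_mul_eq_one_left htt
      rw [h1]
      have h2 : n * (t * n * t) = 1 := by
        simpa [mul_assoc] using hs
      exact eq_inv_of_mul_eq_one_right h2
    refine ⟨f.ker, inferInstance, ⟨⟨⟨?_⟩⟩, ?_⟩, hNidx⟩
    · rintro ⟨a, ha⟩ ⟨b, hb⟩
      apply Subtype.ext
      have h1 := hinvert (a * b) (f.ker.mul_mem ha hb)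
      have h2 : t * (a * b) * t⁻¹ = (t * a * t⁻¹) * (t * b * t⁻¹) := by group
      rw [h2, hinvert a ha, hinvert b hb, mul_inv_rev] at h1
      have h3 : b⁻¹ * a⁻¹ = (a * b)⁻¹ := by group
      have h4 : (a⁻¹ * b⁻¹)⁻¹ = (b⁻¹ * a⁻¹)⁻¹ := by rw [h1]
      simp only [mul_inv_rev, inv_inv] at h4
      exact h4.symm
    · intro a ha
      rcases hord a with h1 | h1 | h1
      · rw [orderOf_eq_one_iff] at h1
        simp [h1]
      · exfalso
        apply hNodd
        have h2 : orderOf (⟨a, ha⟩ : f.ker) = 2 := by rw [Subgroup.orderOf_mk, h1]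
        have h3 := orderOf_dvd_natCard (⟨a, ha⟩ : f.ker)
        rwa [h2] at h3
      · rw [← h1, pow_orderOf_eq_one]
  · -- `T` has at least four elements, and is normal
    right
    have hk2 : 2 ≤ k := by omega
    have hcardT : 4 ≤ Nat.card (T : Subgroup G) := by
      rw [hk]
      calc 4 = 2 ^ 2 := by norm_num
        _ ≤ 2 ^ k := Nat.pow_le_pow_right (by norm_num) hk2
    obtain ⟨t', ht'⟩ := exists_prime_orderOf_dvd_card' (G := (T : Subgroup G)) 2 (by
      rw [hk]; exact dvd_pow_self 2 hk0)
    set t : G := t'.1 with htdef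
    have htT : t ∈ (T : Subgroup G) := t'.2
    have hot : orderOf t = 2 := by rw [htdef, Subgroup.orderOf_coe, ht']
    have ht1 : t ≠ 1 := by
      intro h1
      rw [h1, orderOf_one] at hot
      omega
    obtain ⟨s, hsT, hs⟩ : ∃ s ∈ (T : Subgroup G), s ∉ Subgroup.zpowers t := by
      by_contra hcon
      push Not at hcon
      have hle : (T : Subgroup G) ≤ Subgroup.zpowers t := hcon
      have := Subgroup.card_le_of_le hle
      rw [Nat.card_zpowers, hot] at this
      omega
    have hs1 : s ≠ 1 := by
      rintro rfl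
      exact hs (Subgroup.one_mem _)
    have hst : s ≠ t := by
      rintro rfl
      exact hs (Subgroup.mem_zpowers _)
    have hall : ∀ a : G, a * a = 1 → a ∈ (T : Subgroup G) := by
      intro a ha
      by_contra haT
      have ha1 : a ≠ 1 := by
        rintro rfl
        exact haT (Subgroup.one_mem _)
      have hcube : ∀ w ∈ (T : Subgroup G), w ≠ 1 → (a * w) ^ 3 = 1 := by
        intro w hw hw1
        have hnc : ¬ Commute a w := fun hc => haT (hTmax w hw hw1 a hc)
        rcases hord (a * w) with h1 | h1 | h1
        · exfalso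
          rw [orderOf_eq_one_iff] at h1
          apply haT
          rw [eq_inv_of_mul_eq_one_left h1]
          exact (T : Subgroup G).inv_mem hw
        · exfalso
          apply hnc
          have h2 : (a * w) * (a * w) = 1 := by rw [← pow_two, ← h1, pow_orderOf_eq_one]
          have h3 : w * w = 1 := hTsq w hw
          have e1 : a⁻¹ = a := inv_eq_of_mul_eq_one_left ha
          have e2 : w⁻¹ = w := inv_eq_of_mul_eq_one_left h3
          have h4 := eq_inv_of_mul_eq_one_left h2
          rw [mul_inv_rev, e1, e2] at h4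
          exact h4
        · rw [← h1, pow_orderOf_eq_one]
      have htt : t * t = 1 := hTsq t htT
      have hss : s * s = 1 := hTsq s hsT
      have hd1 : t * s ≠ 1 := by
        intro h1
        apply hst
        have e2 : t⁻¹ = t := inv_eq_of_mul_eq_one_left htt
        have := eq_inv_of_mul_eq_one_right h1
        rw [e2] at this
        exact this
      have hd3 := hcube (t * s) ((T : Subgroup G).mul_mem htT hsT) hd1
      have h4 := coxeter_identity a t s ha htt hss (hTcomm t htT s hsT)
        (hcube t htT ht1) (hcube s hsT hs1)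
      have hu : a * (t * s) = 1 := by
        have e : a * t * s = a * (t * s) := mul_assoc _ _ _
        rw [e] at h4
        calc a * (t * s) = (a * (t * s)) ^ 4 * ((a * (t * s)) ^ 3)⁻¹ := by group
          _ = 1 := by rw [h4, hd3]; simp
      apply haT
      rw [eq_inv_of_mul_eq_one_left hu]
      exact (T : Subgroup G).inv_mem ((T : Subgroup G).mul_mem htT hsT)
    haveI hTn : (T : Subgroup G).Normal := by
      constructor
      intro n hn g
      apply hall
      have := hTsq n hn
      calc g * n * g⁻¹ * (g * n * g⁻¹) = g * (n * n) * g⁻¹ := by group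
        _ = 1 := by rw [this]; simp
    refine ⟨(T : Subgroup G), hTn, ⟨hTcommI, ?_⟩, ?_⟩
    · intro a ha
      rw [pow_two]
      exact hTsq a ha
    -- the index is three
    have hnorm : ∀ e : G, e ^ 3 = 1 → e ≠ 1 → ∀ u ∈ (T : Subgroup G),
        u * (e * u * e⁻¹) * (e * (e * u * e⁻¹) * e⁻¹) = 1 := by
      intro e he3 he1 u hu
      have he3' : e * e * e = 1 := by simpa [pow_succ, mul_assoc] using he3
      have m1 : e * u * e⁻¹ ∈ (T : Subgroup G) := hTn.conj_mem u hu e
      have m2 : e * (e * u * e⁻¹) * e⁻¹ ∈ (T : Subgroup G) := hTn.conj_mem _ m1 e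
      have h3 : e * (e * (e * u * e⁻¹) * e⁻¹) * e⁻¹ = u := by
        have : e * (e * (e * u * e⁻¹) * e⁻¹) * e⁻¹ = (e * e * e) * u * (e * e * e)⁻¹ := by group
        rw [this, he3']
        simp
      generalize hv : e * u * e⁻¹ = v at *
      generalize hw : e * v * e⁻¹ = w at *
      by_contra hne
      have hmem := (T : Subgroup G).mul_mem ((T : Subgroup G).mul_mem hu m1) m2
      have he : e ∈ (T : Subgroup G) := by
        refine hTmax _ hmem hne e ?_
        show e * (u * v * w) = (u * v * w) * e
        have h4 : e * (u * v * w) * e⁻¹ = (e * u * e⁻¹) * (e * v * e⁻¹) * (e * w * e⁻¹) := by group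
        have h5 : v * w * u = u * v * w := by
          rw [hTcomm _ ((T : Subgroup G).mul_mem m1 m2) u hu, mul_assoc]
        rw [hv, hw, h3, h5] at h4
        exact mul_inv_eq_iff_eq_mul.1 h4
      have h1 := hTsq e he
      apply he1
      calc e = e ^ 3 * (e * e)⁻¹ := by group
        _ = 1 := by rw [he3, h1]; simp
    have hord3 : ∀ x y : G, Commute x y → x ^ 3 = 1 → y ^ 3 = 1 → x ≠ 1 → y ≠ 1 → x * y ≠ 1 → x = y := by
      intro x y hxy hx3 hy3 hx1 hy1 hxy1
      have hxy3 : (x * y) ^ 3 = 1 := by rw [hxy.mul_pow, hx3, hy3, one_mul]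
      letI : CommGroup (T : Subgroup G) :=
        { (inferInstance : Group (T : Subgroup G)) with
          mul_comm := fun a b => Subtype.ext (hTcomm a a.2 b b.2) }
      let X : ↥(T : Subgroup G) → ↥(T : Subgroup G) := fun u => ⟨x * u * x⁻¹, hTn.conj_mem _ u.2 x⟩
      let Y : ↥(T : Subgroup G) → ↥(T : Subgroup G) := fun u => ⟨y * u * y⁻¹, hTn.conj_mem _ u.2 y⟩
      have key := norm_comm (A := (T : Subgroup G)) (fun a => Subtype.ext (hTsq a a.2)) X Y
        (fun a b => Subtype.ext (by
          show x * ((a : G) * (b : G)) * x⁻¹ = (x * a * x⁻¹) * (x * b * x⁻¹)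
          group))
        (fun a => Subtype.ext (hnorm x hx3 hx1 a a.2))
        (fun a => Subtype.ext (hnorm y hy3 hy1 a a.2))
        (fun a => Subtype.ext (by
          have h0 := hnorm (x * y) hxy3 hxy1 a a.2
          show (a : G) * (x * (y * a * y⁻¹) * x⁻¹) * (x * (x * (y * (y * a * y⁻¹) * y⁻¹) * x⁻¹) * x⁻¹) = 1
          have h1 : x * y * (a : G) * (x * y)⁻¹ = x * (y * a * y⁻¹) * x⁻¹ := by group
          have h2 : x * y * (x * y * (a : G) * (x * y)⁻¹) * (x * y)⁻¹
              = x * (x * (y * (y * a * y⁻¹) * y⁻¹) * x⁻¹) * x⁻¹ := by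
            have e : x * y * (x * y) = x * x * (y * y) := by
              calc x * y * (x * y) = x * (y * x) * y := by simp only [mul_assoc]
                _ = x * (x * y) * y := by rw [hxy.symm.eq]
                _ = _ := by simp only [mul_assoc]
            have e2 : x * y * (x * y * (a : G) * (x * y)⁻¹) * (x * y)⁻¹ = (x * y * (x * y)) * a * (x * y * (x * y))⁻¹ := by
              group
            rw [e2, e]
            group
          rw [← h1, ← h2]
          exact h0))
        ⟨t, htT⟩
      have h1 : x * t * x⁻¹ = y * t * y⁻¹ := congrArg Subtype.val key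
      have hc : Commute (x⁻¹ * y) t := by
        show x⁻¹ * y * t = t * (x⁻¹ * y)
        have h2 : y * t = x * t * x⁻¹ * y := by rw [h1]; group
        rw [mul_assoc, h2]
        group
      have hm := hTmax t htT ht1 _ hc
      have h2 := hTsq _ hm
      have h3 : (x⁻¹ * y) ^ 3 = 1 := by
        rw [(hxy.inv_left).mul_pow, inv_pow, hx3, hy3]
        simp
      have h4 : x⁻¹ * y = 1 := by
        calc x⁻¹ * y = (x⁻¹ * y) ^ 3 * ((x⁻¹ * y) * (x⁻¹ * y))⁻¹ := by
              simp only [pow_succ, pow_zero, one_mul]
              group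
          _ = 1 := by rw [h3, h2]; simp
      exact (inv_mul_eq_one.1 h4)
    -- prime factors of the index
    have hbT : b₀ ∉ (T : Subgroup G) := by
      intro hb
      have h1 := hTsq b₀ hb
      have h2 : orderOf b₀ ∣ 2 := orderOf_dvd_of_pow_eq_one (by rw [pow_two]; exact h1)
      rw [hb₀] at h2
      omega
    have hidx : (T : Subgroup G).index ≠ 0 := Subgroup.index_ne_zero_of_finite
    have hidvd : (T : Subgroup G).index ∣ Nat.card G := Subgroup.index_dvd_card _
    have hq3 : ∀ {q : ℕ}, q.Prime → q ∣ (T : Subgroup G).index → q = 3 := by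
      intro q hq hd
      haveI := Fact.mk hq
      obtain ⟨x, hx⟩ := exists_prime_orderOf_dvd_card' q (hd.trans hidvd)
      rcases hord x with h1 | h1 | h1
      · rw [hx] at h1
        exact absurd h1 hq.ne_one
      · rw [hx] at h1
        subst h1
        exact absurd hd T.not_dvd_index
      · rw [hx] at h1
        exact h1
    have hpow := Nat.eq_prime_pow_of_unique_prime_dvd hidx (fun {d} hd hdd => hq3 hd hdd)
    set b := ((T : Subgroup G).index).primeFactorsList.length with hbdef
    have hb0 : b ≠ 0 := by
      intro h0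
      rw [h0, pow_zero, Subgroup.index_eq_one] at hpow
      apply hbT
      rw [hpow]
      trivial
    have hb1 : b = 1 := by
      by_contra hne
      have hb2 : 2 ≤ b := by omega
      have h9 : 3 ^ 2 ∣ Nat.card G := by
        refine dvd_trans ?_ hidvd
        rw [hpow]
        exact pow_dvd_pow 3 hb2
      obtain ⟨P, hP⟩ := Sylow.exists_subgroup_card_pow_prime 3 h9
      have hPc := IsPGroup.commutative_of_card_eq_prime_sq (p := 3) hP
      have h3elem : ∀ z ∈ P, z ^ 3 = 1 := by
        intro z hz
        have h1 : orderOf z ∣ 3 ^ 2 := by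
          have := orderOf_dvd_natCard (⟨z, hz⟩ : P)
          rw [Subgroup.orderOf_mk, hP] at this
          exact this
        rcases hord z with h2 | h2 | h2
        · rw [orderOf_eq_one_iff] at h2
          simp [h2]
        · rw [h2] at h1
          norm_num at h1
        · rw [← h2, pow_orderOf_eq_one]
      obtain ⟨x', hx'⟩ := exists_prime_orderOf_dvd_card' (G := P) 3 (by rw [hP]; norm_num)
      set x : G := x'.1 with hxdef
      have hxP : x ∈ P := x'.2
      have hox : orderOf x = 3 := by rw [hxdef, Subgroup.orderOf_coe, hx']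
      have hx1 : x ≠ 1 := by
        intro h1
        rw [h1, orderOf_one] at hox
        omega
      obtain ⟨y, hyP, hy⟩ : ∃ y ∈ P, y ∉ Subgroup.zpowers x := by
        by_contra hcon
        push Not at hcon
        have hle : P ≤ Subgroup.zpowers x := hcon
        have := Subgroup.card_le_of_le hle
        rw [Nat.card_zpowers, hox, hP] at this
        omega
      have hy1 : y ≠ 1 := by
        rintro rfl
        exact hy (Subgroup.one_mem _)
      have hyx : x = y → False := by
        rintro rfl
        exact hy (Subgroup.mem_zpowers _)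
      have hxy1 : x * y ≠ 1 := by
        intro h1
        apply hy
        rw [eq_inv_of_mul_eq_one_right h1]
        exact Subgroup.inv_mem _ (Subgroup.mem_zpowers _)
      have hcomm : Commute x y := by
        have := hPc ⟨x, hxP⟩ ⟨y, hyP⟩
        exact congrArg Subtype.val this
      exact hyx (hord3 x y hcomm (h3elem x hxP) (h3elem y hyP) hx1 hy1 hxy1)
    rw [hb1, pow_one] at hpow
    exact hpow

/-- A finite group whose set of element orders is exactly {1, 2, 3} has either a normal elementary abelian 3-subgroup of index 2 or a normal elementary abelian 2-subgroup of index 3. -/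
theorem result {G : Type*} [Group G] [Finite G] (h : Set.range (orderOf : G → ℕ) = {k : ℕ | 1 ≤ k ∧ k ≤ 3}) :
    (∃ N : Subgroup G, N.Normal ∧ Cfsg.IsElementaryAbelian 3 N ∧ N.index = 2) ∨
      (∃ N : Subgroup G, N.Normal ∧ Cfsg.IsElementaryAbelian 2 N ∧ N.index = 3) := main h

end Cfsg.Agent.S4005
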