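import Mathlib
import Cfsg.Statements.S4006
import Cfsg.Agent.S0016
import Cfsg.Agent.Lib.FG7.EqualOrder
import Cfsg.Agent.Lib.SameOrder.Main
import Cfsg.Agent.Lib.Char.Burnside
import Cfsg.Agent.Lib.Core.Basic
import Cfsg.Agent.Lib.Coprime.SchurZassenhaus

set_option autoImplicit false
set_option linter.all false
open Cfsg

namespace Cfsg.Agent.S4006

open scoped commutatorElement

section Engel

variable {N : Type*} [Group N]

/-- The commutator `a⁻¹ b⁻¹ a b`. -/
def com (a b : N) : N := a⁻¹ * b⁻¹ * a * b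

theorem comm_conj (hE : ∀ x g : N, x * (g⁻¹ * x * g) = (g⁻¹ * x * g) * x) (x g h : N) :
    (g⁻¹ * x * g) * (h⁻¹ * x * h) = (h⁻¹ * x * h) * (g⁻¹ * x * g) := by
  have := hE x (h * g⁻¹)
  calc (g⁻¹ * x * g) * (h⁻¹ * x * h)
      = g⁻¹ * (x * ((h * g⁻¹)⁻¹ * x * (h * g⁻¹))) * g := by group
    _ = g⁻¹ * (((h * g⁻¹)⁻¹ * x * (h * g⁻¹)) * x) * g := by rw [this]
    _ = (h⁻¹ * x * h) * (g⁻¹ * x * g) := by group

/-- The normal closure of `x` in a `2`-Engel group is abelian. -/
theorem nc_comm (hE : ∀ x g : N, x * (g⁻¹ * x * g) = (g⁻¹ * x * g) * x) (x : N) :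
    ∀ a ∈ Subgroup.normalClosure ({x} : Set N), ∀ b ∈ Subgroup.normalClosure ({x} : Set N),
      a * b = b * a := by
  have hS : ∀ a ∈ Group.conjugatesOfSet ({x} : Set N), ∀ b ∈ Group.conjugatesOfSet ({x} : Set N),
      a * b = b * a := by
    intro a ha b hb
    rw [Group.mem_conjugatesOfSet_iff] at ha hb
    obtain ⟨a', ha', ha⟩ := ha
    obtain ⟨b', hb', hb⟩ := hb
    have e1 : a' = x := ha'
    have e2 : b' = x := hb'
    rw [e1] at ha
    rw [e2] at hb
    obtain ⟨c, rfl⟩ := isConj_iff.mp ha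
    obtain ⟨d, rfl⟩ := isConj_iff.mp hb
    have := comm_conj hE x c⁻¹ d⁻¹
    simpa using this
  intro a ha b hb
  unfold Subgroup.normalClosure at ha hb
  have h1 : Group.conjugatesOfSet ({x} : Set N) ⊆ Subgroup.centralizer (Group.conjugatesOfSet ({x} : Set N)) := by
    intro u hu
    rw [SetLike.mem_coe, Subgroup.mem_centralizer_iff]
    intro v hv
    exact hS v hv u hu
  have h2 : Subgroup.closure (Group.conjugatesOfSet ({x} : Set N)) ≤
      Subgroup.centralizer (Group.conjugatesOfSet ({x} : Set N)) :=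
    (Subgroup.closure_le _).mpr h1
  have h3 : Group.conjugatesOfSet ({x} : Set N) ⊆
      Subgroup.centralizer ((Subgroup.closure (Group.conjugatesOfSet ({x} : Set N)) : Subgroup N) : Set N) := by
    intro u hu
    rw [SetLike.mem_coe, Subgroup.mem_centralizer_iff]
    intro v hv
    have := (Subgroup.mem_centralizer_iff.mp (h2 hv)) u hu
    exact this.symm
  have h4 := (Subgroup.closure_le _).mpr h3 ha
  exact ((Subgroup.mem_centralizer_iff.mp h4) b hb).symm

theorem self_mem_nc (x : N) : x ∈ Subgroup.normalClosure ({x} : Set N) :=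
  Subgroup.subset_normalClosure rfl

theorem conj_mem_nc {x y : N} (h : y ∈ Subgroup.normalClosure ({x} : Set N)) (g : N) :
    g⁻¹ * y * g ∈ Subgroup.normalClosure ({x} : Set N) := by
  have := (Subgroup.normalClosure_normal (s := ({x} : Set N))).conj_mem y h g⁻¹
  simpa using this

theorem com_mem_left (x y : N) : com x y ∈ Subgroup.normalClosure ({x} : Set N) := by
  have h := Subgroup.mul_mem _ (Subgroup.inv_mem _ (self_mem_nc x)) (conj_mem_nc (self_mem_nc x) y)
  have e : x⁻¹ * (y⁻¹ * x * y) = com x y := by unfold com; group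
  rwa [e] at h

theorem com_mem_right (x y : N) : com x y ∈ Subgroup.normalClosure ({y} : Set N) := by
  have h := Subgroup.mul_mem _ (conj_mem_nc (Subgroup.inv_mem _ (self_mem_nc y)) x) (self_mem_nc y)
  have e : x⁻¹ * y⁻¹ * x * y = com x y := rfl
  rw [← e]
  exact h

theorem com_mem_of_mem {x y : N} (h : y ∈ Subgroup.normalClosure ({x} : Set N)) (c : N) :
    com y c ∈ Subgroup.normalClosure ({x} : Set N) := by
  have h' := Subgroup.mul_mem _ (Subgroup.inv_mem _ h) (conj_mem_nc h c)
  have e : y⁻¹ * (c⁻¹ * y * c) = com y c := by unfold com; group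
  rwa [e] at h'

/-- `[z,y,x] [x,y,z] = 1`. -/
theorem T_swap13 (hE : ∀ x g : N, x * (g⁻¹ * x * g) = (g⁻¹ * x * g) * x) (x y z : N) :
    com (com z y) x * com (com x y) z = 1 := by
  set q := com z y with hq
  set u := com x y with hu
  set r := com q x with hr
  set v := com u z with hv
  have hux : u * x = x * u :=
    nc_comm hE x u (com_mem_left x y) x (self_mem_nc x)
  have hrz : r * z = z * r :=
    nc_comm hE z r (com_mem_of_mem (com_mem_left z y) x) z (self_mem_nc z)
  have hqz : q * z = z * q :=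
    nc_comm hE z q (com_mem_left z y) z (self_mem_nc z)
  have hvu : v * u = u * v :=
    nc_comm hE u v (com_mem_left u z) u (self_mem_nc u)
  -- `z x` commutes with `[z x, y]`
  have hcom : com (z * x) y * (z * x) = (z * x) * com (z * x) y :=
    nc_comm hE (z * x) _ (com_mem_left (z * x) y) _ (self_mem_nc _)
  have he : com (z * x) y = q * r * u := by
    rw [hr, hq, hu]; unfold com; group
  rw [he] at hcom
  -- conjugate
  have h1 : x * (q * r * u) * x⁻¹ = q * u := by
    have e1 : q * r = x⁻¹ * q * x := by rw [hr]; unfold com; group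
    rw [e1]
    calc x * (x⁻¹ * q * x * u) * x⁻¹ = q * (x * u) * x⁻¹ := by group
      _ = q * (u * x) * x⁻¹ := by rw [hux]
      _ = q * u := by group
  have h2 : z⁻¹ * (q * r * u) * z = q * r * (u * v) := by
    have e1 : z⁻¹ * u * z = u * v := by rw [hv]; unfold com; group
    have e2 : z⁻¹ * q * z = q := by rw [mul_assoc, hqz]; group
    have e3 : z⁻¹ * r * z = r := by rw [mul_assoc, hrz]; group
    calc z⁻¹ * (q * r * u) * z = (z⁻¹ * q * z) * (z⁻¹ * r * z) * (z⁻¹ * u * z) := by group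
      _ = q * r * (u * v) := by rw [e1, e2, e3]
  have h3 : x * (q * r * u) * x⁻¹ = z⁻¹ * (q * r * u) * z := by
    have : (q * r * u) = (z * x) * (q * r * u) * (z * x)⁻¹ := by
      rw [← hcom]; group
    calc x * (q * r * u) * x⁻¹ = z⁻¹ * ((z * x) * (q * r * u) * (z * x)⁻¹) * z := by group
      _ = z⁻¹ * (q * r * u) * z := by rw [← this]
  rw [h1, h2] at h3
  have h4 : u = r * (u * v) := by
    have : q * u = q * (r * (u * v)) := by rw [h3]; group
    exact mul_left_cancel this
  have h5 : u = r * v * u := by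
    rw [mul_assoc, hvu]; exact h4
  have h6 : r * v * u = 1 * u := by rw [← h5, one_mul]
  exact mul_right_cancel h6

/-- `[y,x,z] [x,y,z] = 1`. -/
theorem T_swap12 (hE : ∀ x g : N, x * (g⁻¹ * x * g) = (g⁻¹ * x * g) * x) (x y z : N) :
    com (com y x) z * com (com x y) z = 1 := by
  have e : com y x = (com x y)⁻¹ := by unfold com; group
  rw [e]
  set u := com x y
  have h := hE u z
  set w := z⁻¹ * u * z with hw
  have hc : Commute u w := h
  have e1 : u * w⁻¹ = w⁻¹ * u := (hc.inv_right).eq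
  calc com u⁻¹ z * com u z = u * w⁻¹ * u⁻¹ * w := by rw [hw]; unfold com; group
    _ = w⁻¹ * u * u⁻¹ * w := by rw [e1]
    _ = 1 := by group

/-- In a `2`-Engel group, `[x,y,z]^3 = 1`. -/
theorem T_cube (hE : ∀ x g : N, x * (g⁻¹ * x * g) = (g⁻¹ * x * g) * x) (x y z : N) :
    (com (com x y) z) ^ 3 = 1 := by
  have hHW : ∀ a b c : N, b⁻¹ * com (com a b⁻¹) c * b * (c⁻¹ * com (com b c⁻¹) a * c) *
      (a⁻¹ * com (com c a⁻¹) b * a) = 1 := by
    intro a b c; unfold com; group
  have hinv : ∀ a b c : N, com (com a b⁻¹) c = (com (com a b) c)⁻¹ := by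
    intro a b c
    have h1 : com a b⁻¹ = (com a b)⁻¹ := by
      have hcb : com a b * b = b * com a b :=
        nc_comm hE b _ (com_mem_right a b) b (self_mem_nc b)
      have h2 : com a b⁻¹ = b * (com a b)⁻¹ * b⁻¹ := by unfold com; group
      rw [h2]
      have h3 : b * (com a b)⁻¹ = (com a b)⁻¹ * b := by
        have : Commute (com a b) b := hcb
        exact (this.inv_left.eq).symm
      rw [h3]; group
    rw [h1]
    have h4 := T_swap12 hE a b c
    have e : com b a = (com a b)⁻¹ := by unfold com; group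
    rw [e] at h4
    exact eq_inv_of_mul_eq_one_left h4
  have hcy : ∀ a b c : N, com (com b c) a = com (com a b) c := by
    intro a b c
    have h1 := T_swap12 hE c b a
    have h2 := T_swap13 hE a b c
    have h3 : com (com b c) a = (com (com c b) a)⁻¹ := eq_inv_of_mul_eq_one_left h1
    have h4 : com (com c b) a = (com (com a b) c)⁻¹ := eq_inv_of_mul_eq_one_left h2
    rw [h3, h4, inv_inv]
  have hcomb : ∀ a b c : N, b⁻¹ * (com (com a b) c)⁻¹ * b = (com (com a b) c)⁻¹ := by
    intro a b c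
    have hmem : com (com a b) c ∈ Subgroup.normalClosure ({b} : Set N) :=
      com_mem_of_mem (com_mem_right a b) c
    have hc : Commute (com (com a b) c) b := nc_comm hE b _ hmem b (self_mem_nc b)
    have h3 : (com (com a b) c)⁻¹ * b = b * (com (com a b) c)⁻¹ := hc.inv_left.eq
    rw [mul_assoc, h3]; group
  have h := hHW x y z
  rw [hinv x y z, hinv y z x, hinv z x y, hcomb x y z, hcomb y z x, hcomb z x y,
    hcy y z x, hcy x y z] at h
  set T := com (com x y) z
  have h5 : (T⁻¹ * T⁻¹ * T⁻¹)⁻¹ = 1 := by rw [h, inv_one]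
  have h6 : (T⁻¹ * T⁻¹ * T⁻¹)⁻¹ = T ^ 3 := by group
  rw [← h6, h5]

theorem comm_s_self (s : N ≃* N) (hF : ∀ x : N, x * s x * s (s x) = 1) (x : N) :
    x * s x = s x * x := by
  have ha := hF x
  have hb := hF x⁻¹
  simp only [map_inv] at hb
  have e1 : s (s x) = (x * s x)⁻¹ := eq_inv_of_mul_eq_one_right ha
  have e2 : (s (s x))⁻¹ = (x⁻¹ * (s x)⁻¹)⁻¹ := eq_inv_of_mul_eq_one_right hb
  rw [e1, inv_inv, mul_inv_rev, inv_inv, inv_inv] at e2
  exact e2

/-- A fixed-point-free automorphism: commuting conjugates. -/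
theorem comm_s_conj [Finite N] (s : N ≃* N) (hF : ∀ x : N, x * s x * s (s x) = 1)
    (hfp : ∀ x : N, s x = x → x = 1) (z c : N) :
    z * (c * s z * c⁻¹) = (c * s z * c⁻¹) * z := by
  have hinj : Function.Injective (fun x : N => x⁻¹ * s x) := by
    intro x y hxy
    have h1 : x⁻¹ * s x = y⁻¹ * s y := hxy
    have h2 : s (y * x⁻¹) = y * x⁻¹ := by
      rw [map_mul, map_inv]
      have : y * (x⁻¹ * s x) * (s x)⁻¹ = y * (y⁻¹ * s y) * (s x)⁻¹ := by rw [h1]
      have e1 : y * (x⁻¹ * s x) * (s x)⁻¹ = y * x⁻¹ := by group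
      have e2 : y * (y⁻¹ * s y) * (s x)⁻¹ = s y * (s x)⁻¹ := by group
      rw [e1, e2] at this
      exact this.symm
    have h3 := hfp _ h2
    have : y = x := mul_inv_eq_one.mp h3
    exact this.symm
  obtain ⟨x, rfl⟩ := (Finite.injective_iff_surjective.mp hinj) c
  have h1 := comm_s_self s hF (x * z * x⁻¹)
  simp only [map_mul, map_inv] at h1
  calc z * (x⁻¹ * s x * s z * (x⁻¹ * s x)⁻¹)
      = x⁻¹ * ((x * z * x⁻¹) * (s x * s z * (s x)⁻¹)) * x := by group
    _ = x⁻¹ * ((s x * s z * (s x)⁻¹) * (x * z * x⁻¹)) * x := by rw [h1]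
    _ = (x⁻¹ * s x * s z * (x⁻¹ * s x)⁻¹) * z := by group

theorem s_cube (s : N ≃* N) (hF : ∀ x : N, x * s x * s (s x) = 1) (x : N) : s (s (s x)) = x := by
  have h1 := hF x
  have h2 := hF (s x)
  have e1 : s x * s (s x) = x⁻¹ := by
    have : x * (s x * s (s x)) = 1 := by rw [← mul_assoc]; exact h1
    exact eq_inv_of_mul_eq_one_right this
  rw [e1] at h2
  have := eq_inv_of_mul_eq_one_right h2
  rw [this, inv_inv]

theorem engel_of_fpf3 [Finite N] (s : N ≃* N) (hF : ∀ x : N, x * s x * s (s x) = 1)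
    (hexp : ∀ x : N, x ^ 4 = 1) (x g : N) : x * (g⁻¹ * x * g) = (g⁻¹ * x * g) * x := by
  have hfp : ∀ x : N, s x = x → x = 1 := by
    intro x hx
    have h1 := hF x
    rw [hx, hx] at h1
    have h2 := hexp x
    have h3 : x ^ 3 = 1 := by rw [pow_succ, pow_two]; exact h1
    calc x = x ^ 4 * (x ^ 3)⁻¹ := by group
      _ = 1 := by rw [h2, h3]; simp
  have hcube := s_cube s hF
  let s' : N ≃* N := s.trans s
  have hs' : ∀ y, s' y = s (s y) := fun y => rfl
  have hF' : ∀ y : N, y * s' y * s' (s' y) = 1 := by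
    intro y
    simp only [hs']
    rw [hcube, mul_assoc, ← comm_s_self s hF (s y), ← mul_assoc]
    exact hF y
  have hfp' : ∀ y : N, s' y = y → y = 1 := by
    intro y hy
    rw [hs'] at hy
    have h1 : s (s (s y)) = s y := by rw [hy]
    rw [hcube] at h1
    exact hfp y h1.symm
  have ha := comm_s_conj s hF hfp x g⁻¹
  have hb := comm_s_conj s' hF' hfp' x g⁻¹
  rw [hs'] at hb
  simp only [inv_inv] at ha hb
  -- `g⁻¹ x⁻¹ g` commutes with `x`
  have hc : Commute x (g⁻¹ * s x * g) := ha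
  have hd : Commute x (g⁻¹ * s (s x) * g) := hb
  have he : g⁻¹ * x⁻¹ * g = (g⁻¹ * s x * g) * (g⁻¹ * s (s x) * g) := by
    have e1 : s x * s (s x) = x⁻¹ := by
      have h1 := hF x
      have : x * (s x * s (s x)) = 1 := by rw [← mul_assoc]; exact h1
      exact eq_inv_of_mul_eq_one_right this
    rw [← e1]; group
  have hf : Commute x (g⁻¹ * x⁻¹ * g) := by
    rw [he]; exact hc.mul_right hd
  have hg : Commute x (g⁻¹ * x * g) := by
    have e : g⁻¹ * x * g = (g⁻¹ * x⁻¹ * g)⁻¹ := by group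
    rw [e]; exact hf.inv_right
  exact hg

theorem class_two_of_fpf3 [Finite N] (s : N ≃* N) (hF : ∀ x : N, x * s x * s (s x) = 1)
    (hexp : ∀ x : N, x ^ 4 = 1) (x y z : N) : com (com x y) z = 1 := by
  have h3 := T_cube (engel_of_fpf3 s hF hexp) x y z
  have h4 := hexp (com (com x y) z)
  set T := com (com x y) z
  calc T = T ^ 4 * (T ^ 3)⁻¹ := by group
    _ = 1 := by rw [h3, h4]; simp

theorem central_com (hT : ∀ x y z : N, com (com x y) z = 1) (x y z : N) :
    com x y * z = z * com x y := by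
  have h := hT x y z
  unfold com at h ⊢
  set u := x⁻¹ * y⁻¹ * x * y
  have h2 : u⁻¹ * z⁻¹ * u * z = 1 := h
  calc u * z = (z * u) * (u⁻¹ * z⁻¹ * u * z) := by group
    _ = z * u := by rw [h2, mul_one]

theorem ac_key {Z : Type*} [CommGroup Z] (a b c d e f g h i j : Z) :
    (a * b * c * d) * (e * f * g) * (h * i * j) = e * h * a * (f * i * d) * (g * c * (b * j)) := by
  simp only [mul_comm, mul_left_comm, mul_assoc]

/-- Final algebra in the centre. -/
theorem central_algebra {Z : Type*} [CommGroup Z] (σ : Z →* Z) (w T a b : Z)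
    (E0 : T * a * b * w = 1) (E1 : σ T * σ (σ a) * σ (σ b) * w = 1)
    (E2 : σ (σ T) * σ a * σ b * w = 1) (fw : w * σ w * σ (σ w) = 1) : w ^ 3 = 1 := by
  have h1 := congrArg σ E0
  simp only [map_mul, map_one] at h1
  have h2 := congrArg σ h1
  simp only [map_mul, map_one] at h2
  generalize σ (σ T) = ssT at *
  generalize σ T = sT at *
  generalize σ (σ a) = ssa at *
  generalize σ a = sa at *
  generalize σ (σ b) = ssb at *
  generalize σ b = sb at *
  generalize σ (σ w) = ssw at *
  generalize σ w = sw at *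
  have eqA : sT * w = ssT * ssw := by
    have : (sT * w) * (ssa * ssb) = (ssT * ssw) * (ssa * ssb) := by
      calc (sT * w) * (ssa * ssb) = sT * ssa * ssb * w := by
            simp only [mul_comm, mul_left_comm, mul_assoc]
        _ = 1 := E1
        _ = ssT * ssa * ssb * ssw := h2.symm
        _ = (ssT * ssw) * (ssa * ssb) := by
            simp only [mul_comm, mul_left_comm, mul_assoc]
    exact mul_right_cancel this
  have eqB : ssT * w = sT * sw := by
    have : (ssT * w) * (sa * sb) = (sT * sw) * (sa * sb) := by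
      calc (ssT * w) * (sa * sb) = ssT * sa * sb * w := by
            simp only [mul_comm, mul_left_comm, mul_assoc]
        _ = 1 := E2
        _ = sT * sa * sb * sw := h1.symm
        _ = (sT * sw) * (sa * sb) := by
            simp only [mul_comm, mul_left_comm, mul_assoc]
    exact mul_right_cancel this
  have eqC : w * w = ssw * sw := by
    have : (w * w) * (sT * ssT) = (ssw * sw) * (sT * ssT) := by
      calc (w * w) * (sT * ssT) = (sT * w) * (ssT * w) := by
            simp only [mul_comm, mul_left_comm, mul_assoc]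
        _ = (ssT * ssw) * (sT * sw) := by rw [eqA, eqB]
        _ = (ssw * sw) * (sT * ssT) := by
            simp only [mul_comm, mul_left_comm, mul_assoc]
    exact mul_right_cancel this
  calc w ^ 3 = w * w * w := by rw [pow_succ, pow_two]
    _ = ssw * sw * w := by rw [eqC]
    _ = w * sw * ssw := by simp only [mul_comm, mul_left_comm, mul_assoc]
    _ = 1 := fw

@[reducible] def cenCG : CommGroup (Subgroup.center N) :=
  { (inferInstance : Group (Subgroup.center N)) with
    mul_comm := fun a b => Subtype.ext (Subgroup.mem_center_iff.mp b.2 (a : N)) }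

attribute [local instance] cenCG

/-- The induced map on the centre. -/
def cenMap (f : N ≃* N) : Subgroup.center N →* Subgroup.center N where
  toFun z := ⟨f z, by
    rw [Subgroup.mem_center_iff]
    intro g
    have h := (Subgroup.mem_center_iff.mp z.2) (f.symm g)
    have h2 := congrArg f h
    simpa using h2⟩
  map_one' := by ext; simp
  map_mul' a b := by ext; simp

theorem abelian_of_S3 [Finite N] (s t : N ≃* N) (hF : ∀ x : N, x * s x * s (s x) = 1)
    (hexp : ∀ x : N, x ^ 4 = 1)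
    (h0 : ∀ x : N, (t x * x) ^ 2 = 1) (h1 : ∀ x : N, (s (t x) * x) ^ 2 = 1)
    (h2 : ∀ x : N, (s (s (t x)) * x) ^ 2 = 1) :
    (∀ x y : N, x * y = y * x) ∧ ∀ x : N, x ^ 2 = 1 := by
  have hT := class_two_of_fpf3 s hF hexp
  have hcen := central_com hT
  have hsqcomm : ∀ x : N, x ^ 2 ∈ commutator N := by
    intro x
    let φ : N →* Abelianization N := Abelianization.of
    have e0 : φ (t x) ^ 2 * φ x ^ 2 = 1 := by
      have := congrArg φ (h0 x)
      simpa [map_pow, map_mul, mul_pow] using this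
    have e1 : φ (s (t x)) ^ 2 * φ x ^ 2 = 1 := by
      have := congrArg φ (h1 x)
      simpa [map_pow, map_mul, mul_pow] using this
    have e2 : φ (s (s (t x))) ^ 2 * φ x ^ 2 = 1 := by
      have := congrArg φ (h2 x)
      simpa [map_pow, map_mul, mul_pow] using this
    have e3 : φ (t x) * φ (s (t x)) * φ (s (s (t x))) = 1 := by
      have := congrArg φ (hF (t x))
      simpa [map_mul] using this
    have e4 : φ x ^ 4 = 1 := by
      have := congrArg φ (hexp x)
      simpa [map_pow] using this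
    set a := φ (t x)
    set b := φ (s (t x))
    set c := φ (s (s (t x)))
    set d := φ x
    have e5 : d ^ 6 = 1 := by
      have : (a ^ 2 * d ^ 2) * (b ^ 2 * d ^ 2) * (c ^ 2 * d ^ 2) = (a * b * c) ^ 2 * d ^ 6 := by
        have e6 : d ^ 6 = d ^ 2 * d ^ 2 * d ^ 2 := by rw [← pow_add, ← pow_add]
        rw [mul_pow, mul_pow, e6]
        simp only [mul_comm, mul_left_comm, mul_assoc]
      rw [e0, e1, e2, e3] at this
      simpa using this.symm
    have e6 : d ^ 2 = 1 := by
      have : d ^ 6 = d ^ 4 * d ^ 2 := by rw [← pow_add]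
      rw [e5, e4, one_mul] at this
      exact this.symm
    have e7 : φ (x ^ 2) = 1 := by rw [map_pow]; exact e6
    exact (QuotientGroup.eq_one_iff _).mp e7
  have hcomcen : commutator N ≤ Subgroup.center N := by
    rw [commutator_def, Subgroup.commutator_le]
    intro a _ b _
    rw [Subgroup.mem_center_iff]
    intro z
    have := hcen a⁻¹ b⁻¹ z
    have e : com a⁻¹ b⁻¹ = ⁅a, b⁆ := by
      unfold com; rw [commutatorElement_def]; group
    rw [e] at this
    exact this.symm
  have hsqcen : ∀ (x z : N), x ^ 2 * z = z * x ^ 2 := by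
    intro x z
    exact ((Subgroup.mem_center_iff.mp (hcomcen (hsqcomm x))) z).symm
  -- the commutator map in the centre
  let cc : N → N → Subgroup.center N := fun x y =>
    ⟨com x y, by rw [Subgroup.mem_center_iff]; intro z; exact (hcen x y z).symm⟩
  have cc_val : ∀ x y, (cc x y : N) = com x y := fun _ _ => rfl
  have cc_mul_left : ∀ x y z, cc (x * y) z = cc x z * cc y z := by
    intro x y z
    apply Subtype.ext
    show com (x * y) z = com x z * com y z
    have e : com (x * y) z = y⁻¹ * com x z * y * com y z := by unfold com; group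
    rw [e, mul_assoc y⁻¹, hcen x z y]
    group
  have cc_mul_right : ∀ x y z, cc x (y * z) = cc x y * cc x z := by
    intro x y z
    apply Subtype.ext
    show com x (y * z) = com x y * com x z
    have e : com x (y * z) = com x z * (z⁻¹ * com x y * z) := by unfold com; group
    rw [e, mul_assoc z⁻¹, hcen x y z]
    have : z⁻¹ * (z * com x y) = com x y := by group
    rw [this]
    exact (hcen x y (com x z)).symm
  have cc_self_sq : ∀ x y, cc x y * cc x y = 1 := by
    intro x y
    rw [← cc_mul_left]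
    apply Subtype.ext
    show com (x * x) y = 1
    have e : x * x = x ^ 2 := (pow_two x).symm
    rw [e]
    unfold com
    have h := hsqcen x y
    have : (x ^ 2)⁻¹ * y⁻¹ * x ^ 2 * y = (x ^ 2)⁻¹ * y⁻¹ * (x ^ 2 * y) := by group
    rw [this, h]; group
  have cc_symm : ∀ x y, cc y x = cc x y := by
    intro x y
    have h1 : cc y x * cc x y = 1 := by
      apply Subtype.ext
      show com y x * com x y = 1
      unfold com; group
    have h2 := cc_self_sq x y
    exact mul_right_cancel (h1.trans h2.symm)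
  have cc_self : ∀ x, cc x x = 1 := by
    intro x
    apply Subtype.ext
    show com x x = 1
    unfold com; group
  have cc_map : ∀ (f : N ≃* N) x y, cc (f x) (f y) = cenMap f (cc x y) := by
    intro f x y
    apply Subtype.ext
    show com (f x) (f y) = f (com x y)
    unfold com
    simp
  -- squares
  let qq : N → Subgroup.center N := fun x =>
    ⟨x ^ 2, by rw [Subgroup.mem_center_iff]; intro z; exact (hsqcen x z).symm⟩
  have qq_mul : ∀ x y, qq (x * y) = qq x * qq y * cc y x := by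
    intro x y
    apply Subtype.ext
    show (x * y) ^ 2 = x ^ 2 * y ^ 2 * com y x
    have e1 : y * x = x * y * com y x := by unfold com; group
    calc (x * y) ^ 2 = x * (y * x) * y := by rw [pow_two]; group
      _ = x * (x * y * com y x) * y := by rw [← e1]
      _ = x * (x * y * (com y x * y)) := by group
      _ = x * (x * y * (y * com y x)) := by rw [hcen y x y]
      _ = x ^ 2 * y ^ 2 * com y x := by rw [pow_two, pow_two]; group
  -- the key bilinear identity
  have keyE : ∀ (f : N ≃* N), (∀ x : N, (f x * x) ^ 2 = 1) → ∀ x y : N,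
      cenMap f (cc x y) * cc (f x) y * cc x (f y) * cc x y = 1 := by
    intro f hf x y
    have q1 : qq (f x * x) = 1 := Subtype.ext (hf x)
    have q2 : qq (f y * y) = 1 := Subtype.ext (hf y)
    have q3 : qq (f (x * y) * (x * y)) = 1 := Subtype.ext (hf (x * y))
    rw [map_mul] at q3
    rw [qq_mul] at q1 q2 q3
    rw [qq_mul, qq_mul, cc_mul_left, cc_mul_right, cc_mul_right] at q3
    have q1' : qq (f x) * qq x * cc x (f x) = 1 := q1
    have q2' : qq (f y) * qq y * cc y (f y) = 1 := q2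
    rw [← cc_map]
    have e : (cc (f x) (f y) * cc (f x) y * cc x (f y) * cc x y) *
        (qq (f x) * qq x * cc x (f x)) * (qq (f y) * qq y * cc y (f y)) =
        qq (f x) * qq (f y) * cc (f y) (f x) * (qq x * qq y * cc y x) *
          (cc x (f x) * cc x (f y) * (cc y (f x) * cc y (f y))) := by
      rw [cc_symm (f y) (f x), cc_symm y x, cc_symm (f x) y]
      exact ac_key _ _ _ _ _ _ _ _ _ _
    rw [q1', q2', q3] at e
    simpa using e
  -- the relations with `s`
  have hcube := s_cube s hF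
  have P2 : ∀ x y, cc x (s y) = cc y (s x) := by
    intro x y
    have e1 : cc (x * y) (s (x * y)) = 1 := by
      apply Subtype.ext
      show com (x * y) (s (x * y)) = 1
      have := comm_s_self s hF (x * y)
      unfold com
      calc (x * y)⁻¹ * (s (x * y))⁻¹ * (x * y) * s (x * y)
          = (x * y)⁻¹ * (s (x * y))⁻¹ * ((x * y) * s (x * y)) := by group
        _ = (x * y)⁻¹ * (s (x * y))⁻¹ * (s (x * y) * (x * y)) := by rw [this]
        _ = 1 := by group
    have e2 : ∀ z, cc z (s z) = 1 := by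
      intro z
      apply Subtype.ext
      show com z (s z) = 1
      have := comm_s_self s hF z
      unfold com
      calc z⁻¹ * (s z)⁻¹ * z * s z = z⁻¹ * (s z)⁻¹ * (z * s z) := by group
        _ = z⁻¹ * (s z)⁻¹ * (s z * z) := by rw [this]
        _ = 1 := by group
    rw [map_mul, cc_mul_left, cc_mul_right, cc_mul_right, e2 x, e2 y] at e1
    have e3 : cc x (s y) * cc y (s x) = 1 := by simpa using e1
    have e4 := cc_self_sq y (s x)
    exact mul_right_cancel (e3.trans e4.symm)
  have P3 : ∀ x y, cc (s x) y = cc x (s y) := by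
    intro x y
    rw [P2 x y, cc_symm]
  have P4 : ∀ x y, cc (s (s x)) y = cenMap s (cc x y) := by
    intro x y
    rw [P3, ← cc_map]
  have P5 : ∀ x y, cc (s x) y = cenMap s (cenMap s (cc x y)) := by
    intro x y
    have e1 : cc (s x) y = cc (s (s (s (s x)))) y := by rw [hcube]
    rw [e1, P4, P4]
  have P6 : ∀ x y, cc x (s y) = cenMap s (cenMap s (cc x y)) := by
    intro x y
    rw [← P3, P5]
  have P7 : ∀ x y, cc x (s (s y)) = cenMap s (cc x y) := by
    intro x y
    rw [← P3, ← cc_map]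
  have hfZ : ∀ z : Subgroup.center N, z * cenMap s z * cenMap s (cenMap s z) = 1 := by
    intro z
    apply Subtype.ext
    exact hF z
  let t1 : N ≃* N := t.trans s
  let t2 : N ≃* N := t1.trans s
  have ht1 : ∀ x, t1 x = s (t x) := fun _ => rfl
  have ht2 : ∀ x, t2 x = s (s (t x)) := fun _ => rfl
  have hab : ∀ x y : N, cc x y = 1 := by
    intro x y
    have E0 := keyE t h0 x y
    have E1 := keyE t1 h1 x y
    have E2 := keyE t2 h2 x y
    have e1 : cc (t1 x) y = cenMap s (cenMap s (cc (t x) y)) := P5 _ _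
    have e2 : cc x (t1 y) = cenMap s (cenMap s (cc x (t y))) := P6 _ _
    have e3 : cenMap t1 (cc x y) = cenMap s (cenMap t (cc x y)) := rfl
    rw [e1, e2, e3] at E1
    have e4 : cc (t2 x) y = cenMap s (cc (t x) y) := P4 _ _
    have e5 : cc x (t2 y) = cenMap s (cc x (t y)) := P7 _ _
    have e6 : cenMap t2 (cc x y) = cenMap s (cenMap s (cenMap t (cc x y))) := rfl
    rw [e4, e5, e6] at E2
    have h3 := central_algebra (cenMap s) (cc x y) _ _ _ E0 E1 E2 (hfZ _)
    have h4 := cc_self_sq x y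
    calc cc x y = cc x y ^ 3 * (cc x y * cc x y)⁻¹ := by rw [pow_succ, pow_two]; group
      _ = 1 := by rw [h3, h4]; simp
  have hcomm : ∀ x y : N, x * y = y * x := by
    intro x y
    have h3 : com x y = 1 := congrArg Subtype.val (hab x y)
    unfold com at h3
    calc x * y = (y * x) * (x⁻¹ * y⁻¹ * x * y) := by group
      _ = y * x := by rw [h3, mul_one]
  refine ⟨hcomm, fun x => ?_⟩
  have hbot : commutator N ≤ ⊥ := by
    rw [commutator_def, Subgroup.commutator_le]
    intro a _ b _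
    rw [Subgroup.mem_bot, commutatorElement_def, hcomm a b]
    group
  exact (Subgroup.mem_bot.mp (hbot (hsqcomm x)))

end Engel

section Main

variable {G : Type*} [Group G] [Finite G]

theorem ord_le (h : Set.range (orderOf : G → ℕ) = {k : ℕ | 1 ≤ k ∧ k ≤ 4}) (g : G) :
    orderOf g = 1 ∨ orderOf g = 2 ∨ orderOf g = 3 ∨ orderOf g = 4 := by
  have : orderOf g ∈ {k : ℕ | 1 ≤ k ∧ k ≤ 4} := h ▸ Set.mem_range_self g
  obtain ⟨h1, h2⟩ := this
  omega

theorem exists_ord (h : Set.range (orderOf : G → ℕ) = {k : ℕ | 1 ≤ k ∧ k ≤ 4}) (k : ℕ)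
    (h1 : 1 ≤ k) (h2 : k ≤ 4) : ∃ g : G, orderOf g = k := by
  have : k ∈ Set.range (orderOf : G → ℕ) := by rw [h]; exact ⟨h1, h2⟩
  exact this

theorem no_six (h : Set.range (orderOf : G → ℕ) = {k : ℕ | 1 ≤ k ∧ k ≤ 4}) (x y : G)
    (hx : orderOf x = 2) (hy : orderOf y = 3) : x * y ≠ y * x := by
  intro hc
  have h6 : orderOf (x * y) = 2 * 3 := by
    rw [← hx, ← hy]
    exact Commute.orderOf_mul_eq_mul_orderOf_of_coprime hc (by rw [hx, hy]; norm_num)
  rcases ord_le h (x * y) with h1 | h1 | h1 | h1 <;> omega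

theorem no_six_q (h : Set.range (orderOf : G → ℕ) = {k : ℕ | 1 ≤ k ∧ k ≤ 4}) {Q : Type*} [Group Q]
    (f : G →* Q) (hf : Function.Surjective f) (x y : Q)
    (hx : orderOf x = 2) (hy : orderOf y = 3) : x * y ≠ y * x := by
  intro hc
  have h6 : orderOf (x * y) = 2 * 3 := by
    rw [← hx, ← hy]
    exact Commute.orderOf_mul_eq_mul_orderOf_of_coprime hc (by rw [hx, hy]; norm_num)
  obtain ⟨g, hg⟩ := hf (x * y)
  have h7 : orderOf (f g) ∣ orderOf g := orderOf_map_dvd f g
  rw [hg, h6] at h7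
  rcases ord_le h g with h1 | h1 | h1 | h1 <;> rw [h1] at h7 <;> omega

theorem case_three (h : Set.range (orderOf : G → ℕ) = {k : ℕ | 1 ≤ k ∧ k ≤ 4}) (N : Subgroup G)
    [hn : N.Normal] (hp : IsPGroup 3 N) (hmax : ∀ C : Subgroup G, C.Normal → IsPGroup 3 C → C ≤ N)
    (hb : N ≠ ⊥) :
    Cfsg.IsElementaryAbelian 3 N ∧ ((IsCyclic (G ⧸ N) ∧ N.index = 4) ∨
      Nonempty (G ⧸ N ≃* QuaternionGroup 2)) := by
  haveI : Fact (Nat.Prime 3) := ⟨by norm_num⟩
  haveI : Fact (Nat.Prime 2) := ⟨Nat.prime_two⟩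
  have hN3 : ∀ x ∈ N, x ^ 3 = 1 := by
    intro x hx
    obtain ⟨k, hk⟩ := (IsPGroup.iff_orderOf.mp hp) ⟨x, hx⟩
    rw [Subgroup.orderOf_mk] at hk
    have h3 : 3 ^ k ≤ 4 := by
      rcases ord_le h x with h1 | h1 | h1 | h1 <;> omega
    have hk1 : k ≤ 1 := by
      by_contra hlt
      have : 3 ^ 2 ≤ 3 ^ k := Nat.pow_le_pow_right (by norm_num) (by omega)
      omega
    have : orderOf x ∣ 3 := by
      rw [hk]
      exact pow_dvd_pow 3 hk1 |>.trans (by norm_num)
    exact orderOf_dvd_iff_pow_eq_one.mp this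
  have hfix : ∀ z : G, orderOf z = 2 → ∀ x ∈ N, z * x = x * z → x = 1 := by
    intro z hz x hx hc
    by_contra hne
    exact no_six h z x hz (orderOf_eq_prime (hN3 x hx) hne) hc
  have hinv : ∀ z : G, orderOf z = 2 → ∀ x ∈ N, z * x * z⁻¹ = x⁻¹ := by
    intro z hz x hx
    have hz2 : z ^ 2 = 1 := by rw [← hz]; exact pow_orderOf_eq_one z
    have hzi : z⁻¹ = z := by
      have : z * z = 1 := by rw [← pow_two]; exact hz2
      exact inv_eq_of_mul_eq_one_left this
    let f : N → N := fun n => ⟨(n : G)⁻¹ * (z * n * z⁻¹), N.mul_mem (N.inv_mem n.2) (hn.conj_mem _ n.2 z)⟩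
    have hinj : Function.Injective f := by
      intro a b hab
      have h1 : (a : G)⁻¹ * (z * a * z⁻¹) = (b : G)⁻¹ * (z * b * z⁻¹) := congrArg Subtype.val hab
      have h2 : (b : G) * (a : G)⁻¹ ∈ N := N.mul_mem b.2 (N.inv_mem a.2)
      have h3 : z * ((b : G) * (a : G)⁻¹) = ((b : G) * (a : G)⁻¹) * z := by
        have h4 : z * (a : G) * z⁻¹ = (a : G) * ((b : G)⁻¹ * (z * b * z⁻¹)) := by
          rw [← h1]; group
        have h5 : z * ((b : G) * (a : G)⁻¹) * z⁻¹ = (b : G) * (a : G)⁻¹ := by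
          have e1 : z * ((b : G) * (a : G)⁻¹) * z⁻¹ = (z * b * z⁻¹) * (z * a * z⁻¹)⁻¹ := by group
          rw [e1, h4]; group
        calc z * ((b : G) * (a : G)⁻¹) = z * ((b : G) * (a : G)⁻¹) * z⁻¹ * z := by group
          _ = ((b : G) * (a : G)⁻¹) * z := by rw [h5]
      have h6 := hfix z hz _ h2 h3
      have h7 : (b : G) = a := mul_inv_eq_one.mp h6
      exact (Subtype.ext h7).symm
    obtain ⟨n, hn'⟩ := (Finite.injective_iff_surjective.mp hinj) ⟨x, hx⟩
    have h1 : (n : G)⁻¹ * (z * n * z⁻¹) = x := congrArg Subtype.val hn'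
    rw [← h1]
    calc z * ((n : G)⁻¹ * (z * n * z⁻¹)) * z⁻¹
        = (z * n * z⁻¹)⁻¹ * ((z * z) * n * (z * z)⁻¹) := by group
      _ = (z * n * z⁻¹)⁻¹ * n := by
        have : z * z = 1 := by rw [← pow_two]; exact hz2
        rw [this]; group
      _ = ((n : G)⁻¹ * (z * n * z⁻¹))⁻¹ := by group
  obtain ⟨z, hz⟩ := exists_ord h 2 (by norm_num) (by norm_num)
  have hcomm : ∀ x ∈ N, ∀ y ∈ N, x * y = y * x := by
    intro x hx y hy
    have h1 := hinv z hz (x * y) (N.mul_mem hx hy)
    have h2 : z * (x * y) * z⁻¹ = (z * x * z⁻¹) * (z * y * z⁻¹) := by group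
    rw [h2, hinv z hz x hx, hinv z hz y hy, mul_inv_rev] at h1
    have h3 := congrArg (fun w => w⁻¹) h1
    have h4 : y * x = x * y := by simpa using h3
    exact h4.symm
  have hel : Cfsg.IsElementaryAbelian 3 N := by
    refine ⟨⟨⟨fun a b => Subtype.ext (hcomm a a.2 b b.2)⟩⟩, hN3⟩
  refine ⟨hel, ?_⟩
  -- the centralizer of `N` lies in `N`
  have hC : ∀ g : G, (∀ x ∈ N, g * x = x * g) → g ∈ N := by
    intro g hg
    have hCp : IsPGroup 3 (Subgroup.centralizer (N : Set G)) := by
      rw [IsPGroup.iff_orderOf]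
      intro c
      have hc : ∀ x ∈ N, (c : G) * x = x * c := by
        intro x hx
        exact ((Subgroup.mem_centralizer_iff.mp c.2) x hx).symm
      rw [← Subgroup.orderOf_coe]
      have hne : ∃ x ∈ N, x ≠ 1 := by
        by_contra hcon
        push_neg at hcon
        exact hb ((Subgroup.eq_bot_iff_forall N).mpr hcon)
      obtain ⟨x₀, hx₀, hx₀1⟩ := hne
      rcases ord_le h (c : G) with h1 | h1 | h1 | h1
      · exact ⟨0, by rw [h1]; rfl⟩
      · exact absurd (hfix c h1 x₀ hx₀ (hc x₀ hx₀)) hx₀1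
      · exact ⟨1, by rw [h1]; rfl⟩
      · exfalso
        have h2 : orderOf ((c : G) ^ 2) = 2 := by
          have := orderOf_pow_orderOf_div (x := (c : G)) (n := 2) (by omega) (by rw [h1]; norm_num)
          rw [h1] at this
          exact this
        apply hx₀1
        apply hfix _ h2 x₀ hx₀
        rw [pow_two, mul_assoc, hc x₀ hx₀, ← mul_assoc, hc x₀ hx₀, mul_assoc]
    have := hmax _ inferInstance hCp
    apply this
    rw [Subgroup.mem_centralizer_iff]
    intro x hx
    exact (hg x hx).symm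
  have hzz : ∀ z₁ z₂ : G, orderOf z₁ = 2 → orderOf z₂ = 2 → z₁ * z₂ ∈ N := by
    intro z₁ z₂ h1 h2
    apply hC
    intro x hx
    have e1 := hinv z₂ h2 x hx
    have e2 := hinv z₁ h1 x⁻¹ (N.inv_mem hx)
    rw [inv_inv] at e2
    calc z₁ * z₂ * x = z₁ * (z₂ * x * z₂⁻¹) * z₂ := by group
      _ = z₁ * x⁻¹ * z₂ := by rw [e1]
      _ = (z₁ * x⁻¹ * z₁⁻¹) * z₁ * z₂ := by group
      _ = x * (z₁ * z₂) := by rw [e2]; group
  -- involutions of the quotient
  have hlift : ∀ q : G ⧸ N, q ≠ 1 → q ^ 2 = 1 → ∃ g : G, orderOf g = 2 ∧ (g : G ⧸ N) = q := by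
    intro q hq hq2
    obtain ⟨g, rfl⟩ := QuotientGroup.mk_surjective q
    refine ⟨g, ?_, rfl⟩
    have hg2 : g ^ 2 ∈ N := by
      rw [← QuotientGroup.eq_one_iff, QuotientGroup.mk_pow]; exact hq2
    have hg1 : g ∉ N := fun hg => hq ((QuotientGroup.eq_one_iff g).mpr hg)
    rcases ord_le h g with h1 | h1 | h1 | h1
    · exfalso
      apply hg1
      rw [orderOf_eq_one_iff.mp h1]
      exact N.one_mem
    · exact h1
    · exfalso
      apply hg1
      have h3 : g ^ 3 = 1 := by rw [← h1]; exact pow_orderOf_eq_one g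
      have h4 : g = (g ^ 2)⁻¹ * g ^ 3 := by group
      rw [h4, h3, mul_one]
      exact N.inv_mem hg2
    · exfalso
      have h3 := hN3 _ hg2
      rw [← pow_mul] at h3
      have h4 := orderOf_dvd_of_pow_eq_one h3
      rw [h1] at h4
      omega
  have huniq : ∀ p q : G ⧸ N, p ≠ 1 → p ^ 2 = 1 → q ≠ 1 → q ^ 2 = 1 → p = q := by
    intro p q hp1 hp2 hq1 hq2
    obtain ⟨z₁, h1, rfl⟩ := hlift p hp1 hp2
    obtain ⟨z₂, h2, rfl⟩ := hlift q hq1 hq2
    have h3 : ((z₁ * z₂ : G) : G ⧸ N) = 1 := (QuotientGroup.eq_one_iff _).mpr (hzz z₁ z₂ h1 h2)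
    rw [QuotientGroup.mk_mul] at h3
    have h4 : (z₂ : G ⧸ N) * (z₂ : G ⧸ N) = 1 := by rw [← pow_two]; exact hq2
    calc (z₁ : G ⧸ N) = (z₁ : G ⧸ N) * ((z₂ : G ⧸ N) * (z₂ : G ⧸ N)) := by rw [h4, mul_one]
      _ = (z₁ : G ⧸ N) * (z₂ : G ⧸ N) * (z₂ : G ⧸ N) := by rw [mul_assoc]
      _ = (z₂ : G ⧸ N) := by rw [h3, one_mul]
  have hzq : (z : G ⧸ N) ≠ 1 := by
    intro hz1
    have h1 : z ∈ N := (QuotientGroup.eq_one_iff z).mp hz1
    have h2 := hN3 z h1
    have h3 := orderOf_dvd_of_pow_eq_one h2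
    rw [hz] at h3
    omega
  have hzq2 : (z : G ⧸ N) ^ 2 = 1 := by
    rw [← QuotientGroup.mk_pow, ← hz, pow_orderOf_eq_one]; rfl
  have hord4 : ∀ q : G ⧸ N, q ^ 4 = 1 := by
    intro q
    obtain ⟨g, rfl⟩ := QuotientGroup.mk_surjective q
    rcases ord_le h g with h1 | h1 | h1 | h1
    · rw [← QuotientGroup.mk_pow, orderOf_eq_one_iff.mp h1]; simp
    · have : g ^ 4 = 1 := by
        have h2 : g ^ 2 = 1 := by rw [← h1]; exact pow_orderOf_eq_one g
        calc g ^ 4 = (g ^ 2) ^ 2 := by rw [← pow_mul]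
          _ = 1 := by rw [h2, one_pow]
      rw [← QuotientGroup.mk_pow, this]; rfl
    · have h3 : g ^ 3 = 1 := by rw [← h1]; exact pow_orderOf_eq_one g
      by_cases hg1 : (g : G ⧸ N) = 1
      · rw [hg1, one_pow]
      · exfalso
        have hq3 : (g : G ⧸ N) ^ 3 = 1 := by rw [← QuotientGroup.mk_pow, h3]; rfl
        have h5 : orderOf (g : G ⧸ N) = 3 := orderOf_eq_prime hq3 hg1
        have h6 : ((g : G ⧸ N) * (z : G ⧸ N) * (g : G ⧸ N)⁻¹) = (z : G ⧸ N) := by
          apply huniq
          · intro h7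
            apply hzq
            have : (z : G ⧸ N) = (g : G ⧸ N)⁻¹ * ((g : G ⧸ N) * (z : G ⧸ N) * (g : G ⧸ N)⁻¹) * (g : G ⧸ N) := by group
            rw [this, h7]; simp
          · rw [conj_pow, hzq2]; simp
          · exact hzq
          · exact hzq2
        have h7 : (z : G ⧸ N) * (g : G ⧸ N) = (g : G ⧸ N) * (z : G ⧸ N) := by
          calc (z : G ⧸ N) * (g : G ⧸ N) = ((g : G ⧸ N) * (z : G ⧸ N) * (g : G ⧸ N)⁻¹) * (g : G ⧸ N) := by rw [h6]
            _ = (g : G ⧸ N) * (z : G ⧸ N) := by group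
        have hzo : orderOf (z : G ⧸ N) = 2 := orderOf_eq_prime hzq2 hzq
        exact no_six_q h (QuotientGroup.mk' N) (QuotientGroup.mk'_surjective N) _ _ hzo h5 h7
    · have : g ^ 4 = 1 := by rw [← h1]; exact pow_orderOf_eq_one g
      rw [← QuotientGroup.mk_pow, this]; rfl
  have hpg : IsPGroup 2 (G ⧸ N) := fun q => ⟨2, hord4 q⟩
  have hu2 : ∀ H K : Subgroup (G ⧸ N), Nat.card H = 2 → Nat.card K = 2 → H = K := by
    have key : ∀ H : Subgroup (G ⧸ N), Nat.card H = 2 → H = Subgroup.zpowers (z : G ⧸ N) := by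
      intro H hH
      obtain ⟨x, hx⟩ := exists_prime_orderOf_dvd_card' (G := H) 2 (by rw [hH])
      have hx' : orderOf (x : G ⧸ N) = 2 := by rw [Subgroup.orderOf_coe]; exact hx
      have hxne : (x : G ⧸ N) ≠ 1 := by
        intro h1
        rw [h1, orderOf_one] at hx'
        omega
      have hx2 : (x : G ⧸ N) ^ 2 = 1 := by rw [← hx']; exact pow_orderOf_eq_one _
      have e := huniq _ _ hxne hx2 hzq hzq2
      have hle : Subgroup.zpowers (z : G ⧸ N) ≤ H := by
        rw [Subgroup.zpowers_le, ← e]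
        exact x.2
      symm
      apply Subgroup.eq_of_le_of_card_ge hle
      rw [hH, Nat.card_zpowers, orderOf_eq_prime hzq2 hzq]
    intro H K hH hK
    rw [key H hH, key K hK]
  obtain ⟨b, hb4⟩ := exists_ord h 4 (by norm_num) (by norm_num)
  have hb2 : (b : G ⧸ N) ^ 2 ≠ 1 := by
    intro h1
    rw [← QuotientGroup.mk_pow] at h1
    have h2 : b ^ 2 ∈ N := (QuotientGroup.eq_one_iff _).mp h1
    have h3 := hN3 _ h2
    rw [← pow_mul] at h3
    have h4 := orderOf_dvd_of_pow_eq_one h3
    rw [hb4] at h4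
    omega
  have hbo : orderOf (b : G ⧸ N) = 4 := by
    have := orderOf_eq_prime_pow (p := 2) (n := 1) (x := (b : G ⧸ N)) (by simpa using hb2)
      (by simpa using hord4 _)
    simpa using this
  have hcyc : IsCyclic (G ⧸ N) → (IsCyclic (G ⧸ N) ∧ N.index = 4) := by
    intro hc
    refine ⟨hc, ?_⟩
    rw [Subgroup.index_eq_card]
    have h1 : Monoid.exponent (G ⧸ N) ∣ 4 := Monoid.exponent_dvd_of_forall_pow_eq_one hord4
    have h2 : orderOf (b : G ⧸ N) ∣ Monoid.exponent (G ⧸ N) := Monoid.order_dvd_exponent _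
    rw [hbo] at h2
    rw [← IsCyclic.exponent_eq_card]
    exact Nat.dvd_antisymm h1 h2
  rcases Cfsg.Agent.S0016.result 2 hpg hu2 with hc | ⟨-, n, ⟨e⟩⟩
  · exact Or.inl (hcyc hc)
  · have h1 : orderOf (e.symm (QuaternionGroup.a 1)) = 2 * 2 ^ n := by
      rw [MulEquiv.orderOf_eq, QuaternionGroup.orderOf_a_one]
    have h2 : orderOf (e.symm (QuaternionGroup.a 1)) ∣ 4 := orderOf_dvd_of_pow_eq_one (hord4 _)
    rw [h1] at h2
    have hn1 : n ≤ 1 := by
      by_contra hlt
      have h3 : 2 ^ 2 ∣ 2 ^ n := pow_dvd_pow 2 (by omega)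
      have h4 : 2 * 2 ^ 2 ∣ 2 * 2 ^ n := Nat.mul_dvd_mul_left 2 h3
      have h5 := h4.trans h2
      omega
    interval_cases n
    · left
      apply hcyc
      haveI := QuaternionGroup.quaternionGroup_one_isCyclic
      exact isCyclic_of_surjective e.symm.toMonoidHom e.symm.surjective
    · right
      exact ⟨e⟩

theorem F1_of (h : Set.range (orderOf : G → ℕ) = {k : ℕ | 1 ≤ k ∧ k ≤ 4}) (N : Subgroup G)
    [hn : N.Normal] (σ : G) (hσ3 : σ ^ 3 = 1) (hσN : σ ∉ N) (x : N) :
    x * (MulAut.conjNormal σ : MulAut N) x *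
      (MulAut.conjNormal σ : MulAut N) ((MulAut.conjNormal σ : MulAut N) x) = 1 := by
  apply Subtype.ext
  simp only [Subgroup.coe_mul, MulAut.conjNormal_apply, Subgroup.coe_one]
  have hq : (((σ * x : G)) : G ⧸ N) = (σ : G ⧸ N) := by
    rw [QuotientGroup.mk_mul, (QuotientGroup.eq_one_iff (x : G)).mpr x.2, mul_one]
  have hq1 : (σ : G ⧸ N) ≠ 1 := fun h1 => hσN ((QuotientGroup.eq_one_iff σ).mp h1)
  have hq3 : (σ : G ⧸ N) ^ 3 = 1 := by rw [← QuotientGroup.mk_pow, hσ3]; rfl
  have ho : orderOf (σ : G ⧸ N) = 3 := orderOf_eq_prime hq3 hq1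
  have hd : orderOf (QuotientGroup.mk' N (σ * x : G)) ∣ orderOf (σ * x : G) := orderOf_map_dvd _ _
  have hd' : orderOf (σ : G ⧸ N) ∣ orderOf (σ * x : G) := by
    have : QuotientGroup.mk' N (σ * x : G) = (σ : G ⧸ N) := hq
    rwa [this] at hd
  rw [ho] at hd'
  have h3 : orderOf (σ * x : G) = 3 := by
    rcases ord_le h (σ * x : G) with h1 | h1 | h1 | h1 <;> rw [h1] at hd' <;> omega
  have h4 : (σ * x : G) ^ 3 = 1 := by rw [← h3]; exact pow_orderOf_eq_one _
  have h5 : (σ * x : G) * (σ * x) * (σ * x) = 1 := by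
    rw [← h4, pow_succ, pow_two]
  have h6 : σ * σ * σ = 1 := by rw [← hσ3, pow_succ, pow_two]
  calc (x : G) * (σ * x * σ⁻¹) * (σ * (σ * x * σ⁻¹) * σ⁻¹)
      = σ⁻¹ * ((σ * x) * (σ * x) * (σ * x)) * σ * (σ * σ * σ)⁻¹ := by group
    _ = 1 := by rw [h5, h6]; group

theorem F2_of (h : Set.range (orderOf : G → ℕ) = {k : ℕ | 1 ≤ k ∧ k ≤ 4}) (N : Subgroup G)
    [hn : N.Normal] (g : G) (hg2 : g * g = 1) (hgN : g ∉ N) (x : N) :
    ((MulAut.conjNormal g : MulAut N) x * x) ^ 2 = 1 := by
  apply Subtype.ext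
  simp only [Subgroup.coe_pow, Subgroup.coe_mul, MulAut.conjNormal_apply, Subgroup.coe_one]
  have hq : (((g * x : G)) : G ⧸ N) = (g : G ⧸ N) := by
    rw [QuotientGroup.mk_mul, (QuotientGroup.eq_one_iff (x : G)).mpr x.2, mul_one]
  have hq1 : (g : G ⧸ N) ≠ 1 := fun h1 => hgN ((QuotientGroup.eq_one_iff g).mp h1)
  have hq2 : (g : G ⧸ N) ^ 2 = 1 := by rw [← QuotientGroup.mk_pow, pow_two, hg2]; rfl
  have ho : orderOf (g : G ⧸ N) = 2 := orderOf_eq_prime hq2 hq1
  have hd : orderOf (QuotientGroup.mk' N (g * x : G)) ∣ orderOf (g * x : G) := orderOf_map_dvd _ _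
  have hd' : orderOf (g : G ⧸ N) ∣ orderOf (g * x : G) := by
    have : QuotientGroup.mk' N (g * x : G) = (g : G ⧸ N) := hq
    rwa [this] at hd
  rw [ho] at hd'
  have h4 : (g * x : G) ^ 4 = 1 := by
    rcases ord_le h (g * x : G) with h1 | h1 | h1 | h1
    · rw [h1] at hd'; omega
    · have h2 : (g * x : G) ^ 2 = 1 := by rw [← h1]; exact pow_orderOf_eq_one _
      calc (g * x : G) ^ 4 = ((g * x : G) ^ 2) ^ 2 := by rw [← pow_mul]
        _ = 1 := by rw [h2, one_pow]
    · rw [h1] at hd'; omega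
    · rw [← h1]; exact pow_orderOf_eq_one _
  have hgi : g⁻¹ = g := inv_eq_of_mul_eq_one_left hg2
  rw [hgi, ← h4]
  simp only [pow_succ, pow_zero, one_mul]
  group

theorem case_two (h : Set.range (orderOf : G → ℕ) = {k : ℕ | 1 ≤ k ∧ k ≤ 4}) (N : Subgroup G)
    [hn : N.Normal] (hp : IsPGroup 2 N) (hmax : ∀ C : Subgroup G, C.Normal → IsPGroup 2 C → C ≤ N)
    (hb : N ≠ ⊥) [hsol : Group.IsSolvable G] :
    (Monoid.exponent ↥N = 4 ∧ Group.nilpotencyClass ↥N ≤ 2 ∧ N.index = 3) ∨
      (Cfsg.IsElementaryAbelian 2 N ∧ Nonempty (G ⧸ N ≃* Equiv.Perm (Fin 3))) := by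
  haveI : Fact (Nat.Prime 3) := ⟨by norm_num⟩
  haveI : Fact (Nat.Prime 2) := ⟨Nat.prime_two⟩
  have hN4 : ∀ x ∈ N, x ^ 4 = 1 := by
    intro x hx
    obtain ⟨k, hk⟩ := (IsPGroup.iff_orderOf.mp hp) ⟨x, hx⟩
    rw [Subgroup.orderOf_mk] at hk
    have h3 : 2 ^ k ≤ 4 := by
      rcases ord_le h x with h1 | h1 | h1 | h1 <;> omega
    have hk1 : k ≤ 2 := by
      by_contra hlt
      have : 2 ^ 3 ≤ 2 ^ k := Nat.pow_le_pow_right (by norm_num) (by omega)
      omega
    have : orderOf x ∣ 4 := by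
      rw [hk]
      exact pow_dvd_pow 2 hk1
    exact orderOf_dvd_iff_pow_eq_one.mp this
  have hN3 : ∀ x ∈ N, x ^ 3 = 1 → x = 1 := by
    intro x hx h3
    have h4 := hN4 x hx
    calc x = x ^ 4 * (x ^ 3)⁻¹ := by group
      _ = 1 := by rw [h3, h4]; simp
  have hfix : ∀ g : G, orderOf g = 3 → ∀ v ∈ N, g * v = v * g → v = 1 := by
    intro g hg v hv hc
    by_contra hne
    have hc' : Commute g v := hc
    rcases ord_le h v with h1 | h1 | h1 | h1
    · exact hne (orderOf_eq_one_iff.mp h1)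
    · exact no_six h v g h1 hg hc.symm
    · exact hne (hN3 v hv (by rw [← h1]; exact pow_orderOf_eq_one v))
    · have h2 : orderOf (v ^ 2) = 2 := by
        have := orderOf_pow_orderOf_div (x := v) (n := 2) (by omega) (by rw [h1]; norm_num)
        rw [h1] at this
        exact this
      exact no_six h (v ^ 2) g h2 hg (hc'.pow_right 2).eq.symm
  -- the Sylow `3`-subgroups have order `3`
  have hnine : ¬ 9 ∣ Nat.card G := by
    intro h9
    obtain ⟨K, hK⟩ := Sylow.exists_subgroup_card_pow_prime (G := G) 3 (n := 2) (by norm_num; exact h9)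
    have hKc := IsPGroup.isMulCommutative_of_card_eq_prime_sq (G := K) (p := 3) hK
    have hKord : ∀ x ∈ K, x ^ 3 = 1 := by
      intro x hx
      have hKp : IsPGroup 3 K := IsPGroup.of_card hK
      obtain ⟨k, hk⟩ := (IsPGroup.iff_orderOf.mp hKp) ⟨x, hx⟩
      rw [Subgroup.orderOf_mk] at hk
      have h3 : 3 ^ k ≤ 4 := by
        rcases ord_le h x with h1 | h1 | h1 | h1 <;> omega
      have hk1 : k ≤ 1 := by
        by_contra hlt
        have : 3 ^ 2 ≤ 3 ^ k := Nat.pow_le_pow_right (by norm_num) (by omega)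
        omega
      have : orderOf x ∣ 3 := by
        rw [hk]
        exact pow_dvd_pow 3 hk1 |>.trans (by norm_num)
      exact orderOf_dvd_iff_pow_eq_one.mp this
    -- pick two independent elements
    have hne1 : ∃ x ∈ K, x ≠ 1 := by
      by_contra hcon
      push_neg at hcon
      have : K = ⊥ := (Subgroup.eq_bot_iff_forall K).mpr hcon
      rw [this] at hK
      simp at hK
    obtain ⟨x, hxK, hx1⟩ := hne1
    have hxo : orderOf x = 3 := orderOf_eq_prime (hKord x hxK) hx1
    have hne2 : ∃ y ∈ K, y ∉ Subgroup.zpowers x := by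
      by_contra hcon
      push_neg at hcon
      have h1 : Nat.card K ≤ Nat.card (Subgroup.zpowers x) := Subgroup.card_le_of_le hcon
      rw [hK, Nat.card_zpowers, hxo] at h1
      omega
    obtain ⟨y, hyK, hyx⟩ := hne2
    have hxy : x * y = y * x :=
      congrArg Subtype.val (hKc.is_comm.comm (⟨x, hxK⟩ : K) ⟨y, hyK⟩)
    have hy3 := hKord y hyK
    have hyne : y ≠ 1 := by
      rintro rfl
      exact hyx (Subgroup.one_mem _)
    have hyo : orderOf y = 3 := orderOf_eq_prime hy3 hyne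
    -- the central part of `N`
    let Z₀ : Subgroup G := N ⊓ Subgroup.centralizer (N : Set G)
    haveI hZ₀ : Z₀.Normal := Subgroup.normal_inf_normal _ _
    have hZc : ∀ a b : Z₀, a * b = b * a := by
      intro a b
      apply Subtype.ext
      exact ((Subgroup.mem_centralizer_iff.mp a.2.2) b b.2.1).symm
    have hZfix : ∀ (g : G), orderOf g = 3 → ∀ v : Z₀, (MulAut.conjNormal g : MulAut Z₀) v = v → v = 1 := by
      intro g hg v hv
      have h1 : g * v * g⁻¹ = v := congrArg Subtype.val hv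
      apply Subtype.ext
      apply hfix g hg _ v.2.1
      calc g * v = g * v * g⁻¹ * g := by group
        _ = v * g := by rw [h1]
    have hpow : ∀ i : ℕ, x * y ^ i ≠ 1 := by
      intro i hi
      have h1 : y ^ i = x⁻¹ := eq_inv_of_mul_eq_one_right hi
      have h2 : y ^ (i % 3) = x⁻¹ := by
        rw [← h1, ← hyo]; exact pow_mod_orderOf y i
      have hi3 : i % 3 < 3 := Nat.mod_lt _ (by norm_num)
      interval_cases hm : i % 3
      · rw [pow_zero] at h2
        apply hx1
        have := congrArg (fun w => w⁻¹) h2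
        simpa using this.symm
      · rw [pow_one] at h2
        exact hyx (by rw [h2]; exact Subgroup.inv_mem _ (Subgroup.mem_zpowers x))
      · apply hyx
        have h3 : y = (y ^ 2) ^ 2 := by
          calc y = y * (y ^ 3) := by rw [hy3, mul_one]
            _ = (y ^ 2) ^ 2 := by group
        rw [h3, h2]
        exact Subgroup.pow_mem _ (Subgroup.inv_mem _ (Subgroup.mem_zpowers x)) 2
    have hall : ∀ v : Z₀, v ^ 3 = 1 := by
      intro v
      have hcomm' : (MulAut.conjNormal x : MulAut Z₀) * MulAut.conjNormal y =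
          MulAut.conjNormal y * MulAut.conjNormal x := by
        rw [← map_mul, ← map_mul, hxy]
      refine Cfsg.Agent.Lib.FG7.EqualOrder.no_fpf_pair hZc (q := 3) (by norm_num)
        (MulAut.conjNormal x) (MulAut.conjNormal y) hcomm'
        (by rw [← map_pow, hKord x hxK, map_one]) (by rw [← map_pow, hy3, map_one]) ?_ ?_ v
      · intro i w hw
        have e : ((MulAut.conjNormal x : MulAut Z₀) * (MulAut.conjNormal y) ^ i) =
            MulAut.conjNormal (x * y ^ i) := by rw [map_mul, map_pow]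
        rw [e] at hw
        refine hZfix (x * y ^ i) ?_ w hw
        apply orderOf_eq_prime _ (hpow i)
        have hc : Commute x (y ^ i) := (show Commute x y from hxy).pow_right i
        rw [hc.mul_pow, hKord x hxK, ← pow_mul, mul_comm, pow_mul, hy3, one_pow, one_mul]
      · exact hZfix y hyo
    -- contradiction
    haveI : Nontrivial N := (Subgroup.nontrivial_iff_ne_bot N).mpr hb
    haveI := hp.center_nontrivial
    obtain ⟨z, hz⟩ := exists_ne (1 : Subgroup.center N)
    have hzZ : ((z : N) : G) ∈ Z₀ := by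
      refine ⟨(z : N).2, Subgroup.mem_centralizer_iff.mpr ?_⟩
      intro m hm
      have := (Subgroup.mem_center_iff.mp z.2) ⟨m, hm⟩
      exact congrArg Subtype.val this
    have h3 := hall ⟨_, hzZ⟩
    have h4 : ((z : N) : G) ^ 3 = 1 := congrArg Subtype.val h3
    have h5 := hN3 _ (z : N).2 h4
    exact hz (Subtype.ext (Subtype.ext h5))
  -- the quotient
  have hcardQ : Nat.card (G ⧸ N) * Nat.card N = Nat.card G :=
    (Subgroup.card_eq_card_quotient_mul_card_subgroup N).symm
  have hnineQ : ¬ 9 ∣ Nat.card (G ⧸ N) := fun h9 => hnine (h9.trans ⟨_, hcardQ.symm⟩)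
  obtain ⟨a, ha⟩ := exists_ord h 3 (by norm_num) (by norm_num)
  have ha3 : a ^ 3 = 1 := by rw [← ha]; exact pow_orderOf_eq_one a
  have haN : a ∉ N := by
    intro h1
    have := hN3 a h1 ha3
    rw [this, orderOf_one] at ha
    omega
  have hQne : (a : G ⧸ N) ≠ 1 := fun h1 => haN ((QuotientGroup.eq_one_iff a).mp h1)
  haveI : Nontrivial (G ⧸ N) := ⟨⟨_, _, hQne⟩⟩
  haveI : Group.IsSolvable (G ⧸ N) := inferInstance
  have hprimes : ∀ r : ℕ, r.Prime → r ∣ Nat.card (G ⧸ N) → r = 2 ∨ r = 3 := by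
    intro r hr hd
    haveI := Fact.mk hr
    have hd' : r ∣ Nat.card G := hd.trans ⟨_, hcardQ.symm⟩
    obtain ⟨g, hg⟩ := exists_prime_orderOf_dvd_card' r hd'
    rcases ord_le h g with h1 | h1 | h1 | h1
    · rw [h1] at hg; exact absurd hg.symm hr.one_lt.ne'
    · left; omega
    · right; omega
    · rw [h1] at hg
      rw [← hg] at hr
      exact absurd hr (by norm_num)
  obtain ⟨r, hr, D, hDn, hD, hDp⟩ := Cfsg.Agent.Lib.Coprime.SchurZassenhaus.exists_normal_pSubgroup (G ⧸ N)
  haveI := hDn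
  haveI := Fact.mk hr
  have hDcard : Nat.card D ≠ 1 := fun h1 => hD (Subgroup.card_eq_one.mp h1)
  have hrD : r ∣ Nat.card D := by
    rcases hDp.card_eq_or_dvd with h1 | h1
    · exact absurd h1 hDcard
    · exact h1
  have hrQ : r ∣ Nat.card (G ⧸ N) := hrD.trans (Subgroup.card_subgroup_dvd_card D)
  have hr3 : r = 3 := by
    rcases hprimes r hr hrQ with h1 | h1
    · exfalso
      subst h1
      have h2 : IsPGroup 2 (D.comap (QuotientGroup.mk' N)) :=
        hDp.comap_of_ker_isPGroup _ (by rw [QuotientGroup.ker_mk']; exact hp)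
      have h3 := hmax _ inferInstance h2
      apply hD
      rw [Subgroup.eq_bot_iff_forall]
      intro q hq
      obtain ⟨g, rfl⟩ := QuotientGroup.mk_surjective q
      exact (QuotientGroup.eq_one_iff g).mpr (h3 hq)
    · exact h1
  subst hr3
  have hD3 : Nat.card D = 3 := by
    obtain ⟨j, hj⟩ := IsPGroup.iff_card.mp hDp
    have hj1 : j ≤ 1 := by
      by_contra hlt
      apply hnineQ
      have h1 : 3 ^ 2 ∣ 3 ^ j := pow_dvd_pow 3 (by omega)
      rw [← hj] at h1
      exact (show (9 : ℕ) = 3 ^ 2 by norm_num) ▸ h1.trans (Subgroup.card_subgroup_dvd_card D)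
    interval_cases j
    · exact absurd (by simpa using hj) hDcard
    · simpa using hj
  -- a generator
  obtain ⟨e₀, he₀⟩ := exists_prime_orderOf_dvd_card' (G := D) 3 (by rw [hD3])
  have he : orderOf (e₀ : G ⧸ N) = 3 := by rw [Subgroup.orderOf_coe]; exact he₀
  have hDz : D = Subgroup.zpowers (e₀ : G ⧸ N) := by
    symm
    apply Subgroup.eq_of_le_of_card_ge
    · rw [Subgroup.zpowers_le]; exact e₀.2
    · rw [hD3, Nat.card_zpowers, he]
  have hQ4 : ∀ q : G ⧸ N, orderOf q = 2 → q * (e₀ : G ⧸ N) ≠ (e₀ : G ⧸ N) * q := by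
    intro q hq
    exact no_six_q h (QuotientGroup.mk' N) (QuotientGroup.mk'_surjective N) _ _ hq he
  have hO3 : ∀ c : G ⧸ N, c ^ 3 = 1 → c ∈ D := by
    intro c hc3
    by_contra hcD
    have hc1 : c ≠ 1 := by
      rintro rfl
      exact hcD (Subgroup.one_mem _)
    have hco : orderOf c = 3 := orderOf_eq_prime hc3 hc1
    have hdis : Subgroup.zpowers c ⊓ D = ⊥ := by
      have h1 : Nat.card ((Subgroup.zpowers c ⊓ D : Subgroup (G ⧸ N))) ∣ 3 := by
        have := Subgroup.card_dvd_of_le (inf_le_left : Subgroup.zpowers c ⊓ D ≤ Subgroup.zpowers c)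
        rwa [Nat.card_zpowers, hco] at this
      rcases (Nat.dvd_prime (by norm_num : Nat.Prime 3)).mp h1 with h2 | h2
      · exact Subgroup.card_eq_one.mp h2
      · exfalso
        have h3 : Subgroup.zpowers c ⊓ D = Subgroup.zpowers c := by
          apply Subgroup.eq_of_le_of_card_ge inf_le_left
          rw [h2, Nat.card_zpowers, hco]
        have h4 : c ∈ Subgroup.zpowers c ⊓ D := by
          rw [h3]; exact Subgroup.mem_zpowers c
        exact hcD h4.2
    have h5 := Cfsg.Agent.Lib.Coprime.SchurZassenhaus.card_sup_of_disjoint D (Subgroup.zpowers c) hdis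
    rw [hD3, Nat.card_zpowers, hco] at h5
    apply hnineQ
    have h6 := Subgroup.card_subgroup_dvd_card (Subgroup.zpowers c ⊔ D)
    rw [h5] at h6
    exact h6
  have hQord : ∀ c : G ⧸ N, orderOf c = 1 ∨ orderOf c = 2 ∨ orderOf c = 3 ∨ orderOf c = 4 := by
    intro c
    obtain ⟨g, rfl⟩ := QuotientGroup.mk_surjective c
    have h1 : orderOf (QuotientGroup.mk' N g) ∣ orderOf g := orderOf_map_dvd _ _
    have h2 : orderOf (g : G ⧸ N) ∣ orderOf g := h1
    have h3 : orderOf g ≤ 4 := by rcases ord_le h g with h4 | h4 | h4 | h4 <;> omega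
    have h4 : 0 < orderOf g := by rcases ord_le h g with h4 | h4 | h4 | h4 <;> omega
    have h5 := Nat.le_of_dvd h4 h2
    have h6 : 0 < orderOf (g : G ⧸ N) := Nat.pos_of_dvd_of_pos h2 h4
    omega
  -- the centralizer
  have hCD : ∀ c : G ⧸ N, c * (e₀ : G ⧸ N) = (e₀ : G ⧸ N) * c → c ∈ D := by
    intro c hc
    have hc' : Commute c (e₀ : G ⧸ N) := hc
    rcases hQord c with h1 | h1 | h1 | h1
    · rw [orderOf_eq_one_iff.mp h1]; exact Subgroup.one_mem _
    · exact absurd hc (hQ4 c h1)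
    · exact hO3 c (by rw [← h1]; exact pow_orderOf_eq_one c)
    · exfalso
      have h2 : orderOf (c ^ 2) = 2 := by
        have := orderOf_pow_orderOf_div (x := c) (n := 2) (by omega) (by rw [h1]; norm_num)
        rw [h1] at this
        exact this
      exact hQ4 _ h2 (hc'.pow_left 2).eq
  -- the order of the quotient
  have hQcard : Nat.card (G ⧸ N) = 3 ∨ Nat.card (G ⧸ N) = 6 := by
    let f : (G ⧸ N) →* MulAut D := MulAut.conjNormal
    have hker : f.ker ≤ D := by
      intro c hc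
      apply hCD
      have h1 : f c e₀ = e₀ := by rw [MonoidHom.mem_ker.mp hc]; rfl
      have h2 : c * (e₀ : G ⧸ N) * c⁻¹ = e₀ := congrArg Subtype.val h1
      calc c * (e₀ : G ⧸ N) = c * (e₀ : G ⧸ N) * c⁻¹ * c := by group
        _ = (e₀ : G ⧸ N) * c := by rw [h2]
    have h1 : Nat.card f.ker ∣ 3 := by
      rw [← hD3]; exact Subgroup.card_dvd_of_le hker
    haveI : IsCyclic D := isCyclic_of_prime_card hD3
    have h2 : Nat.card f.range ∣ 2 := by
      have h3 := Subgroup.card_subgroup_dvd_card f.range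
      rw [IsCyclic.card_mulAut, hD3] at h3
      simpa [Nat.totient_prime (by norm_num : Nat.Prime 3)] using h3
    have h3 : Nat.card f.ker * Nat.card f.range = Nat.card (G ⧸ N) := by
      rw [← Subgroup.index_ker f, Subgroup.card_mul_index]
    have h4 : Nat.card (G ⧸ N) ∣ 6 := by
      rw [← h3]
      exact Nat.mul_dvd_mul h1 h2
    have h5 : 3 ∣ Nat.card (G ⧸ N) := by
      rw [← hD3]; exact Subgroup.card_subgroup_dvd_card D
    have h6 := Nat.le_of_dvd (by norm_num) h4
    obtain ⟨k, hk⟩ := h5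
    have : k = 1 ∨ k = 2 := by
      have h7 : 0 < Nat.card (G ⧸ N) := Nat.card_pos
      have h8 : k ≠ 0 := by rintro rfl; omega
      omega
    rcases this with rfl | rfl
    · left; omega
    · right; omega
  have hexp : ∀ x : N, x ^ 4 = 1 := fun x => Subtype.ext (hN4 x x.2)
  rcases hQcard with hQ3 | hQ6
  · left
    have hF := F1_of h N a ha3 haN
    have hT := class_two_of_fpf3 (MulAut.conjNormal a : MulAut N) hF hexp
    have hcen := central_com hT
    obtain ⟨b, hb4⟩ := exists_ord h 4 (by norm_num) (by norm_num)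
    have hbN : b ∈ N := by
      rw [← QuotientGroup.eq_one_iff]
      have h1 : (b : G ⧸ N) ^ 3 = 1 := by
        rw [← hQ3]; exact pow_card_eq_one'
      have h2 : (b : G ⧸ N) ^ 4 = 1 := by
        rw [← QuotientGroup.mk_pow, ← hb4, pow_orderOf_eq_one]; rfl
      calc (b : G ⧸ N) = (b : G ⧸ N) ^ 4 * ((b : G ⧸ N) ^ 3)⁻¹ := by group
        _ = 1 := by rw [h1, h2]; simp
    refine ⟨?_, ?_, ?_⟩
    · have h1 : Monoid.exponent N ∣ 4 := Monoid.exponent_dvd_of_forall_pow_eq_one hexp
      have h2 : orderOf (⟨b, hbN⟩ : N) ∣ Monoid.exponent N := Monoid.order_dvd_exponent _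
      rw [Subgroup.orderOf_mk, hb4] at h2
      exact Nat.dvd_antisymm h1 h2
    · haveI := hp.isNilpotent
      rw [← upperCentralSeries_eq_top_iff_nilpotencyClass_le, eq_top_iff]
      intro x _
      rw [mem_upperCentralSeries_succ_iff]
      intro y
      rw [upperCentralSeries_one, Subgroup.mem_center_iff]
      intro z
      have h1 := hcen x⁻¹ y⁻¹ z
      have e : com x⁻¹ y⁻¹ = ⁅x, y⁆ := by
        unfold com; rw [commutatorElement_def]; group
      rw [e] at h1
      exact h1.symm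
    · rw [Subgroup.index_eq_card, hQ3]
  · right
    have hDne : ∃ u : G ⧸ N, u ∉ D := by
      by_contra hcon
      push_neg at hcon
      have h1 : D = ⊤ := (Subgroup.eq_top_iff' D).mpr hcon
      rw [h1, Subgroup.card_top, hQ6] at hD3
      omega
    obtain ⟨u, hu⟩ := hDne
    have hiso : Nonempty (G ⧸ N ≃* Equiv.Perm (Fin 3)) := by
      apply Cfsg.Agent.Lib.SameOrder.Main.iso_perm_of_card_six hQ6
      exact ⟨u, e₀, fun h1 => hu (hCD u h1)⟩
    refine ⟨?_, hiso⟩
    -- choose `σ` and `τ`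
    obtain ⟨σ, hσ⟩ := QuotientGroup.mk_surjective (e₀ : G ⧸ N)
    have hσo : orderOf σ = 3 := by
      have h1 : orderOf (QuotientGroup.mk' N σ) ∣ orderOf σ := orderOf_map_dvd _ _
      have h2 : orderOf ((σ : G ⧸ N)) ∣ orderOf σ := h1
      rw [hσ, he] at h2
      rcases ord_le h σ with h3 | h3 | h3 | h3 <;> rw [h3] at h2 <;> omega
    have hσ3 : σ ^ 3 = 1 := by rw [← hσo]; exact pow_orderOf_eq_one σ
    have hσN : σ ∉ N := by
      intro h1
      have := hN3 σ h1 hσ3
      rw [this, orderOf_one] at hσo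
      omega
    let E : Subgroup G := D.comap (QuotientGroup.mk' N)
    haveI hE : E.Normal := inferInstance
    have hσE : σ ∈ E := by
      show (σ : G ⧸ N) ∈ D
      rw [hσ]; exact e₀.2
    have hzp : IsPGroup 3 (Subgroup.zpowers σ) :=
      IsPGroup.of_card (n := 1) (by rw [Nat.card_zpowers, hσo, pow_one])
    obtain ⟨P, hP⟩ := hzp.exists_le_sylow
    have hPeq : Subgroup.zpowers σ = (P : Subgroup G) := by
      apply Subgroup.eq_of_le_of_card_ge hP
      obtain ⟨j, hj⟩ := IsPGroup.iff_card.mp P.isPGroup'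
      have hj1 : j ≤ 1 := by
        by_contra hlt
        apply hnine
        have h1 : 3 ^ 2 ∣ 3 ^ j := pow_dvd_pow 3 (by omega)
        rw [← hj] at h1
        exact (show (9 : ℕ) = 3 ^ 2 by norm_num) ▸ h1.trans (Subgroup.card_subgroup_dvd_card _)
      rw [hj, Nat.card_zpowers, hσo]
      calc 3 ^ j ≤ 3 ^ 1 := Nat.pow_le_pow_right (by norm_num) hj1
        _ = 3 := by norm_num
    have hPE : (P : Subgroup G) ≤ E := by
      rw [← hPeq, Subgroup.zpowers_le]; exact hσE
    have hsup := Sylow.normalizer_sup_eq_top' (N := E) P hPE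
    obtain ⟨u₀, rfl⟩ := QuotientGroup.mk_surjective u
    have hu₀ : u₀ ∈ Subgroup.normalizer (P : Set G) ⊔ E := by rw [hsup]; trivial
    obtain ⟨r, hr', e', he', hre⟩ := Subgroup.mem_sup_of_normal_right.mp hu₀
    have hrD : (r : G ⧸ N) ∉ D := by
      intro h1
      apply hu
      rw [← hre, QuotientGroup.mk_mul]
      exact Subgroup.mul_mem _ h1 he'
    have hrN : r ∉ N := by
      intro h1
      apply hrD
      rw [(QuotientGroup.eq_one_iff r).mpr h1]
      exact Subgroup.one_mem _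
    have hw : r * σ * r⁻¹ ∈ Subgroup.zpowers σ := by
      rw [hPeq]
      have h1 : σ ∈ (P : Subgroup G) := by rw [← hPeq]; exact Subgroup.mem_zpowers σ
      exact (Subgroup.mem_normalizer_iff.mp hr' σ).mp h1
    have hwo : r * σ * r⁻¹ ≠ 1 := by
      intro h1
      have h2 : σ = r⁻¹ * (r * σ * r⁻¹) * r := by group
      rw [h1] at h2
      simp only [mul_one, inv_mul_cancel] at h2
      rw [h2, orderOf_one] at hσo
      omega
    have hrel : r * σ * r⁻¹ = σ⁻¹ := by
      have h1 := (mem_powers_iff_mem_zpowers.mpr hw)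
      obtain ⟨n, hn'⟩ := h1
      have h2 : σ ^ (n % 3) = r * σ * r⁻¹ := by
        rw [← hn', ← hσo]; exact pow_mod_orderOf σ n
      have hi3 : n % 3 < 3 := Nat.mod_lt _ (by norm_num)
      interval_cases hm : n % 3
      · rw [pow_zero] at h2
        exact absurd h2.symm hwo
      · exfalso
        rw [pow_one] at h2
        apply hrD
        apply hCD
        have h3 : (r : G ⧸ N) * (σ : G ⧸ N) * (r : G ⧸ N)⁻¹ = (σ : G ⧸ N) := by
          have := congrArg (QuotientGroup.mk' N) h2.symm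
          simpa using this
        rw [← hσ]
        calc (r : G ⧸ N) * (σ : G ⧸ N) = (r : G ⧸ N) * (σ : G ⧸ N) * (r : G ⧸ N)⁻¹ * (r : G ⧸ N) := by group
          _ = (σ : G ⧸ N) * (r : G ⧸ N) := by rw [h3]
      · rw [← h2]
        calc σ ^ 2 = σ ^ 3 * σ⁻¹ := by group
          _ = σ⁻¹ := by rw [hσ3, one_mul]
    have hrr : r * r = 1 := by
      rcases ord_le h r with h1 | h1 | h1 | h1
      · exfalso
        apply hrN
        rw [orderOf_eq_one_iff.mp h1]
        exact N.one_mem
      · rw [← pow_two, ← h1]; exact pow_orderOf_eq_one r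
      · exfalso
        apply hrD
        apply hO3
        rw [← QuotientGroup.mk_pow, ← h1, pow_orderOf_eq_one]; rfl
      · exfalso
        have h2 : orderOf (r ^ 2) = 2 := by
          have := orderOf_pow_orderOf_div (x := r) (n := 2) (by omega) (by rw [h1]; norm_num)
          rw [h1] at this
          exact this
        apply no_six h (r ^ 2) σ h2 hσo
        have h3 : r * σ⁻¹ * r⁻¹ = σ := by
          have e : r * σ⁻¹ * r⁻¹ = (r * σ * r⁻¹)⁻¹ := by group
          rw [e, hrel, inv_inv]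
        calc r ^ 2 * σ = r * (r * σ * r⁻¹) * r⁻¹ * r ^ 2 := by rw [pow_two]; group
          _ = r * σ⁻¹ * r⁻¹ * r ^ 2 := by rw [hrel]
          _ = σ * r ^ 2 := by rw [h3]
    have hri : r⁻¹ = r := inv_eq_of_mul_eq_one_left hrr
    have hrel' : r * σ * r = σ⁻¹ := by
      have := hrel
      rwa [hri] at this
    have hg1 : (σ * r) * (σ * r) = 1 := by
      calc (σ * r) * (σ * r) = σ * (r * σ * r) := by group
        _ = 1 := by rw [hrel']; group
    have hg2 : (σ * σ * r) * (σ * σ * r) = 1 := by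
      have e : r * (σ * σ) * r = (r * σ * r) * (r * σ * r) := by
        calc r * (σ * σ) * r = r * σ * (r * r) * σ * r := by rw [hrr]; group
          _ = (r * σ * r) * (r * σ * r) := by group
      calc (σ * σ * r) * (σ * σ * r) = σ * σ * (r * (σ * σ) * r) := by group
        _ = 1 := by rw [e, hrel']; group
    have hg1N : σ * r ∉ N := by
      intro h1
      apply hrD
      have h2 : ((σ * r : G) : G ⧸ N) = 1 := (QuotientGroup.eq_one_iff _).mpr h1
      rw [QuotientGroup.mk_mul] at h2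
      have h3 : (r : G ⧸ N) = (σ : G ⧸ N)⁻¹ := eq_inv_of_mul_eq_one_right h2
      rw [h3, hσ]
      exact Subgroup.inv_mem _ e₀.2
    have hg2N : σ * σ * r ∉ N := by
      intro h1
      apply hrD
      have h2 : ((σ * σ * r : G) : G ⧸ N) = 1 := (QuotientGroup.eq_one_iff _).mpr h1
      rw [QuotientGroup.mk_mul, QuotientGroup.mk_mul] at h2
      have h3 : (r : G ⧸ N) = ((σ : G ⧸ N) * (σ : G ⧸ N))⁻¹ := eq_inv_of_mul_eq_one_right h2
      rw [h3, hσ]
      exact Subgroup.inv_mem _ (Subgroup.mul_mem _ e₀.2 e₀.2)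
    have hF := F1_of h N σ hσ3 hσN
    have h0 := F2_of h N r hrr hrN
    have h1 := F2_of h N (σ * r) hg1 hg1N
    have h2 := F2_of h N (σ * σ * r) hg2 hg2N
    have key := abelian_of_S3 (MulAut.conjNormal σ : MulAut N) (MulAut.conjNormal r : MulAut N) hF hexp
      h0 (fun x => by simpa [map_mul] using h1 x) (fun x => by simpa [map_mul] using h2 x)
    refine ⟨⟨⟨key.1⟩⟩, fun x hx => ?_⟩
    have := key.2 ⟨x, hx⟩
    exact congrArg Subtype.val this

end Main

/-- A finite group whose set of element orders is exactly {1, 2, 3, 4} has a normal subgroup N such that either N is a 2-group of exponent 4 and nilpotency class at most 2 with G/N of order 3, or N is an elementary abelian 2-group with G/N isomorphic to the symmetric group of degree 3, or N is an elementary abelian 3-group with G/N cyclic of order 4 or quaternion of order 8. -/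
theorem result {G : Type*} [Group G] [Finite G] (h : Set.range (orderOf : G → ℕ) = {k : ℕ | 1 ≤ k ∧ k ≤ 4}) :
    ∃ (N : Subgroup G) (_ : N.Normal),
      (IsPGroup 2 ↥N ∧ Monoid.exponent ↥N = 4 ∧ Group.nilpotencyClass ↥N ≤ 2 ∧ N.index = 3) ∨
      (Cfsg.IsElementaryAbelian 2 N ∧ Nonempty (G ⧸ N ≃* Equiv.Perm (Fin 3))) ∨
      (Cfsg.IsElementaryAbelian 3 N ∧ ((IsCyclic (G ⧸ N) ∧ N.index = 4) ∨ Nonempty (G ⧸ N ≃* QuaternionGroup 2))) := by
  haveI : Fact (Nat.Prime 3) := ⟨by norm_num⟩
  haveI : Fact (Nat.Prime 2) := ⟨Nat.prime_two⟩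
  have hprimes : ∀ r : ℕ, r.Prime → r ∣ Nat.card G → r = 2 ∨ r = 3 := by
    intro r hr hd
    haveI := Fact.mk hr
    obtain ⟨g, hg⟩ := exists_prime_orderOf_dvd_card' r hd
    rcases ord_le h g with h1 | h1 | h1 | h1
    · rw [h1] at hg; exact absurd hg.symm hr.one_lt.ne'
    · left; omega
    · right; omega
    · rw [h1] at hg
      rw [← hg] at hr
      exact absurd hr (by norm_num)
  have hcard : ∃ a b : ℕ, Nat.card G = 2 ^ a * 3 ^ b := by
    have hn0 : Nat.card G ≠ 0 := Nat.card_pos.ne'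
    refine ⟨(Nat.card G).factorization 2, (Nat.card G).factorization 3, ?_⟩
    conv_lhs => rw [← Nat.factorization_prod_pow_eq_self hn0]
    have hsub : (Nat.card G).factorization.support ⊆ {2, 3} := by
      intro q hq
      have hq' := Nat.support_factorization (Nat.card G) ▸ hq
      have h1 := Nat.prime_of_mem_primeFactors hq'
      have h2 := Nat.dvd_of_mem_primeFactors hq'
      rcases hprimes q h1 h2 with h3 | h3 <;> simp [h3]
    rw [Finsupp.prod_of_support_subset _ hsub _ (by simp)]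
    simp
  obtain ⟨a, b, hab⟩ := hcard
  haveI hsol : Group.IsSolvable G :=
    Cfsg.Agent.Lib.Char.Burnside.isSolvable_of_card_eq 2 3 a b Nat.prime_two (by norm_num) hab
  obtain ⟨z, hz⟩ := exists_ord h 2 (by norm_num) (by norm_num)
  haveI : Nontrivial G := ⟨⟨z, 1, by
    rintro rfl
    rw [orderOf_one] at hz
    omega⟩⟩
  obtain ⟨r, hr, D, hDn, hD, hDp⟩ := Cfsg.Agent.Lib.Coprime.SchurZassenhaus.exists_normal_pSubgroup G
  haveI := Fact.mk hr
  have hrD : r ∣ Nat.card D := by
    rcases hDp.card_eq_or_dvd with h1 | h1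
    · exact absurd (Subgroup.card_eq_one.mp h1) hD
    · exact h1
  have hrG := hprimes r hr (hrD.trans (Subgroup.card_subgroup_dvd_card D))
  by_cases h3 : Cfsg.pCore 3 G = ⊥
  · have hr2 : r = 2 := by
      rcases hrG with h1 | h1
      · exact h1
      · exfalso
        subst h1
        apply hD
        rw [← le_bot_iff, ← h3]
        exact Cfsg.Agent.Lib.Core.Basic.le_pCore hDn hDp
    subst hr2
    have hne : Cfsg.pCore 2 G ≠ ⊥ := by
      intro h1
      apply hD
      rw [← le_bot_iff, ← h1]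
      exact Cfsg.Agent.Lib.Core.Basic.le_pCore hDn hDp
    have hpc : IsPGroup 2 (Cfsg.pCore 2 G) := Cfsg.Agent.Lib.Core.Basic.pCore_isPGroup
    refine ⟨Cfsg.pCore 2 G, inferInstance, ?_⟩
    rcases case_two h (Cfsg.pCore 2 G) hpc
      (fun C hC hCp => Cfsg.Agent.Lib.Core.Basic.le_pCore hC hCp) hne with h4 | h4
    · exact Or.inl ⟨hpc, h4⟩
    · exact Or.inr (Or.inl h4)
  · have hpc : IsPGroup 3 (Cfsg.pCore 3 G) := Cfsg.Agent.Lib.Core.Basic.pCore_isPGroup
    refine ⟨Cfsg.pCore 3 G, inferInstance, Or.inr (Or.inr ?_)⟩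
    exact case_three h (Cfsg.pCore 3 G) hpc
      (fun C hC hCp => Cfsg.Agent.Lib.Core.Basic.le_pCore hC hCp) h3

end Cfsg.Agent.S4006
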