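import Cfsg.Statements.S4203
import Mathlib
import Cfsg.Agent.Lib.Char.Burnside
import Cfsg.Agent.Lib.Solvable.Basic
import Cfsg.Agent.Lib.Solvable.Misc1

set_option autoImplicit false
open Cfsg

namespace Cfsg.Agent.S4203

open Cfsg.Agent.Lib.Solvable.Basic Cfsg.Agent.Lib.Solvable.Misc1

universe u

/-- If `L` contains the normalizer of a Sylow subgroup then its index is `≡ 1` mod `p`. -/
theorem index_modEq_one {p : ℕ} [Fact p.Prime] {N : Type u} [Group N] [Finite N] (P : Sylow p N)
    (L : Subgroup N) (hL : Subgroup.normalizer ((P : Subgroup N) : Set N) ≤ L) :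
    L.index ≡ 1 [MOD p] := by
  have hPL : (P : Subgroup N) ≤ L := Subgroup.le_normalizer.trans hL
  have h1 := card_sylow_modEq_one p N
  have h2 := card_sylow_modEq_one p L
  rw [Sylow.card_eq_index_normalizer P] at h1
  rw [Sylow.card_eq_index_normalizer (P.subtype hPL)] at h2
  have h2' : (Subgroup.normalizer (((P.subtype hPL : Sylow p L) : Subgroup L) : Set L)).index ≡ 1 [MOD p] := h2
  rw [Sylow.coe_subtype, ← Subgroup.subgroupOf_normalizer_eq hPL] at h2'
  have h3 := Subgroup.relIndex_mul_index hL
  have h4 : (Subgroup.normalizer ((P : Subgroup N) : Set N)).relIndex L ≡ 1 [MOD p] := h2'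
  have h1' : (Subgroup.normalizer ((P : Subgroup N) : Set N)).index ≡ 1 [MOD p] := h1
  rw [← h3] at h1'
  have h5 := (h4.mul_right L.index).symm.trans h1'
  simpa using h5

/-- Numbers all of whose prime factors are at most `3`. -/
theorem exists_two_three (n : ℕ) (hn : n ≠ 0) (h : ∀ q : ℕ, q.Prime → q ∣ n → q ≤ 3) :
    ∃ a b : ℕ, n = 2 ^ a * 3 ^ b := by
  obtain ⟨a, m, hm, rfl⟩ := Nat.exists_eq_pow_mul_and_not_dvd hn 2 (by norm_num)
  have hm0 : m ≠ 0 := by
    rintro rfl
    simp at hm
  obtain ⟨b, m', hm', rfl⟩ := Nat.exists_eq_pow_mul_and_not_dvd hm0 3 (by norm_num)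
  by_cases h1 : m' = 1
  · exact ⟨a, b, by simp [h1]⟩
  · exfalso
    obtain ⟨q, hq, hqm⟩ := Nat.exists_prime_and_dvd h1
    have hq3 := h q hq (Dvd.dvd.mul_left (Dvd.dvd.mul_left hqm _) _)
    have hq2 := hq.two_le
    interval_cases q
    · exact hm (Dvd.dvd.mul_left hqm _)
    · exact hm' hqm

/-- The arithmetic core. -/
theorem arith {p r i : ℕ} (hp : p.Prime) (hr : r.Prime) (hrp : r ≤ p) (hi : i = r ∨ i = r ^ 2)
    (h1 : 1 < i) (hmod : i ≡ 1 [MOD p]) : p = 3 := by
  have hdvd : p ∣ i - 1 := (Nat.modEq_iff_dvd' h1.le).mp hmod.symm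
  have hr2 := hr.two_le
  rcases hi with rfl | rfl
  · exfalso
    have := Nat.le_of_dvd (by omega) hdvd
    omega
  · have hfac : r ^ 2 - 1 = (r - 1) * (r + 1) := by
      obtain ⟨s, rfl⟩ : ∃ s, r = s + 1 := ⟨r - 1, by omega⟩
      simp only [Nat.add_sub_cancel]
      have : (s + 1) ^ 2 = s * (s + 1 + 1) + 1 := by ring
      omega
    rw [hfac] at hdvd
    rcases (Nat.Prime.dvd_mul hp).mp hdvd with h | h
    · exfalso
      have := Nat.le_of_dvd (by omega) h
      omega
    · have h2 := Nat.le_of_dvd (by omega) h
      have hne : r ≠ p := by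
        rintro rfl
        have h3 : r ∣ r ^ 2 - 1 := by rw [hfac]; exact Dvd.dvd.mul_left h _
        have h4 : r ∣ r ^ 2 := Dvd.intro_left (r ^ 1) (by ring)
        have h5 : r ∣ 1 := by
          have := (Nat.dvd_sub h4 h3)
          have h6 : r ^ 2 - (r ^ 2 - 1) = 1 := by
            have : 1 ≤ r ^ 2 := Nat.one_le_pow _ _ (by omega)
            omega
          rwa [h6] at this
        exact hr.one_lt.ne' (Nat.dvd_one.mp h5)
      have hpr : p = r + 1 := by omega
      subst hpr
      have : r = 2 := by
        rcases hr.eq_two_or_odd with h | h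
        · exact h
        · exfalso
          rcases hp.eq_two_or_odd with h' | h' <;> omega
      omega

theorem key : ∀ n : ℕ, ∀ (G : Type u) [Group G] [Finite G], Nat.card G = n →
    (∀ M : Subgroup G, IsCoatom M → ∃ p : ℕ, p.Prime ∧ (M.index = p ∨ M.index = p ^ 2)) →
    Group.IsSolvable G := by
  intro n
  induction n using Nat.strong_induction_on with
  | _ n ih =>
  intro G _ _ hn hmax
  by_cases hnt : Nontrivial G
  · obtain ⟨N, hNn, hN1, hmin⟩ := exists_isMinNormal (G := G)
    haveI := hNn
    have hNcard : 1 < Nat.card N := by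
      haveI : Nontrivial N := (Subgroup.nontrivial_iff_ne_bot N).mpr hN1
      exact Finite.one_lt_card
    have hq : Group.IsSolvable (G ⧸ N) := by
      refine ih _ ?_ (G ⧸ N) rfl ?_
      · have h1 := Subgroup.card_mul_index N
        have h2 : 0 < N.index := Nat.pos_of_ne_zero Subgroup.index_ne_zero_of_finite
        show N.index < n
        rw [← hn, ← h1]
        nlinarith
      · intro Mb hMb
        have hc : IsCoatom (Mb.comap (QuotientGroup.mk' N)) := by
          constructor
          · intro h
            apply hMb.1
            have := Subgroup.map_comap_eq_self_of_surjective (QuotientGroup.mk'_surjective N) Mb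
            rw [← this, h]
            ext x
            simp only [Subgroup.mem_map, Subgroup.mem_top, iff_true]
            obtain ⟨g, rfl⟩ := QuotientGroup.mk'_surjective N x
            exact ⟨g, trivial, rfl⟩
          · intro K hK
            have hNK : N ≤ K := by
              refine le_trans ?_ hK.le
              intro x hx
              show (x : G ⧸ N) ∈ Mb
              rw [(QuotientGroup.eq_one_iff x).mpr hx]
              exact Mb.one_mem
            have hcm : (K.map (QuotientGroup.mk' N)).comap (QuotientGroup.mk' N) = K := by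
              rw [Subgroup.comap_map_eq, QuotientGroup.ker_mk', sup_eq_left]
              exact hNK
            have hlt : Mb < K.map (QuotientGroup.mk' N) := by
              refine lt_of_le_of_ne ?_ ?_
              · have := Subgroup.map_mono (f := QuotientGroup.mk' N) hK.le
                rwa [Subgroup.map_comap_eq_self_of_surjective (QuotientGroup.mk'_surjective N)] at this
              · intro h
                apply hK.ne
                rw [← hcm, ← h]
            have := hMb.2 _ hlt
            rw [← hcm, this, Subgroup.comap_top]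
        obtain ⟨r, hr, hi⟩ := hmax _ hc
        rw [Subgroup.index_comap_of_surjective _ (QuotientGroup.mk'_surjective N)] at hi
        exact ⟨r, hr, hi⟩
    by_cases hNs : Group.IsSolvable N
    · refine Group.isSolvable_of_ker_le_range N.subtype (QuotientGroup.mk' N) ?_
      rw [QuotientGroup.ker_mk', Subgroup.range_subtype]
    · exfalso
      apply hNs
      -- the largest prime factor
      have hne : (Nat.card N).primeFactors.Nonempty :=
        Nat.nonempty_primeFactors.mpr hNcard
      set p := (Nat.card N).primeFactors.max' hne with hpdef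
      have hpmem : p ∈ (Nat.card N).primeFactors := Finset.max'_mem _ _
      have hp : p.Prime := Nat.prime_of_mem_primeFactors hpmem
      have hpdvd : p ∣ Nat.card N := Nat.dvd_of_mem_primeFactors hpmem
      have hple : ∀ q : ℕ, q.Prime → q ∣ Nat.card N → q ≤ p := by
        intro q hq hqd
        exact Finset.le_max' _ _ (Nat.mem_primeFactors.mpr ⟨hq, hqd, Nat.card_pos.ne'⟩)
      haveI : Fact p.Prime := ⟨hp⟩
      obtain ⟨P₀⟩ : Nonempty (Sylow p N) := inferInstance
      have hP₀ : (P₀ : Subgroup N) ≠ ⊥ := P₀.ne_bot_of_dvd_card hpdvd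
      set P : Subgroup G := (P₀ : Subgroup N).map N.subtype with hP
      have hPN : P ≤ N := by
        rintro x ⟨y, _, rfl⟩
        exact y.2
      have hPne : P ≠ ⊥ := by
        intro h
        apply hP₀
        exact (Subgroup.map_eq_bot_iff_of_injective _ N.subtype_injective).mp h
      have hfrat : Subgroup.normalizer (P : Set G) ⊔ N = ⊤ := Sylow.normalizer_sup_eq_top P₀
      have hnorm : Subgroup.normalizer (P : Set G) ≠ ⊤ := by
        intro h
        have hPn : P.Normal := Subgroup.normalizer_eq_top_iff.mp h
        rcases hmin P hPn hPN with h1 | h1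
        · exact absurd h1 hPne
        · -- `N` is a `p`-group
          have hcardN : ∃ k, Nat.card N = p ^ k := by
            have h2 : IsPGroup p P := by
              apply IsPGroup.map P₀.isPGroup'
            obtain ⟨k, hk⟩ := IsPGroup.iff_card.mp h2
            exact ⟨k, by rw [← h1]; exact hk⟩
          obtain ⟨k, hk⟩ := hcardN
          exact hNs (Cfsg.Agent.Lib.Char.Burnside.isSolvable_of_card_eq p p k 0 hp hp (by simpa using hk))
      obtain ⟨M, hM, hle⟩ := (eq_top_or_exists_le_coatom _).resolve_left hnorm
      obtain ⟨r, hr, hidx⟩ := hmax M hM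
      have hsup : M ⊔ N = ⊤ := by
        refine top_le_iff.mp ?_
        rw [← hfrat]
        exact sup_le_sup_right hle N
      have hrel : M.index = M.relIndex N := by
        rw [← relIndex_sup_eq, hsup, Subgroup.relIndex_top_right]
      set L : Subgroup N := M.subgroupOf N with hL
      have hLidx : L.index = M.index := by rw [hrel]; rfl
      have hnormL : Subgroup.normalizer (((P₀ : Subgroup N)) : Set N) ≤ L := by
        have h1 : (P.subgroupOf N) = (P₀ : Subgroup N) := by
          rw [hP]
          exact Subgroup.comap_map_eq_self_of_injective N.subtype_injective _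
        rw [← h1, ← Subgroup.subgroupOf_normalizer_eq hPN]
        exact fun x hx => hle hx
      have hmod : L.index ≡ 1 [MOD p] := index_modEq_one P₀ L hnormL
      rw [hLidx] at hmod
      have h1lt : 1 < M.index := Subgroup.one_lt_index_of_ne_top hM.1
      have hrdvd : r ∣ Nat.card N := by
        have h2 : r ∣ M.index := by
          rcases hidx with h | h <;> rw [h]
          exact Dvd.intro_left (r ^ 1) (by ring)
        rw [← hLidx] at h2
        exact h2.trans (Subgroup.index_dvd_card L)
      have hp3 : p = 3 := arith hp hr (hple r hr hrdvd) hidx h1lt hmod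
      obtain ⟨a, b, hab⟩ := exists_two_three (Nat.card N) Nat.card_pos.ne'
        (fun q hq hqd => hp3 ▸ hple q hq hqd)
      exact Cfsg.Agent.Lib.Char.Burnside.isSolvable_of_card_eq 2 3 a b (by norm_num) (by norm_num) hab
  · rw [not_nontrivial_iff_subsingleton] at hnt
    exact Cfsg.Agent.Lib.Char.Burnside.isSolvable_of_card_eq 2 2 0 0 (by norm_num) (by norm_num) (by simp)

/-- A finite group in which every maximal subgroup has index a prime or the square of a prime is solvable. -/
theorem result {G : Type*} [Group G] [Finite G] (h : ∀ M : Subgroup G, IsCoatom M → ∃ p : ℕ, p.Prime ∧ (M.index = p ∨ M.index = p ^ 2)) : Group.IsSolvable G := by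
  exact key _ G rfl h

end Cfsg.Agent.S4203
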