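import Cfsg.Statements.S4204

set_option autoImplicit false
open Cfsg

namespace Cfsg.Agent.S4204

open Subgroup

variable {G : Type*} [Group G]

theorem comm_le_iff (X Y M : Subgroup G) [hM : M.Normal] :
    ⁅X, Y⁆ ≤ M ↔ X.map (QuotientGroup.mk' M) ≤ centralizer ((Y.map (QuotientGroup.mk' M) : Subgroup (G ⧸ M)) : Set (G ⧸ M)) := by
  have hk : (QuotientGroup.mk' M).ker = M := QuotientGroup.ker_mk' M
  have key : ∀ X : Subgroup G, X ≤ M ↔ X.map (QuotientGroup.mk' M) = ⊥ := fun X => by
    rw [Subgroup.map_eq_bot_iff, hk]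
  rw [key, Subgroup.map_commutator, Subgroup.commutator_eq_bot_iff_le_centralizer]

theorem iSup_comm_le {ι : Sort*} (X : ι → Subgroup G) (Y M : Subgroup G) [M.Normal]
    (h : ∀ i, ⁅X i, Y⁆ ≤ M) : ⁅⨆ i, X i, Y⁆ ≤ M := by
  rw [comm_le_iff, Subgroup.map_iSup]
  exact iSup_le fun i => (comm_le_iff _ _ _).mp (h i)

theorem comm_sup_le (X Y₁ Y₂ M : Subgroup G) [M.Normal]
    (h₁ : ⁅X, Y₁⁆ ≤ M) (h₂ : ⁅X, Y₂⁆ ≤ M) : ⁅X, Y₁ ⊔ Y₂⁆ ≤ M := by
  rw [Subgroup.commutator_comm, comm_le_iff, Subgroup.map_sup]
  refine sup_le ?_ ?_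
  · exact (comm_le_iff _ _ _).mp (by rwa [Subgroup.commutator_comm])
  · exact (comm_le_iff _ _ _).mp (by rwa [Subgroup.commutator_comm])

/-- The series `γ'`: like the lower central series of `H`, but index `0` is the whole group and index
`n+1` is the usual `γ_{n}` (indexed from zero). -/
def gam (H : Subgroup G) : ℕ → Subgroup G
  | 0 => ⊤
  | n + 1 => H.lowerCentralSeries n

theorem lcs_normal (H : Subgroup G) [H.Normal] (n : ℕ) : (H.lowerCentralSeries n).Normal := by
  induction n with
  | zero => simpa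
  | succ d ih =>
    rw [Subgroup.lowerCentralSeries_succ]
    exact Subgroup.commutator_normal _ _

theorem gam_normal (H : Subgroup G) [H.Normal] (n : ℕ) : (gam H n).Normal := by
  cases n with
  | zero => exact inferInstanceAs (⊤ : Subgroup G).Normal
  | succ n => exact lcs_normal H n

theorem gam_comm (H : Subgroup G) [H.Normal] (n : ℕ) : ⁅gam H n, H⁆ ≤ gam H (n + 1) := by
  cases n with
  | zero =>
    show ⁅(⊤ : Subgroup G), H⁆ ≤ H
    exact Subgroup.commutator_le_right _ _
  | succ n => exact le_rfl

theorem gam_succ_le (H : Subgroup G) [H.Normal] (n : ℕ) : gam H (n + 1) ≤ gam H n := by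
  cases n with
  | zero => exact le_top
  | succ n =>
    show ⁅H.lowerCentralSeries n, H⁆ ≤ H.lowerCentralSeries n
    haveI := lcs_normal H n
    exact Subgroup.commutator_le_left _ _

theorem gam_antitone (H : Subgroup G) [H.Normal] {a b : ℕ} (h : a ≤ b) : gam H b ≤ gam H a := by
  induction h with
  | refl => exact le_rfl
  | step _ ih => exact (gam_succ_le H _).trans ih

/-- `W n`: the join of the intersections `γ'_a(H) ∩ γ'_b(K)` with `a + b = n`. -/
def W (H K : Subgroup G) (n : ℕ) : Subgroup G :=
  ⨆ p : Fin (n + 1), gam H p ⊓ gam K (n - p)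

theorem W_normal (H K : Subgroup G) [H.Normal] [K.Normal] (n : ℕ) : (W H K n).Normal := by
  unfold W
  have : ∀ p : Fin (n + 1), (gam H p ⊓ gam K (n - p)).Normal := fun p => by
    haveI := gam_normal H p
    haveI := gam_normal K (n - p)
    infer_instance
  exact Subgroup.iSup_normal (fun p : Fin (n + 1) => gam H p ⊓ gam K (n - p))

theorem le_W (H K : Subgroup G) {a b n : ℕ} (h : a + b = n) : gam H a ⊓ gam K b ≤ W H K n := by
  have hlt : a < n + 1 := by omega
  have hb : n - a = b := by omega
  have := le_iSup (fun p : Fin (n + 1) => gam H p ⊓ gam K (n - p)) ⟨a, hlt⟩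
  simp only [hb] at this
  exact this

theorem comm_W_le (H K : Subgroup G) [H.Normal] [K.Normal] (n : ℕ) :
    ⁅W H K n, H ⊔ K⁆ ≤ W H K (n + 1) := by
  haveI := W_normal H K (n + 1)
  apply iSup_comm_le
  intro p
  have hp : (p : ℕ) ≤ n := Nat.lt_succ_iff.mp p.2
  apply comm_sup_le
  · refine le_trans ?_ (le_W H K (a := p + 1) (b := n - p) (by omega))
    apply le_inf
    · exact (Subgroup.commutator_mono inf_le_left le_rfl).trans (gam_comm H p)
    · haveI := gam_normal K (n - p)
      exact (Subgroup.commutator_mono inf_le_right le_rfl).trans (Subgroup.commutator_le_left _ _)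
  · refine le_trans ?_ (le_W H K (a := p) (b := n - p + 1) (by omega))
    apply le_inf
    · haveI := gam_normal H p
      exact (Subgroup.commutator_mono inf_le_left le_rfl).trans (Subgroup.commutator_le_left _ _)
    · exact (Subgroup.commutator_mono inf_le_right le_rfl).trans (gam_comm K (n - p))

theorem lcs_le_W (H K : Subgroup G) [H.Normal] [K.Normal] (m : ℕ) :
    (H ⊔ K).lowerCentralSeries m ≤ W H K (m + 1) := by
  induction m with
  | zero =>
    rw [Subgroup.lowerCentralSeries_zero]
    refine sup_le ?_ ?_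
    · refine le_trans ?_ (le_W H K (a := 1) (b := 0) rfl)
      exact le_inf le_rfl le_top
    · refine le_trans ?_ (le_W H K (a := 0) (b := 1) rfl)
      exact le_inf le_top le_rfl
  | succ m ih =>
    rw [Subgroup.lowerCentralSeries_succ]
    exact (Subgroup.commutator_mono ih le_rfl).trans (comm_W_le H K _)

/-- If `H` and `K` are normal subgroups of a finite group with `H` nilpotent of class at most `c` and `K` nilpotent of class at most `d` (the terms with index `c`, respectively `d`, of their lower central series are trivial, indices starting at `0`), then `HK` is nilpotent of class at most `c + d`. -/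
theorem result {G : Type*} [Group G] [Finite G] (H K : Subgroup G) [H.Normal] [K.Normal] (c d : ℕ) (hH : H.lowerCentralSeries c = ⊥) (hK : K.lowerCentralSeries d = ⊥) : (H ⊔ K).lowerCentralSeries (c + d) = ⊥ := by
  rw [eq_bot_iff]
  refine (lcs_le_W H K (c + d)).trans ?_
  apply iSup_le
  intro p
  have hp : (p : ℕ) ≤ c + d + 1 := Nat.lt_succ_iff.mp p.2
  by_cases h : c + 1 ≤ (p : ℕ)
  · refine inf_le_left.trans ((gam_antitone H h).trans ?_)
    show H.lowerCentralSeries c ≤ ⊥
    rw [hH]
  · refine inf_le_right.trans ((gam_antitone K (a := d + 1) (b := c + d + 1 - p) (by omega)).trans ?_)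
    show K.lowerCentralSeries d ≤ ⊥
    rw [hK]

end Cfsg.Agent.S4204
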