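import Cfsg.Statements.S4205

set_option autoImplicit false
open Cfsg

namespace Cfsg.Agent.S4205

/-- In a finite group whose upper central series reaches the whole group at step `c` (nilpotent of class at most `c`), starting from any subgroup and taking normalizers `c` times reaches the whole group. -/
theorem result {G : Type*} [Group G] [Finite G] (c : ℕ) (hG : Subgroup.upperCentralSeries G c = ⊤) (H : Subgroup G) : (fun K : Subgroup G => Subgroup.normalizer (K : Set G))^[c] H = ⊤ := by
  have key : ∀ n : ℕ, (Subgroup.upperCentralSeries G n : Subgroup G) ≤
      (fun K : Subgroup G => Subgroup.normalizer (K : Set G))^[n] H := by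
    intro n
    induction n with
    | zero => simp
    | succ n ih =>
      rw [Function.iterate_succ_apply']
      set K := (fun K : Subgroup G => Subgroup.normalizer (K : Set G))^[n] H with hK
      have fwd : ∀ z ∈ Subgroup.upperCentralSeries G (n + 1), ∀ k ∈ K, z * k * z⁻¹ ∈ K := by
        intro z hz k hk
        have h1 := ih ((Subgroup.mem_upperCentralSeries_succ_iff).mp hz k)
        have h2 : z * k * z⁻¹ = (z * k * z⁻¹ * k⁻¹) * k := by group
        rw [h2]
        exact mul_mem h1 hk
      intro z hz
      rw [Subgroup.mem_normalizer_iff]
      intro k
      constructor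
      · intro hk
        exact fwd z hz k hk
      · intro hk
        have := fwd z⁻¹ (inv_mem hz) _ hk
        simpa [mul_assoc] using this
  exact top_le_iff.mp (hG ▸ key c)

end Cfsg.Agent.S4205
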