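import Cfsg.Statements.S4208
import Mathlib
import Cfsg.Agent.Lib.FG7.BurnsideBasis
import Cfsg.Agent.Lib.PGroups.Basic

set_option autoImplicit false
open Cfsg

namespace Cfsg.Agent.S4208

open Cfsg.Agent.Lib.FG7.BurnsideBasis
open scoped commutatorElement

universe u

/-- The number of linear automorphisms of a finite `F_p`-space. -/
theorem card_linAut {p r : ℕ} [Fact p.Prime] {V : Type*} [AddCommGroup V] [Module (ZMod p) V] [Finite V]
    (hcard : Nat.card V = p ^ r) :
    Nat.card (V ≃ₗ[ZMod p] V) = ∏ i ∈ Finset.range r, (p ^ r - p ^ i) := by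
  classical
  have hp : p.Prime := Fact.out
  letI : Fintype V := Fintype.ofFinite V
  haveI : Module.Finite (ZMod p) V := Module.Finite.of_finite
  have hfr : Module.finrank (ZMod p) V = r := by
    have h1 : Fintype.card V = Fintype.card (ZMod p) ^ Module.finrank (ZMod p) V :=
      Module.card_eq_pow_finrank
    rw [ZMod.card, ← Nat.card_eq_fintype_card, hcard] at h1
    exact (Nat.pow_right_injective hp.two_le h1).symm
  let b : Module.Basis (Fin r) (ZMod p) V := Module.finBasisOfFinrankEq (ZMod p) V hfr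
  have e1 : (V ≃ₗ[ZMod p] V) ≃* Matrix.GeneralLinearGroup (Fin r) (ZMod p) :=
    (LinearMap.GeneralLinearGroup.generalLinearEquiv (ZMod p) V).symm.trans
      (Units.mapEquiv (LinearMap.toMatrixAlgEquiv b).toMulEquiv)
  rw [Nat.card_congr e1.toEquiv, Matrix.card_GL_field, ZMod.card]
  rw [Finset.prod_range]

/-- Additive automorphisms are linear. -/
theorem card_addEquiv {p : ℕ} [Fact p.Prime] {V : Type*} [AddCommGroup V] [Module (ZMod p) V] :
    Nat.card (V ≃+ V) = Nat.card (V ≃ₗ[ZMod p] V) := by
  refine Nat.card_congr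
    { toFun := fun f =>
        { (f.toAddMonoidHom.toZModLinearMap p) with
          invFun := f.symm
          left_inv := f.left_inv
          right_inv := f.right_inv }
      invFun := fun L => L.toAddEquiv
      left_inv := ?_
      right_inv := ?_ }
  · intro f
    ext x
    rfl
  · intro L
    ext x
    rfl

/-- The number of automorphisms of an elementary abelian group. -/
theorem card_mulAut_elemAb {p r : ℕ} [Fact p.Prime] {Q : Type u} [CommGroup Q] [Finite Q]
    (hpow : ∀ a : Q, a ^ p = 1) (hcard : Nat.card Q = p ^ r) :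
    Nat.card (MulAut Q) = ∏ i ∈ Finset.range r, (p ^ r - p ^ i) := by
  classical
  letI : Module (ZMod p) (Additive Q) := AddCommGroup.zmodModule (fun x => by
    show Additive.ofMul ((Additive.toMul x) ^ p) = 0
    rw [hpow]
    rfl)
  have h1 : Nat.card (MulAut Q) = Nat.card (Additive Q ≃+ Additive Q) :=
    Nat.card_congr MulEquiv.toAdditive
  rw [h1, card_addEquiv (p := p), card_linAut (p := p) (V := Additive Q) hcard]

/-- Let `P` be a group of order `p^n` whose Frattini subgroup has index `p^r`. Then the order of the automorphism group of `P` divides `p^(r(n-r)) · (p^r - 1)(p^r - p) ⋯ (p^r - p^(r-1))`. -/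
theorem result {P : Type*} [Group P] [Finite P] {p n r : ℕ} [Fact p.Prime] (hP : Nat.card P = p ^ n) (hr : (frattini P).index = p ^ r) : Nat.card (MulAut P) ∣ p ^ (r * (n - r)) * ∏ i ∈ Finset.range r, (p ^ r - p ^ i) := by
  classical
  have hp : p.Prime := Fact.out
  have hG : IsPGroup p P := IsPGroup.of_card hP
  set Φ := frattini P with hΦ
  have hcomm : ∀ a b : P ⧸ Φ, a * b = b * a := by
    intro a b
    obtain ⟨x, rfl⟩ := QuotientGroup.mk_surjective a
    obtain ⟨y, rfl⟩ := QuotientGroup.mk_surjective b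
    show ((x * y : P) : P ⧸ Φ) = ((y * x : P) : P ⧸ Φ)
    rw [eq_comm, QuotientGroup.eq]
    have h1 : (y * x)⁻¹ * (x * y) = ⁅x⁻¹, y⁻¹⁆ := by
      simp [commutatorElement_def]
      group
    rw [h1]
    apply Cfsg.Agent.Lib.PGroups.Basic.commutator_le_frattini hG
    exact Subgroup.commutator_mem_commutator (Subgroup.mem_top _) (Subgroup.mem_top _)
  have hpow : ∀ a : P ⧸ Φ, a ^ p = 1 := by
    intro a
    obtain ⟨x, rfl⟩ := QuotientGroup.mk_surjective a
    show ((x ^ p : P) : P ⧸ Φ) = 1
    rw [QuotientGroup.eq_one_iff]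
    exact Cfsg.Agent.Lib.PGroups.Basic.pow_mem_frattini hG x
  let cg : CommGroup (P ⧸ Φ) := { (inferInstance : Group (P ⧸ Φ)) with mul_comm := hcomm }
  have hcardAut := card_mulAut_elemAb (Q := P ⧸ Φ) hpow hr
  -- the induced hom
  have hmap : ∀ α : MulAut P, Φ.map α.toMonoidHom = Φ := fun α =>
    (Subgroup.characteristic_iff_map_eq.mp inferInstance) α
  let φ : MulAut P →* MulAut (P ⧸ Φ) :=
    { toFun := fun α => QuotientGroup.congr Φ Φ α (hmap α)
      map_one' := by
        ext x
        obtain ⟨y, rfl⟩ := QuotientGroup.mk_surjective x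
        rfl
      map_mul' := by
        intro α β
        ext x
        obtain ⟨y, rfl⟩ := QuotientGroup.mk_surjective x
        rfl }
  have hker : ∀ α ∈ φ.ker, ∀ x : P, α x * x⁻¹ ∈ frattini P := by
    intro α hα x
    have h1 : φ α = 1 := hα
    have h2 : φ α (x : P ⧸ Φ) = (x : P ⧸ Φ) := by rw [h1]; rfl
    have h3 : ((α x : P) : P ⧸ Φ) = (x : P ⧸ Φ) := h2
    rw [eq_comm, QuotientGroup.eq] at h3
    have h4 : α x * x⁻¹ = x * (x⁻¹ * α x) * x⁻¹ := by group
    rw [h4]
    exact (inferInstance : (frattini P).Normal).conj_mem _ h3 x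
  have h1 := card_dvd hP hr φ.ker hker
  have h2 : Nat.card φ.range ∣ Nat.card (MulAut (P ⧸ Φ)) := Subgroup.card_subgroup_dvd_card _
  have h3 : Nat.card (MulAut (P ⧸ Φ)) = ∏ i ∈ Finset.range r, (p ^ r - p ^ i) := hcardAut
  rw [h3] at h2
  rw [← Subgroup.card_mul_index φ.ker, Subgroup.index_ker]
  exact mul_dvd_mul h1 h2

end Cfsg.Agent.S4208
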