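import Cfsg.Statements.S4210
import Mathlib
import Cfsg.Agent.Lib.FG7.RegularOmega

set_option autoImplicit false
open Cfsg

namespace Cfsg.Agent.S4210

/-- In a regular `p`-group, for all elements `a`, `b` and every power `q = p^k`: `a^q = b^q` if and only if `(ab⁻¹)^q = 1`. -/
theorem result {G : Type*} [Group G] [Finite G] {p : ℕ} [Fact p.Prime] (hG : Cfsg.IsRegularPGroup p G) (a b : G) (k : ℕ) : a ^ p ^ k = b ^ p ^ k ↔ (a * b⁻¹) ^ p ^ k = 1 := by
  have h1 := Cfsg.Agent.Lib.FG7.RegularOmega.pow_eq_iff hG.1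
    (Cfsg.Agent.Lib.Regular.Basic.regN_of_isRegularPGroup hG k) b a
  have h2 : (a * b⁻¹) ^ p ^ k = b * (b⁻¹ * a) ^ p ^ k * b⁻¹ := by
    rw [← conj_pow]
    congr 1
    group
  constructor
  · intro h
    rw [h2, h1.mpr h.symm]
    simp
  · intro h
    rw [h2] at h
    have h3 : (b⁻¹ * a) ^ p ^ k = 1 := by
      have := congrArg (fun z => b⁻¹ * z * b) h
      simpa [mul_assoc] using this
    exact (h1.mp h3).symm

end Cfsg.Agent.S4210
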