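import Cfsg.Statements.S4212
import Mathlib
import Cfsg.Agent.Lib.FG7.FrobeniusCount

set_option autoImplicit false
open Cfsg

namespace Cfsg.Agent.S4212

open Cfsg.Agent.Lib.FG7.FrobeniusCount Subgroup

/-- Let `G` be a finite group of order `g`, `c` an element whose conjugacy class has `h` elements, and `n` a natural number. Then the number of elements `x` of `G` with `x^n` conjugate to `c` is a multiple of `gcd(hn, g)`. -/
theorem result {G : Type*} [Group G] [Finite G] (c : G) (n : ℕ) : Nat.gcd (Nat.card {y : G // IsConj c y} * n) (Nat.card G) ∣ Nat.card {x : G // IsConj c (x ^ n)} := by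
  classical
  letI := Fintype.ofFinite G
  set C := centralizer ({c} : Set G) with hC
  have hcC : c ∈ C := mem_centralizer_singleton_iff.mpr rfl
  set h := Nat.card {y : G // IsConj c y} with hh
  have hidx : h = C.index := card_isConj_eq_index c
  have hcard : Nat.card G = h * Nat.card C := by
    rw [hidx, mul_comm]
    exact (card_mul_index C).symm
  -- the count of solutions in `G`
  have hcentral : (⟨c, hcC⟩ : C) ∈ center C := by
    rw [mem_center_iff]
    intro g
    apply Subtype.ext
    exact mem_centralizer_singleton_iff.mp g.2
  have hfrob := gcd_dvd_card_pow_eq hcentral n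
  have hN₀ : Nat.card {y : C // y ^ n = (⟨c, hcC⟩ : C)} = Nat.card {y : G // y ^ n = c} := by
    refine Nat.card_congr
      { toFun := fun y => ⟨y.1, congrArg Subtype.val y.2⟩
        invFun := fun y => ⟨⟨y.1, ?_⟩, ?_⟩
        left_inv := fun y => rfl
        right_inv := fun y => rfl }
    · rw [mem_centralizer_singleton_iff]
      have h2 : Commute y.1 (y.1 ^ n) := ((Commute.refl y.1).pow_right n)
      rw [y.2] at h2
      exact h2
    · apply Subtype.ext
      exact y.2
  rw [hN₀] at hfrob
  -- the fibres
  have hN : Nat.card {x : G // IsConj c (x ^ n)} = h * Nat.card {y : G // y ^ n = c} := by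
    rw [card_subtype_eq_filter]
    rw [Finset.card_eq_sum_card_fiberwise (f := fun x : G => x ^ n)
      (t := Finset.univ.filter (fun y : G => IsConj c y)) (fun x hx => by simpa using hx)]
    have h1 : ∀ y ∈ Finset.univ.filter (fun y : G => IsConj c y),
        ((Finset.univ.filter (fun x : G => IsConj c (x ^ n))).filter (fun x => x ^ n = y)).card =
          Nat.card {y : G // y ^ n = c} := by
      intro y hy
      have hy' : IsConj c y := (Finset.mem_filter.mp hy).2
      have h2 : (Finset.univ.filter (fun x : G => IsConj c (x ^ n))).filter (fun x => x ^ n = y) =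
          Finset.univ.filter (fun x : G => x ^ n = y) := by
        ext x
        simp only [Finset.mem_filter, Finset.mem_univ, true_and]
        constructor
        · exact fun h => h.2
        · intro h
          exact ⟨h ▸ hy', h⟩
      rw [h2, ← card_subtype_eq_filter]
      obtain ⟨g, rfl⟩ := isConj_iff.mp hy'
      symm
      refine card_congr_conj g ?_
      intro u
      rw [conj_pow]
      constructor
      · intro h
        rw [h]
      · intro h
        have := congrArg (fun z => g⁻¹ * z * g) h
        simpa [mul_assoc] using this
    rw [Finset.sum_congr rfl h1, Finset.sum_const, smul_eq_mul, ← card_subtype_eq_filter]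
  rw [hN, hcard, Nat.gcd_mul_left]
  exact mul_dvd_mul_left h hfrob

end Cfsg.Agent.S4212
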