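import Cfsg.Statements.S4216
import Mathlib
import Cfsg.Agent.Lib.PLocal.AlperinApps

set_option autoImplicit false
open Cfsg
open scoped commutatorElement

namespace Cfsg.Agent.S4216

/-- Grün's first Theorem: if `P` is a Sylow `p`-subgroup of the finite group `G`, then `P ∩ G'` is the subgroup generated by `P ∩ N_G(P)'` together with the subgroups `P ∩ z P' z⁻¹` for all `z ∈ G`, where `'` denotes the derived subgroup and `N_G(P)` the normalizer of `P`. -/
theorem result {G : Type*} [Group G] [Finite G] {p : ℕ} [Fact p.Prime] (P : Sylow p G) : (P : Subgroup G) ⊓ commutator G = ((P : Subgroup G) ⊓ ⁅Subgroup.normalizer ((P : Subgroup G) : Set G), Subgroup.normalizer ((P : Subgroup G) : Set G)⁆) ⊔ ⨆ z : G, (P : Subgroup G) ⊓ (⁅(P : Subgroup G), (P : Subgroup G)⁆).map (MulAut.conj z).toMonoidHom := by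
  classical
  set N : Subgroup G := Subgroup.normalizer ((P : Subgroup G) : Set G) with hN
  set RHS : Subgroup G := ((P : Subgroup G) ⊓ ⁅N, N⁆) ⊔
    ⨆ z : G, (P : Subgroup G) ⊓ (⁅(P : Subgroup G), (P : Subgroup G)⁆).map (MulAut.conj z).toMonoidHom with hRHS
  have hPN : (P : Subgroup G) ≤ N := Subgroup.le_normalizer
  apply le_antisymm
  · rw [Cfsg.Agent.Lib.PLocal.AlperinApps.inf_commutator_eq_focalLocal]
    unfold Cfsg.Agent.Lib.PLocal.AlperinApps.focalLocal
    apply sup_le
    · apply le_sup_of_le_left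
      rw [Subgroup.commutator_le]
      intro u hu n hn
      refine ⟨?_, Subgroup.commutator_mem_commutator (hPN hu) hn⟩
      rw [commutatorElement_def]
      have h1 : n * u⁻¹ * n⁻¹ ∈ (P : Subgroup G) :=
        (Subgroup.mem_normalizer_iff.mp hn u⁻¹).mp ((P : Subgroup G).inv_mem hu)
      have h2 : u * n * u⁻¹ * n⁻¹ = u * (n * u⁻¹ * n⁻¹) := by group
      rw [h2]
      exact (P : Subgroup G).mul_mem hu h1
    · apply iSup_le
      intro Q
      apply iSup_le
      rintro ⟨hQ1, -⟩
      apply iSup_le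
      intro x
      apply iSup_le
      rintro ⟨hx, k, hk⟩
      set D : Subgroup G := (P : Subgroup G) ⊓ (Q : Subgroup G) with hD
      set M : Subgroup G := Subgroup.normalizer (D : Set G) with hM
      rw [Subgroup.commutator_le]
      intro y hy g hg
      obtain ⟨l, rfl⟩ := Subgroup.mem_zpowers_iff.mp hg
      have hgM : x ^ l ∈ M := M.zpow_mem hx l
      have hDM : D ≤ M := Subgroup.le_normalizer
      have hyD : y ∈ D := hy
      have hyP : y ∈ (P : Subgroup G) := hyD.1
      have hyM : y ∈ M := hDM hyD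
      have hS₁ : IsPGroup p (((P : Subgroup G) ⊓ M : Subgroup G).subgroupOf M) :=
        ((P.2.to_le inf_le_left :
          IsPGroup p ((P : Subgroup G) ⊓ M : Subgroup G))).comap_subtype
      let S : Sylow p M := hS₁.toSylow hQ1
      have hSmem : ∀ u : M, u ∈ S ↔ (u : G) ∈ (P : Subgroup G) ⊓ M := fun u => Iff.rfl
      have hgp : IsPGroup p (Subgroup.zpowers (⟨x, hx⟩ : M)) := by
        apply IsPGroup.of_card (n := k)
        rw [Nat.card_zpowers, ← hk]
        exact (Subgroup.orderOf_mk x hx)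
      obtain ⟨T, hT⟩ := hgp.exists_le_sylow
      obtain ⟨n, hn⟩ := MulAction.exists_smul_eq M S T
      have hTmem : ∀ u : M, u ∈ T ↔ (n : M)⁻¹ * u * n ∈ S := by
        intro u
        rw [← hn]
        exact Cfsg.Agent.Lib.Transfer.Frobenius.mem_smul_sylow_iff n u S
      have hxT : (⟨x, hx⟩ : M) ∈ T := hT (Subgroup.mem_zpowers _)
      have hgT : (⟨x ^ l, hgM⟩ : M) ∈ T := by
        have : (⟨x ^ l, hgM⟩ : M) = (⟨x, hx⟩ : M) ^ l := rfl
        rw [this]
        exact T.1.zpow_mem hxT l
      have hconjD : ((n : G))⁻¹ * y * n ∈ D := by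
        have h1 := (Subgroup.mem_normalizer_iff.mp (M.inv_mem n.2) y).mp hyD
        simpa using h1
      have hy' : (n : G)⁻¹ * y * n ∈ (P : Subgroup G) := hconjD.1
      have hg' : (n : G)⁻¹ * x ^ l * n ∈ (P : Subgroup G) := ((hSmem _).mp ((hTmem _).mp hgT)).1
      apply Subgroup.mem_sup_right
      refine Subgroup.mem_iSup_of_mem (n : G) ⟨?_, ?_⟩
      · have h1 : x ^ l * y⁻¹ * (x ^ l)⁻¹ ∈ D := (Subgroup.mem_normalizer_iff.mp hgM y⁻¹).mp (D.inv_mem hyD)
        have h2 : ⁅y, x ^ l⁆ = y * (x ^ l * y⁻¹ * (x ^ l)⁻¹) := by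
          rw [commutatorElement_def]
          group
        rw [h2]
        exact (P : Subgroup G).mul_mem hyP h1.1
      · refine ⟨⁅(n : G)⁻¹ * y * n, (n : G)⁻¹ * x ^ l * n⁆,
          Subgroup.commutator_mem_commutator hy' hg', ?_⟩
        simp only [MulEquiv.coe_toMonoidHom, MulAut.conj_apply, commutatorElement_def]
        group
  · apply sup_le
    · exact inf_le_inf_left _ (Subgroup.commutator_mono le_top le_top)
    · apply iSup_le
      intro z
      apply inf_le_inf_left
      rintro _ ⟨c, hc, rfl⟩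
      have h1 : c ∈ commutator G := Subgroup.commutator_mono le_top le_top hc
      exact (inferInstance : (commutator G).Normal).conj_mem c h1 z

end Cfsg.Agent.S4216
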