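import Cfsg.Statements.S4217
import Cfsg.Agent.Lib.Solvable.Gaschutz2

set_option autoImplicit false
open Cfsg

namespace Cfsg.Agent.S4217

/-- Let `A` be an abelian normal subgroup of the finite group `G`. Then `A` has a complement in `G` if and only if, for every prime `p` dividing the index of `A`, there are a Sylow `p`-subgroup `S` of `G/A` and a subgroup `K` of `G` with `K ∩ A = 1` and `KA` equal to the preimage of `S` (that is, `A` has a complement in the preimage of a Sylow `p`-subgroup of `G/A`). -/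
theorem result {G : Type*} [Group G] [Finite G] (A : Subgroup G) [A.Normal] (hA : IsMulCommutative A) : (∃ K : Subgroup G, K.IsComplement' A) ↔ ∀ p : ℕ, p.Prime → p ∣ A.index → ∃ (S : Sylow p (G ⧸ A)) (K : Subgroup G), K ⊓ A = ⊥ ∧ K ⊔ A = (S : Subgroup (G ⧸ A)).comap (QuotientGroup.mk' A) := by
  classical
  have := hA
  constructor
  · rintro ⟨K, hK⟩ p hp -
    have : Fact p.Prime := ⟨hp⟩
    let S : Sylow p (G ⧸ A) := default
    let U : Subgroup G := (S : Subgroup (G ⧸ A)).comap (QuotientGroup.mk' A)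
    have hAU : A ≤ U := by
      intro x hx
      show QuotientGroup.mk' A x ∈ (S : Subgroup (G ⧸ A))
      rw [show QuotientGroup.mk' A x = 1 from (QuotientGroup.eq_one_iff x).mpr hx]
      exact Subgroup.one_mem _
    refine ⟨S, K ⊓ U, ?_, ?_⟩
    · rw [eq_bot_iff]
      rintro x ⟨⟨hx1, -⟩, hx2⟩
      have := hK.disjoint
      exact (disjoint_iff.mp this) ▸ (⟨hx1, hx2⟩ : x ∈ K ⊓ A)
    · apply le_antisymm (sup_le inf_le_right hAU)
      intro x hx
      obtain ⟨⟨k, a⟩, hka⟩ := hK.2 x
      have h1 : (k : G) * a = x := hka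
      have h2 : (k : G) ∈ U := by
        have := U.mul_mem hx (U.inv_mem (hAU a.2))
        rw [← h1] at this
        simpa using this
      rw [← h1]
      exact Subgroup.mul_mem _ ((le_sup_left : K ⊓ U ≤ _) ⟨k.2, h2⟩) ((le_sup_right : A ≤ _) a.2)
  · intro h
    by_cases hn : A.index = 1
    · rw [Subgroup.index_eq_one] at hn
      subst hn
      exact ⟨⊥, Subgroup.isComplement'_bot_top⟩
    have hcr := Cfsg.Agent.Lib.Solvable.Gaschutz2.hasCrossedPow_of_sylows A hn h
    obtain ⟨H, hH⟩ := Cfsg.Agent.Lib.Solvable.Gaschutz.exists_complement_of_hasCrossedPow_one A hcr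
    exact ⟨H, hH.symm⟩

end Cfsg.Agent.S4217
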