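import Cfsg.Statements.S4218
import Cfsg.Agent.Lib.Core.FrattiniFaithful

set_option autoImplicit false
open Cfsg

namespace Cfsg.Agent.S4218

/-- Let `G` be a finite `p`-solvable group, `N₀ = O_{p'}(G)`, `P₁ = O_{p',p}(G)`, and let `F ≤ P₁` be the preimage of the Frattini subgroup of `P₁/N₀`. Then an element `g` of `G` induces the identity on `P₁/F` by conjugation (that is, `g x g⁻¹ x⁻¹ ∈ F` for all `x ∈ P₁`) if and only if `g ∈ P₁`: the group `G/P₁` acts faithfully on `P₁/F`. -/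
theorem result {G : Type*} [Group G] [Finite G] {p : ℕ} [Fact p.Prime] (hG : Cfsg.IsPSolvable p G) (g : G) : (∀ x ∈ Cfsg.pPrimePCore p G, g * x * g⁻¹ * x⁻¹ ∈ ((frattini (↥(Cfsg.pPrimePCore p G) ⧸ (Cfsg.pPrimeCore p G).subgroupOf (Cfsg.pPrimePCore p G))).comap (QuotientGroup.mk' ((Cfsg.pPrimeCore p G).subgroupOf (Cfsg.pPrimePCore p G)))).map (Cfsg.pPrimePCore p G).subtype) ↔ g ∈ Cfsg.pPrimePCore p G := by
  constructor
  · intro hg
    rw [Cfsg.Agent.Lib.Core.Series.mem_pPrimePCore_iff]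
    have hS' : Cfsg.IsPSolvable p (G ⧸ Cfsg.pPrimeCore p G) :=
      Cfsg.Agent.Lib.Core.PSolvable.isPSolvable_of_surjective (QuotientGroup.mk' _)
        (QuotientGroup.mk'_surjective _) hG
    refine Cfsg.Agent.Lib.Core.FrattiniFaithful.mem_pCore_of_commutator_mem_frattini hS'
      Cfsg.Agent.Lib.Core.Basic.pPrimeCore_quotient_eq_bot (g : G ⧸ Cfsg.pPrimeCore p G) ?_
    intro t ht
    obtain ⟨x, rfl⟩ := QuotientGroup.mk_surjective t
    have hx : x ∈ Cfsg.pPrimePCore p G := ht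
    obtain ⟨z, hz, hze⟩ := hg x hx
    let φ₀ : ↥(Cfsg.pPrimePCore p G) →* ↥(Cfsg.pCore p (G ⧸ Cfsg.pPrimeCore p G)) :=
      ((QuotientGroup.mk' (Cfsg.pPrimeCore p G)).comp (Cfsg.pPrimePCore p G).subtype).codRestrict
        _ (fun y => y.2)
    have hφ₀ : ∀ y ∈ (Cfsg.pPrimeCore p G).subgroupOf (Cfsg.pPrimePCore p G), φ₀ y = 1 := by
      intro y hy
      apply Subtype.ext
      exact (QuotientGroup.eq_one_iff _).mpr hy
    let φ := QuotientGroup.lift ((Cfsg.pPrimeCore p G).subgroupOf (Cfsg.pPrimePCore p G)) φ₀ hφ₀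
    have hφ : Function.Surjective φ := by
      rintro ⟨t, ht⟩
      obtain ⟨y, rfl⟩ := QuotientGroup.mk_surjective t
      exact ⟨((⟨y, ht⟩ : ↥(Cfsg.pPrimePCore p G)) : _ ⧸ _), rfl⟩
    have h1 := frattini_le_comap_frattini_of_surjective hφ hz
    rw [Subgroup.mem_comap] at h1
    refine ⟨_, h1, ?_⟩
    rw [← QuotientGroup.mk_mul, ← QuotientGroup.mk_inv, ← QuotientGroup.mk_mul, ← QuotientGroup.mk_inv,
      ← QuotientGroup.mk_mul, ← hze]
    rfl
  · intro hg x hx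
    refine ⟨(⟨g, hg⟩ * ⟨x, hx⟩ * (⟨g, hg⟩ : ↥(Cfsg.pPrimePCore p G))⁻¹ *
      (⟨x, hx⟩ : ↥(Cfsg.pPrimePCore p G))⁻¹), ?_, rfl⟩
    refine Subgroup.mem_comap.mpr ?_
    apply Cfsg.Agent.Lib.PGroups.Basic.commutator_le_frattini
      (Cfsg.Agent.Lib.Core.FrattiniFaithful.isPGroup_quotient_pPrimePCore p)
    rw [MonoidHom.map_mul, MonoidHom.map_mul, MonoidHom.map_mul, map_inv, map_inv]
    have := Subgroup.commutator_mem_commutator (Subgroup.mem_top
      (QuotientGroup.mk' ((Cfsg.pPrimeCore p G).subgroupOf (Cfsg.pPrimePCore p G)) ⟨g, hg⟩))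
      (Subgroup.mem_top
      (QuotientGroup.mk' ((Cfsg.pPrimeCore p G).subgroupOf (Cfsg.pPrimePCore p G)) ⟨x, hx⟩))
    rw [commutatorElement_def] at this
    exact this

end Cfsg.Agent.S4218
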