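import Cfsg.Statements.S4219
import Cfsg.Agent.Lib.Perm.Witt

set_option autoImplicit false
open Cfsg

namespace Cfsg.Agent.S4219

/-- Let a finite group `G` act `t`-fold transitively on a finite set, let `H` be the stabilizer of `t` distinct points and `P` a Sylow `p`-subgroup of `H`. Then the normalizer of `P` in `G` is `t`-fold transitive on the fixed points of `P`: any `t` distinct fixed points of `P` can be carried to any other `t` distinct fixed points of `P` by an element normalizing `P`. -/
theorem result {G : Type*} [Group G] [Finite G] {α : Type*} [Fintype α] [MulAction G α] {t : ℕ} (hG : MulAction.IsMultiplyPretransitive G α t) (x : Fin t ↪ α) {p : ℕ} [Fact p.Prime] (P : Sylow p (MulAction.stabilizer G x)) (a b : Fin t ↪ α) (ha : ∀ i, a i ∈ MulAction.fixedPoints ((P : Subgroup (MulAction.stabilizer G x)).map (MulAction.stabilizer G x).subtype) α) (hb : ∀ i, b i ∈ MulAction.fixedPoints ((P : Subgroup (MulAction.stabilizer G x)).map (MulAction.stabilizer G x).subtype) α) : ∃ g ∈ Subgroup.normalizer ((((P : Subgroup (MulAction.stabilizer G x)).map (MulAction.stabilizer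 G x).subtype) : Subgroup G) : Set G), g • a = b := by
  classical
  let Q : Subgroup G := (P : Subgroup (MulAction.stabilizer G x)).map (MulAction.stabilizer G x).subtype
  have hQp : IsPGroup p Q := P.isPGroup'.map _
  have hfix : ∀ c : Fin t ↪ α, (∀ i, c i ∈ MulAction.fixedPoints Q α) → Q ≤ MulAction.stabilizer G c := by
    intro c hc q hq
    rw [MulAction.mem_stabilizer_iff]
    ext i
    exact hc i ⟨q, hq⟩
  have hQa := hfix a ha
  have hQb := hfix b hb
  obtain ⟨g₀, hg₀⟩ := hG.exists_smul_eq a b
  have hcardPQ : Nat.card Q = Nat.card (P : Subgroup (MulAction.stabilizer G x)) :=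
    Subgroup.card_map_of_injective (MulAction.stabilizer G x).subtype_injective
  have hind : ¬ p ∣ (Q.subgroupOf (MulAction.stabilizer G a)).index := by
    obtain ⟨g₁, hg₁⟩ := hG.exists_smul_eq x a
    have hcard : Nat.card (MulAction.stabilizer G a) = Nat.card (MulAction.stabilizer G x) := by
      rw [← hg₁, MulAction.stabilizer_smul_eq_stabilizer_map_conj]
      exact Subgroup.card_map_of_injective (MulAut.conj g₁).injective
    have h1 := Subgroup.index_mul_card (Q.subgroupOf (MulAction.stabilizer G a))
    have h2 := Subgroup.index_mul_card (P : Subgroup (MulAction.stabilizer G x))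
    have h3 : Nat.card (Q.subgroupOf (MulAction.stabilizer G a)) = Nat.card Q :=
      Nat.card_congr (Subgroup.subgroupOfEquivOfLe hQa).toEquiv
    rw [h3, hcard, hcardPQ, ← h2] at h1
    have h4 := Nat.eq_of_mul_eq_mul_right Nat.card_pos h1
    rw [h4]
    exact P.not_dvd_index
  obtain ⟨h, hhL, hh⟩ := Cfsg.Agent.Lib.Perm.Witt.frattini_sylow hQp hQa hQb g₀ (by
    intro y
    simp only [MulAction.mem_stabilizer_iff]
    constructor
    · intro hy
      rw [← hg₀]
      simp [mul_smul, hy]
    · intro hy
      rw [← hg₀] at hy
      simpa [mul_smul] using hy) hind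
  refine ⟨h * g₀, hh, ?_⟩
  rw [mul_smul, hg₀]
  exact hhL

end Cfsg.Agent.S4219
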