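import Cfsg.Statements.S4222

set_option autoImplicit false
open Cfsg

namespace Cfsg.Agent.S4222

/-- If a normal subgroup `N` of a finite group is complete (its centre is trivial and every automorphism of `N` is inner), then the group is the internal direct product of `N` and the centralizer of `N`: the centralizer is a complement to `N`. -/
theorem result {T : Type*} [Group T] [Finite T] (N : Subgroup T) [N.Normal] (hz : Subgroup.center ↥N = ⊥) (ha : Function.Surjective (MulAut.conj : ↥N →* MulAut ↥N)) : (Subgroup.centralizer (N : Set T)).IsComplement' N := by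
  apply Subgroup.isComplement'_of_disjoint_and_mul_eq_univ
  · rw [disjoint_iff, eq_bot_iff]
    intro x hx
    obtain ⟨hx1, hx2⟩ := Subgroup.mem_inf.mp hx
    have : (⟨x, hx2⟩ : N) ∈ Subgroup.center N := by
      rw [Subgroup.mem_center_iff]
      intro g
      apply Subtype.ext
      have := (Subgroup.mem_centralizer_iff.mp hx1) g.1 g.2
      exact this
    rw [hz, Subgroup.mem_bot] at this
    simpa using congrArg Subtype.val this
  · ext t
    simp only [Set.mem_mul, SetLike.mem_coe, Set.mem_univ, iff_true]
    -- conjugation by t on N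
    let φ : N ≃* N := (MulAut.conjNormal t)
    obtain ⟨n, hn⟩ := ha φ
    refine ⟨t * (n : T)⁻¹, ?_, n, n.2, by group⟩
    rw [Subgroup.mem_centralizer_iff]
    intro y hy
    -- y' = n⁻¹ y n ∈ N
    have hy' : (n : T)⁻¹ * y * n ∈ N := by
      have := (‹N.Normal›).conj_mem y hy (n : T)⁻¹
      simpa using this
    have h : ((MulAut.conj n) ⟨_, hy'⟩ : N) = φ ⟨_, hy'⟩ := by rw [hn]
    have h2 : (n : T) * ((n : T)⁻¹ * y * n) * (n : T)⁻¹ = t * ((n : T)⁻¹ * y * n) * t⁻¹ := by
      have := congrArg Subtype.val h
      simpa [φ] using this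
    have h3 : y = t * ((n : T)⁻¹ * y * n) * t⁻¹ := by
      rw [← h2]; group
    calc y * (t * (n : T)⁻¹) = t * ((n : T)⁻¹ * y * n) * t⁻¹ * (t * (n : T)⁻¹) := by rw [← h3]
      _ = t * (n : T)⁻¹ * y := by group

end Cfsg.Agent.S4222
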