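import Cfsg.Statements.S4227
import Cfsg.Agent.Lib.Core.PLength
import Cfsg.Agent.Lib.Core.PSolvable2
import Cfsg.Agent.Lib.Char.Burnside
import Cfsg.Agent.Lib.Solvable.Fitting
import Cfsg.Agent.S3783

set_option autoImplicit false
set_option linter.style.haveILetI false
open Cfsg

namespace Cfsg.Agent.S4227

open Cfsg.Agent.Lib.Core.PLength Cfsg.Agent.Lib.Core.PSolvable

theorem solvable_of_six {G : Type*} [Group G] [Finite G] (h : ∀ x : G, x ^ 6 = 1) :
    Group.IsSolvable G := by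
  have hne : Nat.card G ≠ 0 := Nat.card_pos.ne'
  have hq : ∀ q : ℕ, q.Prime → q ∣ Nat.card G → q = 2 ∨ q = 3 := by
    intro q hq hd
    have : Fact q.Prime := ⟨hq⟩
    obtain ⟨x, hx⟩ := exists_prime_orderOf_dvd_card' q hd
    have h1 : q ∣ 6 := hx ▸ orderOf_dvd_of_pow_eq_one (h x)
    have h2 : q ∣ 2 * 3 := h1
    rcases (Nat.Prime.dvd_mul hq).mp h2 with h3 | h3
    · left; exact (Nat.prime_dvd_prime_iff_eq hq Nat.prime_two).mp h3
    · right; exact (Nat.prime_dvd_prime_iff_eq hq Nat.prime_three).mp h3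
  obtain ⟨a, m, hm2, hn⟩ := Nat.exists_eq_pow_mul_and_not_dvd hne 2 (by norm_num)
  have hm0 : m ≠ 0 := by
    rintro rfl
    exact hne (by rw [hn]; simp)
  obtain ⟨b, m', hm3, hm⟩ := Nat.exists_eq_pow_mul_and_not_dvd hm0 3 (by norm_num)
  have hm' : m' = 1 := by
    by_contra hne1
    obtain ⟨q, hqp, hqd⟩ := Nat.exists_prime_and_dvd hne1
    have hqm : q ∣ m := hm ▸ hqd.trans (Dvd.intro_left _ rfl)
    rcases hq q hqp (hn ▸ hqm.trans (Dvd.intro_left _ rfl)) with rfl | rfl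
    · exact hm2 hqm
    · exact hm3 hqd
  apply Cfsg.Agent.Lib.Char.Burnside.isSolvable_of_card_eq 2 3 a b Nat.prime_two Nat.prime_three
  rw [hn, hm, hm', mul_one]

theorem sq_of_ne_three {G : Type*} [Group G] [Finite G] (h : ∀ x : G, x ^ 6 = 1) (q : ℕ) [hq : Fact q.Prime]
    (hq3 : q ≠ 3) (Q : Sylow q G) (x : G) (hx : x ∈ (Q : Subgroup G)) : x ^ 2 = 1 := by
  obtain ⟨k, hk⟩ := Q.isPGroup' ⟨x, hx⟩
  have h1 : x ^ q ^ k = 1 := by simpa using congrArg Subtype.val hk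
  have h2 : orderOf x ∣ q ^ k := orderOf_dvd_of_pow_eq_one h1
  have h3 : orderOf x ∣ 3 * 2 := orderOf_dvd_of_pow_eq_one (h x)
  have h4 : (orderOf x).Coprime 3 := by
    apply Nat.Coprime.coprime_dvd_left h2
    apply Nat.Coprime.pow_left
    exact (Nat.coprime_primes hq.out Nat.prime_three).mpr hq3
  exact orderOf_dvd_iff_pow_eq_one.mp (h4.dvd_of_dvd_mul_left h3)

theorem cube_of_three {G : Type*} [Group G] [Finite G] (h : ∀ x : G, x ^ 6 = 1) [Fact (3 : ℕ).Prime]
    (Q : Sylow 3 G) (x : G) (hx : x ∈ (Q : Subgroup G)) : x ^ 3 = 1 := by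
  obtain ⟨k, hk⟩ := Q.isPGroup' ⟨x, hx⟩
  have h1 : x ^ 3 ^ k = 1 := by simpa using congrArg Subtype.val hk
  have h2 : orderOf x ∣ 3 ^ k := orderOf_dvd_of_pow_eq_one h1
  have h3 : orderOf x ∣ 2 * 3 := orderOf_dvd_of_pow_eq_one (h x)
  have h4 : (orderOf x).Coprime 2 := by
    apply Nat.Coprime.coprime_dvd_left h2
    apply Nat.Coprime.pow_left
    norm_num
  exact orderOf_dvd_iff_pow_eq_one.mp (h4.dvd_of_dvd_mul_left h3)

theorem comm_of_sq {G : Type*} [Group G] (Q : Subgroup G) (hQ : ∀ x ∈ Q, x ^ 2 = 1) :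
    IsMulCommutative Q := by
  refine ⟨⟨fun a b => ?_⟩⟩
  have h1 : ∀ y : Q, y⁻¹ = y := by
    intro y
    rw [inv_eq_iff_mul_eq_one, ← pow_two]
    exact Subtype.ext (hQ y y.2)
  have h2 := h1 (a * b)
  rw [mul_inv_rev, h1, h1] at h2
  exact h2.symm

theorem two_part {G : Type*} [Group G] [Finite G] (h : ∀ x : G, x ^ 6 = 1) :
    PLengthLE 2 1 G := by
  have : Fact (2 : ℕ).Prime := ⟨Nat.prime_two⟩
  have hsol := solvable_of_six h
  rw [show (1 : ℕ) = 0 + 1 from rfl, pLengthLE_succ_iff, pLengthLE_zero_iff]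
  let H := G ⧸ pPrimeCore 2 G
  have hH : ∀ x : H, x ^ 6 = 1 := by
    intro x
    obtain ⟨y, rfl⟩ := QuotientGroup.mk_surjective x
    rw [← QuotientGroup.mk_pow, h y]
    rfl
  have hbot : pPrimeCore 2 H = ⊥ := Cfsg.Agent.Lib.Core.Basic.pPrimeCore_quotient_eq_bot
  have hsH : Group.IsSolvable H := inferInstance
  obtain ⟨T⟩ : Nonempty (Sylow 2 H) := inferInstance
  have hT := comm_of_sq (T : Subgroup H) (sq_of_ne_three hH 2 (by norm_num) T)
  have hKT : pCore 2 H ≤ (T : Subgroup H) := Cfsg.Agent.Lib.Core.Basic.pCore_le_sylow T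
  have hTK : (T : Subgroup H) ≤ pCore 2 H := by
    refine le_trans ?_ (Cfsg.Agent.Lib.Solvable.Fitting.centralizer_pCore_le 2 hbot)
    intro t ht
    rw [Subgroup.mem_centralizer_iff]
    intro k hk
    have := hT.is_comm.comm ⟨k, hKT hk⟩ ⟨t, ht⟩
    exact congrArg Subtype.val this
  have hEq : (T : Subgroup H) = pCore 2 H := le_antisymm hTK hKT
  have hidx : (pPrimePCore 2 G).index = (pCore 2 H).index := by
    unfold pPrimePCore
    exact Subgroup.index_comap_of_surjective _ (QuotientGroup.mk'_surjective _)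
  have hcard : Nat.card (G ⧸ pPrimePCore 2 G) = (pCore 2 H).index := hidx
  rw [hcard, ← hEq, Nat.coprime_comm, Nat.Prime.coprime_iff_not_dvd Nat.prime_two]
  exact T.not_dvd_index

/-- A finite group in which every element has order dividing `6` has `2`-length at most `1` and `3`-length at most `1`. -/
theorem result {G : Type*} [Group G] [Finite G] (h : ∀ x : G, x ^ 6 = 1) : Cfsg.PLengthLE 2 1 G ∧ Cfsg.PLengthLE 3 1 G := by
  refine ⟨two_part h, ?_⟩
  have : Fact (3 : ℕ).Prime := ⟨Nat.prime_three⟩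
  have hsol := solvable_of_six h
  refine Cfsg.Agent.S3783.result ?_ ?_ 1 ?_
  · exact Cfsg.Agent.Lib.Core.PSolvable2.isPSolvable_of_isSolvable
  · intro q _ hq3 Q
    exact comm_of_sq _ (sq_of_ne_three h q hq3 Q)
  · intro P x hx
    simpa using cube_of_three h P x hx

end Cfsg.Agent.S4227
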