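import Cfsg.Statements.S4274
import Mathlib
import Cfsg.Agent.Lib.FG85.Cert175560
import Cfsg.Agent.Lib.FG85.SylowHall
import Cfsg.Agent.Lib.Coprime.Action
-- import your own Cfsg.Agent.* helpers here

set_option autoImplicit false
open Cfsg

namespace Cfsg.Agent.S4274


universe u

open Cfsg.Agent.Lib.FG85.Cert175560 in
theorem pp_lt {q k : ℕ} (hq : q.Prime) (h : q ^ k ∣ 9240) : q ^ k < 19 := by
  by_contra hx
  have h1 : q ^ k ∈ D := mem_D (h.trans (by norm_num))
  have h2 : ∀ x ∈ D, x ∣ 9240 → 19 ≤ x → ∃ a ∈ [2, 3, 5, 7, 11], ∃ b ∈ [2, 3, 5, 7, 11],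
      a ≠ b ∧ a ∣ x ∧ b ∣ x := by decide +kernel
  obtain ⟨a, ha, b, hb, hab, h3, h4⟩ := h2 _ h1 h (by omega)
  have hap : a.Prime := by
    simp only [List.mem_cons, List.not_mem_nil, or_false] at ha
    rcases ha with rfl | rfl | rfl | rfl | rfl <;> norm_num
  have hbp : b.Prime := by
    simp only [List.mem_cons, List.not_mem_nil, or_false] at hb
    rcases hb with rfl | rfl | rfl | rfl | rfl <;> norm_num
  have h5 := (Nat.prime_dvd_prime_iff_eq hap hq).1 (hap.dvd_of_dvd_pow h3)
  have h6 := (Nat.prime_dvd_prime_iff_eq hbp hq).1 (hbp.dvd_of_dvd_pow h4)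
  exact hab (h5.trans h6.symm)

open Cfsg.Agent.Lib.Coprime.Action in
/-- `P` of prime order 19 normalizing `K` of order prime to `19` with all Sylow subgroups small
centralizes `K`. -/
theorem centralizes_aux {X : Type u} [Group X] [Finite X] [hf : Fact (Nat.Prime 19)]
    (P K : Subgroup X)
    (hPcard : Nat.card P = 19) (hPK : P ≤ Subgroup.normalizer (K : Set X))
    (hK : Nat.card K ∣ 9240) : K ≤ Subgroup.centralizer (P : Set X) := by
  have hcyc : IsCyclic P := isCyclic_of_prime_card hPcard
  have hcomm : IsMulCommutative P := IsCyclic.isMulCommutative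
  have hsolv : Group.IsSolvable P := isSolvable_of_comm (fun a b => hcomm.is_comm.comm a b)
  have hPp : IsPGroup 19 P := by
    apply IsPGroup.of_card (n := 1)
    rw [hPcard, pow_one]
  have hcop : (Nat.card P).Coprime (Nat.card K) := by
    rw [hPcard]
    apply (Nat.Prime.coprime_iff_not_dvd hf.out).2
    intro h
    have := h.trans hK
    norm_num at this
  set C : Subgroup X := K ⊓ Subgroup.centralizer (P : Set X) with hC
  have hCK : C ≤ K := inf_le_left
  have hrel : C.relIndex K = 1 := by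
    by_contra hne
    obtain ⟨q, hq, hqd⟩ := Nat.exists_prime_and_dvd hne
    haveI : Fact q.Prime := ⟨hq⟩
    obtain ⟨Q, hQ, hQn⟩ := exists_invariant_sylowIn (p := q) (A := P) (K := K) hPK hcop (Or.inl hsolv)
    obtain ⟨hQK, hQp, hQi⟩ := hQ
    obtain ⟨k, hk⟩ := IsPGroup.iff_card.1 hQp
    have hQd : Nat.card Q ∣ 9240 := (Subgroup.card_dvd_of_le hQK).trans hK
    have hlt : Nat.card Q < 19 := by
      rw [hk] at hQd ⊢
      exact pp_lt hq hQd
    have hmod := Cfsg.Agent.Lib.FG85.SylowHall.card_modEq_card_inf_centralizer_of_isPGroup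
      P Q hPp hQn
    have hle : Nat.card (Q ⊓ Subgroup.centralizer (P : Set X) : Subgroup X) ≤ Nat.card Q :=
      Nat.le_of_dvd Nat.card_pos (Subgroup.card_dvd_of_le inf_le_left)
    have heq : Nat.card Q = Nat.card (Q ⊓ Subgroup.centralizer (P : Set X) : Subgroup X) := by
      have h1 : Nat.card Q % 19 = Nat.card (Q ⊓ Subgroup.centralizer (P : Set X) : Subgroup X) % 19 := hmod
      rw [Nat.mod_eq_of_lt hlt, Nat.mod_eq_of_lt (lt_of_le_of_lt hle hlt)] at h1
      exact h1
    have hQC : Q ≤ Subgroup.centralizer (P : Set X) := by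
      have h1 : Q ⊓ Subgroup.centralizer (P : Set X) = Q :=
        Subgroup.eq_of_le_of_card_ge inf_le_left heq.le
      exact inf_eq_left.1 h1
    have hQCC : Q ≤ C := le_inf hQK hQC
    have h2 := Subgroup.relIndex_mul_relIndex Q C K hQCC hCK
    apply hQi
    rw [← h2]
    exact Dvd.dvd.mul_left hqd _
  exact (Subgroup.relIndex_eq_one.1 hrel).trans inf_le_right

theorem normal_of_sub {X : Type u} [Group X] [Finite X] [hf : Fact (Nat.Prime 19)] (L : Subgroup X)
    [hL : L.Normal] (hsq : ¬ 19 ^ 2 ∣ Nat.card L) (S : Subgroup L) (hS : S.Normal)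
    (hcard : Nat.card S = 19) : (S.map L.subtype).Normal := by
  have h1 : IsPGroup 19 S := by
    apply IsPGroup.of_card (n := 1)
    rw [hcard, pow_one]
  obtain ⟨T, hT⟩ := h1.exists_le_sylow
  have h19 : 19 ∣ Nat.card L := by
    rw [← hcard]
    exact Subgroup.card_subgroup_dvd_card S
  have hTcard : Nat.card (T : Subgroup L) = 19 :=
    Cfsg.Agent.Lib.FG85.PrimeSylow.card_sylow_eq h19 hsq T
  have hST : S = T := Subgroup.eq_of_le_of_card_ge hT (by rw [hTcard, hcard])
  have hTn : (T : Subgroup L).Normal := hST ▸ hS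
  haveI hch : (T : Subgroup L).Characteristic := Sylow.characteristic_of_normal T hTn
  rw [hST]
  infer_instance

theorem normal_of_normal_sub {X : Type u} [Group X] [Finite X] [hf : Fact (Nat.Prime 19)]
    (hsq : ¬ 19 ^ 2 ∣ Nat.card X) (S : Subgroup X) (hS : S.Normal) (hcard : Nat.card S = 19)
    (P : Sylow 19 X) : (P : Subgroup X).Normal := by
  have h1 : IsPGroup 19 S := by
    apply IsPGroup.of_card (n := 1)
    rw [hcard, pow_one]
  have hT : S ≤ (P : Subgroup X) := h1.le_sylow_of_normal P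
  have h19 : 19 ∣ Nat.card X := by
    rw [← hcard]
    exact Subgroup.card_subgroup_dvd_card S
  have hTcard : Nat.card (P : Subgroup X) = 19 :=
    Cfsg.Agent.Lib.FG85.PrimeSylow.card_sylow_eq h19 hsq P
  have hST : S = P := Subgroup.eq_of_le_of_card_ge hT (by rw [hTcard, hcard])
  exact hST ▸ hS

theorem claim : ∀ (n : ℕ) (X : Type u) [Group X] [Finite X], Nat.card X = n → n ∣ 175560 →
    (n ≠ 175560 ∨ ¬ IsSimpleGroup X) → ∀ P : Sylow 19 X, (P : Subgroup X).Normal := by
  intro n
  induction n using Nat.strong_induction_on with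
  | _ n ih =>
  intro X _ _ hn hdvd hcond P
  haveI hf : Fact (Nat.Prime 19) := ⟨by norm_num⟩
  have hnpos : 0 < n := by rw [← hn]; exact Nat.card_pos
  have hnle : n ≤ 175560 := Nat.le_of_dvd (by norm_num) hdvd
  have hsqall : ¬ 19 ^ 2 ∣ n := fun h => by
    have := h.trans hdvd
    norm_num at this
  by_cases h19 : 19 ∣ n
  swap
  · -- `P` is trivial
    have hb : (P : Subgroup X) = ⊥ := by
      obtain ⟨k, hk⟩ := IsPGroup.iff_card.1 P.isPGroup'
      have hk0 : k = 0 := by
        by_contra hk0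
        apply h19
        rw [← hn]
        have h1 : 19 ∣ Nat.card (P : Subgroup X) := by
          rw [hk]
          exact dvd_pow_self _ hk0
        exact h1.trans (Subgroup.card_subgroup_dvd_card _)
      rw [hk0, pow_zero] at hk
      exact Subgroup.eq_bot_of_card_eq _ hk
    rw [hb]
    infer_instance
  have hPcard : Nat.card (P : Subgroup X) = 19 :=
    Cfsg.Agent.Lib.FG85.PrimeSylow.card_sylow_eq (hn ▸ h19) (hn ▸ hsqall) P
  by_cases hs : IsSimpleGroup X
  · have hne : n ≠ 175560 := by
      rcases hcond with h | h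
      · exact h
      · exact absurd hs h
    by_cases hnc : IsMulCommutative X
    · constructor
      intro x hx g
      have h1 := hnc.is_comm.comm g x
      rw [h1, mul_inv_cancel_right]
      exact hx
    · exact (Cfsg.Agent.Lib.FG85.Cert175560.false_of_simple hnc (hn ▸ hdvd) (hn ▸ h19)
        (hn ▸ hne)).elim
  -- not simple
  rcases subsingleton_or_nontrivial X with hsub | hnt
  · exfalso
    have : Nat.card X = 1 := Nat.card_unique
    rw [hn] at this
    subst this
    norm_num at h19
  obtain ⟨K, hK, hKbot, hKtop⟩ : ∃ K : Subgroup X, K.Normal ∧ K ≠ ⊥ ∧ K ≠ ⊤ := by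
    by_contra h
    apply hs
    refine ⟨fun H hH => ?_⟩
    by_contra h2
    push Not at h2
    exact h ⟨H, hH, h2.1, h2.2⟩
  have hcardK : 1 < Nat.card K := by
    have := Subgroup.one_lt_card_iff_ne_bot K |>.2 hKbot
    exact this
  have hmul : Nat.card K * Nat.card (X ⧸ K) = n := by
    rw [← hn, mul_comm]
    exact (Subgroup.card_eq_card_quotient_mul_card_subgroup K).symm
  have hcardQ : 1 < Nat.card (X ⧸ K) := by
    have h1 : K.index ≠ 1 := by
      intro h
      exact hKtop (Subgroup.index_eq_one.1 h)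
    have h2 : K.index ≠ 0 := Subgroup.index_ne_zero_of_finite
    have h3 : K.index = Nat.card (X ⧸ K) := rfl
    omega
  have hKlt : Nat.card K < n := by
    rw [← hmul]
    exact lt_mul_of_one_lt_right (by omega) hcardQ
  have hQlt : Nat.card (X ⧸ K) < n := by
    rw [← hmul]
    exact lt_mul_of_one_lt_left (by omega) hcardK
  have hKd : Nat.card K ∣ 175560 := (Dvd.intro _ hmul).trans hdvd
  have hQd : Nat.card (X ⧸ K) ∣ 175560 := (Dvd.intro_left _ hmul).trans hdvd
  by_cases hK19 : 19 ∣ Nat.card K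
  · have hKsq : ¬ 19 ^ 2 ∣ Nat.card K := fun h =>
      hsqall ((h.trans (Dvd.intro _ hmul)))
    obtain ⟨T⟩ : Nonempty (Sylow 19 K) := inferInstance
    have hTn : (T : Subgroup K).Normal :=
      ih _ hKlt K rfl hKd (Or.inl (by omega)) T
    have hTcard : Nat.card (T : Subgroup K) = 19 :=
      Cfsg.Agent.Lib.FG85.PrimeSylow.card_sylow_eq hK19 hKsq T
    have h1 := normal_of_sub K hKsq T hTn hTcard
    refine normal_of_normal_sub (hn ▸ hsqall) _ h1 ?_ P
    rw [Subgroup.card_map_of_injective K.subtype_injective, hTcard]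
  · -- quotient
    have hQn : ∀ R : Sylow 19 (X ⧸ K), (R : Subgroup (X ⧸ K)).Normal :=
      ih _ hQlt (X ⧸ K) rfl hQd (Or.inl (by omega))
    have h1 := hQn (P.mapSurjective (QuotientGroup.mk'_surjective K))
    have h2 : (P : Subgroup X).map (QuotientGroup.mk' K) =
        ((P.mapSurjective (QuotientGroup.mk'_surjective K) : Sylow 19 (X ⧸ K)) : Subgroup (X ⧸ K)) := rfl
    rw [← h2] at h1
    have h3 : ((P : Subgroup X).map (QuotientGroup.mk' K)).comap (QuotientGroup.mk' K) =
        (P : Subgroup X) ⊔ K := by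
      rw [Subgroup.comap_map_eq, QuotientGroup.ker_mk']
    have hLn : ((P : Subgroup X) ⊔ K).Normal := by
      rw [← h3]
      exact h1.comap _
    have hKd' : Nat.card K ∣ 9240 := by
      have h4 : Nat.Coprime (Nat.card K) 19 :=
        ((Nat.Prime.coprime_iff_not_dvd hf.out).2 hK19).symm
      exact h4.dvd_of_dvd_mul_left (by simpa using hKd)
    have hPN : (P : Subgroup X) ≤ Subgroup.normalizer (K : Set X) := by
      rw [Subgroup.normalizer_eq_top_iff.2 hK]
      exact le_top
    have hcent := centralizes_aux (P : Subgroup X) K hPcard hPN hKd'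
    set L : Subgroup X := (P : Subgroup X) ⊔ K with hL
    have hPL : (P : Subgroup X) ≤ L := le_sup_left
    have hSn : ((P : Subgroup X).subgroupOf L).Normal := by
      constructor
      rintro ⟨y, hy⟩ hy' ⟨x, hx⟩
      have hy'' : y ∈ (P : Subgroup X) := hy'
      show x * y * x⁻¹ ∈ (P : Subgroup X)
      have hx' : x ∈ ((P : Subgroup X) ⊔ K : Subgroup X) := hx
      have hx'' : x ∈ (((P : Subgroup X) ⊔ K : Subgroup X) : Set X) := hx'
      rw [Subgroup.mul_normal] at hx''
      obtain ⟨p, hp, k, hk, rfl⟩ := Set.mem_mul.1 hx''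
      have h5 : k * y = y * k := (Subgroup.mem_centralizer_iff.1 (hcent hk) y hy'').symm
      have h6 : p * k * y * (p * k)⁻¹ = p * y * p⁻¹ := by
        calc p * k * y * (p * k)⁻¹ = p * (k * y) * k⁻¹ * p⁻¹ := by group
          _ = p * (y * k) * k⁻¹ * p⁻¹ := by rw [h5]
          _ = p * y * p⁻¹ := by group
      rw [h6]
      exact mul_mem (mul_mem hp hy'') (inv_mem hp)
    have hScard : Nat.card ((P : Subgroup X).subgroupOf L) = 19 := by
      rw [Nat.card_congr (Subgroup.subgroupOfEquivOfLe hPL).toEquiv, hPcard]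
    have hLsq : ¬ 19 ^ 2 ∣ Nat.card L := fun h =>
      hsqall (hn ▸ (h.trans (Subgroup.card_subgroup_dvd_card L)))
    have h7 := normal_of_sub L hLsq _ hSn hScard
    rw [Subgroup.subgroupOf_map_subtype, inf_eq_left.2 hPL] at h7
    exact h7



/-- A finite group of order 175560 = 2³·3·5·7·11·19 is either simple or has a normal Sylow 19-subgroup. -/
theorem result {G : Type*} [Group G] [Finite G] (hG : Nat.card G = 175560) : IsSimpleGroup G ∨ ∀ P : Sylow 19 G, (P : Subgroup G).Normal := by
  by_cases hs : IsSimpleGroup G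
  · exact Or.inl hs
  · exact Or.inr (claim _ G hG (by rfl) (Or.inr hs))

end Cfsg.Agent.S4274
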