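import Cfsg.Statements.S4275

set_option autoImplicit false
open Cfsg

namespace Cfsg.Agent.S4275


/-- Let G be a transitive group of permutations of a finite set Ω, let o ∈ Ω, and let α be an automorphism of G. Then α is induced by conjugation by a permutation of Ω normalizing G if and only if the image under α of the stabilizer of o fixes some point of Ω. -/
theorem result {Ω : Type*} [Fintype Ω] (G : Subgroup (Equiv.Perm Ω)) (htr : MulAction.IsPretransitive G Ω) (o : Ω) (α : G ≃* G) : (∃ σ : Equiv.Perm Ω, σ ∈ Subgroup.normalizer (G : Set (Equiv.Perm Ω)) ∧ ∀ g : G, ((α g : G) : Equiv.Perm Ω) = σ * (g : Equiv.Perm Ω) * σ⁻¹) ↔ ∃ ω : Ω, ∀ g ∈ (MulAction.stabilizer G o).map α.toMonoidHom, g • ω = ω := by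
  classical
  constructor
  · rintro ⟨σ, -, hσ⟩
    refine ⟨σ o, ?_⟩
    rintro g ⟨h, hh, rfl⟩
    have hh' : (h : Equiv.Perm Ω) o = o := by
      have := MulAction.mem_stabilizer_iff.mp hh
      simpa [Subgroup.smul_def] using this
    change ((α h : G) : Equiv.Perm Ω) (σ o) = σ o
    rw [hσ h]
    simp [hh']
  · rintro ⟨ω, hω⟩
    -- stabilizers have equal size
    have hidx : ∀ a : Ω, (MulAction.stabilizer G a).index = Nat.card Ω := by
      intro a
      rw [MulAction.index_stabilizer, MulAction.orbit_eq_univ, Set.ncard_univ]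
    have hcard : ∀ a b : Ω, Nat.card (MulAction.stabilizer G a) = Nat.card (MulAction.stabilizer G b) := by
      intro a b
      have h1 := Subgroup.card_mul_index (MulAction.stabilizer G a)
      have h2 := Subgroup.card_mul_index (MulAction.stabilizer G b)
      rw [hidx] at h1 h2
      haveI : Nonempty Ω := ⟨a⟩
      have hpos : 0 < Nat.card Ω := Nat.card_pos
      exact Nat.eq_of_mul_eq_mul_right hpos (h1.trans h2.symm)
    have hle : (MulAction.stabilizer G o).map α.toMonoidHom ≤ MulAction.stabilizer G ω := by
      intro g hg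
      exact MulAction.mem_stabilizer_iff.mpr (hω g hg)
    have heq : (MulAction.stabilizer G o).map α.toMonoidHom = MulAction.stabilizer G ω := by
      apply Subgroup.eq_of_le_of_card_ge hle
      have : Nat.card ((MulAction.stabilizer G o).map α.toMonoidHom) = Nat.card (MulAction.stabilizer G o) :=
        Subgroup.card_map_of_injective α.injective
      rw [this, hcard ω o]
    -- the bijection
    have hex : ∀ x : Ω, ∃ g : G, g • o = x := fun x => htr.exists_smul_eq o x
    choose c hc using hex
    let f : Ω → Ω := fun x => (α (c x)) • ω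
    have hwd : ∀ (g g' : G), g • o = g' • o → (α g) • ω = (α g') • ω := by
      intro g g' h
      have h1 : g⁻¹ * g' ∈ MulAction.stabilizer G o := by
        rw [MulAction.mem_stabilizer_iff, mul_smul, ← h, inv_smul_smul]
      have h2 : α (g⁻¹ * g') ∈ MulAction.stabilizer G ω := by
        rw [← heq]; exact Subgroup.mem_map_of_mem _ h1
      rw [MulAction.mem_stabilizer_iff, map_mul, map_inv, mul_smul, inv_smul_eq_iff] at h2
      exact h2.symm
    have hf : ∀ (g : G) (x : Ω), f (g • x) = (α g) • f x := by
      intro g x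
      have h1 : c (g • x) • o = (g * c x) • o := by
        rw [hc, mul_smul, hc]
      have h2 := hwd _ _ h1
      change α (c (g • x)) • ω = α g • (α (c x) • ω)
      rw [h2, map_mul, mul_smul]
    have hinj : Function.Injective f := by
      intro x y hxy
      change α (c x) • ω = α (c y) • ω at hxy
      have h1 : α ((c x)⁻¹ * c y) ∈ MulAction.stabilizer G ω := by
        rw [MulAction.mem_stabilizer_iff, map_mul, map_inv, mul_smul, ← hxy, inv_smul_smul]
      rw [← heq] at h1
      obtain ⟨k, hk, hk2⟩ := h1
      have h2 : k = (c x)⁻¹ * c y := α.injective hk2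
      rw [h2] at hk
      have hk3 : ((c x)⁻¹ * c y) • o = o := MulAction.mem_stabilizer_iff.mp hk
      rw [mul_smul, inv_smul_eq_iff, hc, hc] at hk3
      exact hk3.symm
    let σ : Equiv.Perm Ω := Equiv.ofBijective f (Finite.injective_iff_bijective.mp hinj)
    have hσ : ∀ g : G, ((α g : G) : Equiv.Perm Ω) = σ * (g : Equiv.Perm Ω) * σ⁻¹ := by
      intro g
      rw [eq_mul_inv_iff_mul_eq]
      ext x
      have := hf g x
      simp only [Equiv.Perm.coe_mul, Function.comp_apply]
      exact this.symm
    refine ⟨σ, ?_, hσ⟩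
    rw [Subgroup.mem_normalizer_iff]
    intro h
    constructor
    · intro hh
      have := hσ ⟨h, hh⟩
      simp only at this
      rw [← this]
      exact (α ⟨h, hh⟩).2
    · intro hh
      have h1 := hσ (α.symm ⟨σ * h * σ⁻¹, hh⟩)
      simp only [MulEquiv.apply_symm_apply] at h1
      have h2 : h = ((α.symm ⟨σ * h * σ⁻¹, hh⟩ : G) : Equiv.Perm Ω) := by
        have h3 := h1
        have h4 : σ⁻¹ * (σ * h * σ⁻¹) * σ = σ⁻¹ * (σ * ((α.symm ⟨σ * h * σ⁻¹, hh⟩ : G) : Equiv.Perm Ω) * σ⁻¹) * σ := by
          rw [← h3]
        simpa [mul_assoc] using h4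
      rw [h2]
      exact (α.symm _).2


end Cfsg.Agent.S4275
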