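import Cfsg.Statements.S4276
import Cfsg.Agent.S4275

set_option autoImplicit false
open Cfsg

namespace Cfsg.Agent.S4276

open Matrix

section matrices

variable {Ω : Type*} [Fintype Ω] [DecidableEq Ω] {G : Subgroup (Equiv.Perm Ω)}

/-- twisted invariance of a matrix -/
def IsInv (γ : MulAut G) (A : Matrix Ω Ω ℤ) : Prop :=
  ∀ (h : G) (ν x : Ω), A (h • ν) ((γ h) • x) = A ν x

theorem IsInv.mul {γ δ : MulAut G} {A B : Matrix Ω Ω ℤ} (hA : IsInv γ A) (hB : IsInv δ B) :
    IsInv (δ * γ) (A * B) := by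
  intro h ν y
  simp only [Matrix.mul_apply]
  refine Fintype.sum_equiv (MulAction.toPerm (γ h)).symm _ _ ?_
  intro x
  have h1 := hA h ν ((γ h)⁻¹ • x)
  have h2 := hB (γ h) ((γ h)⁻¹ • x) y
  simp only [MulAction.toPerm_symm_apply, MulAut.mul_apply]
  rw [smul_inv_smul] at h1 h2
  rw [h1, h2]

theorem isInv_one : IsInv (1 : MulAut G) (1 : Matrix Ω Ω ℤ) := by
  intro h ν x
  simp [Matrix.one_apply]

theorem IsInv.pow {γ : MulAut G} {A : Matrix Ω Ω ℤ} (hA : IsInv γ A) (n : ℕ) :
    IsInv (γ ^ n) (A ^ n) := by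
  induction n with
  | zero => simpa using isInv_one
  | succ n ih =>
    rw [pow_succ A, pow_succ' γ]
    exact ih.mul hA

theorem IsInv.transpose {γ : MulAut G} {A : Matrix Ω Ω ℤ} (hA : IsInv γ A) :
    IsInv γ⁻¹ Aᵀ := by
  intro h ν x
  simp only [Matrix.transpose_apply]
  have := hA (γ⁻¹ h) x ν
  have e : γ (γ⁻¹ h) = h := by
    rw [← MulAut.mul_apply]; simp
  rwa [e] at this

/-- the all ones matrix -/
def allOnes (Ω : Type*) : Matrix Ω Ω ℤ := Matrix.of fun _ _ => 1

theorem allOnes_mul_allOnes : allOnes Ω * allOnes Ω = (Fintype.card Ω : ℤ) • allOnes Ω := by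
  ext i j
  simp [allOnes, Matrix.mul_apply]

theorem two_trans_form (h2 : ∀ a b c d : Ω, a ≠ b → c ≠ d → ∃ g : G, g • a = c ∧ g • b = d)
    (h1 : ∀ a c : Ω, ∃ g : G, g • a = c)
    (hn : 2 ≤ Fintype.card Ω) {A : Matrix Ω Ω ℤ} (hA : IsInv (1 : MulAut G) A) :
    ∃ a b : ℤ, A = a • (1 : Matrix Ω Ω ℤ) + b • allOnes Ω := by
  obtain ⟨ν₀, x₀, hne⟩ := Fintype.exists_pair_of_one_lt_card (α := Ω) (by omega)
  refine ⟨A ν₀ ν₀ - A ν₀ x₀, A ν₀ x₀, ?_⟩
  ext ν x
  simp only [Matrix.add_apply, Matrix.smul_apply, smul_eq_mul, Matrix.one_apply, allOnes,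
    Matrix.of_apply, mul_one]
  by_cases hx : ν = x
  · subst hx
    obtain ⟨g, hg⟩ := h1 ν₀ ν
    have := hA g ν₀ ν₀
    simp only [MulAut.one_apply, hg] at this
    simp [this]
  · obtain ⟨g, hg1, hg2⟩ := h2 ν₀ x₀ ν x hne hx
    have := hA g ν₀ x₀
    simp only [MulAut.one_apply, hg1, hg2] at this
    simp [hx, this]

end matrices

/-- the arithmetic core -/
theorem arith_core (n k f : ℕ) (hn : 2 ≤ n) (hk1 : 1 ≤ k) (hkn : k < n) (hcop : k.Coprime n)
    (c l a b : ℤ) (h1 : c * ((n : ℤ) - 1) = k * ((n : ℤ) - k))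
    (h2 : (k : ℤ) ^ 2 = c + l * n) (h3 : a ^ 2 = c ^ (2 * f + 1))
    (h4 : a + b * n = (k : ℤ) ^ (2 * f + 1)) : k = 1 ∨ k = n - 1 := by
  have hnZ : (2 : ℤ) ≤ n := by exact_mod_cast hn
  have hkZ1 : (1 : ℤ) ≤ k := by exact_mod_cast hk1
  have hkZn : (k : ℤ) < n := by exact_mod_cast hkn
  have hcpos : 0 < c := by
    by_contra hc
    push Not at hc
    have h5 : c * ((n : ℤ) - 1) ≤ 0 := mul_nonpos_of_nonpos_of_nonneg hc (by linarith)
    have h6 : 0 < (k : ℤ) * ((n : ℤ) - k) := mul_pos (by linarith) (by linarith)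
    linarith
  -- c is a square
  obtain ⟨s, hs⟩ : ∃ s : ℤ, a = c ^ f * s ∧ c = s ^ 2 := by
    have hd : (c ^ f) ^ 2 ∣ a ^ 2 := by
      rw [h3]
      exact ⟨c, by ring⟩
    have hd' : c ^ f ∣ a := (Int.pow_dvd_pow_iff (by norm_num)).mp hd
    obtain ⟨s, hs⟩ := hd'
    refine ⟨s, hs, ?_⟩
    have h7 : (c ^ f) ^ 2 * c = (c ^ f) ^ 2 * s ^ 2 := by
      calc (c ^ f) ^ 2 * c = c ^ (2 * f + 1) := by ring
        _ = a ^ 2 := h3.symm
        _ = (c ^ f) ^ 2 * s ^ 2 := by rw [hs]; ring
    have h8 : (c ^ f) ^ 2 ≠ 0 := by positivity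
    exact mul_left_cancel₀ h8 h7
  obtain ⟨has, hcs⟩ := hs
  have hs0 : s ≠ 0 := by
    rintro rfl
    simp at hcs
    linarith
  -- coprimality
  have hcop1 : IsCoprime (k : ℤ) (n : ℤ) := Nat.isCoprime_iff_coprime.mpr hcop
  have hcop2 : IsCoprime ((k : ℤ) ^ 2) (n : ℤ) := hcop1.pow_left
  have hcop3 : IsCoprime (s ^ 2) (n : ℤ) := by
    have : (k : ℤ) ^ 2 = s ^ 2 + l * n := by rw [h2, hcs]
    rw [this] at hcop2
    exact (IsCoprime.add_mul_right_left_iff).mp hcop2
  have hcop4 : IsCoprime (s ^ (2 * f)) (n : ℤ) := by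
    rw [pow_mul]; exact hcop3.pow_left
  -- congruence
  have hmod : ((k : ℤ) ^ 2) ^ f ≡ (s ^ 2) ^ f [ZMOD n] := by
    apply Int.ModEq.pow
    rw [h2, hcs]
    apply Int.modEq_iff_dvd.mpr
    exact ⟨-l, by ring⟩
  have hkey : (n : ℤ) ∣ ((k : ℤ) - s) * s ^ (2 * f) := by
    have h9 := hmod.dvd
    -- (s²)^f - (k²)^f divisible by n
    obtain ⟨w, hw⟩ := h9
    refine ⟨b + (k : ℤ) * w, ?_⟩
    have e1 : a = s ^ (2 * f) * s := by
      rw [has, hcs, pow_mul]
    have e2 : (k : ℤ) ^ (2 * f + 1) = k * ((k : ℤ) ^ 2) ^ f := by ring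
    have e3 : ((s ^ 2) ^ f : ℤ) = s ^ (2 * f) := by rw [pow_mul]
    rw [e3] at hw
    have e4 : ((k : ℤ) ^ 2) ^ f = s ^ (2 * f) - n * w := by linarith
    rw [e2, e4, e1] at h4
    linear_combination (-1) * h4
  have hdvd : (n : ℤ) ∣ (k : ℤ) - s :=
    (hcop4.symm).dvd_of_dvd_mul_right hkey
  -- bounds
  set t : ℤ := |s| with ht
  have ht2 : t ^ 2 = c := by rw [ht, sq_abs, hcs]
  have ht1 : 1 ≤ t := Int.one_le_abs hs0
  have htk : t ≤ k := by
    have h10 : t ^ 2 * ((n : ℤ) - 1) ≤ k * ((n : ℤ) - 1) := by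
      rw [ht2, h1]
      exact mul_le_mul_of_nonneg_left (by linarith) (by linarith)
    have h11 : t ^ 2 ≤ k := le_of_mul_le_mul_right h10 (by linarith)
    nlinarith
  have htnk : t ≤ (n : ℤ) - k := by
    have h10 : t ^ 2 * ((n : ℤ) - 1) ≤ ((n : ℤ) - k) * ((n : ℤ) - 1) := by
      rw [ht2, h1]
      have h20 : (k : ℤ) * ((n : ℤ) - k) ≤ ((n : ℤ) - 1) * ((n : ℤ) - k) :=
        mul_le_mul_of_nonneg_right (by linarith) (by linarith)
      linarith [mul_comm ((n : ℤ) - k) ((n : ℤ) - 1)]
    have h11 : t ^ 2 ≤ (n : ℤ) - k := le_of_mul_le_mul_right h10 (by linarith)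
    nlinarith
  have h1' : t ^ 2 * ((n : ℤ) - 1) = k * ((n : ℤ) - k) := by rw [ht2, h1]
  rcases le_or_gt 0 s with hs1 | hs1
  · -- s = t
    have hst : s = t := by rw [ht, abs_of_nonneg hs1]
    rw [hst] at hdvd
    have h12 : (k : ℤ) - t = 0 := by
      apply Int.eq_zero_of_abs_lt_dvd hdvd
      rw [abs_of_nonneg (by linarith)]
      linarith
    have hkt : (k : ℤ) = t := by linarith
    left
    rw [hkt] at h1'
    have h13 : t * ((n : ℤ) - 1) = (n : ℤ) - t := by
      have ht0 : t ≠ 0 := by linarith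
      apply mul_left_cancel₀ ht0
      linear_combination h1'
    have h14 : t * n = n := by linarith
    have h15 : t = 1 := by
      have hn0 : (n : ℤ) ≠ 0 := by linarith
      exact mul_right_cancel₀ hn0 (by linarith)
    have : (k : ℤ) = 1 := by rw [hkt, h15]
    exact_mod_cast this
  · -- s = -t
    have hst : s = -t := by rw [ht, abs_of_neg hs1]; ring
    rw [hst] at hdvd
    have h12 : (k : ℤ) - -t - n = 0 := by
      apply Int.eq_zero_of_abs_lt_dvd (dvd_sub hdvd (dvd_refl _))
      rw [abs_lt]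
      constructor <;> linarith
    have hkt : (n : ℤ) - k = t := by linarith
    right
    rw [hkt] at h1'
    have h13 : t * ((n : ℤ) - 1) = k := by
      have ht0 : t ≠ 0 := by linarith
      apply mul_left_cancel₀ ht0
      linear_combination h1'
    have h14 : t * n = n := by
      have : (k : ℤ) = n - t := by linarith
      rw [this] at h13
      linarith
    have h15 : t = 1 := by
      have hn0 : (n : ℤ) ≠ 0 := by linarith
      exact mul_right_cancel₀ hn0 (by linarith)
    have : (k : ℤ) = n - 1 := by rw [← h15]; linarith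
    omega


/-- Let G be a doubly transitive group of permutations of a finite set Ω of size n, let o ∈ Ω, and let α be an automorphism of G of odd order. Suppose that the image under α of the stabilizer of o has an orbit on Ω whose length k is coprime to n. Then α is induced by conjugation by a permutation of Ω normalizing G, and k = 1 or k = n − 1. -/
theorem result {Ω : Type*} [Fintype Ω] (G : Subgroup (Equiv.Perm Ω)) (h2 : MulAction.IsMultiplyPretransitive G Ω 2) (o : Ω) (α : MulAut G) (hα : Odd (orderOf α)) (ω : Ω) (hk : (Nat.card (MulAction.orbit ((MulAction.stabilizer G o).map α.toMonoidHom) ω)).Coprime (Fintype.card Ω)) : (∃ σ : Equiv.Perm Ω, σ ∈ Subgroup.normalizer (G : Set (Equiv.Perm Ω)) ∧ ∀ g : G, ((α g : G) : Equiv.Perm Ω) = σ * (g : Equiv.Perm Ω) * σ⁻¹) ∧ (Nat.card (MulAction.orbit ((MulAction.stabilizer G o).map α.toMonoidHom) ω) = 1 ∨ Nat.card (MulAction.orbit ((MulAction.stabilizer G o).map α.toMonoidHom) ω) = Fintype.card Ω - 1) := by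
  classical
  set K := (MulAction.stabilizer G o).map α.toMonoidHom with hK
  set Δ : Set Ω := MulAction.orbit K ω with hΔ
  set k := Nat.card Δ with hkdef
  set n := Fintype.card Ω with hn
  have hkn : Nat.Coprime k n := hk
  have hnpos : 0 < n := Fintype.card_pos_iff.mpr ⟨o⟩
  -- transitivity
  have h2' : ∀ a b c d : Ω, a ≠ b → c ≠ d → ∃ g : G, g • a = c ∧ g • b = d := by
    intro a b c d hab hcd
    let x : Fin 2 ↪ Ω := ⟨![a, b], by
      intro i j hij
      fin_cases i <;> fin_cases j <;> simp_all⟩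
    let y : Fin 2 ↪ Ω := ⟨![c, d], by
      intro i j hij
      fin_cases i <;> fin_cases j <;> simp_all⟩
    obtain ⟨g, hg⟩ := h2.exists_smul_eq x y
    refine ⟨g, ?_, ?_⟩
    · have h3 : g • (x 0) = y 0 := by rw [← hg]; rfl
      exact h3
    · have h3 : g • (x 1) = y 1 := by rw [← hg]; rfl
      exact h3
  have h1' : ∀ a c : Ω, ∃ g : G, g • a = c := by
    intro a c
    by_cases hn2 : 2 ≤ n
    · obtain ⟨a', ha'⟩ := Fintype.exists_ne_of_one_lt_card (α := Ω) (by omega) a
      obtain ⟨c', hc'⟩ := Fintype.exists_ne_of_one_lt_card (α := Ω) (by omega) c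
      obtain ⟨g, hg, -⟩ := h2' a a' c c' ha'.symm hc'.symm
      exact ⟨g, hg⟩
    · have : n = 1 := by omega
      have hsub : Subsingleton Ω := Fintype.card_le_one_iff_subsingleton.mp (by omega)
      exact ⟨1, Subsingleton.elim _ _⟩
  have htr : MulAction.IsPretransitive G Ω := ⟨h1'⟩
  have hΔne : ω ∈ Δ := MulAction.mem_orbit_self ω
  have hkpos : 1 ≤ k := by
    have : Nonempty Δ := ⟨⟨ω, hΔne⟩⟩
    exact Nat.card_pos
  have hkle : k ≤ n := by
    rw [hn, ← Nat.card_eq_fintype_card]
    exact Nat.card_mono (Set.toFinite _) (Set.subset_univ _) |>.trans_eq (by simp)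
  -- the invariance of Δ
  have hΔinv : ∀ g ∈ K, ∀ x : Ω, g • x ∈ Δ ↔ x ∈ Δ := by
    intro g hg x
    constructor
    · rintro ⟨v, hv⟩
      refine ⟨(⟨g, hg⟩ : K)⁻¹ * v, ?_⟩
      have hv' : (v : G) • ω = g • x := hv
      show ((g⁻¹ * (v : G)) : G) • ω = x
      rw [mul_smul, hv', inv_smul_smul]
    · rintro ⟨v, hv⟩
      refine ⟨(⟨g, hg⟩ : K) * v, ?_⟩
      have hv' : (v : G) • ω = x := hv
      show ((g * (v : G)) : G) • ω = g • x
      rw [mul_smul, hv']
  -- the key arithmetic statement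
  have hmain : k = 1 ∨ k = n - 1 := by
    by_cases hn2 : 2 ≤ n
    · -- the matrix
      have hex : ∀ ν : Ω, ∃ g : G, g • o = ν := fun ν => h1' o ν
      choose c hc using hex
      let M : Matrix Ω Ω ℤ := fun ν x => if (α (c ν))⁻¹ • x ∈ Δ then 1 else 0
      have hM : ∀ (h : G) (x : Ω), M (h • o) x = if (α h)⁻¹ • x ∈ Δ then 1 else 0 := by
        intro h x
        have h3 : h⁻¹ * c (h • o) ∈ MulAction.stabilizer G o := by
          rw [MulAction.mem_stabilizer_iff, mul_smul, hc, inv_smul_smul]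
        have h4 : α (h⁻¹ * c (h • o)) ∈ K := Subgroup.mem_map_of_mem _ h3
        have h5 : (α (c (h • o)))⁻¹ • x = (α (h⁻¹ * c (h • o)))⁻¹ • ((α h)⁻¹ • x) := by
          rw [map_mul, map_inv, _root_.mul_inv_rev, inv_inv, mul_smul, smul_inv_smul]
        have h6 : (α (c (h • o)))⁻¹ • x ∈ Δ ↔ (α h)⁻¹ • x ∈ Δ := by
          rw [h5]
          exact hΔinv _ (K.inv_mem h4) _
        simp only [M, h6]
      have hinv : IsInv α M := by
        intro h ν x
        have h3 : h • ν = (h * c ν) • o := by rw [mul_smul, hc]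
        rw [h3, hM]
        have h4 : (α (h * c ν))⁻¹ • (α h) • x = (α (c ν))⁻¹ • x := by
          rw [map_mul, _root_.mul_inv_rev, mul_smul, inv_smul_smul]
        rw [h4]
      -- row sums
      have hrow : ∀ ν, ∑ x, M ν x = (k : ℤ) := by
        intro ν
        have h3 : ∑ x, M ν x = ∑ y, (if y ∈ Δ then (1 : ℤ) else 0) := by
          refine Fintype.sum_equiv (MulAction.toPerm (α (c ν))⁻¹) _ _ ?_
          intro x
          rfl
        rw [h3, Finset.sum_boole, hkdef, Nat.card_eq_fintype_card, Fintype.card_subtype]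
      have h01 : ∀ ν x, M ν x * M ν x = M ν x := by
        intro ν x
        by_cases h : (α (c ν))⁻¹ • x ∈ Δ <;> simp [M, h]
      -- column sums
      have hcol0 : ∀ x x', ∑ ν, M ν x = ∑ ν, M ν x' := by
        intro x x'
        obtain ⟨g, hg⟩ := h1' x x'
        refine Fintype.sum_equiv (MulAction.toPerm (α.symm g)) _ _ ?_
        intro ν
        have := hinv (α.symm g) ν x
        simp only [MulEquiv.apply_symm_apply, hg] at this
        exact this.symm
      have hcol : ∀ x, ∑ ν, M ν x = (k : ℤ) := by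
        intro x
        have h3 : ∑ y : Ω, ∑ ν, M ν y = ∑ ν : Ω, ∑ y, M ν y := Finset.sum_comm
        simp only [hrow] at h3
        rw [Finset.sum_const, Finset.card_univ, ← hn] at h3
        have h4 : ∑ y : Ω, ∑ ν, M ν y = (n : ℤ) * ∑ ν, M ν x := by
          rw [Finset.sum_congr rfl (fun y _ => hcol0 y x), Finset.sum_const, Finset.card_univ, ← hn]
          simp
        rw [h4] at h3
        simp only [nsmul_eq_mul] at h3
        exact mul_left_cancel₀ (by exact_mod_cast hnpos.ne') h3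
      -- J
      set J := allOnes Ω with hJ
      have hMJ : M * J = (k : ℤ) • J := by
        ext i j
        simp [Matrix.mul_apply, hJ, allOnes, hrow]
      have hJM : J * M = (k : ℤ) • J := by
        ext i j
        simp [Matrix.mul_apply, hJ, allOnes, hcol]
      have hMtJ : Mᵀ * J = (k : ℤ) • J := by
        ext i j
        simp [Matrix.mul_apply, hJ, allOnes, hcol]
      have hJJ : J * J = (n : ℤ) • J := allOnes_mul_allOnes
      have hJo : J o o = 1 := rfl
      have hpowMJ : ∀ i : ℕ, M ^ i * J = ((k : ℤ) ^ i) • J := by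
        intro i
        induction i with
        | zero => simp
        | succ i ih =>
          rw [pow_succ', Matrix.mul_assoc, ih, Matrix.mul_smul, hMJ, smul_smul]
          congr 1
      have hpowJM : ∀ i : ℕ, J * M ^ i = ((k : ℤ) ^ i) • J := by
        intro i
        induction i with
        | zero => simp
        | succ i ih =>
          rw [pow_succ, ← Matrix.mul_assoc, ih, Matrix.smul_mul, hJM, smul_smul, pow_succ]
      have hpowMtJ : ∀ i : ℕ, Mᵀ ^ i * J = ((k : ℤ) ^ i) • J := by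
        intro i
        induction i with
        | zero => simp
        | succ i ih =>
          rw [pow_succ', Matrix.mul_assoc, ih, Matrix.mul_smul, hMtJ, smul_smul]
          congr 1
      obtain ⟨f, hf⟩ := hα
      have hinvB : IsInv (1 : MulAut G) (M ^ orderOf α) := by
        have := hinv.pow (orderOf α)
        rwa [pow_orderOf_eq_one] at this
      obtain ⟨a, b, hB⟩ := two_trans_form h2' h1' hn2 hinvB
      rw [← hJ] at hB
      have hinvT : IsInv (1 : MulAut G) (Mᵀ * M) := by
        have := hinv.transpose.mul hinv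
        simpa using this
      obtain ⟨C, L, hMM⟩ := two_trans_form h2' h1' hn2 hinvT
      rw [← hJ] at hMM
      -- diagonal of MᵀM
      have hd : C + L = (k : ℤ) := by
        have h3 := congrFun (congrFun hMM o) o
        simp only [Matrix.mul_apply, Matrix.transpose_apply, h01, hcol] at h3
        simp only [Matrix.add_apply, Matrix.smul_apply, Matrix.one_apply_eq, smul_eq_mul, mul_one, hJo] at h3
        exact h3.symm
      -- row sums of MᵀM
      have hr : (k : ℤ) * k = C + L * n := by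
        have h3 : (Mᵀ * M) * J = (C • (1 : Matrix Ω Ω ℤ) + L • J) * J := by rw [hMM]
        rw [Matrix.mul_assoc, hMJ, Matrix.mul_smul, hMtJ, Matrix.add_mul, Matrix.smul_mul,
          Matrix.smul_mul, Matrix.one_mul, hJJ] at h3
        have h4 := congrFun (congrFun h3 o) o
        simp only [Matrix.smul_apply, Matrix.add_apply, hJo, smul_eq_mul, mul_one] at h4
        linarith
      have hC : C * ((n : ℤ) - 1) = k * ((n : ℤ) - k) := by
        have : L = (k : ℤ) - C := by linarith
        rw [this] at hr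
        linarith
      -- the powers
      have hpow : ∀ i : ℕ, ∃ t : ℤ, Mᵀ ^ i * M ^ i = (C ^ i) • (1 : Matrix Ω Ω ℤ) + t • J := by
        intro i
        induction i with
        | zero => exact ⟨0, by simp⟩
        | succ i ih =>
          obtain ⟨t, ht⟩ := ih
          refine ⟨C * t + L * ((k : ℤ) ^ i * (k : ℤ) ^ i), ?_⟩
          have e : Mᵀ ^ (i + 1) * M ^ (i + 1) = Mᵀ ^ i * (Mᵀ * M) * M ^ i := by
            rw [pow_succ (Mᵀ), pow_succ' M]
            simp only [Matrix.mul_assoc]
          rw [e, hMM, Matrix.mul_add, Matrix.add_mul, Matrix.mul_smul, Matrix.mul_smul, Matrix.mul_one,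
            Matrix.smul_mul, Matrix.smul_mul, ht, hpowMtJ, Matrix.smul_mul, hpowJM, smul_add,
            smul_smul, smul_smul, smul_smul, smul_smul, add_assoc, ← add_smul, pow_succ', mul_assoc]
      obtain ⟨t, ht⟩ := hpow (orderOf α)
      -- a + b n = k^e
      have hrow2 : a + b * n = (k : ℤ) ^ orderOf α := by
        have h3 := hpowMJ (orderOf α)
        rw [hB, Matrix.add_mul, Matrix.smul_mul, Matrix.smul_mul, Matrix.one_mul, hJJ] at h3
        have h4 := congrFun (congrFun h3 o) o
        simp only [Matrix.smul_apply, Matrix.add_apply, hJo, smul_eq_mul, mul_one] at h4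
        linarith
      -- a² = C^e
      have hJt : Jᵀ = J := by
        ext i j; rfl
      have hsq : a ^ 2 = C ^ orderOf α := by
        have h3 : (M ^ orderOf α)ᵀ * M ^ orderOf α = Mᵀ ^ orderOf α * M ^ orderOf α := by
          rw [Matrix.transpose_pow]
        rw [ht, hB, Matrix.transpose_add, Matrix.transpose_smul, Matrix.transpose_smul,
          Matrix.transpose_one, hJt] at h3
        obtain ⟨x, y, hxy⟩ := Fintype.exists_pair_of_one_lt_card (α := Ω) (by omega)
        have h4 := congrFun (congrFun h3 x) x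
        have h5 := congrFun (congrFun h3 x) y
        simp only [Matrix.add_mul, Matrix.mul_add, Matrix.smul_mul, Matrix.mul_smul, Matrix.one_mul,
          Matrix.mul_one, hJJ, Matrix.add_apply, Matrix.smul_apply, Matrix.one_apply_eq,
          Matrix.one_apply_ne hxy, smul_eq_mul] at h4 h5
        have hJ1 : ∀ u v, J u v = 1 := fun _ _ => rfl
        simp only [hJ1] at h4 h5
        linarith
      have hkltn : k < n := by
        refine lt_of_le_of_ne hkle ?_
        intro h
        rw [h] at hkn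
        have := Nat.coprime_self n |>.mp hkn
        omega
      rw [hf] at hsq hrow2
      exact arith_core n k f hn2 hkpos hkltn hkn C L a b hC (by linarith) hsq hrow2
    · left
      have : n = 1 := by omega
      omega
  -- conclude
  refine ⟨?_, hmain⟩
  apply (Cfsg.Agent.S4275.result G htr o α).mpr
  rcases hmain with h1 | h1
  · refine ⟨ω, fun g hg => ?_⟩
    have hsub : Subsingleton Δ := by
      have : Nat.card Δ = 1 := h1
      exact (Nat.card_eq_one_iff_unique.mp this).1
    have h3 : g • ω ∈ Δ := (hΔinv g hg ω).mpr hΔne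
    exact congrArg Subtype.val (Subsingleton.elim (⟨g • ω, h3⟩ : Δ) ⟨ω, hΔne⟩)
  · have hcompl : (Δᶜ : Set Ω).ncard = 1 := by
      have h3 := Set.ncard_add_ncard_compl Δ
      rw [← Nat.card_coe_set_eq Δ, Nat.card_eq_fintype_card (α := Ω)] at h3
      rw [← hkdef, ← hn] at h3
      omega
    obtain ⟨ω', hω'⟩ := Set.ncard_eq_one.mp hcompl
    have hω'2 : ω' ∈ Δᶜ := by rw [hω']; rfl
    refine ⟨ω', fun g hg => ?_⟩
    have h3 : g • ω' ∈ Δᶜ := fun h => hω'2 ((hΔinv g hg ω').mp h)
    rw [hω'] at h3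
    exact h3


end Cfsg.Agent.S4276
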