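import Cfsg.Statements.S4277
import Mathlib
import Cfsg.Agent.Lib.Small.Basic
import Cfsg.Agent.Lib.FG85.PrimeSylow
import Cfsg.Prelude.Def_KGroupFacts
-- import your own Cfsg.Agent.* helpers here

set_option autoImplicit false
open Cfsg

namespace Cfsg.Agent.S4277


universe u

open Polynomial
open scoped Pointwise

section Core

variable {G : Type*} [Group G] [Finite G] (H : Subgroup G)

/-- The twisted incidence relation. -/
def Tw (τ : MulAut G) (x y : G ⧸ H) : Prop :=
  ∃ g : G, g • ((1 : G) : G ⧸ H) = x ∧ (τ g) • ((1 : G) : G ⧸ H) = y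

variable {H}

theorem Tw.smul {τ : MulAut G} {x y : G ⧸ H} (h : Tw H τ x y) (a : G) :
    Tw H τ (a • x) (τ a • y) := by
  obtain ⟨g, rfl, rfl⟩ := h
  exact ⟨a * g, mul_smul _ _ _, by rw [map_mul, mul_smul]⟩

theorem tw_smul_iff {τ : MulAut G} {x y : G ⧸ H} (a : G) :
    Tw H τ (a • x) (τ a • y) ↔ Tw H τ x y := by
  constructor
  · intro h
    have := h.smul a⁻¹
    rw [map_inv] at this
    simpa using this
  · exact fun h => h.smul a

theorem tw_smul_left_iff {τ : MulAut G} {x y : G ⧸ H} (a : G) :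
    Tw H τ (a • x) y ↔ Tw H τ x (τ a⁻¹ • y) := by
  rw [← tw_smul_iff (τ := τ) (x := x) (y := τ a⁻¹ • y) a, map_inv, smul_inv_smul]

variable {p : ℕ} [hp : Fact p.Prime] {u : G}

/-- The operators. -/
noncomputable def opL (H : Subgroup G) (a : G) : Module.End ℚ ((G ⧸ H) → ℚ) :=
  LinearMap.funLeft ℚ ℚ (fun y : G ⧸ H => a⁻¹ • y)

@[simp] theorem opL_apply (a : G) (φ : (G ⧸ H) → ℚ) (y : G ⧸ H) : opL H a φ y = φ (a⁻¹ • y) := rfl

theorem opL_mul (a b : G) : opL H (a * b) = opL H a * opL H b := by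
  ext φ y
  simp [mul_smul]

theorem opL_one : opL H (1 : G) = 1 := by
  ext φ y
  simp

theorem opR_pow_apply (a : G) (i : ℕ) (φ : (G ⧸ H) → ℚ) (y : G ⧸ H) :
    ((opL H a) ^ i) φ y = φ ((a⁻¹) ^ i • y) := by
  induction i generalizing φ with
  | zero => simp
  | succ i ih =>
    rw [pow_succ, Module.End.mul_apply, ih, opL_apply, ← mul_smul, pow_succ']

/-- The action of `u` is regular. -/
theorem inj_pow (hH : H.index = p) (hpH : ¬ p ∣ Nat.card H) (hu : orderOf u = p) (y : G ⧸ H) :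
    Set.InjOn (fun i : ℕ => (u⁻¹) ^ i • y) (Finset.range p : Set ℕ) := by
  have key : ∀ i j : ℕ, i < j → j < p → (u⁻¹) ^ i • y ≠ (u⁻¹) ^ j • y := by
    intro i j hij hj he
    obtain ⟨n, rfl⟩ : ∃ n, j = i + n := ⟨j - i, by omega⟩
    have hn0 : 0 < n := by omega
    have hnp : n < p := by omega
    rw [pow_add, mul_smul] at he
    have he2 : y = (u⁻¹) ^ n • y := smul_left_cancel _ he
    -- `(u⁻¹)^n` lies in a conjugate of `H`
    obtain ⟨g, rfl⟩ := QuotientGroup.mk_surjective y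
    have h1 : g⁻¹ * ((u⁻¹) ^ n * g) ∈ H := by
      have h2 : ((((u⁻¹) ^ n * g : G)) : G ⧸ H) = (g : G ⧸ H) := he2.symm
      rw [eq_comm, QuotientGroup.eq] at h2
      exact h2
    have h3 : orderOf (g⁻¹ * ((u⁻¹) ^ n * g)) = p := by
      have e : g⁻¹ * ((u⁻¹) ^ n * g) = (MulAut.conj g⁻¹) ((u⁻¹) ^ n) := by
        simp [MulAut.conj_apply, mul_assoc]
      rw [e, MulEquiv.orderOf_eq, orderOf_pow, orderOf_inv, hu]
      have : Nat.gcd p n = 1 := (Nat.coprime_of_lt_prime hn0.ne' hnp hp.out)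
      rw [this, Nat.div_one]
    exact hpH (h3 ▸ Subgroup.orderOf_dvd_natCard H h1)
  intro i hi j hj hij
  simp only [Finset.coe_range, Set.mem_Iio] at hi hj
  by_contra hne
  rcases lt_or_gt_of_ne hne with h | h
  · exact key i j h hj hij
  · exact key j i h hi hij.symm

variable [Fintype (G ⧸ H)]

theorem image_pow_eq (hH : H.index = p) (hpH : ¬ p ∣ Nat.card H) (hu : orderOf u = p) (y : G ⧸ H)
    [DecidableEq (G ⧸ H)] :
    (Finset.range p).image (fun i : ℕ => (u⁻¹) ^ i • y) = Finset.univ := by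
  apply Finset.eq_univ_of_card
  rw [Finset.card_image_of_injOn (inj_pow hH hpH hu y), Finset.card_range,
    ← Nat.card_eq_fintype_card]
  exact hH.symm

/-- Sums over the powers. -/
theorem sum_pow_eq (hH : H.index = p) (hpH : ¬ p ∣ Nat.card H) (hu : orderOf u = p) (y : G ⧸ H)
    (F : (G ⧸ H) → ℚ) :
    ∑ i ∈ Finset.range p, F ((u⁻¹) ^ i • y) = ∑ x, F x := by
  classical
  have hinj := inj_pow hH hpH hu y
  rw [← Finset.sum_image (f := F) (s := Finset.range p) (g := fun i : ℕ => (u⁻¹) ^ i • y) hinj,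
    image_pow_eq hH hpH hu y]

omit [Fintype (G ⧸ H)] in
theorem map_pow_of_fix {τ : MulAut G} (hτ : τ u = u) (k : ℕ) : τ (u ^ k) = u ^ k := by
  rw [map_pow, hτ]

theorem exists_pow_smul (hH : H.index = p) (hpH : ¬ p ∣ Nat.card H) (hu : orderOf u = p)
    (y : G ⧸ H) : ∃ k : ℕ, y = u ^ k • ((1 : G) : G ⧸ H) := by
  classical
  have h := image_pow_eq hH hpH hu y
  have h2 : ((1 : G) : G ⧸ H) ∈ (Finset.range p).image (fun i : ℕ => (u⁻¹) ^ i • y) := by
    rw [h]; exact Finset.mem_univ _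
  obtain ⟨k, -, hk⟩ := Finset.mem_image.1 h2
  refine ⟨k, ?_⟩
  change (u⁻¹) ^ k • y = _ at hk
  rw [← hk, inv_pow, smul_inv_smul]

theorem tw_pow_iff (hH : H.index = p) (hpH : ¬ p ∣ Nat.card H) (hu : orderOf u = p)
    {τ : MulAut G} (hτ : τ u = u) (i : ℕ) (y : G ⧸ H) :
    Tw H τ ((u⁻¹) ^ i • y) y ↔ Tw H τ ((1 : G) : G ⧸ H) (u ^ i • ((1 : G) : G ⧸ H)) := by
  obtain ⟨k, rfl⟩ := exists_pow_smul hH hpH hu y
  rw [tw_smul_left_iff, ← tw_smul_iff (τ := τ) (x := ((1 : G) : G ⧸ H))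
    (y := (u ^ i • ((1 : G) : G ⧸ H))) (u ^ k)]
  have e1 : τ ((u⁻¹) ^ i)⁻¹ = u ^ i := by
    rw [inv_pow, inv_inv, map_pow_of_fix hτ]
  rw [e1, map_pow_of_fix hτ, ← mul_smul, ← mul_smul, ← pow_add, ← pow_add, add_comm]

open Classical in
/-- The polynomial attached to `τ`. -/
noncomputable def twPoly (H : Subgroup G) (u : G) (p : ℕ) (τ : MulAut G) : ℚ[X] :=
  ∑ i ∈ (Finset.range p).filter (fun i => Tw H τ ((1 : G) : G ⧸ H) (u ^ i • ((1 : G) : G ⧸ H))),
    X ^ i

/-- The operator attached to `τ`. -/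
noncomputable def twOp (H : Subgroup G) (u : G) (p : ℕ) (τ : MulAut G) :
    Module.End ℚ ((G ⧸ H) → ℚ) :=
  aeval (opL H u) (twPoly H u p τ)

omit hp [Fintype (G ⧸ H)] in
open Classical in
theorem twOp_apply (τ : MulAut G) (φ : (G ⧸ H) → ℚ) (y : G ⧸ H) :
    twOp H u p τ φ y = ∑ i ∈ Finset.range p,
      if Tw H τ ((1 : G) : G ⧸ H) (u ^ i • ((1 : G) : G ⧸ H)) then φ ((u⁻¹) ^ i • y) else 0 := by
  unfold twOp twPoly
  rw [map_sum, LinearMap.sum_apply, Finset.sum_apply, Finset.sum_filter]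
  refine Finset.sum_congr rfl fun i _ => ?_
  split_ifs with h
  · rw [aeval_X_pow, opR_pow_apply]
  · rfl

open Classical in
theorem twOp_apply' (hH : H.index = p) (hpH : ¬ p ∣ Nat.card H) (hu : orderOf u = p)
    {τ : MulAut G} (hτ : τ u = u) (φ : (G ⧸ H) → ℚ) (y : G ⧸ H) :
    twOp H u p τ φ y = ∑ x, if Tw H τ x y then φ x else 0 := by
  rw [twOp_apply, ← sum_pow_eq hH hpH hu y]
  refine Finset.sum_congr rfl fun i _ => ?_
  simp only [tw_pow_iff hH hpH hu hτ i y]

/-- Intertwining. -/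
theorem twOp_opL (hH : H.index = p) (hpH : ¬ p ∣ Nat.card H) (hu : orderOf u = p)
    {τ : MulAut G} (hτ : τ u = u) (a : G) :
    twOp H u p τ * opL H a = opL H (τ a) * twOp H u p τ := by
  classical
  ext φ y
  simp only [Module.End.mul_apply, LinearMap.coe_comp, Function.comp, LinearMap.single_apply,
    opL_apply]
  rw [twOp_apply' hH hpH hu hτ, twOp_apply' hH hpH hu hτ]
  simp only [opL_apply]
  rw [← Equiv.sum_comp (MulAction.toPerm a : Equiv.Perm (G ⧸ H))]
  refine Finset.sum_congr rfl fun x _ => ?_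
  simp only [MulAction.toPerm_apply, inv_smul_smul, tw_smul_left_iff, map_inv]


/-- Transitivity of the twisted stabilizer would force `p ∣ |H|`. -/
theorem not_forall_tw (hH : H.index = p) (hpH : ¬ p ∣ Nat.card H) (τ : MulAut G) :
    ¬ ∀ y : G ⧸ H, Tw H τ ((1 : G) : G ⧸ H) y := by
  classical
  intro h
  let K : Subgroup G := H.map (τ : G →* G)
  have hK : Nat.card K = Nat.card H := by
    exact Subgroup.card_map_of_injective (f := (τ : G →* G)) τ.injective
  have horb : MulAction.orbit K ((1 : G) : G ⧸ H) = Set.univ := by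
    rw [Set.eq_univ_iff_forall]
    intro y
    obtain ⟨g, hg, hgy⟩ := h y
    have hgH : g ∈ H := by
      have : ((g : G) : G ⧸ H) = ((1 : G) : G ⧸ H) := by
        rw [← hg]; simp
      rw [QuotientGroup.eq] at this
      simpa using (H.inv_mem_iff.1 (by simpa using this))
    refine ⟨⟨τ g, Subgroup.mem_map_of_mem _ hgH⟩, hgy⟩
  have h1 := MulAction.index_stabilizer K ((1 : G) : G ⧸ H)
  rw [horb, Set.ncard_univ] at h1
  have h2 : Nat.card (G ⧸ H) = p := hH
  rw [h2] at h1
  have h3 : p ∣ Nat.card K := h1 ▸ Subgroup.index_dvd_card _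
  exact hpH (hK ▸ h3)

omit [Fintype (G ⧸ H)] in
open Classical in
theorem twPoly_coeff (τ : MulAut G) (i : ℕ) :
    (twPoly H u p τ).coeff i =
      if i < p ∧ Tw H τ ((1 : G) : G ⧸ H) (u ^ i • ((1 : G) : G ⧸ H)) then 1 else 0 := by
  unfold twPoly
  rw [finset_sum_coeff]
  simp only [coeff_X_pow]
  rw [Finset.sum_ite_eq]
  simp [Finset.mem_filter]

/-- The twisted polynomial is never divisible by the cyclotomic polynomial. -/
theorem twPoly_not_dvd (hH : H.index = p) (hpH : ¬ p ∣ Nat.card H) (hu : orderOf u = p)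
    (τ : MulAut G) : ¬ cyclotomic p ℚ ∣ twPoly H u p τ := by
  classical
  rintro ⟨c, hc⟩
  have hp0 : 0 < p := hp.out.pos
  have h0 : (twPoly H u p τ).coeff 0 = 1 := by
    rw [twPoly_coeff, if_pos]
    refine ⟨hp0, 1, by simp, by simp⟩
  have hne : twPoly H u p τ ≠ 0 := by
    intro h; rw [h] at h0; simp at h0
  have hdeg : (twPoly H u p τ).natDegree ≤ p - 1 := by
    rw [natDegree_le_iff_coeff_eq_zero]
    intro N hN
    rw [twPoly_coeff, if_neg]
    intro h
    omega
  have hcne : c ≠ 0 := by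
    rintro rfl
    simp at hc
    exact hne hc
  have hΦ : (cyclotomic p ℚ).natDegree = p - 1 := by
    rw [natDegree_cyclotomic, Nat.totient_prime hp.out]
  have hΦne : cyclotomic p ℚ ≠ 0 := cyclotomic_ne_zero p ℚ
  have hc0 : c.natDegree = 0 := by
    have := natDegree_mul hΦne hcne
    rw [← hc, hΦ] at this
    omega
  obtain ⟨c₀, rfl⟩ : ∃ c₀, c = C c₀ := ⟨c.coeff 0, eq_C_of_natDegree_eq_zero hc0⟩
  have hΦ0 : (cyclotomic p ℚ).coeff 0 = 1 := by
    rw [cyclotomic_prime ℚ p]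
    rw [finset_sum_coeff]
    simp only [coeff_X_pow]
    rw [Finset.sum_ite_eq]
    simp [hp0]
  have hc₀ : c₀ = 1 := by
    have := congrArg (fun f => coeff f 0) hc
    simp only [h0, coeff_mul_C, hΦ0, one_mul] at this
    exact this.symm
  subst hc₀
  have hall : ∀ i, i < p → Tw H τ ((1 : G) : G ⧸ H) (u ^ i • ((1 : G) : G ⧸ H)) := by
    intro i hi
    have h1 := congrArg (fun f => coeff f i) hc
    simp only [map_one, mul_one, twPoly_coeff] at h1
    rw [cyclotomic_prime ℚ p, finset_sum_coeff] at h1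
    simp only [coeff_X_pow] at h1
    rw [Finset.sum_ite_eq] at h1
    simp only [Finset.mem_range, hi, if_true] at h1
    by_contra hn
    rw [if_neg (fun h => hn h.2)] at h1
    exact one_ne_zero h1.symm
  refine not_forall_tw hH hpH τ fun y => ?_
  obtain ⟨k, rfl⟩ := exists_pow_smul hH hpH hu y
  have := hall (k % p) (Nat.mod_lt _ hp0)
  have e : u ^ (k % p) = u ^ k := by rw [← hu, pow_mod_orderOf]
  rwa [e] at this

/-- Faithfulness of the regular operators. -/
theorem opL_injective (hfaith : Function.Injective (MulAction.toPermHom G (G ⧸ H))) {a b : G}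
    (h : opL H a = opL H b) : a = b := by
  classical
  have h1 : ∀ y : G ⧸ H, a⁻¹ • y = b⁻¹ • y := by
    intro y
    have h2 := congrArg (fun f : Module.End ℚ ((G ⧸ H) → ℚ) =>
      f (fun z => if z = b⁻¹ • y then (1 : ℚ) else 0) y) h
    simp only [opL_apply, if_true] at h2
    by_contra hn
    rw [if_neg hn] at h2
    exact zero_ne_one h2
  have h2 : MulAction.toPermHom G (G ⧸ H) a⁻¹ = MulAction.toPermHom G (G ⧸ H) b⁻¹ := by
    ext y
    exact h1 y
  exact inv_injective (hfaith h2)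

/-- **Key lemma**: two automorphisms fixing an element of order `p` commute. -/
theorem comm_of_fix (hH : H.index = p) (hpH : ¬ p ∣ Nat.card H) (hu : orderOf u = p)
    (hfaith : Function.Injective (MulAction.toPermHom G (G ⧸ H))) {τ σ : MulAut G}
    (hτ : τ u = u) (hσ : σ u = u) : τ * σ = σ * τ := by
  classical
  set R := opL H u with hR
  set Mτ := twOp H u p τ with hMτ
  set Mσ := twOp H u p σ with hMσ
  have hcomm : Mτ * Mσ = Mσ * Mτ := by
    simp only [hMτ, hMσ, twOp]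
    rw [← map_mul, mul_comm, map_mul]
  have i1 : ∀ g : G, (Mτ * Mσ) * opL H g = opL H (τ (σ g)) * (Mτ * Mσ) := by
    intro g
    rw [mul_assoc, twOp_opL hH hpH hu hσ, ← mul_assoc, twOp_opL hH hpH hu hτ, mul_assoc]
  have i2 : ∀ g : G, (Mσ * Mτ) * opL H g = opL H (σ (τ g)) * (Mσ * Mτ) := by
    intro g
    rw [mul_assoc, twOp_opL hH hpH hu hτ, ← mul_assoc, twOp_opL hH hpH hu hσ, mul_assoc]
  have i3 : ∀ g : G, opL H (τ (σ g)) * (Mτ * Mσ) = opL H (σ (τ g)) * (Mτ * Mσ) := by
    intro g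
    rw [← i1, hcomm, i2]
  set J : Module.End ℚ ((G ⧸ H) → ℚ) := aeval R (cyclotomic p ℚ) with hJ
  have hJapply : ∀ (φ : (G ⧸ H) → ℚ) (y : G ⧸ H), J φ y = ∑ x, φ x := by
    intro φ y
    rw [hJ, cyclotomic_prime ℚ p, map_sum, LinearMap.sum_apply, Finset.sum_apply,
      ← sum_pow_eq hH hpH hu y]
    refine Finset.sum_congr rfl fun i _ => ?_
    rw [aeval_X_pow, opR_pow_apply]
  have hJinv : ∀ k : G, opL H k * J = J := by
    intro k
    ext φ y
    simp only [Module.End.mul_apply, LinearMap.coe_comp, Function.comp, LinearMap.single_apply,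
      opL_apply]
    rw [hJapply, hJapply]
  have hirr : Irreducible (cyclotomic p ℚ) := cyclotomic.irreducible_rat hp.out.pos
  have hndvd : ¬ cyclotomic p ℚ ∣ twPoly H u p τ * twPoly H u p σ := by
    intro h
    rcases hirr.prime.2.2 _ _ h with h | h
    · exact twPoly_not_dvd hH hpH hu τ h
    · exact twPoly_not_dvd hH hpH hu σ h
  obtain ⟨a, b, hab⟩ := (Irreducible.coprime_iff_not_dvd hirr).2 hndvd
  have hab2 : J * aeval R a + (Mτ * Mσ) * aeval R b = 1 := by
    have := congrArg (fun f => aeval R f) hab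
    simp only [map_add, map_mul, map_one] at this
    rw [← this]
    simp only [hMτ, hMσ, twOp, hJ]
    rw [← map_mul, ← map_mul, ← map_mul, ← map_mul, ← map_mul, ← map_add, ← map_add]
    congr 1
    ring
  have hkey : ∀ k : G, opL H k = J * aeval R a + opL H k * (Mτ * Mσ) * aeval R b := by
    intro k
    conv_lhs => rw [← mul_one (opL H k), ← hab2, mul_add, ← mul_assoc, hJinv, ← mul_assoc]
  ext g
  have h5 : opL H (τ (σ g)) = opL H (σ (τ g)) := by
    rw [hkey (τ (σ g)), hkey (σ (τ g)), i3]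
  exact opL_injective hfaith h5

end Core

theorem smul_zpowers' {G : Type*} [Group G] (τ : MulAut G) (u : G) :
    τ • Subgroup.zpowers u = Subgroup.zpowers (τ u) := by
  rw [Subgroup.pointwise_smul_def]
  exact MonoidHom.map_zpowers (τ : G →* G) u



/-- A case of the Schreier conjecture: if a finite simple group G has a subgroup of prime index, then the outer automorphism group of G is solvable. -/
theorem result {G : Type*} [Group G] [Finite G] [IsSimpleGroup G] (H : Subgroup G) (hH : H.index.Prime) : Group.IsSolvable (Cfsg.Out G) := by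
  classical
  obtain ⟨p, hpdef⟩ : ∃ p, p = H.index := ⟨_, rfl⟩
  rw [← hpdef] at hH
  haveI hp : Fact p.Prime := ⟨hH⟩
  have hne : H ≠ ⊤ := by
    rintro rfl
    rw [Subgroup.index_top] at hpdef
    exact hH.one_lt.ne' hpdef
  have hfaith := Cfsg.Agent.Lib.Small.Basic.toPermHom_injective H hne
  have hdvd : Nat.card G ∣ p.factorial := by
    have := Subgroup.card_dvd_of_injective _ hfaith
    rw [Nat.card_perm] at this
    have e : Nat.card (G ⧸ H) = p := hpdef.symm
    rwa [e] at this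
  have hcard : Nat.card G = p * Nat.card H := by
    rw [hpdef]; exact (Subgroup.index_mul_card H).symm
  have hpH : ¬ p ∣ Nat.card H := by
    intro h
    have h1 : p * p ∣ p.factorial := ((Nat.mul_dvd_mul_left p h).trans (dvd_of_eq hcard.symm)).trans hdvd
    obtain ⟨q, rfl⟩ : ∃ q, p = q + 1 := ⟨p - 1, by have := hH.pos; omega⟩
    rw [Nat.factorial_succ] at h1
    have h2 : (q + 1) ∣ q.factorial := Nat.dvd_of_mul_dvd_mul_left (Nat.succ_pos q) h1
    have := (hH.dvd_factorial).1 h2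
    omega
  have hpG : p ∣ Nat.card G := hcard ▸ dvd_mul_right _ _
  have hpp : ¬ p ^ 2 ∣ Nat.card G := by
    intro h
    rw [hcard, sq] at h
    exact hpH (Nat.dvd_of_mul_dvd_mul_left hH.pos h)
  obtain ⟨u, hu⟩ := exists_prime_orderOf_dvd_card' (G := G) p hpG
  haveI : Fintype (G ⧸ H) := Fintype.ofFinite _
  -- the normalizer of `⟨u⟩` in `Aut G`
  let N : Subgroup (MulAut G) := MulAction.stabilizer (MulAut G) (Subgroup.zpowers u)
  have hNmem : ∀ α : MulAut G, α ∈ N ↔ Subgroup.zpowers (α u) = Subgroup.zpowers u := by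
    intro α
    rw [MulAction.mem_stabilizer_iff, smul_zpowers']
  have hcomm : ∀ α ∈ N, ∀ β ∈ N, (α * β) u = (β * α) u := by
    intro α hα β hβ
    have h1 : α u ∈ Subgroup.zpowers u := by
      rw [← (hNmem α).1 hα]; exact Subgroup.mem_zpowers _
    have h2 : β u ∈ Subgroup.zpowers u := by
      rw [← (hNmem β).1 hβ]; exact Subgroup.mem_zpowers _
    obtain ⟨a, ha⟩ := Subgroup.mem_zpowers_iff.1 h1
    obtain ⟨b, hb⟩ := Subgroup.mem_zpowers_iff.1 h2
    simp only [MulAut.mul_apply, ← ha, ← hb, map_zpow]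
    rw [← zpow_mul, ← zpow_mul, mul_comm]
  let T : Subgroup (MulAut G) := MulAction.stabilizer (MulAut G) u
  have hTmem : ∀ α : MulAut G, α ∈ T ↔ α u = u := fun α => MulAction.mem_stabilizer_iff
  have hTcomm : ∀ α ∈ T, ∀ β ∈ T, α * β = β * α := fun α hα β hβ =>
    comm_of_fix (H := H) (p := p) hpdef.symm hpH hu hfaith ((hTmem α).1 hα) ((hTmem β).1 hβ)
  have hNT : ∀ α ∈ N, ∀ β ∈ N, (α * β * α⁻¹ * β⁻¹) ∈ T := by
    intro α hα β hβ
    rw [hTmem]
    have h := hcomm α⁻¹ (N.inv_mem hα) β⁻¹ (N.inv_mem hβ)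
    have e1 : α * β * α⁻¹ * β⁻¹ = (α * β) * (α⁻¹ * β⁻¹) := by group
    rw [e1, MulAut.mul_apply, h, ← MulAut.mul_apply]
    have e2 : α * β * (β⁻¹ * α⁻¹) = 1 := by group
    rw [e2]
    rfl
  have hcT : commutator N ≤ T.comap N.subtype := by
    rw [commutator_def, Subgroup.commutator_le]
    rintro a - b -
    rw [Subgroup.mem_comap, commutatorElement_def]
    exact hNT a a.2 b b.2
  have hcN : Group.IsSolvable (commutator N) := by
    apply Group.isSolvable_of_comm
    intro a b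
    have h1 := hcT a.2
    have h2 := hcT b.2
    have := hTcomm _ h1 _ h2
    apply Subtype.ext
    apply Subtype.ext
    simpa using this
  have hNsol : Group.IsSolvable N :=
    Group.isSolvable_of_ker_le_range (commutator N).subtype (Abelianization.of (G := N))
      (by rw [Abelianization.ker_of, Subgroup.range_subtype])
  obtain ⟨P₀⟩ : Nonempty (Sylow p G) := inferInstance
  have hcs := fun P : Sylow p G => Cfsg.Agent.Lib.FG85.PrimeSylow.card_sylow_eq hpG hpp P
  have hsurj : Function.Surjective ((QuotientGroup.mk' (Cfsg.Inn G)).comp N.subtype) := by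
    intro x
    obtain ⟨α, rfl⟩ := QuotientGroup.mk'_surjective _ x
    obtain ⟨P, hP⟩ := Cfsg.Agent.Lib.FG85.PrimeSylow.exists_sylow_eq_zpowers P₀ (hcs P₀) hu
    have hu' : orderOf (α u) = p := by rw [MulEquiv.orderOf_eq, hu]
    obtain ⟨Q, hQ⟩ := Cfsg.Agent.Lib.FG85.PrimeSylow.exists_sylow_eq_zpowers P₀ (hcs P₀) hu'
    obtain ⟨g, hg⟩ := MulAction.exists_smul_eq G Q P
    have h1 : MulAut.conj g • Subgroup.zpowers (α u) = Subgroup.zpowers u := by
      rw [← hQ, ← hP, ← Sylow.coe_subgroup_smul, hg]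
    have h2 : MulAut.conj g * α ∈ N := by
      rw [MulAction.mem_stabilizer_iff, mul_smul, smul_zpowers', h1]
    refine ⟨⟨_, h2⟩, ?_⟩
    simp only [MonoidHom.comp_apply, Subgroup.subtype_apply, QuotientGroup.mk'_apply]
    rw [QuotientGroup.eq]
    have : (MulAut.conj g * α)⁻¹ * α = α⁻¹ * (MulAut.conj g)⁻¹ * α := by group
    rw [this]
    exact (Cfsg.innNormal G).conj_mem' _ (Subgroup.inv_mem _ ⟨g, rfl⟩) _
  exact Group.isSolvable_of_surjective hsurj

end Cfsg.Agent.S4277
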