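import Cfsg.Statements.S4282
import Cfsg.Agent.Lib.HallHigman.Core

set_option autoImplicit false
open Cfsg
open Module Cfsg.Agent.Lib.HallHigman

namespace Cfsg.Agent.S4282

/-- A critical case behind the Hall–Higman theorem. Let p ≠ q be primes and G a finite group generated by a normal q-subgroup Q and a cyclic p-subgroup generated by x, such that the centralizer of every non-identity element of that cyclic subgroup is its product with the centre of G. Let K be an algebraically closed field of characteristic p and ρ a faithful representation of G on a nonzero finite-dimensional K-space whose restriction to Q is irreducible. If s is the least exponent with (ρ(x) − 1)^s = 0, then |⟨x⟩| − 1 ≤ s ≤ |⟨x⟩|; and if s = |⟨x⟩| − 1 then |⟨x⟩| − 1 is a power of q and Q is non-abelian. -/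
theorem result {G : Type*} [Group G] [Finite G] (p q : ℕ) [Fact p.Prime] [Fact q.Prime] (hpq : p ≠ q) (Q : Subgroup G) [Q.Normal] (hQ : IsPGroup q Q) (x : G) (hx : IsPGroup p (Subgroup.zpowers x)) (hgen : Q ⊔ Subgroup.zpowers x = ⊤) (hC : ∀ y ∈ Subgroup.zpowers x, y ≠ 1 → Subgroup.centralizer ({y} : Set G) = Subgroup.zpowers x ⊔ Subgroup.center G) {K : Type*} [Field K] [IsAlgClosed K] [CharP K p] {V : Type*} [AddCommGroup V] [Module K V] [FiniteDimensional K V] [Nontrivial V] (ρ : Representation K G V) (hfaith : Function.Injective ρ) (hirr : ∀ W : Submodule K V, (∀ g ∈ Q, Submodule.map (ρ g) W ≤ W) → W = ⊥ ∨ W = ⊤) (s : ℕ) (hs : (ρ x - 1) ^ s = 0) (hmin : ∀ k < s, (ρ x - 1) ^ k ≠ 0) : Nat.card (Subgroup.zpowers x) - 1 ≤ s ∧ s ≤ Nat.card (Subgroup.zpowers x) ∧ (s = Nat.card (Subgroup.zpowers x) - 1 → (∃ b : ℕ, Nat.card (Subgroup.zpowers x) - 1 = q ^ b) ∧ ¬ IsMulCommutative Q) := by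
  classical
    have hpp : p.Prime := Fact.out
    have hqq : q.Prime := Fact.out
    have hqK : (q : K) ≠ 0 := by
      intro h
      have h1 : p ∣ q := (CharP.cast_eq_zero_iff K p q).mp h
      exact hpq ((Nat.prime_dvd_prime_iff_eq hpp hqq).mp h1)
    obtain ⟨k, hk⟩ := IsPGroup.iff_card.mp hx
    rw [Nat.card_zpowers] at hk
    simp only [Nat.card_zpowers]
    rw [hk]
    have hPpos : 0 < p ^ k := pow_pos hpp.pos k
    have hxP : x ^ p ^ k = 1 := by
      rw [← hk, pow_orderOf_eq_one]
    have hz : (ρ x - 1) ^ p ^ k = 0 := by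
      rw [Core.sub_one_pow (K := K) (p := p), ← map_pow, hxP, map_one, sub_self]
    have hsle : s ≤ p ^ k := by
      by_contra hlt
      push Not at hlt
      exact hmin _ hlt hz
    have hspos : 1 ≤ s := by
      by_contra h0
      have h1 : s = 0 := by omega
      rw [h1, pow_zero] at hs
      exact one_ne_zero hs
    have hx1 : ¬ k = 0 ∨ x = 1 := by
      by_cases h : k = 0
      · right
        rw [h, pow_zero, pow_one] at hxP
        exact hxP
      · exact Or.inl h
    by_cases hk0 : k = 0
    · subst hk0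
      simp only [pow_zero] at hsle ⊢
      refine ⟨by omega, hsle, fun h => ?_⟩
      omega
    have hkpos : 1 ≤ k := Nat.one_le_iff_ne_zero.mpr hk0
    have hPge : 2 ≤ p ^ k := by
      calc 2 ≤ p := hpp.two_le
        _ = p ^ 1 := (pow_one p).symm
        _ ≤ p ^ k := Nat.pow_le_pow_right hpp.pos hkpos
    have hxne : x ≠ 1 := by
      rintro rfl
      rw [orderOf_one] at hk
      omega
    have hxn : x ∈ Subgroup.normalizer (Q : Set G) := by
      rw [Subgroup.mem_normalizer_iff]
      intro g
      exact ⟨fun h => ‹Q.Normal›.conj_mem g h x, fun h => by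
        have := ‹Q.Normal›.conj_mem _ h x⁻¹
        simpa [mul_assoc] using this⟩
    let ρ' : Q →* End K V := (ρ : G →* End K V).comp Q.subtype
    have hirr' : ∀ W : Submodule K V, (∀ g, ∀ w ∈ W, ρ' g w ∈ W) → W = ⊥ ∨ W = ⊤ := by
      intro W hW
      apply hirr
      rintro g hg _ ⟨w, hw, rfl⟩
      exact hW ⟨g, hg⟩ w hw
    have hU : Irr.IsIrr (ρ : G →* End K V) Q ⊤ := by
      refine ⟨top_ne_bot, fun _ _ _ _ => trivial, fun W' _ hW' => ?_⟩
      apply hirr
      rintro g hg _ ⟨w, hw, rfl⟩
      exact hW' g hg w hw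
    have hF : ∀ c ∈ Subgroup.zpowers x, c ≠ 1 → ∀ g ∈ Q,
        (∀ h ∈ Q, ∀ u ∈ (⊤ : Submodule K V), ρ (g⁻¹ * (c * g * c⁻¹)) (ρ h u) = ρ h (ρ (g⁻¹ * (c * g * c⁻¹)) u)) →
        ∀ h ∈ Q, ∀ u ∈ (⊤ : Submodule K V), ρ g (ρ h u) = ρ h (ρ g u) := by
      intro c hc hc1 g hg hcomm h hh u _
      set z := g⁻¹ * (c * g * c⁻¹) with hzdef
      have hzQ : z ∈ Q := Q.mul_mem (Q.inv_mem hg) (‹Q.Normal›.conj_mem g hg c)
      -- `z` acts as a scalar, hence is central
      obtain ⟨μ, hμ⟩ := Critical.schur ρ' hirr' (ρ z) (fun h' => by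
        ext v
        exact (hcomm h'.1 h'.2 v trivial).symm)
      have hzc : ∀ w : G, z * w = w * z := by
        intro w
        apply hfaith
        have e1 : ρ (z * w) = ρ z * ρ w := map_mul _ _ _
        have e2 : ρ (w * z) = ρ w * ρ z := map_mul _ _ _
        rw [e1, e2, hμ]
        simp [smul_mul_assoc, mul_smul_comm]
      have hcj : ∀ j : ℕ, c ^ j * g * (c ^ j)⁻¹ = g * z ^ j := by
        intro j
        induction j with
        | zero => simp
        | succ j ih =>
          have e1 : c ^ (j + 1) * g * (c ^ (j + 1))⁻¹ = c * (c ^ j * g * (c ^ j)⁻¹) * c⁻¹ := by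
            rw [pow_succ']
            group
          have e2 : c * g * c⁻¹ = g * z := by
            rw [hzdef]
            group
          have hzj : ∀ w : G, z ^ j * w = w * z ^ j := by
            intro w
            exact (Commute.pow_left (hzc w) j).eq
          rw [e1, ih]
          calc c * (g * z ^ j) * c⁻¹ = (c * g * c⁻¹) * (c * z ^ j * c⁻¹) := by group
            _ = (g * z) * z ^ j := by
              rw [e2, ← hzj c, mul_assoc (z ^ j), mul_inv_cancel, mul_one]
            _ = g * z ^ (j + 1) := by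
              rw [pow_succ', mul_assoc]
      have hcP : c ^ p ^ k = 1 := by
        obtain ⟨i, rfl⟩ := (isOfFinOrder_of_finite x).mem_powers_iff_mem_zpowers.mpr hc
        simp only
        rw [← pow_mul, mul_comm, pow_mul, hxP, one_pow]
      have hzP : z ^ p ^ k = 1 := by
        have h1 := hcj (p ^ k)
        rw [hcP] at h1
        simpa using h1
      obtain ⟨m, hm⟩ := (IsPGroup.iff_card.mp hQ)
      have hzq : z ^ q ^ m = 1 := by
        have h1 := pow_card_eq_one' (x := (⟨z, hzQ⟩ : Q))
        rw [hm] at h1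
        exact congrArg Subtype.val h1
      have hcopPQ : (p ^ k).Coprime (q ^ m) := Nat.Coprime.pow _ _ ((Nat.coprime_primes hpp hqq).mpr hpq)
      have hz1 : z = 1 := by
        have := pow_gcd_eq_one.mpr ⟨hzP, hzq⟩
        rwa [hcopPQ, pow_one] at this
      have hgc : c * g = g * c := by
        have e2 : c * g * c⁻¹ = g * z := by
          rw [hzdef]
          group
        rw [hz1, mul_one] at e2
        calc c * g = c * g * c⁻¹ * c := by group
          _ = g * c := by rw [e2]
      have hgcent : g ∈ Subgroup.centralizer ({c} : Set G) := by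
        rw [Subgroup.mem_centralizer_iff]
        intro c' hc'
        rw [Set.mem_singleton_iff.mp hc']
        exact hgc
      rw [hC c hc hc1] at hgcent
      have hgmul : g ∈ ((Subgroup.zpowers x ⊔ Subgroup.center G : Subgroup G) : Set G) := hgcent
      rw [Subgroup.mul_normal] at hgmul
      obtain ⟨a, ha, w, hw, rfl⟩ := Set.mem_mul.mp hgmul
      have hw' : w ∈ Subgroup.center G := hw
      have hwc : ∀ v : G, w * v = v * w := fun v => ((Subgroup.mem_center_iff.mp hw') v).symm
      have hgq : (a * w) ^ q ^ m = 1 := by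
        have h1 := pow_card_eq_one' (x := (⟨a * w, hg⟩ : Q))
        rw [hm] at h1
        exact congrArg Subtype.val h1
      have haw : Commute a w := (hwc a).symm
      rw [haw.mul_pow] at hgq
      have habz : a ^ q ^ m ∈ Subgroup.center G := by
        have h1 : a ^ q ^ m = (w ^ q ^ m)⁻¹ := eq_inv_of_mul_eq_one_left hgq
        rw [h1]
        exact Subgroup.inv_mem _ (Subgroup.pow_mem _ hw' _)
      have haP : a ^ p ^ k = 1 := by
        obtain ⟨i, rfl⟩ := (isOfFinOrder_of_finite x).mem_powers_iff_mem_zpowers.mpr ha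
        simp only
        rw [← pow_mul, mul_comm, pow_mul, hxP, one_pow]
      have hcopa : (q ^ m).Coprime (orderOf a) :=
        Nat.Coprime.coprime_dvd_right (orderOf_dvd_of_pow_eq_one haP) hcopPQ.symm
      obtain ⟨e, he⟩ := exists_pow_eq_self_of_coprime hcopa
      have haz : a ∈ Subgroup.center G := by
        rw [← he]
        exact Subgroup.pow_mem _ habz _
      have hgz : a * w ∈ Subgroup.center G := Subgroup.mul_mem _ haz hw'
      rw [← Module.End.mul_apply, ← Module.End.mul_apply, ← map_mul, ← map_mul,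
        (Subgroup.mem_center_iff.mp hgz h).symm]
    have hx1V : finrank K V ≠ 1 := by
      intro hD
      apply hxne
      apply hfaith
      rw [map_one]
      ext v
      have hD' : finrank K (⊤ : Submodule K V) = 1 := by
        rw [finrank_top]
        exact hD
      exact Core.fixed_of_finrank_one (p := p) (U := ⊤) (fun u _ => Submodule.mem_top) hD' k hz v Submodule.mem_top
    have hlow : ∀ j, (∃ u ∈ (⊤ : Submodule K V), ((ρ x - 1) ^ j) u ≠ 0) → j < s := by
      rintro j ⟨u, -, hu⟩
      by_contra hle
      push Not at hle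
      apply hu
      rw [pow_eq_zero_of_le hle hs, LinearMap.zero_apply]
    rcases Core.critical_sub (p := p) hqK (ρ : G →* End K V) Q hQ hU hxn (fun _ _ => Submodule.mem_top) k hk hF with
      h | h | ⟨h1, h2⟩
    · have := hlow _ h
      refine ⟨by omega, hsle, fun h' => ?_⟩
      omega
    · rw [finrank_top] at h
      exact absurd h hx1V
    · have := hlow _ h2
      rw [finrank_top] at h1
      refine ⟨by omega, hsle, fun _ => ⟨?_, ?_⟩⟩
      · obtain ⟨b, hb⟩ := DegPower.finrank_eq_pow hqK (Nat.card Q) Q le_rfl hQ V ρ' hirr'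
        refine ⟨b, ?_⟩
        rw [← hb]
        omega
      · intro hcomm
        apply hx1V
        apply Core.finrank_eq_one_of_comm ρ' hirr'
        intro g h
        rw [← map_mul, ← map_mul, hcomm.is_comm.comm g h]

end Cfsg.Agent.S4282
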