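import Cfsg.Statements.S4290
import Cfsg.Agent.S4276

set_option autoImplicit false
open Cfsg

namespace Cfsg.Agent.S4290


/-- Let G be a doubly transitive group of permutations of a finite set Ω in which a point stabilizer is a Hall subgroup of G (its order is coprime to its index). Then every automorphism of G of odd order is induced by conjugation by a permutation of Ω normalizing G. -/
theorem result {Ω : Type*} [Fintype Ω] (G : Subgroup (Equiv.Perm Ω)) (h2 : MulAction.IsMultiplyPretransitive G Ω 2) (o : Ω) (hHall : (Nat.card (MulAction.stabilizer G o)).Coprime (MulAction.stabilizer G o).index) (α : MulAut G) (hα : Odd (orderOf α)) : ∃ σ : Equiv.Perm Ω, σ ∈ Subgroup.normalizer (G : Set (Equiv.Perm Ω)) ∧ ∀ g : G, ((α g : G) : Equiv.Perm Ω) = σ * (g : Equiv.Perm Ω) * σ⁻¹ := by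
  classical
  -- the orbit length divides |K| = |H|, and [G:H] = |Ω|
  have h2' : ∀ a c : Ω, ∃ g : G, g • a = c := by
    intro a c
    by_cases hn : 2 ≤ Fintype.card Ω
    · obtain ⟨a', ha'⟩ := Fintype.exists_ne_of_one_lt_card (α := Ω) (by omega) a
      obtain ⟨c', hc'⟩ := Fintype.exists_ne_of_one_lt_card (α := Ω) (by omega) c
      let x : Fin 2 ↪ Ω := ⟨![a, a'], by
        intro i j hij
        fin_cases i <;> fin_cases j <;> simp_all⟩
      let y : Fin 2 ↪ Ω := ⟨![c, c'], by
        intro i j hij
        fin_cases i <;> fin_cases j <;> simp_all⟩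
      obtain ⟨g, hg⟩ := h2.exists_smul_eq x y
      refine ⟨g, ?_⟩
      have h3 : g • (x 0) = y 0 := by rw [← hg]; rfl
      exact h3
    · have hpos : 0 < Fintype.card Ω := Fintype.card_pos_iff.mpr ⟨o⟩
      have hsub : Subsingleton Ω := Fintype.card_le_one_iff_subsingleton.mp (by omega)
      exact ⟨1, Subsingleton.elim _ _⟩
  have htr : MulAction.IsPretransitive G Ω := ⟨h2'⟩
  have hidx : (MulAction.stabilizer G o).index = Fintype.card Ω := by
    rw [MulAction.index_stabilizer, MulAction.orbit_eq_univ, Set.ncard_univ, Nat.card_eq_fintype_card]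
  set K := (MulAction.stabilizer G o).map α.toMonoidHom with hK
  have hcardK : Nat.card K = Nat.card (MulAction.stabilizer G o) :=
    Subgroup.card_map_of_injective α.injective
  have hk : (Nat.card (MulAction.orbit K o)).Coprime (Fintype.card Ω) := by
    have h3 : Nat.card (MulAction.orbit K o) ∣ Nat.card K := by
      rw [Nat.card_coe_set_eq, ← MulAction.index_stabilizer]
      exact Subgroup.index_dvd_card _
    rw [hcardK] at h3
    rw [← hidx]
    exact Nat.Coprime.coprime_dvd_left h3 hHall
  exact (Cfsg.Agent.S4276.result G h2 o α hα o hk).1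


end Cfsg.Agent.S4290
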