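import Cfsg.Statements.S4295
import Cfsg.Agent.Lib.Frobenius.QuatModel

set_option autoImplicit false
open Cfsg

namespace Cfsg.Agent.S4295

/-- For a natural number m the following are equivalent: (a) some finite group has a Frobenius complement isomorphic to the quaternion group of order 8 whose Frobenius kernel (the identity together with the elements lying in no conjugate of the complement) has exactly m elements; (b) m is an odd perfect square greater than 1. -/
theorem result (m : ℕ) :
    (∃ (L : Type) (_ : Group L) (_ : Finite L) (H : Subgroup L), Cfsg.IsFrobeniusComplement H ∧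
        Nonempty (H ≃* QuaternionGroup 2) ∧ Nat.card (Cfsg.frobeniusKernel H) = m) ↔
    (Odd m ∧ IsSquare m ∧ 1 < m) := by
  classical
  open Cfsg.Agent.Lib.Frobenius.Basic Cfsg.Agent.Lib.Frobenius.Theorem
    Cfsg.Agent.Lib.Frobenius.QuatKernel Cfsg.Agent.Lib.Frobenius.QuatLift
    Cfsg.Agent.Lib.Frobenius.QuatModel in
  constructor
  · rintro ⟨L, i1, i2, H, hH, ⟨e⟩, rfl⟩
    obtain ⟨h1, h2, h3, h4, h5⟩ := quat_relations 1
    let e' : H ≃* QuaternionGroup (2 * 1) := e
    let ψ : QuaternionGroup (2 * 1) →* L := H.subtype.comp (e'.symm : QuaternionGroup (2 * 1) →* H)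
    have hψ : Function.Injective ψ := H.subtype_injective.comp e'.symm.injective
    have hψH : ∀ x, ψ x ∈ H := fun x => (e'.symm x).2
    have hmain := odd_isSquare_of_quat hH (q₁ := ψ _) (q₂ := ψ _) (t := ψ _) (hψH _)
      (fun h => h1 (hψ (h.trans (map_one ψ).symm)))
      ((map_mul ψ _ _).symm.trans (congrArg ψ h2))
      ((map_mul ψ _ _).symm.trans (congrArg ψ h3))
      ((map_mul ψ _ _).symm.trans ((congrArg ψ h4).trans (map_one ψ)))
      (hψH _)
      (by
        rw [← map_mul, ← map_inv, ← map_mul, h5, map_inv])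
    have hcard : Nat.card (frobeniusKernel H) = Nat.card (kernel H) := by
      rw [← coe_kernel hH]
      rfl
    rw [hcard]
    refine ⟨hmain.1, hmain.2, ?_⟩
    have hK := Cfsg.Agent.Lib.Frobenius.ClassSizes.kernel_ne_bot hH
    rw [Finite.one_lt_card_iff_nontrivial]
    exact (Subgroup.nontrivial_iff_ne_bot _).2 hK
  · rintro ⟨hodd, ⟨k, rfl⟩, hm⟩
    have hk : Odd k := by
      rw [Nat.odd_mul] at hodd
      exact hodd.1
    have hk1 : 1 < k := by
      by_contra hcon
      have : k ≤ 1 := by omega
      nlinarith
    exact exists_frobenius hk hk1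

end Cfsg.Agent.S4295
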