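import Cfsg.Statements.S4296
import Cfsg.Agent.Lib.Frobenius.QuatLift
import Cfsg.Agent.S0016
import Cfsg.Agent.Lib.FPF.Complement
import Cfsg.Agent.Lib.FPF.UniqueOrderP

set_option autoImplicit false
open Cfsg

namespace Cfsg.Agent.S4296

/-- Let H be a Frobenius complement in a finite group, and suppose some Sylow subgroup of H is not cyclic. Then the number of elements of the Frobenius kernel (the identity together with the elements lying in no conjugate of H) is an odd perfect square. -/
theorem result {L : Type*} [Group L] [Finite L] (H : Subgroup L) (hF : Cfsg.IsFrobeniusComplement H)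
    (hZ : ∃ (p : ℕ) (_ : Fact p.Prime) (P : Sylow p H), ¬ IsCyclic P) :
    Odd (Nat.card (Cfsg.frobeniusKernel H)) ∧ IsSquare (Nat.card (Cfsg.frobeniusKernel H)) := by
  classical
  open Cfsg.Agent.Lib.Frobenius.Basic Cfsg.Agent.Lib.Frobenius.Theorem
    Cfsg.Agent.Lib.Frobenius.QuatKernel Cfsg.Agent.Lib.Frobenius.QuatLift
    Cfsg.Agent.Lib.FPF.Complement Cfsg.Agent.Lib.FPF.UniqueOrderP in
  obtain ⟨p, hp, P, hP⟩ := hZ
  have hc := kernel_isComplement' hF
  have hK := Cfsg.Agent.Lib.Frobenius.ClassSizes.kernel_ne_bot hF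
  have hH1 : H ≠ ⊥ := hF.1
  haveI := kernel_normal H
  have hfpf := (isFrobeniusComplement_iff_of_isComplement' (kernel H) hc hK hH1).1 hF
  have hp2 : p = 2 := by
    by_contra hne
    apply hP
    have hmap : IsPGroup p ((P : Subgroup H).map H.subtype) := P.isPGroup'.map H.subtype
    have h1 := isCyclic_of_isPGroup hc hK hfpf ((P : Subgroup H).map H.subtype)
      (Subgroup.map_subtype_le _) hne hmap
    exact isCyclic_of_surjective
      ((Subgroup.equivMapOfInjective (P : Subgroup H) H.subtype H.subtype_injective).symm :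
        ((P : Subgroup H).map H.subtype : Subgroup L) →* (P : Subgroup H))
      (MulEquiv.surjective _)
  subst hp2
  let φ : P →* L := H.subtype.comp (P : Subgroup H).subtype
  have hφ : Function.Injective φ :=
    H.subtype_injective.comp (P : Subgroup H).subtype_injective
  have hle : φ.range ≤ H := by
    rintro _ ⟨x, rfl⟩
    exact (x.1 : H).2
  have huniq := unique_card_prime hc hK hfpf φ hφ hle P.isPGroup'
  rcases Cfsg.Agent.S0016.result 2 P.isPGroup' huniq with h | ⟨-, n, ⟨e⟩⟩
  · exact absurd h hP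
  rcases n with _ | k
  · exfalso
    apply hP
    have h1 : IsCyclic (QuaternionGroup 1) := QuaternionGroup.quaternionGroup_one_isCyclic
    exact isCyclic_of_surjective (e.symm : QuaternionGroup (2 ^ 0) →* P) (MulEquiv.surjective _)
  have hk : 2 ^ (k + 1) = 2 * 2 ^ k := pow_succ' 2 k
  rw [hk] at e
  haveI : NeZero (2 ^ k) := ⟨by positivity⟩
  obtain ⟨h1, h2, h3, h4, h5⟩ := quat_relations (2 ^ k)
  let ψ : QuaternionGroup (2 * 2 ^ k) →* L := φ.comp (e.symm : QuaternionGroup (2 * 2 ^ k) →* P)
  have hψ : Function.Injective ψ := hφ.comp e.symm.injective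
  have hψH : ∀ x, ψ x ∈ H := fun x => hle ⟨_, rfl⟩
  have hmain := odd_isSquare_of_quat hF (q₁ := ψ _) (q₂ := ψ _) (t := ψ _) (hψH _)
    (fun h => h1 (hψ (h.trans (map_one ψ).symm)))
    ((map_mul ψ _ _).symm.trans (congrArg ψ h2))
    ((map_mul ψ _ _).symm.trans (congrArg ψ h3))
    ((map_mul ψ _ _).symm.trans ((congrArg ψ h4).trans (map_one ψ)))
    (hψH _)
    (by
      rw [← map_mul, ← map_inv, ← map_mul, h5, map_inv])
  have hcard : Nat.card (frobeniusKernel H) = Nat.card (kernel H) := by
    rw [← coe_kernel hF]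
    rfl
  rw [hcard]
  exact hmain

end Cfsg.Agent.S4296
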