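import Cfsg.Statements.S4300

set_option autoImplicit false
open Cfsg

namespace Cfsg.Agent.S4300


/-- Let G act faithfully and primitively on a set X, and suppose the stabilizer of some point is a simple group. Then either G is simple, or G has a normal subgroup, neither trivial nor the whole group, that acts regularly on X (transitively with trivial point stabilizers). -/
theorem result {G : Type*} [Group G] {X : Type*} [MulAction G X] [FaithfulSMul G X]
    (hprim : MulAction.IsPreprimitive G X) (x : X) (hsimple : IsSimpleGroup (MulAction.stabilizer G x)) :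
    IsSimpleGroup G ∨ ∃ N : Subgroup G, N.Normal ∧ N ≠ ⊥ ∧ N ≠ ⊤ ∧
      MulAction.IsPretransitive N X ∧ ∀ y : X, MulAction.stabilizer N y = ⊥ := by
  classical
  have := hprim
  by_cases hG : IsSimpleGroup G
  · exact Or.inl hG
  right
  have hnt : Nontrivial G := by
    obtain ⟨⟨a, b, hab⟩⟩ := hsimple.toNontrivial
    exact ⟨⟨a.1, b.1, fun h => hab (Subtype.ext h)⟩⟩
  -- exists a proper nontrivial normal subgroup
  have hex : ∃ N : Subgroup G, N.Normal ∧ N ≠ ⊥ ∧ N ≠ ⊤ := by
    by_contra hcon
    push Not at hcon
    apply hG
    refine ⟨fun N hN => ?_⟩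
    by_cases h : N = ⊥
    · exact Or.inl h
    · exact Or.inr (hcon N hN h)
  obtain ⟨N, hNn, hNb, hNt⟩ := hex
  have := hNn
  refine ⟨N, hNn, hNb, hNt, ?_⟩
  -- `N` has no trivial action since the action is faithful
  have hfix : MulAction.fixedPoints N X ≠ Set.univ := by
    intro h
    apply hNb
    rw [eq_bot_iff]
    intro g hg
    rw [Subgroup.mem_bot]
    apply FaithfulSMul.eq_of_smul_eq_smul (α := X)
    intro y
    have hy : y ∈ MulAction.fixedPoints N X := by rw [h]; trivial
    have := (MulAction.mem_fixedPoints.mp hy) ⟨g, hg⟩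
    simpa using this
  have htr : MulAction.IsPretransitive N X :=
    MulAction.IsQuasiPreprimitive.isPretransitive_of_normal hfix
  refine ⟨htr, ?_⟩
  -- stabilizer of `x` in `N` is a normal subgroup of the simple stabilizer
  have hstab : ∀ n : N, (n : G) • x = x → (n : G) = 1 := by
    set S := MulAction.stabilizer G x with hS
    set T : Subgroup S := N.subgroupOf S with hT
    have hTn : T.Normal := by
      rw [hT]; infer_instance
    rcases hsimple.eq_bot_or_eq_top_of_normal T hTn with h | h
    · intro n hn
      have : (⟨n, hn⟩ : S) ∈ T := by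
        rw [hT, Subgroup.mem_subgroupOf]
        exact n.2
      rw [h, Subgroup.mem_bot] at this
      exact congrArg Subtype.val this
    · -- `S ≤ N`, then `N` transitive forces `N = ⊤`
      exfalso
      apply hNt
      have hSN : S ≤ N := by
        intro s hs
        have : (⟨s, hs⟩ : S) ∈ T := by rw [h]; trivial
        rw [hT, Subgroup.mem_subgroupOf] at this
        exact this
      rw [eq_top_iff]
      intro g _
      obtain ⟨n, hn⟩ := htr.exists_smul_eq x (g • x)
      have h1 : (n : G)⁻¹ * g ∈ S := by
        rw [hS, MulAction.mem_stabilizer_iff, mul_smul, ← hn, Subgroup.smul_def, inv_smul_smul]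
      have h2 := N.mul_mem n.2 (hSN h1)
      simpa using h2
  intro y
  rw [eq_bot_iff]
  intro n hn
  rw [MulAction.mem_stabilizer_iff] at hn
  rw [Subgroup.mem_bot]
  obtain ⟨m, hm⟩ := htr.exists_smul_eq x y
  have h3 : (m⁻¹ * n * m : N) = 1 := by
    apply Subtype.ext
    apply hstab
    have : ((m⁻¹ * n * m : N) : G) • x = m⁻¹ • (n • (m • x)) := by
      simp [Subgroup.smul_def, mul_smul]
    rw [this, hm, hn, ← hm, inv_smul_smul]
  have h4 : n = m * (m⁻¹ * n * m) * m⁻¹ := by group
  rw [h4, h3]; simp


end Cfsg.Agent.S4300
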