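import Cfsg.Statements.S4301
import Mathlib
-- import your own Cfsg.Agent.* helpers here

set_option autoImplicit false
open Cfsg

namespace Cfsg.Agent.S4301

open Equiv

theorem embed1 {X : Type*} {k : ℕ} (hk : 2 ≤ k) (hkX : Nonempty (Fin k ↪ X)) (u : X) :
    ∃ a : Fin k ↪ X, a ⟨0, by omega⟩ = u := by
  classical
  obtain ⟨e⟩ := hkX
  exact ⟨e.trans (Equiv.swap (e ⟨0, by omega⟩) u).toEmbedding, by simp⟩

theorem embed2 {X : Type*} {k : ℕ} (hk : 2 ≤ k) (hkX : Nonempty (Fin k ↪ X)) (u v : X) (huv : u ≠ v) :
    ∃ a : Fin k ↪ X, a ⟨0, by omega⟩ = u ∧ a ⟨1, by omega⟩ = v := by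
  classical
  obtain ⟨e⟩ := hkX
  have h01 : e ⟨0, by omega⟩ ≠ e ⟨1, by omega⟩ := fun h => by
    have := e.injective h
    simp at this
  set τ1 := Equiv.swap (e ⟨0, by omega⟩) u with hτ1
  set y' := τ1 (e ⟨1, by omega⟩) with hy'
  have hy'u : y' ≠ u := by
    intro h
    have : τ1 (e ⟨1, by omega⟩) = τ1 (e ⟨0, by omega⟩) := by
      rw [← hy', h, hτ1, Equiv.swap_apply_left]
    exact h01 (τ1.injective this).symm
  set τ2 := Equiv.swap y' v with hτ2
  refine ⟨e.trans (τ1.trans τ2).toEmbedding, ?_, ?_⟩
  · simp only [Function.Embedding.trans_apply, Equiv.coe_toEmbedding, Equiv.trans_apply, hτ1,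
      Equiv.swap_apply_left]
    rw [hτ2, Equiv.swap_apply_of_ne_of_ne hy'u.symm huv]
  · simp only [Function.Embedding.trans_apply, Equiv.coe_toEmbedding, Equiv.trans_apply]
    rw [← hy', hτ2, Equiv.swap_apply_left]



/-- One-point extension of a multiply transitive group. Let X be a set and G a group of permutations of Option X (the set X with one extra point ∗ = none) all of whose elements fix ∗, such that G is k-transitive on the points of X for some k ≥ 2, X having at least k points. Suppose a permutation h of Option X and an element g of G satisfy: h interchanges ∗ with a point x of X and fixes a point y of X; g interchanges x and y; (g h)³ and h² lie in G; and for every f in G fixing x, the product h f h lies in G and fixes x. Then an element of the group generated by G and h fixes ∗ exactly when it lies in G, and that group acts (k+1)-transitively on Option X. -/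
theorem result {X : Type*} (G : Subgroup (Equiv.Perm (Option X))) (hfix : ∀ f ∈ G, f none = none)
    (k : ℕ) (hk : 2 ≤ k) (hkX : Nonempty (Fin k ↪ X))
    (htrans : ∀ a b : Fin k ↪ X, ∃ f ∈ G, ∀ i, f (some (a i)) = some (b i))
    (h g : Equiv.Perm (Option X)) (hg : g ∈ G) (x y : X)
    (h1 : h none = some x) (h2 : h (some x) = none) (h3 : h (some y) = some y)
    (h4 : g (some x) = some y) (h5 : g (some y) = some x)
    (h6 : (g * h) ^ 3 ∈ G) (h7 : h ^ 2 ∈ G)
    (h8 : ∀ f ∈ G, f (some x) = some x → h * f * h ∈ G ∧ (h * f * h) (some x) = some x) :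
    (∀ f ∈ Subgroup.closure ((G : Set (Equiv.Perm (Option X))) ∪ {h}), f none = none ↔ f ∈ G) ∧
      MulAction.IsMultiplyPretransitive (Subgroup.closure ((G : Set (Equiv.Perm (Option X))) ∪ {h})) (Option X) (k + 1) := by
  classical
  have hxy : x ≠ y := by
    rintro rfl
    rw [h2] at h3
    cases h3
  -- transitivity on points
  have htr1 : ∀ u v : X, ∃ f ∈ G, f (some u) = some v := by
    intro u v
    obtain ⟨a, ha⟩ := embed1 hk hkX u
    obtain ⟨b, hb⟩ := embed1 hk hkX v
    obtain ⟨f, hf, hfi⟩ := htrans a b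
    exact ⟨f, hf, by rw [← ha, hfi, hb]⟩
  -- the stabilizer of x fixes x and sends y to any other point
  have htr2 : ∀ u : X, u ≠ x → ∃ f ∈ G, f (some x) = some x ∧ f (some y) = some u := by
    intro u hu
    obtain ⟨a, ha0, ha1⟩ := embed2 hk hkX x y hxy
    obtain ⟨b, hb0, hb1⟩ := embed2 hk hkX x u hu.symm
    obtain ⟨f, hf, hfi⟩ := htrans a b
    have e0 := hfi ⟨0, by omega⟩
    have e1 := hfi ⟨1, by omega⟩
    rw [ha0, hb0] at e0
    rw [ha1, hb1] at e1
    exact ⟨f, hf, e0, e1⟩
  have hsq : ∀ f ∈ G, f (some x) = some x → h * f * h⁻¹ ∈ G := by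
    intro f hf hfx
    have e : h * f * h⁻¹ = h * f * h * (h ^ 2)⁻¹ := by group
    rw [e]
    exact mul_mem (h8 f hf hfx).1 (inv_mem h7)
  have hsq' : ∀ f ∈ G, f (some x) = some x → h⁻¹ * f * h ∈ G := by
    intro f hf hfx
    have e : h⁻¹ * f * h = (h ^ 2)⁻¹ * (h * f * h) := by group
    rw [e]
    exact mul_mem (inv_mem h7) (h8 f hf hfx).1
  -- the key: `h f h` lies in `G ∪ G h G`
  let P : Equiv.Perm (Option X) → Prop := fun w => w ∈ G ∨ ∃ f1 ∈ G, ∃ f2 ∈ G, w = f1 * h * f2
  have hPr : ∀ w c, c ∈ G → P w → P (w * c) := by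
    rintro w c hc (hw | ⟨f1, hf1, f2, hf2, rfl⟩)
    · exact Or.inl (mul_mem hw hc)
    · exact Or.inr ⟨f1, hf1, f2 * c, mul_mem hf2 hc, by group⟩
  have hPl : ∀ w c, c ∈ G → P w → P (c * w) := by
    rintro w c hc (hw | ⟨f1, hf1, f2, hf2, rfl⟩)
    · exact Or.inl (mul_mem hc hw)
    · exact Or.inr ⟨c * f1, mul_mem hc hf1, f2, hf2, by group⟩
  have hkey : ∀ f ∈ G, P (h * f * h) := by
    intro f hf
    by_cases hfx : f (some x) = some x
    · exact Or.inl (h8 f hf hfx).1
    · -- write `f = f1 * g * f0`
      have hne : f (some x) ≠ none := by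
        intro h0
        have : f (some x) = f none := by rw [h0, hfix f hf]
        cases f.injective this
      obtain ⟨u, hu⟩ := Option.ne_none_iff_exists'.1 hne
      have hux : u ≠ x := fun e => hfx (by rw [hu, e])
      obtain ⟨f1, hf1, hf1x, hf1y⟩ := htr2 u hux
      set f0 := (f1 * g)⁻¹ * f with hf0
      have hf0G : f0 ∈ G := mul_mem (inv_mem (mul_mem hf1 hg)) hf
      have hf0x : f0 (some x) = some x := by
        rw [hf0, Equiv.Perm.mul_apply, hu, Equiv.Perm.inv_eq_iff_eq, Equiv.Perm.mul_apply, h4, hf1y]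
      have hfe : f = f1 * g * f0 := by rw [hf0]; group
      have e : h * f * h = (h * f1 * h⁻¹ * g⁻¹ * (g * h) ^ 3 * (h ^ 2)⁻¹) * h *
          (g⁻¹ * (h⁻¹ * f0 * h)) := by
        rw [hfe, show (g * h) ^ 3 = g * h * (g * h) * (g * h) by rw [pow_succ, pow_succ, pow_one],
          show h ^ 2 = h * h from sq h]
        group
      refine Or.inr ⟨_, ?_, _, ?_, e⟩
      · exact mul_mem (mul_mem (mul_mem (hsq f1 hf1 hf1x) (inv_mem hg)) h6) (inv_mem h7)
      · exact mul_mem (inv_mem hg) (hsq' f0 hf0G hf0x)
  have hPh : ∀ w, P w → P (h * w) := by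
    rintro w (hw | ⟨f1, hf1, f2, hf2, rfl⟩)
    · exact Or.inr ⟨1, one_mem _, w, hw, by group⟩
    · have e : h * (f1 * h * f2) = (h * f1 * h) * f2 := by group
      rw [e]
      exact hPr _ _ hf2 (hkey f1 hf1)
  have hclos : ∀ w ∈ Subgroup.closure ((G : Set (Equiv.Perm (Option X))) ∪ {h}), P w := by
    intro w hw
    induction hw using Subgroup.closure_induction_left with
    | one => exact Or.inl (one_mem _)
    | mul_left c hc w _ ih =>
      rcases hc with hc | hc
      · exact hPl _ _ hc ih
      · rw [Set.mem_singleton_iff.1 hc]; exact hPh _ ih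
    | inv_mul_cancel c hc w _ ih =>
      rcases hc with hc | hc
      · exact hPl _ _ (inv_mem hc) ih
      · rw [Set.mem_singleton_iff.1 hc]
        have e : h⁻¹ * w = (h ^ 2)⁻¹ * (h * w) := by group
        rw [e]
        exact hPl _ _ (inv_mem h7) (hPh _ ih)
  refine ⟨?_, ?_⟩
  · intro f hf
    refine ⟨fun hnone => ?_, hfix f⟩
    rcases hclos f hf with hfG | ⟨f1, hf1, f2, hf2, rfl⟩
    · exact hfG
    · exfalso
      have e : (f1 * h * f2) none = f1 (some x) := by
        simp only [Equiv.Perm.mul_apply, hfix f2 hf2, h1]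
      rw [e] at hnone
      have : f1 (some x) = f1 none := by rw [hnone, hfix f1 hf1]
      cases f1.injective this
  · -- multiple transitivity
    set W := Subgroup.closure ((G : Set (Equiv.Perm (Option X))) ∪ {h}) with hW
    have hGW : ∀ f ∈ G, f ∈ W := fun f hf => Subgroup.subset_closure (Or.inl hf)
    have hhW : h ∈ W := Subgroup.subset_closure (Or.inr rfl)
    obtain ⟨e⟩ := hkX
    -- base embedding
    let base : Fin (k + 1) ↪ Option X :=
      ⟨fun i => Fin.cases none (fun j => some (e j)) i, by
        intro i j hij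
        induction i using Fin.cases with
        | zero =>
          induction j using Fin.cases with
          | zero => rfl
          | succ j => simp at hij
        | succ i =>
          induction j using Fin.cases with
          | zero => simp at hij
          | succ j =>
            simp only [Fin.cases_succ, Option.some.injEq] at hij
            rw [e.injective hij]⟩
    have hbase : ∀ a : Fin (k + 1) ↪ Option X, ∃ w ∈ W, ∀ i, w (a i) = base i := by
      intro a
      -- step 1
      have s1 : ∃ w ∈ W, w (a 0) = none := by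
        cases ha : a 0 with
        | none => exact ⟨1, one_mem _, rfl⟩
        | some u =>
          obtain ⟨f, hf, hfu⟩ := htr1 u x
          exact ⟨h * f, mul_mem hhW (hGW f hf), by
            simp only [Equiv.Perm.mul_apply, hfu, h2]⟩
      obtain ⟨w1, hw1, hw10⟩ := s1
      have hsome : ∀ i : Fin k, ∃ c : X, w1 (a i.succ) = some c := by
        intro i
        apply Option.ne_none_iff_exists'.1
        intro h0
        have : w1 (a i.succ) = w1 (a 0) := by rw [h0, hw10]
        have := a.injective (w1.injective this)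
        exact (Fin.succ_ne_zero i) this
      choose c hc using hsome
      have hcinj : Function.Injective c := by
        intro i j hij
        have : w1 (a i.succ) = w1 (a j.succ) := by rw [hc, hc, hij]
        exact Fin.succ_injective _ (a.injective (w1.injective this))
      obtain ⟨f, hf, hfi⟩ := htrans ⟨c, hcinj⟩ e
      refine ⟨f * w1, mul_mem (hGW f hf) hw1, ?_⟩
      intro i
      induction i using Fin.cases with
      | zero =>
        simp only [Equiv.Perm.mul_apply, hw10, hfix f hf]
        rfl
      | succ i =>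
        simp only [Equiv.Perm.mul_apply, hc]
        exact hfi i
    refine ⟨?_⟩
    intro a b
    obtain ⟨wa, hwa, hwai⟩ := hbase a
    obtain ⟨wb, hwb, hwbi⟩ := hbase b
    refine ⟨⟨wb⁻¹ * wa, mul_mem (inv_mem hwb) hwa⟩, ?_⟩
    apply Function.Embedding.ext
    intro i
    show (wb⁻¹ * wa) (a i) = _
    simp only [Equiv.Perm.mul_apply, hwai]
    rw [Equiv.Perm.inv_eq_iff_eq, hwbi]

end Cfsg.Agent.S4301
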