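import Cfsg.Statements.S4305
import Cfsg.Agent.Lib.FrobAct.Wrap

set_option autoImplicit false
open Cfsg

namespace Cfsg.Agent.S4305

/-- Let the symmetric group of degree 3 act by automorphisms on a finite solvable group `G` of order prime to 6, so that only the identity of `G` is fixed by all of it. Then the derived subgroup of `G` is nilpotent. -/
theorem result {G : Type*} [Group G] [Finite G] [Group.IsSolvable G]
    [MulDistribMulAction (Equiv.Perm (Fin 3)) G] (hcop : (Nat.card G).Coprime 6)
    (hfpf : ∀ g : G, (∀ a : Equiv.Perm (Fin 3), a • g = g) → g = 1) :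
    Group.IsNilpotent ↥(commutator G) := by
  have hcard : Nat.card (Equiv.Perm (Fin 3)) = 3 * 2 := by
    rw [Nat.card_eq_fintype_card, Fintype.card_perm, Fintype.card_fin]
    rfl
  have hna : ¬ IsMulCommutative (Equiv.Perm (Fin 3)) := by
    intro hc
    have h1 := hc.is_comm.comm (Equiv.swap (0 : Fin 3) 1) (Equiv.swap (1 : Fin 3) 2)
    revert h1
    decide
  obtain ⟨a₀, h1, h2, h3, h4⟩ := Cfsg.Agent.Lib.FrobAct.Wrap.exists_gen (A := Equiv.Perm (Fin 3))
    Nat.prime_three Nat.prime_two (by norm_num) hcard hna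
  have hA : Cfsg.Agent.Lib.FrobAct.Wrap.AData 3 2 a₀ :=
    ⟨Nat.prime_three, Nat.prime_two, by norm_num, hcard, h1, h2, h3, h4⟩
  refine Cfsg.Agent.Lib.FrobAct.Wrap.derived_ind hA _ G rfl inferInstance
    (MulDistribMulAction.toMulAut (Equiv.Perm (Fin 3)) G) ?_ ?_
  · exact fun x hx => hfpf x hx
  · rw [hcard]
    exact hcop.symm

end Cfsg.Agent.S4305
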