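import Cfsg.Statements.S4314
import Cfsg.Agent.Lib.PermRec.Derangements

set_option autoImplicit false
open Cfsg

namespace Cfsg.Agent.S4314

theorem exists_class_of_dvd {G : Type*} [Group G] [Finite G]
    (h : ∀ x : G, (Subgroup.centralizer ({x} : Set G)).index = 1 ∨ ((Subgroup.centralizer ({x} : Set G)).index).Prime)
    {p : ℕ} [Fact p.Prime] (hp : p ∣ Nat.card (G ⧸ Subgroup.center G)) :
    ∃ x : G, (Subgroup.centralizer ({x} : Set G)).index = p := by
  classical
  by_contra hcon
  push Not at hcon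
  have hnd : ∀ x : G, ¬ p ∣ (Subgroup.centralizer ({x} : Set G)).index := by
    intro x hd
    rcases h x with h1 | h1
    · rw [h1] at hd
      exact (Fact.out : p.Prime).one_lt.ne' (Nat.dvd_one.mp hd)
    · exact hcon x ((Nat.prime_dvd_prime_iff_eq Fact.out h1).mp hd).symm
  obtain ⟨Q⟩ : Nonempty (Sylow p G) := inferInstance
  -- every element is conjugate into the centraliser of `Q`
  have hcov : ∀ x : G, ∃ a : G, a * x * a⁻¹ ∈ Subgroup.centralizer (Q : Set G) := by
    intro x
    have hQ : IsPGroup p (Q : Subgroup G) := Q.isPGroup'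
    obtain ⟨c, hc⟩ := hQ.nonempty_fixed_point_of_prime_not_dvd_card
      (G ⧸ Subgroup.centralizer ({x} : Set G)) (by
        rw [← Subgroup.index_eq_card]; exact hnd x)
    induction c using QuotientGroup.induction_on with
    | H a =>
      refine ⟨a, ?_⟩
      rw [Subgroup.mem_centralizer_iff]
      intro q hq
      have := hc ⟨q, hq⟩
      have h2 : (q : G) • ((a : G) : G ⧸ Subgroup.centralizer ({x} : Set G)) = (a : G) := this
      rw [MulAction.Quotient.smul_coe, smul_eq_mul, QuotientGroup.eq,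
        Subgroup.mem_centralizer_singleton_iff] at h2
      have h3 : (a⁻¹ * q⁻¹ * a) * x = x * (a⁻¹ * q⁻¹ * a) := by
        simpa [mul_assoc] using h2
      have h4 : (a⁻¹ * q * a) * x = x * (a⁻¹ * q * a) := by
        have e : a⁻¹ * q * a = (a⁻¹ * q⁻¹ * a)⁻¹ := by group
        rw [e]
        exact (Commute.inv_left (show Commute (a⁻¹ * q⁻¹ * a) x from h3))
      calc q * (a * x * a⁻¹) = a * ((a⁻¹ * q * a) * x) * a⁻¹ := by group
        _ = a * (x * (a⁻¹ * q * a)) * a⁻¹ := by rw [h4]
        _ = a * x * a⁻¹ * q := by group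
  have hC : Subgroup.centralizer (Q : Set G) = ⊤ := by
    by_contra hne
    have hidx : (Subgroup.centralizer (Q : Set G)).index ≠ 1 := by
      rwa [Ne, Subgroup.index_eq_one]
    have h2 : 2 ≤ Nat.card (G ⧸ Subgroup.centralizer (Q : Set G)) := by
      rw [← Subgroup.index_eq_card]
      have : (Subgroup.centralizer (Q : Set G)).index ≠ 0 := Subgroup.index_ne_zero_of_finite
      omega
    obtain ⟨g, hg⟩ := Cfsg.Agent.Lib.PermRec.Derangements.exists_forall_smul_ne
      (G := G) (X := G ⧸ Subgroup.centralizer (Q : Set G)) inferInstance h2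
    obtain ⟨a, ha⟩ := hcov g
    refine hg ((a⁻¹ : G) : G ⧸ Subgroup.centralizer (Q : Set G)) ?_
    rw [MulAction.Quotient.smul_coe, smul_eq_mul, QuotientGroup.eq]
    have e : (g * a⁻¹)⁻¹ * a⁻¹ = (a * g * a⁻¹)⁻¹ := by group
    rw [e]
    exact inv_mem ha
  have hQZ : (Q : Subgroup G) ≤ Subgroup.center G := by
    intro q hq
    rw [Subgroup.mem_center_iff]
    intro g
    have : g ∈ Subgroup.centralizer (Q : Set G) := by rw [hC]; trivial
    exact (Subgroup.mem_centralizer_iff.mp this q hq).symm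
  have hdvd := Subgroup.index_dvd_of_le hQZ
  rw [Subgroup.index_eq_card (Subgroup.center G)] at hdvd
  exact Q.not_dvd_index (hp.trans hdvd)

theorem upper_two_of_comm {G : Type*} [Group G]
    (hc : ∀ a b : G ⧸ Subgroup.center G, a * b = b * a) :
    Subgroup.upperCentralSeries G 2 = ⊤ := by
  rw [eq_top_iff]
  intro x _
  show x ∈ Subgroup.upperCentralSeries G (1 + 1)
  rw [Subgroup.mem_upperCentralSeries_succ_iff, ]
  intro y
  rw [Subgroup.upperCentralSeries_one]
  have := hc (x : G ⧸ Subgroup.center G) (y : G ⧸ Subgroup.center G)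
  rw [← QuotientGroup.mk_mul, ← QuotientGroup.mk_mul, QuotientGroup.eq] at this
  have h4 : x * y * x⁻¹ * y⁻¹ = (x * y) * ((x * y)⁻¹ * (y * x))⁻¹ * (x * y)⁻¹ := by group
  rw [commutatorElement_def, h4]
  exact (Subgroup.center G).normal_of_characteristic.conj_mem _ (inv_mem this) _

/-- Index computation for a normal subgroup and an arbitrary one. -/
theorem relIndex_mul_sup_index {G : Type*} [Group G] [Finite G] (C N : Subgroup G) [N.Normal] :
    C.relIndex N * (N ⊔ C).index = C.index := by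
  have h1 := Subgroup.relIndex_inf_mul_relIndex C N ⊤
  simp only [inf_top_eq, Subgroup.relIndex_top_right] at h1
  have h2 : (C ⊓ N).index = N.relIndex C * C.index := by
    rw [← Subgroup.relIndex_mul_index inf_le_left (K := C) (H := C ⊓ N), Subgroup.inf_relIndex_left ]
  have h3 : N.index = N.relIndex C * (N ⊔ C).index := by
    rw [← Subgroup.relIndex_sup_left (K := N) (H := C)]
    exact (Subgroup.relIndex_mul_index le_sup_left).symm
  have hne : N.relIndex C ≠ 0 := by rw [Subgroup.relIndex]; exact Subgroup.index_ne_zero_of_finite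
  rw [h2, h3] at h1
  apply Nat.eq_of_mul_eq_mul_left (Nat.pos_of_ne_zero hne)
  rw [← h1]
  ring


/-- A non-central element of a normal subgroup with a prime class size has its whole class
inside its class under the normal subgroup. -/
theorem exists_conj_in_normal {G : Type*} [Group G] [Finite G] (N : Subgroup G) [N.Normal]
    {v : G} (hv : (Subgroup.centralizer ({v} : Set G)).index.Prime)
    (hvN : ¬ N ≤ Subgroup.centralizer ({v} : Set G)) :
    (Subgroup.centralizer ({v} : Set G)).relIndex N = (Subgroup.centralizer ({v} : Set G)).index ∧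
    ∀ t : G, ∃ n ∈ N, t * v * t⁻¹ = n * v * n⁻¹ := by
  set C := Subgroup.centralizer ({v} : Set G) with hC
  have h1 := relIndex_mul_sup_index C N
  have hr : C.relIndex N ≠ 1 := by rwa [Ne, Subgroup.relIndex_eq_one]
  have h2 : (N ⊔ C).index = 1 := by
    rw [← h1] at hv
    exact ((Nat.prime_mul_iff.mp hv).elim (fun h => h.2) (fun h => absurd h.2 hr))
  rw [h2, mul_one] at h1
  refine ⟨h1, fun t => ?_⟩
  have ht : t ∈ N ⊔ C := by rw [Subgroup.index_eq_one.mp h2]; trivial
  rw [← SetLike.mem_coe, Subgroup.normal_mul] at ht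
  obtain ⟨n, hn, c, hc, rfl⟩ := ht
  refine ⟨n, hn, ?_⟩
  have hc' : c * v = v * c := Subgroup.mem_centralizer_singleton_iff.mp hc
  calc n * c * v * (n * c)⁻¹ = n * (c * v) * c⁻¹ * n⁻¹ := by group
    _ = n * (v * c) * c⁻¹ * n⁻¹ := by rw [hc']
    _ = n * v * n⁻¹ := by group


theorem commutator_conj_aux {G : Type*} [Group G] {v m a b : G}
    (hav : Commute a v) (ham : Commute a m) (hbv : Commute b v)
    (hab : Commute a b) :
    (v * a)⁻¹ * (m * b) * (v * a) * (m * b)⁻¹ = v⁻¹ * m * v * m⁻¹ := by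
  have h1 : Commute a (v⁻¹ * m * v * m⁻¹) :=
    ((((hav.inv_right).mul_right ham).mul_right hav).mul_right ham.inv_right)
  have e : (v * a)⁻¹ * (m * b) * (v * a) * (m * b)⁻¹
      = a⁻¹ * (v⁻¹ * m * (b * v) * a * b⁻¹ * m⁻¹) := by group
  rw [e, hbv.eq]
  have e2 : v⁻¹ * m * (v * b) * a * b⁻¹ * m⁻¹ = v⁻¹ * m * v * (b * a * b⁻¹) * m⁻¹ := by group
  rw [e2, hab.symm.eq]
  have e3 : v⁻¹ * m * v * (a * b * b⁻¹) * m⁻¹ = v⁻¹ * m * v * (a * m⁻¹) := by group
  rw [e3, ham.inv_right.eq]
  have e4 : a⁻¹ * (v⁻¹ * m * v * (m⁻¹ * a)) = a⁻¹ * ((v⁻¹ * m * v * m⁻¹) * a) := by group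
  rw [e4, h1.symm.eq]
  group

theorem comm_quot_of_nonabelian {G : Type*} [Group G] [Finite G]
    (h : ∀ x : G, (Subgroup.centralizer ({x} : Set G)).index = 1 ∨ ((Subgroup.centralizer ({x} : Set G)).index).Prime)
    (N : Subgroup G) [hN : N.Normal] (hp : N.index.Prime) (hZN : Subgroup.center G ≤ N)
    {x t : G} (hxN : x ∈ N) (hx : ∀ n ∈ N, n * x = x * n) (ht : t * x * t⁻¹ ≠ x)
    {v₀ m₀ : G} (hv₀ : v₀ ∈ N) (hm₀ : m₀ ∈ N) (h0 : m₀ * v₀ ≠ v₀ * m₀) :
    ∀ a b : G ⧸ Subgroup.center G, a * b = b * a := by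
  classical
  set A : Subgroup G := N ⊓ Subgroup.centralizer (N : Set G) with hA
  have memA : ∀ {a : G}, a ∈ A ↔ a ∈ N ∧ ∀ n ∈ N, n * a = a * n := by
    intro a
    rw [hA, Subgroup.mem_inf, Subgroup.mem_centralizer_iff]
    rfl
  have hAconj : ∀ (a t : G), a ∈ A → t * a * t⁻¹ ∈ A := by
    intro a t ha
    obtain ⟨h1, h2⟩ := memA.mp ha
    refine memA.mpr ⟨hN.conj_mem a h1 t, fun n hn => ?_⟩
    have := h2 (t⁻¹ * n * t) (by simpa using hN.conj_mem n hn t⁻¹)
    calc n * (t * a * t⁻¹) = t * ((t⁻¹ * n * t) * a) * t⁻¹ := by group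
      _ = t * (a * (t⁻¹ * n * t)) * t⁻¹ := by rw [this]
      _ = t * a * t⁻¹ * n := by group
  -- conjugates inside `N`
  have hprime : ∀ v ∈ N, v ∉ A → (Subgroup.centralizer ({v} : Set G)).index.Prime := by
    intro v hvN hvA
    rcases h v with h1 | h1
    · exfalso
      rw [Subgroup.index_eq_one] at h1
      refine hvA (memA.mpr ⟨hvN, fun n _ => ?_⟩)
      have : n ∈ Subgroup.centralizer ({v} : Set G) := by rw [h1]; trivial
      exact Subgroup.mem_centralizer_singleton_iff.mp this
    · exact h1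
  have hnotle : ∀ v ∈ N, v ∉ A → ¬ N ≤ Subgroup.centralizer ({v} : Set G) := by
    intro v hvN hvA hle
    exact hvA (memA.mpr ⟨hvN, fun n hn => Subgroup.mem_centralizer_singleton_iff.mp (hle hn)⟩)
  have hB : ∀ v ∈ N, v ∉ A → ∀ t : G, ∃ n ∈ N, t * v * t⁻¹ = n * v * n⁻¹ := by
    intro v hvN hvA
    exact (exists_conj_in_normal N (hprime v hvN hvA) (hnotle v hvN hvA)).2
  have hb : ∀ v ∈ N, v ∉ A → ∀ z ∈ A, ∀ t : G, ∃ m ∈ N, v * (t * z * t⁻¹ * z⁻¹) = m * v * m⁻¹ := by
    intro v hvN hvA z hz t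
    obtain ⟨hzN, hzc⟩ := memA.mp hz
    have hvz : v * z ∉ A := by
      intro hc
      have : v = (v * z) * z⁻¹ := by group
      rw [this] at hvA
      exact hvA (A.mul_mem hc (A.inv_mem hz))
    obtain ⟨n, hn, e1⟩ := hB v hvN hvA t
    obtain ⟨n', hn', e2⟩ := hB (v * z) (N.mul_mem hvN hzN) hvz t
    have hza := memA.mp (hAconj z t hz)
    refine ⟨n⁻¹ * n', N.mul_mem (N.inv_mem hn) hn', ?_⟩
    have e3 : t * (v * z) * t⁻¹ = (t * v * t⁻¹) * (t * z * t⁻¹) := by group
    rw [e3, e1] at e2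
    have e4 : n' * (v * z) * n'⁻¹ = n' * v * n'⁻¹ * z := by
      calc n' * (v * z) * n'⁻¹ = n' * v * (z * n'⁻¹) := by group
        _ = n' * v * (n'⁻¹ * z) := by rw [(hzc n'⁻¹ (N.inv_mem hn')).symm]
        _ = n' * v * n'⁻¹ * z := by group
    rw [e4] at e2
    have e5 : n * v * n⁻¹ * (t * z * t⁻¹ * z⁻¹) = n' * v * n'⁻¹ := by
      have : n * v * n⁻¹ * (t * z * t⁻¹ * z⁻¹) = (n * v * n⁻¹ * (t * z * t⁻¹)) * z⁻¹ := by group
      rw [this, e2]
      group
    have hwA : t * z * t⁻¹ * z⁻¹ ∈ A := A.mul_mem (hAconj z t hz) (A.inv_mem hz)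
    have hwc := (memA.mp hwA).2 n hn
    calc v * (t * z * t⁻¹ * z⁻¹) = n⁻¹ * (n * v * n⁻¹ * (n * (t * z * t⁻¹ * z⁻¹) * n⁻¹)) * n := by group
      _ = n⁻¹ * (n * v * n⁻¹ * (t * z * t⁻¹ * z⁻¹)) * n := by
          rw [hwc]; group
      _ = n⁻¹ * n' * v * (n⁻¹ * n')⁻¹ := by rw [e5]; group
  set w : G := t * x * t⁻¹ * x⁻¹ with hw
  have hxA : x ∈ A := memA.mpr ⟨hxN, hx⟩
  have hwA : w ∈ A := A.mul_mem (hAconj x t hxA) (A.inv_mem hxA)
  have hw1 : w ≠ 1 := by
    intro e
    apply ht
    exact mul_inv_eq_one.mp e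
  set W : Subgroup G := Subgroup.zpowers w with hWdef
  have hWA : W ≤ A := by
    rw [hWdef, Subgroup.zpowers_le]
    exact hwA
  -- the commutators of elements of `N` lie in `W`
  have hc : ∀ v ∈ N, ∀ m ∈ N, v⁻¹ * (m * v * m⁻¹) ∈ W := by
    intro v hv m hm
    by_cases hvA : v ∈ A
    · have := (memA.mp hvA).2 m hm
      have e : v⁻¹ * (m * v * m⁻¹) = 1 := by rw [this]; group
      rw [e]
      exact W.one_mem
    let S : Subgroup G :=
      { carrier := {m | m ∈ N ∧ v⁻¹ * (m * v * m⁻¹) ∈ W}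
        one_mem' := ⟨N.one_mem, by simp [W.one_mem]⟩
        mul_mem' := by
          rintro a b ⟨ha, ha'⟩ ⟨hb, hb'⟩
          refine ⟨N.mul_mem ha hb, ?_⟩
          have hbc := (memA.mp (hWA hb')).2 a ha
          have e : v⁻¹ * (a * b * v * (a * b)⁻¹)
              = v⁻¹ * (a * v * a⁻¹) * (a * (v⁻¹ * (b * v * b⁻¹)) * a⁻¹) := by group
          rw [e, hbc]
          have e2 : v⁻¹ * (a * v * a⁻¹) * (v⁻¹ * (b * v * b⁻¹) * a * a⁻¹)
              = v⁻¹ * (a * v * a⁻¹) * (v⁻¹ * (b * v * b⁻¹)) := by group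
          rw [e2]
          exact W.mul_mem ha' hb'
        inv_mem' := by
          rintro a ⟨ha, ha'⟩
          refine ⟨N.inv_mem ha, ?_⟩
          have hac := (memA.mp (hWA ha')).2 a⁻¹ (N.inv_mem ha)
          have e : v⁻¹ * (a⁻¹ * v * a⁻¹⁻¹) = (a⁻¹ * (v⁻¹ * (a * v * a⁻¹)) * a⁻¹⁻¹)⁻¹ := by group
          rw [e, hac]
          have e2 : (v⁻¹ * (a * v * a⁻¹) * a⁻¹ * a⁻¹⁻¹)⁻¹ = (v⁻¹ * (a * v * a⁻¹))⁻¹ := by group
          rw [e2]
          exact W.inv_mem ha' }
    have hSN : S ≤ N := fun a ha => ha.1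
    have hCS : Subgroup.centralizer ({v} : Set G) ⊓ N ≤ S := by
      rintro a ⟨ha, ha'⟩
      refine ⟨ha', ?_⟩
      have : a * v = v * a := Subgroup.mem_centralizer_singleton_iff.mp ha
      have e : v⁻¹ * (a * v * a⁻¹) = 1 := by rw [this]; group
      rw [e]
      exact W.one_mem
    have hpr := hprime v hv hvA
    have hidx := (exists_conj_in_normal N hpr (hnotle v hv hvA)).1
    have hmul := Subgroup.relIndex_mul_relIndex _ _ _ hCS hSN
    rw [Subgroup.inf_relIndex_right, hidx] at hmul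
    rw [← hmul] at hpr
    rcases (Nat.prime_mul_iff.mp hpr) with h1 | h1
    · have := Subgroup.relIndex_eq_one.mp h1.2
      exact (this hm).2
    · exfalso
      have hle := Subgroup.relIndex_eq_one.mp h1.2
      obtain ⟨n, hn, e⟩ := hb v hv hvA x hxA t
      have hnS : n ∈ S := by
        refine ⟨hn, ?_⟩
        rw [← e]
        simp only [inv_mul_cancel_left]
        exact Subgroup.mem_zpowers w
      have := (hle hnS).1
      have hc' : n * v = v * n := Subgroup.mem_centralizer_singleton_iff.mp this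
      rw [hc'] at e
      apply hw1
      simpa using e
  have hv₀A : v₀ ∉ A := fun hc => h0 ((memA.mp hc).2 m₀ hm₀)
  -- the commutators with all of `G` lie in `W`
  have hd : ∀ v ∈ N, ∀ g : G, ∃ a ∈ W, g * v * g⁻¹ = v * a := by
    intro v hv g
    by_cases hvA : v ∈ A
    · obtain ⟨m, hm, e⟩ := hb v₀ hv₀ hv₀A v hvA g
      have e' : g * v * g⁻¹ * v⁻¹ = v₀⁻¹ * (m * v₀ * m⁻¹) := by
        rw [← e]; group
      have hmem : g * v * g⁻¹ * v⁻¹ ∈ W := by
        rw [e']; exact hc v₀ hv₀ m hm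
      refine ⟨_, hmem, ?_⟩
      have := (memA.mp (hWA hmem)).2 v hv
      rw [this]
      group
    · obtain ⟨n, hn, e⟩ := hB v hv hvA g
      refine ⟨v⁻¹ * (n * v * n⁻¹), hc v hv n hn, ?_⟩
      rw [e]
      group
  -- `w` is central
  have hwZ : w ∈ Subgroup.center G := by
    rw [Subgroup.mem_center_iff]
    intro g
    obtain ⟨m, hm, e⟩ := hb v₀ hv₀ hv₀A x hxA t
    have e1 : w = v₀⁻¹ * m * v₀ * m⁻¹ := by
      rw [hw]
      have : t * x * t⁻¹ * x⁻¹ = v₀⁻¹ * (v₀ * (t * x * t⁻¹ * x⁻¹)) := by group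
      rw [this, e]
      group
    obtain ⟨a, ha, ea⟩ := hd v₀ hv₀ g
    obtain ⟨b, hb', eb⟩ := hd m hm g
    have e2 : g * w * g⁻¹ = w := by
      have e3 : g * (v₀⁻¹ * m * v₀ * m⁻¹) * g⁻¹
          = (g * v₀ * g⁻¹)⁻¹ * (g * m * g⁻¹) * (g * v₀ * g⁻¹) * (g * m * g⁻¹)⁻¹ := by group
      rw [e1, e3, ea, eb]
      have haA := memA.mp (hWA ha)
      have hbA := memA.mp (hWA hb')
      exact commutator_conj_aux (haA.2 v₀ hv₀).symm (haA.2 m hm).symm (hbA.2 v₀ hv₀).symm
        (hbA.2 a haA.1)
    calc g * w = g * w * g⁻¹ * g := by group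
      _ = w * g := by rw [e2]
  have hWZ : W ≤ Subgroup.center G := by
    rw [hWdef, Subgroup.zpowers_le]
    exact hwZ
  -- conclude with the cyclic quotient `G / N`
  have hcard : Nat.card (G ⧸ N) = N.index := (Subgroup.index_eq_card N).symm
  have : Fact (Nat.card (G ⧸ N)).Prime := ⟨by rw [hcard]; exact hp⟩
  have : IsCyclic (G ⧸ N) := isCyclic_of_prime_card rfl
  let f : G ⧸ Subgroup.center G →* G ⧸ N :=
    QuotientGroup.map _ _ (MonoidHom.id G) (fun z hz => hZN hz)
  suffices hcc : f.ker ≤ Subgroup.center (G ⧸ Subgroup.center G) from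
    (f.isMulCommutative_of_isCyclic_of_ker_le_center hcc).is_comm.comm
  intro y hy
  induction y using QuotientGroup.induction_on with
  | H y =>
    have hyN : y ∈ N := by
      have : ((y : G ⧸ N)) = 1 := hy
      exact (QuotientGroup.eq_one_iff y).mp this
    rw [Subgroup.mem_center_iff]
    intro g
    induction g using QuotientGroup.induction_on with
    | H g =>
      obtain ⟨a, ha, e⟩ := hd y hyN g
      rw [← QuotientGroup.mk_mul, ← QuotientGroup.mk_mul, QuotientGroup.eq]
      have haZ := hWZ ha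
      have e2 : (g * y)⁻¹ * (y * g) = y⁻¹ * g⁻¹ * y * g := by group
      rw [e2]
      have e3 : g * y = y * a * g := by
        rw [← e]; group
      have e4 : y⁻¹ * g⁻¹ * y * g = g⁻¹ * (g * y⁻¹ * g⁻¹) * y * g := by group
      have e5 : g * y⁻¹ * g⁻¹ = (y * a)⁻¹ := by
        rw [← e]; group
      rw [e4, e5]
      have e6 : g⁻¹ * (y * a)⁻¹ * y * g = g⁻¹ * (a⁻¹) * g := by group
      rw [e6]
      have := (Subgroup.center G).normal_of_characteristic.conj_mem _ (inv_mem haZ) g⁻¹
      simpa using this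


theorem card_of_abelian {G : Type*} [Group G] [Finite G]
    (h : ∀ x : G, (Subgroup.centralizer ({x} : Set G)).index = 1 ∨ ((Subgroup.centralizer ({x} : Set G)).index).Prime)
    (N : Subgroup G) [hN : N.Normal] (hp : N.index.Prime) (hZN : Subgroup.center G ≤ N)
    (hab : ∀ a ∈ N, ∀ b ∈ N, a * b = b * a) :
    ((Subgroup.center G).relIndex N).Prime ∧
      Nat.card (G ⧸ Subgroup.center G) = (Subgroup.center G).relIndex N * N.index := by
  classical
  have hNtop : N ≠ ⊤ := by
    intro e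
    rw [e, Subgroup.index_top] at hp
    exact Nat.not_prime_one hp
  obtain ⟨t, htN⟩ : ∃ t, t ∉ N := by
    by_contra hcon
    push Not at hcon
    exact hNtop (eq_top_iff.mpr fun y _ => hcon y)
  -- a subgroup containing `N` and `t` is everything
  have hmax : ∀ K : Subgroup G, N ≤ K → t ∈ K → K = ⊤ := by
    intro K hK htK
    have h1 := Subgroup.relIndex_mul_index hK
    rw [← h1] at hp
    rcases (Nat.prime_mul_iff.mp hp) with h2 | h2
    · exact Subgroup.index_eq_one.mp h2.2
    · exfalso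
      exact htN ((Subgroup.relIndex_eq_one.mp h2.2) htK)
  set C := Subgroup.centralizer ({t} : Set G) with hC
  have hsup : N ⊔ C = ⊤ := hmax _ le_sup_left
    (Subgroup.mem_sup_right (Subgroup.mem_centralizer_singleton_iff.mpr rfl))
  have h1 := relIndex_mul_sup_index C N
  rw [hsup, Subgroup.index_top, mul_one] at h1
  have hinf : C ⊓ N = Subgroup.center G := by
    apply le_antisymm
    · rintro a ⟨ha, ha'⟩
      have hCa : Subgroup.centralizer ({a} : Set G) = ⊤ := by
        apply hmax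
        · intro b hb
          rw [Subgroup.mem_centralizer_singleton_iff]
          exact hab b hb a ha'
        · rw [Subgroup.mem_centralizer_singleton_iff]
          exact (Subgroup.mem_centralizer_singleton_iff.mp ha).symm
      rw [Subgroup.mem_center_iff]
      intro g
      have : g ∈ Subgroup.centralizer ({a} : Set G) := by rw [hCa]; trivial
      exact Subgroup.mem_centralizer_singleton_iff.mp this
    · intro z hz
      have hzC : z ∈ C := by
        rw [hC, Subgroup.mem_centralizer_singleton_iff]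
        exact (Subgroup.mem_center_iff.mp hz t).symm
      exact ⟨hzC, hZN hz⟩
  have h2 : (Subgroup.center G).relIndex N = C.index := by
    rw [← hinf, Subgroup.inf_relIndex_right, h1]
  constructor
  · rw [h2]
    rcases h t with h3 | h3
    · exfalso
      have h4 := Subgroup.index_eq_one.mp h3
      apply htN
      apply hZN
      rw [Subgroup.mem_center_iff]
      intro g
      have : g ∈ C := by rw [hC, h4]; trivial
      exact Subgroup.mem_centralizer_singleton_iff.mp this
    · exact h3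
  · rw [← Subgroup.index_eq_card, Subgroup.relIndex_mul_index hZN]

/-- Let `G` be a finite group every conjugacy class of which has size 1 or a prime. Then either `G` is nilpotent of class at most 2, or `G/Z(G)` is a non-abelian group of order `pq` for distinct primes `p, q` (a Frobenius group of order `pq`). -/
theorem result {G : Type*} [Group G] [Finite G]
    (h : ∀ x : G, (Subgroup.centralizer ({x} : Set G)).index = 1 ∨ ((Subgroup.centralizer ({x} : Set G)).index).Prime) :
    Subgroup.upperCentralSeries G 2 = ⊤ ∨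
      ∃ p q : ℕ, p.Prime ∧ q.Prime ∧ p ≠ q ∧ Nat.card (G ⧸ Subgroup.center G) = p * q ∧ ¬ IsMulCommutative (G ⧸ Subgroup.center G) := by
  classical
  by_cases hcomm : ∀ a b : G ⧸ Subgroup.center G, a * b = b * a
  · exact Or.inl (upper_two_of_comm hcomm)
  have hne : Nat.card (G ⧸ Subgroup.center G) ≠ 1 := by
    intro h1
    have := (Nat.card_eq_one_iff_unique.mp h1).1
    exact hcomm fun a b => Subsingleton.elim _ _
  set p := (Nat.card (G ⧸ Subgroup.center G)).minFac with hpdef
  have hp : p.Prime := Nat.minFac_prime hne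
  have : Fact p.Prime := ⟨hp⟩
  obtain ⟨x, hx⟩ := exists_class_of_dvd h (Nat.minFac_dvd (Nat.card (G ⧸ Subgroup.center G)))
  set N := Subgroup.centralizer ({x} : Set G) with hNdef
  have hZN : Subgroup.center G ≤ N := by
    intro z hz
    rw [hNdef, Subgroup.mem_centralizer_singleton_iff]
    exact (Subgroup.mem_center_iff.mp hz x).symm
  have hxN : x ∈ N := Subgroup.mem_centralizer_singleton_iff.mpr rfl
  have hNnormal : N.Normal := by
    let φ := QuotientGroup.mk' (Subgroup.center G)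
    have hker : φ.ker = Subgroup.center G := QuotientGroup.ker_mk' _
    have hidx : (N.map φ).index = (Nat.card (G ⧸ Subgroup.center G)).minFac := by
      rw [Subgroup.index_map, hker, sup_of_le_left hZN,
        MonoidHom.range_eq_top.mpr (QuotientGroup.mk'_surjective _),
        Subgroup.index_top, mul_one, hx]
    have hn := Subgroup.normal_of_index_eq_minFac_card hidx
    have e : (N.map φ).comap φ = N := Subgroup.comap_map_eq_self (by rw [hker]; exact hZN)
    rw [← e]
    exact hn.comap φ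
  have hNidx : N.index.Prime := by rw [hx]; exact hp
  by_cases hab : ∀ a ∈ N, ∀ b ∈ N, a * b = b * a
  · obtain ⟨hq, hcard⟩ := card_of_abelian h N hNidx hZN hab
    rw [hx] at hcard
    right
    refine ⟨(Subgroup.center G).relIndex N, p, hq, hp, ?_, hcard, ?_⟩
    · intro e
      rw [e] at hcard
      exact hcomm (IsPGroup.isMulCommutative_of_card_eq_prime_sq (p := p) (by rw [hcard]; ring)).is_comm.comm
    · intro hc
      exact hcomm fun a b => hc.is_comm.comm a b
  · exfalso
    push Not at hab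
    obtain ⟨m₀, hm₀, v₀, hv₀, h0⟩ := hab
    have hNtop : N ≠ ⊤ := by
      intro e
      rw [e, Subgroup.index_top] at hNidx
      exact Nat.not_prime_one hNidx
    obtain ⟨t, htN⟩ : ∃ t, t ∉ N := by
      by_contra hcon
      push Not at hcon
      exact hNtop (eq_top_iff.mpr fun y _ => hcon y)
    refine hcomm (comm_quot_of_nonabelian h N hNidx hZN (x := x) (t := t) hxN
      (fun n hn => Subgroup.mem_centralizer_singleton_iff.mp hn) ?_ hv₀ hm₀ h0)
    intro e
    apply htN
    rw [hNdef, Subgroup.mem_centralizer_singleton_iff]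
    exact mul_inv_eq_iff_eq_mul.mp e

end Cfsg.Agent.S4314
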