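import Cfsg.Statements.S4316
import Cfsg.Agent.Lib.GurShum.Main
import Cfsg.Agent.Lib.Coprime.BridgeComm

set_option autoImplicit false
universe u
open Cfsg

namespace Cfsg.Agent.S4316

/-- There is a function `f` of two natural-number arguments with the following property. Let `q` be a prime and `A` an elementary abelian group of order `q³` acting by automorphisms on a finite group `G` of order prime to `q`, and suppose that for every non-identity `a ∈ A` the derived subgroup of the fixed-point subgroup `C_G(a)` has order at most `m`. Then the derived subgroup of `G` has order at most `f(q, m)`. -/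
theorem result :
    ∃ f : ℕ → ℕ → ℕ, ∀ (q m : ℕ) (A G : Type u) [Group A] [Finite A] [Group G] [Finite G] [MulDistribMulAction A G],
      q.Prime → Nat.card A = q ^ 3 → (∀ a b : A, a * b = b * a) → (∀ a : A, a ^ q = 1) → ¬ q ∣ Nat.card G →
      (∀ a : A, a ≠ 1 → Nat.card ↥(commutator ↥(FixedPoints.subgroup (Subgroup.zpowers a) G)) ≤ m) →
      Nat.card ↥(commutator G) ≤ f q m := by
  classical
  refine ⟨Cfsg.Agent.Lib.GurShum.Main.F, ?_⟩
  intro q m A G _ _ _ _ _ hq hcard hcomm hexp hcop hm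
  haveI : Fact q.Prime := ⟨hq⟩
  have hA' : Cfsg.IsElementaryAbelian q (Cfsg.Agent.Lib.Coprime.Bridge.rangeA A G) := by
    refine ⟨⟨⟨?_⟩⟩, ?_⟩
    · rintro ⟨_, a, rfl⟩ ⟨_, b, rfl⟩
      apply Subtype.ext
      show (Cfsg.Agent.Lib.Coprime.Bridge.inA a : Cfsg.Agent.Lib.Coprime.Bridge.Gam A G) * Cfsg.Agent.Lib.Coprime.Bridge.inA b = Cfsg.Agent.Lib.Coprime.Bridge.inA b * Cfsg.Agent.Lib.Coprime.Bridge.inA a
      rw [← map_mul, ← map_mul, hcomm]
    · rintro _ ⟨a, rfl⟩
      rw [← map_pow, hexp, map_one]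
  have hcard' : Nat.card (Cfsg.Agent.Lib.Coprime.Bridge.rangeA A G) = q ^ 3 := by
    rw [Cfsg.Agent.Lib.Coprime.Bridge.card_rangeA, hcard]
  have hq' : ¬ q ∣ Nat.card (Cfsg.Agent.Lib.Coprime.Bridge.rangeG A G) := by
    rwa [Cfsg.Agent.Lib.Coprime.Bridge.card_rangeG]
  have hmap : ∀ a : A, Cfsg.Agent.Lib.GurShum.Main.Kc (Cfsg.Agent.Lib.Coprime.Bridge.rangeG A G)
      (Cfsg.Agent.Lib.Coprime.Bridge.inA a) =
      (FixedPoints.subgroup (Subgroup.zpowers a) G).map Cfsg.Agent.Lib.Coprime.Bridge.inG := by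
    intro a
    ext x
    constructor
    · intro hx
      obtain ⟨⟨g, rfl⟩, h2⟩ := Subgroup.mem_inf.mp hx
      rw [Subgroup.mem_centralizer_singleton_iff] at h2
      refine ⟨g, ?_, rfl⟩
      show g ∈ FixedPoints.subgroup (Subgroup.zpowers a) G
      rw [FixedPoints.mem_subgroup]
      have hfix : a • g = g := by
        apply Cfsg.Agent.Lib.Coprime.Bridge.inG_injective (A := A)
        rw [← Cfsg.Agent.Lib.Coprime.Bridge.inA_conj_inG, ← h2]
        group
      have hle : Subgroup.zpowers a ≤ MulAction.stabilizer A g := by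
        rw [Subgroup.zpowers_le]
        exact hfix
      rintro ⟨b, hb⟩
      exact hle hb
    · rintro ⟨g, hg, rfl⟩
      have hg' : g ∈ FixedPoints.subgroup (Subgroup.zpowers a) G := hg
      rw [FixedPoints.mem_subgroup] at hg'
      have hfix : a • g = g := hg' ⟨a, Subgroup.mem_zpowers a⟩
      refine Subgroup.mem_inf.mpr ⟨⟨g, rfl⟩, ?_⟩
      rw [Subgroup.mem_centralizer_singleton_iff]
      have h1 := Cfsg.Agent.Lib.Coprime.Bridge.inA_conj_inG a g
      rw [hfix] at h1
      calc (Cfsg.Agent.Lib.Coprime.Bridge.inG g : Cfsg.Agent.Lib.Coprime.Bridge.Gam A G) *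
            Cfsg.Agent.Lib.Coprime.Bridge.inA a
          = (Cfsg.Agent.Lib.Coprime.Bridge.inA a * Cfsg.Agent.Lib.Coprime.Bridge.inG g *
              (Cfsg.Agent.Lib.Coprime.Bridge.inA a)⁻¹) * Cfsg.Agent.Lib.Coprime.Bridge.inA a := by rw [h1]
        _ = _ := by group
  have hm' : ∀ d : Cfsg.Agent.Lib.GurShum.Main.Asharp (Cfsg.Agent.Lib.Coprime.Bridge.rangeA A G),
      Nat.card (Cfsg.Agent.Lib.GurShum.Main.Dd (Cfsg.Agent.Lib.Coprime.Bridge.rangeG A G) (d : Cfsg.Agent.Lib.Coprime.Bridge.Gam A G)) ≤ m := by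
    rintro ⟨_, ⟨a, rfl⟩, hd⟩
    have ha : a ≠ 1 := by
      rintro rfl
      exact hd (map_one _)
    refine le_trans (le_of_eq ?_) (hm a ha)
    show Nat.card (⁅Cfsg.Agent.Lib.GurShum.Main.Kc _ _, Cfsg.Agent.Lib.GurShum.Main.Kc _ _⁆ : Subgroup _) = _
    rw [hmap a, ← Subgroup.map_commutator, Subgroup.card_map_of_injective Cfsg.Agent.Lib.Coprime.Bridge.inG_injective,
      ← Subgroup.map_subtype_commutator, Subgroup.card_map_of_injective (Subgroup.subtype_injective _)]
  have h := Cfsg.Agent.Lib.GurShum.Main.card_commutator_le hA' hq'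
    Cfsg.Agent.Lib.Coprime.Bridge.rangeA_le_normalizer_rangeG hq hcard' hm'
  refine le_trans (le_of_eq ?_) h
  have e : Cfsg.Agent.Lib.Coprime.Bridge.rangeG A G = (⊤ : Subgroup G).map Cfsg.Agent.Lib.Coprime.Bridge.inG :=
    (Cfsg.Agent.Lib.Coprime.BridgeComm.map_top).symm
  rw [e, ← Subgroup.map_commutator, Subgroup.card_map_of_injective Cfsg.Agent.Lib.Coprime.Bridge.inG_injective]
  rfl

end Cfsg.Agent.S4316
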