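import Cfsg.Statements.S4320
import Mathlib
-- import your own Cfsg.Agent.* helpers here

set_option autoImplicit false
open Cfsg

namespace Cfsg.Agent.S4320

namespace PIT

open MonoidAlgebra

theorem det_smul_eq_zero {R M ι : Type*} [CommRing R] [AddCommGroup M] [Module R M] [Fintype ι]
    [DecidableEq ι] (A : Matrix ι ι R) (v : ι → M) (h : ∀ j, ∑ i, A j i • v i = 0) (i : ι) :
    A.det • v i = 0 := by
  have h1 : (A.adjugate * A) = A.det • (1 : Matrix ι ι R) := Matrix.adjugate_mul A
  have h2 : ∑ k, (A.adjugate * A) i k • v k = A.det • v i := by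
    rw [h1]
    simp [Matrix.smul_apply, Matrix.one_apply, ite_smul, smul_smul]
  rw [← h2]
  have h3 : ∑ k, (A.adjugate * A) i k • v k = ∑ j, A.adjugate i j • ∑ k, A j k • v k := by
    simp only [Matrix.mul_apply, Finset.sum_smul, Finset.smul_sum, smul_smul]
    rw [Finset.sum_comm]
  rw [h3]
  simp [h]

section ring

variable {Q : Type*} [CommGroup Q] [Fintype Q]

/-- augmentation -/
noncomputable def aug : MonoidAlgebra ℤ Q →ₐ[ℤ] ℤ := MonoidAlgebra.lift ℤ ℤ Q (1 : Q →* ℤ)

theorem aug_of (x : Q) : aug (MonoidAlgebra.of ℤ Q x) = 1 := by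
  simp [aug]

/-- norm element -/
noncomputable def nm : MonoidAlgebra ℤ Q := ∑ x : Q, MonoidAlgebra.of ℤ Q x

theorem aug_nm : aug (nm : MonoidAlgebra ℤ Q) = Fintype.card Q := by
  rw [nm, map_sum]
  simp only [aug_of]
  simp

theorem of_mul_nm (x : Q) : MonoidAlgebra.of ℤ Q x * nm = nm := by
  rw [nm, Finset.mul_sum]
  refine Fintype.sum_equiv (Equiv.mulLeft x) _ _ ?_
  intro y
  simp

theorem mul_nm (s : MonoidAlgebra ℤ Q) : s * nm = (aug s) • nm := by
  induction s using MonoidAlgebra.induction_on with
  | of x => rw [of_mul_nm, aug_of, one_smul]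
  | add a b ha hb => rw [add_mul, ha, hb, map_add, add_smul]
  | smul c a ha => rw [smul_mul_assoc, ha, map_smul, smul_assoc]

theorem eq_nm_of (r : MonoidAlgebra ℤ Q) (hr : ∀ x : Q, r * MonoidAlgebra.of ℤ Q x = r)
    (hε : aug r = Fintype.card Q) : r = nm := by
  have h1 : r * nm = (Fintype.card Q : ℤ) • r := by
    rw [nm, Finset.mul_sum]
    simp only [hr]
    simp
  have h2 : r * nm = (Fintype.card Q : ℤ) • nm := by
    rw [mul_nm, hε]
  have h3 : (Fintype.card Q : ℤ) • r = (Fintype.card Q : ℤ) • nm := h1.symm.trans h2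
  ext y
  have h4 := congrArg (fun s : MonoidAlgebra ℤ Q => s.coeff y) h3
  simp only [MonoidAlgebra.coeff_smul_apply, smul_eq_mul] at h4
  have hpos : (Fintype.card Q : ℤ) ≠ 0 := by
    have : 0 < Fintype.card Q := Fintype.card_pos
    exact_mod_cast this.ne'
  exact mul_left_cancel₀ hpos h4

end ring

section crossed

variable {G : Type*} [Group G]

/-- `M = (Q → A)` -/
def Mt (G : Type*) [Group G] := Abelianization G → Additive (Abelianization (commutator G))

noncomputable instance : AddCommGroup (Mt G) :=
  inferInstanceAs (AddCommGroup (Abelianization G → Additive (Abelianization (commutator G))))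

/-- The regular action of `Q` on `M`. -/
noncomputable def rho : Abelianization G →* Module.End ℤ (Mt G) where
  toFun x :=
    { toFun := fun f q => f (x⁻¹ * q)
      map_add' := fun _ _ => rfl
      map_smul' := fun _ _ => rfl }
  map_one' := by
    apply LinearMap.ext; intro f; funext q
    show f (1⁻¹ * q) = f q
    simp
  map_mul' x y := by
    apply LinearMap.ext; intro f; funext q
    show f ((x * y)⁻¹ * q) = f (y⁻¹ * (x⁻¹ * q))
    congr 1
    rw [_root_.mul_inv_rev, mul_assoc]

theorem rho_apply (x : Abelianization G) (f : Mt G) (q : Abelianization G) :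
    rho x f q = f (x⁻¹ * q) := rfl

noncomputable instance : Module (MonoidAlgebra ℤ (Abelianization G)) (Mt G) :=
  Module.compHom _ (MonoidAlgebra.lift ℤ (Module.End ℤ (Mt G)) (Abelianization G) rho).toRingHom

theorem smul_def' (r : MonoidAlgebra ℤ (Abelianization G)) (f : Mt G) :
    r • f = (MonoidAlgebra.lift ℤ (Module.End ℤ (Mt G)) (Abelianization G) rho r) f := rfl

theorem of_smul (x : Abelianization G) (f : Mt G) :
    (MonoidAlgebra.of ℤ (Abelianization G) x) • f = rho x f := by
  rw [smul_def', MonoidAlgebra.lift_of]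

variable (s : Abelianization G → G) (hs : ∀ q, Abelianization.of (s q) = q)

include hs in
theorem mem_aux (g : G) (q : Abelianization G) :
    (s q)⁻¹ * g * s ((Abelianization.of g)⁻¹ * q) ∈ commutator G := by
  rw [← Abelianization.ker_of, MonoidHom.mem_ker]
  simp [hs]

/-- The crossed homomorphism. -/
noncomputable def Dt (g : G) : Mt G := fun q =>
  Additive.ofMul (Abelianization.of (⟨_, mem_aux s hs g q⟩ : commutator G))

theorem Dt_apply (g : G) (q : Abelianization G) : Dt s hs g q =
  Additive.ofMul (Abelianization.of (⟨_, mem_aux s hs g q⟩ : commutator G)) := rfl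

theorem add_apply' (f f' : Mt G) (q : Abelianization G) : (f + f') q = f q + f' q := rfl

theorem Dt_mul (g h : G) : Dt s hs (g * h) = Dt s hs g + rho (Abelianization.of g) (Dt s hs h) := by
  funext q
  rw [add_apply', rho_apply, Dt_apply, Dt_apply, Dt_apply, ← ofMul_mul, ← map_mul]
  congr 2
  apply Subtype.ext
  simp only [Subgroup.coe_mul, map_mul, mul_inv_rev]
  have e : (Abelianization.of h)⁻¹ * ((Abelianization.of g)⁻¹ * q) =
      (Abelianization.of h)⁻¹ * (Abelianization.of g)⁻¹ * q := by rw [mul_assoc]
  rw [e]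
  simp [mul_assoc]

theorem Dt_one : Dt s hs (1 : G) = 0 := by
  have h := Dt_mul s hs (1 : G) 1
  simp only [mul_one, map_one, Module.End.one_apply] at h
  exact left_eq_add.mp h

theorem Dt_inv (g : G) : Dt s hs g⁻¹ = - rho (Abelianization.of g)⁻¹ (Dt s hs g) := by
  have h := Dt_mul s hs g⁻¹ g
  rw [inv_mul_cancel, Dt_one, map_inv] at h
  exact eq_neg_of_add_eq_zero_left h.symm

theorem Dt_commutator (x y : G) :
    Dt s hs (x * y * x⁻¹ * y⁻¹) =
      (1 - rho (Abelianization.of y)) (Dt s hs x) + (rho (Abelianization.of x) - 1) (Dt s hs y) := by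
  have h1 : Dt s hs (x * y * x⁻¹ * y⁻¹) = Dt s hs x + rho (Abelianization.of x) (Dt s hs y)
      + rho (Abelianization.of x * Abelianization.of y) (Dt s hs x⁻¹)
      + rho (Abelianization.of x * Abelianization.of y * (Abelianization.of x)⁻¹) (Dt s hs y⁻¹) := by
    rw [Dt_mul, Dt_mul, Dt_mul]
    simp only [map_mul, map_inv, Module.End.mul_apply, map_add, add_assoc]
  rw [h1, Dt_inv, Dt_inv]
  have e1 : rho (Abelianization.of x * Abelianization.of y) (-(rho (Abelianization.of x)⁻¹ (Dt s hs x)))
      = - rho (Abelianization.of y) (Dt s hs x) := by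
    rw [map_neg, ← Module.End.mul_apply, ← map_mul]
    congr 3
    rw [mul_comm (Abelianization.of x), mul_assoc, mul_inv_cancel, mul_one]
  have e2 : rho (Abelianization.of x * Abelianization.of y * (Abelianization.of x)⁻¹)
      (-(rho (Abelianization.of y)⁻¹ (Dt s hs y))) = - (Dt s hs y) := by
    rw [map_neg, ← Module.End.mul_apply, ← map_mul]
    have : Abelianization.of x * Abelianization.of y * (Abelianization.of x)⁻¹ * (Abelianization.of y)⁻¹
        = 1 := by
      rw [mul_comm (Abelianization.of x), mul_assoc (Abelianization.of y), mul_inv_cancel, mul_one,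
        mul_inv_cancel]
    rw [this, map_one, Module.End.one_apply]
  rw [e1, e2]
  simp only [LinearMap.add_apply, LinearMap.sub_apply, Module.End.one_apply]
  abel

theorem Dt_pow (g : G) (n : ℕ) :
    Dt s hs (g ^ n) = (∑ k ∈ Finset.range n, rho (Abelianization.of g) ^ k) (Dt s hs g) := by
  induction n with
  | zero => simp [Dt_one]
  | succ n ih =>
    rw [pow_succ', Dt_mul, ih, Finset.sum_range_succ']
    simp only [LinearMap.add_apply, LinearMap.sum_apply, map_sum, pow_succ', Module.End.mul_apply,
      pow_zero, Module.End.one_apply]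
    rw [add_comm]

/-- Conjugation of elements of the commutator subgroup. -/
theorem Dt_conj (g a : G) (ha : a ∈ commutator G) :
    Dt s hs (g * a * g⁻¹) = rho (Abelianization.of g) (Dt s hs a) := by
  have h0 : Abelianization.of a = 1 := by
    rwa [← MonoidHom.mem_ker, Abelianization.ker_of]
  rw [Dt_mul, Dt_mul, Dt_inv]
  simp only [map_mul, h0, mul_one, map_add, map_neg]
  rw [← Module.End.mul_apply (rho _) (rho _), ← map_mul, mul_inv_cancel, map_one, Module.End.one_apply]
  abel

theorem Dt_add_of_mem (a b : G) (ha : a ∈ commutator G) :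
    Dt s hs (a * b) = Dt s hs a + Dt s hs b := by
  have h0 : Abelianization.of a = 1 := by
    rwa [← MonoidHom.mem_ker, Abelianization.ker_of]
  rw [Dt_mul, h0, map_one, Module.End.one_apply]

end crossed

section main

open Matrix
open scoped commutatorElement

variable {G : Type*} [Group G] [Fintype (Abelianization G)]
  (s : Abelianization G → G) (hs : ∀ q, Abelianization.of (s q) = q)

local notation "R" => MonoidAlgebra ℤ (Abelianization G)

omit [Fintype (Abelianization G)] in
theorem sum_pow_smul (x : Abelianization G) (n : ℕ) (f : Mt G) :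
    (∑ k ∈ Finset.range n, (MonoidAlgebra.of ℤ (Abelianization G) x) ^ k) • f =
      (∑ k ∈ Finset.range n, rho x ^ k) f := by
  rw [smul_def', map_sum]
  simp only [map_pow, MonoidAlgebra.lift_of]

omit [Fintype (Abelianization G)] in
include hs in
theorem exists_coeff_of_mem {J : Type*} [Fintype J] (g : J → G)
    (h1 : Subgroup.closure (Set.range g) = ⊤) (a : G) (ha : a ∈ commutator G) :
    Dt s hs a ∈ Submodule.span R
      (Set.range (fun p : J × J => Dt s hs (g p.1 * g p.2 * (g p.1)⁻¹ * (g p.2)⁻¹))) := by
  classical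
  set W := Submodule.span R
      (Set.range (fun p : J × J => Dt s hs (g p.1 * g p.2 * (g p.1)⁻¹ * (g p.2)⁻¹))) with hW
  have h0 : ∀ a ∈ commutator G, Abelianization.of a = 1 := fun a ha => by
    rwa [← MonoidHom.mem_ker, Abelianization.ker_of]
  let B : Subgroup G :=
    { carrier := {a | a ∈ commutator G ∧ Dt s hs a ∈ W}
      mul_mem' := fun {a b} ha hb => by
        refine ⟨mul_mem ha.1 hb.1, ?_⟩
        rw [Dt_add_of_mem s hs a b ha.1]
        exact add_mem ha.2 hb.2
      one_mem' := ⟨one_mem _, by rw [Dt_one]; exact zero_mem _⟩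
      inv_mem' := fun {a} ha => by
        refine ⟨inv_mem ha.1, ?_⟩
        rw [Dt_inv, h0 a ha.1, inv_one, map_one, Module.End.one_apply]
        exact neg_mem ha.2 }
  have hBn : B.Normal := by
    constructor
    intro a ha c
    refine ⟨(inferInstance : (commutator G).Normal).conj_mem a ha.1 c, ?_⟩
    rw [Dt_conj s hs c a ha.1, ← of_smul]
    exact W.smul_mem _ ha.2
  have hgen : ∀ k l, g k * g l * (g k)⁻¹ * (g l)⁻¹ ∈ B := by
    intro k l
    refine ⟨?_, Submodule.subset_span ⟨(k, l), rfl⟩⟩
    have : g k * g l * (g k)⁻¹ * (g l)⁻¹ = ⁅g k, g l⁆ := rfl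
    rw [this]
    exact Subgroup.commutator_mem_commutator (Subgroup.mem_top _) (Subgroup.mem_top _)
  -- commutativity in the quotient
  let mk : G →* G ⧸ B := QuotientGroup.mk' B
  have hS : ∀ k l, Commute (mk (g k)) (mk (g l)) := by
    intro k l
    have h := hgen k l
    have : mk (g k * g l * (g k)⁻¹ * (g l)⁻¹) = 1 := by
      rw [← MonoidHom.mem_ker, QuotientGroup.ker_mk']
      exact h
    simp only [map_mul, map_inv] at this
    show mk (g k) * mk (g l) = mk (g l) * mk (g k)
    rw [mul_inv_eq_one, mul_inv_eq_iff_eq_mul] at this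
    exact this
  have hall : ∀ x y : G, Commute (mk x) (mk y) := by
    intro x y
    have hx : x ∈ Subgroup.closure (Set.range g) := by rw [h1]; trivial
    have hy : y ∈ Subgroup.closure (Set.range g) := by rw [h1]; trivial
    induction hx, hy using Subgroup.closure_induction₂ with
    | mem x y hx hy =>
      obtain ⟨k, rfl⟩ := hx
      obtain ⟨l, rfl⟩ := hy
      exact hS k l
    | one_left => simp
    | one_right => simp
    | mul_left x y z _ _ _ h1 h2 => rw [map_mul]; exact h1.mul_left h2
    | mul_right x y z _ _ _ h1 h2 => rw [map_mul]; exact h1.mul_right h2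
    | inv_left x y _ _ h => rw [map_inv]; exact h.inv_left
    | inv_right x y _ _ h => rw [map_inv]; exact h.inv_right
  have hle : commutator G ≤ B := by
    rw [commutator_def, Subgroup.commutator_le]
    intro x _ y _
    have : mk ⁅x, y⁆ = 1 := by
      rw [commutatorElement_def]
      simp only [map_mul, map_inv]
      rw [(hall x y).eq]
      group
    have h2 := this
    rw [← MonoidHom.mem_ker, QuotientGroup.ker_mk'] at h2
    exact h2
  exact (hle ha).2


theorem nm_smul_Dt {J : Type*} [Fintype J] [DecidableEq J] (g : J → G) (n : J → ℕ)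
    (h1 : Subgroup.closure (Set.range g) = ⊤)
    (h2 : ∀ j, g j ^ n j ∈ commutator G)
    (h3 : ∏ j, n j = Fintype.card (Abelianization G)) (i : J) :
    (nm : MonoidAlgebra ℤ (Abelianization G)) • Dt s hs (g i) = 0 := by
  classical
  let o : Abelianization G → R := fun x => MonoidAlgebra.of ℤ (Abelianization G) x
  have ho1 : o 1 = 1 := (MonoidAlgebra.of ℤ (Abelianization G)).map_one
  have homul : ∀ x y, o (x * y) = o x * o y := fun x y => by simp [o]
  let π : G →* Abelianization G := Abelianization.of
  have hcoef : ∀ j, ∃ u : J × J → R,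
      ∑ p, u p • Dt s hs (g p.1 * g p.2 * (g p.1)⁻¹ * (g p.2)⁻¹) = Dt s hs (g j ^ n j) := by
    intro j
    have := exists_coeff_of_mem s hs g h1 _ (h2 j)
    exact (Submodule.mem_span_range_iff_exists_fun R).1 this
  choose u hu using hcoef
  let τ : J × J → J → R := fun p i =>
    (if i = p.1 then 1 - o (π (g p.2)) else 0) + (if i = p.2 then o (π (g p.1)) - 1 else 0)
  let ν : J → R := fun j => ∑ k ∈ Finset.range (n j), o (π (g j)) ^ k
  let A : Matrix J J R := fun j i => (if i = j then ν j else 0) - ∑ p, u j p * τ p i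
  have hτ : ∀ p, ∑ i, τ p i • Dt s hs (g i) =
      Dt s hs (g p.1 * g p.2 * (g p.1)⁻¹ * (g p.2)⁻¹) := by
    rintro ⟨k, l⟩
    rw [Dt_commutator]
    simp only [τ, add_smul, Finset.sum_add_distrib, ite_smul, zero_smul, Finset.sum_ite_eq',
      Finset.sum_ite_eq, Finset.mem_univ, if_true]
    simp only [sub_smul, one_smul, o, of_smul, LinearMap.sub_apply, Module.End.one_apply, π]
  have hν : ∀ j, ν j • Dt s hs (g j) = Dt s hs (g j ^ n j) := by
    intro j
    rw [Dt_pow, ← sum_pow_smul]
  have hA1 : ∀ j, ∑ i, A j i • Dt s hs (g i) = 0 := by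
    intro j
    simp only [A, sub_smul, Finset.sum_sub_distrib, ite_smul, zero_smul, Finset.sum_ite_eq',
      Finset.sum_ite_eq, Finset.mem_univ, if_true]
    rw [hν j, ← hu j, sub_eq_zero]
    simp only [Finset.sum_smul, mul_smul]
    rw [Finset.sum_comm]
    simp_rw [← Finset.smul_sum, hτ]
  have hτ2 : ∀ p, ∑ i, τ p i * (o (π (g i)) - 1) = 0 := by
    rintro ⟨k, l⟩
    simp only [τ, add_mul, ite_mul, zero_mul, Finset.sum_add_distrib, Finset.sum_ite_eq',
      Finset.sum_ite_eq, Finset.mem_univ, if_true]
    ring
  have hν2 : ∀ j, ν j * (o (π (g j)) - 1) = 0 := by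
    intro j
    have hj : (o (π (g j))) ^ n j = 1 := by
      have e : π (g j ^ n j) = 1 := by
        show Abelianization.of _ = 1
        rw [← MonoidHom.mem_ker, Abelianization.ker_of]; exact h2 j
      rw [map_pow] at e
      have : o (π (g j) ^ n j) = 1 := by rw [e, ho1]
      rw [← this]
      simp [o]
    simp only [ν]
    rw [geom_sum_mul, hj, sub_self]
  have hA2 : ∀ j, ∑ i, A j i • (o (π (g i)) - 1) = 0 := by
    intro j
    simp only [A, smul_eq_mul, sub_mul, Finset.sum_sub_distrib, ite_mul, zero_mul,
      Finset.sum_ite_eq', Finset.sum_ite_eq, Finset.mem_univ, if_true]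
    rw [hν2 j, zero_sub, neg_eq_zero]
    simp only [Finset.sum_mul]
    rw [Finset.sum_comm]
    simp_rw [mul_assoc, ← Finset.mul_sum, hτ2, mul_zero, Finset.sum_const_zero]
  have hdet1 : ∀ i, A.det • Dt s hs (g i) = 0 := det_smul_eq_zero A _ hA1
  have hdet2 : ∀ i, A.det • (o (π (g i)) - 1) = 0 := det_smul_eq_zero A _ hA2
  have hinv' : ∀ c : G, A.det * o (π c) = A.det := by
    intro c
    have hc : c ∈ Subgroup.closure (Set.range g) := by rw [h1]; trivial
    induction hc using Subgroup.closure_induction with
    | mem x hx =>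
      obtain ⟨i, rfl⟩ := hx
      have := hdet2 i
      rw [smul_eq_mul, mul_sub, mul_one, sub_eq_zero] at this
      exact this
    | one => rw [map_one, ho1, mul_one]
    | mul x y _ _ hx hy => rw [map_mul, homul, ← mul_assoc, hx, hy]
    | inv x _ hx =>
      have e : o (π x⁻¹) * o (π x) = 1 := by
        rw [← homul, ← map_mul, inv_mul_cancel, map_one, ho1]
      calc A.det * o (π x⁻¹) = (A.det * o (π x)) * o (π x⁻¹) := by rw [hx]
        _ = A.det * (o (π x⁻¹) * o (π x)) := by ring
        _ = A.det := by rw [e, mul_one]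
  have hinv : ∀ x : Abelianization G, A.det * MonoidAlgebra.of ℤ (Abelianization G) x = A.det := by
    intro x
    have := hinv' (s x)
    simp only [π, hs] at this
    exact this
  have haugτ : ∀ p i, aug (τ p i) = 0 := by
    rintro ⟨k, l⟩ i
    simp only [τ, map_add]
    have e1 : ∀ x, aug (1 - o x) = 0 := fun x => by
      rw [map_sub, map_one]; simp only [o]; rw [aug_of]; simp
    have e2 : ∀ x, aug (o x - 1) = 0 := fun x => by
      rw [map_sub, map_one]; simp only [o]; rw [aug_of]; simp
    split_ifs <;> simp [e1, e2]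
  have haugν : ∀ j, aug (ν j) = n j := by
    intro j
    have e : aug (o (π (g j))) = 1 := aug_of _
    simp only [ν, map_sum, map_pow, e]
    simp
  have hmat : (aug : R →ₐ[ℤ] ℤ).toRingHom.mapMatrix A = Matrix.diagonal (fun j => (n j : ℤ)) := by
    ext j i
    show aug (A j i) = _
    rw [Matrix.diagonal_apply]
    simp only [A, map_sub, map_sum, map_mul, haugτ, mul_zero,
      Finset.sum_const_zero, sub_zero]
    by_cases hij : i = j
    · subst hij; simp [haugν]
    · have hij' : j ≠ i := fun h => hij h.symm
      simp [hij, hij']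
  have haug : aug A.det = Fintype.card (Abelianization G) := by
    have := (aug : R →ₐ[ℤ] ℤ).toRingHom.map_det A
    rw [hmat, Matrix.det_diagonal] at this
    simp only [AlgHom.toRingHom_eq_coe, RingHom.coe_coe] at this
    rw [this, ← h3]
    push_cast
    rfl
  have hfin : A.det = nm := eq_nm_of _ hinv haug
  rw [← hfin]
  exact hdet1 i

end main

section final

variable {G : Type*} [Group G] [Fintype (Abelianization G)]

theorem nm_smul_apply (f : Mt G) (q0 : Abelianization G) :
    ((nm : MonoidAlgebra ℤ (Abelianization G)) • f) q0 = ∑ q, f q := by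
  rw [nm, Finset.sum_smul]
  have e : ∀ (S : Finset (Abelianization G)) (F : Abelianization G → Mt G),
      (∑ x ∈ S, F x) q0 = ∑ x ∈ S, F x q0 := by
    intro S F
    classical
    induction S using Finset.induction_on with
    | empty => rfl
    | insert a S ha ih => rw [Finset.sum_insert ha, Finset.sum_insert ha, add_apply', ih]
  rw [e]
  simp only [of_smul, rho_apply]
  exact Fintype.sum_equiv ((Equiv.inv _).trans (Equiv.mulRight q0)) _ _ (fun x => by simp)

end final


end PIT

open PIT in

/-- The Principal Ideal Theorem of class field theory in its group-theoretic form: for every finite group `G`, the transfer homomorphism from `G` into the abelianization `G'/G''` of its derived subgroup `G'` is the trivial homomorphism. -/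
theorem result {G : Type*} [Group G] [Finite G] :
    MonoidHom.transfer (Abelianization.of : ↥(commutator G) →* Abelianization ↥(commutator G)) =
      (1 : G →* Abelianization ↥(commutator G)) := by
  classical
  letI inst1 : Fintype (G ⧸ commutator G) := (commutator G).fintypeQuotientOfFiniteIndex
  letI inst2 : Fintype (Abelianization G) := inst1
  let ϕ : ↥(commutator G) →* Abelianization ↥(commutator G) := Abelianization.of
  let T : (commutator G).LeftTransversal := default
  let s : Abelianization G → G := fun q => (T.2.leftQuotientEquiv q : G)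
  have hs : ∀ q, Abelianization.of (s q) = q := fun q => T.2.quotientGroupMk_leftQuotientEquiv q
  have key : ∀ g : G, Additive.ofMul (MonoidHom.transfer ϕ g) = ∑ q, Dt s hs g q := by
    intro g
    rw [MonoidHom.transfer_def ϕ T g, Subgroup.leftTransversals.diff, ofMul_prod]
    refine Finset.sum_congr rfl (fun q _ => ?_)
    change Abelianization G at q
    show Additive.ofMul (ϕ _) = Additive.ofMul (ϕ _)
    congr 2
    apply Subtype.ext
    show (s q)⁻¹ * ((g • T).2.leftQuotientEquiv q : G) = (s q)⁻¹ * g * s ((Abelianization.of g)⁻¹ * q)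
    have e2 := Subgroup.smul_apply_eq_smul_apply_inv_smul g T (show G ⧸ commutator G from q)
    have e3 : (g⁻¹ • (show G ⧸ commutator G from q)) = (Abelianization.of g)⁻¹ * q := by
      refine QuotientGroup.induction_on q (fun y => ?_)
      rfl
    rw [mul_assoc]
    congr 1
  have key2 : ∀ g : G, (∀ q0, ((nm : MonoidAlgebra ℤ (Abelianization G)) • Dt s hs g) q0 = 0) →
      MonoidHom.transfer ϕ g = 1 := by
    intro g h
    have h1 := key g
    rw [← nm_smul_apply _ 1, h] at h1
    exact h1
  obtain ⟨ι, _, n, hn, ⟨e⟩⟩ := CommGroup.equiv_prod_multiplicative_zmod_of_finite (Abelianization G)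
  haveI : ∀ i, NeZero (n i) := fun i => ⟨by have := hn i; omega⟩
  let x : ι → Abelianization G := fun i => e.symm (Pi.mulSingle i (Multiplicative.ofAdd 1))
  let J := ι ⊕ ↥(commutator G)
  letI : Fintype ↥(commutator G) := Fintype.ofFinite _
  let g : J → G := Sum.elim (fun i => s (x i)) (fun a => (a : G))
  let n' : J → ℕ := Sum.elim n (fun _ => 1)
  have hx : ∀ i, x i ^ n i = 1 := by
    intro i
    simp only [x]
    rw [← map_pow, ← Pi.mulSingle_pow, ← ofAdd_nsmul]
    simp
  have h2 : ∀ j, g j ^ n' j ∈ commutator G := by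
    rintro (i | a)
    · show s (x i) ^ n i ∈ commutator G
      rw [← Abelianization.ker_of, MonoidHom.mem_ker, map_pow, hs, hx]
    · show (a : G) ^ 1 ∈ commutator G
      rw [pow_one]; exact a.2
  have h3 : ∏ j, n' j = Fintype.card (Abelianization G) := by
    rw [Fintype.prod_sum_type]
    simp only [n', Sum.elim_inl, Sum.elim_inr, Finset.prod_const_one, mul_one]
    rw [Fintype.card_congr e.toEquiv, Fintype.card_pi]
    simp [ZMod.card]
  have h1 : Subgroup.closure (Set.range g) = ⊤ := by
    rw [eq_top_iff]
    intro y _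
    set C := Subgroup.closure (Set.range g) with hC
    have hcomm : commutator G ≤ C := fun a ha =>
      Subgroup.subset_closure ⟨Sum.inr ⟨a, ha⟩, rfl⟩
    have hxC : ∀ i, x i ∈ C.map Abelianization.of := fun i =>
      ⟨s (x i), Subgroup.subset_closure ⟨Sum.inl i, rfl⟩, hs _⟩
    have hq : ∀ q : Abelianization G, q ∈ C.map Abelianization.of := by
      intro q
      have e1 : q = ∏ i, x i ^ (Multiplicative.toAdd (e q i)).val := by
        apply e.injective
        rw [map_prod]
        simp only [map_pow, x, MulEquiv.apply_symm_apply]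
        simp_rw [← Pi.mulSingle_pow, ← ofAdd_nsmul]
        simp only [nsmul_eq_mul, ZMod.natCast_val, ZMod.cast_id', id_eq, mul_one, ofAdd_toAdd]
        rw [Finset.univ_prod_mulSingle]
      rw [e1]
      exact Subgroup.prod_mem _ (fun i _ => pow_mem (hxC i) _)
    obtain ⟨c, hc, hce⟩ := hq (Abelianization.of y)
    have : c⁻¹ * y ∈ C := by
      apply hcomm
      rw [← Abelianization.ker_of, MonoidHom.mem_ker, map_mul, map_inv, hce, inv_mul_cancel]
    have h5 := mul_mem hc this
    rwa [mul_inv_cancel_left] at h5
  have hgen : ∀ j, MonoidHom.transfer ϕ (g j) = 1 := by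
    intro j
    apply key2
    intro q0
    rw [nm_smul_Dt s hs g n' h1 h2 h3 j]
    rfl
  ext y
  have hy : y ∈ Subgroup.closure (Set.range g) := by rw [h1]; trivial
  show MonoidHom.transfer ϕ y = 1
  induction hy using Subgroup.closure_induction with
  | mem y hy => obtain ⟨j, rfl⟩ := hy; exact hgen j
  | one => exact map_one _
  | mul a b _ _ ha hb => rw [map_mul, ha, hb, one_mul]
  | inv a _ ha => rw [map_inv, ha, inv_one]

end Cfsg.Agent.S4320
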