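import Cfsg.Statements.S4321
import Mathlib
import Cfsg.Agent.Lib.FG85.ClassGraph
import Cfsg.Agent.Lib.ClassPow.Basic
import Cfsg.Agent.Lib.Transfer.TwoGClassSizes
import Cfsg.Agent.Lib.Involutions2.NormalFour
-- import your own Cfsg.Agent.* helpers here

set_option autoImplicit false
open Cfsg

namespace Cfsg.Agent.S4321


open Subgroup Cfsg Cfsg.Agent.Lib.FG85.ClassGraph Cfsg.Agent.Lib.ClassPow Cfsg.Agent.Lib.Core.Basic
open scoped Pointwise

section helpers

universe u

variable {G : Type u} [Group G] [Finite G] {p : ℕ} [hp : Fact p.Prime]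

/-- membership in a conjugate -/
lemma mem_conj_smul {l x : G} {H : Subgroup G} : x ∈ MulAut.conj l • H ↔ l⁻¹ * x * l ∈ H := by
  rw [Subgroup.mem_pointwise_smul_iff_inv_smul_mem, MulAut.smul_def, MulAut.conj_inv_apply]

omit [Finite G] hp in
lemma card_conj_smul (l : G) (H : Subgroup G) : Nat.card (MulAut.conj l • H : Subgroup G) = Nat.card H := by
  rw [Subgroup.pointwise_smul_def]
  exact Subgroup.card_map_of_injective (MulAction.injective _) 

/-- the final contradiction -/
theorem final_contra (hZ : ¬ p ∣ Nat.card (center G)) (hreg : RegPow p G)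
    (hB3 : ∀ g ∈ pCore p G, p ∣ idx g → ∃ k : ℕ, idx g = p ^ k) (Y : G) (hYb : BElt p Y) (hY1 : Y ≠ 1)
    (hYk : ∃ k : ℕ, idx Y = p ^ k) : False := by
  classical
  have hpp : p.Prime := Fact.out
  haveI hS : Group.IsSolvable G := RegPow.isSolvable hpp _ G rfl hreg
  obtain ⟨H, hab, hpH, k, hk⟩ := RegPow.exists_complement hpp hreg
  set O := pCore p G with hO
  haveI hOn : O.Normal := pCore_normal p G
  let f : G →* G ⧸ O := QuotientGroup.mk' O
  have hf : Function.Surjective f := QuotientGroup.mk'_surjective O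
  have hb : RegPow p (G ⧸ O) := hreg.of_surjective hpp f hf
  haveI hSb : Group.IsSolvable (G ⧸ O) := Group.isSolvable_of_surjective hf
  have hOb : pCore p (G ⧸ O) = ⊥ := pCore_quotient_eq_bot
  set F := pPrimeCore p (G ⧸ O) with hF
  haveI hFn : F.Normal := pPrimeCore_normal p (G ⧸ O)
  -- `p`-regular elements centralize `F`
  have hA : ∀ y : G ⧸ O, (orderOf y).Coprime p → F ≤ centralizer ({y} : Set (G ⧸ O)) := by
    intro y hy
    obtain ⟨k, hk⟩ := hb y hy
    have h1 : (centralizer ({y} : Set (G ⧸ O))).relIndex F ∣ p ^ k :=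
      hk ▸ relIndex_dvd_index_of_normal_right _ F
    have h2 : (centralizer ({y} : Set (G ⧸ O))).relIndex F ∣ Nat.card F :=
      Subgroup.relIndex_dvd_card _ _
    have h3 : Nat.Coprime (Nat.card F) (p ^ k) := Nat.Coprime.pow_right k pPrimeCore_coprime
    have h4 := Nat.eq_one_of_dvd_coprimes h3 h2 h1
    exact Subgroup.relIndex_eq_one.mp h4
  -- the Fitting subgroup lies in `F`
  have hFit : fittingSubgroup (G ⧸ O) ≤ F := by
    set E := fittingSubgroup (G ⧸ O) with hE
    haveI hEn : E.Normal := fittingSubgroup_normal'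
    have hnil : Group.IsNilpotent E := fittingSubgroup_isNilpotent
    have hc : (Nat.card E).Coprime p := by
      rw [Nat.coprime_comm, Nat.Prime.coprime_iff_not_dvd hpp]
      intro hd
      obtain ⟨R⟩ : Nonempty (Sylow p E) := inferInstance
      have hRn : (R : Subgroup E).Normal := by
        have q' := (Group.isNilpotent_of_finite_tfae (G := E)).out 0 3
        exact q'.1 hnil p inferInstance R
      have h1 : (pCore p E).map E.subtype = pCore p (G ⧸ O) ⊓ E :=
        map_pCore_of_isSubnormal (Subgroup.Normal.isSubnormal hEn)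
      rw [hOb, bot_inf_eq] at h1
      have h2 : pCore p E = ⊥ := by
        rwa [Subgroup.map_eq_bot_iff_of_injective _ E.subtype_injective] at h1
      have h3 : (R : Subgroup E) ≤ pCore p E := le_pCore hRn R.isPGroup'
      rw [h2, le_bot_iff] at h3
      exact R.ne_bot_of_dvd_card hd h3
    exact le_pPrimeCore hEn hc
  -- `p`-regular elements lie in `F`
  have hC : ∀ y : G ⧸ O, (orderOf y).Coprime p → y ∈ F := by
    intro y hy
    apply hFit
    apply Cfsg.Agent.Lib.Solvable.Fitting.centralizer_fittingSubgroup_le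
    rw [Subgroup.mem_centralizer_iff]
    intro z hz
    have := hA y hy (hFit hz)
    rw [Subgroup.mem_centralizer_singleton_iff] at this
    exact this
  have hHc : (Nat.card H).Coprime p := by
    rw [Nat.coprime_comm, Nat.Prime.coprime_iff_not_dvd hpp]
    exact hpH
  have hHreg : ∀ a ∈ H, (orderOf a).Coprime p := by
    intro a ha
    have h2 : orderOf a ∣ Nat.card H := by
      rw [← Subgroup.orderOf_mk a ha]
      exact orderOf_dvd_natCard _
    exact Nat.Coprime.coprime_dvd_left h2 hHc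
  have hreg' : ∀ a : G, (orderOf a).Coprime p → f a ∈ F := by
    intro a ha
    exact hC _ (Nat.Coprime.coprime_dvd_left (orderOf_map_dvd f a) ha)
  -- the image of `H` is `F`
  have hmapH : H.map f = F := by
    apply Subgroup.eq_of_le_of_card_ge
    · rintro _ ⟨a, ha, rfl⟩
      exact hreg' a (hHreg a ha)
    · have h1 : (H.map f).index ∣ p ^ k := hk ▸ Subgroup.index_map_dvd H hf
      have h2 : Nat.card F ∣ (H.map f).index * Nat.card (H.map f) := by
        rw [Subgroup.index_mul_card]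
        exact Subgroup.card_subgroup_dvd_card F
      have h3 : Nat.Coprime (Nat.card F) (H.map f).index :=
        Nat.Coprime.coprime_dvd_right h1 (Nat.Coprime.pow_right k pPrimeCore_coprime)
      exact Nat.le_of_dvd Nat.card_pos (h3.dvd_of_dvd_mul_left h2)
  -- conjugates of `H`
  let L : Subgroup G := (H.map f).comap f
  have hLn : L.Normal := by
    change ((H.map f).comap f).Normal
    rw [hmapH]
    exact Subgroup.Normal.comap hFn f
  have hHL : H ≤ L := Subgroup.le_comap_map f H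
  have hLmem : ∀ l ∈ L, ∃ o ∈ O, ∃ h ∈ H, l = o * h := by
    intro l hl
    obtain ⟨h, hh, he⟩ := hl
    refine ⟨l * h⁻¹, ?_, h, hh, by group⟩
    rw [← QuotientGroup.ker_mk' O, MonoidHom.mem_ker]
    change f (l * h⁻¹) = 1
    rw [map_mul, map_inv, ← he]
    simp
  have hLs : Group.IsSolvable L := inferInstance
  have hrel : ∃ j, H.relIndex L = p ^ j := by
    have h1 : H.relIndex L ∣ p ^ k := by
      rw [← hk, ← Subgroup.relIndex_mul_index hHL]
      exact Dvd.intro _ rfl
    obtain ⟨j, -, hj⟩ := (Nat.dvd_prime_pow hpp).1 h1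
    exact ⟨j, hj⟩
  have hconj : ∀ g : G, ∃ o ∈ O, MulAut.conj g • H = MulAut.conj o • H := by
    intro g
    obtain ⟨j, hj⟩ := hrel
    have hle : MulAut.conj g • H ≤ L := by
      intro x hx
      rw [mem_conj_smul] at hx
      have h1 := hHL hx
      have h2 := hLn.conj_mem _ h1 g
      simpa [mul_assoc] using h2
    have hc1 : (Nat.card H).Coprime (H.relIndex L) := by
      rw [hj]; exact Nat.Coprime.pow_right j hHc
    have hc2 : (Nat.card (MulAut.conj g • H : Subgroup G)).Coprime (H.relIndex L) := by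
      rw [card_conj_smul]; exact hc1
    obtain ⟨l, hl, hle2⟩ := Cfsg.Agent.Lib.Solvable.HallRel.exists_le_conj_of_le hLs hHL hle hc1 hc2
    obtain ⟨o, ho, h, hh, rfl⟩ := hLmem l hl
    refine ⟨o, ho, ?_⟩
    have e : MulAut.conj (o * h) • H = MulAut.conj o • H := by
      ext x
      rw [mem_conj_smul, mem_conj_smul]
      constructor
      · intro hx
        have := H.mul_mem (H.mul_mem hh hx) (H.inv_mem hh)
        convert this using 1
        group
      · intro hx
        have := H.mul_mem (H.mul_mem (H.inv_mem hh) hx) hh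
        convert this using 1
        group
    rw [e] at hle2
    apply Subgroup.eq_of_le_of_card_ge hle2
    rw [card_conj_smul, card_conj_smul]
  haveI hStop : Group.IsSolvable (⊤ : Subgroup G) :=
    Group.isSolvable_of_surjective (f := (Subgroup.topEquiv (G := G)).symm.toMonoidHom)
      (Subgroup.topEquiv (G := G)).symm.surjective
  -- elements of `p`-power class
  have hcomm : ∀ w : G, (∃ j : ℕ, idx w = p ^ j) → ∃ o ∈ O, ∀ h ∈ H, w * (o * h * o⁻¹) = (o * h * o⁻¹) * w := by
    rintro w ⟨j, hj⟩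
    let π : Set ℕ := {q | q ≠ p}
    haveI hCs : Group.IsSolvable (centralizer ({w} : Set G)) := inferInstance
    obtain ⟨H₁, hH1, hH2, hH3⟩ := Cfsg.Agent.Lib.Coprime.Hall.exists_isPiHallOf π (centralizer ({w} : Set G))
    have hH₁p : (Nat.card H₁).Coprime p := by
      rw [Nat.coprime_comm, Nat.Prime.coprime_iff_not_dvd hpp]
      exact fun hd => (hH2 p hpp hd) rfl
    have hc1 : (Nat.card H).Coprime (H.relIndex ⊤) := by
      rw [Subgroup.relIndex_top_right, hk]; exact Nat.Coprime.pow_right k hHc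
    have hc2 : (Nat.card H₁).Coprime (H.relIndex ⊤) := by
      rw [Subgroup.relIndex_top_right, hk]; exact Nat.Coprime.pow_right k hH₁p
    obtain ⟨l, -, hle2⟩ := Cfsg.Agent.Lib.Solvable.HallRel.exists_le_conj_of_le hStop le_top le_top hc1 hc2
    -- `H₁` has `p`-power index
    have hi1 : ∃ a, H₁.relIndex (centralizer ({w} : Set G)) = p ^ a := by
      refine ⟨_, Nat.eq_prime_pow_of_unique_prime_dvd (Subgroup.index_ne_zero_of_finite) ?_⟩
      intro d hd hdd
      by_contra hne
      exact hH3 d hd hne hdd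
    obtain ⟨a, ha⟩ := hi1
    have hi2 : H₁.index = p ^ (a + j) := by
      rw [← Subgroup.relIndex_mul_index hH1, ha, pow_add]
      rw [show (centralizer ({w} : Set G)).index = p ^ j from hj]
    have hcard : Nat.card H ∣ Nat.card H₁ := by
      have h1 : Nat.card H ∣ H₁.index * Nat.card H₁ := by
        rw [Subgroup.index_mul_card]
        exact Subgroup.card_subgroup_dvd_card H
      rw [hi2] at h1
      exact (Nat.Coprime.pow_right (a + j) hHc).dvd_of_dvd_mul_left h1
    have heq : (MulAut.conj l • H : Subgroup G) = H₁ := by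
      symm
      apply Subgroup.eq_of_le_of_card_ge hle2
      rw [card_conj_smul]
      exact Nat.le_of_dvd Nat.card_pos hcard
    obtain ⟨o, ho, he⟩ := hconj l
    refine ⟨o, ho, fun h hh => ?_⟩
    have h1 : o * h * o⁻¹ ∈ MulAut.conj o • H := by
      rw [mem_conj_smul]
      simpa [mul_assoc] using hh
    rw [← he, heq] at h1
    have h2 := hH1 h1
    rw [Subgroup.mem_centralizer_singleton_iff] at h2
    exact h2.symm
  -- the subgroup `D`
  let D : Subgroup G := O ⊓ centralizer (H : Set G)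
  let Z₀ : Subgroup G := O ⊓ centralizer (O : Set G)
  have hmemD : ∀ a, a ∈ D ↔ a ∈ O ∧ ∀ h ∈ H, h * a = a * h := by
    intro a
    simp only [D, Subgroup.mem_inf, Subgroup.mem_centralizer_iff, SetLike.mem_coe]
  have hcover : O ≤ D ⊔ Z₀ := by
    apply Cfsg.Agent.Lib.Transfer.TwoGClassSizes.le_of_conj_cover
    intro u hu
    by_cases huZ : u ∈ centralizer (O : Set G)
    · exact ⟨1, O.one_mem, by simpa using (le_sup_right : Z₀ ≤ D ⊔ Z₀) ⟨hu, huZ⟩⟩
    · have hdvd : p ∣ idx u := by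
        by_contra hnd
        obtain ⟨P, hP⟩ := Cfsg.Agent.Lib.FGS.SylowMax.exists_sylow_le_of_not_dvd_index hnd
        apply huZ
        rw [Subgroup.mem_centralizer_iff]
        intro c hc
        have := hP (pCore_le_sylow P hc)
        rw [Subgroup.mem_centralizer_singleton_iff] at this
        exact this
      obtain ⟨o, ho, hoc⟩ := hcomm u (hB3 u hu hdvd)
      refine ⟨o⁻¹, O.inv_mem ho, (le_sup_left : D ≤ D ⊔ Z₀) ?_⟩
      rw [hmemD]
      refine ⟨by
        have := hOn.conj_mem u hu o⁻¹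
        exact this, fun h hh => ?_⟩
      have := hoc h hh
      calc h * (o⁻¹ * u * o⁻¹⁻¹) = o⁻¹ * ((o * h * o⁻¹) * u) * o := by group
        _ = o⁻¹ * (u * (o * h * o⁻¹)) * o := by rw [← this]
        _ = o⁻¹ * u * o⁻¹⁻¹ * h := by group
  have hDnormO : ∀ o ∈ O, ∀ a ∈ D, o⁻¹ * a * o ∈ D := by
    have hle : D ⊔ Z₀ ≤ Subgroup.normalizer (D : Set G) := by
      apply sup_le Subgroup.le_normalizer
      rintro z ⟨hzO, hzc⟩
      rw [Subgroup.mem_normalizer_iff]
      intro a
      have hcomm' : ∀ a ∈ D, z * a * z⁻¹ = a := by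
        intro a ha
        have h1 := (Subgroup.mem_centralizer_iff.1 hzc) a ha.1
        rw [← h1]; group
      constructor
      · intro ha
        rw [hcomm' a ha]; exact ha
      · intro ha
        have h1 := hcomm' _ ha
        have h2 : a = z⁻¹ * (z * a * z⁻¹) * z := by group
        have h3 := (Subgroup.mem_centralizer_iff.1 hzc)
        have hza : z * a * z⁻¹ ∈ O := ha.1
        have hao : a ∈ O := by
          have := hOn.conj_mem _ hza z⁻¹
          simpa [mul_assoc] using this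
        have h4 := h3 a hao
        have h5 : z * a * z⁻¹ = a := by rw [← h4]; group
        rwa [h5] at ha
    intro o ho a ha
    have h1 := hle (hcover (O.inv_mem ho))
    rw [Subgroup.mem_normalizer_iff] at h1
    have := (h1 a).1 ha
    simpa using this
  have hDnorm : D.Normal := by
    constructor
    intro a ha g
    rw [hmemD] at ha ⊢
    refine ⟨hOn.conj_mem a ha.1 g, fun h hh => ?_⟩
    obtain ⟨o, ho, he⟩ := hconj g⁻¹
    have h1 : g⁻¹ * h * g ∈ MulAut.conj g⁻¹ • H := by
      rw [mem_conj_smul]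
      simpa [mul_assoc] using hh
    rw [he, mem_conj_smul] at h1
    set h' := o⁻¹ * (g⁻¹ * h * g) * o with hh'
    have h2 : (o⁻¹ * a * o) ∈ D := hDnormO o ho a (by rw [hmemD]; exact ha)
    rw [hmemD] at h2
    have h3 := h2.2 h' h1
    have h4 : (g⁻¹ * h * g) * a = a * (g⁻¹ * h * g) := by
      have e : g⁻¹ * h * g = o * h' * o⁻¹ := by rw [hh']; group
      rw [e]
      calc o * h' * o⁻¹ * a = o * (h' * (o⁻¹ * a * o)) * o⁻¹ := by group
        _ = o * ((o⁻¹ * a * o) * h') * o⁻¹ := by rw [h3]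
        _ = a * (o * h' * o⁻¹) := by group
    calc h * (g * a * g⁻¹) = g * ((g⁻¹ * h * g) * a) * g⁻¹ := by group
      _ = g * (a * (g⁻¹ * h * g)) * g⁻¹ := by rw [h4]
      _ = g * a * g⁻¹ * h := by group
  -- `Y ∈ O`
  have hYO : Y ∈ O := by
    obtain ⟨j, hj⟩ := hYb
    have hpz : IsPGroup p (zpowers Y) := by
      intro y
      obtain ⟨y, hy⟩ := y
      obtain ⟨i, rfl⟩ := Subgroup.mem_zpowers_iff.1 hy
      refine ⟨j, ?_⟩
      apply Subtype.ext
      simp only [SubmonoidClass.coe_pow, OneMemClass.coe_one]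
      rw [← zpow_natCast, ← zpow_mul, mul_comm, zpow_mul, zpow_natCast, hj, one_zpow]
    obtain ⟨P, hP⟩ := hpz.exists_le_sylow
    have hYP : Y ∈ (P : Subgroup G) := hP (mem_zpowers Y)
    obtain ⟨k', hk'⟩ := hYk
    have hcop : Nat.Coprime (P : Subgroup G).index (centralizer ({Y} : Set G)).index := by
      rw [show (centralizer ({Y} : Set G)).index = p ^ k' from hk']
      apply Nat.Coprime.pow_right
      rw [Nat.coprime_comm, Nat.Prime.coprime_iff_not_dvd hpp]
      exact P.not_dvd_index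
    have hle : Subgroup.normalClosure ({Y} : Set G) ≤ (P : Subgroup G) := by
      rw [Subgroup.normalClosure, Subgroup.closure_le]
      intro x hx
      rw [Group.mem_conjugatesOfSet_iff] at hx
      obtain ⟨a, ha, hax⟩ := hx
      rw [Set.mem_singleton_iff] at ha
      subst ha
      obtain ⟨c, rfl⟩ := isConj_iff.1 hax
      obtain ⟨u, hu, d, hd, rfl⟩ := exists_mul_of_coprime (P : Subgroup G) (centralizer ({a} : Set G)) hcop c
      rw [Subgroup.mem_centralizer_singleton_iff] at hd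
      have : u * d * a * (u * d)⁻¹ = u * a * u⁻¹ := by
        calc u * d * a * (u * d)⁻¹ = u * (d * a) * d⁻¹ * u⁻¹ := by group
          _ = u * (a * d) * d⁻¹ * u⁻¹ := by rw [hd]
          _ = u * a * u⁻¹ := by group
      rw [this]
      exact (P : Subgroup G).mul_mem ((P : Subgroup G).mul_mem hu hYP) ((P : Subgroup G).inv_mem hu)
    have hle2 : Subgroup.normalClosure ({Y} : Set G) ≤ O :=
      le_pCore Subgroup.normalClosure_normal (P.2.to_le hle)
    exact hle2 (Subgroup.subset_normalClosure (Set.mem_singleton Y))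
  -- `D` is nontrivial
  obtain ⟨o, ho, hoc⟩ := hcomm Y hYk
  have hDne : D ≠ ⊥ := by
    intro hbot
    have h1 : o⁻¹ * Y * o ∈ D := by
      rw [hmemD]
      refine ⟨by
        have := hOn.conj_mem Y hYO o⁻¹
        simpa using this, fun h hh => ?_⟩
      have := hoc h hh
      calc h * (o⁻¹ * Y * o) = o⁻¹ * ((o * h * o⁻¹) * Y) * o := by group
        _ = o⁻¹ * (Y * (o * h * o⁻¹)) * o := by rw [← this]
        _ = o⁻¹ * Y * o * h := by group
    rw [hbot, Subgroup.mem_bot] at h1
    apply hY1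
    have : Y = o * (o⁻¹ * Y * o) * o⁻¹ := by group
    rw [this, h1]; group
  -- a central element
  obtain ⟨P⟩ : Nonempty (Sylow p G) := inferInstance
  have hDP : D ≤ (P : Subgroup G) := inf_le_left.trans (pCore_le_sylow P)
  haveI hNn : (D.subgroupOf (P : Subgroup G)).Normal := hDnorm.subgroupOf _
  have hNne : D.subgroupOf (P : Subgroup G) ≠ ⊥ := by
    intro hbot
    apply hDne
    rw [eq_bot_iff]
    intro a ha
    have h1 : (⟨a, hDP ha⟩ : (P : Subgroup G)) ∈ D.subgroupOf (P : Subgroup G) := by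
      simpa [Subgroup.mem_subgroupOf] using ha
    rw [hbot, Subgroup.mem_bot] at h1
    have := congrArg Subtype.val h1
    simpa using this
  have h3 := Cfsg.Agent.Lib.Involutions2.NormalFour.inf_center_ne_bot P.2 (D.subgroupOf (P : Subgroup G)) hNne
  obtain ⟨⟨z, hz⟩, hz1⟩ := Subgroup.ne_bot_iff_exists_ne_one.1 h3
  have hzD : (z : G) ∈ D := hz.1
  have hzc := hz.2
  have hPc : (P : Subgroup G) ≤ centralizer ({(z : G)} : Set G) := by
    intro x hx
    rw [Subgroup.mem_centralizer_singleton_iff]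
    have := (Subgroup.mem_center_iff.1 hzc) ⟨x, hx⟩
    have h2 := congrArg Subtype.val this
    simpa using h2
  have hHcz : H ≤ centralizer ({(z : G)} : Set G) := by
    intro x hx
    rw [Subgroup.mem_centralizer_singleton_iff]
    exact ((hmemD _).1 hzD).2 x hx
  have hi1 : idx (z : G) ∣ (P : Subgroup G).index := Subgroup.index_dvd_of_le hPc
  have hi2 : idx (z : G) ∣ p ^ k := hk ▸ Subgroup.index_dvd_of_le hHcz
  have hi3 : Nat.Coprime (P : Subgroup G).index (p ^ k) := by
    apply Nat.Coprime.pow_right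
    rw [Nat.coprime_comm, Nat.Prime.coprime_iff_not_dvd hpp]
    exact P.not_dvd_index
  have hi4 : idx (z : G) = 1 := Nat.eq_one_of_dvd_coprimes hi3 hi1 hi2
  have hzcen : (z : G) ∈ center G := idx_eq_one_iff.1 hi4
  have hzne : (z : G) ≠ 1 := by
    intro h
    apply hz1
    ext
    simpa using h
  obtain ⟨j, hj⟩ := bElt_of_mem_sylow P z.2
  have hdp : p ∣ orderOf (z : G) := by
    obtain ⟨a, -, ha⟩ := (Nat.dvd_prime_pow hpp).1 (orderOf_dvd_of_pow_eq_one hj)
    rcases Nat.eq_zero_or_pos a with rfl | hapos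
    · exfalso
      simp only [pow_zero] at ha
      exact hzne (orderOf_eq_one_iff.1 ha)
    · rw [ha]
      exact dvd_pow_self p hapos.ne'
  apply hZ
  refine hdp.trans ?_
  rw [← Subgroup.orderOf_mk (z : G) hzcen]
  exact orderOf_dvd_natCard _


abbrev EE (G : Type u) [Group G] (p a b : ℕ) : Prop :=
  ∃ x : G, p ∣ orderOf x ∧ a * b ∣ (Subgroup.centralizer ({x} : Set G)).index

abbrev VV (G : Type u) [Group G] (p a : ℕ) : Prop :=
  a.Prime ∧ ∃ x : G, p ∣ orderOf x ∧ a ∣ (Subgroup.centralizer ({x} : Set G)).index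

abbrev CC (G : Type u) [Group G] (p r s : ℕ) : Prop :=
  (∃ x : G, p ∣ orderOf x ∧ r * s ∣ (Subgroup.centralizer ({x} : Set G)).index) ∨
  (∃ t : ℕ, (t.Prime ∧ ∃ x : G, p ∣ orderOf x ∧ t ∣ (Subgroup.centralizer ({x} : Set G)).index) ∧
    t ≠ r ∧ t ≠ s ∧ (∃ x : G, p ∣ orderOf x ∧ r * t ∣ (Subgroup.centralizer ({x} : Set G)).index) ∧
    (∃ x : G, p ∣ orderOf x ∧ t * s ∣ (Subgroup.centralizer ({x} : Set G)).index)) ∨
  (∃ t u : ℕ, (t.Prime ∧ ∃ x : G, p ∣ orderOf x ∧ t ∣ (Subgroup.centralizer ({x} : Set G)).index) ∧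
    (u.Prime ∧ ∃ x : G, p ∣ orderOf x ∧ u ∣ (Subgroup.centralizer ({x} : Set G)).index) ∧
    t ≠ r ∧ u ≠ s ∧ t ≠ u ∧ (∃ x : G, p ∣ orderOf x ∧ r * t ∣ (Subgroup.centralizer ({x} : Set G)).index) ∧
    (∃ x : G, p ∣ orderOf x ∧ t * u ∣ (Subgroup.centralizer ({x} : Set G)).index) ∧
    (∃ x : G, p ∣ orderOf x ∧ u * s ∣ (Subgroup.centralizer ({x} : Set G)).index))

omit [Finite G] hp in
lemma vv_left {a b : ℕ} (ha : a.Prime) (h : EE G p a b) : VV G p a := by
  obtain ⟨x, hx, h2⟩ := h
  exact ⟨ha, x, hx, (Dvd.intro _ rfl).trans h2⟩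

omit [Finite G] hp in
lemma vv_right {a b : ℕ} (hb : b.Prime) (h : EE G p a b) : VV G p b := by
  obtain ⟨x, hx, h2⟩ := h
  exact ⟨hb, x, hx, (Dvd.intro_left _ rfl).trans h2⟩

omit [Finite G] hp in
lemma path2 {r s a : ℕ} (hrs : r ≠ s) (ha : a.Prime) (h1 : a = r ∨ EE G p r a) (h2 : a = s ∨ EE G p a s) :
    CC G p r s := by
  by_cases har : a = r
  · subst har
    rcases h2 with h2 | h2
    · exact absurd h2 hrs
    · exact Or.inl h2
  · have h1' := h1.resolve_left har
    by_cases has : a = s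
    · subst has
      exact Or.inl h1'
    · have h2' := h2.resolve_left has
      exact Or.inr (Or.inl ⟨a, vv_left ha h2', har, has, h1', h2'⟩)

omit [Finite G] hp in
lemma path3 {r s a c : ℕ} (ha : a.Prime) (hc : c.Prime) (h1 : a = r ∨ EE G p r a)
    (h2 : c = s ∨ EE G p c s) (hac : a ≠ c) (he : EE G p a c) : CC G p r s := by
  by_cases har : a = r
  · subst har
    by_cases hcs : c = s
    · subst hcs
      exact Or.inl he
    · have h2' := h2.resolve_left hcs
      exact Or.inr (Or.inl ⟨c, vv_left hc h2', hac.symm, hcs, he, h2'⟩)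
  · have h1' := h1.resolve_left har
    by_cases hcs : c = s
    · subst hcs
      exact Or.inr (Or.inl ⟨a, vv_left ha he, har, hac, h1', he⟩)
    · have h2' := h2.resolve_left hcs
      exact Or.inr (Or.inr ⟨a, c, vv_left ha he, vv_left hc h2', har, hcs, hac, h1', he, h2'⟩)

omit [Finite G] hp in
lemma ee_of {x : G} (hx : p ∣ orderOf x) {a b : ℕ} (ha : a.Prime) (hb : b.Prime) (hab : a ≠ b)
    (h1 : a ∣ idx x) (h2 : b ∣ idx x) : EE G p a b :=
  ⟨x, hx, Nat.Coprime.mul_dvd_of_dvd_of_dvd ((Nat.coprime_primes ha hb).2 hab) h1 h2⟩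

omit [Finite G] hp in
lemma or_left {x : G} (hx : p ∣ orderOf x) {r a : ℕ} (hr : r.Prime) (ha : a.Prime) (h1 : r ∣ idx x)
    (h2 : a ∣ idx x) : a = r ∨ EE G p r a := by
  by_cases h : a = r
  · exact Or.inl h
  · exact Or.inr (ee_of hx hr ha (Ne.symm h) h1 h2)

omit [Finite G] hp in
lemma or_right {x : G} (hx : p ∣ orderOf x) {s c : ℕ} (hs : s.Prime) (hc : c.Prime) (h1 : s ∣ idx x)
    (h2 : c ∣ idx x) : c = s ∨ EE G p c s := by
  by_cases h : c = s
  · exact Or.inl h
  · exact Or.inr (ee_of hx hc hs h h2 h1)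

omit [Finite G] hp in
lemma CC_symm {r s : ℕ} (h : CC G p s r) : CC G p r s := by
  rcases h with ⟨x, hx, h⟩ | ⟨t, hV, h1, h2, ⟨x, hx, h3⟩, ⟨y, hy, h4⟩⟩ |
    ⟨t, u, hV, hU, h1, h2, h3, ⟨x, hx, h4⟩, ⟨y, hy, h5⟩, ⟨z, hz, h6⟩⟩
  · exact Or.inl ⟨x, hx, by rwa [mul_comm]⟩
  · exact Or.inr (Or.inl ⟨t, hV, h2, h1, ⟨y, hy, by rwa [mul_comm]⟩, ⟨x, hx, by rwa [mul_comm]⟩⟩)
  · exact Or.inr (Or.inr ⟨u, t, hU, hV, h2, h1, h3.symm, ⟨z, hz, by rwa [mul_comm]⟩,
      ⟨y, hy, by rwa [mul_comm]⟩, ⟨x, hx, by rwa [mul_comm]⟩⟩)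

omit [Finite G] in
lemma dvd_orderOf_of_bElt {A : G} (hb : BElt p A) (h1 : A ≠ 1) : p ∣ orderOf A := by
  have hpp : p.Prime := Fact.out
  obtain ⟨j, hj⟩ := hb
  obtain ⟨a, -, ha⟩ := (Nat.dvd_prime_pow hpp).1 (orderOf_dvd_of_pow_eq_one hj)
  rcases Nat.eq_zero_or_pos a with rfl | hapos
  · exfalso
    simp only [pow_zero] at ha
    exact h1 (orderOf_eq_one_iff.1 ha)
  · rw [ha]
    exact dvd_pow_self p hapos.ne'

lemma not_center (hZ : ¬ p ∣ Nat.card (center G)) {A : G} (hb : BElt p A) (h1 : A ≠ 1) :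
    A ∉ center G := by
  intro hc
  apply hZ
  refine (dvd_orderOf_of_bElt hb h1).trans ?_
  rw [← Subgroup.orderOf_mk A hc]
  exact orderOf_dvd_natCard _

lemma prod_props {A z : G} (hb : BElt p A) (h1 : A ≠ 1) (hz : ¬ p ∣ orderOf z) (hc : Commute A z) :
    p ∣ orderOf (A * z) ∧ idx A ∣ idx (A * z) ∧ idx z ∣ idx (A * z) := by
  have hpp : p.Prime := Fact.out
  have hcop := BElt.coprime_of_not_dvd hpp hb hz
  refine ⟨?_, idx_left_dvd hc hcop, idx_right_dvd hc hcop⟩
  rw [hc.orderOf_mul_eq_mul_orderOf_of_coprime hcop]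
  exact (dvd_orderOf_of_bElt hb h1).mul_right _

lemma exists_prime_dvd_idx {g : G} (h : g ∉ center G) : ∃ a : ℕ, a.Prime ∧ a ∣ idx g := by
  apply Nat.exists_prime_and_dvd
  intro h1
  exact h (idx_eq_one_iff.1 h1)

omit [Finite G] hp in
lemma not_dvd_order_of_bElt {r : ℕ} (hpp : p.Prime) (hr : r.Prime) (hrp : r ≠ p) {z : G} (hz : BElt r z) :
    ¬ p ∣ orderOf z := by
  obtain ⟨k, hk⟩ := hz
  intro hd
  have h1 := hd.trans (orderOf_dvd_of_pow_eq_one hk)
  have h2 := (Nat.prime_dvd_prime_iff_eq hpp hr).1 (hpp.dvd_of_dvd_pow h1)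
  exact hrp h2.symm

omit [Finite G] hp in
lemma orderOf_conj' (h a : G) : orderOf (h * a * h⁻¹) = orderOf a := by
  have := orderOf_injective (MulAut.conj h).toMonoidHom (MulAut.conj h).injective a
  simpa using this

theorem main_one (hZ : ¬ p ∣ Nat.card (center G)) {r s : ℕ} (hr : r.Prime) (hs : s.Prime) (hrs : r ≠ s)
    {x : G} (hx : p ∣ orderOf x) (hrx : r ∣ idx x) (hpx : ¬ p ∣ idx x) {y : G} (hy : p ∣ orderOf y)
    (hsy : s ∣ idx y) (hno : ¬ CC G p r s) : False := by
  have hpp : p.Prime := Fact.out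
  have disj : ∀ g : G, p ∣ orderOf g → s ∣ idx g → Nat.Coprime (idx x) (idx g) := by
    intro g hg hsg
    by_contra hc
    obtain ⟨a, ha, ha1, ha2⟩ := Nat.Prime.not_coprime_iff_dvd.1 hc
    exact hno (path2 hrs ha (or_left hx hr ha hrx ha1) (or_right hg hs ha hsg ha2))
  obtain ⟨X, v, m, n, hxe, hcomm, hXb, hv, hXm, hvn⟩ := exists_prime_part x p hpp
  have hX1 : X ≠ 1 := by
    intro h
    apply hv
    rw [h, one_mul] at hxe
    rwa [← hxe]
  obtain ⟨Y, w, m', n', hye, hcomm', hYb, hw, hYm, hwn⟩ := exists_prime_part y p hpp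
  have hY1 : Y ≠ 1 := by
    intro h
    apply hw
    rw [h, one_mul] at hye
    rwa [← hye]
  have hcop := disj y hy hsy
  have hYCx : Y ∈ centralizer ({x} : Set G) := by
    obtain ⟨h, hh⟩ := conj_mem_of_not_dvd (K := centralizer ({x} : Set G)) hpx hYb
    refine mem_of_conj_mem (H := centralizer ({y} : Set G)) (exists_mul_of_coprime _ _ hcop) ?_ hh
    intro d hd
    rw [Subgroup.mem_centralizer_singleton_iff] at hd
    rw [hYm]
    exact (Commute.pow_right hd m').eq
  have hYx : Commute Y x := Subgroup.mem_centralizer_singleton_iff.1 hYCx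
  have hvc : v ∈ center G := by
    by_contra hvn'
    obtain ⟨a, ha, hav⟩ := exists_prime_dvd_idx hvn'
    have hax : a ∣ idx x := hav.trans (by rw [hvn]; exact idx_pow_dvd x n)
    obtain ⟨c, hc, hcY⟩ := exists_prime_dvd_idx (not_center hZ hYb hY1)
    have hcy : c ∣ idx y := hcY.trans (by rw [hYm]; exact idx_pow_dvd y m')
    have hac : a ≠ c := by
      rintro rfl
      exact (Nat.Prime.not_coprime_iff_dvd.2 ⟨a, ha, hax, hcy⟩) hcop
    have hcv : Commute Y v := by
      rw [hvn]; exact hYx.pow_right n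
    obtain ⟨h1, h2, h3⟩ := prod_props hYb hY1 hv hcv
    exact hno (path3 ha hc (or_left hx hr ha hrx hax) (or_right hy hs hc hsy hcy) hac
      (ee_of h1 ha hc hac (hav.trans h3) (hcY.trans h2)))
  have hidxX : idx x = idx X := by
    rw [hxe]; exact idx_mul_central hvc
  have hrX : r ∣ idx X := hidxX ▸ hrx
  have hpX : ¬ p ∣ idx X := hidxX ▸ hpx
  have disjX : ∀ g : G, p ∣ orderOf g → s ∣ idx g → Nat.Coprime (idx X) (idx g) := by
    intro g hg hsg
    rw [← hidxX]; exact disj g hg hsg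
  have hXY : Commute X Y := by
    rw [hXm]; exact (hYx.symm.pow_left m)
  have hrp : r ≠ p := by
    rintro rfl
    exact hpX hrX
  have hXp : p ∣ orderOf X := dvd_orderOf_of_bElt hXb hX1
  have hYp : p ∣ orderOf Y := dvd_orderOf_of_bElt hYb hY1
  have hYy : idx Y ∣ idx y := by rw [hYm]; exact idx_pow_dvd y m'
  have key : ∀ c : ℕ, c.Prime → c ∣ idx Y → (c = s ∨ EE G p c s) → ∀ z : G, ¬ p ∣ orderOf z →
      z ∉ center G → p ∣ idx z := by
    intro c hc hcY hcs z hz hzc
    by_contra hpz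
    obtain ⟨h₁, hh₁⟩ := conj_mem_of_not_dvd (K := centralizer ({z} : Set G)) hpz hXb
    obtain ⟨h₂, hh₂⟩ := conj_mem_of_not_dvd (K := centralizer ({z} : Set G)) hpz hYb
    obtain ⟨u, hu, huz⟩ := exists_prime_dvd_idx hzc
    have c1 : Commute (h₁ * X * h₁⁻¹) z := Subgroup.mem_centralizer_singleton_iff.1 hh₁
    have c2 : Commute (h₂ * Y * h₂⁻¹) z := Subgroup.mem_centralizer_singleton_iff.1 hh₂
    have n1 : h₁ * X * h₁⁻¹ ≠ 1 := by
      intro h
      apply hX1
      have : X = h₁⁻¹ * (h₁ * X * h₁⁻¹) * h₁ := by group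
      rw [this, h]; group
    have n2 : h₂ * Y * h₂⁻¹ ≠ 1 := by
      intro h
      apply hY1
      have : Y = h₂⁻¹ * (h₂ * Y * h₂⁻¹) * h₂ := by group
      rw [this, h]; group
    obtain ⟨a1, a2, a3⟩ := prod_props (hXb.conj h₁) n1 hz c1
    obtain ⟨b1, b2, b3⟩ := prod_props (hYb.conj h₂) n2 hz c2
    rw [idx_conj] at a2 b2
    have ru := hrX.trans a2
    by_cases huc : u = c
    · subst huc
      exact hno (path2 hrs hu (or_left a1 hr hu ru (huz.trans a3)) hcs)
    · exact hno (path3 hu hc (or_left a1 hr hu ru (huz.trans a3)) hcs huc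
        (ee_of b1 hu hc huc (huz.trans b3) (hcY.trans b2)))
  by_cases hpY : p ∣ idx Y
  · -- Case B
    have hpy : p ∣ idx y := hpY.trans hYy
    have hps : p = s ∨ EE G p p s := or_right hy hs hpp hsy hpy
    have B1 : ∀ v' : ℕ, v'.Prime → v' ≠ p → ¬ v' ∣ idx X → ∀ g : G, ¬ v' ∣ idx g := by
      intro v' hv' hv'p hv'X g
      haveI : Fact v'.Prime := ⟨hv'⟩
      obtain ⟨V, hV⟩ := Cfsg.Agent.Lib.FGS.SylowMax.exists_sylow_le_of_not_dvd_index (p := v') hv'X
      have hVc : (V : Subgroup G) ≤ center G := by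
        intro t ht
        by_contra htc
        have hnp : ¬ p ∣ orderOf t := not_dvd_order_of_bElt hpp hv' hv'p (bElt_of_mem_sylow V ht)
        have hpt := key p hpp hpY hps t hnp htc
        have hct : Commute X t := (Subgroup.mem_centralizer_singleton_iff.1 (hV ht)).symm
        obtain ⟨a1, a2, a3⟩ := prod_props hXb hX1 hnp hct
        exact hno (path2 hrs hpp (Or.inr (ee_of a1 hr hpp hrp (hrX.trans a2) (hpt.trans a3))) hps)
      intro hd
      have hle : (V : Subgroup G) ≤ centralizer ({g} : Set G) := by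
        intro t ht
        rw [Subgroup.mem_centralizer_singleton_iff]
        exact (Subgroup.mem_center_iff.1 (hVc ht) g).symm
      exact V.not_dvd_index (hd.trans (index_dvd_of_le hle))
    have hsp : s = p := by
      by_contra hne
      have hsX : ¬ s ∣ idx X := fun hd =>
        (Nat.Prime.not_coprime_iff_dvd.2 ⟨s, hs, hd, hsy⟩) (disjX y hy hsy)
      exact B1 s hs hne hsX y hsy
    have B3 : ∀ g : G, p ∣ orderOf g → p ∣ idx g → ∃ k : ℕ, idx g = p ^ k := by
      intro g hg hpg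
      refine ⟨_, Nat.eq_prime_pow_of_unique_prime_dvd index_ne_zero_of_finite ?_⟩
      intro d hd hdd
      by_contra hne
      have hdX : ¬ d ∣ idx X := fun h =>
        (Nat.Prime.not_coprime_iff_dvd.2 ⟨d, hd, h, hdd⟩) (disjX g hg (hsp ▸ hpg))
      exact B1 d hd hne hdX g hdd
    have claim : ∀ N : ℕ, ∀ a : G, orderOf a = N → ¬ p ∣ N → ∃ h : G, Commute (h * a * h⁻¹) Y := by
      intro N
      induction N using Nat.strong_induction_on with
      | _ N ih =>
        intro a ha hpN
        by_cases ha1 : N = 1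
        · have : a = 1 := orderOf_eq_one_iff.1 (ha.trans ha1)
          exact ⟨1, by simp [this]⟩
        obtain ⟨w', hw', hwN⟩ := Nat.exists_prime_and_dvd ha1
        haveI : Fact w'.Prime := ⟨hw'⟩
        have hwp : w' ≠ p := by
          rintro rfl
          exact hpN hwN
        obtain ⟨u, v', m₁, n₁, hae, hcuv, hub, hv', hum, hvn'⟩ := exists_prime_part a w' hw'
        have hvdvd : orderOf v' ∣ N := by
          rw [← ha, hvn']; exact orderOf_pow_dvd n₁
        have hNpos : 0 < N := by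
          rw [← ha]; exact orderOf_pos a
        have hvlt : orderOf v' < N :=
          lt_of_le_of_ne (Nat.le_of_dvd hNpos hvdvd) (fun e => hv' (e ▸ hwN))
        have hpv : ¬ p ∣ orderOf v' := fun h => hpN (h.trans hvdvd)
        obtain ⟨h, hh⟩ := ih _ hvlt v' rfl hpv
        have hpv2 : ¬ p ∣ orderOf (h * v' * h⁻¹) := by
          rwa [orderOf_conj']
        obtain ⟨a1, a2, a3⟩ := prod_props hYb hY1 hpv2 hh.symm
        obtain ⟨j, hj⟩ := B3 _ a1 (hpY.trans a2)
        have hcop2 := BElt.coprime_of_not_dvd hpp hYb hpv2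
        obtain ⟨k₁, hk₁⟩ := exists_pow_of_commute_coprime hh.symm hcop2
        obtain ⟨k₂, hk₂⟩ := exists_pow_of_commute_coprime hh hcop2.symm
        have hgle1 : centralizer ({Y * (h * v' * h⁻¹)} : Set G) ≤ centralizer ({Y} : Set G) := by
          intro c hc
          rw [Subgroup.mem_centralizer_singleton_iff] at hc ⊢
          have := (Commute.pow_right hc k₁).eq
          rwa [hk₁] at this
        have hgle2 : centralizer ({Y * (h * v' * h⁻¹)} : Set G) ≤
            centralizer ({h * v' * h⁻¹} : Set G) := by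
          intro c hc
          rw [Subgroup.mem_centralizer_singleton_iff] at hc ⊢
          have e : Y * (h * v' * h⁻¹) = (h * v' * h⁻¹) * Y := hh.symm.eq
          rw [e] at hc
          have := (Commute.pow_right hc k₂).eq
          rwa [hk₂] at this
        have hrel : (centralizer ({Y * (h * v' * h⁻¹)} : Set G)).relIndex
            (centralizer ({h * v' * h⁻¹} : Set G)) ∣ p ^ j := by
          rw [← hj]
          change _ ∣ (centralizer ({Y * (h * v' * h⁻¹)} : Set G)).index
          rw [← Subgroup.relIndex_mul_index hgle2]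
          exact Dvd.intro _ rfl
        let K : Subgroup G := centralizer ({h * v' * h⁻¹} : Set G)
        let T : Subgroup K := (centralizer ({Y * (h * v' * h⁻¹)} : Set G)).subgroupOf K
        have hT : ¬ w' ∣ T.index := by
          intro hd
          have h3 : w' ∣ p ^ j := hd.trans hrel
          exact hwp ((Nat.prime_dvd_prime_iff_eq hw' hpp).1 (hw'.dvd_of_dvd_pow h3))
        have hu'K : h * u * h⁻¹ ∈ K := by
          change _ ∈ centralizer ({h * v' * h⁻¹} : Set G)
          rw [Subgroup.mem_centralizer_singleton_iff]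
          calc h * u * h⁻¹ * (h * v' * h⁻¹) = h * (u * v') * h⁻¹ := by group
            _ = h * (v' * u) * h⁻¹ := by rw [hcuv.eq]
            _ = h * v' * h⁻¹ * (h * u * h⁻¹) := by group
        have hubK : BElt w' (⟨h * u * h⁻¹, hu'K⟩ : K) := by
          obtain ⟨l, hl⟩ := hub.conj h
          refine ⟨l, ?_⟩
          apply Subtype.ext
          simpa using hl
        obtain ⟨c, hc⟩ := conj_mem_of_not_dvd (K := T) hT hubK
        have hc' : (c : G) * (h * u * h⁻¹) * (c : G)⁻¹ ∈
            centralizer ({Y * (h * v' * h⁻¹)} : Set G) := by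
          have := Subgroup.mem_subgroupOf.1 hc
          simpa using this
        have hcv : (c : G) * (h * v' * h⁻¹) = (h * v' * h⁻¹) * (c : G) :=
          Subgroup.mem_centralizer_singleton_iff.1 c.2
        refine ⟨c * h, ?_⟩
        have e : ((c : G) * h) * a * ((c : G) * h)⁻¹ =
            ((c : G) * (h * u * h⁻¹) * (c : G)⁻¹) * (h * v' * h⁻¹) := by
          rw [hae]
          have hcv' : (c : G)⁻¹ * (h * v' * h⁻¹) = (h * v' * h⁻¹) * (c : G)⁻¹ := by
            have := (Commute.inv_left (show Commute (c : G) (h * v' * h⁻¹) from hcv)).eq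
            exact this
          calc (c : G) * h * (u * v') * ((c : G) * h)⁻¹
              = (c : G) * (h * u * h⁻¹) * ((h * v' * h⁻¹) * (c : G)⁻¹) := by group
            _ = (c : G) * (h * u * h⁻¹) * ((c : G)⁻¹ * (h * v' * h⁻¹)) := by rw [hcv']
            _ = ((c : G) * (h * u * h⁻¹) * (c : G)⁻¹) * (h * v' * h⁻¹) := by group
        rw [e]
        have c1 : Commute ((c : G) * (h * u * h⁻¹) * (c : G)⁻¹) Y :=
          Subgroup.mem_centralizer_singleton_iff.1 (hgle1 hc')
        exact c1.mul_left hh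
    have hreg : RegPow p G := by
      intro a ha
      have hna : ¬ p ∣ orderOf a := by
        intro hd
        have := Nat.dvd_gcd hd (dvd_refl p)
        rw [ha] at this
        exact hpp.one_lt.ne' (Nat.dvd_one.1 this)
      obtain ⟨h, hh⟩ := claim _ a rfl hna
      have hna2 : ¬ p ∣ orderOf (h * a * h⁻¹) := by
        rwa [orderOf_conj']
      obtain ⟨a1, a2, a3⟩ := prod_props hYb hY1 hna2 hh.symm
      obtain ⟨j, hj⟩ := B3 _ a1 (hpY.trans a2)
      rw [hj, idx_conj] at a3
      obtain ⟨i, -, hi⟩ := (Nat.dvd_prime_pow hpp).1 a3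
      exact ⟨i, hi⟩
    refine final_contra hZ hreg ?_ Y hYb hY1 (B3 Y hYp hpY)
    intro g hg hpg
    have hg1 : g ≠ 1 := by
      rintro rfl
      have : idx (1 : G) = 1 := idx_eq_one_iff.2 (Subgroup.one_mem _)
      rw [this] at hpg
      exact hpp.one_lt.ne' (Nat.dvd_one.1 hpg)
    obtain ⟨k, hk⟩ := (pCore_isPGroup (p := p) (G := G)) ⟨g, hg⟩
    have hgb : BElt p g := by
      refine ⟨k, ?_⟩
      have := congrArg Subtype.val hk
      simpa using this
    exact B3 g (dvd_orderOf_of_bElt hgb hg1) hpg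
  · -- Case A
    obtain ⟨c, hc, hcY⟩ := exists_prime_dvd_idx (not_center hZ hYb hY1)
    have hcp : c ≠ p := by
      rintro rfl
      exact hpY hcY
    have hcy : c ∣ idx y := hcY.trans hYy
    have hcs : c = s ∨ EE G p c s := or_right hy hs hc hsy hcy
    have hrY : ¬ r ∣ idx Y := fun hd =>
      (Nat.Prime.not_coprime_iff_dvd.2 ⟨r, hr, hrx, hd.trans hYy⟩) hcop
    haveI : Fact r.Prime := ⟨hr⟩
    haveI : Fact c.Prime := ⟨hc⟩
    obtain ⟨R, hR⟩ := Cfsg.Agent.Lib.FGS.SylowMax.exists_sylow_le_of_not_dvd_index (p := r) hrY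
    obtain ⟨z₁, hz₁R, hz₁⟩ := exists_moved_of_dvd hrX R
    have hnp1 : ¬ p ∣ orderOf z₁ := not_dvd_order_of_bElt hpp hr hrp (bElt_of_mem_sylow R hz₁R)
    have hzc1 : z₁ ∉ center G := fun h => hz₁ (Subgroup.mem_center_iff.1 h X).symm
    have hpz1 := key c hc hcY hcs z₁ hnp1 hzc1
    have hcz1 : Commute Y z₁ := (Subgroup.mem_centralizer_singleton_iff.1 (hR hz₁R)).symm
    obtain ⟨a1, a2, a3⟩ := prod_props hYb hY1 hnp1 hcz1
    have hpc : EE G p p c := ee_of a1 hpp hc hcp.symm (hpz1.trans a3) (hcY.trans a2)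
    have hcX : ¬ c ∣ idx X := fun hd =>
      (Nat.Prime.not_coprime_iff_dvd.2 ⟨c, hc, hidxX ▸ hd, hcy⟩) hcop
    obtain ⟨C, hC⟩ := Cfsg.Agent.Lib.FGS.SylowMax.exists_sylow_le_of_not_dvd_index (p := c) hcX
    obtain ⟨z₂, hz₂C, hz₂⟩ := exists_moved_of_dvd hcY C
    have hnp2 : ¬ p ∣ orderOf z₂ := not_dvd_order_of_bElt hpp hc hcp (bElt_of_mem_sylow C hz₂C)
    have hzc2 : z₂ ∉ center G := fun h => hz₂ (Subgroup.mem_center_iff.1 h Y).symm
    have hpz2 := key c hc hcY hcs z₂ hnp2 hzc2
    have hcz2 : Commute X z₂ := (Subgroup.mem_centralizer_singleton_iff.1 (hC hz₂C)).symm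
    obtain ⟨b1, b2, b3⟩ := prod_props hXb hX1 hnp2 hcz2
    have hrpE : EE G p r p := ee_of b1 hr hpp hrp (hrX.trans b2) (hpz2.trans b3)
    exact hno (path3 hpp hc (Or.inr hrpE) hcs hcp.symm hpc)

end helpers



/-- Let `G` be a finite group and `p` a prime not dividing the order of the centre of `G`. Consider the primes dividing the size of some conjugacy class of a `p`-singular element (an element of order divisible by `p`), two of them adjacent when their product divides such a class size. Then any two distinct such primes are joined by a path with at most 3 edges (the graph is connected of diameter at most 3). -/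
theorem result {G : Type*} [Group G] [Finite G] (p : ℕ) [Fact p.Prime]
    (hZ : ¬ p ∣ Nat.card ↥(Subgroup.center G)) (r s : ℕ) (hr : (r.Prime ∧ ∃ x : G, p ∣ orderOf x ∧ r ∣ (Subgroup.centralizer ({x} : Set G)).index)) (hs : (s.Prime ∧ ∃ x : G, p ∣ orderOf x ∧ s ∣ (Subgroup.centralizer ({x} : Set G)).index)) (hrs : r ≠ s) :
    (∃ x : G, p ∣ orderOf x ∧ r * s ∣ (Subgroup.centralizer ({x} : Set G)).index) ∨ (∃ t : ℕ, (t.Prime ∧ ∃ x : G, p ∣ orderOf x ∧ t ∣ (Subgroup.centralizer ({x} : Set G)).index) ∧ t ≠ r ∧ t ≠ s ∧ (∃ x : G, p ∣ orderOf x ∧ r * t ∣ (Subgroup.centralizer ({x} : Set G)).index) ∧ (∃ x : G, p ∣ orderOf x ∧ t * s ∣ (Subgroup.centralizer ({x} : Set G)).index)) ∨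
      (∃ t u : ℕ, (t.Prime ∧ ∃ x : G, p ∣ orderOf x ∧ t ∣ (Subgroup.centralizer ({x} : Set G)).index) ∧ (u.Prime ∧ ∃ x : G, p ∣ orderOf x ∧ u ∣ (Subgroup.centralizer ({x} : Set G)).index) ∧ t ≠ r ∧ u ≠ s ∧ t ≠ u ∧ (∃ x : G, p ∣ orderOf x ∧ r * t ∣ (Subgroup.centralizer ({x} : Set G)).index) ∧ (∃ x : G, p ∣ orderOf x ∧ t * u ∣ (Subgroup.centralizer ({x} : Set G)).index) ∧ (∃ x : G, p ∣ orderOf x ∧ u * s ∣ (Subgroup.centralizer ({x} : Set G)).index)) := by
  by_contra hno
  obtain ⟨hrp, x, hx, hrx⟩ := hr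
  obtain ⟨hsp, y, hy, hsy⟩ := hs
  by_cases hpx : p ∣ idx x
  · by_cases hpy : p ∣ idx y
    · exact hno (path2 hrs Fact.out (or_left hx hrp Fact.out hrx hpx) (or_right hy hsp Fact.out hsy hpy))
    · exact main_one hZ hsp hrp hrs.symm hy hsy hpy hx hrx (fun h => hno (CC_symm h))
  · exact main_one hZ hrp hsp hrs hx hrx hpx hy hsy hno

end Cfsg.Agent.S4321
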