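import Cfsg.Statements.S4421
import Mathlib.GroupTheory.Sylow

set_option autoImplicit false
open Cfsg

namespace Cfsg.Agent.S4421

/-- A factorization of a normalizer from two-step control of fusion. Let `G` be a finite group and `A ≤ S ≤ H` subgroups of `G` such that: (i) `S` controls the `G`-fusion of `A` in the sense that every `G`-conjugate of `A` lying in `S` is an `S`-conjugate of `A`; (ii) `H` controls the `G`-fusion of `S` in the same sense; (iii) every conjugate of `S` by an element of the normalizer of `A` lies in `H`. Then `N_G(A) = N_H(A) · (N_G(S) ∩ N_G(A))`: every element of the normalizer of `A` is a product of an element of `H` normalizing `A` and an element normalizing both `S` and `A`. -/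
theorem result {G : Type*} [Group G] [Finite G] (A S H : Subgroup G)
    (hAS : A ≤ S) (hSH : S ≤ H)
    (h1 : ∀ g : G, A.map (MulAut.conj g).toMonoidHom ≤ S → ∃ s ∈ S, A.map (MulAut.conj g).toMonoidHom = A.map (MulAut.conj s).toMonoidHom)
    (h2 : ∀ g : G, S.map (MulAut.conj g).toMonoidHom ≤ H → ∃ y ∈ H, S.map (MulAut.conj g).toMonoidHom = S.map (MulAut.conj y).toMonoidHom)
    (h3 : ∀ x ∈ Subgroup.normalizer (A : Set G), S.map (MulAut.conj x).toMonoidHom ≤ H) :
    ∀ x ∈ Subgroup.normalizer (A : Set G), ∃ y ∈ H ⊓ Subgroup.normalizer (A : Set G),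
      ∃ z ∈ Subgroup.normalizer (S : Set G) ⊓ Subgroup.normalizer (A : Set G), x = y * z := by
  intro x hx
  have conj_map : ∀ (a b : G) (K : Subgroup G),
      (K.map (MulAut.conj b).toMonoidHom).map (MulAut.conj a).toMonoidHom =
        K.map (MulAut.conj (a * b)).toMonoidHom := by
    intro a b K
    rw [Subgroup.map_map]
    congr 1
    ext g
    simp [MulAut.conj_apply, mul_assoc]
  have conj_one : ∀ (K : Subgroup G), K.map (MulAut.conj (1 : G)).toMonoidHom = K := by
    intro K
    ext g
    simp [MulAut.conj_apply]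
  have mem_norm : ∀ (a : G) (K : Subgroup G), K.map (MulAut.conj a).toMonoidHom = K →
      a ∈ Subgroup.normalizer (K : Set G) := by
    intro a K h
    rw [Subgroup.mem_normalizer_iff_map_conj_eq]
    exact h
  have norm_map : ∀ (a : G) (K : Subgroup G), a ∈ Subgroup.normalizer (K : Set G) →
      K.map (MulAut.conj a).toMonoidHom = K := by
    intro a K h
    rw [Subgroup.mem_normalizer_iff_map_conj_eq] at h
    exact h
  obtain ⟨y, hyH, hy⟩ := h2 x (h3 x hx)
  -- z₀ = y⁻¹ x normalizes S
  have hz0S : y⁻¹ * x ∈ Subgroup.normalizer (S : Set G) := by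
    apply mem_norm
    rw [← conj_map, hy, conj_map, inv_mul_cancel, conj_one]
  have hz0A : A.map (MulAut.conj (y⁻¹ * x)).toMonoidHom ≤ S := by
    rw [← conj_map, norm_map x A hx]
    rw [← norm_map (y⁻¹ * x) S hz0S]
    intro a ha
    have haS : ∀ a ∈ A.map (MulAut.conj y⁻¹).toMonoidHom,
        a ∈ S.map (MulAut.conj (y⁻¹ * x)).toMonoidHom := by
      intro a ha
      have h4 : A.map (MulAut.conj y⁻¹).toMonoidHom = A.map (MulAut.conj (y⁻¹ * x)).toMonoidHom := by
        rw [← conj_map, norm_map x A hx]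
      rw [h4] at ha
      exact Subgroup.map_mono hAS ha
    exact haS a ha
  obtain ⟨s, hsS, hs⟩ := h1 _ hz0A
  -- w = s⁻¹ y⁻¹ x
  refine ⟨y * s, ⟨H.mul_mem hyH (hSH hsS), ?_⟩, s⁻¹ * (y⁻¹ * x), ⟨?_, ?_⟩, ?_⟩
  · -- y s normalizes A
    have hw : s⁻¹ * (y⁻¹ * x) ∈ Subgroup.normalizer (A : Set G) := by
      apply mem_norm
      rw [← conj_map, hs, conj_map, inv_mul_cancel, conj_one]
    have : y * s = x * (s⁻¹ * (y⁻¹ * x))⁻¹ := by group
    rw [this]
    exact Subgroup.mul_mem _ hx (Subgroup.inv_mem _ hw)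
  · apply Subgroup.mul_mem _ _ hz0S
    apply Subgroup.inv_mem
    exact Subgroup.le_normalizer hsS
  · apply mem_norm
    rw [← conj_map, hs, conj_map, inv_mul_cancel, conj_one]
  · group

end Cfsg.Agent.S4421
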