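import Cfsg.Statements.S4422
import Mathlib.Data.Nat.Factorization.Basic
import Mathlib.Data.ZMod.Basic
import Mathlib.FieldTheory.Finite.Basic
import Mathlib.GroupTheory.OrderOfElement

set_option autoImplicit false
open Cfsg

namespace Cfsg.Agent.S4422

/-- Primitive divisors of `q^e - 1` are congruent to 1 modulo `e`. Let `q ≥ 2` and `e ≥ 1` be natural numbers and let `m` be a divisor of `q^e - 1` that is coprime to `q^i - 1` for every `1 ≤ i < e` (so `m` divides the primitive part of `q^e - 1`, the largest such divisor). Then `m ≡ 1 (mod e)`. -/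
theorem result (q e m : ℕ) (hq : 2 ≤ q) (he : 1 ≤ e)
    (hm : m ∣ q ^ e - 1) (hcop : ∀ i : ℕ, 1 ≤ i → i < e → Nat.Coprime m (q ^ i - 1)) :
    m % e = 1 % e := by
  have hqe : 1 ≤ q ^ e := Nat.one_le_pow _ _ (by omega)
  have hpos : 0 < q ^ e - 1 := by
    have : 2 ^ 1 ≤ q ^ e := (Nat.pow_le_pow_left hq 1).trans (Nat.pow_le_pow_right (by omega) he)
    omega
  have hm0 : m ≠ 0 := by
    rintro rfl
    exact absurd (Nat.eq_zero_of_zero_dvd hm) hpos.ne'
  -- every prime factor is 1 mod e
  have key : ∀ r : ℕ, r.Prime → r ∣ m → r % e = 1 % e := by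
    intro r hr hrm
    haveI : Fact r.Prime := ⟨hr⟩
    have hrqe : r ∣ q ^ e - 1 := hrm.trans hm
    have hzmod : ((q : ZMod r)) ^ e = 1 := by
      have h1 : ((q ^ e - 1 : ℕ) : ZMod r) = 0 := (ZMod.natCast_eq_zero_iff _ _).mpr hrqe
      rw [Nat.cast_sub hqe] at h1
      push_cast at h1
      exact sub_eq_zero.mp h1
    have hq0 : (q : ZMod r) ≠ 0 := by
      intro h0
      rw [h0, zero_pow (by omega)] at hzmod
      exact zero_ne_one hzmod
    have hord : orderOf (q : ZMod r) = e := by
      have hd : orderOf (q : ZMod r) ∣ e := orderOf_dvd_of_pow_eq_one hzmod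
      have hle : orderOf (q : ZMod r) ≤ e := Nat.le_of_dvd (by omega) hd
      by_contra hne
      have hlt : orderOf (q : ZMod r) < e := lt_of_le_of_ne hle hne
      have hpos' : 0 < orderOf (q : ZMod r) := Nat.pos_of_dvd_of_pos hd (by omega)
      have hc := hcop _ hpos' hlt
      have hrd : r ∣ q ^ orderOf (q : ZMod r) - 1 := by
        rw [← ZMod.natCast_eq_zero_iff, Nat.cast_sub (Nat.one_le_pow _ _ (by omega))]
        push_cast
        rw [pow_orderOf_eq_one, sub_self]
      exact hr.one_lt.ne' (Nat.eq_one_of_dvd_coprimes hc hrm hrd)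
    have hdvd : e ∣ r - 1 := by
      rw [← hord]
      exact ZMod.orderOf_dvd_card_sub_one hq0
    have h2 : r % e = 1 % e := by
      have h3 : 1 ≤ r := hr.one_lt.le
      have := (Nat.modEq_iff_dvd' h3).mpr hdvd
      exact this.symm
    exact h2
  -- induct on m via prime factors
  have main : ∀ n : ℕ, n ≠ 0 → (∀ r : ℕ, r.Prime → r ∣ n → r % e = 1 % e) → n % e = 1 % e := by
    intro n hn
    induction n using Nat.recOnMul with
    | zero => exact absurd rfl hn
    | one => intro _; rfl
    | prime p hp => 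
      intro h
      exact h p hp dvd_rfl
    | mul a b ha hb =>
      intro h
      have ha0 : a ≠ 0 := left_ne_zero_of_mul hn
      have hb0 : b ≠ 0 := right_ne_zero_of_mul hn
      have h1 := ha ha0 (fun r hr hd => h r hr (hd.trans (dvd_mul_right a b)))
      have h2 := hb hb0 (fun r hr hd => h r hr (hd.trans (dvd_mul_left b a)))
      have : (a * b) ≡ 1 * 1 [MOD e] := Nat.ModEq.mul h1 h2
      simpa [Nat.ModEq] using this
  exact main m hm0 key

end Cfsg.Agent.S4422
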