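import Cfsg.Statements.S4423
import Cfsg.Agent.Lib.Zsig.Basic
import Mathlib

set_option autoImplicit false
open Cfsg

namespace Cfsg.Agent.S4423

open Polynomial Cfsg.Agent.Lib.Zsig.Basic

lemma not_sq_dvd {r n a : ℕ} [hr : Fact r.Prime] (ha : 2 ≤ a) (hn : 3 ≤ n) (hrd : r ∣ Phi n a)
    (hrn : r ∣ n) : ¬ r ^ 2 ∣ Phi n a := by
  have hrp := hr.out
  have hdvd : Phi n a ∣ a ^ n - 1 := Phi_dvd (by omega) (by omega)
  obtain ⟨k, m, hk, hrm, hnm, hmr, hpow⟩ := struct_of_dvd hrd hrn (by omega)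
  have hm0 : 0 < m := by
    rcases Nat.eq_zero_or_pos m with h | h
    · rw [h] at hrm
      exact absurd (dvd_zero r) hrm
    · exact h
  intro hsq
  rcases hrp.eq_two_or_odd' with h2 | hodd
  · -- `r = 2`
    have hm1 : m = 1 := by
      rw [h2] at hmr
      exact Nat.dvd_one.1 hmr
    rw [hm1, mul_one] at hnm
    rw [h2] at hnm hsq
    obtain ⟨j, hj⟩ : ∃ j, k = j + 1 := ⟨k - 1, by omega⟩
    have hj1 : 1 ≤ j := by
      rcases Nat.eq_zero_or_pos j with h0 | h0
      · rw [hj, h0] at hnm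
        omega
      · exact h0
    have hΦv : Phi n a = 1 + a ^ 2 ^ j := by
      unfold Phi
      rw [hnm, hj, cyclotomic_prime_pow_eq_geom_sum Nat.prime_two]
      simp only [Finset.sum_range_succ, Finset.range_one, Finset.sum_singleton, pow_zero, pow_one, eval_add, eval_one, eval_pow, eval_X]
      norm_cast
    have hodda : Odd a := by
      have h3 : 2 ∣ a ^ n - 1 := (h2 ▸ hrd).trans hdvd
      by_contra hc
      rw [Nat.not_odd_iff_even] at hc
      have h4 : 2 ∣ a ^ n := (hc.pow_of_ne_zero (by omega : n ≠ 0)).two_dvd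
      have h5 : 1 ≤ a ^ n := Nat.one_le_pow _ _ (by omega)
      omega
    obtain ⟨i, hi⟩ : ∃ i, j = i + 1 := ⟨j - 1, by omega⟩
    have h7 : a ^ 2 ^ j = (a ^ 2 ^ i) ^ 2 := by
      rw [hi, pow_succ, pow_mul]
    have hoddb : Odd (a ^ 2 ^ i) := hodda.pow
    obtain ⟨c, hc⟩ := hoddb
    rw [hΦv, h7, hc] at hsq
    have h8 : (2 * c + 1) ^ 2 + 1 = 4 * (c ^ 2 + c) + 2 := by ring
    rw [add_comm, h8] at hsq
    omega
  · -- `r` odd
    obtain ⟨j, hj⟩ : ∃ j, k = j + 1 := ⟨k - 1, by omega⟩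
    set d := r ^ j * m with hd
    have hnd : n = d * r := by
      rw [hnm, hj, hd]
      ring
    have hd0 : 0 < d := Nat.mul_pos (pow_pos hrp.pos _) hm0
    have hdprop : d ∈ n.properDivisors := by
      rw [Nat.mem_properDivisors]
      refine ⟨⟨r, hnd⟩, ?_⟩
      rw [hnd]
      have := hrp.two_le
      nlinarith
    have hmul := mul_Phi_dvd (a := a) (by omega) hdprop
    set b := a ^ d with hb
    have hb1 : 1 < b := Nat.one_lt_pow hd0.ne' (by omega)
    have hrb : r ∣ b - 1 := by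
      rw [← ZMod.natCast_eq_zero_iff, Nat.cast_sub hb1.le, hb, hd]
      simp only [Nat.cast_pow, Nat.cast_one]
      rw [mul_comm, pow_mul, hpow, one_pow, sub_self]
    have hnotb : ¬ r ∣ b := by
      intro h
      have h1 : r ∣ 1 := by
        have h2 : r ∣ b - (b - 1) := Nat.dvd_sub h hrb
        have h3 : b - (b - 1) = 1 := by omega
        rwa [h3] at h2
      exact hrp.one_lt.ne' (Nat.dvd_one.1 h1)
    have hLTE := padicValNat.pow_sub_pow hodd hb1 hrb hnotb hrp.ne_zero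
    rw [one_pow, padicValNat_self] at hLTE
    have hbr : b ^ r = a ^ n := by
      rw [hb, ← pow_mul, ← hnd]
    rw [hbr] at hLTE
    have han : a ^ n - 1 ≠ 0 := by
      have : 1 < a ^ n := Nat.one_lt_pow (by omega) (by omega)
      omega
    have h1 : r ^ padicValNat r (b - 1) ∣ b - 1 := pow_padicValNat_dvd
    have h2 : r ^ padicValNat r (b - 1) * r ^ 2 ∣ a ^ n - 1 := (mul_dvd_mul h1 hsq).trans hmul
    rw [← pow_add, padicValNat_dvd_iff_le han, hLTE] at h2
    omega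

lemma prod_lower (n : ℕ) (hn : 1 ≤ n) :
    (1 / 4 : ℝ) * (1 + 2 * (1 / 2) ^ n) ≤ ∏ b ∈ Finset.Icc 1 n, (1 - (1 / 2 : ℝ) ^ b) := by
  induction n, hn using Nat.le_induction with
  | base => norm_num
  | succ n hn ih =>
    rw [Finset.prod_Icc_succ_top (by omega)]
    have hu : (1 / 2 : ℝ) ^ n ≤ 1 / 2 := by
      calc (1 / 2 : ℝ) ^ n ≤ (1 / 2) ^ 1 := pow_le_pow_of_le_one (by norm_num) (by norm_num) hn
        _ = 1 / 2 := by norm_num
    have hu0 : (0 : ℝ) < (1 / 2 : ℝ) ^ n := by positivity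
    rw [pow_succ]
    set u := (1 / 2 : ℝ) ^ n
    have h1 : (0 : ℝ) ≤ 1 - u * (1 / 2) := by nlinarith
    calc (1 / 4 : ℝ) * (1 + 2 * (u * (1 / 2))) ≤ (1 / 4) * (1 + 2 * u) * (1 - u * (1 / 2)) := by
          nlinarith
      _ ≤ _ := mul_le_mul_of_nonneg_right ih h1

open ArithmeticFunction ArithmeticFunction.Moebius in
lemma four_mul_ge {a n : ℕ} (ha : 2 ≤ a) (hn : 0 < n) :
    (a : ℝ) ^ n.totient ≤ 4 * (cyclotomic n ℝ).eval (a : ℝ) := by
  have ha1 : (1 : ℝ) < a := by exact_mod_cast (by omega : 1 < a)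
  have ha0 : (0 : ℝ) < a := by linarith
  have hinv0 : (0 : ℝ) < 1 / a := by positivity
  have hinv1 : (1 : ℝ) / a ≤ 1 / 2 := by
    apply one_div_le_one_div_of_le (by norm_num)
    exact_mod_cast ha
  let f : ℕ → ℝ := fun d => (cyclotomic d ℝ).eval (a : ℝ) / (a : ℝ) ^ d.totient
  let g : ℕ → ℝ := fun d => 1 - (1 / (a : ℝ)) ^ d
  have hg0 : ∀ d : ℕ, 0 < d → 0 < g d ∧ g d ≤ 1 := by
    intro d hd
    constructor
    · have : (1 / (a : ℝ)) ^ d < 1 := pow_lt_one₀ hinv0.le (by linarith) hd.ne'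
      simp only [g]
      linarith
    · simp only [g]
      have : (0 : ℝ) ≤ (1 / (a : ℝ)) ^ d := by positivity
      linarith
  have hf0 : ∀ d : ℕ, 0 < d → f d ≠ 0 := by
    intro d _
    have h1 := cyclotomic_pos' d ha1
    simp only [f]
    positivity
  have hprod : ∀ d > 0, ∏ i ∈ d.divisors, f i = g d := by
    intro d hd
    simp only [f, g]
    rw [Finset.prod_div_distrib, Finset.prod_pow_eq_pow_sum, Nat.sum_totient]
    have h1 := congrArg (Polynomial.eval (a : ℝ)) (prod_cyclotomic_eq_X_pow_sub_one hd ℝ)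
    rw [eval_prod] at h1
    rw [h1]
    simp only [eval_sub, eval_pow, eval_X, eval_one]
    rw [one_div, inv_pow]
    field_simp
  have hmob := (prod_eq_iff_prod_pow_moebius_eq_of_nonzero hf0
    (fun d hd => (hg0 d hd).1.ne')).1 hprod n hn
  rw [Nat.prod_divisorsAntidiagonal' (fun x y => g y ^ μ x)] at hmob
  -- lower bounds
  have hdivpos : ∀ d ∈ n.divisors, 0 < d := fun d hd => Nat.pos_of_mem_divisors hd
  have h1 : ∏ d ∈ n.divisors, g d ≤ ∏ d ∈ n.divisors, g d ^ μ (n / d) := by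
    apply Finset.prod_le_prod
    · intro d hd
      exact (hg0 d (hdivpos d hd)).1.le
    · intro d hd
      obtain ⟨h0, h1⟩ := hg0 d (hdivpos d hd)
      by_cases hmu : μ (n / d) = 0
      · rw [hmu, zpow_zero]
        exact h1
      · rcases moebius_ne_zero_iff_eq_or.1 hmu with h | h
        · rw [h, zpow_one]
        · rw [h, zpow_neg_one]
          exact le_trans h1 ((one_le_inv₀ h0).2 h1)
  have hsub : n.divisors ⊆ Finset.Icc 1 n := by
    intro d hd
    rw [Finset.mem_Icc]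
    exact ⟨hdivpos d hd, Nat.divisor_le hd⟩
  have h2 : ∏ d ∈ Finset.Icc 1 n, g d ≤ ∏ d ∈ n.divisors, g d := by
    rw [← Finset.prod_sdiff hsub]
    apply mul_le_of_le_one_left
    · exact Finset.prod_nonneg (fun d hd => (hg0 d (hdivpos d hd)).1.le)
    · apply Finset.prod_le_one
      · intro d hd
        exact (hg0 d (Finset.mem_Icc.1 (Finset.mem_sdiff.1 hd).1).1).1.le
      · intro d hd
        exact (hg0 d (Finset.mem_Icc.1 (Finset.mem_sdiff.1 hd).1).1).2
  have h3 : ∏ d ∈ Finset.Icc 1 n, (1 - (1 / 2 : ℝ) ^ d) ≤ ∏ d ∈ Finset.Icc 1 n, g d := by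
    apply Finset.prod_le_prod
    · intro d hd
      have : (1 / 2 : ℝ) ^ d ≤ (1 / 2 : ℝ) ^ 1 :=
        pow_le_pow_of_le_one (by norm_num) (by norm_num) (Finset.mem_Icc.1 hd).1
      norm_num at this ⊢
      linarith
    · intro d hd
      simp only [g]
      have : (1 / (a : ℝ)) ^ d ≤ (1 / 2) ^ d := pow_le_pow_left₀ hinv0.le hinv1 d
      linarith
  have h4 := prod_lower n hn
  have h5 : (1 / 4 : ℝ) ≤ (1 / 4) * (1 + 2 * (1 / 2) ^ n) := by
    have : (0 : ℝ) ≤ (1 / 2) ^ n := by positivity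
    nlinarith
  have h6 : (1 / 4 : ℝ) ≤ f n := by
    rw [← hmob]
    linarith
  simp only [f] at h6
  have h7 : (0 : ℝ) < (a : ℝ) ^ n.totient := by positivity
  rw [le_div_iff₀ h7] at h6
  linarith

lemma four_mul_Phi_ge {a n : ℕ} (ha : 2 ≤ a) (hn : 0 < n) : a ^ n.totient ≤ 4 * Phi n a := by
  have h1 := four_mul_ge ha hn
  have h3 := cyclotomic.eval_apply (a : ℤ) n (algebraMap ℤ ℝ)
  have h4 : algebraMap ℤ ℝ (a : ℤ) = (a : ℝ) := by simp
  rw [h4] at h3
  rw [h3] at h1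
  have ha1 : (1 : ℝ) < a := by exact_mod_cast (by omega : 1 < a)
  have h5 : (0 : ℝ) ≤ algebraMap ℤ ℝ (Polynomial.eval (a : ℤ) (cyclotomic n ℤ)) := by
    rw [← h3]
    exact (cyclotomic_pos' n ha1).le
  have h6 : ((Phi n a : ℕ) : ℝ) = algebraMap ℤ ℝ (Polynomial.eval (a : ℤ) (cyclotomic n ℤ)) := by
    unfold Phi
    rw [Nat.cast_natAbs, eq_intCast]
    simp only [eq_intCast] at h5
    rw [Int.cast_abs, abs_of_nonneg h5]
  rw [← h6] at h1
  exact_mod_cast h1

/-- The main existence given a numerical bound. -/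
lemma exists_prim {a n : ℕ} (ha : 2 ≤ a) (hn : 3 ≤ n) (hb : 4 * n * (3 * n + 1) ≤ a ^ n.totient) :
    ∃ m : ℕ, m ∣ a ^ n - 1 ∧ (∀ i : ℕ, 1 ≤ i → i < n → Nat.Coprime m (a ^ i - 1)) ∧ 3 * n + 1 ≤ m := by
  have h1 := four_mul_Phi_ge ha (by omega : 0 < n)
  have hΦ : n * (3 * n + 1) ≤ Phi n a := by nlinarith
  have hΦ0 : 0 < Phi n a := lt_of_lt_of_le (by positivity) hΦ
  have hdvd : Phi n a ∣ a ^ n - 1 := Phi_dvd (by omega) (by omega)
  set g := Nat.gcd (Phi n a) n with hg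
  have hg1 : g ∣ Phi n a := Nat.gcd_dvd_left _ _
  have hg2 : g ∣ n := Nat.gcd_dvd_right _ _
  obtain ⟨m, hm⟩ := hg1
  have hm1 : m ∣ Phi n a := ⟨g, by rw [hm, mul_comm]⟩
  have hmn : Nat.Coprime m n := by
    apply Nat.Coprime.symm
    apply Nat.coprime_of_dvd
    intro r hr hrn hrm
    haveI : Fact r.Prime := ⟨hr⟩
    have hrΦ : r ∣ Phi n a := hrm.trans hm1
    have hrg : r ∣ g := Nat.dvd_gcd hrΦ hrn
    have := not_sq_dvd ha hn hrΦ hrn
    apply this
    rw [hm, pow_two]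
    exact mul_dvd_mul hrg hrm
  refine ⟨m, hm1.trans hdvd, ?_, ?_⟩
  · intro i hi hin
    apply Nat.coprime_of_dvd
    intro r hr hrm hri
    haveI : Fact r.Prime := ⟨hr⟩
    have hrΦ : r ∣ Phi n a := hrm.trans hm1
    have hrn : ¬ r ∣ n := by
      intro hrn
      have := Nat.Coprime.eq_one_of_dvd (hmn.coprime_dvd_left hrm) hrn
      exact hr.one_lt.ne' this
    exact primitive_of_not_dvd (by omega) hrΦ hrn i hi hin hri
  · have hgle : g ≤ n := Nat.le_of_dvd (by omega) hg2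
    have h2 : Phi n a ≤ n * m := by
      rw [hm]
      exact Nat.mul_le_mul_right _ hgle
    have h3 : n * (3 * n + 1) ≤ n * m := le_trans hΦ h2
    exact Nat.le_of_mul_le_mul_left h3 (by omega)

/-- odd numbers -/
lemma odd_le_sq (n : ℕ) (hn : 0 < n) (hodd : Odd n) : n ≤ n.totient ^ 2 := by
  induction n using Nat.recOnPosPrimePosCoprime with
  | prime_pow p k hp hk =>
    have h3 : 3 ≤ p := by
      have h2 := hp.two_le
      have : p ≠ 2 := by
        rintro rfl
        have : Even (2 ^ k) := (even_two).pow_of_ne_zero hk.ne'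
        exact (Nat.not_even_iff_odd.2 hodd) this
      omega
    rw [Nat.totient_prime_pow hp hk]
    obtain ⟨j, rfl⟩ : ∃ j, k = j + 1 := ⟨k - 1, by omega⟩
    simp only [Nat.add_sub_cancel]
    obtain ⟨s, rfl⟩ : ∃ s, p = s + 3 := ⟨p - 3, by omega⟩
    have h4 : (s + 3 - 1) = s + 2 := by omega
    rw [h4, mul_pow, ← pow_mul]
    have h5 : (s + 3) ^ j ≤ (s + 3) ^ (j * 2) := Nat.pow_le_pow_right (by omega) (by omega)
    calc (s + 3) ^ (j + 1) = (s + 3) ^ j * (s + 3) := pow_succ _ _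
      _ ≤ (s + 3) ^ (j * 2) * (s + 2) ^ 2 := by
        apply Nat.mul_le_mul h5
        nlinarith
  | zero => omega
  | one => simp
  | coprime a b ha hb hab iha ihb =>
    rw [Nat.totient_mul hab, mul_pow]
    have hoa : Odd a := (Nat.odd_mul.1 hodd).1
    have hob : Odd b := (Nat.odd_mul.1 hodd).2
    exact Nat.mul_le_mul (iha (by omega) hoa) (ihb (by omega) hob)

lemma le_two_mul_sq (n : ℕ) (hn : 0 < n) : n ≤ 2 * n.totient ^ 2 := by
  obtain ⟨k, m, hm, rfl⟩ := Nat.exists_eq_two_pow_mul_odd hn.ne'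
  have hm0 : 0 < m := hm.pos
  have h1 := odd_le_sq m hm0 hm
  have hc : Nat.Coprime (2 ^ k) m := Nat.Coprime.pow_left _ (Nat.coprime_two_left.2 hm)
  rw [Nat.totient_mul hc, mul_pow]
  rcases Nat.eq_zero_or_pos k with rfl | hk
  · simp
    nlinarith
  · rw [Nat.totient_prime_pow Nat.prime_two hk]
    obtain ⟨j, rfl⟩ : ∃ j, k = j + 1 := ⟨k - 1, by omega⟩
    simp only [Nat.add_sub_cancel]
    have h5 : 2 ^ j ≤ (2 ^ j) ^ 2 := Nat.le_self_pow (by norm_num) _
    have h6 : (2 ^ j * (2 - 1)) ^ 2 = (2 ^ j) ^ 2 := by simp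
    rw [h6, pow_succ]
    calc 2 ^ j * 2 * m ≤ (2 ^ j) ^ 2 * 2 * m.totient ^ 2 := by
          apply Nat.mul_le_mul _ h1
          exact Nat.mul_le_mul_right _ h5
      _ = _ := by ring

lemma growth (t : ℕ) (ht : 24 ≤ t) : 4 * (2 * t ^ 2) * (3 * (2 * t ^ 2) + 1) ≤ 2 ^ t := by
  induction t, ht using Nat.le_induction with
  | base => norm_num
  | succ t ht ih =>
    rw [pow_succ 2 t]
    obtain ⟨s, rfl⟩ := Nat.exists_eq_add_of_le ht
    have : 4 * (2 * (24 + s + 1) ^ 2) * (3 * (2 * (24 + s + 1) ^ 2) + 1) ≤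
        2 * (4 * (2 * (24 + s) ^ 2) * (3 * (2 * (24 + s) ^ 2) + 1)) := by
      ring_nf
      nlinarith [sq_nonneg s, pow_pos (Nat.succ_pos s) 2]
    calc _ ≤ _ := this
      _ ≤ 2 ^ (24 + s) * 2 := by rw [mul_comm]; exact Nat.mul_le_mul_right 2 ih

lemma numeric_large {a n : ℕ} (ha : 2 ≤ a) (hn : 0 < n) (h : 24 ≤ n.totient) :
    4 * n * (3 * n + 1) ≤ a ^ n.totient := by
  have h1 := le_two_mul_sq n hn
  have h2 := growth _ h
  calc 4 * n * (3 * n + 1) ≤ 4 * (2 * n.totient ^ 2) * (3 * (2 * n.totient ^ 2) + 1) := by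
        apply Nat.mul_le_mul (Nat.mul_le_mul_left _ h1)
        omega
    _ ≤ 2 ^ n.totient := h2
    _ ≤ a ^ n.totient := Nat.pow_le_pow_left ha _

/-- Certificates. -/
def cert : List (ℕ × ℕ × ℕ) := [(3,3,13), (5,3,31), (6,3,43), (7,3,19), (8,3,73), (9,3,91), (10,3,37), (4,4,17), (5,4,13), (6,4,37), (7,4,25), (8,4,65), (9,4,41), (10,4,101), (11,4,61), (12,4,145), (13,4,85), (14,4,197), (2,5,31), (3,5,121), (4,5,341), (6,6,31), (7,6,43), (8,6,19), (9,6,73), (10,6,91), (11,6,37), (12,6,133), (13,6,157), (14,6,61), (15,6,211), (16,6,241), (17,6,91), (18,6,307), (19,6,343), (20,6,127), (21,6,421), (2,7,127), (3,8,41), (4,8,257), (5,8,313), (2,9,73), (3,9,757), (3,10,61), (4,10,41), (5,10,521), (2,11,2047), (3,12,73), (4,12,241), (5,12,601), (6,12,1261), (2,14,43), (3,14,547), (2,15,151), (2,16,257), (3,18,703), (2,21,337), (2,22,683), (2,24,241), (3,24,6481), (2,26,2731), (2,28,3277), (2,30,331), (3,30,8401), (2,36,4033), (2,42,5419)]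

/-- The exceptional list. -/
def exc : List (ℕ × ℕ) := [(2, 6), (2, 4), (2, 10), (2, 12), (2, 18), (3, 4), (3, 6), (5, 6), (2, 3), (2, 8), (2, 20), (4, 3), (4, 6)]

set_option maxRecDepth 100000 in
theorem cert_ok : ∀ t ∈ cert, t.2.2 ∣ t.1 ^ t.2.1 - 1 ∧
    (∀ i ∈ List.range t.2.1, 1 ≤ i → Nat.gcd t.2.2 (t.1 ^ i - 1) = 1) ∧ 3 * t.2.1 + 1 ≤ t.2.2 := by
  decide +kernel

set_option maxRecDepth 100000 in
theorem check1 : ∀ e ∈ List.range 1059, 24 ≤ Nat.totient e ∨ e < 67 := by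
  decide +kernel

set_option maxRecDepth 100000 in
theorem check2 : ∀ e ∈ List.range 67, 3 ≤ e → 4 * e * (3 * e + 1) ≤ 22 ^ Nat.totient e ∧
    ∀ q ∈ List.range 22, 2 ≤ q → 4 * e * (3 * e + 1) ≤ q ^ Nat.totient e ∨ (q, e) ∈ exc ∨
      ∃ t ∈ cert, t.1 = q ∧ t.2.1 = e := by
  decide +kernel

lemma exc_bound {q e P C m : ℕ} (h : q ^ e - 1 = P * C)
    (hC : C ∣ ∏ i ∈ Finset.Ico 1 e, (q ^ i - 1)) (hP : 0 < P) (hm : m ∣ q ^ e - 1)
    (hc : ∀ i : ℕ, 1 ≤ i → i < e → Nat.Coprime m (q ^ i - 1)) : m ≤ P := by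
  have h1 : Nat.Coprime m (∏ i ∈ Finset.Ico 1 e, (q ^ i - 1)) := by
    apply Nat.Coprime.prod_right
    intro i hi
    rw [Finset.mem_Ico] at hi
    exact hc i hi.1 hi.2
  have h2 : Nat.Coprime m C := h1.coprime_dvd_right hC
  rw [h] at hm
  exact Nat.le_of_dvd hP (h2.dvd_of_dvd_mul_right hm)

/-- Size of the primitive part of `q^e - 1`. For a prime power `q` and `e ≥ 3`, call a divisor of `q^e - 1` primitive when it is coprime to `q^i - 1` for every `1 ≤ i < e`; the primitive part is the largest primitive divisor. Apart from thirteen exceptional pairs, the primitive part is at least `3e + 1`: there is a primitive divisor `m ≥ 3e + 1` unless `(q, e)` is `(2, 6)` (where every primitive divisor is 1), one of `(2,4), (2,10), (2,12), (2,18), (3,4), (3,6), (5,6)` (where the primitive part is exactly `e + 1`), or one of `(2,3), (2,8), (2,20), (4,3), (4,6)` (where it is exactly `2e + 1`). The statement asserts the existence of a primitive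 divisor `m ≥ 3e + 1` outside the thirteen pairs, and that every primitive divisor is at most `2e + 1` for the thirteen pairs. -/
theorem result (q e : ℕ) (hq : IsPrimePow q) (he : 3 ≤ e) :
    ((q, e) ∉ [(2, 6), (2, 4), (2, 10), (2, 12), (2, 18), (3, 4), (3, 6), (5, 6), (2, 3), (2, 8), (2, 20), (4, 3), (4, 6)] →
      ∃ m : ℕ, m ∣ q ^ e - 1 ∧ (∀ i : ℕ, 1 ≤ i → i < e → Nat.Coprime m (q ^ i - 1)) ∧ 3 * e + 1 ≤ m) ∧
    ((q, e) ∈ [(2, 6), (2, 4), (2, 10), (2, 12), (2, 18), (3, 4), (3, 6), (5, 6), (2, 3), (2, 8), (2, 20), (4, 3), (4, 6)] →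
      ∀ m : ℕ, m ∣ q ^ e - 1 → (∀ i : ℕ, 1 ≤ i → i < e → Nat.Coprime m (q ^ i - 1)) → m ≤ 2 * e + 1) := by
  have hq2 : 2 ≤ q := hq.two_le
  constructor
  · intro hne
    by_cases h24 : 24 ≤ Nat.totient e
    · exact exists_prim hq2 he (numeric_large hq2 (by omega) h24)
    have he1059 : e < 1059 := by
      have h1 := le_two_mul_sq e (by omega)
      have h2 : Nat.totient e ≤ 23 := by omega
      have h3 : Nat.totient e ^ 2 ≤ 23 ^ 2 := Nat.pow_le_pow_left h2 2
      omega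
    have he67 : e < 67 := by
      rcases check1 e (List.mem_range.2 he1059) with h | h
      · exact absurd h h24
      · exact h
    obtain ⟨hb, hcheck⟩ := check2 e (List.mem_range.2 he67) he
    by_cases hq22 : 22 ≤ q
    · exact exists_prim hq2 he (le_trans hb (Nat.pow_le_pow_left hq22 _))
    rcases hcheck q (List.mem_range.2 (by omega)) hq2 with h | h | h
    · exact exists_prim hq2 he h
    · exact absurd h hne
    · obtain ⟨t, ht, rfl, rfl⟩ := h
      obtain ⟨h1, h2, h3⟩ := cert_ok t ht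
      refine ⟨t.2.2, h1, ?_, h3⟩
      intro i hi1 hi2
      exact h2 i (List.mem_range.2 hi2) hi1
  · intro hmem m hm hc
    simp only [List.mem_cons, List.not_mem_nil, or_false, Prod.mk.injEq] at hmem
    rcases hmem with ⟨rfl, rfl⟩ | ⟨rfl, rfl⟩ | ⟨rfl, rfl⟩ | ⟨rfl, rfl⟩ | ⟨rfl, rfl⟩ | ⟨rfl, rfl⟩ |
      ⟨rfl, rfl⟩ | ⟨rfl, rfl⟩ | ⟨rfl, rfl⟩ | ⟨rfl, rfl⟩ | ⟨rfl, rfl⟩ | ⟨rfl, rfl⟩ | ⟨rfl, rfl⟩
    · exact le_trans (exc_bound (P := 1) (C := 63) (by norm_num) (by decide +kernel) (by norm_num) hm hc) (by norm_num)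
    · exact le_trans (exc_bound (P := 5) (C := 3) (by norm_num) (by decide +kernel) (by norm_num) hm hc) (by norm_num)
    · exact le_trans (exc_bound (P := 11) (C := 93) (by norm_num) (by decide +kernel) (by norm_num) hm hc) (by norm_num)
    · exact le_trans (exc_bound (P := 13) (C := 315) (by norm_num) (by decide +kernel) (by norm_num) hm hc) (by norm_num)
    · exact le_trans (exc_bound (P := 19) (C := 13797) (by norm_num) (by decide +kernel) (by norm_num) hm hc) (by norm_num)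
    · exact le_trans (exc_bound (P := 5) (C := 16) (by norm_num) (by decide +kernel) (by norm_num) hm hc) (by norm_num)
    · exact le_trans (exc_bound (P := 7) (C := 104) (by norm_num) (by decide +kernel) (by norm_num) hm hc) (by norm_num)
    · exact le_trans (exc_bound (P := 7) (C := 2232) (by norm_num) (by decide +kernel) (by norm_num) hm hc) (by norm_num)
    · exact le_trans (exc_bound (P := 7) (C := 1) (by norm_num) (by decide +kernel) (by norm_num) hm hc) (by norm_num)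
    · exact le_trans (exc_bound (P := 17) (C := 15) (by norm_num) (by decide +kernel) (by norm_num) hm hc) (by norm_num)
    · exact le_trans (exc_bound (P := 41) (C := 25575) (by norm_num) (by decide +kernel) (by norm_num) hm hc) (by norm_num)
    · exact le_trans (exc_bound (P := 7) (C := 9) (by norm_num) (by decide +kernel) (by norm_num) hm hc) (by norm_num)
    · exact le_trans (exc_bound (P := 13) (C := 315) (by norm_num) (by decide +kernel) (by norm_num) hm hc) (by norm_num)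

end Cfsg.Agent.S4423
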