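import Cfsg.Statements.S4429
import Cfsg.Agent.Lib.Ord7920.Main
-- import your own Cfsg.Agent.* helpers here

set_option autoImplicit false
open Cfsg

namespace Cfsg.Agent.S4429

/-- Let G be a simple group of order 7920. Then G has exactly ten irreducible complex characters, and their degrees, listed with multiplicity, are 1, 10, 10, 10, 11, 16, 16, 44, 45, 55: for every natural number n, the number of irreducible characters of degree n is 1 if n ∈ {1, 11, 44, 45, 55}, 3 if n = 10, 2 if n = 16, and 0 otherwise. -/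
theorem result {G : Type*} [Group G] [Finite G] [IsSimpleGroup G] (hG : Nat.card G = 7920) : Nat.card (Cfsg.IrrCharacter G) = 10 ∧ ∀ n : ℕ, Nat.card {χ : Cfsg.IrrCharacter G // Cfsg.charDegree (χ : G → ℂ) = n} = (if n = 1 ∨ n = 11 ∨ n = 44 ∨ n = 45 ∨ n = 55 then 1 else if n = 10 then 3 else if n = 16 then 2 else 0) := by
  classical
  letI : Fintype G := Fintype.ofFinite G
  haveI := Cfsg.Agent.Lib.Char.Ortho.finite_irrCharacter (G := G)
  letI : Fintype (Cfsg.IrrCharacter G) := Fintype.ofFinite _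
  haveI hp11 : Fact (Nat.Prime 11) := ⟨by norm_num⟩
  haveI hp5 : Fact (Nat.Prime 5) := ⟨by norm_num⟩
  obtain ⟨P⟩ : Nonempty (Sylow 11 G) := inferInstance
  obtain ⟨Q⟩ : Nonempty (Sylow 5 G) := inferInstance
  have hP := Cfsg.Agent.Lib.Small.Sieve.card_sylow_eq (k := 1) (m := 720) (hG.trans (by norm_num))
    (by norm_num) P
  have hQ := Cfsg.Agent.Lib.Small.Sieve.card_sylow_eq (k := 1) (m := 1584) (hG.trans (by norm_num))
    (by norm_num) Q
  rw [pow_one] at hP hQ
  obtain ⟨z, a, μ, hclass, h1, h2, h3, h4, h5, h6, h7, h8, -⟩ :=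
    Cfsg.Agent.Lib.Ord7920.Main.main hG hP hQ
  have hnn : ∀ d, Cfsg.Agent.Lib.Ord7920.Main.nn G d =
      (Finset.univ.filter (fun j : Cfsg.IrrCharacter G => Cfsg.charDegree (j : G → ℂ) = d)).card := by
    intro d
    rw [Cfsg.Agent.Lib.Ord7920.Main.nn]
  constructor
  · have hc := Cfsg.Agent.Lib.Ord7920.Step11.card_by_deg
      (Finset.univ : Finset (Cfsg.IrrCharacter G))
      (fun j : Cfsg.IrrCharacter G => Cfsg.charDegree (j : G → ℂ)) Cfsg.Agent.Lib.Ord7920.Main.Dg
      (fun j _ => (hclass j).1)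
    simp only [← hnn] at hc
    rw [Cfsg.Agent.Lib.Ord7920.Main.expandN] at hc
    rw [Nat.card_eq_fintype_card, ← Finset.card_univ, hc]
    omega
  · intro n
    rw [Nat.card_eq_fintype_card, Fintype.card_subtype, ← hnn]
    by_cases hn : n ∈ Cfsg.Agent.Lib.Ord7920.Main.Dg
    · simp only [Cfsg.Agent.Lib.Ord7920.Main.Dg, Finset.mem_insert, Finset.mem_singleton] at hn
      rcases hn with rfl | rfl | rfl | rfl | rfl | rfl | rfl | rfl <;> simp [*]
    · have h0 : Cfsg.Agent.Lib.Ord7920.Main.nn G n = 0 := by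
        rw [hnn, Finset.card_eq_zero, Finset.filter_eq_empty_iff]
        intro j _ hj
        exact hn (hj ▸ (hclass j).1)
      rw [h0]
      simp only [Cfsg.Agent.Lib.Ord7920.Main.Dg, Finset.mem_insert, Finset.mem_singleton, not_or] at hn
      obtain ⟨h₁, h₂, h₃, h₄, h₅, h₆, h₇, h₈⟩ := hn
      simp [*]

end Cfsg.Agent.S4429
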