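import Cfsg.Statements.S4430
import Cfsg.Agent.Lib.BlockP.InducedDeg
import Cfsg.Agent.Lib.Char.IndRep

set_option autoImplicit false
open Cfsg

namespace Cfsg.Agent.S4430

/-- Let H be a subgroup of the finite group G, b a block of H whose induced block B₀ in G is defined (relative to a maximal ideal M of the algebraic integers containing p), and ξ ∈ b. For a block B of G let n_B be the value at 1 of the B-part of the induced character ξ^G (a natural number: the sum over χ ∈ B of the multiplicity of χ in ξ^G times χ(1)). Then for B = B₀ the exact power of p dividing n_B equals the exact power of p dividing ξ^G(1), while for every other block B either n_B = 0 or n_B is divisible by a strictly higher power of p than ξ^G(1). -/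
theorem result {G : Type*} [Group G] [Fintype G] (p : ℕ) [Fact p.Prime] (M : Ideal Cfsg.AlgInt) (hM : Cfsg.IsPModular p M) (H : Subgroup G) [Fintype H] (b : Set (Cfsg.IrrCharacter H)) (B₀ : Set (Cfsg.IrrCharacter G)) (hind : Cfsg.IsInducedBlock M H b B₀) (ξ : Cfsg.IrrCharacter H) (hξ : ξ ∈ b) : (∃ n : ℕ, Cfsg.blockPart B₀ (Cfsg.indFun H (ξ : H → ℂ)) 1 = (n : ℂ) ∧ n ≠ 0 ∧ n.factorization p = (Cfsg.charDegree (Cfsg.indFun H (ξ : H → ℂ))).factorization p) ∧ ∀ B : Set (Cfsg.IrrCharacter G), Cfsg.IsPBlock M B → B ≠ B₀ → ∃ n : ℕ, Cfsg.blockPart B (Cfsg.indFun H (ξ : H → ℂ)) 1 = (n : ℂ) ∧ (n = 0 ∨ (Cfsg.charDegree (Cfsg.indFun H (ξ : H → ℂ))).factorization p < n.factorization p) := by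
  classical
  haveI hprime : M.IsPrime := Cfsg.Agent.Lib.Blocks.Local.isPrime_of_pModular hM
  have hfinI := Cfsg.Agent.Lib.Char.Ortho.finite_irrCharacter (G := G)
  letI := Fintype.ofFinite (Cfsg.IrrCharacter G)
  have hΘ : Cfsg.IsCharacter G (Cfsg.indFun H (ξ : H → ℂ)) :=
    Cfsg.Agent.Lib.Char.IndRep.isCharacter_indFun H
      (Cfsg.Agent.Lib.Char.Basic.isCharacter_of_isIrrCharacter ξ.2)
  obtain ⟨χ₀, hχ₀⟩ := Cfsg.Agent.Lib.Blocks.Central.isPBlock_nonempty hind.2.1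
  have hdeg : Cfsg.indFun H (ξ : H → ℂ) 1 = (Cfsg.charDegree (Cfsg.indFun H (ξ : H → ℂ)) : ℂ) :=
    (Cfsg.Agent.Lib.Char.Degree.charDegree_natCast hΘ).symm
  have ht : Cfsg.charDegree (Cfsg.indFun H (ξ : H → ℂ)) ≠ 0 := by
    intro h0
    rw [h0, Nat.cast_zero, Cfsg.Agent.Lib.Char.Induced.indFun_one] at hdeg
    simp only [mul_eq_zero] at hdeg
    rcases hdeg with h1 | h1
    · exact Cfsg.Agent.Lib.Char.Induced.index_ne_zero' H h1
    · exact Cfsg.Agent.Lib.Char.Complete.irr_one_ne_zero ξ.2 h1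
  constructor
  · obtain ⟨n, hn⟩ := Cfsg.Agent.Lib.BlockP.InducedDeg.exists_nat_blockPart hΘ B₀
    have h1 := Cfsg.Agent.Lib.BlockP.InducedDeg.blockPart_indFun_div_sub_mem hM H hind hind.2.1 hξ hχ₀
    rw [if_pos hχ₀, hn, hdeg] at h1
    obtain ⟨h2, h3⟩ := Cfsg.Agent.Lib.BlockP.InducedDeg.factorization_eq_of_sub_one_mem hM ht h1
    exact ⟨n, hn, h2, h3⟩
  · intro B hB hne
    obtain ⟨n, hn⟩ := Cfsg.Agent.Lib.BlockP.InducedDeg.exists_nat_blockPart hΘ B
    have h1 := Cfsg.Agent.Lib.BlockP.InducedDeg.blockPart_indFun_div_sub_mem hM H hind hB hξ hχ₀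
    have hnot : χ₀ ∉ B := by
      intro hmem
      apply hne
      rw [Cfsg.Agent.Lib.Blocks.Central.isPBlock_eq_blockOf hB hmem,
        ← Cfsg.Agent.Lib.Blocks.Central.isPBlock_eq_blockOf hind.2.1 hχ₀]
    rw [if_neg hnot, sub_zero, hn, hdeg] at h1
    exact ⟨n, hn, Cfsg.Agent.Lib.BlockP.InducedDeg.factorization_lt_of_memLocalIdeal hM ht h1⟩

end Cfsg.Agent.S4430
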