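import Cfsg.Statements.S4431
import Cfsg.Agent.Lib.BlockP.RegPair

set_option autoImplicit false
open Cfsg

namespace Cfsg.Agent.S4431

/-- Let H be a subgroup of the finite group G and b a block of H whose induced block B₀ in G is defined (relative to a maximal ideal M of the algebraic integers containing p). Let χ be an irreducible character of G, ψ ∈ b, and let η be the class function on H equal to p^a · χ on the p-regular elements of H and zero elsewhere, p^a being the p-part of the order of H. Then (a) if χ ∉ B₀, the number [η, ψ]/ψ(1) lies in the local ideal at M; (b) if χ ∈ B₀ has height zero, it does not. -/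
theorem result {G : Type*} [Group G] [Fintype G] (p : ℕ) [Fact p.Prime] (M : Ideal Cfsg.AlgInt) (hM : Cfsg.IsPModular p M) (H : Subgroup G) [Fintype H] (b : Set (Cfsg.IrrCharacter H)) (B₀ : Set (Cfsg.IrrCharacter G)) (hind : Cfsg.IsInducedBlock M H b B₀) (χ : Cfsg.IrrCharacter G) (ψ : Cfsg.IrrCharacter H) (hψ : ψ ∈ b) : (χ ∉ B₀ → Cfsg.MemLocalIdeal M (Cfsg.classInner (fun h : H => if p ∣ orderOf h then (0 : ℂ) else ((p ^ (Nat.card H).factorization p : ℕ) : ℂ) * (χ : G → ℂ) h) (ψ : H → ℂ) / (ψ : H → ℂ) 1)) ∧ (χ ∈ B₀ → Cfsg.blockHeight p B₀ (χ : G → ℂ) = 0 → ¬ Cfsg.MemLocalIdeal M (Cfsg.classInner (fun h : H => if p ∣ orderOf h then (0 : ℂ) else ((p ^ (Nat.card H).factorization p : ℕ) : ℂ) * (χ : G → ℂ) h) (ψ : H → ℂ) / (ψ : H → ℂ) 1)) := by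
  classical
  have hp := hM.1
  haveI hprime : M.IsPrime := Cfsg.Agent.Lib.Blocks.Local.isPrime_of_pModular hM
  have hfinI := Cfsg.Agent.Lib.Char.Ortho.finite_irrCharacter (G := G)
  letI := Fintype.ofFinite (Cfsg.IrrCharacter G)
  letI := Fintype.ofFinite (ConjClasses G)
  -- the reduction
  set S : ℂ := (∑ h : H, if p ∣ orderOf h then 0 else
        (χ : G → ℂ) h * (starRingEnd ℂ) ((ψ : H → ℂ) h)) / (ψ : H → ℂ) 1 with hS
  set a := (Nat.card H).factorization p with ha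
  have hcard : Nat.card H = p ^ a * (Nat.card H / p ^ a) :=
    (Nat.ordProj_mul_ordCompl_eq_self _ _).symm
  set h' := Nat.card H / p ^ a with hh'
  have hh'nd : ¬ p ∣ h' := Nat.not_dvd_ordCompl hp Nat.card_pos.ne'
  have hh'c : (h' : ℂ) ≠ 0 := by
    intro h0
    apply hh'nd
    have : h' = 0 := by exact_mod_cast h0
    rw [this]
    exact dvd_zero _
  have hpc : (p : ℂ) ≠ 0 := Nat.cast_ne_zero.mpr hp.ne_zero
  have hform : Cfsg.classInner (fun h : H => if p ∣ orderOf h then (0 : ℂ) else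
      ((p ^ (Nat.card H).factorization p : ℕ) : ℂ) * (χ : G → ℂ) h) (ψ : H → ℂ) / (ψ : H → ℂ) 1 =
      (h' : ℂ)⁻¹ * S := by
    rw [Cfsg.Agent.Lib.Char.Ortho.classInner_def, hS]
    have h1 : ∑ g : H, (if p ∣ orderOf g then (0 : ℂ) else
        ((p ^ (Nat.card H).factorization p : ℕ) : ℂ) * (χ : G → ℂ) g) *
        (starRingEnd ℂ) ((ψ : H → ℂ) g) = ((p ^ a : ℕ) : ℂ) * ∑ g : H, if p ∣ orderOf g then 0 else
        (χ : G → ℂ) g * (starRingEnd ℂ) ((ψ : H → ℂ) g) := by
      rw [Finset.mul_sum]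
      refine Fintype.sum_congr _ _ fun g => ?_
      split_ifs
      · simp
      · ring
    rw [h1]
    have h2 : (Nat.card H : ℂ) = ((p ^ a : ℕ) : ℂ) * (h' : ℂ) := by
      conv_lhs => rw [hcard]
      push_cast
      rfl
    rw [h2]
    have h3 : ((p ^ a : ℕ) : ℂ) ≠ 0 := by
      push_cast
      exact pow_ne_zero _ hpc
    field_simp
  rw [hform]
  have hinvloc : Cfsg.MemLocalRing M (h' : ℂ)⁻¹ :=
    Cfsg.Agent.Lib.Blocks.Local.memLocalRing_natCast_inv hM hh'nd
  have hSiff : Cfsg.MemLocalIdeal M ((h' : ℂ)⁻¹ * S) ↔ Cfsg.MemLocalIdeal M S := by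
    constructor
    · intro h1
      have h2 := Cfsg.Agent.Lib.Blocks.Local.memLocalIdeal_mul_left
        (Cfsg.Agent.Lib.Blocks.Local.memLocalRing_natCast (M := M) h') h1
      rwa [← mul_assoc, mul_inv_cancel₀ hh'c, one_mul] at h2
    · exact fun h1 => Cfsg.Agent.Lib.Blocks.Local.memLocalIdeal_mul_left hinvloc h1
  rw [hSiff]
  constructor
  · intro hχ
    obtain ⟨χ₀, hχ₀⟩ := Cfsg.Agent.Lib.Blocks.Central.isPBlock_nonempty hind.2.1
    have h1 := Cfsg.Agent.Lib.BlockP.RegPair.sum_reg_subgroup_sub_mem p H hind χ hψ hχ₀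
    have hne : ¬ Cfsg.SameBlock M (χ : G → ℂ) (χ₀ : G → ℂ) := by
      intro hsame
      apply hχ
      rw [Cfsg.Agent.Lib.Blocks.Central.isPBlock_eq_blockOf hind.2.1 hχ₀]
      exact Cfsg.Agent.Lib.Blocks.Central.sameBlock_symm hsame
    rw [Cfsg.Agent.Lib.BlockP.RegPair.regA_eq_zero hM hne, sub_zero] at h1
    exact h1
  · intro hχ hht hmem
    have h1 := Cfsg.Agent.Lib.BlockP.RegPair.sum_reg_subgroup_sub_mem p H hind χ hψ hχ
    have h2 := Cfsg.Agent.Lib.Blocks.Local.memLocalIdeal_sub hmem h1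
    rw [sub_sub_cancel] at h2
    have h3 := (Cfsg.Agent.Lib.BlockP.RegPair.regA_mem_iff hM hind.2.1 hχ hχ).mp h2
    -- height zero
    have h4 : (Cfsg.charDegree (χ : G → ℂ)).factorization p =
        Cfsg.Agent.Lib.BlockP.Defect.minExp p B₀ := by
      have h5 := Cfsg.Agent.Lib.BlockP.Defect.minExp_le p hχ
      have h6 : (Cfsg.charDegree (χ : G → ℂ)).factorization p -
          Cfsg.Agent.Lib.BlockP.Defect.minExp p B₀ = 0 := hht
      omega
    have h7 := Nat.not_dvd_ordCompl hp (Cfsg.Agent.Lib.Char.Degree.charDegree_pos χ.2).ne'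
    rw [h4] at h7
    exact h7 h3

end Cfsg.Agent.S4431
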