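import Cfsg.Statements.S4443
import Mathlib
import Cfsg.Agent.Lib.BlockP.RobinsonRank

set_option autoImplicit false
open Cfsg

namespace Cfsg.Agent.S4443

open Cfsg.Agent.Lib.BlockP.RobinsonRank Cfsg.Agent.Lib.Blocks.Central Cfsg.Agent.Lib.Blocks.Local Cfsg.Agent.Lib.Blk89.BlockPow Cfsg.Agent.Lib.BlockT.SylowIn

/-- Let D be a normal p-subgroup of the finite group G, of order p^d, let p^a be the p-part of the order of G, and fix a Sylow p-subgroup S and a maximal ideal M of the algebraic integers containing p. Index by a finite type ι (via an injective map K) exactly the conjugacy classes of p-regular elements x of G for which D is a Sylow p-subgroup of C_G(x). For classes K_i, K_j let ω(i, j) be the number of pairs (y, z) ∈ K_i × K_j with z y⁻¹ ∈ S; this number is divisible by p^(a−d). Then the number of p-blocks of G having D as a defect group equals the rank over ℤ/pℤ of the matrix with (i, j) entry ω(i, j)/p^(a−d) reduced modulo p. -/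
theorem result {G : Type*} [Group G] [Finite G] (p : ℕ) [Fact p.Prime] (M : Ideal Cfsg.AlgInt) (hM : Cfsg.IsPModular p M) (D : Subgroup G) [D.Normal] (hD : IsPGroup p D) (S : Sylow p G) {ι : Type*} [Fintype ι] [DecidableEq ι] (K : ι → ConjClasses G) (hKinj : Function.Injective K) (hK : ∀ C : ConjClasses G, (∃ i, K i = C) ↔ ∃ x ∈ C.carrier, ¬ p ∣ orderOf x ∧ ∃ Q : Sylow p (Subgroup.centralizer ({x} : Set G)), (Q : Subgroup (Subgroup.centralizer ({x} : Set G))).map (Subgroup.centralizer ({x} : Set G)).subtype = D) : Nat.card {B : Set (Cfsg.IrrCharacter G) // Cfsg.IsPBlock M B ∧ Cfsg.IsDefectGroup p M B D} = (Matrix.of fun i j : ι => ((Nat.card {yz : G × G // yz.1 ∈ (K i).carrier ∧ yz.2 ∈ (K j).carrier ∧ yz.2 * yz.1⁻¹ ∈ (S : Subgroup G)} / p ^ ((Nat.card G).factorization p - (Nat.card D).factorization p) : ℕ) : ZMod p)).rank := by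
  classical
  cases nonempty_fintype G
  haveI hMp := Cfsg.Agent.Lib.Blocks.Local.isPrime_of_pModular hM
  haveI := Cfsg.Agent.Lib.Char.Ortho.finite_irrCharacter (G := G)
  letI := Fintype.ofFinite (Cfsg.IrrCharacter G)
  letI : Fintype D := Fintype.ofFinite _
  letI : Fintype (S : Subgroup G) := Fintype.ofFinite _
  have hp : p.Prime := Fact.out
  -- numerics
  obtain ⟨d, hd⟩ := IsPGroup.iff_card.mp hD
  have hdf : (Nat.card D).factorization p = d := by
    rw [hd, Nat.factorization_pow]
    simp [hp.factorization_self]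
  have hdle : d ≤ (Nat.card G).factorization p := by
    rw [← hdf]
    exact (Nat.factorization_le_iff_dvd Nat.card_pos.ne' Nat.card_pos.ne').mpr
      (Subgroup.card_subgroup_dvd_card D) p
  rw [hdf]
  set a := (Nat.card G).factorization p with ha
  obtain ⟨k, hk⟩ : ∃ k, k = a - d := ⟨_, rfl⟩
  rw [← hk]
  have hka : k + d = a := by omega
  have hn : Nums p D (S : Subgroup G) k d (Nat.card G / p ^ a) := by
    refine ⟨hd, ?_, ?_, Nat.not_dvd_ordCompl hp Nat.card_pos.ne'⟩
    · rw [hka]
      exact S.card_eq_multiplicity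
    · rw [hka]
      exact (Nat.ordProj_mul_ordCompl_eq_self _ _).symm
  have hSp : IsPGroup p (S : Subgroup G) := S.2
  have hDS : D ≤ (S : Subgroup G) := by
    have h1 : IsPGroup p (D ⊔ (S : Subgroup G) : Subgroup G) :=
      IsPGroup.to_sup_of_normal_left hD hSp
    have h2 := S.3 h1 le_sup_right
    rw [← h2]
    exact le_sup_left
  -- representatives
  have hex : ∀ i, ∃ x ∈ (K i).carrier, ¬ p ∣ orderOf x ∧
      IsSylowIn p D (Subgroup.centralizer ({x} : Set G)) := fun i => (hK (K i)).mp ⟨i, rfl⟩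
  choose y hyK hyr hys using hex
  have hKy : ∀ i, K i = ConjClasses.mk (y i) := fun i =>
    (ConjClasses.mem_carrier_iff_mk_eq.mp (hyK i)).symm
  have hmem : ∀ g : G, ¬ p ∣ orderOf g → IsSylowIn p D (Subgroup.centralizer ({g} : Set G)) →
      ∃ i, K i = ConjClasses.mk g := fun g h1 h2 =>
    (hK (ConjClasses.mk g)).mpr ⟨g, ConjClasses.mem_carrier_mk, h1, h2⟩
  -- the involution on `ι`
  have hinv : ∀ i, ∃ i', K i' = ConjClasses.mk (y i)⁻¹ := fun i =>
    hmem _ (by rw [orderOf_inv]; exact hyr i) (by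
      rw [Cfsg.Agent.Lib.BlockP.Stable.centralizer_inv]; exact hys i)
  choose σ hσ using hinv
  have hσy : ∀ i, IsConj (y (σ i)) (y i)⁻¹ := fun i => by
    rw [← ConjClasses.mk_eq_mk_iff_isConj, ← hσ i, hKy]
  have hσσ : Function.Involutive σ := by
    intro i
    apply hKinj
    rw [hσ, hKy i, ConjClasses.mk_eq_mk_iff_isConj]
    have h1 := hσy i
    have h2 := (isConj_inv_iff' (a := y (σ i)) (b := (y i)⁻¹)).mpr h1
    rw [inv_inv] at h2
    exact h2
  -- the residue field
  haveI hchar : CharP (Res M) p := ⟨fun n => r_natCast_eq_zero_iff hM n⟩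
  letI : Fintype (BB p M D) := Fintype.ofFinite _
  have hI2 := dual_sum (p := p) (M := M) (D := D) hM hD K hKinj y hKy hmem
  have hcount : ∀ i j, ((Nat.card {yz : G × G // yz.1 ∈ (K i).carrier ∧ yz.2 ∈ (K j).carrier ∧
      yz.2 * yz.1⁻¹ ∈ (S : Subgroup G)} : ℕ) : ℂ) / (p : ℂ) ^ k =
      ∑ χ : Cfsg.IrrCharacter G, tw p k (S : Subgroup G) (y i) (y j) χ := by
    intro i j
    rw [hKy i, hKy j]
    exact card_div_eq k (y i) (y j)
  rw [Nat.card_eq_fintype_card, ← rank_map_field (ZMod.castHom (dvd_refl p) (Res M))]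
  symm
  refine rank_eq_card_of_factorization _
    (fun i B => r M (centralChar ((rep B : Cfsg.IrrCharacter G) : G → ℂ) (y i)⁻¹))
    (fun B j => r M (centralChar ((rep B : Cfsg.IrrCharacter G) : G → ℂ) (y j)))
    (fun B i => r M (Cfsg.blockCoeff B.1 (y (σ i))))
    (fun i B => r M (Cfsg.blockCoeff B.1 (y i)))
    (fun B => DeltaB p k M D B.1) ?_ ?_ ?_ ?_
  · intro i j
    rw [Matrix.map_apply, Matrix.of_apply, map_natCast]
    rw [← r_sum_tw (S := (S : Subgroup G)) hM hD hDS hSp hn (hys i) (hys j)]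
    have hloc := fun χ => local_tw (M := M) hM hD hDS hSp hn (hys i) (hys j) χ
    have hNl := hcount i j
    set N := Nat.card {yz : G × G // yz.1 ∈ (K i).carrier ∧ yz.2 ∈ (K j).carrier ∧
      yz.2 * yz.1⁻¹ ∈ (S : Subgroup G)} with hN
    have hNl' : Cfsg.MemLocalRing M ((N : ℂ) / (p : ℂ) ^ k) := by
      rw [hNl]
      exact memLocalRing_sum _ _ fun χ _ => (hloc χ).1
    have hdvd := pow_dvd_of_memLocalRing hM N k hNl'
    rw [← hNl, ← r_natCast, Nat.cast_div hdvd (by
      exact_mod_cast pow_ne_zero k hp.ne_zero)]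
    push_cast
    rfl
  · intro B B'
    rw [← hI2 B B']
    conv_rhs => rw [← Equiv.sum_comp hσσ.toPerm]
    refine Finset.sum_congr rfl fun i _ => ?_
    show r M (Cfsg.blockCoeff B.1 (y (σ i))) * _ = r M (Cfsg.blockCoeff B.1 (y (σ i))) * _
    congr 2
    exact Cfsg.Agent.Lib.BlockP.Stable.centralChar_of_isConj
      (Cfsg.Agent.Lib.Char.Basic.isClassFunction_of_isIrrCharacter (rep B').2) (hσy i).symm
  · intro B B'
    have h1 := hI2 B' B
    by_cases hBB : B = B'
    · rw [if_pos hBB]
      rw [if_pos hBB.symm] at h1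
      rw [← h1]
      exact Finset.sum_congr rfl fun i _ => mul_comm _ _
    · rw [if_neg hBB]
      rw [if_neg (Ne.symm hBB)] at h1
      rw [← h1]
      exact Finset.sum_congr rfl fun i _ => mul_comm _ _
  · intro B h0
    have h1 := hI2 B B
    rw [if_pos rfl, Finset.sum_eq_zero] at h1
    · exact zero_ne_one h1
    · intro i _
      rw [r_blockCoeff (S := (S : Subgroup G)) hM hD hDS hSp hn (hyr i) (hys i), h0]
      ring

end Cfsg.Agent.S4443
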