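import Cfsg.Statements.S4444
import Cfsg.Agent.Lib.Glauberman.Conj

set_option autoImplicit false
open Cfsg

namespace Cfsg.Agent.S4444

/-- The Glauberman correspondence for a p-group of operators. Inside a finite group Γ let S normalise G with the orders of G and S coprime, S a p-group, and let C = G ⊓ C(S) be the fixed points. Call an irreducible character χ of G S-invariant when χ(s g s⁻¹) = χ(g) for s ∈ S, g ∈ G. Then: (i) for every S-invariant χ there is exactly one irreducible character β of C whose multiplicity [χ_C, β] in the restriction of χ is not divisible by p; (ii) that multiplicity is ≡ 1 or ≡ −1 (mod p); (iii) distinct S-invariant χ give distinct β; (iv) every irreducible character of C arises in this way. So χ ↦ β is a bijection from the S-invariant irreducible characters of G onto the irreducible characters of C. -/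
theorem result {Γ : Type*} [Group Γ] [Fintype Γ] (G S : Subgroup Γ) [Fintype G] (hnorm : ∀ s ∈ S, ∀ g ∈ G, s * g * s⁻¹ ∈ G) (hcop : (Nat.card G).Coprime (Nat.card S)) (p : ℕ) (hp : p.Prime) (hS : IsPGroup p S) (C : Subgroup Γ) [Fintype C] (hC : C = G ⊓ Subgroup.centralizer (S : Set Γ)) (hCG : C ≤ G) : (∀ χ : Cfsg.IrrCharacter G, (∀ s ∈ S, ∀ g g' : G, (g' : Γ) = s * g * s⁻¹ → (χ : G → ℂ) g' = (χ : G → ℂ) g) → ∃! β : Cfsg.IrrCharacter C, ∃ m : ℕ, Cfsg.classInner (fun c : C => (χ : G → ℂ) ⟨c, hCG c.2⟩) (β : C → ℂ) = (m : ℂ) ∧ ¬ p ∣ m) ∧ (∀ χ : Cfsg.IrrCharacter G, (∀ s ∈ S, ∀ g g' : G, (g' : Γ) = s * g * s⁻¹ → (χ : G → ℂ) g' = (χ : G → ℂ) g) → ∀ β : Cfsg.IrrCharacter C, ∀ m : ℕ, Cfsg.classInner (fun c : C => (χ : G → ℂ) ⟨c, hCG c.2⟩) (β : C → ℂ) = (m : ℂ) → ¬ p ∣ m → ((m : ℤ) ≡ 1 [ZMOD p] ∨ (m : ℤ) ≡ -1 [ZMOD p])) ∧ (∀ χ χ' : Cfsg.IrrCharacter G, (∀ s ∈ S, ∀ g g' : G, (g' : Γ) = s * g * s⁻¹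 → (χ : G → ℂ) g' = (χ : G → ℂ) g) → (∀ s ∈ S, ∀ g g' : G, (g' : Γ) = s * g * s⁻¹ → (χ' : G → ℂ) g' = (χ' : G → ℂ) g) → ∀ β : Cfsg.IrrCharacter C, ∀ m m' : ℕ, Cfsg.classInner (fun c : C => (χ : G → ℂ) ⟨c, hCG c.2⟩) (β : C → ℂ) = (m : ℂ) → ¬ p ∣ m → Cfsg.classInner (fun c : C => (χ' : G → ℂ) ⟨c, hCG c.2⟩) (β : C → ℂ) = (m' : ℂ) → ¬ p ∣ m' → χ = χ') ∧ (∀ β : Cfsg.IrrCharacter C, ∃ χ : Cfsg.IrrCharacter G, (∀ s ∈ S, ∀ g g' : G, (g' : Γ) = s * g * s⁻¹ → (χ : G → ℂ) g' = (χ : G → ℂ) g) ∧ ∃ m : ℕ, Cfsg.classInner (fun c : C => (χ : G → ℂ) ⟨c, hCG c.2⟩) (β : C → ℂ) = (m : ℂ) ∧ ¬ p ∣ m) := by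
  classical
  haveI : Fact p.Prime := ⟨hp⟩
  let φ := Cfsg.Agent.Lib.Glauberman.ConjAct.conjHom G S hnorm
  let ι : C →* G := Subgroup.inclusion hCG
  have hι : Function.Injective ι := Subgroup.inclusion_injective hCG
  have hrange := fun g => Cfsg.Agent.Lib.Glauberman.ConjAct.mem_range_iff (G := G) (S := S) hnorm hC hCG g
  have hMain : Cfsg.Agent.Lib.Glauberman.PGroup.MainP p φ ι := by
    by_cases htriv : ∀ s, φ s = 1
    · exact Cfsg.Agent.Lib.Glauberman.PGroup.mainP_of_trivial p φ ι hι hrange htriv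
    · have hpdvd : p ∣ Nat.card S := by
        rcases hS.card_eq_or_dvd with h | h
        · exfalso
          apply htriv
          intro s
          have : s = 1 := by
            haveI : Subsingleton S := (Nat.card_eq_one_iff_unique.mp h).1
            exact Subsingleton.elim _ _
          rw [this, map_one]
        · exact h
      have hcop' : Nat.Coprime p (Nat.card G) :=
        (hcop.symm.coprime_dvd_left hpdvd)
      exact Cfsg.Agent.Lib.Glauberman.PGroup.mainP hp hS _ G C φ ι rfl hι hcop' hrange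
  obtain ⟨π, hπ⟩ := hMain
  have hinv := fun χ : Cfsg.IrrCharacter G => Cfsg.Agent.Lib.Glauberman.ConjAct.inv_iff G S hnorm (χ : G → ℂ)
  -- integrality
  have hnat : ∀ (χ : Cfsg.IrrCharacter G) (γ : Cfsg.IrrCharacter C), ∃ m : ℕ,
      Cfsg.classInner (fun c : C => (χ : G → ℂ) ⟨c, hCG c.2⟩) (γ : C → ℂ) = (m : ℂ) := fun χ γ =>
    Cfsg.Agent.Lib.Char.Ortho.exists_nat_classInner
      (Cfsg.Agent.Lib.Char.Basic.isCharacter_comp ι (Cfsg.Agent.Lib.Char.Basic.isCharacter_of_isIrrCharacter χ.2))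
      (Cfsg.Agent.Lib.Char.Basic.isCharacter_of_isIrrCharacter γ.2)
  have hp1 : ¬ (p : ℤ) ∣ 1 := by
    intro h
    have h2 : p ∣ 1 := by exact_mod_cast h
    exact hp.one_lt.ne' (Nat.dvd_one.mp h2)
  -- the characterisation
  have hchar : ∀ (χ : {χ : Cfsg.IrrCharacter G // ∀ s, (χ : G → ℂ) ∘ φ s = χ}) (γ : Cfsg.IrrCharacter C) (m : ℕ),
      Cfsg.classInner (fun c : C => (χ.1 : G → ℂ) ⟨c, hCG c.2⟩) (γ : C → ℂ) = (m : ℂ) →
      ((¬ p ∣ m ↔ γ = π χ) ∧ (¬ p ∣ m → ((m : ℤ) ≡ 1 [ZMOD p] ∨ (m : ℤ) ≡ -1 [ZMOD p]))) := by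
    intro χ γ m hm
    obtain ⟨ε, hε, k, hk⟩ := hπ χ
    have h1 : (m : ℤ) = p * k γ + if γ = π χ then ε else 0 := by
      have h2 : ((m : ℤ) : ℂ) = ((p * k γ + if γ = π χ then ε else 0 : ℤ) : ℂ) := by
        rw [← hk γ]
        push_cast
        exact hm.symm
      exact_mod_cast h2
    have hεnd : ¬ (p : ℤ) ∣ ε := by
      rcases hε with h | h <;> rw [h]
      · exact hp1
      · exact fun h3 => hp1 (dvd_neg.mp h3)
    have hmodε : γ = π χ → (m : ℤ) ≡ ε [ZMOD p] := by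
      intro hγ
      rw [if_pos hγ] at h1
      rw [h1, Int.modEq_iff_dvd]
      exact ⟨- k γ, by ring⟩
    refine ⟨⟨fun h => ?_, fun h h2 => ?_⟩, fun h => ?_⟩
    · by_contra hne
      rw [if_neg hne, add_zero] at h1
      have : (p : ℤ) ∣ m := ⟨k γ, h1⟩
      exact h (by exact_mod_cast this)
    · have h3 : (p : ℤ) ∣ m := by exact_mod_cast h2
      have h4 := hmodε h
      exact hεnd ((Int.ModEq.dvd_iff h4).mp h3)
    · have hγ : γ = π χ := by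
        by_contra hne
        rw [if_neg hne, add_zero] at h1
        have : (p : ℤ) ∣ m := ⟨k γ, h1⟩
        exact h (by exact_mod_cast this)
      rcases hε with h5 | h5
      · left; rw [← h5]; exact hmodε hγ
      · right; rw [← h5]; exact hmodε hγ
  refine ⟨fun χ hχ => ?_, fun χ hχ β m hm hnd => ?_, fun χ χ' hχ hχ' β m m' hm hnd hm' hnd' => ?_, fun β => ?_⟩
  · have hχ' := (hinv χ).mp hχ
    refine ⟨π ⟨χ, hχ'⟩, ?_, ?_⟩
    · obtain ⟨m, hm⟩ := hnat χ (π ⟨χ, hχ'⟩)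
      exact ⟨m, hm, (hchar ⟨χ, hχ'⟩ _ m hm).1.mpr rfl⟩
    · rintro β ⟨m, hm, hnd⟩
      exact (hchar ⟨χ, hχ'⟩ β m hm).1.mp hnd
  · exact (hchar ⟨χ, (hinv χ).mp hχ⟩ β m hm).2 hnd
  · have h1 := (hchar ⟨χ, (hinv χ).mp hχ⟩ β m hm).1.mp hnd
    have h2 := (hchar ⟨χ', (hinv χ').mp hχ'⟩ β m' hm').1.mp hnd'
    have h3 := π.injective (h1.symm.trans h2)
    exact congrArg Subtype.val h3
  · let χ := π.symm β
    refine ⟨χ.1, (hinv χ.1).mpr χ.2, ?_⟩
    obtain ⟨m, hm⟩ := hnat χ.1 β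
    exact ⟨m, hm, (hchar χ β m hm).1.mpr (by simp [χ])⟩

end Cfsg.Agent.S4444
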