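import Cfsg.Statements.S4445
import Cfsg.Agent.Lib.Glauberman.Count

set_option autoImplicit false
open Cfsg

namespace Cfsg.Agent.S4445

/-- Inside a finite group Γ let the solvable subgroup S normalise G with the orders of G and S coprime. Then the number of S-invariant irreducible characters of G (χ(s g s⁻¹) = χ(g) for all s ∈ S, g ∈ G) equals the number of conjugacy classes of G mapped to themselves by conjugation by every element of S. -/
theorem result {Γ : Type*} [Group Γ] [Fintype Γ] (G S : Subgroup Γ) [Fintype G] (hnorm : ∀ s ∈ S, ∀ g ∈ G, s * g * s⁻¹ ∈ G) (hcop : (Nat.card G).Coprime (Nat.card S)) (hsolv : Group.IsSolvable S) : Nat.card {χ : Cfsg.IrrCharacter G // (∀ s ∈ S, ∀ g g' : G, (g' : Γ) = s * g * s⁻¹ → (χ : G → ℂ) g' = (χ : G → ℂ) g)} = Nat.card {K : ConjClasses G // ∀ s ∈ S, ∀ g g' : G, (g' : Γ) = s * g * s⁻¹ → ConjClasses.mk g = K → ConjClasses.mk g' = K} := by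
  classical
  let φ := Cfsg.Agent.Lib.Glauberman.ConjAct.conjHom G S hnorm
  have h0 := Cfsg.Agent.Lib.Glauberman.Count.count_main (S := S) _ G φ rfl hcop
  have h1 : Nat.card {χ : Cfsg.IrrCharacter G // (∀ s ∈ S, ∀ g g' : G, (g' : Γ) = s * g * s⁻¹ → (χ : G → ℂ) g' = (χ : G → ℂ) g)} =
      Nat.card {χ : Cfsg.IrrCharacter G // ∀ s, (χ : G → ℂ) ∘ φ s = χ} :=
    Nat.card_congr (Equiv.subtypeEquivRight fun χ =>
      Cfsg.Agent.Lib.Glauberman.ConjAct.inv_iff G S hnorm (χ : G → ℂ))
  have h2 : Nat.card {K : ConjClasses G // ∀ s ∈ S, ∀ g g' : G, (g' : Γ) = s * g * s⁻¹ → ConjClasses.mk g = K → ConjClasses.mk g' = K} =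
      Nat.card {K : ConjClasses G // ∀ s, ConjClasses.map (φ s).toMonoidHom K = K} := by
    refine Nat.card_congr (Equiv.subtypeEquivRight fun K => ?_)
    constructor
    · intro h s
      obtain ⟨g, rfl⟩ := ConjClasses.mk_surjective K
      exact h s s.2 g (φ s g) rfl rfl
    · intro h s hs g g' hg hgK
      rw [← hgK] at h
      have h3 := h ⟨s, hs⟩
      have h4 : g' = φ ⟨s, hs⟩ g := Subtype.ext hg
      rw [h4, ← hgK]
      exact h3
  rw [h1, h0, h2]

end Cfsg.Agent.S4445
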