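import Cfsg.Statements.S4446
import Cfsg.Agent.Lib.Glauberman.CyclicMain

set_option autoImplicit false
open Cfsg

namespace Cfsg.Agent.S4446

/-- Let the finite group Γ be generated by a normal subgroup G and a cyclic subgroup S of coprime orders, C = G ⊓ C(S), and let χ be an S-invariant irreducible character of G with canonical extension χ̂ to Γ (the extension whose determinantal order is coprime to the order of S). Then there are exactly one irreducible character β of C and one sign ε such that χ̂(c s) = ε β(c) for every c ∈ C and every generator s of S; this β is a constituent of the restriction of χ to C; distinct S-invariant χ give distinct β; and every irreducible character of C arises in this way. -/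
theorem result {Γ : Type*} [Group Γ] [Fintype Γ] (G S : Subgroup Γ) [Fintype G] (hnorm : ∀ s ∈ S, ∀ g ∈ G, s * g * s⁻¹ ∈ G) (hcop : (Nat.card G).Coprime (Nat.card S)) (htop : G ⊔ S = ⊤) (hcyc : IsCyclic S) (C : Subgroup Γ) [Fintype C] (hC : C = G ⊓ Subgroup.centralizer (S : Set Γ)) (hCG : C ≤ G) : (∀ (χ : Cfsg.IrrCharacter G) (χh : Cfsg.IrrCharacter Γ), (∀ s ∈ S, ∀ g g' : G, (g' : Γ) = s * g * s⁻¹ → (χ : G → ℂ) g' = (χ : G → ℂ) g) → (∀ g : G, (χh : Γ → ℂ) g = (χ : G → ℂ) g) → (Cfsg.detOrder (χh : Γ → ℂ)).Coprime (Nat.card S) → (∃! βε : Cfsg.IrrCharacter C × ℤ, (βε.2 = 1 ∨ βε.2 = -1) ∧ ∀ c : C, ∀ s : Γ, Subgroup.zpowers s = S → (χh : Γ → ℂ) ((c : Γ) * s) = (βε.2 : ℂ) * (βε.1 : C → ℂ) c) ∧ ∀ β : Cfsg.IrrCharacter C, ∀ ε : ℤ, (ε = 1 ∨ ε = -1) → (∀ c : C, ∀ s : Γ, Subgroup.zpowers s = S → (χh : Γ → ℂ) ((c : Γ) * s) = (ε : ℂ) * (β : C → ℂ) c) → Cfsg.classInner (fun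 c : C => (χ : G → ℂ) ⟨c, hCG c.2⟩) (β : C → ℂ) ≠ 0) ∧ (∀ (χ χ' : Cfsg.IrrCharacter G) (χh χh' : Cfsg.IrrCharacter Γ), (∀ s ∈ S, ∀ g g' : G, (g' : Γ) = s * g * s⁻¹ → (χ : G → ℂ) g' = (χ : G → ℂ) g) → (∀ s ∈ S, ∀ g g' : G, (g' : Γ) = s * g * s⁻¹ → (χ' : G → ℂ) g' = (χ' : G → ℂ) g) → (∀ g : G, (χh : Γ → ℂ) g = (χ : G → ℂ) g) → (∀ g : G, (χh' : Γ → ℂ) g = (χ' : G → ℂ) g) → (Cfsg.detOrder (χh : Γ → ℂ)).Coprime (Nat.card S) → (Cfsg.detOrder (χh' : Γ → ℂ)).Coprime (Nat.card S) → ∀ β : Cfsg.IrrCharacter C, ∀ ε ε' : ℤ, (ε = 1 ∨ ε = -1) → (ε' = 1 ∨ ε' = -1) → (∀ c : C, ∀ s : Γ, Subgroup.zpowers s = S → (χh : Γ → ℂ) ((c : Γ) * s) = (ε : ℂ) * (β : C → ℂ) c) → (∀ c : C, ∀ s : Γ, Subgroup.zpowers s = S → (χh' : Γ → ℂ) ((c : Γ) * s) = (ε' : ℂ) * (β : C → ℂ) c) → χ = χ') ∧ (∀ β : Cfsg.IrrCharacter C, ∃ (χ : Cfsg.IrrCharacter G) (χh : Cfsg.IrrCharacter Γ) (ε : ℤ), (∀ s ∈ S,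 ∀ g g' : G, (g' : Γ) = s * g * s⁻¹ → (χ : G → ℂ) g' = (χ : G → ℂ) g) ∧ (∀ g : G, (χh : Γ → ℂ) g = (χ : G → ℂ) g) ∧ (Cfsg.detOrder (χh : Γ → ℂ)).Coprime (Nat.card S) ∧ (ε = 1 ∨ ε = -1) ∧ ∀ c : C, ∀ s : Γ, Subgroup.zpowers s = S → (χh : Γ → ℂ) ((c : Γ) * s) = (ε : ℂ) * (β : C → ℂ) c) := by
  classical
  obtain ⟨t, ht⟩ := Cfsg.Agent.Lib.Glauberman.CyclicMain.exists_generator hcyc
  have hform : ∀ s : Γ, Subgroup.zpowers s = S → ∃ k : ℕ, k.Coprime (Nat.card S) ∧ t ^ k = s :=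
    fun s hs => Cfsg.Agent.Lib.Glauberman.CyclicMain.exists_coprime_pow ht hs
  have hval' : ∀ (χh : Cfsg.IrrCharacter Γ) (β : Cfsg.IrrCharacter C) (ε : ℤ),
      (∀ (c : C) (k : ℕ), k.Coprime (Nat.card S) → (χh : Γ → ℂ) (c * t ^ k) = (ε : ℂ) * (β : C → ℂ) c) →
      ∀ (c : C) (s : Γ), Subgroup.zpowers s = S → (χh : Γ → ℂ) ((c : Γ) * s) = (ε : ℂ) * (β : C → ℂ) c := by
    intro χh β ε h c s hs
    obtain ⟨k, hk, rfl⟩ := hform s hs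
    exact h c k hk
  have hinj : ∀ (χ χ' : Cfsg.IrrCharacter G) (χh χh' : Cfsg.IrrCharacter Γ),
      (∀ g : G, (χh : Γ → ℂ) g = (χ : G → ℂ) g) → (∀ g : G, (χh' : Γ → ℂ) g = (χ' : G → ℂ) g) →
      ∀ (β : Cfsg.IrrCharacter C) (ε ε' : ℤ), (ε = 1 ∨ ε = -1) → (ε' = 1 ∨ ε' = -1) →
      (∀ (c : C) (s : Γ), Subgroup.zpowers s = S → (χh : Γ → ℂ) ((c : Γ) * s) = (ε : ℂ) * (β : C → ℂ) c) →
      (∀ (c : C) (s : Γ), Subgroup.zpowers s = S → (χh' : Γ → ℂ) ((c : Γ) * s) = (ε' : ℂ) * (β : C → ℂ) c) →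
      χ = χ' := by
    intro χ χ' χh χh' hext hext' β ε ε' hε hε' h h'
    by_contra hne
    have h0 := Cfsg.Agent.Lib.Glauberman.CyclicMain.orth_values (C := C) hnorm hcop hC hCG ht hne χh χh' hext hext'
    have e1 : (fun c : C => (χh : Γ → ℂ) (c * t)) = fun c => (ε : ℂ) * (β : C → ℂ) c :=
      funext fun c => h c t ht
    have e2 : (fun c : C => (χh' : Γ → ℂ) (c * t)) = fun c => (ε' : ℂ) * (β : C → ℂ) c :=
      funext fun c => h' c t ht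
    rw [e1, e2, Cfsg.Agent.Lib.Glauberman.Prime.classInner_scale] at h0
    rcases mul_eq_zero.mp h0 with h1 | h1
    · rcases hε with h2 | h2 <;> rw [h2] at h1 <;> simp at h1
    · rw [map_eq_zero] at h1
      rcases hε' with h2 | h2 <;> rw [h2] at h1 <;> simp at h1
  refine ⟨fun χ χh hinv hext hdet => ?_, fun χ χ' χh χh' _ _ hext hext' _ _ β ε ε' hε hε' h h' =>
    hinj χ χ' χh χh' hext hext' β ε ε' hε hε' h h', fun β => ?_⟩
  · obtain ⟨β, ε, hε, hval, hmult⟩ := Cfsg.Agent.Lib.Glauberman.CyclicMain.canon_value' (C := C) hnorm hcop htop hC hCG ht χ hinv χh hext hdet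
    have h1 := hval' χh β ε hval
    refine ⟨⟨(β, ε), ⟨hε, h1⟩, ?_⟩, ?_⟩
    · rintro ⟨β', ε'⟩ ⟨hε', h'⟩
      obtain ⟨e1, e2⟩ := Cfsg.Agent.Lib.Glauberman.CyclicMain.pair_unique (C := C) hε' hε
        (fun c => by rw [← h' c t ht, h1 c t ht])
      exact Prod.ext e1 e2
    · intro β' ε' hε' h'
      obtain ⟨e1, -⟩ := Cfsg.Agent.Lib.Glauberman.CyclicMain.pair_unique (C := C) hε' hε
        (fun c => by rw [← h' c t ht, h1 c t ht])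
      rw [e1]
      exact hmult
  · have hcan : ∀ χ : {χ : Cfsg.IrrCharacter G // ∀ s ∈ S, ∀ g g' : G, (g' : Γ) = s * g * s⁻¹ → (χ : G → ℂ) g' = (χ : G → ℂ) g},
        ∃ (χh : Cfsg.IrrCharacter Γ) (β : Cfsg.IrrCharacter C) (ε : ℤ), (∀ g : G, (χh : Γ → ℂ) g = (χ.1 : G → ℂ) g) ∧
          (Cfsg.detOrder (χh : Γ → ℂ)).Coprime (Nat.card S) ∧ (ε = 1 ∨ ε = -1) ∧
          ∀ (c : C) (s : Γ), Subgroup.zpowers s = S → (χh : Γ → ℂ) ((c : Γ) * s) = (ε : ℂ) * (β : C → ℂ) c := by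
      intro χ
      obtain ⟨χh, hext, hdet⟩ := Cfsg.Agent.Lib.Glauberman.CyclicMain.exists_canon hnorm hcop htop χ.1 χ.2
      obtain ⟨β, ε, hε, hval, -⟩ := Cfsg.Agent.Lib.Glauberman.CyclicMain.canon_value' (C := C) hnorm hcop htop hC hCG ht χ.1 χ.2 χh hext hdet
      exact ⟨χh, β, ε, hext, hdet, hε, hval' χh β ε hval⟩
    choose χh P ε hext hdet hε hval using hcan
    have hPinj : Function.Injective P := by
      intro χ χ' h
      apply Subtype.ext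
      refine hinj χ.1 χ'.1 (χh χ) (χh χ') (hext χ) (hext χ') (P χ) (ε χ) (ε χ') (hε χ) (hε χ') (hval χ) ?_
      rw [h]
      exact hval χ'
    have hcount := Cfsg.Agent.Lib.Glauberman.CyclicMain.card_inv (C := C) hnorm hcop hC hCG ht
    haveI := Cfsg.Agent.Lib.Char.Ortho.finite_irrCharacter (G := C)
    haveI : Finite {χ : Cfsg.IrrCharacter G // ∀ s ∈ S, ∀ g g' : G, (g' : Γ) = s * g * s⁻¹ → (χ : G → ℂ) g' = (χ : G → ℂ) g} := by
      haveI := Cfsg.Agent.Lib.Char.Ortho.finite_irrCharacter (G := G)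
      infer_instance
    have hbij : Function.Bijective P := (Nat.bijective_iff_injective_and_card P).mpr ⟨hPinj, hcount⟩
    obtain ⟨χ, rfl⟩ := hbij.2 β
    exact ⟨χ.1, χh χ, ε χ, χ.2, hext χ, hdet χ, hε χ, hval χ⟩

end Cfsg.Agent.S4446
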