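import Cfsg.Statements.S4450
import Cfsg.Agent.Lib.CharTriple.Main

set_option autoImplicit false
open Cfsg

namespace Cfsg.Agent.S4450

/-- Let N ≤ G be normal subgroups of the finite group Γ with the index of G in Γ coprime to the index of N in G, and Γ/G or G/N solvable. Then for every irreducible character ϑ of N invariant under conjugation by Γ, the induced character ϑ^G has an irreducible constituent invariant under conjugation by Γ. -/
theorem result {Γ : Type*} [Group Γ] [Fintype Γ] (G N : Subgroup Γ) [hG : G.Normal] [hN : N.Normal] [Fintype G] [Fintype N] (hNG : N ≤ G) (hcop : (G.index).Coprime (N.relIndex G)) (hsolv : Group.IsSolvable (Γ ⧸ G) ∨ Group.IsSolvable (G ⧸ N.subgroupOf G)) (θ : Cfsg.IrrCharacter N) (hinv : ∀ (x : Γ) (n : N), (θ : N → ℂ) ⟨x * n * x⁻¹, hN.conj_mem n n.2 x⟩ = (θ : N → ℂ) n) : ∃ χ : Cfsg.IrrCharacter G, Cfsg.classInner (fun n : N => (χ : G → ℂ) ⟨n, hNG n.2⟩) (θ : N → ℂ) ≠ 0 ∧ ∀ (x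 : Γ) (g : G), (χ : G → ℂ) ⟨x * g * x⁻¹, hG.conj_mem g g.2 x⟩ = (χ : G → ℂ) g := by
  classical
  obtain ⟨χ, hχ, ⟨t, ht, hval⟩, hχinv⟩ := Cfsg.Agent.Lib.CharTriple.Main.exists_invariant_above G N hNG hcop hsolv θ.2 hinv
  refine ⟨⟨χ, hχ⟩, ?_, hχinv⟩
  have h1 : (fun n : N => χ ⟨n, hNG n.2⟩) = t • (θ : N → ℂ) := by
    funext n
    exact hval n
  show classInner (fun n : N => χ ⟨n, hNG n.2⟩) (θ : N → ℂ) ≠ 0
  rw [h1, Cfsg.Agent.Lib.Char.Ortho.classInner_smul_left, Cfsg.Agent.Lib.Char.Ortho.classInner_self_of_isIrr θ.2, mul_one]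
  exact ht

end Cfsg.Agent.S4450
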