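import Cfsg.Statements.S4455
import Cfsg.Agent.Lib.CharDeep.ThompsonDeg
import Cfsg.Agent.Lib.Char.DegDvd
import Cfsg.Agent.Lib.Char.Degree
import Cfsg.Agent.Lib.Char.Clifford
import Cfsg.Agent.Lib.Core.Residual
import Cfsg.Agent.S0867

set_option autoImplicit false
open Cfsg

namespace Cfsg.Agent.S4455


open Cfsg.Agent.Lib.Char.Basic Cfsg.Agent.Lib.Char.Degree Cfsg.Agent.Lib.CharDeep.ThompsonDeg
open Cfsg.Agent.Lib.Char.DegDvd Cfsg.Agent.Lib.Char.Clifford Cfsg.Agent.Lib.Char.Ortho

section Aux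

variable {G : Type*} [Group G] [Finite G] (p : ℕ) [hp : Fact p.Prime] (L : Subgroup G) [hL : L.Normal]

/-- Invariance of a function on a normal subgroup. -/
def Inv (θ : L → ℂ) : Prop :=
  ∀ (g : G) (n : L), θ ⟨g * n * g⁻¹, hL.conj_mem (n : G) n.2 g⟩ = θ n

/-- `|L|` is congruent to the sum of the squared degrees of invariant characters. -/
theorem card_modEq_sum_invariant [Fintype (IrrCharacter L)]
    [Fintype {θ : IrrCharacter L // Inv L (θ : L → ℂ)}]
    (hQ : IsPGroup p (G ⧸ L)) :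
    (Nat.card L ≡ ∑ θ : {θ : IrrCharacter L // Inv L (θ : L → ℂ)},
        charDegree ((θ : IrrCharacter L) : L → ℂ) ^ 2 [MOD p]) := by
  classical
  have hpp : p.Prime := hp.out
  let _ : Fintype G := Fintype.ofFinite G
  let _ : Fintype L := Fintype.ofFinite L
  letI aG : MulAction G (IrrCharacter L) := irrAction L
  have hsmulG : ∀ (g : G) (θ : IrrCharacter L), g • θ = conjIrr L g θ := fun g θ => rfl
  let φ : G →* Equiv.Perm (IrrCharacter L) := MulAction.toPermHom G (IrrCharacter L)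
  have hker : L ≤ φ.ker := by
    intro n hn
    rw [MonoidHom.mem_ker]
    apply Equiv.ext
    intro θ
    change conjIrr L n θ = θ
    apply Subtype.ext
    funext x
    change (θ : L → ℂ) (MulAut.conjNormal n⁻¹ x) = _
    have h1 : MulAut.conjNormal n⁻¹ x = (⟨n, hn⟩ : L)⁻¹ * x * (⟨n, hn⟩ : L) := by
      apply Subtype.ext
      simp
    rw [h1]
    have := isClassFunction_of_isIrrCharacter θ.2 x (⟨n, hn⟩ : L)⁻¹
    simpa using this
  let ψ : G ⧸ L →* Equiv.Perm (IrrCharacter L) := QuotientGroup.lift L φ hker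
  letI aQ : MulAction (G ⧸ L) (IrrCharacter L) := MulAction.compHom _ ψ
  have hsmulQ : ∀ (g : G) (θ : IrrCharacter L), ((g : G ⧸ L)) • θ = conjIrr L g θ := fun g θ => rfl
  let w : IrrCharacter L → ℕ := fun θ => charDegree (θ : L → ℂ) ^ 2
  have hdegconj : ∀ (g : G) (θ : IrrCharacter L),
      charDegree (conjIrr L g θ : L → ℂ) = charDegree (θ : L → ℂ) := by
    intro g θ
    apply charDegree_eq_of_eq_natCast
    rw [conjIrr_apply, map_one, ← charDegree_natCast (isCharacter_of_isIrrCharacter θ.2)]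
  have hw : ∀ (q : G ⧸ L) (θ : IrrCharacter L), w (q • θ) = w θ := by
    intro q θ
    obtain ⟨g, rfl⟩ := QuotientGroup.mk_surjective q
    simp only [w]
    rw [hsmulQ, hdegconj]
  let _ : Fintype (MulAction.fixedPoints (G ⧸ L) (IrrCharacter L)) := Fintype.ofFinite _
  have hcong := sum_modEq_sum_fixed (p := p) hQ w hw
  have hsum : ∑ θ, w θ = Nat.card L := sum_charDegree_sq
  rw [hsum] at hcong
  refine hcong.trans ?_
  -- fixed points are the invariant characters
  have hfix : ∀ θ : IrrCharacter L, θ ∈ MulAction.fixedPoints (G ⧸ L) (IrrCharacter L) ↔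
      Inv L (θ : L → ℂ) := by
    intro θ
    constructor
    · intro hθ g n
      have h1 := hθ ((g⁻¹ : G) : G ⧸ L)
      rw [hsmulQ] at h1
      have h2 := congrFun (congrArg Subtype.val h1) n
      rw [conjIrr_apply] at h2
      have h3 : (MulAut.conjNormal (g⁻¹)⁻¹ n : L) = ⟨g * n * g⁻¹, hL.conj_mem (n : G) n.2 g⟩ := by
        apply Subtype.ext
        simp
      rw [h3] at h2
      exact h2
    · intro hθ q
      obtain ⟨g, rfl⟩ := QuotientGroup.mk_surjective q
      rw [hsmulQ]
      apply Subtype.ext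
      funext n
      rw [conjIrr_apply]
      have h3 : (MulAut.conjNormal g⁻¹ n : L) =
          ⟨g⁻¹ * n * g⁻¹⁻¹, hL.conj_mem (n : G) n.2 g⁻¹⟩ := by
        apply Subtype.ext
        simp
      rw [h3]
      exact hθ g⁻¹ n
  let e : MulAction.fixedPoints (G ⧸ L) (IrrCharacter L) ≃ {θ : IrrCharacter L // Inv L (θ : L → ℂ)} :=
    Equiv.subtypeEquivRight hfix
  have : ∑ a : MulAction.fixedPoints (G ⧸ L) (IrrCharacter L), w a =
      ∑ θ : {θ : IrrCharacter L // Inv L (θ : L → ℂ)}, charDegree ((θ : IrrCharacter L) : L → ℂ) ^ 2 :=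
    Fintype.sum_equiv e _ _ (fun a => rfl)
  rw [this]

end Aux

/-- Fix a prime p and a finite group G. Let s be the sum of χ(1)² over the irreducible characters χ of G whose degree is not divisible by p and whose determinantal order o(χ) is not divisible by p. Then the order of O^p(G), the subgroup generated by the elements of order prime to p, is congruent to s modulo p. -/
theorem result {G : Type*} [Group G] [Finite G] (p : ℕ) (hp : p.Prime) : (Nat.card (Cfsg.pResidual p G) : ℤ) ≡ (∑ᶠ χ ∈ {χ : Cfsg.IrrCharacter G | ¬ p ∣ Cfsg.charDegree (χ : G → ℂ) ∧ ¬ p ∣ Cfsg.detOrder (χ : G → ℂ)}, (Cfsg.charDegree (χ : G → ℂ) : ℤ) ^ 2) [ZMOD p] := by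
  classical
  haveI : Fact p.Prime := ⟨hp⟩
  let _ : Fintype G := Fintype.ofFinite G
  set L : Subgroup G := Cfsg.pResidual p G with hLdef
  haveI hL : L.Normal := Cfsg.Agent.Lib.Core.Residual.pResidual_normal
  have hQ : IsPGroup p (G ⧸ L) := Cfsg.Agent.Lib.Core.Residual.pResidual_quotient_isPGroup
  let _ : Fintype L := Fintype.ofFinite L
  have hfinL := Cfsg.Agent.Lib.Char.Ortho.finite_irrCharacter (G := L)
  have hfinG := Cfsg.Agent.Lib.Char.Ortho.finite_irrCharacter (G := G)
  let _ : Fintype (IrrCharacter L) := Fintype.ofFinite _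
  let _ : Fintype (IrrCharacter G) := Fintype.ofFinite _
  obtain ⟨k, hk⟩ : ∃ k, L.index = p ^ k := Cfsg.Agent.Lib.Core.Residual.exists_index_pResidual
  have hmin : ∀ K : Subgroup G, K.Normal → (∃ k, K.index = p ^ k) → K ≤ L → K = L := by
    intro K hK hKi hKL
    refine le_antisymm hKL ?_
    obtain ⟨m, hm⟩ := hKi
    have : IsPGroup p (G ⧸ K) := IsPGroup.of_card (n := m) (by rw [← hm]; rfl)
    exact (Cfsg.Agent.Lib.Core.Residual.isPGroup_quotient_iff K).mp this
  -- the two index sets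
  let A := {θ : IrrCharacter L // Inv L (θ : L → ℂ)}
  let B := {χ : IrrCharacter G // ¬ p ∣ charDegree (χ : G → ℂ) ∧ ¬ p ∣ detOrder (χ : G → ℂ)}
  let _ : Fintype A := Fintype.ofFinite _
  let _ : Fintype B := Fintype.ofFinite _
  have hcop_of : ∀ n : ℕ, ¬ p ∣ n → Nat.Coprime L.index n := by
    intro n hn
    rw [hk]
    exact Nat.Coprime.pow_left _ ((Nat.Prime.coprime_iff_not_dvd hp).mpr hn)
  -- restriction of `χ ∈ B` is irreducible and invariant
  have hres : ∀ χ : B, ∃ θ : A, ∀ n : L, ((χ : IrrCharacter G) : G → ℂ) n = ((θ : IrrCharacter L) : L → ℂ) n := by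
    rintro ⟨⟨χ, hχ⟩, hχ1, -⟩
    have hχc := isCharacter_of_isIrrCharacter hχ
    have hrc : IsCharacter L (fun n : L => χ n) := isCharacter_restrict L hχc
    have hne : (fun n : L => χ n) ≠ 0 := by
      intro h0
      have h1 := congrFun h0 1
      have h2 := charDegree_pos hχ
      have h3 := charDegree_natCast hχc
      simp only [OneMemClass.coe_one, Pi.zero_apply] at h1
      rw [h1] at h3
      have h4 : charDegree χ = 0 := by exact_mod_cast h3
      omega
    obtain ⟨θ, hθ, hcon⟩ := exists_irr_constituent (isClassFunction_of_isCharacter hrc) hne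
    obtain ⟨e, t, het, hdvd⟩ := dvd_index_of_constituent hL hθ hχ hcon
    have hθc := isCharacter_of_isIrrCharacter hθ
    have hdeg : charDegree χ = (e * t) * charDegree θ := by
      have h3 := charDegree_natCast hχc
      have h4 := charDegree_natCast hθc
      rw [het, ← h4] at h3
      exact_mod_cast h3
    have het1 : e * t = 1 := by
      rw [hk] at hdvd
      obtain ⟨j, -, hj⟩ := (Nat.dvd_prime_pow hp).mp hdvd
      rcases j with _ | j
      · simpa using hj
      · exfalso
        apply hχ1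
        rw [hdeg, hj, pow_succ]
        exact Dvd.dvd.mul_right (Dvd.intro_left _ rfl) _
    have heq : (fun n : L => χ n) = θ := by
      rw [het1, one_mul] at hdeg
      refine eq_of_constituent_of_deg_le hrc hθ hcon (a := charDegree θ) (b := charDegree θ) ?_
        (charDegree_natCast hθc).symm le_rfl
      have h3 := charDegree_natCast hχc
      simp only [OneMemClass.coe_one]
      rw [← h3, hdeg]
    refine ⟨⟨⟨θ, hθ⟩, ?_⟩, fun n => congrFun heq n⟩
    intro g n
    change θ _ = θ _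
    rw [← congrFun heq, ← congrFun heq]
    exact isClassFunction_of_isCharacter hχc (n : G) g
  choose r hr using hres
  have hdegr : ∀ χ : B, charDegree ((r χ : IrrCharacter L) : L → ℂ) =
      charDegree ((χ : IrrCharacter G) : G → ℂ) := by
    intro χ
    apply charDegree_eq_of_eq_natCast
    have h1 := hr χ 1
    simp only [OneMemClass.coe_one] at h1
    rw [← h1, ← charDegree_natCast (isCharacter_of_isIrrCharacter (χ : IrrCharacter G).2)]
  -- canonical extension
  have hcanon : ∀ θ : A, ¬ p ∣ charDegree ((θ : IrrCharacter L) : L → ℂ) →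
      ¬ p ∣ detOrder ((θ : IrrCharacter L) : L → ℂ) ∧
      ∃ χ₀ : G → ℂ, (IsIrrCharacter G χ₀ ∧ (∀ n : L, χ₀ n = ((θ : IrrCharacter L) : L → ℂ) n) ∧
        detOrder χ₀ = detOrder ((θ : IrrCharacter L) : L → ℂ)) ∧
        ∀ χ' : G → ℂ, IsIrrCharacter G χ' → (∀ n : L, χ' n = ((θ : IrrCharacter L) : L → ℂ) n) →
          Nat.Coprime L.index (detOrder χ') → χ' = χ₀ := by
    intro θ hθ
    have hθc := isCharacter_of_isIrrCharacter (θ : IrrCharacter L).2
    have hnO := not_dvd_detOrder L ⟨k, hk⟩ hmin hθc θ.2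
    refine ⟨hnO, ?_⟩
    refine Cfsg.Agent.S0867.result L _ (θ : IrrCharacter L).2 θ.2 _ (charDegree_natCast hθc).symm ?_
    apply hcop_of
    rw [hp.dvd_mul]
    rintro (h | h)
    · exact hnO h
    · exact hθ h
  have hext : ∀ θ : A, ¬ p ∣ charDegree ((θ : IrrCharacter L) : L → ℂ) → ∃ χ : B, r χ = θ := by
    intro θ hθ
    obtain ⟨hnO, χ₀, ⟨hχ₀, hχ₀r, hχ₀o⟩, -⟩ := hcanon θ hθ
    have hdeg0 : charDegree χ₀ = charDegree ((θ : IrrCharacter L) : L → ℂ) := by
      apply charDegree_eq_of_eq_natCast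
      have h1 := hχ₀r 1
      simp only [OneMemClass.coe_one] at h1
      rw [h1, charDegree_natCast (isCharacter_of_isIrrCharacter (θ : IrrCharacter L).2)]
    refine ⟨⟨⟨χ₀, hχ₀⟩, ?_, ?_⟩, ?_⟩
    · change ¬ p ∣ charDegree χ₀
      rwa [hdeg0]
    · change ¬ p ∣ detOrder χ₀
      rwa [hχ₀o]
    · apply Subtype.ext
      apply Subtype.ext
      funext n
      rw [← hr, ← hχ₀r]
  have hinj : Function.Injective r := by
    intro χ χ' h
    have hθ : ¬ p ∣ charDegree ((r χ : IrrCharacter L) : L → ℂ) := by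
      rw [hdegr]; exact χ.2.1
    obtain ⟨hnO, χ₀, -, huniq⟩ := hcanon (r χ) hθ
    have h1 := huniq _ (χ : IrrCharacter G).2 (hr χ) (hcop_of _ χ.2.2)
    have h2 := huniq _ (χ' : IrrCharacter G).2 (by rw [h]; exact hr χ') (hcop_of _ χ'.2.2)
    apply Subtype.ext
    apply Subtype.ext
    rw [h1, h2]
  have hsumB : ∑ χ : B, charDegree ((χ : IrrCharacter G) : G → ℂ) ^ 2 =
      ∑ θ ∈ (Finset.univ.filter fun θ : A => ¬ p ∣ charDegree ((θ : IrrCharacter L) : L → ℂ)),
        charDegree ((θ : IrrCharacter L) : L → ℂ) ^ 2 := by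
    refine Finset.sum_bij (fun χ _ => r χ) ?_ ?_ ?_ ?_
    · intro χ _
      simp only [Finset.mem_filter, Finset.mem_univ, true_and]
      rw [hdegr]
      exact χ.2.1
    · intro a _ b _ h
      exact hinj h
    · intro θ hθ
      simp only [Finset.mem_filter, Finset.mem_univ, true_and] at hθ
      obtain ⟨χ, hχ⟩ := hext θ hθ
      exact ⟨χ, Finset.mem_univ _, hχ⟩
    · intro χ _
      rw [hdegr]
  have hcong := card_modEq_sum_invariant p L hQ
  have hsplit : ∑ θ : A, charDegree ((θ : IrrCharacter L) : L → ℂ) ^ 2 ≡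
      ∑ θ ∈ (Finset.univ.filter fun θ : A => ¬ p ∣ charDegree ((θ : IrrCharacter L) : L → ℂ)),
        charDegree ((θ : IrrCharacter L) : L → ℂ) ^ 2 [MOD p] := by
    rw [← Finset.sum_filter_add_sum_filter_not Finset.univ
      (fun θ : A => ¬ p ∣ charDegree ((θ : IrrCharacter L) : L → ℂ))]
    have h0 : ∑ θ ∈ (Finset.univ.filter fun θ : A => ¬ ¬ p ∣ charDegree ((θ : IrrCharacter L) : L → ℂ)),
        charDegree ((θ : IrrCharacter L) : L → ℂ) ^ 2 ≡ 0 [MOD p] := by
      rw [Nat.modEq_zero_iff_dvd]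
      refine Finset.dvd_sum fun θ hθ => ?_
      simp only [Finset.mem_filter, Finset.mem_univ, true_and, not_not] at hθ
      exact dvd_pow hθ two_ne_zero
    have h1 := (Nat.ModEq.refl (∑ θ ∈ (Finset.univ.filter fun θ : A => ¬ p ∣ charDegree ((θ : IrrCharacter L) : L → ℂ)),
        charDegree ((θ : IrrCharacter L) : L → ℂ) ^ 2)).add h0
    simpa using h1
  have hfinal : Nat.card L ≡ ∑ χ : B, charDegree ((χ : IrrCharacter G) : G → ℂ) ^ 2 [MOD p] := by
    rw [hsumB]
    exact hcong.trans hsplit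
  have hS : ({χ : IrrCharacter G | ¬ p ∣ charDegree (χ : G → ℂ) ∧ ¬ p ∣ detOrder (χ : G → ℂ)}).Finite :=
    Set.toFinite _
  rw [finsum_mem_eq_finite_toFinset_sum _ hS,
    Finset.sum_subtype hS.toFinset (p := fun χ : IrrCharacter G =>
      ¬ p ∣ charDegree (χ : G → ℂ) ∧ ¬ p ∣ detOrder (χ : G → ℂ)) (by simp)]
  have h := (Int.natCast_modEq_iff (a := Nat.card L) (b := ∑ χ : B, charDegree ((χ : IrrCharacter G) : G → ℂ) ^ 2)
    (n := p)).mpr hfinal
  push_cast at h
  convert h using 1

end Cfsg.Agent.S4455
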