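import Cfsg.Statements.S4460
import Cfsg.Agent.Lib.CharDeg.ThreeDeg.Derived
import Cfsg.Agent.Lib.KerFit.Chain
import Mathlib

set_option autoImplicit false
open Cfsg

namespace Cfsg.Agent.S4460

/-- A finite group with exactly three distinct irreducible character degrees is solvable of derived length at most 3: its third derived subgroup is trivial. -/
theorem result {G : Type*} [Group G] [Finite G] (hcd : Nat.card {n : ℕ // ∃ χ : Cfsg.IrrCharacter G, Cfsg.charDegree (χ : G → ℂ) = n} = 3) : derivedSeries G 3 = ⊥ := by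
  classical
  letI := Fintype.ofFinite G
  refine Cfsg.Agent.Lib.CharDeg.ThreeDeg.Derived.derived_of_hyp3 ?_
  haveI hfin := Cfsg.Agent.Lib.KerFit.Chain.finite_degSet G
  letI hft : Fintype (Cfsg.Agent.Lib.KerFit.Chain.DegSet G) := Fintype.ofFinite _
  refine ⟨(Finset.univ : Finset (Cfsg.Agent.Lib.KerFit.Chain.DegSet G)).map
    ⟨Subtype.val, Subtype.val_injective⟩, ?_, ?_⟩
  · rw [Finset.card_map, Finset.card_univ, ← Nat.card_eq_fintype_card]
    exact hcd.le
  · intro χ
    rw [Finset.mem_map]
    exact ⟨⟨_, χ, rfl⟩, Finset.mem_univ _, rfl⟩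

end Cfsg.Agent.S4460
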