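import Cfsg.Statements.S4468
import Cfsg.Agent.Lib.CharDeep.Winter.Deg

set_option autoImplicit false
open Cfsg

namespace Cfsg.Agent.S4468

open Cfsg.Agent.Lib.CharDeep.Winter Cfsg.Agent.Lib.Char.Basic Cfsg.Agent.Lib.Char.Ortho
  Cfsg.Agent.Lib.Char.Complete Cfsg.Agent.Lib.Char.Degree

/-- Let the finite p-solvable group G have a faithful character χ of degree n ≤ p − 1 and suppose that a Sylow p-subgroup of G is not normal. Then n = p − 1, n is a power of 2, and χ is irreducible. -/
theorem result {G : Type*} [Group G] [Finite G] (χ : G → ℂ) (hχ : Cfsg.IsCharacter G χ) (hfaith : ∀ g : G, χ g = χ 1 → g = 1) (n : ℕ) (hn : Cfsg.charDegree χ = n) (p : ℕ) (hp : p.Prime) (hsolv : Cfsg.IsPSolvable p G) (hnp : n + 1 ≤ p) (P : Sylow p G) (hP : ¬ (P : Subgroup G).Normal) : n + 1 = p ∧ (∃ k : ℕ, n = 2 ^ k) ∧ Cfsg.IsIrrCharacter G χ := by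
  classical
  haveI hpf : Fact p.Prime := ⟨hp⟩
  obtain ⟨q, hq, Q, y, hqp, hQ, -, hyN, hyp, hcomm, hbot, hC⟩ := exists_crit hsolv P hP
  rcases crit_deg hp hq.out hqp hQ hyN hyp hcomm hbot hC hχ hfaith with hle | ⟨instQ, θ, hθ, hθ1, K, ε, hε, hK⟩
  · omega
  haveI : Finite (IrrCharacter Q) := finite_irrCharacter
  letI : Fintype (IrrCharacter Q) := Fintype.ofFinite _
  let ψ : Q → ℂ := fun h => χ h
  have hψ : IsCharacter Q ψ := isCharacter_restrict Q hχ
  obtain ⟨m, hm⟩ := exists_nat_combination hψ
  have hinner : ∀ i : IrrCharacter Q, classInner ψ (i : Q → ℂ) = m i := by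
    intro i
    rw [hm]
    exact classInner_of_nat_combination m i
  have hdeg : charDegree ψ = n := by
    rw [← hn]
    unfold charDegree
    simp [ψ]
  have hsum := charDegree_eq_sum hψ hm
  rw [hdeg] at hsum
  have hθm : 0 < m θ := by
    have h1 := hθ
    change classInner ψ (θ : Q → ℂ) ≠ 0 at h1
    rw [hinner] at h1
    apply Nat.pos_of_ne_zero
    intro h
    apply h1
    rw [h]
    simp
  set d := charDegree (θ : Q → ℂ) with hd
  have hsingle : m θ * d ≤ n := by
    rw [hsum]
    exact Finset.single_le_sum (f := fun i : IrrCharacter Q => m i * charDegree (i : Q → ℂ))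
      (fun i _ => Nat.zero_le _) (Finset.mem_univ θ)
  have hdn : d ≤ n := le_trans (Nat.le_mul_of_pos_left d hθm) hsingle
  have hpz : (p : ℤ) ≥ 2 := by exact_mod_cast hp.two_le
  have hdp : d + 1 = p := by
    have hd1 : (1 : ℤ) < d := by exact_mod_cast hθ1
    have hdle : (d : ℤ) + 1 ≤ p := by
      have : d + 1 ≤ p := by omega
      exact_mod_cast this
    rcases hε with rfl | rfl
    · exfalso
      have hK0 : 0 < K := by
        by_contra h
        push Not at h
        nlinarith
      nlinarith
    · have hK0 : 0 < K := by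
        by_contra h
        push Not at h
        nlinarith
      have hK1 : K = 1 := by
        by_contra h
        have : 2 ≤ K := by omega
        nlinarith
      subst hK1
      have : (d : ℤ) + 1 = p := by
        rw [hK]
        ring
      exact_mod_cast this
  have hdeqn : d = n := by omega
  refine ⟨by omega, ?_, ?_⟩
  · -- `n` is a power of two
    haveI := hq
    have hdvd : d ∣ Nat.card Q := charDegree_dvd_card θ.2
    obtain ⟨a, ha⟩ := IsPGroup.iff_card.mp hQ
    rw [ha] at hdvd
    obtain ⟨j, -, hj⟩ := (Nat.dvd_prime_pow hq.out).mp hdvd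
    have hp3 : 3 ≤ p := by omega
    have hpodd : Odd p := hp.odd_of_ne_two (by omega)
    have heven : 2 ∣ d := by
      obtain ⟨t, ht⟩ := hpodd
      exact ⟨t, by omega⟩
    rw [hj] at heven
    have hq2 : q = 2 := by
      have := (Nat.prime_dvd_prime_iff_eq Nat.prime_two hq.out).mp (Nat.Prime.dvd_of_dvd_pow Nat.prime_two heven)
      exact this.symm
    refine ⟨j, ?_⟩
    rw [← hdeqn, hj, hq2]
  · -- irreducibility
    apply Cfsg.Agent.Lib.Char.Extend.isIrrCharacter_of_restrict_isIrr Q hχ
    have hψθ : ψ = (θ : Q → ℂ) := by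
      have hmθ : m θ = 1 := by
        have h1 : m θ * d ≤ d := le_trans hsingle hdeqn.symm.le
        have h2 : 0 < d := by omega
        have h3 : m θ ≤ 1 := by
          by_contra h
          push Not at h
          nlinarith
        omega
      have hothers : ∀ i, i ≠ θ → m i = 0 := by
        intro i hi
        by_contra hne
        have hipos : 0 < m i * charDegree (i : Q → ℂ) :=
          Nat.mul_pos (Nat.pos_of_ne_zero hne) (charDegree_pos i.2)
        have h2 : ∑ j ∈ ({θ, i} : Finset (IrrCharacter Q)), m j * charDegree (j : Q → ℂ) ≤ n := by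
          rw [hsum]
          exact Finset.sum_le_sum_of_subset (Finset.subset_univ _)
        rw [Finset.sum_pair (Ne.symm hi), hmθ, one_mul, ← hd, hdeqn] at h2
        omega
      rw [hm]
      rw [Finset.sum_eq_single θ (fun i _ hi => by rw [hothers i hi, zero_smul]) (fun h => absurd (Finset.mem_univ _) h)]
      rw [hmθ, one_smul]
    change IsIrrCharacter Q ψ
    rw [hψθ]
    exact θ.2

end Cfsg.Agent.S4468
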