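import Cfsg.Statements.S4471
import Cfsg.Agent.Lib.CharDeep.Winter.Mono
import Cfsg.Agent.Lib.Core.Basic

set_option autoImplicit false
open Cfsg

namespace Cfsg.Agent.S4471

open Cfsg.Agent.Lib.Char.Basic Cfsg.Agent.Lib.Char.Degree Cfsg.Agent.Lib.CharDeep.Winter
  Cfsg.Agent.Lib.Core.Basic in
theorem partA {G : Type*} [Group G] [Finite G] (χ : Cfsg.IrrCharacter G)
    (hfaith : ∀ g : G, (χ : G → ℂ) g = (χ : G → ℂ) 1 → g = 1) (n : ℕ)
    (hn : Cfsg.charDegree (χ : G → ℂ) = n) (p : ℕ) (hp : p.Prime) (h7 : 7 ≤ p) (hn2 : n < 2 * p)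
    (hnp : n ≠ p) (hnc : ∃ P : Sylow p G, ∃ x ∈ (P : Subgroup G), ∃ y ∈ (P : Subgroup G), x * y ≠ y * x) :
    ¬ p ^ 2 ∣ (Cfsg.pCore p G).index := by
  classical
  haveI : Fact p.Prime := ⟨hp⟩
  letI : Fintype G := Fintype.ofFinite G
  obtain ⟨P, x, hx, y, hy, hxy⟩ := hnc
  have hχc : IsCharacter G (χ : G → ℂ) := isCharacter_of_isIrrCharacter χ.2
  have hn' : (χ : G → ℂ) 1 = n := by
    rw [← charDegree_natCast hχc, hn]
  obtain ⟨z, hz, hpn, hvals⟩ := exists_element hχc hfaith hn' hn2 (P : Subgroup G) P.isPGroup'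
    ⟨x, hx, y, hy, hxy⟩
  have hpn' : p < n := lt_of_le_of_ne hpn (Ne.symm hnp)
  obtain ⟨d, ρ, hρ⟩ := hχc
  have hf : ∀ g, ρ g = 1 → g = 1 := by
    intro g hg
    apply hfaith
    rw [← hρ]
    simp [Representation.character, hg]
  have hvals' : ∀ m : ℕ, ρ.character (z ^ m) =
      (p : ℂ) * Complex.exp (2 * Real.pi * Complex.I / p) ^ m + ((n : ℂ) - p) := by
    intro m
    rw [hρ]
    exact hvals m
  obtain ⟨A, hAn, hAc, hzA⟩ := exists_abelian_normal_mem ρ hf h7 z hz _ hvals'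
  obtain ⟨K, hKn, hKc, hK⟩ := mono_structure χ.2 hfaith hn' hpn' hn2 A hAn hAc hzA hz hvals
  have hKP := hK (P : Subgroup G) P.isPGroup'
  -- `K ⊓ P` lies in `O_p(G)`
  have hle : K ⊓ (P : Subgroup G) ≤ Cfsg.pCore p G := by
    let L : Subgroup K := (P : Subgroup G).subgroupOf K
    have hLn : L.Normal := by
      constructor
      intro k hk g
      have h1 : g * k * g⁻¹ = k := by
        apply Subtype.ext
        have h2 := hKc g g.2 k k.2
        simp [h2]
      rw [h1]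
      exact hk
    have hLp : IsPGroup p L := by
      have h1 : IsPGroup p (P : Subgroup G) := P.isPGroup'
      rintro ⟨k, hk⟩
      obtain ⟨m, hm⟩ := h1 ⟨k.1, hk⟩
      refine ⟨m, Subtype.ext (Subtype.ext ?_)⟩
      have h3 := congrArg Subtype.val hm
      simpa using h3
    have h1 : L ≤ Cfsg.pCore p K := le_pCore hLn hLp
    have h2 : (Cfsg.pCore p K).map K.subtype ≤ Cfsg.pCore p G :=
      map_pCore_le_of_isSubnormal (hKn.isSubnormal)
    intro g hg
    apply h2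
    exact ⟨⟨g, hg.1⟩, h1 hg.2, rfl⟩
  have hOP : Cfsg.pCore p G ≤ (P : Subgroup G) := pCore_le_sylow P
  have hdvd : (Cfsg.pCore p G).relIndex (P : Subgroup G) ∣ K.relIndex (P : Subgroup G) := by
    apply Subgroup.index_dvd_of_le
    intro g hg
    rw [Subgroup.mem_subgroupOf] at hg ⊢
    exact hle ⟨hg, g.2⟩
  have hOdvd : (Cfsg.pCore p G).relIndex (P : Subgroup G) ∣ p := hdvd.trans hKP
  have hmul := Subgroup.relIndex_mul_index hOP
  intro hsq
  rw [← hmul] at hsq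
  have hcop : Nat.Coprime (p ^ 2) (P : Subgroup G).index :=
    Nat.Coprime.pow_left 2 ((Nat.Prime.coprime_iff_not_dvd hp).mpr P.not_dvd_index)
  have h3 := hcop.dvd_of_dvd_mul_right hsq
  have h4 := Nat.le_of_dvd hp.pos (h3.trans hOdvd)
  have h5 : p < p ^ 2 := by nlinarith [hp.two_le]
  omega

/-- Let p ≥ 7 be a prime and let the finite group G have a faithful irreducible character of degree n with n < 2p and n ≠ p. If the Sylow p-subgroups of G are non-abelian then p² does not divide the index of O_p(G) in G; consequently, in every case G/O_p(G) has abelian Sylow p-subgroups. -/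
theorem result {G : Type*} [Group G] [Finite G] (χ : Cfsg.IrrCharacter G) (hfaith : ∀ g : G, (χ : G → ℂ) g = (χ : G → ℂ) 1 → g = 1) (n : ℕ) (hn : Cfsg.charDegree (χ : G → ℂ) = n) (p : ℕ) (hp : p.Prime) (h7 : 7 ≤ p) (hn2 : n < 2 * p) (hnp : n ≠ p) : ((∃ P : Sylow p G, ∃ x ∈ (P : Subgroup G), ∃ y ∈ (P : Subgroup G), x * y ≠ y * x) → ¬ p ^ 2 ∣ (Cfsg.pCore p G).index) ∧ ∀ Q : Sylow p (G ⧸ Cfsg.pCore p G), ∀ x ∈ (Q : Subgroup (G ⧸ Cfsg.pCore p G)), ∀ y ∈ (Q : Subgroup (G ⧸ Cfsg.pCore p G)), x * y = y * x := by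
  classical
  haveI : Fact p.Prime := ⟨hp⟩
  refine ⟨partA χ hfaith n hn p hp h7 hn2 hnp, fun Q x hx y hy => ?_⟩
  by_cases hnc : ∃ P : Sylow p G, ∃ x ∈ (P : Subgroup G), ∃ y ∈ (P : Subgroup G), x * y ≠ y * x
  · have hA := partA χ hfaith n hn p hp h7 hn2 hnp hnc
    have hQp : IsPGroup p (Q : Subgroup (G ⧸ Cfsg.pCore p G)) := Q.isPGroup'
    obtain ⟨k, hk⟩ := IsPGroup.iff_card.mp hQp
    have hQdvd : Nat.card (Q : Subgroup (G ⧸ Cfsg.pCore p G)) ∣ (Cfsg.pCore p G).index :=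
      Subgroup.card_subgroup_dvd_card _
    have hk1 : k ≤ 1 := by
      by_contra hk2
      apply hA
      rw [hk] at hQdvd
      exact (pow_dvd_pow p (by omega)).trans hQdvd
    have hcomm : ∀ a b : (Q : Subgroup (G ⧸ Cfsg.pCore p G)), a * b = b * a := by
      rcases Nat.le_one_iff_eq_zero_or_eq_one.mp hk1 with h0 | h1
      · rw [h0, pow_zero] at hk
        haveI : Subsingleton (Q : Subgroup (G ⧸ Cfsg.pCore p G)) :=
          (Nat.card_eq_one_iff_unique.mp hk).1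
        intro a b
        exact Subsingleton.elim _ _
      · rw [h1, pow_one] at hk
        haveI : Fact (Nat.card (Q : Subgroup (G ⧸ Cfsg.pCore p G))).Prime := ⟨by rw [hk]; exact hp⟩
        haveI := isCyclic_of_prime_card (α := (Q : Subgroup (G ⧸ Cfsg.pCore p G))) rfl
        intro a b
        exact (IsCyclic.commGroup (α := (Q : Subgroup (G ⧸ Cfsg.pCore p G)))).mul_comm a b
    have h := hcomm ⟨x, hx⟩ ⟨y, hy⟩
    exact congrArg Subtype.val h
  · push Not at hnc
    have hsurj : Function.Surjective (QuotientGroup.mk' (Cfsg.pCore p G)) :=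
      QuotientGroup.mk'_surjective _
    obtain ⟨P, rfl⟩ := Sylow.mapSurjective_surjective hsurj p Q
    change x ∈ (P : Subgroup G).map _ at hx
    change y ∈ (P : Subgroup G).map _ at hy
    obtain ⟨a, ha, rfl⟩ := hx
    obtain ⟨b, hb, rfl⟩ := hy
    rw [← map_mul, ← map_mul, hnc P a ha b hb]

end Cfsg.Agent.S4471
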