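import Cfsg.Statements.S4472
import Cfsg.Agent.Lib.CharDeep.Schur.Canon
import Cfsg.Agent.Lib.CharDeep.Schur.Frattini

set_option autoImplicit false
open Cfsg

namespace Cfsg.Agent.S4472

/-- Let the finite p-solvable group G have a faithful character of degree n, and let p^a be the index of O_p(G) in a Sylow p-subgroup of G (the p-part of [G : O_p(G)]). Then a ≤ Σ_{i ≥ 0} ⌊n / ((p − 1) p^i)⌋ (a finite sum; the terms vanish for p^i > n). -/
theorem result {G : Type*} [Group G] [Finite G] (χ : G → ℂ) (hχ : Cfsg.IsCharacter G χ) (hfaith : ∀ g : G, χ g = χ 1 → g = 1) (n : ℕ) (hn : Cfsg.charDegree χ = n) (p : ℕ) (hp : p.Prime) (hsolv : Cfsg.IsPSolvable p G) : ((Cfsg.pCore p G).index).factorization p ≤ ∑ i ∈ Finset.range (n + 1), n / ((p - 1) * p ^ i) := by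
  classical
  haveI : Fact p.Prime := ⟨hp⟩
  obtain ⟨H, Q, hHc, hQp, hQN, hcent, hrel⟩ := Cfsg.Agent.Lib.CharDeep.Schur.exists_H_Q hsolv
  let L : Subgroup G := H ⊔ Q
  let H' : Subgroup L := H.subgroupOf L
  have hHL : H ≤ L := le_sup_left
  have hQL : Q ≤ L := le_sup_right
  have hH'n : H'.Normal := by
    rw [Subgroup.normal_subgroupOf_iff_le_normalizer hHL]
    exact sup_le Subgroup.le_normalizer hQN
  letI : Fintype L := Fintype.ofFinite L
  letI : Fintype H' := Fintype.ofFinite H'
  letI : Fintype Q := Fintype.ofFinite Q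
  let j : Q →* L := Subgroup.inclusion hQL
  have hcardH' : Nat.card H' = Nat.card H :=
    Nat.card_congr (Subgroup.subgroupOfEquivOfLe hHL).toEquiv
  have htop : H' ⊔ j.range = ⊤ := by
    have h1 : j.range = Q.subgroupOf L := by
      ext x
      constructor
      · rintro ⟨y, rfl⟩
        exact y.2
      · intro hx
        exact ⟨⟨x, hx⟩, rfl⟩
    rw [h1]
    apply Subgroup.map_injective L.subtype_injective
    rw [Subgroup.map_sup, Subgroup.subgroupOf_map_subtype, Subgroup.subgroupOf_map_subtype,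
      inf_eq_left.mpr hHL, inf_eq_left.mpr hQL, ← MonoidHom.range_eq_map, Subgroup.range_subtype]
  have hχ' : Cfsg.IsCharacter L (fun x : L => χ x) :=
    Cfsg.Agent.Lib.Char.Basic.isCharacter_restrict L hχ
  have hn' : χ ((1 : L) : G) = n := by
    rw [Subgroup.coe_one, ← hn, Cfsg.Agent.Lib.Char.Degree.charDegree_natCast hχ]
  obtain ⟨D, v, hD, hDi, hv⟩ := Cfsg.Agent.Lib.CharDeep.Schur.core_bound hH'n j
    (p := p) (by rw [hcardH']; exact hHc) hQp htop hχ'
    (fun g hg => Subtype.ext (hfaith _ (by simpa using hg))) n hn'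
  have hDle : D ≤ (Cfsg.pCore p G).subgroupOf Q := by
    intro x hx
    apply hcent x x.2
    intro h hh
    have h1 := hD x hx ⟨h, hHL hh⟩ hh
    exact congrArg Subtype.val h1
  have hdvd : (Cfsg.pCore p G).relIndex Q ∣ D.index := Subgroup.index_dvd_of_le hDle
  rw [hrel, hDi] at hdvd
  have hle := (Nat.pow_dvd_pow_iff_le_right hp.one_lt).mp hdvd
  exact hle.trans hv

end Cfsg.Agent.S4472
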