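import Cfsg.Statements.S4473
import Cfsg.Agent.Lib.Char.PrimTwo

set_option autoImplicit false
open Cfsg

namespace Cfsg.Agent.S4473

/-- Let the finite group G have a faithful irreducible character χ of degree 2 that is primitive: χ is not induced from a character of any proper subgroup. Then the centre of G has index 12, 24 or 60. -/
theorem result {G : Type*} [Group G] [Fintype G] (χ : Cfsg.IrrCharacter G) (hfaith : ∀ g : G, (χ : G → ℂ) g = (χ : G → ℂ) 1 → g = 1) (h2 : Cfsg.charDegree (χ : G → ℂ) = 2) (hprim : ∀ H : Subgroup G, H ≠ ⊤ → ∀ θ : H → ℂ, Cfsg.IsCharacter H θ → (χ : G → ℂ) ≠ Cfsg.indFun H θ) : (Subgroup.center G).index = 12 ∨ (Subgroup.center G).index = 24 ∨ (Subgroup.center G).index = 60 := by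
  classical
  obtain ⟨n, ρ, hρ, hc⟩ := χ.2
  have hdeg : Module.finrank ℂ (Fin n → ℂ) = 2 := by
    rw [← h2, ← hc, Cfsg.Agent.Lib.Char.Degree.charDegree_character]
  have hinj : Function.Injective ρ := by
    intro a b hab
    have h1 : ρ (a⁻¹ * b) = 1 := by
      rw [map_mul, ← hab, ← map_mul, inv_mul_cancel, map_one]
    have h2 : (χ : G → ℂ) (a⁻¹ * b) = (χ : G → ℂ) 1 := by
      rw [← hc]
      simp only [Representation.character, h1, map_one]
    have h3 := hfaith _ h2
    exact (inv_mul_eq_one.mp h3)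
  haveI := hρ
  refine Cfsg.Agent.Lib.Char.PrimTwo.main_rep ρ hdeg hinj ?_
  intro H hH θ hθ he
  exact hprim H hH θ hθ (by rw [← hc]; exact he)

end Cfsg.Agent.S4473
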