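import Cfsg.Statements.S4478
import Cfsg.Agent.Lib.Char.DefectZero
import Cfsg.Agent.Lib.Char.FrobSchur
import Cfsg.Agent.Lib.Char.Complete
import Cfsg.Agent.Lib.Char.Degree
import Cfsg.Agent.Lib.Char.Burnside

set_option autoImplicit false
open Cfsg

namespace Cfsg.Agent.S4478

open Cfsg.Agent.Lib.Char.Basic Cfsg.Agent.Lib.Char.Degree Cfsg.Agent.Lib.Char.Ortho

section Aux

variable {G : Type*} [Group G] [Fintype G]

/-- A root of an element of odd order, inside a group in which it has no commuting involution. -/
theorem eq_pow_of_mul_self_eq {u s : G} (hu : Odd (orderOf u))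
    (hinv : ∀ t : G, orderOf t = 2 → Commute t u → False) (hs : s * s = u) :
    s = u ^ ((orderOf u + 1) / 2) := by
  classical
  have hcomm : Commute s u := by rw [← hs]; exact (Commute.refl s).mul_right (Commute.refl s)
  have hodd : Odd (orderOf s) := by
    by_contra hne
    rw [Nat.not_odd_iff_even] at hne
    have hord := orderOf_pow_orderOf_div (orderOf_pos s).ne' (even_iff_two_dvd.mp hne)
    exact hinv _ hord (hcomm.pow_left _)
  obtain ⟨k, hk⟩ := hodd
  have h1 : s = u ^ (k + 1) := by
    rw [← hs, ← pow_two, ← pow_mul]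
    have : 2 * (k + 1) = orderOf s + 1 := by omega
    rw [this, pow_succ, pow_orderOf_eq_one, one_mul]
  obtain ⟨m, hm⟩ := hu
  have h2 : s ^ orderOf u = 1 := by
    rw [h1, ← pow_mul, mul_comm, pow_mul, pow_orderOf_eq_one, one_pow]
  have h3 : (orderOf u + 1) / 2 = m + 1 := by omega
  rw [h3]
  have h4 : u ^ (m + 1) = s ^ (2 * (m + 1)) := by
    rw [← hs, ← pow_two, ← pow_mul]
  rw [h4]
  have h5 : 2 * (m + 1) = orderOf u + 1 := by omega
  rw [h5, pow_succ, h2, one_mul]

end Aux

/-- Let G be a finite group of even order and χ an irreducible character of G whose degree x is divisible by the full power of 2 dividing the order of G and, for every odd prime p such that G has an element of order 2p, by the full power of p dividing the order of G. Then all involutions of G are conjugate, the centralizer of every involution has order exactly x with x coprime to its index, and the Frobenius–Schur indicator of χ equals 1. -/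
theorem result {G : Type*} [Group G] [Fintype G] (heven : Even (Nat.card G)) (χ : Cfsg.IrrCharacter G) (h2 : 2 ^ (Nat.card G).factorization 2 ∣ Cfsg.charDegree (χ : G → ℂ)) (hp : ∀ p : ℕ, p.Prime → p ≠ 2 → (∃ g : G, orderOf g = 2 * p) → p ^ (Nat.card G).factorization p ∣ Cfsg.charDegree (χ : G → ℂ)) : (∀ s t : G, orderOf s = 2 → orderOf t = 2 → IsConj s t) ∧ (∀ s : G, orderOf s = 2 → Nat.card (Subgroup.centralizer ({s} : Set G)) = Cfsg.charDegree (χ : G → ℂ) ∧ (Nat.card (Subgroup.centralizer ({s} : Set G))).Coprime (Subgroup.centralizer ({s} : Set G)).index) ∧ (Nat.card G : ℂ)⁻¹ * ∑ g : G, (χ : G → ℂ) (g * g) = 1 := by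
  classical
  obtain ⟨n, ρ, hρ, hρχ⟩ := χ.2
  haveI : ρ.IsIrreducible := hρ
  have hg0 : Nat.card G ≠ 0 := Nat.card_pos.ne'
  have hχc : IsCharacter G (χ : G → ℂ) := isCharacter_of_isIrrCharacter χ.2
  set x := charDegree (χ : G → ℂ) with hx
  have hχ1 : (χ : G → ℂ) 1 = x := (charDegree_natCast hχc).symm
  have hxn : x = Module.finrank ℂ (Fin n → ℂ) := by
    rw [hx, ← hρχ, charDegree_character]
  have hxpos : 0 < x := charDegree_pos χ.2
  -- vanishing
  have hvan : ∀ p : ℕ, p.Prime → p ^ (Nat.card G).factorization p ∣ x → ∀ g : G, p ∣ orderOf g →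
      (χ : G → ℂ) g = 0 := by
    intro p hp hd g hg
    rw [← hρχ]
    refine Cfsg.Agent.Lib.Char.DefectZero.character_eq_zero_of_defect_zero ρ p _ hp
      (Nat.ordProj_dvd _ _) (Nat.pow_succ_factorization_not_dvd hg0 hp) (by rwa [← hxn]) g hg
  -- nonvanishing elements
  have hodd : ∀ u : G, (χ : G → ℂ) u ≠ 0 → Odd (orderOf u) := by
    intro u hu
    rw [← Nat.not_even_iff_odd]
    intro he
    exact hu (hvan 2 Nat.prime_two h2 u he.two_dvd)
  have hinv : ∀ u : G, u ≠ 1 → (χ : G → ℂ) u ≠ 0 → ∀ t : G, orderOf t = 2 → Commute t u → False := by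
    intro u hu1 hu t ht hc
    have ho := hodd u hu
    have hne1 : orderOf u ≠ 1 := by rwa [Ne, orderOf_eq_one_iff]
    set p := (orderOf u).minFac with hpdef
    have hpp : p.Prime := Nat.minFac_prime hne1
    have hpu : p ∣ orderOf u := Nat.minFac_dvd _
    have hp2 : p ≠ 2 := by
      intro h
      rw [h] at hpu
      exact (Nat.not_even_iff_odd.mpr ho) (even_iff_two_dvd.mpr hpu)
    have hw := orderOf_pow_orderOf_div (orderOf_pos u).ne' hpu
    set m := orderOf u / p with hm
    have hc' : Commute t (u ^ m) := hc.pow_right m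
    have hord : orderOf (t * u ^ m) = 2 * p := by
      rw [hc'.orderOf_mul_eq_mul_orderOf_of_coprime (by rw [ht, hw]; exact (Nat.coprime_primes Nat.prime_two hpp).mpr hp2.symm), ht, hw]
    exact hu (hvan p hpp (hp p hpp hp2 ⟨_, hord⟩) u (Nat.minFac_dvd _))
  -- the number of involutions
  let I : Finset G := Finset.univ.filter fun g => orderOf g = 2
  let T : ℕ := I.card
  -- the trivial character differs from `χ`
  have hx2 : 2 ∣ x := by
    refine dvd_trans ?_ h2
    apply dvd_pow_self
    have : 2 ∣ Nat.card G := even_iff_two_dvd.mp heven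
    exact (Nat.Prime.factorization_pos_of_dvd Nat.prime_two hg0 this).ne'
  have hne1 : (χ : G → ℂ) ≠ fun _ => 1 := by
    intro h
    have h1 := congrFun h 1
    rw [hχ1] at h1
    have h3 : x = 1 := by exact_mod_cast h1
    rw [h3] at hx2
    omega
  have hsum0 : ∑ u : G, (χ : G → ℂ) u = 0 := by
    have h := classInner_eq_zero_of_isIrr_of_ne χ.2
      (Cfsg.Agent.Lib.Char.Burnside.isIrrCharacter_one (G := G)) hne1
    simp only [classInner, map_one, mul_one] at h
    have hc : (Nat.card G : ℂ)⁻¹ ≠ 0 := inv_ne_zero (by exact_mod_cast hg0)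
    exact (mul_eq_zero.mp h).resolve_left hc
  -- count roots
  have hroot : ∀ u : G, u ≠ 1 → ((Finset.univ.filter fun g : G => g * g = u).card : ℂ) * (χ : G → ℂ) u =
      (χ : G → ℂ) u := by
    intro u hu
    by_cases h0 : (χ : G → ℂ) u = 0
    · simp [h0]
    have ho := hodd u h0
    have hinv' := hinv u hu h0
    have hcard : (Finset.univ.filter fun g : G => g * g = u) = {u ^ ((orderOf u + 1) / 2)} := by
      ext s
      simp only [Finset.mem_filter, Finset.mem_univ, true_and, Finset.mem_singleton]
      constructor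
      · intro hs
        exact eq_pow_of_mul_self_eq ho hinv' hs
      · rintro rfl
        rw [← pow_add]
        obtain ⟨m, hm⟩ := ho
        have h3 : (orderOf u + 1) / 2 = m + 1 := by omega
        have h4 : m + 1 + (m + 1) = orderOf u + 1 := by omega
        rw [h3, h4, pow_succ, pow_orderOf_eq_one, one_mul]
    rw [hcard]
    simp
  have hroot1 : (Finset.univ.filter fun g : G => g * g = 1).card = T + 1 := by
    have : (Finset.univ.filter fun g : G => g * g = 1) = insert 1 I := by
      ext g
      simp only [Finset.mem_filter, Finset.mem_univ, true_and, Finset.mem_insert, I]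
      constructor
      · intro h
        by_cases h1 : g = 1
        · exact Or.inl h1
        · right
          exact orderOf_eq_prime (by rw [pow_two, h]) h1
      · rintro (rfl | h)
        · simp
        · have := pow_orderOf_eq_one g
          rw [h, pow_two] at this
          exact this
    rw [this, Finset.card_insert_of_notMem (by simp [I])]
  have hmain : ∑ g : G, (χ : G → ℂ) (g * g) = (T : ℂ) * x := by
    have h1 : ∑ g : G, (χ : G → ℂ) (g * g) = ∑ u : G, ∑ g ∈ Finset.univ.filter (fun g : G => g * g = u), (χ : G → ℂ) (g * g) :=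
      (Finset.sum_fiberwise Finset.univ (fun g : G => g * g) _).symm
    have h2' : ∀ u : G, ∑ g ∈ Finset.univ.filter (fun g : G => g * g = u), (χ : G → ℂ) (g * g) =
        ((Finset.univ.filter fun g : G => g * g = u).card : ℂ) * (χ : G → ℂ) u := by
      intro u
      rw [Finset.sum_congr rfl (g := fun _ => (χ : G → ℂ) u) (fun g hg => by
        rw [(Finset.mem_filter.mp hg).2])]
      simp
    rw [h1, Finset.sum_congr rfl (fun u _ => h2' u),
      ← Finset.add_sum_erase _ _ (Finset.mem_univ (1 : G)),
      Finset.sum_congr rfl (fun u hu => hroot u (Finset.ne_of_mem_erase hu)), hroot1]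
    have h3 := Finset.add_sum_erase Finset.univ (χ : G → ℂ) (Finset.mem_univ (1 : G))
    rw [hsum0, hχ1] at h3
    rw [hχ1]
    push_cast
    linear_combination h3
  -- involutions exist
  have hTpos : 0 < T := by
    obtain ⟨t, ht⟩ := exists_prime_orderOf_dvd_card' (G := G) 2 (even_iff_two_dvd.mp heven)
    exact Finset.card_pos.mpr ⟨t, by simp [I, ht]⟩
  -- the indicator
  have hnu : (Nat.card G : ℂ)⁻¹ * ∑ g : G, (χ : G → ℂ) (g * g) = 1 := by
    have hfs := (Cfsg.Agent.Lib.Char.FrobSchur.frobeniusSchur ρ hρ).1
    rw [hρχ, hmain] at hfs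
    have hgc : (Nat.card G : ℂ) ≠ 0 := by exact_mod_cast hg0
    rw [hmain]
    rcases hfs with h | h | h
    · exfalso
      have h3 := (mul_eq_zero.mp h).resolve_left (inv_ne_zero hgc)
      have h4 : T * x = 0 := by exact_mod_cast h3
      have := Nat.mul_pos hTpos hxpos
      omega
    · exact h
    · exfalso
      field_simp at h
      have h4 : ((T * x + Nat.card G : ℕ) : ℂ) = 0 := by push_cast; linear_combination h
      have h5 : T * x + Nat.card G = 0 := by exact_mod_cast h4
      have := Nat.card_pos (α := G)
      omega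
  have hTx : T * x = Nat.card G := by
    rw [hmain] at hnu
    have hgc : (Nat.card G : ℂ) ≠ 0 := by exact_mod_cast hg0
    field_simp at hnu
    exact_mod_cast hnu
  -- centralizers of involutions
  have hcent : ∀ s : G, orderOf s = 2 → ∀ p : ℕ, p.Prime →
      p ∣ Nat.card (Subgroup.centralizer ({s} : Set G)) → p ^ (Nat.card G).factorization p ∣ x := by
    intro s hs p hp' hpd
    by_cases hp2 : p = 2
    · subst hp2
      exact h2
    · haveI : Fact p.Prime := ⟨hp'⟩
      obtain ⟨w, hw⟩ := exists_prime_orderOf_dvd_card' (G := Subgroup.centralizer ({s} : Set G)) p hpd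
      have hw' : orderOf (w : G) = p := by rw [Subgroup.orderOf_coe]; exact hw
      have hc : Commute s (w : G) := (Subgroup.mem_centralizer_singleton_iff.mp w.2).symm
      have hord : orderOf (s * (w : G)) = 2 * p := by
        rw [hc.orderOf_mul_eq_mul_orderOf_of_coprime (by
          rw [hs, hw']; exact (Nat.coprime_primes Nat.prime_two hp').mpr (Ne.symm hp2)), hs, hw']
      exact hp p hp' hp2 ⟨_, hord⟩
  have hdvd : ∀ s : G, orderOf s = 2 → Nat.card (Subgroup.centralizer ({s} : Set G)) ∣ x := by
    intro s hs
    have hy0 : Nat.card (Subgroup.centralizer ({s} : Set G)) ≠ 0 := Nat.card_pos.ne'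
    rw [← Nat.factorization_prime_le_iff_dvd hy0 hxpos.ne']
    intro p hp'
    by_cases hpd : p ∣ Nat.card (Subgroup.centralizer ({s} : Set G))
    · have h1 := hcent s hs p hp' hpd
      have h3 : (Nat.card G).factorization p ≤ x.factorization p :=
        (hp'.pow_dvd_iff_le_factorization hxpos.ne').mp h1
      have h4 : (Nat.card (Subgroup.centralizer ({s} : Set G))).factorization p ≤
          (Nat.card G).factorization p :=
        (Nat.factorization_le_iff_dvd hy0 hg0).mpr (Subgroup.card_subgroup_dvd_card _) p
      omega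
    · rw [Nat.factorization_eq_zero_of_not_dvd hpd]
      exact Nat.zero_le _
  -- the class of an involution is everything
  have hclass : ∀ s : G, orderOf s = 2 →
      Nat.card (Subgroup.centralizer ({s} : Set G)) = x ∧ ∀ t : G, orderOf t = 2 → IsConj t s := by
    intro s hs
    set y := Nat.card (Subgroup.centralizer ({s} : Set G)) with hy
    let J : Finset G := Finset.univ.filter fun g => IsConj g s
    have hJ : J.card * y = Nat.card G := by
      have := Cfsg.Agent.Lib.Char.Complete.card_isConj_mul_card_centralizer s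
      rw [← this]
      congr 1
      rw [Nat.card_eq_fintype_card, Fintype.card_subtype]
    have hJI : J ⊆ I := by
      intro g hg
      simp only [J, Finset.mem_filter, Finset.mem_univ, true_and] at hg
      simp only [I, Finset.mem_filter, Finset.mem_univ, true_and]
      rw [← hs]
      obtain ⟨c, rfl⟩ := isConj_iff.mp hg
      exact (MulEquiv.orderOf_eq (MulAut.conj c) g).symm
    have hJle : J.card ≤ T := Finset.card_le_card hJI
    have hyx : y ≤ x := Nat.le_of_dvd hxpos (hdvd s hs)
    have hypos : 0 < y := Nat.card_pos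
    have hJT : T ≤ J.card := by
      by_contra hlt
      push Not at hlt
      have h1 : J.card * y < T * y := Nat.mul_lt_mul_of_pos_right hlt hypos
      have h2' : T * y ≤ T * x := Nat.mul_le_mul_left _ hyx
      omega
    have hJeq : J.card = T := le_antisymm hJle hJT
    refine ⟨?_, ?_⟩
    · have h1 : T * y = T * x := by
        rw [hTx, ← hJ, hJeq]
      exact Nat.eq_of_mul_eq_mul_left hTpos h1
    · intro t ht
      have h1 : J = I := Finset.eq_of_subset_of_card_le hJI (by simpa [T] using hJT)
      have h2' : t ∈ I := by simp [I, ht]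
      rw [← h1] at h2'
      simpa [J] using h2'
  refine ⟨fun s t hs ht => (hclass t ht).2 s hs, fun s hs => ⟨(hclass s hs).1, ?_⟩, hnu⟩
  by_contra hnc
  obtain ⟨p, hp', hp1, hp2⟩ := Nat.Prime.not_coprime_iff_dvd.mp hnc
  have h1 := hcent s hs p hp' hp1
  rw [(hclass s hs).1] at hp1
  have h3 : Nat.card (Subgroup.centralizer ({s} : Set G)) * (Subgroup.centralizer ({s} : Set G)).index = Nat.card G :=
    Subgroup.card_mul_index _
  rw [(hclass s hs).1] at h3
  have h4 : p ^ ((Nat.card G).factorization p + 1) ∣ Nat.card G := by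
    have h5 := Nat.mul_dvd_mul h1 hp2
    rw [h3] at h5
    rw [pow_succ]
    exact h5
  exact Nat.pow_succ_factorization_not_dvd hg0 hp' h4

end Cfsg.Agent.S4478
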