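import Cfsg.Statements.S4485
import Mathlib
import Cfsg.Agent.Lib.CharDeg.TICore

set_option autoImplicit false
open Cfsg

namespace Cfsg.Agent.S4485

/-- Let G be a finite group and p a prime dividing its order such that every non-identity element of a Sylow p-subgroup P has the same centralizer as P itself (so P is abelian); let p^n be the order of P. If G has a faithful character of degree x with x² < p^n − 1, then P is normal in G. -/
theorem result {G : Type*} [Group G] [Finite G] (p : ℕ) (hp : p.Prime) (hpG : p ∣ Nat.card G) (P : Sylow p G) (hstar : ∀ x ∈ (P : Subgroup G), x ≠ 1 → Subgroup.centralizer ({x} : Set G) = Subgroup.centralizer ((P : Subgroup G) : Set G)) (n : ℕ) (hn : Nat.card P = p ^ n) (χ : G → ℂ) (hχ : Cfsg.IsCharacter G χ) (hfaith : ∀ g : G, χ g = χ 1 → g = 1) (hdeg : Cfsg.charDegree χ ^ 2 + 1 < p ^ n) : (P : Subgroup G).Normal := by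
  classical
  cases nonempty_fintype G
  haveI := Fact.mk hp
  let L : Subgroup G := Subgroup.normalClosure ((P : Subgroup G) : Set G)
  haveI hLn : L.Normal := Subgroup.normalClosure_normal
  have hPL : (P : Subgroup G) ≤ L := Subgroup.subset_normalClosure
  let P' : Sylow p L := P.subtype hPL
  have hP'mem : ∀ y : L, y ∈ (P' : Subgroup L) ↔ (y : G) ∈ (P : Subgroup G) := by
    intro y
    rw [Sylow.coe_subtype, Subgroup.mem_subgroupOf]
  have hstar' : ∀ x ∈ (P' : Subgroup L), x ≠ 1 →
      Subgroup.centralizer ({x} : Set L) = Subgroup.centralizer ((P' : Subgroup L) : Set L) := by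
    intro x hx hx1
    have h1 := hstar x ((hP'mem x).mp hx) (fun h => hx1 (Subtype.ext h))
    ext y
    rw [Subgroup.mem_centralizer_iff, Subgroup.mem_centralizer_iff]
    constructor
    · intro h u hu
      have h2 : (y : G) ∈ Subgroup.centralizer ({(x : G)} : Set G) := by
        rw [Subgroup.mem_centralizer_iff]
        intro v hv
        rw [Set.mem_singleton_iff] at hv
        rw [hv]
        have := h x (Set.mem_singleton x)
        exact congrArg Subtype.val this
      rw [h1, Subgroup.mem_centralizer_iff] at h2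
      exact Subtype.ext (h2 u ((hP'mem u).mp hu))
    · intro h u hu
      rw [Set.mem_singleton_iff] at hu
      rw [hu]
      exact h x hx
  have hnorm' : ∀ K : Subgroup L, K.Normal → (P' : Subgroup L) ≤ K → K = ⊤ := by
    intro K hK hP'K
    have hPK : ∀ u ∈ (P : Subgroup G), u ∈ K.map L.subtype := by
      intro u hu
      exact ⟨⟨u, hPL hu⟩, hP'K ((hP'mem _).mpr hu), rfl⟩
    have hconj : ∀ g : G, ∀ u ∈ (P : Subgroup G), g * u * g⁻¹ ∈ K.map L.subtype := by
      intro g u hu
      have h1 : Subgroup.normalizer ((P : Subgroup G) : Set G) ⊔ L = ⊤ :=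
        Sylow.normalizer_sup_eq_top' (N := L) P hPL
      have h2 : g ∈ ((L ⊔ Subgroup.normalizer ((P : Subgroup G) : Set G) : Subgroup G) : Set G) := by
        rw [sup_comm, h1]
        trivial
      rw [Subgroup.normal_mul] at h2
      obtain ⟨l, hl, n, hn', rfl⟩ := Set.mem_mul.mp h2
      have h3 : n * u * n⁻¹ ∈ (P : Subgroup G) := (Subgroup.mem_normalizer_iff.mp hn' u).mp hu
      obtain ⟨y, hy, hyv⟩ := hPK _ h3
      have h4 := hK.conj_mem y hy ⟨l, hl⟩
      refine ⟨_, h4, ?_⟩
      simp only [Subgroup.subtype_apply, Subgroup.coe_mul, InvMemClass.coe_inv] at hyv ⊢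
      rw [hyv]
      group
    have hle : Subgroup.normalClosure ((P : Subgroup G) : Set G) ≤ K.map L.subtype := by
      refine (Subgroup.closure_le _).mpr ?_
      intro z hz
      obtain ⟨u, hu, hz⟩ := Group.mem_conjugatesOfSet_iff.mp hz
      obtain ⟨c, rfl⟩ := isConj_iff.mp hz
      exact hconj _ _ hu
    rw [eq_top_iff]
    intro y _
    obtain ⟨w, hw, hwy⟩ := hle y.2
    have : w = y := Subtype.ext hwy
    rwa [← this]
  have hpL : p ∣ Nat.card L := by
    have h1 : Nat.card P' = Nat.card P := by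
      rw [Sylow.coe_subtype]
      exact Nat.card_congr (Subgroup.subgroupOfEquivOfLe hPL).toEquiv
    have h2 : (P : Subgroup G) ≠ ⊥ := P.ne_bot_of_dvd_card hpG
    have h3 : p ∣ Nat.card P := by
      haveI : Nontrivial (P : Subgroup G) := (Subgroup.nontrivial_iff_ne_bot _).mpr h2
      obtain ⟨k, hk⟩ := P.2.exists_card_eq
      rw [hk]
      have : k ≠ 0 := by
        intro h0
        rw [h0, pow_zero] at hk
        exact (Finite.one_lt_card (α := (P : Subgroup G))).ne' hk
      exact dvd_pow_self p this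
    rw [← h1] at h3
    exact h3.trans (Subgroup.card_subgroup_dvd_card _)
  have hN' : Nat.card (P' : Subgroup L) = p ^ n := by
    rw [← hn, Sylow.coe_subtype]
    exact Nat.card_congr (Subgroup.subgroupOfEquivOfLe hPL).toEquiv
  letI : Fintype (Lib.CharDeg.TISylow.Cn P') := Fintype.ofFinite _
  letI : Fintype (Lib.CharDeg.TISylow.Nn P') := Fintype.ofFinite _
  letI : Fintype (P' : Subgroup L) := Fintype.ofFinite _
  haveI := Cfsg.Agent.Lib.Char.Ortho.finite_irrCharacter (G := (P' : Subgroup L))
  haveI := Cfsg.Agent.Lib.Char.Ortho.finite_irrCharacter (G := Lib.CharDeg.TISylow.Cn P')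
  haveI := Cfsg.Agent.Lib.Char.Ortho.finite_irrCharacter (G := L)
  letI : Fintype (IrrCharacter (P' : Subgroup L)) := Fintype.ofFinite _
  letI : Fintype (IrrCharacter (Lib.CharDeg.TISylow.Cn P')) := Fintype.ofFinite _
  letI : Fintype (IrrCharacter L) := Fintype.ofFinite _
  have hχL : IsCharacter L (fun y : L => χ y) := Cfsg.Agent.Lib.Char.Basic.isCharacter_restrict L hχ
  obtain ⟨x, hx⟩ := Cfsg.Agent.Lib.Char.Basic.exists_deg_of_isCharacter hχ
  have hcd : charDegree χ = x := by
    unfold charDegree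
    rw [hx]
    simp
  rw [hcd] at hdeg
  -- every constituent of the restriction is linear
  have hlin : ∀ τ : IrrCharacter L, classInner (fun y : L => χ y) (τ : L → ℂ) ≠ 0 → (τ : L → ℂ) 1 = 1 := by
    intro τ hτ
    by_cases h1 : (τ : L → ℂ) = fun _ => 1
    · rw [h1]
    obtain ⟨d, hd⟩ := Cfsg.Agent.Lib.Char.Basic.exists_deg_of_isCharacter
      (Cfsg.Agent.Lib.Char.Basic.isCharacter_of_isIrrCharacter τ.2)
    have hsub := Cfsg.Agent.Lib.Char.Clifford.isCharacter_sub_of_classInner_ne_zero hχL τ.2 hτ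
    obtain ⟨d', hd'⟩ := Cfsg.Agent.Lib.Char.Basic.exists_deg_of_isCharacter hsub
    have hle : d ≤ x := by
      have h2 : (x : ℂ) = d + d' := by
        rw [← hd, ← hd', ← hx]
        simp
      have h3 : x = d + d' := by exact_mod_cast h2
      omega
    have hdeg' : d ^ 2 + 1 < p ^ n := by
      have : d ^ 2 ≤ x ^ 2 := Nat.pow_le_pow_left hle 2
      omega
    obtain ⟨h3, -⟩ := Lib.CharDeg.TICore.core P' hstar' hpL hnorm' τ.2 h1 hN' hd hdeg'
    rw [hd, h3]
    simp
  -- `L` is abelian
  have hLcomm : ∀ a b : L, a * b = b * a := by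
    intro a b
    have hc := Cfsg.Agent.Lib.Char.Complete.classFunction_eq_sum
      (Cfsg.Agent.Lib.Char.Basic.isClassFunction_of_isCharacter hχL)
    have h1 : χ ((a * b * (b * a)⁻¹ : L) : G) = χ ((1 : L) : G) := by
      have h2 := congrFun hc (a * b * (b * a)⁻¹)
      have h3 := congrFun hc 1
      simp only [Finset.sum_apply, Pi.smul_apply, smul_eq_mul] at h2 h3
      rw [h2, h3]
      refine Finset.sum_congr rfl fun τ _ => ?_
      by_cases h0 : classInner (fun y : L => χ y) (τ : L → ℂ) = 0
      · rw [h0, zero_mul, zero_mul]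
      · have hτ1 := hlin τ h0
        have hm := Cfsg.Agent.Lib.Char.Linear.deg_one_mul
          (Cfsg.Agent.Lib.Char.Basic.isCharacter_of_isIrrCharacter τ.2) hτ1
        congr 1
        have h4 : (τ : L → ℂ) ((b * a)⁻¹) * (τ : L → ℂ) (b * a) = 1 := by
          rw [← hm, inv_mul_cancel, hτ1]
        rw [hm, hτ1, hm a b, mul_comm ((τ : L → ℂ) a), ← hm b a, mul_comm]
        exact h4
    have h2 := hfaith _ h1
    have h3 : a * b * (b * a)⁻¹ = 1 := Subtype.ext h2
    exact mul_inv_eq_one.mp h3
  -- conclusion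
  have hLC : L ≤ Lib.CharDeg.TISylow.Cn P := by
    intro y hy
    rw [Subgroup.mem_centralizer_iff]
    intro u hu
    have := hLcomm ⟨u, hPL hu⟩ ⟨y, hy⟩
    exact congrArg Subtype.val this
  constructor
  intro u hu g
  have h1 : g * u * g⁻¹ ∈ L := hLn.conj_mem u (hPL hu) g
  have h2 : IsPGroup p (Subgroup.zpowers (g * u * g⁻¹)) := by
    obtain ⟨k, hk⟩ := P.2 ⟨u, hu⟩
    have hk' : u ^ p ^ k = 1 := by
      have := congrArg Subtype.val hk
      simpa using this
    apply IsPGroup.of_card (n := (orderOf (g * u * g⁻¹)).factorization p)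
    rw [Nat.card_zpowers]
    have hdvd : orderOf (g * u * g⁻¹) ∣ p ^ k := by
      apply orderOf_dvd_of_pow_eq_one
      rw [conj_pow, hk', mul_one, mul_inv_cancel]
    obtain ⟨m, -, hm⟩ := (Nat.dvd_prime_pow hp).mp hdvd
    rw [hm, Nat.Prime.factorization_pow hp]
    simp
  have h3 : Subgroup.zpowers (g * u * g⁻¹) ≤ Lib.CharDeg.TISylow.Cn P := by
    rw [Subgroup.zpowers_le]
    exact hLC h1
  exact Lib.CharDeg.TISylow.le_of_le_centralizer P h2 h3 (Subgroup.mem_zpowers _)

end Cfsg.Agent.S4485
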