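import Cfsg.Statements.S4486
import Mathlib
import Cfsg.Agent.Lib.CharDeg.TICore

set_option autoImplicit false
open Cfsg

namespace Cfsg.Agent.S4486

/-- Let G be a finite group and p a prime dividing its order such that every non-identity element of a Sylow p-subgroup P has the same centralizer as P; let p^n be the order of P. If G has a non-principal irreducible character χ of degree x with x² < p^n − 1, then either G has a proper normal subgroup containing P, or G has a normal subgroup of index p^n and x = 1. -/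
theorem result {G : Type*} [Group G] [Finite G] (p : ℕ) (hp : p.Prime) (hpG : p ∣ Nat.card G) (P : Sylow p G) (hstar : ∀ x ∈ (P : Subgroup G), x ≠ 1 → Subgroup.centralizer ({x} : Set G) = Subgroup.centralizer ((P : Subgroup G) : Set G)) (n : ℕ) (hn : Nat.card P = p ^ n) (χ : Cfsg.IrrCharacter G) (h1 : (χ : G → ℂ) ≠ fun _ => 1) (hdeg : Cfsg.charDegree (χ : G → ℂ) ^ 2 + 1 < p ^ n) : (∃ K : Subgroup G, K.Normal ∧ K ≠ ⊤ ∧ (P : Subgroup G) ≤ K) ∨ ((∃ N : Subgroup G, N.Normal ∧ N.index = p ^ n) ∧ Cfsg.charDegree (χ : G → ℂ) = 1) := by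
  classical
  cases nonempty_fintype G
  haveI := Fact.mk hp
  by_cases h : ∃ K : Subgroup G, K.Normal ∧ K ≠ ⊤ ∧ (P : Subgroup G) ≤ K
  · exact Or.inl h
  right
  push Not at h
  have hnorm : ∀ K : Subgroup G, K.Normal → (P : Subgroup G) ≤ K → K = ⊤ := fun K hK hP => by
    by_contra hne
    exact h K hK hne hP
  letI : Fintype (Lib.CharDeg.TISylow.Cn P) := Fintype.ofFinite _
  letI : Fintype (Lib.CharDeg.TISylow.Nn P) := Fintype.ofFinite _
  letI : Fintype (P : Subgroup G) := Fintype.ofFinite _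
  haveI := Cfsg.Agent.Lib.Char.Ortho.finite_irrCharacter (G := (P : Subgroup G))
  haveI := Cfsg.Agent.Lib.Char.Ortho.finite_irrCharacter (G := Lib.CharDeg.TISylow.Cn P)
  haveI := Cfsg.Agent.Lib.Char.Ortho.finite_irrCharacter (G := G)
  letI : Fintype (IrrCharacter (P : Subgroup G)) := Fintype.ofFinite _
  letI : Fintype (IrrCharacter (Lib.CharDeg.TISylow.Cn P)) := Fintype.ofFinite _
  letI : Fintype (IrrCharacter G) := Fintype.ofFinite _
  obtain ⟨d, hd⟩ := Cfsg.Agent.Lib.Char.Basic.exists_deg_of_isCharacter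
    (Cfsg.Agent.Lib.Char.Basic.isCharacter_of_isIrrCharacter χ.2)
  have hcd : charDegree (χ : G → ℂ) = d := by
    unfold charDegree
    rw [hd]
    simp
  rw [hcd] at hdeg ⊢
  obtain ⟨hx, hNC⟩ := Lib.CharDeg.TICore.core P hstar hpG hnorm χ.2 h1 hn hd hdeg
  refine ⟨?_, hx⟩
  have hle : Subgroup.normalizer ((P : Subgroup G) : Set G) ≤ Subgroup.centralizer ((P : Subgroup G) : Set G) := by
    have h3 : Lib.CharDeg.TISylow.Cn P = Lib.CharDeg.TISylow.Nn P :=
      Subgroup.eq_of_le_of_card_ge (Lib.CharDeg.TISylow.Cn_le_Nn P) hNC.le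
    exact h3.ge
  have hc := MonoidHom.ker_transferSylow_isComplement' P hle
  refine ⟨(MonoidHom.transferSylow P hle).ker, MonoidHom.normal_ker _, ?_⟩
  rw [hc.symm.index_eq_card, hn]

end Cfsg.Agent.S4486
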