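import Cfsg.Statements.S4488
import Cfsg.Agent.Lib.CharDeep.Schur.Bound

set_option autoImplicit false
open Cfsg

namespace Cfsg.Agent.S4488

/-- Let the finite group G have a faithful p-rational character χ of degree n (all values of χ lie in the field generated over ℚ by a root of unity of order prime to p), and let p^a be the order of a Sylow p-subgroup of G. Then a ≤ Σ_{i ≥ 0} ⌊n / ((p − 1)·p^i)⌋ (a finite sum; the terms vanish once (p − 1)p^i > n). -/
theorem result {G : Type*} [Group G] [Finite G] (p : ℕ) (hp : p.Prime) (χ : G → ℂ) (hχ : Cfsg.IsCharacter G χ) (hfaith : ∀ g : G, χ g = χ 1 → g = 1) (hrat : (∃ r : ℕ, 0 < r ∧ ¬ p ∣ r ∧ ∀ g : G, χ g ∈ IntermediateField.adjoin ℚ ({Complex.exp (2 * Real.pi * Complex.I / r)} : Set ℂ))) (n : ℕ) (hn : Cfsg.charDegree χ = n) : (Nat.card G).factorization p ≤ ∑ i ∈ Finset.range (n + 1), n / ((p - 1) * p ^ i) := by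
  classical
  haveI : Fact p.Prime := ⟨hp⟩
  letI := Fintype.ofFinite G
  obtain ⟨r, hr, hpr, hrat⟩ := hrat
  let S : Sylow p G := default
  let Q : Subgroup G := S
  letI : Fintype Q := Fintype.ofFinite Q
  haveI hfi := Cfsg.Agent.Lib.Char.Ortho.finite_irrCharacter (G := Q)
  letI : Fintype (Cfsg.IrrCharacter Q) := Fintype.ofFinite _
  have hQp : IsPGroup p Q := S.isPGroup'
  have hψ : Cfsg.IsCharacter Q (fun q : Q => χ q) :=
    Cfsg.Agent.Lib.Char.Basic.isCharacter_restrict Q hχ
  have hf : ∀ g : Q, χ g = χ ((1 : Q) : G) → g = 1 := by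
    intro g hg
    exact Subtype.ext (hfaith _ (by simpa using hg))
  have hn' : χ ((1 : Q) : G) = n := by
    rw [Subgroup.coe_one, ← hn, Cfsg.Agent.Lib.Char.Degree.charDegree_natCast hχ]
  obtain ⟨e, he⟩ := IsPGroup.iff_card.mp hQp
  have hqr : (Nat.card Q).Coprime r := by
    rw [he]
    exact Nat.Coprime.pow_left _ ((Nat.Prime.coprime_iff_not_dvd hp).mpr hpr)
  have hinv : ∀ k : ℕ, k.Coprime (Nat.card Q) → ∀ g : Q, χ ((g ^ k : Q) : G) = χ (g : G) := by
    intro k hk g
    obtain ⟨k', hk1, hk2⟩ := Nat.chineseRemainder hqr k 1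
    have hk'q : k'.Coprime (Nat.card Q) := by
      have := hk1.gcd_eq
      rw [Nat.Coprime, this]
      exact hk
    have hk'r : k'.Coprime r := by
      have := hk2.gcd_eq
      rw [Nat.Coprime, this]
      exact Nat.gcd_one_left r
    have hM : Nat.card Q * r ≠ 0 := Nat.mul_ne_zero Nat.card_pos.ne' hr.ne'
    obtain ⟨σ, hσ⟩ := Cfsg.Agent.Lib.OddChar.GaloisConj.exists_ringEquiv_pow (Nat.card Q * r) k' hM
      (Nat.Coprime.mul_right hk'q hk'r)
    set ζ : ℂ := Complex.exp (2 * Real.pi * Complex.I / r) with hζ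
    have hζp := Complex.isPrimitiveRoot_exp r hr.ne'
    have hζfix : σ ζ = ζ := by
      have h1 : ζ ^ (Nat.card Q * r) = 1 := by
        rw [mul_comm, pow_mul, hζp.pow_eq_one, one_pow]
      rw [hσ ζ h1]
      have h2 : k' % r = 1 % r := hk2
      rw [pow_eq_pow_mod k' hζp.pow_eq_one, h2, ← pow_eq_pow_mod 1 hζp.pow_eq_one, pow_one]
    let E : IntermediateField ℚ ℂ :=
      { carrier := {x | σ x = x}
        mul_mem' := by
          intro a b ha hb
          change σ (a * b) = a * b
          rw [map_mul, show σ a = a from ha, show σ b = b from hb]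
        add_mem' := by
          intro a b ha hb
          change σ (a + b) = a + b
          rw [map_add, show σ a = a from ha, show σ b = b from hb]
        algebraMap_mem' := by
          intro q
          change σ (algebraMap ℚ ℂ q) = algebraMap ℚ ℂ q
          simp
        inv_mem' := by
          intro a ha
          change σ a⁻¹ = a⁻¹
          rw [map_inv₀, show σ a = a from ha] }
    have hE : IntermediateField.adjoin ℚ ({ζ} : Set ℂ) ≤ E :=
      IntermediateField.adjoin_le_iff.mpr (by
        rintro _ rfl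
        exact hζfix)
    have h1 : σ (χ g) = χ g := hE (hrat g)
    have h2 := Cfsg.Agent.Lib.OddChar.GaloisConj.comp_character_eq (f := (σ : ℂ →+* ℂ)) hσ
      (Dvd.intro r rfl) hψ g
    have h3 : g ^ k' = g ^ k :=
      (pow_eq_pow_iff_modEq (x := g)).mpr (hk1.of_dvd (orderOf_dvd_natCard g))
    have h4 : σ (χ g) = χ ((g ^ k' : Q) : G) := h2
    rw [← h3, ← h4, h1]
  obtain ⟨v, hv, hvle⟩ := Cfsg.Agent.Lib.CharDeep.Schur.pgroup_bound hQp hψ hf hinv n hn'
  have hcard : Nat.card Q = p ^ (Nat.card G).factorization p := S.card_eq_multiplicity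
  have hvv : v = (Nat.card G).factorization p := by
    rw [hcard] at hv
    exact (Nat.pow_right_injective hp.two_le hv).symm
  rw [← hvv]
  exact hvle

end Cfsg.Agent.S4488
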