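import Cfsg.Statements.S4490
import Cfsg.Agent.Lib.BlockP.Defect

set_option autoImplicit false
open Cfsg

namespace Cfsg.Agent.S4490

/-- Let G be a finite group and M a maximal ideal of the algebraic integers containing 2. Every 2-block B of G whose defect groups are the Sylow 2-subgroups of G (a block of full defect) and which is not the principal block is different from its complex-conjugate block, the block formed by the complex conjugates of the members of B. -/
theorem result {G : Type*} [Group G] [Finite G] (M : Ideal Cfsg.AlgInt) (hM : Cfsg.IsPModular 2 M) (B : Set (Cfsg.IrrCharacter G)) (hB : Cfsg.IsPBlock M B) (P : Sylow 2 G) (hfull : Cfsg.IsDefectGroup 2 M B (P : Subgroup G)) (hnp : B ≠ Cfsg.principalBlock M G) : {ψ : Cfsg.IrrCharacter G | ∃ χ ∈ B, (ψ : G → ℂ) = fun g => (starRingEnd ℂ) ((χ : G → ℂ) g)} ≠ B := by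
  classical
  cases nonempty_fintype G
  intro hconj
  apply hnp
  haveI hprime : M.IsPrime := Cfsg.Agent.Lib.Blocks.Local.isPrime_of_pModular hM
  haveI : Fact (Nat.Prime 2) := ⟨Nat.prime_two⟩
  have hfinI := Cfsg.Agent.Lib.Char.Ortho.finite_irrCharacter (G := G)
  letI := Fintype.ofFinite (Cfsg.IrrCharacter G)
  -- a member of odd degree
  obtain ⟨g, hg, Q, hQ⟩ := hfull
  have hdefect : Cfsg.blockDefect 2 B = (Nat.card G).factorization 2 := by
    have h1 := Cfsg.Agent.Lib.BlockP.Defect.factorization_centralizer_eq hM hB hg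
    have h2 : Nat.card Q = Nat.card P := by
      apply Nat.card_congr
      rw [hQ]
      exact (Q : Subgroup (Subgroup.centralizer ({g} : Set G))).equivMapOfInjective _
        (Subgroup.subtype_injective _) |>.toEquiv
    rw [Q.card_eq_multiplicity, P.card_eq_multiplicity] at h2
    have h3 := Nat.pow_right_injective (le_refl 2) h2
    rw [← h1, h3]
  obtain ⟨χ₀, hχ₀, hodd⟩ := Cfsg.Agent.Lib.BlockP.Stable.exists_odd_of_blockDefect (M := M)
    (Cfsg.Agent.Lib.Blocks.Central.isPBlock_nonempty hB) hdefect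
  -- conjugation on the block
  have hconj1 : ∀ χ ∈ B, ∃ ψ ∈ B, (ψ : G → ℂ) = fun g => (starRingEnd ℂ) ((χ : G → ℂ) g) := by
    intro χ hχ
    rw [← hconj] at hχ
    obtain ⟨ψ, hψ, h⟩ := hχ
    refine ⟨ψ, hψ, ?_⟩
    rw [h]
    funext g
    simp
  let e : Cfsg.IrrCharacter G → Cfsg.IrrCharacter G := fun χ =>
    if h : χ ∈ B then (hconj1 χ h).choose else χ
  have he : ∀ χ ∈ B, e χ ∈ B ∧ ∀ g : G, (e χ : G → ℂ) g = (starRingEnd ℂ) ((χ : G → ℂ) g) := by
    intro χ h
    simp only [e, dif_pos h]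
    have := (hconj1 χ h).choose_spec
    exact ⟨this.1, fun g => congrFun this.2 g⟩
  have hinj : Set.InjOn e B := by
    intro χ hχ χ' hχ' heq
    apply Subtype.ext
    funext y
    have h1 := (he χ hχ).2 y
    have h2 := (he χ' hχ').2 y
    rw [heq, h2] at h1
    exact ((starRingEnd ℂ).injective h1).symm
  have hbij : Set.BijOn e B B :=
    (Set.Finite.injOn_iff_bijOn_of_mapsTo (Set.toFinite B) (fun χ h => (he χ h).1)).mp hinj
  have hdeg : ∀ χ : Cfsg.IrrCharacter G, (starRingEnd ℂ) ((χ : G → ℂ) 1) = (χ : G → ℂ) 1 := by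
    intro χ
    rw [← Cfsg.Agent.Lib.Char.Degree.charDegree_natCast
      (Cfsg.Agent.Lib.Char.Basic.isCharacter_of_isIrrCharacter χ.2), Complex.conj_natCast]
  have hinvchar : ∀ (χ : Cfsg.IrrCharacter G) (g : G),
      (χ : G → ℂ) g⁻¹ = (starRingEnd ℂ) ((χ : G → ℂ) g) := fun χ g =>
    Cfsg.Agent.Lib.Char.Ortho.char_inv_eq_conj
      (Cfsg.Agent.Lib.Char.Basic.isCharacter_of_isIrrCharacter χ.2) g
  have hinv : ∀ g : G, Odd (orderOf g) → Cfsg.blockCoeff B g⁻¹ = Cfsg.blockCoeff B g := by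
    intro g _
    unfold Cfsg.blockCoeff
    congr 1
    apply finsum_mem_eq_of_bijOn e hbij
    intro χ hχ
    rw [(he χ hχ).2 g, (he χ hχ).2 1, hdeg, hinvchar]
  refine Cfsg.Agent.Lib.BlockP.Stable.eq_principalBlock_of_stable hM hB hinv χ₀ hχ₀ hodd ?_
  intro g hg
  have h1 : Cfsg.SameBlock M (χ₀ : G → ℂ) (e χ₀ : G → ℂ) := by
    have h2 := (he χ₀ hχ₀).1
    have h3 := Cfsg.Agent.Lib.Blocks.Central.isPBlock_eq_blockOf hB hχ₀
    rw [h3] at h2
    exact h2
  have h2 : Cfsg.centralChar (e χ₀ : G → ℂ) g = Cfsg.centralChar (χ₀ : G → ℂ) g⁻¹ := by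
    rw [Cfsg.centralChar, Cfsg.centralChar, (he χ₀ hχ₀).2 g, (he χ₀ hχ₀).2 1, hdeg, hinvchar,
      Cfsg.Agent.Lib.BlockP.Stable.centralizer_inv]
  have h3 := h1 g
  rwa [h2] at h3

end Cfsg.Agent.S4490
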