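import Cfsg.Statements.S4495
import Cfsg.Agent.Lib.SelfCent.Basic

set_option autoImplicit false
open Cfsg

namespace Cfsg.Agent.S4495

open Cfsg.Agent.Lib.SelfCent.Basic in
/-- Let the finite group G contain an element x of prime order p with C_G(x) = ⟨x⟩, and let t be the number of conjugacy classes of elements of order p. If t ≠ p − 1 then the commutator subgroup has index at most (p − 1)/t; if t = p − 1 it has index exactly p. -/
theorem result {G : Type*} [Group G] [Finite G] (p : ℕ) (hp : p.Prime) (x : G) (hx : orderOf x = p) (hC : Subgroup.centralizer ({x} : Set G) = Subgroup.zpowers x) (t : ℕ) (ht : Nat.card {C : ConjClasses G // ∃ g ∈ C.carrier, orderOf g = p} = t) : (t ≠ p - 1 → (commutator G).index * t ≤ p - 1) ∧ (t = p - 1 → (commutator G).index = p) := by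
  have hcount := card_classes_mul_relIndex hp hx hC
  rw [ht] at hcount
  set N := Subgroup.normalizer ((Subgroup.zpowers x : Subgroup G) : Set G) with hNdef
  set e := (Subgroup.zpowers x).relIndex N with he
  have hp1 : 0 < p - 1 := Nat.sub_pos_of_lt hp.one_lt
  have het : 0 < e := by
    rcases Nat.eq_zero_or_pos e with h | h
    · rw [h, mul_zero] at hcount; omega
    · exact h
  have htp : 0 < t := by
    rcases Nat.eq_zero_or_pos t with h | h
    · rw [h, zero_mul] at hcount; omega
    · exact h
  constructor
  · intro hne
    have hN : ¬ N ≤ Subgroup.zpowers x := by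
      intro hle
      have h1 : e = 1 := Subgroup.relIndex_eq_one.2 hle
      rw [h1, mul_one] at hcount
      exact hne hcount
    have hle := zpowers_le_commutator hp hx hC hN
    have hd := index_commutator_dvd hp hx hC hle
    have h2 : (commutator G).index ≤ e := Nat.le_of_dvd het hd
    calc (commutator G).index * t ≤ e * t := Nat.mul_le_mul_right _ h2
      _ = t * e := mul_comm _ _
      _ = p - 1 := hcount
  · intro htp1
    have he1 : e = 1 := by
      rw [htp1] at hcount
      exact Nat.eq_of_mul_eq_mul_left hp1 (by rw [hcount, mul_one])
    have hN : N ≤ Subgroup.zpowers x := Subgroup.relIndex_eq_one.1 he1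
    obtain ⟨K, hK, hK2, hK3, _⟩ := exists_normal_complement hp hx hC hN
    apply index_commutator_of_not_dvd hp hx hC
    intro h
    exact hK2 (h.trans (Subgroup.card_dvd_of_le hK3))

end Cfsg.Agent.S4495
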