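import Cfsg.Statements.S4497
import Cfsg.Agent.Lib.SelfCent.Basic
import Cfsg.Agent.Lib.SelfCent.CoreLemmas

set_option autoImplicit false
open Cfsg

namespace Cfsg.Agent.S4497

open Cfsg.Agent.Lib.SelfCent.Basic Cfsg.Agent.Lib.SelfCent.CoreLemmas Subgroup

variable {G : Type*} [Group G] [Finite G]

theorem not_dvd_core {p : ℕ} (hp : p.Prime) : ¬ p ∣ Nat.card (Cfsg.pPrimeCore p G) := by
  have h := pPrimeCore_coprime (G := G) p
  exact (Nat.Prime.coprime_iff_not_dvd hp).1 h.symm

/-- The self-centralizing property passes to a subgroup containing `x`. -/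
theorem centralizer_in_subgroup {x : G} (D : Subgroup G) (hxD : x ∈ D)
    (hC : centralizer ({x} : Set G) = zpowers x) :
    centralizer ({(⟨x, hxD⟩ : D)} : Set D) = zpowers (⟨x, hxD⟩ : D) := by
  apply le_antisymm
  · intro d hd
    rw [mem_centralizer_singleton_iff] at hd
    have h1 : (d : G) * x = x * d := congrArg Subtype.val hd
    have h2 : (d : G) ∈ zpowers x := hC ▸ mem_centralizer_of_commute h1
    obtain ⟨k, hk⟩ := mem_zpowers_iff.1 h2
    refine mem_zpowers_iff.2 ⟨k, ?_⟩
    apply Subtype.ext
    simpa using hk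
  · rw [zpowers_le, mem_centralizer_singleton_iff]

theorem orderOf_in_subgroup {x : G} (D : Subgroup G) (hxD : x ∈ D) :
    orderOf (⟨x, hxD⟩ : D) = orderOf x := by
  rw [← Subgroup.orderOf_coe]

/-- The main part: `G'/O_{p'}(G)` is simple when `x ∈ G'`. -/
theorem simple_quotient {p : ℕ} {x : G} (hp : p.Prime) (hx : orderOf x = p)
    (hC : centralizer ({x} : Set G) = zpowers x) (hxD : x ∈ commutator G)
    (h : ((Cfsg.pPrimeCore p G).subgroupOf (commutator G)).Normal) :
    IsSimpleGroup (↥(commutator G) ⧸ (Cfsg.pPrimeCore p G).subgroupOf (commutator G)) := by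
  set D := commutator G with hD
  set Z := (Cfsg.pPrimeCore p G).subgroupOf D with hZ
  have hSn := pPrimeCore_isNormal (G := G) p
  have hnd := not_dvd_core (G := G) hp
  let x' : D := ⟨x, hxD⟩
  have hx' : orderOf x' = p := by rw [← hx]; exact orderOf_in_subgroup D hxD
  have hC' : centralizer ({x'} : Set D) = zpowers x' := centralizer_in_subgroup D hxD hC
  have hxZ : x' ∉ Z := by
    intro hh
    exact not_mem_of_not_dvd hp hx _ hnd (Subgroup.mem_subgroupOf.1 hh)
  have hZle : ∀ z : D, (z : G) ∈ Cfsg.pPrimeCore p G → z ∈ Z := fun z hz =>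
    Subgroup.mem_subgroupOf.2 hz
  haveI : Nontrivial (D ⧸ Z) := by
    refine ⟨⟨QuotientGroup.mk x', 1, ?_⟩⟩
    rw [Ne, QuotientGroup.eq_one_iff]
    exact hxZ
  refine ⟨?_⟩
  intro Hbar hHn
  let L : Subgroup D := Hbar.comap (QuotientGroup.mk' Z)
  have hLn : L.Normal := hHn.comap _
  have hZL : ∀ z : D, z ∈ Z → z ∈ L := by
    intro z hz
    show (QuotientGroup.mk' Z) z ∈ Hbar
    have : (QuotientGroup.mk' Z) z = 1 := (QuotientGroup.eq_one_iff _).2 hz
    rw [this]
    exact Hbar.one_mem
  by_cases hpL : p ∣ Nat.card L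
  · right
    have hcomm : commutator D ≤ L := commutator_le_of_dvd hp hx' hC' L hpL
    have hxL : zpowers x' ≤ L := zpowers_le_of_dvd hp hx' hC' L hpL
    have hLtop : ∀ d : D, d ∈ L := by
      intro d
      have hD2 : (commutator D).map D.subtype = ⁅D, D⁆ := Subgroup.map_subtype_commutator D
      by_cases hp2 : p ∣ Nat.card (⁅D, D⁆ : Subgroup G)
      · have hnn : (⁅D, D⁆ : Subgroup G).Normal := Subgroup.commutator_normal _ _
        have h1 : commutator G ≤ (⁅D, D⁆ : Subgroup G) := commutator_le_of_dvd hp hx hC _ hp2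
        have h2 : (d : G) ∈ (⁅D, D⁆ : Subgroup G) := h1 d.2
        rw [← hD2] at h2
        obtain ⟨d', hd', hdd⟩ := h2
        have : d' = d := Subtype.ext hdd
        rw [← this]
        exact hcomm hd'
      · have hnn : (⁅D, D⁆ : Subgroup G).Normal := Subgroup.commutator_normal _ _
        have hle : (⁅D, D⁆ : Subgroup G) ≤ Cfsg.pPrimeCore p G := by
          apply le_pPrimeCore p hnn
          exact ((Nat.Prime.coprime_iff_not_dvd hp).2 hp2).symm
        have hc : (d : G) * x * (d : G)⁻¹ * x⁻¹ ∈ (⁅D, D⁆ : Subgroup G) := by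
          have := Subgroup.commutator_mem_commutator d.2 hxD
          simpa [commutatorElement_def] using this
        obtain ⟨u, hu, h3⟩ := mem_sup_zpowers_of_commutator_mem hp hx hC _ hp2 hc
        have huD : u ∈ D := by
          have : (⁅D, D⁆ : Subgroup G) ≤ D := Subgroup.commutator_le_left D D
          exact this hu
        let u' : D := ⟨u, huD⟩
        have hu'L : u' ∈ L := hZL u' (hZle u' (hle hu))
        have h4 : u' * d ∈ zpowers x' := by
          obtain ⟨k, hk⟩ := mem_zpowers_iff.1 h3
          refine mem_zpowers_iff.2 ⟨k, ?_⟩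
          apply Subtype.ext
          simpa [x', u'] using hk
        have h5 : d = u'⁻¹ * (u' * d) := by group
        rw [h5]
        exact L.mul_mem (L.inv_mem hu'L) (hxL h4)
    rw [eq_top_iff]
    intro q _
    obtain ⟨d, rfl⟩ := QuotientGroup.mk_surjective q
    exact hLtop d
  · left
    have hLcore : L ≤ Cfsg.pPrimeCore p D := by
      apply le_pPrimeCore p hLn
      exact ((Nat.Prime.coprime_iff_not_dvd hp).2 hpL).symm
    rw [eq_bot_iff]
    intro q hq
    obtain ⟨d, rfl⟩ := QuotientGroup.mk_surjective q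
    have hdL : d ∈ L := hq
    have h1 : (d : G) ∈ Cfsg.pPrimeCore p G :=
      map_pPrimeCore_le p D ⟨d, hLcore hdL, rfl⟩
    rw [Subgroup.mem_bot, QuotientGroup.eq_one_iff]
    exact hZle d h1

/-- Let the finite group G contain an element x of prime order p with C_G(x) = ⟨x⟩, let t be the number of conjugacy classes of elements of order p, and let S* = O_{p′}(G) be the largest normal subgroup of order prime to p. Then S* ≤ G′; if t ≠ p − 1 the quotient G′/S* is simple (in particular non-trivial); if t = p − 1 then G′ = S*. -/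
theorem result {G : Type*} [Group G] [Finite G] (p : ℕ) (hp : p.Prime) (x : G) (hx : orderOf x = p) (hC : Subgroup.centralizer ({x} : Set G) = Subgroup.zpowers x) (t : ℕ) (ht : Nat.card {C : ConjClasses G // ∃ g ∈ C.carrier, orderOf g = p} = t) : Cfsg.pPrimeCore p G ≤ commutator G ∧ (t ≠ p - 1 → ∀ h : ((Cfsg.pPrimeCore p G).subgroupOf (commutator G)).Normal, IsSimpleGroup (↥(commutator G) ⧸ (Cfsg.pPrimeCore p G).subgroupOf (commutator G))) ∧ (t = p - 1 → commutator G = Cfsg.pPrimeCore p G) := by
  have hSn := pPrimeCore_isNormal (G := G) p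
  have hnd := not_dvd_core (G := G) hp
  have h1 : Cfsg.pPrimeCore p G ≤ commutator G := le_commutator_of_not_dvd hp hx hC _ hnd
  have hcount := card_classes_mul_relIndex hp hx hC
  rw [ht] at hcount
  have hp1 : 0 < p - 1 := Nat.sub_pos_of_lt hp.one_lt
  refine ⟨h1, ?_, ?_⟩
  · intro hne h
    have hN : ¬ normalizer ((zpowers x : Subgroup G) : Set G) ≤ zpowers x := by
      intro hle
      have h2 : (zpowers x).relIndex (normalizer ((zpowers x : Subgroup G) : Set G)) = 1 :=
        Subgroup.relIndex_eq_one.2 hle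
      rw [h2, mul_one] at hcount
      exact hne hcount
    have hle := zpowers_le_commutator hp hx hC hN
    exact simple_quotient hp hx hC (hle (mem_zpowers x)) h
  · intro htp1
    have he1 : (zpowers x).relIndex (normalizer ((zpowers x : Subgroup G) : Set G)) = 1 := by
      rw [htp1] at hcount
      exact Nat.eq_of_mul_eq_mul_left hp1 (by rw [hcount, mul_one])
    have hN := Subgroup.relIndex_eq_one.1 he1
    obtain ⟨K, hK, hK2, hK3, _⟩ := exists_normal_complement hp hx hC hN
    apply le_antisymm _ h1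
    refine hK3.trans (le_pPrimeCore p hK ?_)
    exact ((Nat.Prime.coprime_iff_not_dvd hp).2 hK2).symm

end Cfsg.Agent.S4497
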