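import Cfsg.Statements.S4498
import Mathlib
import Cfsg.Agent.Lib.Blocks.Weak
import Cfsg.Agent.Lib.Char.Burnside

set_option autoImplicit false
open Cfsg

namespace Cfsg.Agent.S4498

open scoped ComplexConjugate

/-- Let p and q be distinct primes dividing the order of the finite group G, and suppose G has no element of order p·q. Fix maximal ideals M_p over p and M_q over q of the algebraic integers. Then the principal p-block and the principal q-block of G have a non-principal irreducible character in common. -/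
theorem result {G : Type*} [Group G] [Finite G] (p q : ℕ) [Fact p.Prime] [Fact q.Prime] (hpq : p ≠ q) (hp : p ∣ Nat.card G) (hq : q ∣ Nat.card G) (hno : ∀ g : G, orderOf g ≠ p * q) (Mp Mq : Ideal Cfsg.AlgInt) (hMp : Cfsg.IsPModular p Mp) (hMq : Cfsg.IsPModular q Mq) : ∃ χ : Cfsg.IrrCharacter G, (χ : G → ℂ) ≠ (fun _ => 1) ∧ χ ∈ Cfsg.principalBlock Mp G ∧ χ ∈ Cfsg.principalBlock Mq G := by
  classical
  cases nonempty_fintype G
  haveI := Cfsg.Agent.Lib.Char.Ortho.finite_irrCharacter (G := G)
  letI : Fintype (IrrCharacter G) := Fintype.ofFinite _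
  have hpp : p.Prime := Fact.out
  have hqp : q.Prime := Fact.out
  haveI := Cfsg.Agent.Lib.Blocks.Local.isPrime_of_pModular hMp
  haveI := Cfsg.Agent.Lib.Blocks.Local.isPrime_of_pModular hMq
  let one : IrrCharacter G := ⟨fun _ => 1, Cfsg.Agent.Lib.Char.Burnside.isIrrCharacter_one⟩
  have hbp : IsPBlock Mp (principalBlock Mp G) := ⟨one, rfl⟩
  have hbq : IsPBlock Mq (principalBlock Mq G) := ⟨one, rfl⟩
  have h1p : one ∈ principalBlock Mp G := Cfsg.Agent.Lib.Blocks.Central.mem_blockOf_self one
  have h1q : one ∈ principalBlock Mq G := Cfsg.Agent.Lib.Blocks.Central.mem_blockOf_self one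
  obtain ⟨x, hx⟩ := exists_prime_orderOf_dvd_card' p hp
  obtain ⟨y, hy⟩ := exists_prime_orderOf_dvd_card' q hq
  have hxs : p ∣ orderOf x := by rw [hx]
  have hys : q ∣ orderOf y := by rw [hy]
  by_contra hcon
  push Not at hcon
  have hcon' : ∀ χ : IrrCharacter G, χ ∈ principalBlock Mp G → χ ∈ principalBlock Mq G → χ = one := by
    intro χ h1 h2
    by_contra hne
    exact hcon χ (fun h => hne (Subtype.ext h)) h1 h2
  let A : G → ℂ := fun g => ∑ χ : IrrCharacter G,
    (if χ ∈ principalBlock Mp G then (χ : G → ℂ) g * conj ((χ : G → ℂ) x) else 0)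
  let C : G → ℂ := fun g => ∑ ψ : IrrCharacter G,
    (if ψ ∈ principalBlock Mq G then (ψ : G → ℂ) g * conj ((ψ : G → ℂ) y) else 0)
  have hA : ∀ g, ¬ p ∣ orderOf g → A g = 0 := fun g hg =>
    Cfsg.Agent.Lib.Blocks.Weak.sum_block_eq_zero hMp hbp g x hg hxs
  have hC : ∀ g, ¬ q ∣ orderOf g → C g = 0 := fun g hg =>
    Cfsg.Agent.Lib.Blocks.Weak.sum_block_eq_zero hMq hbq g y hg hys
  have hAC : ∀ g, A g * conj (C g) = 0 := by
    intro g
    by_cases hg : p ∣ orderOf g
    · by_cases hg2 : q ∣ orderOf g
      · exfalso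
        have hc : Nat.Coprime p q := (Nat.coprime_primes hpp hqp).mpr hpq
        have hd : p * q ∣ orderOf g := hc.mul_dvd_of_dvd_of_dvd hg hg2
        apply hno (g ^ (orderOf g / (p * q)))
        exact orderOf_pow_orderOf_div (orderOf_pos g).ne' hd
      · rw [hC g hg2]
        simp
    · rw [hA g hg]
      simp
  have hsum : ∑ g : G, A g * conj (C g) = 0 := Finset.sum_eq_zero fun g _ => hAC g
  -- expand
  have hexp : ∑ g : G, A g * conj (C g) = (Nat.card G : ℂ) *
      ∑ χ : IrrCharacter G, (if χ ∈ principalBlock Mp G ∧ χ ∈ principalBlock Mq G then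
        conj ((χ : G → ℂ) x) * (χ : G → ℂ) y else 0) := by
    have h1 : ∀ g, A g * conj (C g) = ∑ χ : IrrCharacter G, ∑ ψ : IrrCharacter G,
        (if χ ∈ principalBlock Mp G then (if ψ ∈ principalBlock Mq G then
          conj ((χ : G → ℂ) x) * (ψ : G → ℂ) y * ((χ : G → ℂ) g * conj ((ψ : G → ℂ) g)) else 0) else 0) := by
      intro g
      change (∑ χ : IrrCharacter G, _) * conj (∑ ψ : IrrCharacter G, _) = _
      rw [map_sum, Finset.sum_mul_sum]
      refine Finset.sum_congr rfl fun χ _ => Finset.sum_congr rfl fun ψ _ => ?_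
      by_cases h1 : χ ∈ principalBlock Mp G
      · by_cases h2 : ψ ∈ principalBlock Mq G
        · rw [if_pos h1, if_pos h2, if_pos h1, if_pos h2, map_mul, Complex.conj_conj]
          ring
        · simp [h2]
      · simp [h1]
    simp_rw [h1]
    rw [Finset.sum_comm, Finset.mul_sum]
    refine Finset.sum_congr rfl fun χ _ => ?_
    rw [Finset.sum_comm, Finset.sum_eq_single χ]
    · by_cases h2 : χ ∈ principalBlock Mp G
      · by_cases h3 : χ ∈ principalBlock Mq G
        · simp only [if_pos h2, if_pos h3, if_pos (And.intro h2 h3)]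
          rw [← Finset.mul_sum]
          have h4 := Cfsg.Agent.Lib.Char.Ortho.classInner_self_of_isIrr χ.2
          unfold classInner at h4
          have hc : (Nat.card G : ℂ) ≠ 0 := Nat.cast_ne_zero.mpr Nat.card_pos.ne'
          have h5 : ∑ g : G, (χ : G → ℂ) g * conj ((χ : G → ℂ) g) = Nat.card G := by
            field_simp at h4
            exact h4
          rw [h5]
          ring
        · simp [h3]
      · simp [h2]
    · intro ψ _ hψ
      by_cases h2 : χ ∈ principalBlock Mp G
      · by_cases h3 : ψ ∈ principalBlock Mq G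
        · simp only [if_pos h2, if_pos h3]
          rw [← Finset.mul_sum]
          have h4 := Cfsg.Agent.Lib.Char.Ortho.classInner_eq_zero_of_isIrr_of_ne χ.2 ψ.2
            (fun h => hψ (Subtype.ext h.symm))
          unfold classInner at h4
          have hc : (Nat.card G : ℂ)⁻¹ ≠ 0 := inv_ne_zero (Nat.cast_ne_zero.mpr Nat.card_pos.ne')
          rw [(mul_eq_zero.mp h4).resolve_left hc, mul_zero]
        · simp [h3]
      · simp [h2]
    · intro h
      exact absurd (Finset.mem_univ _) h
  have hval : ∑ χ : IrrCharacter G, (if χ ∈ principalBlock Mp G ∧ χ ∈ principalBlock Mq G then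
      conj ((χ : G → ℂ) x) * (χ : G → ℂ) y else 0) = 1 := by
    rw [Finset.sum_eq_single one]
    · rw [if_pos ⟨h1p, h1q⟩]
      simp [one]
    · intro χ _ hχ
      rw [if_neg (fun h => hχ (hcon' χ h.1 h.2))]
    · intro h
      exact absurd (Finset.mem_univ _) h
  rw [hexp, hval, mul_one] at hsum
  exact (Nat.cast_ne_zero.mpr Nat.card_pos.ne') hsum

end Cfsg.Agent.S4498
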