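import Cfsg.Statements.S4499
import Mathlib
import Cfsg.Agent.Lib.BlockP.TopHeight

set_option autoImplicit false
open Cfsg

namespace Cfsg.Agent.S4499

/-- Let G be a finite group whose order has p-part p^a (a ≥ 1), and fix a maximal ideal M of the algebraic integers containing p. If the degree of one irreducible character of a p-block B is divisible by p^(a−1), then the degree of every irreducible character in B is divisible by p^(a−1) (so B has defect at most 1). -/
theorem result {G : Type*} [Group G] [Finite G] (p : ℕ) [Fact p.Prime] (M : Ideal Cfsg.AlgInt) (hM : Cfsg.IsPModular p M) (hpa : p ∣ Nat.card G) (B : Set (Cfsg.IrrCharacter G)) (hB : Cfsg.IsPBlock M B) (χ : Cfsg.IrrCharacter G) (hχ : χ ∈ B) (hdiv : p ^ ((Nat.card G).factorization p - 1) ∣ Cfsg.charDegree (χ : G → ℂ)) (ψ : Cfsg.IrrCharacter G) (hψ : ψ ∈ B) : p ^ ((Nat.card G).factorization p - 1) ∣ Cfsg.charDegree (ψ : G → ℂ) := by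
  classical
  cases nonempty_fintype G
  letI : Fintype (ConjClasses G) := Fintype.ofFinite _
  have hp : p.Prime := Fact.out
  haveI := Cfsg.Agent.Lib.Blocks.Local.isPrime_of_pModular hM
  have hG0 : Nat.card G ≠ 0 := Nat.card_pos.ne'
  have hsb : SameBlock M (χ : G → ℂ) (ψ : G → ℂ) := by
    obtain ⟨χ₀, rfl⟩ := hB
    exact Cfsg.Agent.Lib.Blocks.Central.sameBlock_trans
      (Cfsg.Agent.Lib.Blocks.Central.sameBlock_symm hχ) hψ
  exact Cfsg.Agent.Lib.BlockP.TopHeight.dvd_of_sameBlock hM hsb
    (Nat.ordProj_mul_ordCompl_eq_self (Nat.card G) p).symm (Nat.not_dvd_ordCompl hp hG0) hdiv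

end Cfsg.Agent.S4499
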