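import Cfsg.Statements.S4500
import Mathlib
import Cfsg.Agent.Lib.BlockP.TopHeight
import Cfsg.Agent.Lib.BlockH.Basic
import Cfsg.Agent.Lib.Blk89.Basic
import Cfsg.Agent.Lib.Char.Burnside

set_option autoImplicit false
open Cfsg

namespace Cfsg.Agent.S4500

open scoped ComplexConjugate
open Cfsg.Agent.Lib.BlockP.TopHeight

theorem aux {G : Type*} [Group G] [Finite G] [Nontrivial G] (p q r a b c : ℕ) (hp : p.Prime)
    (hq : q.Prime) (hr : r.Prime) (hpq : p ≠ q) (hpr : p ≠ r) (ha : a ≤ 2)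
    (hG : Nat.card G = p ^ a * q ^ b * r ^ c) :
    ∃ χ : Cfsg.IrrCharacter G, (χ : G → ℂ) ≠ (fun _ => 1) ∧ ∃ k : ℕ,
      Cfsg.charDegree (χ : G → ℂ) = q ^ k := by
  classical
  cases nonempty_fintype G
  haveI := Cfsg.Agent.Lib.Char.Ortho.finite_irrCharacter (G := G)
  letI : Fintype (IrrCharacter G) := Fintype.ofFinite _
  letI : Fintype (ConjClasses G) := Fintype.ofFinite _
  haveI := Fact.mk hp
  -- the linear case
  have hlin : commutator G ≠ ⊤ → ∃ χ : Cfsg.IrrCharacter G, (χ : G → ℂ) ≠ (fun _ => 1) ∧ ∃ k : ℕ,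
      Cfsg.charDegree (χ : G → ℂ) = q ^ k := by
    intro h
    obtain ⟨lam, hlam⟩ := Cfsg.Agent.Lib.Blk89.Basic.exists_linear_ne_one h
    refine ⟨⟨fun g => (lam g : ℂ), Cfsg.Agent.Lib.Char.Linear.isIrrCharacter_of_hom lam⟩, ?_, 0, ?_⟩
    · intro h1
      apply hlam
      ext g
      simpa using congrFun h1 g
    · rw [pow_zero]
      apply Cfsg.Agent.Lib.BlockT.CharSum.charDegree_of_eq_natCast
      simp
  rcases Nat.eq_zero_or_pos a with ha0 | ha0
  · apply hlin
    subst ha0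
    have hG' : Nat.card G = q ^ b * r ^ c := by simpa using hG
    have hsolv : Group.IsSolvable G :=
      Cfsg.Agent.Lib.Char.Burnside.isSolvable_of_card_eq q r b c hq hr hG'
    exact (Group.IsSolvable.commutator_lt_top_of_nontrivial G).ne
  -- a ≥ 1
  obtain ⟨M, hM⟩ := Cfsg.Agent.Lib.BlockH.Basic.exists_isPModular hp
  haveI := Cfsg.Agent.Lib.Blocks.Local.isPrime_of_pModular hM
  have hpG : p ∣ Nat.card G := by
    rw [hG]
    exact Dvd.dvd.mul_right (Dvd.dvd.mul_right (dvd_pow_self p ha0.ne') _) _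
  obtain ⟨x, hx⟩ := exists_prime_orderOf_dvd_card' p hpG
  have hxs : p ∣ orderOf x := by rw [hx]
  let one : IrrCharacter G := ⟨fun _ => 1, Cfsg.Agent.Lib.Char.Burnside.isIrrCharacter_one⟩
  have hbp : IsPBlock M (principalBlock M G) := ⟨one, rfl⟩
  have h1p : one ∈ principalBlock M G := Cfsg.Agent.Lib.Blocks.Central.mem_blockOf_self one
  have horth := Cfsg.Agent.Lib.Blocks.Weak.sum_block_eq_zero hM hbp 1 x
    (by rw [orderOf_one]; simpa using hp.ne_one) hxs
  -- a member of the principal block, not trivial, of degree prime to `r`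
  obtain ⟨χ, hχB, hχ1, hχr⟩ : ∃ χ : IrrCharacter G, χ ∈ principalBlock M G ∧ χ ≠ one ∧
      ¬ r ∣ Cfsg.charDegree (χ : G → ℂ) := by
    by_contra hcon
    push Not at hcon
    rw [← Finset.add_sum_erase _ _ (Finset.mem_univ one), if_pos h1p] at horth
    have h1 : ((one : IrrCharacter G) : G → ℂ) 1 * conj (((one : IrrCharacter G) : G → ℂ) x) = 1 := by
      simp [one]
    rw [h1] at horth
    choose! m hm using fun χ : IrrCharacter G => fun (h : χ ∈ principalBlock M G ∧ χ ≠ one) =>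
      hcon χ h.1 h.2
    let z : ℂ := ∑ χ ∈ Finset.univ.erase one, if χ ∈ principalBlock M G then
      (m χ : ℂ) * conj ((χ : G → ℂ) x) else 0
    have hz : IsIntegral ℤ z := by
      refine IsIntegral.sum _ fun χ _ => ?_
      split_ifs
      · exact (isIntegral_natCast (a := m χ)).mul (Cfsg.Agent.Lib.BlockP.Defect.isIntegral_conj
          (Cfsg.Agent.Lib.BlockP.Stable.isIntegral_irr χ x))
      · exact isIntegral_zero
    have hrz : (r : ℂ) * z = -1 := by
      have h2 : (r : ℂ) * z = ∑ χ ∈ Finset.univ.erase one, if χ ∈ principalBlock M G then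
          (χ : G → ℂ) 1 * conj ((χ : G → ℂ) x) else 0 := by
        rw [Finset.mul_sum]
        refine Finset.sum_congr rfl fun χ hχ => ?_
        split_ifs with h3
        · have h4 := hm χ ⟨h3, (Finset.mem_erase.mp hχ).1⟩
          rw [Cfsg.Agent.Lib.BlockT.CharSum.one_eq_charDegree
            (Cfsg.Agent.Lib.Char.Basic.isCharacter_of_isIrrCharacter χ.2), h4]
          push_cast
          ring
        · simp
      rw [h2]
      linear_combination horth
    obtain ⟨n, hn⟩ := exists_int_of_integral_mul hz (a := (r : ℤ)) (b := -1)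
      (by exact_mod_cast hr.ne_zero) (by push_cast; exact hrz)
    rw [hn] at hrz
    have h3 : (r : ℤ) * n = -1 := by exact_mod_cast hrz
    have h4 : (r : ℤ) ∣ 1 := ⟨-n, by linarith⟩
    have h5 := Int.natCast_dvd_natCast.mp (by simpa using h4 : ((r : ℕ) : ℤ) ∣ ((1 : ℕ) : ℤ))
    exact hr.one_lt.ne' (Nat.dvd_one.mp h5)
  refine ⟨χ, fun h => hχ1 (Subtype.ext h), ?_⟩
  -- the degree is prime to `p`
  have hg' : ¬ p ∣ q ^ b * r ^ c := by
    intro h
    rcases (Nat.Prime.dvd_mul hp).mp h with h | h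
    · exact hpq ((Nat.prime_dvd_prime_iff_eq hp hq).mp (hp.dvd_of_dvd_pow h))
    · exact hpr ((Nat.prime_dvd_prime_iff_eq hp hr).mp (hp.dvd_of_dvd_pow h))
  have hχp : ¬ p ∣ Cfsg.charDegree (χ : G → ℂ) := by
    intro h
    have hsb : SameBlock M (χ : G → ℂ) ((one : IrrCharacter G) : G → ℂ) :=
      Cfsg.Agent.Lib.Blocks.Central.sameBlock_symm hχB
    have hdiv : p ^ (a - 1) ∣ Cfsg.charDegree (χ : G → ℂ) := by
      have h2 : a - 1 ≤ 1 := by omega
      exact (pow_dvd_pow p h2).trans (by simpa using h)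
    have h3 := pow_dvd_of_sameBlock hM hsb (a := a) (g' := q ^ b * r ^ c) (by rw [hG]; ring) hg' hdiv
      (f := 1) (by simpa using h)
    have h4 : Cfsg.charDegree ((one : IrrCharacter G) : G → ℂ) = 1 :=
      Cfsg.Agent.Lib.BlockT.CharSum.charDegree_of_eq_natCast (by simp [one])
    rw [h4, pow_one] at h3
    exact hp.one_lt.ne' (Nat.dvd_one.mp h3)
  have hdvd := Cfsg.Agent.Lib.Char.Degree.charDegree_dvd_card χ.2
  rw [hG] at hdvd
  have h1 : Cfsg.charDegree (χ : G → ℂ) ∣ q ^ b * r ^ c := by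
    have : Nat.Coprime (Cfsg.charDegree (χ : G → ℂ)) (p ^ a) :=
      ((Nat.Prime.coprime_iff_not_dvd hp).mpr hχp).symm.pow_right a
    apply this.dvd_of_dvd_mul_left
    rwa [← mul_assoc]
  have h2 : Cfsg.charDegree (χ : G → ℂ) ∣ q ^ b := by
    have : Nat.Coprime (Cfsg.charDegree (χ : G → ℂ)) (r ^ c) :=
      ((Nat.Prime.coprime_iff_not_dvd hr).mpr hχr).symm.pow_right c
    exact this.dvd_of_dvd_mul_right h1
  obtain ⟨k, -, hk⟩ := (Nat.dvd_prime_pow hq).mp h2
  exact ⟨k, hk⟩

/-- Let G be a non-trivial finite group of order p^a · q^b · r^c with p, q, r distinct primes and a ≤ 2. Then G has a non-principal irreducible character whose degree is a power of q, and a non-principal irreducible character whose degree is a power of r; the power may be the zeroth, so a non-principal linear character serves for both. -/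
theorem result {G : Type*} [Group G] [Finite G] [Nontrivial G] (p q r a b c : ℕ) (hp : p.Prime) (hq : q.Prime) (hr : r.Prime) (hpq : p ≠ q) (hpr : p ≠ r) (hqr : q ≠ r) (ha : a ≤ 2) (hG : Nat.card G = p ^ a * q ^ b * r ^ c) : (∃ χ : Cfsg.IrrCharacter G, (χ : G → ℂ) ≠ (fun _ => 1) ∧ ∃ k : ℕ, Cfsg.charDegree (χ : G → ℂ) = q ^ k) ∧ ∃ χ : Cfsg.IrrCharacter G, (χ : G → ℂ) ≠ (fun _ => 1) ∧ ∃ k : ℕ, Cfsg.charDegree (χ : G → ℂ) = r ^ k := by
  refine ⟨aux p q r a b c hp hq hr hpq hpr ha hG, aux p r q a c b hp hr hq hpr hpq ha ?_⟩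
  rw [hG]
  ring

end Cfsg.Agent.S4500
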