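import Cfsg.Statements.S4502
import Cfsg.Agent.Lib.D1.McKay

set_option autoImplicit false
open Cfsg

namespace Cfsg.Agent.S4502

/-- Let G be a finite group whose order is divisible by the prime p exactly once, and let P be a Sylow p-subgroup. Then the number of irreducible characters of G of degree not divisible by p equals the number of conjugacy classes of the normalizer of P. -/
theorem result {G : Type*} [Group G] [Finite G] (p : ℕ) [Fact p.Prime] (hdiv : p ∣ Nat.card G) (hsq : ¬ p ^ 2 ∣ Nat.card G) (P : Sylow p G) : Nat.card {χ : Cfsg.IrrCharacter G // ¬ p ∣ Cfsg.charDegree (χ : G → ℂ)} = Nat.card (ConjClasses (Subgroup.normalizer ((P : Subgroup G) : Set G))) := by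
  have hpp : p.Prime := Fact.out
  have hfac : (Nat.card G).factorization p = 1 := by
    have h2 : 1 ≤ (Nat.card G).factorization p := (hpp.dvd_iff_one_le_factorization Nat.card_pos.ne').mp hdiv
    have h3 : ¬ 2 ≤ (Nat.card G).factorization p := fun h =>
      hsq ((hpp.pow_dvd_iff_le_factorization Nat.card_pos.ne').mpr h)
    omega
  have hP : Nat.card (P : Subgroup G) = p := by
    have h1 : Nat.card P = p ^ (Nat.card G).factorization p := P.card_eq_multiplicity
    rw [hfac, pow_one] at h1
    exact h1
  exact Cfsg.Agent.Lib.D1.McKay.mckay hdiv hsq hP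

end Cfsg.Agent.S4502
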