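import Cfsg.Statements.S4503
import Cfsg.Agent.Lib.CharDeep.BrauerDeg.Core

set_option autoImplicit false
open Cfsg

namespace Cfsg.Agent.S4503

/-- Let G be a finite group whose order is divisible by the prime p exactly once and which has no normal subgroup of order p. Then every faithful character χ of G has degree at least (p − 1)/2: 2·χ(1) + 1 ≥ p. -/
theorem result {G : Type*} [Group G] [Finite G] (p : ℕ) (hp : p.Prime) (hdiv : p ∣ Nat.card G) (hsq : ¬ p ^ 2 ∣ Nat.card G) (hnn : ∀ H : Subgroup G, H.Normal → Nat.card H ≠ p) (χ : G → ℂ) (hχ : Cfsg.IsCharacter G χ) (hfaith : ∀ g : G, χ g = χ 1 → g = 1) : p ≤ 2 * Cfsg.charDegree χ + 1 := by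
  classical
  by_contra hlt
  push Not at hlt
  haveI : Fact p.Prime := ⟨hp⟩
  let L : Subgroup G := Subgroup.closure {u : G | u ^ p = 1}
  have hLn : L.Normal := by
    constructor
    intro n hn g
    induction hn using Subgroup.closure_induction with
    | mem x hx =>
      apply Subgroup.subset_closure
      show (g * x * g⁻¹) ^ p = 1
      rw [conj_pow, show x ^ p = 1 from hx]
      simp
    | one =>
      simp only [mul_one, mul_inv_cancel]
      exact L.one_mem
    | mul x y _ _ hx hy =>
      have h1 : g * (x * y) * g⁻¹ = (g * x * g⁻¹) * (g * y * g⁻¹) := by group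
      rw [h1]
      exact L.mul_mem hx hy
    | inv x _ hx =>
      have h1 : g * x⁻¹ * g⁻¹ = (g * x * g⁻¹)⁻¹ := by group
      rw [h1]
      exact L.inv_mem hx
  have hgenL : Subgroup.closure {u : L | u ^ p = 1} = ⊤ := by
    have h1 := Subgroup.closure_closure_coe_preimage (k := {u : G | u ^ p = 1})
    rw [← h1]
    congr 1
    ext u
    simp only [Set.mem_setOf_eq, Set.mem_preimage]
    constructor
    · intro h
      have h2 := congrArg Subtype.val h
      simpa using h2
    · intro h
      apply Subtype.ext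
      simpa using h
  have hcardL : Nat.card L ∣ Nat.card G := Subgroup.card_subgroup_dvd_card L
  have hp2L : ¬ p ^ 2 ∣ Nat.card L := fun h => hsq (h.trans hcardL)
  have hχL : Cfsg.IsCharacter L (fun a : L => χ a) := Cfsg.Agent.Lib.Char.Basic.isCharacter_restrict L hχ
  haveI := Cfsg.Agent.Lib.Char.Ortho.finite_irrCharacter (G := L)
  letI := Fintype.ofFinite (Cfsg.IrrCharacter L)
  obtain ⟨m, hm⟩ := Cfsg.Agent.Lib.Char.Ortho.exists_nat_combination hχL
  have hval : ∀ a : L, χ a = ∑ i, (m i : ℂ) * (i : L → ℂ) a := by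
    intro a
    have h1 := congrFun hm a
    rw [Finset.sum_apply] at h1
    simpa using h1
  have hdeg : ∀ i, m i ≠ 0 → Cfsg.charDegree (i : L → ℂ) ≤ Cfsg.charDegree χ := by
    intro i hi
    have h1 : (Cfsg.charDegree χ : ℂ) = ((∑ j, m j * Cfsg.charDegree (j : L → ℂ) : ℕ) : ℂ) := by
      rw [Cfsg.Agent.Lib.Char.Degree.charDegree_natCast hχ]
      have h2 := hval 1
      simp only [OneMemClass.coe_one] at h2
      rw [h2]
      push_cast
      refine Finset.sum_congr rfl fun j _ => ?_
      rw [Cfsg.Agent.Lib.Char.Degree.charDegree_natCast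
        (Cfsg.Agent.Lib.Char.Basic.isCharacter_of_isIrrCharacter j.2)]
    have h2 : Cfsg.charDegree χ = ∑ j, m j * Cfsg.charDegree (j : L → ℂ) := by exact_mod_cast h1
    rw [h2]
    calc Cfsg.charDegree (i : L → ℂ) ≤ m i * Cfsg.charDegree (i : L → ℂ) := Nat.le_mul_of_pos_left _ (Nat.pos_of_ne_zero hi)
      _ ≤ _ := Finset.single_le_sum (f := fun j => m j * Cfsg.charDegree (j : L → ℂ)) (fun _ _ => Nat.zero_le _) (Finset.mem_univ i)
  have hpow : ∀ a : L, a ^ p = 1 := by
    intro a
    apply Subtype.ext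
    have h1 : χ ((a ^ p : L) : G) = χ ((1 : L) : G) := by
      rw [hval, hval]
      refine Finset.sum_congr rfl fun i _ => ?_
      by_cases hi : m i = 0
      · simp [hi]
      · rw [Cfsg.Agent.Lib.CharDeep.BrauerDeg.pow_mem_ker hp2L hgenL i.2 (by have := hdeg i hi; omega) a]
    apply hfaith
    simpa using h1
  have hpg : IsPGroup p L := fun g => ⟨1, by simpa using hpow g⟩
  obtain ⟨n, hn⟩ := IsPGroup.iff_card.mp hpg
  obtain ⟨u, hu⟩ := exists_prime_orderOf_dvd_card' p hdiv
  have huL : u ∈ L := Subgroup.subset_closure (by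
    show u ^ p = 1
    rw [← hu]
    exact pow_orderOf_eq_one u)
  have hn0 : n ≠ 0 := by
    rintro rfl
    rw [pow_zero] at hn
    have h1 : (⟨u, huL⟩ : L) = 1 := by
      have := Nat.card_eq_one_iff_unique.mp hn
      exact this.1.elim _ _
    have h2 : u = 1 := congrArg Subtype.val h1
    rw [h2, orderOf_one] at hu
    exact hp.one_lt.ne hu
  have hn1 : n < 2 := by
    by_contra hge
    push Not at hge
    apply hp2L
    rw [hn]
    exact pow_dvd_pow p hge
  have hn2 : n = 1 := by omega
  apply hnn L hLn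
  rw [hn, hn2, pow_one]

end Cfsg.Agent.S4503
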