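import Cfsg.Statements.S4505
import Cfsg.Agent.Lib.BlockP.MinMaxNum

set_option autoImplicit false
open Cfsg

namespace Cfsg.Agent.S4505

/-- Let G be a finite group, p a prime and M a maximal ideal of the algebraic integers containing p. For every σ, the number of p-blocks of defect exactly σ is at most the number of conjugacy classes of p-regular elements whose centralizer has order divisible by p^σ but not by p^(σ+1). -/
theorem result {G : Type*} [Group G] [Finite G] (p : ℕ) [Fact p.Prime] (M : Ideal Cfsg.AlgInt) (hM : Cfsg.IsPModular p M) (σ : ℕ) : Nat.card {B : Set (Cfsg.IrrCharacter G) // Cfsg.IsPBlock M B ∧ Cfsg.blockDefect p B = σ} ≤ Nat.card {C : ConjClasses G // ∃ g : G, ConjClasses.mk g = C ∧ ¬ p ∣ orderOf g ∧ (Nat.card (Subgroup.centralizer ({g} : Set G))).factorization p = σ} := by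
  classical
  cases nonempty_fintype G
  haveI hprime : M.IsPrime := Cfsg.Agent.Lib.Blocks.Local.isPrime_of_pModular hM
  have hfinI := Cfsg.Agent.Lib.Char.Ortho.finite_irrCharacter (G := G)
  letI := Fintype.ofFinite (Cfsg.IrrCharacter G)
  letI := Fintype.ofFinite (ConjClasses G)
  let 𝓑 := {B : Set (Cfsg.IrrCharacter G) // Cfsg.IsPBlock M B ∧ Cfsg.blockDefect p B = σ}
  let 𝓛 := {C : ConjClasses G // ∃ g : G, ConjClasses.mk g = C ∧ ¬ p ∣ orderOf g ∧
    (Nat.card (Subgroup.centralizer ({g} : Set G))).factorization p = σ}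
  letI : Fintype 𝓑 := Fintype.ofFinite 𝓑
  letI : Fintype 𝓛 := Fintype.ofFinite 𝓛
  -- representatives of the blocks
  have hrep : ∀ B : 𝓑, ∃ χ : Cfsg.IrrCharacter G, χ ∈ B.1 :=
    fun B => Cfsg.Agent.Lib.Blocks.Central.isPBlock_nonempty B.2.1
  choose r hr using hrep
  let W : Matrix 𝓑 𝓛 ℂ := fun B C => Cfsg.centralChar (r B : G → ℂ) C.1.out
  let A : Matrix 𝓛 𝓑 ℂ := fun C B' => Cfsg.blockCoeff B'.1 C.1.out
  have hsumeq : ∀ (B B' : 𝓑), (W * A) B B' = ∑ C ∈ Cfsg.Agent.Lib.BlockP.MinMaxNum.regClasses (G := G) p σ,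
      Cfsg.blockCoeff B'.1 C.out * Cfsg.centralChar (r B : G → ℂ) C.out := by
    intro B B'
    rw [Matrix.mul_apply]
    have hmem : ∀ C : ConjClasses G, C ∈ Cfsg.Agent.Lib.BlockP.MinMaxNum.regClasses (G := G) p σ ↔
        ∃ g : G, ConjClasses.mk g = C ∧ ¬ p ∣ orderOf g ∧
          (Nat.card (Subgroup.centralizer ({g} : Set G))).factorization p = σ := by
      intro C
      simp only [Cfsg.Agent.Lib.BlockP.MinMaxNum.regClasses, Finset.mem_filter, Finset.mem_univ,
        true_and]
      constructor
      · intro h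
        exact ⟨C.out, Cfsg.Agent.Lib.Blocks.Central.out_isConj C, h.1, h.2⟩
      · rintro ⟨g, rfl, h1, h2⟩
        have hconj := Cfsg.Agent.Lib.Blocks.Central.isConj_out g
        constructor
        · have hord : orderOf (ConjClasses.mk g).out = orderOf g := by
            obtain ⟨c, hc⟩ := isConj_iff.mp hconj
            have h5 := MulEquiv.orderOf_eq (MulAut.conj c) (ConjClasses.mk g).out
            rw [MulAut.conj_apply, hc] at h5
            exact h5.symm
          rwa [hord]
        · have hcard : Nat.card (Subgroup.centralizer ({(ConjClasses.mk g).out} : Set G)) =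
              Nat.card (Subgroup.centralizer ({g} : Set G)) := by
            have h3 := Subgroup.card_mul_index (Subgroup.centralizer ({g} : Set G))
            have h4 := Subgroup.card_mul_index (Subgroup.centralizer ({(ConjClasses.mk g).out} : Set G))
            rw [Cfsg.Agent.Lib.BlockP.Stable.index_centralizer_of_isConj hconj] at h4
            rw [← h3] at h4
            have hidx : (Subgroup.centralizer ({g} : Set G)).index ≠ 0 :=
              Subgroup.index_ne_zero_of_finite
            exact Nat.eq_of_mul_eq_mul_right (Nat.pos_of_ne_zero hidx) h4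
          rw [hcard]
          exact h2
    have h1 : ∑ C : 𝓛, W B C * A C B' = ∑ C : 𝓛,
        (fun C : ConjClasses G => Cfsg.blockCoeff B'.1 C.out * Cfsg.centralChar (r B : G → ℂ) C.out) C.1 :=
      Fintype.sum_congr _ _ fun C => mul_comm _ _
    rw [h1]
    exact (Finset.sum_subtype _ (fun C => hmem C)
      (fun C : ConjClasses G => Cfsg.blockCoeff B'.1 C.out * Cfsg.centralChar (r B : G → ℂ) C.out)).symm
  have hentry : ∀ B B' : 𝓑, Cfsg.MemLocalIdeal M ((W * A) B B' -
      Cfsg.Agent.Lib.Blocks.Central.omegaHom (r B) (Cfsg.Agent.Lib.Blocks.Central.idem B'.1)) := by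
    intro B B'
    rw [hsumeq]
    have h := Cfsg.Agent.Lib.BlockP.MinMaxNum.omegaHom_idem_sub_sum_mem hM B.2.1 B'.2.1 (hr B) B.2.2 B'.2.2
    exact Cfsg.Agent.Lib.Blocks.Local.memLocalIdeal_sub_comm h
  have hdelta : ∀ B B' : 𝓑, Cfsg.Agent.Lib.Blocks.Central.omegaHom (r B)
      (Cfsg.Agent.Lib.Blocks.Central.idem B'.1) = if B = B' then 1 else 0 := by
    intro B B'
    rw [Cfsg.Agent.Lib.Blocks.Central.omegaHom_idem]
    by_cases hBB : B = B'
    · rw [if_pos hBB, if_pos]
      rw [← hBB]
      exact hr B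
    · rw [if_neg hBB, if_neg]
      intro hmem
      apply hBB
      apply Subtype.ext
      rw [Cfsg.Agent.Lib.Blocks.Central.isPBlock_eq_blockOf B.2.1 (hr B),
        Cfsg.Agent.Lib.Blocks.Central.isPBlock_eq_blockOf B'.2.1 hmem]
  have hunit : IsUnit (W * A) := by
    apply Cfsg.Agent.Lib.Blocks.Eigen.isUnit_of_congr_one (M := M)
    · intro B B' hne
      have h := hentry B B'
      rw [hdelta, if_neg hne, sub_zero] at h
      exact h
    · intro B
      have h := hentry B B
      rw [hdelta, if_pos rfl] at h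
      exact h
  have hrank : Matrix.rank (W * A) = Fintype.card 𝓑 := by
    rw [Matrix.rank_of_isUnit _ hunit]
  have hle := Matrix.rank_mul_le_left W A
  have hle2 := Matrix.rank_le_card_width W
  rw [hrank] at hle
  rw [Nat.card_eq_fintype_card, Nat.card_eq_fintype_card]
  exact hle.trans hle2

end Cfsg.Agent.S4505
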