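import Cfsg.Statements.S4507
import Cfsg.Agent.Lib.D1.PowTh
import Cfsg.Agent.Lib.D1.Count
import Cfsg.Agent.Lib.D1.CountN
import Cfsg.Agent.Lib.ModRep.BlockTh

set_option autoImplicit false
open Cfsg

namespace Cfsg.Agent.S4507

/-- Let G be a finite group whose order g is divisible by the prime p exactly once, g′ = g/p, and fix a maximal ideal M of the algebraic integers containing p. Call two irreducible characters p-conjugate when a field automorphism of ℂ fixing the g′-th roots of unity carries one to the other. Let B be a p-block of positive defect (its defect group is a Sylow p-subgroup). Then B contains a subset Y (the exceptional family) such that: Y is a full p-conjugacy class (its members are pairwise p-conjugate and every p-conjugate of a member of Y lies in Y); every member of B outside Y is p-conjugate only to itself; the size t of Y divides p − 1 and B has exactly t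 + (p − 1)/t members; and there are signs δ_χ = ±1 (χ ∈ B) such that for every p-regular element x and every θ ∈ Y, Σ_{χ ∈ B ∖ Y} δ_χ χ(x) + δ_θ θ(x) = 0. -/
theorem result {G : Type*} [Group G] [Finite G] (p : ℕ) [Fact p.Prime] (M : Ideal Cfsg.AlgInt) (hM : Cfsg.IsPModular p M) (hdiv : p ∣ Nat.card G) (hsq : ¬ p ^ 2 ∣ Nat.card G) (B : Set (Cfsg.IrrCharacter G)) (hB : Cfsg.IsPBlock M B) (hd : 0 < Cfsg.blockDefect p B) : ∃ Y : Set (Cfsg.IrrCharacter G), Y ⊆ B ∧ Y.Nonempty ∧ (∀ θ ∈ Y, ∀ ψ : Cfsg.IrrCharacter G, (∃ σ : ℂ ≃+* ℂ, σ (Complex.exp (2 * Real.pi * Complex.I / ((Nat.card G / p ^ (Nat.card G).factorization p) : ℕ))) = Complex.exp (2 * Real.pi * Complex.I / ((Nat.card G / p ^ (Nat.card G).factorization p) : ℕ)) ∧ (ψ : G → ℂ) = fun g => σ ((θ : G → ℂ) g)) ↔ ψ ∈ Y) ∧ (∀ χ ∈ B, χ ∉ Y → ∀ ψ : Cfsg.IrrCharacter G, (∃ σ : ℂ ≃+* ℂ, σ (Complex.exp (2 * Real.pi * Complex.I / ((Nat.card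 G / p ^ (Nat.card G).factorization p) : ℕ))) = Complex.exp (2 * Real.pi * Complex.I / ((Nat.card G / p ^ (Nat.card G).factorization p) : ℕ)) ∧ (ψ : G → ℂ) = fun g => σ ((χ : G → ℂ) g)) → ψ = χ) ∧ Nat.card Y ∣ p - 1 ∧ Nat.card B = Nat.card Y + (p - 1) / Nat.card Y ∧ ∃ δ : Cfsg.IrrCharacter G → ℤ, (∀ χ ∈ B, δ χ = 1 ∨ δ χ = -1) ∧ ∀ x : G, ¬ p ∣ orderOf x → ∀ θ ∈ Y, (∑ᶠ χ ∈ B \ Y, (δ χ : ℂ) * (χ : G → ℂ) x) + (δ θ : ℂ) * (θ : G → ℂ) x = 0 := by
  classical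
  letI := Fintype.ofFinite G
  have hpp : p.Prime := Fact.out
  haveI := Cfsg.Agent.Lib.Blocks.Local.isPrime_of_pModular hM
  haveI := Cfsg.Agent.Lib.Char.Ortho.finite_irrCharacter (G := G)
  letI := Fintype.ofFinite (IrrCharacter G)
  -- a subgroup of order `p`
  obtain ⟨S⟩ : Nonempty (Sylow p G) := inferInstance
  have hfac : (Nat.card G).factorization p = 1 := by
    have h2 : 1 ≤ (Nat.card G).factorization p := (hpp.dvd_iff_one_le_factorization Nat.card_pos.ne').mp hdiv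
    have h3 : ¬ 2 ≤ (Nat.card G).factorization p := fun h =>
      hsq ((hpp.pow_dvd_iff_le_factorization Nat.card_pos.ne').mpr h)
    omega
  set Q : Subgroup G := (S : Subgroup G) with hQ
  have hP : Nat.card Q = p := by
    have h1 : Nat.card S = p ^ (Nat.card G).factorization p := S.card_eq_multiplicity
    rw [hfac, pow_one] at h1
    exact h1
  letI : Fintype (Cfsg.Agent.Lib.ExcP.Gram.Cn Q) := Fintype.ofFinite _
  letI : Fintype (Cfsg.Agent.Lib.ExcP.Gram.Nn Q) := Fintype.ofFinite _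
  haveI := Cfsg.Agent.Lib.Char.Ortho.finite_irrCharacter (G := Cfsg.Agent.Lib.ExcP.Gram.Cn Q)
  letI := Fintype.ofFinite (IrrCharacter (Cfsg.Agent.Lib.ExcP.Gram.Cn Q))
  haveI := Cfsg.Agent.Lib.ExcP.Inst.finite_DD (p := p) (P := Q) hP hsq
  letI : Fintype (Cfsg.Agent.Lib.ExcP.Inst.DD Q p) := Fintype.ofFinite _
  haveI : Nonempty (Cfsg.Agent.Lib.ExcP.Inst.DD Q p) := by
    apply (Nat.card_pos_iff.mp _).1
    rw [Cfsg.Agent.Lib.ExcP.Inst.card_DD hP hsq]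
    have := hpp.two_le
    omega
  obtain ⟨θ, hθP, hind⟩ := Cfsg.Agent.Lib.ModRep.BlockTh.exists_theta hM hP hsq hB hd
  have hcount : ∀ S : Finset (IrrCharacter G), (∀ χ, χ ∈ B → ∃ (c : IrrCharacter G → ℤ) (m : ℤ),
      ¬ (p : ℤ) ∣ m ∧ ∀ g, ¬ p ∣ orderOf g → (m : ℂ) * (χ : G → ℂ) g = ∑ ψ ∈ S, (c ψ : ℂ) * (ψ : G → ℂ) g) →
      Cfsg.Agent.Lib.D1.CountN.ee Q (θ : Cfsg.Agent.Lib.ExcP.Gram.Cn Q → ℂ) ≤ S.card := fun S hS =>
    Cfsg.Agent.Lib.D1.Count.card_le hM hP hsq θ hθP hind _ (fun g => Iff.rfl) _ rfl S hS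
  have hC := Cfsg.Agent.Lib.ModRep.BlockTh.structure_T (P := Q) hM hP hsq θ hθP hind
    (T := Cfsg.Agent.Lib.D1.CountN.Tt Q (θ : Cfsg.Agent.Lib.ExcP.Gram.Cn Q → ℂ)) (fun g => Iff.rfl)
    (e := Cfsg.Agent.Lib.D1.CountN.ee Q (θ : Cfsg.Agent.Lib.ExcP.Gram.Cn Q → ℂ)) rfl rfl hcount
  have hθc := Cfsg.Agent.Lib.Char.Basic.isCharacter_of_isIrrCharacter θ.2
  have hmain : ∀ (k : ℕ) (hk : k.Coprime (Nat.card G)), k ≡ 1 [MOD Cfsg.Agent.Lib.D1.PowAct2.pp G p] →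
      ∀ (d : Cfsg.Agent.Lib.ExcP.Inst.DD Q p) (g : G),
      Cfsg.Agent.Lib.ModRep.ThGram.Ws Q (θ : Cfsg.Agent.Lib.ExcP.Gram.Cn Q → ℂ)
        (Cfsg.Agent.Lib.D1.PowTh.powD (hk.coprime_dvd_right hdiv) d).1 g =
      Cfsg.Agent.Lib.ModRep.ThGram.Ws Q (θ : Cfsg.Agent.Lib.ExcP.Gram.Cn Q → ℂ) d.1 (g ^ k) := by
    intro k hk hk1 d g
    exact (Cfsg.Agent.Lib.D1.PowTh.TT_pow (θ : Cfsg.Agent.Lib.ExcP.Gram.Cn Q → ℂ) d.1 hk
      (Cfsg.Agent.Lib.D1.PowTh.theta_pow hP hdiv hsq hθc hθP hk hk1) g).symm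
  exact Cfsg.Agent.Lib.D1.PowAct3.final hpp hdiv hsq hC
    (fun d y hy => Cfsg.Agent.Lib.ModRep.ThGram.Ws_regular _ d.2.1 hy) hcount
    (fun k hk hk1 => ⟨Cfsg.Agent.Lib.D1.PowTh.powD (hk.coprime_dvd_right hdiv),
      Cfsg.Agent.Lib.D1.PowTh.powD_surjective _, hmain k hk hk1⟩)
    (fun d d' => by
      obtain ⟨k, hk, hk1, hkd⟩ := Cfsg.Agent.Lib.D1.PowTh.exists_good_pow hP hdiv hsq d d'
      exact ⟨k, hk, hk1, Cfsg.Agent.Lib.D1.PowTh.powD (hk.coprime_dvd_right hdiv),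
        Cfsg.Agent.Lib.D1.PowTh.powD_surjective _, hmain k hk hk1, Subtype.ext hkd⟩)

end Cfsg.Agent.S4507
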