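import Cfsg.Statements.S4508
import Mathlib
import Cfsg.Agent.S4495
import Cfsg.Agent.Lib.SelfCent.DegP1

set_option autoImplicit false
open Cfsg

namespace Cfsg.Agent.S4508

/-- Let the finite group G contain an element x of prime order p with C_G(x) = ⟨x⟩, and let t be the number of conjugacy classes of elements of order p. If G has an irreducible character of degree p − 1, then t is even or the commutator subgroup has even index. -/
theorem result {G : Type*} [Group G] [Finite G] (p : ℕ) (hp : p.Prime) (x : G) (hx : orderOf x = p) (hC : Subgroup.centralizer ({x} : Set G) = Subgroup.zpowers x) (t : ℕ) (ht : Nat.card {C : ConjClasses G // ∃ g ∈ C.carrier, orderOf g = p} = t) (χ : Cfsg.IrrCharacter G) (hχ : Cfsg.charDegree (χ : G → ℂ) + 1 = p) : Even t ∨ Even (commutator G).index := by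
  classical
  by_cases hp2 : p = 2
  · right
    have h1 := Cfsg.Agent.Lib.SelfCent.Basic.card_classes_mul_relIndex hp hx hC
    rw [ht] at h1
    have h2 : t = p - 1 := by
      subst hp2
      exact Nat.eq_one_of_mul_eq_one_right h1
    have h3 := (Cfsg.Agent.S4495.result p hp x hx hC t ht).2 h2
    rw [h3, hp2]
    exact even_two
  · by_cases hev : Even t
    · exact Or.inl hev
    · right
      rw [Nat.not_even_iff_odd, ← ht] at hev
      exact Cfsg.Agent.Lib.SelfCent.DegP1.even_index_of_odd hp hx hC hp2 hev χ hχ

end Cfsg.Agent.S4508
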