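import Cfsg.Statements.S4509
import Cfsg.Agent.Lib.SelfCent.Basic

set_option autoImplicit false
open Cfsg

namespace Cfsg.Agent.S4509

open Cfsg.Agent.Lib.SelfCent.Basic Subgroup

theorem not_dvd_of_card_eq {p n : ℕ} (hp : p.Prime) {m : ℕ} (h : m = 1 + n * p) : ¬ p ∣ m := by
  subst h
  intro hd
  have h1 : p ∣ 1 := (Nat.dvd_add_iff_left (Dvd.intro_left n rfl)).2 hd
  exact hp.one_lt.ne' (Nat.dvd_one.1 h1)

variable {G : Type*} [Group G] [Finite G]

/-- For `S` normal of size `1 + np = |G : N|`, `G = S N`. -/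
theorem sup_eq_top_of_card {p : ℕ} {x : G} (hp : p.Prime) (hx : orderOf x = p)
    (hC : centralizer ({x} : Set G) = zpowers x) (S : Subgroup G) [S.Normal]
    (hS : ¬ p ∣ Nat.card S)
    (hcard : Nat.card S = (normalizer ((zpowers x : Subgroup G) : Set G)).index) :
    S ⊔ normalizer ((zpowers x : Subgroup G) : Set G) = ⊤ := by
  set N := normalizer ((zpowers x : Subgroup G) : Set G) with hN
  have h1 := card_sup_of_inf_eq_bot S N (inf_normalizer_eq_bot hp hx hC S hS)
  rw [hcard, mul_comm, N.card_mul_index] at h1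
  exact Subgroup.eq_top_of_card_eq _ h1

theorem commutator_le_sup {x : G}
    (hC : centralizer ({x} : Set G) = zpowers x) (S : Subgroup G) [S.Normal]
    (htop : S ⊔ normalizer ((zpowers x : Subgroup G) : Set G) = ⊤) :
    commutator G ≤ S ⊔ zpowers x := by
  set N := normalizer ((zpowers x : Subgroup G) : Set G) with hN
  rw [commutator_def, Subgroup.commutator_le]
  intro a _ b _
  have ha : a ∈ S ⊔ N := htop ▸ mem_top a
  have hb : b ∈ S ⊔ N := htop ▸ mem_top b
  rw [Subgroup.mem_sup_of_normal_left] at ha hb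
  obtain ⟨s, hs, n, hn, rfl⟩ := ha
  obtain ⟨u, hu, m, hm, rfl⟩ := hb
  have h := commutator_mem_of_mem_normalizer hC hn hm
  have hs1 : ((s : G) : G ⧸ S) = 1 := (QuotientGroup.eq_one_iff _).2 hs
  have hu1 : ((u : G) : G ⧸ S) = 1 := (QuotientGroup.eq_one_iff _).2 hu
  rw [commutatorElement_def]
  have key : (s * n) * (u * m) * (s * n)⁻¹ * (u * m)⁻¹ * (n * m * n⁻¹ * m⁻¹)⁻¹ ∈ S := by
    rw [← QuotientGroup.eq_one_iff]
    simp only [QuotientGroup.mk_mul, QuotientGroup.mk_inv, hs1, hu1, one_mul, inv_one, mul_one]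
    group
  have : (s * n) * (u * m) * (s * n)⁻¹ * (u * m)⁻¹ =
      ((s * n) * (u * m) * (s * n)⁻¹ * (u * m)⁻¹ * (n * m * n⁻¹ * m⁻¹)⁻¹) * (n * m * n⁻¹ * m⁻¹) := by
    group
  rw [this]
  exact mul_mem (mem_sup_left key) (mem_sup_right h)

/-- If `H ≤ S ⊔ ⟨x⟩` then `[H,H] ≤ S`. -/
theorem derived_le_of_le_sup {x : G} (S : Subgroup G) [S.Normal] :
    ⁅(S ⊔ zpowers x : Subgroup G), (S ⊔ zpowers x : Subgroup G)⁆ ≤ S := by
  rw [Subgroup.commutator_le]
  intro a ha b hb
  rw [Subgroup.mem_sup_of_normal_left] at ha hb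
  obtain ⟨s, hs, n, hn, rfl⟩ := ha
  obtain ⟨u, hu, m, hm, rfl⟩ := hb
  rw [commutatorElement_def, ← QuotientGroup.eq_one_iff]
  have hs1 : ((s : G) : G ⧸ S) = 1 := (QuotientGroup.eq_one_iff _).2 hs
  have hu1 : ((u : G) : G ⧸ S) = 1 := (QuotientGroup.eq_one_iff _).2 hu
  simp only [QuotientGroup.mk_mul, QuotientGroup.mk_inv, hs1, hu1, one_mul, inv_one, mul_one]
  obtain ⟨k, rfl⟩ := mem_zpowers_iff.1 hn
  obtain ⟨l, rfl⟩ := mem_zpowers_iff.1 hm
  have : x ^ k * x ^ l = x ^ l * x ^ k := (Commute.zpow_zpow_self x k l).eq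
  have h2 : ((x ^ k : G) : G ⧸ S) * ((x ^ l : G) : G ⧸ S) = ((x ^ l : G) : G ⧸ S) * ((x ^ k : G) : G ⧸ S) := by
    rw [← QuotientGroup.mk_mul, ← QuotientGroup.mk_mul, this]
  rw [h2]
  group

/-- The main theorem. -/
theorem result {G : Type*} [Group G] [Finite G] (p : ℕ) (hp : p.Prime) (x : G) (hx : orderOf x = p) (hC : Subgroup.centralizer ({x} : Set G) = Subgroup.zpowers x) (t : ℕ) (ht : Nat.card {C : ConjClasses G // ∃ g ∈ C.carrier, orderOf g = p} = t) (n : ℕ) (hn : Nat.card {H : Subgroup G // Nat.card H = p} = 1 + n * p) : ((∃ S : Subgroup G, S.Normal ∧ Nat.card S = 1 + n * p) ↔ (t = p - 1 ∨ (t < p - 1 ∧ derivedSeries G 2 ≠ derivedSeries G 1))) ∧ (t = p - 1 → Nat.card (commutator G) = 1 + n * p ∧ IsCyclic (G ⧸ commutator G) ∧ (commutator G).index = p) ∧ (t < p - 1 → derivedSeries G 2 ≠ derivedSeries G 1 → Nat.card (derivedSeries G 2) = 1 + n * p ∧ Nat.card (commutator G) = p * (1 + n * p)) := by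
  have hcount := card_classes_mul_relIndex hp hx hC
  rw [ht] at hcount
  rw [card_subgroups_eq_index hp hx hC] at hn
  set N := Subgroup.normalizer ((Subgroup.zpowers x : Subgroup G) : Set G) with hNdef
  set e := (Subgroup.zpowers x).relIndex N with he
  have hp1 : 0 < p - 1 := Nat.sub_pos_of_lt hp.one_lt
  have het : 0 < e := by
    rcases Nat.eq_zero_or_pos e with h | h
    · rw [h, mul_zero] at hcount; omega
    · exact h
  have hGcard : Nat.card N * (1 + n * p) = Nat.card G := by rw [← hn]; exact N.card_mul_index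
  have hPN : zpowers x ≤ N := le_normalizer
  have hNcard : e * p = Nat.card N := by
    have h1 : (⊥ : Subgroup G).relIndex (zpowers x) * (zpowers x).relIndex N = (⊥ : Subgroup G).relIndex N :=
      relIndex_mul_relIndex _ _ _ bot_le hPN
    rw [relIndex_bot_left, relIndex_bot_left, card_zpowers_eq hx] at h1
    rw [← h1, mul_comm]
  have hder : derivedSeries G 1 = commutator G := rfl
  have hder2 : derivedSeries G 2 = ⁅commutator G, commutator G⁆ := rfl
  have hG'n : (commutator G).Normal := inferInstance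
  -- the case t = p - 1
  have hcase1 : t = p - 1 → (∃ K : Subgroup G, K.Normal ∧ Nat.card K = 1 + n * p) ∧
      (Nat.card (commutator G) = 1 + n * p ∧ IsCyclic (G ⧸ commutator G) ∧ (commutator G).index = p) := by
    intro htp1
    have he1 : e = 1 := by
      rw [htp1] at hcount
      exact Nat.eq_of_mul_eq_mul_left hp1 (by rw [hcount, mul_one])
    have hN : N ≤ Subgroup.zpowers x := Subgroup.relIndex_eq_one.1 he1
    obtain ⟨K, hK, hK2, hK3, hK4⟩ := exists_normal_complement hp hx hC hN
    have hKcard : Nat.card K = 1 + n * p := by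
      rw [← hGcard, ← hNcard, he1, one_mul, mul_comm] at hK4
      exact Nat.eq_of_mul_eq_mul_left hp.pos hK4
    have hnd : ¬ p ∣ Nat.card (commutator G) := fun h => hK2 (h.trans (Subgroup.card_dvd_of_le hK3))
    have hidx := index_commutator_of_not_dvd hp hx hC hnd
    refine ⟨⟨K, hK, hKcard⟩, ?_, ?_, hidx⟩
    · have h1 := (commutator G).card_mul_index
      rw [hidx, ← hGcard, ← hNcard, he1, one_mul, mul_comm p] at h1
      exact Nat.eq_of_mul_eq_mul_right hp.pos h1
    · have : Fact p.Prime := ⟨hp⟩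
      exact isCyclic_of_prime_card (p := p) (by rw [← Subgroup.index_eq_card]; exact hidx)
  -- the case t < p - 1 and G'' ≠ G'
  have hcase2 : t < p - 1 → derivedSeries G 2 ≠ derivedSeries G 1 →
      Nat.card (derivedSeries G 2) = 1 + n * p ∧ Nat.card (commutator G) = p * (1 + n * p) := by
    intro htlt hne
    have hN : ¬ N ≤ Subgroup.zpowers x := by
      intro hle
      have h1 : e = 1 := Subgroup.relIndex_eq_one.2 hle
      rw [h1, mul_one] at hcount
      omega
    have hPG' := zpowers_le_commutator hp hx hC hN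
    have hD2n : (derivedSeries G 2).Normal := inferInstance
    have hle2 : derivedSeries G 2 ≤ commutator G := by
      rw [hder2, _root_.commutator_def]
      exact Subgroup.commutator_mono le_top le_top
    have hnd : ¬ p ∣ Nat.card (derivedSeries G 2) := by
      intro h
      apply hne
      exact le_antisymm hle2 (commutator_le_of_dvd hp hx hC _ h)
    have hG'le : commutator G ≤ derivedSeries G 2 ⊔ zpowers x := by
      intro d hd
      have hc : d * x * d⁻¹ * x⁻¹ ∈ derivedSeries G 2 := by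
        rw [hder2]
        have := Subgroup.commutator_mem_commutator hd (hPG' (mem_zpowers x))
        simpa [commutatorElement_def] using this
      obtain ⟨u, hu, h⟩ := mem_sup_zpowers_of_commutator_mem hp hx hC _ hnd hc
      have : d = u⁻¹ * (u * d) := by group
      rw [this]
      exact mul_mem (mem_sup_left (inv_mem hu)) (mem_sup_right h)
    have hG'eq : commutator G = derivedSeries G 2 ⊔ zpowers x :=
      le_antisymm hG'le (sup_le hle2 hPG')
    have htop := normalizer_sup_eq_top_of_le hp hx hC (commutator G) hPG'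
    rw [← hNdef] at htop
    have htop2 : derivedSeries G 2 ⊔ N = ⊤ := by
      rw [eq_top_iff, ← htop]
      apply sup_le le_sup_right
      rw [hG'eq]
      exact sup_le le_sup_left (hPN.trans le_sup_right)
    have hc1 := card_sup_of_inf_eq_bot (derivedSeries G 2) N
      (inf_normalizer_eq_bot hp hx hC _ hnd)
    rw [htop2, Nat.card_congr Subgroup.topEquiv.toEquiv, ← hGcard, mul_comm] at hc1
    have hNpos : 0 < Nat.card N := Nat.card_pos
    have hc2 : Nat.card (derivedSeries G 2) = 1 + n * p :=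
      (Nat.eq_of_mul_eq_mul_right hNpos hc1).symm
    refine ⟨hc2, ?_⟩
    have hc3 := card_sup_of_inf_eq_bot (derivedSeries G 2) (zpowers x)
      (inf_zpowers_eq_bot hp hx _ hnd)
    rw [← hG'eq, hc2, card_zpowers_eq hx, mul_comm] at hc3
    exact hc3
  refine ⟨⟨?_, ?_⟩, fun h => (hcase1 h).2, hcase2⟩
  · rintro ⟨S, hS, hScard⟩
    by_cases h : t = p - 1
    · exact Or.inl h
    · right
      have hle : t ≤ p - 1 := by
        rw [← hcount]; exact Nat.le_mul_of_pos_right _ het
      refine ⟨lt_of_le_of_ne hle h, ?_⟩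
      have hN : ¬ N ≤ Subgroup.zpowers x := by
        intro hle
        have h1 : e = 1 := Subgroup.relIndex_eq_one.2 hle
        rw [h1, mul_one] at hcount
        exact h hcount
      have hPG' := zpowers_le_commutator hp hx hC hN
      have hnd : ¬ p ∣ Nat.card S := not_dvd_of_card_eq hp hScard
      have htop := sup_eq_top_of_card hp hx hC S hnd (by rw [hScard, hn])
      have h1 := commutator_le_sup hC S htop
      have h2 : derivedSeries G 2 ≤ S := by
        rw [hder2]
        exact (Subgroup.commutator_mono h1 h1).trans (derived_le_of_le_sup S)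
      intro heq
      rw [hder] at heq
      have h3 : x ∈ S := h2 (heq ▸ hPG' (mem_zpowers x))
      exact not_mem_of_not_dvd hp hx S hnd h3
  · rintro (h | ⟨h1, h2⟩)
    · exact (hcase1 h).1
    · exact ⟨derivedSeries G 2, inferInstance, (hcase2 h1 h2).1⟩

end Cfsg.Agent.S4509
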