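import Cfsg.Statements.S4510
import Cfsg.Agent.Lib.BlockP.MinMaxNum

set_option autoImplicit false
open Cfsg

namespace Cfsg.Agent.S4510

/-- Let G be a finite group, p a prime, M a maximal ideal of the algebraic integers containing p, and call the defect of a conjugacy class the exponent of p in the order of the centralizer of its elements. Two irreducible characters lying in p-blocks of defect exactly d lie in the same block if and only if their central characters (class size times χ(x)/χ(1)) agree modulo the local ideal at M at every p-regular element x whose class has defect exactly d. -/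
theorem result {G : Type*} [Group G] [Finite G] (p : ℕ) [Fact p.Prime] (M : Ideal Cfsg.AlgInt) (hM : Cfsg.IsPModular p M) (d : ℕ) (χ ψ : Cfsg.IrrCharacter G) (hχ : Cfsg.blockDefect p (Cfsg.blockOf M (χ : G → ℂ)) = d) (hψ : Cfsg.blockDefect p (Cfsg.blockOf M (ψ : G → ℂ)) = d) : Cfsg.SameBlock M (χ : G → ℂ) (ψ : G → ℂ) ↔ ∀ x : G, ¬ p ∣ orderOf x → (Nat.card (Subgroup.centralizer ({x} : Set G))).factorization p = d → Cfsg.MemLocalIdeal M (Cfsg.centralChar (χ : G → ℂ) x - Cfsg.centralChar (ψ : G → ℂ) x) := by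
  classical
  cases nonempty_fintype G
  haveI hprime : M.IsPrime := Cfsg.Agent.Lib.Blocks.Local.isPrime_of_pModular hM
  have hfinI := Cfsg.Agent.Lib.Char.Ortho.finite_irrCharacter (G := G)
  letI := Fintype.ofFinite (Cfsg.IrrCharacter G)
  letI := Fintype.ofFinite (ConjClasses G)
  constructor
  · intro h x _ _
    exact h x
  · intro h
    set B := Cfsg.blockOf M (χ : G → ℂ) with hB
    set B' := Cfsg.blockOf M (ψ : G → ℂ) with hB'
    have hBb : Cfsg.IsPBlock M B := ⟨χ, rfl⟩
    have hBb' : Cfsg.IsPBlock M B' := ⟨ψ, rfl⟩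
    have hχB : χ ∈ B := Cfsg.Agent.Lib.Blocks.Central.mem_blockOf_self χ
    have hψB' : ψ ∈ B' := Cfsg.Agent.Lib.Blocks.Central.mem_blockOf_self ψ
    have h1 := Cfsg.Agent.Lib.BlockP.MinMaxNum.omegaHom_idem_sub_sum_mem hM hBb hBb' hχB hχ hψ
    have h2 := Cfsg.Agent.Lib.BlockP.MinMaxNum.omegaHom_idem_sub_sum_mem hM hBb' hBb' hψB' hψ hψ
    rw [Cfsg.Agent.Lib.Blocks.Central.omegaHom_idem, if_pos hψB'] at h2
    have h3 : Cfsg.MemLocalIdeal M (∑ C ∈ Cfsg.Agent.Lib.BlockP.MinMaxNum.regClasses (G := G) p d,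
        Cfsg.blockCoeff B' C.out * Cfsg.centralChar (χ : G → ℂ) C.out -
        ∑ C ∈ Cfsg.Agent.Lib.BlockP.MinMaxNum.regClasses (G := G) p d,
        Cfsg.blockCoeff B' C.out * Cfsg.centralChar (ψ : G → ℂ) C.out) := by
      rw [← Finset.sum_sub_distrib]
      apply Cfsg.Agent.Lib.Blocks.Local.memLocalIdeal_sum
      intro C hC
      have hC' := (Finset.mem_filter.mp hC).2
      rw [← mul_sub]
      exact Cfsg.Agent.Lib.Blocks.Local.memLocalIdeal_mul_left
        (Cfsg.Agent.Lib.Blocks.Central.memLocalRing_blockCoeff hBb' _) (h _ hC'.1 hC'.2)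
    have h4 : Cfsg.MemLocalIdeal M (Cfsg.Agent.Lib.Blocks.Central.omegaHom χ
        (Cfsg.Agent.Lib.Blocks.Central.idem B') - 1) := by
      have h5 := Cfsg.Agent.Lib.Blocks.Local.memLocalIdeal_add
        (Cfsg.Agent.Lib.Blocks.Local.memLocalIdeal_add h1 h3)
        (Cfsg.Agent.Lib.Blocks.Local.memLocalIdeal_neg h2)
      convert h5 using 1
      ring
    have hχB' : χ ∈ B' := by
      by_contra hcon
      rw [Cfsg.Agent.Lib.Blocks.Central.omegaHom_idem, if_neg hcon, zero_sub] at h4
      have := Cfsg.Agent.Lib.Blocks.Local.memLocalIdeal_neg h4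
      rw [neg_neg] at this
      exact Cfsg.Agent.Lib.Blocks.Local.one_notMemLocalIdeal this
    exact Cfsg.Agent.Lib.Blocks.Central.sameBlock_symm hχB'

end Cfsg.Agent.S4510
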