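import Cfsg.Statements.S4633
import Cfsg.Agent.Lib.BlockH.CyclicDefect

set_option autoImplicit false
open Cfsg

namespace Cfsg.Agent.S4633

/-- Let B be a block of the finite group G relative to a maximal ideal M of the algebraic integers containing the prime p, with a nontrivial cyclic defect group P. Let c be a block of C_G(P) inducing B and T the stabilizer of c in N_G(P) (the elements of N_G(P) conjugating c to itself); T contains C_G(P). Then T/C_G(P) is cyclic of order dividing p − 1, and it acts freely on the non-identity elements of P: an element of T fixing some non-identity element of P under conjugation lies in C_G(P). -/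
theorem result {G : Type*} [Group G] [Finite G] (p : ℕ) [Fact p.Prime] (M : Ideal Cfsg.AlgInt) (hM : Cfsg.IsPModular p M) (B : Set (Cfsg.IrrCharacter G)) (hB : Cfsg.IsPBlock M B) (P : Subgroup G) (hPD : Cfsg.IsDefectGroup p M B P) (hP1 : P ≠ ⊥) (hcyc : IsCyclic P) (c : Set (Cfsg.IrrCharacter (Subgroup.centralizer (P : Set G)))) (hc : Cfsg.IsInducedBlock M (Subgroup.centralizer (P : Set G)) c B) (T : Subgroup G) (hT : ∀ g : G, g ∈ T ↔ (g ∈ Subgroup.normalizer (P : Set G) ∧ Cfsg.StabilizesBlock (Subgroup.centralizer (P : Set G)) c g)) [hn : ((Subgroup.centralizer (P : Set G)).subgroupOf T).Normal] : IsCyclic (T ⧸ (Subgroup.centralizer (P : Set G)).subgroupOf T) ∧ (Subgroup.centralizer (P : Set G)).relIndex T ∣ p - 1 ∧ ∀ g ∈ T, ∀ x ∈ P, x ≠ 1 → g * x * g⁻¹ = x → g ∈ Subgroup.centralizer (P : Set G) := by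
  classical
  letI : Fintype G := Fintype.ofFinite G
  haveI := Cfsg.Agent.Lib.Blocks.Local.isPrime_of_pModular hM
  have hPp : IsPGroup p P := Cfsg.Agent.Lib.Blocks.Defect2.isDefectGroup_isPGroup hPD
  have hpair := Cfsg.Agent.Lib.Contrib.Section.isBrauerPairOf_of_induced hM hPp hc
  have hmax := Cfsg.Agent.Lib.BlockH.MaxPair.isMaximal_of_isDefectGroup hM hpair hPD
  have hab : ∀ x ∈ P, ∀ y ∈ P, x * y = y * x := by
    intro x hx y hy
    letI := IsCyclic.commGroup (α := P)
    exact congrArg Subtype.val (mul_comm (⟨x, hx⟩ : P) ⟨y, hy⟩)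
  have hT' : T = Cfsg.Agent.Lib.BlockH.MaxPair.stabSub P c := by
    ext g
    rw [hT]
    rfl
  subst hT'
  have hidx := Cfsg.Agent.Lib.BlockH.CyclicDefect.not_dvd_relIndex_stab hM hmax hab
  obtain ⟨Φ, hker, hfree⟩ := Cfsg.Agent.Lib.BlockH.CyclicDefect.cyclic_core (T := Cfsg.Agent.Lib.BlockH.MaxPair.stabSub P c) hPp hP1 hcyc (fun _ h => h.1) hidx
  refine ⟨?_, ?_, hfree⟩
  · have h1 : IsCyclic (_ ⧸ Φ.ker) := isCyclic_of_injective (QuotientGroup.kerLift Φ) (QuotientGroup.kerLift_injective Φ)
    exact isCyclic_of_surjective (QuotientGroup.quotientMulEquivOfEq hker) (MulEquiv.surjective _)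
  · rw [Subgroup.relIndex, ← hker, Subgroup.index_ker]
    have h2 := Subgroup.card_subgroup_dvd_card Φ.range
    rwa [Nat.card_eq_fintype_card (α := (ZMod p)ˣ), ZMod.card_units p] at h2

end Cfsg.Agent.S4633
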