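import Cfsg.Statements.S4636
-- import your own Cfsg.Agent.* helpers here

set_option autoImplicit false
open scoped Pointwise
open Cfsg

namespace Cfsg.Agent.S4636

/-- In a cyclic finite subgroup `P`, two subgroups of prime order `p` agree. -/
theorem unique_order_p {G : Type*} [Group G] [Finite G] (p : ℕ) [Fact p.Prime]
    (P : Subgroup G) (hcyc : IsCyclic P) (Z Z' : Subgroup G) (hZ : Z ≤ P) (hZ' : Z' ≤ P)
    (hc : Nat.card Z = p) (hc' : Nat.card Z' = p) : Z = Z' := by
  classical
  haveI : Fintype P := Fintype.ofFinite P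
  have hp : 0 < p := (Fact.out : p.Prime).pos
  have hle := IsCyclic.card_pow_eq_one_le (α := P) hp
  -- the set of `p`-torsion elements of `P`
  set T : Finset P := Finset.univ.filter (fun a : P => a ^ p = 1) with hT
  have hTcard : T.card ≤ p := hle
  -- maps of `Z`, `Z'` into `T`
  have key : ∀ W : Subgroup G, W ≤ P → Nat.card W = p → ∀ a : P, a ∈ T → (a : G) ∈ W := by
    intro W hW hcW a ha
    -- image of `W` in `T` has `p` elements so fills `T`
    let S : Finset P := T.filter (fun b => (b : G) ∈ W)
    have hScard : p ≤ S.card := by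
      haveI : Fintype W := Fintype.ofFinite W
      have h1 : Fintype.card W = p := by rw [← Nat.card_eq_fintype_card]; exact hcW
      rw [← h1]
      apply Finset.card_le_card_of_injOn (s := Finset.univ) (t := S)
        (fun w : W => (⟨(w : G), hW w.2⟩ : P))
      · intro w _
        simp only [S, T, Finset.coe_filter, Finset.mem_filter, Finset.mem_univ, true_and,
          Set.mem_setOf_eq]
        refine ⟨?_, w.2⟩
        apply Subtype.ext
        have : (w : W) ^ p = 1 := by
          have := pow_card_eq_one' (G := W) (x := w)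
          rwa [hcW] at this
        simpa using congrArg (fun x : W => (x : G)) this
      · intro w _ w' _ h
        apply Subtype.ext
        simpa using congrArg (fun x : P => (x : G)) h
    have hSsub : S ⊆ T := Finset.filter_subset _ _
    have hEq : S = T := Finset.eq_of_subset_of_card_le hSsub (hTcard.trans hScard)
    have : a ∈ S := hEq ▸ ha
    exact (Finset.mem_filter.mp this).2
  have hsub : ∀ W W' : Subgroup G, W ≤ P → W' ≤ P → Nat.card W = p → Nat.card W' = p → W ≤ W' := by
    intro W W' hW hW' hcW hcW' x hx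
    have : (⟨x, hW hx⟩ : P) ∈ T := by
      simp only [T, Finset.mem_filter, Finset.mem_univ, true_and]
      apply Subtype.ext
      have h1 : (⟨x, hx⟩ : W) ^ p = 1 := by
        have := pow_card_eq_one' (G := W) (x := ⟨x, hx⟩)
        rwa [hcW] at this
      simpa using congrArg (fun y : W => (y : G)) h1
    exact key W' hW' hcW' _ this
  exact le_antisymm (hsub _ _ hZ hZ' hc hc') (hsub _ _ hZ' hZ hc' hc)

/-- A nontrivial subgroup of the cyclic `p`-group `P` contains the subgroup `Z` of order `p`. -/
theorem le_of_ne_bot {G : Type*} [Group G] [Finite G] (p : ℕ) [Fact p.Prime]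
    (P : Subgroup G) (hP : IsPGroup p P) (hcyc : IsCyclic P) (Z : Subgroup G) (hZ : Z ≤ P)
    (hZcard : Nat.card Z = p) (R : Subgroup G) (hR : R ≤ P) (hR1 : R ≠ ⊥) : Z ≤ R := by
  classical
  -- `R` has an element of order `p`
  have hRp : IsPGroup p R := hP.to_le hR
  haveI : Nontrivial R := (Subgroup.nontrivial_iff_ne_bot R).mpr hR1
  have hdvd : p ∣ Nat.card R := by
    obtain ⟨n, hn⟩ := IsPGroup.iff_card.mp hRp
    rcases n with _ | n
    · rw [pow_zero] at hn
      exact absurd (Nat.card_eq_one_iff_unique.mp hn).1 (not_subsingleton R)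
    · rw [hn]; exact dvd_pow_self _ n.succ_ne_zero
  obtain ⟨a, ha⟩ := exists_prime_orderOf_dvd_card' p hdvd
  set W : Subgroup G := Subgroup.zpowers (a : G) with hW
  have hWcard : Nat.card W = p := by
    rw [hW, Nat.card_zpowers, Subgroup.orderOf_coe, ha]
  have hWR : W ≤ R := by
    rw [hW, Subgroup.zpowers_le]; exact a.2
  have := unique_order_p p P hcyc Z W hZ (hWR.trans hR) hZcard hWcard
  rw [this]; exact hWR

/-- Let P be a nontrivial cyclic p-subgroup of the finite group G and Z its subgroup of order p. For every x outside N_G(Z), P meets its conjugate xPx⁻¹ trivially; consequently N_G(Q) ≤ N_G(Z) for every nontrivial subgroup Q of P. -/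
theorem result {G : Type*} [Group G] [Finite G] (p : ℕ) [Fact p.Prime] (P : Subgroup G) (hP : IsPGroup p P) (hP1 : P ≠ ⊥) (hcyc : IsCyclic P) (Z : Subgroup G) (hZ : Z ≤ P) (hZcard : Nat.card Z = p) : (∀ x : G, x ∉ Subgroup.normalizer (Z : Set G) → P ⊓ MulAut.conj x • P = ⊥) ∧ ∀ Q : Subgroup G, Q ≤ P → Q ≠ ⊥ → Subgroup.normalizer (Q : Set G) ≤ Subgroup.normalizer (Z : Set G) := by
  have hP2 : ∀ x : G, P ⊓ MulAut.conj x • P ≠ ⊥ → x ∈ Subgroup.normalizer (Z : Set G) := by
    intro x hx
    have hR : Z ≤ P ⊓ MulAut.conj x • P := le_of_ne_bot p P hP hcyc Z hZ hZcard _ inf_le_left hx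
    -- conjugate the intersection back into `P`
    have hR' : MulAut.conj x⁻¹ • (P ⊓ MulAut.conj x • P) ≤ P := by
      intro y hy
      rw [Subgroup.mem_pointwise_smul_iff_inv_smul_mem] at hy
      have h2 := (Subgroup.mem_inf.mp hy).2
      rw [Subgroup.mem_pointwise_smul_iff_inv_smul_mem] at h2
      simpa [MulAut.smul_def, mul_assoc] using h2
    have hne : MulAut.conj x⁻¹ • (P ⊓ MulAut.conj x • P) ≠ ⊥ := by
      intro h
      apply hx
      rw [eq_bot_iff] at h ⊢
      intro y hy
      have := h (Subgroup.smul_mem_pointwise_smul y (MulAut.conj x⁻¹) _ hy)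
      rw [Subgroup.mem_bot] at this
      have h1 : (MulAut.conj x⁻¹) y = 1 := this
      have h2 : y = 1 := by
        simpa using (MulAut.conj x⁻¹).injective (h1.trans (map_one _).symm)
      simpa using h2
    have hZ2 : Z ≤ MulAut.conj x⁻¹ • (P ⊓ MulAut.conj x • P) :=
      le_of_ne_bot p P hP hcyc Z hZ hZcard _ hR' hne
    -- `x Z x⁻¹ ≤ P` has order `p`, hence equals `Z`
    let Z₁ : Subgroup G := MulAut.conj x • Z
    have hZ₁ : Z₁ ≤ P := by
      intro y hy
      rw [Subgroup.mem_pointwise_smul_iff_inv_smul_mem] at hy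
      have h3 := hZ2 hy
      rw [Subgroup.mem_pointwise_smul_iff_inv_smul_mem] at h3
      have h4 := (Subgroup.mem_inf.mp h3).1
      simpa [MulAut.smul_def, mul_assoc] using h4
    have hZ₁card : Nat.card Z₁ = p := by
      rw [← hZcard]
      exact Nat.card_congr (Subgroup.equivSMul (MulAut.conj x) Z).symm.toEquiv
    have hEq : Z₁ = Z := unique_order_p p P hcyc Z₁ Z hZ₁ hZ hZ₁card hZcard
    rw [Subgroup.mem_normalizer_iff]
    intro h
    constructor
    · intro hh
      have h5 : (MulAut.conj x • h) ∈ Z₁ := Subgroup.smul_mem_pointwise_smul _ _ _ hh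
      rw [hEq] at h5
      simpa [MulAut.smul_def] using h5
    · intro hh
      have h5 : x * h * x⁻¹ ∈ Z₁ := by rw [hEq]; exact hh
      have h6 := (Subgroup.mem_pointwise_smul_iff_inv_smul_mem).mp h5
      simpa [MulAut.smul_def, mul_assoc] using h6
  refine ⟨?_, ?_⟩
  · intro x hx
    by_contra h
    exact hx (hP2 x h)
  · intro Q hQ hQ1 y hy
    apply hP2
    intro hbot
    apply hQ1
    rw [eq_bot_iff, ← hbot]
    intro q hq
    refine Subgroup.mem_inf.mpr ⟨hQ hq, ?_⟩
    rw [Subgroup.mem_pointwise_smul_iff_inv_smul_mem]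
    apply hQ
    have := (Subgroup.mem_normalizer_iff.mp hy) (y⁻¹ * q * y)
    have h4 : y * (y⁻¹ * q * y) * y⁻¹ = q := by group
    rw [h4] at this
    simpa [MulAut.smul_def] using this.mpr hq

end Cfsg.Agent.S4636
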