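import Cfsg.Statements.S4638
import Cfsg.Agent.S4637
import Cfsg.Agent.Lib.KleinBlock.Main
-- import your own Cfsg.Agent.* helpers here

set_option autoImplicit false
open Cfsg

namespace Cfsg.Agent.S4638

/-- Let B be a block of the finite group G relative to a maximal ideal M of the algebraic integers containing 2, with a Klein four defect group P, and let c be its Brauer correspondent: the block of N_G(P) with defect group P that induces B. Then there is a perfect isometry from c onto B. -/
theorem result {G : Type*} [Group G] [Finite G] (M : Ideal Cfsg.AlgInt) (hM : Cfsg.IsPModular 2 M) (B : Set (Cfsg.IrrCharacter G)) (hB : Cfsg.IsPBlock M B) (P : Subgroup G) (hPD : Cfsg.IsDefectGroup 2 M B P) (hV : IsKleinFour P) (c : Set (Cfsg.IrrCharacter (Subgroup.normalizer (P : Set G)))) (hcD : Cfsg.IsDefectGroup 2 M c (P.subgroupOf (Subgroup.normalizer (P : Set G)))) (hc : Cfsg.IsInducedBlock M (Subgroup.normalizer (P : Set G)) c B) : ∃ (I : Cfsg.IrrCharacter (Subgroup.normalizer (P : Set G)) → Cfsg.IrrCharacter G)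 (ε : Cfsg.IrrCharacter (Subgroup.normalizer (P : Set G)) → ℤ), Cfsg.IsPerfectIsometry 2 M c B I ε := by
  classical
  haveI : Fact (Nat.Prime 2) := ⟨Nat.prime_two⟩
  cases nonempty_fintype G
  have hcard : Nat.card P = 4 := hV.card_four
  have hexp : ∀ a ∈ P, a ^ 2 = 1 := by
    intro a ha
    have h := Monoid.pow_exponent_eq_one (⟨a, ha⟩ : P)
    rw [hV.exponent_two] at h
    exact congrArg Subtype.val h
  have hab : ∀ a ∈ P, ∀ b ∈ P, a * b = b * a := by
    intro a ha b hb
    have h := mul_comm_of_exponent_two hV.exponent_two (⟨a, ha⟩ : P) ⟨b, hb⟩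
    exact congrArg Subtype.val h
  refine Cfsg.Agent.Lib.KleinBlock.Main.exists_perfect hM hB hPD hcard hexp hab rfl hcD hc ?_
  intro c₀ hc₀
  exact (Cfsg.Agent.S4637.result M hM B hB P hPD hV c₀ hc₀ (Cfsg.Agent.Lib.BlockH.MaxPair.stabSub P c₀)
    (fun g => Iff.rfl) _ rfl).1

end Cfsg.Agent.S4638
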