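import Cfsg.Statements.S4640
import Cfsg.Agent.Lib.Contrib.NonVanish
import Cfsg.Agent.Lib.Blocks.PIndex
import Cfsg.Agent.Lib.CharZeros.Average
import Cfsg.Agent.Lib.Contrib.Sec

set_option autoImplicit false
set_option linter.style.haveILetI false
open Cfsg

namespace Cfsg.Agent.S4640

open Cfsg.Agent.Lib.BlockT.Fong Cfsg.Agent.Lib.Blocks.PIndex Cfsg.Agent.Lib.Blocks.Local
open Cfsg.Agent.Lib.Char.Ortho Cfsg.Agent.Lib.Char.Complete Cfsg.Agent.Lib.Char.Induced
open Cfsg.Agent.Lib.Char.Basic Cfsg.Agent.Lib.Blocks.Central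
open scoped ComplexConjugate

/-- Let N be a normal subgroup of the finite group G of index a power of the prime p, M a maximal ideal of the algebraic integers containing p, b a block of N stabilized by every element of G, and B a block of G covering b (some member of B has a member of b as a constituent of its restriction to N). Suppose that B has a commutative defect group P. Then G = NP and P ∩ N is a defect group of b; every member of B restricts to a member of b; every member of b is the restriction of exactly [G : N] members of B; B contains exactly [G : N] times as many irreducible characters as b; and B and b have the same p-regular rank. -/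
theorem result {G : Type*} [Group G] [Fintype G] (p : ℕ) [Fact p.Prime] (M : Ideal Cfsg.AlgInt) (hM : Cfsg.IsPModular p M) (N : Subgroup G) [N.Normal] [Fintype N] (hNi : ∃ k : ℕ, N.index = p ^ k) (b : Set (Cfsg.IrrCharacter N)) (hb : Cfsg.IsPBlock M b) (hstab : ∀ g : G, Cfsg.StabilizesBlock N b g) (B : Set (Cfsg.IrrCharacter G)) (hB : Cfsg.IsPBlock M B) (hcov : ∃ χ ∈ B, ∃ θ ∈ b, Cfsg.classInner (fun n : N => (χ : G → ℂ) n) (θ : N → ℂ) ≠ 0) (P : Subgroup G) (hPD : Cfsg.IsDefectGroup p M B P) (hPab : ∀ x ∈ P, ∀ y ∈ P, x * y = y * x) : N ⊔ P = ⊤ ∧ Cfsg.IsDefectGroup p M b ((P ⊓ N).subgroupOf N) ∧ (∀ χ ∈ B, ∃ θ ∈ b, ∀ n : N, (χ : G → ℂ) n = (θ : N → ℂ) n) ∧ (∀ θ ∈ b, Nat.card {χ : Cfsg.IrrCharacter G // χ ∈ B ∧ ∀ n : N, (χ : G → ℂ) n = (θ : N → ℂ) n} = N.index) ∧ Nat.card B = N.index * Nat.card b ∧ Cfsg.blockRank p B = Cfsg.blockRank p b := by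
  classical
  haveI := isPrime_of_pModular hM
  haveI := finite_irrCharacter (G := G)
  letI := Fintype.ofFinite (IrrCharacter G)
  haveI := finite_irrCharacter (G := N)
  letI := Fintype.ofFinite (IrrCharacter N)
  obtain ⟨k, hk⟩ := hNi
  have hN : N.Normal := inferInstance
  have hinv := isInv_of_stabilizes hN hstab
  obtain ⟨χ₀, hχ₀, θ₀, hθ₀, hcon⟩ := hcov
  have hχ₀c : χ₀ ∈ covers N b := ⟨θ₀, hθ₀, hcon⟩
  have hBe : B = covers N b := by
    rw [Cfsg.Agent.Lib.Blocks.Central.isPBlock_eq_blockOf hB hχ₀]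
    refine blockOf_eq_covers hN hinv hb hχ₀c fun g hg => ?_
    refine Cfsg.Agent.Lib.BlockP.Stable.blockCoeff_eq_zero hM ⟨χ₀, rfl⟩ ?_
    by_contra h
    exact hg (mem_of_coprime hN hk h)
  subst hBe
  obtain ⟨h1, h2⟩ := sup_eq_top_and_isDefectGroup hN hM hinv hb hk hPD
  have hpgP := Cfsg.Agent.Lib.Blocks.Defect2.isDefectGroup_isPGroup hPD
  -- every member of the block restricts irreducibly
  have key : ∀ χ ∈ covers N b, IsIrrCharacter N (fun n : N => (χ : G → ℂ) n) := by
    intro χ hχ
    by_contra hnot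
    obtain ⟨x, hx⟩ := Cfsg.Agent.Lib.CharZeros.Average.exists_vanish_of_not_irr N χ hnot
    have hxtop : x ∈ ((N ⊔ P : Subgroup G) : Set G) := by rw [h1]; trivial
    rw [Subgroup.normal_mul] at hxtop
    obtain ⟨n₁, hn₁, z, hz, rfl⟩ := Set.mem_mul.mp hxtop
    have hvan : ∀ n : N, (χ : G → ℂ) ((n : G) * z) = 0 := by
      intro n
      have := hx ⟨(n : G) * n₁⁻¹, N.mul_mem n.2 (N.inv_mem hn₁)⟩
      simpa [mul_assoc] using this
    have hzc : ∀ d ∈ P, d * z = z * d := fun d hd => hPab d hd z hz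
    letI : Fintype (Subgroup.centralizer ({z} : Set G)) := Fintype.ofFinite _
    haveI := finite_irrCharacter (G := Subgroup.centralizer ({z} : Set G))
    letI : Fintype (IrrCharacter (Subgroup.centralizer ({z} : Set G))) := Fintype.ofFinite _
    obtain ⟨c, hc, hq⟩ := Cfsg.Agent.Lib.Contrib.MajorEx.exists_major hM hB hPD hz hzc
    obtain ⟨t, ht⟩ := (IsPGroup.iff_orderOf.mp hpgP) ⟨z, hz⟩
    have ht' : orderOf z = p ^ t := by rw [← ht, Subgroup.orderOf_mk]
    letI : Fintype ↑(covers N b) := Fintype.ofFinite _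
    obtain ⟨y, hy, hne⟩ := Cfsg.Agent.Lib.Contrib.NonVanish.exists_section_ne hM ht' hB hc hq hχ
    have hyo : ¬ p ∣ orderOf (y : G) := by rwa [Subgroup.orderOf_coe] 
    have hyN := mem_of_coprime hN hk hyo
    apply hne
    have hcomm : z * (y : G) = (y : G) * z := by
      have := y.2
      rw [Subgroup.mem_centralizer_singleton_iff] at this
      exact this.symm
    rw [hcomm]
    exact hvan ⟨y, hyN⟩
  have hres : ∀ χ ∈ covers N b, ∃ θ ∈ b, ∀ n : N, (χ : G → ℂ) n = (θ : N → ℂ) n := by
    intro χ hχ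
    refine ⟨⟨_, key χ hχ⟩, ?_, fun n => rfl⟩
    refine mem_of_constituent hN hinv hb hχ (Cfsg.Agent.Lib.Blocks.Central.mem_blockOf_self χ) ?_
    have := classInner_self_of_isIrr (key χ hχ)
    change classInner (fun n : N => (χ : G → ℂ) n) (fun n : N => (χ : G → ℂ) n) ≠ 0
    rw [this]
    exact one_ne_zero
  -- the fibres of restriction
  have hfib : ∀ θ ∈ b, Nat.card {χ : IrrCharacter G // χ ∈ covers N b ∧
      ∀ n : N, (χ : G → ℂ) n = (θ : N → ℂ) n} = N.index := by
    intro θ hθ
    set S := Finset.univ.filter (fun χ : IrrCharacter G => χ ∈ covers N b ∧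
      ∀ n : N, (χ : G → ℂ) n = (θ : N → ℂ) n) with hS
    have hcard : Nat.card {χ : IrrCharacter G // χ ∈ covers N b ∧
        ∀ n : N, (χ : G → ℂ) n = (θ : N → ℂ) n} = S.card := by
      rw [Nat.card_eq_fintype_card, Fintype.card_subtype]
    rw [hcard]
    have hF := congrFun (classFunction_eq_sum (isClassFunction_indFun N (θ : N → ℂ))) 1
    rw [indFun_one] at hF
    simp only [Finset.sum_apply, Pi.smul_apply, smul_eq_mul] at hF
    have hterm : ∀ χ : IrrCharacter G, classInner (indFun N (θ : N → ℂ)) (χ : G → ℂ) * (χ : G → ℂ) 1 =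
        if χ ∈ S then (θ : N → ℂ) 1 else 0 := by
      intro χ
      have hcf := isClassFunction_of_isIrrCharacter χ.2
      rw [classInner_indFun_left N _ _ hcf]
      split_ifs with h
      · have h' := (Finset.mem_filter.mp h).2.2
        have he : (fun n : N => (χ : G → ℂ) n) = (θ : N → ℂ) := funext h'
        rw [he, classInner_self_of_isIrr θ.2, one_mul]
        simpa using h' 1
      · by_cases hχ : χ ∈ covers N b
        · have hne : (θ : N → ℂ) ≠ (fun n : N => (χ : G → ℂ) n) := by
            intro he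
            apply h
            exact Finset.mem_filter.mpr ⟨Finset.mem_univ _, hχ, fun n => (congrFun he n).symm⟩
          rw [classInner_eq_zero_of_isIrr_of_ne θ.2 (key χ hχ) hne, zero_mul]
        · have h0 : classInner (fun n : N => (χ : G → ℂ) n) (θ : N → ℂ) = 0 := by
            by_contra hne
            exact hχ ⟨θ, hθ, hne⟩
          rw [← Cfsg.Agent.Lib.Contrib.Proj.conj_classInner, h0, map_zero, zero_mul]
    have hsum : (∑ χ : IrrCharacter G, if χ ∈ S then (θ : N → ℂ) 1 else 0) = (S.card : ℂ) * (θ : N → ℂ) 1 := by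
      rw [Finset.sum_ite_mem, Finset.univ_inter, Finset.sum_const, nsmul_eq_mul]
    have h3 : (N.index : ℂ) * (θ : N → ℂ) 1 = (S.card : ℂ) * (θ : N → ℂ) 1 := by
      rw [hF, ← hsum]
      exact Finset.sum_congr rfl fun χ _ => hterm χ
    have h4 := mul_right_cancel₀ (irr_one_ne_zero θ.2) h3
    exact_mod_cast h4.symm
  have hidx : N.index ≠ 0 := Subgroup.index_ne_zero_of_finite
  have hsurj : ∀ θ ∈ b, ∃ χ ∈ covers N b, ∀ n : N, (χ : G → ℂ) n = (θ : N → ℂ) n := by
    intro θ hθ
    have h3 := hfib θ hθ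
    have h4 : Nat.card {χ : IrrCharacter G // χ ∈ covers N b ∧
      ∀ n : N, (χ : G → ℂ) n = (θ : N → ℂ) n} ≠ 0 := by rw [h3]; exact hidx
    rw [Nat.card_ne_zero] at h4
    obtain ⟨⟨χ, hχ⟩⟩ := h4.1
    exact ⟨χ, hχ.1, hχ.2⟩
  refine ⟨h1, h2, hres, hfib, ?_, ?_⟩
  · -- counting
    let f : IrrCharacter G → IrrCharacter N := fun χ =>
      if h : χ ∈ covers N b then (hres χ h).choose else θ₀
    have hf : ∀ χ (h : χ ∈ covers N b), f χ ∈ b ∧ ∀ n : N, (χ : G → ℂ) n = (f χ : N → ℂ) n := by
      intro χ h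
      have : f χ = (hres χ h).choose := dif_pos h
      rw [this]
      exact (hres χ h).choose_spec
    set s := Finset.univ.filter (fun χ : IrrCharacter G => χ ∈ covers N b) with hs
    set t := Finset.univ.filter (fun θ : IrrCharacter N => θ ∈ b) with ht
    have hmaps : ∀ x ∈ s, f x ∈ t := fun x hx =>
      Finset.mem_filter.mpr ⟨Finset.mem_univ _, (hf x (Finset.mem_filter.mp hx).2).1⟩
    have hc := Finset.card_eq_sum_card_fiberwise hmaps
    have hc2 : ∀ θ ∈ t, (s.filter fun x => f x = θ).card = N.index := by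
      intro θ hθ
      have hθ' := (Finset.mem_filter.mp hθ).2
      rw [← hfib θ hθ', Nat.card_eq_fintype_card, Fintype.card_subtype]
      congr 1
      ext χ
      simp only [Finset.mem_filter, Finset.mem_univ, true_and, s]
      constructor
      · rintro ⟨hχ, rfl⟩
        exact ⟨hχ, (hf χ hχ).2⟩
      · rintro ⟨hχ, h⟩
        refine ⟨hχ, ?_⟩
        apply Subtype.ext
        funext n
        rw [← (hf χ hχ).2 n, h n]
    rw [Finset.sum_congr rfl hc2, Finset.sum_const, smul_eq_mul] at hc
    have e1 : Nat.card ↥(covers N b) = s.card := by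
      rw [Nat.card_eq_fintype_card]
      exact Fintype.card_subtype _
    have e2 : Nat.card ↥b = t.card := by
      rw [Nat.card_eq_fintype_card]
      exact Fintype.card_subtype _
    rw [e1, e2, hc, mul_comm]
  · -- the regular rank
    let E : (N → ℂ) →ₗ[ℂ] (G → ℂ) :=
      { toFun := Cfsg.extendByZero N
        map_add' := extendByZero_add N
        map_smul' := fun c f => extendByZero_smul N c f }
    have hE : Function.Injective E := by
      intro u v huv
      funext n
      have := congrFun huv (n : G)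
      simpa [E, extendByZero_coe] using this
    have hreg : ∀ (χ : IrrCharacter G) (θ : IrrCharacter N), (∀ n : N, (χ : G → ℂ) n = (θ : N → ℂ) n) →
        pRegularPart p (χ : G → ℂ) = E (pRegularPart p (θ : N → ℂ)) := by
      intro χ θ h
      funext g
      change _ = Cfsg.extendByZero N _ g
      by_cases hg : g ∈ N
      · rw [extendByZero_of_mem N _ hg]
        have h5 : IsPRegular p g ↔ IsPRegular p (⟨g, hg⟩ : N) := by
          simp only [IsPRegular, Subgroup.orderOf_mk]
        simp only [pRegularPart, h5]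
        split_ifs
        · exact h ⟨g, hg⟩
        · rfl
      · rw [extendByZero_of_not_mem N _ hg]
        have h5 : ¬ IsPRegular p g := fun h6 => hg (mem_of_coprime hN hk h6)
        simp [pRegularPart, h5]
    have himg : (fun χ : IrrCharacter G => pRegularPart p (χ : G → ℂ)) '' covers N b =
        E '' ((fun θ : IrrCharacter N => pRegularPart p (θ : N → ℂ)) '' b) := by
      ext u
      constructor
      · rintro ⟨χ, hχ, rfl⟩
        obtain ⟨θ, hθ, h⟩ := hres χ hχ
        exact ⟨_, ⟨θ, hθ, rfl⟩, (hreg χ θ h).symm⟩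
      · rintro ⟨_, ⟨θ, hθ, rfl⟩, rfl⟩
        obtain ⟨χ, hχ, h⟩ := hsurj θ hθ
        exact ⟨χ, hχ, hreg χ θ h⟩
    unfold blockRank
    rw [himg, ← Submodule.map_span]
    exact (Submodule.equivMapOfInjective E hE _).finrank_eq.symm

end Cfsg.Agent.S4640
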