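import Cfsg.Statements.S4648
import Cfsg.Agent.Lib.BK.Small

set_option autoImplicit false
open Cfsg

namespace Cfsg.Agent.S4648

/-- Let B be a block of the finite group G relative to a maximal ideal M of the algebraic integers containing the prime p, with a nontrivial defect group D. If B has p-regular rank 1 and at most four irreducible characters, then B is nilpotent, D has exactly as many elements as B has irreducible characters, and p is 2 or 3. -/
theorem result {G : Type*} [Group G] [Finite G] (p : ℕ) [Fact p.Prime] (M : Ideal Cfsg.AlgInt) (hM : Cfsg.IsPModular p M) (B : Set (Cfsg.IrrCharacter G)) (hB : Cfsg.IsPBlock M B) (D : Subgroup G) (hD : Cfsg.IsDefectGroup p M B D) (hD1 : D ≠ ⊥) (hl : Cfsg.blockRank p B = 1) (hk : Nat.card B ≤ 4) : Cfsg.IsNilpotentBlock p M B ∧ Nat.card D = Nat.card B ∧ (p = 2 ∨ p = 3) := by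
  classical
  cases nonempty_fintype G
  haveI := Cfsg.Agent.Lib.Blocks.Local.isPrime_of_pModular hM
  haveI := Cfsg.Agent.Lib.Char.Ortho.finite_irrCharacter (G := G)
  letI : Fintype (IrrCharacter G) := Fintype.ofFinite _
  obtain ⟨i, s, u, w, h⟩ := Cfsg.Agent.Lib.BK.Small.exists_hcData_of_rank_one hM hB hl hk
  have hdeg : ∀ χ ∈ B, charDegree (χ : G → ℂ) = s.card := by
    intro χ hχ
    have h1 := Cfsg.Agent.Lib.BK.HC.one_eq_card h hχ
    rw [← Cfsg.Agent.Lib.Char.Degree.charDegree_natCast
      (Cfsg.Agent.Lib.Char.Basic.isCharacter_of_isIrrCharacter χ.2)] at h1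
    exact_mod_cast h1
  obtain ⟨-, hcard, hnil⟩ := Cfsg.Agent.Lib.BK.Main.of_same_degree hM hB hD hdeg
  refine ⟨hnil, hcard.symm, ?_⟩
  have hp : p.Prime := Fact.out
  have hPg : IsPGroup p D := Cfsg.Agent.Lib.Blocks.Defect2.isDefectGroup_isPGroup hD
  obtain ⟨n, hn⟩ := IsPGroup.iff_card.mp hPg
  have hn0 : n ≠ 0 := by
    rintro rfl
    rw [pow_zero] at hn
    exact hD1 (Subgroup.card_eq_one.mp hn)
  have hle : p ^ n ≤ 4 := by
    rw [← hn, ← hcard]
    exact hk
  have h2 : p ≤ p ^ n := Nat.le_self_pow hn0 p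
  have h3 : p ≤ 4 := h2.trans hle
  interval_cases p
  · exact absurd hp (by norm_num)
  · exact absurd hp (by norm_num)
  · left; rfl
  · right; rfl
  · exact absurd hp (by norm_num)

end Cfsg.Agent.S4648
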