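import Cfsg.Statements.S4649
import Cfsg.Agent.Lib.Dade.Main

set_option autoImplicit false
open Cfsg

namespace Cfsg.Agent.S4649

/-- A block with cyclic defect group, of a finite group relative to a maximal ideal M of the algebraic integers containing the prime p, is nilpotent if and only if its p-regular rank is 1 (it has a unique irreducible Brauer character). -/
theorem result {G : Type*} [Group G] [Finite G] (p : ℕ) [Fact p.Prime] (M : Ideal Cfsg.AlgInt) (hM : Cfsg.IsPModular p M) (B : Set (Cfsg.IrrCharacter G)) (hB : Cfsg.IsPBlock M B) (P : Subgroup G) (hPD : Cfsg.IsDefectGroup p M B P) (hcyc : IsCyclic P) : Cfsg.IsNilpotentBlock p M B ↔ Cfsg.blockRank p B = 1 := by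
  classical
  letI : Fintype G := Fintype.ofFinite G
  haveI := Cfsg.Agent.Lib.Blocks.Local.isPrime_of_pModular hM
  constructor
  · intro hnil
    exact (Cfsg.Agent.Lib.Dade.Base.nilpotent_rank_one hM hnil).1
  · intro hl
    obtain ⟨c, hmax⟩ := Cfsg.Agent.Lib.BP.Nil4.exists_pair_of_defect hM hB hPD
    have hab := Cfsg.Agent.Lib.Dade.Base.hab_of_cyclic hcyc
    rw [Cfsg.Agent.Lib.BlockH.AbelianDefect.s4687 hM hmax hab]
    intro x hxN hxS
    by_cases hP1 : P = ⊥
    · subst hP1
      rw [Subgroup.mem_centralizer_iff]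
      intro h hh
      have h1 : h = 1 := by simpa using hh
      rw [h1, one_mul, mul_one]
    obtain ⟨a, ha⟩ := hmax.1.1.1.exists_card_eq
    have h2 := (Cfsg.Agent.Lib.Dade.Main.main_structure hM hmax hP1 hcyc ha rfl).1
    rw [hl] at h2
    have h3 := Subgroup.relIndex_eq_one.mp h2.symm
    exact h3 ⟨hxN, hxS⟩

end Cfsg.Agent.S4649
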