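import Cfsg.Statements.S4663
import Cfsg.Agent.Lib.BlockH.BrauerMap

set_option autoImplicit false
open Cfsg
open Cfsg.Agent.Lib.Blocks.Local Cfsg.Agent.Lib.Blocks.Central Cfsg.Agent.Lib.Blocks.Brauer
open Cfsg.Agent.Lib.Blocks.Third Cfsg.Agent.Lib.BlockH.BrauerMap Cfsg.Agent.Lib.BlockH.Pairs

namespace Cfsg.Agent.S4663

/-- Fix a prime p and a maximal ideal M of the algebraic integers containing p. Brauer's Third Main Theorem in the language of Brauer pairs: for the principal p-block B₀ of the finite group G and any p-subgroup Q, a p-block e of C_G(Q) makes (Q, e) a Brauer pair of B₀ if and only if e is the principal p-block of C_G(Q). Equivalently, modulo M the truncation to C_G(Q) of the idempotent of B₀ is the idempotent of the principal block of C_G(Q). -/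
theorem result {G : Type*} [Group G] [Fintype G] (p : ℕ) [Fact p.Prime] (M : Ideal Cfsg.AlgInt) (hM : Cfsg.IsPModular p M) (Q : Subgroup G) (hQ : IsPGroup p Q) (e : Set (Cfsg.IrrCharacter (Subgroup.centralizer (Q : Set G)))) (he : Cfsg.IsPBlock M e) : Cfsg.IsBrauerPairOf p M (Cfsg.principalBlock M G) Q e ↔ e = Cfsg.principalBlock M (Subgroup.centralizer (Q : Set G)) := by
  classical
  haveI := isPrime_of_pModular hM
  letI : Fintype (Subgroup.centralizer (Q : Set G)) := Fintype.ofFinite _
  haveI := Cfsg.Agent.Lib.Char.Ortho.finite_irrCharacter (G := G)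
  letI := Fintype.ofFinite (IrrCharacter G)
  constructor
  · rintro ⟨-, -, h⟩
    obtain ⟨ξ, rfl⟩ := id he
    have hξ : ξ ∈ blockOf M (ξ : Subgroup.centralizer (Q : Set G) → ℂ) := mem_blockOf_self ξ
    have h1 := h ξ hξ
    rw [brauerOmega_eq_brH (idem (principalBlock M G) : GA G) _ (fun g => (coeff_idem _ g).symm)] at h1
    have h2 := brH_idem_principal_sub_regSum_mem hM hQ ξ
    by_cases hp : ξ ∈ principalBlock M (Subgroup.centralizer (Q : Set G))
    · rw [isPBlock_eq_blockOf (isPBlock_principal M) hp]
    · exfalso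
      rw [omegaHom_regSum_of_notMem hM hp, mul_zero, sub_zero] at h2
      have h3 := memLocalIdeal_sub h2 h1
      have h4 : brH Q ξ (idem (principalBlock M G) : GA G) -
          (brH Q ξ (idem (principalBlock M G) : GA G) - 1) = 1 := by ring
      rw [h4] at h3
      exact one_notMemLocalIdeal h3
  · rintro rfl
    exact isBrauerPairOf_principal hM hQ

end Cfsg.Agent.S4663
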