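import Cfsg.Statements.S4664
import Cfsg.Agent.Lib.BlockP.Stable
import Cfsg.Agent.Lib.Char.Eigen

set_option autoImplicit false
open Cfsg

namespace Cfsg.Agent.S4664

/-- Fix a prime p and a maximal ideal M of the algebraic integers containing p, and let B be a p-block of the finite group G. Let m be the p'-part of the order of G and η = exp(2πi/m). Then every coefficient of the idempotent of B lies in the cyclotomic field ℚ(η). -/
theorem result {G : Type*} [Group G] [Fintype G] (p : ℕ) [Fact p.Prime] (M : Ideal Cfsg.AlgInt) (hM : Cfsg.IsPModular p M) (B : Set (Cfsg.IrrCharacter G)) (hB : Cfsg.IsPBlock M B) (g : G) : Cfsg.blockCoeff B g ∈ IntermediateField.adjoin ℚ ({Complex.exp (2 * Real.pi * Complex.I / ((Nat.card G / p ^ (Nat.card G).factorization p : ℕ) : ℂ))} : Set ℂ) := by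
  classical
  have hm0 : 0 < Nat.card G / p ^ (Nat.card G).factorization p :=
    Nat.div_pos (Nat.le_of_dvd Nat.card_pos (Nat.ordProj_dvd _ _))
      (pow_pos (Fact.out : p.Prime).pos _)
  set m := Nat.card G / p ^ (Nat.card G).factorization p with hm
  set L := IntermediateField.adjoin ℚ ({Complex.exp (2 * Real.pi * Complex.I / (m : ℂ))} : Set ℂ)
    with hL
  have hη : IsPrimitiveRoot (Complex.exp (2 * Real.pi * Complex.I / (m : ℂ))) m :=
    Complex.isPrimitiveRoot_exp m hm0.ne'
  have hηL : Complex.exp (2 * Real.pi * Complex.I / (m : ℂ)) ∈ L :=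
    IntermediateField.mem_adjoin_simple_self ℚ _
  have hroot : ∀ z : ℂ, z ^ m = 1 → z ∈ L := by
    intro z hz
    haveI : NeZero m := ⟨hm0.ne'⟩
    obtain ⟨i, -, rfl⟩ := hη.eq_pow_of_pow_eq_one hz
    exact pow_mem hηL i
  have hval : ∀ (χ : Cfsg.IrrCharacter G) (h : G), orderOf h ∣ m → (χ : G → ℂ) h ∈ L := by
    rintro ⟨χ, n, ρ, hρ, rfl⟩ h hh
    obtain ⟨μ, h1, h2⟩ := Cfsg.Agent.Lib.Char.Eigen.character_eq_sum_roots' ρ h
    change ρ.character h ∈ L
    rw [h2]
    refine sum_mem fun i _ => hroot _ ?_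
    obtain ⟨c, hc⟩ := hh
    rw [hc, pow_mul, h1 i, one_pow]
  by_cases hg : p ∣ orderOf g
  · rw [Cfsg.Agent.Lib.BlockP.Stable.blockCoeff_eq_zero hM hB hg]
    exact zero_mem _
  · have hgm : orderOf g ∣ m := by
      have h1 : orderOf g ∣ p ^ (Nat.card G).factorization p * m := by
        rw [hm, Nat.mul_div_cancel' (Nat.ordProj_dvd _ _)]
        exact orderOf_dvd_natCard g
      refine (Nat.Coprime.dvd_of_dvd_mul_left ?_ h1)
      exact Nat.Coprime.pow_right _ ((Nat.Prime.coprime_iff_not_dvd (Fact.out : p.Prime)).mpr hg).symm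
    have hg1 : orderOf (1 : G) ∣ m := by rw [orderOf_one]; exact one_dvd _
    have hginv : orderOf g⁻¹ ∣ m := by rwa [orderOf_inv]
    unfold Cfsg.blockCoeff
    refine mul_mem (inv_mem (natCast_mem _ _)) ?_
    refine finsum_mem_induction (· ∈ L) (zero_mem _) (fun _ _ => add_mem) ?_
    intro χ _
    refine mul_mem (hval χ 1 hg1) ?_
    rw [← Cfsg.Agent.Lib.Char.Ortho.char_inv_eq_conj (Cfsg.Agent.Lib.Char.Basic.isCharacter_of_isIrrCharacter χ.2)]
    exact hval χ _ hginv

end Cfsg.Agent.S4664
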