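import Cfsg.Statements.S4665
import Cfsg.Agent.Lib.Char.Ortho
import Cfsg.Agent.Lib.CharX.Fixed

set_option autoImplicit false
open Cfsg

namespace Cfsg.Agent.S4665

/-- The sum of a character over a subgroup is an integer multiple of the subgroup order. -/
lemma sum_subgroup_character {G : Type*} [Group G] [Fintype G] (H : Subgroup G) [Fintype H]
    {χ : G → ℂ} (hχ : Cfsg.IsCharacter G χ) :
    ∃ m : ℕ, ∑ x : H, χ x = (Nat.card H : ℂ) * m := by
  obtain ⟨n, ρ, rfl⟩ := hχ
  have h1 := Cfsg.Agent.Lib.CharX.Fixed.classInner_restrict_one_eq_finrank H ρ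
  rw [Cfsg.Agent.Lib.CharX.Fixed.classInner_one_eq] at h1
  refine ⟨Module.finrank ℂ ↥(Representation.invariants (MonoidHom.comp ρ H.subtype)), ?_⟩
  rw [← h1]
  have : (Nat.card H : ℂ) ≠ 0 := by
    exact_mod_cast Nat.card_pos.ne'
  field_simp

/-- Fix a prime p, a maximal ideal M of the algebraic integers containing p, and a p-block B of the finite group G, and let p^a be the p-part of the order of G. Let χ be an integer combination of the irreducible characters in B. If the function that agrees with χ on p-regular elements and vanishes on p-singular elements is again an integer combination of the irreducible characters in B, then p^a divides χ(1). -/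
theorem result {G : Type*} [Group G] [Fintype G] (p : ℕ) [Fact p.Prime] (M : Ideal Cfsg.AlgInt) (hM : Cfsg.IsPModular p M) (B : Set (Cfsg.IrrCharacter G)) (hB : Cfsg.IsPBlock M B) (χ : G → ℂ) (hχ : (∃ n : Cfsg.IrrCharacter G → ℤ, ∀ g : G, χ g = ∑ᶠ ψ ∈ B, (n ψ : ℂ) * (ψ : G → ℂ) g)) (h0 : (∃ n : Cfsg.IrrCharacter G → ℤ, ∀ g : G, Cfsg.pRegularPart p χ g = ∑ᶠ ψ ∈ B, (n ψ : ℂ) * (ψ : G → ℂ) g)) : ∃ k : ℤ, χ 1 = (p ^ (Nat.card G).factorization p : ℂ) * k := by
  classical
  obtain ⟨n, hn⟩ := h0
  have hp : p.Prime := Fact.out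
  haveI : Finite (Cfsg.IrrCharacter G) := Cfsg.Agent.Lib.Char.Ortho.finite_irrCharacter
  obtain ⟨P⟩ : Nonempty (Sylow p G) := inferInstance
  haveI : Fintype (P : Subgroup G) := Fintype.ofFinite _
  have hcard : Nat.card (P : Subgroup G) = p ^ (Nat.card G).factorization p := Sylow.card_eq_multiplicity P
  have hfin : B.Finite := Set.toFinite B
  have key : ∑ x : (P : Subgroup G), Cfsg.pRegularPart p χ x = χ 1 := by
    rw [Finset.sum_eq_single (1 : (P : Subgroup G))]
    · simp [Cfsg.pRegularPart, Cfsg.IsPRegular, hp.one_lt.ne']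
    · intro x _ hx
      have hnr : ¬ Cfsg.IsPRegular p (x : G) := by
        intro hr
        obtain ⟨k, hk⟩ := Sylow.isPGroup' P x
        have hk' : (x : G) ^ p ^ k = 1 := by
          have := congrArg Subtype.val hk
          simpa using this
        obtain ⟨j, -, hj⟩ := (Nat.dvd_prime_pow hp).mp (orderOf_dvd_of_pow_eq_one hk')
        rcases Nat.eq_zero_or_pos j with rfl | hjpos
        · apply hx
          apply Subtype.ext
          simpa [orderOf_eq_one_iff] using hj
        · apply hr
          rw [hj]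
          exact dvd_pow_self p hjpos.ne'
      simp [Cfsg.pRegularPart, hnr]
    · simp
  have hchoose : ∀ ψ : Cfsg.IrrCharacter G, ∃ m : ℕ,
      ∑ x : (P : Subgroup G), (ψ : G → ℂ) x = (Nat.card (P : Subgroup G) : ℂ) * m := fun ψ =>
    sum_subgroup_character _ (Cfsg.Agent.Lib.Char.Basic.isCharacter_of_isIrrCharacter ψ.2)
  choose m hm using hchoose
  refine ⟨∑ ψ ∈ hfin.toFinset, n ψ * (m ψ : ℤ), ?_⟩
  rw [← key]
  have h2 : ∀ x : G, Cfsg.pRegularPart p χ x = ∑ ψ ∈ hfin.toFinset, (n ψ : ℂ) * (ψ : G → ℂ) x := by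
    intro x
    rw [hn x, finsum_mem_eq_finite_toFinset_sum _ hfin]
  simp_rw [h2]
  rw [Finset.sum_comm]
  push_cast
  rw [Finset.mul_sum]
  refine Finset.sum_congr rfl fun ψ _ => ?_
  rw [← Finset.mul_sum, hm ψ, hcard]
  push_cast
  ring

end Cfsg.Agent.S4665
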