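import Cfsg.Statements.S4666
import Cfsg.Agent.Lib.Blocks.RegPart2

set_option autoImplicit false
open Cfsg

namespace Cfsg.Agent.S4666

/-- Fix a prime p and a maximal ideal M of the algebraic integers containing p, and a p-block B of the finite group G of defect d. For every integer combination χ of the irreducible characters in B, p^d times the function that agrees with χ on p-regular elements and vanishes elsewhere is again an integer combination of the irreducible characters in B. -/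
theorem result {G : Type*} [Group G] [Fintype G] (p : ℕ) [Fact p.Prime] (M : Ideal Cfsg.AlgInt) (hM : Cfsg.IsPModular p M) (B : Set (Cfsg.IrrCharacter G)) (hB : Cfsg.IsPBlock M B) (χ : G → ℂ) (hχ : (∃ n : Cfsg.IrrCharacter G → ℤ, ∀ g : G, χ g = ∑ᶠ ψ ∈ B, (n ψ : ℂ) * (ψ : G → ℂ) g)) : (∃ n : Cfsg.IrrCharacter G → ℤ, ∀ g : G, (p ^ Cfsg.blockDefect p B : ℂ) * Cfsg.pRegularPart p χ g = ∑ᶠ ψ ∈ B, (n ψ : ℂ) * (ψ : G → ℂ) g) := by
  classical
  haveI := Cfsg.Agent.Lib.Blocks.Local.isPrime_of_pModular hM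
  haveI := Cfsg.Agent.Lib.Char.Ortho.finite_irrCharacter (G := G)
  letI := Fintype.ofFinite (Cfsg.IrrCharacter G)
  obtain ⟨n, hn⟩ := hχ
  obtain ⟨n', hn', hs⟩ := Cfsg.Agent.Lib.Blocks.RegPart2.exists_comb_block hM hB (χ := χ) n
    (fun g => by rw [hn g, Cfsg.Agent.Lib.Blocks.RegPart2.finsum_mem_eq_sum_ite])
  refine ⟨n', fun g => ?_⟩
  rw [Cfsg.Agent.Lib.Blocks.RegPart2.finsum_mem_eq_sum_ite]
  have h := hs g
  push_cast at h
  rw [h]
  refine Fintype.sum_congr _ _ fun ψ => ?_
  split_ifs with hψ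
  · rfl
  · rw [hn' ψ hψ]
    simp

end Cfsg.Agent.S4666
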