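import Cfsg.Statements.S4668
import Cfsg.Agent.Lib.BlockH.Idem
import Cfsg.Agent.Lib.CharP.Basic

set_option autoImplicit false
open Cfsg

namespace Cfsg.Agent.S4668

/-- Fix a prime p and a maximal ideal M of the algebraic integers containing p. Let Q₀ < Q₁ < ⋯ < Q_m be a strictly increasing chain of p-subgroups of the finite group G and N the intersection of their normalizers. Then every block idempotent of N is supported on C_G(Q_m): for every p-block E of N, the idempotent coefficient of E vanishes at every element of N outside C_G(Q_m). -/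
theorem result {G : Type*} [Group G] [Fintype G] (p : ℕ) [Fact p.Prime] (M : Ideal Cfsg.AlgInt) (hM : Cfsg.IsPModular p M) (m : ℕ) (Q : Fin (m + 1) → Subgroup G) (hQ : StrictMono Q) (hQp : ∀ i, IsPGroup p (Q i)) (N : Subgroup G) (hN : ∀ g : G, g ∈ N ↔ ∀ i, g ∈ Subgroup.normalizer (Q i : Set G)) (E : Set (Cfsg.IrrCharacter N)) (hE : Cfsg.IsPBlock M E) (n : N) (hn : (n : G) ∉ Subgroup.centralizer (Q (Fin.last m) : Set G)) : Cfsg.blockCoeff E n = 0 := by
  classical
  haveI : Fintype N := Fintype.ofFinite N
  by_contra hne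
  -- `n` is `p`-regular
  have hreg : ¬ p ∣ orderOf n := fun hd =>
    hne (Cfsg.Agent.Lib.BlockH.Idem.blockCoeff_eq_zero_of_dvd_orderOf hM hE hd)
  have hreg' : (orderOf (n : G)).Coprime p := by
    rw [Subgroup.orderOf_coe]
    exact ((Nat.Prime.coprime_iff_not_dvd Fact.out).mpr hreg).symm
  -- the normal `p`-subgroup `Q_last ∩ N`
  set L : Subgroup G := Q (Fin.last m) with hL
  have hNL : N ≤ Subgroup.normalizer (L : Set G) := fun g hg => (hN g).mp hg _
  let R : Subgroup N := L.subgroupOf N
  have hRp : IsPGroup p R := by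
    have h1 : IsPGroup p L := hQp _
    exact IsPGroup.comap_of_injective h1 N.subtype N.subtype_injective
  have hRn : R.Normal := by
    refine ⟨fun a ha g => ?_⟩
    rw [Subgroup.mem_subgroupOf] at ha ⊢
    have := (Subgroup.mem_normalizer_iff.mp (hNL g.2) a).mp ha
    simpa using this
  have hnc : ∀ x ∈ L, x ∈ N → (n : G) * x = x * (n : G) := by
    intro x hxL hxN
    by_contra hcontra
    apply hne
    apply Cfsg.Agent.Lib.BlockH.Idem.blockCoeff_eq_zero_of_not_mem_centralizer hM R hRn hRp hE
    intro hmem
    apply hcontra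
    have := Subgroup.mem_centralizer_iff.mp hmem ⟨x, hxN⟩ (Subgroup.mem_subgroupOf.mpr hxL)
    have h2 := congrArg Subtype.val this
    exact h2.symm
  have hlast : ∀ i, Q i ≤ L := fun i => hQ.monotone (Fin.le_last i)
  -- induction up the chain
  have key : ∀ (i : ℕ) (hi : i < m + 1), ∀ x ∈ Q ⟨i, hi⟩, (n : G) * x = x * (n : G) := by
    intro i
    induction i with
    | zero =>
      intro hi x hx
      refine hnc x (hlast _ hx) ?_
      rw [hN]
      intro j
      have hle : (⟨0, hi⟩ : Fin (m + 1)) ≤ j := Fin.mk_le_of_le_val (Nat.zero_le _)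
      exact Subgroup.le_normalizer (hQ.monotone hle hx)
    | succ i ih =>
      intro hi x hx
      have hi' : i < m + 1 := by omega
      have hle : (⟨i, hi'⟩ : Fin (m + 1)) ≤ ⟨i + 1, hi⟩ := Fin.mk_le_mk.mpr (by omega)
      refine Cfsg.Agent.Lib.CharP.Basic.thompson_AB (p := p) (Q ⟨i + 1, hi⟩) (Q ⟨i, hi'⟩) (hQp _) (hQp _)
        ?_ (n : G) ?_ ?_ hreg' ?_ x hx
      · intro r hr y hy
        exact (Q ⟨i + 1, hi⟩).mul_mem ((Q ⟨i + 1, hi⟩).mul_mem (hQ.monotone hle hr) hy)
          ((Q ⟨i + 1, hi⟩).inv_mem (hQ.monotone hle hr))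
      · intro y hy
        exact (Subgroup.mem_normalizer_iff.mp ((hN _).mp n.2 _) y).mp hy
      · exact ih hi'
      · intro y hy hyc
        refine hnc y (hlast _ hy) ?_
        rw [hN]
        intro j
        by_cases hj : (j : ℕ) ≤ i
        · -- `y` centralizes `Q j`
          have hj' : j ≤ (⟨i, hi'⟩ : Fin (m + 1)) := Fin.mk_le_of_le_val hj
          have e : ∀ h' ∈ Q j, y * h' * y⁻¹ = h' := by
            intro h' hh'
            rw [← hyc h' (hQ.monotone hj' hh')]
            group
          rw [Subgroup.mem_normalizer_iff]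
          intro h
          constructor
          · intro hh
            rw [e h hh]
            exact hh
          · intro hh
            have h1 := e _ hh
            have h2 : y * h * y⁻¹ = h := by
              have h3 : y * (y * h * y⁻¹) * y⁻¹ = y * (y * h * y⁻¹ * y⁻¹) := by group
              rw [h3] at h1
              have h4 := mul_left_cancel (a := y) (b := y * h * y⁻¹ * y⁻¹) (c := h * y⁻¹) (by
                rw [h1]; group)
              exact mul_right_cancel h4
            rwa [h2] at hh
        · have hj' : (⟨i + 1, hi⟩ : Fin (m + 1)) ≤ j := Fin.mk_le_of_le_val (by omega)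
          exact Subgroup.le_normalizer (hQ.monotone hj' hy)
  apply hn
  rw [Subgroup.mem_centralizer_iff]
  intro x hx
  exact (key m (by omega) x hx).symm

end Cfsg.Agent.S4668
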