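import Cfsg.Statements.S4669
import Cfsg.Agent.Lib.Blocks.Rank1
import Cfsg.Agent.S0968

set_option autoImplicit false
open Cfsg

namespace Cfsg.Agent.S4669

/-- Fix a prime p and a maximal ideal M of the algebraic integers containing p. If the p-block B of the finite group G has a defect group P contained in the centre of G, then B has p-regular rank one (a single irreducible Brauer character). -/
theorem result {G : Type*} [Group G] [Fintype G] (p : ℕ) [Fact p.Prime] (M : Ideal Cfsg.AlgInt) (hM : Cfsg.IsPModular p M) (B : Set (Cfsg.IrrCharacter G)) (hB : Cfsg.IsPBlock M B) (P : Subgroup G) (hD : Cfsg.IsDefectGroup p M B P) (hPZ : P ≤ Subgroup.center G) : Cfsg.blockRank p B = 1 := by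
  classical
  haveI := Cfsg.Agent.Lib.Blocks.Local.isPrime_of_pModular hM
  haveI := Cfsg.Agent.Lib.Char.Ortho.finite_irrCharacter (G := G)
  letI := Fintype.ofFinite (Cfsg.IrrCharacter G)
  letI : Fintype P := Fintype.ofFinite _
  have hPp : IsPGroup p P := Cfsg.Agent.Lib.Blocks.Defect2.isDefectGroup_isPGroup hD
  have hc : Subgroup.centralizer (P : Set G) = ⊤ :=
    Subgroup.centralizer_eq_top_iff_subset.mpr hPZ
  have hG : P ⊔ Subgroup.centralizer (P : Set G) = ⊤ := by rw [hc, sup_top_eq]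
  obtain ⟨⟨θ, ⟨hθB, hθ⟩, huniq⟩, -, -⟩ := Cfsg.Agent.S0968.result p M hM P hPp hG B hB hD
  have hN : P.Normal := ⟨fun x hx g => by
    have := (Subgroup.mem_center_iff.mp (hPZ hx)) g
    rw [this, mul_inv_cancel_right]
    exact hx⟩
  refine Cfsg.Agent.Lib.Blocks.Rank1.blockRank_eq_one_of_scalar hθB (fun χ hχ => ?_)
  have hB' := Cfsg.Agent.Lib.Blocks.Central.isPBlock_eq_blockOf hB hθB
  rw [hB'] at hχ
  exact Cfsg.Agent.Lib.BlockT.CenterP.exists_scalar hM hN hPp ⟨0, by rw [hc, Subgroup.index_top]; simp⟩ hχ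
    (fun n => hθ n n.2)
    (fun θ' hθ' h => huniq θ' ⟨by rw [hB']; exact hθ', fun x hx => h ⟨x, hx⟩⟩)

end Cfsg.Agent.S4669
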