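import Cfsg.Statements.S4674
import Cfsg.Agent.Lib.BlockCoverN.CoverE

set_option autoImplicit false
open Cfsg

namespace Cfsg.Agent.S4674

open Cfsg.Agent.Lib.Blocks.Local Cfsg.Agent.Lib.Blocks.Central Cfsg.Agent.Lib.Blocks.Induced
open Cfsg.Agent.Lib.Blocks.Defect2 Cfsg.Agent.Lib.Blocks.Inducing Cfsg.Agent.Lib.Blocks.Cover2
open Cfsg.Agent.Lib.BlockCoverN.Tau Cfsg.Agent.Lib.BlockCoverN.CoverE Cfsg.Agent.Lib.BlockCoverN.Good
open Cfsg.Agent.Lib.BlockH.Transport Cfsg.Agent.Lib.BlockH.Defects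

/-- Fix a prime p and a maximal ideal M of the algebraic integers containing p. Let N be a normal subgroup of the finite group G, Q a p-subgroup of N, H = N_G(Q) and L = H ∩ N = N_N(Q). Let d be a p-block of N with defect group Q and e the p-block of L with defect group Q that induces d inside N (its Brauer correspondent). Then block induction from H to G is a bijection from the p-blocks of H covering e onto the p-blocks of G covering d: every block of H covering e induces exactly one block of G, and that block covers d; and every block of G covering d is induced by exactly one block of H covering e. -/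
theorem result {G : Type*} [Group G] [Fintype G] (p : ℕ) [Fact p.Prime] (M : Ideal Cfsg.AlgInt) (hM : Cfsg.IsPModular p M) (N : Subgroup G) [N.Normal] [Fintype N] (Q : Subgroup G) (hQ : IsPGroup p Q) (hQN : Q ≤ N) [Fintype ↥(Subgroup.normalizer (Q : Set G) ⊓ N)] (d : Set (Cfsg.IrrCharacter N)) (hd : Cfsg.IsPBlock M d) (hdQ : Cfsg.IsDefectGroup p M d (Q.subgroupOf N)) (e : Set (Cfsg.IrrCharacter ↥(Subgroup.normalizer (Q : Set G) ⊓ N))) (he : Cfsg.IsPBlock M e) (heQ : Cfsg.IsDefectGroup p M e (Q.subgroupOf (Subgroup.normalizer (Q : Set G) ⊓ N))) (hed : Cfsg.IsInducedBlockIn M N (Subgroup.normalizer (Q : Set G) ⊓ N) e d) : (∀ c : Set (Cfsg.IrrCharacter ↥(Subgroup.normalizer (Q : Set G))), Cfsg.IsPBlock M c → (∃ ψ ∈ c, ∃ ξ ∈ e, Cfsg.classInner (fun l : ↥(Subgroup.normalizer (Q : Set G) ⊓ N) => (ψ : ↥(Subgroup.normalizer (Q : Set G)) → ℂ) (Subgroup.inclusion inf_le_left l)) (ξ : ↥(Subgroup.normalizer (Q : Set G) ⊓ N) → ℂ) ≠ 0) → ∃! B :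 Set (Cfsg.IrrCharacter G), Cfsg.IsInducedBlock M (Subgroup.normalizer (Q : Set G)) c B ∧ (∃ χ ∈ B, ∃ θ ∈ d, Cfsg.classInner (fun n : N => (χ : G → ℂ) n) (θ : N → ℂ) ≠ 0)) ∧ (∀ B : Set (Cfsg.IrrCharacter G), Cfsg.IsPBlock M B → (∃ χ ∈ B, ∃ θ ∈ d, Cfsg.classInner (fun n : N => (χ : G → ℂ) n) (θ : N → ℂ) ≠ 0) → ∃! c : Set (Cfsg.IrrCharacter ↥(Subgroup.normalizer (Q : Set G))), (Cfsg.IsPBlock M c ∧ ∃ ψ ∈ c, ∃ ξ ∈ e, Cfsg.classInner (fun l : ↥(Subgroup.normalizer (Q : Set G) ⊓ N) => (ψ : ↥(Subgroup.normalizer (Q : Set G)) → ℂ) (Subgroup.inclusion inf_le_left l)) (ξ : ↥(Subgroup.normalizer (Q : Set G) ⊓ N) → ℂ) ≠ 0) ∧ Cfsg.IsInducedBlock M (Subgroup.normalizer (Q : Set G)) c B) := by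
  classical
  haveI := isPrime_of_pModular hM
  haveI := Cfsg.Agent.Lib.Char.Ortho.finite_irrCharacter (G := G)
  haveI := Cfsg.Agent.Lib.Char.Ortho.finite_irrCharacter (G := N)
  haveI := Cfsg.Agent.Lib.Char.Ortho.finite_irrCharacter (G := HH Q)
  haveI := Cfsg.Agent.Lib.Char.Ortho.finite_irrCharacter (G := YY N Q)
  haveI := Cfsg.Agent.Lib.Char.Ortho.finite_irrCharacter (G := LN N Q)
  letI : Fintype (IrrCharacter G) := Fintype.ofFinite _
  letI : Fintype (IrrCharacter N) := Fintype.ofFinite _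
  letI : Fintype (HH Q) := Fintype.ofFinite _
  letI : Fintype (YY N Q) := Fintype.ofFinite _
  letI : Fintype (LN N Q) := Fintype.ofFinite _
  letI : Fintype (IrrCharacter (HH Q)) := Fintype.ofFinite _
  letI : Fintype (IrrCharacter (YY N Q)) := Fintype.ofFinite _
  letI : Fintype (IrrCharacter (LN N Q)) := Fintype.ofFinite _
  have hP := isBrauerPair_normalizer hQ
  set eY : Set (IrrCharacter (YY N Q)) := blockMap phi e with heYdef
  have heY : IsPBlock M eY := isPBlock_blockMap _ he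
  have hblock : blockMap (tau hQN) eY = blockMap (phi.trans (tau hQN)) e := blockMap_blockMap _ _ _
  have hed' : IsInducedBlock M (LN N Q) (blockMap (tau hQN) eY) d := by
    rw [hblock]
    exact isInducedBlock_of_in hQN hed
  have heD : IsDefectGroup p M (blockMap (tau hQN) eY) ((Q.subgroupOf N).subgroupOf (LN N Q)) := by
    rw [hblock]
    have h1 := isDefectGroup_blockMap (phi.trans (tau hQN)) heQ
    have h2 : (Q.subgroupOf (Subgroup.normalizer (Q : Set G) ⊓ N)).map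
        (phi.trans (tau hQN)).toMonoidHom = (Q.subgroupOf N).subgroupOf (LN N Q) := by
      ext l
      constructor
      · rintro ⟨k, hk, rfl⟩
        exact hk
      · intro hl
        exact ⟨(phi.trans (tau hQN)).symm l, hl, by simp⟩
    rwa [h2] at h1
  have hQY := isDefectGroup_blockMap phi heQ
  have hcard : Nat.card ((Q.subgroupOf (Subgroup.normalizer (Q : Set G) ⊓ N)).map phi.toMonoidHom) =
      Nat.card Q := by
    have h1 : Nat.card ((Q.subgroupOf (Subgroup.normalizer (Q : Set G) ⊓ N)).map phi.toMonoidHom) =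
        Nat.card (Q.subgroupOf (Subgroup.normalizer (Q : Set G) ⊓ N)) :=
      Nat.card_congr (Subgroup.equivMapOfInjective _ _ phi.injective).toEquiv.symm
    rw [h1]
    exact Nat.card_congr (Subgroup.subgroupOfEquivOfLe
      (le_inf (le_normalizer_self Q) hQN)).toEquiv
  have hcov_iff : ∀ c : Set (IrrCharacter (Subgroup.normalizer (Q : Set G))),
      (∃ ψ ∈ c, ∃ ξ ∈ e, Cfsg.classInner
        (fun l : ↥(Subgroup.normalizer (Q : Set G) ⊓ N) =>
          (ψ : ↥(Subgroup.normalizer (Q : Set G)) → ℂ) (Subgroup.inclusion inf_le_left l))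
        (ξ : ↥(Subgroup.normalizer (Q : Set G) ⊓ N) → ℂ) ≠ 0) ↔
      (∃ ψ ∈ c, ∃ ξ ∈ eY, classInner (fun n : (YY N Q) => (ψ : (HH Q) → ℂ) n) (ξ : (YY N Q) → ℂ) ≠ 0) := by
    intro c
    have key : ∀ (ψ : IrrCharacter (HH Q)) (ξ : IrrCharacter (Subgroup.normalizer (Q : Set G) ⊓ N : Subgroup G)),
        classInner (fun n : (YY N Q) => (ψ : (HH Q) → ℂ) n) (irrMap phi ξ : (YY N Q) → ℂ) =
        Cfsg.classInner (fun l : ↥(Subgroup.normalizer (Q : Set G) ⊓ N) =>
          (ψ : ↥(Subgroup.normalizer (Q : Set G)) → ℂ) (Subgroup.inclusion inf_le_left l))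
          (ξ : ↥(Subgroup.normalizer (Q : Set G) ⊓ N) → ℂ) := by
      intro ψ ξ
      rw [← Cfsg.Agent.Lib.Char.Conj.classInner_comp_mulEquiv phi]
      congr 1
    constructor
    · rintro ⟨ψ, hψ, ξ, hξ, hne⟩
      exact ⟨ψ, hψ, irrMap phi ξ, irrMap_mem_blockMap _ _ hξ, by rwa [key]⟩
    · rintro ⟨ψ, hψ, _, ⟨ξ, hξ, rfl⟩, hne⟩
      exact ⟨ψ, hψ, ξ, hξ, by rwa [key] at hne⟩
  refine ⟨?_, ?_⟩
  · intro c hc hcov
    obtain ⟨B, hB⟩ := exists_induced hM hP hc
    refine ⟨B, ⟨hB, covers_of_covers hM hQ hQN hB.2.1 hB heY hd hed' ((hcov_iff c).mp hcov)⟩, ?_⟩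
    rintro B' ⟨hB', -⟩
    exact IsInducedBlock.unique _ hB' hB
  · intro B hB hcov
    obtain ⟨P, hPdef, hPN⟩ := knorr hM hB hd hcov hQN hdQ
    obtain ⟨c, hc⟩ := exists_induced_of_le_defect hM hP hB hPdef (x := 1) (by
      intro u hu
      obtain ⟨v, hv, rfl⟩ := hu
      have : v ∈ P ⊓ N := by rw [hPN]; exact hv
      simpa using this.1)
    have hcovY := covers_of_induced hM hQ hQN hB hc hd hdQ hcov hed' heD
    refine ⟨c, ⟨⟨hc.1, (hcov_iff c).mpr hcovY⟩, hc⟩, ?_⟩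
    rintro c' ⟨⟨hc', hcov'⟩, hind'⟩
    exact eq_of_covers hM hQ hQN hc' heY hQY hcard ((hcov_iff c').mp hcov') hind' hc

end Cfsg.Agent.S4674
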