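import Cfsg.Statements.S4681
import Cfsg.Agent.Lib.BlockH.SubpairLE
import Cfsg.Agent.S4663

set_option autoImplicit false
open Cfsg
open Cfsg.Agent.Lib.Blocks.Local Cfsg.Agent.Lib.Blocks.Central
open Cfsg.Agent.Lib.BlockH.Pairs Cfsg.Agent.Lib.BlockH.Transport
open Cfsg.Agent.Lib.BlockH.Subpair Cfsg.Agent.Lib.BlockH.SubpairLE

namespace Cfsg.Agent.S4681

/-- The principal block lies below any principal pair. -/
theorem principal_subpairLE {G : Type*} [Group G] [Fintype G] (p : ℕ) [Fact p.Prime]
    (M : Ideal Cfsg.AlgInt) (hM : Cfsg.IsPModular p M) {Q P : Subgroup G} (hP : IsPGroup p P)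
    (hQP : Q ≤ P) :
    SubpairLE p M Q (principalBlock M (Subgroup.centralizer (Q : Set G))) P
      (principalBlock M (Subgroup.centralizer (P : Set G))) := by
  haveI := isPrime_of_pModular hM
  have h0 := isBrauerPairOf_principal hM hP
  obtain ⟨f, hf, hle⟩ := exists_subpairLE hM h0.1 hQP
  have h1 := (isBrauerPairOf_iff_of_subpairLE hM hle h0.2.1).mp h0
  have h2 := (Cfsg.Agent.S4663.result p M hM Q (hP.to_le hQP) f hf).mp h1
  rwa [h2] at hle

/-- Fix a prime p and a maximal ideal M of the algebraic integers containing p. Let B₀ be the principal p-block of the finite group G, P a Sylow p-subgroup and e₀ the principal p-block of C_G(P). Then (P, e₀) is a maximal Brauer pair of B₀, and the fusion system of B₀ on (P, e₀) is the fusion system of G on P: its maps from each subgroup of P are exactly the conjugation maps into P by elements of G. -/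
theorem result {G : Type*} [Group G] [Fintype G] (p : ℕ) [Fact p.Prime] (M : Ideal Cfsg.AlgInt) (hM : Cfsg.IsPModular p M) (S : Sylow p G) : Cfsg.IsMaximalBrauerPair p M (Cfsg.principalBlock M G) (S : Subgroup G) (Cfsg.principalBlock M (Subgroup.centralizer ((S : Subgroup G) : Set G))) ∧ ∀ F : Cfsg.FusionSystem (S : Subgroup G), Cfsg.IsBlockFusionSystemOn p M (Cfsg.principalBlock M G) (S : Subgroup G) (Cfsg.principalBlock M (Subgroup.centralizer ((S : Subgroup G) : Set G))) F → ∀ Q : Subgroup G, F.Hom Q = (Cfsg.groupFusionSystem (S : Subgroup G)).Hom Q := by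
  haveI := isPrime_of_pModular hM
  refine ⟨⟨isBrauerPairOf_principal hM S.isPGroup', fun R g hR hle => ?_⟩, fun F hF Q => ?_⟩
  · exact S.is_maximal' hR.1.1 (le_of_subpairLE hle)
  · ext φ
    rw [hF.2 Q φ]
    constructor
    · rintro ⟨hQ, g, hg, hgS, -⟩
      refine ⟨hQ, fun x => ?_, g, hg⟩
      rw [hg]
      exact hgS ⟨x, x.2, rfl⟩
    · rintro ⟨hQ, hS, g, hg⟩
      have hgS : Q.map (MulAut.conj g).toMonoidHom ≤ (S : Subgroup G) := by
        rintro _ ⟨q, hq, rfl⟩
        have := hS ⟨q, hq⟩
        rw [hg] at this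
        exact this
      refine ⟨hQ, g, hg, hgS, _, principal_subpairLE p M hM S.isPGroup' hQ, ?_⟩
      rw [conjBlock_eq_blockMap, blockMap_principal]
      exact principal_subpairLE p M hM S.isPGroup' hgS

end Cfsg.Agent.S4681
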