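import Cfsg.Statements.S4693
import Cfsg.Agent.Lib.BlockNil.Basic

set_option autoImplicit false
open Cfsg

namespace Cfsg.Agent.S4693

open Cfsg MonoidAlgebra
open Cfsg.Agent.Lib.Blocks.Local Cfsg.Agent.Lib.Blocks.Central Cfsg.Agent.Lib.Blocks.Brauer
open Cfsg.Agent.Lib.Blocks.Defect2
open Cfsg.Agent.Lib.BlockH.Pairs Cfsg.Agent.Lib.BlockH.BrauerMap
open Cfsg.Agent.Lib.BlockH.Subpair Cfsg.Agent.Lib.BlockH.SubpairLE
open Cfsg.Agent.Lib.BlockH.FusionB Cfsg.Agent.Lib.BlockH.StabBlock
open Cfsg.Agent.Lib.BlockNil.Basic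
open Cfsg.Agent.Lib.BlockH.Defects

/-- Fix a prime p and a maximal ideal M of the algebraic integers containing p, a p-block B of the finite group G with maximal Brauer pair (P, e) and fusion system F on P, and a Brauer pair (Q, f) ≤ (P, e) with Q centric in F. Suppose every element of G normalizes Q and stabilizes f. Then the idempotent of B agrees with that of f modulo M at every element of G, and f is the idempotent of a nilpotent block of Q·C_G(Q): some p-block of Q·C_G(Q) has the idempotent coefficients of f and is nilpotent. -/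
theorem result {G : Type*} [Group G] [Fintype G] (p : ℕ) [Fact p.Prime] (M : Ideal Cfsg.AlgInt) (hM : Cfsg.IsPModular p M) (B : Set (Cfsg.IrrCharacter G)) (P : Subgroup G) (e : Set (Cfsg.IrrCharacter (Subgroup.centralizer (P : Set G)))) (hmax : Cfsg.IsMaximalBrauerPair p M B P e) (F : Cfsg.FusionSystem P) (hF : Cfsg.IsBlockFusionSystemOn p M B P e F) (Q : Subgroup G) (f : Set (Cfsg.IrrCharacter (Subgroup.centralizer (Q : Set G)))) (hQP : Q ≤ P) (hf : Cfsg.IsPBlock M f) (hle : Cfsg.SubpairLE p M Q f P e) (hcen : F.IsCentric Q) (hG : ∀ x : G, x ∈ Subgroup.normalizer (Q : Set G) ∧ Cfsg.StabilizesBlock (Subgroup.centralizer (Q : Set G)) f x) : (∀ g : G, Cfsg.MemLocalIdeal M (Cfsg.blockCoeff B g - Cfsg.subgroupBlockCoeff (Subgroup.centralizer (Q : Set G)) f g)) ∧ ∃ F' : Set (Cfsg.IrrCharacter ↥(Q ⊔ Subgroup.centralizer (Q : Set G))), Cfsg.IsPBlock M F' ∧ (∀ t : ↥(Q ⊔ Subgroup.centralizer (Q : Set G)), Cfsg.blockCoeff F' t = Cfsg.subgroupBlockCoeff (Subgroup.centralizer (Q : Set G)) f (t : G))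 ∧ Cfsg.IsNilpotentBlock p M F' := by
  classical
  haveI := isPrime_of_pModular hM
  letI : Fintype (Subgroup.centralizer (Q : Set G)) := Fintype.ofFinite _
  haveI := Cfsg.Agent.Lib.Char.Ortho.finite_irrCharacter (G := Subgroup.centralizer (Q : Set G))
  letI : Fintype (IrrCharacter (Subgroup.centralizer (Q : Set G))) := Fintype.ofFinite _
  have hQp : IsPGroup p Q := hmax.1.1.1.to_le hQP
  have hQn : Q.Normal := ⟨fun n hn g => (Subgroup.mem_normalizer_iff.mp (hG g).1 n).mp hn⟩
  have hBe : IsBrauerPairOf p M B Q f := (isBrauerPairOf_iff_of_subpairLE hM hle hmax.1.2.1).mp hmax.1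
  have hst : ∀ x : G, StabilizesBlock (Subgroup.centralizer (Q : Set G)) f x := fun x => (hG x).2
  have hdef := (isCentric_iff hM hmax hF hQP hf hle).mp hcen
  have hQI : QInv (⊤ : Subgroup G) (subIdem (Subgroup.centralizer (Q : Set G)) f) :=
    qinv_subIdem_of_stable _ hf (fun u _ => hst u)
  refine ⟨fun g => ?_, ?_⟩
  · have h1 := blockCoeff_eq_sum_conj hM hQn hBe ⊤ (fun x => by simp [hst x]) g
    have h2 : ∀ x : G, subgroupBlockCoeff (Subgroup.centralizer (Q : Set G)) f (x⁻¹ * g * x) =
        subgroupBlockCoeff (Subgroup.centralizer (Q : Set G)) f g := by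
      intro x
      rw [← coeff_subIdem, ← coeff_subIdem]
      have := hQI x⁻¹ (Subgroup.mem_top _) g
      simpa using this
    rw [h1, Finset.sum_congr rfl (fun x _ => h2 x), Finset.sum_const, Finset.card_univ]
    have hc : ((Nat.card (⊤ : Subgroup G) : ℕ) : ℂ) ≠ 0 := by
      exact_mod_cast Nat.card_pos.ne'
    have hc2 : (Nat.card (⊤ : Subgroup G)) = Fintype.card G := by
      simp [Nat.card_eq_fintype_card]
    rw [nsmul_eq_mul, ← hc2, ← mul_assoc, inv_mul_cancel₀ hc, one_mul, sub_self]
    exact memLocalIdeal_zero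
  · set H := Q ⊔ Subgroup.centralizer (Q : Set G) with hH
    obtain ⟨F', hF', hcoef⟩ := exists_block_of_stable hM hQp (le_sup_left : Q ≤ Q ⊔ Subgroup.centralizer (Q : Set G))
      (fun y _ => (hG y).1) le_sup_right hf (fun t _ => hst t)
    refine ⟨F', hF', hcoef, hF', ?_⟩
    intro R g hRg x hxN _ hxreg
    obtain ⟨c, hc, hcv⟩ := exists_coeff_of_pair hM hRg
    rw [hcoef] at hcv
    have hcQ : (c : G) ∈ Subgroup.centralizer (Q : Set G) := by
      by_contra hno
      apply hcv
      rw [subgroupBlockCoeff, dif_neg hno]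
      exact memLocalIdeal_zero
    rw [coeff_eq_of_mem hcQ] at hcv
    have hRp : IsPGroup p (R.map H.subtype) := hRg.1.1.map _
    have hWp : IsPGroup p (R.map H.subtype ⊔ Q : Subgroup G) := hRp.to_sup_of_normal_right hQp
    have hAp : IsPGroup p (((R.map H.subtype ⊔ Q) ⊓ Subgroup.centralizer ({(c : G)} : Set G)).subgroupOf
        (Subgroup.centralizer (Q : Set G))) :=
      (hWp.to_le inf_le_left).comap_of_injective _ (Subgroup.subtype_injective _)
    obtain ⟨u, hu⟩ := (exists_coeff_centralizer_iff hM hf hdef hAp).mp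
      ⟨⟨c, hcQ⟩, memLocalRing_blockCoeff hf _, hcv, ⟨c, hcQ⟩, IsConj.refl _, by
        rw [Subgroup.mem_centralizer_iff]
        rintro ⟨a, haQ⟩ ha
        have ha' := (Subgroup.mem_inf.mp (Subgroup.mem_subgroupOf.mp ha)).2
        apply Subtype.ext
        have := Subgroup.mem_centralizer_iff.mp ha' (c : G) rfl
        exact this.symm⟩
    -- elements of `A` lie in `Q`
    have hAQ : ∀ a : G, a ∈ R.map H.subtype ⊔ Q → a ∈ Subgroup.centralizer (Q : Set G) →
        a ∈ Subgroup.centralizer ({(c : G)} : Set G) → a ∈ Q := by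
      intro a ha ha1 ha2
      have h1 : (⟨a, ha1⟩ : Subgroup.centralizer (Q : Set G)) ∈
          ((R.map H.subtype ⊔ Q) ⊓ Subgroup.centralizer ({(c : G)} : Set G)).subgroupOf
            (Subgroup.centralizer (Q : Set G)) :=
        Subgroup.mem_subgroupOf.mpr (Subgroup.mem_inf.mpr ⟨ha, ha2⟩)
      have h2 := hu ⟨_, h1, rfl⟩
      have h3 := (Subgroup.mem_inf.mp (Subgroup.mem_subgroupOf.mp h2)).1
      have h4 : (u : G) * a * (u : G)⁻¹ ∈ Q := h3
      have h5 := hQn.conj_mem _ h4 (u : G)⁻¹
      simpa [mul_assoc] using h5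
    -- `R ≤ Q`
    have hRQ : ∀ r ∈ R, (r : G) ∈ Q := by
      intro r hr
      have hrm : (r : G) ∈ ((Q ⊔ Subgroup.centralizer (Q : Set G) : Subgroup G) : Set G) := r.2
      rw [Subgroup.normal_mul] at hrm
      obtain ⟨q, hq, d, hd, hqd⟩ := Set.mem_mul.mp hrm
      have hdW : d ∈ R.map H.subtype ⊔ Q := by
        have : d = q⁻¹ * r := by rw [← hqd]; group
        rw [this]
        exact Subgroup.mul_mem _ (Subgroup.mem_sup_right (Q.inv_mem hq))
          (Subgroup.mem_sup_left ⟨r, hr, rfl⟩)
      have hcr : (c : G) * (r : G) = r * c := by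
        have := Subgroup.mem_centralizer_iff.mp hc r hr
        have := congrArg Subtype.val this
        exact this.symm
      have hcq : (c : G) * q = q * c := (Subgroup.mem_centralizer_iff.mp hcQ q hq).symm
      have hdc : d ∈ Subgroup.centralizer ({(c : G)} : Set G) := by
        rw [Subgroup.mem_centralizer_iff]
        intro s hs
        rw [Set.mem_singleton_iff] at hs
        subst hs
        have h6 : (q : G) * (d * c) = q * (c * d) := by
          calc (q : G) * (d * c) = (q * d) * c := (mul_assoc _ _ _).symm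
            _ = r * c := by rw [hqd]
            _ = c * r := hcr.symm
            _ = c * (q * d) := by rw [hqd]
            _ = (c * q) * d := (mul_assoc _ _ _).symm
            _ = (q * c) * d := by rw [hcq]
            _ = q * (c * d) := mul_assoc _ _ _
        exact (mul_left_cancel h6).symm
      have hdQ := hAQ d hdW hd hdc
      rw [← hqd]
      exact Q.mul_mem hq hdQ
    -- the action
    have hxm : (x : G) ∈ ((Q ⊔ Subgroup.centralizer (Q : Set G) : Subgroup G) : Set G) := x.2
    rw [Subgroup.normal_mul] at hxm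
    obtain ⟨q, hq, d, hd, hqd⟩ := Set.mem_mul.mp hxm
    have hxreg' : IsPRegular p (x : G) := by
      rw [IsPRegular, Subgroup.orderOf_coe]
      exact hxreg
    have hxR : ∀ y ∈ R.map H.subtype, (x : G) * y * (x : G)⁻¹ = q * y * q⁻¹ := by
      rintro _ ⟨r, hr, rfl⟩
      have h1 := Subgroup.mem_centralizer_iff.mp hd (r : G) (hRQ r hr)
      rw [← hqd]
      change q * d * (r : G) * (q * d)⁻¹ = q * (r : G) * q⁻¹
      rw [mul_inv_rev, mul_assoc q d, ← h1]
      group
    have hxNR : ∀ y ∈ R.map H.subtype, (x : G) * y * (x : G)⁻¹ ∈ R.map H.subtype := by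
      rintro _ ⟨r, hr, rfl⟩
      exact ⟨x * r * x⁻¹, (Subgroup.mem_normalizer_iff.mp hxN r).mp hr, rfl⟩
    have hqp : IsPGroup p (Subgroup.zpowers q) :=
      hQp.to_le (Subgroup.zpowers_le.mpr hq)
    rw [Subgroup.mem_centralizer_iff]
    intro r hr
    apply Subtype.ext
    have h := conj_eq_of_regular (Fact.out : p.Prime) hqp hxreg' hxR hxNR ⟨r, hr, rfl⟩
    change (r : G) * x = x * r
    have h' : (x : G) * (r : G) * (x : G)⁻¹ = r := h
    calc (r : G) * x = ((x : G) * (r : G) * (x : G)⁻¹) * x := by rw [h']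
      _ = x * r := by group

end Cfsg.Agent.S4693
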