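import Cfsg.Statements.S4697
import Cfsg.Agent.Lib.AbR.Main

set_option autoImplicit false
open Cfsg

namespace Cfsg.Agent.S4697

/-- Let p be a prime, M a maximal ideal of the algebraic integers containing p, and B a p-block of the finite group G with an abelian defect group D of order p^d. If D has rank 2 (its least number of generators is 2) then B contains at most p^d irreducible characters; if D has rank 3 then the number k of irreducible characters in B satisfies k^3 ≤ p^(5d). -/
theorem result {G : Type*} [Group G] [Finite G] (p : ℕ) [Fact p.Prime] (M : Ideal Cfsg.AlgInt) (hM : Cfsg.IsPModular p M) (B : Set (Cfsg.IrrCharacter G)) (hB : Cfsg.IsPBlock M B) (D : Subgroup G) (hBD : Cfsg.IsDefectGroup p M B D) (hab : IsMulCommutative D) (d : ℕ) (hDd : Nat.card D = p ^ d) : (Group.rank D = 2 → Nat.card B ≤ p ^ d) ∧ (Group.rank D = 3 → Nat.card B ^ 3 ≤ p ^ (5 * d)) := by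
  classical
  constructor
  · intro h2
    obtain ⟨S, hS, hSc⟩ := Group.rank_spec D
    rw [h2, Finset.card_eq_two] at hS
    obtain ⟨a, b, -, rfl⟩ := hS
    rw [Finset.coe_pair] at hSc
    have h := Cfsg.Agent.Lib.AbR.Main.card_le_two_gen hM hB hBD hab a b hSc
    rwa [hDd] at h
  · intro h3
    obtain ⟨S, hS, hSc⟩ := Group.rank_spec D
    rw [h3, Finset.card_eq_three] at hS
    obtain ⟨a, b, c, -, -, -, rfl⟩ := hS
    rw [Finset.coe_insert, Finset.coe_pair] at hSc
    have key : Nat.card B ^ 3 ≤ Nat.card D ^ 5 := by
      rcases le_total (orderOf a) (orderOf b) with h1 | h1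
      · rcases le_total (orderOf b) (orderOf c) with h2 | h2
        · refine Cfsg.Agent.Lib.AbR.Main.card_cube_le hM hB hBD hab c a b ?_ (h1.trans h2) h2
          rw [← hSc]
          congr 1
          ext x
          simp only [Set.mem_insert_iff, Set.mem_singleton_iff]
          tauto
        · refine Cfsg.Agent.Lib.AbR.Main.card_cube_le hM hB hBD hab b a c ?_ h1 h2
          rw [← hSc]
          congr 1
          ext x
          simp only [Set.mem_insert_iff, Set.mem_singleton_iff]
          tauto
      · rcases le_total (orderOf a) (orderOf c) with h2 | h2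
        · refine Cfsg.Agent.Lib.AbR.Main.card_cube_le hM hB hBD hab c a b ?_ h2 (h1.trans h2)
          rw [← hSc]
          congr 1
          ext x
          simp only [Set.mem_insert_iff, Set.mem_singleton_iff]
          tauto
        · exact Cfsg.Agent.Lib.AbR.Main.card_cube_le hM hB hBD hab a b c hSc h1 h2
    rw [hDd, ← pow_mul, mul_comm d 5] at key
    exact key

end Cfsg.Agent.S4697
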