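import Cfsg.Statements.S4702
import Cfsg.Agent.Lib.Perm.PGLEven
import Cfsg.Agent.S0727

set_option autoImplicit false
open Cfsg

namespace Cfsg.Agent.S4702

/-- Let G be a triply transitive permutation group on a finite set of odd size m ≥ 3 in which only the identity fixes three or more points. Then m = 2^a + 1 for some a ≥ 1 and G is isomorphic to SL(2, 2^a). -/
theorem result {α : Type*} [Fintype α] [DecidableEq α] (hm : 3 ≤ Fintype.card α) (hodd : Odd (Fintype.card α)) (G : Subgroup (Equiv.Perm α)) (h3 : MulAction.IsMultiplyPretransitive G α 3) (hfix : ∀ g : G, 3 ≤ Nat.card (MulAction.fixedBy α g) → g = 1) : ∃ a : ℕ, 1 ≤ a ∧ Fintype.card α = 2 ^ a + 1 ∧ ∃ (F : Type) (_ : Field F) (_ : Fintype F), Fintype.card F = 2 ^ a ∧ Nonempty (G ≃* Matrix.SpecialLinearGroup (Fin 2) F) := by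
  classical
  -- sharpness
  have hsharp : ∀ x : Fin 3 ↪ α, MulAction.stabilizer G x = ⊥ := by
    intro x
    rw [eq_bot_iff]
    intro g hg
    rw [Subgroup.mem_bot]
    apply hfix
    have hfixed : ∀ i, x i ∈ MulAction.fixedBy α g := by
      intro i
      exact DFunLike.congr_fun (MulAction.mem_stabilizer_iff.1 hg) i
    have hle : Nat.card (Fin 3) ≤ Nat.card (MulAction.fixedBy α g) :=
      Nat.card_le_card_of_injective (fun i => (⟨x i, hfixed i⟩ : MulAction.fixedBy α g))
        (fun i j hij => x.injective (congrArg Subtype.val hij))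
    simpa using hle
  have S := Cfsg.Agent.Lib.Zass.Sharp3.sharp3_of_subgroup G h3 hsharp
  have faith : ∀ g g' : G, (∀ y : α, g • y = g' • y) → g = g' := by
    intro g g' h
    apply Subtype.ext
    apply Equiv.ext
    exact h
  obtain ⟨inf, o, c, hio, hic, hoc⟩ : ∃ a b c : α, a ≠ b ∧ a ≠ c ∧ b ≠ c := by
    have := Fintype.two_lt_card_iff.mp (by omega : 2 < Fintype.card α)
    obtain ⟨a, b, c, h1, h2, h3⟩ := this
    exact ⟨a, b, c, h1, h2, h3⟩
  obtain ⟨A, instA, instF, R, p, j, hR1, hR2, hp, hj, hcard, hcardA, hexp⟩ :=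
    S.exists_rootData faith (inf := inf) (o := o) (c := c) (Ne.symm hio) (Ne.symm hic) hoc
  have hp2 : p = 2 := by
    by_contra hne
    have hpo : Odd p := hp.odd_of_ne_two hne
    have h1 : Odd (p ^ j) := hpo.pow
    rw [hcard] at hodd
    have h2 : Even (p ^ j + 1) := h1.add_odd odd_one
    exact (Nat.not_even_iff_odd.2 hodd) h2
  subst hp2
  obtain ⟨F, i1, i2, hF, ⟨e⟩⟩ := Cfsg.Agent.S0727.result hj hcard G h3 hsharp
  refine ⟨j, hj, hcard, F, i1, i2, hF, ⟨e.trans (Cfsg.Agent.Lib.Perm.PGLEven.mulEquiv F hF hj).symm⟩⟩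

end Cfsg.Agent.S4702
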