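import Cfsg.Statements.S4714
import Cfsg.Agent.Lib.Char.Brauer
import Cfsg.Agent.Lib.Char.GenLattice
import Cfsg.Agent.Lib.Char.IndSpan
import Cfsg.Agent.Lib.Char.Complete
import Cfsg.Agent.Lib.Char.DefectZero
import Cfsg.Agent.Lib.Char.Induced
import Cfsg.Agent.Lib.Blocks.DomRank
import Cfsg.Agent.Lib.Blocks.PPart
import Cfsg.Agent.Lib.Blocks.Quot
import Cfsg.Agent.Lib.BlockP.CentralProd
import Cfsg.Agent.Lib.BlockP.Defect
import Cfsg.Agent.Lib.BlockT.Inflate2
import Cfsg.Agent.Lib.Blocks.Inducing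
import Cfsg.Agent.Lib.Blk89.Linear

set_option autoImplicit false
set_option linter.unusedSectionVars false
set_option linter.style.haveILetI false
open Cfsg

namespace Cfsg.Agent.S4714

open Cfsg.Agent.Lib.Char.Basic Cfsg.Agent.Lib.Char.Ortho Cfsg.Agent.Lib.Char.Complete
open Cfsg.Agent.Lib.Char.GenLattice Cfsg.Agent.Lib.Char.Induced Cfsg.Agent.Lib.Char.IndSpan
open Cfsg.Agent.Lib.Char.Degree
open Cfsg.Agent.Lib.Blocks.PPart Cfsg.Agent.Lib.Blocks.Local Cfsg.Agent.Lib.Blocks.Central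
open scoped ComplexConjugate

universe u

section GroupFacts

variable {G : Type u} [Group G] {p : ℕ} {D : Subgroup G}

theorem normal_D (hG : D ⊔ Subgroup.centralizer (D : Set G) = ⊤) : D.Normal := by
  have h1 : D ≤ Subgroup.normalizer (D : Set G) := Subgroup.le_normalizer
  have h2 : Subgroup.centralizer (D : Set G) ≤ Subgroup.normalizer (D : Set G) :=
    Subgroup.centralizer_le_normalizer _
  have h3 : Subgroup.normalizer (D : Set G) = ⊤ := top_le_iff.mp (hG ▸ sup_le h1 h2)
  exact Subgroup.normalizer_eq_top_iff.mp h3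

theorem normal_C (hG : D ⊔ Subgroup.centralizer (D : Set G) = ⊤) :
    (Subgroup.centralizer (D : Set G)).Normal := by
  haveI := normal_D hG
  infer_instance

theorem exists_mul (hG : D ⊔ Subgroup.centralizer (D : Set G) = ⊤) (g : G) :
    ∃ d ∈ D, ∃ c ∈ Subgroup.centralizer (D : Set G), d * c = g := by
  haveI := normal_C hG
  have h : g ∈ ((D ⊔ Subgroup.centralizer (D : Set G) : Subgroup G) : Set G) := by
    rw [hG]; trivial
  rw [Subgroup.mul_normal] at h
  obtain ⟨d, hd, c, hc, e⟩ := Set.mem_mul.mp h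
  exact ⟨d, hd, c, hc, e⟩

theorem comm_of_mem_C {c y : G} (hc : c ∈ Subgroup.centralizer (D : Set G)) (hy : y ∈ D) :
    Commute y c := (Subgroup.mem_centralizer_iff.mp hc y hy)

theorem reg_mem_C [Finite G] [hp : Fact p.Prime] (hD : IsPGroup p D)
    (hG : D ⊔ Subgroup.centralizer (D : Set G) = ⊤) {x : G} (hx : ¬ p ∣ orderOf x) :
    x ∈ Subgroup.centralizer (D : Set G) := by
  haveI := normal_C hG
  let q := QuotientGroup.mk' (Subgroup.centralizer (D : Set G))
  have hsurj : Function.Surjective (q.comp D.subtype) := by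
    intro w
    obtain ⟨g, rfl⟩ := QuotientGroup.mk'_surjective _ w
    obtain ⟨d, hd, c, hc, rfl⟩ := exists_mul hG g
    refine ⟨⟨d, hd⟩, ?_⟩
    simp only [MonoidHom.comp_apply, Subgroup.subtype_apply]
    rw [map_mul]
    have : q c = 1 := (QuotientGroup.eq_one_iff c).mpr hc
    rw [this, mul_one]
  have hpq : IsPGroup p (G ⧸ Subgroup.centralizer (D : Set G)) := hD.of_surjective _ hsurj
  obtain ⟨k, hk⟩ := hpq (q x)
  have h1 : orderOf (q x) ∣ p ^ k := orderOf_dvd_of_pow_eq_one hk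
  have h2 : orderOf (q x) ∣ orderOf x := orderOf_map_dvd q x
  have h3 : Nat.Coprime (p ^ k) (orderOf x) :=
    Nat.Coprime.pow_left _ ((Nat.Prime.coprime_iff_not_dvd hp.out).mpr hx)
  have h4 : orderOf (q x) = 1 := Nat.eq_one_of_dvd_coprimes h3 h1 h2
  exact (QuotientGroup.eq_one_iff x).mp (orderOf_eq_one_iff.mp h4)

/-- Class functions of `D` are invariant under `G`. -/
theorem class_inv (hG : D ⊔ Subgroup.centralizer (D : Set G) = ⊤) {ζ : D → ℂ}
    (hζ : IsClassFunction D ζ) (g : G) (y y' : D) (h : (y' : G) = g * y * g⁻¹) : ζ y' = ζ y := by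
  obtain ⟨d, hd, c, hc, rfl⟩ := exists_mul hG g
  have hcy : c * (y : G) * c⁻¹ = y := by
    have := comm_of_mem_C hc y.2
    rw [this.symm.eq, mul_inv_cancel_right]
  have e : y' = (⟨d, hd⟩ : D) * y * (⟨d, hd⟩ : D)⁻¹ := by
    apply Subtype.ext
    rw [h]
    simp only [Subgroup.coe_mul, Subgroup.coe_inv]
    calc d * c * (y : G) * (d * c)⁻¹ = d * (c * (y : G) * c⁻¹) * d⁻¹ := by group
      _ = _ := by rw [hcy]
  rw [e]
  exact hζ y _

variable [Finite G] [hp : Fact p.Prime]

variable (p) in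
/-- The `p`-part of an element. -/
noncomputable def pp (g : G) : G := Classical.choose (exists_isPPart (p := p) g)

theorem pp_spec (g : G) : IsPPart p g (pp p g) := Classical.choose_spec (exists_isPPart (p := p) g)

theorem pp_mul_rr (g : G) : pp p g * ((pp p g)⁻¹ * g) = g := by group

theorem rr_reg (g : G) : ¬ p ∣ orderOf ((pp p g)⁻¹ * g) := by
  obtain ⟨y, h1, -, -, h4⟩ := pp_spec (p := p) g
  have : (pp p g)⁻¹ * g = y := inv_mul_eq_of_eq_mul h1.symm
  rwa [this]

theorem pp_ord (g : G) : ∃ k : ℕ, orderOf (pp p g) = p ^ k := by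
  obtain ⟨y, -, -, h3, -⟩ := pp_spec (p := p) g
  exact h3

theorem pp_comm (g : G) : Commute (pp p g) ((pp p g)⁻¹ * g) := by
  obtain ⟨y, h1, h2, -, -⟩ := pp_spec (p := p) g
  have : (pp p g)⁻¹ * g = y := inv_mul_eq_of_eq_mul h1.symm
  rwa [this]

theorem ord_of_mem (hD : IsPGroup p D) {y : G} (hy : y ∈ D) : ∃ k : ℕ, orderOf y = p ^ k := by
  obtain ⟨k, hk⟩ := (IsPGroup.iff_orderOf.mp hD) ⟨y, hy⟩
  exact ⟨k, by rwa [Subgroup.orderOf_mk] at hk⟩

theorem pp_eq {y x : G} (hy : ∃ k : ℕ, orderOf y = p ^ k) (hx : ¬ p ∣ orderOf x)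
    (hc : Commute y x) : pp p (y * x) = y :=
  isPPart_unique (pp_spec _) ⟨x, rfl, hc, hy, hx⟩

theorem pp_conj (h g : G) : pp p (h * g * h⁻¹) = h * pp p g * h⁻¹ := by
  obtain ⟨y, h1, h2, h3, h4⟩ := pp_spec (p := p) g
  have e : h * g * h⁻¹ = (h * pp p g * h⁻¹) * (h * y * h⁻¹) := by
    conv_lhs => rw [← h1]
    group
  rw [e]
  apply pp_eq
  · obtain ⟨k, hk⟩ := h3
    exact ⟨k, by rw [← hk]; exact Cfsg.Agent.Lib.Blocks.DomRank.orderOf_conj' h _⟩
  · rw [Cfsg.Agent.Lib.Blocks.DomRank.orderOf_conj' h]; exact h4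
  · have hc : (MulAut.conj h) (pp p g) * (MulAut.conj h) y = (MulAut.conj h) y * (MulAut.conj h) (pp p g) := by
      rw [← map_mul, ← map_mul, h2.eq]
    simpa [Commute, SemiconjBy, MulAut.conj_apply] using hc

theorem rr_conj (h g : G) : (pp p (h * g * h⁻¹))⁻¹ * (h * g * h⁻¹) = h * ((pp p g)⁻¹ * g) * h⁻¹ := by
  rw [pp_conj]; group

end GroupFacts

section Theta

variable {G : Type u} [Group G] [Finite G] {p : ℕ} [hp : Fact p.Prime] {D : Subgroup G}

open Classical in
variable (p D) in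
/-- The candidate characters. -/
noncomputable def th (ζ : D → ℂ) (χ : G → ℂ) (g : G) : ℂ :=
  if h : pp p g ∈ D then ζ ⟨pp p g, h⟩ * χ ((pp p g)⁻¹ * g) else 0

theorem th_mul (hD : IsPGroup p D) (ζ : D → ℂ) (χ : G → ℂ) {y x : G} (hy : y ∈ D)
    (hx : ¬ p ∣ orderOf x) (hc : Commute y x) : th p D ζ χ (y * x) = ζ ⟨y, hy⟩ * χ x := by
  have e := pp_eq (ord_of_mem hD hy) hx hc
  have key : ∀ (a : G) (h : a = y) (ha : a ∈ D), ζ ⟨a, ha⟩ * χ (a⁻¹ * (y * x)) = ζ ⟨y, hy⟩ * χ x := by
    rintro a rfl ha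
    simp
  have hpp : pp p (y * x) ∈ D := by rw [e]; exact hy
  unfold th
  rw [dif_pos hpp]
  exact key _ e _

theorem th_of_not_mem (ζ : D → ℂ) (χ : G → ℂ) {g : G} (hg : pp p g ∉ D) : th p D ζ χ g = 0 := by
  unfold th
  rw [dif_neg hg]

theorem th_class (hG : D ⊔ Subgroup.centralizer (D : Set G) = ⊤) {ζ : D → ℂ}
    (hζ : IsClassFunction D ζ) {χ : G → ℂ} (hχ : IsClassFunction G χ) :
    IsClassFunction G (th p D ζ χ) := by
  haveI := normal_D hG
  intro g h
  by_cases hg : pp p g ∈ D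
  · have hg' : pp p (h * g * h⁻¹) ∈ D := by
      rw [pp_conj]
      exact ‹D.Normal›.conj_mem _ hg h
    unfold th
    rw [dif_pos hg, dif_pos hg', rr_conj, hχ]
    congr 1
    exact class_inv hG hζ h ⟨pp p g, hg⟩ _ (pp_conj h g)
  · have hg' : pp p (h * g * h⁻¹) ∉ D := by
      rw [pp_conj]
      intro hc
      apply hg
      have := ‹D.Normal›.conj_mem _ hc h⁻¹
      simpa [mul_assoc] using this
    rw [th_of_not_mem _ _ hg, th_of_not_mem _ _ hg']

/-- Splitting a sum over the elements with `p`-part in `D`. -/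
theorem sum_split [Fintype G] [Fintype D] [Fintype {x : G // ¬ p ∣ orderOf x}] [DecidablePred (· ∈ D)]
    (hD : IsPGroup p D) (hG : D ⊔ Subgroup.centralizer (D : Set G) = ⊤) (F : G → ℂ) :
    ∑ g : G, (if pp p g ∈ D then F g else 0) =
      ∑ y : D, ∑ x : {x : G // ¬ p ∣ orderOf x}, F ((y : G) * x) := by
  classical
  rw [← Fintype.sum_prod_type', ← Finset.sum_filter]
  symm
  refine Finset.sum_bij (fun a _ => (a.1 : G) * a.2) ?_ ?_ ?_ ?_
  · rintro ⟨y, x⟩ -
    simp only [Finset.mem_filter, Finset.mem_univ, true_and]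
    rw [pp_eq (ord_of_mem hD y.2) x.2 (comm_of_mem_C (reg_mem_C hD hG x.2) y.2)]
    exact y.2
  · rintro ⟨y, x⟩ - ⟨y', x'⟩ - h
    simp only at h
    have e1 := pp_eq (p := p) (ord_of_mem hD y.2) x.2 (comm_of_mem_C (reg_mem_C hD hG x.2) y.2)
    have e2 := pp_eq (p := p) (ord_of_mem hD y'.2) x'.2 (comm_of_mem_C (reg_mem_C hD hG x'.2) y'.2)
    rw [h, e2] at e1
    have hyy : y = y' := Subtype.ext e1.symm
    subst hyy
    have := mul_left_cancel h
    exact Prod.ext rfl (Subtype.ext this)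
  · intro g hg
    simp only [Finset.mem_filter, Finset.mem_univ, true_and] at hg
    exact ⟨(⟨pp p g, hg⟩, ⟨(pp p g)⁻¹ * g, rr_reg g⟩), Finset.mem_univ _, pp_mul_rr g⟩
  · rintro ⟨y, x⟩ -
    rfl

theorem ker_mul [hN : D.Normal] {χ : G → ℂ} (hχ : IsCharacter G χ) (hker : ∀ y ∈ D, χ y = χ 1)
    {y : G} (hy : y ∈ D) (g : G) : χ (y * g) = χ g := by
  obtain ⟨φ, -, rfl⟩ := Cfsg.Agent.Lib.Char.Linear.isCharacter_descend (QuotientGroup.mk' D)
    (QuotientGroup.mk'_surjective _) hχ (fun k hk => by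
      rw [QuotientGroup.ker_mk'] at hk
      exact hker k hk)
  simp only [Function.comp_apply, map_mul]
  have : (QuotientGroup.mk' D) y = 1 := (QuotientGroup.eq_one_iff y).mpr hy
  rw [this, one_mul]

theorem norm_th [Fintype G] [Fintype D] (hD : IsPGroup p D)
    (hG : D ⊔ Subgroup.centralizer (D : Set G) = ⊤) {ζ : D → ℂ} {χ : G → ℂ} (hχ : IsCharacter G χ)
    (hker : ∀ y ∈ D, χ y = χ 1) (hvan : ∀ g, pp p g ∉ D → χ g = 0) (hχ1 : classInner χ χ = 1)
    (hζ1 : classInner ζ ζ = 1) : classInner (th p D ζ χ) (th p D ζ χ) = 1 := by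
  classical
  haveI := normal_D hG
  have hG0 : (Nat.card G : ℂ) ≠ 0 := Nat.cast_ne_zero.mpr Nat.card_pos.ne'
  have hD0 : (Nat.card D : ℂ) ≠ 0 := Nat.cast_ne_zero.mpr Nat.card_pos.ne'
  set S : ℂ := ∑ x : {x : G // ¬ p ∣ orderOf x}, χ x * conj (χ x) with hS
  have h1 : (Nat.card D : ℂ) * S = Nat.card G := by
    have e1 : ∑ g : G, χ g * conj (χ g) = (Nat.card D : ℂ) * S := by
      have : ∑ g : G, χ g * conj (χ g) = ∑ g : G, (if pp p g ∈ D then χ g * conj (χ g) else 0) := by
        refine Finset.sum_congr rfl fun g _ => ?_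
        split_ifs with hg
        · rfl
        · rw [hvan g hg, zero_mul]
      rw [this, sum_split hD hG]
      have e2 : ∀ (y : D) (x : {x : G // ¬ p ∣ orderOf x}),
          χ ((y : G) * x) * conj (χ ((y : G) * x)) = χ x * conj (χ x) := by
        intro y x
        rw [ker_mul hχ hker y.2]
      simp only [e2, Finset.sum_const, Finset.card_univ, nsmul_eq_mul, ← hS]
      rw [Nat.card_eq_fintype_card]
    unfold classInner at hχ1
    rw [e1] at hχ1
    field_simp at hχ1
    exact hχ1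
  have h2 : ∑ y : D, ζ y * conj (ζ y) = Nat.card D := by
    unfold classInner at hζ1
    field_simp at hζ1
    exact hζ1
  unfold classInner
  have e3 : ∑ g : G, th p D ζ χ g * conj (th p D ζ χ g) =
      ∑ g : G, (if pp p g ∈ D then th p D ζ χ g * conj (th p D ζ χ g) else 0) := by
    refine Finset.sum_congr rfl fun g _ => ?_
    split_ifs with hg
    · rfl
    · rw [th_of_not_mem _ _ hg, zero_mul]
  rw [e3, sum_split hD hG]
  have e4 : ∀ (y : D) (x : {x : G // ¬ p ∣ orderOf x}),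
      th p D ζ χ ((y : G) * x) * conj (th p D ζ χ ((y : G) * x)) =
        (ζ y * conj (ζ y)) * (χ x * conj (χ x)) := by
    intro y x
    rw [th_mul hD ζ χ y.2 x.2 (comm_of_mem_C (reg_mem_C hD hG x.2) y.2)]
    simp only [Subtype.coe_eta, map_mul]
    ring
  simp only [e4, ← Finset.mul_sum, ← Finset.sum_mul, ← hS]
  rw [h2, h1]
  exact inv_mul_cancel₀ hG0

end Theta

section Split

variable {E : Type u} [Group E] [Finite E] {p : ℕ} [hp : Fact p.Prime]

open Cfsg.Agent.Lib.BlockP.CentralProd in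
theorem exists_split [Group.IsNilpotent E] : ∃ (P Q : Subgroup E)
    (hcomm : ∀ u ∈ P, ∀ v ∈ Q, u * v = v * u), IsPGroup p P ∧ (∀ b ∈ Q, ¬ p ∣ orderOf b) ∧
      Function.Bijective (mulHom P Q hcomm) := by
  obtain ⟨S⟩ : Nonempty (Sylow p E) := inferInstance
  haveI hS : (S : Subgroup E).Normal := inferInstance
  have hcop := S.card_coprime_index
  obtain ⟨Q, hQ⟩ := Subgroup.exists_right_complement'_of_coprime hcop
  have hcard := hQ.card_mul_card
  have hpQ : ¬ p ∣ Nat.card Q := by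
    intro h
    have h1 : Nat.card Q = (S : Subgroup E).index := by
      have h2 := (S : Subgroup E).card_mul_index
      have hpos : 0 < Nat.card (S : Subgroup E) := Nat.card_pos
      exact Nat.eq_of_mul_eq_mul_left hpos (hcard.trans h2.symm)
    rw [h1] at h
    have h3 : ¬ p ∣ (S : Subgroup E).index := S.not_dvd_index
    exact h3 h
  have hQreg : ∀ b ∈ Q, ¬ p ∣ orderOf b := by
    intro b hb h
    apply hpQ
    have h1 : orderOf (⟨b, hb⟩ : Q) = orderOf b := Subgroup.orderOf_mk b hb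
    exact h.trans (h1 ▸ orderOf_dvd_natCard (⟨b, hb⟩ : Q))
  have hcomm : ∀ u ∈ (S : Subgroup E), ∀ v ∈ Q, u * v = v * u := by
    intro u hu v hv
    obtain ⟨k, hk⟩ := (IsPGroup.iff_orderOf.mp S.isPGroup') ⟨u, hu⟩
    rw [Subgroup.orderOf_mk] at hk
    have hc : (orderOf u).Coprime (orderOf v) := by
      rw [hk]
      exact Nat.Coprime.pow_left _ ((Nat.Prime.coprime_iff_not_dvd hp.out).mpr (hQreg v hv))
    exact Cfsg.Agent.Lib.Blk89.Linear.commute_of_coprime E inferInstance u v hc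
  exact ⟨S, Q, hcomm, S.isPGroup', hQreg, hQ⟩

theorem nilpotent_of_elementary {r : ℕ} (hr : r.Prime) (hE : IsElementary r E) :
    Group.IsNilpotent E := by
  obtain ⟨x, hx, -, k, hk⟩ := hE
  haveI : Fact r.Prime := ⟨hr⟩
  have hZ : Subgroup.zpowers x ≤ Subgroup.center E := by
    rw [Subgroup.zpowers_le]; exact hx
  haveI : (Subgroup.zpowers x).Normal := ⟨fun n hn g => by
    have := Subgroup.mem_center_iff.mp (hZ hn) g
    rw [this, mul_inv_cancel_right]
    exact hn⟩
  have hpg : IsPGroup r (E ⧸ Subgroup.zpowers x) :=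
    IsPGroup.of_card (n := k) (by rw [← hk]; rfl)
  haveI := hpg.isNilpotent
  refine Subgroup.isNilpotent_of_ker_le_center (QuotientGroup.mk' (Subgroup.zpowers x)) ?_
  rw [QuotientGroup.ker_mk']
  exact hZ

end Split

section GenChar

variable {G : Type u} [Group G] [Fintype G] {p : ℕ} [hp : Fact p.Prime] {D : Subgroup G}
  {E : Type u} [Group E] [Fintype E] (ι : E →* G)

/-- A function with integer inner products with all irreducibles is a generalized character. -/
theorem isGenChar_of_int {Q : Type u} [Group Q] [Fintype Q] {τ : Q → ℂ} (hτ : IsClassFunction Q τ)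
    (h : ∀ μ : IrrCharacter Q, ∃ n : ℤ, classInner τ (μ : Q → ℂ) = n) :
    IsGeneralizedCharacter Q τ := by
  classical
  haveI := finite_irrCharacter (G := Q)
  letI := Fintype.ofFinite (IrrCharacter Q)
  choose m hm using h
  have e := classFunction_eq_sum hτ
  have e2 : τ = ∑ i, m i • ((i : IrrCharacter Q) : Q → ℂ) := by
    conv_lhs => rw [e]
    refine Finset.sum_congr rfl fun i _ => ?_
    rw [hm i]
    ext g
    simp
  rw [e2]
  exact isGenChar_of_int_combination m

open Cfsg.Agent.Lib.BlockP.CentralProd in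
theorem genChar_th [Group.IsNilpotent E] (hι : Function.Injective ι) (hD : IsPGroup p D)
    (hG : D ⊔ Subgroup.centralizer (D : Set G) = ⊤) [Fintype D] {ζ : D → ℂ} (hζ : IsCharacter D ζ)
    {χ : G → ℂ} (hχ : IsCharacter G χ) (hker : ∀ y ∈ D, χ y = χ 1)
    (hvan : ∀ g, pp p g ∉ D → χ g = 0) :
    IsGeneralizedCharacter E (fun e => th p D ζ χ (ι e)) := by
  classical
  haveI hN := normal_D hG
  obtain ⟨P, Q, hcomm, hPp, hQr, hbij⟩ := exists_split (p := p) (E := E)
  let m := mulHom P Q hcomm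
  let eq : P × Q ≃* E := MulEquiv.ofBijective m hbij
  let ιP : P →* G := ι.comp P.subtype
  let P₀ : Subgroup P := D.comap ιP
  letI : Fintype P := Fintype.ofFinite _
  letI : Fintype Q := Fintype.ofFinite _
  letI : Fintype P₀ := Fintype.ofFinite _
  let f₀ : P₀ →* D := (ιP.comp P₀.subtype).codRestrict D (fun a => a.2)
  let ζ₀ : P₀ → ℂ := ζ ∘ f₀
  have hζ₀ : IsGeneralizedCharacter P₀ ζ₀ := isGenChar_of_isCharacter (isCharacter_comp f₀ hζ)
  let α : P → ℂ := indFun P₀ ζ₀
  have hα : IsGeneralizedCharacter P α := isGenChar_indFun P₀ hζ₀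
  have hP0 : (Nat.card P : ℂ) ≠ 0 := Nat.cast_ne_zero.mpr Nat.card_pos.ne'
  have hP₀0 : (Nat.card P₀ : ℂ) ≠ 0 := Nat.cast_ne_zero.mpr Nat.card_pos.ne'
  have hQ0 : (Nat.card Q : ℂ) ≠ 0 := Nat.cast_ne_zero.mpr Nat.card_pos.ne'
  let N : ℂ := (Nat.card P : ℂ) / (Nat.card P₀ : ℂ)
  have hN0 : N ≠ 0 := div_ne_zero hP0 hP₀0
  have hζc : IsClassFunction D ζ := isClassFunction_of_isCharacter hζ
  have hχc : IsClassFunction G χ := isClassFunction_of_isCharacter hχ
  have hα_val : ∀ a : P, α a = if h : ιP a ∈ D then N * ζ ⟨ιP a, h⟩ else 0 := by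
    intro a
    show (Nat.card P₀ : ℂ)⁻¹ * ∑ t : P, extendByZero P₀ ζ₀ (t⁻¹ * a * t) = _
    split_ifs with h
    · have e : ∀ t : P, extendByZero P₀ ζ₀ (t⁻¹ * a * t) = ζ ⟨ιP a, h⟩ := by
        intro t
        have hmem : t⁻¹ * a * t ∈ P₀ := by
          show ιP (t⁻¹ * a * t) ∈ D
          have := hN.conj_mem _ h (ιP t)⁻¹
          simpa [map_mul, map_inv] using this
        rw [extendByZero_of_mem P₀ ζ₀ hmem]
        show ζ (f₀ ⟨_, hmem⟩) = _
        refine class_inv hG hζc (ιP t)⁻¹ ⟨ιP a, h⟩ _ ?_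
        show ιP (t⁻¹ * a * t) = _
        simp [map_mul, map_inv]
      simp only [e, Finset.sum_const, Finset.card_univ, nsmul_eq_mul]
      show _ = ((Nat.card P : ℂ) / (Nat.card P₀ : ℂ)) * _
      rw [Nat.card_eq_fintype_card (α := P)]
      field_simp
    · have e : ∀ t : P, extendByZero P₀ ζ₀ (t⁻¹ * a * t) = 0 := by
        intro t
        apply extendByZero_of_not_mem
        intro hc
        apply h
        have hc' : ιP (t⁻¹ * a * t) ∈ D := hc
        have := hN.conj_mem _ hc' (ιP t)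
        simpa [map_mul, map_inv, mul_assoc] using this
      simp [e]
  let τ : Q → ℂ := fun b => N⁻¹ * χ (ι b)
  have hτc : IsClassFunction Q τ := by
    intro g h
    show N⁻¹ * χ (ι ((h * g * h⁻¹ : Q) : E)) = N⁻¹ * χ (ι g)
    have : ι ((h * g * h⁻¹ : Q) : E) = ι h * ι g * (ι h)⁻¹ := by
      simp [map_mul, map_inv]
    rw [this, hχc]
  have hcm : ∀ (a : P) (b : Q), Commute (ι a) (ι b) := by
    intro a b
    have := hcomm a a.2 b b.2
    show ι a * ι b = ι b * ι a
    rw [← map_mul, ← map_mul, this]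
  have hbreg : ∀ b : Q, ¬ p ∣ orderOf (ι b) := by
    intro b
    rw [orderOf_injective ι hι]
    exact hQr b b.2
  have haord : ∀ a : P, ∃ k : ℕ, orderOf (ι a) = p ^ k := by
    intro a
    obtain ⟨k, hk⟩ := (IsPGroup.iff_orderOf.mp hPp) a
    refine ⟨k, ?_⟩
    rw [orderOf_injective ι hι, ← hk, Subgroup.orderOf_coe]
  have hτ : IsGeneralizedCharacter Q τ := by
    apply isGenChar_of_int hτc
    intro μ
    have hX : IsGeneralizedCharacter (P × Q) (χ ∘ (ι.comp m)) :=
      isGenChar_of_isCharacter (isCharacter_comp _ hχ)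
    have hY : IsGeneralizedCharacter (P × Q) ((μ : Q → ℂ) ∘ (MonoidHom.snd P Q)) :=
      isGenChar_of_isCharacter (isCharacter_comp _ (isCharacter_of_isIrrCharacter μ.2))
    obtain ⟨n, hn⟩ := exists_int_classInner hX hY
    refine ⟨n, ?_⟩
    rw [← hn]
    set W : ℂ := ∑ b : Q, χ (ι b) * conj ((μ : Q → ℂ) b) with hW
    have h1 : classInner τ (μ : Q → ℂ) = (Nat.card Q : ℂ)⁻¹ * (N⁻¹ * W) := by
      unfold classInner
      congr 1
      rw [hW, Finset.mul_sum]
      refine Finset.sum_congr rfl fun b _ => ?_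
      show N⁻¹ * χ (ι b) * _ = _
      ring
    have h2 : ∀ a : P, ∑ b : Q, χ (ι (a : E) * ι (b : E)) * conj ((μ : Q → ℂ) b) =
        if a ∈ P₀ then W else 0 := by
      intro a
      split_ifs with ha
      · refine Finset.sum_congr rfl fun b _ => ?_
        rw [ker_mul hχ hker (show ι (a : E) ∈ D from ha)]
      · apply Finset.sum_eq_zero
        intro b _
        rw [hvan, zero_mul]
        rw [pp_eq (haord a) (hbreg b) (hcm a b)]
        exact ha
    have h3 : ∑ a : P, (if a ∈ P₀ then W else 0) = (Nat.card P₀ : ℂ) * W := by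
      rw [Finset.sum_ite, Finset.sum_const_zero, add_zero, Finset.sum_const, nsmul_eq_mul]
      congr 2
      rw [Nat.card_eq_fintype_card, Fintype.card_subtype]
    have h4 : classInner (χ ∘ (ι.comp m)) ((μ : Q → ℂ) ∘ (MonoidHom.snd P Q)) =
        (Nat.card (P × Q) : ℂ)⁻¹ * ((Nat.card P₀ : ℂ) * W) := by
      unfold classInner
      congr 1
      rw [← h3, Fintype.sum_prod_type]
      refine Finset.sum_congr rfl fun a _ => ?_
      rw [← h2 a]
      refine Finset.sum_congr rfl fun b _ => ?_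
      simp [m, map_mul]
    rw [h1, h4, Nat.card_prod]
    push_cast
    show (Nat.card Q : ℂ)⁻¹ * (((Nat.card P : ℂ) / (Nat.card P₀ : ℂ))⁻¹ * W) = _
    field_simp
  have key : ∀ (a : P) (b : Q), th p D ζ χ (ι (m (a, b))) = α a * τ b := by
    intro a b
    have e1 : ι (m (a, b)) = ι a * ι b := by simp [m, map_mul]
    rw [e1, hα_val a]
    show _ = _ * (N⁻¹ * χ (ι b))
    split_ifs with h
    · have h' : ι (a : E) ∈ D := h
      rw [th_mul hD ζ χ h' (hbreg b) (hcm a b)]
      show _ = N * ζ ⟨ι a, h'⟩ * (N⁻¹ * χ (ι b))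
      field_simp
    · have h' : ι (a : E) ∉ D := h
      rw [zero_mul]
      apply th_of_not_mem
      rw [pp_eq (haord a) (hbreg b) (hcm a b)]
      exact h'
  have hF : IsGeneralizedCharacter (P × Q)
      ((α ∘ (MonoidHom.fst P Q)) * (τ ∘ (MonoidHom.snd P Q))) :=
    isGenChar_mul (isGenChar_comp _ hα) (isGenChar_comp _ hτ)
  have hF' := isGenChar_comp eq.symm.toMonoidHom hF
  convert hF' using 1
  funext e
  obtain ⟨⟨a, b⟩, rfl⟩ := eq.surjective e
  simp only [Function.comp_apply, Pi.mul_apply, MulEquiv.coe_toMonoidHom, MulEquiv.symm_apply_apply]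
  exact key a b

end GenChar

section Main

open Cfsg.Agent.Lib.Char.Brauer Cfsg.Agent.Lib.BlockP.CentralProd

variable {G : Type u} [Group G] [Fintype G] {p : ℕ} [hp : Fact p.Prime] {D : Subgroup G}
  {M : Ideal AlgInt}

theorem th_one (hD : IsPGroup p D) (ζ : D → ℂ) (χ : G → ℂ) : th p D ζ χ 1 = ζ 1 * χ 1 := by
  have h := th_mul hD ζ χ (one_mem D) (x := 1) (by
    rw [orderOf_one]; exact fun h => hp.out.one_lt.ne' (Nat.dvd_one.mp h)) (Commute.one_left _)
  rw [mul_one] at h
  exact h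

/-- The functions `th` are irreducible characters. -/
theorem th_irr (hD : IsPGroup p D) (hG : D ⊔ Subgroup.centralizer (D : Set G) = ⊤) [Fintype D]
    {ζ : D → ℂ} (hζ : IsIrrCharacter D ζ) {χ : G → ℂ} (hχ : IsIrrCharacter G χ)
    (hker : ∀ y ∈ D, χ y = χ 1) (hvan : ∀ g, pp p g ∉ D → χ g = 0) :
    IsIrrCharacter G (th p D ζ χ) := by
  classical
  have hζc := isCharacter_of_isIrrCharacter hζ
  have hχc := isCharacter_of_isIrrCharacter hχ
  have hcl := th_class (p := p) hG (isClassFunction_of_isCharacter hζc)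
    (isClassFunction_of_isCharacter hχc)
  have hgen : IsGeneralizedCharacter G (th p D ζ χ) := by
    apply isGenChar_of_restrict_elementary hcl
    intro E r hr hE
    haveI := nilpotent_of_elementary hr hE
    letI : Fintype E := Fintype.ofFinite _
    exact genChar_th E.subtype E.subtype_injective hD hG hζc hχc hker hvan
  have hnorm := norm_th hD hG hχc hker hvan (classInner_self_of_isIrr hχ) (classInner_self_of_isIrr hζ)
  rcases norm_one hgen hnorm with h | h
  · exact h
  · exfalso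
    have h1 := charDegree_natCast (isCharacter_of_isIrrCharacter h)
    have h2 := charDegree_pos h
    have h3 := charDegree_natCast hζc
    have h4 := charDegree_natCast hχc
    have h5 : (-th p D ζ χ) 1 = -(ζ 1 * χ 1) := by
      rw [Pi.neg_apply, th_one hD]
    rw [h5, ← h3, ← h4] at h1
    have h6 : ((charDegree (-th p D ζ χ) + charDegree ζ * charDegree χ : ℕ) : ℂ) = 0 := by
      push_cast
      rw [h1]
      ring
    have h7 := Nat.cast_eq_zero.mp h6
    omega

theorem commute_mul_iff {y x t : G} (hy : ∃ k : ℕ, orderOf y = p ^ k) (hx : ¬ p ∣ orderOf x)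
    (hc : Commute y x) : t * (y * x) = (y * x) * t ↔ Commute t y ∧ Commute t x := by
  constructor
  · intro h
    have hg : Commute t (y * x) := h
    have hmem : y ∈ Subgroup.zpowers (y * x) :=
      isPPart_mem_zpowers (p := p) ⟨x, rfl, hc, hy, hx⟩
    obtain ⟨n, hn⟩ := Subgroup.mem_zpowers_iff.mp hmem
    have h1 : Commute t y := by
      have := hg.zpow_right n
      rwa [hn] at this
    refine ⟨h1, ?_⟩
    have h2 := h1.inv_right.mul_right hg
    rwa [inv_mul_cancel_left] at h2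
  · rintro ⟨h1, h2⟩
    exact h1.mul_right h2

/-- The class size of a product of an element of `D` and a `p`-regular element. -/
theorem index_mul (hD : IsPGroup p D) (hG : D ⊔ Subgroup.centralizer (D : Set G) = ⊤) {y x : G}
    (hy : y ∈ D) (hx : ¬ p ∣ orderOf x) :
    (Subgroup.centralizer ({y * x} : Set G)).index =
      (Subgroup.centralizer ({(⟨y, hy⟩ : D)} : Set D)).index *
        (Subgroup.centralizer ({x} : Set G)).index := by
  classical
  have hxC := reg_mem_C hD hG hx
  set C := Subgroup.centralizer (D : Set G) with hC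
  have hcomm : ∀ u ∈ D, ∀ v ∈ C, u * v = v * u := fun u hu v hv => comm_of_mem_C hv hu
  have hsurj := mulHom_surjective D C hcomm hG
  have hy1 : ¬ p ∣ orderOf (1 : G) := by
    rw [orderOf_one]; exact fun h => hp.out.one_lt.ne' (Nat.dvd_one.mp h)
  have key : ∀ (w : G) (hw : w ∈ D) (hw' : Commute w x),
      (Subgroup.centralizer ({w * x} : Set G)).comap (mulHom D C hcomm) =
        (Subgroup.centralizer ({(⟨w, hw⟩ : D)} : Set D)).prod
          (Subgroup.centralizer ({(⟨x, hxC⟩ : C)} : Set C)) := by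
    intro w hw hw'
    ext ⟨d, c⟩
    simp only [Subgroup.mem_comap, Subgroup.mem_prod, Subgroup.mem_centralizer_singleton_iff,
      mulHom_apply]
    rw [commute_mul_iff (p := p) (ord_of_mem hD hw) hx hw']
    have hcw : Commute (c : G) w := (comm_of_mem_C c.2 hw).symm
    have hdx : Commute (d : G) x := (comm_of_mem_C hxC d.2)
    constructor
    · rintro ⟨h1, h2⟩
      constructor
      · apply Subtype.ext
        show (d : G) * w = w * d
        have e : (d : G) * (c : G) * w = w * ((d : G) * c) := h1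
        have e2 : (d : G) * (c : G) * w = (d : G) * w * c := by
          rw [mul_assoc, hcw.eq, mul_assoc]
        rw [e2, ← mul_assoc] at e
        exact mul_right_cancel e
      · apply Subtype.ext
        show (c : G) * x = x * c
        have e : (d : G) * (c : G) * x = x * ((d : G) * c) := h2
        have e2 : x * ((d : G) * c) = (d : G) * (x * c) := by
          rw [← mul_assoc, ← hdx.eq, mul_assoc]
        rw [e2, mul_assoc] at e
        exact mul_left_cancel e
    · rintro ⟨h1, h2⟩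
      have h1' : (d : G) * w = w * d := congrArg Subtype.val h1
      have h2' : (c : G) * x = x * c := congrArg Subtype.val h2
      constructor
      · show (d : G) * (c : G) * w = w * ((d : G) * c)
        rw [mul_assoc, hcw.eq, ← mul_assoc, h1', mul_assoc]
      · show (d : G) * (c : G) * x = x * ((d : G) * c)
        rw [mul_assoc, h2', ← mul_assoc, hdx.eq, mul_assoc]
  have hxy : Commute y x := comm_of_mem_C hxC hy
  have h1 := key y hy hxy
  have h2 := key 1 (one_mem D) (Commute.one_left x)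
  rw [one_mul] at h2
  have e1 := Subgroup.index_comap_of_surjective (Subgroup.centralizer ({y * x} : Set G)) hsurj
  have e2 := Subgroup.index_comap_of_surjective (Subgroup.centralizer ({x} : Set G)) hsurj
  rw [h1, Subgroup.index_prod] at e1
  rw [h2, Subgroup.index_prod] at e2
  have e3 : Subgroup.centralizer ({(⟨1, one_mem D⟩ : D)} : Set D) = ⊤ := by
    ext z
    simp only [Subgroup.mem_centralizer_singleton_iff, Subgroup.mem_top, iff_true]
    show z * 1 = 1 * z
    simp
  rw [e3, Subgroup.index_top, one_mul] at e2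
  rw [← e1, ← e2]

theorem same_th (hM : IsPModular p M) (hD : IsPGroup p D)
    (hG : D ⊔ Subgroup.centralizer (D : Set G) = ⊤) [Fintype D]
    (ζ : IrrCharacter D) (χ : IrrCharacter G)
    (hker : ∀ y ∈ D, (χ : G → ℂ) y = (χ : G → ℂ) 1) (hvan : ∀ g, pp p g ∉ D → (χ : G → ℂ) g = 0) :
    SameBlock M (χ : G → ℂ) (th p D (ζ : D → ℂ) (χ : G → ℂ)) := by
  classical
  haveI := normal_D hG
  haveI := isPrime_of_pModular hM
  have hχc := isCharacter_of_isIrrCharacter χ.2
  intro g
  by_cases hg : pp p g ∈ D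
  · have hgg := pp_mul_rr (p := p) g
    set y := pp p g with hy
    set x := y⁻¹ * g with hx
    have hxr : ¬ p ∣ orderOf x := rr_reg g
    have hc : Commute y x := pp_comm g
    rw [← hgg]
    unfold centralChar
    rw [index_mul hD hG hg hxr, th_mul hD _ _ hg hxr hc, th_one hD, ker_mul hχc hker hg]
    have h0 : (χ : G → ℂ) 1 ≠ 0 := by
      rw [← charDegree_natCast hχc]
      exact Nat.cast_ne_zero.mpr (charDegree_pos χ.2).ne'
    have h0' : (ζ : D → ℂ) 1 ≠ 0 := by
      rw [← charDegree_natCast (isCharacter_of_isIrrCharacter ζ.2)]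
      exact Nat.cast_ne_zero.mpr (charDegree_pos ζ.2).ne'
    have hs := Cfsg.Agent.Lib.BlockT.Inflate.sameBlock_of_isPGroup hM hD
      ⟨fun _ => (1 : ℂ), Cfsg.Agent.Lib.Char.Burnside.isIrrCharacter_one⟩ ζ ⟨y, hg⟩
    have hs' : MemLocalIdeal M (((Subgroup.centralizer ({(⟨y, hg⟩ : D)} : Set D)).index : ℂ) -
        centralChar (ζ : D → ℂ) ⟨y, hg⟩) := by
      have := hs
      rwa [centralChar_triv] at this
    have hint := memLocalRing_of_isIntegral (M := M) (isIntegral_centralChar χ x)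
    have := memLocalIdeal_mul_left hint hs'
    convert this using 1
    unfold centralChar
    push_cast
    field_simp
  · have h1 : th p D (ζ : D → ℂ) (χ : G → ℂ) g = 0 := th_of_not_mem _ _ hg
    have h2 := hvan g hg
    unfold centralChar
    rw [h1, h2]
    simpa using memLocalIdeal_zero (M := M)

/-- The numerical defect inequality. -/
theorem v_deg (hM : IsPModular p M) {B : Set (IrrCharacter G)} (hB : IsPBlock M B)
    (hBD : IsDefectGroup p M B D) {χ : IrrCharacter G} (hχ : χ ∈ B) :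
    (Nat.card G).factorization p ≤
      (charDegree (χ : G → ℂ)).factorization p + (Nat.card D).factorization p := by
  classical
  obtain ⟨g, hg, S, hS⟩ := Cfsg.Agent.Lib.Blocks.Defect2.isDefectGroup_isSylowIn hBD
  have h1 := Cfsg.Agent.Lib.BlockP.Defect.factorization_centralizer_add hM hB hg
  have h2 := Cfsg.Agent.Lib.BlockP.Defect.minExp_le p hχ
  have h3 : Nat.card D = Nat.card (S : Subgroup (Subgroup.centralizer ({g} : Set G))) := by
    rw [← hS]
    exact Subgroup.card_map_of_injective (Subgroup.subtype_injective _)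
  have h4 := Sylow.card_eq_multiplicity S
  have h5 : (Nat.card D).factorization p =
      (Nat.card (Subgroup.centralizer ({g} : Set G))).factorization p := by
    rw [h3, h4, Nat.factorization_pow_self hp.out]
  omega

theorem quot_data (hM : IsPModular p M) [hN : D.Normal] {B : Set (IrrCharacter G)} (hB : IsPBlock M B)
    (hBD : IsDefectGroup p M B D) {χ : IrrCharacter G} (hχ : χ ∈ B)
    (hχD : ∀ y ∈ D, (χ : G → ℂ) y = (χ : G → ℂ) 1) :
    ∃ φ : IrrCharacter (G ⧸ D), (χ : G → ℂ) = (φ : G ⧸ D → ℂ) ∘ QuotientGroup.mk' D ∧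
      (charDegree (φ : G ⧸ D → ℂ)) = charDegree (χ : G → ℂ) ∧
      (Nat.card (G ⧸ D)).factorization p ≤ (charDegree (φ : G ⧸ D → ℂ)).factorization p := by
  obtain ⟨φ, hφ, e⟩ := Cfsg.Agent.Lib.Char.Linear.isIrrCharacter_descend (QuotientGroup.mk' D)
    (QuotientGroup.mk'_surjective _) χ.2 (fun k hk => by
      rw [QuotientGroup.ker_mk'] at hk
      exact hχD k hk)
  have hdeg : charDegree φ = charDegree (χ : G → ℂ) := by
    unfold charDegree
    rw [e]
    simp
  refine ⟨⟨φ, hφ⟩, e, hdeg, ?_⟩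
  have h0 : Nat.card G = Nat.card (G ⧸ D) * Nat.card D :=
    Subgroup.card_eq_card_quotient_mul_card_subgroup D
  have h1 := v_deg hM hB hBD hχ
  have h2 : (Nat.card G).factorization p =
      (Nat.card (G ⧸ D)).factorization p + (Nat.card D).factorization p := by
    rw [h0, Nat.factorization_mul (Nat.card_pos.ne') (Nat.card_pos.ne')]
    rfl
  show _ ≤ (charDegree φ).factorization p
  rw [hdeg]
  omega

theorem no_dvd_of_le {H : Type u} [Group H] [Finite H] {φ : H → ℂ} (hφ : IsIrrCharacter H φ)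
    (h : (Nat.card H).factorization p ≤ (charDegree φ).factorization p) :
    ¬ p ∣ Nat.card H / charDegree φ := by
  obtain ⟨n, hn⟩ := charDegree_dvd_card hφ
  have hd := charDegree_pos hφ
  have hc : 0 < Nat.card H := Nat.card_pos
  have hn0 : n ≠ 0 := by
    rintro rfl
    simp at hn
    omega
  have e : Nat.card H / charDegree φ = n := by
    rw [hn]
    exact Nat.mul_div_cancel_left _ hd
  rw [e]
  have h2 : (Nat.card H).factorization p = (charDegree φ).factorization p + n.factorization p := by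
    rw [hn, Nat.factorization_mul hd.ne' hn0]
    rfl
  have h3 : n.factorization p = 0 := by omega
  intro hdv
  have := (hp.out.dvd_iff_one_le_factorization hn0).mp hdv
  omega

theorem van_of_le [hN : D.Normal] {φ : G ⧸ D → ℂ} (hφ : IsIrrCharacter (G ⧸ D) φ)
    (h : (Nat.card (G ⧸ D)).factorization p ≤ (charDegree φ).factorization p) (g : G)
    (hg : pp p g ∉ D) : φ (QuotientGroup.mk' D g) = 0 := by
  classical
  obtain ⟨n, ρ, hρ, rfl⟩ := hφ
  haveI := hρ
  have hsing : p ∣ orderOf (QuotientGroup.mk' D g) := by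
    by_contra hnd
    apply hg
    obtain ⟨k, hk⟩ := pp_ord (p := p) g
    obtain ⟨m, hm⟩ := Subgroup.mem_zpowers_iff.mp (isPPart_mem_zpowers (pp_spec (p := p) g))
    have h1 : orderOf (QuotientGroup.mk' D (pp p g)) ∣ p ^ k := by
      rw [← hk]
      exact orderOf_map_dvd _ _
    have h2 : orderOf (QuotientGroup.mk' D (pp p g)) ∣ orderOf (QuotientGroup.mk' D g) := by
      apply orderOf_dvd_of_mem_zpowers
      rw [Subgroup.mem_zpowers_iff]
      exact ⟨m, by rw [← map_zpow, hm]⟩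
    have h3 : Nat.Coprime (p ^ k) (orderOf (QuotientGroup.mk' D g)) :=
      Nat.Coprime.pow_left _ ((Nat.Prime.coprime_iff_not_dvd hp.out).mpr hnd)
    have h4 := Nat.eq_one_of_dvd_coprimes h3 h1 h2
    exact (QuotientGroup.eq_one_iff _).mp (orderOf_eq_one_iff.mp h4)
  have hdeg : charDegree ρ.character = Module.finrank ℂ (Fin n → ℂ) :=
    Cfsg.Agent.Lib.Char.Degree.charDegree_character ρ
  have hpos : Module.finrank ℂ (Fin n → ℂ) ≠ 0 := by
    rw [← hdeg]
    exact (charDegree_pos ⟨n, ρ, hρ, rfl⟩).ne'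
  refine Cfsg.Agent.Lib.Char.DefectZero.character_eq_zero_of_defect_zero ρ p
    ((Nat.card (G ⧸ D)).factorization p) hp.out (Nat.ordProj_dvd _ _)
    (Nat.pow_succ_factorization_not_dvd Nat.card_pos.ne' hp.out) ?_ _ hsing
  rw [← hdeg] at hpos ⊢
  exact (hp.out.pow_dvd_iff_le_factorization hpos).mpr h

open Cfsg.Agent.Lib.Blocks.Quot in
theorem count (hM : IsPModular p M) (hD : IsPGroup p D)
    (hG : D ⊔ Subgroup.centralizer (D : Set G) = ⊤) [hN : D.Normal] {B : Set (IrrCharacter G)}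
    (hB : IsPBlock M B) (φ : IrrCharacter (G ⧸ D)) (χ : IrrCharacter G) (hχ : χ ∈ B)
    (e : (χ : G → ℂ) = (φ : G ⧸ D → ℂ) ∘ QuotientGroup.mk' D)
    (hdef : ¬ p ∣ Nat.card (G ⧸ D) / charDegree (φ : G ⧸ D → ℂ))
    [Fintype (IrrCharacter G)] [DecidablePred (· ∈ B)] :
    (∑ θ : IrrCharacter G, if θ ∈ B then (θ : G → ℂ) 1 * conj ((θ : G → ℂ) 1) else 0) =
      (Nat.card D : ℂ) * ((χ : G → ℂ) 1 * conj ((χ : G → ℂ) 1)) := by
  classical
  haveI := isPrime_of_pModular hM
  let π := QuotientGroup.mk' D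
  have hπ : Function.Surjective π := QuotientGroup.mk'_surjective _
  letI : Fintype (G ⧸ D) := Fintype.ofFinite _
  haveI := finite_irrCharacter (G := G ⧸ D)
  letI : Fintype (IrrCharacter (G ⧸ D)) := Fintype.ofFinite _
  have hker : IsPGroup p π.ker := by
    rw [QuotientGroup.ker_mk']
    exact hD
  have hcomm : ∀ s : G, ¬ p ∣ orderOf s → ∀ q ∈ π.ker, Commute q s := by
    intro s hs q hq
    rw [QuotientGroup.ker_mk'] at hq
    exact comm_of_mem_C (reg_mem_C hD hG hs) hq
  have hcons := blockCoeff_preimage π hπ B (1 : G ⧸ D)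
  have hpre : (inflI π hπ) ⁻¹' B = {φ} := by
    ext ψ
    simp only [Set.mem_preimage, Set.mem_singleton_iff]
    constructor
    · intro hψ
      obtain ⟨χ₀, rfl⟩ := hB
      have h1 : SameBlock M (χ₀ : G → ℂ) (χ : G → ℂ) := hχ
      have h2 : SameBlock M (χ₀ : G → ℂ) ((ψ : G ⧸ D → ℂ) ∘ π) := hψ
      have h3 : SameBlock M ((φ : G ⧸ D → ℂ) ∘ π) ((ψ : G ⧸ D → ℂ) ∘ π) := by
        intro g
        have := memLocalIdeal_sub_trans (memLocalIdeal_sub_comm (h1 g)) (h2 g)
        rwa [e] at this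
      have h4 := Cfsg.Agent.Lib.Blocks.DomRank.sameBlock_of_comp π hπ hker hcomm hM h3
      have h5 := (Cfsg.Agent.Lib.Blocks.Inducing.blockOf_eq_singleton_iff hM φ).mp hdef
      have h6 : ψ ∈ blockOf M (φ : G ⧸ D → ℂ) := h4
      rw [h5] at h6
      exact h6
    · intro hψ
      have : inflI π hπ φ = χ := Subtype.ext e.symm
      rw [hψ, this]
      exact hχ
  have h1 : (∑ y : G, if π y = 1 then blockCoeff B y else 0) = blockCoeff B 1 := by
    rw [Finset.sum_eq_single (1 : G)]
    · simp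
    · intro b _ hb
      split_ifs with hb1
      · apply Cfsg.Agent.Lib.BlockT.Inflate2.blockCoeff_eq_zero hM hB
        have hbD : b ∈ D := (QuotientGroup.eq_one_iff b).mp hb1
        obtain ⟨k, hk⟩ := ord_of_mem hD hbD
        rw [hk]
        have hk0 : k ≠ 0 := by
          rintro rfl
          rw [pow_zero] at hk
          exact hb (orderOf_eq_one_iff.mp hk)
        exact dvd_pow_self p hk0
      · rfl
    · intro h
      exact absurd (Finset.mem_univ _) h
  rw [h1, hpre, blockCoeff_eq_sum, blockCoeff_eq_sum, Finset.sum_eq_single φ] at hcons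
  · rw [if_pos (Set.mem_singleton φ)] at hcons
    have h2 : (φ : G ⧸ D → ℂ) 1 = (χ : G → ℂ) 1 := by
      rw [e]; simp
    rw [h2] at hcons
    have hc : (Nat.card G : ℂ) = (Nat.card (G ⧸ D) : ℂ) * (Nat.card D : ℂ) := by
      rw [← Nat.cast_mul, ← Subgroup.card_eq_card_quotient_mul_card_subgroup D]
    have hH0 : (Nat.card (G ⧸ D) : ℂ) ≠ 0 := Nat.cast_ne_zero.mpr Nat.card_pos.ne'
    have hD0 : (Nat.card D : ℂ) ≠ 0 := Nat.cast_ne_zero.mpr Nat.card_pos.ne'
    rw [hc] at hcons
    field_simp at hcons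
    rw [← hcons]
    ring
  · intro ψ _ hψ
    rw [if_neg (Set.mem_singleton_iff.not.mpr hψ)]
  · intro h
    exact absurd (Finset.mem_univ _) h

theorem block_eq_image {B : Set (IrrCharacter G)} [Fintype D] [Fintype (IrrCharacter G)]
    [Fintype (IrrCharacter D)] [DecidablePred (· ∈ B)] (χ : IrrCharacter G)
    (F : IrrCharacter D → IrrCharacter G) (hinj : Function.Injective F) (hFB : ∀ ζ, F ζ ∈ B)
    (hF1 : ∀ ζ, (F ζ : G → ℂ) 1 = (ζ : D → ℂ) 1 * (χ : G → ℂ) 1)
    (hsum : (∑ θ : IrrCharacter G, if θ ∈ B then (θ : G → ℂ) 1 * conj ((θ : G → ℂ) 1) else 0) =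
      (Nat.card D : ℂ) * ((χ : G → ℂ) 1 * conj ((χ : G → ℂ) 1))) :
    ∀ θ ∈ B, ∃ ζ, θ = F ζ := by
  classical
  intro θ₀ hθ₀
  by_contra hne
  push Not at hne
  set d : IrrCharacter G → ℕ := fun θ => charDegree (θ : G → ℂ) with hd
  have hdv : ∀ θ : IrrCharacter G, (θ : G → ℂ) 1 = (d θ : ℂ) := fun θ =>
    (charDegree_natCast (isCharacter_of_isIrrCharacter θ.2)).symm
  have hsumN : (∑ θ ∈ Finset.univ.filter (· ∈ B), d θ ^ 2) = Nat.card D * d χ ^ 2 := by
    have : ((∑ θ ∈ Finset.univ.filter (· ∈ B), d θ ^ 2 : ℕ) : ℂ) = ((Nat.card D * d χ ^ 2 : ℕ) : ℂ) := by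
      push_cast
      rw [Finset.sum_filter]
      have e1 : ∀ θ : IrrCharacter G, (if θ ∈ B then (d θ : ℂ) ^ 2 else 0) =
          if θ ∈ B then (θ : G → ℂ) 1 * conj ((θ : G → ℂ) 1) else 0 := by
        intro θ
        rw [hdv θ, Complex.conj_natCast, sq]
      simp only [e1]
      rw [hsum, hdv χ, Complex.conj_natCast]
      ring
    exact_mod_cast this
  have hFd : ∀ ζ : IrrCharacter D, d (F ζ) = charDegree (ζ : D → ℂ) * d χ := by
    intro ζ
    apply charDegree_eq_of_eq_natCast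
    rw [hF1, hdv χ, ← charDegree_natCast (isCharacter_of_isIrrCharacter ζ.2)]
    push_cast
    rfl
  have hsumF : (∑ ζ : IrrCharacter D, d (F ζ) ^ 2) = Nat.card D * d χ ^ 2 := by
    have := sum_charDegree_sq (G := D)
    rw [← this, Finset.sum_mul]
    refine Finset.sum_congr rfl fun ζ _ => ?_
    rw [hFd, mul_pow]
  have himg : (∑ θ ∈ Finset.univ.image F, d θ ^ 2) = Nat.card D * d χ ^ 2 := by
    rw [Finset.sum_image (fun a _ b _ h => hinj h)]
    exact hsumF
  have hnot : θ₀ ∉ Finset.univ.image F := by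
    intro h
    obtain ⟨ζ, -, hζ⟩ := Finset.mem_image.mp h
    exact hne ζ hζ.symm
  have hle : (∑ θ ∈ insert θ₀ (Finset.univ.image F), d θ ^ 2) ≤
      ∑ θ ∈ Finset.univ.filter (· ∈ B), d θ ^ 2 := by
    apply Finset.sum_le_sum_of_subset
    intro θ hθ
    rcases Finset.mem_insert.mp hθ with rfl | h
    · simpa using hθ₀
    · obtain ⟨ζ, -, rfl⟩ := Finset.mem_image.mp h
      simpa using hFB ζ
  rw [Finset.sum_insert hnot, himg, hsumN] at hle
  have hpos : 0 < d θ₀ := charDegree_pos θ₀.2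
  have : 0 < d θ₀ ^ 2 := by positivity
  omega

end Main

/-- Let p be a prime, M a maximal ideal of the algebraic integers containing p, D a p-subgroup of the finite group G with G = D·C_G(D), and B a p-block with defect group D. Let χ be a member of B having D in its kernel (there is exactly one, the canonical character of B). Then the irreducible characters in B are exactly the functions θ on G for which there is an irreducible character ζ of D such that θ(yx) = ζ(y)χ(x) whenever y ∈ D, x has order prime to p and x commutes with y, and θ(z) = 0 whenever the p-part of z does not lie in D. -/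
theorem result {G : Type*} [Group G] [Finite G] (p : ℕ) [Fact p.Prime] (M : Ideal Cfsg.AlgInt) (hM : Cfsg.IsPModular p M) (D : Subgroup G) (hD : IsPGroup p D) (hG : D ⊔ Subgroup.centralizer (D : Set G) = ⊤) (B : Set (Cfsg.IrrCharacter G)) (hB : Cfsg.IsPBlock M B) (hBD : Cfsg.IsDefectGroup p M B D) (χ : Cfsg.IrrCharacter G) (hχ : χ ∈ B) (hχD : ∀ y ∈ D, (χ : G → ℂ) y = (χ : G → ℂ) 1) : (∀ θ : Cfsg.IrrCharacter G, θ ∈ B ↔ ∃ ζ : Cfsg.IrrCharacter D, (∀ (y : D) (x : G), ¬ p ∣ orderOf x → Commute (y : G) x → (θ : G → ℂ) ((y : G) * x) = (ζ : D → ℂ) y * (χ : G → ℂ) x) ∧ (∀ z : G, (∀ y : G, Cfsg.IsPPart p z y → y ∉ D) → (θ : G → ℂ) z = 0)) ∧ ∀ ζ : Cfsg.IrrCharacter D, ∃ θ ∈ B, (∀ (y : D) (x : G), ¬ p ∣ orderOf x → Commute (y : G) x → (θ : G → ℂ) ((y : G) * x) = (ζ : D → ℂ) y * (χ : G → ℂ) x) ∧ (∀ z : G, (∀ y : G, Cfsg.IsPPart p z y → y ∉ D) → (θ : G → ℂ) z = 0) := by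
  classical
  cases nonempty_fintype G
  haveI hN := normal_D hG
  haveI := isPrime_of_pModular hM
  letI : Fintype D := Fintype.ofFinite _
  haveI := finite_irrCharacter (G := G)
  letI : Fintype (IrrCharacter G) := Fintype.ofFinite _
  haveI := finite_irrCharacter (G := D)
  letI : Fintype (IrrCharacter D) := Fintype.ofFinite _
  obtain ⟨φ, e, -, hle⟩ := quot_data hM hB hBD hχ hχD
  have hvan : ∀ g, pp p g ∉ D → (χ : G → ℂ) g = 0 := by
    intro g hg
    rw [e]
    exact van_of_le φ.2 hle g hg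
  have hirr : ∀ ζ : IrrCharacter D, IsIrrCharacter G (th p D (ζ : D → ℂ) (χ : G → ℂ)) :=
    fun ζ => th_irr hD hG ζ.2 χ.2 hχD hvan
  let F : IrrCharacter D → IrrCharacter G := fun ζ => ⟨th p D (ζ : D → ℂ) (χ : G → ℂ), hirr ζ⟩
  have hone : ¬ p ∣ orderOf (1 : G) := by
    rw [orderOf_one]
    exact fun h => (Fact.out : p.Prime).one_lt.ne' (Nat.dvd_one.mp h)
  have hχ10 : (χ : G → ℂ) 1 ≠ 0 := by
    rw [← charDegree_natCast (isCharacter_of_isIrrCharacter χ.2)]
    exact Nat.cast_ne_zero.mpr (charDegree_pos χ.2).ne'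
  have hFval : ∀ (ζ : IrrCharacter D) (y : D) (x : G), ¬ p ∣ orderOf x → Commute (y : G) x →
      (F ζ : G → ℂ) ((y : G) * x) = (ζ : D → ℂ) y * (χ : G → ℂ) x := by
    intro ζ y x hx hc
    exact th_mul hD _ _ y.2 hx hc
  have hFvan : ∀ (ζ : IrrCharacter D) (z : G), (∀ y : G, IsPPart p z y → y ∉ D) →
      (F ζ : G → ℂ) z = 0 := by
    intro ζ z hz
    exact th_of_not_mem _ _ (hz _ (pp_spec z))
  have hinj : Function.Injective F := by
    intro ζ ζ' h
    apply Subtype.ext
    funext y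
    have h1 := hFval ζ y 1 hone (Commute.one_right _)
    have h2 := hFval ζ' y 1 hone (Commute.one_right _)
    rw [h] at h1
    rw [h1] at h2
    exact mul_right_cancel₀ hχ10 h2
  have hFB : ∀ ζ, F ζ ∈ B := by
    intro ζ
    have h1 := same_th hM hD hG ζ χ hχD hvan
    obtain ⟨χ₀, rfl⟩ := hB
    have h2 : SameBlock M (χ₀ : G → ℂ) (χ : G → ℂ) := hχ
    intro g
    exact memLocalIdeal_sub_trans (h2 g) (h1 g)
  have hF1 : ∀ ζ, (F ζ : G → ℂ) 1 = (ζ : D → ℂ) 1 * (χ : G → ℂ) 1 := fun ζ => th_one hD _ _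
  have hcount := count hM hD hG hB φ χ hχ e (no_dvd_of_le φ.2 hle)
  have himg := block_eq_image χ F hinj hFB hF1 hcount
  constructor
  · intro θ
    constructor
    · intro hθ
      obtain ⟨ζ, rfl⟩ := himg θ hθ
      exact ⟨ζ, hFval ζ, hFvan ζ⟩
    · rintro ⟨ζ, h1, h2⟩
      have : θ = F ζ := by
        apply Subtype.ext
        funext z
        by_cases hz : pp p z ∈ D
        · have hzz := pp_mul_rr (p := p) z
          rw [← hzz]
          have a1 := h1 ⟨_, hz⟩ _ (rr_reg z) (pp_comm z)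
          have a2 := hFval ζ ⟨_, hz⟩ _ (rr_reg z) (pp_comm z)
          exact a1.trans a2.symm
        · have a1 : (θ : G → ℂ) z = 0 := by
            apply h2
            intro y hy
            rwa [← isPPart_unique (pp_spec z) hy]
          rw [a1]
          exact (th_of_not_mem _ _ hz).symm
      rw [this]
      exact hFB ζ
  · intro ζ
    exact ⟨F ζ, hFB ζ, hFval ζ, hFvan ζ⟩

end Cfsg.Agent.S4714
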