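import Cfsg.Statements.S4726
import Cfsg.Agent.Lib.BlockH.InducedPairs
import Cfsg.Agent.Lib.BlockPi.Main

set_option autoImplicit false
open Cfsg

namespace Cfsg.Agent.S4726

open Cfsg.Agent.Lib.Blocks.Local Cfsg.Agent.Lib.Blocks.Central Cfsg.Agent.Lib.Blocks.Brauer
open Cfsg.Agent.Lib.Blocks.Induced Cfsg.Agent.Lib.Blocks.Weak Cfsg.Agent.Lib.Blocks.Third
open Cfsg.Agent.Lib.Blocks.Defect Cfsg.Agent.Lib.Blocks.Defect2
open Cfsg.Agent.Lib.BlockH.Pairs Cfsg.Agent.Lib.BlockH.BrauerMap Cfsg.Agent.Lib.BlockH.Transport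
open Cfsg.Agent.Lib.BlockH.Subpair Cfsg.Agent.Lib.BlockH.SubpairLE Cfsg.Agent.Lib.BlockH.ConjPair
open Cfsg.Agent.Lib.BlockH.MaxPair Cfsg.Agent.Lib.BlockH.Sylow Cfsg.Agent.Lib.BlockH.Defects
open Cfsg.Agent.Lib.BlockH.Descent Cfsg.Agent.Lib.BlockPi.Main

section
variable {G : Type*} [Group G] [Fintype G] {p : ℕ} [Fact p.Prime] {M : Ideal AlgInt}

theorem exists_max_pair (hM : IsPModular p M) {B : Set (IrrCharacter G)} (hB : IsPBlock M B)
    {D : Subgroup G} (hD : IsDefectGroup p M B D) :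
    ∃ e : Set (IrrCharacter (Subgroup.centralizer (D : Set G))), IsMaximalBrauerPair p M B D e := by
  haveI := isPrime_of_pModular hM
  classical
  haveI : Finite (IrrCharacter G) := Cfsg.Agent.Lib.Char.Ortho.finite_irrCharacter (G := G)
  letI : Fintype (IrrCharacter G) := Fintype.ofFinite _
  have hDp := isDefectGroup_isPGroup hD
  obtain ⟨g, -, hn, c, hgc, hc⟩ := (exists_coeff_centralizer_iff hM hB hD hDp).mpr
    ⟨1, by rw [map_conj_one]⟩
  have hcent : IsCentral (idem B : GA G) := isCentral_of_mem _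
  have hnc : ¬ MemLocalIdeal M ((idem B : GA G).coeff c) := by
    obtain ⟨t, ht⟩ := isConj_iff.mp hgc
    rw [← ht, hcent, coeff_idem]
    exact hn
  obtain ⟨ξ, hξ⟩ := exists_brH_of_coeff hM hDp (BrInv.of_central hcent)
    (Rc.of_localCenter (idem_mem_localCenter hB)) (by
      have := idem_mul_self B
      exact congrArg Subtype.val this) hc hnc
  exact ⟨_, isMaximal_of_isDefectGroup hM (isBrauerPairOf_blockOf hM hDp hB ξ hξ) hD⟩

theorem induced_of_pair (hM : IsPModular p M) {H : Subgroup G}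
    {b : Set (IrrCharacter H)} (hb : IsPBlock M b) {D₀ : Subgroup H}
    {P : Subgroup G} (hX : D₀.map H.subtype = P) (hC : Subgroup.centralizer (P : Set G) ≤ H)
    {e : Set (IrrCharacter (Subgroup.centralizer (D₀ : Set H)))}
    (he : IsBrauerPairOf p M b D₀ e) {B : Set (IrrCharacter G)}
    (hB : IsBrauerPairOf p M B P (blockMap (descEquiv hX hC) e)) :
    IsInducedBlock M H b B := by
  haveI := isPrime_of_pModular hM
  classical
  haveI : Finite (IrrCharacter G) := Cfsg.Agent.Lib.Char.Ortho.finite_irrCharacter (G := G)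
  haveI : Finite (IrrCharacter H) := Cfsg.Agent.Lib.Char.Ortho.finite_irrCharacter (G := H)
  letI : Fintype (IrrCharacter G) := Fintype.ofFinite _
  letI : Fintype (IrrCharacter H) := Fintype.ofFinite _
  obtain ⟨ξ, hξ⟩ := isPBlock_nonempty hb
  obtain ⟨χ, hχ⟩ := isPBlock_nonempty hB.2.1
  obtain ⟨η, hη⟩ := isPBlock_nonempty he.1.2
  have hη' := irrMap_mem_blockMap (descEquiv hX hC) e hη
  have h1 := hB.2.2 _ hη'
  rw [brauerOmega_blockCoeff] at h1
  have h2 := he.2.2 _ hη
  rw [brauerOmega_blockCoeff] at h2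
  have hbe : b = blockOf M (ξ : H → ℂ) := isPBlock_eq_blockOf hb hξ
  have hBe : B = blockOf M (χ : G → ℂ) := isPBlock_eq_blockOf hB.2.1 hχ
  rw [hbe, hBe]
  refine isInducedBlock_blockOf H fun z hz => ?_
  have h3 := brH_sub_omegaHom_of_pair hM hB.1.1 hB.2.1 h1 hχ hz
  have h4 := brH_sub_omegaHom_of_pair hM he.1.1 hb h2 hξ (restrCenter_mem_localCenter H hz)
  have h5 : brH D₀ η (restrCenter H z : GA H) = brH P (irrMap (descEquiv hX hC) η) (z : GA G) := by
    rw [← brauerOmega_eq_brH (restrCenter H z : GA H) _ (fun g => rfl),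
      ← brauerOmega_eq_brH (z : GA G) _ (fun g => rfl)]
    exact (brauerOmega_transport (descEquiv hX hC) _ _ (fun c => by
      simp [coe_restrCenter, coeff_restr, descEquiv]) η).symm
  rw [h5] at h4
  have h6 := memLocalIdeal_sub h3 h4
  rw [indHom_apply]
  convert h6 using 1
  ring

end


/-- Let p be a prime, M a maximal ideal of the algebraic integers containing p, H a subgroup of the finite group G and b a p-block of H with defect group D₀ such that C_G(D₀) ≤ H. Then b induces a block of G, and for every block B of G induced by b there is a defect group D of B with Z(D) ≤ Z(D₀) ≤ D₀ ≤ D (as subgroups of G). In particular, if the defect groups of B are abelian then D₀ is a defect group of B. -/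
theorem result {G : Type*} [Group G] [Finite G] (p : ℕ) [Fact p.Prime] (M : Ideal Cfsg.AlgInt) (hM : Cfsg.IsPModular p M) (H : Subgroup G) (b : Set (Cfsg.IrrCharacter ↥H)) (hb : Cfsg.IsPBlock M b) (D₀ : Subgroup ↥H) (hD₀ : Cfsg.IsDefectGroup p M b D₀) (hC : Subgroup.centralizer ((D₀.map H.subtype : Subgroup G) : Set G) ≤ H) : Cfsg.InducedBlockDefined M H b ∧ ∀ B : Set (Cfsg.IrrCharacter G), Cfsg.IsInducedBlock M H b B → (∃ D : Subgroup G, Cfsg.IsDefectGroup p M B D ∧ (Subgroup.center ↥D).map D.subtype ≤ ((Subgroup.center ↥D₀).map D₀.subtype).map H.subtype ∧ ((Subgroup.center ↥D₀).map D₀.subtype).map H.subtype ≤ D₀.map H.subtype ∧ D₀.map H.subtype ≤ D) ∧ (∀ D : Subgroup G, Cfsg.IsDefectGroup p M B D → IsMulCommutative ↥D → Cfsg.IsDefectGroup p M B (D₀.map H.subtype)) := by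
  cases nonempty_fintype G
  classical
  haveI := Cfsg.Agent.Lib.Blocks.Local.isPrime_of_pModular hM
  obtain ⟨e, hmax⟩ := exists_max_pair hM hb hD₀
  set P : Subgroup G := D₀.map H.subtype with hP
  have hX : D₀.map H.subtype = P := rfl
  have hpD₀ : IsPGroup p D₀ := hmax.1.1.1
  have hpP : IsPGroup p P := (isPGroup_iff_of_map hX).mpr hpD₀
  have hPe : IsBrauerPair p M P (blockMap (descEquiv hX hC) e) :=
    ⟨hpP, isPBlock_blockMap _ hmax.1.1.2⟩
  obtain ⟨B₀, hB₀, -⟩ := existsUnique_isBrauerPairOf hM hPe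
  have hind₀ : IsInducedBlock M H b B₀ := induced_of_pair hM hb hX hC hmax.1 hB₀
  refine ⟨⟨B₀, hind₀⟩, fun B hB => ?_⟩
  obtain rfl : B₀ = B := IsInducedBlock.unique H hind₀ hB
  obtain ⟨D, f, hmaxD, hle⟩ := exists_maximal_above hM _ P _ hB₀ rfl
  have hDdef := isDefectGroup_of_isMaximal hM hmaxD
  have hPD : P ≤ D := le_of_subpairLE hle
  have hDf : IsBrauerPair p M D f := hmaxD.1.1
  have hZ : ∀ (E : Subgroup G), IsDefectGroup p M B₀ E → True := fun _ _ => trivial
  -- the centre of `D` lies in `P`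
  have hZP : (Subgroup.center ↥D).map D.subtype ≤ P := by
    set Z : Subgroup G := (Subgroup.center ↥D).map D.subtype with hZdef
    have hZD : Z ≤ D := Subgroup.map_subtype_le _
    have hZC : Z ≤ Subgroup.centralizer (P : Set G) := by
      rintro _ ⟨z, hz, rfl⟩
      rw [Subgroup.mem_centralizer_iff]
      intro x hx
      have h := Subgroup.mem_center_iff.mp hz ⟨x, hPD hx⟩
      exact congrArg Subtype.val h
    set Q : Subgroup G := P ⊔ Z with hQdef
    have hPQ : P ≤ Q := le_sup_left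
    have hQD : Q ≤ D := sup_le hPD hZD
    have hQp : IsPGroup p Q := hDf.1.to_le hQD
    have hQN : Q ≤ Subgroup.normalizer (P : Set G) :=
      sup_le Subgroup.le_normalizer (hZC.trans (centralizer_le_normalizer'' P))
    have hQH : Q ≤ H := sup_le (Subgroup.map_subtype_le _) (hZC.trans hC)
    obtain ⟨g, ⟨hg, hgle⟩, -⟩ := existsUnique_subpairLE hM hDf hQD
    have hQg : IsBrauerPair p M Q g := ⟨hQp, hg⟩
    obtain ⟨f₀, hf₀, hf₀le⟩ := exists_subpairLE hM hQg hPQ
    have hf₀e : f₀ = blockMap (descEquiv hX hC) e :=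
      (existsUnique_subpairLE hM hDf hPD).unique ⟨hf₀, SubpairLE_trans hf₀le hgle⟩ ⟨hPe.2, hle⟩
    subst hf₀e
    have hnorm := isNormalSubpair_of_subpairLE hM hPe hf₀le hQN
    set Q' : Subgroup H := Q.subgroupOf H with hQ'
    have hQ'map : Q'.map H.subtype = Q := Subgroup.map_subgroupOf_eq_of_le hQH
    have hCQ : Subgroup.centralizer (Q : Set G) ≤ H :=
      (Subgroup.centralizer_le (by exact_mod_cast hPQ)).trans hC
    have hgg : g = blockMap (descEquiv hQ'map hCQ) (blockMap (descEquiv hQ'map hCQ).symm g) :=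
      (blockMap_blockMap_symm _ _).symm
    rw [hgg] at hnorm
    have hn' := (isNormalSubpair_desc hX hQ'map hC hCQ).mp hnorm
    have hp' := (normal_isBrauerPairOf_iff hM hn' hb).mpr hmax.1
    have hEq := hmax.2 _ _ hp' (Relation.ReflTransGen.single hn')
    have : Q = P := by rw [← hQ'map, hEq]
    rw [← this]
    exact le_sup_right
  refine ⟨⟨D, hDdef, ?_, ?_, hPD⟩, ?_⟩
  · -- `Z(D) ≤ Z(D₀)`
    rintro _ ⟨z, hz, rfl⟩
    obtain ⟨y, hy, hyz⟩ := hZP ⟨z, hz, rfl⟩
    refine ⟨y, ⟨⟨y, hy⟩, ?_, rfl⟩, hyz⟩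
    rw [SetLike.mem_coe, Subgroup.mem_center_iff]
    intro w
    have h := Subgroup.mem_center_iff.mp hz ⟨((w : H) : G), hPD ⟨w, w.2, rfl⟩⟩
    have h' : ((w : H) : G) * (z : G) = (z : G) * ((w : H) : G) := congrArg Subtype.val h
    apply Subtype.ext
    apply Subtype.ext
    simp only [Subgroup.coe_mul]
    have hzy : (z : G) = ((y : H) : G) := hyz.symm
    rw [hzy] at h'
    exact h'
  · rintro _ ⟨y, ⟨y', -, rfl⟩, rfl⟩
    exact ⟨y', y'.2, rfl⟩
  · intro D' hD' hab
    obtain ⟨x, rfl⟩ := isDefectGroup_exists_conj_eq hM hB₀.2.1 hDdef hD'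
    have hDab : ∀ a ∈ D, ∀ b ∈ D, a * b = b * a := by
      intro a ha b hb
      have h := hab.is_comm.comm ⟨x * a * x⁻¹, ⟨a, ha, rfl⟩⟩ ⟨x * b * x⁻¹, ⟨b, hb, rfl⟩⟩
      have h' := congrArg Subtype.val h
      simp only [Subgroup.coe_mul] at h'
      have : x * (a * b) * x⁻¹ = x * (b * a) * x⁻¹ := by
        calc x * (a * b) * x⁻¹ = x * a * x⁻¹ * (x * b * x⁻¹) := by group
          _ = x * b * x⁻¹ * (x * a * x⁻¹) := h'
          _ = x * (b * a) * x⁻¹ := by group
      exact mul_left_cancel (mul_right_cancel this)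
    have hDP : D ≤ P := by
      intro a ha
      apply hZP
      refine ⟨⟨a, ha⟩, ?_, rfl⟩
      rw [SetLike.mem_coe, Subgroup.mem_center_iff]
      intro w
      apply Subtype.ext
      exact hDab _ w.2 _ ha
    have hDeq : P = D := le_antisymm hPD hDP
    rw [hDeq]
    exact hDdef

end Cfsg.Agent.S4726
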