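import Cfsg.Statements.S4715
import Cfsg.Agent.Lib.Blk89.HCUp
import Cfsg.Agent.Lib.BlockH.InducedPairs
import Cfsg.Agent.S4726
import Cfsg.Agent.Lib.Blocks.ExtFMT

set_option autoImplicit false
open Cfsg

namespace Cfsg.Agent.S4715

open Cfsg.Agent.Lib.Blocks.Local Cfsg.Agent.Lib.Blocks.Central Cfsg.Agent.Lib.Blocks.Brauer
open Cfsg.Agent.Lib.Blocks.Induced Cfsg.Agent.Lib.Blocks.Weak Cfsg.Agent.Lib.Blocks.Third
open Cfsg.Agent.Lib.Blocks.Defect Cfsg.Agent.Lib.Blocks.Defect2 Cfsg.Agent.Lib.Blocks.Inducing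
open Cfsg.Agent.Lib.BlockH.Pairs Cfsg.Agent.Lib.BlockH.BrauerMap Cfsg.Agent.Lib.BlockH.Transport
open Cfsg.Agent.Lib.BlockH.Subpair Cfsg.Agent.Lib.BlockH.SubpairLE Cfsg.Agent.Lib.BlockH.ConjPair
open Cfsg.Agent.Lib.BlockH.MaxPair Cfsg.Agent.Lib.BlockH.Sylow Cfsg.Agent.Lib.BlockH.Defects
open Cfsg.Agent.Lib.BlockH.Descent Cfsg.Agent.Lib.BlockH.InducedPairs
open Cfsg.Agent.Lib.Contrib.Cyc Cfsg.Agent.Lib.Contrib.Proj Cfsg.Agent.Lib.Char.Galois
open Cfsg.Agent.Lib.Blk89.HCLow Cfsg.Agent.Lib.Blk89.HCUp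

section Setup

variable {G : Type*} [Group G] [Fintype G] {p : ℕ} [Fact p.Prime] {M : Ideal AlgInt}

theorem subgroupBlockCoeff_coe {H : Subgroup G} (c : Set (IrrCharacter H)) (h : H) :
    subgroupBlockCoeff H c (h : G) = blockCoeff c h := by
  classical
  rw [subgroupBlockCoeff, dif_pos h.2]

/-- Elements stabilizing the Brauer pair stabilize the block of `H`. -/
theorem stab_le (hM : IsPModular p M) {D H : Subgroup G} (hHD : H = D ⊔ Subgroup.centralizer (D : Set G))
    {b : Set (IrrCharacter H)} (hb : IsPBlock M b)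
    {e₁ : Set (IrrCharacter (Subgroup.centralizer ((D.subgroupOf H : Subgroup H) : Set H)))}
    (hX : (D.subgroupOf H).map H.subtype = D) (hC : Subgroup.centralizer (D : Set G) ≤ H)
    (hp : IsBrauerPairOf p M b (D.subgroupOf H) e₁) {g : G}
    (hg : g ∈ stabSub D (blockMap (descEquiv hX hC) e₁)) :
    ∀ θ ∈ b, ∀ θ' : IrrCharacter H,
      (∀ h h' : H, (h' : G) = g * h * g⁻¹ → (θ' : H → ℂ) h' = (θ : H → ℂ) h) → θ' ∈ b := by
  classical
  haveI := isPrime_of_pModular hM
  haveI : Finite (IrrCharacter H) := Cfsg.Agent.Lib.Char.Ortho.finite_irrCharacter (G := H)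
  letI : Fintype (IrrCharacter H) := Fintype.ofFinite _
  haveI : Finite (IrrCharacter G) := Cfsg.Agent.Lib.Char.Ortho.finite_irrCharacter (G := G)
  letI : Fintype (IrrCharacter G) := Fintype.ofFinite _
  set ρ := descEquiv hX hC with hρ
  obtain ⟨hgN, hgS⟩ := mem_stabSub.mp hg
  have hgH : g ∈ Subgroup.normalizer ((H : Subgroup G) : Set G) := by
    rw [hHD]
    exact Cfsg.Agent.Lib.Blocks.ExtFMT.normalizer_le_normalizer_sup hgN
  set σ := conjOfNormalizer hgH with hσ
  have hmapD : D.map (MulAut.conj g).toMonoidHom = D := map_conj_eq_of_mem_normalizer hgN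
  have htrans : ∀ (c : Set (IrrCharacter H)) (ξ : IrrCharacter (Subgroup.centralizer ((D.subgroupOf H : Subgroup H) : Set H))),
      brauerOmega D (subgroupBlockCoeff H c) (irrMap ρ ξ : IrrCharacter (Subgroup.centralizer (D : Set G))) =
        brauerOmega (D.subgroupOf H) (blockCoeff c) (ξ : _ → ℂ) := fun c ξ =>
    brauerOmega_transport ρ _ _ (fun c₁ => subgroupBlockCoeff_coe c (c₁ : H)) ξ
  have hfix := blockMap_eq_of_stabilizes (M := M) hmapD (isPBlock_blockMap ρ hp.1.2) hgS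
  have hb' : IsBrauerPairOf p M (blockMap σ b) (D.subgroupOf H) e₁ := by
    refine ⟨hp.1, isPBlock_blockMap σ hb, fun ξ hξ => ?_⟩
    rw [← htrans]
    have hξ₀ : irrMap ρ ξ ∈ blockMap ρ e₁ := irrMap_mem_blockMap _ _ hξ
    rw [← hfix] at hξ₀
    obtain ⟨ξ₂₀, hξ₂₀, hξe⟩ := hξ₀
    obtain ⟨ξ₂, hξ₂, rfl⟩ := hξ₂₀
    rw [← hξe]
    have hβ : ∀ x, subgroupBlockCoeff H (blockMap σ b) (g * x * g⁻¹) = subgroupBlockCoeff H b x := by
      intro x
      rw [← coeff_subIdem, ← coeff_subIdem]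
      exact coeff_subIdem_blockMap H b hgH x
    rw [brauerOmega_conj hmapD _ _ hβ, htrans]
    exact hp.2.2 ξ₂ hξ₂
  have hbb : blockMap σ b = b := (existsUnique_isBrauerPairOf hM hp.1).unique hb' hp
  intro θ hθ θ' hθ'
  have h1 := irrMap_eq_of_isConjCharOf hgH (χ := θ) (χ' := θ') hθ'
  rw [h1, ← hbb]
  exact irrMap_mem_blockMap _ _ hθ

/-- The Brauer pair argument: conjugate subsections are conjugate under the stabilizer. -/
theorem claim_W (hM : IsPModular p M) {B : Set (IrrCharacter G)} {D : Subgroup G}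
    {e₀ : Set (IrrCharacter (Subgroup.centralizer (D : Set G)))}
    (hmax : IsMaximalBrauerPair p M B D e₀) {z z' w : G} (hzD : z ∈ D)
    (hzC : ∀ d ∈ D, d * z = z * d) (hz'D : z' ∈ D) (hz'C : ∀ d ∈ D, d * z' = z' * d)
    (hmap : (Subgroup.zpowers z).map (MulAut.conj w).toMonoidHom = Subgroup.zpowers z')
    (hw : w * z * w⁻¹ = z')
    {f : Set (IrrCharacter (Kz z))} {f' : Set (IrrCharacter (Kz z'))}
    (hf : IsPBlock M f) (hle : SubpairLE p M (Subgroup.zpowers z) f D e₀)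
    (hf' : IsPBlock M f') (hle' : SubpairLE p M (Subgroup.zpowers z') f' D e₀)
    (hb : blockMap (conjEquivOf w hmap) f = f') :
    ∃ t₀ ∈ stabSub D e₀, t₀ * z * t₀⁻¹ = z' := by
  classical
  haveI := isPrime_of_pModular hM
  have hPe := hmax.1.1
  have hcent : ∀ y : G, y ∈ D → (∀ d ∈ D, d * y = y * d) → D ≤ Subgroup.centralizer ((Subgroup.zpowers y : Subgroup G) : Set G) := by
    intro y _ hy d hd
    rw [Subgroup.mem_centralizer_iff]
    intro q hq
    obtain ⟨k, rfl⟩ := Subgroup.mem_zpowers_iff.mp hq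
    exact ((show Commute y d from (hy d hd).symm).zpow_left k).eq
  have hQD : Subgroup.zpowers z' ≤ D := Subgroup.zpowers_le.mpr hz'D
  have hQ0D : Subgroup.zpowers z ≤ D := Subgroup.zpowers_le.mpr hzD
  have hDN : D ≤ Subgroup.normalizer ((Subgroup.zpowers z : Subgroup G) : Set G) :=
    (hcent z hzD hzC).trans (centralizer_le_normalizer'' _)
  have hDN' : D ≤ Subgroup.normalizer ((Subgroup.zpowers z' : Subgroup G) : Set G) :=
    (hcent z' hz'D hz'C).trans (centralizer_le_normalizer'' _)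
  have hn1 := isNormalSubpair_of_subpairLE hM ⟨hPe.1.to_le hQ0D, hf⟩ hle hDN
  have hn2 := isNormalSubpair_conj hmap rfl hn1
  rw [hb] at hn2
  have hUC : D.map (MulAut.conj w).toMonoidHom ≤
      Subgroup.centralizer ((Subgroup.zpowers z' : Subgroup G) : Set G) := by
    rintro _ ⟨d, hd, rfl⟩
    rw [Subgroup.mem_centralizer_iff]
    intro q hq
    obtain ⟨k, rfl⟩ := Subgroup.mem_zpowers_iff.mp hq
    have hc : Commute z' (w * d * w⁻¹) := by
      rw [← hw]
      have h1 := hzC d hd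
      change (w * z * w⁻¹) * (w * d * w⁻¹) = (w * d * w⁻¹) * (w * z * w⁻¹)
      calc (w * z * w⁻¹) * (w * d * w⁻¹) = w * (z * d) * w⁻¹ := by group
        _ = w * (d * z) * w⁻¹ := by rw [h1]
        _ = _ := by group
    exact (hc.zpow_left k).eq
  obtain ⟨c₀, hc₀, hle₂⟩ := exists_centralizer_conj_subpairLE hM hmax hQD hf' hle'
    (fun x _ => by
      rw [inf_eq_left.mpr hDN']
      exact Nat.card_le_card_of_injective (Subgroup.inclusion inf_le_left)
        (Subgroup.inclusion_injective _))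
    (hUC.trans (centralizer_le_prodL _ _ _)) hn2
  set t₀ := c₀ * w with ht₀
  have hR : D.map (MulAut.conj t₀).toMonoidHom =
      (D.map (MulAut.conj w).toMonoidHom).map (MulAut.conj c₀).toMonoidHom :=
    (map_conj_mul D w c₀).symm
  have hRle : (D.map (MulAut.conj w).toMonoidHom).map (MulAut.conj c₀).toMonoidHom ≤ D :=
    le_of_subpairLE hle₂
  have hRD : (D.map (MulAut.conj w).toMonoidHom).map (MulAut.conj c₀).toMonoidHom = D := by
    apply Subgroup.eq_of_le_of_card_ge hRle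
    rw [Subgroup.card_map_of_injective (MulAut.conj c₀).injective,
      Subgroup.card_map_of_injective (MulAut.conj w).injective]
  have hbm := blockMap_conj_conj (f := e₀) w c₀ rfl rfl hR
  rw [hbm] at hle₂
  have key : ∀ (R : Subgroup G) (hR' : D.map (MulAut.conj t₀).toMonoidHom = R),
      SubpairLE p M R (blockMap (conjEquivOf t₀ hR') e₀) D e₀ → R = D →
        ∃ h : D.map (MulAut.conj t₀).toMonoidHom = D, blockMap (conjEquivOf t₀ h) e₀ = e₀ := by
    intro R hR' hS hRD'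
    subst hRD'
    refine ⟨hR', ?_⟩
    exact (existsUnique_subpairLE hM hPe le_rfl).unique
      ⟨isPBlock_blockMap _ hPe.2, hS⟩ ⟨hPe.2, Relation.ReflTransGen.refl⟩
  obtain ⟨hD, hfix⟩ := key _ hR hle₂ hRD
  refine ⟨t₀, mem_stabSub.mpr ⟨?_, stabilizesBlock_of_eq hD hPe.2 hfix⟩, ?_⟩
  · rw [Subgroup.mem_normalizer_iff]
    intro h
    refine ⟨fun hh => conj_mem_of_eq hD hh, fun hh => ?_⟩
    have := conj_inv_mem_of_eq hD hh
    have e : t₀⁻¹ * (t₀ * h * t₀⁻¹) * t₀ = h := by group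
    rwa [e] at this
  · have h1 : t₀ * z * t₀⁻¹ = c₀ * (w * z * w⁻¹) * c₀⁻¹ := by
      rw [ht₀]
      group
    rw [h1, hw]
    have h2 := Subgroup.mem_centralizer_iff.mp hc₀ z' (Subgroup.mem_zpowers z')
    rw [← h2]
    group

end Setup

section Defect

variable {G : Type*} [Group G] [Fintype G] {p : ℕ} [Fact p.Prime] {M : Ideal AlgInt}

/-- A block of the centralizer of a subgroup of `D`, below the maximal pair at `D`, has the same
defect. -/
theorem blockDefect_eq (hM : IsPModular p M) {B : Set (IrrCharacter G)} {D Q : Subgroup G}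
    {e₀ : Set (IrrCharacter (Subgroup.centralizer (D : Set G)))}
    (hmax : IsMaximalBrauerPair p M B D e₀) (hBD : IsDefectGroup p M B D) (hQD : Q ≤ D)
    (hDC : D ≤ Subgroup.centralizer (Q : Set G))
    {f : Set (IrrCharacter (Subgroup.centralizer (Q : Set G)))} (hf : IsPBlock M f)
    (hle : SubpairLE p M Q f D e₀)
    (hind : IsInducedBlock M (Subgroup.centralizer (Q : Set G)) f B) :
    blockDefect p f = blockDefect p B := by
  classical
  haveI := isPrime_of_pModular hM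
  have hp : p.Prime := Fact.out
  haveI : Finite (IrrCharacter G) := Cfsg.Agent.Lib.Char.Ortho.finite_irrCharacter (G := G)
  letI : Fintype (IrrCharacter G) := Fintype.ofFinite _
  haveI : Finite (IrrCharacter (Subgroup.centralizer (Q : Set G))) :=
    Cfsg.Agent.Lib.Char.Ortho.finite_irrCharacter (G := Subgroup.centralizer (Q : Set G))
  letI : Fintype (IrrCharacter (Subgroup.centralizer (Q : Set G))) := Fintype.ofFinite _
  obtain ⟨D₂, hD₂, hle₂⟩ := exists_defect_ge_centralizerIn hM hmax.1.1 hQD hf hle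
  obtain ⟨E, hE, hE₂⟩ := exists_defect_ge hM hind hD₂
  have h1 : Nat.card D ≤ Nat.card D₂ := by
    have h2 : Nat.card ((D ⊓ Subgroup.centralizer (Q : Set G)).subgroupOf (Subgroup.centralizer (Q : Set G))) ≤ Nat.card D₂ :=
      Nat.card_le_card_of_injective (Subgroup.inclusion hle₂) (Subgroup.inclusion_injective _)
    have h3 : Nat.card ((D ⊓ Subgroup.centralizer (Q : Set G)).subgroupOf (Subgroup.centralizer (Q : Set G))) = Nat.card D := by
      rw [inf_eq_left.mpr hDC]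
      have : Nat.card ((D.subgroupOf (Subgroup.centralizer (Q : Set G))).map (Subgroup.centralizer (Q : Set G)).subtype) =
          Nat.card (D.subgroupOf (Subgroup.centralizer (Q : Set G))) :=
        Subgroup.card_map_of_injective (Subgroup.subtype_injective _)
      rw [← this, Subgroup.map_subgroupOf_eq_of_le hDC]
    rwa [h3] at h2
  have h2 : Nat.card D₂ ≤ Nat.card E := by
    have h7 : Nat.card (D₂.map (Subgroup.centralizer (Q : Set G)).subtype) = Nat.card D₂ :=
      Subgroup.card_map_of_injective (Subgroup.subtype_injective _)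
    rw [← h7]
    exact Nat.card_le_card_of_injective (Subgroup.inclusion hE₂) (Subgroup.inclusion_injective _)
  have h3 : Nat.card E = Nat.card D := card_defect_eq hM hmax.1.2.1 hBD hE
  have h4 : Nat.card D₂ = Nat.card D := by omega
  have h5 := card_eq_pow_blockDefect hM hf hD₂
  have h6 := card_eq_pow_blockDefect hM hmax.1.2.1 hBD
  rw [h4, h6] at h5
  exact (Nat.pow_right_injective hp.two_le h5).symm

end Defect


/-- Let p be a prime, M a maximal ideal of the algebraic integers containing p, B a p-block of the finite group G with defect group D of order p^d, H = D·C_G(D), b a block of H inducing B, T the stabilizer of b in N_G(D) and e = [T : H] the inertial index of B; let n be the integer with p^n ≤ e < p^(n+1) and p^c the order of the centre of D. Then every irreducible character in B has height h with h + c ≤ n + d. -/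
theorem result {G : Type*} [Group G] [Finite G] (p : ℕ) [Fact p.Prime] (M : Ideal Cfsg.AlgInt) (hM : Cfsg.IsPModular p M) (B : Set (Cfsg.IrrCharacter G)) (hB : Cfsg.IsPBlock M B) (D : Subgroup G) (hBD : Cfsg.IsDefectGroup p M B D) (d : ℕ) (hDd : Nat.card D = p ^ d) (H : Subgroup G) (hH : H = D ⊔ Subgroup.centralizer (D : Set G)) (b : Set (Cfsg.IrrCharacter H)) (hind : Cfsg.IsInducedBlock M H b B) (T : Subgroup G) (hT : ∀ g : G, g ∈ T ↔ (g ∈ Subgroup.normalizer (D : Set G) ∧ ∀ θ ∈ b, ∀ θ' : Cfsg.IrrCharacter H, (∀ h h' : H, (h' : G) = g * h * g⁻¹ → (θ' : H → ℂ) h' = (θ : H → ℂ) h) → θ' ∈ b)) (e : ℕ) (he : H.relIndex T = e) (n : ℕ) (hn : p ^ n ≤ e ∧ e < p ^ (n + 1)) (c : ℕ) (hc : Nat.card (Subgroup.center D) = p ^ c) : ∀ χ ∈ B, Cfsg.blockHeight p B (χ : G → ℂ) + c ≤ n + d := by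
  classical
  cases nonempty_fintype G
  intro χ hχ
  haveI hMp := Cfsg.Agent.Lib.Blocks.Local.isPrime_of_pModular hM
  have hp : p.Prime := Fact.out
  haveI hfK : ∀ K : Subgroup G, Finite (IrrCharacter K) := fun K =>
    Cfsg.Agent.Lib.Char.Ortho.finite_irrCharacter (G := K)
  letI hKf : ∀ K : Subgroup G, Fintype K := fun K => Fintype.ofFinite _
  letI hKi : ∀ K : Subgroup G, Fintype (IrrCharacter K) := fun K => Fintype.ofFinite _
  haveI : Finite (IrrCharacter G) := Cfsg.Agent.Lib.Char.Ortho.finite_irrCharacter (G := G)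
  letI : Fintype (IrrCharacter G) := Fintype.ofFinite _
  have hDp : IsPGroup p D := isDefectGroup_isPGroup hBD
  have hDH : D ≤ H := hH ▸ le_sup_left
  have hC : Subgroup.centralizer (D : Set G) ≤ H := hH ▸ le_sup_right
  have hX : (D.subgroupOf H).map H.subtype = D := Subgroup.map_subgroupOf_eq_of_le hDH
  have hHN : H ≤ Subgroup.normalizer (D : Set G) := by
    rw [hH]
    exact sup_le Subgroup.le_normalizer (centralizer_le_normalizer'' D)
  have hDn : (D.subgroupOf H).Normal := (Subgroup.normal_subgroupOf_iff_le_normalizer hDH).mpr hHN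
  have hDb : IsDefectGroup p M b (D.subgroupOf H) := by
    obtain ⟨D₁, hD₁⟩ := exists_isDefectGroup (p := p) hind.1
    rwa [defect_eq_subgroupOf hM hDn hDH hind hBD hD₁] at hD₁
  obtain ⟨e₁, hmax₁⟩ := Cfsg.Agent.S4726.exists_max_pair hM hind.1 hDb
  set e₀ := blockMap (descEquiv hX hC) e₁ with he₀
  have hPe : IsBrauerPair p M D e₀ := ⟨hDp, isPBlock_blockMap _ hmax₁.1.1.2⟩
  obtain ⟨B₀, hB₀, -⟩ := existsUnique_isBrauerPairOf hM hPe
  have hind₀ := Cfsg.Agent.S4726.induced_of_pair hM hind.1 hX hC hmax₁.1 hB₀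
  obtain rfl : B₀ = B := IsInducedBlock.unique H hind₀ hind
  have hmax := isMaximal_of_isDefectGroup hM hB₀ hBD
  have hdef : blockDefect p B₀ = d := by
    have h1 := card_eq_pow_blockDefect hM hB hBD
    rw [hDd] at h1
    exact (Nat.pow_right_injective hp.two_le h1).symm
  -- the stabilizer
  set T' := stabSub D e₀ with hT'
  have hT'T : T' ≤ T := fun g hg => (hT g).mpr
    ⟨stabSub_le_normalizer hg, stab_le hM hH hind.1 hX hC hmax₁.1 hg⟩
  have hHT' : H ≤ T' := by
    rw [hH]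
    exact sup_le (P_le_stabSub hPe hM) (fun c hc => mem_stabSub.mpr
      ⟨centralizer_le_normalizer'' D hc, stabilizesBlock_of_mem D e₀ hc⟩)
  have hHT : H ≤ T := hHT'.trans hT'T
  -- the transversal
  letI : Fintype (T' ⧸ H.subgroupOf T') := Fintype.ofFinite _
  set Tr : Finset G := Finset.univ.image (fun q : T' ⧸ H.subgroupOf T' => ((q.out : T') : G)) with hTrd
  have hTrcard : Tr.card ≤ e := by
    have h1 : Tr.card ≤ Fintype.card (T' ⧸ H.subgroupOf T') := Finset.card_image_le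
    have h2 : Fintype.card (T' ⧸ H.subgroupOf T') = H.relIndex T' := by
      rw [Subgroup.relIndex, Subgroup.index, Nat.card_eq_fintype_card]
    have h3 : H.relIndex T' * T'.relIndex T = H.relIndex T :=
      Subgroup.relIndex_mul_relIndex H T' T hHT' hT'T
    have h4 : 0 < T'.relIndex T := Nat.pos_of_ne_zero Subgroup.index_ne_zero_of_finite
    rw [he] at h3
    rw [h2] at h1
    nlinarith
  have hTr0 : 0 < Tr.card := by
    rw [Finset.card_pos]
    exact ⟨_, Finset.mem_image_of_mem _ (Finset.mem_univ ((1 : T') : T' ⧸ H.subgroupOf T'))⟩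
  have hTrT : ∀ t ∈ T', ∃ r ∈ Tr, ∃ h ∈ H, t = r * h := by
    intro t ht
    set q : T' ⧸ H.subgroupOf T' := ((⟨t, ht⟩ : T') : T' ⧸ H.subgroupOf T') with hq
    refine ⟨((q.out : T') : G), Finset.mem_image_of_mem _ (Finset.mem_univ q),
      ((q.out : T') : G)⁻¹ * t, ?_, by group⟩
    have h1 : (q.out : T' ⧸ H.subgroupOf T') = q := q.out_eq'
    rw [hq, QuotientGroup.eq] at h1
    exact h1
  -- the centre of `D`
  set Z : Subgroup G := (Subgroup.center D).map D.subtype with hZ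
  set Zs : Finset G := Finset.univ.filter (· ∈ Z) with hZs
  have hZsc : Zs.card = p ^ c := by
    have h1 : Nat.card Z = Nat.card (Subgroup.center D) :=
      Subgroup.card_map_of_injective (Subgroup.subtype_injective _)
    rw [← hc, ← h1, Nat.card_eq_fintype_card, Fintype.card_subtype]
  have hZm : ∀ z, z ∈ Zs ↔ z ∈ Z := fun z => by simp [hZs]
  have hZD : ∀ z ∈ Zs, z ∈ D := fun z hz => by
    obtain ⟨y, -, rfl⟩ := (hZm z).mp hz
    exact y.2
  have hZC : ∀ z ∈ Zs, ∀ d ∈ D, d * z = z * d := fun z hz d hd => by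
    obtain ⟨y, hy, rfl⟩ := (hZm z).mp hz
    exact congrArg Subtype.val (Subgroup.mem_center_iff.mp hy ⟨d, hd⟩)
  have hZp : ∀ z ∈ Zs, ∃ k : ℕ, orderOf z = p ^ k := fun z hz => by
    obtain ⟨k, hk⟩ := hDp ⟨z, hZD z hz⟩
    have h1 : orderOf z ∣ p ^ k := orderOf_dvd_of_pow_eq_one (by
      have := congrArg Subtype.val hk
      simpa using this)
    obtain ⟨j, -, hj⟩ := (Nat.dvd_prime_pow hp).mp h1
    exact ⟨j, hj⟩
  have hZ1 : ∀ z ∈ Zs, z ^ (p ^ d) = 1 := fun z hz => by
    have h1 := pow_card_eq_one' (x := (⟨z, hZD z hz⟩ : D))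
    rw [hDd] at h1
    have := congrArg Subtype.val h1
    simpa using this
  have hZ2 : ∀ z ∈ Zs, ∀ k : ℕ, k.Coprime (p ^ d) → z ^ k ∈ Zs := fun z hz k _ =>
    (hZm _).mpr (Z.pow_mem ((hZm z).mp hz) k)
  -- the family of blocks
  let F₀ : ∀ Q : Subgroup G, Set (IrrCharacter (Subgroup.centralizer (Q : Set G))) := fun Q =>
    Classical.epsilon (fun f => IsPBlock M f ∧ SubpairLE p M Q f D e₀)
  have hF₀ : ∀ Q : Subgroup G, Q ≤ D → IsPBlock M (F₀ Q) ∧ SubpairLE p M Q (F₀ Q) D e₀ := fun Q hQ =>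
    Classical.epsilon_spec (exists_subpairLE hM hPe hQ)
  let F : ∀ z : G, Set (IrrCharacter (Kz z)) := fun z => F₀ (Subgroup.zpowers z)
  have hQZ : ∀ z ∈ Zs, Subgroup.zpowers z ≤ D := fun z hz => Subgroup.zpowers_le.mpr (hZD z hz)
  have hFb : ∀ z ∈ Zs, IsPBlock M (F z) := fun z hz => (hF₀ _ (hQZ z hz)).1
  have hFle : ∀ z ∈ Zs, SubpairLE p M (Subgroup.zpowers z) (F z) D e₀ := fun z hz =>
    (hF₀ _ (hQZ z hz)).2
  have hFind : ∀ z ∈ Zs, IsInducedBlock M (Kz z) (F z) B₀ := fun z hz =>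
    isInducedBlock_of_isBrauerPairOf hM
      ((isBrauerPairOf_iff_of_subpairLE hM (hFle z hz) hB).mp hmax.1)
  have hDCz : ∀ z ∈ Zs, D ≤ Kz z := fun z hz d hd => by
    rw [Subgroup.mem_centralizer_iff]
    intro q hq
    obtain ⟨k, rfl⟩ := Subgroup.mem_zpowers_iff.mp hq
    exact ((show Commute z d from (hZC z hz d hd).symm).zpow_left k).eq
  have hFd : ∀ z ∈ Zs, blockDefect p (F z) = d := fun z hz => by
    rw [← hdef]
    exact blockDefect_eq hM hmax hBD (hQZ z hz) (hDCz z hz) (hFb z hz) (hFle z hz) (hFind z hz)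
  -- the lower bound
  set h := blockHeight p B₀ (χ : G → ℂ) with hh
  set P : ℂ := ((p ^ h : ℕ) : ℂ) with hP
  have hP0 : P ≠ 0 := Nat.cast_ne_zero.mpr (pow_ne_zero _ hp.ne_zero)
  let QQ : Subgroup G → G → ℂ := fun Q y =>
    qq (K := Subgroup.centralizer (Q : Set G)) p (F₀ Q) y χ
  let q : G → ℂ := fun z => QQ (Subgroup.zpowers z) z / P
  haveI hNZ : NeZero (p ^ d) := ⟨pow_ne_zero _ hp.ne_zero⟩
  have hr : p ^ d ≠ 0 := pow_ne_zero _ hp.ne_zero
  have hcent : ∀ z : G, ∀ g : Kz z, (⟨z, z_mem z⟩ : Kz z) * g = g * ⟨z, z_mem z⟩ := fun z g =>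
    Subtype.ext (z_comm z g g.2)
  have hzr : ∀ z ∈ Zs, (⟨z, z_mem z⟩ : Kz z) ^ (p ^ d) = 1 := fun z hz =>
    Subtype.ext (by simpa using hZ1 z hz)
  have hqq : ∀ z ∈ Zs, QQ (Subgroup.zpowers z) z ∈ Zr (p ^ d) := fun z hz =>
    qq_mem_Zr (K := Kz z) hM (hFb z hz) (hcent z) hr (hzr z hz) χ
  have hfacts : ∀ z ∈ Zs, QQ (Subgroup.zpowers z) z ≠ 0 ∧ MemLocalRing M (q z) := fun z hz => by
    obtain ⟨k, hk⟩ := hZp z hz
    have hqd : blockDefect p (F z) = blockDefect p B₀ := by rw [hFd z hz, hdef]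
    exact major_facts (K := Kz z) hM hk hB (Cfsg.Agent.Lib.Blocks.Main.centralizer_zpowers_eq z)
      (hFind z hz) hqd hχ
  have hreal : ∀ z : G, ∃ r : ℝ, 0 ≤ r ∧ q z = r := fun z => by
    obtain ⟨r, hr0, hre⟩ := exists_real_qq (K := Kz z) (p := p) (F z) z χ
    refine ⟨r / ((p ^ h : ℕ) : ℝ), by positivity, ?_⟩
    change qq (K := Kz z) p (F z) z χ / P = _
    rw [hre, hP]
    push_cast
    rfl
  have hlow : (Zs.card : ℝ) ≤ ∑ z ∈ Zs, (q z).re := by
    refine card_le_sum_galois (r := p ^ d) hZ1 hZ2 (q := q) (ρ := fun z => (q z).re) ?_ ?_ ?_ ?_ ?_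
    · intro z _
      obtain ⟨r, hr0, hre⟩ := hreal z
      simpa [hre] using hr0
    · intro z _
      obtain ⟨r, hr0, hre⟩ := hreal z
      simp [hre]
    · intro z hz
      exact div_pow_mem_Zr hM (hqq z hz) h (hfacts z hz).2
    · intro z hz
      exact div_ne_zero (hfacts z hz).1 hP0
    · intro z hz σ k hkc hk
      have hKn : QQ (Subgroup.zpowers z) z ∈ Kn (p ^ d) := mem_Kn_of_mem_Zr hr (hqq z hz)
      have hPK : P ∈ Kn (p ^ d) := natCast_mem _ _
      have hzp : Subgroup.zpowers (z ^ k) = Subgroup.zpowers z := by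
        apply le_antisymm
        · exact Subgroup.zpowers_le.mpr (Subgroup.pow_mem _ (Subgroup.mem_zpowers z) k)
        · obtain ⟨l, hl⟩ := exists_inv_exp hkc
          refine Subgroup.zpowers_le.mpr ?_
          have h1 : (z ^ k) ^ l = z := by
            rw [← pow_mul, pow_congr_of_pow_eq_one (hZ1 z hz) hl, pow_one]
          have h2 := Subgroup.pow_mem (Subgroup.zpowers (z ^ k)) (Subgroup.mem_zpowers (z ^ k)) l
          rwa [h1] at h2
      change sig σ (QQ (Subgroup.zpowers z) z / P) = QQ (Subgroup.zpowers (z ^ k)) (z ^ k) / P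
      rw [hzp, div_eq_mul_inv, sig_mul σ hKn (inv_mem hPK), sig_inv σ hPK, hP, sig_natCast,
        ← div_eq_mul_inv]
      congr 1
      exact sig_qq (K := Kz z) hM (hFb z hz) (hcent z) (hzr z hz) hk χ
  -- the upper bound
  have hW : ∀ z ∈ Zs, ∀ z' ∈ Zs, ∀ w : G,
      ∀ hmap : (Subgroup.zpowers z).map (MulAut.conj w).toMonoidHom = Subgroup.zpowers z',
      w * z * w⁻¹ = z' → blockMap (conjEquivOf w hmap) (F z) = F z' →
        ∃ t ∈ Tr, ∃ c ∈ Kz z, w = t * c := by
    intro z hz z' hz' w hmap hw hb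
    obtain ⟨t₀, ht₀, hzt⟩ := claim_W hM hmax (hZD z hz) (hZC z hz) (hZD z' hz') (hZC z' hz') hmap hw
      (hFb z hz) (hFle z hz) (hFb z' hz') (hFle z' hz') hb
    obtain ⟨r, hr', y, hy, rfl⟩ := hTrT t₀ ht₀
    have hyK : y ∈ Kz z := by
      rw [hH] at hy
      refine (sup_le (hDCz z hz) ?_) hy
      intro c hc
      rw [Subgroup.mem_centralizer_iff]
      intro u hu
      exact Subgroup.mem_centralizer_iff.mp hc u (hQZ z hz hu)
    refine ⟨r, hr', y * ((r * y)⁻¹ * w), Subgroup.mul_mem _ hyK ?_, by group⟩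
    -- `(r y)⁻¹ w` centralizes `z`
    rw [Subgroup.mem_centralizer_iff]
    intro u hu
    have hc : Commute z ((r * y)⁻¹ * w) := by
      change z * ((r * y)⁻¹ * w) = ((r * y)⁻¹ * w) * z
      have h1 : r * y * z = z' * (r * y) := by
        rw [← hzt]
        group
      have h2 : w * z = z' * w := by
        rw [← hw]
        group
      have h3 : (r * y)⁻¹ * z' = z * (r * y)⁻¹ := by
        calc (r * y)⁻¹ * z' = (r * y)⁻¹ * (z' * (r * y)) * (r * y)⁻¹ := by group
          _ = (r * y)⁻¹ * (r * y * z) * (r * y)⁻¹ := by rw [h1]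
          _ = z * (r * y)⁻¹ := by group
      calc z * ((r * y)⁻¹ * w) = (z * (r * y)⁻¹) * w := by group
        _ = ((r * y)⁻¹ * z') * w := by rw [h3]
        _ = (r * y)⁻¹ * (z' * w) := by group
        _ = (r * y)⁻¹ * (w * z) := by rw [h2]
        _ = _ := by group
    obtain ⟨j, rfl⟩ := Subgroup.mem_zpowers_iff.mp hu
    exact (hc.zpow_left j).eq
  have hup := sum_le hM χ Zs hZp F hFb Tr hTr0 hW
  -- the comparison
  have hcomp : ∀ z ∈ Zs, (q z).re * ((p ^ h : ℕ) : ℝ) =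
      ((p ^ d : ℕ) : ℝ) * (Cfsg.classInner (phi p z (F z) χ) (phi p z (F z) χ)).re := by
    intro z hz
    have h1 : q z * P = ((p ^ d : ℕ) : ℂ) * Cfsg.classInner (phi p z (F z) χ) (phi p z (F z) χ) := by
      change qq (K := Kz z) p (F z) z χ / P * P = _
      rw [div_mul_cancel₀ _ hP0, qq, hFd z hz]
      rfl
    obtain ⟨r, hr0, hre⟩ := hreal z
    have h2 := congrArg Complex.re h1
    rw [hP, ← Complex.ofReal_natCast, ← Complex.ofReal_natCast, Complex.re_mul_ofReal,
      Complex.re_ofReal_mul] at h2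
    exact h2
  have hfinal : ((p ^ c : ℕ) : ℝ) * ((p ^ h : ℕ) : ℝ) ≤ ((p ^ d : ℕ) : ℝ) * e := by
    rw [hZsc] at hlow
    calc ((p ^ c : ℕ) : ℝ) * ((p ^ h : ℕ) : ℝ)
        ≤ (∑ z ∈ Zs, (q z).re) * ((p ^ h : ℕ) : ℝ) :=
          mul_le_mul_of_nonneg_right hlow (by positivity)
      _ = ∑ z ∈ Zs, (q z).re * ((p ^ h : ℕ) : ℝ) := Finset.sum_mul _ _ _
      _ = ∑ z ∈ Zs, ((p ^ d : ℕ) : ℝ) * (Cfsg.classInner (phi p z (F z) χ) (phi p z (F z) χ)).re :=
          Finset.sum_congr rfl hcomp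
      _ = ((p ^ d : ℕ) : ℝ) * ∑ z ∈ Zs, (Cfsg.classInner (phi p z (F z) χ) (phi p z (F z) χ)).re :=
          (Finset.mul_sum _ _ _).symm
      _ ≤ ((p ^ d : ℕ) : ℝ) * e := by
          refine mul_le_mul_of_nonneg_left (hup.trans ?_) (by positivity)
          exact_mod_cast hTrcard
  have hfinal' : p ^ c * p ^ h ≤ p ^ d * e := by exact_mod_cast hfinal
  have hlt : p ^ d * e < p ^ d * p ^ (n + 1) :=
    Nat.mul_lt_mul_of_pos_left hn.2 (pow_pos hp.pos d)
  have h3 : p ^ (c + h) < p ^ (d + (n + 1)) := by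
    rw [pow_add, pow_add]
    exact lt_of_le_of_lt hfinal' hlt
  have h4 := (Nat.pow_lt_pow_iff_right hp.one_lt).mp h3
  change h + c ≤ n + d
  omega

end Cfsg.Agent.S4715
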