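import Cfsg.Statements.S4717
import Cfsg.Agent.Lib.Blk89.BlockPow
import Cfsg.Agent.Lib.Blocks.Inducing
-- import your own Cfsg.Agent.* helpers here

set_option autoImplicit false
open Cfsg

namespace Cfsg.Agent.S4717

open MonoidAlgebra
open Cfsg.Agent.Lib.Blocks.Local Cfsg.Agent.Lib.Blocks.Central
open Cfsg.Agent.Lib.Blocks.Brauer Cfsg.Agent.Lib.Blocks.Defect Cfsg.Agent.Lib.Blocks.Defect2
open Cfsg.Agent.Lib.Blocks.Induced Cfsg.Agent.Lib.Blocks.Main Cfsg.Agent.Lib.Blocks.Third
open Cfsg.Agent.Lib.Blocks.Inducing Cfsg.Agent.Lib.BlockT.SylowIn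
open Cfsg.Agent.Lib.Blk89.BlockPow
open Cfsg.Agent.Lib.Blocks.Weak

universe u

variable {G : Type u} [Group G] [Fintype G] {M : Ideal AlgInt} {p : ℕ}

theorem sq_aux {R : Type*} [CommRing R] (w e : R) (he : e * e = e) :
    (w * e) * (w * e) - w * e = (w * w - w) * e := by
  linear_combination (w * w) * he

/-- A Brauer pair `Q ≤ H`, with `Q` inside a defect group `D ≤ H` of `B`: some block of `H` induces
`B` and has defect at least that of `B`. -/
theorem exists_induced_defect_ge [Fact p.Prime] [M.IsPrime] [Fintype (IrrCharacter G)]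
    {H : Subgroup G} [Fintype H] [Fintype (IrrCharacter H)] (hM : IsPModular p M) {Q : Subgroup G}
    (hP : IsBrauerPair p Q H) {B : Set (IrrCharacter G)} (hB : IsPBlock M B) {D : Subgroup G}
    (hD : IsDefectGroup p M B D) (hQD : Q ≤ D) (hDH : D ≤ H) :
    ∃ b : Set (IrrCharacter H), IsInducedBlock M H b B ∧ blockDefect p B ≤ blockDefect p b := by
  classical
  obtain ⟨x, hx, hs⟩ := isDefectGroup_isSylowIn hD
  have hxC : x ∈ Subgroup.centralizer (Q : Set G) := by
    rw [Subgroup.mem_centralizer_iff]
    intro q hq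
    have h1 := hs.le (hQD hq)
    rw [Subgroup.mem_centralizer_iff] at h1
    have h2 := h1 x rfl
    exact h2.symm
  have hxH : x ∈ H := hP.centralizer_le hxC
  set w := brOf hP (idem B) with hw
  have hel : idem B ∈ localCenter M G := idem_mem_localCenter hB
  have hwl : w ∈ localCenter M H := brOf_mem_localCenter hP hel
  have hww : Jc M ((w : GA H) * (w : GA H) - (w : GA H)) := by
    have h1 := brOf_mul_sub_mem hM hP hel hel
    rw [idem_mul_self] at h1
    have h2 := h1.neg
    simpa using h2
  have hnotJ : ¬ MemLocalIdeal M ((w : GA H).coeff (⟨x, hxH⟩ : H)) := by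
    intro h1
    rw [hw, coeff_brOf, coeff_res_of_mem _ (show x ∈ ((Subgroup.centralizer (Q : Set G) : Subgroup G) : Set G) from hxC)] at h1
    exact hx.2.1 h1
  letI : Fintype {b : Set (IrrCharacter H) // IsPBlock M b} := Fintype.ofFinite _
  -- some block component of `w` has non-local coefficient at `x`
  obtain ⟨b, hbx⟩ : ∃ b : {b : Set (IrrCharacter H) // IsPBlock M b},
      ¬ MemLocalIdeal M (((w * idem (b : Set (IrrCharacter H)) :
        Subalgebra.center ℂ (GA H)) : GA H).coeff (⟨x, hxH⟩ : H)) := by
    by_contra hcon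
    push Not at hcon
    apply hnotJ
    have h1 : w = ∑ b : {b : Set (IrrCharacter H) // IsPBlock M b},
        w * idem (b : Set (IrrCharacter H)) := by
      rw [← Finset.mul_sum, sum_idem_blocks, mul_one]
    rw [h1]
    have h2 : ∀ (S : Finset {b : Set (IrrCharacter H) // IsPBlock M b}),
        (((∑ b ∈ S, w * idem (b : Set (IrrCharacter H)) :
          Subalgebra.center ℂ (GA H))) : GA H).coeff (⟨x, hxH⟩ : H) =
        ∑ b ∈ S, ((w * idem (b : Set (IrrCharacter H)) :
          Subalgebra.center ℂ (GA H)) : GA H).coeff (⟨x, hxH⟩ : H) := by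
      intro S
      induction S using Finset.induction_on with
      | empty => simp
      | insert a S ha ih =>
        rw [Finset.sum_insert ha, Finset.sum_insert ha, ← ih]
        rfl
    rw [h2]
    exact memLocalIdeal_sum _ _ fun b _ => hcon b
  have hb : IsPBlock M (b : Set (IrrCharacter H)) := b.2
  set e := idem (b : Set (IrrCharacter H)) with he
  have hel' : e ∈ localCenter M H := idem_mem_localCenter hb
  have hzl : w * e ∈ localCenter M H := Subring.mul_mem _ hwl hel'
  obtain ⟨B', hB'⟩ := exists_induced hM hP hb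
  have hB'B : B' = B := by
    by_contra hne
    apply hbx
    -- `w e` is in the radical
    have hzz : Jc M (((w * e : Subalgebra.center ℂ (GA H)) : GA H) *
        ((w * e : Subalgebra.center ℂ (GA H)) : GA H) - ((w * e : Subalgebra.center ℂ (GA H)) : GA H)) := by
      have hee : e * e = e := idem_mul_self _
      have h1 := sq_aux w e hee
      have h2 := congrArg (Subtype.val) h1
      have h3 : ((w * e : Subalgebra.center ℂ (GA H)) : GA H) *
        ((w * e : Subalgebra.center ℂ (GA H)) : GA H) - ((w * e : Subalgebra.center ℂ (GA H)) : GA H)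
        = ((w : GA H) * (w : GA H) - (w : GA H)) * (e : GA H) := h2
      rw [h3]
      exact hww.mul_Rc (Rc.of_localCenter hel')
    have hom : ∀ ξ : IrrCharacter H, MemLocalIdeal M (omegaHom ξ (w * e)) := by
      intro ξ
      rw [map_mul, he, omegaHom_idem]
      by_cases hξ : ξ ∈ (b : Set (IrrCharacter H))
      · rw [if_pos hξ, mul_one]
        obtain ⟨χ', hχ'⟩ := isPBlock_nonempty hB'.2.1
        have h1 := IsInducedBlock.sub_mem H hB' hξ hχ' hel
        have h2 := indHom_sub_brOf_mem hM hP ξ hel
        have hχ'B : χ' ∉ B := by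
          intro hmem
          exact hne (isPBlock_mem_unique hB'.2.1 hB hχ' hmem)
        rw [omegaHom_idem, if_neg hχ'B, sub_zero] at h1
        have h3 := memLocalIdeal_sub h1 h2
        rwa [sub_sub_cancel] at h3
      · rw [if_neg hξ, mul_zero]
        exact memLocalIdeal_zero
    obtain ⟨n, hn⟩ := exists_pow_Jc hzl hom
    exact Jc_of_idem_mod hzl hzz hn ⟨x, hxH⟩
  subst hB'B
  refine ⟨b, hB', ?_⟩
  -- the defect group of `b`
  obtain ⟨E, hE⟩ := exists_isDefectGroup (p := p) hb
  obtain ⟨g, hg, hgs⟩ := isDefectGroup_isSylowIn hE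
  obtain ⟨ξ, hξ⟩ := isPBlock_nonempty hb
  obtain ⟨z, hz, hze⟩ := exists_classSum_mul_eq_idem hM hb g hξ (hg.2.2 ξ hξ)
  set P : Subgroup H := D.subgroupOf H with hPd
  have hPp : IsPGroup p P := by
    have h1 := isDefectGroup_isPGroup hD
    exact h1.of_surjective (Subgroup.subgroupOfEquivOfLe hDH).symm.toMonoidHom
      (Subgroup.subgroupOfEquivOfLe hDH).symm.surjective
  have hPx : ∀ q ∈ P, q * (⟨x, hxH⟩ : H) = (⟨x, hxH⟩ : H) * q := by
    intro q hq
    have h1 := hs.le (Subgroup.mem_subgroupOf.mp hq)
    rw [Subgroup.mem_centralizer_iff] at h1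
    have h2 := h1 x rfl
    exact Subtype.ext h2.symm
  obtain ⟨t, ht⟩ := exists_conj_centralizes hM g (z := z * w) (Subring.mul_mem _ hz hwl)
    P hPp hPx (by
      have h1 : classSum g * (z * w) = w * e := by
        rw [← mul_assoc, hze, mul_comm]
      rw [h1]
      exact hbx)
  obtain ⟨y, hy⟩ := exists_le_conj_of_conj_centralizes t hPp hgs ht
  have h1 : Nat.card D ≤ Nat.card E := by
    have h2 : Nat.card P ≤ Nat.card (E.map (MulAut.conj y).toMonoidHom) :=
      Subgroup.card_le_of_le hy
    rw [card_conj_eq] at h2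
    have h3 : Nat.card P = Nat.card D := by
      exact Nat.card_congr (Subgroup.subgroupOfEquivOfLe hDH).toEquiv
    omega
  rw [card_eq_pow_blockDefect hM hB hD, card_eq_pow_blockDefect hM hb hE] at h1
  exact (Nat.pow_le_pow_iff_right hM.1.one_lt).mp h1

/-- Let p be a prime, M a maximal ideal of the algebraic integers containing p, and r a natural number; say that a finite group X has deficiency class r when X has no non-principal p-block of defect ≥ r. If G has deficiency class r then so does the centralizer of every p-element of G; conversely, if r > 0 and the centralizer of every element of order p has deficiency class r, then G has deficiency class r. -/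
theorem result {G : Type*} [Group G] [Finite G] (p : ℕ) [Fact p.Prime] (M : Ideal Cfsg.AlgInt) (hM : Cfsg.IsPModular p M) (r : ℕ) : ((∀ B' : Set (Cfsg.IrrCharacter G), Cfsg.IsPBlock M B' → B' ≠ Cfsg.principalBlock M G → Cfsg.blockDefect p B' < r) → ∀ y : G, (∃ k : ℕ, orderOf y = p ^ k) → (∀ B' : Set (Cfsg.IrrCharacter ↥(Subgroup.centralizer ({y} : Set G))), Cfsg.IsPBlock M B' → B' ≠ Cfsg.principalBlock M ↥(Subgroup.centralizer ({y} : Set G)) → Cfsg.blockDefect p B' < r)) ∧ (0 < r → (∀ y : G, orderOf y = p → (∀ B' : Set (Cfsg.IrrCharacter ↥(Subgroup.centralizer ({y} : Set G))), Cfsg.IsPBlock M B' → B' ≠ Cfsg.principalBlock M ↥(Subgroup.centralizer ({y} : Set G)) → Cfsg.blockDefect p B' < r)) → (∀ B' : Set (Cfsg.IrrCharacter G), Cfsg.IsPBlock M B' → B' ≠ Cfsg.principalBlock M G → Cfsg.blockDefect p B' < r)) := by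
  classical
  cases nonempty_fintype G
  haveI := isPrime_of_pModular hM
  haveI := Cfsg.Agent.Lib.Char.Ortho.finite_irrCharacter (G := G)
  letI := Fintype.ofFinite (IrrCharacter G)
  constructor
  · intro hG y hy B' hB' hne
    haveI := Cfsg.Agent.Lib.Char.Ortho.finite_irrCharacter (G := ↥(Subgroup.centralizer ({y} : Set G)))
    letI := Fintype.ofFinite (IrrCharacter ↥(Subgroup.centralizer ({y} : Set G)))
    have hP := isBrauerPair_zpowers (p := p) hy
    obtain ⟨B, hB⟩ := exists_induced hM hP hB'
    have hBne : B ≠ principalBlock M G := by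
      rintro rfl
      exact hne ((third_main hM _ ⟨_, hB⟩).mp hB)
    have h1 := hG B hB.2.1 hBne
    obtain ⟨E, hE⟩ := exists_isDefectGroup (p := p) hB'
    obtain ⟨F, hF, hle⟩ := exists_defect_ge hM hB hE
    have h2 : Nat.card ↥(E.map (Subgroup.centralizer ({y} : Set G)).subtype) ≤ Nat.card F :=
      Subgroup.card_le_of_le hle
    rw [card_eq_pow_blockDefect hM hB.2.1 hF, Subgroup.card_map_of_injective (Subgroup.subtype_injective _),
      card_eq_pow_blockDefect hM hB' hE] at h2
    have h3 := (Nat.pow_le_pow_iff_right hM.1.one_lt).mp h2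
    omega
  · intro hr hC B' hB' hne
    by_contra hlt
    push Not at hlt
    obtain ⟨D, hD⟩ := exists_isDefectGroup (p := p) hB'
    have hDcard := card_eq_pow_blockDefect hM hB' hD
    have hDp := isDefectGroup_isPGroup hD
    haveI : Nontrivial D := by
      rw [← Finite.one_lt_card_iff_nontrivial, hDcard]
      exact Nat.one_lt_pow (by omega) hM.1.one_lt
    haveI : Nontrivial (Subgroup.center D) := hDp.center_nontrivial
    have hZp : IsPGroup p (Subgroup.center D) := hDp.to_subgroup _
    obtain ⟨n, hn⟩ := IsPGroup.iff_card.mp hZp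
    have hdvd : p ∣ Nat.card (Subgroup.center D) := by
      rw [hn]
      refine dvd_pow_self p ?_
      rintro rfl
      rw [pow_zero, Nat.card_eq_one_iff_unique] at hn
      exact not_subsingleton _ hn.1
    obtain ⟨z, hz⟩ := exists_prime_orderOf_dvd_card' p hdvd
    set y : G := ((z : D) : G) with hy
    have hyo : orderOf y = p := by
      rw [hy, Subgroup.orderOf_coe, Subgroup.orderOf_coe]
      exact hz
    have hyp : ∃ k : ℕ, orderOf y = p ^ k := ⟨1, by rw [hyo, pow_one]⟩
    haveI := Cfsg.Agent.Lib.Char.Ortho.finite_irrCharacter (G := ↥(Subgroup.centralizer ({y} : Set G)))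
    letI := Fintype.ofFinite (IrrCharacter ↥(Subgroup.centralizer ({y} : Set G)))
    have hP := isBrauerPair_zpowers (p := p) hyp
    have hyD : y ∈ D := (z : D).2
    have hDH : D ≤ Subgroup.centralizer ({y} : Set G) := by
      intro d hd
      rw [Subgroup.mem_centralizer_iff]
      intro s hs
      rw [Set.mem_singleton_iff] at hs
      subst hs
      have h1 := (Subgroup.mem_center_iff.mp z.2) ⟨d, hd⟩
      exact (congrArg Subtype.val h1).symm
    have hQD : Subgroup.zpowers y ≤ D := by
      rw [Subgroup.zpowers_le]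
      exact hyD
    obtain ⟨b, hb, hbd⟩ := exists_induced_defect_ge hM hP hB' hD hQD hDH
    have hbne : b ≠ principalBlock M ↥(Subgroup.centralizer ({y} : Set G)) := by
      rintro rfl
      have h1 := (third_main hM _ ⟨_, hb⟩).mpr rfl
      exact hne (IsInducedBlock.unique _ hb h1)
    have := hC y hyo b hb.1 hbne
    omega

end Cfsg.Agent.S4717
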