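import Cfsg.Statements.S4718
import Cfsg.Agent.Lib.Blk89.Landau
import Cfsg.Agent.Lib.Blk89.BlockPow
import Cfsg.Agent.Lib.BlockP.TopHeight
import Cfsg.Agent.Lib.Char.RegularSum

set_option autoImplicit false
set_option linter.style.haveILetI false
universe u
open Cfsg

namespace Cfsg.Agent.S4718

open MonoidAlgebra
open Cfsg.Agent.Lib.Blocks.Local Cfsg.Agent.Lib.Blocks.Central
open Cfsg.Agent.Lib.Blocks.Third
open scoped ComplexConjugate

/-- The Parseval identity for the characteristic function of the `p`-regular elements. -/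
theorem sum_norm_regSum {G : Type u} [Group G] [Fintype G] [Fintype (IrrCharacter G)] (p : ℕ) :
    ∑ ψ : IrrCharacter G, ‖Cfsg.Agent.Lib.Char.RegularSum.regSum p (ψ : G → ℂ)‖ ^ 2 ≤
      (Nat.card G : ℝ) ^ 2 := by
  classical
  let c : G → ℂ := fun x => if p ∣ orderOf x then 0 else 1
  have hreg : ∀ f : G → ℂ, Cfsg.Agent.Lib.Char.RegularSum.regSum p f = ∑ x, c x * f x := by
    intro f
    unfold Cfsg.Agent.Lib.Char.RegularSum.regSum
    refine Finset.sum_congr rfl fun x _ => ?_
    simp only [c]
    split_ifs <;> simp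
  have hconj : ∀ x y : G, IsConj x y → c x = c y := by
    intro x y h
    obtain ⟨g, rfl⟩ := isConj_iff.mp h
    have : orderOf (g * x * g⁻¹) = orderOf x := by
      simpa using (MulAut.conj g).orderOf_eq x
    simp only [c, this]
  have h1 : ((∑ ψ : IrrCharacter G, ‖Cfsg.Agent.Lib.Char.RegularSum.regSum p (ψ : G → ℂ)‖ ^ 2 : ℝ) : ℂ) =
      (Nat.card G : ℂ) * ∑ y : G, c y := by
    push_cast
    have h2 : ∀ ψ : IrrCharacter G, ((‖Cfsg.Agent.Lib.Char.RegularSum.regSum p (ψ : G → ℂ)‖ : ℂ)) ^ 2 =
        ∑ x, ∑ y, c x * c y * ((ψ : G → ℂ) x * conj ((ψ : G → ℂ) y)) := by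
      intro ψ
      rw [← Complex.mul_conj', hreg, map_sum, Finset.sum_mul_sum]
      refine Finset.sum_congr rfl fun x _ => Finset.sum_congr rfl fun y _ => ?_
      have hc : conj (c y) = c y := by
        simp only [c]
        split_ifs <;> simp
      rw [map_mul, hc]
      ring
    simp_rw [h2]
    rw [Finset.sum_comm]
    rw [Finset.mul_sum]
    have h3 : ∀ x : G, ∑ ψ : IrrCharacter G, ∑ y, c x * c y * ((ψ : G → ℂ) x * conj ((ψ : G → ℂ) y)) =
        (Nat.card G : ℂ) * c x := by
      intro x
      rw [Finset.sum_comm]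
      simp_rw [← Finset.mul_sum, Cfsg.Agent.Lib.Char.Complete.sum_irr_mul_conj x]
      have h4 : ∀ y : G, c x * c y * (if IsConj x y then (Nat.card (Subgroup.centralizer ({y} : Set G)) : ℂ) else 0) =
          if IsConj x y then c x * (Nat.card (Subgroup.centralizer ({x} : Set G)) : ℂ) else 0 := by
        intro y
        split_ifs with h
        · rw [← hconj x y h]
          have h5 : Nat.card (Subgroup.centralizer ({y} : Set G)) = Nat.card (Subgroup.centralizer ({x} : Set G)) := by
            obtain ⟨g, rfl⟩ := isConj_iff.mp h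
            rw [← Cfsg.Agent.Lib.BlockT.SylowIn.centralizer_conj]
            exact Nat.card_congr ((Subgroup.equivMapOfInjective _ _ (MulEquiv.injective _)).symm.toEquiv)
          rw [h5]
          by_cases hc : c x = 0
          · rw [hc]; simp
          · have : c x = 1 := by
              simp only [c] at hc ⊢
              split_ifs at hc ⊢ with h6
              · simp at hc
              · rfl
            rw [this]; simp
        · simp
      refine (Finset.sum_congr rfl fun y _ => by convert h4 y).trans ?_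
      rw [Finset.sum_ite, Finset.sum_const_zero, add_zero, Finset.sum_const, nsmul_eq_mul]
      have h7 := Cfsg.Agent.Lib.Char.ClassSum.card_class_mul_card_centralizer x
      have h8 : ((Finset.univ.filter fun y => IsConj x y).card : ℂ) = (Nat.card {y : G // IsConj x y} : ℂ) := by
        rw [Nat.card_eq_fintype_card, Fintype.card_subtype]
      rw [h8, ← h7]
      push_cast
      ring
    simp_rw [h3]
  have h2 : (∑ ψ : IrrCharacter G, ‖Cfsg.Agent.Lib.Char.RegularSum.regSum p (ψ : G → ℂ)‖ ^ 2 : ℝ) =
      (Nat.card G : ℝ) * ∑ y : G, (if p ∣ orderOf y then (0 : ℝ) else 1) := by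
    have h3 : ((Nat.card G : ℝ) * ∑ y : G, (if p ∣ orderOf y then (0 : ℝ) else 1) : ℝ) =
        ((Nat.card G : ℂ) * ∑ y : G, c y : ℂ) := by
      push_cast
      congr 1
      refine Finset.sum_congr rfl fun y _ => ?_
      simp only [c]
      split_ifs <;> simp
    rw [← h1] at h3
    exact_mod_cast h3.symm
  rw [h2, sq]
  apply mul_le_mul_of_nonneg_left _ (by positivity)
  calc ∑ y : G, (if p ∣ orderOf y then (0 : ℝ) else 1) ≤ ∑ _y : G, (1 : ℝ) := by
        refine Finset.sum_le_sum fun y _ => ?_
        split_ifs <;> norm_num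
    _ = Nat.card G := by
        rw [Finset.sum_const, Finset.card_univ, nsmul_eq_mul, mul_one, Nat.card_eq_fintype_card]

/-- The number of irreducible characters in a group with only the principal block. -/
theorem card_irr_le {G : Type u} [Group G] [Finite G] (p : ℕ) [Fact p.Prime] (M : Ideal Cfsg.AlgInt)
    (hM : Cfsg.IsPModular p M)
    (h : ∀ B : Set (Cfsg.IrrCharacter G), Cfsg.IsPBlock M B → B = Cfsg.principalBlock M G) :
    Nat.card (IrrCharacter G) ≤ p ^ (2 * (Nat.card G).factorization p) := by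
  classical
  have hp : p.Prime := Fact.out
  haveI hMp : M.IsPrime := hM.2.1.isPrime
  have := Fintype.ofFinite G
  have : Finite (IrrCharacter G) := Cfsg.Agent.Lib.Char.Ortho.finite_irrCharacter
  have := Fintype.ofFinite (IrrCharacter G)
  set a := (Nat.card G).factorization p with ha
  set m := ordCompl[p] (Nat.card G) with hm
  have hcard : Nat.card G = p ^ a * m := (Nat.ordProj_mul_ordCompl_eq_self _ p).symm
  have hpm : ¬ p ∣ m := Nat.not_dvd_ordCompl hp Nat.card_pos.ne'
  have hm0 : 0 < m := Nat.pos_of_ne_zero (by rintro h0; rw [h0] at hpm; exact hpm (dvd_zero _))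
  have hB := Cfsg.Agent.Lib.BlockP.TopHeight.brauerInduction (G := G)
  have hlow : ∀ ψ : IrrCharacter G, (m : ℝ) ^ 2 ≤ ‖Cfsg.Agent.Lib.Char.RegularSum.regSum p (ψ : G → ℂ)‖ ^ 2 := by
    intro ψ
    obtain ⟨z, hz⟩ := Cfsg.Agent.Lib.Char.RegularSum.exists_regSum_eq_mul hB hp hcard hpm
      (Cfsg.Agent.Lib.Char.Basic.isCharacter_of_isIrrCharacter ψ.2)
    have hne : Cfsg.Agent.Lib.Char.RegularSum.regSum p (ψ : G → ℂ) ≠ 0 := by
      intro h0
      have hψ : ψ ∈ principalBlock M G := by
        rw [← h _ ⟨ψ, rfl⟩]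
        exact mem_blockOf_self ψ
      have h1 := omegaHom_sub_mem_of_sameBlock (M := M) (χ := oneI G) (ψ := ψ) hψ
        (regSum_mem_localCenter (p := p))
      have h2 : omegaHom ψ (regSum p G) = 0 := by
        rw [omegaHom_apply, lin_apply]
        have h3 : ∑ g : G, ((regSum p G : Subalgebra.center ℂ (GA G)) : GA G).coeff g * (ψ : G → ℂ) g =
            Cfsg.Agent.Lib.Char.RegularSum.regSum p (ψ : G → ℂ) := by
          unfold Cfsg.Agent.Lib.Char.RegularSum.regSum
          refine Finset.sum_congr rfl fun g _ => ?_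
          rw [coeff_regSum]
          by_cases hg : p ∣ orderOf g <;> simp [hg]
        rw [h3, h0, zero_div]
      rw [h2, sub_zero, omegaHom_one_regSum] at h1
      exact regCount_notMem hM h1
    have hz0 : z ≠ 0 := by
      rintro rfl
      apply hne
      rw [hz]
      simp
    have h1 : (1 : ℝ) ≤ ‖(z : ℂ)‖ := by
      rw [Complex.norm_intCast]
      exact_mod_cast Int.one_le_abs hz0
    rw [hz, norm_mul, Complex.norm_natCast]
    have hm' : (0 : ℝ) ≤ m := by positivity
    have h2 : (m : ℝ) ≤ m * ‖(z : ℂ)‖ := by nlinarith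
    exact pow_le_pow_left₀ hm' h2 2
  have hsum := sum_norm_regSum (G := G) p
  have hk : (Fintype.card (IrrCharacter G) : ℝ) * (m : ℝ) ^ 2 ≤ (Nat.card G : ℝ) ^ 2 := by
    refine le_trans ?_ hsum
    rw [← nsmul_eq_mul, ← Finset.card_univ, ← Finset.sum_const]
    exact Finset.sum_le_sum fun ψ _ => hlow ψ
  have hk2 : Fintype.card (IrrCharacter G) * m ^ 2 ≤ (p ^ a * m) ^ 2 := by
    rw [← hcard]
    exact_mod_cast hk
  rw [Nat.card_eq_fintype_card]
  have h3 : (p ^ a * m) ^ 2 = p ^ (2 * a) * m ^ 2 := by ring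
  rw [h3] at hk2
  exact Nat.le_of_mul_le_mul_right hk2 (by positivity)

/-- Let p be a prime and a a natural number. There is a bound N such that every finite group whose Sylow p-subgroups have order p^a and whose only p-block (relative to a maximal ideal of the algebraic integers containing p) is the principal block has order at most N. -/
theorem result (p : ℕ) [Fact p.Prime] (a : ℕ) : ∃ N : ℕ, ∀ (G : Type u) [Group G] [Finite G] (M : Ideal Cfsg.AlgInt), Cfsg.IsPModular p M → (Nat.card G).factorization p = a → (∀ B : Set (Cfsg.IrrCharacter G), Cfsg.IsPBlock M B → B = Cfsg.principalBlock M G) → Nat.card G ≤ N := by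
  classical
  have hL : ∀ k : ℕ, ∃ N : ℕ, ∀ (G : Type u) [Group G] [Finite G],
      Nat.card (ConjClasses G) = k → Nat.card G ≤ N :=
    fun k => Cfsg.Agent.Lib.Blk89.Landau.exists_card_le.{u} k
  choose L hL using hL
  refine ⟨∑ k ∈ Finset.range (p ^ (2 * a) + 1), L k, ?_⟩
  intro G _ _ M hM hfac h
  have h1 := card_irr_le p M hM h
  rw [hfac, Cfsg.Agent.Lib.Char.Complete.card_irr_eq_card_conjClasses] at h1
  have h2 := hL _ G rfl
  refine h2.trans ?_
  exact Finset.single_le_sum (f := L) (fun _ _ => Nat.zero_le _)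
    (Finset.mem_range.mpr (Nat.lt_succ_of_le h1))

end Cfsg.Agent.S4718
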