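import Cfsg.Statements.S4719
import Cfsg.Agent.S0917
import Cfsg.Agent.S4726
import Cfsg.Agent.Lib.Blocks.DomRank
import Cfsg.Agent.Lib.Blocks.Third
import Cfsg.Agent.Lib.Blocks.Inducing
import Cfsg.Agent.Lib.Blocks.Defect2
import Cfsg.Agent.Lib.Blk89.PrinBlock
import Cfsg.Agent.Lib.Blk89.InvFour
-- import your own Cfsg.Agent.* helpers here

set_option autoImplicit false
set_option linter.style.haveILetI false
set_option linter.unusedSectionVars false
universe u
open Cfsg

namespace Cfsg.Agent.S4719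

open Cfsg.Agent.Lib.Blocks.Local Cfsg.Agent.Lib.Blocks.Central Cfsg.Agent.Lib.Blocks.Third
open Cfsg.Agent.Lib.Blocks.Inducing Cfsg.Agent.Lib.Blocks.Quot
open Cfsg.Agent.Lib.Blk89.InvAut Cfsg.Agent.Lib.Blk89.InvBound Cfsg.Agent.Lib.Blk89.InvFour
open Cfsg.Agent.Lib.Core.Basic

/-- **Claim 1**: blocks of the centralizer of a large `2`-subgroup are principal. -/
theorem all_principal_centralizer {G : Type u} [Group G] [Finite G] (M : Ideal AlgInt)
    (hM : IsPModular 2 M) (r : ℕ)
    (hB : ∀ B : Set (IrrCharacter G), IsPBlock M B → B ≠ principalBlock M G → blockDefect 2 B < r)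
    (Q : Subgroup G) (hQ2 : IsPGroup 2 Q) (hQc : ∀ a ∈ Q, ∀ b ∈ Q, a * b = b * a)
    (hQr : 2 ^ r ≤ Nat.card Q) (K : Subgroup G) (hK : K = Subgroup.centralizer (Q : Set G))
    (b : Set (IrrCharacter K)) (hb : IsPBlock M b) :
    b = principalBlock M K := by
  classical
  haveI : Fact (Nat.Prime 2) := ⟨Nat.prime_two⟩
  haveI := isPrime_of_pModular hM
  letI := Fintype.ofFinite G
  letI : Fintype K := Fintype.ofFinite K
  have hQK : Q ≤ K := fun a ha => by
    rw [hK, Subgroup.mem_centralizer_iff]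
    intro h hh
    exact hQc h hh a ha
  obtain ⟨D₀, hD₀⟩ := Cfsg.Agent.Lib.Blocks.Defect2.exists_isDefectGroup (p := 2) hb
  have hQ'n : (Q.subgroupOf K).Normal := by
    refine ⟨fun x hx g => ?_⟩
    rw [Subgroup.mem_subgroupOf] at hx ⊢
    have hg : (g : G) * x * (g : G)⁻¹ = x := by
      have hg2 : (g : G) ∈ Subgroup.centralizer (Q : Set G) := hK ▸ g.2
      have := (Subgroup.mem_centralizer_iff.mp hg2) x hx
      rw [← this]
      group
    have e : ((g * x * g⁻¹ : K) : G) = (g : G) * x * (g : G)⁻¹ := by simp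
    rw [e, hg]
    exact hx
  have hQ'p : IsPGroup 2 (Q.subgroupOf K) := IsPGroup.comap_subtype hQ2
  have hQD := normal_le_defect hM hb hD₀ hQ'n hQ'p
  have hQmap : Q ≤ D₀.map K.subtype := fun q hq =>
    ⟨⟨q, hQK hq⟩, hQD (by rw [Subgroup.mem_subgroupOf]; exact hq), rfl⟩
  have hC : Subgroup.centralizer ((D₀.map K.subtype : Subgroup G) : Set G) ≤ K :=
    (Subgroup.centralizer_le hQmap).trans (le_of_eq hK.symm)
  obtain ⟨hdef, -⟩ := Cfsg.Agent.S4726.result 2 M hM K b hb D₀ hD₀ hC
  obtain ⟨B, hind⟩ := hdef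
  obtain ⟨E, hE, hDE⟩ := Cfsg.Agent.S0917.result 2 M hM K b hb B hind.2.1 hind D₀ hD₀
  have hcE := card_eq_pow_blockDefect hM hind.2.1 hE
  have hQE : Nat.card Q ≤ Nat.card E := Subgroup.card_le_of_le (hQmap.trans hDE)
  have hr : r ≤ blockDefect 2 B := by
    have : 2 ^ r ≤ 2 ^ blockDefect 2 B := hQr.trans (by rw [← hcE]; exact hQE)
    exact (Nat.pow_le_pow_iff_right (by norm_num)).mp this
  have hBprin : B = principalBlock M G := by
    by_contra hne
    have := hB B hind.2.1 hne
    omega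
  rw [hBprin] at hind
  exact (third_main hM K ⟨_, hind⟩).mp hind

/-- All blocks principal passes to quotients by central `2`-subgroups. -/
theorem all_principal_quot {L : Type u} [Group L] [Finite L] (M : Ideal AlgInt) (hM : IsPModular 2 M)
    (Z : Subgroup L) [Z.Normal] (hZ2 : IsPGroup 2 Z) (hZc : ∀ z ∈ Z, ∀ g : L, z * g = g * z)
    (hL : ∀ B : Set (IrrCharacter L), IsPBlock M B → B = principalBlock M L)
    (B : Set (IrrCharacter (L ⧸ Z))) (hB : IsPBlock M B) : B = principalBlock M (L ⧸ Z) := by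
  classical
  haveI : Fact (Nat.Prime 2) := ⟨Nat.prime_two⟩
  haveI := isPrime_of_pModular hM
  letI := Fintype.ofFinite L
  letI : Fintype (L ⧸ Z) := Fintype.ofFinite _
  haveI := Cfsg.Agent.Lib.Char.Ortho.finite_irrCharacter (G := L)
  letI : Fintype (IrrCharacter L) := Fintype.ofFinite _
  haveI := Cfsg.Agent.Lib.Char.Ortho.finite_irrCharacter (G := L ⧸ Z)
  letI : Fintype (IrrCharacter (L ⧸ Z)) := Fintype.ofFinite _
  set π : L →* L ⧸ Z := QuotientGroup.mk' Z with hπdef
  have hπ : Function.Surjective π := QuotientGroup.mk'_surjective Z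
  have hker : IsPGroup 2 π.ker := by
    rw [hπdef, QuotientGroup.ker_mk']
    exact hZ2
  have hcomm : ∀ s : L, ¬ 2 ∣ orderOf s → ∀ q ∈ π.ker, Commute q s := by
    intro s _ q hq
    rw [hπdef, QuotientGroup.ker_mk'] at hq
    exact hZc q hq s
  have hmem : ∀ θ : IrrCharacter L, θ ∈ principalBlock M L := by
    intro θ
    rw [← hL _ ⟨θ, rfl⟩]
    exact mem_blockOf_self θ
  obtain ⟨ψ, rfl⟩ := hB
  rw [principalBlock_eq_blockOf M]
  have h1 : ψ ∈ blockOf M ((oneI (L ⧸ Z) : IrrCharacter (L ⧸ Z)) : L ⧸ Z → ℂ) := by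
    show SameBlock M _ _
    apply Cfsg.Agent.Lib.Blocks.DomRank.sameBlock_of_comp π hπ hker hcomm hM
    have h2 : SameBlock M (fun _ : L => (1 : ℂ))
        (((inflI π hπ (oneI (L ⧸ Z)) : IrrCharacter L) : L → ℂ)) := hmem _
    have h3 : SameBlock M (fun _ : L => (1 : ℂ)) (((inflI π hπ ψ : IrrCharacter L) : L → ℂ)) := hmem _
    exact sameBlock_trans (sameBlock_symm h2) h3
  rw [(blockOf_eq_of_mem h1)]

/-- A group all of whose blocks are principal has `O(K) = 1`. -/
theorem pPrimeCore_eq_bot_of_principal {K : Type u} [Group K] [Finite K] (M : Ideal AlgInt)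
    (hM : IsPModular 2 M)
    (hK : ∀ B : Set (IrrCharacter K), IsPBlock M B → B = principalBlock M K) :
    pPrimeCore 2 K = ⊥ := by
  classical
  haveI : Fact (Nat.Prime 2) := ⟨Nat.prime_two⟩
  haveI := isPrime_of_pModular hM
  letI := Fintype.ofFinite K
  rw [eq_bot_iff]
  intro n hn
  rw [Subgroup.mem_bot]
  apply Cfsg.Agent.Lib.Char.Degree.eq_one_of_forall_irr
  intro χ
  have hχ : χ ∈ principalBlock M K := by
    rw [← hK _ ⟨χ, rfl⟩]
    exact mem_blockOf_self χ
  exact Cfsg.Agent.Lib.Blk89.PrinBlock.trivial_of_mem_principal hM hχ n hn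

/-- **Claim 2**: a group with a unique `2`-block has order bounded in terms of its `2`-part. -/
theorem exists_bound_unique_block : ∀ a : ℕ, ∃ N₁ : ℕ, ∀ (K : Type u) [Group K] [Finite K]
    (M : Ideal AlgInt), IsPModular 2 M →
    (∀ B : Set (IrrCharacter K), IsPBlock M B → B = principalBlock M K) →
    (∀ k, 2 ^ k ∣ Nat.card K → k ≤ a) → Nat.card K ≤ N₁ := by
  have hodd : ∀ (K : Type u) [Group K] [Finite K], pPrimeCore 2 K = ⊥ → ¬ 2 ∣ Nat.card K →
      Nat.card K = 1 := by
    intro K _ _ hO h2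
    have h : (Nat.card K).Coprime 2 := by
      rw [Nat.coprime_comm, Nat.Prime.coprime_iff_not_dvd Nat.prime_two]
      exact h2
    rw [← pPrimeCore_eq_top_iff, hO] at h
    have h3 : Nat.card K = Nat.card (⊤ : Subgroup K) := Subgroup.card_top.symm
    rw [h3, ← h]
    simp
  intro a
  induction a with
  | zero =>
    refine ⟨1, ?_⟩
    intro K _ _ M hM hK h2
    have hO := pPrimeCore_eq_bot_of_principal M hM hK
    rw [hodd K hO]
    intro h
    have := h2 1 (by simpa using h)
    omega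
  | succ a ih =>
    obtain ⟨N₁, hN₁⟩ := ih
    obtain ⟨Φ, hΦ⟩ := lemmaC.{u} (2 * N₁) (a + 1)
    refine ⟨Φ + 1, ?_⟩
    intro K _ _ M hM hK h2
    classical
    have hO := pPrimeCore_eq_bot_of_principal M hM hK
    by_cases h2d : 2 ∣ Nat.card K
    swap
    · rw [hodd K hO h2d]
      omega
    haveI : Fact (Nat.Prime 2) := ⟨Nat.prime_two⟩
    obtain ⟨t, ht⟩ := exists_prime_orderOf_dvd_card' (G := K) 2 h2d
    have htt : t * t = 1 := by
      rw [← pow_two, ← ht, pow_orderOf_eq_one]
    have htinv : t⁻¹ = t := inv_eq_of_mul_eq_one_left htt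
    set Q : Subgroup K := Subgroup.zpowers t with hQ
    have hQ2 : IsPGroup 2 Q := by
      refine IsPGroup.of_card (n := 1) ?_
      rw [hQ, Nat.card_zpowers, ht, pow_one]
    have hQc : ∀ x ∈ Q, ∀ y ∈ Q, x * y = y * x := by
      intro x hx y hy
      obtain ⟨i, rfl⟩ := Subgroup.mem_zpowers_iff.mp hx
      obtain ⟨j, rfl⟩ := Subgroup.mem_zpowers_iff.mp hy
      exact ((Commute.refl t).zpow_zpow i j)
    have hQcard : Nat.card Q = 2 := by
      rw [hQ, Nat.card_zpowers, ht]
    have hLp := all_principal_centralizer M hM 0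
      (fun B hB hne => absurd (hK B hB) hne) Q hQ2 hQc (by rw [hQcard]; norm_num)
      (Subgroup.centralizer (Q : Set K)) rfl
    set L := Subgroup.centralizer (Q : Set K) with hL
    have hQL : Q ≤ L := fun x hx => by
      rw [hL, Subgroup.mem_centralizer_iff]
      intro y hy
      exact hQc y hy x hx
    set Z : Subgroup L := Q.subgroupOf L with hZ
    have hZc : ∀ z ∈ Z, ∀ g : L, z * g = g * z := by
      intro z hz g
      have h3 := (Subgroup.mem_centralizer_iff.mp g.2) z hz
      exact Subtype.ext h3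
    haveI hZn : Z.Normal := by
      refine ⟨fun z hz g => ?_⟩
      have := hZc z hz g⁻¹
      have e : g * z * g⁻¹ = z := by
        rw [mul_assoc, this, ← mul_assoc, mul_inv_cancel, one_mul]
      rwa [e]
    have hZ2 : IsPGroup 2 Z := IsPGroup.comap_subtype hQ2
    have hZcard : Nat.card Z = 2 := by
      rw [← hQcard, hZ]
      exact Nat.card_congr (Subgroup.subgroupOfEquivOfLe hQL).toEquiv
    have hQp := all_principal_quot M hM Z hZ2 hZc hLp
    have hLcard : Nat.card L = Nat.card (L ⧸ Z) * 2 := by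
      rw [← hZcard]
      exact Subgroup.card_eq_card_quotient_mul_card_subgroup Z
    have hnQ : ∀ k, 2 ^ k ∣ Nat.card (L ⧸ Z) → k ≤ a := by
      intro k hk
      have h3 : 2 ^ (k + 1) ∣ Nat.card K := by
        refine dvd_trans ?_ (Subgroup.card_subgroup_dvd_card L)
        rw [hLcard, pow_succ]
        exact Nat.mul_dvd_mul_right hk 2
      have := h2 _ h3
      omega
    have hbound := hN₁ (L ⧸ Z) M hM hQp hnQ
    have hLle : Nat.card L ≤ 2 * N₁ := by
      rw [hLcard]
      omega
    -- Lemma C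
    have hσ : ∀ x : K, MulAut.conj t (MulAut.conj t x) = x := by
      intro x
      simp only [MulAut.conj_apply, htinv]
      calc t * (t * x * t) * t = (t * t) * x * (t * t) := by group
        _ = x := by rw [htt]; group
    have hfix : Nat.card (fixS (MulAut.conj t)) ≤ 2 * N₁ := by
      refine le_trans (Subgroup.card_le_of_le ?_) hLle
      intro x hx
      have hx' : t * x * t⁻¹ = x := hx
      have hcomm : Commute x t := (mul_inv_eq_iff_eq_mul.mp hx').symm
      rw [hL, Subgroup.mem_centralizer_iff]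
      intro y hy
      obtain ⟨i, rfl⟩ := Subgroup.mem_zpowers_iff.mp hy
      exact (hcomm.zpow_right i).symm
    exact (hΦ K _ hσ hfix hO h2).trans (Nat.le_succ _)

section Ext

variable {G : Type u} [Group G]

/-- The subgroup `Q ∪ e Q`. -/
def extendBy (Q : Subgroup G) (e : G) (he : e * e = 1) (hc : ∀ q ∈ Q, e * q = q * e) : Subgroup G where
  carrier := {x | x ∈ Q ∨ e * x ∈ Q}
  mul_mem' := by
    have he' : e⁻¹ = e := inv_eq_of_mul_eq_one_left he
    rintro x y (hx | hx) (hy | hy)
    · exact Or.inl (Q.mul_mem hx hy)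
    · right
      have e1 : e * (x * y) = x * (e * y) := by
        rw [← mul_assoc, hc x hx, mul_assoc]
      rw [e1]
      exact Q.mul_mem hx hy
    · right
      rw [← mul_assoc]
      exact Q.mul_mem hx hy
    · left
      have e1 : x * y = (e * x) * (e * y) := by
        have h3 := hc _ hx
        calc x * y = e * (e * x) * y := by rw [← mul_assoc, he, one_mul]
          _ = (e * x) * e * y := by rw [h3]
          _ = (e * x) * (e * y) := by group
      rw [e1]
      exact Q.mul_mem hx hy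
  one_mem' := Or.inl Q.one_mem
  inv_mem' := by
    have he' : e⁻¹ = e := inv_eq_of_mul_eq_one_left he
    rintro x (hx | hx)
    · exact Or.inl (Q.inv_mem hx)
    · right
      have h3 := Q.inv_mem hx
      have hcx : Commute e x := by
        have h4 : e * (e * x) = (e * x) * e := hc _ hx
        have h5 : x = e * x * e := by
          rw [← mul_assoc, he, one_mul] at h4
          exact h4
        calc e * x = e * (e * x * e) := by rw [← h5]
          _ = (e * e) * x * e := by group
          _ = x * e := by rw [he, one_mul]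
      have e1 : e * x⁻¹ = (e * x)⁻¹ := by
        rw [mul_inv_rev, he']
        exact hcx.inv_right
      rw [e1]
      exact h3

theorem le_extendBy (Q : Subgroup G) (e : G) (he : e * e = 1) (hc : ∀ q ∈ Q, e * q = q * e) :
    Q ≤ extendBy Q e he hc := fun _ hx => Or.inl hx

theorem mem_extendBy_iff (Q : Subgroup G) (e : G) (he : e * e = 1) (hc : ∀ q ∈ Q, e * q = q * e) (x : G) :
    x ∈ extendBy Q e he hc ↔ x ∈ Q ∨ e * x ∈ Q := Iff.rfl

theorem extendBy_le (Q : Subgroup G) (e : G) (he : e * e = 1) (hc : ∀ q ∈ Q, e * q = q * e)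
    (E : Subgroup G) (hQE : Q ≤ E) (heE : e ∈ E) : extendBy Q e he hc ≤ E := by
  rintro x (hx | hx)
  · exact hQE hx
  · have h3 : x = e * (e * x) := by rw [← mul_assoc, he, one_mul]
    rw [h3]
    exact E.mul_mem heE (hQE hx)

theorem card_extendBy_le [Finite G] (Q : Subgroup G) (e : G) (he : e * e = 1)
    (hc : ∀ q ∈ Q, e * q = q * e) : Nat.card (extendBy Q e he hc) ≤ 2 * Nat.card Q := by
  classical
  have h1 : Nat.card (extendBy Q e he hc) ≤ Nat.card (Q × Bool) := by
    refine Nat.card_le_card_of_injective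
      (fun x => if h : (x : G) ∈ Q then ((⟨x, h⟩ : Q), true)
        else ((⟨e * x, (x.2.resolve_left h)⟩ : Q), false)) ?_
    intro x y hxy
    by_cases hx : (x : G) ∈ Q <;> by_cases hy : (y : G) ∈ Q
    · simp only [hx, hy, dif_pos] at hxy
      have := congrArg (fun q => ((q.1 : Q) : G)) hxy
      exact Subtype.ext this
    · simp [hx, hy] at hxy
    · simp [hx, hy] at hxy
    · simp only [hx, hy, dif_neg, not_false_iff] at hxy
      have := congrArg (fun q => ((q.1 : Q) : G)) hxy
      exact Subtype.ext (mul_left_cancel this)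
  rw [Nat.card_prod, Nat.card_eq_fintype_card (α := Bool), Fintype.card_bool] at h1
  omega

theorem two_mul_card_le [Finite G] (Q : Subgroup G) (e : G) (he : e * e = 1)
    (hc : ∀ q ∈ Q, e * q = q * e) (heQ : e ∉ Q) :
    2 * Nat.card Q ≤ Nat.card (extendBy Q e he hc) := by
  have hle := le_extendBy Q e he hc
  obtain ⟨m, hm⟩ := Subgroup.card_dvd_of_le hle
  have hpos : 0 < Nat.card (extendBy Q e he hc) := Nat.card_pos
  have hQpos : 0 < Nat.card Q := Nat.card_pos
  have hm0 : m ≠ 0 := by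
    rintro rfl
    omega
  have hm1 : m ≠ 1 := by
    rintro rfl
    rw [mul_one] at hm
    have h3 : Q = extendBy Q e he hc := Subgroup.eq_of_le_of_card_ge hle hm.le
    apply heQ
    rw [h3]
    exact Or.inr (by rw [he]; exact Q.one_mem)
  have hm2 : 2 ≤ m := by omega
  rw [hm, mul_comm]
  exact Nat.mul_le_mul_left _ hm2

theorem card_centralizer_le [Finite G] (Q : Subgroup G) (e : G) (he : e * e = 1)
    (hc : ∀ q ∈ Q, e * q = q * e) (e' : Subgroup.centralizer (Q : Set G)) (he' : (e' : G) = e) :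
    Nat.card (Subgroup.centralizer ({e'} : Set (Subgroup.centralizer (Q : Set G)))) ≤
      Nat.card (Subgroup.centralizer ((extendBy Q e he hc : Subgroup G) : Set G)) := by
  classical
  have hmem : ∀ x : Subgroup.centralizer ({e'} : Set (Subgroup.centralizer (Q : Set G))),
      (((x : Subgroup.centralizer (Q : Set G)) : G)) ∈
        Subgroup.centralizer ((extendBy Q e he hc : Subgroup G) : Set G) := by
    intro x
    rw [Subgroup.mem_centralizer_iff]
    have h1 : Commute e ((x : Subgroup.centralizer (Q : Set G)) : G) := by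
      have h2 := Subgroup.mem_centralizer_singleton_iff.mp x.2
      have h3 := congrArg Subtype.val h2
      rw [he'.symm]
      exact Commute.symm h3
    have hxQ := (Subgroup.mem_centralizer_iff.mp (x : Subgroup.centralizer (Q : Set G)).2)
    rintro h (hh | hh)
    · exact hxQ h hh
    · have h5 : h = e * (e * h) := by rw [← mul_assoc, he, one_mul]
      have h6 : Commute (e * h) ((x : Subgroup.centralizer (Q : Set G)) : G) := hxQ _ hh
      rw [h5]
      exact h1.mul_left h6
  refine Nat.card_le_card_of_injective (fun x => ⟨_, hmem x⟩) ?_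
  intro x y hxy
  have := congrArg Subtype.val hxy
  exact Subtype.ext (Subtype.ext this)

end Ext

/-- **The main induction.** -/
theorem exists_bound_main (a : ℕ) : ∀ k : ℕ, ∃ N : ℕ, ∀ (G : Type u) [Group G] [Finite G]
    (M : Ideal AlgInt), IsPModular 2 M → ∀ r : ℕ,
    (∀ B : Set (IrrCharacter G), IsPBlock M B → B ≠ principalBlock M G → blockDefect 2 B < r) →
    ∀ E : Subgroup G, (∀ x ∈ E, ∀ y ∈ E, x * y = y * x) → (∀ x ∈ E, x * x = 1) →
    Nat.card E = 2 ^ (r + 1) → (∀ j, 2 ^ j ∣ Nat.card G → j ≤ a) →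
    ∀ Q : Subgroup G, Q ≤ E → Q ≠ E → Nat.card E ≤ 2 ^ (k + 1) * Nat.card Q →
    Nat.card (Subgroup.centralizer (Q : Set G)) ≤ N := by
  intro k
  induction k with
  | zero =>
    obtain ⟨N₁, hN₁⟩ := exists_bound_unique_block.{u} a
    refine ⟨N₁, ?_⟩
    intro G _ _ M hM r hB E hEc hE2 hcard h2 Q hQE hne hidx
    haveI : Fact (Nat.Prime 2) := ⟨Nat.prime_two⟩
    have hQ2 : IsPGroup 2 Q := by
      intro x
      refine ⟨1, Subtype.ext ?_⟩
      have := hE2 x (hQE x.2)
      simpa [pow_two] using this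
    have hQc : ∀ x ∈ Q, ∀ y ∈ Q, x * y = y * x := fun x hx y hy => hEc x (hQE hx) y (hQE hy)
    have hd : Nat.card Q ∣ 2 ^ (r + 1) := by
      rw [← hcard]
      exact Subgroup.card_dvd_of_le hQE
    obtain ⟨j, hj, hjc⟩ := (Nat.dvd_prime_pow Nat.prime_two).mp hd
    have hjne : j ≠ r + 1 := by
      rintro rfl
      apply hne
      exact Subgroup.eq_of_le_of_card_ge hQE (by rw [hcard, hjc])
    have hrj : r ≤ j := by
      rw [hcard, hjc, ← pow_add] at hidx
      have := (Nat.pow_le_pow_iff_right (by norm_num : 1 < 2)).mp hidx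
      omega
    have hLp := all_principal_centralizer M hM r hB Q hQ2 hQc
      (by rw [hjc]; exact Nat.pow_le_pow_right (by norm_num) hrj)
      (Subgroup.centralizer (Q : Set G)) rfl
    refine hN₁ _ M hM hLp ?_
    intro i hi
    exact h2 i (hi.trans (Subgroup.card_subgroup_dvd_card _))
  | succ k ih =>
    obtain ⟨N, hN⟩ := ih
    obtain ⟨B, hBd⟩ := bound_of_four.{u} N a
    refine ⟨N + B, ?_⟩
    intro G _ _ M hM r hB E hEc hE2 hcard h2 Q hQE hne hidx
    classical
    have hcomm : ∀ e ∈ E, ∀ q ∈ Q, e * q = q * e := fun e he q hq => hEc e he q (hQE hq)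
    obtain ⟨a₀, ha₀E, ha₀Q⟩ := SetLike.exists_of_lt (lt_of_le_of_ne hQE hne)
    have hRa1 := card_extendBy_le Q a₀ (hE2 a₀ ha₀E) (hcomm a₀ ha₀E)
    have hRa2 := two_mul_card_le Q a₀ (hE2 a₀ ha₀E) (hcomm a₀ ha₀E) ha₀Q
    have hRaE := extendBy_le Q a₀ (hE2 a₀ ha₀E) (hcomm a₀ ha₀E) E hQE ha₀E
    have hpow : 2 ≤ 2 ^ (k + 1) := by
      calc 2 = 2 ^ 1 := by norm_num
        _ ≤ _ := Nat.pow_le_pow_right (by norm_num) (by omega)
    by_cases hRa : extendBy Q a₀ (hE2 a₀ ha₀E) (hcomm a₀ ha₀E) = E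
    · have h3 : Nat.card E ≤ 2 ^ (k + 1) * Nat.card Q := by
        rw [hRa] at hRa1
        exact hRa1.trans (Nat.mul_le_mul_right _ hpow)
      exact (hN G M hM r hB E hEc hE2 hcard h2 Q hQE hne h3).trans (Nat.le_add_right _ _)
    obtain ⟨b₀, hb₀E, hb₀R⟩ := SetLike.exists_of_lt (lt_of_le_of_ne hRaE hRa)
    have hb₀Q : b₀ ∉ Q := fun h => hb₀R (Or.inl h)
    have hc₀E : a₀ * b₀ ∈ E := E.mul_mem ha₀E hb₀E
    have hc₀Q : a₀ * b₀ ∉ Q := fun h => hb₀R (Or.inr h)
    have hlt : 2 * Nat.card Q < Nat.card E := by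
      refine lt_of_le_of_lt hRa2 ?_
      exact lt_of_not_ge (fun h => hRa (Subgroup.eq_of_le_of_card_ge hRaE h))
    -- the bound for each of the three extensions
    have key : ∀ e (he : e ∈ E), e ∉ Q →
        Nat.card (Subgroup.centralizer ((extendBy Q e (hE2 e he) (hcomm e he) : Subgroup G) : Set G)) ≤ N := by
      intro e he heQ
      have h1 := card_extendBy_le Q e (hE2 e he) (hcomm e he)
      have h3 := two_mul_card_le Q e (hE2 e he) (hcomm e he) heQ
      refine hN G M hM r hB E hEc hE2 hcard h2 _ (extendBy_le Q e _ _ E hQE he) ?_ ?_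
      · intro h
        rw [h] at h1
        omega
      · calc Nat.card E ≤ 2 ^ (k + 1 + 1) * Nat.card Q := hidx
          _ = 2 ^ (k + 1) * (2 * Nat.card Q) := by ring
          _ ≤ _ := Nat.mul_le_mul_left _ h3
    set X := Subgroup.centralizer (Q : Set G) with hX
    have hinX : ∀ e ∈ E, e ∈ X := by
      intro e he
      rw [hX, Subgroup.mem_centralizer_iff]
      intro q hq
      exact (hcomm e he q hq).symm
    let a' : X := ⟨a₀, hinX _ ha₀E⟩
    let b' : X := ⟨b₀, hinX _ hb₀E⟩
    have hCa := (card_centralizer_le Q a₀ (hE2 a₀ ha₀E) (hcomm a₀ ha₀E) a' rfl).trans (key a₀ ha₀E ha₀Q)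
    have hCb := (card_centralizer_le Q b₀ (hE2 b₀ hb₀E) (hcomm b₀ hb₀E) b' rfl).trans (key b₀ hb₀E hb₀Q)
    have hCc := (card_centralizer_le Q (a₀ * b₀) (hE2 _ hc₀E) (hcomm _ hc₀E) (a' * b') rfl).trans
      (key _ hc₀E hc₀Q)
    have hn : ∀ j, 2 ^ j ∣ Nat.card X → j ≤ a := fun j hj =>
      h2 j (hj.trans (Subgroup.card_subgroup_dvd_card _))
    have := hBd X a' b' (Subtype.ext (hE2 a₀ ha₀E)) (Subtype.ext (hE2 b₀ hb₀E))
      (Subtype.ext (hEc a₀ ha₀E b₀ hb₀E)) hCa hCb hCc hn
    exact this.trans (Nat.le_add_left _ _)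

/-- For every natural number a there is a bound N with the following property. Let G be a finite group with Sylow 2-subgroups of order 2^a and r ≥ 0 such that G has no non-principal 2-block (relative to a maximal ideal of the algebraic integers containing 2) of defect ≥ r, and suppose a Sylow 2-subgroup of G contains an elementary abelian subgroup of order 2^(r+1). Then the order of G is at most N. -/
theorem result (a : ℕ) : ∃ N : ℕ, ∀ (G : Type u) [Group G] [Finite G] (M : Ideal Cfsg.AlgInt) (r : ℕ) (P : Sylow 2 G), Cfsg.IsPModular 2 M → Nat.card P = 2 ^ a → (∀ B : Set (Cfsg.IrrCharacter G), Cfsg.IsPBlock M B → B ≠ Cfsg.principalBlock M G → Cfsg.blockDefect 2 B < r) → (∃ E : Subgroup G, E ≤ (P : Subgroup G) ∧ IsMulCommutative E ∧ (∀ x ∈ E, x * x = 1) ∧ Nat.card E = 2 ^ (r + 1)) → Nat.card G ≤ N := by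
  obtain ⟨N, hN⟩ := exists_bound_main.{u} a a
  refine ⟨N, ?_⟩
  intro G _ _ M r P hM hPc hB hE
  classical
  haveI : Fact (Nat.Prime 2) := ⟨Nat.prime_two⟩
  obtain ⟨E, hEP, hEc, hE2, hEcard⟩ := hE
  have hEc' : ∀ x ∈ E, ∀ y ∈ E, x * y = y * x := by
    intro x hx y hy
    have := hEc.is_comm.comm ⟨x, hx⟩ ⟨y, hy⟩
    exact congrArg Subtype.val this
  have h2 : ∀ j, 2 ^ j ∣ Nat.card G → j ≤ a := by
    intro j hj
    have h3 : 2 ^ j ∣ Nat.card P := P.pow_dvd_card_of_pow_dvd_card hj
    rw [hPc] at h3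
    exact (Nat.pow_dvd_pow_iff_le_right (by norm_num)).mp h3
  have hdvd : 2 ^ (r + 1) ∣ Nat.card G := by
    rw [← hEcard]
    exact Subgroup.card_subgroup_dvd_card E
  have hr := h2 _ hdvd
  have hbot : (⊥ : Subgroup G) ≠ E := by
    intro h
    rw [← h, Subgroup.card_bot] at hEcard
    have : 2 ≤ 2 ^ (r + 1) := by
      calc 2 = 2 ^ 1 := by norm_num
        _ ≤ _ := Nat.pow_le_pow_right (by norm_num) (by omega)
    omega
  have hidx : Nat.card E ≤ 2 ^ (a + 1) * Nat.card (⊥ : Subgroup G) := by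
    rw [hEcard, Subgroup.card_bot, mul_one]
    exact Nat.pow_le_pow_right (by norm_num) (by omega)
  have := hN G M hM r hB E hEc' hE2 hEcard h2 ⊥ bot_le hbot hidx
  have h3 : Subgroup.centralizer (((⊥ : Subgroup G)) : Set G) = ⊤ := by
    rw [eq_top_iff]
    intro x _
    rw [Subgroup.mem_centralizer_iff]
    intro h hh
    have : h = 1 := hh
    rw [this]
    simp
  rw [h3, Subgroup.card_top] at this
  exact this

end Cfsg.Agent.S4719
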