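import Cfsg.Statements.S4720
import Cfsg.Agent.Lib.Blk89.Basic
import Cfsg.Agent.Lib.Blocks.NormSum
-- import your own Cfsg.Agent.* helpers here

set_option autoImplicit false
open Cfsg

namespace Cfsg.Agent.S4720

set_option linter.style.haveILetI false

open MonoidAlgebra
open Cfsg.Agent.Lib.Blocks.Local Cfsg.Agent.Lib.Blocks.Central
open Cfsg.Agent.Lib.Blocks.Heights Cfsg.Agent.Lib.Blocks.NormSum
open Cfsg.Agent.Lib.Blk89.Basic
open scoped ComplexConjugate

universe u

variable {G : Type u} [Group G] [Fintype G] {M : Ideal AlgInt} {p : ℕ}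

open Classical in
/-- The pair sum on the principal block, in the case of nonconjugate elements. -/
theorem pair_sum_of_not_conj [Fact p.Prime] [Fintype (IrrCharacter G)]
    (hM : IsPModular p M) {u v : G} (hu : ∃ k : ℕ, orderOf u = p ^ k)
    (hv : ∃ k : ℕ, orderOf v = p ^ k) (hn : ¬ IsConj v u) :
    ∑ χ : IrrCharacter G, (if χ ∈ principalBlock M G then (χ : G → ℂ) v * conj ((χ : G → ℂ) u) else 0) = 0 := by
  haveI := isPrime_of_pModular hM
  have hp1 : ¬ p ∣ orderOf (1 : G) := by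
    rw [orderOf_one]
    exact (Fact.out : p.Prime).one_lt.ne' ∘ Nat.dvd_one.mp
  have hpu : IsPPart p u u := ⟨1, mul_one u, Commute.one_right _, hu, hp1⟩
  have hpv : IsPPart p v v := ⟨1, mul_one v, Commute.one_right _, hv, hp1⟩
  have h := block_orthogonality_section hM hpv hpu hn (B := principalBlock M G)
    (Cfsg.Agent.Lib.Blocks.Third.isPBlock_principal M)
  rw [finsum_mem_def, finsum_eq_sum_of_fintype] at h
  refine Eq.trans ?_ h
  refine Fintype.sum_congr _ _ fun χ => ?_
  rw [Set.indicator_apply]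
  split_ifs
  · rw [char_inv (Cfsg.Agent.Lib.Char.Basic.isCharacter_of_isIrrCharacter χ.2) u]
  · rfl

open Classical in
/-- The pair sum on the principal block at a single `p`-element. -/
theorem pair_sum_self [Fact p.Prime] [Fintype (IrrCharacter G)]
    (hM : IsPModular p M) {u : G} (hu : ∃ k : ℕ, orderOf u = p ^ k) (w : ℚ) (c : ℕ)
    (hw : ((∑ᶠ ψ ∈ principalBlock M ↥(Subgroup.centralizer ({u} : Set G)),
      charDegree (ψ : ↥(Subgroup.centralizer ({u} : Set G)) → ℂ) ^ 2) : ℚ) = w * c) :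
    ∑ χ : IrrCharacter G, (if χ ∈ principalBlock M G then (χ : G → ℂ) u * conj ((χ : G → ℂ) u) else 0)
      = (w : ℂ) * c := by
  haveI := isPrime_of_pModular hM
  haveI := Cfsg.Agent.Lib.Char.Ortho.finite_irrCharacter (G := ↥(Subgroup.centralizer ({u} : Set G)))
  letI := Fintype.ofFinite (IrrCharacter ↥(Subgroup.centralizer ({u} : Set G)))
  have h1 := (principal_norm_sum hM u hu 1 (by
    rw [orderOf_one]
    exact (Fact.out : p.Prime).one_lt.ne' ∘ Nat.dvd_one.mp)).1
  simp only [OneMemClass.coe_one, mul_one] at h1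
  rw [← finsum_norm_sq_cast (principalBlock M G) u, h1]
  have h2 : ((∑ᶠ χ ∈ principalBlock M ↥(Subgroup.centralizer ({u} : Set G)),
      ‖(χ : ↥(Subgroup.centralizer ({u} : Set G)) → ℂ) 1‖ ^ 2 : ℝ)) =
      (((∑ᶠ ψ ∈ principalBlock M ↥(Subgroup.centralizer ({u} : Set G)),
        charDegree (ψ : ↥(Subgroup.centralizer ({u} : Set G)) → ℂ) ^ 2) : ℚ) : ℝ) := by
    rw [finsum_mem_def, finsum_eq_sum_of_fintype, finsum_mem_def, finsum_eq_sum_of_fintype]
    push_cast
    refine Fintype.sum_congr _ _ fun ψ => ?_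
    rw [Set.indicator_apply, Set.indicator_apply]
    split_ifs
    · push_cast
      have h3 := Cfsg.Agent.Lib.Char.Degree.charDegree_natCast
        (Cfsg.Agent.Lib.Char.Basic.isCharacter_of_isIrrCharacter ψ.2)
      rw [← h3]
      simp
    · simp
  rw [h2, hw]
  push_cast
  rfl

/-- Let p be a prime, M a maximal ideal of the algebraic integers containing p, P a p-subgroup of the finite group G, N a subgroup with P ≤ N ≤ N_G(P), and U a nonempty subset of P normalized by N such that an element of U and an element of P that are conjugate in G are already conjugate in N, and such that λ(C_G(y)) = w·#C_N(y) for every y ∈ U with one rational number w, where λ(X) denotes the sum of the squares of the degrees of the irreducible characters in the principal p-block of X. For a complex function θ on P and χ in the principal block of G put a_χ(θ) = #P⁻¹ Σ_{y ∈ P} χ(y) θ(y⁻¹). Then for generalized characters θ, η of P with θ vanishing outside U, Σ_χ a_χ(θ)·conj(a_χ(η))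 = (w/#P²)·Σ_{y ∈ P} θ(y)·conj(Σ_{x ∈ N} η(x y x⁻¹)) (η extended by zero off P; the conjugates lie in P), the first sum over the principal p-block of G. -/
theorem result {G : Type*} [Group G] [Finite G] (p : ℕ) [Fact p.Prime] (M : Ideal Cfsg.AlgInt) (hM : Cfsg.IsPModular p M) (P : Subgroup G) (hP : IsPGroup p P) (N : Subgroup G) (hPN : P ≤ N) (hNN : N ≤ Subgroup.normalizer (P : Set G)) (U : Set G) (hUne : U.Nonempty) (hUP : U ⊆ (P : Set G)) (hUN : ∀ n ∈ N, ∀ u ∈ U, n * u * n⁻¹ ∈ U) (hfus : ∀ u ∈ U, ∀ g : G, g * u * g⁻¹ ∈ (P : Set G) → ∃ n ∈ N, n * u * n⁻¹ = g * u * g⁻¹) (w : ℚ) (hw : ∀ y ∈ U, ((∑ᶠ ψ ∈ Cfsg.principalBlock M ↥(Subgroup.centralizer ({y} : Set G)), Cfsg.charDegree (ψ : ↥(Subgroup.centralizer ({y} : Set G)) → ℂ) ^ 2) : ℚ) = w * Nat.card ↥(N ⊓ Subgroup.centralizer ({y} : Set G))) (θ η : ↥P → ℂ) (hθ : Cfsg.IsGeneralizedCharacter ↥P θ) (hη : Cfsg.IsGeneralizedCharacter ↥P η) (hθU : ∀ y : ↥P, (y : G) ∉ U → θ y = 0) : ∑ᶠ χ ∈ Cfsg.principalBlock M G,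 ((Nat.card ↥P : ℂ)⁻¹ * ∑ᶠ y : ↥P, (χ : G → ℂ) (y : G) * θ y⁻¹) * (starRingEnd ℂ) ((Nat.card ↥P : ℂ)⁻¹ * ∑ᶠ y : ↥P, (χ : G → ℂ) (y : G) * η y⁻¹) = ((w : ℂ) / ((Nat.card ↥P : ℂ) ^ 2)) * ∑ᶠ y : ↥P, θ y * (starRingEnd ℂ) (∑ᶠ x : ↥N, Cfsg.extendByZero P η ((x : G) * (y : G) * (x : G)⁻¹)) := by
  classical
  cases nonempty_fintype G
  haveI := isPrime_of_pModular hM
  haveI := Cfsg.Agent.Lib.Char.Ortho.finite_irrCharacter (G := G)
  letI := Fintype.ofFinite (IrrCharacter G)
  letI : Fintype ↥P := Fintype.ofFinite _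
  letI : Fintype ↥N := Fintype.ofFinite _
  have hPc : (Nat.card ↥P : ℂ) ≠ 0 := Nat.cast_ne_zero.mpr Nat.card_pos.ne'
  -- conjugation by `N`
  have hconj : ∀ (x : ↥N) (y : ↥P), (x : G) * (y : G) * (x : G)⁻¹ ∈ P := by
    intro x y
    have := hNN x.2
    rw [Subgroup.mem_normalizer_iff] at this
    exact (this y).mp y.2
  set f : ↥P → ↥N → ↥P := fun u x => ⟨(x : G) * (u : G) * (x : G)⁻¹, hconj x u⟩ with hf
  have hpel : ∀ y : ↥P, ∃ k : ℕ, orderOf (y : G) = p ^ k := by
    intro y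
    obtain ⟨k, hk⟩ := (IsPGroup.iff_orderOf.mp hP) y
    exact ⟨k, by rw [Subgroup.orderOf_coe]; exact hk⟩
  have hA : ∀ χ : IrrCharacter G, ∑ᶠ y : ↥P, (χ : G → ℂ) (y : G) * θ y⁻¹ =
      ∑ u : ↥P, θ u * conj ((χ : G → ℂ) (u : G)) := by
    intro χ
    rw [finsum_eq_sum_of_fintype]
    rw [← Equiv.sum_comp (Equiv.inv ↥P)]
    refine Fintype.sum_congr _ _ fun u => ?_
    simp only [Equiv.inv_apply, inv_inv, InvMemClass.coe_inv]
    rw [char_inv (Cfsg.Agent.Lib.Char.Basic.isCharacter_of_isIrrCharacter χ.2), mul_comm]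
  have hB : ∀ χ : IrrCharacter G, conj (∑ᶠ y : ↥P, (χ : G → ℂ) (y : G) * η y⁻¹) =
      ∑ v : ↥P, conj (η v) * (χ : G → ℂ) (v : G) := by
    intro χ
    rw [finsum_eq_sum_of_fintype, map_sum]
    rw [← Equiv.sum_comp (Equiv.inv ↥P)]
    refine Fintype.sum_congr _ _ fun u => ?_
    simp only [Equiv.inv_apply, inv_inv, InvMemClass.coe_inv, map_mul]
    rw [char_inv (Cfsg.Agent.Lib.Char.Basic.isCharacter_of_isIrrCharacter χ.2), Complex.conj_conj,
      mul_comm]
  -- the pair sums
  set F : ↥P → ↥P → ℂ := fun u v => ∑ χ : IrrCharacter G,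
    (if χ ∈ principalBlock M G then (χ : G → ℂ) (v : G) * conj ((χ : G → ℂ) (u : G)) else 0) with hF
  have hFv : ∀ u : ↥P, (u : G) ∈ U → ∀ v : ↥P,
      F u v = (w : ℂ) * ((Finset.univ.filter (fun x : ↥N => f u x = v)).card : ℂ) := by
    intro u hu v
    by_cases hv : ∃ n ∈ N, n * (u : G) * n⁻¹ = (v : G)
    · obtain ⟨n, hn, hnv⟩ := hv
      have hcard : (Finset.univ.filter (fun x : ↥N => f u x = v)).card =
          Nat.card ↥(N ⊓ Subgroup.centralizer ({(u : G)} : Set G)) := by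
        rw [← Fintype.card_subtype, ← Nat.card_eq_fintype_card]
        have hmem : ∀ x : {x : ↥N // f u x = v}, n⁻¹ * (x.1 : G) ∈ N ⊓ Subgroup.centralizer ({(u : G)} : Set G) := by
          intro x
          refine ⟨N.mul_mem (N.inv_mem hn) x.1.2, Subgroup.mem_centralizer_iff.mpr ?_⟩
          intro s hs
          rw [Set.mem_singleton_iff] at hs
          subst hs
          have h1 : (x.1 : G) * (u : G) * (x.1 : G)⁻¹ = n * (u : G) * n⁻¹ := by
            rw [hnv]
            exact congrArg Subtype.val x.2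
          have h2 : (n⁻¹ * (x.1 : G)) * (u : G) = (u : G) * (n⁻¹ * (x.1 : G)) := by
            calc (n⁻¹ * (x.1 : G)) * (u : G) = n⁻¹ * ((x.1 : G) * (u : G) * (x.1 : G)⁻¹) * (x.1 : G) := by group
              _ = n⁻¹ * (n * (u : G) * n⁻¹) * (x.1 : G) := by rw [h1]
              _ = _ := by group
          exact h2.symm
        have hmem' : ∀ k : ↥(N ⊓ Subgroup.centralizer ({(u : G)} : Set G)), f u ⟨n * (k : G), N.mul_mem hn k.2.1⟩ = v := by
          intro k
          apply Subtype.ext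
          have h3 := Subgroup.mem_centralizer_iff.mp k.2.2
          have h4 := h3 (u : G) rfl
          change n * (k : G) * (u : G) * (n * (k : G))⁻¹ = (v : G)
          rw [← hnv]
          calc n * (k : G) * (u : G) * (n * (k : G))⁻¹ = n * ((k : G) * (u : G) * (k : G)⁻¹) * n⁻¹ := by group
            _ = n * ((u : G) * (k : G) * (k : G)⁻¹) * n⁻¹ := by rw [← h4]
            _ = _ := by group
        refine Nat.card_congr ⟨fun x => ⟨n⁻¹ * (x.1 : G), hmem x⟩,
          fun k => ⟨⟨n * (k : G), N.mul_mem hn k.2.1⟩, hmem' k⟩, ?_, ?_⟩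
        · intro x
          apply Subtype.ext
          apply Subtype.ext
          simp
        · intro k
          apply Subtype.ext
          simp
      rw [hcard]
      have h0 := pair_sum_self hM (hpel u) w _ (hw u hu)
      rw [← h0]
      refine Fintype.sum_congr _ _ fun χ => ?_
      have h1 : (χ : G → ℂ) (v : G) = (χ : G → ℂ) (u : G) := by
        apply char_conj_eq (Cfsg.Agent.Lib.Char.Basic.isCharacter_of_isIrrCharacter χ.2)
        rw [isConj_iff]
        exact ⟨n⁻¹, by rw [← hnv]; group⟩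
      rw [h1]
    · have hn : ¬ IsConj (v : G) (u : G) := by
        intro hc
        rw [isConj_iff] at hc
        obtain ⟨c, hc⟩ := hc
        have h1 : c⁻¹ * (u : G) * c⁻¹⁻¹ ∈ (P : Set G) := by
          rw [← hc]
          have : c⁻¹ * (c * (v : G) * c⁻¹) * c⁻¹⁻¹ = v := by group
          rw [this]
          exact v.2
        obtain ⟨n, hn, hn2⟩ := hfus u hu c⁻¹ h1
        apply hv
        refine ⟨n, hn, ?_⟩
        rw [hn2, ← hc]
        group
      have h0 := pair_sum_of_not_conj hM (hpel u) (hpel v) hn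
      have hcard : (Finset.univ.filter (fun x : ↥N => f u x = v)).card = 0 := by
        rw [Finset.card_eq_zero, Finset.filter_eq_empty_iff]
        intro x _ hx
        apply hv
        exact ⟨x, x.2, congrArg Subtype.val hx⟩
      rw [hcard]
      simpa using h0
  -- the right hand side
  have hR : ∀ u : ↥P, conj (∑ᶠ x : ↥N, extendByZero P η ((x : G) * (u : G) * (x : G)⁻¹)) =
      ∑ v : ↥P, ((Finset.univ.filter (fun x : ↥N => f u x = v)).card : ℂ) * conj (η v) := by
    intro u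
    rw [finsum_eq_sum_of_fintype, map_sum]
    have h1 : ∀ x : ↥N, conj (extendByZero P η ((x : G) * (u : G) * (x : G)⁻¹)) = conj (η (f u x)) := by
      intro x
      congr 1
      exact Function.Injective.extend_apply Subtype.val_injective η 0 (f u x)
    rw [Finset.sum_congr rfl fun x _ => h1 x]
    rw [← Finset.sum_fiberwise (s := Finset.univ) (g := f u)]
    refine Fintype.sum_congr _ _ fun v => ?_
    rw [Finset.sum_congr rfl (g := fun _ => conj (η v))]
    · rw [Finset.sum_const, nsmul_eq_mul]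
    · intro x hx
      rw [(Finset.mem_filter.mp hx).2]
  -- the main computation
  have hL : ∑ᶠ χ ∈ principalBlock M G, ((Nat.card ↥P : ℂ)⁻¹ * ∑ᶠ y : ↥P, (χ : G → ℂ) (y : G) * θ y⁻¹) *
      conj ((Nat.card ↥P : ℂ)⁻¹ * ∑ᶠ y : ↥P, (χ : G → ℂ) (y : G) * η y⁻¹) =
      ((Nat.card ↥P : ℂ)⁻¹ * (Nat.card ↥P : ℂ)⁻¹) * ∑ u : ↥P, θ u * ∑ v : ↥P, conj (η v) * F u v := by
    rw [finsum_mem_def, finsum_eq_sum_of_fintype]
    have h1 : ∀ χ : IrrCharacter G, (principalBlock M G).indicator
        (fun χ : IrrCharacter G => ((Nat.card ↥P : ℂ)⁻¹ * ∑ᶠ y : ↥P, (χ : G → ℂ) (y : G) * θ y⁻¹) *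
          conj ((Nat.card ↥P : ℂ)⁻¹ * ∑ᶠ y : ↥P, (χ : G → ℂ) (y : G) * η y⁻¹)) χ =
        ((Nat.card ↥P : ℂ)⁻¹ * (Nat.card ↥P : ℂ)⁻¹) * ∑ u : ↥P, θ u * ∑ v : ↥P, conj (η v) *
          (if χ ∈ principalBlock M G then (χ : G → ℂ) (v : G) * conj ((χ : G → ℂ) (u : G)) else 0) := by
      intro χ
      rw [Set.indicator_apply]
      by_cases hχ : χ ∈ principalBlock M G
      · simp only [if_pos hχ]
        rw [map_mul, hB χ, hA χ, map_inv₀, Complex.conj_natCast]
        rw [mul_mul_mul_comm, Finset.sum_mul_sum]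
        congr 1
        refine Fintype.sum_congr _ _ fun a => ?_
        rw [Finset.mul_sum]
        refine Fintype.sum_congr _ _ fun b => ?_
        ring
      · simp [if_neg hχ]
    rw [Finset.sum_congr rfl fun χ _ => h1 χ, ← Finset.mul_sum]
    congr 1
    rw [Finset.sum_comm]
    refine Fintype.sum_congr _ _ fun u => ?_
    rw [← Finset.mul_sum]
    congr 1
    rw [Finset.sum_comm]
    refine Fintype.sum_congr _ _ fun v => ?_
    rw [← Finset.mul_sum]
  rw [hL]
  have hmain : ∀ u : ↥P, θ u * ∑ v : ↥P, conj (η v) * F u v = (w : ℂ) * (θ u *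
      conj (∑ᶠ x : ↥N, extendByZero P η ((x : G) * (u : G) * (x : G)⁻¹))) := by
    intro u
    by_cases hu : (u : G) ∈ U
    · rw [hR u, mul_left_comm (w : ℂ)]
      congr 1
      rw [Finset.mul_sum]
      refine Fintype.sum_congr _ _ fun v => ?_
      rw [hFv u hu v]
      ring
    · rw [hθU u hu]
      simp
  rw [Finset.sum_congr rfl fun u _ => hmain u] 
  rw [finsum_eq_sum_of_fintype, ← Finset.mul_sum]
  field_simp

end Cfsg.Agent.S4720
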