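import Cfsg.Statements.S4722
import Cfsg.Agent.Lib.Blk89.Basic
import Cfsg.Agent.Lib.Blocks.NormSum
import Cfsg.Agent.Lib.Core.Basic
-- import your own Cfsg.Agent.* helpers here

set_option autoImplicit false
open Cfsg

namespace Cfsg.Agent.S4722

set_option linter.style.haveILetI false

open MonoidAlgebra
open Cfsg.Agent.Lib.Blocks.Local Cfsg.Agent.Lib.Blocks.Central
open Cfsg.Agent.Lib.Blocks.Heights Cfsg.Agent.Lib.Blocks.NormSum Cfsg.Agent.Lib.Blocks.PPart
open Cfsg.Agent.Lib.Blocks.Sections Cfsg.Agent.Lib.Blocks.Main Cfsg.Agent.Lib.Blocks.Third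
open Cfsg.Agent.Lib.Blocks.General
open Cfsg.Agent.Lib.Blk89.Basic Cfsg.Agent.Lib.Char.Basic Cfsg.Agent.Lib.Char.Ortho
open Cfsg.Agent.Lib.Char.Complete Cfsg.Agent.Lib.Char.ClassSum
open scoped ComplexConjugate

universe u

/-- The variance argument. -/
theorem variance_lemma {ι : Type*} (S : Finset ι) (A d τ : ι → ℝ) (hd : ∀ i ∈ S, 0 < d i)
    (h2 : ∑ i ∈ S, A i * d i = 0) (h3 : ∑ i ∈ S, A i * τ i = 0) (h1 : ∑ i ∈ S, A i * (τ i ^ 2 / d i) = 0)
    {i₀ : ι} (hi₀ : i₀ ∈ S) (hneg : ∀ i ∈ S, i ≠ i₀ → A i ≤ 0) {i : ι} (hi : i ∈ S) (hA : A i ≠ 0) :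
    τ i / d i = τ i₀ / d i₀ := by
  classical
  set r := τ i₀ / d i₀ with hr
  have key : ∑ j ∈ S, A j * d j * (τ j / d j - r) ^ 2 = 0 := by
    have e : ∀ j ∈ S, A j * d j * (τ j / d j - r) ^ 2 =
        A j * (τ j ^ 2 / d j) - 2 * r * (A j * τ j) + r ^ 2 * (A j * d j) := by
      intro j hj
      have := (hd j hj).ne'
      field_simp
      ring
    rw [Finset.sum_congr rfl e, Finset.sum_add_distrib, Finset.sum_sub_distrib, ← Finset.mul_sum,
      ← Finset.mul_sum, h1, h2, h3]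
    simp
  have hnp : ∀ j ∈ S, A j * d j * (τ j / d j - r) ^ 2 ≤ 0 := by
    intro j hj
    by_cases hj0 : j = i₀
    · subst hj0
      simp [hr]
    · exact mul_nonpos_of_nonpos_of_nonneg
        (mul_nonpos_of_nonpos_of_nonneg (hneg j hj hj0) (hd j hj).le) (sq_nonneg _)
  have h0 := (Finset.sum_eq_zero_iff_of_nonpos hnp).mp key i hi
  have h4 : (τ i / d i - r) ^ 2 = 0 := by
    rcases mul_eq_zero.mp h0 with h5 | h5
    · exfalso
      rcases mul_eq_zero.mp h5 with h6 | h6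
      · exact hA h6
      · exact (hd i hi).ne' h6
    · exact h5
  have h5 := pow_eq_zero_iff (two_ne_zero) |>.mp h4
  linarith

variable {G : Type u} [Group G] [Fintype G] {M : Ideal AlgInt}

/-- `t` inverts the `p`-part of what it inverts. -/
theorem inverts_pPart {g z t : G} (hz : IsPPart 2 g z) (h : t * g * t⁻¹ = g⁻¹) :
    t * z * t⁻¹ = z⁻¹ := by
  haveI : Fact (Nat.Prime 2) := ⟨Nat.prime_two⟩
  obtain ⟨m, rfl⟩ := Subgroup.mem_zpowers_iff.mp (isPPart_mem_zpowers hz)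
  rw [← MulAut.conj_apply, map_zpow, MulAut.conj_apply, h, inv_zpow]

open Classical in
/-- The class function whose vanishing gives the first relation. -/
noncomputable def Qf [Fintype (IrrCharacter G)] (t g : G) : ℂ :=
  ∑ χ : IrrCharacter G, ((χ : G → ℂ) t ^ 2 / (χ : G → ℂ) 1) * (χ : G → ℂ) g

theorem Qf_eq_zero [Fintype (IrrCharacter G)] {t g : G} (ht : t * t = 1)
    (h : ∀ x : G, ¬ IsConj (t * (x * g * x⁻¹)) t) : Qf t g = 0 := by
  classical
  have hc : (Nat.card G : ℂ) ≠ 0 := Nat.cast_ne_zero.mpr Nat.card_pos.ne'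
  have htinv : t⁻¹ = t := inv_eq_of_mul_eq_one_left ht
  have e1 : ∀ χ : IrrCharacter G, ((χ : G → ℂ) t ^ 2 / (χ : G → ℂ) 1) * (χ : G → ℂ) g =
      (Nat.card G : ℂ)⁻¹ * ∑ x : G, (χ : G → ℂ) (t * (x * g * x⁻¹)) * conj ((χ : G → ℂ) t) := by
    intro χ
    have h1 := sum_irr_mul_conj' χ.2 t g
    have h2 : conj ((χ : G → ℂ) t) = (χ : G → ℂ) t := by
      rw [← char_inv (isCharacter_of_isIrrCharacter χ.2), htinv]
    rw [h2, ← Finset.sum_mul, h1]
    have h3 : (χ : G → ℂ) 1 ≠ 0 := irr_one_ne_zero χ.2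
    field_simp
  unfold Qf
  rw [Finset.sum_congr rfl fun χ _ => e1 χ, ← Finset.mul_sum, Finset.sum_comm]
  refine mul_eq_zero_of_right _ (Finset.sum_eq_zero fun x _ => ?_)
  rw [sum_irr_mul_conj, if_neg (h x)]

theorem isClassFunction_Qf [Fintype (IrrCharacter G)] (t : G) : IsClassFunction G (Qf t) := by
  intro g h
  unfold Qf
  refine Finset.sum_congr rfl fun χ _ => ?_
  rw [isClassFunction_of_isIrrCharacter χ.2 g h]

theorem classInner_Qf [Fintype (IrrCharacter G)] (t : G) (ψ : IrrCharacter G) :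
    classInner (Qf t) (ψ : G → ℂ) = (ψ : G → ℂ) t ^ 2 / (ψ : G → ℂ) 1 := by
  classical
  have e : ∀ g : G, Qf t g * conj ((ψ : G → ℂ) g) =
      ∑ χ : IrrCharacter G, ((χ : G → ℂ) t ^ 2 / (χ : G → ℂ) 1) * ((χ : G → ℂ) g * conj ((ψ : G → ℂ) g)) := by
    intro g
    unfold Qf
    rw [Finset.sum_mul]
    refine Finset.sum_congr rfl fun χ _ => ?_
    rw [mul_assoc]
  rw [classInner_def, Finset.sum_congr rfl fun g _ => e g, Finset.sum_comm, Finset.mul_sum]
  rw [Finset.sum_eq_single ψ]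
  · rw [← Finset.mul_sum, mul_left_comm, ← classInner_def, classInner_self_of_isIrr ψ.2, mul_one]
  · intro χ _ hχ
    rw [← Finset.mul_sum, mul_left_comm, ← classInner_def]
    have h1 := classInner_irr χ.2 ψ.2
    rw [h1, if_neg (fun h => hχ (Subtype.ext h)), mul_zero]
  · simp

theorem finsum_block [Fintype (IrrCharacter G)] (B : Set (IrrCharacter G)) [DecidablePred (· ∈ B)]
    (f : IrrCharacter G → ℂ) :
    ∑ᶠ χ ∈ B, f χ = ∑ χ : IrrCharacter G, if χ ∈ B then f χ else 0 := by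
  rw [finsum_mem_def, finsum_eq_sum_of_fintype]
  refine Finset.sum_congr rfl fun χ _ => ?_
  rw [Set.indicator_apply]

/-- Reduction of a relation on the `a_χ` to relations on `χ(u⁻¹)`. -/
theorem sum_a_zero [Fintype (IrrCharacter G)] {P : Subgroup G} [Fintype P] {U : Set G} {θ : P → ℂ}
    (hθU : ∀ y : P, (y : G) ∉ U → θ y = 0) (B : Set (IrrCharacter G)) [DecidablePred (· ∈ B)]
    (c : IrrCharacter G → ℂ)
    (hc : ∀ u : P, (u : G) ∈ U →
      ∑ χ : IrrCharacter G, (if χ ∈ B then (χ : G → ℂ) (u : G)⁻¹ * c χ else 0) = 0) :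
    ∑ χ : IrrCharacter G, (if χ ∈ B then
      ((Nat.card P : ℂ)⁻¹ * ∑ᶠ y : P, (χ : G → ℂ) (y : G) * θ y⁻¹) * c χ else 0) = 0 := by
  have e : ∀ χ : IrrCharacter G, (if χ ∈ B then
      ((Nat.card P : ℂ)⁻¹ * ∑ᶠ y : P, (χ : G → ℂ) (y : G) * θ y⁻¹) * c χ else 0) =
      (Nat.card P : ℂ)⁻¹ * ∑ u : P, θ u * (if χ ∈ B then (χ : G → ℂ) (u : G)⁻¹ * c χ else 0) := by
    intro χ
    by_cases hχ : χ ∈ B
    · simp only [if_pos hχ]
      rw [finsum_eq_sum_of_fintype, ← Equiv.sum_comp (Equiv.inv P), mul_assoc, Finset.sum_mul]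
      congr 1
      refine Finset.sum_congr rfl fun u _ => ?_
      simp only [Equiv.inv_apply, inv_inv, InvMemClass.coe_inv]
      ring
    · simp [if_neg hχ]
  rw [Finset.sum_congr rfl fun χ _ => e χ, ← Finset.mul_sum, Finset.sum_comm]
  refine mul_eq_zero_of_right _ (Finset.sum_eq_zero fun u _ => ?_)
  rw [← Finset.mul_sum]
  by_cases hu : (u : G) ∈ U
  · rw [hc u hu, mul_zero]
  · rw [hθU u hu, zero_mul]

/-- The final step: the kernel of a nontrivial character. -/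
theorem exists_kernel [Fintype (IrrCharacter G)] [Fact (Nat.Prime 2)] (hM : IsPModular 2 M) {t : G} {χ : IrrCharacter G}
    (hχ : χ ∈ principalBlock M G) (hne : χ ≠ oneIrr G) (ht : (χ : G → ℂ) t = (χ : G → ℂ) 1) :
    ∃ K : Subgroup G, K.Normal ∧ K ≠ ⊤ ∧ pPrimeCore 2 G ≤ K ∧ t ∈ K := by
  haveI := isPrime_of_pModular hM
  have hc := isCharacter_of_isIrrCharacter χ.2
  refine ⟨Cfsg.Agent.Lib.Char.Degree.charKer hc, inferInstance, ?_, ?_, ht⟩
  · intro htop
    apply hne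
    have hall : ∀ g : G, (χ : G → ℂ) g = (χ : G → ℂ) 1 := by
      intro g
      have : g ∈ Cfsg.Agent.Lib.Char.Degree.charKer hc := by rw [htop]; exact Subgroup.mem_top g
      exact this
    by_contra hne2
    have h1 := classInner_irr χ.2 (isIrr_one (G := G))
    rw [if_neg (fun h : (χ : G → ℂ) = fun _ => 1 => hne2 (Subtype.ext h)), classInner_def] at h1
    have hc0 : (Nat.card G : ℂ) ≠ 0 := Nat.cast_ne_zero.mpr Nat.card_pos.ne'
    simp only [map_one, mul_one, hall, Finset.sum_const, Finset.card_univ, nsmul_eq_mul] at h1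
    rw [← mul_assoc, ← Nat.card_eq_fintype_card, inv_mul_cancel₀ hc0, one_mul] at h1
    exact irr_one_ne_zero χ.2 h1
  · intro n hn
    have hcop := Cfsg.Agent.Lib.Core.Basic.pPrimeCore_coprime (p := 2) (G := G)
    refine eq_one_of_mem_principal hM (pPrimeCore_normal 2 G) ?_ hχ hn
    intro hdvd
    have := Nat.dvd_gcd hdvd (dvd_refl 2)
    rw [Nat.Coprime.gcd_eq_one hcop] at this
    omega

/-- The core of the last assertion. -/
theorem core_real [Fintype (IrrCharacter G)] [Fact (Nat.Prime 2)] (hM : IsPModular 2 M) {t : G}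
    (S : Finset (IrrCharacter G)) (hS : ∀ χ ∈ S, χ ∈ principalBlock M G) (h1S : oneIrr G ∈ S)
    (A d τ : IrrCharacter G → ℝ) (hd : ∀ χ : IrrCharacter G, (χ : G → ℂ) 1 = (d χ : ℂ))
    (hτ : ∀ χ : IrrCharacter G, (χ : G → ℂ) t = (τ χ : ℂ)) (hdpos : ∀ χ, 0 < d χ)
    (h2 : ∑ i ∈ S, A i * d i = 0) (h3 : ∑ i ∈ S, A i * τ i = 0) (h1 : ∑ i ∈ S, A i * (τ i ^ 2 / d i) = 0)
    (hA1 : A (oneIrr G) ≠ 0) {χ₀ : IrrCharacter G} (hχ₀ : χ₀ ∈ S)
    (hneg : ∀ χ ∈ S, χ ≠ χ₀ → A χ ≤ 0) :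
    ∃ K : Subgroup G, K.Normal ∧ K ≠ ⊤ ∧ pPrimeCore 2 G ≤ K ∧ t ∈ K := by
  classical
  have hd1 : d (oneIrr G) = 1 := by
    have := hd (oneIrr G)
    simp only [oneIrr_apply] at this
    exact_mod_cast this.symm
  have hτ1 : τ (oneIrr G) = 1 := by
    have := hτ (oneIrr G)
    simp only [oneIrr_apply] at this
    exact_mod_cast this.symm
  obtain ⟨χ, hχS, hχne, hχA⟩ : ∃ χ ∈ S, χ ≠ oneIrr G ∧ A χ ≠ 0 := by
    by_contra hcon
    push Not at hcon
    have h4 : ∑ i ∈ S, A i * d i = A (oneIrr G) * d (oneIrr G) := by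
      refine Finset.sum_eq_single_of_mem _ h1S fun χ hχ hne => ?_
      rw [hcon χ hχ hne, zero_mul]
    rw [h4, hd1, mul_one] at h2
    exact hA1 h2
  have hv := fun i (hi : i ∈ S) (hA : A i ≠ 0) =>
    variance_lemma S A d τ (fun j _ => hdpos j) h2 h3 h1 hχ₀ hneg hi hA
  have h5 := hv _ h1S hA1
  have h6 := hv _ hχS hχA
  rw [hd1, hτ1, div_one] at h5
  rw [← h5] at h6
  have h7 : τ χ = d χ := by
    rwa [div_eq_one_iff_eq (hdpos χ).ne'] at h6
  exact exists_kernel hM (hS χ hχS) hχne (by rw [hτ, hd, h7])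

theorem exists_single {ι : Type*} [Finite ι] (X : ι → Prop) (hcard : ¬ 2 ≤ Nat.card {i // X i}) (i₁ : ι)
    (S : Set ι) (hi₁ : i₁ ∈ S) (hX : ∀ i, X i → i ∈ S) : ∃ i₀ ∈ S, ∀ i, i ≠ i₀ → ¬ X i := by
  have hs : Subsingleton {i // X i} := by
    rw [← Finite.card_le_one_iff_subsingleton]
    omega
  by_cases hne : ∃ i, X i
  · obtain ⟨i₀, hi₀⟩ := hne
    refine ⟨i₀, hX _ hi₀, fun i hi hXi => hi ?_⟩
    exact congrArg Subtype.val (hs.elim ⟨i, hXi⟩ ⟨i₀, hi₀⟩)
  · push Not at hne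
    exact ⟨i₁, hi₁, fun i _ => hne i⟩

/-- Let M be a maximal ideal of the algebraic integers containing 2, P a 2-subgroup of the finite group G, U a subset of P, and t an involution of G such that no element of U is inverted by any conjugate of t. Let θ be a generalized character of P vanishing outside U, and for χ in the principal 2-block B₀ put a_χ = #P⁻¹ Σ_{y ∈ P} χ(y) θ(y⁻¹). Then Σ_{χ ∈ B₀} a_χ χ(t)^2/χ(1) = 0, Σ_{χ ∈ B₀} a_χ χ(1) = 0 and Σ_{χ ∈ B₀} a_χ χ(t) = 0. If moreover #P⁻¹ Σ_{y ∈ P} θ(y) ≠ 0, then either at least two of the a_χ have positive real part and at least two have negative real part, or G has a proper normal subgroup containing O_2'(G) and t. -/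
theorem result {G : Type*} [Group G] [Finite G] (M : Ideal Cfsg.AlgInt) (hM : Cfsg.IsPModular 2 M) (P : Subgroup G) (hP : IsPGroup 2 P) (U : Set G) (hUP : U ⊆ (P : Set G)) (t : G) (ht : orderOf t = 2) (hinv : ∀ u ∈ U, ∀ g : G, (g * t * g⁻¹) * u * (g * t * g⁻¹)⁻¹ ≠ u⁻¹) (θ : ↥P → ℂ) (hθ : Cfsg.IsGeneralizedCharacter ↥P θ) (hθU : ∀ y : ↥P, (y : G) ∉ U → θ y = 0) : (∑ᶠ χ ∈ Cfsg.principalBlock M G, ((Nat.card ↥P : ℂ)⁻¹ * ∑ᶠ y : ↥P, (χ : G → ℂ) (y : G) * θ y⁻¹) * (χ : G → ℂ) t ^ 2 / (χ : G → ℂ) 1 = 0) ∧ (∑ᶠ χ ∈ Cfsg.principalBlock M G, ((Nat.card ↥P : ℂ)⁻¹ * ∑ᶠ y : ↥P, (χ : G → ℂ) (y : G) * θ y⁻¹) * (χ : G → ℂ) 1 = 0) ∧ (∑ᶠ χ ∈ Cfsg.principalBlock M G, ((Nat.card ↥P : ℂ)⁻¹ * ∑ᶠ y : ↥P, (χ : G → ℂ) (y : G) * θ y⁻¹) * (χ : G → ℂ) t = 0) ∧ ((Nat.card ↥P : ℂ)⁻¹ * ∑ᶠ y : ↥P, θ y ≠ 0 → (2 ≤ Nat.card {χ : Cfsg.IrrCharacter G // χ ∈ Cfsg.principalBlock M G ∧ 0 < (((Nat.card ↥P : ℂ)⁻¹ * ∑ᶠ y : ↥P, (χ : G → ℂ) (y : G) * θ y⁻¹)).re} ∧ 2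 ≤ Nat.card {χ : Cfsg.IrrCharacter G // χ ∈ Cfsg.principalBlock M G ∧ (((Nat.card ↥P : ℂ)⁻¹ * ∑ᶠ y : ↥P, (χ : G → ℂ) (y : G) * θ y⁻¹)).re < 0}) ∨ ∃ K : Subgroup G, K.Normal ∧ K ≠ ⊤ ∧ Cfsg.pPrimeCore 2 G ≤ K ∧ t ∈ K) := by
  classical
  cases nonempty_fintype G
  haveI := isPrime_of_pModular hM
  haveI := finite_irrCharacter (G := G)
  letI := Fintype.ofFinite (IrrCharacter G)
  letI : Fintype ↥P := Fintype.ofFinite _
  haveI : Fact (Nat.Prime 2) := ⟨Nat.prime_two⟩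
  have htt : t * t = 1 := by
    rw [← pow_two, ← ht]
    exact pow_orderOf_eq_one t
  have htinv : t⁻¹ = t := inv_eq_of_mul_eq_one_left htt
  have hU1 : ∀ u ∈ U, u ≠ 1 := by
    rintro u hu rfl
    exact hinv 1 hu 1 (by simp)
  have hr1 : ¬ 2 ∣ orderOf (1 : G) := by
    rw [orderOf_one]
    norm_num
  have hel : ∀ u ∈ U, IsPPart 2 u⁻¹ u⁻¹ := by
    intro u hu
    obtain ⟨k, hk⟩ := (IsPGroup.iff_orderOf.mp hP) ⟨u, hUP hu⟩
    refine ⟨1, mul_one _, Commute.one_right _, ⟨k, ?_⟩, hr1⟩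
    rw [orderOf_inv, ← hk]
    have := Subgroup.orderOf_coe (⟨u, hUP hu⟩ : ↥P)
    exact this.symm ▸ rfl
  have hp1 : IsPPart 2 (1 : G) 1 := ⟨1, mul_one _, Commute.one_right _, ⟨0, by simp⟩, hr1⟩
  have hpt : IsPPart 2 t t := ⟨1, mul_one _, Commute.one_right _, ⟨1, by rw [ht, pow_one]⟩, hr1⟩
  have hB₀ : IsPBlock M (principalBlock M G) := isPBlock_principal M
  have rel2 : ∀ u : ↥P, (u : G) ∈ U → ∑ χ : IrrCharacter G, (if χ ∈ principalBlock M G then
      (χ : G → ℂ) (u : G)⁻¹ * (χ : G → ℂ) 1 else 0) = 0 := by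
    intro u hu
    have hn : ¬ IsConj (u : G)⁻¹ 1 := by
      intro hc
      have := isConj_one_right.mp hc.symm
      exact hU1 _ hu (inv_eq_one.mp this)
    have h := block_orthogonality_section hM (hel _ hu) hp1 hn hB₀
    rw [finsum_block, inv_one] at h
    exact h
  have rel3 : ∀ u : ↥P, (u : G) ∈ U → ∑ χ : IrrCharacter G, (if χ ∈ principalBlock M G then
      (χ : G → ℂ) (u : G)⁻¹ * (χ : G → ℂ) t else 0) = 0 := by
    intro u hu
    have hn : ¬ IsConj (u : G)⁻¹ t := by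
      intro hc
      obtain ⟨c, hc⟩ := isConj_iff.mp hc
      have h1 : c⁻¹ * t * c⁻¹⁻¹ = (u : G)⁻¹ := by
        rw [← hc]
        group
      have h2 : (u : G)⁻¹ * (u : G)⁻¹ = 1 := by
        rw [← h1]
        have : c⁻¹ * t * c⁻¹⁻¹ * (c⁻¹ * t * c⁻¹⁻¹) = c⁻¹ * (t * t) * c := by group
        rw [this, htt]
        group
      have h3 : (u : G) = (u : G)⁻¹ := by
        have := inv_eq_of_mul_eq_one_left h2
        rw [inv_inv] at this
        exact this
      apply hinv _ hu c⁻¹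
      rw [h1, inv_inv, inv_mul_cancel, one_mul]
      exact h3
    have h := block_orthogonality_section hM (hel _ hu) hpt hn hB₀
    rw [finsum_block, htinv] at h
    exact h
  have rel1 : ∀ u : ↥P, (u : G) ∈ U → ∑ χ : IrrCharacter G, (if χ ∈ principalBlock M G then
      (χ : G → ℂ) (u : G)⁻¹ * ((χ : G → ℂ) t ^ 2 / (χ : G → ℂ) 1) else 0) = 0 := by
    intro u hu
    have hvan : ∀ a z : G, IsPPart 2 a z → IsConj (u : G)⁻¹ z → Qf t a = 0 := by
      intro a z haz hz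
      apply Qf_eq_zero htt
      intro x hc
      obtain ⟨c, hc⟩ := isConj_iff.mp hc
      set g' := x * a * x⁻¹ with hg'
      set s := c⁻¹ * t * c with hs
      have hts : t * g' = s := by
        have h0 : t * g' = c⁻¹ * (c * (t * g') * c⁻¹) * c := by group
        rw [h0, hc]
      have hss : s * s = 1 := by
        rw [hs]
        have : c⁻¹ * t * c * (c⁻¹ * t * c) = c⁻¹ * (t * t) * c := by group
        rw [this, htt]
        group
      have hsinv : s⁻¹ = s := inv_eq_of_mul_eq_one_left hss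
      have hg's : g' = t * s := by
        rw [← hts, ← mul_assoc, htt, one_mul]
      have hinvg : t * g' * t⁻¹ = g'⁻¹ := by
        rw [hts, hg's, mul_inv_rev, hsinv, htinv]
      have hpart := isPPart_conj haz x
      have h1 := inverts_pPart hpart hinvg
      obtain ⟨d, hd⟩ := isConj_iff.mp hz
      set e := x * d with he
      have h2 : x * z * x⁻¹ = e * (u : G)⁻¹ * e⁻¹ := by
        rw [← hd, he]
        group
      rw [h2] at h1
      apply hinv _ hu e⁻¹
      rw [inv_inv]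
      have h3 : t * (e * (u : G)⁻¹ * e⁻¹) * t⁻¹ = e * (u : G) * e⁻¹ := by
        rw [h1]
        group
      have h4 : (e⁻¹ * t * e) * (u : G)⁻¹ * (e⁻¹ * t * e)⁻¹ = u := by
        have : (e⁻¹ * t * e) * (u : G)⁻¹ * (e⁻¹ * t * e)⁻¹ =
            e⁻¹ * (t * (e * (u : G)⁻¹ * e⁻¹) * t⁻¹) * e := by group
        rw [this, h3]
        group
      have h5 : ((e⁻¹ * t * e) * (u : G)⁻¹ * (e⁻¹ * t * e)⁻¹)⁻¹ = (u : G)⁻¹ := by rw [h4]
      rw [← h5]
      group
    have h := blockPart_eq_zero_of_section hM (isClassFunction_Qf t) hvan hB₀ (hel _ hu) (IsConj.refl _)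
    rw [blockPart_apply] at h
    refine Eq.trans ?_ h
    refine Finset.sum_congr rfl fun χ _ => ?_
    split_ifs
    · rw [classInner_Qf, mul_comm]
    · rfl
  have R2 := sum_a_zero hθU (principalBlock M G) _ rel2
  have R3 := sum_a_zero hθU (principalBlock M G) _ rel3
  have R1 := sum_a_zero hθU (principalBlock M G) _ rel1
  refine ⟨?_, ?_, ?_, ?_⟩
  · rw [finsum_block]
    refine Eq.trans ?_ R1
    refine Finset.sum_congr rfl fun χ _ => ?_
    split_ifs
    · rw [mul_div_assoc]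
    · rfl
  · rw [finsum_block]
    exact R2
  · rw [finsum_block]
    exact R3
  · intro hne
    obtain ⟨χ₁, χ₂, h₁, h₂, hθe⟩ := hθ
    have hθconj : ∀ y : ↥P, conj (θ y) = θ y⁻¹ := by
      intro y
      rw [hθe]
      simp only [Pi.sub_apply, map_sub]
      rw [char_inv h₁ y, char_inv h₂ y]
    set a : IrrCharacter G → ℂ := fun χ => (Nat.card ↥P : ℂ)⁻¹ * ∑ᶠ y : ↥P, (χ : G → ℂ) (y : G) * θ y⁻¹
      with ha
    have hreal : ∀ χ, conj (a χ) = a χ := by
      intro χ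
      simp only [ha]
      rw [map_mul, map_inv₀, Complex.conj_natCast, finsum_eq_sum_of_fintype, map_sum]
      congr 1
      rw [← Equiv.sum_comp (Equiv.inv ↥P)]
      refine Finset.sum_congr rfl fun y _ => ?_
      simp only [Equiv.inv_apply, inv_inv, map_mul, InvMemClass.coe_inv]
      rw [hθconj, ← char_inv (isCharacter_of_isIrrCharacter χ.2), inv_inv]
    set A : IrrCharacter G → ℝ := fun χ => (a χ).re with hA
    have hAc : ∀ χ, ((A χ : ℝ) : ℂ) = a χ := fun χ => Complex.conj_eq_iff_re.mp (hreal χ)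
    set d : IrrCharacter G → ℝ := fun χ => ((χ : G → ℂ) 1).re with hdd
    have hd : ∀ χ : IrrCharacter G, (χ : G → ℂ) 1 = (d χ : ℂ) := fun χ =>
      (Complex.conj_eq_iff_re.mp (conj_deg (isCharacter_of_isIrrCharacter χ.2))).symm
    set τ : IrrCharacter G → ℝ := fun χ => ((χ : G → ℂ) t).re with hττ
    have hτ : ∀ χ : IrrCharacter G, (χ : G → ℂ) t = (τ χ : ℂ) := by
      intro χ
      refine (Complex.conj_eq_iff_re.mp ?_).symm
      rw [← char_inv (isCharacter_of_isIrrCharacter χ.2), htinv]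
    have hdpos : ∀ χ, 0 < d χ := by
      intro χ
      have h1 := deg_eq_norm (isCharacter_of_isIrrCharacter χ.2)
      have h2 : d χ = ‖(χ : G → ℂ) 1‖ := by
        simp only [hdd]
        conv_lhs => rw [h1]
        simp
      rw [h2]
      exact norm_pos_iff.mpr (irr_one_ne_zero χ.2)
    set S : Finset (IrrCharacter G) := Finset.univ.filter (· ∈ principalBlock M G) with hS
    have hSm : ∀ χ ∈ S, χ ∈ principalBlock M G := fun χ hχ => (Finset.mem_filter.mp hχ).2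
    have h1B : oneIrr G ∈ principalBlock M G := mem_blockOf_self (oneIrr G)
    have h1S : oneIrr G ∈ S := Finset.mem_filter.mpr ⟨Finset.mem_univ _, h1B⟩
    have H2 : ∑ i ∈ S, A i * d i = 0 := by
      apply Complex.ofReal_injective
      push_cast
      rw [hS, Finset.sum_filter]
      refine Eq.trans ?_ R2
      refine Finset.sum_congr rfl fun χ _ => ?_
      split_ifs
      · rw [hAc, ← hd]
      · rfl
    have H3 : ∑ i ∈ S, A i * τ i = 0 := by
      apply Complex.ofReal_injective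
      push_cast
      rw [hS, Finset.sum_filter]
      refine Eq.trans ?_ R3
      refine Finset.sum_congr rfl fun χ _ => ?_
      split_ifs
      · rw [hAc, ← hτ]
      · rfl
    have H1 : ∑ i ∈ S, A i * (τ i ^ 2 / d i) = 0 := by
      apply Complex.ofReal_injective
      push_cast
      rw [hS, Finset.sum_filter]
      refine Eq.trans ?_ R1
      refine Finset.sum_congr rfl fun χ _ => ?_
      split_ifs
      · rw [hAc, ← hτ, ← hd]
      · rfl
    have hA1 : A (oneIrr G) ≠ 0 := by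
      intro h0
      have h1 : a (oneIrr G) = 0 := by rw [← hAc, h0]; simp
      apply hne
      have h2 : ∑ᶠ y : ↥P, θ y = ∑ᶠ y : ↥P, ((oneIrr G : IrrCharacter G) : G → ℂ) (y : G) * θ y⁻¹ := by
        rw [finsum_eq_sum_of_fintype, finsum_eq_sum_of_fintype, ← Equiv.sum_comp (Equiv.inv ↥P)]
        refine Finset.sum_congr rfl fun y _ => ?_
        simp
      rw [h2]
      exact h1
    by_cases hK : ∃ K : Subgroup G, K.Normal ∧ K ≠ ⊤ ∧ pPrimeCore 2 G ≤ K ∧ t ∈ K
    · exact Or.inr hK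
    · left
      constructor
      · by_contra hc
        obtain ⟨χ₀, hχ₀, hall⟩ := exists_single (fun χ => χ ∈ principalBlock M G ∧ 0 < A χ) hc (oneIrr G)
          (S : Set (IrrCharacter G)) h1S (fun χ hχ => Finset.mem_filter.mpr ⟨Finset.mem_univ _, hχ.1⟩)
        apply hK
        refine core_real hM S hSm h1S A d τ hd hτ hdpos H2 H3 H1 hA1 hχ₀ ?_
        intro χ hχ hne'
        have := hall χ hne'
        push Not at this
        exact this (hSm χ hχ)
      · by_contra hc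
        obtain ⟨χ₀, hχ₀, hall⟩ := exists_single (fun χ => χ ∈ principalBlock M G ∧ A χ < 0) hc (oneIrr G)
          (S : Set (IrrCharacter G)) h1S (fun χ hχ => Finset.mem_filter.mpr ⟨Finset.mem_univ _, hχ.1⟩)
        apply hK
        refine core_real hM S hSm h1S (fun χ => - A χ) d τ hd hτ hdpos ?_ ?_ ?_ (neg_ne_zero.mpr hA1) hχ₀ ?_
        · simp only [neg_mul]
          rw [Finset.sum_neg_distrib, H2, neg_zero]
        · simp only [neg_mul]
          rw [Finset.sum_neg_distrib, H3, neg_zero]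
        · simp only [neg_mul]
          rw [Finset.sum_neg_distrib, H1, neg_zero]
        · intro χ hχ hne'
          have := hall χ hne'
          push Not at this
          have h5 := this (hSm χ hχ)
          simpa using h5

end Cfsg.Agent.S4722
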