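import Cfsg.Statements.S4727
import Cfsg.Agent.Lib.BlockPi.Main

set_option autoImplicit false
open Cfsg

namespace Cfsg.Agent.S4727

open Cfsg.Agent.Lib.BlockPi.Top Cfsg.Agent.Lib.BlockPi.Chain Cfsg.Agent.Lib.BlockPi.Main Cfsg.Agent.Lib.BlockH.Transport Cfsg.Agent.Lib.Blocks.Central Cfsg.Agent.Lib.Blocks.Local Cfsg.Agent.Lib.Blocks.Induced Cfsg.Agent.Lib.BlockH.BrauerMap Cfsg.Agent.Lib.BlockH.Subpair Cfsg.Agent.Lib.Blocks.Main

/-- Let p be a prime, π a set of primes containing p, M a maximal ideal of the algebraic integers containing p, and B a p-block of the finite group G with defect group D; let B₁ be the block of N_G(D) with defect group D that induces B (the Brauer correspondent of B). Suppose every element of O_π'(N_G(D)), the largest normal subgroup of N_G(D) whose order has no prime divisor in π, lies in the kernel of every member of B₁. If y is a p-element whose centralizer C has a normal Hall π'-subgroup (every element of C whose order has no prime divisor in π lies in O_π'(C)),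 then χ(y x) = χ(y) for every χ ∈ B and every x ∈ C whose order has no prime divisor in π. -/
theorem result {G : Type*} [Group G] [Finite G] (p : ℕ) [Fact p.Prime] (M : Ideal Cfsg.AlgInt) (hM : Cfsg.IsPModular p M) (π : Set ℕ) (hpπ : p ∈ π) (B : Set (Cfsg.IrrCharacter G)) (hB : Cfsg.IsPBlock M B) (D : Subgroup G) (hBD : Cfsg.IsDefectGroup p M B D) (B₁ : Set (Cfsg.IrrCharacter ↥(Subgroup.normalizer (D : Set G)))) (hB₁ : Cfsg.IsInducedBlock M (Subgroup.normalizer (D : Set G)) B₁ B) (hB₁D : Cfsg.IsDefectGroup p M B₁ (D.subgroupOf (Subgroup.normalizer (D : Set G)))) (hker : ∀ n : ↥(Subgroup.normalizer (D : Set G)), n ∈ Cfsg.piCore {q | q ∉ π} ↥(Subgroup.normalizer (D : Set G)) → n ∈ Cfsg.blockKer B₁) (y : G) (hy : ∃ k : ℕ, orderOf y = p ^ k) (hC : ∀ x : ↥(Subgroup.centralizer ({y} : Set G)), (∀ q : ℕ, q.Prime → q ∣ orderOf x → q ∉ π) → x ∈ Cfsg.piCore {q | q ∉ π} ↥(Subgroup.centralizer ({y} : Set G))) : ∀ χ ∈ B, ∀ x : G, x ∈ Subgroup.centralizer ({y} : Set G) → (∀ q : ℕ, q.Prime → q ∣ orderOf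 x → q ∉ π) → (χ : G → ℂ) (y * x) = (χ : G → ℂ) y := by
  classical
  have hp : p.Prime := Fact.out
  letI := Fintype.ofFinite G
  haveI := isPrime_of_pModular hM
  have hpτ : p ∉ {q | q ∉ π} := by simpa using hpπ
  haveI := Cfsg.Agent.Lib.Char.Ortho.finite_irrCharacter (G := G)
  letI : Fintype (Cfsg.IrrCharacter G) := Fintype.ofFinite _
  letI : Fintype (Subgroup.centralizer ({y} : Set G)) := Fintype.ofFinite _
  haveI := Cfsg.Agent.Lib.Char.Ortho.finite_irrCharacter (G := Subgroup.centralizer ({y} : Set G))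
  letI : Fintype (Cfsg.IrrCharacter (Subgroup.centralizer ({y} : Set G))) := Fintype.ofFinite _
  letI : Fintype (Subgroup.centralizer ((Subgroup.zpowers y : Subgroup G) : Set G)) := Fintype.ofFinite _
  have hCP : Subgroup.centralizer ((Subgroup.zpowers y : Subgroup G) : Set G) = Subgroup.centralizer ({y} : Set G) :=
    Cfsg.Agent.Lib.Blocks.Main.centralizer_zpowers_eq y
  have hPp : IsPGroup p (Subgroup.zpowers y) := Cfsg.Agent.Lib.Blocks.Main.isPGroup_zpowers_of_order hy
  have hPK : Subgroup.zpowers y ≤ Subgroup.centralizer ({y} : Set G) := by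
    rw [Subgroup.zpowers_le]
    simp [Subgroup.mem_centralizer_iff]
  have hI : ∀ f : Set (Cfsg.IrrCharacter (Subgroup.centralizer ({y} : Set G))),
      Cfsg.IsInducedBlock M (Subgroup.centralizer ({y} : Set G)) f B → ∀ ψ ∈ f,
      ∀ u : Subgroup.centralizer ({y} : Set G), u ∈ Cfsg.piCore {q | q ∉ π} (Subgroup.centralizer ({y} : Set G)) →
        (ψ : Subgroup.centralizer ({y} : Set G) → ℂ) u = (ψ : Subgroup.centralizer ({y} : Set G) → ℂ) 1 := by
    intro f hf
    obtain ⟨ψ₀, hψ₀⟩ := isPBlock_nonempty hf.1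
    let E : Subgroup.centralizer ((Subgroup.zpowers y : Subgroup G) : Set G) ≃* Subgroup.centralizer ({y} : Set G) :=
      MulEquiv.subgroupCongr hCP
    refine ker_of_induced hM hpτ hB hBD hB₁ hB₁D hker hf hPp hPK hCP.le (irrMap E.symm ψ₀) ?_
    have h1 : brH (Subgroup.zpowers y) (irrMap E.symm ψ₀) (subIdem (Subgroup.centralizer ({y} : Set G)) f) = 1 := by
      have h2 : omegaHom ψ₀ (idem f) = 1 := by
        rw [omegaHom_idem, if_pos hψ₀]
      rw [← h2, omegaHom_apply, brH, omega, lin_apply, lin_apply]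
      have h3 : ((irrMap E.symm ψ₀ : Cfsg.IrrCharacter _) : Subgroup.centralizer ((Subgroup.zpowers y : Subgroup G) : Set G) → ℂ) 1 =
          (ψ₀ : Subgroup.centralizer ({y} : Set G) → ℂ) 1 := by
        rw [irrMap_apply, MulEquiv.symm_symm, map_one]
      rw [h3]
      congr 1
      rw [← Equiv.sum_comp E.toEquiv]
      refine Finset.sum_congr rfl fun c _ => ?_
      rw [coeff_restr, irrMap_apply, MulEquiv.symm_symm, coeff_subIdem_of_mem _ f (show ((c : G)) ∈ Subgroup.centralizer ({y} : Set G) from (E c).2)]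
      rfl
    rw [h1, sub_self]
    exact memLocalIdeal_zero
  intro χ hχ x hxC hxo
  set x₀ : Subgroup.centralizer ({y} : Set G) := ⟨x, hxC⟩ with hx₀
  have hx₀core : x₀ ∈ Cfsg.piCore {q | q ∉ π} (Subgroup.centralizer ({y} : Set G)) := by
    apply hC
    rw [hx₀, Subgroup.orderOf_mk]
    exact hxo
  have hx₀reg : ¬ p ∣ orderOf x₀ := by
    rw [hx₀, Subgroup.orderOf_mk]
    exact fun h => hxo p hp h hpπ
  have h1reg : ¬ p ∣ orderOf (1 : Subgroup.centralizer ({y} : Set G)) := by
    rw [orderOf_one]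
    exact fun h => hp.one_lt.ne' (Nat.dvd_one.mp h)
  let F : Subgroup.centralizer ({y} : Set G) → ℂ := fun c => (χ : G → ℂ) (y * (c : G))
  have hxc : ∀ c : Subgroup.centralizer ({y} : Set G), y * (c : G) = (c : G) * y := by
    intro c
    have : (c : G) ∈ Subgroup.centralizer ({y} : Set G) := c.2
    simp only [Subgroup.mem_centralizer_iff, Set.mem_singleton_iff, forall_eq] at this
    exact this
  have hcl : Cfsg.IsClassFunction (Subgroup.centralizer ({y} : Set G)) F := by
    intro g h
    show (χ : G → ℂ) (y * ((h * g * h⁻¹ : Subgroup.centralizer ({y} : Set G)) : G)) = (χ : G → ℂ) (y * (g : G))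
    have e : y * ((h * g * h⁻¹ : Subgroup.centralizer ({y} : Set G)) : G) = (h : G) * (y * (g : G)) * (h : G)⁻¹ := by
      push_cast
      rw [← mul_assoc, ← mul_assoc, hxc h]
      group
    rw [e]
    exact Cfsg.Agent.Lib.Char.Basic.isClassFunction_of_isIrrCharacter χ.2 _ _
  letI : Fintype {b : Set (Cfsg.IrrCharacter (Subgroup.centralizer ({y} : Set G))) // Cfsg.IsPBlock M b} := Fintype.ofFinite _
  have hsum : ∀ c : Subgroup.centralizer ({y} : Set G), ∑ b : {b : Set (Cfsg.IrrCharacter (Subgroup.centralizer ({y} : Set G))) // Cfsg.IsPBlock M b},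
      Cfsg.blockPart (b : Set (Cfsg.IrrCharacter (Subgroup.centralizer ({y} : Set G)))) F c = F c := by
    intro c
    have h1 := congrArg (fun z : Subalgebra.center ℂ (GA (Subgroup.centralizer ({y} : Set G))) => lin (fun k => F (k * c)) (z : GA _))
      (sum_idem_blocks (M := M) (G := Subgroup.centralizer ({y} : Set G)))
    simp only [lin_one, one_mul, OneMemClass.coe_one, AddSubmonoidClass.coe_finset_sum, map_sum] at h1
    rw [← h1]
    refine Finset.sum_congr rfl fun b _ => ?_
    rw [blockPart_eq_sum_idem _ hcl, lin_apply]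
    refine Finset.sum_congr rfl fun k _ => ?_
    rw [coeff_idem]
  have hterm : ∀ b : {b : Set (Cfsg.IrrCharacter (Subgroup.centralizer ({y} : Set G))) // Cfsg.IsPBlock M b},
      Cfsg.blockPart (b : Set (Cfsg.IrrCharacter (Subgroup.centralizer ({y} : Set G)))) F x₀ =
      Cfsg.blockPart (b : Set (Cfsg.IrrCharacter (Subgroup.centralizer ({y} : Set G)))) F 1 := by
    rintro ⟨b, hb⟩
    by_cases hind : Cfsg.IsInducedBlock M (Subgroup.centralizer ({y} : Set G)) b B
    · show Cfsg.blockPart b F x₀ = Cfsg.blockPart b F 1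
      rw [blockPart_apply, blockPart_apply]
      refine Finset.sum_congr rfl fun ξ _ => ?_
      by_cases hξ : ξ ∈ b
      · rw [if_pos hξ, if_pos hξ, hI b hind ξ hξ x₀ hx₀core]
      · rw [if_neg hξ, if_neg hξ]
    · show Cfsg.blockPart b F x₀ = Cfsg.blockPart b F 1
      rw [second_main hM hy hB hχ hb hind x₀ hx₀reg, second_main hM hy hB hχ hb hind 1 h1reg]
  have h1 := hsum x₀
  rw [Finset.sum_congr rfl (fun b _ => hterm b), hsum 1] at h1
  have h2 : F 1 = (χ : G → ℂ) y := by
    show (χ : G → ℂ) (y * ((1 : Subgroup.centralizer ({y} : Set G)) : G)) = _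
    simp
  rw [h2] at h1
  exact h1.symm

end Cfsg.Agent.S4727
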