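import Cfsg.Statements.S4728
import Cfsg.Agent.Lib.BlockPi.Main

set_option autoImplicit false
open Cfsg

namespace Cfsg.Agent.S4728

open Cfsg.Agent.Lib.BlockPi.Top Cfsg.Agent.Lib.BlockPi.Chain Cfsg.Agent.Lib.BlockPi.Main Cfsg.Agent.Lib.BlockH.Transport Cfsg.Agent.Lib.Blocks.Central Cfsg.Agent.Lib.Blocks.Local Cfsg.Agent.Lib.Blocks.Induced

/-- Let p be a prime, π a set of primes containing p, M a maximal ideal of the algebraic integers containing p, B a p-block of the finite group G with defect group D, and B₁ the block of N_G(D) with defect group D inducing B. Let D₀ be a p-subgroup, H₀ = D₀·C_G(D₀), and b a block of H₀ inducing B. Write O_π'(X) for the largest normal subgroup of X whose order has no prime divisor in π. Suppose that O_π'(C_G(D₀)) is a normal Hall π'-subgroup of C_G(D₀) (it contains every element of C_G(D₀) whose order has no prime divisor in π) and that every element of it lies in the kernel of every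 member of b. Then every element of O_π'(N_G(D)) lies in the kernel of every member of B₁. -/
theorem result {G : Type*} [Group G] [Finite G] (p : ℕ) [Fact p.Prime] (M : Ideal Cfsg.AlgInt) (hM : Cfsg.IsPModular p M) (π : Set ℕ) (hpπ : p ∈ π) (B : Set (Cfsg.IrrCharacter G)) (hB : Cfsg.IsPBlock M B) (D : Subgroup G) (hBD : Cfsg.IsDefectGroup p M B D) (B₁ : Set (Cfsg.IrrCharacter ↥(Subgroup.normalizer (D : Set G)))) (hB₁ : Cfsg.IsInducedBlock M (Subgroup.normalizer (D : Set G)) B₁ B) (hB₁D : Cfsg.IsDefectGroup p M B₁ (D.subgroupOf (Subgroup.normalizer (D : Set G)))) (D₀ : Subgroup G) (hD₀ : IsPGroup p D₀) (H₀ : Subgroup G) (hH₀ : H₀ = D₀ ⊔ Subgroup.centralizer (D₀ : Set G)) (b : Set (Cfsg.IrrCharacter ↥H₀)) (hb : Cfsg.IsInducedBlock M H₀ b B) (hcompl : ∀ x : ↥(Subgroup.centralizer (D₀ : Set G)), (∀ q : ℕ, q.Prime → q ∣ orderOf x → q ∉ π) → x ∈ Cfsg.piCore {q | q ∉ π} ↥(Subgroup.centralizer (D₀ : Set G))) (hkerb : ∀ x : ↥(Subgroup.centralizer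 (D₀ : Set G)), x ∈ Cfsg.piCore {q | q ∉ π} ↥(Subgroup.centralizer (D₀ : Set G)) → ∀ θ ∈ b, ∀ h : ↥H₀, (h : G) = (x : G) → (θ : ↥H₀ → ℂ) h = (θ : ↥H₀ → ℂ) 1) : ∀ n : ↥(Subgroup.normalizer (D : Set G)), n ∈ Cfsg.piCore {q | q ∉ π} ↥(Subgroup.normalizer (D : Set G)) → n ∈ Cfsg.blockKer B₁ := by
  classical

  have hp : p.Prime := Fact.out
  letI := Fintype.ofFinite G
  haveI := isPrime_of_pModular hM
  subst hH₀
  letI : Fintype ↥(D₀ ⊔ Subgroup.centralizer (D₀ : Set G)) := Fintype.ofFinite _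
  letI : Fintype (Subgroup.centralizer (D₀ : Set G)) := Fintype.ofFinite _
  letI : Fintype (cenIn D₀ (D₀ ⊔ Subgroup.centralizer (D₀ : Set G))) := Fintype.ofFinite _
  haveI := Cfsg.Agent.Lib.Char.Ortho.finite_irrCharacter (G := G)
  letI : Fintype (Cfsg.IrrCharacter G) := Fintype.ofFinite _
  have hpτ : p ∉ {q | q ∉ π} := by simpa using hpπ
  have hPb := Cfsg.Agent.Lib.Blocks.Inducing.isBrauerPair_sup hD₀
  haveI hY := cenIn_normal hPb
  obtain ⟨θ, hθ⟩ := isPBlock_nonempty hb.1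
  obtain ⟨ξ₂, hcon⟩ := Cfsg.Agent.Lib.BlockT.NormalP.exists_constituent (N := cenIn D₀ (D₀ ⊔ Subgroup.centralizer (D₀ : Set G))) θ
  set ξ := irrMap (cenEquiv hPb) ξ₂ with hξ
  have hξ₂ : irrMap (cenEquiv hPb).symm ξ = ξ₂ := (irrEquiv (cenEquiv hPb)).left_inv ξ₂
  have hcon2 : Cfsg.classInner (fun n : cenIn D₀ (D₀ ⊔ Subgroup.centralizer (D₀ : Set G)) => (θ : ↥(D₀ ⊔ Subgroup.centralizer (D₀ : Set G)) → ℂ) n)
      ((irrMap (cenEquiv hPb).symm ξ : Cfsg.IrrCharacter _) : cenIn D₀ (D₀ ⊔ Subgroup.centralizer (D₀ : Set G)) → ℂ) ≠ 0 := by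
    rw [hξ₂]
    exact hcon
  have hel : idem B ∈ localCenter M G := idem_mem_localCenter hB
  have h2 := indHom_sub_brH_of_constituent hM hPb θ ξ hcon2 hel
  obtain ⟨χ, hχ⟩ := isPBlock_nonempty hB
  have h3 := IsInducedBlock.sub_mem _ hb hθ hχ hel
  rw [omegaHom_idem, if_pos hχ] at h3
  have h1 : MemLocalIdeal M (Cfsg.Agent.Lib.BlockH.BrauerMap.brH D₀ ξ (idem B : GA G) - 1) := by
    have h4 := memLocalIdeal_sub h3 h2
    convert h4 using 1
    ring
  have hpair := isBrauerPairOf_blockOf hM hD₀ hB ξ h1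
  have hkξ : ∀ u : Subgroup.centralizer (D₀ : Set G), u ∈ Cfsg.piCore {q | q ∉ π} (Subgroup.centralizer (D₀ : Set G)) →
      (ξ : Subgroup.centralizer (D₀ : Set G) → ℂ) u = (ξ : Subgroup.centralizer (D₀ : Set G) → ℂ) 1 := by
    let T : Subgroup ↥(D₀ ⊔ Subgroup.centralizer (D₀ : Set G)) :=
      ((Cfsg.piCore {q | q ∉ π} (Subgroup.centralizer (D₀ : Set G))).map (Subgroup.centralizer (D₀ : Set G)).subtype).subgroupOf _
    have hTn : T.Normal := by
      constructor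
      intro n hn g
      rw [Subgroup.mem_subgroupOf] at hn ⊢
      exact conj_mem_map_piCore _ (Cfsg.Agent.Lib.BlockH.Pairs.mem_normalizer_centralizer (hPb.le_normalizer g.2)) hn
    have hTY : T ≤ cenIn D₀ (D₀ ⊔ Subgroup.centralizer (D₀ : Set G)) := by
      intro n hn
      obtain ⟨k, -, hk⟩ := Subgroup.mem_subgroupOf.mp hn
      rw [Subgroup.mem_subgroupOf, ← hk]
      exact k.2
    have hT : ∀ t ∈ T, (θ : ↥(D₀ ⊔ Subgroup.centralizer (D₀ : Set G)) → ℂ) t = (θ : ↥(D₀ ⊔ Subgroup.centralizer (D₀ : Set G)) → ℂ) 1 := by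
      intro t ht
      obtain ⟨k, hk, hk2⟩ := Subgroup.mem_subgroupOf.mp ht
      exact hkerb k hk θ hθ t hk2.symm
    have hmain := (ker_iff_of_constituent hY hcon T hTY).mp hT
    intro u hu
    have h5 := hmain ((cenEquiv hPb).symm u) (by
      refine Subgroup.mem_subgroupOf.mpr ⟨u, hu, ?_⟩
      rw [coe_coe_cenEquiv_symm]
      rfl)
    rw [hξ, irrMap_apply, irrMap_apply]
    simpa using h5
  have hk : KerP {q | q ∉ π} D₀ (blockOf M (ξ : Subgroup.centralizer (D₀ : Set G) → ℂ)) := by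
    intro u hu ξ₁ hξ₁
    letI : Fintype (Cfsg.piCore {q | q ∉ π} (Subgroup.centralizer (D₀ : Set G))) := Fintype.ofFinite _
    exact ker_block hM (Cfsg.piCore {q | q ∉ π} (Subgroup.centralizer (D₀ : Set G))) (not_dvd_card_piCore _ hp hpτ)
      ⟨ξ, rfl⟩ (mem_blockOf_self ξ) hξ₁ (fun v => hkξ v v.2) ⟨u, hu⟩
  exact kerN_of_pair hM hpτ hB hBD hB₁ hB₁D hpair hk hcompl

end Cfsg.Agent.S4728
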