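import Cfsg.Statements.S4729
import Cfsg.Agent.Lib.Char.DetChar
import Cfsg.Agent.Lib.Char.Eigen
import Cfsg.Agent.Lib.Char.Degree
import Cfsg.Agent.Lib.Blocks.Central

set_option autoImplicit false
open Cfsg

namespace Cfsg.Agent.S4729


open Cfsg.Agent.Lib.Char.Basic Cfsg.Agent.Lib.Char.Eigen Cfsg.Agent.Lib.Char.DetChar
open Cfsg.Agent.Lib.Blocks.Local Cfsg.Agent.Lib.Blocks.Central
open Module

variable {G : Type*} [Group G] [Finite G]

/-- A principal block character is congruent to its degree on elements centralizing a Sylow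
subgroup, in the sense of the quotient. -/
theorem local_ratio {p : ℕ} [Fact p.Prime] {M : Ideal AlgInt} (hM : IsPModular p M)
    (P : Sylow p G) {χ : IrrCharacter G} (hχ : χ ∈ principalBlock M G) {y : G}
    (hy : ∀ u ∈ (P : Subgroup G), u * y = y * u) :
    MemLocalIdeal M ((χ : G → ℂ) y / (χ : G → ℂ) 1 - 1) := by
  have hMp := isPrime_of_pModular hM
  have hc : SameBlock M (fun _ : G => (1 : ℂ)) (χ : G → ℂ) := hχ
  have h1 := hc y
  set I : ℕ := (Subgroup.centralizer ({y} : Set G)).index with hI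
  have hle : (P : Subgroup G) ≤ Subgroup.centralizer ({y} : Set G) := by
    intro u hu
    rw [Subgroup.mem_centralizer_singleton_iff]
    exact hy u hu
  have hnd : ¬ p ∣ I := by
    intro hd
    exact Sylow.not_dvd_index P (hd.trans (Subgroup.index_dvd_of_le hle))
  have hinv := memLocalRing_natCast_inv (M := M) hM hnd
  have hIne : (I : ℂ) ≠ 0 := by
    intro h0
    apply hnd
    have : I = 0 := by exact_mod_cast h0
    rw [this]
    exact dvd_zero p
  have h2 : (χ : G → ℂ) y / (χ : G → ℂ) 1 - 1 =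
      -((I : ℂ)⁻¹ * (centralChar (fun _ : G => (1 : ℂ)) y - centralChar (χ : G → ℂ) y)) := by
    simp only [centralChar]
    rw [← hI]
    field_simp
    ring
  rw [h2]
  exact memLocalIdeal_neg (memLocalIdeal_mul_left hinv h1)

/-- The Fourier inversion on a cyclic group, for a family of roots of unity. -/
theorem fourier {ι : Type*} [Fintype ι] [DecidableEq ι] (μ : ι → ℂ) {m : ℕ}
    (hμ : ∀ i, μ i ^ m = 1) {ξ : ℂ} (hξ : ξ ^ m = 1) :
    ∑ k ∈ Finset.range m, (∑ i, μ i ^ k) * ξ ^ k =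
      (m : ℂ) * ((Finset.univ.filter (fun i => μ i * ξ = 1)).card : ℂ) := by
  have h1 : ∀ i, ∑ k ∈ Finset.range m, (μ i * ξ) ^ k = if μ i * ξ = 1 then (m : ℂ) else 0 := by
    intro i
    split_ifs with h
    · simp [h]
    · have h2 : (μ i * ξ) ^ m = 1 := by rw [mul_pow, hμ, hξ, one_mul]
      have h3 := mul_neg_geom_sum (μ i * ξ) m
      rw [h2, sub_self] at h3
      have h4 : (1 - μ i * ξ) ≠ 0 := by
        intro h0
        exact h (sub_eq_zero.mp h0).symm
      exact (mul_eq_zero.mp h3).resolve_left h4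
  calc ∑ k ∈ Finset.range m, (∑ i, μ i ^ k) * ξ ^ k
      = ∑ i, ∑ k ∈ Finset.range m, (μ i * ξ) ^ k := by
        rw [Finset.sum_comm]
        refine Finset.sum_congr rfl fun k _ => ?_
        rw [Finset.sum_mul]
        refine Finset.sum_congr rfl fun i _ => ?_
        rw [mul_pow]
    _ = _ := by
        simp only [h1]
        rw [Finset.sum_ite, Finset.sum_const_zero, add_zero, Finset.sum_const, nsmul_eq_mul, mul_comm]

/-- The multiplicities of the non-trivial eigenvalues are divisible by `p`. -/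
theorem dvd_count {p : ℕ} [Fact p.Prime] {M : Ideal AlgInt} (hM : IsPModular p M)
    (P : Sylow p G) {χ : IrrCharacter G} (hχ : χ ∈ principalBlock M G) {x : G}
    (hx : ∀ u ∈ (P : Subgroup G), u * x = x * u) (hpx : ¬ p ∣ orderOf x)
    {ι : Type*} [Fintype ι] [DecidableEq ι] (μ : ι → ℂ) (hμ : ∀ i, μ i ^ orderOf x = 1)
    (hsum : ∀ k : ℕ, (χ : G → ℂ) (x ^ k) = ∑ i, μ i ^ k) {ζ : ℂ} (hζ : ζ ^ orderOf x = 1)
    (hζ1 : ζ ≠ 1) (hdeg : (χ : G → ℂ) 1 ≠ 0) (hdegl : MemLocalRing M ((χ : G → ℂ) 1)) :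
    p ∣ (Finset.univ.filter (fun i => μ i = ζ)).card := by
  have hp : p.Prime := Fact.out
  have hMp := isPrime_of_pModular hM
  set m := orderOf x with hm
  have hmpos : 0 < m := orderOf_pos x
  have hξ : (ζ⁻¹) ^ m = 1 := by rw [inv_pow, hζ, inv_one]
  have hne0 : ζ ≠ 0 := by
    intro h0
    rw [h0, zero_pow hmpos.ne'] at hζ
    exact zero_ne_one hζ
  have hξ1 : ζ⁻¹ ≠ 1 := by
    intro h
    apply hζ1
    rwa [inv_eq_one] at h
  have hfil : Finset.univ.filter (fun i => μ i * ζ⁻¹ = 1) = Finset.univ.filter (fun i => μ i = ζ) := by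
    ext i
    simp only [Finset.mem_filter, Finset.mem_univ, true_and]
    constructor
    · intro h
      field_simp at h
      exact h
    · intro h
      rw [h, mul_inv_cancel₀ hne0]
  have hF := fourier μ hμ hξ
  rw [hfil] at hF
  set c := (Finset.univ.filter (fun i => μ i = ζ)).card with hc
  -- The geometric sum vanishes.
  have hgeo : ∑ k ∈ Finset.range m, (ζ⁻¹) ^ k = 0 := by
    have h3 := mul_neg_geom_sum (ζ⁻¹) m
    rw [hξ, sub_self] at h3
    have h4 : (1 - ζ⁻¹) ≠ 0 := by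
      intro h0
      exact hξ1 (sub_eq_zero.mp h0).symm
    exact (mul_eq_zero.mp h3).resolve_left h4
  have hloc : ∀ k : ℕ, MemLocalRing M ((ζ⁻¹) ^ k) := fun k =>
    memLocalRing_of_isIntegral (isIntegral_of_pow_eq_one (n := m) hmpos.ne' (by
      rw [← pow_mul, mul_comm, pow_mul, hξ, one_pow]))
  have hJ : MemLocalIdeal M
      (∑ k ∈ Finset.range m, ((χ : G → ℂ) (x ^ k) / (χ : G → ℂ) 1) * (ζ⁻¹) ^ k) := by
    have h5 : ∑ k ∈ Finset.range m, ((χ : G → ℂ) (x ^ k) / (χ : G → ℂ) 1) * (ζ⁻¹) ^ k =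
        ∑ k ∈ Finset.range m, ((χ : G → ℂ) (x ^ k) / (χ : G → ℂ) 1 - 1) * (ζ⁻¹) ^ k := by
      have : ∀ k, ((χ : G → ℂ) (x ^ k) / (χ : G → ℂ) 1) * (ζ⁻¹) ^ k =
          ((χ : G → ℂ) (x ^ k) / (χ : G → ℂ) 1 - 1) * (ζ⁻¹) ^ k + (ζ⁻¹) ^ k := fun k => by ring
      simp only [this]
      rw [Finset.sum_add_distrib, hgeo, add_zero]
    rw [h5]
    refine memLocalIdeal_sum _ _ fun k _ => memLocalIdeal_mul_right ?_ (hloc k)
    refine local_ratio hM P hχ ?_
    intro u hu
    exact ((Commute.pow_right (hx u hu) k))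
  have hcast : ((m * c : ℕ) : ℂ) = (χ : G → ℂ) 1 *
      ∑ k ∈ Finset.range m, ((χ : G → ℂ) (x ^ k) / (χ : G → ℂ) 1) * (ζ⁻¹) ^ k := by
    rw [Nat.cast_mul, ← hF, Finset.mul_sum]
    refine Finset.sum_congr rfl fun k _ => ?_
    rw [← hsum k]
    field_simp
  have hJ2 : MemLocalIdeal M ((m * c : ℕ) : ℂ) := by
    rw [hcast]
    exact memLocalIdeal_mul_left hdegl hJ
  have h6 := (natCast_memLocalIdeal_iff hM _).mp hJ2
  exact (hp.dvd_mul.mp h6).resolve_left hpx

theorem eq_one_of_mem {p : ℕ} [Fact p.Prime] {M : Ideal AlgInt} (hM : IsPModular p M)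
    (hperf : commutator G = ⊤) (P : Sylow p G) (χ : IrrCharacter G)
    (hχ : χ ∈ principalBlock M G) (hfaith : ∀ g : G, (χ : G → ℂ) g = (χ : G → ℂ) 1 → g = 1)
    (hdeg : charDegree (χ : G → ℂ) < 2 * p) {x : G}
    (hx : ∀ u ∈ (P : Subgroup G), u * x = x * u) (hpx : ¬ p ∣ orderOf x) : x = 1 := by
  classical
  have hp : p.Prime := Fact.out
  have hMp := isPrime_of_pModular hM
  by_contra hne
  obtain ⟨n, ρ, hρ⟩ := isCharacter_of_isIrrCharacter χ.2
  have hχρ : (χ : G → ℂ) = ρ.character := hρ.symm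
  obtain ⟨b, μ, hb, hμ⟩ := exists_eigenbasis ρ x
  have hsum : ∀ k : ℕ, (χ : G → ℂ) (x ^ k) = ∑ i, μ i ^ k := by
    intro k
    rw [hχρ]
    exact character_pow_eq_sum_of_eigenbasis ρ b μ hb k
  have hdeg1 : ((χ : G → ℂ) 1) = ((Fintype.card (Fin (finrank ℂ (Fin n → ℂ))) : ℕ) : ℂ) := by
    have := hsum 0
    simpa using this
  set N := Fintype.card (Fin (finrank ℂ (Fin n → ℂ))) with hN
  have hdegn : charDegree (χ : G → ℂ) = N := by
    have h1 := Cfsg.Agent.Lib.Char.Degree.charDegree_natCast (isCharacter_of_isIrrCharacter χ.2)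
    rw [hdeg1] at h1
    exact_mod_cast h1
  have hN2 : N < 2 * p := hdegn ▸ hdeg
  have hdeg0 : (χ : G → ℂ) 1 ≠ 0 := Cfsg.Agent.Lib.Char.Complete.irr_one_ne_zero χ.2
  have hdegl : MemLocalRing M ((χ : G → ℂ) 1) := by
    rw [hdeg1]
    exact memLocalRing_natCast _
  have hcount := fun (ζ : ℂ) (h1 : ζ ^ orderOf x = 1) (h2 : ζ ≠ 1) =>
    dvd_count hM P hχ hx hpx μ hμ hsum h1 h2 hdeg0 hdegl
  -- some eigenvalue is not one
  obtain ⟨i₀, hi₀⟩ : ∃ i, μ i ≠ 1 := by
    by_contra hall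
    push Not at hall
    apply hne
    apply hfaith
    have h1 := hsum 1
    rw [pow_one] at h1
    rw [h1, hdeg1]
    simp only [hall, one_pow]
    rw [Finset.sum_const, Finset.card_univ, nsmul_eq_mul, mul_one]
  set ζ := μ i₀ with hζ
  set F := Finset.univ.filter (fun i => μ i = ζ) with hF
  have hFd : p ∣ F.card := hcount ζ (hμ i₀) hi₀
  have hFpos : 0 < F.card := Finset.card_pos.mpr ⟨i₀, Finset.mem_filter.mpr ⟨Finset.mem_univ _, rfl⟩⟩
  have hFle : F.card ≤ N := by
    rw [hN]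
    exact Finset.card_le_univ F
  have hFp : F.card = p := by
    obtain ⟨k, hk⟩ := hFd
    have hk0 : k ≠ 0 := by
      rintro rfl
      omega
    have hk1 : k < 2 := by
      by_contra hk2
      push Not at hk2
      have : 2 * p ≤ k * p := Nat.mul_le_mul_right p hk2
      rw [hk, mul_comm p k] at hFle
      omega
    have : k = 1 := by omega
    rw [hk, this, mul_one]
  have htwo : ∀ i, μ i = 1 ∨ μ i = ζ := by
    intro i
    by_contra hcon
    push Not at hcon
    set F' := Finset.univ.filter (fun j => μ j = μ i) with hF'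
    have hF'd : p ∣ F'.card := hcount (μ i) (hμ i) hcon.1
    have hF'pos : 0 < F'.card := Finset.card_pos.mpr ⟨i, Finset.mem_filter.mpr ⟨Finset.mem_univ _, rfl⟩⟩
    have hF'p : p ≤ F'.card := Nat.le_of_dvd hF'pos hF'd
    have hdisj : Disjoint F F' := by
      rw [Finset.disjoint_left]
      intro j hj hj'
      have h1 := (Finset.mem_filter.mp hj).2
      have h2 := (Finset.mem_filter.mp hj').2
      exact hcon.2 (h2.symm.trans h1)
    have h3 : (F ∪ F').card ≤ N := by
      rw [hN]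
      exact Finset.card_le_univ _
    rw [Finset.card_union_of_disjoint hdisj] at h3
    omega
  -- the determinant
  have hdet : LinearMap.det (ρ x) = ∏ i, μ i := by
    rw [← LinearMap.det_toMatrix b]
    have : LinearMap.toMatrix b b (ρ x) = Matrix.diagonal μ := by
      ext i j
      rw [LinearMap.toMatrix_apply, hb j, map_smul, Module.Basis.repr_self, Finsupp.smul_single]
      by_cases hij : i = j
      · subst hij
        simp
      · simp [hij, Ne.symm hij]
    rw [this, Matrix.det_diagonal]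
  have hprod : ∏ i, μ i = ζ ^ p := by
    rw [← hFp, ← Finset.prod_const, ← Finset.prod_filter_mul_prod_filter_not Finset.univ (fun i => μ i = ζ)]
    have h1 : ∏ i ∈ Finset.univ.filter (fun i => μ i = ζ), μ i = ∏ _i ∈ F, ζ :=
      Finset.prod_congr rfl fun i hi => (Finset.mem_filter.mp hi).2
    have h2 : ∏ i ∈ Finset.univ.filter (fun i => ¬ μ i = ζ), μ i = 1 := by
      refine Finset.prod_eq_one fun i hi => ?_
      exact (htwo i).resolve_right (Finset.mem_filter.mp hi).2
    rw [h1, h2, mul_one]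
  have hdet1 : LinearMap.det (ρ x) = 1 := by
    have h1 : commutator G ≤ (detRep ρ).ker := by
      rw [commutator_def, Subgroup.commutator_le]
      intro g _ h _
      rw [MonoidHom.mem_ker, map_commutatorElement, commutatorElement_eq_one_iff_commute.mpr]
      exact Commute.all _ _
    have h2 : x ∈ (detRep ρ).ker := h1 (by rw [hperf]; exact Subgroup.mem_top x)
    have h3 : ((detRep ρ x : ℂˣ) : ℂ) = 1 := by
      rw [MonoidHom.mem_ker.mp h2]; rfl
    rwa [coe_detRep] at h3
  have hζp : ζ ^ p = 1 := by rw [← hprod, ← hdet, hdet1]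
  have hcop : Nat.Coprime p (orderOf x) := (Nat.Prime.coprime_iff_not_dvd hp).mpr hpx
  have h1 : ζ ^ Nat.gcd p (orderOf x) = 1 := pow_gcd_eq_one.mpr ⟨hζp, hμ i₀⟩
  rw [Nat.Coprime.gcd_eq_one hcop, pow_one] at h1
  exact hi₀ h1

/-- Let p be a prime, M a maximal ideal of the algebraic integers containing p, G a finite perfect group and P a Sylow p-subgroup. If the principal p-block of G contains a faithful irreducible character of degree less than 2p, then the centralizer of P is a p-group. -/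
theorem result {G : Type*} [Group G] [Finite G] (p : ℕ) [Fact p.Prime] (M : Ideal Cfsg.AlgInt) (hM : Cfsg.IsPModular p M) (hperf : commutator G = ⊤) (P : Sylow p G) (χ : Cfsg.IrrCharacter G) (hχ : χ ∈ Cfsg.principalBlock M G) (hfaith : ∀ g : G, (χ : G → ℂ) g = (χ : G → ℂ) 1 → g = 1) (hdeg : Cfsg.charDegree (χ : G → ℂ) < 2 * p) : IsPGroup p ↥(Subgroup.centralizer ((P : Subgroup G) : Set G)) := by
  classical
  have hp : p.Prime := Fact.out
  intro c
  obtain ⟨m, k, hnd, hord⟩ : ∃ m k : ℕ, ¬ p ∣ m ∧ orderOf (c : G) = p ^ k * m := by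
    obtain ⟨k, m, hm, he⟩ := Nat.exists_eq_pow_mul_and_not_dvd (orderOf_pos (c : G)).ne' p hp.ne_one
    exact ⟨m, k, hm, he⟩
  refine ⟨k, ?_⟩
  apply Subtype.ext
  have hx : ∀ u ∈ (P : Subgroup G), u * ((c : G) ^ p ^ k) = ((c : G) ^ p ^ k) * u := by
    intro u hu
    have h1 : u * (c : G) = (c : G) * u := (Subgroup.mem_centralizer_iff.mp c.2 u hu)
    exact (Commute.pow_right h1 _)
  have hpx : ¬ p ∣ orderOf ((c : G) ^ p ^ k) := by
    intro hd
    apply hnd
    refine hd.trans (orderOf_dvd_of_pow_eq_one ?_)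
    rw [← pow_mul, ← hord, pow_orderOf_eq_one]
  have h1 := eq_one_of_mem hM hperf P χ hχ hfaith hdeg hx hpx
  simpa using h1


end Cfsg.Agent.S4729
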