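import Cfsg.Statements.S4730
import Cfsg.Agent.Lib.Blocks.PPowerDeg

set_option autoImplicit false
open Cfsg

namespace Cfsg.Agent.S4730

/-- Let p be a prime, M a maximal ideal of the algebraic integers containing p, and G a finite group with trivial centre, Sylow p-subgroup P of order p^a and centre Z(P) of order p^b. If χ is a faithful irreducible character of G whose degree is a power of p, then the p-block of χ has defect at most a − b; in particular, if P is abelian then χ lies in a block of defect zero. -/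
theorem result {G : Type*} [Group G] [Finite G] (p : ℕ) [Fact p.Prime] (M : Ideal Cfsg.AlgInt) (hM : Cfsg.IsPModular p M) (hZ : Subgroup.center G = ⊥) (P : Sylow p G) (a b : ℕ) (ha : Nat.card P = p ^ a) (hb : Nat.card (Subgroup.center ↥(P : Subgroup G)) = p ^ b) (χ : Cfsg.IrrCharacter G) (hfaith : ∀ g : G, (χ : G → ℂ) g = (χ : G → ℂ) 1 → g = 1) (n : ℕ) (hdeg : Cfsg.charDegree (χ : G → ℂ) = p ^ n) : Cfsg.blockDefect p (Cfsg.blockOf M (χ : G → ℂ)) ≤ a - b ∧ (IsMulCommutative ↥(P : Subgroup G) → Cfsg.blockDefect p (Cfsg.blockOf M (χ : G → ℂ)) = 0) := by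
  classical
  cases nonempty_fintype G
  haveI := Cfsg.Agent.Lib.Char.Ortho.finite_irrCharacter (G := G)
  letI := Fintype.ofFinite (Cfsg.IrrCharacter G)
  have h1 := Cfsg.Agent.Lib.Blocks.PPowerDeg.blockDefect_le hM hZ P ha hb χ hfaith hdeg
  refine ⟨h1, fun hab => ?_⟩
  have hp := (Fact.out : p.Prime)
  have htop : Subgroup.center ↥(P : Subgroup G) = ⊤ := by
    rw [Subgroup.eq_top_iff']
    intro x
    rw [Subgroup.mem_center_iff]
    intro y
    exact mul_comm' y x
  have h2 : p ^ b = p ^ a := by
    rw [← hb, ← ha, htop, Subgroup.card_top]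
  have h3 := Nat.pow_right_injective hp.two_le h2
  rw [h3] at h1
  omega

end Cfsg.Agent.S4730
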