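import Cfsg.Statements.S4734
import Cfsg.Agent.Lib.BlockPi.Main

set_option autoImplicit false
open Cfsg

namespace Cfsg.Agent.S4734

/-- Let p be a prime, π a set of primes containing p, M a maximal ideal of the algebraic integers containing p, B a p-block of the finite group G with defect group D, and B₁ the block of N_G(D) with defect group D inducing B. Write O_π'(X) for the largest normal subgroup of X whose order has no prime divisor in π, and suppose every element of O_π'(N_G(D)) lies in the kernel of every member of B₁. Let G₀ be a subgroup and B₀ a block of G₀ with defect group D₀ such that C_G(D₀) ≤ G₀ and B₀ induces B. Then every element of O_π'(G₀) lies in the kernel of every member of B₀. -/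
theorem result {G : Type*} [Group G] [Finite G] (p : ℕ) [Fact p.Prime] (M : Ideal Cfsg.AlgInt) (hM : Cfsg.IsPModular p M) (π : Set ℕ) (hpπ : p ∈ π) (B : Set (Cfsg.IrrCharacter G)) (hB : Cfsg.IsPBlock M B) (D : Subgroup G) (hBD : Cfsg.IsDefectGroup p M B D) (B₁ : Set (Cfsg.IrrCharacter ↥(Subgroup.normalizer (D : Set G)))) (hB₁ : Cfsg.IsInducedBlock M (Subgroup.normalizer (D : Set G)) B₁ B) (hB₁D : Cfsg.IsDefectGroup p M B₁ (D.subgroupOf (Subgroup.normalizer (D : Set G)))) (hker : ∀ n : ↥(Subgroup.normalizer (D : Set G)), n ∈ Cfsg.piCore {q | q ∉ π} ↥(Subgroup.normalizer (D : Set G)) → n ∈ Cfsg.blockKer B₁) (G₀ : Subgroup G) (B₀ : Set (Cfsg.IrrCharacter ↥G₀)) (hB₀ : Cfsg.IsInducedBlock M G₀ B₀ B) (D₀ : Subgroup ↥G₀) (hD₀ : Cfsg.IsDefectGroup p M B₀ D₀) (hC : Subgroup.centralizer ((D₀.map G₀.subtype : Subgroup G) : Set G) ≤ G₀) : ∀ x : ↥G₀, x ∈ Cfsg.piCore {q | q ∉ π} ↥G₀ → x ∈ Cfsg.blockKer B₀ := by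
  classical
  have hp : p.Prime := Fact.out
  letI := Fintype.ofFinite G
  haveI := Cfsg.Agent.Lib.Blocks.Local.isPrime_of_pModular hM
  letI : Fintype G₀ := Fintype.ofFinite _
  haveI := Cfsg.Agent.Lib.Char.Ortho.finite_irrCharacter (G := G₀)
  letI : Fintype (Cfsg.IrrCharacter G₀) := Fintype.ofFinite _
  letI : Fintype (Subgroup.centralizer ((D₀.map G₀.subtype : Subgroup G) : Set G)) := Fintype.ofFinite _
  have hpτ : p ∉ {q | q ∉ π} := by simpa using hpπ
  have hPp : IsPGroup p (D₀.map G₀.subtype) := (Cfsg.Agent.Lib.Blocks.Defect2.isDefectGroup_isPGroup hD₀).map _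
  have hPK : D₀.map G₀.subtype ≤ G₀ := Subgroup.map_subtype_le _
  obtain ⟨g, hg, hs⟩ := Cfsg.Agent.Lib.Blocks.Defect2.isDefectGroup_isSylowIn hD₀
  have hgC : (g : G) ∈ Subgroup.centralizer ((D₀.map G₀.subtype : Subgroup G) : Set G) := by
    rw [Subgroup.mem_centralizer_iff]
    rintro _ ⟨d, hd, rfl⟩
    have h1 := Subgroup.mem_centralizer_iff.mp (hs.le hd) g rfl
    have h2 := congrArg Subtype.val h1
    exact h2.symm
  have hxI : Cfsg.Agent.Lib.BlockH.BrauerMap.BrInv (D₀.map G₀.subtype) (Cfsg.Agent.Lib.BlockH.Subpair.subIdem G₀ B₀) :=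
    ⟨Cfsg.Agent.Lib.BlockH.Subpair.qinv_subIdem G₀ B₀ hPK, Cfsg.Agent.Lib.BlockH.Subpair.qinv_subIdem G₀ B₀ hC⟩
  obtain ⟨ξ, hξ⟩ := Cfsg.Agent.Lib.BlockH.MaxPair.exists_brH_of_coeff hM hPp hxI
    (Cfsg.Agent.Lib.BlockH.Subpair.rc_subIdem G₀ hB₀.1)
    (Cfsg.Agent.Lib.BlockH.Subpair.subIdem_mul_self G₀ B₀) hgC (by
      rw [Cfsg.Agent.Lib.BlockH.Subpair.coeff_subIdem_of_mem G₀ B₀ g.2]
      exact hg.2.1)
  intro x hx χ hχ
  exact Cfsg.Agent.Lib.BlockPi.Main.ker_of_induced hM hpτ hB hBD hB₁ hB₁D hker hB₀ hPp hPK hC ξ hξ χ hχ x hx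

end Cfsg.Agent.S4734
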