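import Cfsg.Statements.S4735
import Cfsg.Agent.Lib.Blk89.PrinBlock
-- import your own Cfsg.Agent.* helpers here

set_option autoImplicit false
open Cfsg

namespace Cfsg.Agent.S4735

set_option linter.style.haveILetI false

open Cfsg.Agent.Lib.Blocks.Local Cfsg.Agent.Lib.Blocks.Central Cfsg.Agent.Lib.Blocks.Main
open Cfsg.Agent.Lib.Blk89.Basic Cfsg.Agent.Lib.Blk89.PrinBlock
open Cfsg.Agent.Lib.Char.Basic Cfsg.Agent.Lib.Char.Ortho Cfsg.Agent.Lib.Char.Complete
open scoped ComplexConjugate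

/-- Let p be a prime, M a maximal ideal of the algebraic integers containing p, G a finite group, H = O_p'(G) and Ḡ = G/H. For x ∈ G write λ(G, x) for the sum of |χ(x)|^2 over the irreducible characters χ in the principal p-block of G. Then λ(G, x) is a positive integer, λ(G, x) = λ(Ḡ, x̄) where x̄ is the image of x, and λ(G, x) ≤ #C_Ḡ(x̄). Moreover λ(G, 1) = [G : H] if and only if the principal block is the only p-block of Ḡ. -/
theorem result {G : Type*} [Group G] [Finite G] (p : ℕ) [Fact p.Prime] (M : Ideal Cfsg.AlgInt) (hM : Cfsg.IsPModular p M) (x : G) : (∃ n : ℕ, 0 < n ∧ ∑ᶠ χ ∈ Cfsg.principalBlock M G, Complex.normSq ((χ : G → ℂ) x) = n) ∧ ∑ᶠ χ ∈ Cfsg.principalBlock M G, Complex.normSq ((χ : G → ℂ) x) = ∑ᶠ ψ ∈ Cfsg.principalBlock M (G ⧸ Cfsg.pPrimeCore p G), Complex.normSq ((ψ : G ⧸ Cfsg.pPrimeCore p G → ℂ) (QuotientGroup.mk x)) ∧ ∑ᶠ χ ∈ Cfsg.principalBlock M G, Complex.normSq ((χ : G → ℂ) x) ≤ (Nat.card ↥(Subgroup.centralizer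 ({(QuotientGroup.mk x : G ⧸ Cfsg.pPrimeCore p G)} : Set (G ⧸ Cfsg.pPrimeCore p G))) : ℝ) ∧ ((∑ᶠ χ ∈ Cfsg.principalBlock M G, Cfsg.charDegree (χ : G → ℂ) ^ 2) = (Cfsg.pPrimeCore p G).index ↔ ∀ B : Set (Cfsg.IrrCharacter (G ⧸ Cfsg.pPrimeCore p G)), Cfsg.IsPBlock M B → B = Cfsg.principalBlock M (G ⧸ Cfsg.pPrimeCore p G)) := by
  classical
  cases nonempty_fintype G
  haveI := isPrime_of_pModular hM
  haveI := finite_irrCharacter (G := G)
  letI := Fintype.ofFinite (Cfsg.IrrCharacter G)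
  letI : Fintype (G ⧸ Cfsg.pPrimeCore p G) := Fintype.ofFinite _
  haveI := finite_irrCharacter (G := G ⧸ Cfsg.pPrimeCore p G)
  letI : Fintype (Cfsg.IrrCharacter (G ⧸ Cfsg.pPrimeCore p G)) := Fintype.ofFinite _
  have h2 : ∑ᶠ χ ∈ Cfsg.principalBlock M G, Complex.normSq ((χ : G → ℂ) x) =
      ∑ᶠ ψ ∈ Cfsg.principalBlock M (G ⧸ Cfsg.pPrimeCore p G),
        Complex.normSq ((ψ : G ⧸ Cfsg.pPrimeCore p G → ℂ) (QuotientGroup.mk x)) := by
    symm
    exact finsum_mem_eq_of_bijOn inflate (bijOn_inflate hM) (fun ψ _ => rfl)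
  refine ⟨exists_nat_sum_normSq hM x, h2, ?_, ?_⟩
  · rw [h2]
    set y : G ⧸ Cfsg.pPrimeCore p G := QuotientGroup.mk x with hy
    have h3 := sum_irr_mul_conj y y
    rw [if_pos (IsConj.refl y)] at h3
    have h4 : ((∑ ψ : Cfsg.IrrCharacter (G ⧸ Cfsg.pPrimeCore p G),
        Complex.normSq ((ψ : G ⧸ Cfsg.pPrimeCore p G → ℂ) y) : ℝ) : ℂ) =
        ((Nat.card ↥(Subgroup.centralizer ({y} : Set (G ⧸ Cfsg.pPrimeCore p G))) : ℝ) : ℂ) := by
      push_cast
      rw [← h3]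
      refine Finset.sum_congr rfl fun ψ _ => ?_
      rw [Complex.mul_conj]
    have h5 := Complex.ofReal_injective h4
    rw [← h5, finsum_mem_def, finsum_eq_sum_of_fintype]
    refine Finset.sum_le_sum fun ψ _ => ?_
    rw [Set.indicator_apply]
    split_ifs
    · exact le_rfl
    · exact Complex.normSq_nonneg _
  · have h6 : (∑ᶠ χ ∈ Cfsg.principalBlock M G, Cfsg.charDegree (χ : G → ℂ) ^ 2) =
        ∑ᶠ ψ ∈ Cfsg.principalBlock M (G ⧸ Cfsg.pPrimeCore p G),
          Cfsg.charDegree (ψ : G ⧸ Cfsg.pPrimeCore p G → ℂ) ^ 2 := by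
      symm
      exact finsum_mem_eq_of_bijOn inflate (bijOn_inflate hM) (fun ψ _ => by rw [charDegree_inflate])
    have h7 := Cfsg.Agent.Lib.Char.Degree.sum_charDegree_sq (G := G ⧸ Cfsg.pPrimeCore p G)
    rw [h6, Subgroup.index_eq_card, ← h7, finsum_mem_def, finsum_eq_sum_of_fintype]
    constructor
    · intro h8 B hB
      have hall : ∀ ψ : Cfsg.IrrCharacter (G ⧸ Cfsg.pPrimeCore p G),
          ψ ∈ Cfsg.principalBlock M (G ⧸ Cfsg.pPrimeCore p G) := by
        intro ψ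
        by_contra hψ
        have hle : ∀ i ∈ Finset.univ, (Cfsg.principalBlock M (G ⧸ Cfsg.pPrimeCore p G)).indicator
            (fun ψ : Cfsg.IrrCharacter (G ⧸ Cfsg.pPrimeCore p G) =>
              Cfsg.charDegree (ψ : G ⧸ Cfsg.pPrimeCore p G → ℂ) ^ 2) i ≤
            Cfsg.charDegree (i : G ⧸ Cfsg.pPrimeCore p G → ℂ) ^ 2 := by
          intro i _
          rw [Set.indicator_apply]
          split_ifs
          · exact le_rfl
          · exact Nat.zero_le _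
        have hlt : (Cfsg.principalBlock M (G ⧸ Cfsg.pPrimeCore p G)).indicator
            (fun ψ : Cfsg.IrrCharacter (G ⧸ Cfsg.pPrimeCore p G) =>
              Cfsg.charDegree (ψ : G ⧸ Cfsg.pPrimeCore p G → ℂ) ^ 2) ψ <
            Cfsg.charDegree (ψ : G ⧸ Cfsg.pPrimeCore p G → ℂ) ^ 2 := by
          rw [Set.indicator_apply, if_neg hψ]
          exact pow_pos (Cfsg.Agent.Lib.Char.Degree.charDegree_pos ψ.2) 2
        exact absurd h8 (Finset.sum_lt_sum hle ⟨ψ, Finset.mem_univ _, hlt⟩).ne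
      obtain ⟨ψ, hψ⟩ := isPBlock_nonempty hB
      exact isPBlock_mem_unique hB (Cfsg.Agent.Lib.Blocks.Third.isPBlock_principal M) hψ (hall ψ)
    · intro h8
      refine Finset.sum_congr rfl fun ψ _ => ?_
      rw [Set.indicator_apply, if_pos]
      rw [← h8 _ ⟨ψ, rfl⟩]
      exact mem_blockOf_self ψ

end Cfsg.Agent.S4735
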