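import Cfsg.Statements.S4736
import Cfsg.Agent.Lib.Blk89.PrinBlock
-- import your own Cfsg.Agent.* helpers here

set_option autoImplicit false
open Cfsg

namespace Cfsg.Agent.S4736

set_option linter.style.haveILetI false

open Cfsg.Agent.Lib.Blocks.Local Cfsg.Agent.Lib.Blocks.Central
open Cfsg.Agent.Lib.Blk89.Basic Cfsg.Agent.Lib.Blk89.PrinBlock Cfsg.Agent.Lib.Blk89.ItoMichler
open Cfsg.Agent.Lib.Char.Basic Cfsg.Agent.Lib.Char.Ortho

universe u

theorem charDegree_one {G : Type u} [Group G] : charDegree (fun _ : G => (1 : ℂ)) = 1 := by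
  simp [charDegree]

/-- Heights in the principal block are just exponents of degrees. -/
theorem height_principal {G : Type u} [Group G] [Finite G] {M : Ideal AlgInt} {p : ℕ} (hM : IsPModular p M)
    (χ : IrrCharacter G) :
    blockHeight p (principalBlock M G) (χ : G → ℂ) = (charDegree (χ : G → ℂ)).factorization p := by
  cases nonempty_fintype G
  haveI := isPrime_of_pModular hM
  have h0 : sInf ((fun χ : IrrCharacter G => (charDegree (χ : G → ℂ)).factorization p) ''
      principalBlock M G) = 0 := by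
    apply Nat.sInf_eq_zero.mpr
    left
    refine ⟨oneIrr G, mem_blockOf_self (oneIrr G), ?_⟩
    change (charDegree (fun _ : G => (1 : ℂ))).factorization p = 0
    rw [charDegree_one]
    simp
  simp only [blockHeight]
  rw [h0, Nat.sub_zero]

/-- Let p be a prime, M a maximal ideal of the algebraic integers containing p, and G a finite p-solvable group with Sylow p-subgroup P. Then P is abelian if and only if every irreducible character in the principal p-block of G has height zero. -/
theorem result {G : Type*} [Group G] [Finite G] (p : ℕ) [Fact p.Prime] (M : Ideal Cfsg.AlgInt) (hM : Cfsg.IsPModular p M) (hsolv : Cfsg.IsPSolvable p G) (P : Sylow p G) : IsMulCommutative P ↔ ∀ χ ∈ Cfsg.principalBlock M G, Cfsg.blockHeight p (Cfsg.principalBlock M G) (χ : G → ℂ) = 0 := by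
  classical
  haveI := isPrime_of_pModular hM
  have hp : p.Prime := Fact.out
  set π := QuotientGroup.mk' (Cfsg.pPrimeCore p G) with hπ
  have hsurj : Function.Surjective π := mk_surj p G
  set Q : Sylow p (G ⧸ Cfsg.pPrimeCore p G) := P.mapSurjective hsurj with hQ
  have hQcoe : (Q : Subgroup (G ⧸ Cfsg.pPrimeCore p G)) = (P : Subgroup G).map π := rfl
  have hs : Cfsg.IsPSolvable p (G ⧸ Cfsg.pPrimeCore p G) :=
    Cfsg.Agent.Lib.Core.PSolvable.isPSolvable_of_surjective _ hsurj hsolv
  have hb := Cfsg.Agent.Lib.Core.Basic.pPrimeCore_quotient_eq_bot (p := p) (G := G)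
  have hC := Cfsg.Agent.Lib.Core.PSolvable.centralizer_pCore_le_of_isPSolvable hs hb
  have hdeg : ∀ d : ℕ, d ≠ 0 → (d.factorization p = 0 ↔ ¬ p ∣ d) := by
    intro d hd
    rw [Nat.factorization_eq_zero_iff]
    constructor
    · rintro (h | h | h)
      · exact absurd hp h
      · exact h
      · exact absurd h hd
    · exact fun h => Or.inr (Or.inl h)
  constructor
  · intro hcomm χ hχ
    rw [height_principal hM]
    have hQc : IsMulCommutative Q := by
      refine ⟨⟨fun a b => ?_⟩⟩
      obtain ⟨a, ha⟩ := a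
      obtain ⟨b, hb⟩ := b
      rw [hQcoe] at ha hb
      obtain ⟨a', ha', rfl⟩ := ha
      obtain ⟨b', hb', rfl⟩ := hb
      apply Subtype.ext
      have h1 := hcomm.is_comm.comm ⟨a', ha'⟩ ⟨b', hb'⟩
      have h2 : a' * b' = b' * a' := congrArg Subtype.val h1
      change π a' * π b' = π b' * π a'
      rw [← map_mul, ← map_mul, h2]
    have hQn : (Q : Subgroup (G ⧸ Cfsg.pPrimeCore p G)).Normal := by
      have hle : Cfsg.pCore p (G ⧸ Cfsg.pPrimeCore p G) ≤ Q := Cfsg.Agent.Lib.Core.Basic.pCore_le_sylow Q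
      have hge : (Q : Subgroup (G ⧸ Cfsg.pPrimeCore p G)) ≤ Cfsg.pCore p (G ⧸ Cfsg.pPrimeCore p G) := by
        intro a ha
        apply hC
        rw [Subgroup.mem_centralizer_iff]
        intro b hb
        have h1 := hQc.is_comm.comm ⟨a, ha⟩ ⟨b, hle hb⟩
        exact (congrArg Subtype.val h1).symm
      rw [le_antisymm hge hle]
      exact Cfsg.pCore_normal p _
    have hall := (normal_comm_iff p hs Q).mp ⟨hQn, hQc⟩
    obtain ⟨φ, rfl⟩ := exists_inflate_of_trivial (trivial_of_mem_principal hM hχ)
    rw [charDegree_inflate]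
    exact (hdeg _ (Cfsg.Agent.Lib.Char.Degree.charDegree_pos φ.2).ne').mpr (hall φ)
  · intro hh
    have hall : ∀ φ : Cfsg.IrrCharacter (G ⧸ Cfsg.pPrimeCore p G),
        ¬ p ∣ Cfsg.charDegree (φ : G ⧸ Cfsg.pPrimeCore p G → ℂ) := by
      intro φ
      have hm : inflate φ ∈ Cfsg.principalBlock M G := by
        rw [mem_principal_iff_of_isPSolvable hM hsolv]
        intro n hn
        rw [inflate_apply, inflate_apply]
        congr 1
        rw [QuotientGroup.eq_one_iff n |>.mpr hn]
        rfl
      have h1 := hh _ hm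
      rw [height_principal hM, charDegree_inflate] at h1
      exact (hdeg _ (Cfsg.Agent.Lib.Char.Degree.charDegree_pos φ.2).ne').mp h1
    obtain ⟨-, hQc⟩ := (normal_comm_iff p hs Q).mpr hall
    refine ⟨⟨fun a b => ?_⟩⟩
    apply Subtype.ext
    have hma : π a ∈ (Q : Subgroup (G ⧸ Cfsg.pPrimeCore p G)) := ⟨a, a.2, rfl⟩
    have hmb : π b ∈ (Q : Subgroup (G ⧸ Cfsg.pPrimeCore p G)) := ⟨b, b.2, rfl⟩
    have h1 := hQc.is_comm.comm ⟨π a, hma⟩ ⟨π b, hmb⟩
    have h2 : π a * π b = π b * π a := congrArg Subtype.val h1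
    set c : ↥(P : Subgroup G) := a * b * a⁻¹ * b⁻¹ with hc
    have hcO : (c : G) ∈ Cfsg.pPrimeCore p G := by
      have h3 : π (c : G) = 1 := by
        rw [hc]
        push_cast
        rw [map_mul, map_mul, map_mul, h2, map_inv, map_inv]
        group
      have h4 := (QuotientGroup.eq_one_iff (c : G)).mp h3
      exact h4
    have hcop := Cfsg.Agent.Lib.Core.Basic.orderOf_coprime_of_mem_pPrimeCore hcO
    obtain ⟨k, hk⟩ := (IsPGroup.iff_orderOf.mp P.isPGroup') c
    have hc1 : (c : G) = 1 := by
      have h5 : orderOf (c : G) = p ^ k := by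
        rw [Subgroup.orderOf_coe]
        exact hk
      rw [h5] at hcop
      have h6 : k = 0 := by
        by_contra hne
        have h7 := Nat.Coprime.coprime_dvd_left (dvd_pow_self p hne) hcop
        exact hp.one_lt.ne' (by simpa using h7)
      rw [h6, pow_zero] at h5
      exact orderOf_eq_one_iff.mp h5
    have h8 : (a : G) * b * (a : G)⁻¹ * (b : G)⁻¹ = 1 := by
      rw [← hc1, hc]
      push_cast
      rfl
    calc (a : G) * b = (a : G) * b * (a : G)⁻¹ * (b : G)⁻¹ * (b * a) := by group
      _ = b * a := by rw [h8, one_mul]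

end Cfsg.Agent.S4736
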