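import Cfsg.Statements.S4955
import Cfsg.Agent.Lib.OddChar.GaloisConj
import Cfsg.Agent.Lib.CharDeep.PElt
import Cfsg.Agent.Lib.Char.Ito
import Cfsg.Agent.Lib.Char.Linear
import Mathlib.Tactic

set_option autoImplicit false
set_option linter.style.haveILetI false
open Cfsg

namespace Cfsg.Agent.S4955

open Module
open Cfsg.Agent.Lib.Char.Basic Cfsg.Agent.Lib.Char.Ortho Cfsg.Agent.Lib.Char.Complete
open Cfsg.Agent.Lib.Char.Galois Cfsg.Agent.Lib.OddChar.GaloisConj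
open scoped ComplexConjugate

section AMGM

variable {G : Type*} [Group G] [Fintype G]

/-- The power twist of an irreducible character. -/
noncomputable def powIrr {k : ℕ} (hk : k.Coprime (Nat.card G)) (χ : IrrCharacter G) : IrrCharacter G :=
  ⟨fun g => (χ : G → ℂ) (g ^ k), isIrrCharacter_pow hk χ.2⟩

theorem powIrr_injective {k : ℕ} (hk : k.Coprime (Nat.card G)) :
    Function.Injective (powIrr hk (G := G)) := by
  intro χ χ' h
  apply Subtype.ext
  funext g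
  obtain ⟨y, rfl⟩ := (pow_bijective_of_coprime hk).2 g
  exact congrFun (congrArg Subtype.val h) y

/-- Galois invariance of the product over a stable set of characters. -/
theorem one_le_prod_norm_irr [DecidableEq (IrrCharacter G)] (S : Finset (IrrCharacter G)) (v : G)
    (hS : ∀ k : ℕ, ∀ hk : k.Coprime (Nat.card G), ∀ χ ∈ S, powIrr hk χ ∈ S)
    (hv : ∀ χ ∈ S, (χ : G → ℂ) v ≠ 0) :
    1 ≤ ∏ χ ∈ S, ‖(χ : G → ℂ) v‖ := by
  classical
  have hn : Nat.card G ≠ 0 := Nat.card_pos.ne'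
  set n := Nat.card G with hndef
  have : NeZero n := ⟨hn⟩
  have hgn : ∀ g : G, g ^ n = 1 := fun g => pow_card_eq_one'
  have hmem : ∀ χ : IrrCharacter G, (χ : G → ℂ) v ∈ Kn n := by
    intro χ
    obtain ⟨m, ρ, -, hρ⟩ := χ.2
    rw [← hρ]
    exact character_mem_Kn ρ hn (hgn v)
  let x : IrrCharacter G → Kn n := fun χ => ⟨(χ : G → ℂ) v, hmem χ⟩
  have hxint : ∀ χ, IsIntegral ℤ (x χ) := by
    intro χ
    rw [← isIntegral_algebraMap_iff (algebraMap (Kn n) ℂ).injective]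
    obtain ⟨m, ρ, -, hρ⟩ := χ.2
    change IsIntegral ℤ ((χ : G → ℂ) v)
    rw [← hρ]
    exact Cfsg.Agent.Lib.Char.Eigen.character_isIntegral ρ v
  have hx0 : ∀ χ ∈ S, x χ ≠ 0 := by
    intro χ hχ h0
    exact hv χ hχ (by simpa [x] using congrArg (fun y : Kn n => (y : ℂ)) h0)
  have hpos : ∀ χ ∈ S, 0 < ‖(χ : G → ℂ) v‖ := fun χ hχ => norm_pos_iff.mpr (hv χ hχ)
  set Q : ℝ := ∏ χ ∈ S, ‖(χ : G → ℂ) v‖ with hQ
  have hQpos : 0 < Q := Finset.prod_pos hpos
  have hσ : ∀ σ : Kn n →ₐ[ℚ] ℂ, ∏ χ ∈ S, ‖σ (x χ)‖ = Q := by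
    intro σ
    obtain ⟨k, hk, hkσ⟩ := exists_pow_of_algHom n σ
    have h1 : ∀ χ : IrrCharacter G, σ (x χ) = (powIrr hk χ : G → ℂ) v := by
      intro χ
      obtain ⟨χ₀, hχ₀⟩ := χ
      obtain ⟨m, ρ, -, rfl⟩ := id hχ₀
      exact algHom_character ρ hn hkσ (hgn v)
    simp_rw [h1]
    have hsub : S.image (powIrr hk) ⊆ S := by
      intro y hy
      obtain ⟨χ, hχ, rfl⟩ := Finset.mem_image.mp hy
      exact hS k hk χ hχ
    have himg : S.image (powIrr hk) = S :=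
      Finset.eq_of_subset_of_card_le hsub (by
        rw [Finset.card_image_of_injective _ (powIrr_injective hk)])
    calc ∏ χ ∈ S, ‖((powIrr hk χ : IrrCharacter G) : G → ℂ) v‖
        = ∏ χ ∈ S.image (powIrr hk), ‖(χ : G → ℂ) v‖ := by
          rw [Finset.prod_image (fun a _ b _ h => powIrr_injective hk h)]
      _ = Q := by rw [himg]
  have hprod : 1 ≤ Q ^ Fintype.card (Kn n →ₐ[ℚ] ℂ) := by
    have h1 : Q ^ Fintype.card (Kn n →ₐ[ℚ] ℂ) = ∏ σ : Kn n →ₐ[ℚ] ℂ, ∏ χ ∈ S, ‖σ (x χ)‖ := by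
      simp_rw [hσ]
      simp
    rw [h1, Finset.prod_comm]
    calc (1:ℝ) = ∏ _g ∈ S, (1:ℝ) := by simp
      _ ≤ ∏ χ ∈ S, ∏ σ : Kn n →ₐ[ℚ] ℂ, ‖σ (x χ)‖ := by
        refine Finset.prod_le_prod (fun _ _ => zero_le_one) fun χ hχ => ?_
        exact one_le_prod_norm (x χ) (hxint χ) (hx0 χ hχ)
  by_contra hlt
  push Not at hlt
  have hm : Fintype.card (Kn n →ₐ[ℚ] ℂ) ≠ 0 :=
    have : Nonempty (Kn n →ₐ[ℚ] ℂ) := ⟨(Kn n).val⟩
    Fintype.card_ne_zero
  exact absurd hprod (not_le.mpr (pow_lt_one₀ hQpos.le hlt hm))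

/-- The arithmetic-geometric mean inequality over a stable set of characters. -/
theorem card_le_sum_norm_sq_irr [DecidableEq (IrrCharacter G)] (S : Finset (IrrCharacter G)) (v : G)
    (hS : ∀ k : ℕ, ∀ hk : k.Coprime (Nat.card G), ∀ χ ∈ S, powIrr hk χ ∈ S)
    (hv : ∀ χ ∈ S, (χ : G → ℂ) v ≠ 0) :
    (S.card : ℝ) ≤ ∑ χ ∈ S, ‖(χ : G → ℂ) v‖ ^ 2 := by
  have hQ := one_le_prod_norm_irr S v hS hv
  have hpos : ∀ χ ∈ S, 0 < ‖(χ : G → ℂ) v‖ := fun χ hχ => norm_pos_iff.mpr (hv χ hχ)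
  have hpos2 : ∀ χ ∈ S, 0 < ‖(χ : G → ℂ) v‖ ^ 2 := fun χ hχ => pow_pos (hpos χ hχ) 2
  have hlog : 0 ≤ ∑ χ ∈ S, (‖(χ : G → ℂ) v‖ ^ 2 - 1) := by
    have hQ2 : 1 ≤ ∏ χ ∈ S, ‖(χ : G → ℂ) v‖ ^ 2 := by
      rw [Finset.prod_pow]
      exact one_le_pow₀ hQ
    calc (0:ℝ) ≤ Real.log (∏ χ ∈ S, ‖(χ : G → ℂ) v‖ ^ 2) := Real.log_nonneg hQ2
      _ = ∑ χ ∈ S, Real.log (‖(χ : G → ℂ) v‖ ^ 2) := Real.log_prod (fun χ hχ => (hpos2 χ hχ).ne')
      _ ≤ ∑ χ ∈ S, (‖(χ : G → ℂ) v‖ ^ 2 - 1) :=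
        Finset.sum_le_sum fun χ hχ => Real.log_le_sub_one_of_pos (hpos2 χ hχ)
  rw [Finset.sum_sub_distrib] at hlog
  simp only [Finset.sum_const, nsmul_eq_mul, mul_one] at hlog
  linarith

end AMGM

section Main

variable {X : Type*} [Group X] [Finite X]

theorem card_centralizer_eq (V : Subgroup X) (hab : ∀ a ∈ V, ∀ b ∈ V, a * b = b * a)
    (G : Subgroup X) (hGV : Subgroup.IsComplement' V G) (v : X) (hv : v ∈ V) :
    Nat.card (Subgroup.centralizer ({v} : Set X)) =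
      Nat.card ↥(G ⊓ Subgroup.centralizer ({v} : Set X)) * Nat.card V := by
  have hVC : ∀ u ∈ V, u ∈ Subgroup.centralizer ({v} : Set X) := by
    intro u hu
    rw [Subgroup.mem_centralizer_singleton_iff]
    exact hab u hu v hv
  let f : ↥(G ⊓ Subgroup.centralizer ({v} : Set X)) × V → Subgroup.centralizer ({v} : Set X) :=
    fun a => ⟨(a.2 : X) * (a.1 : X), mul_mem (hVC _ a.2.2) a.1.2.2⟩
  have hbij : Function.Bijective f := by
    constructor
    · rintro ⟨a, b⟩ ⟨c, d⟩ h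
      have h1 : (b : X) * (a : X) = (d : X) * (c : X) := congrArg Subtype.val h
      have h2 := hGV.1 (a₁ := (⟨b, b.2⟩, ⟨a, a.2.1⟩)) (a₂ := (⟨d, d.2⟩, ⟨c, c.2.1⟩)) h1
      have h3 := Prod.ext_iff.mp h2
      apply Prod.ext
      · exact Subtype.ext (by simpa using congrArg Subtype.val h3.2)
      · exact Subtype.ext (by simpa using congrArg Subtype.val h3.1)
    · rintro ⟨c, hc⟩
      obtain ⟨⟨u, g⟩, hug⟩ := hGV.2 c
      have hug' : (u : X) * (g : X) = c := hug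
      have hg : (g : X) ∈ Subgroup.centralizer ({v} : Set X) := by
        have : (g : X) = (u : X)⁻¹ * c := by rw [← hug']; group
        rw [this]
        exact mul_mem (inv_mem (hVC _ u.2)) hc
      exact ⟨⟨⟨g, ⟨g.2, hg⟩⟩, ⟨u, u.2⟩⟩, Subtype.ext hug'⟩
  rw [← Nat.card_congr (Equiv.ofBijective f hbij), Nat.card_prod]

/-- The main inequality. -/
theorem main_ineq (p : ℕ) [Fact p.Prime] (V : Subgroup X) [V.Normal] (hVp : IsPGroup p V)
    (hidx : ¬ p ∣ V.index) (hab : ∀ a ∈ V, ∀ b ∈ V, a * b = b * a) (v : X) (hv : v ∈ V) :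
    Nat.card (ConjClasses X) + Nat.card (X ⧸ V) ≤
      Nat.card (Subgroup.centralizer ({v} : Set X)) + Nat.card (ConjClasses (X ⧸ V)) := by
  classical
  let _ : Fintype X := Fintype.ofFinite X
  have := finite_irrCharacter (G := X)
  have := finite_irrCharacter (G := X ⧸ V)
  let _ : Fintype (IrrCharacter X) := Fintype.ofFinite _
  let _ : Fintype (IrrCharacter (X ⧸ V)) := Fintype.ofFinite _
  let π : X →* X ⧸ V := QuotientGroup.mk' V
  have hπ : Function.Surjective π := QuotientGroup.mk'_surjective V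
  let Φ : IrrCharacter (X ⧸ V) → IrrCharacter X := fun φ =>
    ⟨(φ : X ⧸ V → ℂ) ∘ π, Cfsg.Agent.Lib.Char.Linear.isIrrCharacter_comp π hπ φ.2⟩
  have hΦinj : Function.Injective Φ := by
    intro a b h
    apply Subtype.ext
    funext y
    obtain ⟨x, rfl⟩ := hπ y
    exact congrFun (congrArg Subtype.val h) x
  have hΦmem : ∀ χ : IrrCharacter X, χ ∈ Finset.univ.image Φ ↔ ∀ u ∈ V, (χ : X → ℂ) u = (χ : X → ℂ) 1 := by
    intro χ
    constructor
    · intro h u hu
      obtain ⟨φ, -, rfl⟩ := Finset.mem_image.mp h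
      have hu1 : π u = 1 := (QuotientGroup.eq_one_iff u).mpr hu
      simp [Φ, hu1]
    · intro h
      have hker : ∀ k ∈ π.ker, (χ : X → ℂ) k = (χ : X → ℂ) 1 := by
        intro k hk
        exact h k ((QuotientGroup.eq_one_iff k).mp hk)
      obtain ⟨φ, hφ, hχ⟩ := Cfsg.Agent.Lib.Char.Linear.isIrrCharacter_descend π hπ χ.2 hker
      exact Finset.mem_image.mpr ⟨⟨φ, hφ⟩, Finset.mem_univ _, Subtype.ext hχ.symm⟩
  set S₀ : Finset (IrrCharacter X) := Finset.univ.image Φ with hS₀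
  set S : Finset (IrrCharacter X) := S₀ᶜ with hS
  have hS₀card : S₀.card = Nat.card (ConjClasses (X ⧸ V)) := by
    rw [hS₀, Finset.card_image_of_injective _ hΦinj, Finset.card_univ, ← Nat.card_eq_fintype_card,
      card_irr_eq_card_conjClasses]
  have hcard : S₀.card + S.card = Nat.card (ConjClasses X) := by
    rw [hS, Finset.card_add_card_compl, ← Nat.card_eq_fintype_card,
      card_irr_eq_card_conjClasses]
  -- the total
  have htotal : ∑ χ : IrrCharacter X, ‖(χ : X → ℂ) v‖ ^ 2 =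
      (Nat.card (Subgroup.centralizer ({v} : Set X)) : ℝ) := by
    have h1 := sum_irr_mul_conj (G := X) v v
    rw [if_pos (IsConj.refl _)] at h1
    have h2 : ((∑ χ : IrrCharacter X, ‖(χ : X → ℂ) v‖ ^ 2 : ℝ) : ℂ) =
        ((Nat.card (Subgroup.centralizer ({v} : Set X)) : ℝ) : ℂ) := by
      push_cast
      rw [← h1]
      refine Finset.sum_congr rfl fun χ _ => ?_
      rw [Complex.mul_conj, Complex.normSq_eq_norm_sq]
      push_cast
      rfl
    exact_mod_cast h2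
  have hS₀sum : ∑ χ ∈ S₀, ‖(χ : X → ℂ) v‖ ^ 2 = (Nat.card (X ⧸ V) : ℝ) := by
    rw [hS₀, Finset.sum_image (fun a _ b _ h => hΦinj h)]
    have hv1 : π v = 1 := (QuotientGroup.eq_one_iff v).mpr hv
    have h1 := sum_deg_sq_eq_card (G := X ⧸ V)
    have h2 : ((∑ φ : IrrCharacter (X ⧸ V), ‖((Φ φ : IrrCharacter X) : X → ℂ) v‖ ^ 2 : ℝ) : ℂ) =
        ((Nat.card (X ⧸ V) : ℝ) : ℂ) := by
      push_cast
      rw [← h1]
      refine Finset.sum_congr rfl fun φ _ => ?_
      have h3 : ((Φ φ : IrrCharacter X) : X → ℂ) v = (φ : X ⧸ V → ℂ) 1 := by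
        simp [Φ, hv1]
      rw [h3]
      obtain ⟨m, ρ, -, hρ⟩ := φ.2
      rw [← hρ, Representation.char_one]
      simp
    exact_mod_cast h2
  have hcop : ∀ χ ∈ S, (χ : X → ℂ) v ≠ 0 := by
    intro χ _
    obtain ⟨m, ρ, hρ, hχ⟩ := χ.2
    rw [← hχ]
    haveI := hρ
    have hdvd := Cfsg.Agent.Lib.Char.Ito.finrank_dvd_index_of_abelian_normal ρ V hab
    obtain ⟨a, ha⟩ := (IsPGroup.iff_orderOf.mp hVp) ⟨v, hv⟩
    have hp := (Fact.out : p.Prime)
    refine Cfsg.Agent.Lib.CharDeep.PElt.character_ne_zero ρ hp a ?_ (fun hd => hidx (hd.trans hdvd))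
    have h2 : (⟨v, hv⟩ : V) ^ p ^ a = 1 := by rw [← ha]; exact pow_orderOf_eq_one _
    simpa using congrArg Subtype.val h2
  have hstable : ∀ k : ℕ, ∀ hk : k.Coprime (Nat.card X), ∀ χ ∈ S, powIrr hk χ ∈ S := by
    intro k hk χ hχ
    rw [hS, Finset.mem_compl, hΦmem] at hχ ⊢
    push Not at hχ ⊢
    obtain ⟨u, hu, huχ⟩ := hχ
    have hk' : k.Coprime (orderOf u) := hk.coprime_dvd_right (orderOf_dvd_natCard u)
    obtain ⟨m, hm⟩ := exists_pow_eq_self_of_coprime hk'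
    refine ⟨u ^ m, pow_mem hu m, ?_⟩
    change (χ : X → ℂ) ((u ^ m) ^ k) ≠ (χ : X → ℂ) (1 ^ k)
    rw [one_pow, ← pow_mul, mul_comm, pow_mul, hm]
    exact huχ
  have hSle := card_le_sum_norm_sq_irr S v hstable hcop
  have hsplit : ∑ χ : IrrCharacter X, ‖(χ : X → ℂ) v‖ ^ 2 =
      ∑ χ ∈ S₀, ‖(χ : X → ℂ) v‖ ^ 2 + ∑ χ ∈ S, ‖(χ : X → ℂ) v‖ ^ 2 :=
    (Finset.sum_add_sum_compl S₀ _).symm
  have hfinal : ((Nat.card (ConjClasses X) + Nat.card (X ⧸ V) : ℕ) : ℝ) ≤
      ((Nat.card (Subgroup.centralizer ({v} : Set X)) + Nat.card (ConjClasses (X ⧸ V)) : ℕ) : ℝ) := by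
    push_cast
    rw [← htotal, hsplit, hS₀sum, ← hcard, hS₀card]
    push_cast
    linarith
  exact_mod_cast hfinal

end Main

/-- Let X be a finite group with an abelian normal Sylow p-subgroup V (a normal p-subgroup of index prime to p in which any two elements commute), and let G be a complement to V in X. Then for every v in V, writing C for the centralizer of v in G, the number k(X) of conjugacy classes of X satisfies k(X) ≤ (order of C)·(order of V) − ((order of G) − k(G)); the statement is written with the subtracted term moved to the left. In particular, if some v in V is centralized by no nonidentity element of G, then k(X) is at most the order of V. -/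
theorem result {X : Type*} [Group X] [Finite X] (p : ℕ) [Fact p.Prime] (V : Subgroup X) [V.Normal] (hVp : IsPGroup p V) (hidx : ¬ p ∣ V.index) (hab : ∀ a ∈ V, ∀ b ∈ V, a * b = b * a) (G : Subgroup X) (hGV : Subgroup.IsComplement' V G) (v : X) (hv : v ∈ V) : Nat.card (ConjClasses X) + Nat.card G ≤ Nat.card ↥(G ⊓ Subgroup.centralizer ({v} : Set X)) * Nat.card V + Nat.card (ConjClasses G) := by
  have h1 := main_ineq p V hVp hidx hab v hv
  have e := hGV.symm.QuotientMulEquiv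
  have h2 : Nat.card (X ⧸ V) = Nat.card G := Nat.card_congr e.toEquiv
  have h3 : Nat.card (ConjClasses (X ⧸ V)) = Nat.card (ConjClasses G) := by
    refine Nat.card_congr (Equiv.ofBijective (ConjClasses.map e.toMonoidHom) ⟨?_, ?_⟩)
    · intro a b hab
      obtain ⟨a, rfl⟩ := ConjClasses.mk_surjective a
      obtain ⟨b, rfl⟩ := ConjClasses.mk_surjective b
      have h4 : ConjClasses.mk (e a) = ConjClasses.mk (e b) := hab
      rw [ConjClasses.mk_eq_mk_iff_isConj] at h4 ⊢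
      simpa using e.symm.toMonoidHom.map_isConj h4
    · exact ConjClasses.map_surjective e.surjective
  rw [h2, h3, card_centralizer_eq V hab G hGV v hv] at h1
  exact h1

end Cfsg.Agent.S4955
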