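import Cfsg.Statements.S4956
import Cfsg.Agent.Lib.Solvable.Hall
import Mathlib.Tactic.Group

set_option autoImplicit false
open Cfsg

namespace Cfsg.Agent.S4956

open Cfsg.Agent.Lib.Solvable.Hall

lemma pow_of_mod_one {X : Type*} [Group X] {x : X} {n e : ℕ} (h : x ^ n = 1) (he : e % n = 1 % n) :
    x ^ e = x := by
  rw [pow_eq_pow_mod e h, he, ← pow_eq_pow_mod 1 h, pow_one]

lemma pow_of_dvd {X : Type*} [Group X] {x : X} {n e : ℕ} (h : x ^ n = 1) (he : n ∣ e) :
    x ^ e = 1 := by
  obtain ⟨k, rfl⟩ := he
  rw [pow_mul, h, one_pow]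

/-- Let X be a finite group, V an abelian normal subgroup of X (any two elements of V commute) and G a complement to V in X whose order is coprime to that of V. Let S be a set of representatives of the orbits of G on V under conjugation: S lies in V and every element of V is conjugate under G to exactly one member of S. Then the number of conjugacy classes of X equals the sum, over s in S, of the number of conjugacy classes of the centralizer of s in G. -/
theorem result {X : Type*} [Group X] [Finite X] (V : Subgroup X) [V.Normal] (hab : ∀ a ∈ V, ∀ b ∈ V, a * b = b * a) (G : Subgroup X) (hGV : Subgroup.IsComplement' V G) (hcop : (Nat.card V).Coprime (Nat.card G)) (S : Finset X) (hSV : ∀ s ∈ S, s ∈ V) (hrep : ∀ v ∈ V, ∃! s, s ∈ S ∧ ∃ g ∈ G, g * v * g⁻¹ = s) : Nat.card (ConjClasses X) = ∑ s ∈ S, Nat.card (ConjClasses ↥(G ⊓ Subgroup.centralizer ({s} : Set X))) := by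
  classical
  -- numerics
  have hcard : Nat.card V * Nat.card G = Nat.card X := hGV.card_mul_card
  obtain ⟨e, he1, he2⟩ := Nat.chineseRemainder hcop 1 0
  obtain ⟨f, hf1, hf2⟩ := Nat.chineseRemainder hcop 0 1
  have he1' : e % Nat.card V = 1 % Nat.card V := he1
  have hf2' : f % Nat.card G = 1 % Nat.card G := hf2
  have he2' : Nat.card G ∣ e := (Nat.modEq_zero_iff_dvd).mp he2
  have hf1' : Nat.card V ∣ f := (Nat.modEq_zero_iff_dvd).mp hf1
  have hV1 : ∀ y ∈ V, y ^ Nat.card V = 1 := by
    intro y hy
    have h := pow_card_eq_one' (x := (⟨y, hy⟩ : V))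
    have h2 : (((⟨y, hy⟩ : V) ^ Nat.card V : V) : X) = 1 := by rw [h]; rfl
    exact h2
  have hG1 : ∀ y ∈ G, y ^ Nat.card G = 1 := by
    intro y hy
    have h := pow_card_eq_one' (x := (⟨y, hy⟩ : G))
    have h2 : (((⟨y, hy⟩ : G) ^ Nat.card G : G) : X) = 1 := by rw [h]; rfl
    exact h2
  have hX1 : ∀ y : X, y ^ (Nat.card V * Nat.card G) = 1 := by
    intro y
    rw [hcard]
    exact pow_card_eq_one'
  have hpowV : ∀ y : X, y ^ Nat.card G ∈ V := by
    intro y
    have hidx : V.index = Nat.card G := hGV.symm.index_eq_card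
    have := Subgroup.pow_index_mem V y
    rwa [hidx] at this
  have hadd : ∀ y : X, y ^ e * y ^ f = y := by
    intro y
    rw [← pow_add]
    have h1 : e + f ≡ 1 [MOD Nat.card V] := by
      have : e + f ≡ 1 + 0 [MOD Nat.card V] := Nat.ModEq.add he1 hf1
      simpa using this
    have h2 : e + f ≡ 1 [MOD Nat.card G] := by
      have : e + f ≡ 0 + 1 [MOD Nat.card G] := Nat.ModEq.add he2 hf2
      simpa using this
    have h3 : e + f ≡ 1 [MOD Nat.card V * Nat.card G] :=
      (Nat.modEq_and_modEq_iff_modEq_mul hcop).mp ⟨h1, h2⟩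
    exact pow_of_mod_one (hX1 y) h3
  -- the map
  let Φ : (Σ s : S, ConjClasses ↥(G ⊓ Subgroup.centralizer ({(s : X)} : Set X))) → ConjClasses X :=
    fun p => ConjClasses.mk ((p.1 : X) * ((Quotient.out p.2 : ↥(G ⊓ Subgroup.centralizer ({(p.1 : X)} : Set X))) : X))
  have hΦmk : ∀ (s : S) (c : ↥(G ⊓ Subgroup.centralizer ({(s : X)} : Set X))),
      Φ ⟨s, ConjClasses.mk c⟩ = ConjClasses.mk ((s : X) * (c : X)) := by
    intro s c
    have hq : IsConj (Quotient.out (ConjClasses.mk c) :
        ↥(G ⊓ Subgroup.centralizer ({(s : X)} : Set X))) c := by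
      rw [← ConjClasses.mk_eq_mk_iff_isConj]
      exact Quotient.out_eq _
    rw [isConj_iff] at hq
    obtain ⟨h, hh⟩ := hq
    show ConjClasses.mk _ = _
    rw [ConjClasses.mk_eq_mk_iff_isConj, isConj_iff]
    refine ⟨(h : X), ?_⟩
    have hcomm : (h : X) * (s : X) = (s : X) * (h : X) := by
      have := Subgroup.mem_centralizer_iff.mp h.2.2 (s : X) (by simp)
      exact this.symm
    have hval : (h : X) * ((Quotient.out (ConjClasses.mk c) :
        ↥(G ⊓ Subgroup.centralizer ({(s : X)} : Set X))) : X) * (h : X)⁻¹ = (c : X) := by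
      have := congrArg Subtype.val hh
      simpa using this
    calc (h : X) * ((s : X) * ((Quotient.out (ConjClasses.mk c) :
        ↥(G ⊓ Subgroup.centralizer ({(s : X)} : Set X))) : X)) * (h : X)⁻¹
        = ((h : X) * (s : X)) * ((Quotient.out (ConjClasses.mk c) :
        ↥(G ⊓ Subgroup.centralizer ({(s : X)} : Set X))) : X) * (h : X)⁻¹ := by group
      _ = (s : X) * ((h : X) * ((Quotient.out (ConjClasses.mk c) :
        ↥(G ⊓ Subgroup.centralizer ({(s : X)} : Set X))) : X) * (h : X)⁻¹) := by rw [hcomm]; group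
      _ = (s : X) * (c : X) := by rw [hval]
  have hbij : Function.Bijective Φ := by
    constructor
    · -- injective
      rintro ⟨s, q⟩ ⟨s', q'⟩ hΦ
      obtain ⟨c, rfl⟩ := ConjClasses.mk_surjective q
      obtain ⟨c', rfl⟩ := ConjClasses.mk_surjective q'
      rw [hΦmk, hΦmk, ConjClasses.mk_eq_mk_iff_isConj, isConj_iff] at hΦ
      obtain ⟨t, ht⟩ := hΦ
      have hsV : (s : X) ∈ V := hSV s s.2
      have hs'V : (s' : X) ∈ V := hSV s' s'.2
      have hcG : (c : X) ∈ G := c.2.1
      have hc'G : (c' : X) ∈ G := c'.2.1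
      have hcc : (c : X) * (s : X) = (s : X) * (c : X) := by
        have := Subgroup.mem_centralizer_iff.mp c.2.2 (s : X) (by simp)
        exact this.symm
      have hcc' : (c' : X) * (s' : X) = (s' : X) * (c' : X) := by
        have := Subgroup.mem_centralizer_iff.mp c'.2.2 (s' : X) (by simp)
        exact this.symm
      -- parts
      have hpart : ∀ (u w : X), u ∈ V → w ∈ G → w * u = u * w →
          (u * w) ^ e = u ∧ (u * w) ^ f = w := by
        intro u w hu hw hc
        have hcm : Commute u w := hc.symm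
        rw [hcm.mul_pow, hcm.mul_pow]
        constructor
        · rw [pow_of_mod_one (hV1 u hu) he1', pow_of_dvd (hG1 w hw) he2', mul_one]
        · rw [pow_of_dvd (hV1 u hu) hf1', pow_of_mod_one (hG1 w hw) hf2', one_mul]
      obtain ⟨p1, p2⟩ := hpart _ _ hsV hcG hcc
      obtain ⟨p1', p2'⟩ := hpart _ _ hs'V hc'G hcc'
      have hconj : ∀ k : ℕ, t * ((s : X) * (c : X)) ^ k * t⁻¹ = ((s' : X) * (c' : X)) ^ k := by
        intro k
        rw [← ht]
        exact (conj_pow).symm
      have h1 : t * (s : X) * t⁻¹ = (s' : X) := by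
        have := hconj e
        rwa [p1, p1'] at this
      have h2 : t * (c : X) * t⁻¹ = (c' : X) := by
        have := hconj f
        rwa [p2, p2'] at this
      -- decompose t
      obtain ⟨⟨v, g⟩, hvg⟩ := hGV.2 t
      simp only at hvg
      have hgsV : (g : X) * (s : X) * (g : X)⁻¹ ∈ V :=
        Subgroup.Normal.conj_mem inferInstance _ hsV _
      have h3 : (g : X) * (s : X) * (g : X)⁻¹ = (s' : X) := by
        rw [← h1, ← hvg]
        have := hab _ v.2 _ hgsV
        calc (g : X) * (s : X) * (g : X)⁻¹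
            = ((g : X) * (s : X) * (g : X)⁻¹) * (v : X) * (v : X)⁻¹ := by group
          _ = (v : X) * ((g : X) * (s : X) * (g : X)⁻¹) * (v : X)⁻¹ := by rw [this]
          _ = _ := by group
      -- s = s'
      have hss' : (s : X) = (s' : X) := by
        obtain ⟨r, -, huniq⟩ := hrep (s : X) hsV
        have a1 := huniq (s : X) ⟨s.2, 1, G.one_mem, by simp⟩
        have a2 := huniq (s' : X) ⟨s'.2, (g : X), g.2, h3⟩
        rw [a1, a2]
      have hss'' : s = s' := Subtype.ext hss'
      subst hss''
      have hgc : (g : X) ∈ Subgroup.centralizer ({(s : X)} : Set X) := by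
        rw [Subgroup.mem_centralizer_iff]
        intro y hy
        rw [Set.mem_singleton_iff] at hy
        subst hy
        -- g s g⁻¹ = s
        have : (g : X) * (s : X) = (s : X) * (g : X) := by
          calc (g : X) * (s : X) = ((g : X) * (s : X) * (g : X)⁻¹) * (g : X) := by group
            _ = (s : X) * (g : X) := by rw [h3]
        exact this.symm
      -- c1 = g c g⁻¹ equals c'
      have hc1 : (g : X) * (c : X) * (g : X)⁻¹ = (c' : X) := by
        have hc1G : (g : X) * (c : X) * (g : X)⁻¹ ∈ G :=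
          G.mul_mem (G.mul_mem g.2 hcG) (G.inv_mem g.2)
        have hmemV : ((g : X) * (c : X) * (g : X)⁻¹)⁻¹ * (c' : X) ∈ V := by
          have e1 : (c' : X) = (v : X) * ((g : X) * (c : X) * (g : X)⁻¹) * (v : X)⁻¹ := by
            rw [← h2, ← hvg]; group
          have e2 : ((g : X) * (c : X) * (g : X)⁻¹)⁻¹ * (c' : X) =
              (((g : X) * (c : X) * (g : X)⁻¹)⁻¹ * (v : X) * ((g : X) * (c : X) * (g : X)⁻¹)) * (v : X)⁻¹ := by
            rw [e1]; group
          rw [e2]
          refine V.mul_mem ?_ (V.inv_mem v.2)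
          have := Subgroup.Normal.conj_mem (inferInstance : V.Normal) _ v.2 ((g : X) * (c : X) * (g : X)⁻¹)⁻¹
          simpa using this
        have hmemG : ((g : X) * (c : X) * (g : X)⁻¹)⁻¹ * (c' : X) ∈ G :=
          G.mul_mem (G.inv_mem hc1G) hc'G
        have hbot : ((g : X) * (c : X) * (g : X)⁻¹)⁻¹ * (c' : X) = 1 := by
          have hdis := hGV.disjoint
          exact (Subgroup.disjoint_def.mp hdis) hmemV hmemG
        exact (inv_mul_eq_one.mp hbot)
      -- conclude
      have hconjcc : ConjClasses.mk c = ConjClasses.mk c' := by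
        rw [ConjClasses.mk_eq_mk_iff_isConj, isConj_iff]
        refine ⟨⟨(g : X), g.2, hgc⟩, ?_⟩
        apply Subtype.ext
        simpa using hc1
      rw [hconjcc]
    · -- surjective
      intro q
      obtain ⟨x, rfl⟩ := ConjClasses.mk_surjective q
      have hx : x ^ e * x ^ f = x := hadd x
      set a := x ^ e with ha
      set b := x ^ f with hb
      have haV : a ∈ V := by
        obtain ⟨k, hk⟩ := he2'
        rw [ha, hk, pow_mul]
        exact V.pow_mem (hpowV x) k
      have hbm : b ^ Nat.card G = 1 := by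
        obtain ⟨k, hk⟩ := hf1'
        rw [hb, hk, ← pow_mul, mul_right_comm, pow_mul, hX1, one_pow]
      have hab' : a * b = b * a := by
        rw [ha, hb, ← pow_add, ← pow_add, add_comm]
      -- conjugate b into G
      let K : Subgroup X := Subgroup.zpowers b
      let E : Subgroup X := K ⊔ V
      let C : Subgroup X := G ⊓ E
      have hKm : ∀ y ∈ K, y ^ Nat.card G = 1 := by
        intro y hy
        obtain ⟨k, rfl⟩ := Subgroup.mem_zpowers_iff.mp hy
        rw [← zpow_natCast, zpow_comm, zpow_natCast, hbm, one_zpow]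
      have hKV : K ⊓ V = ⊥ := by
        rw [eq_bot_iff]
        intro y hy
        have h1 := hKm y hy.1
        have h2 := hV1 y hy.2
        have h3 : orderOf y ∣ Nat.card V := orderOf_dvd_of_pow_eq_one h2
        have h4 : orderOf y ∣ Nat.card G := orderOf_dvd_of_pow_eq_one h1
        have h5 : orderOf y = 1 := Nat.eq_one_of_dvd_coprimes hcop h3 h4
        exact Subgroup.mem_bot.mpr (orderOf_eq_one_iff.mp h5)
      have hCV : C ⊓ V = ⊥ := by
        rw [eq_bot_iff]
        intro y hy
        exact Subgroup.disjoint_def.mp hGV.disjoint hy.2 hy.1.1 |> Subgroup.mem_bot.mpr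
      have hCE : C ⊔ V = E := by
        apply le_antisymm
        · exact sup_le inf_le_right le_sup_right
        · intro y hy
          obtain ⟨⟨v, g⟩, hvg⟩ := hGV.2 y
          simp only at hvg
          have hgE : (g : X) ∈ E := by
            have : (g : X) = (v : X)⁻¹ * y := by rw [← hvg]; group
            rw [this]
            exact E.mul_mem (E.inv_mem (Subgroup.mem_sup_right v.2)) hy
          have h1 : (g : X) ∈ C ⊔ V := Subgroup.mem_sup_left ⟨g.2, hgE⟩
          have h2 : (v : X) ∈ C ⊔ V := Subgroup.mem_sup_right v.2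
          rw [← hvg]
          exact (C ⊔ V).mul_mem h2 h1
      have hcopK : (Nat.card V).Coprime (Nat.card K) := by
        have hdvd : Nat.card K ∣ Nat.card G := by
          have : Nat.card K = orderOf b := Nat.card_zpowers b
          rw [this]
          exact orderOf_dvd_of_pow_eq_one hbm
        exact Nat.Coprime.coprime_dvd_right hdvd hcop
      obtain ⟨y, hyV, hyc⟩ := complements_conj_in (E := E) (N := V) (K := K) (C := C) hab rfl hCE hKV hCV hcopK
      have hbK : b ∈ K := Subgroup.mem_zpowers b
      rw [← hyc, mem_conj_smul_iff] at hbK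
      have hcG : y⁻¹ * b * y ∈ G := hbK.1
      set c0 := y⁻¹ * b * y with hc0
      set a0 := y⁻¹ * a * y with ha0
      have ha0V : a0 ∈ V := by
        have := Subgroup.Normal.conj_mem (inferInstance : V.Normal) a haV y⁻¹
        simpa [ha0] using this
      have hac0 : a0 * c0 = c0 * a0 := by
        rw [ha0, hc0]
        calc y⁻¹ * a * y * (y⁻¹ * b * y) = y⁻¹ * (a * b) * y := by group
          _ = y⁻¹ * (b * a) * y := by rw [hab']
          _ = y⁻¹ * b * y * (y⁻¹ * a * y) := by group
      obtain ⟨s, ⟨hsS, g, hgG, hgs⟩, -⟩ := hrep a0 ha0V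
      let c1 : X := g * c0 * g⁻¹
      have hc1G : c1 ∈ G := G.mul_mem (G.mul_mem hgG hcG) (G.inv_mem hgG)
      have hc1s : s * c1 = c1 * s := by
        rw [← hgs]
        calc g * a0 * g⁻¹ * c1 = g * (a0 * c0) * g⁻¹ := by simp only [c1]; group
          _ = g * (c0 * a0) * g⁻¹ := by rw [hac0]
          _ = c1 * (g * a0 * g⁻¹) := by simp only [c1]; group
      have hc1C : c1 ∈ Subgroup.centralizer ({s} : Set X) := by
        rw [Subgroup.mem_centralizer_iff]
        intro z hz
        rw [Set.mem_singleton_iff] at hz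
        subst hz
        exact hc1s
      refine ⟨⟨⟨s, hsS⟩, ConjClasses.mk ⟨c1, hc1G, hc1C⟩⟩, ?_⟩
      rw [hΦmk, ConjClasses.mk_eq_mk_iff_isConj, isConj_iff]
      refine ⟨y * g⁻¹, ?_⟩
      show (y * g⁻¹) * (s * c1) * (y * g⁻¹)⁻¹ = x
      rw [← hgs]
      simp only [c1]
      rw [← hx, ha0, hc0]
      group
  have hcardsig := Nat.card_congr (Equiv.ofBijective Φ hbij)
  rw [← hcardsig, Nat.card_sigma]
  exact Finset.sum_coe_sort S (fun s => Nat.card (ConjClasses ↥(G ⊓ Subgroup.centralizer ({s} : Set X))))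

end Cfsg.Agent.S4956
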