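import Cfsg.Statements.S4964
import Cfsg.Agent.Lib.BlockCover.Coprime
import Cfsg.Agent.Lib.BlockT.Inflate2
import Cfsg.Agent.Lib.BlockP.Reduce

set_option autoImplicit false
set_option linter.style.haveILetI false
open Cfsg

namespace Cfsg.Agent.S4964


open Cfsg Cfsg.Agent.Lib.Blocks.Local Cfsg.Agent.Lib.Blocks.Central
open Cfsg.Agent.Lib.Char.Basic Cfsg.Agent.Lib.Char.Complete

variable {G : Type*} [Group G] {p : ℕ}

/-- A `p`-regular element of a quotient lifts to a `p`-regular element. -/
theorem exists_regular_lift [Finite G] (hp : p.Prime) (K : Subgroup G) [K.Normal] (w : G ⧸ K)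
    (hw : ¬ p ∣ orderOf w) : ∃ y : G, ¬ p ∣ orderOf y ∧ (y : G ⧸ K) = w := by
  obtain ⟨g, rfl⟩ := QuotientGroup.mk_surjective w
  have hpos : orderOf g ≠ 0 := (orderOf_pos g).ne'
  obtain ⟨a, m, hm, hg⟩ := Nat.exists_eq_pow_mul_and_not_dvd hpos p hp.ne_one
  have hcop : Nat.Coprime (p ^ a) (orderOf (g : G ⧸ K)) :=
    Nat.Coprime.pow_left _ ((Nat.Prime.coprime_iff_not_dvd hp).mpr hw)
  obtain ⟨t, ht⟩ := exists_pow_eq_self_of_coprime hcop
  refine ⟨(g ^ p ^ a) ^ t, ?_, ?_⟩
  · intro hd
    apply hm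
    have h1 : orderOf ((g ^ p ^ a) ^ t) ∣ m := by
      apply orderOf_dvd_of_pow_eq_one
      rw [← pow_mul, ← pow_mul]
      have e : p ^ a * (t * m) = (p ^ a * m) * t := by ring
      rw [e, ← hg, pow_mul, pow_orderOf_eq_one, one_pow]
    exact hd.trans h1
  · rw [QuotientGroup.mk_pow, QuotientGroup.mk_pow]
    exact ht

/-- Two conjugates of a `p`-regular element of `C_G(P)` congruent modulo `P` are equal. -/
theorem eq_of_conj_of_mk_eq' (hp : p.Prime) {P : Subgroup G} (hP : P.Normal) (hpg : IsPGroup p P)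
    {x y z : G} (hx : ¬ p ∣ orderOf x) (hxC : x ∈ Subgroup.centralizer (P : Set G))
    (hy : IsConj x y) (hz : IsConj x z) (hyz : y⁻¹ * z ∈ P) : y = z := by
  by_contra hne
  have hord : ∀ {a b : G}, IsConj a b → orderOf b = orderOf a := by
    intro a b h
    obtain ⟨c, rfl⟩ := isConj_iff.mp h
    exact orderOf_injective (MulAut.conj c).toMonoidHom (MulAut.conj c).injective a
  have hoy : orderOf y = orderOf x := hord hy
  have hoz : orderOf z = orderOf x := hord hz
  have hyreg : ¬ p ∣ orderOf y := by rwa [hoy]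
  have hyC : y ∈ Subgroup.centralizer (P : Set G) := by
    haveI : (Subgroup.centralizer (P : Set G)).Normal := Subgroup.normal_centralizer
    obtain ⟨c, rfl⟩ := isConj_iff.mp hy
    exact Subgroup.Normal.conj_mem inferInstance x hxC c
  set u := y⁻¹ * z with hu
  have huP : u ∈ P := hyz
  have hu1 : u ≠ 1 := by
    intro h
    apply hne
    rw [hu, inv_mul_eq_one] at h
    exact h
  have hcomm : Commute u y := (Subgroup.mem_centralizer_iff.mp hyC u huP)
  obtain ⟨k, hk⟩ := hpg ⟨u, huP⟩
  have hk' : u ^ p ^ k = 1 := by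
    have := congrArg Subtype.val hk
    simpa using this
  have h1 := Cfsg.Agent.Lib.BlockT.Inflate2.dvd_orderOf_mul hp hcomm hk' hu1 hyreg
  have h2 : u * y = z := by
    rw [hcomm.eq, hu]
    group
  rw [h2, hoz] at h1
  exact hx h1

/-- The index of the centralizer of a `p`-regular element of `C_G(P)` is unchanged in `G/P`. -/
theorem index_centralizer_mk' [Fintype G] (hp : p.Prime) {P : Subgroup G} (hP : P.Normal)
    (hpg : IsPGroup p P) {x : G} (hx : ¬ p ∣ orderOf x)
    (hxC : x ∈ Subgroup.centralizer (P : Set G)) [Fintype (G ⧸ P)] :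
    haveI := hP
    (Subgroup.centralizer ({(QuotientGroup.mk x : G ⧸ P)} : Set (G ⧸ P))).index =
      (Subgroup.centralizer ({x} : Set G)).index := by
  classical
  haveI := hP
  rw [← Cfsg.Agent.Lib.Char.Central.card_filter_isConj, ← Cfsg.Agent.Lib.Char.Central.card_filter_isConj]
  symm
  apply Finset.card_bij (fun y _ => (QuotientGroup.mk y : G ⧸ P))
  · intro y hy
    simp only [Finset.mem_filter, Finset.mem_univ, true_and] at hy ⊢
    obtain ⟨c, rfl⟩ := isConj_iff.mp hy
    exact isConj_iff.mpr ⟨QuotientGroup.mk c, by simp⟩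
  · intro y hy z hz hyz
    simp only [Finset.mem_filter, Finset.mem_univ, true_and] at hy hz
    exact eq_of_conj_of_mk_eq' hp hP hpg hx hxC hy hz (QuotientGroup.eq.mp hyz)
  · intro w hw
    simp only [Finset.mem_filter, Finset.mem_univ, true_and] at hw
    obtain ⟨c, rfl⟩ := isConj_iff.mp hw
    obtain ⟨t, rfl⟩ := QuotientGroup.mk_surjective c
    exact ⟨t * x * t⁻¹, by simp, by simp⟩

/-- Let D be a normal p-subgroup of the finite group G, let D′ be its commutator subgroup (normal in G), and fix a maximal ideal M of the algebraic integers containing p. Then (i) two irreducible characters of G ⧸ D′ lie in the same p-block if and only if their inflations to G do, and (ii) every p-block of G contains the inflation of some irreducible character of G ⧸ D′; so inflation induces a bijection between the p-blocks of G ⧸ D′ and the p-blocks of G. -/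
theorem result {G : Type*} [Group G] [Finite G] (p : ℕ) [Fact p.Prime] (M : Ideal Cfsg.AlgInt) (hM : Cfsg.IsPModular p M) (D : Subgroup G) [D.Normal] (hD : IsPGroup p D) : (∀ χ ψ : Cfsg.IrrCharacter (G ⧸ ⁅D, D⁆), Cfsg.SameBlock M (χ : G ⧸ ⁅D, D⁆ → ℂ) (ψ : G ⧸ ⁅D, D⁆ → ℂ) ↔ Cfsg.SameBlock M ((χ : G ⧸ ⁅D, D⁆ → ℂ) ∘ QuotientGroup.mk) ((ψ : G ⧸ ⁅D, D⁆ → ℂ) ∘ QuotientGroup.mk)) ∧ ∀ B : Set (Cfsg.IrrCharacter G), Cfsg.IsPBlock M B → ∃ χ : Cfsg.IrrCharacter (G ⧸ ⁅D, D⁆), ∃ θ ∈ B, (θ : G → ℂ) = (χ : G ⧸ ⁅D, D⁆ → ℂ) ∘ QuotientGroup.mk := by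
  classical
  haveI hMp := hM.2.1.isPrime
  have hpp : p.Prime := Fact.out
  letI : Fintype G := Fintype.ofFinite G
  haveI hKn : (⁅D, D⁆ : Subgroup G).Normal := inferInstance
  have hKD : (⁅D, D⁆ : Subgroup G) ≤ D := Subgroup.commutator_le_self D |> fun h => h
  have hKp : IsPGroup p (⁅D, D⁆ : Subgroup G) := hD.to_le hKD
  letI : Fintype (G ⧸ ⁅D, D⁆) := Fintype.ofFinite _
  letI : Fintype (⁅D, D⁆ : Subgroup G) := Fintype.ofFinite _
  constructor
  · intro χ ψ
    constructor
    · intro h
      exact Cfsg.Agent.Lib.BlockT.Inflate.sameBlock_comp (QuotientGroup.mk' ⁅D, D⁆)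
        (QuotientGroup.mk'_surjective _) (isClassFunction_of_isIrrCharacter χ.2)
        (isClassFunction_of_isIrrCharacter ψ.2) h
    · intro h
      apply Cfsg.Agent.Lib.BlockT.Inflate2.sameBlock_of_regular hM
      intro w hw
      -- the image of `D` in the quotient
      set Q : Subgroup (G ⧸ ⁅D, D⁆) := D.map (QuotientGroup.mk' ⁅D, D⁆) with hQ
      have hQn : Q.Normal := Subgroup.Normal.map inferInstance _ (QuotientGroup.mk'_surjective _)
      have hQp : IsPGroup p Q := hD.map _
      by_cases hno : ∀ x, IsConj w x → x ∉ Subgroup.centralizer (Q : Set (G ⧸ ⁅D, D⁆))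
      · have h1 := Cfsg.Agent.Lib.BlockP.Reduce.centralChar_mem_of_no_conj hpp hM χ.2 Q hQn hQp w hno
        have h2 := Cfsg.Agent.Lib.BlockP.Reduce.centralChar_mem_of_no_conj hpp hM ψ.2 Q hQn hQp w hno
        exact memLocalIdeal_sub h1 h2
      · push Not at hno
        obtain ⟨x, hx, hxC⟩ := hno
        have hwC : w ∈ Subgroup.centralizer (Q : Set (G ⧸ ⁅D, D⁆)) := by
          haveI : (Subgroup.centralizer (Q : Set (G ⧸ ⁅D, D⁆))).Normal := Subgroup.normal_centralizer
          obtain ⟨c, rfl⟩ := isConj_iff.mp hx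
          have := Subgroup.Normal.conj_mem (inferInstance : (Subgroup.centralizer (Q : Set (G ⧸ ⁅D, D⁆))).Normal)
            _ hxC c⁻¹
          simpa [mul_assoc] using this
        obtain ⟨y, hy, rfl⟩ := exists_regular_lift hpp _ w hw
        -- `y` centralizes `D`
        have hyD : y ∈ Subgroup.centralizer (D : Set G) := by
          have hA : Subgroup.zpowers y ≤ Subgroup.normalizer (D : Set G) := by
            rw [Subgroup.zpowers_le]
            refine Subgroup.mem_set_normalizer_iff.mpr fun d => ⟨fun hd => ?_, fun hd => ?_⟩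
            · exact Subgroup.Normal.conj_mem inferInstance d hd y
            · have := Subgroup.Normal.conj_mem (inferInstance : D.Normal) _ hd y⁻¹
              simpa [mul_assoc] using this
          have hA2 : ¬ p ∣ Nat.card (Subgroup.zpowers y) := by
            rwa [Nat.card_zpowers]
          have h3 : ⁅D, Subgroup.zpowers y⁆ ≤ ⁅D, D⁆ := by
            rw [Subgroup.commutator_le]
            intro d hd a ha
            -- `a` is a power of `y`, so its image centralizes the image of `D`
            have haC : (a : G ⧸ ⁅D, D⁆) ∈ Subgroup.centralizer (Q : Set (G ⧸ ⁅D, D⁆)) := by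
              obtain ⟨n, rfl⟩ := Subgroup.mem_zpowers_iff.mp ha
              rw [QuotientGroup.mk_zpow]
              exact Subgroup.zpow_mem _ hwC n
            have h4 := Subgroup.mem_centralizer_iff.mp haC (d : G ⧸ ⁅D, D⁆) ⟨d, hd, rfl⟩
            rw [← QuotientGroup.eq_one_iff]
            rw [commutatorElement_def]
            simp only [QuotientGroup.mk_mul, QuotientGroup.mk_inv]
            rw [h4]
            group
          exact Cfsg.Agent.Lib.BlockCover.Coprime.le_centralizer_of_commutator_le hD hA hA2 h3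
            (Subgroup.mem_zpowers y)
        have hyK : y ∈ Subgroup.centralizer ((⁅D, D⁆ : Subgroup G) : Set G) :=
          Subgroup.centralizer_le hKD hyD
        have hidx := index_centralizer_mk' hpp hKn hKp hy hyK
        have h5 := h y
        rw [centralChar, centralChar] at h5 ⊢
        simp only [Function.comp, QuotientGroup.mk_one] at h5
        rw [hidx]
        exact h5
  · intro B hB
    obtain ⟨θ, hθ, htriv⟩ := Cfsg.Agent.Lib.BlockT.Inflate2.exists_trivial_mem_block hM hKn hKp hB
    obtain ⟨φ, hφ, hφe⟩ := Cfsg.Agent.Lib.Char.Linear.isIrrCharacter_descend (QuotientGroup.mk' ⁅D, D⁆)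
      (QuotientGroup.mk'_surjective _) θ.2 (by
        intro k hk
        have hkK : k ∈ (⁅D, D⁆ : Subgroup G) := by simpa using hk
        exact htriv ⟨k, hkK⟩)
    exact ⟨⟨φ, hφ⟩, θ, hθ, hφe⟩

end Cfsg.Agent.S4964
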