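import Cfsg.Statements.S4965
import Mathlib.GroupTheory.GroupAction.CardCommute
import Mathlib.GroupTheory.SemidirectProduct
import Mathlib.GroupTheory.Coset.Card
import Mathlib.Tactic.Group

set_option autoImplicit false
open Cfsg

namespace Cfsg.Agent.S4965

/-- Let X be a finite group with an abelian normal subgroup V (any two elements of V commute), and let φ be the action of X ⧸ V on V induced by conjugation (well defined because V is abelian; the hypothesis hφ says that the class of x acts as conjugation by x). Then X has at most as many conjugacy classes as the semidirect product of V by X ⧸ V formed with this action: the split extension has the largest class number among extensions with the given action. -/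
theorem result {X : Type*} [Group X] [Finite X] (V : Subgroup X) [V.Normal] (hab : ∀ a ∈ V, ∀ b ∈ V, a * b = b * a) (φ : X ⧸ V →* MulAut ↥V) (hφ : ∀ (x : X) (v : ↥V), ((φ (QuotientGroup.mk x) v : ↥V) : X) = x * v * x⁻¹) : Nat.card (ConjClasses X) ≤ Nat.card (ConjClasses (SemidirectProduct ↥V (X ⧸ V) φ)) := by
  classical
  have hfinY : Finite (SemidirectProduct ↥V (X ⧸ V) φ) :=
    Finite.of_equiv _ SemidirectProduct.equivProd.symm
  have cardY : Nat.card (SemidirectProduct ↥V (X ⧸ V) φ) = Nat.card X := by
    rw [Nat.card_congr SemidirectProduct.equivProd, Nat.card_prod, mul_comm,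
      ← Subgroup.card_eq_card_quotient_mul_card_subgroup]
  -- core algebra
  have key : ∀ (x₀ y₀ : X) (u w : ↥V), x₀ * y₀ = y₀ * x₀ →
      (((u : X) * x₀) * ((w : X) * y₀) = ((w : X) * y₀) * ((u : X) * x₀) ↔
        u * φ (QuotientGroup.mk x₀) w = w * φ (QuotientGroup.mk y₀) u) := by
    intro x₀ y₀ u w hc
    have e1 : ((u : X) * x₀) * ((w : X) * y₀) =
        ((u * φ (QuotientGroup.mk x₀) w : ↥V) : X) * (x₀ * y₀) := by
      rw [Subgroup.coe_mul, hφ]; group
    have e2 : ((w : X) * y₀) * ((u : X) * x₀) =
        ((w * φ (QuotientGroup.mk y₀) u : ↥V) : X) * (x₀ * y₀) := by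
      rw [Subgroup.coe_mul, hφ, hc]; group
    rw [e1, e2, mul_left_inj]
    exact Subtype.coe_inj
  -- base points
  let good : (X ⧸ V) × (X ⧸ V) → Prop := fun ab =>
    ∃ p : X × X, (QuotientGroup.mk p.1 : X ⧸ V) = ab.1 ∧ (QuotientGroup.mk p.2 : X ⧸ V) = ab.2 ∧
      p.1 * p.2 = p.2 * p.1
  let base : (X ⧸ V) × (X ⧸ V) → X × X := fun ab =>
    if h : good ab then h.choose else (1, 1)
  have hbase : ∀ ab, good ab →
      (QuotientGroup.mk (base ab).1 : X ⧸ V) = ab.1 ∧ (QuotientGroup.mk (base ab).2 : X ⧸ V) = ab.2 ∧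
        (base ab).1 * (base ab).2 = (base ab).2 * (base ab).1 := by
    intro ab h
    simp only [base, dif_pos h]
    exact h.choose_spec
  -- the injection
  have hle : Nat.card {p : X × X // Commute p.1 p.2} ≤
      Nat.card {q : (SemidirectProduct ↥V (X ⧸ V) φ) × (SemidirectProduct ↥V (X ⧸ V) φ) //
        Commute q.1 q.2} := by
    have hgood : ∀ p : {p : X × X // Commute p.1 p.2},
        good ((QuotientGroup.mk p.1.1 : X ⧸ V), (QuotientGroup.mk p.1.2 : X ⧸ V)) := by
      intro p
      exact ⟨p.1, rfl, rfl, p.2⟩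
    -- components
    have hmem1 : ∀ p : {p : X × X // Commute p.1 p.2},
        p.1.1 * (base ((QuotientGroup.mk p.1.1 : X ⧸ V), (QuotientGroup.mk p.1.2 : X ⧸ V))).1⁻¹ ∈ V := by
      intro p
      have h := (hbase _ (hgood p)).1
      exact QuotientGroup.eq_iff_div_mem.mp h.symm |> fun h' => by simpa [div_eq_mul_inv] using h'
    have hmem2 : ∀ p : {p : X × X // Commute p.1 p.2},
        p.1.2 * (base ((QuotientGroup.mk p.1.1 : X ⧸ V), (QuotientGroup.mk p.1.2 : X ⧸ V))).2⁻¹ ∈ V := by
      intro p
      have h := (hbase _ (hgood p)).2.1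
      exact QuotientGroup.eq_iff_div_mem.mp h.symm |> fun h' => by simpa [div_eq_mul_inv] using h'
    let f : {p : X × X // Commute p.1 p.2} →
        {q : (SemidirectProduct ↥V (X ⧸ V) φ) × (SemidirectProduct ↥V (X ⧸ V) φ) // Commute q.1 q.2} :=
      fun p => ⟨(⟨⟨_, hmem1 p⟩, QuotientGroup.mk p.1.1⟩, ⟨⟨_, hmem2 p⟩, QuotientGroup.mk p.1.2⟩), by
        have hb := hbase _ (hgood p)
        obtain ⟨h1, h2, h3⟩ := hb
        have hk := (key _ _ ⟨_, hmem1 p⟩ ⟨_, hmem2 p⟩ h3).mp (by
          simp only [inv_mul_cancel_right]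
          exact p.2)
        rw [h1, h2] at hk
        have hc : (QuotientGroup.mk p.1.1 : X ⧸ V) * QuotientGroup.mk p.1.2 =
            QuotientGroup.mk p.1.2 * QuotientGroup.mk p.1.1 := by
          rw [← QuotientGroup.mk_mul, ← QuotientGroup.mk_mul, p.2.eq]
        show _ * _ = _ * _
        refine SemidirectProduct.ext ?_ ?_
        · exact hk
        · exact hc⟩
    refine Nat.card_le_card_of_injective f ?_
    intro p p' h
    have h' := congrArg Subtype.val h
    have h1 := congrArg (fun q => ((q.1.left : ↥V) : X)) h'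
    have h2 := congrArg (fun q => q.1.right) h'
    have h3 := congrArg (fun q => ((q.2.left : ↥V) : X)) h'
    have h4 := congrArg (fun q => q.2.right) h'
    simp only [f] at h1 h2 h3 h4
    apply Subtype.ext
    apply Prod.ext
    · rw [h2, h4] at h1
      exact mul_right_cancel h1
    · rw [h2, h4] at h3
      exact mul_right_cancel h3
  rw [card_comm_eq_card_conjClasses_mul_card, card_comm_eq_card_conjClasses_mul_card, cardY] at hle
  exact Nat.le_of_mul_le_mul_right hle Nat.card_pos

end Cfsg.Agent.S4965
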