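import Cfsg.Statements.S4966
import Mathlib.LinearAlgebra.BilinearForm.Orthogonal
import Mathlib.LinearAlgebra.Matrix.BilinearForm
import Mathlib.LinearAlgebra.Projection
import Mathlib.FieldTheory.Perfect
import Mathlib.FieldTheory.Finite.Basic
import Mathlib.RingTheory.Artinian.Module
import Mathlib.RepresentationTheory.Basic
import Mathlib.Order.Filter.AtTopBot.Basic

set_option autoImplicit false
open Cfsg

namespace Cfsg.Agent.S4966

set_option linter.unusedSectionVars false
set_option linter.style.haveILetI false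

open Module Filter

universe u v w

/-- Right orthogonal. -/
abbrev Orth {F : Type*} {X : Type*} [Field F] [AddCommGroup X] [Module F X]
    (B : LinearMap.BilinForm F X) (Y : Submodule F X) : Submodule F X :=
  LinearMap.BilinForm.orthogonal B Y

section Basics

variable {F : Type u} {G : Type w} [Field F] [Group G]

/-- The conclusion predicate: an invariant alternating form, separating on the left. -/
def AltOK {X : Type v} [AddCommGroup X] [Module F X] (r : Representation F G X)
    (A : LinearMap.BilinForm F X) : Prop :=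
  (∀ x, A x x = 0) ∧ (∀ g x y, A (r g x) (r g y) = A x y) ∧ ∀ x, (∀ y, A x y = 0) → x = 0

/-- The restriction of a representation to an invariant subspace. -/
def subRep {X : Type v} [AddCommGroup X] [Module F X] (r : Representation F G X)
    (Y : Submodule F X) (hY : ∀ g, ∀ y ∈ Y, r g y ∈ Y) : Representation F G Y where
  toFun g := (r g).restrict (hY g)
  map_one' := by ext y; simp
  map_mul' g h := by ext y; simp

@[simp] theorem subRep_apply {X : Type v} [AddCommGroup X] [Module F X] (r : Representation F G X)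
    (Y : Submodule F X) (hY : ∀ g, ∀ y ∈ Y, r g y ∈ Y) (g : G) (y : Y) :
    ((subRep r Y hY g y : Y) : X) = r g y := rfl

variable {X : Type v} [AddCommGroup X] [Module F X]

theorem inv_apply_inv (r : Representation F G X) (B : LinearMap.BilinForm F X)
    (hinv : ∀ g x y, B (r g x) (r g y) = B x y) (g : G) (x y : X) :
    B (r g x) y = B x (r g⁻¹ y) := by
  rw [← hinv g x (r g⁻¹ y)]
  congr 1
  rw [← Module.End.mul_apply, ← map_mul, mul_inv_cancel, map_one, Module.End.one_apply]

theorem rep_inv_apply (r : Representation F G X) (g : G) (y : X) : r g (r g⁻¹ y) = y := by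
  rw [← Module.End.mul_apply, ← map_mul, mul_inv_cancel, map_one, Module.End.one_apply]

theorem rep_inv_apply' (r : Representation F G X) (g : G) (y : X) : r g⁻¹ (r g y) = y := by
  rw [← Module.End.mul_apply, ← map_mul, inv_mul_cancel, map_one, Module.End.one_apply]

/-- The asymmetry. -/
theorem exists_asym [FiniteDimensional F X] (B : LinearMap.BilinForm F X) (hB : B.Nondegenerate) :
    ∃ σ : X →ₗ[F] X, ∀ x y, B (σ x) y = B y x := by
  refine ⟨(B.toDual hB).symm.toLinearMap ∘ₗ B.flip, fun x y => ?_⟩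
  have h := LinearMap.BilinForm.apply_toDual_symm_apply (B := B) (hB := hB) (B.flip x) y
  simpa using h

/-- Averaging: an equivariant projection onto an invariant subspace. -/
theorem exists_inv_compl [Finite G] (hG : (Nat.card G : F) ≠ 0) (r : Representation F G X)
    (Y : Submodule F X) (hY : ∀ g, ∀ y ∈ Y, r g y ∈ Y) :
    ∃ π : X →ₗ[F] X, (∀ x, π x ∈ Y) ∧ (∀ y ∈ Y, π y = y) ∧ (∀ g x, π (r g x) = r g (π x)) := by
  classical
  cases nonempty_fintype G
  obtain ⟨Z, hZ⟩ := Submodule.exists_isCompl Y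
  let π₀ : X →ₗ[F] X := Y.subtype ∘ₗ Submodule.projectionOnto Y Z hZ
  have hπ₀ : ∀ x, π₀ x ∈ Y := fun x => (Submodule.projectionOnto Y Z hZ x).2
  have hπ₀' : ∀ y ∈ Y, π₀ y = y := fun y hy => by
    change ((Submodule.projectionOnto Y Z hZ y : Y) : X) = y
    rw [Submodule.projectionOnto_apply_left hZ ⟨y, hy⟩]
  let c : F := (Nat.card G : F)⁻¹
  let π : X →ₗ[F] X := c • ∑ g : G, r g ∘ₗ π₀ ∘ₗ r g⁻¹
  have hπ : ∀ x, π x = c • ∑ g : G, r g (π₀ (r g⁻¹ x)) := fun x => by
    simp [π, LinearMap.sum_apply]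
  refine ⟨π, fun x => ?_, fun y hy => ?_, fun g x => ?_⟩
  · rw [hπ]
    exact Y.smul_mem _ (Y.sum_mem fun g _ => hY g _ (hπ₀ _))
  · rw [hπ]
    have h1 : ∀ g : G, r g (π₀ (r g⁻¹ y)) = y := fun g => by
      rw [hπ₀' _ (hY _ _ hy), rep_inv_apply]
    simp only [h1, Finset.sum_const, Finset.card_univ]
    rw [← Nat.card_eq_fintype_card, ← Nat.cast_smul_eq_nsmul F, smul_smul, inv_mul_cancel₀ hG,
      one_smul]
  · rw [hπ, hπ, map_smul, map_sum]
    congr 1
    refine Fintype.sum_equiv (Equiv.mulLeft g⁻¹) _ _ fun h => ?_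
    simp only [Equiv.coe_mulLeft, mul_inv_rev, inv_inv, map_mul, Module.End.mul_apply]
    rw [rep_inv_apply]

/-- Decomposing along a form `Y ⊕ Y^⊥`. -/
theorem isCompl_orth [FiniteDimensional F X] (B : LinearMap.BilinForm F X)
    (Y : Submodule F X) (hYB : (B.restrict Y).Nondegenerate) : IsCompl Y (Orth B Y) := by
  constructor
  · rw [Submodule.disjoint_def]
    intro x hx hx2
    have h1 : (⟨x, hx⟩ : Y) = 0 := by
      apply hYB.2
      intro z
      exact (LinearMap.BilinForm.mem_orthogonal_iff.mp hx2) z z.2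
    exact congrArg Subtype.val h1
  · rw [codisjoint_iff, eq_top_iff]
    intro v _
    let f : Module.Dual F Y := (B.flip v).comp Y.subtype
    let y₀ : Y := ((B.restrict Y).flip.toDual hYB.flip).symm f
    have hy₀ : ∀ z : Y, B z y₀ = B z v := fun z => by
      have h := LinearMap.BilinForm.apply_toDual_symm_apply (B := (B.restrict Y).flip)
        (hB := hYB.flip) f z
      have h2 : ((B.restrict Y).flip ((((B.restrict Y).flip.toDual hYB.flip).symm f))) z = f z := h
      exact h2
    have hmem : v - y₀ ∈ Orth B Y := by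
      rw [LinearMap.BilinForm.mem_orthogonal_iff]
      intro z hz
      change B z (v - y₀) = 0
      rw [map_sub, ← hy₀ ⟨z, hz⟩, sub_self]
    have h2 : v = y₀ + (v - y₀) := by abel
    rw [h2]
    exact Submodule.add_mem_sup y₀.2 hmem

/-- Combining two forms. -/
theorem combine (r : Representation F G X) (Y Z : Submodule F X) (hYZ : IsCompl Y Z)
    (hY : ∀ g, ∀ y ∈ Y, r g y ∈ Y) (hZ : ∀ g, ∀ y ∈ Z, r g y ∈ Z)
    (A₁ : LinearMap.BilinForm F Y) (hA₁ : AltOK (subRep r Y hY) A₁)
    (A₂ : LinearMap.BilinForm F Z) (hA₂ : AltOK (subRep r Z hZ) A₂) :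
    ∃ A : LinearMap.BilinForm F X, AltOK r A := by
  let p₁ : X →ₗ[F] Y := Submodule.projectionOnto Y Z hYZ
  let p₂ : X →ₗ[F] Z := Submodule.projectionOnto Z Y hYZ.symm
  have h1Y : ∀ y : Y, p₁ y = y := Submodule.projectionOnto_apply_left hYZ
  have h2Z : ∀ z : Z, p₂ z = z := Submodule.projectionOnto_apply_left hYZ.symm
  have h1Z : ∀ z : Z, p₁ z = 0 := Submodule.projectionOnto_apply_right hYZ
  have h2Y : ∀ y : Y, p₂ y = 0 := Submodule.projectionOnto_apply_right hYZ.symm
  have hsum : ∀ x : X, x = p₁ x + p₂ x := fun x =>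
    (Submodule.projection_add_projection_eq_self hYZ x).symm
  have h1eq : ∀ g x, p₁ (r g x) = subRep r Y hY g (p₁ x) := by
    intro g x
    conv_lhs => rw [hsum x, map_add, map_add]
    have e1 : r g (p₁ x) = ((subRep r Y hY g (p₁ x) : Y) : X) := rfl
    have e2 : r g (p₂ x) = ((subRep r Z hZ g (p₂ x) : Z) : X) := rfl
    rw [e1, e2, h1Y, h1Z, add_zero]
  have h2eq : ∀ g x, p₂ (r g x) = subRep r Z hZ g (p₂ x) := by
    intro g x
    conv_lhs => rw [hsum x, map_add, map_add]
    have e1 : r g (p₁ x) = ((subRep r Y hY g (p₁ x) : Y) : X) := rfl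
    have e2 : r g (p₂ x) = ((subRep r Z hZ g (p₂ x) : Z) : X) := rfl
    rw [e1, e2, h2Y, h2Z, zero_add]
  refine ⟨A₁.comp p₁ p₁ + A₂.comp p₂ p₂, ?_, ?_, ?_⟩
  · intro x
    simp [hA₁.1, hA₂.1]
  · intro g x y
    simp only [LinearMap.BilinForm.add_apply, LinearMap.BilinForm.comp_apply]
    rw [h1eq, h1eq, h2eq, h2eq, hA₁.2.1, hA₂.2.1]
  · intro x hx
    have h1 : p₁ x = 0 := by
      apply hA₁.2.2
      intro y
      have h := hx y
      simp only [LinearMap.BilinForm.add_apply, LinearMap.BilinForm.comp_apply] at h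
      rwa [h1Y, h2Y, map_zero, add_zero] at h
    have h2 : p₂ x = 0 := by
      apply hA₂.2.2
      intro y
      have h := hx y
      simp only [LinearMap.BilinForm.add_apply, LinearMap.BilinForm.comp_apply] at h
      rwa [h1Z, h2Z, map_zero, zero_add] at h
    rw [hsum x, h1, h2]
    simp

/-- Splitting off a nondegenerate invariant subspace. -/
theorem split [FiniteDimensional F X] (r : Representation F G X) (B : LinearMap.BilinForm F X)
    (hB : B.Nondegenerate) (hinv : ∀ g x y, B (r g x) (r g y) = B x y)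
    (Y : Submodule F X) (hY : ∀ g, ∀ y ∈ Y, r g y ∈ Y)
    (hYB : (B.restrict Y).Nondegenerate)
    (A₁ : LinearMap.BilinForm F Y) (hA₁ : AltOK (subRep r Y hY) A₁)
    (IH : ∀ (hZ : ∀ g, ∀ y ∈ Orth B Y, r g y ∈ Orth B Y),
      (B.restrict (Orth B Y)).Nondegenerate → ∃ A₂ : LinearMap.BilinForm F (Orth B Y),
      AltOK (subRep r (Orth B Y) hZ) A₂) :
    ∃ A : LinearMap.BilinForm F X, AltOK r A := by
  have hcompl := isCompl_orth B Y hYB
  have hZ : ∀ g, ∀ y ∈ Orth B Y, r g y ∈ Orth B Y := by
    intro g y hy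
    rw [LinearMap.BilinForm.mem_orthogonal_iff] at hy ⊢
    intro z hz
    change B z (r g y) = 0
    have h1 : B z (r g y) = B (r g⁻¹ z) y := by
      rw [inv_apply_inv r B hinv, inv_inv]
    rw [h1]
    exact hy _ (hY _ _ hz)
  have hZB : (B.restrict (Orth B Y)).Nondegenerate := by
    apply LinearMap.BilinForm.Nondegenerate.ofSeparatingRight
    rintro ⟨x, hx⟩ h
    apply Subtype.ext
    apply hB.2
    intro v
    have hv : v ∈ Y ⊔ Orth B Y := by
      rw [hcompl.sup_eq_top]
      trivial
    obtain ⟨y, hy, z, hz, rfl⟩ := Submodule.mem_sup.mp hv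
    rw [map_add, LinearMap.add_apply]
    have h1 : B y x = 0 := (LinearMap.BilinForm.mem_orthogonal_iff.mp hx) y hy
    have h2 : B z x = 0 := h ⟨z, hz⟩
    rw [h1, h2, add_zero]
  obtain ⟨A₂, hA₂⟩ := IH hZ hZB
  exact combine r Y _ hcompl hY hZ A₁ hA₁ A₂ hA₂

end Basics

section Fitting

variable {F : Type u} {G : Type w} [Field F] [Group G]
variable {X : Type v} [AddCommGroup X] [Module F X]

/-- The asymmetry is an isometry. -/
theorem asym_iso (B : LinearMap.BilinForm F X) (σ : X →ₗ[F] X) (hσ : ∀ x y, B (σ x) y = B y x)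
    (x y : X) : B (σ x) (σ y) = B x y := by
  rw [hσ, hσ]

/-- The asymmetry is equivariant. -/
theorem asym_equiv (r : Representation F G X) (B : LinearMap.BilinForm F X) (hB : B.Nondegenerate)
    (hinv : ∀ g x y, B (r g x) (r g y) = B x y)
    (σ : X →ₗ[F] X) (hσ : ∀ x y, B (σ x) y = B y x) (g : G) (x : X) :
    σ (r g x) = r g (σ x) := by
  rw [← sub_eq_zero]
  apply hB.1
  intro y
  rw [map_sub, LinearMap.sub_apply, hσ]
  have h1 : B (r g (σ x)) y = B (σ x) (r g⁻¹ y) := inv_apply_inv r B hinv g _ _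
  rw [h1, hσ, ← hinv g (r g⁻¹ y) x, rep_inv_apply, sub_self]

/-- The form `B(φ x, y)`, relative to `σ`. -/
theorem sub_form (B : LinearMap.BilinForm F X) (σ : X →ₗ[F] X) (hσ : ∀ x y, B (σ x) y = B y x)
    (x y : X) : B ((σ - 1) x) y = B y x - B x y := by
  simp [hσ]

/-- Moving `φ` across. -/
theorem form_pow (B : LinearMap.BilinForm F X) (σ : X →ₗ[F] X) (hσ : ∀ x y, B (σ x) y = B y x)
    (n : ℕ) (x y : X) :
    B (((σ - 1) ^ n) x) y = (-1) ^ n * B ((σ ^ n) x) (((σ - 1) ^ n) y) := by
  induction n generalizing x y with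
  | zero => simp
  | succ n ih =>
    have hcomm : (σ ^ n) ((σ - 1) x) = (σ - 1) ((σ ^ n) x) := by
      rw [← Module.End.mul_apply, ← Module.End.mul_apply]
      congr 1
      exact ((Commute.sub_right (Commute.refl σ) (Commute.one_right σ)).pow_left n).eq
    have h1 : ∀ a b : X, B ((σ - 1) a) b = - B (σ a) ((σ - 1) b) := by
      intro a b
      have h2 : B (σ a) ((σ - 1) b) = B (σ a) (σ b) - B (σ a) b := by simp
      rw [h2, asym_iso B σ hσ, sub_form B σ hσ, hσ]
      ring
    rw [pow_succ, Module.End.mul_apply, ih, hcomm, h1, pow_succ' σ]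
    have e : ((σ - 1) ^ n * (σ - 1)) y = (σ - 1) (((σ - 1) ^ n) y) := by
      rw [← pow_succ, pow_succ', Module.End.mul_apply]
    rw [e, Module.End.mul_apply]
    ring

/-- Orthogonality of the Fitting pieces, first form. -/
theorem fit_orth1 (B : LinearMap.BilinForm F X) (σ : X →ₗ[F] X) (hσ : ∀ x y, B (σ x) y = B y x)
    (n : ℕ) (y w : X) (hw : ((σ - 1) ^ n) w = 0) : B (((σ - 1) ^ n) y) w = 0 := by
  rw [form_pow B σ hσ, hw]
  simp

/-- Orthogonality of the Fitting pieces, second form. -/
theorem fit_orth2 (B : LinearMap.BilinForm F X) (σ : X →ₗ[F] X) (hσ : ∀ x y, B (σ x) y = B y x)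
    (n : ℕ) (y w : X) (hw : ((σ - 1) ^ n) w = 0) : B w (((σ - 1) ^ n) y) = 0 := by
  rw [← hσ]
  have hcomm : σ (((σ - 1) ^ n) y) = ((σ - 1) ^ n) (σ y) := by
    rw [← Module.End.mul_apply, ← Module.End.mul_apply]
    congr 1
    exact ((Commute.sub_right (Commute.refl σ) (Commute.one_right σ)).pow_right n).eq
  rw [hcomm]
  exact fit_orth1 B σ hσ n _ w hw

/-- The Fitting decomposition, in odd characteristic. -/
theorem odd_case [FiniteDimensional F X] (h2 : (2 : F) ≠ 0) (r : Representation F G X)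
    (B : LinearMap.BilinForm F X) (hB : B.Nondegenerate)
    (hinv : ∀ g x y, B (r g x) (r g y) = B x y) :
    ∃ U W : Submodule F X, IsCompl U W ∧ (∀ g : G, ∀ u ∈ U, r g u ∈ U) ∧
      (∀ g : G, ∀ w ∈ W, r g w ∈ W) ∧
      (∃ A : LinearMap.BilinForm F X, (∀ x : X, A x x = 0) ∧
        (∀ g : G, ∀ x ∈ U, ∀ y ∈ U, A (r g x) (r g y) = A x y) ∧
        (∀ x ∈ U, (∀ y ∈ U, A x y = 0) → x = 0)) ∧
      (∃ S : LinearMap.BilinForm F X, (∀ x y : X, S x y = S y x) ∧
        (∀ g : G, ∀ x ∈ W, ∀ y ∈ W, S (r g x) (r g y) = S x y) ∧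
        (∀ x ∈ W, (∀ y ∈ W, S x y = 0) → x = 0)) := by
  obtain ⟨σ, hσ⟩ := exists_asym B hB
  set φ : X →ₗ[F] X := σ - 1 with hφ
  obtain ⟨n, hn1, hn⟩ := (((eventually_ge_atTop 1).and
    (LinearMap.eventually_isCompl_ker_pow_range_pow φ))).exists
  have hcommr : ∀ g x, φ (r g x) = r g (φ x) := by
    intro g x
    simp [hφ, asym_equiv r B hB hinv σ hσ g x]
  have hcommn : ∀ (k : ℕ) g x, (φ ^ k) (r g x) = r g ((φ ^ k) x) := by
    intro k g x
    induction k generalizing x with
    | zero => simp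
    | succ k ih =>
      rw [pow_succ, Module.End.mul_apply, hcommr, ih, Module.End.mul_apply]
  set W : Submodule F X := LinearMap.ker (φ ^ n) with hW
  set U : Submodule F X := LinearMap.range (φ ^ n) with hU
  have hcompl : IsCompl U W := hn.symm
  have hUi : ∀ g : G, ∀ u ∈ U, r g u ∈ U := by
    rintro g _ ⟨y, rfl⟩
    exact ⟨r g y, hcommn n g y⟩
  have hWi : ∀ g : G, ∀ w ∈ W, r g w ∈ W := by
    intro g w hw
    rw [hW, LinearMap.mem_ker] at hw ⊢
    rw [hcommn, hw, map_zero]
  have hsepU : ∀ z ∈ U, (∀ y ∈ U, B z y = 0) → z = 0 := by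
    intro z hz h
    apply hB.1
    intro v
    have hv : v ∈ U ⊔ W := by rw [hcompl.sup_eq_top]; trivial
    obtain ⟨u, hu, w, hw, rfl⟩ := Submodule.mem_sup.mp hv
    rw [map_add, h u hu, zero_add]
    obtain ⟨y, rfl⟩ := hz
    exact fit_orth1 B σ hσ n y w hw
  have hsepW : ∀ z ∈ W, (∀ y ∈ W, B z y = 0) → z = 0 := by
    intro z hz h
    apply hB.1
    intro v
    have hv : v ∈ U ⊔ W := by rw [hcompl.sup_eq_top]; trivial
    obtain ⟨u, hu, w, hw, rfl⟩ := Submodule.mem_sup.mp hv
    rw [map_add, h w hw, add_zero]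
    obtain ⟨y, rfl⟩ := hu
    exact fit_orth2 B σ hσ n y z hz
  refine ⟨U, W, hcompl, hUi, hWi, ⟨B - B.flip, fun x => by simp, ?_, ?_⟩,
    ⟨B + B.flip, fun x y => by simp [add_comm], ?_, ?_⟩⟩
  · intro g x _ y _
    simp [hinv]
  · intro x hx h
    have h1 : φ x ∈ U := by
      obtain ⟨y, rfl⟩ := hx
      refine ⟨φ y, ?_⟩
      rw [← Module.End.mul_apply, ← Module.End.mul_apply]
      congr 1
      rw [← pow_succ, pow_succ']
    have h2' : φ x = 0 := by
      apply hsepU _ h1
      intro y hy
      have h3 := h y hy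
      rw [hφ, sub_form B σ hσ]
      have h3' : B x y - B y x = 0 := h3
      rw [← neg_sub, h3', neg_zero]
    have h3 : x ∈ W := by
      rw [hW, LinearMap.mem_ker]
      obtain ⟨m, rfl⟩ : ∃ m, n = m + 1 := ⟨n - 1, by omega⟩
      rw [pow_succ, Module.End.mul_apply, h2', map_zero]
    have h4 := Submodule.disjoint_def.mp hcompl.disjoint x hx h3
    exact h4
  · intro g x _ y _
    simp [hinv]
  · intro x hx h
    have h1 : φ x + (2 : F) • x ∈ W := by
      apply W.add_mem _ (W.smul_mem _ hx)
      rw [hW, LinearMap.mem_ker] at hx ⊢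
      rw [← Module.End.mul_apply, ← pow_succ, pow_succ', Module.End.mul_apply, hx, map_zero]
    have h2' : φ x + (2 : F) • x = 0 := by
      apply hsepW _ h1
      intro y hy
      have h3 : B x y + B y x = 0 := h y hy
      rw [map_add, LinearMap.add_apply, hφ, sub_form B σ hσ, map_smul, LinearMap.smul_apply,
        smul_eq_mul, two_mul]
      linear_combination h3
    have hφx : φ x = (-2 : F) • x := by
      rw [eq_neg_of_add_eq_zero_left h2', neg_smul]
    have hk : ∀ k : ℕ, (φ ^ k) x = (-2 : F) ^ k • x := by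
      intro k
      induction k with
      | zero => simp
      | succ k ih =>
        rw [pow_succ, Module.End.mul_apply, hφx, map_smul, ih, smul_smul, pow_succ]
        ring_nf
    have h5 : (φ ^ n) x = 0 := hx
    rw [hk] at h5
    have h6 : (-2 : F) ^ n ≠ 0 := pow_ne_zero _ (neg_ne_zero.mpr h2)
    exact (smul_eq_zero.mp h5).resolve_left h6

end Fitting

section CharTwo

variable {F : Type u} {G : Type w} [Field F] [Fintype F] [CharP F 2] [Group G] [Finite G]
variable {X : Type v} [AddCommGroup X] [Module F X]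

/-- In characteristic two, a symmetric invariant nondegenerate form without fixed vectors is
alternating. -/
theorem alt_of_symm (r : Representation F G X) (B : LinearMap.BilinForm F X)
    (hinv : ∀ g x y, B (r g x) (r g y) = B x y) (hfix : ∀ x, (∀ g, r g x = x) → x = 0)
    [FiniteDimensional F X]
    (R : Submodule F X) (hR : ∀ g, ∀ y ∈ R, r g y ∈ R) (hRB : (B.restrict R).Nondegenerate)
    (hsym : ∀ x ∈ R, ∀ y ∈ R, B x y = B y x) (x : X) (hx : x ∈ R) : B x x = 0 := by
  haveI : Fact (Nat.Prime 2) := ⟨Nat.prime_two⟩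
  haveI : ExpChar F 2 := ExpChar.prime Nat.prime_two
  let root : F ≃+* F := (frobeniusEquiv F 2).symm
  have hroot : ∀ c : F, root c ^ 2 = c := frobeniusEquiv_symm_pow_p F 2
  have hroot2 : ∀ c : F, root (c ^ 2) = c := frobeniusEquiv_symm_pow F 2
  have h2 : (2 : F) = 0 := by
    have := CharP.cast_eq_zero F 2
    simpa using this
  let f : Module.Dual F R :=
    { toFun := fun s => root (B s s)
      map_add' := by
        intro a b
        have e : B ((a + b : R) : X) ((a + b : R) : X) = B a a + B b b := by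
          have h3 : B (a : X) b = B b a := hsym _ a.2 _ b.2
          simp only [Submodule.coe_add, map_add, LinearMap.add_apply]
          rw [h3]
          linear_combination (B (b : X) a) * h2
        rw [e, map_add]
      map_smul' := by
        intro c a
        have e : B ((c • a : R) : X) ((c • a : R) : X) = c ^ 2 * B a a := by
          simp only [Submodule.coe_smul, map_smul, LinearMap.smul_apply, smul_eq_mul]
          ring
        simp only [RingHom.id_apply, smul_eq_mul]
        rw [e, map_mul, hroot2] }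
  have hf : ∀ s : R, f s = root (B s s) := fun s => rfl
  let v : R := ((B.restrict R).flip.toDual hRB.flip).symm f
  have hv : ∀ s : R, B s v = f s := fun s => by
    have h := LinearMap.BilinForm.apply_toDual_symm_apply (B := (B.restrict R).flip)
      (hB := hRB.flip) f s
    exact h
  have hvfix : (v : X) = 0 := by
    apply hfix
    intro g
    have h1 : subRep r R hR g v - v = 0 := by
      apply hRB.2
      intro s
      change B s ((subRep r R hR g v - v : R) : X) = 0
      rw [Submodule.coe_sub, map_sub, subRep_apply]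
      have h3 : B (s : X) (r g v) = B (r g⁻¹ s) v := by
        rw [inv_apply_inv r B hinv, inv_inv]
      rw [h3, hv s]
      have h4 := hv (subRep r R hR g⁻¹ s)
      rw [subRep_apply] at h4
      rw [h4, hf, hf, subRep_apply, hinv, sub_self]
    have h5 := congrArg Subtype.val h1
    rw [Submodule.coe_sub, subRep_apply] at h5
    exact sub_eq_zero.mp h5
  have h1 := hv ⟨x, hx⟩
  rw [hvfix, map_zero, hf] at h1
  have h3 : root (B x x) = 0 := h1.symm
  simpa using h3

/-- **The main induction** in characteristic two. -/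
theorem claimA (hG : (Nat.card G : F) ≠ 0) : ∀ (n : ℕ) (X : Type v) [AddCommGroup X] [Module F X]
    [FiniteDimensional F X] (r : Representation F G X) (B : LinearMap.BilinForm F X),
    finrank F X = n → B.Nondegenerate → (∀ g x y, B (r g x) (r g y) = B x y) →
    (∀ x, (∀ g, r g x = x) → x = 0) → ∃ A : LinearMap.BilinForm F X, AltOK r A := by
  intro n
  induction n using Nat.strong_induction_on with
  | _ n ih =>
  intro X _ _ _ r B hn hB hinv hfix
  have h2 : (2 : F) = 0 := by
    have := CharP.cast_eq_zero F 2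
    simpa using this
  obtain ⟨σ, hσ⟩ := exists_asym B hB
  -- splitting off
  have hsplit : ∀ (Y : Submodule F X) (hY : ∀ g, ∀ y ∈ Y, r g y ∈ Y), Y ≠ ⊥ →
      (B.restrict Y).Nondegenerate → ∀ A₁ : LinearMap.BilinForm F Y, AltOK (subRep r Y hY) A₁ →
      ∃ A : LinearMap.BilinForm F X, AltOK r A := by
    intro Y hY hne hYB A₁ hA₁
    apply split r B hB hinv Y hY hYB A₁ hA₁
    intro hZ hZB
    have hlt : finrank F (Orth B Y) < n := by
      rw [← hn]
      apply Submodule.finrank_lt
      intro htop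
      have hcompl := isCompl_orth B Y hYB
      rw [htop] at hcompl
      exact hne (disjoint_top.mp hcompl.disjoint)
    refine ih _ hlt (Orth B Y) (subRep r (Orth B Y) hZ) (B.restrict (Orth B Y)) rfl hZB ?_ ?_
    · intro g x y
      exact hinv g x y
    · intro x hx
      apply Subtype.ext
      exact hfix x fun g => congrArg Subtype.val (hx g)
  set φ : X →ₗ[F] X := σ - 1 with hφ
  have hcommr : ∀ g x, φ (r g x) = r g (φ x) := by
    intro g x
    simp [hφ, asym_equiv r B hB hinv σ hσ g x]
  by_cases hker : LinearMap.ker φ = ⊥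
  · refine ⟨B - B.flip, fun x => by simp, fun g x y => by simp [hinv], fun x h => ?_⟩
    have h3 : φ x = 0 := by
      apply hB.1
      intro y
      have h4 : B x y - B y x = 0 := h y
      rw [hφ, sub_form B σ hσ, ← neg_sub, h4, neg_zero]
    have h5 : x ∈ LinearMap.ker φ := h3
    rw [hker] at h5
    exact h5
  -- the kernel
  set R : Submodule F X := LinearMap.ker φ with hR
  have hRσ : ∀ s ∈ R, σ s = s := by
    intro s hs
    have h3 : φ s = 0 := hs
    rw [hφ] at h3
    simpa [sub_eq_zero] using h3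
  have hRsym : ∀ s ∈ R, ∀ y, B y s = B s y := by
    intro s hs y
    rw [← hσ, hRσ s hs]
  have hRi : ∀ g, ∀ y ∈ R, r g y ∈ R := by
    intro g y hy
    have h3 : φ y = 0 := hy
    change φ (r g y) = 0
    rw [hcommr, h3, map_zero]
  set Rad : Submodule F X := R ⊓ Orth B R with hRad
  by_cases hRad0 : Rad = ⊥
  · -- the nondegenerate case
    have hRB : (B.restrict R).Nondegenerate := by
      apply LinearMap.BilinForm.Nondegenerate.ofSeparatingLeft
      rintro ⟨x, hx⟩ h
      apply Subtype.ext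
      have h3 : x ∈ Rad := by
        refine ⟨hx, LinearMap.BilinForm.mem_orthogonal_iff.mpr fun z hz => ?_⟩
        change B z x = 0
        rw [hRsym x hx z]
        exact h ⟨z, hz⟩
      rw [hRad0] at h3
      exact h3
    refine hsplit R hRi hker hRB (B.restrict R) ⟨?_, ?_, ?_⟩
    · rintro ⟨x, hx⟩
      exact alt_of_symm r B hinv hfix R hRi hRB (fun a ha b _ => hRsym b ‹_› a |>.symm ▸ rfl) x hx
    · intro g x y
      exact hinv g x y
    · exact hRB.1
  · -- the isotropic case
    have hSi : ∀ g, ∀ y ∈ Rad, r g y ∈ Rad := by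
      rintro g y ⟨hy1, hy2⟩
      refine ⟨hRi g y hy1, ?_⟩
      replace hy2 : y ∈ Orth B R := hy2
      change r g y ∈ Orth B R
      rw [LinearMap.BilinForm.mem_orthogonal_iff] at hy2 ⊢
      intro z hz
      change B z (r g y) = 0
      have h1 : B z (r g y) = B (r g⁻¹ z) y := by
        rw [inv_apply_inv r B hinv, inv_inv]
      rw [h1]
      exact hy2 _ (hRi _ _ hz)
    have hSS : ∀ s ∈ Rad, ∀ s' ∈ Rad, B s s' = 0 := by
      rintro s ⟨hs1, -⟩ s' ⟨-, hs'⟩
      exact (LinearMap.BilinForm.mem_orthogonal_iff.mp hs') s hs1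
    set P : Submodule F X := Orth B Rad with hP
    have hPi : ∀ g, ∀ y ∈ P, r g y ∈ P := by
      intro g y hy
      rw [hP, LinearMap.BilinForm.mem_orthogonal_iff] at hy ⊢
      intro z hz
      change B z (r g y) = 0
      have h1 : B z (r g y) = B (r g⁻¹ z) y := by
        rw [inv_apply_inv r B hinv, inv_inv]
      rw [h1]
      exact hy _ (hSi _ _ hz)
    obtain ⟨π, hπ1, hπ2, hπ3⟩ := exists_inv_compl hG r P hPi
    set T : Submodule F X := LinearMap.ker π with hT
    have hPT : IsCompl P T := LinearMap.IsProj.isCompl ⟨hπ1, hπ2⟩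
    have hTi : ∀ g, ∀ y ∈ T, r g y ∈ T := by
      intro g y hy
      have h3 : π y = 0 := hy
      change π (r g y) = 0
      rw [hπ3, h3, map_zero]
    have hSP : Rad ≤ P := by
      intro s hs
      rw [hP, LinearMap.BilinForm.mem_orthogonal_iff]
      intro s' hs'
      exact hSS s' hs' s hs
    set Y : Submodule F X := Rad ⊔ T with hY
    have hYi : ∀ g, ∀ y ∈ Y, r g y ∈ Y := by
      intro g y hy
      obtain ⟨s, hs, t, ht, rfl⟩ := Submodule.mem_sup.mp hy
      rw [map_add]
      exact Submodule.add_mem_sup (hSi g s hs) (hTi g t ht)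
    have hYne : Y ≠ ⊥ := by
      intro h
      apply hRad0
      rw [eq_bot_iff, ← h]
      exact le_sup_left
    -- A projection along `P`
    let ϖ : X →ₗ[F] X := LinearMap.id - π
    have hϖT : ∀ x, ϖ x ∈ T := by
      intro x
      change π (x - π x) = 0
      rw [map_sub, hπ2 _ (hπ1 x), sub_self]
    have hϖP : ∀ x ∈ P, ϖ x = 0 := by
      intro x hx
      change x - π x = 0
      rw [hπ2 x hx, sub_self]
    have hϖT' : ∀ x ∈ T, ϖ x = x := by
      intro x hx
      have h3 : π x = 0 := hx
      change x - π x = x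
      rw [h3, sub_zero]
    have hϖeq : ∀ g x, ϖ (r g x) = r g (ϖ x) := by
      intro g x
      change r g x - π (r g x) = r g (x - π x)
      rw [hπ3, map_sub]
    have hπT : ∀ x ∈ T, π x = 0 := fun x hx => hx
    have hdec : ∀ x, x = π x + ϖ x := by
      intro x
      change x = π x + (x - π x)
      abel
    -- A key fact
    have hT0 : ∀ t ∈ T, (∀ s ∈ Rad, B s t = 0) → t = 0 := by
      intro t ht h
      have h3 : t ∈ P := by
        rw [hP, LinearMap.BilinForm.mem_orthogonal_iff]
        exact h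
      exact Submodule.disjoint_def.mp hPT.disjoint t h3 ht
    have hS0 : ∀ s ∈ Rad, (∀ t ∈ T, B s t = 0) → s = 0 := by
      intro s hs h
      apply hB.1
      intro v
      have hv : v ∈ P ⊔ T := by rw [hPT.sup_eq_top]; trivial
      obtain ⟨a, ha, b, hb, rfl⟩ := Submodule.mem_sup.mp hv
      rw [map_add, h b hb, add_zero]
      exact (LinearMap.BilinForm.mem_orthogonal_iff.mp ha) s hs
    -- nondegeneracy
    have hYB : (B.restrict Y).Nondegenerate := by
      apply LinearMap.BilinForm.Nondegenerate.ofSeparatingLeft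
      rintro ⟨x, hx⟩ h
      apply Subtype.ext
      have h1 : ∀ z ∈ Y, B x z = 0 := fun z hz => h ⟨z, hz⟩
      change x = 0
      obtain ⟨s, hs, t, ht, rfl⟩ := Submodule.mem_sup.mp hx
      have h3 : t = 0 := by
        apply hT0 t ht
        intro s' hs'
        have h4 := h1 s' (Submodule.mem_sup_left hs')
        rw [map_add, LinearMap.add_apply, hSS s hs s' hs', zero_add, hRsym s' hs'.1 t] at h4
        exact h4
      have h5 : s = 0 := by
        apply hS0 s hs
        intro t' ht'
        have h4 := h1 t' (Submodule.mem_sup_right ht')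
        rw [h3, add_zero] at h4
        exact h4
      rw [h3, h5, add_zero]
    let A₀ : LinearMap.BilinForm F X := B.comp π ϖ + (B.comp π ϖ).flip
    have hA₀ : ∀ x y, A₀ x y = B (π x) (ϖ y) + B (π y) (ϖ x) := fun x y => rfl
    refine hsplit Y hYi hYne hYB (A₀.restrict Y) ⟨?_, ?_, ?_⟩
    · rintro ⟨x, hx⟩
      change A₀ x x = 0
      rw [hA₀, ← two_mul, h2, zero_mul]
    · intro g x y
      change A₀ (r g x) (r g y) = A₀ x y
      rw [hA₀, hA₀, hπ3, hπ3, hϖeq, hϖeq, hinv, hinv]
    · rintro ⟨x, hx⟩ h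
      apply Subtype.ext
      have h1 : ∀ z ∈ Y, A₀ x z = 0 := fun z hz => h ⟨z, hz⟩
      change x = 0
      obtain ⟨s, hs, t, ht, rfl⟩ := Submodule.mem_sup.mp hx
      have hπx : π (s + t) = s := by
        rw [map_add, hπ2 s (hSP hs), hπT t ht, add_zero]
      have hϖx : ϖ (s + t) = t := by
        rw [map_add, hϖP s (hSP hs), hϖT' t ht, zero_add]
      have h3 : t = 0 := by
        apply hT0 t ht
        intro s' hs'
        have h4 := h1 s' (Submodule.mem_sup_left hs')
        rw [hA₀, hπx, hϖx, hπ2 s' (hSP hs'), hϖP s' (hSP hs'), map_zero, zero_add] at h4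
        exact h4
      have h5 : s = 0 := by
        apply hS0 s hs
        intro t' ht'
        have h4 := h1 t' (Submodule.mem_sup_right ht')
        rw [hA₀, hπx, hϖx, hπT t' ht', hϖT' t' ht', map_zero, LinearMap.zero_apply, add_zero] at h4
        exact h4
      rw [h3, h5, add_zero]

end CharTwo

section Final

variable {F : Type u} {G : Type w} [Field F] [Fintype F] [CharP F 2] [Group G] [Finite G]
variable {X : Type v} [AddCommGroup X] [Module F X] [FiniteDimensional F X]

/-- The case of characteristic two. -/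
theorem two_case (hG : (Nat.card G : F) ≠ 0) (r : Representation F G X)
    (B : LinearMap.BilinForm F X) (hB : B.Nondegenerate)
    (hinv : ∀ g x y, B (r g x) (r g y) = B x y) :
    ∃ U W : Submodule F X, IsCompl U W ∧ (∀ g : G, ∀ u ∈ U, r g u ∈ U) ∧
      (∀ g : G, ∀ w ∈ W, r g w ∈ W) ∧
      (∃ A : LinearMap.BilinForm F X, (∀ x : X, A x x = 0) ∧
        (∀ g : G, ∀ x ∈ U, ∀ y ∈ U, A (r g x) (r g y) = A x y) ∧
        (∀ x ∈ U, (∀ y ∈ U, A x y = 0) → x = 0)) ∧
      (∃ S : LinearMap.BilinForm F X, (∀ x y : X, S x y = S y x) ∧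
        (∀ g : G, ∀ x ∈ W, ∀ y ∈ W, S (r g x) (r g y) = S x y) ∧
        (∀ x ∈ W, (∀ y ∈ W, S x y = 0) → x = 0)) ∧
      ∀ g : G, ∀ w ∈ W, r g w = w := by
  classical
  cases nonempty_fintype G
  let c : F := (Nat.card G : F)⁻¹
  let e : X →ₗ[F] X := c • ∑ g : G, r g
  have he : ∀ x, e x = c • ∑ g : G, r g x := fun x => by simp [e, LinearMap.sum_apply]
  let W : Submodule F X :=
    { carrier := {x | ∀ g, r g x = x}
      add_mem' := fun {a b} ha hb g => by rw [map_add, ha g, hb g]
      zero_mem' := fun g => map_zero _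
      smul_mem' := fun a x hx g => by rw [map_smul, hx g] }
  have hmemW : ∀ x, x ∈ W ↔ ∀ g, r g x = x := fun x => Iff.rfl
  have heW : ∀ x, e x ∈ W := by
    intro x h
    rw [he, map_smul, map_sum]
    congr 1
    refine Fintype.sum_equiv (Equiv.mulLeft h) _ _ fun g => ?_
    simp only [Equiv.coe_mulLeft, map_mul, Module.End.mul_apply]
  have heid : ∀ x ∈ W, e x = x := by
    intro x hx
    rw [he]
    have h1 : ∀ g : G, r g x = x := hx
    simp only [h1, Finset.sum_const, Finset.card_univ]
    rw [← Nat.card_eq_fintype_card, ← Nat.cast_smul_eq_nsmul F, smul_smul, inv_mul_cancel₀ hG,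
      one_smul]
  have hproj : LinearMap.IsProj W e := ⟨heW, heid⟩
  let U : Submodule F X := LinearMap.ker e
  have hcompl : IsCompl U W := hproj.isCompl.symm
  have hU : ∀ g, ∀ u ∈ U, r g u ∈ U := by
    intro g u hu
    have h1 : e u = 0 := hu
    change e (r g u) = 0
    rw [he] at h1 ⊢
    rw [← h1]
    congr 1
    refine Fintype.sum_equiv (Equiv.mulRight g) _ _ fun h => ?_
    simp only [Equiv.coe_mulRight, ← Module.End.mul_apply, ← map_mul]
  have hWi : ∀ g, ∀ w ∈ W, r g w ∈ W := by
    intro g w hw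
    rw [hw g]
    exact hw
  -- orthogonality
  have hBe : ∀ x, ∀ y ∈ W, B (e x) y = B x y := by
    intro x y hy
    have h1 : ∀ g : G, B (r g x) y = B x y := by
      intro g
      have h2 : B (r g x) (r g y) = B x y := hinv g x y
      rwa [hy g] at h2
    rw [he, map_smul, map_sum, LinearMap.smul_apply, LinearMap.sum_apply]
    simp only [h1, Finset.sum_const, Finset.card_univ]
    rw [← Nat.card_eq_fintype_card, ← Nat.cast_smul_eq_nsmul F, smul_smul, inv_mul_cancel₀ hG,
      one_smul]
  have hsepU : (B.restrict U).Nondegenerate := by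
    apply LinearMap.BilinForm.Nondegenerate.ofSeparatingLeft
    rintro ⟨x, hx⟩ h
    apply Subtype.ext
    apply hB.1
    intro v
    have hv : v ∈ U ⊔ W := by rw [hcompl.sup_eq_top]; trivial
    obtain ⟨u, hu, w, hw, rfl⟩ := Submodule.mem_sup.mp hv
    have h1 : B x u = 0 := h ⟨u, hu⟩
    have h2 : B x w = 0 := by
      rw [← hBe x w hw]
      have h3 : e x = 0 := hx
      rw [h3, map_zero, LinearMap.zero_apply]
    rw [map_add, h1, h2, add_zero]
  obtain ⟨A', hA'⟩ := claimA hG _ U (subRep r U hU) (B.restrict U) rfl hsepU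
    (fun g x y => hinv g x y)
    (by
      intro x hx
      apply Subtype.ext
      have h1 : (x : X) ∈ W := fun g => congrArg Subtype.val (hx g)
      have h2 : e x = 0 := x.2
      rw [heid _ h1] at h2
      exact h2)
  let pU : X →ₗ[F] U := Submodule.projectionOnto U W hcompl
  let pW : X →ₗ[F] W := Submodule.projectionOnto W U hcompl.symm
  have hpU : ∀ u : U, pU u = u := Submodule.projectionOnto_apply_left hcompl
  have hpW : ∀ u : W, pW u = u := Submodule.projectionOnto_apply_left hcompl.symm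
  let b := Module.finBasis F W
  let D : LinearMap.BilinForm F W :=
    ∑ i, LinearMap.BilinForm.linMulLin (b.coord i) (b.coord i)
  have hD : ∀ x y : W, D x y = ∑ i, b.coord i x * b.coord i y := by
    intro x y
    simp [D, LinearMap.sum_apply, LinearMap.BilinForm.linMulLin_apply]
  refine ⟨U, W, hcompl, hU, hWi, ⟨A'.comp pU pU, fun x => hA'.1 _, ?_, ?_⟩,
    ⟨D.comp pW pW, fun x y => ?_, ?_, ?_⟩, fun g w hw => hw g⟩
  · intro g x hx y hy
    simp only [LinearMap.BilinForm.comp_apply]
    have e1 : pU (r g x) = subRep r U hU g ⟨x, hx⟩ := hpU (subRep r U hU g ⟨x, hx⟩)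
    have e2 : pU (r g y) = subRep r U hU g ⟨y, hy⟩ := hpU (subRep r U hU g ⟨y, hy⟩)
    have e3 : pU x = ⟨x, hx⟩ := hpU ⟨x, hx⟩
    have e4 : pU y = ⟨y, hy⟩ := hpU ⟨y, hy⟩
    rw [e1, e2, e3, e4, hA'.2.1]
  · intro x hx h
    have e3 : pU x = ⟨x, hx⟩ := hpU ⟨x, hx⟩
    have h1 : (⟨x, hx⟩ : U) = 0 := by
      apply hA'.2.2
      rintro ⟨y, hy⟩
      have e4 : pU y = ⟨y, hy⟩ := hpU ⟨y, hy⟩
      have h2 := h y hy
      simp only [LinearMap.BilinForm.comp_apply] at h2
      rwa [e3, e4] at h2
    exact congrArg Subtype.val h1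
  · simp only [LinearMap.BilinForm.comp_apply, hD]
    exact Finset.sum_congr rfl fun i _ => mul_comm _ _
  · intro g x hx y hy
    rw [hx g, hy g]
  · intro x hx h
    have e3 : pW x = ⟨x, hx⟩ := hpW ⟨x, hx⟩
    have h1 : (⟨x, hx⟩ : W) = 0 := by
      apply b.ext_elem
      intro i
      have h2 := h (b i) (b i).2
      simp only [LinearMap.BilinForm.comp_apply] at h2
      have e4 : pW (b i) = b i := hpW (b i)
      rw [e3, e4, hD] at h2
      simp only [Module.Basis.coord_apply, Module.Basis.repr_self] at h2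
      rw [Finset.sum_eq_single i (fun j _ hj => by simp [Finsupp.single_apply, hj]) (by simp)] at h2
      simpa using h2
    exact congrArg Subtype.val h1

end Final


/-- Let F be a finite field of characteristic p, G a finite group of order prime to p, and V a finite-dimensional representation of G over F carrying a nondegenerate G-invariant bilinear form (equivalently, V is self-dual). Then V is the direct sum of two G-invariant subspaces U and W such that U carries a G-invariant alternating bilinear form that is nondegenerate on U and W carries a G-invariant symmetric bilinear form that is nondegenerate on W; moreover when p = 2 the decomposition can be chosen with G acting trivially on W. -/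
theorem result {F : Type*} [Field F] [Fintype F] (p : ℕ) [Fact p.Prime] [CharP F p] {G : Type*} [Group G] [Finite G] (hcop : ¬ p ∣ Nat.card G) {V : Type*} [AddCommGroup V] [Module F V] [FiniteDimensional F V] (ρ : Representation F G V) (B : LinearMap.BilinForm F V) (hB : B.Nondegenerate) (hBinv : ∀ g : G, ∀ x y : V, B (ρ g x) (ρ g y) = B x y) : ∃ U W : Submodule F V, IsCompl U W ∧ (∀ g : G, ∀ u ∈ U, ρ g u ∈ U) ∧ (∀ g : G, ∀ w ∈ W, ρ g w ∈ W) ∧ (∃ A : LinearMap.BilinForm F V, (∀ x : V, A x x = 0) ∧ (∀ g : G, ∀ x ∈ U, ∀ y ∈ U, A (ρ g x) (ρ g y) = A x y) ∧ (∀ x ∈ U, (∀ y ∈ U, A x y = 0) → x = 0)) ∧ (∃ S : LinearMap.BilinForm F V, (∀ x y : V, S x y = S y x) ∧ (∀ g : G, ∀ x ∈ W, ∀ y ∈ W, S (ρ g x) (ρ g y) = S x y) ∧ (∀ x ∈ W, (∀ y ∈ W, S x y = 0) → x = 0)) ∧ (p = 2 → ∀ g : G, ∀ w ∈ W, ρ g w = w) := by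
  by_cases hp2 : p = 2
  · subst hp2
    have hG : (Nat.card G : F) ≠ 0 := by
      intro h
      exact hcop ((CharP.cast_eq_zero_iff F 2 _).mp h)
    obtain ⟨U, W, h1, h2, h3, h4, h5, h6⟩ := two_case hG ρ B hB hBinv
    exact ⟨U, W, h1, h2, h3, h4, h5, fun _ => h6⟩
  · have h2 : (2 : F) ≠ 0 := by
      intro h
      have h1 : ((2 : ℕ) : F) = 0 := by simpa using h
      have h3 := (CharP.cast_eq_zero_iff F p 2).mp h1
      have h4 : p = 2 := (Nat.prime_dvd_prime_iff_eq (Fact.out) Nat.prime_two).mp h3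
      exact hp2 h4
    obtain ⟨U, W, h3, h4, h5, h6, h7⟩ := odd_case h2 ρ B hB hBinv
    exact ⟨U, W, h3, h4, h5, h6, h7, fun h => absurd h hp2⟩

end Cfsg.Agent.S4966
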