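import Cfsg.Statements.S4967
import Mathlib.LinearAlgebra.BilinearForm.Orthogonal
import Mathlib.LinearAlgebra.Matrix.BilinearForm
import Mathlib.FieldTheory.Finite.GaloisField
import Mathlib.FieldTheory.Finite.Trace
import Mathlib.FieldTheory.Normal.Basic
import Mathlib.RingTheory.IntegralDomain
import Mathlib.RingTheory.Trace.Defs
import Mathlib.RingTheory.Trace.Basic
import Mathlib.RepresentationTheory.Basic

set_option autoImplicit false
open Cfsg

namespace Cfsg.Agent.S4967

set_option linter.unusedSectionVars false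
set_option linter.style.haveILetI false

open Module Polynomial

universe u v w

section Core

variable {F : Type u} [Field F] [Fintype F] {K : Type v} [Field K] [Algebra F K] [Finite K]
  {H : Type w} [CommGroup H] [Finite H]

/-- The forward direction on the field model. -/
theorem core_forward (ι : H →* K) (hι : Function.Injective ι)
    (hgen : Algebra.adjoin F (Set.range ι) = ⊤) (h2 : 2 ≤ finrank F K)
    (B : LinearMap.BilinForm F K) (hB : ∀ y, (∀ x, B x y = 0) → y = 0)
    (hinv : ∀ h a b, B (ι h * a) (ι h * b) = B a b) :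
    Even (finrank F K) ∧ Nat.card H ∣ Fintype.card F ^ (finrank F K / 2) + 1 := by
  haveI : FiniteDimensional F K := Module.Finite.of_finite
  haveI hcyc : IsCyclic H := isCyclic_of_subgroup_isDomain ι hι
  obtain ⟨h₀, hh₀⟩ := IsCyclic.exists_generator (α := H)
  set x₀ : K := ι h₀ with hx₀
  set y₀ : K := ι h₀⁻¹ with hy₀
  have hxy : x₀ * y₀ = 1 := by
    rw [hx₀, hy₀, ← map_mul, mul_inv_cancel, map_one]
  have hyx : y₀ * x₀ = 1 := by rw [mul_comm, hxy]
  have hyinv : y₀ = x₀⁻¹ := eq_inv_of_mul_eq_one_right hxy
  have hx0 : x₀ ≠ 0 := left_ne_zero_of_mul_eq_one hxy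
  have hy0 : y₀ ≠ 0 := right_ne_zero_of_mul_eq_one hxy
  -- generation
  have hgen' : Algebra.adjoin F {x₀} = ⊤ := by
    rw [eq_top_iff, ← hgen]
    apply Algebra.adjoin_le
    rintro _ ⟨h, rfl⟩
    have h1 : h ∈ Submonoid.powers h₀ := by
      rw [mem_powers_iff_mem_zpowers]
      exact hh₀ h
    obtain ⟨k, rfl⟩ := h1
    have h3 : x₀ ∈ Algebra.adjoin F {x₀} := Algebra.subset_adjoin (Set.mem_singleton _)
    change (fun x => ι x) (h₀ ^ k) ∈ Algebra.adjoin F {x₀}
    simp only [map_pow]
    exact pow_mem h3 k
  -- the adjoint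
  have hadj : ∀ (f : F[X]) (a b : K), B (aeval x₀ f * a) b = B a (aeval y₀ f * b) := by
    intro f
    induction f using Polynomial.induction_on with
    | C c =>
      intro a b
      rw [aeval_C, aeval_C, ← Algebra.smul_def, ← Algebra.smul_def, map_smul, map_smul,
        LinearMap.smul_apply]
    | add p q hp hq =>
      intro a b
      simp only [map_add, add_mul, LinearMap.add_apply, hp, hq]
    | monomial n c hn =>
      intro a b
      have e1 : aeval x₀ (C c * X ^ (n + 1)) = aeval x₀ (C c * X ^ n) * x₀ := by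
        simp [pow_succ, mul_assoc]
      have e2 : aeval y₀ (C c * X ^ (n + 1)) = aeval y₀ (C c * X ^ n) * y₀ := by
        simp [pow_succ, mul_assoc]
      rw [e1, e2, mul_assoc, hn]
      have h1 := hinv h₀ a (y₀ * (aeval y₀ (C c * X ^ n) * b))
      rw [← hx₀] at h1
      have e3 : x₀ * (y₀ * (aeval y₀ (C c * X ^ n) * b)) = aeval y₀ (C c * X ^ n) * b := by
        rw [← mul_assoc, hxy, one_mul]
      rw [e3] at h1
      rw [h1]
      congr 1
      ring
  -- `y₀` is a conjugate of `x₀`
  have hroot : aeval y₀ (minpoly F x₀) = 0 := by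
    apply hB
    intro a
    have h1 := hadj (minpoly F x₀) a 1
    rw [minpoly.aeval, zero_mul, mul_one] at h1
    simpa using h1.symm
  have hal : IsAlgebraic F x₀ := Algebra.IsAlgebraic.isAlgebraic x₀
  obtain ⟨σ, hσ⟩ := minpoly.exists_algEquiv_of_root' hal hroot
  have hσ2 : σ * σ = 1 := by
    have h1 : ((σ * σ : Gal(K/F)) : K →ₐ[F] K) = ((1 : Gal(K/F)) : K →ₐ[F] K) := by
      apply AlgHom.ext_of_adjoin_eq_top hgen'
      intro z hz
      rw [Set.mem_singleton_iff] at hz
      subst hz
      change σ (σ x₀) = x₀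
      rw [hσ, hyinv, map_inv₀, hσ, hyinv, inv_inv]
    exact AlgEquiv.coe_toAlgHom_injective h1
  -- Frobenius
  set φ := FiniteField.frobeniusAlgEquivOfAlgebraic F K with hφ
  obtain ⟨i, hilt, hi'⟩ : ∃ i : ℕ, i < finrank F K ∧ φ ^ i = σ := by
    obtain ⟨i, hi⟩ := (FiniteField.bijective_frobeniusAlgEquivOfAlgebraic_pow F K).2 σ
    exact ⟨i, i.2, hi⟩
  have hpow : σ x₀ = x₀ ^ (Fintype.card F ^ i) := by
    rw [← hi', AlgEquiv.coe_pow, hφ, FiniteField.coe_frobeniusAlgEquivOfAlgebraic_iterate]
  have hdvd : finrank F K ∣ 2 * i := by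
    rw [← FiniteField.orderOf_frobeniusAlgEquivOfAlgebraic F K]
    apply orderOf_dvd_of_pow_eq_one
    rw [mul_comm, pow_mul, ← hφ, hi', sq, hσ2]
  have hi0 : i ≠ 0 := by
    intro h0
    have h1 : x₀ = y₀ := by
      rw [← hσ, hpow, h0]
      simp
    have h3 : x₀ * x₀ = 1 := by
      nth_rw 2 [h1]
      exact hxy
    have h4 : x₀ = 1 ∨ x₀ = -1 := mul_self_eq_one_iff.mp h3
    have h5 : Algebra.adjoin F {x₀} ≤ ⊥ := by
      apply Algebra.adjoin_le
      intro z hz
      rw [Set.mem_singleton_iff] at hz
      subst hz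
      rcases h4 with h4 | h4
      · rw [h4]
        exact one_mem _
      · rw [h4]
        exact neg_mem (one_mem _)
    rw [hgen'] at h5
    have h6 : (⊥ : Subalgebra F K) = ⊤ := (le_antisymm h5 le_top).symm
    have h7 := Subalgebra.bot_eq_top_iff_finrank_eq_one.mp h6
    omega
  obtain ⟨c, hc⟩ := hdvd
  have hc1 : c = 1 := by
    have h1 : 0 < c := by
      rcases Nat.eq_zero_or_pos c with h | h
      · subst h
        omega
      · exact h
    have h3 : c < 2 := by
      by_contra h
      push_neg at h
      have : finrank F K * 2 ≤ finrank F K * c := Nat.mul_le_mul_left _ h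
      omega
    omega
  subst hc1
  have hn : finrank F K = 2 * i := by omega
  have hhalf : finrank F K / 2 = i := by omega
  refine ⟨⟨i, by omega⟩, ?_⟩
  rw [hhalf]
  have hord : orderOf h₀ = Nat.card H := orderOf_eq_card_of_forall_mem_zpowers hh₀
  rw [← hord]
  apply orderOf_dvd_of_pow_eq_one
  apply hι
  rw [map_pow, map_one, ← hx₀, pow_succ, ← hpow, hσ, hyx]

/-- The backward direction on the field model. -/
theorem core_backward (ι : H →* K) (hdiv : Nat.card H ∣ Fintype.card F ^ (finrank F K / 2) + 1) :
    ∃ B : LinearMap.BilinForm F K, B.Nondegenerate ∧ ∀ h a b, B (ι h * a) (ι h * b) = B a b := by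
  haveI : FiniteDimensional F K := Module.Finite.of_finite
  set m := Fintype.card F ^ (finrank F K / 2) with hm
  let τ : Gal(K/F) := (FiniteField.frobeniusAlgEquivOfAlgebraic F K) ^ (finrank F K / 2)
  have hτ : ∀ a, τ a = a ^ m := by
    intro a
    change ((FiniteField.frobeniusAlgEquivOfAlgebraic F K) ^ (finrank F K / 2)) a = _
    rw [AlgEquiv.coe_pow, FiniteField.coe_frobeniusAlgEquivOfAlgebraic_iterate]
  let B : LinearMap.BilinForm F K := (Algebra.traceForm F K).compl₂ τ.toLinearMap
  have hBv : ∀ a b, B a b = Algebra.trace F K (a * τ b) := fun a b => rfl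
  refine ⟨B, ?_, ?_⟩
  · apply LinearMap.BilinForm.Nondegenerate.ofSeparatingLeft
    intro a ha
    apply (traceForm_nondegenerate F K).1 a
    intro b
    have h1 := ha (τ.symm b)
    rw [hBv, AlgEquiv.apply_symm_apply] at h1
    exact h1
  · intro h a b
    rw [hBv, hBv, map_mul τ (ι h) b, hτ (ι h)]
    have h1 : ι h * ι h ^ m = 1 := by
      rw [← pow_succ', ← map_pow]
      have h3 : h ^ (m + 1) = 1 := by
        obtain ⟨c, hc⟩ := hdiv
        rw [hc, pow_mul, pow_card_eq_one', one_pow]
      rw [h3, map_one]
    congr 1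
    calc ι h * a * (ι h ^ m * τ b) = (ι h * ι h ^ m) * (a * τ b) := by ring
      _ = a * τ b := by rw [h1, one_mul]

end Core

section Model

variable {F : Type u} [Field F] [Fintype F] {H : Type w} [CommGroup H] [Finite H]
  {V : Type v} [AddCommGroup V] [Module F V] [FiniteDimensional F V] [Nontrivial V]

/-- The field model of a faithful irreducible representation of an abelian group. -/
theorem exists_model (ρ : Representation F H V) (hfaith : Function.Injective ρ)
    (hirr : ∀ U : Submodule F V, (∀ h : H, ∀ u ∈ U, ρ h u ∈ U) → U = ⊥ ∨ U = ⊤) :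
    ∃ (K : Type v) (_ : Field K) (_ : Algebra F K) (e : K ≃ₗ[F] V) (ι : H →* K),
      (∀ h a, e (ι h * a) = ρ h (e a)) ∧ Function.Injective ι ∧
      Algebra.adjoin F (Set.range ι) = ⊤ := by
  classical
  let E := Module.End F V
  let s : Set E := Set.range ρ
  have hcomm : ∀ a ∈ s, ∀ b ∈ s, a * b = b * a := by
    rintro _ ⟨x, rfl⟩ _ ⟨y, rfl⟩
    rw [← map_mul, ← map_mul, mul_comm]
  let S : Subalgebra F E := Algebra.adjoin F s
  letI cr : CommRing S := Algebra.adjoinCommRingOfComm F hcomm
  haveI : Finite E := Module.finite_of_finite F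
  haveI : Finite S := Subtype.finite
  have hmem : ∀ h, ρ h ∈ S := fun h => Algebra.subset_adjoin ⟨h, rfl⟩
  have hcommS : ∀ (a : S) (h : H), (a : E) * ρ h = ρ h * (a : E) := by
    intro a h
    have := mul_comm a (⟨ρ h, hmem h⟩ : S)
    exact congrArg Subtype.val this
  have hinj : ∀ a : S, a ≠ 0 → ∀ v, (a : E) v = 0 → v = 0 := by
    intro a ha v hv
    have h1 := hirr (LinearMap.ker (a : E)) (by
      intro h u hu
      have h3 : (a : E) u = 0 := hu
      change (a : E) (ρ h u) = 0
      have h4 := congrArg (fun f : E => f u) (hcommS a h)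
      change (a : E) (ρ h u) = ρ h ((a : E) u) at h4
      rw [h4, h3, map_zero])
    rcases h1 with h1 | h1
    · have h3 : v ∈ LinearMap.ker (a : E) := hv
      rw [h1] at h3
      exact h3
    · exfalso
      apply ha
      apply Subtype.ext
      exact LinearMap.ker_eq_top.mp h1
  haveI hnt : Nontrivial S := by
    refine ⟨⟨0, 1, fun h => ?_⟩⟩
    have h1 : (0 : E) = 1 := congrArg Subtype.val h
    obtain ⟨v, hv⟩ := exists_ne (0 : V)
    apply hv
    have h3 := congrArg (fun f : E => f v) h1
    exact h3.symm
  haveI hdom : IsDomain S := by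
    haveI : NoZeroDivisors S := by
      refine ⟨fun {a b} hab => ?_⟩
      by_contra hcon
      push_neg at hcon
      obtain ⟨ha, hb⟩ := hcon
      have hb' : (b : E) ≠ 0 := fun h => hb (Subtype.ext h)
      obtain ⟨w, hw⟩ : ∃ w, (b : E) w ≠ 0 := by
        by_contra hcon
        push_neg at hcon
        exact hb' (LinearMap.ext hcon)
      apply hw
      apply hinj a ha
      have h1 : ((a * b : S) : E) = 0 := congrArg Subtype.val hab
      have h3 := congrArg (fun f : E => f w) h1
      exact h3
    exact NoZeroDivisors.to_isDomain S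
  have hfield : IsField S := Finite.isField_of_domain S
  letI fld : Field S := hfield.toField
  letI alg : Algebra F S := Subalgebra.algebra S
  obtain ⟨v₀, hv₀⟩ := exists_ne (0 : V)
  let e₀ : S →ₗ[F] V :=
    { toFun := fun a => (a : E) v₀
      map_add' := fun a b => rfl
      map_smul' := fun c a => rfl }
  have he₀ : ∀ a, e₀ a = (a : E) v₀ := fun a => rfl
  have hinj₀ : Function.Injective e₀ := by
    rw [← LinearMap.ker_eq_bot, LinearMap.ker_eq_bot']
    intro a ha
    by_contra hne
    exact hv₀ (hinj a hne v₀ ha)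
  have hsurj₀ : Function.Surjective e₀ := by
    rw [← LinearMap.range_eq_top]
    have h1 := hirr (LinearMap.range e₀) (by
      rintro h _ ⟨a, rfl⟩
      refine ⟨⟨ρ h, hmem h⟩ * a, ?_⟩
      rfl)
    rcases h1 with h1 | h1
    · exfalso
      have h3 : e₀ 1 ∈ LinearMap.range e₀ := ⟨1, rfl⟩
      rw [h1] at h3
      exact hv₀ h3
    · exact h1
  let e : S ≃ₗ[F] V := LinearEquiv.ofBijective e₀ ⟨hinj₀, hsurj₀⟩
  let ι : H →* S :=
    { toFun := fun h => ⟨ρ h, hmem h⟩
      map_one' := Subtype.ext (map_one ρ)
      map_mul' := fun x y => Subtype.ext (map_mul ρ x y) }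
  have hιv : ∀ h, ((ι h : S) : E) = ρ h := fun h => rfl
  refine ⟨S, fld, alg, e, ι, fun h a => rfl, ?_, ?_⟩
  · intro x y hxy
    apply hfaith
    have h1 := congrArg Subtype.val hxy
    exact h1
  · have h1 : Set.range ι = ((↑) : S → E) ⁻¹' s := by
      ext a
      constructor
      · rintro ⟨h, rfl⟩
        exact ⟨h, rfl⟩
      · rintro ⟨h, hh⟩
        exact ⟨h, Subtype.ext hh⟩
    rw [h1]
    exact Algebra.adjoin_adjoin_coe_preimage

end Model


/-- Let F be a finite field with r elements and of characteristic p, H a finite abelian group of order prime to p, and V a faithful irreducible representation of H over F of dimension n (faithful: distinct elements act differently; irreducible: the only H-invariant subspaces are 0 and V). Call V self-dual when it carries a nondegenerate H-invariant bilinear form. If n = 1 and V is self-dual then H has order at most 2. If n ≥ 2 then V is self-dual if and only if n is even and the order of H divides r^(n/2) + 1. -/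
theorem result {F : Type*} [Field F] [Fintype F] (p : ℕ) [Fact p.Prime] [CharP F p] {H : Type*} [CommGroup H] [Finite H] (hcop : ¬ p ∣ Nat.card H) {V : Type*} [AddCommGroup V] [Module F V] [FiniteDimensional F V] (ρ : Representation F H V) (hfaith : Function.Injective ρ) (hirr : ∀ U : Submodule F V, (∀ h : H, ∀ u ∈ U, ρ h u ∈ U) → U = ⊥ ∨ U = ⊤) : (Module.finrank F V = 1 → (∃ B : LinearMap.BilinForm F V, B.Nondegenerate ∧ ∀ h : H, ∀ x y : V, B (ρ h x) (ρ h y) = B x y) → Nat.card H ≤ 2) ∧ (2 ≤ Module.finrank F V → ((∃ B : LinearMap.BilinForm F V, B.Nondegenerate ∧ ∀ h : H, ∀ x y : V, B (ρ h x) (ρ h y) = B x y) ↔ (Even (Module.finrank F V) ∧ Nat.card H ∣ Fintype.card F ^ (Module.finrank F V / 2) + 1))) := by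
  classical
  refine ⟨?_, ?_⟩
  · rintro hn ⟨B, hB, hinv⟩
    obtain ⟨v₀, hv₀, hspan⟩ := finrank_eq_one_iff'.mp hn
    have hB0 : B v₀ v₀ ≠ 0 := by
      intro h0
      apply hv₀
      apply hB.1
      intro w
      obtain ⟨c, rfl⟩ := hspan w
      rw [map_smul, h0, smul_zero]
    choose c hc using fun h : H => hspan (ρ h v₀)
    have hc2 : ∀ h, c h = 1 ∨ c h = -1 := by
      intro h
      have h1 := hinv h v₀ v₀
      rw [← hc h] at h1
      simp only [map_smul, LinearMap.smul_apply, smul_eq_mul] at h1
      have h2 : c h * c h = 1 := by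
        apply mul_right_cancel₀ hB0
        rw [one_mul, mul_assoc, h1]
      exact mul_self_eq_one_iff.mp h2
    have hcinj : Function.Injective c := by
      intro x y hxy
      apply hfaith
      ext w
      obtain ⟨a, rfl⟩ := hspan w
      rw [map_smul, map_smul, ← hc x, ← hc y, hxy]
    let f : H → ({1, -1} : Finset F) := fun h => ⟨c h, by
      simp only [Finset.mem_insert, Finset.mem_singleton]
      exact hc2 h⟩
    have hf : Function.Injective f := fun x y hxy => hcinj (congrArg Subtype.val hxy)
    have h3 := Nat.card_le_card_of_injective f hf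
    have h4 : Nat.card ({1, -1} : Finset F) ≤ 2 := by
      rw [Nat.card_eq_fintype_card, Fintype.card_coe]
      exact Finset.card_le_two
    exact h3.trans h4
  · intro hn2
    haveI : Nontrivial V := Module.nontrivial_of_finrank_pos (R := F) (by omega)
    obtain ⟨K, _, _, e, ι, he, hι, hgen⟩ := exists_model ρ hfaith hirr
    have hfin : finrank F K = finrank F V := e.finrank_eq
    haveI : Finite V := Module.finite_of_finite F
    haveI : Finite K := Finite.of_equiv V e.symm.toEquiv
    constructor
    · rintro ⟨B, hB, hinv⟩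
      have h1 := core_forward (F := F) ι hι hgen (by rw [hfin]; exact hn2)
        ((B.compl₁₂ e.toLinearMap e.toLinearMap))
        (by
          intro y hy
          have h2 : e y = 0 := by
            apply hB.2
            intro x
            have h3 := hy (e.symm x)
            simpa using h3
          simpa using h2)
        (by
          intro h a b
          simp only [LinearMap.compl₁₂_apply, LinearEquiv.coe_coe]
          rw [he, he, hinv])
      rwa [hfin] at h1
    · rintro ⟨-, hdiv⟩
      obtain ⟨B', hB', hinv'⟩ := core_backward (F := F) ι (by rw [hfin]; exact hdiv)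
      refine ⟨LinearMap.BilinForm.congr e B', hB'.congr e, ?_⟩
      intro h x y
      have h1 : ∀ z, e.symm (ρ h z) = ι h * e.symm z := by
        intro z
        apply e.injective
        rw [he, LinearEquiv.apply_symm_apply, LinearEquiv.apply_symm_apply]
      simp only [LinearMap.BilinForm.congr_apply]
      rw [h1, h1, hinv']

end Cfsg.Agent.S4967
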