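import Cfsg.Statements.S5006
import Cfsg.Agent.Lib.MathieuBlock.M24LocA
import Cfsg.Agent.Lib.MathieuBlock.M24LocB
import Cfsg.Agent.Lib.MathieuBlock.M24Row0
import Cfsg.Agent.Lib.MathieuBlock.M24Row1
import Cfsg.Agent.Lib.MathieuBlock.M24Row2
import Cfsg.Agent.Lib.MathieuBlock.M24Row3
import Cfsg.Agent.Lib.MathieuBlock.M24Row4
import Cfsg.Agent.Lib.MathieuBlock.M24Row5
import Cfsg.Agent.Lib.MathieuBlock.M24Row6
import Cfsg.Agent.Lib.MathieuBlock.M24Row7
import Cfsg.Agent.Lib.MathieuBlock.M24Row8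

set_option autoImplicit false
open Cfsg
open Cfsg.Agent.Lib.Golay.Core Cfsg.Agent.Lib.Golay.Perm Cfsg.Agent.Lib.Golay.Chain
  Cfsg.Agent.Lib.Golay.M24 Cfsg.Agent.Lib.FusionSimple.Cert
  Cfsg.Agent.Lib.FusionSimple.Closure Cfsg.Agent.Lib.FusionSimple.Norm
  Cfsg.Agent.Lib.MathieuBlock Cfsg.Agent.Lib.MathieuBlock.M24Base
  Cfsg.Agent.Lib.MathieuBlock.Relation Cfsg.Agent.Lib.MathieuBlock.Abstract
  Cfsg.Agent.Lib.MathieuBlock.Row Cfsg.Agent.Lib.MathieuBlock.Class Cfsg.Agent.Lib.MathieuBlock.Main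

namespace Cfsg.Agent.S5006

theorem evalAJ (v : ℕ → ℂ) (a0 a1 a2 a3 a4 a5 a6 a7 a8 a9 a10 a11 a12 : ℕ) : evalA v [a0, a1, a2, a3, a4, a5, a6, a7, a8, a9, a10, a11, a12] = (a0 : ℂ) * v 0 + (a1 : ℂ) * v 1 + (a2 : ℂ) * v 2 + (a3 : ℂ) * v 3 + (a4 : ℂ) * v 4 + (a5 : ℂ) * v 5 + (a6 : ℂ) * v 6 + (a7 : ℂ) * v 7 + (a8 : ℂ) * v 8 + (a9 : ℂ) * v 9 + (a10 : ℂ) * v 10 + (a11 : ℂ) * v 11 + (a12 : ℂ) * v 12 := by
  simp only [evalA]
  norm_num
  ring

theorem hrel (F : Equiv.Perm GolayPt → ℂ) (hF : RelF M24 F) : False := by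
  have hK1 : ((M24KA.KC.map unp120).flatten.map g).Nodup := M24KA.K_facts.1
  have hK2 : ∀ σ, σ ∈ (M24KA.KC.map unp120).flatten.map g ↔ ∃ u ∈ M24, σ = u * g tA * u⁻¹ := M24KA.K_facts.2.1
  have hK3 : ∀ x ∈ (M24KA.KC.map unp120).flatten, checkAut x = true ∧ inG' x = true := fun x hx => classOK_spec (allL_iff.1 M24KA.hKok x hx)
  have h0 := row_eq hF hM2 hreps (by decide +kernel) ctA ntA htAG hteA M24Row0.cr M24Row0.gr hK1 hK2 hK3 M24Row0.row
  rw [M24Row0.tot, evalAJ] at h0
  push_cast at h0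
  have h1 := row_eq hF hM2 hreps (by decide +kernel) ctA ntA htAG hteA M24Row1.cr M24Row1.gr hK1 hK2 hK3 M24Row1.row
  rw [M24Row1.tot, evalAJ] at h1
  push_cast at h1
  have h2 := row_eq hF hM2 hreps (by decide +kernel) ctA ntA htAG hteA M24Row2.cr M24Row2.gr hK1 hK2 hK3 M24Row2.row
  rw [M24Row2.tot, evalAJ] at h2
  push_cast at h2
  have h3 := row_eq hF hM2 hreps (by decide +kernel) ctA ntA htAG hteA M24Row3.cr M24Row3.gr hK1 hK2 hK3 M24Row3.row
  rw [M24Row3.tot, evalAJ] at h3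
  push_cast at h3
  have h4 := row_eq hF hM2 hreps (by decide +kernel) ctA ntA htAG hteA M24Row4.cr M24Row4.gr hK1 hK2 hK3 M24Row4.row
  rw [M24Row4.tot, evalAJ] at h4
  push_cast at h4
  have h5 := row_eq hF hM2 hreps (by decide +kernel) ctA ntA htAG hteA M24Row5.cr M24Row5.gr hK1 hK2 hK3 M24Row5.row
  rw [M24Row5.tot, evalAJ] at h5
  push_cast at h5
  have h6 := row_eq hF hM2 hreps (by decide +kernel) ctA ntA htAG hteA M24Row6.cr M24Row6.gr hK1 hK2 hK3 M24Row6.row
  rw [M24Row6.tot, evalAJ] at h6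
  push_cast at h6
  have h7 := row_eq hF hM2 hreps (by decide +kernel) ctA ntA htAG hteA M24Row7.cr M24Row7.gr hK1 hK2 hK3 M24Row7.row
  rw [M24Row7.tot, evalAJ] at h7
  push_cast at h7
  have h8 := row_eq hF hM2 hreps (by decide +kernel) ctA ntA htAG hteA M24Row8.cr M24Row8.gr hK1 hK2 hK3 M24Row8.row
  rw [M24Row8.tot, evalAJ] at h8
  push_cast at h8
  have hm0 : vals F reps 5 = vals F reps 4 := by
    show F (g (nthC reps 5)) = F (g (nthC reps 4))
    have e1 : comp (nthC reps 4) (nthC reps 5) = idC := by decide +kernel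
    have ca : checkAut (nthC reps 5) = true := by decide +kernel
    have cb : checkAut (nthC reps 4) = true := by decide +kernel
    have e2 := g_inv_of_comp (checkAut_valid cb) (checkAut_valid ca) e1
    rw [e2]
    exact hF.inv _ (hM2 _ cb rfl)
  have hm1 : vals F reps 8 = vals F reps 7 := by
    show F (g (nthC reps 8)) = F (g (nthC reps 7))
    have e1 : comp (nthC reps 7) (nthC reps 8) = idC := by decide +kernel
    have ca : checkAut (nthC reps 8) = true := by decide +kernel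
    have cb : checkAut (nthC reps 7) = true := by decide +kernel
    have e2 := g_inv_of_comp (checkAut_valid cb) (checkAut_valid ca) e1
    rw [e2]
    exact hF.inv _ (hM2 _ cb rfl)
  have hm2 : vals F reps 10 = vals F reps 9 := by
    show F (g (nthC reps 10)) = F (g (nthC reps 9))
    have e1 : comp (nthC reps 9) (nthC reps 10) = idC := by decide +kernel
    have ca : checkAut (nthC reps 10) = true := by decide +kernel
    have cb : checkAut (nthC reps 9) = true := by decide +kernel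
    have e2 := g_inv_of_comp (checkAut_valid cb) (checkAut_valid ca) e1
    rw [e2]
    exact hF.inv _ (hM2 _ cb rfl)
  have hm3 : vals F reps 12 = vals F reps 11 := by
    show F (g (nthC reps 12)) = F (g (nthC reps 11))
    have e1 : comp (nthC reps 11) (nthC reps 12) = idC := by decide +kernel
    have ca : checkAut (nthC reps 12) = true := by decide +kernel
    have cb : checkAut (nthC reps 11) = true := by decide +kernel
    have e2 := g_inv_of_comp (checkAut_valid cb) (checkAut_valid ca) e1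
    rw [e2]
    exact hF.inv _ (hM2 _ cb rfl)
  have key : (394687495125 : ℂ) * vals F reps 0 = 0 := by
    linear_combination (394687495125) * h0 + (-41366633278080) * h1 + (-1986228808256) * h2 + (7764020022528) * h3 + (-11656363023360) * h4 + (14376910302720) * h5 + (-21411717110784) * h6 + (77636976721920) * h7 + (-20604647669760) * h8 + (-1424875846141440) * hm0 + (-3693521201610240) * hm1 + (-14509442362060800) * hm2 + (2132581033820160) * hm3
  have h1 : vals F reps 0 = F 1 := by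
    show F (g (nthC reps 0)) = F 1
    have : nthC reps 0 = idC := by decide +kernel
    rw [this, g_idC]
  rw [h1] at key
  rcases mul_eq_zero.1 key with h | h
  · norm_num at h
  · exact hF.one h

/-- All irreducible complex characters of the Mathieu group `M₂₄` lie in a single 2-block: any two of them lie in the same block relative to every maximal ideal of the algebraic integers containing 2. -/
theorem result (M : Ideal Cfsg.AlgInt) (hM : Cfsg.IsPModular 2 M)
    (χ ψ : Cfsg.IrrCharacter ↥Cfsg.M24) : Cfsg.SameBlock M (χ : ↥Cfsg.M24 → ℂ) (ψ : ↥Cfsg.M24 → ℂ) := by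
  refine main_sameBlock (G := M24) (ts := ts.map g) ?_ ?_ hrel hM χ ψ
  · intro y hy h1 h2
    obtain ⟨x, hx, u, hu, he⟩ := hinvol hy h1 h2
    exact ⟨g x, List.mem_map.2 ⟨x, hx, rfl⟩, u, hu, he⟩
  · intro x hx
    obtain ⟨x0, hx0, he⟩ := List.mem_map.1 hx
    rw [← he]
    have hx1 : x0 = tA ∨ x0 = tB := by simpa [ts] using hx0
    rcases hx1 with h | h
    · rw [h]
      exact ⟨_, M24LocA.hloc⟩
    · rw [h]
      exact ⟨_, M24LocB.hloc⟩

end Cfsg.Agent.S5006
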