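import Cfsg.Statements.S5015
import Cfsg.Agent.Lib.RootSubgroups.RankOne

set_option autoImplicit false
open Cfsg

open Cfsg.Agent.Lib.RootSubgroups.RankOne

namespace Cfsg.Agent.S5015

/-- Let a group Y act doubly transitively on a set Ω with at least three points, and suppose that the stabilizer of a point α contains a nilpotent subgroup A, normalized by that stabilizer, which acts regularly on the points other than α. Then for any y in Y moving α, the subgroups A and y A y⁻¹ are the unipotent subgroups of a rank one group, and the normal closure of A in Y (the subgroup generated by all conjugates of A) is generated by A and y A y⁻¹ alone. -/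
theorem result {Y Ω : Type*} [Group Y] [MulAction Y Ω]
    (h2 : MulAction.IsMultiplyPretransitive Y Ω 2) (hΩ : 3 ≤ ENat.card Ω) (α : Ω) (A : Subgroup Y)
    (hA : A ≤ MulAction.stabilizer Y α) (hAn : ∀ y ∈ MulAction.stabilizer Y α, Cfsg.conjBy A y = A)
    (hnil : Group.IsNilpotent A) (hreg : ∀ β γ : Ω, β ≠ α → γ ≠ α → ∃! a : Y, a ∈ A ∧ a • β = γ)
    (y : Y) (hy : y ∉ MulAction.stabilizer Y α) :
    Cfsg.IsRankOnePair A (Cfsg.conjBy A y) ∧ Subgroup.normalClosure (A : Set Y) = A ⊔ Cfsg.conjBy A y := by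
  have hyα : y • α ≠ α := fun he => hy (MulAction.mem_stabilizer_iff.2 he)
  set β := y • α with hβ
  -- conjugates of A are determined by the image of α
  have hconj : ∀ g₁ g₂ : Y, g₁ • α = g₂ • α → Cfsg.conjBy A g₁ = Cfsg.conjBy A g₂ := by
    intro g₁ g₂ he
    have hs : g₂⁻¹ * g₁ ∈ MulAction.stabilizer Y α := by
      rw [MulAction.mem_stabilizer_iff, mul_smul, he, inv_smul_smul]
    have := hAn _ hs
    have h2 : g₁ = g₂ * (g₂⁻¹ * g₁) := by group
    rw [h2, ← conjBy_conjBy, this]
  -- a third point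
  have hthird : ∃ γ : Ω, γ ≠ α ∧ γ ≠ β := by
    by_contra hcon
    push Not at hcon
    have huniv : (Set.univ : Set Ω) ⊆ {α, β} := by
      intro γ _
      by_cases h1 : γ = α
      · left; exact h1
      · right; exact hcon γ h1
    have hcard : Set.encard (Set.univ : Set Ω) ≤ 2 :=
      (Set.encard_le_encard huniv).trans (Set.encard_pair hyα.symm).le
    rw [Set.encard_univ] at hcard
    have := hΩ.trans hcard
    norm_num at this
  -- elements of A fixing a point other than α are trivial
  have hfixA : ∀ a ∈ A, ∀ γ : Ω, γ ≠ α → a • γ = γ → a = 1 := by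
    intro a ha γ hγ hf
    obtain ⟨u, -, hu⟩ := hreg γ γ hγ hγ
    rw [hu a ⟨ha, hf⟩, hu 1 ⟨A.one_mem, by simp⟩]
  have haα : ∀ a ∈ A, a • α = α := fun a ha => MulAction.mem_stabilizer_iff.1 (hA ha)
  -- structure of B
  set B := Cfsg.conjBy A y with hB
  have hbβ : ∀ b ∈ B, b • β = β := by
    intro b hb
    rw [hB, mem_conjBy] at hb
    have := haα _ hb
    have h2 : b • y • α = y • (y⁻¹ * b * y) • α := by
      simp [mul_smul]
    rw [hβ, h2, this]
  have hregB : ∀ γ δ : Ω, γ ≠ β → δ ≠ β → ∃ b ∈ B, b • γ = δ := by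
    intro γ δ hγ hδ
    have h1 : y⁻¹ • γ ≠ α := by
      intro he
      apply hγ
      rw [hβ, ← he]; simp
    have h2 : y⁻¹ • δ ≠ α := by
      intro he
      apply hδ
      rw [hβ, ← he]; simp
    obtain ⟨a, ⟨ha, hae⟩, -⟩ := hreg _ _ h1 h2
    refine ⟨y * a * y⁻¹, conj_mem_conjBy ha y, ?_⟩
    have : (y * a * y⁻¹) • γ = y • a • y⁻¹ • γ := by simp [mul_smul]
    rw [this, hae]; simp
  have hfixB : ∀ b ∈ B, ∀ γ : Ω, γ ≠ β → b • γ = γ → b = 1 := by
    intro b hb γ hγ hf
    have hb' := hb
    rw [hB, mem_conjBy] at hb'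
    have h1 : y⁻¹ • γ ≠ α := by
      intro he
      apply hγ
      rw [hβ, ← he]; simp
    have := hfixA _ hb' (y⁻¹ • γ) h1 (by simp [mul_smul, hf])
    have h3 : b = y * (y⁻¹ * b * y) * y⁻¹ := by group
    rw [h3, this]; simp
  have hne : A ≠ B := by
    intro he
    obtain ⟨γ, hγ1, hγ2⟩ := hthird
    obtain ⟨a, ⟨ha, hae⟩, -⟩ := hreg β γ hyα hγ1
    have : a • β = β := hbβ a (he ▸ ha)
    rw [this] at hae
    exact hγ2 hae.symm
  have hBnil : Group.IsNilpotent B := isNilpotent_conjBy hnil y
  have hcondL : Cfsg.RankOneCondition A B := by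
    intro a ha ha1
    -- γ = a⁻¹ β
    have hγ1 : a⁻¹ • β ≠ β := by
      intro he
      have : a • β = β := by
        conv_lhs => rw [← he]
        simp
      exact ha1 (hfixA a ha β hyα this)
    have hγ2 : a⁻¹ • β ≠ α := by
      intro he
      apply hyα
      have := congrArg (fun x => a • x) he
      simpa [haα a ha] using this
    obtain ⟨b, hb, hbe⟩ := hregB (a⁻¹ • β) α hγ1 hyα.symm
    refine ⟨b, hb, ?_, ?_⟩
    · rintro rfl
      simp at hbe
      exact hγ2 hbe
    · rw [hB, conjBy_conjBy]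
      apply hconj
      rw [mul_smul, ← hβ, ← hbe]
      simp
  have hcondR : Cfsg.RankOneCondition B A := by
    intro b hb hb1
    have hγ1 : b⁻¹ • α ≠ α := by
      intro he
      have : b • α = α := by
        conv_lhs => rw [← he]
        simp
      exact hb1 (hfixB b hb α hyα.symm this)
    have hγ2 : b⁻¹ • α ≠ β := by
      intro he
      have := congrArg (fun x => b • x) he
      simp only [smul_inv_smul, hbβ b hb] at this
      exact hyα this.symm
    obtain ⟨a, ⟨ha, hae⟩, -⟩ := hreg (b⁻¹ • α) β hγ1 hyα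
    refine ⟨a, ha, ?_, ?_⟩
    · rintro rfl
      simp at hae
      exact hγ2 hae
    · rw [hB, conjBy_conjBy]
      apply hconj
      rw [mul_smul, ← hβ, ← hae]
      simp
  refine ⟨⟨hne, hnil, hBnil, hcondL, hcondR⟩, ?_⟩
  apply le_antisymm
  · -- each conjugate of A is in A ⊔ B
    have hall : ∀ g : Y, Cfsg.conjBy A g ≤ A ⊔ B := by
      intro g
      by_cases h1 : g • α = α
      · have : Cfsg.conjBy A g = A := hAn g (MulAction.mem_stabilizer_iff.2 h1)
        rw [this]; exact le_sup_left
      · obtain ⟨a, ⟨ha, hae⟩, -⟩ := hreg β (g • α) hyα h1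
        have : Cfsg.conjBy A g = Cfsg.conjBy B a := by
          rw [hB, conjBy_conjBy]
          apply hconj
          rw [mul_smul, ← hβ, hae]
        rw [this]
        intro x hx
        rw [mem_conjBy] at hx
        have hx' : x = a * (a⁻¹ * x * a) * a⁻¹ := by group
        rw [hx']
        exact Subgroup.mul_mem _ (Subgroup.mul_mem _ (Subgroup.mem_sup_left ha) (Subgroup.mem_sup_right hx))
          (Subgroup.mem_sup_left (A.inv_mem ha))
    rw [Subgroup.normalClosure, Subgroup.closure_le]
    intro x hx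
    rw [Group.mem_conjugatesOfSet_iff] at hx
    obtain ⟨a, ha, hac⟩ := hx
    obtain ⟨c, rfl⟩ := isConj_iff.1 hac
    exact hall c ⟨a, ha, rfl⟩
  · refine sup_le (Subgroup.le_normalClosure) ?_
    rw [hB]
    rintro _ ⟨a, ha, rfl⟩
    exact (Subgroup.normalClosure_normal).conj_mem _ (Subgroup.le_normalClosure ha) y

end Cfsg.Agent.S5015
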