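import Cfsg.Statements.S5022
import Cfsg.Agent.Lib.RootSubgroups.PrimeSL2b

set_option autoImplicit false
open Cfsg

namespace Cfsg.Agent.S5022

/-- Let X be a special rank one group with abelian unipotent subgroups A and B, where A is an elementary abelian p-group for the prime p. Then for every non-identity a in A and the non-identity b in B with b⁻¹ A b = a⁻¹ B a, the subgroup generated by a and b is isomorphic to SL₂(p) or to PSL₂(p). -/
theorem result {X : Type*} [Group X] {A B : Subgroup X} (h : Cfsg.IsRankOneGroup X A B)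
    (hs : Cfsg.IsSpecialRankOnePair A B) (hab : Cfsg.HasAbelianUnipotents A B)
    {p : ℕ} [Fact p.Prime] (hA : Cfsg.IsElementaryAbelian p A)
    {a b : X} (ha : a ∈ A) (ha1 : a ≠ 1) (hb : b ∈ B) (hb1 : b ≠ 1) (hab' : Cfsg.conjBy A b⁻¹ = Cfsg.conjBy B a⁻¹) :
    Nonempty (↥(Subgroup.closure ({a, b} : Set X)) ≃* Matrix.SpecialLinearGroup (Fin 2) (ZMod p)) ∨
    Nonempty (↥(Subgroup.closure ({a, b} : Set X)) ≃* Matrix.ProjectiveSpecialLinearGroup (Fin 2) (ZMod p)) := by
  classical
  have sp := Cfsg.Agent.Lib.RootSubgroups.SpecialCalc.SP.of_hasAbelian hs hab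
  have c : Cfsg.Agent.Lib.RootSubgroups.PrimeSL2.Ctx A B p a := ⟨sp, ha, ha1, hA.2⟩
  have hy : Cfsg.Agent.Lib.RootSubgroups.SpecialCalc.yy A B a = b⁻¹ :=
    sp.yy_unique ha (B.inv_mem hb) hab'
  have hE : Subgroup.closure ({a, b} : Set X) = Cfsg.Agent.Lib.RootSubgroups.PrimeSL2.XX A B a := by
    unfold Cfsg.Agent.Lib.RootSubgroups.PrimeSL2.XX
    rw [hy]
    apply le_antisymm
    · apply (Subgroup.closure_le _).2
      rintro x (rfl | hx)
      · exact Subgroup.subset_closure (by simp)
      · rw [Set.mem_singleton_iff] at hx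
        subst hx
        have : x⁻¹ ∈ Subgroup.closure ({a, x⁻¹} : Set X) := Subgroup.subset_closure (by simp)
        simpa using Subgroup.inv_mem _ this
    · apply (Subgroup.closure_le _).2
      rintro x (rfl | hx)
      · exact Subgroup.subset_closure (by simp)
      · rw [Set.mem_singleton_iff] at hx
        subst hx
        have : b ∈ Subgroup.closure ({a, b} : Set X) := Subgroup.subset_closure (by simp)
        exact Subgroup.inv_mem _ this
  rcases Cfsg.Agent.Lib.RootSubgroups.PrimeSL2b.main c with ⟨⟨e⟩⟩ | ⟨⟨e⟩⟩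
  · exact Or.inl ⟨(MulEquiv.subgroupCongr hE).trans e⟩
  · exact Or.inr ⟨(MulEquiv.subgroupCongr hE).trans e⟩

end Cfsg.Agent.S5022
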