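import Cfsg.Statements.S5023
import Cfsg.Agent.Lib.RootSubgroups.SpecialCalc
import Cfsg.Agent.Lib.RootSubgroups.ModuleSpecial

set_option autoImplicit false
open Cfsg

namespace Cfsg.Agent.S5023

/-- Let X be a rank one group with unipotent subgroups A and B that acts faithfully on an abelian group V (written additively) with A acting quadratically: a' • (a • v − v) = a • v − v for all a, a' in A and v in V. Then A is either torsion-free or an elementary abelian p-group for some prime p. -/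
theorem result {X : Type*} [Group X] {A B : Subgroup X} (h : Cfsg.IsRankOneGroup X A B)
    {V : Type*} [AddCommGroup V] [DistribMulAction X V] (hf : ∀ x : X, (∀ v : V, x • v = v) → x = 1)
    (hq : ∀ a ∈ A, ∀ a' ∈ A, ∀ v : V, a' • (a • v - v) = a • v - v) :
    (∀ a ∈ A, a ≠ 1 → ¬ IsOfFinOrder a) ∨ ∃ p : ℕ, p.Prime ∧ Cfsg.IsElementaryAbelian p A := by
  open Cfsg.Agent.Lib.RootSubgroups.RankOne Cfsg.Agent.Lib.RootSubgroups.SpecialCalc in
  have key : ∀ a a' : X, (∀ v : V, a' • (a • v - v) = a • v - v) → (∀ v : V, a • (a' • v - v) = a' • v - v) → a * a' = a' * a := by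
    intro a a' h1 h2
    have h3 : (a * a')⁻¹ * (a' * a) = 1 := by
      apply hf
      intro v
      have e1 : (a' * a) • v = (a * a') • v := by
        have h4 := h1 v
        have h5 := h2 v
        rw [smul_sub] at h4 h5
        rw [mul_smul, mul_smul]
        have h6 : a' • a • v = a • v - v + a' • v := eq_add_of_sub_eq h4
        have h7 : a • a' • v = a' • v - v + a • v := eq_add_of_sub_eq h5
        rw [h6, h7]; abel
      rw [mul_smul, e1, ← mul_smul, inv_mul_cancel, one_smul]
    have h4 := mul_eq_one_iff_eq_inv.1 h3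
    exact inv_inj.1 h4
  have hAab : ∀ x ∈ A, ∀ y ∈ A, x * y = y * x := fun x hx y hy => key x y (hq x hx y hy) (hq y hy x hx)
  obtain ⟨hsup, hr⟩ := h
  have hAc : IsMulCommutative A := ⟨⟨fun x y => Subtype.ext (hAab x x.2 y y.2)⟩⟩
  have hBc : IsMulCommutative B := by
    obtain ⟨g, -, hg⟩ := Cfsg.Agent.Lib.RootSubgroups.RankOne.right_mem_unipotent hr
    refine ⟨⟨fun x y => Subtype.ext ?_⟩⟩
    have hx : (x : X) ∈ Cfsg.conjBy A g := hg ▸ x.2
    have hy : (y : X) ∈ Cfsg.conjBy A g := hg ▸ y.2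
    obtain ⟨a, ha, hxa⟩ := hx
    obtain ⟨a', ha', hya⟩ := hy
    simp only [MulEquiv.coe_toMonoidHom, MulAut.conj_apply] at hxa hya
    change (x : X) * (y : X) = (y : X) * (x : X)
    rw [← hxa, ← hya]
    calc g * a * g⁻¹ * (g * a' * g⁻¹) = g * (a * a') * g⁻¹ := by group
      _ = g * (a' * a) * g⁻¹ := by rw [hAab a ha a' ha']
      _ = _ := by group
  have hX : ∃ x y : X, ∃ v : V, y • (x • v - v) ≠ x • v - v := by
    by_contra hno
    push Not at hno
    have hcomm : ∀ x y : X, x * y = y * x := fun x y => key x y (hno x y) (hno y x)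
    obtain ⟨a, ha, ha1⟩ := Cfsg.Agent.Lib.RootSubgroups.RankOne.exists_ne_one_left hr
    apply ha1
    apply Cfsg.Agent.Lib.RootSubgroups.RankOne.eq_one_of_conjBy_eq hr ha
    ext x
    have e : a⁻¹ * x * a = x := by rw [hcomm a⁻¹ x, mul_assoc]; simp
    rw [Cfsg.Agent.Lib.RootSubgroups.RankOne.mem_conjBy, e]
  have hs : Cfsg.IsSpecialRankOnePair A B :=
    Cfsg.Agent.Lib.RootSubgroups.ModuleSpecial.special_of_module ⟨hsup, hr⟩ hq hX
  rcases (Cfsg.Agent.Lib.RootSubgroups.SpecialCalc.SP.of_hasAbelian hs ⟨hAc, hBc⟩).dichotomy with h1 | h1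
  · exact Or.inr h1
  · exact Or.inl h1.1

end Cfsg.Agent.S5023
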