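import Cfsg.Statements.S5026
import Cfsg.Agent.Lib.RootSubgroups.Abstract

set_option autoImplicit false
open Cfsg

open Cfsg.Agent.Lib.RootSubgroups.RankOne Cfsg.Agent.Lib.RootSubgroups.Abstract

namespace Cfsg.Agent.S5026

/-- Let S be a degenerate set of abstract root subgroups of G (a set of abstract transvection groups) and let a, b be commuting non-identity elements of members of S with a b ≠ 1. Then the members of S centralizing a b are exactly those centralizing both a and b. -/
theorem result {G : Type*} [Group G] {S : Set (Subgroup G)} (hS : Cfsg.IsRootSubgroupSet S) (hdeg : Cfsg.IsDegenerateRootSet S)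
    {a b : G} (ha : a ∈ Cfsg.rootElements S) (hb : b ∈ Cfsg.rootElements S) (hab : a * b = b * a) (hab1 : a * b ≠ 1) :
    Cfsg.centralizingMembers S (Subgroup.zpowers (a * b)) =
      Cfsg.centralizingMembers S (Subgroup.zpowers a) ∩ Cfsg.centralizingMembers S (Subgroup.zpowers b) := by
  have hmemz : ∀ (E : Subgroup G) (x : G), E ≤ Subgroup.centralizer (Subgroup.zpowers x : Set G) ↔
      ∀ e ∈ E, e * x = x * e := by
    intro E x
    constructor
    · intro h e he
      exact (Subgroup.mem_centralizer_iff.1 (h he) x (Subgroup.mem_zpowers x)).symm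
    · intro h e he
      rw [Subgroup.mem_centralizer_iff]
      rintro y ⟨k, rfl⟩
      have : Commute e x := h e he
      exact ((this.zpow_right k).eq).symm
  obtain ⟨ha1, A, hA, haA⟩ := ha
  obtain ⟨hb1, B, hB, hbB⟩ := hb
  have key : ∀ E ∈ S, (∀ e ∈ E, e * (a * b) = (a * b) * e) → ∀ e ∈ E, e * a = a * e := by
    intro E hE hcomm
    by_contra hcon
    have hEA : ⁅E, A⁆ ≠ ⊥ := by
      intro hb
      apply hcon
      intro e he
      exact commute_of_bot hb he haA
    have hREA : IsRankOnePair E A := by
      rcases hS.pair E hE A hA with h1 | h1 | h1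
      · exact absurd h1 hEA
      · exact h1
      · exact absurd h1 (hdeg E hE A hA)
    have hRAE := RankOnePair_symm hREA
    have hconjab : conjBy E (a * b) = E := by
      apply conjBy_eq_self_of_commute
      intro e he
      exact (hcomm e he).symm
    have hEb : conjBy E b = conjBy E a⁻¹ := by
      have h2 : conjBy (conjBy E b) a = E := by
        rw [conjBy_conjBy]; exact hconjab
      exact conjBy_eq_iff.1 h2
    have hEa : conjBy E a⁻¹ ≠ E := by
      intro hh
      have := eq_one_of_conjBy_eq hRAE (A.inv_mem haA) hh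
      exact ha1 (by simpa using this)
    have hEB : ⁅E, B⁆ ≠ ⊥ := by
      intro hb'
      apply hEa
      rw [← hEb]
      exact conjBy_of_bot' hb' hbB
    have hREB : IsRankOnePair E B := by
      rcases hS.pair E hE B hB with h1 | h1 | h1
      · exact absurd h1 hEB
      · exact h1
      · exact absurd h1 (hdeg E hE B hB)
    have hRBE := RankOnePair_symm hREB
    -- E^a⁻¹ = A^e₁ and E^b = B^e₂
    obtain ⟨e₁, he₁, -, he₁'⟩ := exists_conjBy_right_eq hRAE (A.inv_mem haA) (inv_ne_one.2 ha1)
    obtain ⟨e₂, he₂, -, he₂'⟩ := exists_conjBy_right_eq hRBE hbB hb1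
    have e3 : conjBy A e₁ = conjBy B e₂ := by rw [← he₁', ← hEb, he₂']
    have e4 : B = conjBy A (e₂⁻¹ * e₁) := by
      rw [← conjBy_conjBy, e3, conjBy_conjBy]; simp
    by_cases hg : e₂⁻¹ * e₁ = 1
    · rw [hg, conjBy_one] at e4
      subst e4
      exact hab1 (eq_one_of_conjBy_eq hRAE (B.mul_mem haA hbB) hconjab)
    · have hgE : e₂⁻¹ * e₁ ∈ E := E.mul_mem (E.inv_mem he₂) he₁
      have hmem : B ∈ unipotentSubgroups A E := by
        rw [e4]; exact ⟨_, Subgroup.mem_sup_right hgE, rfl⟩
      have hneAB : A ≠ B := by
        intro hh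
        apply hg
        apply eq_one_of_conjBy_eq' hRAE hgE
        rw [← e4, hh]
      have hAB : IsRankOnePair A B :=
        isRankOnePair_of_unipotent hRAE left_mem_unipotent hmem hneAB
      have hBA := RankOnePair_symm hAB
      -- contradiction: a moves B to a point fixed by b
      have hC : conjBy B a ≠ B := fun hh => ha1 (eq_one_of_conjBy_eq hAB haA hh)
      have hmem2 : b ∈ conjBy B a := by
        rw [mem_conjBy]
        have : a⁻¹ * b * a = b := by
          rw [mul_assoc, ← hab]; group
        rwa [this]
      have hCmem : conjBy B a ∈ unipotentSubgroups B A :=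
        ⟨a, Subgroup.mem_sup_right haA, rfl⟩
      exact hb1 (fixed_left hBA hCmem hC hbB (conjBy_of_mem hmem2))
  ext E
  constructor
  · rintro ⟨hE, hEc⟩
    have hEab := (hmemz E _).1 hEc
    have h1 := key E hE hEab
    refine ⟨⟨hE, (hmemz E _).2 h1⟩, ⟨hE, (hmemz E _).2 ?_⟩⟩
    intro e he
    have h2 := hEab e he
    have h3 := h1 e he
    have h4 : a * (e * b) = a * (b * e) := by
      calc a * (e * b) = (a * e) * b := by group
        _ = (e * a) * b := by rw [h3]
        _ = e * (a * b) := by group
        _ = (a * b) * e := h2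
        _ = a * (b * e) := by group
    exact mul_left_cancel h4
  · rintro ⟨⟨hE, hEa⟩, ⟨-, hEb⟩⟩
    refine ⟨hE, (hmemz E _).2 ?_⟩
    intro e he
    have h1 := (hmemz E _).1 hEa e he
    have h2 := (hmemz E _).1 hEb e he
    calc e * (a * b) = (e * a) * b := by group
      _ = (a * e) * b := by rw [h1]
      _ = a * (e * b) := by group
      _ = a * (b * e) := by rw [h2]
      _ = a * b * e := by group

end Cfsg.Agent.S5026
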