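import Cfsg.Statements.S5030
import Cfsg.Agent.Lib.RootSubgroups.ThreeCase

set_option autoImplicit false
open Cfsg

namespace Cfsg.Agent.S5030

/-- Let S be a set of abstract root subgroups of G and A, B, C ∈ S with ⁅A, B⁆ ∈ S and ⁅B, C⁆ ∈ S, where A and C are different and commute. For a non-identity b ∈ B put X = ⟨A, b⁻¹ C b⟩ and Y = ⟨b⁻¹ A b, C⟩ and R = ⟨A, B, C⟩. Then X and Y are either both abelian or both nilpotent of class exactly two; X and Y commute elementwise; XY is normal in R with R = (XY) B; and R is nilpotent. -/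
theorem result {G : Type*} [Group G] {S : Set (Subgroup G)} (hS : Cfsg.IsRootSubgroupSet S)
    {A B C : Subgroup G} (hA : A ∈ S) (hB : B ∈ S) (hC : C ∈ S) (hAB : ⁅A, B⁆ ∈ S) (hBC : ⁅B, C⁆ ∈ S)
    (hAC : C ∈ Cfsg.commutingPartners S A)
    {b : G} (hb : b ∈ B) (hb1 : b ≠ 1) :
    ((IsMulCommutative ↥(A ⊔ Cfsg.conjBy C b⁻¹) ∧ IsMulCommutative ↥(Cfsg.conjBy A b⁻¹ ⊔ C)) ∨
      ((¬ IsMulCommutative ↥(A ⊔ Cfsg.conjBy C b⁻¹) ∧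
          ⁅⁅A ⊔ Cfsg.conjBy C b⁻¹, A ⊔ Cfsg.conjBy C b⁻¹⁆, A ⊔ Cfsg.conjBy C b⁻¹⁆ = ⊥) ∧
        (¬ IsMulCommutative ↥(Cfsg.conjBy A b⁻¹ ⊔ C) ∧
          ⁅⁅Cfsg.conjBy A b⁻¹ ⊔ C, Cfsg.conjBy A b⁻¹ ⊔ C⁆, Cfsg.conjBy A b⁻¹ ⊔ C⁆ = ⊥))) ∧
    ⁅A ⊔ Cfsg.conjBy C b⁻¹, Cfsg.conjBy A b⁻¹ ⊔ C⁆ = ⊥ ∧
    (∀ r ∈ A ⊔ B ⊔ C, Cfsg.conjBy ((A ⊔ Cfsg.conjBy C b⁻¹) ⊔ (Cfsg.conjBy A b⁻¹ ⊔ C)) r =
      (A ⊔ Cfsg.conjBy C b⁻¹) ⊔ (Cfsg.conjBy A b⁻¹ ⊔ C)) ∧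
    ((A ⊔ Cfsg.conjBy C b⁻¹) ⊔ (Cfsg.conjBy A b⁻¹ ⊔ C)) ⊔ B = A ⊔ B ⊔ C ∧
    Group.IsNilpotent ↥(A ⊔ B ⊔ C) := by
  have c : Cfsg.Agent.Lib.RootSubgroups.ThreeCase.Ctx S A B C := ⟨hS, hA, hB, hC, hAB, hBC, hAC.2.2⟩
  have hg : b⁻¹ ∈ B := B.inv_mem hb
  have hg1 : b⁻¹ ≠ 1 := inv_ne_one.2 hb1
  refine ⟨?_, c.commXY hg, ?_, c.N_sup_B hg, c.nilpotent_R hg hg1⟩
  · have h1 := c.comm_X_iff hg hg1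
    have h2 := c.symm.comm_X_iff hg hg1
    rw [sup_comm] at h2
    have h3 := c.comm_iff
    by_cases hb : ⁅A, ⁅B, C⁆⁆ = ⊥
    · left
      exact ⟨h1.2 hb, h2.2 (h3.1 hb)⟩
    · right
      have h4 : ¬ ⁅C, ⁅B, A⁆⁆ = ⊥ := fun h => hb (h3.2 h)
      refine ⟨⟨fun h => hb (h1.1 h), c.class_X hg hg1⟩, fun h => h4 (h2.1 h), ?_⟩
      have := c.symm.class_X hg hg1
      rwa [sup_comm] at this
  · intro r hr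
    exact Cfsg.Agent.Lib.RootSubgroups.RankOne.mem_normalizer_iff_conjBy.1 (c.R_le_normalizer hg hg1 hr)

end Cfsg.Agent.S5030
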