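import Cfsg.Statements.S5035
import Cfsg.Agent.Lib.RootSubgroups.Abstract

set_option autoImplicit false
open Cfsg

open Cfsg.Agent.Lib.RootSubgroups.RankOne Cfsg.Agent.Lib.RootSubgroups.Abstract

namespace Cfsg.Agent.S5035

/-- Let S be a set of abstract root subgroups of G whose graph of rank one pairs is connected, and f a homomorphism from G onto a group H. Then either the images of the members of S form a set of abstract root subgroups of H whose graph of rank one pairs is again connected, or H equals the image of a member of S. -/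
theorem result {G H : Type*} [Group G] [Group H] {S : Set (Subgroup G)} (hS : Cfsg.IsRootSubgroupSet S)
    (hc : Cfsg.IsConnectedFamily (Cfsg.FAdj S) S) (f : G →* H) (hf : Function.Surjective f) :
    (Cfsg.IsRootSubgroupSet ((fun A : Subgroup G => A.map f) '' S) ∧
      Cfsg.IsConnectedFamily (Cfsg.FAdj ((fun A : Subgroup G => A.map f) '' S)) ((fun A : Subgroup G => A.map f) '' S)) ∨
    ∃ A ∈ S, A.map f = ⊤ := by
  have hmapconj : ∀ (K : Subgroup G) (g : G), (conjBy K g).map f = conjBy (K.map f) (f g) := by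
    intro K g
    ext y
    simp only [Subgroup.mem_map, MulEquiv.coe_toMonoidHom, MulAut.conj_apply]
    constructor
    · rintro ⟨_, ⟨k, hk, rfl⟩, rfl⟩
      exact ⟨f k, ⟨k, hk, rfl⟩, by simp [map_mul]⟩
    · rintro ⟨_, ⟨k, hk, rfl⟩, rfl⟩
      exact ⟨g * k * g⁻¹, ⟨k, hk, rfl⟩, by simp [map_mul]⟩
  by_cases hbot : ∃ A ∈ S, A.map f = ⊥
  · -- then H is trivial
    right
    obtain ⟨A, hA, hAb⟩ := hbot
    refine ⟨A, hA, ?_⟩
    -- all members have trivial image
    have hall : ∀ B ∈ S, B.map f = ⊥ := by
      intro B hB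
      have hpath := hc A hA B hB
      induction hpath with
      | refl => exact hAb
      | tail _ hadj ih =>
        obtain ⟨h1, h2, h3⟩ := hadj
        -- the next is a conjugate
        obtain ⟨x, -, hx⟩ := right_mem_unipotent h3
        rw [hx, hmapconj, ih h1]
        rw [eq_bot_iff]
        rintro _ ⟨y, hy, rfl⟩
        have hy' : y = 1 := hy
        subst hy'
        simp
    -- H is trivial
    have htriv : (⊥ : Subgroup H) = ⊤ := by
      symm
      rw [eq_bot_iff, ← MonoidHom.range_eq_top.2 hf, MonoidHom.range_eq_map, ← hS.generates]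
      rw [Subgroup.map_iSup]
      refine iSup_le ?_
      intro B
      rw [Subgroup.map_iSup]
      refine iSup_le ?_
      intro hB
      rw [hall B hB]
    rw [hAb, htriv]
  · left
    push Not at hbot
    have hcondmap : ∀ {A B : Subgroup G}, RankOneCondition A B → A.map f ≠ B.map f →
        RankOneCondition (A.map f) (B.map f) := by
      intro A B h hne x hx hx1
      obtain ⟨a, ha, rfl⟩ := hx
      have ha1 : a ≠ 1 := by
        rintro rfl
        simp at hx1
      obtain ⟨b, hb, -, he⟩ := h a ha ha1
      have hfb : f b ≠ 1 := by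
        intro hb1
        have e1 : (conjBy A b⁻¹).map f = (conjBy B a⁻¹).map f := by rw [he]
        rw [hmapconj, hmapconj, map_inv, map_inv, hb1, inv_one, conjBy_one] at e1
        apply hne
        have e2 : conjBy (A.map f) (f a) = B.map f := by
          rw [e1, conjBy_conjBy]; simp
        rw [conjBy_of_mem (Subgroup.mem_map_of_mem f ha)] at e2
        exact e2
      refine ⟨f b, ⟨b, hb, rfl⟩, hfb, ?_⟩
      rw [← map_inv, ← map_inv, ← hmapconj, ← hmapconj, he]
    have hnilmap : ∀ {A : Subgroup G}, Group.IsNilpotent A → Group.IsNilpotent (A.map f) := by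
      intro A hA
      exact Group.nilpotent_of_surjective (f.subgroupMap A) (MonoidHom.subgroupMap_surjective _ _)
    have hcommmap : ∀ A ∈ S, IsMulCommutative (A.map f) := by
      intro A hA
      refine ⟨⟨?_⟩⟩
      rintro ⟨_, ⟨x, hx, rfl⟩⟩ ⟨_, ⟨y, hy, rfl⟩⟩
      apply Subtype.ext
      change f x * f y = f y * f x
      rw [← map_mul, ← map_mul, comm_of_isMulCommutative (hS.commutative A hA) hx hy]
    have hrank : ∀ {A B : Subgroup G}, IsRankOnePair A B → A.map f ≠ B.map f →
        IsRankOnePair (A.map f) (B.map f) := by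
      intro A B h hne
      exact ⟨hne, hnilmap h.nilpotent_left, hnilmap h.nilpotent_right, hcondmap h.cond_left hne,
        hcondmap h.cond_right hne.symm⟩
    have hbotself : ∀ A ∈ S, ⁅A.map f, A.map f⁆ = ⊥ := by
      intro A hA
      apply bot_of_commute
      intro x hx y hy
      exact comm_of_isMulCommutative (hcommmap A hA) hx hy
    have hclosure : ∀ {A B : Subgroup G} {a : G}, Subgroup.closure
        ((fun b : G => a * b * a⁻¹ * b⁻¹) '' (B : Set G)) = ⁅A, B⁆ →
        Subgroup.closure ((fun b : H => f a * b * (f a)⁻¹ * b⁻¹) '' ((B.map f : Subgroup H) : Set H))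
          = ⁅A.map f, B.map f⁆ := by
      intro A B a he
      rw [← Subgroup.map_commutator, ← he, MonoidHom.map_closure]
      congr 1
      ext y
      constructor
      · rintro ⟨_, ⟨b, hb, rfl⟩, rfl⟩
        exact ⟨_, ⟨b, hb, rfl⟩, by simp [map_mul]⟩
      · rintro ⟨_, ⟨b, hb, rfl⟩, rfl⟩
        exact ⟨f b, ⟨b, hb, rfl⟩, by simp [map_mul]⟩
    have hclosure' : ∀ {A B : Subgroup G} {b : G}, Subgroup.closure
        ((fun a : G => a * b * a⁻¹ * b⁻¹) '' (A : Set G)) = ⁅A, B⁆ →
        Subgroup.closure ((fun a : H => a * f b * a⁻¹ * (f b)⁻¹) '' ((A.map f : Subgroup H) : Set H))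
          = ⁅A.map f, B.map f⁆ := by
      intro A B b he
      rw [← Subgroup.map_commutator, ← he, MonoidHom.map_closure]
      congr 1
      ext y
      constructor
      · rintro ⟨_, ⟨a, ha, rfl⟩, rfl⟩
        exact ⟨_, ⟨a, ha, rfl⟩, by simp [map_mul]⟩
      · rintro ⟨_, ⟨a, ha, rfl⟩, rfl⟩
        exact ⟨f a, ⟨a, ha, rfl⟩, by simp [map_mul]⟩
    refine ⟨⟨?_, ?_, ?_, ?_, ?_⟩, ?_⟩
    · rintro _ ⟨A, hA, rfl⟩
      exact hcommmap A hA
    · rintro _ ⟨A, hA, rfl⟩
      exact hbot A hA
    · rw [eq_top_iff, ← MonoidHom.range_eq_top.2 hf, MonoidHom.range_eq_map, ← hS.generates]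
      rw [Subgroup.map_iSup]
      refine iSup_le ?_
      intro B
      rw [Subgroup.map_iSup]
      refine iSup_le ?_
      intro hB
      exact le_iSup₂_of_le (B.map f) ⟨B, hB, rfl⟩ le_rfl
    · rintro _ ⟨A, hA, rfl⟩ g
      obtain ⟨g', rfl⟩ := hf g
      rw [← hmapconj]
      exact ⟨_, hS.conj_mem A hA g', rfl⟩
    · rintro _ ⟨A, hA, rfl⟩ _ ⟨B, hB, rfl⟩
      rcases hS.pair A hA B hB with h1 | h1 | h1
      · left
        rw [← Subgroup.map_commutator, h1, Subgroup.map_bot]
      · by_cases he : A.map f = B.map f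
        · left
          dsimp only
          rw [← he]
          exact hbotself A hA
        · right; left
          exact hrank h1 he
      · right; right
        obtain ⟨h2, h3, h4, h5⟩ := h1
        refine ⟨?_, ?_, ?_, ?_⟩
        · rw [← Subgroup.map_commutator]
          exact ⟨_, h2, rfl⟩
        · intro c hc x hx
          rw [← Subgroup.map_commutator] at hc
          rw [← Subgroup.map_sup] at hx
          obtain ⟨c₀, hc₀, rfl⟩ := hc
          obtain ⟨x₀, hx₀, rfl⟩ := hx
          rw [← map_mul, ← map_mul, h3 c₀ hc₀ x₀ hx₀]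
        · rintro _ ⟨a, ha, rfl⟩ ha1
          have ha1' : a ≠ 1 := by
            rintro rfl
            simp at ha1
          exact hclosure (h4 a ha ha1')
        · rintro _ ⟨b, hb, rfl⟩ hb1
          have hb1' : b ≠ 1 := by
            rintro rfl
            simp at hb1
          exact hclosure' (h5 b hb hb1')
    · rintro _ ⟨A, hA, rfl⟩ _ ⟨B, hB, rfl⟩
      have hpath := hc A hA B hB
      induction hpath with
      | refl => exact Relation.ReflTransGen.refl
      | @tail B₁ B₂ _ hadj ih =>
        obtain ⟨h1, h2, h3⟩ := hadj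
        have ih' := ih h1
        by_cases he : Subgroup.map f B₁ = Subgroup.map f B₂
        · dsimp only at ih' ⊢
          rw [← he]
          exact ih'
        · exact ih'.tail ⟨⟨_, h1, rfl⟩, ⟨_, h2, rfl⟩, hrank h3 he⟩

end Cfsg.Agent.S5035
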