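import Cfsg.Statements.S5036
import Cfsg.Agent.Lib.RootSubgroups.SL2Module

set_option autoImplicit false
open Cfsg

namespace Cfsg.Agent.S5036

/-- Let S be a set of abstract root subgroups of G, A, B ∈ S with C = ⁅A, B⁆ ∈ S, and D ∈ S with ⁅D, C⁆ = A. Put X = ⟨B, D⟩ and N = AC. Then B, D form a rank one pair; the conjugates of A under X are the conjugates of C under X, namely the conjugates of A by elements of B together with C, equally the conjugates of C by elements of D together with A, and they partition N; and the centralizer of N in X is central in X. -/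
theorem result {G : Type*} [Group G] {S : Set (Subgroup G)} (hS : Cfsg.IsRootSubgroupSet S)
    {A B D : Subgroup G} (hA : A ∈ S) (hB : B ∈ S) (hC : ⁅A, B⁆ ∈ S) (hD : D ∈ S) (hDC : ⁅D, ⁅A, B⁆⁆ = A) :
    Cfsg.IsRankOnePair B D ∧
    {E | ∃ x ∈ B ⊔ D, E = Cfsg.conjBy A x} = {E | ∃ x ∈ B ⊔ D, E = Cfsg.conjBy ⁅A, B⁆ x} ∧
    {E | ∃ x ∈ B ⊔ D, E = Cfsg.conjBy A x} = (fun b : G => Cfsg.conjBy A b) '' (B : Set G) ∪ {⁅A, B⁆} ∧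
    {E | ∃ x ∈ B ⊔ D, E = Cfsg.conjBy A x} = (fun d : G => Cfsg.conjBy ⁅A, B⁆ d) '' (D : Set G) ∪ {A} ∧
    Cfsg.IsSubgroupPartition (A ⊔ ⁅A, B⁆) {E | ∃ x ∈ B ⊔ D, E = Cfsg.conjBy A x} ∧
    ∀ x ∈ (B ⊔ D) ⊓ Subgroup.centralizer ((A ⊔ ⁅A, B⁆ : Subgroup G) : Set G), ∀ y ∈ B ⊔ D, x * y = y * x := by
  have c : Cfsg.Agent.Lib.RootSubgroups.SL2Module.Ctx S A B ⁅A, B⁆ D := ⟨hS, hA, hB, hC, hD, rfl, hDC⟩
  have h1 : {E | ∃ x ∈ B ⊔ D, E = Cfsg.conjBy A x} ⊆ (fun b : G => Cfsg.conjBy A b) '' (B : Set G) ∪ {⁅A, B⁆} := by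
    rintro _ ⟨x, hx, rfl⟩
    exact c.T1_sub_I1 hx
  have h2 : (fun b : G => Cfsg.conjBy A b) '' (B : Set G) ∪ {⁅A, B⁆} ⊆ {E | ∃ x ∈ B ⊔ D, E = Cfsg.conjBy A x} :=
    fun E hE => c.I1_sub_T1 hE
  have h3 : {E | ∃ x ∈ B ⊔ D, E = Cfsg.conjBy ⁅A, B⁆ x} ⊆ (fun b : G => Cfsg.conjBy A b) '' (B : Set G) ∪ {⁅A, B⁆} := by
    rintro _ ⟨x, hx, rfl⟩
    exact c.T2_sub_I1 hx
  have h4 : (fun b : G => Cfsg.conjBy A b) '' (B : Set G) ∪ {⁅A, B⁆} ⊆ {E | ∃ x ∈ B ⊔ D, E = Cfsg.conjBy ⁅A, B⁆ x} :=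
    fun E hE => c.I1_sub_T2 hE
  have h5 : {E | ∃ x ∈ B ⊔ D, E = Cfsg.conjBy A x} ⊆ (fun d : G => Cfsg.conjBy ⁅A, B⁆ d) '' (D : Set G) ∪ {A} := by
    rintro _ ⟨x, hx, rfl⟩
    exact c.T1_sub_I2 hx
  have h6 : (fun d : G => Cfsg.conjBy ⁅A, B⁆ d) '' (D : Set G) ∪ {A} ⊆ {E | ∃ x ∈ B ⊔ D, E = Cfsg.conjBy A x} :=
    fun E hE => c.I2_sub_T1 hE
  exact ⟨c.rankOne_BD, Set.Subset.antisymm (h1.trans h4) (h3.trans h2), Set.Subset.antisymm h1 h2,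
    Set.Subset.antisymm h5 h6, c.partition, fun x hx y hy => c.centralizer_central hx hy⟩

end Cfsg.Agent.S5036
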