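import Cfsg.Statements.S5045
import Cfsg.Agent.Lib.RootSubgroups.RootInv


set_option autoImplicit false
open Cfsg

namespace Cfsg.Agent.S5045

/-- Let G be a finite group generated by a set D of root involutions, and W the set of members of D whose product with every other member of D has even order or is trivial (the isolated vertices of the odd-order-product graph on D). Then W is conjugation-invariant and generates a normal 2-subgroup of G meeting D in exactly W; the commutator of two members of D lying in different connected components of that graph, each with more than one member, lies in the subgroup generated by W; and for a in such a component, every member of D commuting with a, different from a and with product with a in D, lies in that component or in W. -/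
theorem result {G : Type*} [Group G] [Finite G] {D : Set G} (hD : Cfsg.IsRootInvolutionSet D) :
    (∀ w ∈ {w | Cfsg.IsIsolatedElem (Cfsg.OddAdj D) D w}, ∀ g : G, g * w * g⁻¹ ∈ {w | Cfsg.IsIsolatedElem (Cfsg.OddAdj D) D w}) ∧
    (Subgroup.closure {w | Cfsg.IsIsolatedElem (Cfsg.OddAdj D) D w}).Normal ∧
    IsPGroup 2 ↥(Subgroup.closure {w | Cfsg.IsIsolatedElem (Cfsg.OddAdj D) D w}) ∧
    (Subgroup.closure {w | Cfsg.IsIsolatedElem (Cfsg.OddAdj D) D w} : Set G) ∩ D = {w | Cfsg.IsIsolatedElem (Cfsg.OddAdj D) D w} ∧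
    (∀ a ∈ D, ∀ b ∈ D, (∃ a' ∈ Cfsg.elemComponentOf (Cfsg.OddAdj D) D a, a' ≠ a) →
      (∃ b' ∈ Cfsg.elemComponentOf (Cfsg.OddAdj D) D b, b' ≠ b) →
      Cfsg.elemComponentOf (Cfsg.OddAdj D) D a ≠ Cfsg.elemComponentOf (Cfsg.OddAdj D) D b →
        a * b * a⁻¹ * b⁻¹ ∈ Subgroup.closure {w | Cfsg.IsIsolatedElem (Cfsg.OddAdj D) D w}) ∧
    (∀ a ∈ D, (∃ a' ∈ Cfsg.elemComponentOf (Cfsg.OddAdj D) D a, a' ≠ a) →
      Cfsg.productPartners D a ⊆ Cfsg.elemComponentOf (Cfsg.OddAdj D) D a ∪ {w | Cfsg.IsIsolatedElem (Cfsg.OddAdj D) D w}) := by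
  classical
  have hconj : ∀ w ∈ Cfsg.Agent.Lib.RootSubgroups.RootInv.Isol D, ∀ g : G, g * w * g⁻¹ ∈ Cfsg.Agent.Lib.RootSubgroups.RootInv.Isol D := fun w hw g => Cfsg.Agent.Lib.RootSubgroups.RootInv.isol_conj hD hw g
  have hN : (Subgroup.closure (Cfsg.Agent.Lib.RootSubgroups.RootInv.Isol D)).Normal := Cfsg.Agent.Lib.RootSubgroups.RootInv.closure_normal_of_conj hconj
  have hQ : IsPGroup 2 ↥(Subgroup.closure (Cfsg.Agent.Lib.RootSubgroups.RootInv.Isol D)) := by
    have hle : Subgroup.closure (Cfsg.Agent.Lib.RootSubgroups.RootInv.Isol D) ≤ Cfsg.pCore 2 G := by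
      rw [Subgroup.closure_le]
      intro w hw
      exact Cfsg.Agent.Lib.RootSubgroups.RootInv.isol_mem_pCore hD hw
    exact (Cfsg.Agent.Lib.Core.Basic.pCore_isPGroup (p := 2)).to_le hle
  -- the last part
  have hlast : ∀ a ∈ D, (∃ a' ∈ Cfsg.elemComponentOf (Cfsg.OddAdj D) D a, a' ≠ a) →
      Cfsg.productPartners D a ⊆ Cfsg.elemComponentOf (Cfsg.OddAdj D) D a ∪ Cfsg.Agent.Lib.RootSubgroups.RootInv.Isol D := by
    rintro a ha ⟨a', ⟨-, h1⟩, hne⟩ e ⟨⟨he, hea, hne'⟩, hprod⟩
    by_cases hw : e ∈ Cfsg.Agent.Lib.RootSubgroups.RootInv.Isol D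
    · exact Or.inr hw
    left
    obtain ⟨x, hx⟩ := Cfsg.Agent.Lib.RootSubgroups.RootInv.exists_partner_of_not_isol hD he hw
    have hz : ∃ z, Cfsg.OddAdj D a z := by
      rcases Relation.ReflTransGen.cases_head h1 with h2 | ⟨z, hz, -⟩
      · exact absurd h2.symm hne
      · exact ⟨z, hz⟩
    obtain ⟨z, hz⟩ := hz
    have hf : a * e ∈ D := by rw [← hea]; exact hprod
    exact ⟨he, Cfsg.Agent.Lib.RootSubgroups.RootInv.line_conn hD ha he hea.symm hf hx hz⟩
  refine ⟨hconj, hN, hQ, ?_, ?_, hlast⟩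
  · ext d
    constructor
    · rintro ⟨hdQ, hd⟩
      refine ⟨hd, fun b => ⟨fun h => ?_, fun h => ?_⟩⟩
      · exact Cfsg.Agent.Lib.RootSubgroups.RootInv.no_odd_of_mem_normal hD hN hQ hd hdQ h
      · exact Cfsg.Agent.Lib.RootSubgroups.RootInv.no_odd_of_mem_normal hD hN hQ hd hdQ
          (Cfsg.Agent.Lib.RootSubgroups.RootInv.oddAdj_symm hD h)
    · intro hw
      exact ⟨Subgroup.subset_closure hw, hw.1⟩
  · intro a ha b hb hna hnb hne
    have haa := Cfsg.Agent.Lib.RootSubgroups.RootInv.sq hD ha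
    have hbb := Cfsg.Agent.Lib.RootSubgroups.RootInv.sq hD hb
    have e0 : a * b * a⁻¹ * b⁻¹ = (a * b) ^ 2 := by
      rw [Cfsg.Agent.Lib.RootSubgroups.RootInv.inv_eq hD ha, Cfsg.Agent.Lib.RootSubgroups.RootInv.inv_eq hD hb, pow_two]
      group
    rw [e0]
    rcases Cfsg.Agent.Lib.RootSubgroups.RootInv.trichotomy hD ha hb with h | ⟨hne', ho⟩ | ⟨h4, hc⟩
    · rw [Cfsg.Agent.Lib.RootSubgroups.RootInv.sq_of_comm haa hbb h]
      exact Subgroup.one_mem _
    · exfalso
      apply hne
      exact Cfsg.Agent.Lib.RootSubgroups.RootInv.comp_eq hD (Relation.ReflTransGen.single ⟨ha, hb, hne', ho⟩)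
    · set c := (a * b) ^ 2 with hcdef
      have hca : a * c = c * a := Cfsg.Agent.Lib.RootSubgroups.RootInv.four_comm_left haa hbb h4
      have hcb : b * c = c * b := Cfsg.Agent.Lib.RootSubgroups.RootInv.four_comm_right haa hbb h4
      have hnot : a * b ≠ b * a := Cfsg.Agent.Lib.RootSubgroups.RootInv.four_not_comm haa hbb h4
      have hcXa : c ∈ Cfsg.productPartners D a := by
        refine ⟨⟨hc, hca.symm, ?_⟩, ?_⟩
        · intro h
          rw [h] at hcb
          exact hnot hcb.symm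
        · rw [← hca, Cfsg.Agent.Lib.RootSubgroups.RootInv.four_left haa hbb h4]
          exact Cfsg.Agent.Lib.RootSubgroups.RootInv.conj_mem' hD ha hb
      have hcXb : c ∈ Cfsg.productPartners D b := by
        refine ⟨⟨hc, hcb.symm, ?_⟩, ?_⟩
        · intro h
          rw [h] at hca
          exact hnot hca
        · rw [← hcb, Cfsg.Agent.Lib.RootSubgroups.RootInv.four_right haa hbb h4]
          exact Cfsg.Agent.Lib.RootSubgroups.RootInv.conj_mem' hD hb ha
      rcases hlast a ha hna hcXa with h1 | h1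
      · rcases hlast b hb hnb hcXb with h2 | h2
        · exfalso
          apply hne
          rw [Cfsg.Agent.Lib.RootSubgroups.RootInv.comp_eq hD h1.2, Cfsg.Agent.Lib.RootSubgroups.RootInv.comp_eq hD h2.2]
        · exact Subgroup.subset_closure h2
      · exact Subgroup.subset_closure h1

end Cfsg.Agent.S5045
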