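import Cfsg.Statements.S5049
import Cfsg.Agent.Lib.RootSubgroups.RootInv

set_option autoImplicit false
open Cfsg

namespace Cfsg.Agent.S5049

/-- Let G be a finite group generated by a set D of odd transpositions (root involutions with no product of order 4), Q = O₂(G), and for a ∈ D let Q_a be the commutator subgroup of Q with a. Then every member of D commuting with a centralizes Q_a; and for b ∈ D with ab of odd order greater than 1, the centralizer of ab in Q is the intersection of the centralizers of a and b in Q. -/
theorem result {G : Type*} [Group G] [Finite G] {D : Set G} (hD : Cfsg.IsOddTranspositionSet D) {a : G} (ha : a ∈ D) :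
    (∀ e ∈ Cfsg.commutingMembers D a, ∀ q ∈ ⁅Cfsg.pCore 2 G, Subgroup.zpowers a⁆, e * q = q * e) ∧
    (∀ b ∈ Cfsg.oddPartners D a,
      Cfsg.pCore 2 G ⊓ Subgroup.centralizer {a * b} = Cfsg.pCore 2 G ⊓ Subgroup.centralizer {a} ⊓ Subgroup.centralizer {b}) := by
  have hR := hD.1
  have haa := Cfsg.Agent.Lib.RootSubgroups.RootInv.sq hR ha
  have hQp : IsPGroup 2 (Cfsg.pCore 2 G) := Cfsg.Agent.Lib.Core.Basic.pCore_isPGroup
  have hQn : (Cfsg.pCore 2 G).Normal := inferInstance
  constructor
  · rintro e ⟨he, hea⟩ q hq
    have hee := Cfsg.Agent.Lib.RootSubgroups.RootInv.sq hR he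
    suffices h : ⁅Cfsg.pCore 2 G, Subgroup.zpowers a⁆ ≤ Subgroup.centralizer {e} by
      have := h hq
      rw [Subgroup.mem_centralizer_singleton_iff] at this
      exact this.symm
    rw [Subgroup.commutator_le]
    intro q hq g hg
    have hg' : g = 1 ∨ g = a := by
      obtain ⟨n, rfl⟩ := Subgroup.mem_zpowers_iff.1 hg
      have ha2 : a ^ (2 : ℤ) = 1 := by
        rw [zpow_two]; exact haa
      rcases Int.even_or_odd' n with ⟨k, rfl | rfl⟩
      · left
        rw [zpow_mul, ha2, one_zpow]
      · right
        rw [zpow_add, zpow_mul, ha2, one_zpow, one_mul, zpow_one]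
    rcases hg' with h1 | h1
    · simp [commutatorElement_def, h1]
    · rw [h1, commutatorElement_def, Subgroup.mem_centralizer_singleton_iff]
      set a' := q * a * q⁻¹ with ha'
      have ha'D : a' ∈ D := hR.conj_mem a ha q
      have hs : (e * a') ^ 2 ∈ Cfsg.pCore 2 G := by
        rw [← QuotientGroup.eq_one_iff]
        have hq1 : ((q : G) : G ⧸ Cfsg.pCore 2 G) = 1 := (QuotientGroup.eq_one_iff q).2 hq
        have e1 : ((a' : G) : G ⧸ Cfsg.pCore 2 G) = (a : G ⧸ Cfsg.pCore 2 G) := by
          rw [ha']
          simp [hq1]
        have e2 : (((e * a') ^ 2 : G) : G ⧸ Cfsg.pCore 2 G) = ((((e * a) ^ 2 : G)) : G ⧸ Cfsg.pCore 2 G) := by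
          simp only [QuotientGroup.mk_pow, QuotientGroup.mk_mul, e1]
        rw [e2, Cfsg.Agent.Lib.RootSubgroups.RootInv.sq_of_comm hee haa hea]
        rfl
      have h1 := Cfsg.Agent.Lib.RootSubgroups.RootInv.comm_of_sq_mem hD hQp he ha'D hs
      rw [inv_eq_of_mul_eq_one_left haa]
      calc a' * a * e = a' * (a * e) := by group
        _ = a' * (e * a) := by rw [hea]
        _ = (a' * e) * a := by group
        _ = (e * a') * a := by rw [h1]
        _ = e * (a' * a) := by group
  · rintro b ⟨hb, hne, hodd⟩
    have hbb := Cfsg.Agent.Lib.RootSubgroups.RootInv.sq hR hb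
    ext q
    simp only [Subgroup.mem_inf, Subgroup.mem_centralizer_singleton_iff]
    constructor
    · rintro ⟨hq, hc⟩
      set a' := q * a * q⁻¹ with ha'
      set b' := q * b * q⁻¹ with hb'
      have ha'D : a' ∈ D := hR.conj_mem a ha q
      have hb'D : b' ∈ D := hR.conj_mem b hb q
      have ha'a' := Cfsg.Agent.Lib.RootSubgroups.RootInv.sq hR ha'D
      have hb'b' := Cfsg.Agent.Lib.RootSubgroups.RootInv.sq hR hb'D
      have hab : a' * b' = a * b := by
        have : a' * b' = q * (a * b) * q⁻¹ := by rw [ha', hb']; group
        rw [this, hc]; group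
      have hmem : ∀ {c : G}, c * c = 1 → c * (q * c * q⁻¹) ∈ Cfsg.pCore 2 G := by
        intro c hcc
        have e1 : c * (q * c * q⁻¹) = (c * q * c⁻¹) * q⁻¹ := by
          rw [inv_eq_of_mul_eq_one_left hcc]; group
        rw [e1]
        exact Subgroup.mul_mem _ (hQn.conj_mem q hq c) (Subgroup.inv_mem _ hq)
      have hcomm : ∀ {c : G}, c ∈ D → c * (q * c * q⁻¹) = (q * c * q⁻¹) * c := by
        intro c hc
        apply Cfsg.Agent.Lib.RootSubgroups.RootInv.comm_of_sq_mem hD hQp hc (hR.conj_mem c hc q)
        exact Subgroup.pow_mem _ (hmem (Cfsg.Agent.Lib.RootSubgroups.RootInv.sq hR hc)) 2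
      set t := a * a' with ht
      have htb : t = b * b' := by
        have : a * a' * (b' * b) = 1 := by
          calc a * a' * (b' * b) = a * (a' * b') * b := by group
            _ = a * (a * b) * b := by rw [hab]
            _ = 1 := by
              rw [Cfsg.Agent.Lib.RootSubgroups.RootInv.cancel_left haa]
              exact hbb
        have h2 : t = (b' * b)⁻¹ := eq_inv_of_mul_eq_one_left this
        rw [h2, Cfsg.Agent.Lib.RootSubgroups.RootInv.mul_inv_swap hb'b' hbb]
      have hta : t * a = a * t := by
        have h1 := hcomm ha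
        rw [ht]
        calc a * a' * a = a * (a' * a) := by group
          _ = a * (a * a') := by rw [← h1]
      have htt : t * t = 1 := by
        rw [ht]
        calc a * a' * (a * a') = a * (a' * a) * a' := by group
          _ = a * (a * a') * a' := by rw [← hcomm ha]
          _ = 1 := by
              rw [Cfsg.Agent.Lib.RootSubgroups.RootInv.cancel_left haa]
              exact ha'a'
      have htbc : t * b = b * t := by
        have h1 := hcomm hb
        rw [htb]
        calc b * b' * b = b * (b' * b) := by group
          _ = b * (b * b') := by rw [← h1]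
      have ha't : a' = a * t := by
        rw [ht, Cfsg.Agent.Lib.RootSubgroups.RootInv.cancel_left haa]
      have hr : t * (a * b) = (a * b) * t := by
        calc t * (a * b) = (t * a) * b := by group
          _ = (a * t) * b := by rw [hta]
          _ = a * (t * b) := by group
          _ = a * (b * t) := by rw [htbc]
          _ = a * b * t := by group
      have ht1 : t = 1 := by
        by_contra ht1
        refine Cfsg.Agent.Lib.RootSubgroups.RootInv.no_two_odd hR ha'D hb (t := t) (r := a * b) ?_ htt ht1 hr hodd
          (Cfsg.Agent.Lib.RootSubgroups.RootInv.mul_ne_one_of_ne hbb hne.symm)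
        rw [ha't, hr]
        calc a * t * b = a * (t * b) := by group
          _ = a * (b * t) := by rw [htbc]
          _ = a * b * t := by group
      have h1 : a' = a := by rw [ha't, ht1, mul_one]
      have h2 : b' = b := by
        rw [h1] at hab
        exact mul_left_cancel hab
      refine ⟨⟨hq, ?_⟩, ?_⟩
      · rw [ha'] at h1
        calc q * a = q * a * q⁻¹ * q := by group
          _ = a * q := by rw [h1]
      · rw [hb'] at h2
        calc q * b = q * b * q⁻¹ * q := by group
          _ = b * q := by rw [h2]
    · rintro ⟨⟨hq, h1⟩, h2⟩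
      refine ⟨hq, ?_⟩
      calc q * (a * b) = (q * a) * b := by group
        _ = (a * q) * b := by rw [h1]
        _ = a * (q * b) := by group
        _ = a * (b * q) := by rw [h2]
        _ = a * b * q := by group

end Cfsg.Agent.S5049
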