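-- Statement S5050: proved in `Cfsg.Agent.Lib.OddTrans.Main`.
import Cfsg.Statements.S5050
import Cfsg.Agent.Lib.OddTrans.Main

set_option autoImplicit false
open Cfsg

namespace Cfsg.Agent.S5050

/-- Let G be a finite group generated by a class D of odd transpositions whose commuting graph is connected, with some product of two different commuting members again in D. Then for every d ∈ D and every x ∈ D with dx of odd order greater than 1, some member of D commutes with both d and x. -/
theorem result {G : Type*} [Group G] [Finite G] {D : Set G} (hD : Cfsg.IsOddTranspositionSet D) (hcl : Cfsg.IsRootInvolutionClass D)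
    (hc : Cfsg.IsConnectedSet (Cfsg.CommAdj D) D) (hDD : (D ∩ Cfsg.commutingProducts D).Nonempty)
    {d x : G} (hd : d ∈ D) (hx : x ∈ Cfsg.oddPartners D d) : ∃ e ∈ D, e * d = d * e ∧ e * x = x * e := by
  have hOT : Cfsg.Agent.OddTrans.OT D :=
    { ne_one := by
        intro g hg h1
        have := hD.1.orderOf_eq g hg
        rw [h1, orderOf_one] at this
        omega
      inv := by
        intro g hg
        have := hD.1.orderOf_eq g hg
        rw [← sq, ← this, pow_orderOf_eq_one]
      conj := fun g hg k => hD.1.conj_mem g hg k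
      pair := by
        intro a ha b hb
        rcases hD.1.pair a ha b hb with h | h | ⟨h, _⟩
        · exact Or.inl h
        · exact Or.inr h
        · exact absurd h (hD.2 a ha b hb) }
  have htw : Cfsg.Agent.OddTrans.HasTwins D := by
    obtain ⟨y, hyD, a₀, ha₀, b₀, hb₀, hcomm, hne1, rfl⟩ := hDD
    intro g hg
    obtain ⟨k, rfl⟩ := hcl.2.2 a₀ ha₀ g hg
    refine ⟨k * b₀ * k⁻¹, hD.1.conj_mem b₀ hb₀ k, Cfsg.Agent.OddTrans.comm_cj k hcomm, ?_, ?_⟩
    · intro h2
      have h3 : a₀ = b₀ := by
        have h4 : k * a₀ = k * b₀ := mul_right_cancel h2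
        exact mul_left_cancel h4
      apply hne1
      rw [← h3]
      exact hOT.inv a₀ ha₀
    · have h5 : k * a₀ * k⁻¹ * (k * b₀ * k⁻¹) = k * (a₀ * b₀) * k⁻¹ := by group
      rw [h5]
      exact hD.1.conj_mem _ hyD k
  have key : ∀ v, Relation.ReflTransGen (Cfsg.CommAdj D) d v →
      v ∈ D ∧ ∃ c ∈ D, Commute c d ∧ Commute c v := by
    intro v hv
    induction hv with
    | refl => exact ⟨hd, d, hd, Commute.refl d, Commute.refl d⟩
    | tail _ hbc ih =>
      obtain ⟨hvD, c, hcD, h1, h2⟩ := ih
      obtain ⟨_, hv', _, hcomm⟩ := hbc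
      refine ⟨hv', ?_⟩
      by_contra hcon
      refine Cfsg.Agent.OddTrans.no_far hOT htw hd hv' hcD hvD h1 h2 hcomm ?_
      intro c' hc' h3 h4
      exact hcon ⟨c', hc', h3, h4⟩
  obtain ⟨_, c, hcD, h1, h2⟩ := key x (hc d hd x hx.1)
  exact ⟨c, hcD, h1, h2⟩

end Cfsg.Agent.S5050
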