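import Cfsg.Statements.S5057

set_option autoImplicit false
open Cfsg

namespace Cfsg.Agent.S5057

open Equiv Equiv.Perm

set_option maxRecDepth 100000 in
lemma A6_pow : ∀ g : Perm (Fin 6), sign g = 1 → g ^ 1 = 1 ∨ g ^ 2 = 1 ∨ g ^ 3 = 1 ∨ g ^ 4 = 1 ∨ g ^ 5 = 1 := by
  decide +kernel

set_option maxRecDepth 100000 in
lemma A6_ct : ∀ g : Perm (Fin 6), sign g = 1 → g ^ 2 = 1 → g ≠ 1 → g.cycleType = {2, 2} := by
  decide +kernel

lemma order_le (g : ↥(alternatingGroup (Fin 6))) : orderOf g ≤ 5 := by
  have hg : sign (g : Perm (Fin 6)) = 1 := g.2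
  have h : g ^ 1 = 1 ∨ g ^ 2 = 1 ∨ g ^ 3 = 1 ∨ g ^ 4 = 1 ∨ g ^ 5 = 1 := by
    rcases A6_pow g hg with h | h | h | h | h
    · left; exact Subtype.ext h
    · right; left; exact Subtype.ext h
    · right; right; left; exact Subtype.ext h
    · right; right; right; left; exact Subtype.ext h
    · right; right; right; right; exact Subtype.ext h
  rcases h with h | h | h | h | h
  · exact (orderOf_le_of_pow_eq_one (by norm_num) h).trans (by norm_num)
  · exact (orderOf_le_of_pow_eq_one (by norm_num) h).trans (by norm_num)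
  · exact (orderOf_le_of_pow_eq_one (by norm_num) h).trans (by norm_num)
  · exact (orderOf_le_of_pow_eq_one (by norm_num) h).trans (by norm_num)
  · exact (orderOf_le_of_pow_eq_one (by norm_num) h).trans (by norm_num)

lemma ct_of_order_two {g : ↥(alternatingGroup (Fin 6))} (h : orderOf g = 2) :
    (g : Perm (Fin 6)).cycleType = {2, 2} := by
  apply A6_ct _ g.2
  · have := pow_orderOf_eq_one g
    rw [h] at this
    exact congrArg Subtype.val this
  · intro h1
    have : g = 1 := Subtype.ext h1
    rw [this, orderOf_one] at h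
    omega

/-- The involutions of the alternating group of degree 6 form a class of root involutions (a single conjugacy class of involutions generating the group, any two of which commute, have product of odd order, or have product of order 4 whose square is again an involution of the class), and the product of any two of them has order at most 5. -/
theorem result :
    Cfsg.IsRootInvolutionClass {g : ↥(alternatingGroup (Fin 6)) | orderOf g = 2} ∧
    ∀ d ∈ {g : ↥(alternatingGroup (Fin 6)) | orderOf g = 2}, ∀ e ∈ {g : ↥(alternatingGroup (Fin 6)) | orderOf g = 2},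
      orderOf (d * e) ≤ 5 := by
  have hpair : ∀ a : ↥(alternatingGroup (Fin 6)), orderOf a = 2 → ∀ b : ↥(alternatingGroup (Fin 6)), orderOf b = 2 →
      a * b = b * a ∨ Odd (orderOf (a * b)) ∨
        (orderOf (a * b) = 4 ∧ (a * b) ^ 2 ∈ {g : ↥(alternatingGroup (Fin 6)) | orderOf g = 2}) := by
    intro a ha b hb
    have ha' : a ^ 2 = 1 := by rw [← ha]; exact pow_orderOf_eq_one a
    have hb' : b ^ 2 = 1 := by rw [← hb]; exact pow_orderOf_eq_one b
    have ha'' : a⁻¹ = a := by
      rw [inv_eq_iff_mul_eq_one, ← sq, ha']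
    have hb'' : b⁻¹ = b := by
      rw [inv_eq_iff_mul_eq_one, ← sq, hb']
    have hle := order_le (a * b)
    have hpos : 0 < orderOf (a * b) := orderOf_pos _
    interval_cases h : orderOf (a * b)
    · right; left; exact odd_one
    · left
      have h2 : (a * b) ^ 2 = 1 := by rw [← h]; exact pow_orderOf_eq_one _
      have h3 : a * b * (a * b) = 1 := by rw [← sq, h2]
      have h4 := eq_inv_of_mul_eq_one_left h3
      rw [mul_inv_rev, ha'', hb''] at h4
      exact h4
    · right; left; decide
    · right; right
      refine ⟨rfl, ?_⟩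
      show orderOf ((a * b) ^ 2) = 2
      rw [orderOf_pow, h]
      norm_num
    · right; left; decide
  refine ⟨⟨⟨fun d hd => hd, ?_, ?_, ?_⟩, ?_, ?_⟩, ?_⟩
  · rw [eq_top_iff, ← alternatingGroup.closure_cycleType_eq_two_two_eq_top (α := Fin 6) (by simp)]
    apply Subgroup.closure_mono
    intro g hg
    show orderOf g = 2
    have h1 : orderOf (g : Perm (Fin 6)) = 2 := by
      have hg' : (g : Perm (Fin 6)).cycleType = {2, 2} := hg
      rw [← lcm_cycleType, hg']
      rfl
    rwa [← Subgroup.orderOf_coe]
  · intro d hd g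
    show orderOf (g * d * g⁻¹) = 2
    have := MulEquiv.orderOf_eq (MulAut.conj g) d
    rw [MulAut.conj_apply] at this
    rw [this]
    exact hd
  · exact fun a ha b hb => hpair a ha b hb
  · refine ⟨⟨swap 0 1 * swap 2 3, by rw [mem_alternatingGroup]; decide⟩, ?_⟩
    show orderOf _ = 2
    haveI : Fact (Nat.Prime 2) := ⟨Nat.prime_two⟩
    apply orderOf_eq_prime
    · apply Subtype.ext
      show (swap (0 : Fin 6) 1 * swap 2 3) ^ 2 = 1
      decide
    · intro h
      have h1 : (swap (0 : Fin 6) 1 * swap 2 3) = 1 := congrArg Subtype.val h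
      revert h1
      decide
  · intro a ha b hb
    have ha' : (a : Perm (Fin 6)).cycleType = {2, 2} := ct_of_order_two ha
    have hb' : (b : Perm (Fin 6)).cycleType = {2, 2} := ct_of_order_two hb
    have hc : IsConj (a : Perm (Fin 6)) (b : Perm (Fin 6)) :=
      isConj_iff_cycleType_eq.2 (ha'.trans hb'.symm)
    have hs : (a : Perm (Fin 6)).support.card = 4 := by
      rw [← sum_cycleType, ha']
      rfl
    have hconj : IsConj a b := alternatingGroup.isConj_of hc (by rw [hs]; simp)
    obtain ⟨c, hc⟩ := isConj_iff.1 hconj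
    exact ⟨c, hc.symm⟩
  · intro d _ e _
    exact order_le _

end Cfsg.Agent.S5057
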