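import Cfsg.Statements.S5059
import Cfsg.Agent.Lib.RootSubgroups.Quadratic

set_option autoImplicit false
universe u
open Cfsg

namespace Cfsg.Agent.S5059

open Cfsg.Agent.Lib.RootSubgroups.Quadratic

/-- Let k be a field of characteristic not 2 with k not of order 3, M a finite-dimensional k-vector space and G ≤ GL(M) such that (G, M) is a quadratic pair (M irreducible for G, and G generated by its quadratically acting elements σ whose scalar family 1 + c(σ − 1), c ∈ k, lies in G). Write 𝒬_d for the quadratic elements of G of minimal commutator rank, E(σ) for the subgroup generated by the members of 𝒬_d with the same fixed space and commutator space as σ, and Σ for the set of these subgroups. Then for σ ∈ 𝒬_d the subgroup E(σ) consists exactly of those members together with the identity, it is abelian, and if k has prime characteristic p every element of E(σ) has order dividing p. -/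
theorem result {k : Type u} [Field k] (hk2 : ringChar k ≠ 2) (hk3 : Nat.card k ≠ 3)
    {M : Type u} [AddCommGroup M] [Module k M] [FiniteDimensional k M]
    {G : Subgroup (LinearMap.GeneralLinearGroup k M)} (hG : Cfsg.IsQuadraticPair G)
    {σ : LinearMap.GeneralLinearGroup k M} (hσ : σ ∈ Cfsg.minimalQuadraticElements G) :
    (Cfsg.sameActionSubgroup G σ : Set (LinearMap.GeneralLinearGroup k M)) = Cfsg.sameActionClass G σ ∪ {1} ∧
    IsMulCommutative ↥(Cfsg.sameActionSubgroup G σ) ∧
    (∀ p : ℕ, p.Prime → ringChar k = p → ∀ x ∈ Cfsg.sameActionSubgroup G σ, x ^ p = 1) := by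
  classical
  have hcoe := sameActionSubgroup_coe hσ
  refine ⟨hcoe, ⟨⟨?_⟩⟩, ?_⟩
  · rintro ⟨a, ha⟩ ⟨b, hb⟩
    apply Subtype.ext
    have ha' : a ∈ (Cfsg.sameActionSubgroup G σ : Set _) := ha
    have hb' : b ∈ (Cfsg.sameActionSubgroup G σ : Set _) := hb
    rw [hcoe] at ha' hb'
    rcases ha' with ha' | ha'
    · rcases hb' with hb' | hb'
      · exact mul_comm_of hσ ha' hb'
      · rw [Set.mem_singleton_iff] at hb'
        simp [hb']
    · rw [Set.mem_singleton_iff] at ha'
      simp [ha']
  · intro p hp hkp x hx
    have hx' : x ∈ (Cfsg.sameActionSubgroup G σ : Set _) := hx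
    rw [hcoe] at hx'
    rcases hx' with hx' | hx'
    · have hq : tt x * tt x = 0 := tt_sq_of_min hx'.1
      haveI : CharP k p := by
        have h := ringChar.charP k
        rw [hkp] at h
        exact h
      -- (1+t)^n = 1 + n t
      have hpow : ∀ n : ℕ, ((x ^ n : LinearMap.GeneralLinearGroup k _) : M →ₗ[k] M) = 1 + (n : k) • tt x := by
        intro n
        induction n with
        | zero => simp
        | succ n ih =>
          rw [pow_succ, Units.val_mul, ih, val_eq x]
          have : (1 + (n : k) • tt x) * (1 + tt x) = 1 + (n : k) • tt x + tt x + (n : k) • (tt x * tt x) := by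
            simp only [mul_add, add_mul, mul_one, one_mul, smul_mul_assoc]
            abel
          rw [this, hq]
          push_cast
          rw [add_smul, one_smul, smul_zero, add_zero, add_assoc]
      apply Units.ext
      rw [hpow p]
      have : ((p : ℕ) : k) = 0 := CharP.cast_eq_zero k p
      simp [this]
    · rw [Set.mem_singleton_iff] at hx'
      simp [hx']

end Cfsg.Agent.S5059
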