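import Cfsg.Statements.S5060
import Cfsg.Agent.Lib.RootSubgroups.EuclidFinite

set_option autoImplicit false
open Cfsg

namespace Cfsg.Agent.S5060

/-- Let k ⊆ K be fields with the characteristic of k not 2 and k not of order 3, and let α ∈ K be a non-zero element algebraic over k. Then the subgroup of SL₂(K) generated by the upper unitriangular matrices with entry c and the lower unitriangular matrices with entry cα, c ranging over k, is exactly the group of matrices of SL₂(K) with all entries in k(α). -/
theorem result {k K : Type*} [Field k] [Field K] [Algebra k K] (hk2 : ringChar k ≠ 2) (hk3 : Nat.card k ≠ 3)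
    (α : K) (hα : IsAlgebraic k α) (hα0 : α ≠ 0) :
    (Subgroup.closure ({g : Matrix.SpecialLinearGroup (Fin 2) K | ∃ c : k, (g : Matrix (Fin 2) (Fin 2) K) = !![1, algebraMap k K c; 0, 1]} ∪
        {g : Matrix.SpecialLinearGroup (Fin 2) K | ∃ c : k, (g : Matrix (Fin 2) (Fin 2) K) = !![1, 0; algebraMap k K c * α, 1]}) :
      Set (Matrix.SpecialLinearGroup (Fin 2) K)) =
    {g : Matrix.SpecialLinearGroup (Fin 2) K | ∀ i j : Fin 2, (g : Matrix (Fin 2) (Fin 2) K) i j ∈ IntermediateField.adjoin k ({α} : Set K)} := by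
  classical
  open Cfsg.Agent.Lib.RootSubgroups.EuclidSL2 Cfsg.Agent.Lib.RootSubgroups.EuclidFinite in
  have hint : IsIntegral k α := hα.isIntegral
  have h2 : (2 : k) ≠ 0 := Ring.two_ne_zero hk2
  set F := IntermediateField.adjoin k ({α} : Set K) with hF
  haveI : FiniteDimensional k F := IntermediateField.adjoin.finiteDimensional hint
  let αF : F := IntermediateField.AdjoinSimple.gen k α
  have hαF : αF ≠ 0 := by
    intro h
    apply hα0
    have := congrArg (Subtype.val) h
    simpa [αF] using this
  have hgen : Algebra.adjoin k {αF} = ⊤ := by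
    have := (IntermediateField.adjoin.powerBasis hint).adjoin_gen_eq_top
    rwa [IntermediateField.adjoin.powerBasis_gen] at this
  have htop := gens_eq_top h2 hk3 hαF hgen
  let φ : Matrix.SpecialLinearGroup (Fin 2) F →* Matrix.SpecialLinearGroup (Fin 2) K :=
    Matrix.SpecialLinearGroup.map (algebraMap F K)
  have hφent : ∀ (x : Matrix.SpecialLinearGroup (Fin 2) F) (i j : Fin 2),
      ent (φ x) i j = algebraMap F K (ent x i j) := fun x i j => rfl
  have hφu : ∀ c : k, φ (uu (algebraMap k F c)) = uu (algebraMap k K c) := by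
    intro c
    apply sl_ext <;> simp only [hφent, ent_uu_00, ent_uu_01, ent_uu_10, ent_uu_11, map_one, map_zero] <;> rfl
  have hφl : ∀ c : k, φ (ll (algebraMap k F c * αF)) = ll (algebraMap k K c * α) := by
    intro c
    apply sl_ext <;> simp only [hφent, ent_ll_00, ent_ll_01, ent_ll_10, ent_ll_11, map_one, map_zero] <;> rfl
  have hrange : (Subgroup.closure ({g : Matrix.SpecialLinearGroup (Fin 2) K | ∃ c : k, (g : Matrix (Fin 2) (Fin 2) K) = !![1, algebraMap k K c; 0, 1]} ∪
        {g : Matrix.SpecialLinearGroup (Fin 2) K | ∃ c : k, (g : Matrix (Fin 2) (Fin 2) K) = !![1, 0; algebraMap k K c * α, 1]})) = φ.range := by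
    rw [MonoidHom.range_eq_map, ← htop]
    apply le_antisymm
    · rw [Subgroup.closure_le]
      rintro g (⟨c, hc⟩ | ⟨c, hc⟩)
      · have hg : g = uu (algebraMap k K c) := Subtype.ext hc
        exact ⟨uu (algebraMap k F c), (isEuclidGroup_gensG αF).hu c, by rw [hg, hφu]⟩
      · have hg : g = ll (algebraMap k K c * α) := Subtype.ext hc
        exact ⟨ll (algebraMap k F c * αF), (isEuclidGroup_gensG αF).hl c, by rw [hg, hφl]⟩
    · rw [Subgroup.map_le_iff_le_comap, gensG, Subgroup.closure_le]
      rintro x (⟨c, rfl⟩ | ⟨c, rfl⟩)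
      · apply Subgroup.subset_closure
        refine Or.inl ⟨c, ?_⟩
        show ((φ (uu (algebraMap k F c)) : Matrix.SpecialLinearGroup (Fin 2) K) : Matrix (Fin 2) (Fin 2) K) = _
        rw [hφu]
        rfl
      · apply Subgroup.subset_closure
        refine Or.inr ⟨c, ?_⟩
        show ((φ (ll (algebraMap k F c * αF)) : Matrix.SpecialLinearGroup (Fin 2) K) : Matrix (Fin 2) (Fin 2) K) = _
        rw [hφl]
        rfl
  rw [hrange]
  ext g
  constructor
  · rintro ⟨x, rfl⟩ i j
    exact (ent x i j).2
  · intro hg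
    let M : Matrix (Fin 2) (Fin 2) F := fun i j => ⟨(g : Matrix (Fin 2) (Fin 2) K) i j, hg i j⟩
    have hM : (algebraMap F K).mapMatrix M = (g : Matrix (Fin 2) (Fin 2) K) := by
      ext i j
      rfl
    have hdet : M.det = 1 := by
      apply (algebraMap F K).injective
      rw [map_one, RingHom.map_det, hM]
      exact g.2
    refine ⟨⟨M, hdet⟩, ?_⟩
    apply Subtype.ext
    exact hM

end Cfsg.Agent.S5060
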