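import Cfsg.Statements.S5067
import Mathlib

set_option autoImplicit false
open Cfsg

namespace Cfsg.Agent.S5067

open scoped commutatorElement

/-- The normal closure of an abelian subgroup `E`: its commutator subgroup lies in `γ₃`. -/
lemma commutator_normalClosure_le {P : Type*} [Group P] {E : Subgroup P} (hE : IsMulCommutative ↥E) :
    ⁅Subgroup.normalClosure (E : Set P), Subgroup.normalClosure (E : Set P)⁆ ≤
      (⊤ : Subgroup P).lowerCentralSeries 2 := by
  set Q := (⊤ : Subgroup P).lowerCentralSeries 2 with hQ
  have hQn : Q.Normal := by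
    rw [hQ]; infer_instance
  let π : P →* P ⧸ Q := QuotientGroup.mk' Q
  -- images of the generators
  have hgen : ∀ t ∈ Group.conjugatesOfSet (E : Set P), ∃ z ∈ Subgroup.center (P ⧸ Q), ∃ e ∈ E,
      π t = z * π e := by
    intro t ht
    rw [Group.mem_conjugatesOfSet_iff] at ht
    obtain ⟨e, he, hec⟩ := ht
    obtain ⟨x, rfl⟩ := isConj_iff.1 hec
    refine ⟨π (x * e * x⁻¹ * e⁻¹), ?_, e, he, ?_⟩
    · rw [Subgroup.mem_center_iff]
      intro y
      obtain ⟨y, rfl⟩ := QuotientGroup.mk'_surjective Q y
      have h1 : ⁅x * e * x⁻¹ * e⁻¹, y⁆ ∈ Q := by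
        have h2 : x * e * x⁻¹ * e⁻¹ ∈ (⊤ : Subgroup P).lowerCentralSeries 1 := by
          have := Subgroup.commutator_mem_commutator (Subgroup.mem_top x) (Subgroup.mem_top e)
          rwa [commutatorElement_def] at this
        exact Subgroup.commutator_mem_commutator h2 (Subgroup.mem_top y)
      have h3 : π ⁅x * e * x⁻¹ * e⁻¹, y⁆ = 1 := (QuotientGroup.eq_one_iff _).2 h1
      rw [map_commutatorElement, commutatorElement_eq_one_iff_mul_comm] at h3
      exact h3.symm
    · rw [← map_mul]
      congr 1
      group
  have hcomm : ∀ t ∈ Group.conjugatesOfSet (E : Set P), ∀ t' ∈ Group.conjugatesOfSet (E : Set P),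
      π t * π t' = π t' * π t := by
    intro t ht t' ht'
    obtain ⟨z, hz, e, he, h1⟩ := hgen t ht
    obtain ⟨z', hz', e', he', h2⟩ := hgen t' ht'
    rw [h1, h2]
    have hzc := Subgroup.mem_center_iff.1 hz
    have hzc' := Subgroup.mem_center_iff.1 hz'
    have hee : π e * π e' = π e' * π e := by
      rw [← map_mul, ← map_mul]
      congr 1
      have := hE.is_comm.comm ⟨e, he⟩ ⟨e', he'⟩
      simpa using congrArg Subtype.val this
    have c1 : Commute z (z' * π e') :=
      Commute.mul_right (hzc' z) (hzc _).symm
    have c2 : Commute (π e) (z' * π e') :=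
      Commute.mul_right (hzc' _) hee
    exact (Commute.mul_left c1 c2).eq
  -- the images commute on the whole normal closure
  have hcl : ∀ n ∈ Subgroup.normalClosure (E : Set P), ∀ n' ∈ Subgroup.normalClosure (E : Set P),
      π n * π n' = π n' * π n := by
    intro n hn n' hn'
    rw [Subgroup.normalClosure] at hn hn'
    induction hn using Subgroup.closure_induction with
    | mem x hx =>
      induction hn' using Subgroup.closure_induction with
      | mem y hy => exact hcomm x hx y hy
      | one => simp
      | mul y₁ y₂ _ _ h1 h2 =>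
        rw [map_mul]
        exact (Commute.mul_right h1 h2).eq
      | inv y _ h1 =>
        rw [map_inv]
        exact (Commute.inv_right h1).eq
    | one => simp
    | mul y₁ y₂ _ _ h1 h2 =>
      rw [map_mul]
      exact (Commute.mul_left h1 h2).eq
    | inv y _ h1 =>
      rw [map_inv]
      exact (Commute.inv_left h1).eq
  rw [Subgroup.commutator_le]
  intro n hn n' hn'
  rw [← QuotientGroup.eq_one_iff (N := Q)]
  change π ⁅n, n'⁆ = 1
  rw [map_commutatorElement, commutatorElement_eq_one_iff_mul_comm]
  exact hcl n hn n' hn'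

/-- The class of the normal closure of an abelian subgroup drops. -/
lemma class_lt {P : Type*} [Group P] [Group.IsNilpotent P] (hna : ¬ IsMulCommutative P) {E : Subgroup P}
    (hE : IsMulCommutative ↥E) :
    Group.nilpotencyClass ↥(Subgroup.normalClosure (E : Set P)) < Group.nilpotencyClass P := by
  set N := Subgroup.normalClosure (E : Set P) with hN
  set c := Group.nilpotencyClass P with hc
  have hc2 : 2 ≤ c := by
    by_contra hlt
    have hle : Group.nilpotencyClass P ≤ 1 := by omega
    have h1 := (Subgroup.lowerCentralSeries_eq_bot_iff_nilpotencyClass_le (G := P)).2 hle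
    apply hna
    rw [Subgroup.top_lowerCentralSeries_one] at h1
    refine ⟨⟨fun x y => ?_⟩⟩
    have h2 : ⁅x, y⁆ ∈ commutator P := Subgroup.commutator_mem_commutator (Subgroup.mem_top x) (Subgroup.mem_top y)
    rw [h1, Subgroup.mem_bot, commutatorElement_eq_one_iff_mul_comm] at h2
    exact h2
  have hlcs : ∀ k, N.lowerCentralSeries (k + 1) ≤ (⊤ : Subgroup P).lowerCentralSeries (k + 2) := by
    intro k
    induction k with
    | zero => exact commutator_normalClosure_le hE
    | succ k ih =>
      rw [Subgroup.lowerCentralSeries_succ, Subgroup.lowerCentralSeries_succ _ (k + 2)]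
      exact Subgroup.commutator_mono ih le_top
  obtain ⟨k, hk⟩ : ∃ k, c = k + 2 := ⟨c - 2, by omega⟩
  have hbot : N.lowerCentralSeries (k + 1) = ⊥ := by
    rw [eq_bot_iff]
    refine (hlcs k).trans ?_
    rw [← hk]
    exact le_of_eq Subgroup.lowerCentralSeries_nilpotencyClass
  have hbot' : (⊤ : Subgroup N).lowerCentralSeries (k + 1) = ⊥ := by
    rw [← Subgroup.map_subtype_inj, Subgroup.map_bot, Subgroup.top_subtype_lowerCentralSeries, hbot]
  have := (Subgroup.lowerCentralSeries_eq_bot_iff_nilpotencyClass_le (G := N)).1 hbot'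
  omega

/-- Let P be a non-abelian nilpotent p-group (every element of p-power order; P possibly infinite) generated by two abelian subgroups E and F. Then the normal closure of E in P, and likewise that of F, has nilpotency class strictly smaller than that of P. -/
theorem result {P : Type*} [Group P] {p : ℕ} [Fact p.Prime] (hP : IsPGroup p P) [Group.IsNilpotent P]
    (hna : ¬ IsMulCommutative P) {E F : Subgroup P} (hE : IsMulCommutative ↥E) (hF : IsMulCommutative ↥F) (hgen : E ⊔ F = ⊤) :
    Group.nilpotencyClass ↥(Subgroup.normalClosure (E : Set P)) < Group.nilpotencyClass P ∧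
    Group.nilpotencyClass ↥(Subgroup.normalClosure (F : Set P)) < Group.nilpotencyClass P := by
  exact ⟨class_lt hna hE, class_lt hna hF⟩

end Cfsg.Agent.S5067
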