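import Cfsg.Statements.S5084
import Cfsg.Agent.Lib.FusionExt.Normal
import Cfsg.Agent.Lib.Fusion.Saturation

set_option autoImplicit false
open Cfsg

namespace Cfsg.Agent.S5084

open Cfsg.FusionSystem Cfsg.Agent.Lib.Fusion.Basic Cfsg.Agent.Lib.FusionExt.Basic

variable {Ω : Type*} [Group Ω] {S : Subgroup Ω}

theorem central_ext_of_receptive (F : FusionSystem S) {Q P R : Subgroup Ω}
    (hQc : ∀ x ∈ Q, ∀ g ∈ S, g * x = x * g) (hQS : Q ≤ S)
    (hsing : ∀ x ∈ Q, ∀ y : Ω, F.IsConjElt x y → y = x) (hR : F.IsReceptive R)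
    {θ : P →* Ω} (hθ : θ ∈ F.Hom P) (hr : θ.range = R) :
    ∃ θ' ∈ F.Hom (P ⊔ Q), (∀ a : P, θ' (Subgroup.inclusion le_sup_left a) = θ a) ∧
      ∀ x : Q, θ' (Subgroup.inclusion le_sup_right x) = x := by
  have hPS := Cfsg.Agent.Lib.Fusion.Basic.le_of_mem F hθ
  have hQC : Q ≤ centralizerIn S P := by
    intro x hx
    refine ⟨hQS hx, Subgroup.mem_centralizer_iff.2 fun a ha => ?_⟩
    exact hQc x hx a (hPS ha)
  have hT : P ⊔ Q ≤ extender S P θ :=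
    sup_le (le_extender F hθ) (hQC.trans (centralizerIn_le_extender θ))
  obtain ⟨θ', hθ', hext⟩ := IsReceptive.exists_extension F hR hθ hr hT le_sup_left
  refine ⟨θ', hθ', hext, fun x => ?_⟩
  -- `θ' x` is conjugate to `x`
  have hle : Subgroup.zpowers (x : Ω) ≤ P ⊔ Q :=
    (Subgroup.zpowers_le.2 x.2).trans le_sup_right
  exact hsing x x.2 _ ⟨θ'.comp (Subgroup.inclusion hle), restrict_mem F hle hθ', rfl⟩

/-- In a saturated fusion system over a finite p-group S, a subgroup Q is central in the system if and only if Q ≤ S and no element of Q is conjugate in the system to any element other than itself. -/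
theorem result {Ω : Type*} [Group Ω] {S : Subgroup Ω} [Finite S] (p : ℕ) [Fact p.Prime] (hS : IsPGroup p S) (F : Cfsg.FusionSystem S) (hF : F.IsSaturated p) (Q : Subgroup Ω) : F.IsCentral Q ↔ (Q ≤ S ∧ ∀ x ∈ Q, ∀ y : Ω, F.IsConjElt x y → y = x) := by
  constructor
  · rintro ⟨hQS, hQ⟩
    refine ⟨hQS, ?_⟩
    rintro x hx y ⟨φ, hφ, rfl⟩
    obtain ⟨ψ, -, h1, h2⟩ := hQ _ φ hφ
    have e : Subgroup.inclusion (le_sup_left : Subgroup.zpowers x ≤ Subgroup.zpowers x ⊔ Q)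
        ⟨x, Subgroup.mem_zpowers x⟩ = Subgroup.inclusion le_sup_right ⟨x, hx⟩ := rfl
    rw [← h1, e]
    exact h2 ⟨x, hx⟩
  · rintro ⟨hQS, hsing⟩
    refine ⟨hQS, ?_⟩
    have hQc : ∀ x ∈ Q, ∀ g ∈ S, g * x = x * g := by
      intro x hx g hg
      have hle : Subgroup.zpowers x ≤ S := Subgroup.zpowers_le.2 (hQS hx)
      have := hsing x hx _ ⟨conjHom _ g, F.conj_mem hle hg, rfl⟩
      have h2 : g * x * g⁻¹ = x := this
      calc g * x = g * x * g⁻¹ * g := by group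
        _ = x * g := by rw [h2]
    intro P φ hφ
    have hPS := Cfsg.Agent.Lib.Fusion.Basic.le_of_mem F hφ
    obtain ⟨R, hPR, h₁, h₂⟩ := hF P hPS
    -- conjugate `φ(P)` to `R`
    have hφR : F.IsConj φ.range R := Cfsg.Agent.Lib.Fusion.Basic.IsConj.trans F (isConj_symm F ⟨φ, hφ, rfl⟩) hPR
    obtain ⟨ζ, hζ, hζr⟩ := hφR
    obtain ⟨ζ', hζ', hζ'a, hζ'b⟩ := central_ext_of_receptive F hQc hQS hsing h₂ hζ hζr
    have hv : ∀ x : P, φ x ∈ φ.range := fun x => ⟨x, rfl⟩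
    obtain ⟨θ', hθ', hθ'a, hθ'b⟩ := central_ext_of_receptive F hQc hQS hsing h₂
      (F.comp_mem hφ hζ hv) (by
        rw [← hζr]
        apply le_antisymm
        · rintro _ ⟨x, rfl⟩
          exact ⟨_, rfl⟩
        · rintro _ ⟨⟨_, x, rfl⟩, rfl⟩
          exact ⟨x, rfl⟩)
    obtain ⟨χ, hχ, -, hχ2, -, -⟩ := exists_inv F hζ' rfl
    have hW : ∀ y : ↥(P ⊔ Q), θ' y ∈ ζ'.range := by
      apply mem_of_sup
      · intro a ha
        refine ⟨⟨φ ⟨a, ha⟩, Subgroup.mem_sup_left ⟨_, rfl⟩⟩, ?_⟩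
        have e1 := hζ'a ⟨φ ⟨a, ha⟩, ⟨_, rfl⟩⟩
        have e2 := hθ'a ⟨a, ha⟩
        exact e1.trans e2.symm
      · intro b hb
        refine ⟨⟨b, Subgroup.mem_sup_right hb⟩, ?_⟩
        have e1 := hζ'b ⟨b, hb⟩
        have e2 := hθ'b ⟨b, hb⟩
        exact e1.trans e2.symm
    refine ⟨χ.comp (θ'.codRestrict _ hW), F.comp_mem hθ' hχ hW, fun a => ?_, fun x => ?_⟩
    · have e1 := hζ'a ⟨φ a, ⟨_, rfl⟩⟩
      have e2 := hθ'a a
      have e3 : (θ'.codRestrict _ hW) (Subgroup.inclusion le_sup_left a) =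
          ⟨ζ' ⟨φ a, Subgroup.mem_sup_left ⟨_, rfl⟩⟩, ⟨_, rfl⟩⟩ := Subtype.ext (e2.trans e1.symm)
      show χ ((θ'.codRestrict _ hW) (Subgroup.inclusion le_sup_left a)) = φ a
      rw [e3]
      exact hχ2 ⟨φ a, Subgroup.mem_sup_left ⟨_, rfl⟩⟩ ⟨_, rfl⟩
    · have e1 := hζ'b x
      have e2 := hθ'b x
      have e3 : (θ'.codRestrict _ hW) (Subgroup.inclusion le_sup_right x) =
          ⟨ζ' ⟨x, Subgroup.mem_sup_right x.2⟩, ⟨_, rfl⟩⟩ := Subtype.ext (e2.trans e1.symm)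
      show χ ((θ'.codRestrict _ hW) (Subgroup.inclusion le_sup_right x)) = x
      rw [e3]
      exact hχ2 ⟨x, Subgroup.mem_sup_right x.2⟩ ⟨_, rfl⟩

end Cfsg.Agent.S5084
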