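import Cfsg.Statements.S5085
import Cfsg.Agent.Lib.Fusion.Basic

set_option autoImplicit false
open Cfsg

namespace Cfsg.Agent.S5085

open Cfsg.Agent.Lib.Fusion.Basic

/-- In any fusion system, a characteristic subgroup of a subgroup that is normal in the system is itself normal in the system. -/
theorem result {Ω : Type*} [Group Ω] {S : Subgroup Ω} (F : Cfsg.FusionSystem S) (Q U : Subgroup Ω) (hQ : F.IsNormal Q) (hUQ : U ≤ Q) (hU : (U.subgroupOf Q).Characteristic) : F.IsNormal U := by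
  refine ⟨hUQ.trans hQ.1, ?_⟩
  intro P φ hφ
  obtain ⟨ψ, hψ, hψP, hψQ⟩ := hQ.2 P φ hφ
  have hle : P ⊔ U ≤ P ⊔ Q := sup_le_sup_left hUQ P
  refine ⟨ψ.comp (Subgroup.inclusion hle), restrict_mem F hle hψ, ?_, ?_⟩
  · intro x
    exact hψP x
  -- the automorphism of `Q` induced by `ψ`
  have hQle : Q ≤ P ⊔ Q := le_sup_right
  have hmem : ∀ x : Q, ψ (Subgroup.inclusion hQle x) ∈ Q := by
    intro x
    exact hψQ.le ⟨Subgroup.inclusion hQle x, x.2, rfl⟩
  let f : Q →* Ω := ψ.comp (Subgroup.inclusion hQle)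
  have hfinj : Function.Injective f :=
    (F.injective_of_mem hψ).comp (Subgroup.inclusion_injective hQle)
  have hfr : f.range = Q := by
    apply le_antisymm
    · rintro _ ⟨x, rfl⟩
      exact hmem x
    · intro y hy
      obtain ⟨z, hz, rfl⟩ := hψQ.ge hy
      exact ⟨⟨z, hz⟩, rfl⟩
  let α : MulAut Q := isoOf f hfinj hfr
  have hα : ∀ x : Q, ((α x : Q) : Ω) = ψ (Subgroup.inclusion hQle x) := fun x => rfl
  have hchar := Subgroup.characteristic_iff_map_eq.1 hU α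
  apply le_antisymm
  · rintro _ ⟨x, hx, rfl⟩
    have hxU : ((x : ↥(P ⊔ U)) : Ω) ∈ U := hx
    have hxQ : ((x : ↥(P ⊔ U)) : Ω) ∈ Q := hUQ hxU
    have h1 : (⟨(x : Ω), hxQ⟩ : Q) ∈ U.subgroupOf Q := hxU
    have h2 : α ⟨(x : Ω), hxQ⟩ ∈ U.subgroupOf Q := by
      rw [← hchar]
      exact ⟨_, h1, rfl⟩
    have h3 : ((α ⟨(x : Ω), hxQ⟩ : Q) : Ω) ∈ U := h2
    rw [hα] at h3
    exact h3
  · intro y hy
    have hyQ : y ∈ Q := hUQ hy
    have h1 : (⟨y, hyQ⟩ : Q) ∈ U.subgroupOf Q := hy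
    rw [← hchar] at h1
    obtain ⟨z, hz, hzy⟩ := h1
    have hzU : (z : Ω) ∈ U := hz
    refine ⟨⟨(z : Ω), Subgroup.mem_sup_right hzU⟩, hzU, ?_⟩
    have h2 : ((α z : Q) : Ω) = y := congrArg Subtype.val hzy
    rw [hα] at h2
    exact h2

end Cfsg.Agent.S5085
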