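import Cfsg.Statements.S5088
import Cfsg.Agent.Lib.FusionExt.Normal2

set_option autoImplicit false
open Cfsg

namespace Cfsg.Agent.S5088

open scoped commutatorElement
open Cfsg.FusionSystem Cfsg.Agent.Lib.Fusion.Basic Cfsg.Agent.Lib.FusionExt.Normal Cfsg.Agent.Lib.FusionExt.Normal2


/-- In a saturated fusion system over a finite p-group, a subgroup Q is normal in the system if and only if there is a chain of subgroups 1 = Q₀ ≤ Q₁ ≤ ⋯ ≤ Qₙ = Q such that each Qᵢ with i ≥ 1 is strongly closed in the system and [Q, Qᵢ] ≤ Qᵢ₋₁. -/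
theorem result {Ω : Type*} [Group Ω] {S : Subgroup Ω} [Finite S] (p : ℕ) [Fact p.Prime] (hS : IsPGroup p S) (F : Cfsg.FusionSystem S) (hF : F.IsSaturated p) (Q : Subgroup Ω) : F.IsNormal Q ↔ ∃ (n : ℕ) (Qs : Fin (n + 1) → Subgroup Ω), Qs 0 = ⊥ ∧ Qs (Fin.last n) = Q ∧ Monotone Qs ∧ ∀ i : Fin n, F.StronglyClosed (Qs i.succ) ∧ ⁅Q, Qs i.succ⁆ ≤ Qs (Fin.castSucc i) := by
  constructor
  · intro hQ
    have hfin : Finite Q := finite_of_le hQ.1
    have hQp : IsPGroup p Q := hS.to_le hQ.1
    have hnil : Group.IsNilpotent Q := hQp.isNilpotent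
    let n := Group.nilpotencyClass Q
    have hn : Subgroup.upperCentralSeries Q n = ⊤ := Subgroup.upperCentralSeries_nilpotencyClass
    refine ⟨n, fun i => (Subgroup.upperCentralSeries Q i).map Q.subtype, ?_, ?_, ?_, fun i => ⟨?_, ?_⟩⟩
    · simp
    · show (Subgroup.upperCentralSeries Q n).map Q.subtype = Q
      rw [hn, ← MonoidHom.range_eq_map]
      exact Subgroup.range_subtype Q
    · intro i j hij
      exact Subgroup.map_mono (Subgroup.upperCentralSeries_mono Q hij)
    · apply isNormal_stronglyClosed F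
      apply isNormal_of_characteristic F hQ
      · rintro _ ⟨x, -, rfl⟩
        exact x.2
      · have : (((Subgroup.upperCentralSeries Q (i.succ : ℕ)).map Q.subtype).subgroupOf Q) = Subgroup.upperCentralSeries Q (i.succ : ℕ) :=
          Subgroup.comap_map_eq_self_of_injective Q.subtype_injective _
        show (((Subgroup.upperCentralSeries Q (i.succ : ℕ)).map Q.subtype).subgroupOf Q).Characteristic
        rw [this]
        infer_instance
    · rw [Subgroup.commutator_le]
      rintro x hx _ ⟨u, hu, rfl⟩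
      have h1 := (Subgroup.mem_upperCentralSeries_succ_iff).1 hu ⟨x, hx⟩
      refine ⟨⟨x, hx⟩ * u * (⟨x, hx⟩ : Q)⁻¹ * u⁻¹, ?_, rfl⟩
      have h2 := Subgroup.inv_mem _ h1
      have e : (⁅u, (⟨x, hx⟩ : Q)⁆)⁻¹ = ⟨x, hx⟩ * u * (⟨x, hx⟩ : Q)⁻¹ * u⁻¹ := by
        rw [commutatorElement_def]
        group
      rwa [e] at h2
  · rintro ⟨n, Qs, h0, hn, hmono, hstep⟩
    let L : ℕ → Subgroup Ω := fun i => Qs ⟨min i n, by omega⟩
    refine isNormal_of_chain F hS hF L (fun i => ?_) ?_ (n := n) ?_ (fun i hi => ?_) (fun i hi x hx a ha => ?_)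
    · apply hmono
      show min i n ≤ min (i + 1) n
      omega
    · show Qs ⟨min 0 n, _⟩ = ⊥
      rw [← h0]
      congr 1
    · show Qs ⟨min n n, _⟩ = Q
      rw [← hn]
      congr 1
      apply Fin.ext
      simp
    · have : (⟨min (i + 1) n, by omega⟩ : Fin (n + 1)) = (⟨i, hi⟩ : Fin n).succ := by
        apply Fin.ext
        simp
        try omega
      show F.StronglyClosed (Qs _)
      rw [this]
      exact (hstep ⟨i, hi⟩).1
    · have e1 : (⟨min (i + 1) n, by omega⟩ : Fin (n + 1)) = (⟨i, hi⟩ : Fin n).succ := by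
        apply Fin.ext
        simp
        try omega
      have e2 : (⟨min i n, by omega⟩ : Fin (n + 1)) = Fin.castSucc (⟨i, hi⟩ : Fin n) := by
        apply Fin.ext
        simp
        try omega
      have ha' : a ∈ Qs (⟨i, hi⟩ : Fin n).succ := by
        have : a ∈ Qs ⟨min (i + 1) n, by omega⟩ := ha
        rwa [e1] at this
      show _ ∈ Qs ⟨min i n, _⟩
      rw [e2]
      have h := (hstep ⟨i, hi⟩).2 (Subgroup.commutator_mem_commutator hx (Subgroup.inv_mem _ ha'))
      have h' := Subgroup.inv_mem _ h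
      have e : (⁅x, a⁻¹⁆ : Ω)⁻¹ = a⁻¹ * (x * a * x⁻¹) := by
        rw [commutatorElement_def]
        group
      rwa [e] at h'

end Cfsg.Agent.S5088
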