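import Cfsg.Statements.S5089
import Cfsg.Agent.Lib.FusionExt.Normal2

set_option autoImplicit false
open Cfsg

namespace Cfsg.Agent.S5089

open Cfsg.FusionSystem Cfsg.Agent.Lib.Fusion.Basic Cfsg.Agent.Lib.FusionExt.Normal Cfsg.Agent.Lib.FusionExt.Normal2


/-- A saturated fusion system over a finite p-group has a nontrivial subgroup that is normal in the system (O_p(F) ≠ 1) if and only if some nontrivial abelian subgroup is strongly closed in the system. -/
theorem result {Ω : Type*} [Group Ω] {S : Subgroup Ω} [Finite S] (p : ℕ) [Fact p.Prime] (hS : IsPGroup p S) (F : Cfsg.FusionSystem S) (hF : F.IsSaturated p) : F.core ≠ ⊥ ↔ ∃ Q : Subgroup Ω, Q ≠ ⊥ ∧ IsMulCommutative Q ∧ F.StronglyClosed Q := by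
  constructor
  · intro h
    have : ∃ Q : Subgroup Ω, F.IsNormal Q ∧ Q ≠ ⊥ := by
      by_contra hcon
      push Not at hcon
      apply h
      apply le_bot_iff.1
      apply sSup_le
      intro Q hQ
      exact le_of_eq (hcon Q hQ)
    obtain ⟨Q, hQn, hQb⟩ := this
    refine ⟨Q ⊓ Subgroup.centralizer (Q : Set Ω), ?_, ?_, isNormal_stronglyClosed F (isNormal_center F hQn)⟩
    · have hfin : Finite Q := finite_of_le hQn.1
      have hQp : IsPGroup p Q := hS.to_le hQn.1
      have hnt : Nontrivial Q := (Subgroup.nontrivial_iff_ne_bot Q).2 hQb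
      have hcnt := hQp.center_nontrivial
      intro hc
      obtain ⟨z, hz, hz1⟩ := (Subgroup.nontrivial_iff_exists_ne_one _).1 hcnt
      have h1 : (z : Ω) ∈ Q ⊓ Subgroup.centralizer (Q : Set Ω) := by
        refine ⟨z.2, Subgroup.mem_centralizer_iff.2 fun g hg => ?_⟩
        exact (congrArg Subtype.val (Subgroup.mem_center_iff.1 hz ⟨g, hg⟩))
      rw [hc, Subgroup.mem_bot] at h1
      exact hz1 (Subtype.ext h1)
    · constructor
      constructor
      rintro ⟨a, ha⟩ ⟨b, hb⟩
      apply Subtype.ext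
      exact Subgroup.mem_centralizer_iff.1 hb.2 a ha.1
  · rintro ⟨Q, hQ, hab, hsc⟩
    have hn : F.IsNormal Q := by
      apply isNormal_of_abelian F hS hF hsc
      intro a ha b hb
      have := hab.is_comm.comm ⟨a, ha⟩ ⟨b, hb⟩
      exact congrArg Subtype.val this
    intro h
    apply hQ
    apply le_bot_iff.1
    rw [← h]
    exact le_sSup hn

end Cfsg.Agent.S5089
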