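import Cfsg.Statements.S5094
import Cfsg.Agent.Lib.ZStar.Fus

set_option autoImplicit false
open Cfsg

namespace Cfsg.Agent.S5094

/-- Glauberman's Z*-Theorem in fusion language: for a finite group G with Sylow 2-subgroup S, the centre of the fusion system of G on S is the set of elements of S whose image in G/O(G) is central, O(G) being the largest normal subgroup of odd order. -/
theorem result {G : Type*} [Group G] [Finite G] (S : Sylow 2 G) : (Cfsg.groupFusionSystem (S : Subgroup G)).center = (S : Subgroup G) ⊓ (Subgroup.center (G ⧸ Cfsg.oddCore G)).comap (QuotientGroup.mk' (Cfsg.oddCore G)) := by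
  classical
  haveI : Fact (Nat.Prime 2) := ⟨Nat.prime_two⟩
  set N := Cfsg.oddCore G with hN
  haveI hNn : N.Normal := Cfsg.pPrimeCore_normal 2 G
  set π := QuotientGroup.mk' N with hπ
  have hπs : Function.Surjective π := QuotientGroup.mk'_surjective N
  have hker : ∀ x, π x = 1 ↔ x ∈ N := fun x => QuotientGroup.eq_one_iff x
  apply le_antisymm
  · apply sSup_le
    rintro Q ⟨hQS, hext⟩ x hx
    refine ⟨hQS hx, ?_⟩
    change π x ∈ Subgroup.center (G ⧸ N)
    rw [Subgroup.mem_center_iff]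
    intro c
    obtain ⟨g, rfl⟩ := hπs c
    have h1 := Cfsg.Agent.Lib.ZStar.Fus.central_of_fixed _ G rfl S x (hQS hx) (by
      intro y hy g hg
      have hyQ : y ∈ Q := (Subgroup.zpowers_le.mpr hx) hy
      have hφ : Cfsg.conjHom (Subgroup.zpowers y) g ∈
          (Cfsg.groupFusionSystem (S : Subgroup G)).Hom (Subgroup.zpowers y) := by
        refine ⟨Subgroup.zpowers_le.mpr (hQS hyQ), ?_, g, fun t => rfl⟩
        rintro ⟨t, j, rfl⟩
        have e : Cfsg.conjHom (Subgroup.zpowers y) g ⟨(fun j : ℤ => y ^ j) j, ⟨j, rfl⟩⟩ =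
            (g * y * g⁻¹) ^ j := by
          change g * y ^ j * g⁻¹ = _
          rw [conj_zpow]
        rw [e]
        exact zpow_mem hg j
      obtain ⟨ψ, -, h2, h3⟩ := hext _ _ hφ
      have e1 := h2 ⟨y, Subgroup.mem_zpowers y⟩
      have e2 := h3 ⟨y, hyQ⟩
      have e3 : Subgroup.inclusion (le_sup_left : Subgroup.zpowers y ≤ Subgroup.zpowers y ⊔ Q)
          ⟨y, Subgroup.mem_zpowers y⟩ = Subgroup.inclusion (le_sup_right : Q ≤ Subgroup.zpowers y ⊔ Q) ⟨y, hyQ⟩ :=
        Subtype.ext rfl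
      rw [e3, e2] at e1
      exact e1.symm) g
    have h2 := (hker _).mpr h1
    rw [map_mul, map_mul, map_mul, map_inv, map_inv] at h2
    rw [mul_inv_eq_one, mul_inv_eq_iff_eq_mul] at h2
    exact h2
  · apply le_sSup
    refine ⟨inf_le_left, ?_⟩
    rintro P φ ⟨hPS, hφS, g, hg⟩
    set Qs := (S : Subgroup G) ⊓ (Subgroup.center (G ⧸ N)).comap π with hQs
    have hQsS : Qs ≤ (S : Subgroup G) := inf_le_left
    have hcen : ∀ y ∈ Qs, ∀ c : G, π (c * y * c⁻¹) = π y := by
      intro y hy c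
      have h1 : π y ∈ Subgroup.center (G ⧸ N) := hy.2
      rw [Subgroup.mem_center_iff] at h1
      rw [map_mul, map_mul, map_inv, h1]
      simp
    have hR : P ⊔ Qs ≤ (S : Subgroup G) := sup_le hPS hQsS
    set T : Subgroup G := ((S : Subgroup G).map π).comap (π.comp (MulAut.conj g).toMonoidHom) with hT
    have hPT : P ≤ T := by
      intro p hp
      refine ⟨φ ⟨p, hp⟩, hφS _, ?_⟩
      rw [hg]
      rfl
    have hQT : Qs ≤ T := by
      intro y hy
      refine ⟨y, hQsS hy, ?_⟩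
      change π y = π (g * y * g⁻¹)
      rw [hcen y hy g]
    set R' := (P ⊔ Qs).map (MulAut.conj g).toMonoidHom with hR'
    have hpR' : IsPGroup 2 R' := (S.isPGroup'.to_le hR).map _
    obtain ⟨o, ho, hoS⟩ := Cfsg.Agent.Lib.ZStar.Fus.exists_conj_into_of_map S hpR' (by
      rintro y ⟨r, hr, rfl⟩
      exact (sup_le hPT hQT) hr)
    have hoS' : ∀ r ∈ P ⊔ Qs, (o * g) * r * (o * g)⁻¹ ∈ (S : Subgroup G) := by
      intro r hr
      have h1 := hoS _ ⟨r, hr, rfl⟩
      have e : o * ((MulAut.conj g).toMonoidHom r) * o⁻¹ = (o * g) * r * (o * g)⁻¹ := by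
        change o * (g * r * g⁻¹) * o⁻¹ = _
        group
      rwa [e] at h1
    refine ⟨Cfsg.conjHom (P ⊔ Qs) (o * g), ⟨hR, fun x => hoS' _ x.2, o * g, fun x => rfl⟩, ?_, ?_⟩
    · intro p
      change (o * g) * (p : G) * (o * g)⁻¹ = φ p
      apply (Cfsg.Agent.Lib.ZStar.Fus.eq_of_mul_mem_core S (hφS p) (hoS' _ (le_sup_left (a := P) p.2)) ?_).symm
      rw [hg p]
      have e : (g * (p : G) * g⁻¹)⁻¹ * (o * g * (p : G) * (o * g)⁻¹) =
          (g * (p : G) * g⁻¹)⁻¹ * o * (g * (p : G) * g⁻¹) * o⁻¹ := by group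
      rw [e]
      exact N.mul_mem (by simpa using hNn.conj_mem o ho (g * (p : G) * g⁻¹)⁻¹) (N.inv_mem ho)
    · intro y
      change (o * g) * (y : G) * (o * g)⁻¹ = y
      apply (Cfsg.Agent.Lib.ZStar.Fus.eq_of_mul_mem_core S (hQsS y.2) (hoS' _ (le_sup_right (a := P) y.2)) ?_).symm
      rw [← hker, map_mul, map_inv, hcen _ y.2, inv_mul_cancel]

end Cfsg.Agent.S5094
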