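import Cfsg.Statements.S5102
import Cfsg.Agent.Lib.Fusion.Basic

set_option autoImplicit false
open Cfsg

namespace Cfsg.Agent.S5102

open Cfsg.Agent.Lib.Fusion.Basic

/-- A normal p-subgroup of a finite group G is normal in the fusion system of G on a Sylow p-subgroup. -/
theorem result {G : Type*} [Group G] [Finite G] (p : ℕ) [Fact p.Prime] (S : Sylow p G) (R : Subgroup G) [R.Normal] (hR : IsPGroup p R) : (Cfsg.groupFusionSystem (S : Subgroup G)).IsNormal R := by
  have hRS : R ≤ (S : Subgroup G) := hR.le_sylow_of_normal S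
  refine ⟨hRS, ?_⟩
  rintro P φ ⟨hP, hφS, g, hg⟩
  have hPR : P ⊔ R ≤ (S : Subgroup G) := sup_le hP hRS
  have hmap : (P ⊔ R).map (MulAut.conj g).toMonoidHom ≤ (S : Subgroup G) := by
    rw [Subgroup.map_sup]
    apply sup_le
    · rintro _ ⟨x, hx, rfl⟩
      have := hφS ⟨x, hx⟩
      rw [hg] at this
      exact this
    · rintro _ ⟨x, hx, rfl⟩
      exact hRS (Subgroup.Normal.conj_mem inferInstance x hx g)
  have hconj : ∀ x : ↥(P ⊔ R), g * (x : G) * g⁻¹ ∈ (S : Subgroup G) := by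
    intro x
    exact hmap ⟨x, x.2, rfl⟩
  refine ⟨conjHom (P ⊔ R) g, ⟨hPR, hconj, g, fun x => rfl⟩, ?_, ?_⟩
  · intro x
    rw [hg]
    rfl
  · apply le_antisymm
    · rintro _ ⟨x, hx, rfl⟩
      exact Subgroup.Normal.conj_mem (inferInstance : R.Normal) (x : G) hx g
    · intro y hy
      have hy' : g⁻¹ * y * g ∈ R := by
        have := Subgroup.Normal.conj_mem (inferInstance : R.Normal) y hy g⁻¹
        simpa using this
      refine ⟨⟨g⁻¹ * y * g, Subgroup.mem_sup_right hy'⟩, hy', ?_⟩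
      show g * (g⁻¹ * y * g) * g⁻¹ = y
      group

end Cfsg.Agent.S5102
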