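import Cfsg.Statements.S5107
import Cfsg.Agent.Lib.FusionExt.Normal2
import Cfsg.Agent.Lib.Fusion.GroupSystem

set_option autoImplicit false
open Cfsg

namespace Cfsg.Agent.S5107

open scoped commutatorElement
open Cfsg.FusionSystem Cfsg.Agent.Lib.Fusion.Basic Cfsg.Agent.Lib.FusionExt.Normal Cfsg.Agent.Lib.FusionExt.Normal2

/-- If a Sylow p-subgroup S of a finite group G has nilpotency class at most two and its centre is strongly closed in S with respect to G, then every map of the fusion system of G on S is conjugation by an element of N_G(S), and S is the largest subgroup normal in that fusion system. -/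
theorem result {G : Type*} [Group G] [Finite G] (p : ℕ) [Fact p.Prime] (S : Sylow p G) (hcl : ⁅(S : Subgroup G), (S : Subgroup G)⁆ ≤ (S : Subgroup G) ⊓ Subgroup.centralizer ((S : Subgroup G) : Set G)) (hZ : Cfsg.IsStronglyClosed ((S : Subgroup G) ⊓ Subgroup.centralizer ((S : Subgroup G) : Set G)) (S : Subgroup G)) : (∀ (P : Subgroup G) (φ : P →* G), φ ∈ (Cfsg.groupFusionSystem (S : Subgroup G)).Hom P → ∃ g ∈ Subgroup.normalizer ((S : Subgroup G) : Set G), ∀ x : P, φ x = g * (x : G) * g⁻¹) ∧ (Cfsg.groupFusionSystem (S : Subgroup G)).core = S := by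
  set F := Cfsg.groupFusionSystem (S : Subgroup G) with hFdef
  have hS : IsPGroup p (S : Subgroup G) := S.isPGroup'
  have hF : F.IsSaturated p := Cfsg.Agent.Lib.Fusion.GroupSystem.isSaturated S
  set Z : Subgroup G := (S : Subgroup G) ⊓ Subgroup.centralizer ((S : Subgroup G) : Set G) with hZdef
  have hZS : Z ≤ S := inf_le_left
  have hscZ : F.StronglyClosed Z := by
    refine ⟨hZS, fun R hR φ hφ x => ?_⟩
    obtain ⟨-, hφS, g, hg⟩ := hφ
    rw [hg x]
    apply hZ.2 _ (hR x.2)
    rw [← hg x]
    exact hφS x
  have hscS : F.StronglyClosed S := ⟨le_rfl, fun R _ φ hφ x => hφ.2.1 x⟩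
  have hn : F.IsNormal S := by
    refine isNormal_of_chain F hS hF (fun i => if i = 0 then ⊥ else if i = 1 then Z else S) ?_ (by simp) (n := 2) (by simp) ?_ ?_
    · intro i
      by_cases h0 : i = 0
      · simp [h0]
      · by_cases h1 : i = 1
        · simpa [h1] using hZS
        · simp [h0, h1]
    · intro i hi
      have : i = 0 ∨ i = 1 := by omega
      rcases this with rfl | rfl
      · simpa using hscZ
      · simpa using hscS
    · intro i hi x hx a ha
      have : i = 0 ∨ i = 1 := by omega
      rcases this with rfl | rfl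
      · have ha' : a ∈ Z := by simpa using ha
        have : a⁻¹ * (x * a * x⁻¹) = 1 := by
          have h1 : x * a = a * x := Subgroup.mem_centralizer_iff.1 ha'.2 x hx
          rw [h1]
          group
        simp [this]
      · have ha' : a ∈ (S : Subgroup G) := by simpa using ha
        have h1 := hcl (Subgroup.commutator_mem_commutator (S.inv_mem ha') hx)
        rw [commutatorElement_def] at h1
        have e : a⁻¹ * x * a⁻¹⁻¹ * x⁻¹ = a⁻¹ * (x * a * x⁻¹) := by group
        rw [e] at h1
        simpa using h1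
  refine ⟨fun P φ hφ => ?_, ?_⟩
  · have hPS : P ≤ S := hφ.1
    obtain ⟨α, hα, hαv⟩ := ext_of_isNormal F hn P hPS φ hφ
    obtain ⟨-, -, g, hg⟩ := autHom_mem F (le_refl (S : Subgroup G)) hα
    have hgv : ∀ x : (S : Subgroup G), ((α x : (S : Subgroup G)) : G) = g * (x : G) * g⁻¹ := hg
    refine ⟨g, ?_, fun x => ?_⟩
    · rw [Subgroup.mem_normalizer_iff]
      intro h
      constructor
      · intro hh
        rw [← hgv ⟨h, hh⟩]
        exact (α _).2
      · intro hh
        have h1 := hgv (α⁻¹ ⟨_, hh⟩)
        simp only [MulAut.apply_inv_self] at h1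
        have h2 : g * h * g⁻¹ = g * ((α⁻¹ ⟨_, hh⟩ : (S : Subgroup G)) : G) * g⁻¹ := h1
        have h3 : h = ((α⁻¹ ⟨_, hh⟩ : (S : Subgroup G)) : G) := mul_left_cancel (mul_right_cancel h2)
        rw [h3]
        exact (α⁻¹ _).2
    · rw [← hαv x]
      exact hgv _
  · apply le_antisymm
    · apply sSup_le
      intro Q hQ
      exact hQ.1
    · exact le_sSup hn

end Cfsg.Agent.S5107
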