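import Cfsg.Statements.S5112
import Cfsg.Agent.Lib.FusionExt.AutDih

set_option autoImplicit false
open Cfsg

namespace Cfsg.Agent.S5112



/-- If S is a dihedral or generalized quaternion 2-group of order at least 16, then in every saturated fusion system over S (at the prime 2) the automorphism group Aut_F(S) consists of the inner automorphisms of S. -/
theorem result {Ω : Type*} [Group Ω] {S : Subgroup Ω} [Finite S] (n : ℕ) (hn : 4 ≤ n) (hshape : Nonempty (S ≃* DihedralGroup (2 ^ (n - 1))) ∨ Nonempty (S ≃* QuaternionGroup (2 ^ (n - 2)))) (F : Cfsg.FusionSystem S) (hF : F.IsSaturated 2) : F.autGroup S = Cfsg.Inn S := by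
  have hN1 : ∀ {D : Type} [Group D] [Finite D], (S ≃* D) → IsPGroup 2 D → IsPGroup 2 S := by
    intro D _ _ e hD
    exact hD.of_equiv e.symm
  haveI : Fact (Nat.Prime 2) := ⟨Nat.prime_two⟩
  rcases hshape with ⟨⟨e⟩⟩ | ⟨⟨e⟩⟩
  · haveI : NeZero (2 ^ (n - 1)) := ⟨by positivity⟩
    have hcard : Nat.card S = 2 ^ n := by
      rw [Nat.card_congr e.toEquiv, DihedralGroup.nat_card]
      have : n = (n - 1) + 1 := by omega
      conv_rhs => rw [this, pow_succ]
      ring
    have hS : IsPGroup 2 S := IsPGroup.of_card hcard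
    exact Cfsg.Agent.Lib.FusionExt.AutDih.autGroup_eq_inn hS F hF
      (Cfsg.Agent.Lib.FusionExt.AutDih.isPGroup_mulAut_of_odd e
        (Cfsg.Agent.Lib.FusionExt.AutDih.dih_odd (by omega)))
  · haveI : NeZero (2 ^ (n - 2)) := ⟨by positivity⟩
    have hcard : Nat.card S = 2 ^ n := by
      rw [Nat.card_congr e.toEquiv, Nat.card_eq_fintype_card, QuaternionGroup.card]
      have : n = (n - 2) + 2 := by omega
      conv_rhs => rw [this, pow_add]
      ring
    have hS : IsPGroup 2 S := IsPGroup.of_card hcard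
    exact Cfsg.Agent.Lib.FusionExt.AutDih.autGroup_eq_inn hS F hF
      (Cfsg.Agent.Lib.FusionExt.AutDih.isPGroup_mulAut_of_odd e
        (Cfsg.Agent.Lib.FusionExt.AutDih.quat_odd (by omega)))

end Cfsg.Agent.S5112
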