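import Cfsg.Statements.S5159
import Cfsg.Agent.Lib.FusionExt.Solvable3

set_option autoImplicit false
open Cfsg

namespace Cfsg.Agent.S5159

open Cfsg.FusionSystem Cfsg.Agent.Lib.FusionExt.Solvable Cfsg.Agent.Lib.FusionExt.Solvable2 Cfsg.Agent.Lib.FusionExt.Solvable3


/-- Let F be a saturated fusion system over a finite p-group S, E a normal subsystem over T, and D the factor system of F modulo T (read through any homomorphism on S with kernel T). Then F is solvable if and only if E and D are solvable (solvable, for a system over a subgroup S: for every subgroup R other than S that is strongly closed in F, the factor system of F modulo R has a nontrivial subgroup normal in it). -/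
theorem result {Ω : Type*} [Group Ω] {S : Subgroup Ω} [Finite S] (p : ℕ) [Fact p.Prime] (hS : IsPGroup p S) (F : Cfsg.FusionSystem S) (hF : F.IsSaturated p) {T : Subgroup Ω} (E : Cfsg.FusionSystem T) (hE : E.IsNormalIn F p) {Ω' : Type*} [Group Ω'] {S' : Subgroup Ω'} (θ : S →* Ω') (D : Cfsg.FusionSystem S') (hD : F.IsFactorSystem T θ D) : F.IsSolvableSystem ↔ (E.IsSolvableSystem ∧ D.IsSolvableSystem) := by
  exact isSolvable_iff_of_isNormalIn F θ D E hS hF hE hD

end Cfsg.Agent.S5159
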