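import Cfsg.Statements.S5160
import Cfsg.Agent.Lib.FusionExt.Invariant
import Cfsg.Agent.Lib.FusionTheory.Centric

set_option autoImplicit false
open Cfsg

namespace Cfsg.Agent.S5160

open Cfsg.FusionSystem Cfsg.Agent.Lib.Fusion.Basic Cfsg.Agent.Lib.Fusion.Saturation Cfsg.Agent.Lib.Fusion.Saturation2
open Cfsg.Agent.Lib.Fusion.GroupSystem Cfsg.Agent.Lib.FusionExt.Invariant Cfsg.Agent.Lib.FusionTheory.Centric

section

variable {Ω : Type*} [Group Ω] {S : Subgroup Ω} [Finite S] {p : ℕ} [Fact p.Prime]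

/-- The `p`-elements of `Aut_F(R)` lie in `Aut_E(R)`, for `E` invariant in `F` over `S`, `R` fully normalized. -/
theorem pElement_mem (hS : IsPGroup p S) (F E : Cfsg.FusionSystem S) (hF : F.IsSaturated p) (hSI : StrongInv F E)
    {R : Subgroup Ω} (hR : F.IsFullyNormalized R) {τ : MulAut R} (hτ : τ ∈ F.autGroup R) {k : ℕ} (hk : τ ^ p ^ k = 1) :
    τ ∈ E.autGroup R := by
  have hRS := hR.1
  have hfR : Finite R := finite_of_le hRS
  obtain ⟨-, T₀, hT₀⟩ := isFullyAutomized_of_isFullyNormalized F hS hF hR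
  let t : F.autGroup R := ⟨τ, hτ⟩
  have hzp : IsPGroup p (Subgroup.zpowers t) := by
    rintro ⟨x, hx⟩
    obtain ⟨m, rfl⟩ := Subgroup.mem_zpowers_iff.1 hx
    have h1 : t ^ p ^ k = 1 := Subtype.ext hk
    have h2 : (t ^ m) ^ p ^ k = 1 := by
      rw [← zpow_natCast, zpow_comm, zpow_natCast, h1, one_zpow]
    exact ⟨k, Subtype.ext h2⟩
  obtain ⟨T₁, hT₁⟩ := hzp.exists_le_sylow
  obtain ⟨ω, hω⟩ := MulAction.exists_smul_eq (F.autGroup R) T₀ T₁
  have htT : t ∈ (T₁ : Subgroup (F.autGroup R)) := hT₁ (Subgroup.mem_zpowers t)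
  rw [← hω] at htT
  obtain ⟨σ, hσ, hσt⟩ := htT
  have hσ' : (σ : F.autGroup R) ∈ (autInducedBy S R).subgroupOf (F.autGroup R) := by
    rw [← hT₀]
    exact hσ
  have hσE : (σ : MulAut R) ∈ E.autGroup R := autInducedBy_le_autGroup E hRS hσ'
  have hσt' : t = ω * σ * ω⁻¹ := hσt.symm
  refine strong_conj_aut hSI hRS (autHom_mem F hRS ω.2) (autHom_range (ω : MulAut R)) hσE τ ?_
  intro x h
  have h1 : τ = (ω : MulAut R) * (σ : MulAut R) * (ω : MulAut R)⁻¹ := congrArg Subtype.val hσt'
  show ((τ ((ω : MulAut R) x) : R) : Ω) = (((ω : MulAut R) ((σ : MulAut R) x) : R) : Ω)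
  rw [h1]
  show ((((ω : MulAut R) ((σ : MulAut R) ((ω : MulAut R)⁻¹ ((ω : MulAut R) x)))) : R) : Ω) = _
  rw [MulAut.inv_apply_self]

end

/-- Let G be a finite group with nontrivial Sylow p-subgroup S and F its fusion system on S. Suppose (a) no nontrivial proper subgroup of S is strongly closed in F, and (b) the automorphisms of S induced by G are generated by those induced, for R running over the fully normalized radical centric subgroups of F, by the subgroup of N_G(R) generated by its elements of p-power order. Then F is simple. -/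
theorem result {G : Type*} [Group G] [Finite G] (p : ℕ) [Fact p.Prime] (S : Sylow p G) (hS1 : (S : Subgroup G) ≠ ⊥) (ha : ∀ T : Subgroup G, (Cfsg.groupFusionSystem (S : Subgroup G)).StronglyClosed T → T = ⊥ ∨ T = (S : Subgroup G)) (hb : Cfsg.autInducedBy ⊤ (S : Subgroup G) = ⨆ (R : Subgroup G) (_ : (Cfsg.groupFusionSystem (S : Subgroup G)).IsFullyNormalized R ∧ (Cfsg.groupFusionSystem (S : Subgroup G)).IsRadical p R ∧ (Cfsg.groupFusionSystem (S : Subgroup G)).IsCentric R), Cfsg.autInducedBy (Subgroup.closure {g : G | g ∈ Subgroup.normalizer (R : Set G) ∧ ∃ k : ℕ, orderOf g = p ^ k}) (S : Subgroup G)) : (Cfsg.groupFusionSystem (S : Subgroup G)).IsSimple p := by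
  let F := Cfsg.groupFusionSystem (S : Subgroup G)
  have hSp : IsPGroup p (S : Subgroup G) := S.isPGroup'
  have hF : F.IsSaturated p := isSaturated S
  refine ⟨hF, hS1, fun T E hE => ?_⟩
  obtain ⟨⟨hEsat, -, hsub, hsc, hinv, hfr⟩, hext⟩ := hE
  rcases ha T hsc with hT | hT
  · exact Or.inl hT
  right
  refine ⟨hT, ?_⟩
  subst hT
  have hSI : StrongInv F E := strong_of_inv hinv hfr
  -- the key claim
  have hauto : F.autGroup (S : Subgroup G) ≤ E.autGroup (S : Subgroup G) := by
    have e1 : F.autGroup (S : Subgroup G) = autInducedBy ⊤ (S : Subgroup G) := autGroup_eq le_rfl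
    rw [e1, hb]
    refine iSup₂_le fun R hR => ?_
    obtain ⟨hRn, hRr, hRc⟩ := hR
    have hRS : R ≤ (S : Subgroup G) := hRn.1
    -- the elements of `K_R` act on `R` as elements of `Aut_E(R)`
    have hK : ∀ g ∈ Subgroup.closure {g : G | g ∈ Subgroup.normalizer (R : Set G) ∧ ∃ k : ℕ, orderOf g = p ^ k},
        ∃ h : g ∈ Subgroup.normalizer (R : Set G), normAct R h ∈ E.autGroup R := by
      intro g hg
      induction hg using Subgroup.closure_induction with
      | mem g hg =>
        obtain ⟨hgN, k, hk⟩ := hg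
        refine ⟨hgN, pElement_mem hSp F E hF hSI hRn ((conj_aut_iff hRS _).2 ⟨g, fun x => rfl⟩) (k := k) ?_⟩
        have h1 : g ^ p ^ k = 1 := by
          rw [← hk]
          exact pow_orderOf_eq_one g
        have h2 : (⟨g, hgN⟩ : Subgroup.normalizer (R : Set G)) ^ p ^ k = 1 := Subtype.ext h1
        show (R.normalizerMonoidHom ⟨g, hgN⟩) ^ p ^ k = 1
        rw [← map_pow, h2, map_one]
      | one =>
        refine ⟨Subgroup.one_mem _, ?_⟩
        have : normAct R (Subgroup.one_mem (Subgroup.normalizer (R : Set G))) = 1 := map_one R.normalizerMonoidHom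
        rw [this]
        exact Subgroup.one_mem _
      | mul x y _ _ hx hy =>
        obtain ⟨h1, h2⟩ := hx
        obtain ⟨h3, h4⟩ := hy
        refine ⟨Subgroup.mul_mem _ h1 h3, ?_⟩
        have : normAct R (Subgroup.mul_mem _ h1 h3) = normAct R h1 * normAct R h3 :=
          map_mul R.normalizerMonoidHom ⟨x, h1⟩ ⟨y, h3⟩
        rw [this]
        exact Subgroup.mul_mem _ h2 h4
      | inv x _ hx =>
        obtain ⟨h1, h2⟩ := hx
        refine ⟨Subgroup.inv_mem _ h1, ?_⟩
        have : normAct R (Subgroup.inv_mem _ h1) = (normAct R h1)⁻¹ := map_inv R.normalizerMonoidHom ⟨x, h1⟩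
        rw [this]
        exact Subgroup.inv_mem _ h2
    intro α hα
    obtain ⟨g, hgK, hgα⟩ := (mem_autInducedBy_iff _ _ α).1 hα
    have hαF : autHom α ∈ F.Hom (S : Subgroup G) := by
      refine ⟨le_rfl, fun x => (α x).2, g, fun x => hgα x⟩
    rw [mem_autGroup_iff E le_rfl]
    refine mem_of_restrict F hSp hF E hEsat hsub hRc hRS hαF ?_
    obtain ⟨h, hh⟩ := hK g hgK
    have e : (autHom α).comp (Subgroup.inclusion hRS) = autHom (normAct R h) := by
      ext x
      exact hgα _
    rw [e]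
    exact autHom_mem E hRS hh
  intro P
  apply Set.Subset.antisymm (hsub P)
  intro φ hφ
  obtain ⟨α, hα, φ₀, hφ₀, hv⟩ := hfr P (F.le_of_mem hφ).1 φ hφ
  exact comp_mem' E hφ₀ (autHom_mem E le_rfl (hauto hα)) (fun x => val_mem E hφ₀ x) φ (fun x => hv x _)

end Cfsg.Agent.S5160
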