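import Cfsg.Statements.S5164

set_option autoImplicit false
set_option linter.style.haveILetI false
set_option linter.unnecessarySeqFocus false
open Cfsg

namespace Cfsg.Agent.S5164
open Equiv Equiv.Perm

theorem comm_of_lt {n p : ℕ} [hp : Fact p.Prime] (S : Sylow p (alternatingGroup (Fin n)))
    (hn : n < p ^ 2) : IsMulCommutative S := by
  have hpp := hp.out
  have hS : IsPGroup p (S : Subgroup (alternatingGroup (Fin n))) := S.isPGroup'
  refine ⟨⟨fun g h => ?_⟩⟩
  apply Subtype.ext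
  apply Subtype.ext
  apply Equiv.ext
  intro x
  let O := MulAction.orbit (S : Subgroup (alternatingGroup (Fin n))) x
  let φ := MulAction.toPermHom (S : Subgroup (alternatingGroup (Fin n))) O
  have hI : IsPGroup p φ.range := hS.of_surjective φ.rangeRestrict φ.rangeRestrict_surjective
  obtain ⟨j, hj⟩ := IsPGroup.iff_card.mp hI
  obtain ⟨k, hk⟩ := hS.card_orbit x
  have hle : Nat.card O ≤ n := by
    have := Nat.card_le_card_of_injective (fun y : O => (y : Fin n)) Subtype.val_injective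
    simpa using this
  have hk1 : k < 2 := by
    by_contra hk2
    push Not at hk2
    have h1 : p ^ 2 ≤ p ^ k := Nat.pow_le_pow_right hpp.pos hk2
    have : Nat.card O = p ^ k := hk
    omega
  have hdvd : p ^ j ∣ (p ^ k).factorial := by
    have h1 : Nat.card φ.range ∣ Nat.card (Perm O) := Subgroup.card_subgroup_dvd_card _
    rw [Nat.card_perm] at h1
    have h2 : Nat.card O = p ^ k := hk
    rw [hj, h2] at h1
    exact h1
  have hj1 : j ≤ 1 := by
    by_contra hj2
    push Not at hj2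
    have h3 : p ^ 2 ∣ (p ^ k).factorial := (pow_dvd_pow p hj2).trans hdvd
    interval_cases k
    · simp at h3
      exact hpp.one_lt.ne' h3
    · simp only [pow_one] at h3
      obtain ⟨q, hq⟩ := Nat.exists_eq_succ_of_ne_zero hpp.ne_zero
      have h3' : p ^ 2 ∣ (q + 1).factorial := by rw [← Nat.succ_eq_add_one, ← hq]; exact h3
      rw [Nat.factorial_succ, ← Nat.succ_eq_add_one, ← hq, pow_two] at h3'
      have h4 : p ∣ q.factorial := Nat.dvd_of_mul_dvd_mul_left hpp.pos h3'
      have := (hpp.dvd_factorial).mp h4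
      omega
  have hcomm : ∀ a b : φ.range, a * b = b * a := by
    intro a b
    interval_cases j
    · have : Subsingleton φ.range := by
        apply (Nat.card_eq_one_iff_unique.mp ?_).1
        simpa using hj
      exact Subsingleton.elim _ _
    · have h5 : Nat.card φ.range = p := by simpa using hj
      have : Fact (Nat.card φ.range).Prime := ⟨by rw [h5]; exact hpp⟩
      have := isCyclic_of_prime_card (α := φ.range) rfl
      exact (IsCyclic.isMulCommutative (α := φ.range)).is_comm.comm a b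
  have h6 := hcomm ⟨φ g, ⟨g, rfl⟩⟩ ⟨φ h, ⟨h, rfl⟩⟩
  have h7 : φ g * φ h = φ h * φ g := congrArg Subtype.val h6
  have h8 := congrArg (fun σ : Perm O => ((σ ⟨x, MulAction.mem_orbit_self x⟩ : O) : Fin n)) h7
  exact h8

theorem not_comm_of_subgroup {n p : ℕ} [hp : Fact p.Prime] {X : Type} [Fintype X] [DecidableEq X]
    (e : X ↪ Fin n) (H : Subgroup (Perm X)) (hpH : IsPGroup p H)
    (hsign : ∀ σ ∈ H, sign σ = 1) (a b : Perm X) (ha : a ∈ H) (hb : b ∈ H) (hab : a * b ≠ b * a)
    (S : Sylow p (alternatingGroup (Fin n))) : ¬ IsMulCommutative S := by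
  intro hcomm
  let φ : Perm X →* Perm (Fin n) := viaEmbeddingHom e
  have hφ : Function.Injective φ := viaEmbeddingHom_injective e
  have hsignφ : ∀ σ, sign (φ σ) = sign σ := by
    intro σ
    show sign (viaEmbedding σ e) = sign σ
    rw [viaEmbedding, sign_extendDomain]
  let ψ : H →* alternatingGroup (Fin n) :=
    { toFun := fun σ => ⟨φ σ, by
        rw [Equiv.Perm.mem_alternatingGroup, hsignφ]; exact hsign _ σ.2⟩
      map_one' := by
        apply Subtype.ext; simp
      map_mul' := fun x y => by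
        apply Subtype.ext; simp }
  have hR : IsPGroup p ψ.range := hpH.of_surjective ψ.rangeRestrict ψ.rangeRestrict_surjective
  obtain ⟨Q, hQ⟩ := hR.exists_le_sylow
  obtain ⟨g, hg⟩ := MulAction.exists_smul_eq (alternatingGroup (Fin n)) Q S
  have ha' : ψ ⟨a, ha⟩ ∈ (Q : Subgroup (alternatingGroup (Fin n))) := hQ ⟨_, rfl⟩
  have hb' : ψ ⟨b, hb⟩ ∈ (Q : Subgroup (alternatingGroup (Fin n))) := hQ ⟨_, rfl⟩
  have mem : ∀ x ∈ (Q : Subgroup (alternatingGroup (Fin n))),
      g * x * g⁻¹ ∈ (S : Subgroup (alternatingGroup (Fin n))) := by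
    intro x hx
    rw [← hg, Sylow.coe_subgroup_smul]
    exact Subgroup.mem_map_of_mem _ hx
  have h1 := hcomm.is_comm.comm ⟨_, mem _ ha'⟩ ⟨_, mem _ hb'⟩
  have h2 := congrArg Subtype.val h1
  simp only [Subgroup.coe_mul] at h2
  have h3 : ψ ⟨a, ha⟩ * ψ ⟨b, hb⟩ = ψ ⟨b, hb⟩ * ψ ⟨a, ha⟩ := by
    have : g * ψ ⟨a, ha⟩ * g⁻¹ * (g * ψ ⟨b, hb⟩ * g⁻¹) = g * (ψ ⟨a, ha⟩ * ψ ⟨b, hb⟩) * g⁻¹ := by group
    rw [this] at h2
    have h2' : g * ψ ⟨b, hb⟩ * g⁻¹ * (g * ψ ⟨a, ha⟩ * g⁻¹) = g * (ψ ⟨b, hb⟩ * ψ ⟨a, ha⟩) * g⁻¹ := by group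
    rw [h2'] at h2
    simpa using h2
  apply hab
  apply hφ
  have h4 := congrArg Subtype.val h3
  simpa [ψ] using h4

section odd

variable {p : ℕ} [hp : Fact p.Prime]

/-- The Heisenberg-type permutations of `𝔽_p²`. -/
def sig (a b c : ZMod p) : Perm (ZMod p × ZMod p) where
  toFun v := (v.1 + a * v.2 + b, v.2 + c)
  invFun v := (v.1 - a * (v.2 - c) - b, v.2 - c)
  left_inv v := by ext <;> simp <;> ring
  right_inv v := by ext <;> simp <;> ring

@[simp] theorem sig_apply (a b c : ZMod p) (v : ZMod p × ZMod p) :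
    sig a b c v = (v.1 + a * v.2 + b, v.2 + c) := rfl

theorem sig_mul (a b c a' b' c' : ZMod p) :
    sig a b c * sig a' b' c' = sig (a + a') (b + b' + a * c') (c + c') := by
  apply Equiv.ext
  intro v
  simp only [Perm.mul_apply, sig_apply]
  ext <;> simp <;> ring

theorem sig_zero : sig (0 : ZMod p) 0 0 = 1 := by
  apply Equiv.ext
  intro v
  simp

theorem sig_pow (a b c : ZMod p) (k : ℕ) :
    sig a b c ^ k = sig ((k : ZMod p) * a) ((k : ZMod p) * b + ((k.choose 2 : ℕ) : ZMod p) * (a * c))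
      ((k : ZMod p) * c) := by
  induction k with
  | zero => simp [sig_zero]
  | succ k ih =>
    rw [pow_succ, ih, sig_mul]
    congr 1
    · push_cast; ring
    · have : (k + 1).choose 2 = k + k.choose 2 := by
        rw [Nat.choose_succ_succ' k 1, Nat.choose_one_right]
      rw [this]; push_cast; ring
    · push_cast; ring

theorem sig_pow_p (hodd : p ≠ 2) (a b c : ZMod p) : sig a b c ^ p = 1 := by
  have hpp := hp.out
  rw [sig_pow]
  have h1 : ((p : ℕ) : ZMod p) = 0 := ZMod.natCast_self p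
  have h2 : ((p.choose 2 : ℕ) : ZMod p) = 0 := by
    rw [ZMod.natCast_eq_zero_iff]
    apply hpp.dvd_choose_self two_ne_zero
    have := hpp.two_le
    omega
  rw [h1, h2]
  simp [sig_zero]

/-- The Heisenberg group acting on `𝔽_p²`. -/
def heis : Subgroup (Perm (ZMod p × ZMod p)) where
  carrier := {σ | ∃ a b c : ZMod p, σ = sig a b c}
  mul_mem' := by
    rintro _ _ ⟨a, b, c, rfl⟩ ⟨a', b', c', rfl⟩
    exact ⟨_, _, _, sig_mul a b c a' b' c'⟩
  one_mem' := ⟨0, 0, 0, sig_zero.symm⟩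
  inv_mem' := by
    rintro _ ⟨a, b, c, rfl⟩
    refine ⟨-a, -b + a * c, -c, ?_⟩
    rw [inv_eq_iff_mul_eq_one, sig_mul, ← sig_zero]
    congr 1 <;> ring

theorem heis_pow (hodd : p ≠ 2) (σ : Perm (ZMod p × ZMod p)) (hσ : σ ∈ (heis : Subgroup _)) :
    σ ^ p = 1 := by
  obtain ⟨a, b, c, rfl⟩ := hσ
  exact sig_pow_p hodd a b c

theorem not_comm_odd {n : ℕ} (hodd : p ≠ 2) (hn : p ^ 2 ≤ n)
    (S : Sylow p (alternatingGroup (Fin n))) : ¬ IsMulCommutative S := by
  have hpp := hp.out
  have hcard : Fintype.card (ZMod p × ZMod p) ≤ Fintype.card (Fin n) := by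
    rw [Fintype.card_prod, ZMod.card, Fintype.card_fin, ← pow_two]
    exact hn
  obtain ⟨e⟩ := Function.Embedding.nonempty_of_card_le hcard
  refine not_comm_of_subgroup e (heis : Subgroup (Perm (ZMod p × ZMod p))) ?_ ?_
    (sig 1 0 0) (sig 0 0 1) ⟨_, _, _, rfl⟩ ⟨_, _, _, rfl⟩ ?_ S
  · intro σ
    refine ⟨1, ?_⟩
    apply Subtype.ext
    simpa using heis_pow hodd σ.1 σ.2
  · intro σ hσ
    have h1 : sign σ ^ p = 1 := by
      rw [← map_pow, heis_pow hodd σ hσ, map_one]
    have hoddp : Odd p := hpp.odd_of_ne_two hodd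
    rcases Int.units_eq_one_or (sign σ) with h | h
    · exact h
    · rw [h, hoddp.neg_one_pow] at h1
      exact absurd h1 (by decide)
  · intro h
    rw [sig_mul, sig_mul] at h
    have h2 := congrArg (fun σ : Perm (ZMod p × ZMod p) => (σ (0, 0)).1) h
    simp at h2

end odd

section two

/-- Generators of a dihedral group of order `8` in `A₆`. -/
def r8 : Perm (Fin 6) := swap 0 1 * swap 1 2 * swap 2 3 * swap 4 5
def s8 : Perm (Fin 6) := swap 0 2 * swap 4 5

def d8L : List (Perm (Fin 6)) :=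
  [1, r8, r8 * r8, r8 * r8 * r8, s8, r8 * s8, r8 * r8 * s8, r8 * r8 * r8 * s8]

set_option maxRecDepth 100000 in
theorem d8_mul : ∀ x ∈ d8L, ∀ y ∈ d8L, x * y ∈ d8L := by decide

set_option maxRecDepth 100000 in
theorem d8_inv : ∀ x ∈ d8L, x⁻¹ ∈ d8L := by decide

set_option maxRecDepth 100000 in
theorem d8_pow : ∀ x ∈ d8L, x ^ 2 ^ 2 = 1 := by decide

theorem r8_sign : sign r8 = 1 := by
  simp [r8]

theorem s8_sign : sign s8 = 1 := by
  simp [s8]

set_option maxRecDepth 100000 in
theorem d8_ne : r8 * s8 ≠ s8 * r8 := by decide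

theorem d8_sign : ∀ x ∈ d8L, sign x = 1 := by
  intro x hx
  simp only [d8L, List.mem_cons, List.not_mem_nil, or_false] at hx
  rcases hx with rfl | rfl | rfl | rfl | rfl | rfl | rfl | rfl <;>
    simp [r8_sign, s8_sign]

def d8 : Subgroup (Perm (Fin 6)) where
  carrier := {σ | σ ∈ d8L}
  mul_mem' := fun ha hb => d8_mul _ ha _ hb
  one_mem' := by simp [d8L]
  inv_mem' := fun ha => d8_inv _ ha

theorem not_comm_two {n : ℕ} [Fact (2 : ℕ).Prime] (hn : 6 ≤ n)
    (S : Sylow 2 (alternatingGroup (Fin n))) : ¬ IsMulCommutative S := by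
  refine not_comm_of_subgroup (Fin.castLEEmb hn) d8 ?_ d8_sign r8 s8 ?_ ?_ d8_ne S
  · intro σ
    refine ⟨2, ?_⟩
    apply Subtype.ext
    simpa using d8_pow σ.1 σ.2
  · show r8 ∈ d8L
    simp [d8L]
  · show s8 ∈ d8L
    simp [d8L]

end two

/-- For n ≥ 6 and a prime p, a nontrivial Sylow p-subgroup of the alternating group of degree n is abelian if and only if n < p². -/
theorem result (n p : ℕ) (hn : 6 ≤ n) [Fact p.Prime] (S : Sylow p (alternatingGroup (Fin n))) (hS : (S : Subgroup (alternatingGroup (Fin n))) ≠ ⊥) : IsMulCommutative S ↔ n < p ^ 2 := by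
  constructor
  · intro hc
    by_contra hlt
    push Not at hlt
    by_cases h2 : p = 2
    · subst h2
      exact not_comm_two hn S hc
    · exact not_comm_odd h2 hlt S hc
  · exact comm_of_lt S

end Cfsg.Agent.S5164
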