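import Cfsg.Statements.S5346
import Cfsg.Agent.Lib.ThreeT.Width
import Cfsg.Agent.Lib.ThreeT.Sylow

set_option autoImplicit false
open Cfsg

namespace Cfsg.Agent.S5346

/-- Let D be a conjugation-invariant generating set of 3-transpositions of a finite group G and d a member of D. Then D has width 1 (no two different members of D commute) if and only if G is the product of the subgroup generated by d with the largest normal 3-subgroup of G. -/
theorem result {G : Type*} [Group G] [Finite G] {D : Set G} (hD : Cfsg.IsThreeTranspositionGroup D) {d : G} (hd : d ∈ D) : Cfsg.commutingWidth D = 1 ↔ Subgroup.zpowers d ⊔ Cfsg.pCore 3 G = ⊤ := by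
  obtain ⟨hS, hconj, hgen⟩ := hD
  have hne : D.Nonempty := ⟨d, hd⟩
  rw [Cfsg.Agent.Lib.ThreeT.Sylow.width_eq_one_iff hS hconj hne]
  have hdd := Cfsg.Agent.Lib.ThreeT.Basic.mul_self_of_mem hS hd
  constructor
  · intro hno
    have hW := Cfsg.Agent.Lib.ThreeT.Width.widthOne_of_no_commuting hS hconj hno
    rw [eq_top_iff, ← hgen, Subgroup.closure_le]
    intro e he
    have h1 : d * e ∈ Cfsg.pCore 3 G := hW.mul_mem_pCore hd he
    have h2 : e = d * (d * e) := by rw [← mul_assoc, hdd, one_mul]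
    rw [h2]
    exact Subgroup.mul_mem _ (Subgroup.mem_sup_left (Subgroup.mem_zpowers d))
      (Subgroup.mem_sup_right h1)
  · intro htop a ha b hb hab
    have hform : ∀ x ∈ D, ∃ q ∈ Cfsg.pCore 3 G, x = d * q := by
      intro x hx
      have hx1 : x ∈ ((Subgroup.zpowers d ⊔ Cfsg.pCore 3 G : Subgroup G) : Set G) := by
        rw [htop]; trivial
      rw [Subgroup.mul_normal] at hx1
      obtain ⟨h, hh, q, hq, rfl⟩ := Set.mem_mul.1 hx1
      obtain ⟨k, rfl⟩ := Subgroup.mem_zpowers_iff.1 hh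
      have hd2 : d ^ (2 : ℤ) = 1 := by
        rw [show (2 : ℤ) = ((2 : ℕ) : ℤ) by norm_num, zpow_natCast, pow_two, hdd]
      rcases Int.even_or_odd' k with ⟨m, rfl | rfl⟩
      · exfalso
        have : d ^ (2 * m) = 1 := by rw [zpow_mul, hd2, one_zpow]
        rw [this, one_mul] at hx
        have hxx := Cfsg.Agent.Lib.ThreeT.Basic.mul_self_of_mem hS hx
        exact Cfsg.Agent.Lib.ThreeT.Basic.ne_one_of_mem hS hx
          (Cfsg.Agent.Lib.ThreeT.Width.eq_one_of_sq_of_mem_pCore hq hxx)
      · refine ⟨q, hq, ?_⟩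
        have : d ^ (2 * m + 1) = d := by rw [zpow_add, zpow_mul, hd2, one_zpow, one_mul, zpow_one]
        rw [this]
    obtain ⟨q, hq, rfl⟩ := hform a ha
    obtain ⟨q', hq', rfl⟩ := hform b hb
    have hinv : (d * q)⁻¹ = d * q := Cfsg.Agent.Lib.ThreeT.Basic.inv_of_mem hS ha
    have hbb := Cfsg.Agent.Lib.ThreeT.Basic.mul_self_of_mem hS hb
    have haa := Cfsg.Agent.Lib.ThreeT.Basic.mul_self_of_mem hS ha
    have h1 : (d * q)⁻¹ * (d * q') ∈ Cfsg.pCore 3 G := by
      have : (d * q)⁻¹ * (d * q') = q⁻¹ * q' := by group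
      rw [this]
      exact Subgroup.mul_mem _ (Subgroup.inv_mem _ hq) hq'
    rw [hinv] at h1
    have h2 : (d * q) * (d * q') * ((d * q) * (d * q')) = 1 := by
      calc (d * q) * (d * q') * ((d * q) * (d * q'))
          = (d * q) * ((d * q') * (d * q)) * (d * q') := by group
        _ = (d * q) * ((d * q) * (d * q')) * (d * q') := by rw [hab.symm.eq]
        _ = ((d * q) * (d * q)) * ((d * q') * (d * q')) := by group
        _ = 1 := by rw [haa, hbb, one_mul]
    have h3 := Cfsg.Agent.Lib.ThreeT.Width.eq_one_of_sq_of_mem_pCore h1 h2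
    have h4 := mul_eq_one_iff_eq_inv.1 h3
    rwa [Cfsg.Agent.Lib.ThreeT.Basic.inv_of_mem hS hb] at h4

end Cfsg.Agent.S5346
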