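import Cfsg.Statements.S5359
import Cfsg.Agent.Lib.ThreeT.F3Refl

set_option autoImplicit false
open scoped MatrixGroups
open Cfsg

namespace Cfsg.Agent.S5359


open Cfsg.Agent.Lib.ThreeT.F3Refl Cfsg.Agent.Lib.OrthRefl.Basic Cfsg.Agent.Lib.Orth.Refl
  Cfsg.Agent.Lib.OrthRefl.Eichler QuadraticMap

variable {n : ℕ} {Q : QuadraticForm (ZMod 3) (Fin n → ZMod 3)}

/-- Two orthogonal reflections of the same norm are two orthogonal reflections of the opposite norm. -/
theorem rG_orth_pair {u w : Fin n → ZMod 3} {e : ZMod 3} (hu : Q u = e) (hw : Q w = e)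
    (h : polar Q u w = 0) (he : e ≠ 0) : rG Q u * rG Q w = rG Q (u + w) * rG Q (u - w) := by
  have hQp : Q (u + w) = -e := by
    rw [Cfsg.Agent.Lib.Orth.Refl.Q_add, hu, hw, h, add_zero, add_self_eq]
  have hQm : Q (u - w) = -e := by
    rw [Cfsg.Agent.Lib.Orth.Refl.Q_sub, hu, hw, h, sub_zero, add_self_eq]
  have hpp : polar Q (u - w) (u + w) = 0 := by
    rw [polar_sub_left, polar_add_right, polar_add_right, polar_self', polar_self', hu, hw, h,
      polar_comm Q w u, h]
    ring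
  have hpp' : polar Q u w = 0 := h
  have hwu : polar Q w u = 0 := by rw [polar_comm]; exact h
  apply iso_ext
  intro x
  rw [mul_mulVec, mul_mulVec, rG_mulVec, rG_mulVec, rG_mulVec, rG_mulVec]
  have e1 : refl Q w x = x - (e * polar Q x w) • w := by rw [refl_apply, hw, inv_self]
  have e2 : refl Q u (refl Q w x) = x - (e * polar Q x w) • w - (e * polar Q x u) • u := by
    rw [e1, refl_apply, hu, inv_self, polar_sub_left, polar_smul_left, hwu]
    simp
  have e3 : refl Q (u - w) x = x + (e * (polar Q x u - polar Q x w)) • (u - w) := by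
    rw [refl_apply, hQm, inv_self, polar_sub_right, neg_mul, neg_smul, sub_neg_eq_add]
  have e4 : refl Q (u + w) (refl Q (u - w) x) =
      x + (e * (polar Q x u - polar Q x w)) • (u - w) + (e * (polar Q x u + polar Q x w)) • (u + w) := by
    rw [e3, refl_apply, hQp, inv_self, polar_add_left, polar_smul_left, hpp, polar_add_right]
    simp
    abel
  rw [e2, e4]
  generalize polar Q x u = a
  generalize polar Q x w = b
  have k1 : ∀ e a b : ZMod 3, e * (a - b) + e * (a + b) = - (e * a) := by decide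
  have k2 : ∀ e a b : ZMod 3, - (e * (a - b)) + e * (a + b) = - (e * b) := by decide
  calc x - (e * b) • w - (e * a) • u = x + (-(e * a)) • u + (- (e * b)) • w := by module
    _ = x + (e * (a - b) + e * (a + b)) • u + (- (e * (a - b)) + e * (a + b)) • w := by rw [k1, k2]
    _ = _ := by module

/-- A homomorphism separating the two norms. -/
theorem exists_sep (hQ : (polarBilin Q).Nondegenerate) (h2n : 2 ≤ n) {c : ZMod 3} (hc : c ≠ 0) :
    ∃ ψ : Cfsg.isometryGroup (ZMod 3) (⇑Q) →* Multiplicative (ZMod 2),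
      (∀ v, Q v = c → ψ (rG Q v) = 1) ∧ (∀ v, Q v = -c → ψ (rG Q v) ≠ 1) := by
  have hcard : Fintype.card (ZMod 3) ≠ 2 ∨ Fintype.card (Fin n) ≠ 4 := Or.inl (by simp [ZMod.card])
  let I := Cfsg.Agent.Lib.Orth.Closure.invHom Q hQ hcard
  have hI : ∀ v, Q v ≠ 0 → I (rG Q v) =
      (Multiplicative.ofAdd (1 : ZMod 2), Multiplicative.ofAdd (Cfsg.Agent.Lib.Orth.Spin.sqc (Q v))) :=
    fun v hv => Cfsg.Agent.Lib.Orth.Closure.invHom_reflEl Q hQ hcard v hv
  have hs1 : Cfsg.Agent.Lib.Orth.Spin.sqc (1 : ZMod 3) = 0 := Cfsg.Agent.Lib.Orth.Spin.sqc_one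
  have hs2 : Cfsg.Agent.Lib.Orth.Spin.sqc (-1 : ZMod 3) = 1 :=
    Cfsg.Agent.Lib.Orth.Spin.sqc_eq_one_iff.2 (by decide)
  have hc' : c = 1 ∨ c = -1 := by revert c; decide
  have h1 : (Multiplicative.ofAdd (1 : ZMod 2)) ≠ 1 := by decide
  have h3 : (Multiplicative.ofAdd (1 : ZMod 2)) * (Multiplicative.ofAdd (1 : ZMod 2)) = 1 := by decide
  rcases hc' with rfl | rfl
  · refine ⟨(MonoidHom.snd _ _).comp I, ?_, ?_⟩
    · intro v hv
      show (I (rG Q v)).2 = 1
      rw [hI v (by rw [hv]; decide), hv, hs1]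
      rfl
    · intro v hv
      show (I (rG Q v)).2 ≠ 1
      rw [hI v (by rw [hv]; decide), hv, hs2]
      exact h1
  · refine ⟨((MonoidHom.fst _ _).comp I) * ((MonoidHom.snd _ _).comp I), ?_, ?_⟩
    · intro v hv
      show (I (rG Q v)).1 * (I (rG Q v)).2 = 1
      rw [hI v (by rw [hv]; decide), hv, hs2]
      exact h3
    · intro v hv
      show (I (rG Q v)).1 * (I (rG Q v)).2 ≠ 1
      rw [hI v (by rw [hv]; decide), hv, neg_neg, hs1]
      exact h1

/-- `H` is normal in the isometry group. -/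
theorem conj_mem_H {c : ZMod 3} (h : Cfsg.isometryGroup (ZMod 3) (⇑Q))
    {g : Cfsg.isometryGroup (ZMod 3) (⇑Q)} (hg : g ∈ Cfsg.reflectionSubgroup (⇑Q) c) :
    h * g * h⁻¹ ∈ Cfsg.reflectionSubgroup (⇑Q) c := by
  induction hg using Subgroup.closure_induction with
  | mem x hx =>
    obtain ⟨v, hv, hx'⟩ := hx
    rw [eq_rG_of_val hx']
    exact Subgroup.subset_closure (rG_conj_mem h hv)
  | one => simp
  | mul a b _ _ iha ihb =>
    have : h * (a * b) * h⁻¹ = (h * a * h⁻¹) * (h * b * h⁻¹) := by group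
    rw [this]
    exact Subgroup.mul_mem _ iha ihb
  | inv a _ iha =>
    have : h * a⁻¹ * h⁻¹ = (h * a * h⁻¹)⁻¹ := by group
    rw [this]
    exact Subgroup.inv_mem _ iha

theorem rG_mem_H {c : ZMod 3} {v : Fin n → ZMod 3} (hv : Q v = c) :
    rG Q v ∈ Cfsg.reflectionSubgroup (⇑Q) c :=
  Subgroup.subset_closure ⟨v, hv, rG_val Q v⟩

/-- Products of two reflections of norm `-c` lie in `H`. -/
theorem pair_mem_H (hn : 5 ≤ n) (hQ : (polarBilin Q).Nondegenerate) {c : ZMod 3} (hc : c ≠ 0)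
    {u w : Fin n → ZMod 3} (hu : Q u = -c) (hw : Q w = -c) :
    rG Q u * rG Q w ∈ Cfsg.reflectionSubgroup (⇑Q) c := by
  have hcc := neg_ne_zero' hc
  have horth : ∀ {a b : Fin n → ZMod 3}, Q a = -c → Q b = -c → polar Q a b = 0 →
      rG Q a * rG Q b ∈ Cfsg.reflectionSubgroup (⇑Q) c := by
    intro a b ha hb hab
    rw [rG_orth_pair ha hb hab hcc]
    have h1 : Q (a + b) = c := by
      rw [Cfsg.Agent.Lib.Orth.Refl.Q_add, ha, hb, hab, add_zero]
      exact (by decide : ∀ c : ZMod 3, -c + -c = c) c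
    have h2 : Q (a - b) = c := by
      rw [Cfsg.Agent.Lib.Orth.Refl.Q_sub, ha, hb, hab, sub_zero]
      exact (by decide : ∀ c : ZMod 3, -c + -c = c) c
    exact Subgroup.mul_mem _ (rG_mem_H h1) (rG_mem_H h2)
  obtain ⟨x, hx1, hx2, hx3⟩ := exists_norm_perp hn hQ w (by rw [hu]; exact hcc) hcc
  have h1 := horth hu hx3 hx1
  have h2 := horth hx3 hw (by rw [polar_comm]; exact hx2)
  have h3 := Subgroup.mul_mem _ h1 h2
  have h4 : rG Q u * rG Q x * (rG Q x * rG Q w) = rG Q u * rG Q w := by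
    calc rG Q u * rG Q x * (rG Q x * rG Q w) = rG Q u * (rG Q x * rG Q x) * rG Q w := by group
      _ = _ := by rw [rG_mul_self, mul_one]
  rwa [h4] at h3

/-- Let Q be a non-degenerate quadratic form on the n-dimensional coordinate space over the field with three elements, n odd and at least 5, and c a non-zero scalar. Then the subgroup of the isometry group of Q generated by the reflections in vectors of norm c has index 2 in the isometry group. -/
theorem result (n : ℕ) (hn : 5 ≤ n) (hodd : Odd n) (Q : QuadraticForm (ZMod 3) (Fin n → ZMod 3)) (hQ : (QuadraticMap.polarBilin Q).Nondegenerate) (c : ZMod 3) (hc : c ≠ 0) : (Cfsg.reflectionSubgroup (⇑Q) c).index = 2 := by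
  have hdim : 2 ≤ Module.finrank (ZMod 3) (Fin n → ZMod 3) := by simp; omega
  obtain ⟨ψ, hψ1, hψ2⟩ := exists_sep hQ (by omega) hc
  obtain ⟨w₀, hw₀⟩ := Cfsg.Agent.Lib.Orth.Closure.exists_Q_eq Q two_ne hQ hdim (-c)
  have hcard : Fintype.card (ZMod 3) ≠ 2 ∨ Fintype.card (Fin n) ≠ 4 := Or.inl (by simp [ZMod.card])
  have hle : Cfsg.reflectionSubgroup (⇑Q) c ≤ ψ.ker := by
    rw [Cfsg.reflectionSubgroup, Subgroup.closure_le]
    rintro g ⟨v, hv, hg⟩
    rw [eq_rG_of_val hg]
    exact hψ1 v hv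
  rw [Subgroup.index_eq_two_iff]
  refine ⟨rG Q w₀, fun b => ?_⟩
  have hex : b * rG Q w₀ ∈ Cfsg.reflectionSubgroup (⇑Q) c ∨ b ∈ Cfsg.reflectionSubgroup (⇑Q) c := by
    induction b using word_induction Q hQ hcard with
    | h1 => right; exact Subgroup.one_mem _
    | hm v g hv ih =>
      rcases cases_ne hc (Q v) with h | h | h
      · exact absurd h hv
      · have hvm := rG_mem_H h
        rcases ih with ih | ih
        · left
          rw [mul_assoc]
          exact Subgroup.mul_mem _ hvm ih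
        · right
          exact Subgroup.mul_mem _ hvm ih
      · have hvm := pair_mem_H hn hQ hc h hw₀
        rcases ih with ih | ih
        · right
          have e : rG Q v * g = (rG Q v * rG Q w₀) * ((rG Q w₀)⁻¹ * (g * rG Q w₀) * ((rG Q w₀)⁻¹)) := by
            group
          rw [e]
          exact Subgroup.mul_mem _ hvm (conj_mem_H _ ih)
        · left
          have e : rG Q v * g * rG Q w₀ = (rG Q v * rG Q w₀) * ((rG Q w₀)⁻¹ * g * ((rG Q w₀)⁻¹)⁻¹) := by
            group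
          rw [e]
          exact Subgroup.mul_mem _ hvm (conj_mem_H _ ih)
  have hno : ¬ (b * rG Q w₀ ∈ Cfsg.reflectionSubgroup (⇑Q) c ∧ b ∈ Cfsg.reflectionSubgroup (⇑Q) c) := by
    rintro ⟨h1, h2⟩
    have h3 : rG Q w₀ ∈ Cfsg.reflectionSubgroup (⇑Q) c := by
      have e : rG Q w₀ = b⁻¹ * (b * rG Q w₀) := by group
      rw [e]
      exact Subgroup.mul_mem _ (Subgroup.inv_mem _ h2) h1
    exact hψ2 w₀ hw₀ (hle h3)
  rcases hex with h | h
  · exact Or.inl ⟨h, fun h' => hno ⟨h, h'⟩⟩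
  · exact Or.inr ⟨h, fun h' => hno ⟨h', h⟩⟩

end Cfsg.Agent.S5359
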