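import Cfsg.Statements.S5363
import Cfsg.Agent.Lib.ThreeT.Basic

set_option autoImplicit false
open Cfsg

namespace Cfsg.Agent.S5363

/-- Two elements of odd order with the same square are equal. -/
theorem eq_of_odd_of_sq_eq {G : Type*} [Group G] [Finite G] {x z : G} (hx : Odd (orderOf x)) (hz : Odd (orderOf z))
    (h : x * x = z * z) : x = z := by
  obtain ⟨k, hk⟩ := hx.mul hz
  have hx1 : x ^ (orderOf x * orderOf z) = 1 := by rw [pow_mul, pow_orderOf_eq_one, one_pow]
  have hz1 : z ^ (orderOf x * orderOf z) = 1 := by rw [mul_comm, pow_mul, pow_orderOf_eq_one, one_pow]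
  have hx2 : x = (x * x) ^ (k + 1) := by
    rw [← pow_two, ← pow_mul]
    have : 2 * (k + 1) = orderOf x * orderOf z + 1 := by omega
    rw [this, pow_succ, hx1, one_mul]
  have hz2 : z = (z * z) ^ (k + 1) := by
    rw [← pow_two, ← pow_mul]
    have : 2 * (k + 1) = orderOf x * orderOf z + 1 := by omega
    rw [this, pow_succ, hz1, one_mul]
  rw [hx2, hz2, h]

theorem inv_pow_mul {G : Type*} [Group G] {a r : G} (h : r⁻¹ * a = a * r) (j : ℕ) :
    (r ^ j)⁻¹ * a = a * r ^ j := by
  induction j with
  | zero => simp
  | succ j ih =>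
    rw [pow_succ', mul_inv_rev, mul_assoc, h, ← mul_assoc, ih, mul_assoc, ← pow_succ, ← pow_succ']

/-- In the group generated by involutions `a b`, with `r = a b`: `a r^k` is a conjugate of `a` or of `b`. -/
theorem mul_pow_mem {G : Type*} [Group G] {D : Set G} (hconj : ∀ g : G, ∀ d ∈ D, g * d * g⁻¹ ∈ D) {a b : G}
    (ha : a ∈ D) (hb : b ∈ D) (haa : a * a = 1) (hbb : b * b = 1) (k : ℕ) : a * (a * b) ^ k ∈ D := by
  have hai : a⁻¹ = a := inv_eq_of_mul_eq_one_left haa
  have hbi : b⁻¹ = b := inv_eq_of_mul_eq_one_left hbb
  have h0 : (a * b)⁻¹ * a = a * (a * b) := by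
    rw [mul_inv_rev, hai, mul_assoc, haa, mul_one, ← mul_assoc, haa, one_mul, hbi]
  have key := inv_pow_mul h0
  rcases Nat.even_or_odd' k with ⟨j, rfl | rfl⟩
  · have h3 : a * (a * b) ^ (2 * j) = ((a * b) ^ j)⁻¹ * a * (a * b) ^ j := by
      rw [key, mul_assoc, ← pow_add, two_mul]
    rw [h3]
    have := hconj ((a * b) ^ j)⁻¹ a ha
    simpa using this
  · have h3 : a * (a * b) ^ (2 * j + 1) = ((a * b) ^ j)⁻¹ * b * (a * b) ^ j := by
      have h4 : ((a * b) ^ j)⁻¹ * b = ((a * b) ^ j)⁻¹ * a * (a * b) := by
        rw [mul_assoc _ a (a * b), ← mul_assoc a a b, haa, one_mul]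
      rw [h4, key, mul_assoc, mul_assoc, ← pow_succ', ← pow_add]
      congr 2
      omega
    rw [h3]
    have := hconj ((a * b) ^ j)⁻¹ b hb
    simpa using this

/-- Let D be a conjugation-invariant set of involutions of a finite group G. Then every product of two members of D has odd order or order 2 if and only if, for every a in D and every b in D different from a and commuting with a, the members of D commuting with a b are exactly those commuting with both a and b. -/
theorem result {G : Type*} [Group G] [Finite G] {D : Set G} (hinv : ∀ d ∈ D, orderOf d = 2) (hconj : ∀ g : G, ∀ d ∈ D, g * d * g⁻¹ ∈ D) : (∀ a ∈ D, ∀ b ∈ D, Odd (orderOf (a * b)) ∨ orderOf (a * b) = 2) ↔ ∀ a ∈ D, ∀ b ∈ D, b ≠ a → Commute a b → {y : G | y ∈ D ∧ Commute (a * b) y} = {y : G | y ∈ D ∧ Commute a y} ∩ {y : G | y ∈ D ∧ Commute b y} := by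
  have hsq : ∀ d ∈ D, d * d = 1 := by
    intro d hd
    have := pow_orderOf_eq_one d
    rw [hinv d hd, pow_two] at this
    exact this
  have hcs := @Cfsg.Agent.Lib.ThreeT.Basic.commute_iff_sq G _
  constructor
  · intro h a ha b hb hne hab
    ext y
    simp only [Set.mem_inter_iff, Set.mem_ofPred_eq]
    constructor
    · rintro ⟨hy, hyab⟩
      have haa := hsq a ha
      have hbb := hsq b hb
      have hyy := hsq y hy
      have hai : a⁻¹ = a := inv_eq_of_mul_eq_one_left haa
      have hbi : b⁻¹ = b := inv_eq_of_mul_eq_one_left hbb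
      have hyi : y⁻¹ = y := inv_eq_of_mul_eq_one_left hyy
      -- the squares of a y and b y agree
      have h_sq : (a * y) * (a * y) = (b * y) * (b * y) := by
        have h1 : y * (a * b) * y = a * b := by
          rw [hyab.symm.eq, mul_assoc, hyy, mul_one]
        have h2 : a * b = b * a := hab.eq
        calc a * y * (a * y) = a * (y * a * y) := by group
          _ = a * ((y * (a * b) * y) * (y * b * y)) := by
            congr 1
            calc y * a * y = y * a * (b * b) * y := by rw [hbb, mul_one]
              _ = (y * (a * b) * y) * (y * b * y) := by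
                simp only [mul_assoc]
                rw [← mul_assoc y y, hyy, one_mul]
          _ = a * ((a * b) * (y * b * y)) := by rw [h1]
          _ = (a * a) * b * y * b * y := by group
          _ = b * y * (b * y) := by rw [haa, one_mul]; group
      have hcomm_ay : Commute a y := by
        rcases h a ha y hy with h1 | h1
        · rcases h b hb y hy with h2 | h2
          · have := eq_of_odd_of_sq_eq h1 h2 h_sq
            have : a = b := mul_right_cancel this
            exact absurd this.symm hne
          · -- (b y)² = 1 so (a y)² = 1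
            have h3 : (b * y) ^ 2 = 1 := by rw [← h2]; exact pow_orderOf_eq_one _
            have h4 : (a * y) ^ 2 = 1 := by rw [pow_two, h_sq, ← pow_two, h3]
            exact (hcs haa hyy).2 h4
        · have h3 : (a * y) ^ 2 = 1 := by rw [← h1]; exact pow_orderOf_eq_one _
          exact (hcs haa hyy).2 h3
      refine ⟨⟨hy, hcomm_ay⟩, hy, ?_⟩
      -- b = a (a b) commutes with y
      have h5 : b = a * (a * b) := by rw [← mul_assoc, haa, one_mul]
      rw [h5]
      exact hcomm_ay.mul_left hyab
    · rintro ⟨⟨hy, h1⟩, _, h2⟩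
      exact ⟨hy, h1.mul_left h2⟩
  · intro h a ha b hb
    rcases Nat.even_or_odd (orderOf (a * b)) with hev | hodd
    · right
      obtain ⟨k, hk⟩ := hev
      have haa := hsq a ha
      have hbb := hsq b hb
      have hai : a⁻¹ = a := inv_eq_of_mul_eq_one_left haa
      have hbi : b⁻¹ = b := inv_eq_of_mul_eq_one_left hbb
      have hpos : 0 < orderOf (a * b) := orderOf_pos _
      have hx2 : ((a * b) ^ k) * ((a * b) ^ k) = 1 := by
        rw [← pow_add, ← hk, pow_orderOf_eq_one]
      have hx1 : (a * b) ^ k ≠ 1 := by
        intro hx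
        have := orderOf_dvd_of_pow_eq_one hx
        have hle := Nat.le_of_dvd (by omega) this
        omega
      set x := (a * b) ^ k with hxdef
      have hxi : x⁻¹ = x := inv_eq_of_mul_eq_one_left hx2
      -- c = a x in D
      have hc : a * x ∈ D := mul_pow_mem hconj ha hb haa hbb k
      have hr0 : (a * b)⁻¹ * a = a * (a * b) := by
        rw [mul_inv_rev, hai, mul_assoc, haa, mul_one, ← mul_assoc, haa, one_mul, hbi]
      have hax : x * a = a * x := by
        have := inv_pow_mul hr0 k
        rw [← hxdef, hxi] at this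
        exact this
      have hr1 : (a * b)⁻¹ * b = b * (a * b) := by
        rw [mul_inv_rev, hai, hbi, mul_assoc]
      have hbx : x * b = b * x := by
        have := inv_pow_mul hr1 k
        rw [← hxdef, hxi] at this
        exact this
      have hne : a * x ≠ a := by
        intro hh
        apply hx1
        exact mul_left_cancel (a := a) (by rw [hh, mul_one])
      have hcomm : Commute a (a * x) := by
        show a * (a * x) = a * x * a
        rw [mul_assoc, hax.symm]
      have key := h a ha (a * x) hc hne hcomm
      have hb_mem : b ∈ {y : G | y ∈ D ∧ Commute (a * (a * x)) y} := by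
        refine ⟨hb, ?_⟩
        rw [← mul_assoc, haa, one_mul]
        exact hbx
      rw [key] at hb_mem
      have h6 : Commute a b := hb_mem.1.2
      have h7 : (a * b) ^ 2 = 1 := (hcs haa hbb).1 h6
      have hdvd : orderOf (a * b) ∣ 2 := orderOf_dvd_of_pow_eq_one h7
      have hle := Nat.le_of_dvd (by norm_num) hdvd
      have hk1 : k ≠ 0 := by omega
      omega
    · exact Or.inl hodd

end Cfsg.Agent.S5363
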