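import Cfsg.Statements.S5364
import Cfsg.Agent.Lib.ThreeT.Basic

set_option autoImplicit false
open Cfsg

namespace Cfsg.Agent.S5364

/-- Let D be a conjugation-invariant set of involutions of a finite group G and t an involution in the centre of G such that d t does not lie in D for any d in D. If the images of the members of D in G modulo the subgroup generated by t satisfy the 3-transposition order conditions (each has order 2 and any two have product of order at most 3), then so do the members of D. -/
theorem result {G : Type*} [Group G] [Finite G] {D : Set G} (hinv : ∀ d ∈ D, orderOf d = 2) (hconj : ∀ g : G, ∀ d ∈ D, g * d * g⁻¹ ∈ D) (t : G) (ht : orderOf t = 2) (htZ : t ∈ Subgroup.center G) (hDt : ∀ d ∈ D, d * t ∉ D) [(Subgroup.zpowers t).Normal] (himg : Cfsg.IsThreeTranspositionSet ((QuotientGroup.mk : G → G ⧸ Subgroup.zpowers t) '' D)) : Cfsg.IsThreeTranspositionSet D := by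
  refine ⟨hinv, ?_⟩
  intro a ha b hb
  have haa : a * a = 1 := by
    have := pow_orderOf_eq_one a
    rw [hinv a ha, pow_two] at this
    exact this
  have hbb : b * b = 1 := by
    have := pow_orderOf_eq_one b
    rw [hinv b hb, pow_two] at this
    exact this
  have hai : a⁻¹ = a := inv_eq_of_mul_eq_one_left haa
  have hbi : b⁻¹ = b := inv_eq_of_mul_eq_one_left hbb
  have htcomm : ∀ x : G, t * x = x * t := fun x => (Subgroup.mem_center_iff.mp htZ x).symm
  have h_img := himg.2 (QuotientGroup.mk a) ⟨a, ha, rfl⟩ (QuotientGroup.mk b) ⟨b, hb, rfl⟩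
  have hmem : ∀ y : G, ((QuotientGroup.mk y : G ⧸ Subgroup.zpowers t) = 1) → y = 1 ∨ y = t := by
    intro y hy
    have h1 : y ∈ Subgroup.zpowers t := (QuotientGroup.eq_one_iff y).mp hy
    obtain ⟨k, rfl⟩ := Subgroup.mem_zpowers_iff.mp h1
    have htt : t ^ (2 : ℤ) = 1 := by
      have := pow_orderOf_eq_one t
      rw [ht] at this
      exact_mod_cast this
    rcases Int.emod_two_eq_zero_or_one k with h0 | h0
    · left
      rw [← Int.emod_add_mul_ediv k 2, h0, zero_add, zpow_mul, htt, one_zpow]
    · right
      rw [← Int.emod_add_mul_ediv k 2, h0, zpow_add, zpow_mul, htt, one_zpow, mul_one, zpow_one]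
  have hconj' : ∀ x y : G, x ∈ D → y * x * y⁻¹ ∈ D := fun x y hx => hconj y x hx
  rcases h_img with h2 | h3
  · have h2' : (QuotientGroup.mk ((a * b) ^ 2) : G ⧸ Subgroup.zpowers t) = 1 := by
      simpa using h2
    rcases hmem _ h2' with h | h
    · exact Or.inl h
    · exfalso
      -- `a t = b a b`, a conjugate of `a`
      apply hDt a ha
      have h4 : a * t = b * a * b⁻¹ := by
        rw [← h, hbi, pow_two]
        calc a * (a * b * (a * b)) = (a * a) * b * a * b := by group
          _ = b * a * b := by rw [haa, one_mul]
      rw [h4]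
      exact hconj b a ha
  · have h3' : (QuotientGroup.mk ((a * b) ^ 3) : G ⧸ Subgroup.zpowers t) = 1 := by
      simpa using h3
    rcases hmem _ h3' with h | h
    · exact Or.inr h
    · exfalso
      apply hDt a ha
      have h4 : a * t = (b * a) * b * (b * a)⁻¹ := by
        rw [← h, mul_inv_rev, hai, hbi]
        calc a * (a * b) ^ 3 = a * (a * b * (a * b * (a * b))) := by
              simp only [pow_succ, pow_zero, one_mul, mul_assoc]
          _ = (a * a) * b * a * b * a * b := by group
          _ = b * a * b * (a * b) := by rw [haa, one_mul]; group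
      rw [h4]
      exact hconj (b * a) b hb

end Cfsg.Agent.S5364
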