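import Cfsg.Statements.S5379
import Cfsg.Agent.Lib.SuzInv.Rep
import Cfsg.Agent.Lib.SuzInv.NormalForm
import Cfsg.Agent.Lib.SuzInv.IntoC
import Cfsg.Agent.Lib.SuzInv.Core5
import Cfsg.Agent.Lib.SuzInv.Final

set_option autoImplicit false
open Cfsg

namespace Cfsg.Agent.S5379

open Cfsg.Agent.Lib.SuzInv Cfsg.Agent.Lib.SuzInv.Defs Cfsg.Agent.Lib.SuzInv.Core

/-- Let G be a finite group of Suzuki sporadic type: it has an involution z whose centralizer C has generalized Fitting subgroup Q extraspecial of order 2^7 with C/Q isomorphic to the commutator subgroup of the isometry group of the elliptic quadratic form in dimension 6 over the field with two elements, and some conjugate of z other than z lies in Q. Then G has exactly two conjugacy classes of involutions. -/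
theorem result {G : Type*} [Group G] [Finite G] (z : G) (hz : orderOf z = 2) (Q : Subgroup (Subgroup.centralizer ({z} : Set G))) [Q.Normal] (hF : Cfsg.generalizedFittingSubgroup (Subgroup.centralizer ({z} : Set G)) = Q) (hQ : Cfsg.IsExtraspecial 2 Q) (hcard : Nat.card Q = 2 ^ 7) (e : (Subgroup.centralizer ({z} : Set G)) ⧸ Q ≃* Cfsg.Omega (ZMod 2) (Cfsg.quadFormMinus 2 (ZMod 2) 1 1)) (hnwc : ∃ g : G, (∃ hq : g * z * g⁻¹ ∈ Subgroup.centralizer ({z} : Set G), (⟨g * z * g⁻¹, hq⟩ : Subgroup.centralizer ({z} : Set G)) ∈ Q) ∧ g * z * g⁻¹ ≠ z) : ∃ a b : G, orderOf a = 2 ∧ orderOf b = 2 ∧ ¬ IsConj a b ∧ ∀ x : G, orderOf x = 2 → IsConj x a ∨ IsConj x b := by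
  obtain ⟨S, hSQ⟩ := Rep.exists_setup z hz Q hF hQ hcard e
  obtain ⟨g₀, ⟨hq, hg₁⟩, hg₂⟩ := hnwc
  have hg₀ : g₀ * z * g₀⁻¹ ∈ S.Q := by
    rw [hSQ]
    exact ⟨_, hg₁, rfl⟩
  obtain ⟨g, t, hNF⟩ := NormalForm.exists_NF S g₀ hg₀ hg₂
  have ord2 : ∀ x : G, x * x = 1 → x ≠ 1 → orderOf x = 2 := by
    intro x h1 h2
    apply orderOf_eq_prime
    · rw [sq]; exact h1
    · exact h2
  have sq2 : ∀ x : G, orderOf x = 2 → x * x = 1 ∧ x ≠ 1 := by
    intro x hx
    constructor
    · have := pow_orderOf_eq_one x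
      rw [hx, sq] at this
      exact this
    · rintro rfl
      simp at hx
  have conj_of : ∀ c x y : G, c * x * c⁻¹ = y → IsConj x y := by
    intro c x y h
    exact isConj_iff.2 ⟨c, h⟩
  refine ⟨z, NF.uu hNF, hz, ord2 _ (NF.uu_sq hNF) (NF.uu_ne_one hNF), ?_, ?_⟩
  · intro hc
    obtain ⟨c, hc⟩ := isConj_iff.1 hc
    exact Final.not_conj S (NF.uu hNF) (NF.uu_ne_z hNF) (NF.uu_z hNF)
      (fun c h1 h2 => NF.S_exp hNF h1 h2)
      (fun n _ hn => NF.z_char hNF hn) ⟨c, hc⟩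
  · intro x hx
    obtain ⟨h1, h2⟩ := sq2 x hx
    obtain ⟨h, hh⟩ := IntoC.exists_conj_comm S x h1
    have h3 : (h * x * h⁻¹) * (h * x * h⁻¹) = 1 := by
      calc (h * x * h⁻¹) * (h * x * h⁻¹) = h * (x * x) * h⁻¹ := by group
        _ = 1 := by rw [h1]; group
    have h4 : h * x * h⁻¹ ≠ 1 := by
      intro e0
      apply h2
      have : x = h⁻¹ * (h * x * h⁻¹) * h := by group
      rw [this, e0]; group
    rcases NF.inv_C hNF hh h3 h4 with ⟨c, hc⟩ | ⟨c, hc⟩
    · left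
      apply conj_of (c * h)
      rw [← hc]; group
    · right
      apply conj_of (c * h)
      rw [← hc]; group

end Cfsg.Agent.S5379
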