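import Cfsg.Statements.S5387
import Cfsg.Agent.Lib.CoverL34.Cover
import Cfsg.Agent.Lib.Schur.Pullback

set_option autoImplicit false
open Cfsg

namespace Cfsg.Agent.S5387

open Cfsg.Agent.Lib.CoverL34.Cover Cfsg.Agent.Lib.Schur.Pullback Matrix Subgroup

/-- A surjection onto a group whose centre has order four is injective when the kernel of its composite to the
central quotient has order at most four. -/
theorem injective_of_card {Y L D : Type*} [Group Y] [Finite Y] [Group L] [Group D] (p : Y →* L)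
    (hp : Function.Surjective p) (π : L →* D) (hπ : π.ker = center L) (hc : Nat.card (center L) = 4)
    (hk : Nat.card (π.comp p).ker ≤ 4) : Function.Injective p := by
  have hmem : ∀ y : (π.comp p).ker, p y.1 ∈ center L := by
    intro y
    rw [← hπ, MonoidHom.mem_ker]
    exact y.2
  let q : (π.comp p).ker → center L := fun y => ⟨p y.1, hmem y⟩
  have hq : Function.Surjective q := by
    intro z
    obtain ⟨y, hy⟩ := hp z.1
    have h1 : y ∈ (π.comp p).ker := by
      have h2 : z.1 ∈ π.ker := by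
        rw [hπ]
        exact z.2
      rw [MonoidHom.mem_ker, MonoidHom.comp_apply, hy]
      exact h2
    exact ⟨⟨y, h1⟩, Subtype.ext hy⟩
  have hb := hq.bijective_of_nat_card_le (hk.trans hc.ge)
  rw [injective_iff_map_eq_one]
  intro y hy
  have h1 : y ∈ (π.comp p).ker := by
    rw [MonoidHom.mem_ker, MonoidHom.comp_apply, hy, map_one]
  have h2 : q ⟨y, h1⟩ = q 1 := Subtype.ext (by
    show p y = p 1
    rw [hy, map_one])
  have h3 := hb.1 h2
  exact congrArg Subtype.val h3

/-- Perfectness of the commutator subgroup of a central-by-perfect group. -/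
theorem perfect_commutator {P L : Type*} [Group P] [Group L] (g : P →* L) (hg : Function.Surjective g)
    (hL : commutator L = ⊤) (hz : g.ker ≤ center P) : commutator (commutator P) = ⊤ := by
  have h1 : (commutator P) ⊔ g.ker = ⊤ := by
    rw [eq_top_iff]
    intro x _
    have h2 : g x ∈ (commutator P).map g := by
      have h3 := Cfsg.Agent.Lib.Schur.Pullback.commutator_le_map_of_surj g hg
      rw [hL] at h3
      exact h3 (mem_top _)
    obtain ⟨y, hy, hyx⟩ := h2
    refine Subgroup.mem_sup_of_normal_right.mpr ⟨y, hy, y⁻¹ * x, ?_, by group⟩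
    rw [MonoidHom.mem_ker, map_mul, map_inv, hyx, inv_mul_cancel]
  have h2 := commutator_le_of_sup_central _ _ hz h1
  rw [eq_top_iff]
  intro x _
  have h3 : x.1 ∈ (commutator (commutator P)).map (commutator P).subtype := by
    rw [Subgroup.map_subtype_commutator]
    exact h2 x.2
  obtain ⟨y, hy, hyx⟩ := h3
  have h4 : y = x := Subtype.ext hyx
  rw [← h4]
  exact hy

/-- Up to isomorphism there is at most one quasisimple group whose centre is elementary abelian of order 4 and whose central quotient is isomorphic to the projective special linear group of dimension 3 over the field with four elements: any two such groups are isomorphic. -/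
theorem result {L₁ L₂ : Type*} [Group L₁] [Finite L₁] [Group L₂] [Finite L₂] (F : Type) [Field F] [Fintype F] (hF : Fintype.card F = 4) (h₁ : Cfsg.IsQuasisimple L₁) (h₂ : Cfsg.IsQuasisimple L₂) (hc₁ : Nat.card (Subgroup.center L₁) = 4) (hc₂ : Nat.card (Subgroup.center L₂) = 4) (he₁ : ∀ x ∈ Subgroup.center L₁, x * x = 1) (he₂ : ∀ x ∈ Subgroup.center L₂, x * x = 1) (e₁ : L₁ ⧸ Subgroup.center L₁ ≃* Matrix.ProjectiveSpecialLinearGroup (Fin 3) F) (e₂ : L₂ ⧸ Subgroup.center L₂ ≃* Matrix.ProjectiveSpecialLinearGroup (Fin 3) F) : Nonempty (L₁ ≃* L₂) := by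
  classical
  let π₁ : L₁ →* Matrix.ProjectiveSpecialLinearGroup (Fin 3) F := e₁.toMonoidHom.comp (QuotientGroup.mk' (center L₁))
  let π₂ : L₂ →* Matrix.ProjectiveSpecialLinearGroup (Fin 3) F := e₂.toMonoidHom.comp (QuotientGroup.mk' (center L₂))
  have hs₁ : Function.Surjective π₁ := e₁.surjective.comp (QuotientGroup.mk'_surjective _)
  have hs₂ : Function.Surjective π₂ := e₂.surjective.comp (QuotientGroup.mk'_surjective _)
  have hk₁ : π₁.ker = center L₁ := by
    ext x
    rw [MonoidHom.mem_ker]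
    show e₁ (QuotientGroup.mk x) = 1 ↔ _
    rw [map_eq_one_iff e₁ e₁.injective, QuotientGroup.eq_one_iff]
  have hk₂ : π₂.ker = center L₂ := by
    ext x
    rw [MonoidHom.mem_ker]
    show e₂ (QuotientGroup.mk x) = 1 ↔ _
    rw [map_eq_one_iff e₂ e₂.injective, QuotientGroup.eq_one_iff]
  have hp₁ : commutator L₁ = ⊤ := Group.isPerfect_def.mp h₁.1
  have hp₂ : commutator L₂ = ⊤ := Group.isPerfect_def.mp h₂.1
  -- the pullback
  let P := Cfsg.Agent.Lib.Schur.Pullback.P π₁ π₂
  have hmemP : ∀ x : P, π₁ x.1.1 = π₂ x.1.2 := fun x => x.2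
  have hfst : Function.Surjective (fstP π₁ π₂) := fstP_surj hs₂
  have hsnd : Function.Surjective (sndP π₁ π₂) := sndP_surj hs₁
  -- the commutator subgroup
  let Y := commutator P
  have hY : commutator Y = ⊤ := by
    apply perfect_commutator (fstP π₁ π₂) hfst hp₁
    intro x hx
    rw [mem_center_iff]
    intro y
    have h1 : x.1.1 = 1 := hx
    have h2 : π₂ x.1.2 = 1 := by
      rw [← hmemP, h1, map_one]
    have h3 : x.1.2 ∈ center L₂ := by
      rw [← hk₂]
      exact h2
    apply Subtype.ext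
    apply Prod.ext
    · show y.1.1 * x.1.1 = x.1.1 * y.1.1
      rw [h1, one_mul, mul_one]
    · exact mem_center_iff.mp h3 y.1.2
  let p₁ : Y →* L₁ := (fstP π₁ π₂).comp Y.subtype
  let p₂ : Y →* L₂ := (sndP π₁ π₂).comp Y.subtype
  have hps₁ : Function.Surjective p₁ := by
    intro l
    have h3 := commutator_le_map_of_surj (fstP π₁ π₂) hfst
    rw [hp₁] at h3
    obtain ⟨y, hy, hyx⟩ := h3 (mem_top l)
    exact ⟨⟨y, hy⟩, hyx⟩
  have hps₂ : Function.Surjective p₂ := by
    intro l
    have h3 := commutator_le_map_of_surj (sndP π₁ π₂) hsnd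
    rw [hp₂] at h3
    obtain ⟨y, hy, hyx⟩ := h3 (mem_top l)
    exact ⟨⟨y, hy⟩, hyx⟩
  have hff : π₁.comp p₁ = π₂.comp p₂ := by
    ext y
    exact hmemP y.1
  have hker : ∀ y : Y, y ∈ (π₁.comp p₁).ker → p₁ y ∈ center L₁ ∧ p₂ y ∈ center L₂ := by
    intro y hy
    constructor
    · rw [← hk₁]
      exact hy
    · rw [← hk₂]
      rw [hff] at hy
      exact hy
  have hcard : Nat.card (π₁.comp p₁).ker ≤ 4 := by
    apply card_ker_le hF (π₁.comp p₁) (hs₁.comp hps₁) _ _ hY
    · intro y hy
      rw [mem_center_iff]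
      intro z
      obtain ⟨h1, h2⟩ := hker y hy
      apply Subtype.ext
      apply Subtype.ext
      apply Prod.ext
      · exact mem_center_iff.mp h1 (p₁ z)
      · exact mem_center_iff.mp h2 (p₂ z)
    · intro y hy
      obtain ⟨h1, h2⟩ := hker y hy
      apply Subtype.ext
      apply Subtype.ext
      apply Prod.ext
      · exact he₁ _ h1
      · exact he₂ _ h2
  have hinj₁ := injective_of_card p₁ hps₁ π₁ hk₁ hc₁ hcard
  have hinj₂ := injective_of_card p₂ hps₂ π₂ hk₂ hc₂ (by rw [← hff]; exact hcard)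
  exact ⟨(MulEquiv.ofBijective p₁ ⟨hinj₁, hps₁⟩).symm.trans (MulEquiv.ofBijective p₂ ⟨hinj₂, hps₂⟩)⟩

end Cfsg.Agent.S5387
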