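import Cfsg.Statements.S5389
import Cfsg.Agent.Lib.SuzLeech.CoQuo
import Cfsg.Agent.Lib.SuzLeech.Hyp

set_option autoImplicit false
open Cfsg

namespace Cfsg.Agent.S5389

/-- A simple section of the automorphism group of the Leech lattice satisfying the Suzuki-sporadic-type hypothesis (the group so obtained is the sporadic Suzuki group; that identification is not part of this statement): there is a subgroup A of order 3 of that automorphism group such that the centralizer of A modulo the subgroup generated by A and the centre of the automorphism group is a non-abelian simple group satisfying the large extraspecial hypothesis of minus type in dimension 6 — an involution whose centralizer has extraspecial generalized Fitting subgroup of order 2^7 with quotient the commutator subgroup of the isometry group of the elliptic quadratic form in dimension 6 over the field with two elements, the involution not weakly closed in that extraspecial group. -/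
theorem result : ∃ A : Subgroup ↥Cfsg.Co0, Nat.card A = 3 ∧ ∃ (hn : ((A ⊔ Subgroup.center ↥Cfsg.Co0).subgroupOf (Subgroup.centralizer (A : Set ↥Cfsg.Co0))).Normal), ∃ (S : Type) (_ : Group S) (_ : Finite S), Nonempty (S ≃* ↥(Subgroup.centralizer (A : Set ↥Cfsg.Co0)) ⧸ (A ⊔ Subgroup.center ↥Cfsg.Co0).subgroupOf (Subgroup.centralizer (A : Set ↥Cfsg.Co0))) ∧ IsSimpleGroup S ∧ ¬ IsMulCommutative S ∧ ∃ z : S, orderOf z = 2 ∧ ∃ (Q : Subgroup (Subgroup.centralizer ({z} : Set S))) (_ : Q.Normal), Cfsg.generalizedFittingSubgroup (Subgroup.centralizer ({z} : Set S)) = Q ∧ Cfsg.IsExtraspecial 2 Q ∧ Nat.card Q = 2 ^ 7 ∧ Nonempty ((Subgroup.centralizer ({z} : Set S)) ⧸ Q ≃* Cfsg.Omega (ZMod 2) (Cfsg.quadFormMinus 2 (ZMod 2) 1 1)) ∧ ∃ g : S, (∃ hq : g * z * g⁻¹ ∈ Subgroup.centralizer ({z} : Set S), (⟨g * z * g⁻¹, hq⟩ : Subgroup.centralizer ({z} : Set S)) ∈ Q) ∧ g * z * g⁻¹ ≠ z := by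
  obtain ⟨z, hz, Q, hQ, h1, h2, h3, h4, g, h5, h6⟩ := Cfsg.Agent.Lib.SuzLeech.Hyp.suz_hyp
  have hS : Cfsg.IsSuz Cfsg.Spor.Suz := Cfsg.Agent.S1694.result
  have hf : Finite Cfsg.Spor.Suz := Nat.finite_of_card_ne_zero (by rw [hS.2]; norm_num)
  refine ⟨Cfsg.Agent.Lib.SuzLeech.Co.A0, Cfsg.Agent.Lib.SuzLeech.Co.card_A0, Cfsg.Agent.Lib.SuzLeech.Co.normal_Z0,
    Cfsg.Spor.Suz, inferInstance, hf, ⟨Cfsg.Agent.Lib.SuzLeech.Co.quoEquiv⟩, hS.1, ?_,
    z, hz, Q, hQ, h1, h2, h3, h4, g, h5, h6⟩
  intro hc
  have hz1 : z ≠ 1 := by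
    intro e
    rw [e, orderOf_one] at hz
    omega
  have hcen : (Subgroup.center Cfsg.Spor.Suz) = ⊤ := by
    ext x
    simp only [Subgroup.mem_top, iff_true]
    rw [Subgroup.mem_center_iff]
    intro y
    exact hc.is_comm.comm y x
  -- an abelian simple group has prime order, which is not the case here
  have hcomm : IsMulCommutative Cfsg.Spor.Suz := hc
  have hN : (Subgroup.zpowers z).Normal := by
    constructor
    intro n hn y
    rw [hc.is_comm.comm y n, mul_inv_cancel_right]
    exact hn
  rcases hS.1.eq_bot_or_eq_top_of_normal _ hN with e | e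
  · exact hz1 (Subgroup.zpowers_eq_bot.1 e)
  · have h7 : Nat.card (Subgroup.zpowers z) = 2 := by rw [Nat.card_zpowers, hz]
    rw [e, Nat.card_congr Subgroup.topEquiv.toEquiv, hS.2] at h7
    norm_num at h7

end Cfsg.Agent.S5389
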