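import Cfsg.Statements.S5393
import Cfsg.Agent.Lib.Golay.Dodecad

set_option autoImplicit false
open Cfsg

namespace Cfsg.Agent.S5393

open Cfsg.Agent.Lib.Golay.Core Cfsg.Agent.Lib.Golay.Perm Cfsg.Agent.Lib.Golay.Chain
  Cfsg.Agent.Lib.Golay.M24 Cfsg.Agent.Lib.Golay.Basic Cfsg.Agent.Lib.Golay.Dodecad
open scoped Pointwise

/-- Transport of a word of `W` along the group. -/
theorem transport {W : Submodule (ZMod 2) (GolayPt → ZMod 2)}
    (hinv : ∀ σ ∈ M24, ∀ w ∈ W, (fun p => w (σ.symm p)) ∈ W)
    {v v' : GolayPt → ZMod 2} (hv : v ∈ W) {σ : Equiv.Perm GolayPt} (hσ : σ ∈ M24)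
    (h : σ • support₂ v = support₂ v') : v' ∈ W := by
  have h1 := hinv σ hσ v hv
  have h2 : σ • support₂ v = support₂ (v ∘ σ.symm) := support_comp σ v
  have h3 : v' = fun p => v (σ.symm p) := by
    apply support₂_injective
    rw [← h, h2]
    rfl
  rw [h3]
  exact h1

theorem code_le_of_octad {W : Submodule (ZMod 2) (GolayPt → ZMod 2)}
    (hinv : ∀ σ ∈ M24, ∀ w ∈ W, (fun p => w (σ.symm p)) ∈ W)
    {v : GolayPt → ZMod 2} (hv : v ∈ W) (ho : support₂ v ∈ octads) : golayCode ≤ W := by
  intro w hw
  refine code_induction (C := fun x => x ∈ W) W.zero_mem (fun a b ha hb => W.add_mem ha hb) ?_ hw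
  intro b hb
  obtain ⟨σ, hσ, h⟩ := octad_transitive ho (setOf_basis_mem hb)
  refine transport hinv hv hσ ?_
  rw [h, support_wordOf]

/-- Two code masks of weight twelve whose sum has weight eight. -/
def d1 : ℕ := 8245261
def d2 : ℕ := 15953934

theorem result : (fun _ : Cfsg.GolayPt => (1 : ZMod 2)) ∈ Cfsg.golayCode ∧ ∀ W : Submodule (ZMod 2) (Cfsg.GolayPt → ZMod 2), (fun _ => (1 : ZMod 2)) ∈ W → W ≤ Cfsg.golayCode → (∀ σ ∈ Cfsg.M24, ∀ w ∈ W, (fun p => w (σ.symm p)) ∈ W) → W = Submodule.span (ZMod 2) {fun _ => (1 : ZMod 2)} ∨ W = Cfsg.golayCode := by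
  have hone : (fun _ : Cfsg.GolayPt => (1 : ZMod 2)) = 1 := rfl
  refine ⟨Submodule.subset_span (Set.mem_union_right _ rfl), ?_⟩
  intro W h1 hle hinv
  by_cases hW : ∀ w ∈ W, w = 0 ∨ w = 1
  · left
    apply le_antisymm
    · intro w hw
      rcases hW w hw with rfl | rfl
      · exact Submodule.zero_mem _
      · exact Submodule.subset_span rfl
    · rw [Submodule.span_le]
      rintro _ rfl
      exact h1
  · right
    apply le_antisymm hle
    push Not at hW
    obtain ⟨w, hw, hw0, hw1⟩ := hW
    obtain ⟨m, hm, rfl⟩ := mem_golayCode_iff.mp (hle hw)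
    have hcard : (support₂ (wordOf (code m))).card = pop (code m) := by
      rw [support_wordOf, card_setOf]
    have hcode : wordOf (code m) ∈ golayCode := wordOf_code_mem hm
    rcases code_weights m hm with h | h | h | h | h
    · exfalso
      apply hw0
      have h2 : code m = 0 := by
        apply eq_of_setOf_eq (code_lt hm) (by norm_num)
        have : Lib.Golay.Core.setOf (code m) = ∅ := by
          rw [← Finset.card_eq_zero, card_setOf, h]
        rw [this]
        ext p
        simp [Lib.Golay.Core.setOf]
      rw [h2, wordOf_zero]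
    · exact code_le_of_octad hinv hw (by
        rw [mem_octads_iff]
        exact ⟨m, hm, h, support_wordOf _⟩)
    · -- a dodecad
      have hd : support₂ (wordOf (code m)) ∈ dodecads := by
        rw [mem_dodecads_iff]
        exact ⟨m, hm, h, support_wordOf _⟩
      have hmem : ∀ n < 2 ^ 24, isCode n = true → pop n = 12 → wordOf n ∈ W := by
        intro n hn hc hp
        have hd' : setOf n ∈ dodecads := (setOf_mem_dodecads_iff hn).mpr ⟨hc, hp⟩
        obtain ⟨σ, hσ, hh⟩ := dodecad_transitive hd hd'
        refine transport hinv hw hσ ?_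
        rw [hh, support_wordOf]
      have h3 := W.add_mem (hmem d1 (by decide +kernel) (by decide +kernel) (by decide +kernel))
        (hmem d2 (by decide +kernel) (by decide +kernel) (by decide +kernel))
      rw [← wordOf_xor] at h3
      refine code_le_of_octad hinv h3 ?_
      rw [support_wordOf]
      exact (setOf_mem_octads_iff (by decide +kernel)).mpr ⟨by decide +kernel, by decide +kernel⟩
    · -- weight 16: add the all-ones word
      have h3 : wordOf (code m) + 1 ∈ W := W.add_mem hw h1
      refine code_le_of_octad hinv h3 ?_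
      refine (show support₂ (wordOf (code m) + 1) ∈ wordsOfWeight (golayCode : Set (GolayPt → ZMod 2)) 8 from ?_)
      refine ⟨⟨_, golayCode.add_mem hcode (Submodule.subset_span (Set.mem_union_right _ rfl)), rfl⟩, ?_⟩
      have h4 : support₂ (wordOf (code m) + 1) = Finset.univ \ support₂ (wordOf (code m)) := by
        ext p
        simp only [support₂, Finset.mem_filter, Finset.mem_univ, true_and, Finset.mem_sdiff,
          Pi.add_apply, Pi.one_apply]
        generalize wordOf (code m) p = a
        revert a
        decide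
      rw [h4, Finset.card_sdiff_of_subset (Finset.subset_univ _), hcard, h, Finset.card_univ, card_golayPt]
    · exfalso
      apply hw1
      have h2 : code m = 16777215 := by
        apply eq_of_setOf_eq (code_lt hm) (by norm_num)
        have h5 : Lib.Golay.Core.setOf (code m) = Finset.univ := by
          apply Finset.eq_univ_of_card
          rw [card_setOf, h, card_golayPt]
        have h6 : Lib.Golay.Core.setOf 16777215 = Finset.univ := by
          rw [← support_wordOf, wordOf_ones]
          ext p
          simp [support₂]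
        rw [h5, h6]
      rw [h2, wordOf_ones]

end Cfsg.Agent.S5393
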