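import Cfsg.Statements.S5394
import Cfsg.Agent.Lib.M24Data.Tree

/-!
# The two classes of involutions of the group of the code

Every involution is conjugate, inside the group of the code, to one of two explicit involutions.
The element is first normalised by five-fold transitivity; the remaining elements are enumerated
and an explicit conjugating element is read off a table.
-/

set_option autoImplicit false
open Cfsg

namespace Cfsg.Agent.S5394

open Cfsg.Agent.Lib.Golay.Core Cfsg.Agent.Lib.Golay.Perm Cfsg.Agent.Lib.Golay.Chain
  Cfsg.Agent.Lib.Golay.M24 Cfsg.Agent.Lib.Golay.Basic Cfsg.Agent.Lib.Golay.Dodecad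
  Cfsg.Agent.Lib.M24Data.Tree
open scoped Pointwise

def h0 : ℕ := 7391049534354063934088115031245911
def T1 : ℕ := 965128854020860192151391391390468128
def T2 : ℕ := 26233056479097312418209713303716951
def m1 : ℕ := 8536111

/-- `(P, R, i)`: the element `R` conjugates `P` to `Ti`. -/
def tab : List (ℕ × ℕ × ℕ) := [
  (4308085967595670892146378002859095, 971863989228759034920585190470420512, 2),
  (4636300130985976083744215677994071, 957339418524686349431348163047924864, 2),
  (4679749470456082224362226337907799, 403119563663855407683035150986907012, 2),
  (5328502736137924236406283603444823, 983141956895601025126892051911247904, 2),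
  (5405947491382263735420182690202711, 964935087797585231527733023053744160, 2),
  (5447382388983081592886053788877911, 349292514811073736418579475518033297, 2),
  (5495518024292395953547195890304087, 279236218013781390761469256692860981, 2),
  (5783165887594280223726738579489879, 963755665108038844989100794309871648, 2),
  (5897328060570502564494253960168535, 980619233671533196146290070457157664, 2),
  (5989235823820259689967313196876887, 504210049624973843949926343313184265, 1),
  (6057601526503618116306465909212247, 934673932884317144369465966149578055, 1),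
  (6948319157996677191034997895726167, 984637604000928944323848696772233248, 2),
  (7108128418911371606309837526795351, 641748456889859549381823022363761680, 2),
  (7277157654465511526888190747509847, 898361207817548650739918115976104390, 2),
  (7972780293787231076463204141171799, 976531636853126291160407323722221600, 2),
  (8326581753781783876511092673283159, 984312095570601498136806567669499936, 2),
  (8456677377925756400620634562233431, 977057369067165008913195122966996096, 2),
  (9268431565351186951343964350383191, 974066987549930544647866466396932128, 2),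
  (9631777975941357282974943533302871, 978971746846629453592031910372706336, 2),
  (9758914281536097782199268080550999, 959740263334858429216336562106239008, 2),
  (10519658684250915333322510334329943, 134454166441127305672039604504959660, 2),
  (10675139845455015775387687127942231, 984715045893605764374353088376735776, 2),
  (11223110482434808275981567346771031, 979377112632089073811634314942187552, 2),
  (11824856743127674106482797259162711, 90402846053947241934427067169581473, 2),
  (11931408899874022996879638983672919, 984235865005994746954145143334668320, 2),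
  (12145843332203879576343784496596055, 975571795165448746742199475274090528, 2),
  (13240909570316232578060630151758935, 967857139963342044689680818369726496, 2),
  (13488246947635466754201336759747671, 984438894701818910931862588267071520, 2),
  (13554408028152415039135883318232151, 963620426514961030158525894103798048, 2),
  (14584578442752741159953316155196503, 977862173792986704010858797318251648, 2),
  (14693711278714818796648777220523095, 972726877074262707020068451382444512, 2),
  (14981219414754993159776851701892183, 975083881059325730487068853365114912, 2),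
  (15792962113776465500053415773045847, 972606645568131968584696805283956768, 2),
  (15878834451447108423290358321153111, 958794636352145173763558265343754720, 2),
  (15949996363569057416853246830609495, 960182115794658139683125432418994208, 2),
  (17131322563941782780614511264466007, 48556455817602851240150233998957218, 2),
  (17184519787777121035013027289728087, 941498301766120292253306170456059207, 1),
  (17203770683460535489197990130353239, 965204860792524371368916767272634400, 2),
  (17328253020659790669071593041790039, 963918193148636682515762477344098336, 2),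
  (17379814655206104355584294051447895, 963583675636508639431900464290203680, 2),
  (17627144126903844291425996957320279, 965128854020860192151391391390468128, 2),
  (17665557174438149324336018692932695, 142153693431275228340314961774593292, 2),
  (17739009920735306807106826245014615, 195302531139733486405382005400945318, 1),
  (18509409755239679601247674531578967, 962043398450921756232295792743024672, 2),
  (18563015515822114106942345669149783, 973937629044781277800407686526011424, 2),
  (18954756559157013724352018331599959, 94766671552313900671234329341775073, 2),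
  (19735068521872577958133797415552087, 461476261605353435234429173589236357, 2),
  (19801439077662944691101987789898839, 978932419812407259109337552476866592, 2),
  (20177763643652483851946826119971927, 973733774919612761794110938517145632, 2),
  (21031891374900343699909455052375127, 265687291759551888540078520595958244, 1),
  (21064801546226450623669850930086999, 550953102040290310643414364541554986, 2),
  (21143756395149145572732883413861463, 179955812380500998439679242428581929, 2),
  (21199735037438914446963999490966615, 964962712522822163995993679966144544, 2),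
  (21385626203289537830258411788895319, 972504006591552500843495650974213248, 2),
  (21553437447306391113730797094863959, 961088464106270715518709959807671904, 2),
  (21607507263777464423976202730341463, 963871381879465904783683688082999328, 2),
  (21647169741103660076458455793304663, 420800470731295787529162348140438155, 1),
  (22566185766497139294779895848535127, 974214468605591444051051376998189088, 2),
  (22861668434165072353846638706951255, 981650373492508634020400455138838560, 2),
  (22905550945827948657697045989164119, 968580696146354557682782383394785312, 2),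
  (23653358063062684413134533535859799, 967365292857695660364575527991871520, 2),
  (23946145424234454171894864699130967, 972916857538192655103079366492074080, 2),
  (23998713586146347121374253096797271, 979564699427418636421396718875248672, 2),
  (24840496363859016890177502494262359, 15035820695370793947166566844351767, 2),
  (25210656762468984689523208608810071, 961207837431344953759349665863829536, 2),
  (25319667457992514902955138202502231, 979575037052270750816822816387703936, 2),
  (26192329443678368342858579179045975, 971775034188102070182232673449576480, 2),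
  (26233056479097312418209713303716951, 984818244535754528103549039458486304, 2),
  (26719882389304997286299517257811031, 969789645095990126682955327802163680, 2),
  (28156431620862369792373283701261399, 968912900032127568182918297745098784, 2),
  (28167367375106645565081499637056599, 148551357887775841089433023375072268, 2),
  (28171520779137508846063610133578839, 968918221426309407724683958819063840, 2),
  (28826665701071936886111872293045335, 437616545679769337295327640456315563, 1),
  (28854523491105362182008475499005015, 516982540576326464303617134730395209, 1),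
  (29340620570662517957029049942508631, 354804434999833077194245889209708852, 1),
  (29429271468893102754624345968411735, 501997390423020831395381352875775497, 1),
  (961365507626256404119956257276790816, 982940954883890818632807996530377829, 1),
  (963721886883755259286232606933354528, 25007322756880035146780134797904417, 1),
  (965128854020860192151391391390468128, 984818244535754528103549039458486304, 1),
  (966182099583441531322624363496310816, 983141956895601025126892051911247904, 1),
  (967812279691448225500382947153381408, 17737344429360218972991220333219269, 1),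
  (968708902336673183175954409307867168, 17341626662755432438894740778323121, 1),
  (970499966350631336865513127433832480, 9638208153259108509920511303683525, 1),
  (971592882964418941354553515258775584, 964935087797585231527733023053744160, 1),
  (972512676110088067912772961567868960, 979164633728330728776178910300161056, 1),
  (975346028712660580592452217730074656, 963559745903778623359417332224538656, 1),
  (976448692869377735270425038196672544, 23714402825107236425021320673281122, 1),
  (979121071158219704299181131031480352, 968697126567435227367964987548088352, 1),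
  (980224387687010295957922729495201824, 15195734684570674604429308767308977, 1),
  (981818691054096003685363657089320992, 971863989228759034920585190470420512, 1),
  (983548720921252936276249910206105632, 984235865005994746954145143334668320, 1)]

/-- Which of the two representatives. -/
def rep (i : ℕ) : ℕ := cond (Nat.beq i 1) T1 T2

theorem tab_ok : tab.all (fun e => checkAut e.1 && checkAut e.2.1 &&
    Nat.beq (comp e.2.1 e.1) (comp (rep e.2.2) e.2.1)) = true := by decide +kernel

theorem T1_check : checkAut T1 = true := by decide +kernel
theorem T2_check : checkAut T2 = true := by decide +kernel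
theorem h0_check : checkAut h0 = true := by decide +kernel

theorem rep_check (i : ℕ) : checkAut (rep i) = true := by
  unfold rep
  cases Nat.beq i 1
  · exact T2_check
  · exact T1_check

/-- Test of being an involution. -/
def isInvol (P : ℕ) : Bool :=
  allUpTo (fun i => Nat.beq (img P (img P i)) i) 24 && !allUpTo (fun i => Nat.beq (img P i) i) 24

def inTab (P : ℕ) : Bool := tab.any (fun e => Nat.beq e.1 P)

def leaf (P : ℕ) : Bool := !isInvol P || inTab P

theorem tree_ok : treeAux leaf (fun _ _ => false) [(3, T4), (5, T5), (4, T6)] [2, 1, 0, 23] h0 = true := by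
  decide +kernel

theorem E5_ok' : allL leaf E5 = true := by decide +kernel

theorem isInvol_of {P : ℕ} (hv : validPerm P = true) (h1 : g P * g P = 1) (h2 : g P ≠ 1) :
    isInvol P = true := by
  unfold isInvol
  rw [Bool.and_eq_true]
  constructor
  · rw [allUpTo_iff]
    intro i hi
    have h3 := congrArg (fun f : Equiv.Perm GolayPt => f (pt i)) h1
    simp only [Equiv.Perm.mul_apply, g_pt hv hi, Equiv.Perm.one_apply] at h3
    rw [g_pt hv (valid_img_lt hv hi)] at h3
    have h4 := pt_injOn (valid_img_lt hv (valid_img_lt hv hi)) hi h3
    rw [h4]
    exact Nat.beq_refl _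
  · rw [Bool.not_eq_true']
    by_contra hc
    rw [Bool.not_eq_false, allUpTo_iff] at hc
    apply h2
    ext1 p
    rw [g_apply hv]
    have := Nat.eq_of_beq_eq_true (hc (idx p) (idx_lt p))
    rw [this, pt_idx]
    rfl

/-- Conjugate to one of the two representatives. -/
def IsC (x : Equiv.Perm GolayPt) : Prop :=
  (∃ τ ∈ M24, τ * x * τ⁻¹ = g T1) ∨ (∃ τ ∈ M24, τ * x * τ⁻¹ = g T2)

theorem isC_of_tab {P : ℕ} (h : inTab P = true) : IsC (g P) := by
  unfold inTab at h
  obtain ⟨e, he, h1⟩ := List.any_eq_true.mp h
  have h2 := Nat.eq_of_beq_eq_true h1
  have h3 := List.all_eq_true.mp tab_ok e he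
  simp only [Bool.and_eq_true] at h3
  obtain ⟨⟨h4, h5⟩, h6⟩ := h3
  have h7 := Nat.eq_of_beq_eq_true h6
  have hvP := checkAut_valid h4
  have hvR := checkAut_valid h5
  have hc := rep_check e.2.2
  have h8 : g e.2.1 * g e.1 * (g e.2.1)⁻¹ = g (rep e.2.2) := by
    rw [← g_comp hvR hvP, h7, g_comp (checkAut_valid hc) hvR]
    group
  rw [h2] at h8
  have h9 : g e.2.1 ∈ M24 := g_mem_M24 h5
  unfold rep at h8
  cases hb : Nat.beq e.2.2 1
  · rw [hb] at h8
    exact Or.inr ⟨_, h9, h8⟩
  · rw [hb] at h8
    exact Or.inl ⟨_, h9, h8⟩

theorem isC_of_conj {σ x : Equiv.Perm GolayPt} (hσ : σ ∈ M24) (h : IsC (σ⁻¹ * x * σ)) : IsC x := by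
  have key : ∀ τ, τ * (σ⁻¹ * x * σ) * τ⁻¹ = (τ * σ⁻¹) * x * (τ * σ⁻¹)⁻¹ := by
    intro τ
    group
  rcases h with ⟨τ, hτ, h⟩ | ⟨τ, hτ, h⟩
  · exact Or.inl ⟨τ * σ⁻¹, M24.mul_mem hτ (M24.inv_mem hσ), by rw [← key, h]⟩
  · exact Or.inr ⟨τ * σ⁻¹, M24.mul_mem hτ (M24.inv_mem hσ), by rw [← key, h]⟩

theorem isC_of_leaf {P : ℕ} (hP : Good P) (hl : leaf P = true) (h1 : g P * g P = 1) (h2 : g P ≠ 1) :
    IsC (g P) := by
  unfold leaf at hl
  rw [isInvol_of hP.1 h1 h2] at hl
  exact isC_of_tab (by simpa using hl)

/-- Every involution is conjugate to one of the two. -/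
theorem isC_of_invol {x : Equiv.Perm GolayPt} (hx : x ∈ M24) (h1 : x * x = 1) (h2 : x ≠ 1) :
    IsC x := by
  classical
  have hxx : ∀ p, x (x p) = p := fun p => by
    have := congrArg (fun f : Equiv.Perm GolayPt => f p) h1
    simpa using this
  by_cases h5 : 5 ≤ (Finset.univ.filter fun p => x p = p).card
  · obtain ⟨y, hy⟩ := exists_embedding h5
    obtain ⟨σ, hσ, hy2⟩ := exists_map_five y
    apply isC_of_conj hσ
    have hmem : σ⁻¹ * x * σ ∈ Fix [3, 2, 1, 0, 23] := by
      refine ⟨M24.mul_mem (M24.mul_mem (M24.inv_mem hσ) hx) hσ, fun b hb => ?_⟩
      have hb' : ∃ i : Fin 5, b = baseF i := by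
        simp only [List.mem_cons, List.not_mem_nil, or_false] at hb
        rcases hb with rfl | rfl | rfl | rfl | rfl
        · exact ⟨4, rfl⟩
        · exact ⟨3, rfl⟩
        · exact ⟨2, rfl⟩
        · exact ⟨1, rfl⟩
        · exact ⟨0, rfl⟩
      obtain ⟨i, rfl⟩ := hb'
      have h6 := (Finset.mem_filter.mp (hy i)).2
      simp only [Equiv.Perm.mul_apply]
      rw [hy2 i, h6, Equiv.Perm.inv_eq_iff_eq, hy2 i]
    obtain ⟨P, hP, hPe⟩ := mem_E5 hmem
    have hG : Good P := good_of_check (E5_spec P hP).1
    rw [hPe]
    refine isC_of_leaf hG (allL_iff.mp E5_ok' P hP) ?_ ?_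
    · rw [← hPe]
      have : σ⁻¹ * x * σ * (σ⁻¹ * x * σ) = σ⁻¹ * (x * x) * σ := by group
      rw [this, h1]
      group
    · rw [← hPe]
      intro h
      apply h2
      have : x = σ * (σ⁻¹ * x * σ) * σ⁻¹ := by group
      rw [this, h]
      group
  · -- few fixed points
    push Not at h5
    have hmv : 19 < (Finset.univ.filter fun p => ¬ x p = p).card := by
      have h6 := Finset.card_filter_add_card_filter_not (s := (Finset.univ : Finset GolayPt)) (fun p => x p = p)
      rw [Finset.card_univ, card_golayPt] at h6
      omega
    have hex : ∀ s : Finset GolayPt, s.card < 20 → ∃ c, x c ≠ c ∧ c ∉ s := by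
      intro s hs
      by_contra hc
      push Not at hc
      have : (Finset.univ.filter fun p => ¬ x p = p) ⊆ s := by
        intro p hp
        exact hc p (Finset.mem_filter.mp hp).2
      have := Finset.card_le_card this
      omega
    obtain ⟨a, ha, -⟩ := hex ∅ (by simp)
    obtain ⟨c, hc, hc'⟩ := hex {a, x a} (lt_of_le_of_lt (Finset.card_le_two) (by norm_num))
    have hc1 : c ≠ a := fun h => hc' (by simp [h])
    have hc2 : c ≠ x a := fun h => hc' (by simp [h])
    have hd1 : x c ≠ a := by
      intro h
      apply hc2
      rw [← h, hxx]
    have hd2 : x c ≠ x a := fun h => hc1 (x.injective h)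
    obtain ⟨e, he⟩ : ∃ e, e ∉ ({a, x a, c, x c} : Finset GolayPt) := by
      by_contra hh
      push Not at hh
      have h7 : (Finset.univ : Finset GolayPt) ⊆ {a, x a, c, x c} := fun p _ => hh p
      have h8 := Finset.card_le_card h7
      have h9 : ({a, x a, c, x c} : Finset GolayPt).card ≤ 4 := Finset.card_le_four
      rw [Finset.card_univ, card_golayPt] at h8
      omega
    simp only [Finset.mem_insert, Finset.mem_singleton, not_or] at he
    obtain ⟨he1, he2, he3, he4⟩ := he
    let y : Fin 5 ↪ GolayPt := ⟨![a, x a, c, x c, e], by
      intro i j hij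
      fin_cases i <;> fin_cases j <;> first
        | rfl
        | (exfalso; simp at hij; first
            | exact ha hij.symm
            | exact ha hij
            | exact hc1 hij.symm
            | exact hc1 hij
            | exact hc2 hij.symm
            | exact hc2 hij
            | exact hd1 hij.symm
            | exact hd1 hij
            | exact hd2 hij.symm
            | exact hd2 hij
            | exact hc hij.symm
            | exact hc hij
            | exact he1 hij.symm
            | exact he1 hij
            | exact he2 hij.symm
            | exact he2 hij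
            | exact he3 hij.symm
            | exact he3 hij
            | exact he4 hij.symm
            | exact he4 hij)⟩
    obtain ⟨σ, hσ, hy2⟩ := exists_map_five y
    have e0 : σ (pt 23) = a := hy2 0
    have e1 : σ (pt 0) = x a := hy2 1
    have e2 : σ (pt 1) = c := hy2 2
    have e3 : σ (pt 2) = x c := hy2 3
    apply isC_of_conj hσ
    have hm : σ⁻¹ * x * σ ∈ M24 := M24.mul_mem (M24.mul_mem (M24.inv_mem hσ) hx) hσ
    have hv0 := checkAut_valid h0_check
    have hagree : ∀ b ∈ [2, 1, 0, 23], (σ⁻¹ * x * σ) (pt b) = pt (img h0 b) := by
      intro b hb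
      simp only [List.mem_cons, List.not_mem_nil, or_false] at hb
      simp only [Equiv.Perm.mul_apply]
      rw [Equiv.Perm.inv_eq_iff_eq]
      rcases hb with rfl | rfl | rfl | rfl
      · rw [e3, hxx, show img h0 2 = 1 by decide +kernel, e2]
      · rw [e2, show img h0 1 = 2 by decide +kernel, e3]
      · rw [e1, hxx, show img h0 0 = 23 by decide +kernel, e0]
      · rw [e0, show img h0 23 = 0 by decide +kernel, e1]
    obtain ⟨Q, hQ, hl, hQe⟩ := treeAux_sound (Φ := fun _ => True) (leaf := leaf)
      (prune := fun _ _ => false) (fun _ _ _ _ _ _ => rfl) _ _ levels4 h0 (good_of_check h0_check)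
      tree_ok _ hm trivial hagree (by decide)
    rw [hQe]
    refine isC_of_leaf hQ hl ?_ ?_
    · rw [← hQe]
      have : σ⁻¹ * x * σ * (σ⁻¹ * x * σ) = σ⁻¹ * (x * x) * σ := by group
      rw [this, h1]
      group
    · rw [← hQe]
      intro h
      apply h2
      have : x = σ * (σ⁻¹ * x * σ) * σ⁻¹ := by group
      rw [this, h]
      group

theorem T1_sq : g T1 * g T1 = 1 := by
  have hv := checkAut_valid T1_check
  have h : ∀ i < 24, img T1 (img T1 i) = i := by decide +kernel
  ext1 p
  simp only [Equiv.Perm.mul_apply, Equiv.Perm.one_apply]
  rw [g_apply hv p, g_apply hv, idx_pt (valid_img_lt hv (idx_lt p)), h _ (idx_lt p), pt_idx]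

theorem T2_sq : g T2 * g T2 = 1 := by
  have hv := checkAut_valid T2_check
  have h : ∀ i < 24, img T2 (img T2 i) = i := by decide +kernel
  ext1 p
  simp only [Equiv.Perm.mul_apply, Equiv.Perm.one_apply]
  rw [g_apply hv p, g_apply hv, idx_pt (valid_img_lt hv (idx_lt p)), h _ (idx_lt p), pt_idx]

theorem T2_fpf (p : GolayPt) : g T2 p ≠ p := by
  have hv := checkAut_valid T2_check
  have h : ∀ i < 24, img T2 i ≠ i := by decide +kernel
  intro hp
  rw [g_apply hv] at hp
  have h1 := congrArg idx hp
  rw [idx_pt (valid_img_lt hv (idx_lt p))] at h1
  exact h _ (idx_lt p) h1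

theorem T1_fix (p : GolayPt) : g T1 p = p ↔ p ∈ Lib.Golay.Core.setOf m1 := by
  have hv := checkAut_valid T1_check
  have h : ∀ i < 24, Nat.beq (img T1 i) i = m1.testBit i := by decide +kernel
  rw [mem_setOf, ← h _ (idx_lt p)]
  rw [g_apply hv]
  constructor
  · intro hp
    have h1 := congrArg idx hp
    rw [idx_pt (valid_img_lt hv (idx_lt p))] at h1
    rw [h1]
    exact Nat.beq_refl _
  · intro hp
    rw [Nat.eq_of_beq_eq_true hp, pt_idx]

theorem m1_octad : Lib.Golay.Core.setOf m1 ∈ octads :=
  (setOf_mem_octads_iff (by decide +kernel)).mpr ⟨by decide +kernel, by decide +kernel⟩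

theorem T1_ne : g T1 ≠ 1 := by
  intro h
  have h1 : (Lib.Golay.Core.setOf m1) = Finset.univ := by
    ext p
    simp only [Finset.mem_univ, iff_true]
    rw [← T1_fix, h]
    rfl
  have h2 := card_of_mem_octads m1_octad
  rw [h1, Finset.card_univ, card_golayPt] at h2
  omega

theorem T2_ne : g T2 ≠ 1 := by
  intro h
  apply T2_fpf none
  rw [h]
  rfl

theorem conj_apply {τ x k : Equiv.Perm GolayPt} (h : τ * x * τ⁻¹ = k) (p : GolayPt) :
    k (τ p) = τ (x p) := by
  rw [← h]
  simp

theorem result : (∀ g ∈ Cfsg.M24, orderOf g = 2 → (Finset.univ.filter fun p => g p = p) ∈ Cfsg.octads ∨ ∀ p, g p ≠ p) ∧ (∃ g ∈ Cfsg.M24, orderOf g = 2 ∧ (Finset.univ.filter fun p => g p = p) ∈ Cfsg.octads) ∧ (∃ g ∈ Cfsg.M24, orderOf g = 2 ∧ ∀ p, g p ≠ p) ∧ ∀ g ∈ Cfsg.M24, ∀ h ∈ Cfsg.M24, orderOf g = 2 → orderOf h = 2 → ((∀ p, g p ≠ p) ↔ (∀ p, h p ≠ p)) → ∃ k ∈ Cfsg.M24, k * g * k⁻¹ = h := by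
  have hinv : ∀ x : Equiv.Perm GolayPt, orderOf x = 2 → x * x = 1 ∧ x ≠ 1 := by
    intro x hx
    constructor
    · rw [← pow_two, ← hx, pow_orderOf_eq_one]
    · intro h
      rw [h, orderOf_one] at hx
      omega
  have hord : ∀ x : Equiv.Perm GolayPt, x * x = 1 → x ≠ 1 → orderOf x = 2 := by
    intro x h1 h2
    have : Fact (Nat.Prime 2) := ⟨Nat.prime_two⟩
    exact orderOf_eq_prime (by rw [pow_two, h1]) h2
  have hfix1 : (Finset.univ.filter fun p => g T1 p = p) = Lib.Golay.Core.setOf m1 := by
    ext p
    simp only [Finset.mem_filter, Finset.mem_univ, true_and]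
    exact T1_fix p
  -- the fixed set of a conjugate
  have hfixconj : ∀ {τ x k : Equiv.Perm GolayPt}, τ * x * τ⁻¹ = k →
      τ • (Finset.univ.filter fun p => x p = p) = (Finset.univ.filter fun p => k p = p) := by
    intro τ x k h
    ext q
    simp only [Finset.mem_smul_finset, Finset.mem_filter, Finset.mem_univ, true_and,
      Equiv.Perm.smul_def]
    constructor
    · rintro ⟨p, hp, rfl⟩
      rw [conj_apply h, hp]
    · intro hq
      refine ⟨τ⁻¹ q, ?_, by simp⟩
      apply τ.injective
      rw [← conj_apply h]
      simpa using hq
  have hfpfconj : ∀ {τ x k : Equiv.Perm GolayPt}, τ * x * τ⁻¹ = k →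
      ((∀ p, x p ≠ p) ↔ (∀ p, k p ≠ p)) := by
    intro τ x k h
    constructor
    · intro h1 q hq
      apply h1 (τ⁻¹ q)
      apply τ.injective
      rw [← conj_apply h]
      simpa using hq
    · intro h1 p hp
      apply h1 (τ p)
      rw [conj_apply h, hp]
  have hT1fix : ¬ ∀ p, g T1 p ≠ p := by
    intro h
    have h1 := card_of_mem_octads m1_octad
    have h2 : (Lib.Golay.Core.setOf m1).Nonempty := by
      rw [← Finset.card_pos, h1]
      norm_num
    obtain ⟨p, hp⟩ := h2
    exact h p ((T1_fix p).mpr hp)
  refine ⟨?_, ⟨g T1, g_mem_M24 T1_check, hord _ T1_sq T1_ne, ?_⟩,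
    ⟨g T2, g_mem_M24 T2_check, hord _ T2_sq T2_ne, T2_fpf⟩, ?_⟩
  · intro x hx hox
    obtain ⟨h1, h2⟩ := hinv x hox
    rcases isC_of_invol hx h1 h2 with ⟨τ, hτ, h⟩ | ⟨τ, hτ, h⟩
    · left
      have h3 := hfixconj h
      rw [hfix1] at h3
      rw [← smul_mem_octads_iff hτ, h3]
      exact m1_octad
    · right
      exact (hfpfconj h).mpr T2_fpf
  · rw [hfix1]
    exact m1_octad
  · intro x hx y hy hox hoy hiff
    obtain ⟨h1, h2⟩ := hinv x hox
    obtain ⟨h3, h4⟩ := hinv y hoy
    have hcomb : ∀ {τ ρ : Equiv.Perm GolayPt} {k : Equiv.Perm GolayPt}, τ ∈ M24 → ρ ∈ M24 →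
        τ * x * τ⁻¹ = k → ρ * y * ρ⁻¹ = k → ∃ k' ∈ M24, k' * x * k'⁻¹ = y := by
      intro τ ρ k hτ hρ ha hb
      refine ⟨ρ⁻¹ * τ, M24.mul_mem (M24.inv_mem hρ) hτ, ?_⟩
      have : (ρ⁻¹ * τ) * x * (ρ⁻¹ * τ)⁻¹ = ρ⁻¹ * (τ * x * τ⁻¹) * ρ := by group
      rw [this, ha, ← hb]
      group
    rcases isC_of_invol hx h1 h2 with ⟨τ, hτ, ha⟩ | ⟨τ, hτ, ha⟩ <;>
      rcases isC_of_invol hy h3 h4 with ⟨ρ, hρ, hb⟩ | ⟨ρ, hρ, hb⟩
    · exact hcomb hτ hρ ha hb
    · exfalso
      apply hT1fix
      exact (hfpfconj ha).mp (hiff.mpr ((hfpfconj hb).mpr T2_fpf))
    · exfalso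
      apply hT1fix
      exact (hfpfconj hb).mp (hiff.mp ((hfpfconj ha).mpr T2_fpf))
    · exact hcomb hτ hρ ha hb

end Cfsg.Agent.S5394
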