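import Cfsg.Statements.S5395
import Cfsg.Agent.Lib.PGroups.Special

set_option autoImplicit false
open Cfsg

namespace Cfsg.Agent.S5395

/-- For a finite extraspecial 2-group E, an automorphism of E that induces the identity on E modulo its centre is inner (so these automorphisms form exactly the inner automorphism group, an elementary abelian 2-group of order |E|/2). -/
theorem result {E : Type*} [Group E] [Finite E] (hE : Cfsg.IsExtraspecial 2 E) (φ : E ≃* E) (hφ : ∀ x : E, φ x * x⁻¹ ∈ Subgroup.center E) : ∃ g : E, ∀ x : E, φ x = g * x * g⁻¹ := by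
  have : Fact (Nat.Prime 2) := ⟨Nat.prime_two⟩
  have hL := Cfsg.Agent.Lib.PGroups.Special.extraLike_of_isExtraspecial hE
  -- the homomorphism `x ↦ φ x x⁻¹`
  let f : E →* Subgroup.center E :=
    { toFun := fun x => ⟨φ x * x⁻¹, hφ x⟩
      map_one' := by apply Subtype.ext; simp
      map_mul' := by
        intro x y
        apply Subtype.ext
        have h1 := (Subgroup.mem_center_iff.mp (hφ y)) x⁻¹
        show φ (x * y) * (x * y)⁻¹ = (φ x * x⁻¹) * (φ y * y⁻¹)
        rw [map_mul, mul_assoc (φ x) x⁻¹, h1]
        simp only [mul_inv_rev]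
        group }
  have hker : commutator E ≤ f.ker := by
    rw [commutator_def, Subgroup.commutator_le]
    intro a _ b _
    rw [MonoidHom.mem_ker, map_commutatorElement, commutatorElement_eq_one_iff_mul_comm]
    exact mul_comm' _ _
  have hf : ∀ z ∈ Subgroup.center E, f z = 1 := by
    intro z hz
    have h2 : z ∈ commutator E := by rw [hE.1.2.2]; exact hz
    exact hker h2
  obtain ⟨e, he⟩ := Cfsg.Agent.Lib.PGroups.Special.ExtraLike.exists_comm_eq_hom hL f hf
  refine ⟨e, fun x => ?_⟩
  have h3 := he x
  rw [commutatorElement_def] at h3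
  have h4 : φ x * x⁻¹ = e * x * e⁻¹ * x⁻¹ := h3
  exact mul_right_cancel h4

end Cfsg.Agent.S5395
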