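-- Statement S5406.
import Cfsg.Statements.S5406
import Cfsg.Agent.Lib.Monster.Types

set_option autoImplicit false
open Cfsg

namespace Cfsg.Agent.S5406

open Cfsg.Agent.Lib.Monster.Local Cfsg.Agent.Lib.Monster.Types

/-- Let G be a finite group of Monster type at the involution z with Q the extraspecial normal subgroup of order 2^25 of C = C_G(z) (so C/Q is identified with the first Conway group with Q modulo its centre the Leech lattice modulo 2, and z is not weakly closed in Q). Then C acts transitively by conjugation on the conjugates of z that lie in Q and differ from z. -/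
theorem result {G : Type*} [Group G] [Finite G] (z : G) (Q : Subgroup (Subgroup.centralizer ({z} : Set G))) [Q.Normal] (hM : Cfsg.IsOfMonsterType z Q) (s t : G) (hsQ : ∃ hsc : s ∈ Subgroup.centralizer ({z} : Set G), (⟨s, hsc⟩ : Subgroup.centralizer ({z} : Set G)) ∈ Q) (htQ : ∃ htc : t ∈ Subgroup.centralizer ({z} : Set G), (⟨t, htc⟩ : Subgroup.centralizer ({z} : Set G)) ∈ Q) (hs : IsConj z s) (ht : IsConj z t) (hs1 : s ≠ z) (ht1 : t ≠ z) : ∃ h ∈ Subgroup.centralizer ({z} : Set G), h * s * h⁻¹ = t := by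
  obtain ⟨⟨hz, hF, hE, hcard, hnwc⟩, e, ψ, hψ⟩ := hM
  have hS : MSet z Q e ψ := ⟨hz, hF, hE, hcard, hψ⟩
  obtain ⟨hsc, hs2⟩ := hsQ
  obtain ⟨htc, ht2⟩ := htQ
  obtain ⟨g, hg⟩ := isConj_iff.mp hs
  obtain ⟨g', hg'⟩ := isConj_iff.mp ht
  set a : Q := ⟨⟨s, hsc⟩, hs2⟩ with ha
  set b : Q := ⟨⟨t, htc⟩, ht2⟩ with hb
  obtain ⟨u, hu, hun⟩ := type4_of_conj (a := a) hS hg.symm hs1
  obtain ⟨u', hu', hun'⟩ := type4_of_conj (a := b) hS hg'.symm ht1
  obtain ⟨γ, hγ⟩ := Cfsg.Agent.Lib.Leech.Trans.trans64 u u' hun hun'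
  have hnc := not_center_of_conj (a := a) hS hg.symm hs1
  obtain ⟨c, -, hc⟩ := hS.exists_conj_of_smul γ hu (b := b) (by rw [hγ]; exact hu') hnc
  exact ⟨c, c.2, congrArg Subtype.val hc⟩

end Cfsg.Agent.S5406
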