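import Cfsg.Statements.S5408
import Cfsg.Agent.Lib.Monster.Form
import Cfsg.Agent.Lib.Leech.Gen2
import Cfsg.Agent.Lib.Golay.Core

set_option autoImplicit false
open Cfsg

namespace Cfsg.Agent.S5408

open Subgroup Cfsg.Agent.Lib.Golay.Core Cfsg.Agent.Lib.Monster.Form

/-- A word of the code vanishing on the first twelve points vanishes. -/
theorem golay_low_zero (d : GolayPt → ZMod 2) (hd : d ∈ golayCode) (h : ∀ i < 12, d (pt i) = 0) :
    d = 0 := by
  obtain ⟨n, hn, rfl⟩ := exists_mask_word d
  have hc := (wordOf_mem_iff hn).mp hd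
  obtain ⟨m, hm, rfl⟩ := isCode_iff.mp hc
  have hlow := code_low hm
  have hm0 : m = 0 := by
    rw [← hlow]
    apply Nat.eq_of_testBit_eq
    intro i
    rw [show Nat.land (code m) 4095 = (code m) &&& 4095 from rfl, Nat.testBit_and]
    by_cases hi : i < 12
    · have h1 := h i hi
      have hi24 : i < 24 := by omega
      unfold wordOf at h1
      rw [idx_pt hi24] at h1
      have h2 : (code m).testBit i = false := by
        by_contra h3
        simp only [Bool.not_eq_false] at h3
        rw [if_pos h3] at h1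
        exact one_ne_zero h1
      rw [h2]; simp
    · have h2 : (4095 : ℕ).testBit i = false := by
        rw [show (4095 : ℕ) = 2 ^ 12 - 1 from rfl, Nat.testBit_two_pow_sub_one]
        simpa using hi
      rw [h2]; simp
  subst hm0
  rw [code_zero, wordOf_zero]

/-- The twelve vectors. -/
def a (k : Fin 12) : GolayPt → ℤ := fun p =>
  if k.val = 11 then (if idx p = 12 then 8 else 0)
  else (if idx p = 12 then 4 else 0) + (if idx p = 13 + k.val then 4 else 0)

theorem a_dvd : ∀ k p, (4 : ℤ) ∣ a k p := by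
  intro k p
  unfold a
  split_ifs <;> norm_num

theorem a_sum : ∀ k, ∑ p, a k p = 8 := by decide +kernel

theorem a_low : ∀ k : Fin 12, ∀ i < 12, a k (pt i) = 0 := by decide +kernel

theorem a_high : ∀ k j : Fin 12, j.val < 11 → a k (pt (13 + j.val)) = if k = j then 4 else 0 := by
  decide +kernel

/-- Vectors with coordinates divisible by four, coordinate sum divisible by eight. -/
theorem mem_of_dvd (x : GolayPt → ℤ) (h4 : ∀ p, (4 : ℤ) ∣ x p) (h8 : (8 : ℤ) ∣ ∑ p, x p) :
    x ∈ leechLattice := by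
  rw [Cfsg.Agent.Lib.Leech.Basic.mem_leechLattice_iff, Cfsg.Agent.Lib.Leech.Basic.mem_leechSet_iff]
  refine ⟨0, fun i => ?_, ?_, ?_⟩
  · obtain ⟨c, hc⟩ := h4 i
    rw [hc]; unfold Int.ModEq; omega
  · obtain ⟨c, hc⟩ := h8
    rw [hc]; unfold Int.ModEq; omega
  · have : Cfsg.Agent.Lib.Leech.Basic.digitWord x = 0 := by
      funext p
      obtain ⟨c, hc⟩ := h4 p
      simp only [Cfsg.Agent.Lib.Leech.Basic.digitWord, Cfsg.Agent.Lib.Leech.Basic.bit1, hc,
        Pi.zero_apply]
      rw [ZMod.intCast_zmod_eq_zero_iff_dvd]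
      push_cast
      omega
    rw [this]
    exact Submodule.zero_mem _

theorem a_mem (k : Fin 12) : a k ∈ leechLattice :=
  mem_of_dvd _ (a_dvd k) (by rw [a_sum])

/-- The vector of a parameter. -/
noncomputable def f (T : Fin 12 → ℤ) : leechLattice := ∑ k, T k • (⟨a k, a_mem k⟩ : leechLattice)

theorem f_add (T T' : Fin 12 → ℤ) : f (T + T') = f T + f T' := by
  simp [f, add_smul, Finset.sum_add_distrib]

theorem f_apply (T : Fin 12 → ℤ) (p : GolayPt) :
    ((f T : leechLattice) : GolayPt → ℤ) p = ∑ k, T k * a k p := by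
  simp [f, AddSubgroup.val_finsetSum, Finset.sum_apply]

theorem f_dvd4 (T : Fin 12 → ℤ) (p : GolayPt) : (4 : ℤ) ∣ ((f T : leechLattice) : GolayPt → ℤ) p := by
  rw [f_apply]
  exact Finset.dvd_sum fun k _ => Dvd.dvd.mul_left (a_dvd k p) _

theorem f_sum (T : Fin 12 → ℤ) :
    ∑ p, ((f T : leechLattice) : GolayPt → ℤ) p = 8 * ∑ k, T k := by
  simp only [f_apply]
  rw [Finset.sum_comm, Finset.mul_sum]
  apply Finset.sum_congr rfl
  intro k _
  rw [← Finset.mul_sum, a_sum]; ring

theorem f_norm (T : Fin 12 → ℤ) : (32 : ℤ) ∣ sqNorm ((f T : leechLattice) : GolayPt → ℤ) := by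
  set v : GolayPt → ℤ := ((f T : leechLattice) : GolayPt → ℤ) with hv
  have h1 : sqNorm v = ∑ p, (v p ^ 2 - 4 * v p) + 4 * ∑ p, v p := by
    unfold sqNorm
    rw [Finset.mul_sum, ← Finset.sum_add_distrib]
    apply Finset.sum_congr rfl
    intro p _; ring
  rw [h1, hv, f_sum, ← hv]
  apply dvd_add
  · apply Finset.dvd_sum
    intro p _
    obtain ⟨c, hc⟩ := f_dvd4 T p
    have hc' : v p = 4 * c := hc
    rw [hc']
    obtain ⟨d, hd⟩ : (2 : ℤ) ∣ c * (c - 1) := by
      rcases Int.even_or_odd' c with ⟨m, rfl | rfl⟩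
      · exact ⟨m * (2 * m - 1), by ring⟩
      · exact ⟨(2 * m + 1) * m, by ring⟩
    exact ⟨d, by linear_combination (16 : ℤ) * hd⟩
  · exact ⟨∑ k, T k, by ring⟩

/-- The `ℤ`-lift of a vector over the field with two elements. -/
def tval (S : Fin 12 → ZMod 2) : Fin 12 → ℤ := fun k => ((S k).val : ℤ)

theorem tval_add (S S' : Fin 12 → ZMod 2) :
    tval S + tval S' = tval (S + S') + ((fun k => ((S k).val * (S' k).val : ℤ)) + (fun k => ((S k).val * (S' k).val : ℤ))) := by
  funext k
  simp only [tval, Pi.add_apply]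
  generalize S k = x
  generalize S' k = y
  revert x y
  decide

/-- Independence modulo twice the lattice. -/
theorem f_indep (S : Fin 12 → ZMod 2) (w : leechLattice) (hw : f (tval S) = w + w) : S = 0 := by
  have hcoord : ∀ p, ((f (tval S) : leechLattice) : GolayPt → ℤ) p = 2 * (w : GolayPt → ℤ) p := by
    intro p
    rw [hw]
    show (w : GolayPt → ℤ) p + (w : GolayPt → ℤ) p = _
    ring
  have heven : ∀ p, (w : GolayPt → ℤ) p ≡ 0 [ZMOD 2] := by
    intro p
    obtain ⟨c, hc⟩ := f_dvd4 (tval S) p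
    have := hcoord p
    unfold Int.ModEq
    omega
  -- The digit word.
  have hmem := w.2
  rw [Cfsg.Agent.Lib.Leech.Basic.mem_leechLattice_iff, Cfsg.Agent.Lib.Leech.Basic.mem_leechSet_iff] at hmem
  obtain ⟨m, -, -, hd⟩ := hmem
  have hlow : ∀ i < 12, Cfsg.Agent.Lib.Leech.Basic.digitWord (w : GolayPt → ℤ) (pt i) = 0 := by
    intro i hi
    have h1 := hcoord (pt i)
    rw [f_apply] at h1
    simp only [a_low _ i hi, mul_zero, Finset.sum_const_zero] at h1
    have h2 : (w : GolayPt → ℤ) (pt i) = 0 := by omega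
    simp [Cfsg.Agent.Lib.Leech.Basic.digitWord, Cfsg.Agent.Lib.Leech.Basic.bit1, h2]
  have hd0 := golay_low_zero _ hd hlow
  have hval : ∀ x : ZMod 2, ((x.val : ℤ) : ZMod 2) = x := by decide
  have hhigh : ∀ j : Fin 12, j.val < 11 → S j = 0 := by
    intro j hj
    have h1 := hcoord (pt (13 + j.val))
    rw [f_apply] at h1
    have h2 : ∑ k, tval S k * a k (pt (13 + j.val)) = 4 * tval S j := by
      simp only [a_high _ j hj, mul_ite, mul_zero]
      rw [Finset.sum_ite_eq' Finset.univ j]
      simp; ring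
    rw [h2] at h1
    have h3 : (w : GolayPt → ℤ) (pt (13 + j.val)) = 2 * tval S j := by omega
    have h4 : Cfsg.Agent.Lib.Leech.Basic.digitWord (w : GolayPt → ℤ) (pt (13 + j.val)) = 0 := by
      rw [hd0]; rfl
    simp only [Cfsg.Agent.Lib.Leech.Basic.digitWord, Cfsg.Agent.Lib.Leech.Basic.bit1, h3] at h4
    rw [Int.mul_ediv_cancel_left _ (by norm_num : (2 : ℤ) ≠ 0)] at h4
    simpa [tval, hval] using h4
  have hsum : ∑ k, tval S k = tval S 11 := by
    rw [Finset.sum_eq_single (11 : Fin 12)]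
    · intro k _ hk
      have hk' : k.val < 11 := by
        have := k.2
        have h11 : k.val ≠ 11 := fun h => hk (Fin.ext h)
        omega
      simp [tval, hhigh k hk']
    · simp
  have h8 := Cfsg.Agent.Lib.Leech.Gen2.sum_even_of_mem w heven
  have h5 : ∑ p, ((f (tval S) : leechLattice) : GolayPt → ℤ) p = 2 * ∑ p, (w : GolayPt → ℤ) p := by
    rw [Finset.mul_sum]
    exact Finset.sum_congr rfl fun p _ => hcoord p
  rw [f_sum, hsum] at h5
  have h6 : S 11 = 0 := by
    have h7 : tval S 11 % 2 = 0 := by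
      unfold Int.ModEq at h8
      omega
    have h9 : ((tval S 11 : ℤ) : ZMod 2) = 0 := by
      rw [ZMod.intCast_zmod_eq_zero_iff_dvd]
      push_cast
      omega
    simpa [tval, hval] using h9
  funext k
  by_cases hk : k.val < 11
  · exact hhigh k hk
  · have : k = 11 := by
      apply Fin.ext
      have := k.2
      show k.val = 11
      omega
    rw [this]; exact h6

section Main

variable {G : Type*} [Group G] [Finite G] {z : G}
  {Q : Subgroup (Subgroup.centralizer ({z} : Set G))} [Q.Normal]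
  {e : (Subgroup.centralizer ({z} : Set G)) ⧸ Q ≃* Spor.Co1} {ψ : leechLattice → Q ⧸ Subgroup.center Q}

/-- The map. -/
noncomputable def F (hψ : IsLeechModTwoIso Q e ψ) :
    Multiplicative (Fin 12 → ZMod 2) →* (Q ⧸ Subgroup.center Q) :=
  MonoidHom.mk' (fun S => ψ (f (tval (Multiplicative.toAdd S)))) (by
    intro S S'
    obtain ⟨hadd, -, hker, -⟩ := hψ
    rw [← hadd, ← f_add, tval_add]
    simp only [toAdd_mul]
    rw [f_add, f_add, hadd, (hker (f _ + f _)).mpr ⟨_, rfl⟩, mul_one])

theorem F_inj (hψ : IsLeechModTwoIso Q e ψ) : Function.Injective (F hψ) := by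
  rw [injective_iff_map_eq_one]
  intro S hS
  have h1 : ψ (f (tval (Multiplicative.toAdd S))) = 1 := hS
  obtain ⟨w, hw⟩ := (hψ.2.2.1 _).mp h1
  have := f_indep _ w hw
  exact this

end Main

/-- Let G be a finite group of Monster type at the involution z with Q the extraspecial normal subgroup of order 2^25 of C = C_G(z) (so C/Q is identified with the first Conway group with Q modulo its centre the Leech lattice modulo 2, and z is not weakly closed in Q). Then Q is of plus type: it contains an elementary abelian subgroup of order 2^13. -/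
theorem result {G : Type*} [Group G] [Finite G] (z : G) (Q : Subgroup (Subgroup.centralizer ({z} : Set G))) [Q.Normal] (hM : Cfsg.IsOfMonsterType z Q) : ∃ E : Subgroup Q, Cfsg.IsElementaryAbelian 2 E ∧ Nat.card E = 2 ^ 13 := by
  obtain ⟨⟨-, -, hE, hcard, -⟩, e, ψ, hψ⟩ := hM
  let Fh := F hψ
  let E : Subgroup Q := Fh.range.comap (QuotientGroup.mk' (center Q))
  have hsq : ∀ a ∈ E, a ^ 2 = 1 := by
    intro a ha
    obtain ⟨S, hS⟩ := ha
    have h1 : ψ (f (tval (Multiplicative.toAdd S))) = QuotientGroup.mk a := hS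
    exact (sq_eq_one_iff hE hψ h1).mpr (f_norm _)
  refine ⟨E, ⟨⟨⟨fun x y => ?_⟩⟩, hsq⟩, ?_⟩
  · apply Subtype.ext
    have h1 := hsq (x * y : E).1 (x * y : E).2
    have h2 := hsq x.1 x.2
    have h3 := hsq y.1 y.2
    rw [sq] at h1 h2 h3
    show x.1 * y.1 = y.1 * x.1
    have h1' : x.1 * y.1 * (x.1 * y.1) = 1 := h1
    calc x.1 * y.1 = x.1 * (x.1 * y.1 * (x.1 * y.1)) * y.1 := by rw [h1']; simp
      _ = (x.1 * x.1) * (y.1 * x.1) * (y.1 * y.1) := by group
      _ = y.1 * x.1 := by rw [h2, h3]; simp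
  · have hc1 : Nat.card E * E.index = 2 ^ 25 := by
      rw [Subgroup.card_mul_index, hcard]
    have hidx : E.index = Fh.range.index :=
      Subgroup.index_comap_of_surjective _ (QuotientGroup.mk'_surjective _)
    have hr : Nat.card Fh.range = 2 ^ 12 := by
      have h1 := Nat.card_congr (MonoidHom.ofInjective (F_inj hψ)).toEquiv
      rw [← h1]
      simp [Nat.card_eq_fintype_card]
    have hq : Nat.card (Q ⧸ center Q) * 2 = 2 ^ 25 := by
      have := Subgroup.card_eq_card_quotient_mul_card_subgroup (center Q)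
      rw [hE.2, hcard] at this
      exact this.symm
    have hi2 : Nat.card Fh.range * Fh.range.index = Nat.card (Q ⧸ center Q) :=
      Subgroup.card_mul_index _
    rw [hr] at hi2
    rw [hidx] at hc1
    have hi : Fh.range.index = 2 ^ 12 := by omega
    rw [hi] at hc1
    omega

end Cfsg.Agent.S5408
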