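-- Statement S5409.
import Cfsg.Statements.S5409
import Cfsg.Agent.Lib.Monster.Struct

set_option autoImplicit false
open Cfsg

namespace Cfsg.Agent.S5409

open Subgroup Cfsg.Agent.Lib.Monster.Local Cfsg.Agent.Lib.Monster.Types Cfsg.Agent.Lib.Monster.Struct
  Cfsg.Agent.Lib.Monster.Frame Cfsg.Agent.Lib.Monster.Co2Core Cfsg.Agent.Lib.PGroups.Special

theorem card_map_mul {Γ Γ' : Type*} [Group Γ] [Group Γ'] [Finite Γ] (f : Γ →* Γ') (H : Subgroup Γ) :
    Nat.card H = Nat.card (H.map f) * Nat.card (f.ker ⊓ H : Subgroup Γ) := by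
  have h1 : (f.comp H.subtype).range = H.map f := by
    rw [MonoidHom.range_comp, Subgroup.range_subtype]
  have h2 : (f.comp H.subtype).ker = f.ker.subgroupOf H := by
    ext x
    simp [MonoidHom.mem_ker, Subgroup.mem_subgroupOf]
  have h3 := Subgroup.card_mul_index (f.comp H.subtype).ker
  rw [Subgroup.index_ker, h1, h2, card_subgroupOf_eq] at h3
  rw [← h3, mul_comm]

/-- Let G be a finite group of Monster type at the involution z with Q the extraspecial normal subgroup of order 2^25 of C = C_G(z) (so C/Q is identified with the first Conway group with Q modulo its centre the Leech lattice modulo 2, and z is not weakly closed in Q). Then for a conjugate s = g z g⁻¹ of z lying in Q and different from z, the intersection of Q with its conjugate g Q g⁻¹ (both regarded as subgroups of G) has order 2^13. -/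
theorem result {G : Type*} [Group G] [Finite G] (z : G) (Q : Subgroup (Subgroup.centralizer ({z} : Set G))) [Q.Normal] (hM : Cfsg.IsOfMonsterType z Q) (s : G) (hsQ : ∃ hsc : s ∈ Subgroup.centralizer ({z} : Set G), (⟨s, hsc⟩ : Subgroup.centralizer ({z} : Set G)) ∈ Q) (hs : IsConj z s) (hs1 : s ≠ z) (g : G) (hg : g * z * g⁻¹ = s) : Nat.card ↥((Q.map (Subgroup.centralizer ({z} : Set G)).subtype) ⊓ (Q.map (Subgroup.centralizer ({z} : Set G)).subtype).map (MulAut.conj g).toMonoidHom) = 2 ^ 13 := by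
  obtain ⟨⟨hz, hF, hE', hcard, -⟩, e, ψ, hψ⟩ := hM
  have hS : MSet z Q e ψ := ⟨hz, hF, hE', hcard, hψ⟩
  obtain ⟨hsc, hs2⟩ := hsQ
  subst hg
  have hs0 : g * z * g⁻¹ ∈ Q0 Q := mem_Q0.mpr ⟨hsc, hs2⟩
  obtain ⟨γ₀, a, u, F⟩ := exists_Fr hS hs0 hs1
  set R : Subgroup (Cz z) := (Q1 Q g ⊓ Cz z).subgroupOf (Cz z) with hR
  have hE : Nat.card (R.map (QuotientGroup.mk' Q)) = 2 ^ 11 := by
    rw [hR, F.E_eq, ← card_DB]
    exact Nat.card_congr (DB.equivMapOfInjective (Phi e γ₀).toMonoidHom (Phi e γ₀).injective).symm.toEquiv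
  -- the order of `R`
  have hzQ1 := hS.z_mem_Q1 hs0 hs1
  have hX1 := hS.extra1 g
  have := Fact.mk Nat.prime_two
  have hL := extraLike_of_isExtraspecial hX1.ext
  have hz' : (⟨z, hzQ1⟩ : Q1 Q g) ∉ center (Q1 Q g) := by
    intro hc
    have h1 := hX1.central hzQ1 (fun x hx => congrArg Subtype.val ((Subgroup.mem_center_iff.mp hc) ⟨x, hx⟩))
    rcases h1 with h1 | h1
    · exact hS.z_ne_one h1
    · exact hs1 h1.symm
  have h1 := card_centralizer hL hz'
  rw [hS.card_Q1] at h1
  have hRc : Nat.card R = Nat.card (centralizer ({(⟨z, hzQ1⟩ : Q1 Q g)} : Set (Q1 Q g))) := by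
    refine Nat.card_congr
      { toFun := fun x => ⟨⟨(x.1 : G), x.2.1⟩, ?_⟩
        invFun := fun x => ⟨⟨(x.1 : G), ?_⟩, ⟨x.1.2, ?_⟩⟩
        left_inv := fun _ => rfl
        right_inv := fun _ => rfl }
    · rw [mem_centralizer_iff]
      rintro _ rfl
      apply Subtype.ext
      exact (mem_Cz.mp x.1.2).symm
    · rw [mem_Cz]
      have h2 := (mem_centralizer_iff.mp x.2) _ rfl
      exact (congrArg Subtype.val h2).symm
    · exact mem_Cz.mpr (by
        have h2 := (mem_centralizer_iff.mp x.2) _ rfl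
        exact (congrArg Subtype.val h2).symm)
  have h2 := card_map_mul (QuotientGroup.mk' Q) R
  rw [hE, QuotientGroup.ker_mk', hRc] at h2
  have h3 : Nat.card ((Q.map (Subgroup.centralizer ({z} : Set G)).subtype) ⊓ (Q.map (Subgroup.centralizer ({z} : Set G)).subtype).map (MulAut.conj g).toMonoidHom : Subgroup G) =
      Nat.card (Q ⊓ R : Subgroup (Cz z)) := by
    refine Nat.card_congr
      { toFun := fun x => ⟨⟨(x : G), ?_⟩, ?_⟩
        invFun := fun x => ⟨((x.1 : Cz z) : G), coe_mem_Q0 x.2.1, x.2.2.1⟩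
        left_inv := fun _ => rfl
        right_inv := fun _ => rfl }
    · exact (mem_Q0.mp x.2.1).1
    · exact ⟨(mem_Q0.mp x.2.1).2, x.2.2, (mem_Q0.mp x.2.1).1⟩
  rw [h3]
  have h4 : 2 ^ 11 * Nat.card (Q ⊓ R : Subgroup (Cz z)) * 2 = 2 ^ 25 := by
    rw [← h2]
    exact h1
  omega

end Cfsg.Agent.S5409
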