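-- Statement S5410.
import Cfsg.Statements.S5410
import Cfsg.Agent.Lib.Monster.Struct

set_option autoImplicit false
open Cfsg

namespace Cfsg.Agent.S5410

open Cfsg.Agent.Lib.Monster.Local Cfsg.Agent.Lib.Monster.Types Cfsg.Agent.Lib.Monster.Struct
  Cfsg.Agent.Lib.Monster.Frame

/-- Let G be a finite group of Monster type at the involution z with Q the extraspecial normal subgroup of order 2^25 of C = C_G(z) (so C/Q is identified with the first Conway group with Q modulo its centre the Leech lattice modulo 2, and z is not weakly closed in Q). Let g in G with s = g z g⁻¹ a member of Q other than z, let X be the image in C/Q of the centralizer of s in C, and let E be the image in C/Q of the intersection of g Q g⁻¹ with C. Then E is a normal subgroup of X, elementary abelian of order 2^11, and it has a complement in X isomorphic to the Mathieu group of degree 24 (the automorphism group of the length-24 binary Golay code). -/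
theorem result {G : Type*} [Group G] [Finite G] (z : G) (Q : Subgroup (Subgroup.centralizer ({z} : Set G))) [Q.Normal] (hM : Cfsg.IsOfMonsterType z Q) (s : G) (hsQ : ∃ hsc : s ∈ Subgroup.centralizer ({z} : Set G), (⟨s, hsc⟩ : Subgroup.centralizer ({z} : Set G)) ∈ Q) (hs : IsConj z s) (hs1 : s ≠ z) (g : G) (hg : g * z * g⁻¹ = s) (X E : Subgroup ((Subgroup.centralizer ({z} : Set G)) ⧸ Q)) (hX : X = ((Subgroup.centralizer ({z} : Set G) ⊓ Subgroup.centralizer ({s} : Set G)).subgroupOf (Subgroup.centralizer ({z} : Set G))).map (QuotientGroup.mk' Q)) (hE : E = (((Q.map (Subgroup.centralizer ({z} : Set G)).subtype).map (MulAut.conj g).toMonoidHom ⊓ Subgroup.centralizer ({z} : Set G)).subgroupOf (Subgroup.centralizer ({z} : Set G))).map (QuotientGroup.mk' Q)) : E ≤ X ∧ (∀ x ∈ X, ∀ y ∈ E, x * y * x⁻¹ ∈ E) ∧ Cfsg.IsElementaryAbelian 2 E ∧ Nat.card E = 2 ^ 11 ∧ ∃ K : Subgroup ((Subgroup.centralizer ({z} : Set G)) ⧸ Q), K ≤ X ∧ E ⊓ K = ⊥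 ∧ E ⊔ K = X ∧ Nonempty (K ≃* Cfsg.M24) := by
  obtain ⟨⟨hz, hF, hE', hcard, -⟩, e, ψ, hψ⟩ := hM
  have hS : MSet z Q e ψ := ⟨hz, hF, hE', hcard, hψ⟩
  obtain ⟨hsc, hs2⟩ := hsQ
  subst hg
  have hs0 : g * z * g⁻¹ ∈ Q0 Q := mem_Q0.mpr ⟨hsc, hs2⟩
  obtain ⟨γ₀, a, u, F⟩ := exists_Fr hS hs0 hs1
  have hXe := F.X_eq
  have hEe := F.E_eq
  have hX' : X = NB.map (Phi e γ₀).toMonoidHom := by
    rw [hX, ← hXe]
  have hE2 : E = DB.map (Phi e γ₀).toMonoidHom := by
    rw [hE, ← hEe]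
    rfl
  set Φ := Phi e γ₀ with hΦ
  subst hX' hE2
  refine ⟨Subgroup.map_mono DB_le_NB, ?_, ?_, ?_, KB.map Φ.toMonoidHom, Subgroup.map_mono KB_le_NB, ?_, ?_, ?_⟩
  · rintro _ ⟨n, hn, rfl⟩ _ ⟨d, hd, rfl⟩
    refine ⟨n * d * n⁻¹, DB_normal hn hd, ?_⟩
    simp [map_mul, map_inv]
  · obtain ⟨⟨hc⟩, hp⟩ := DB_elem
    refine ⟨⟨⟨?_⟩⟩, ?_⟩
    · rintro ⟨_, d, hd, rfl⟩ ⟨_, d', hd', rfl⟩
      apply Subtype.ext
      show Φ d * Φ d' = Φ d' * Φ d
      rw [← map_mul, ← map_mul]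
      have h1 := hc.comm ⟨d, hd⟩ ⟨d', hd'⟩
      have h2 : d * d' = d' * d := congrArg Subtype.val h1
      rw [h2]
    · rintro _ ⟨d, hd, rfl⟩
      show (Φ d) ^ 2 = 1
      rw [← map_pow, hp d hd, map_one]
  · rw [← card_DB]
    exact Nat.card_congr (DB.equivMapOfInjective Φ.toMonoidHom Φ.injective).symm.toEquiv
  · rw [← Subgroup.map_inf _ _ _ Φ.injective, DB_inf_KB, Subgroup.map_bot]
  · rw [← Subgroup.map_sup, DB_sup_KB]
  · obtain ⟨f⟩ := KB_iso
    exact ⟨(KB.equivMapOfInjective Φ.toMonoidHom Φ.injective).symm.trans f⟩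

end Cfsg.Agent.S5410
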