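-- Statement S5412.
import Cfsg.Statements.S5412
import Cfsg.Agent.Lib.Monster.Baby3

set_option autoImplicit false
open Cfsg

namespace Cfsg.Agent.S5412

open Cfsg.Agent.Lib.Monster.Local Cfsg.Agent.Lib.Monster.Types Cfsg.Agent.Lib.Monster.BabyLat
  Cfsg.Agent.Lib.Monster.Baby Cfsg.Agent.Lib.Monster.Baby2 Cfsg.Agent.Lib.Monster.Baby3

/-- Let G be a finite group of Monster type at the involution z with Q the extraspecial normal subgroup of order 2^25 of C = C_G(z) (so C/Q is identified with the first Conway group with Q modulo its centre the Leech lattice modulo 2, and z is not weakly closed in Q). Let t be an involution of Q not conjugate to z in G. Then the centralizer of t modulo the subgroup generated by t is a group of Baby Monster type (an involution whose centralizer D has generalized Fitting subgroup R extraspecial of order 2^23 with D/R identified with the second Conway group acting on R modulo its centre as on the vectors of the Leech lattice modulo 2 orthogonal to a short vector, modulo that vector; the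 involution not weakly closed in R). -/
theorem result {G : Type*} [Group G] [Finite G] (z : G) (Q : Subgroup (Subgroup.centralizer ({z} : Set G))) [Q.Normal] (hM : Cfsg.IsOfMonsterType z Q) (t : G) (htQ : ∃ htc : t ∈ Subgroup.centralizer ({z} : Set G), (⟨t, htc⟩ : Subgroup.centralizer ({z} : Set G)) ∈ Q) (ht2 : orderOf t = 2) (ht : ¬ IsConj z t) [hn : ((Subgroup.zpowers t).subgroupOf (Subgroup.centralizer ({t} : Set G))).Normal] : Cfsg.IsOfBabyMonsterType (↥(Subgroup.centralizer ({t} : Set G)) ⧸ (Subgroup.zpowers t).subgroupOf (Subgroup.centralizer ({t} : Set G))) := by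
  have hM' := hM
  obtain ⟨⟨hz, hF, hE, hcard, hnwc⟩, e, ψ, hψ⟩ := hM
  have hS : MSet z Q e ψ := ⟨hz, hF, hE, hcard, hψ⟩
  obtain ⟨htc, ht'⟩ := htQ
  obtain ⟨hnc, u₀, hu₀, hnorm⟩ := Cfsg.Agent.S5411.short32 (a := ⟨⟨t, htc⟩, ht'⟩) hS hnwc ht2 ht
  obtain ⟨γ, hγ⟩ := Cfsg.Agent.Lib.Leech.Trans.trans32 uL u₀ sqNorm_uL hnorm
  have hS' := MSet.twist hS γ
  have ht2' : t ^ 2 = 1 := by
    rw [← ht2]
    exact pow_orderOf_eq_one t
  have hk : ∀ x : Cz t, QuotientGroup.mk' ((Subgroup.zpowers t).subgroupOf (Subgroup.centralizer ({t} : Set G))) x = 1 ↔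
      (x : G) = 1 ∨ (x : G) = t := by
    intro x
    rw [QuotientGroup.mk'_apply, QuotientGroup.eq_one_iff, Subgroup.mem_subgroupOf]
    constructor
    · rintro ⟨n, hn⟩
      have h2 : t ^ (2 : ℤ) = 1 := by exact_mod_cast ht2'
      rcases Int.emod_two_eq_zero_or_one n with h | h
      · left
        simp only at hn
        rw [← hn, ← Int.emod_add_mul_ediv n 2, h, zero_add, zpow_mul, h2, one_zpow]
      · right
        simp only at hn
        rw [← hn, ← Int.emod_add_mul_ediv n 2, h, zpow_add, zpow_mul, h2, one_zpow, zpow_one, mul_one]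
    · rintro (h | h)
      · rw [h]
        exact Subgroup.one_mem _
      · rw [h]
        exact Subgroup.mem_zpowers t
  have S : BS z t Q _ _ ⟨⟨t, htc⟩, ht'⟩ (QuotientGroup.mk' ((Subgroup.zpowers t).subgroupOf (Subgroup.centralizer ({t} : Set G)))) :=
    { h := hS'
      ha := rfl
      hu := by
        show ψ (γ • uL) = _
        rw [hγ, hu₀]
      hnc := hnc
      ht := ht
      hπ := QuotientGroup.mk'_surjective _
      hk := hk
      hnwc := hnwc
      ht2 := ht2' }
  have : Finite (↥(Subgroup.centralizer ({t} : Set G)) ⧸ (Subgroup.zpowers t).subgroupOf (Subgroup.centralizer ({t} : Set G))) :=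
    Finite.of_surjective _ S.hπ
  obtain ⟨k, hk1, hk2, hk3⟩ := exists_k hM' hS hnwc (coe_mem_Q0 ht') ht2 ht
  exact ⟨zbar S, Qb S, Qb_normal S, ⟨zbar_order S, fitting_eq S, Qb_extra S, card_Qb S, Qb_nwc S hk1 hk2 hk3⟩,
    eb S, psib S, psib_iso S⟩

end Cfsg.Agent.S5412
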