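import Cfsg.Statements.S5420
import Cfsg.Agent.Lib.ThreeT.LargeQ

set_option autoImplicit false
open Cfsg

namespace Cfsg.Agent.S5420

/-- Let Q be an extraspecial 2-subgroup of the finite group G whose centralizer in G is its centre Z and which is normal in the centralizer of Z. If Z lies in the largest normal 2-subgroup of G, then Q is a large extraspecial 2-subgroup of G: it normalizes no non-trivial subgroup of G of odd order. -/
theorem result {G : Type*} [Group G] [Finite G] (Q : Subgroup G) (hL1 : Cfsg.IsExtraspecial 2 ↥Q) (hL2 : Subgroup.centralizer (Q : Set G) = ((Subgroup.center ↥Q).map Q.subtype)) (hL3 : Subgroup.centralizer (((Subgroup.center ↥Q).map Q.subtype) : Set G) ≤ Subgroup.normalizer (Q : Set G)) (hZ : ((Subgroup.center ↥Q).map Q.subtype) ≤ Cfsg.pCore 2 G) : Cfsg.IsLargeExtraspecial Q := by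
  refine ⟨hL1, hL2, hL3, ?_⟩
  intro K hK hQK
  have hOp : IsPGroup 2 (Cfsg.pCore 2 G) := Cfsg.Agent.Lib.Core.Basic.pCore_isPGroup
  refine Cfsg.Agent.Lib.ThreeT.LargeQ.eq_bot_of_centralizes Q hL1 hL2 hL3 hK hQK ?_
  intro k hk
  rw [Subgroup.mem_centralizer_iff]
  intro z hz
  have hzQ : z ∈ Q := by
    obtain ⟨w, _, rfl⟩ := hz
    exact w.2
  have hzC : z ∈ Cfsg.pCore 2 G := hZ hz
  have h1 : k * (z * k⁻¹ * z⁻¹) ∈ K := Cfsg.Agent.Lib.ThreeT.LargeQ.comm_mem_left hk (hQK hzQ)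
  have h2 : (k * z * k⁻¹) * z⁻¹ ∈ Cfsg.pCore 2 G :=
    (Cfsg.pCore 2 G).mul_mem ((Cfsg.pCore_normal 2 G).conj_mem z hzC k) ((Cfsg.pCore 2 G).inv_mem hzC)
  have h3 : k * (z * k⁻¹ * z⁻¹) = (k * z * k⁻¹) * z⁻¹ := by group
  rw [← h3] at h2
  have h4 := Cfsg.Agent.Lib.ThreeT.LargeQ.eq_one_of_odd_of_isPGroup hK hOp h1 h2
  have h5 : (k * z * k⁻¹) * z⁻¹ = 1 := by rw [← h3]; exact h4
  have h6 : k * z * k⁻¹ = z := mul_inv_eq_one.mp h5
  calc z * k = k * z * k⁻¹ * k := by rw [h6]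
    _ = k * z := by group

end Cfsg.Agent.S5420
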