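import Cfsg.Statements.S5421
import Cfsg.Agent.Lib.ThreeT.LargeQ

set_option autoImplicit false
open Cfsg

namespace Cfsg.Agent.S5421

/-- Let Q be an extraspecial 2-subgroup of the finite group G whose centralizer in G is its centre Z and which is normal in the centralizer of Z. If some involution b of Q outside Z has Z inside the largest normal 2-subgroup of the centralizer of b, then Q is a large extraspecial 2-subgroup of G. -/
theorem result {G : Type*} [Group G] [Finite G] (Q : Subgroup G) (hL1 : Cfsg.IsExtraspecial 2 ↥Q) (hL2 : Subgroup.centralizer (Q : Set G) = ((Subgroup.center ↥Q).map Q.subtype)) (hL3 : Subgroup.centralizer (((Subgroup.center ↥Q).map Q.subtype) : Set G) ≤ Subgroup.normalizer (Q : Set G)) (b : G) (hbQ : b ∈ Q) (hbZ : b ∉ ((Subgroup.center ↥Q).map Q.subtype)) (hb : orderOf b = 2) (hZ : ((Subgroup.center ↥Q).map Q.subtype) ≤ (Cfsg.pCore 2 ↥(Subgroup.centralizer ({b} : Set G))).map (Subgroup.centralizer ({b} : Set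 G)).subtype) : Cfsg.IsLargeExtraspecial Q := by
  refine ⟨hL1, hL2, hL3, ?_⟩
  intro K hK hQK
  have hQ2 : IsPGroup 2 Q := hL1.1.1
  set Z : Subgroup G := (Subgroup.center ↥Q).map Q.subtype with hZdef
  have hbb : b * b = 1 := by
    have := pow_orderOf_eq_one b
    rw [hb, pow_two] at this
    exact this
  have hbi : b⁻¹ = b := inv_eq_of_mul_eq_one_left hbb
  have hZQ : ∀ z ∈ Z, z ∈ Q := by
    rintro z ⟨w, _, rfl⟩
    exact w.2
  have hZb : ∀ z ∈ Z, z * b = b * z := by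
    rintro z ⟨w, hw, rfl⟩
    have := (Subgroup.mem_center_iff.mp hw) ⟨b, hbQ⟩
    have h2 := congrArg Subtype.val this
    exact h2.symm
  -- Step 1: C_K(b) is trivial
  have hCK : ∀ y ∈ K, y * b = b * y → y = 1 := by
    intro y hyK hyb
    have hyC : y ∈ Subgroup.centralizer ({b} : Set G) := by
      rw [Subgroup.mem_centralizer_iff]
      intro x hx
      rw [Set.mem_singleton_iff] at hx
      rw [hx]
      exact hyb.symm
    refine Cfsg.Agent.Lib.ThreeT.LargeQ.eq_one_of_centralizes Q hL1 hL2 hL3 hK hQK hyK ?_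
    rw [Subgroup.mem_centralizer_iff]
    intro z hz
    obtain ⟨z', hz', hz'e⟩ := hZ hz
    have hOp : IsPGroup 2 (Cfsg.pCore 2 ↥(Subgroup.centralizer ({b} : Set G))) :=
      Cfsg.Agent.Lib.Core.Basic.pCore_isPGroup
    set y' : ↥(Subgroup.centralizer ({b} : Set G)) := ⟨y, hyC⟩ with hy'
    have h3 : y' * z' * y'⁻¹ * z'⁻¹ ∈ Cfsg.pCore 2 ↥(Subgroup.centralizer ({b} : Set G)) :=
      Subgroup.mul_mem _ ((Cfsg.pCore_normal 2 _).conj_mem z' hz' y') (Subgroup.inv_mem _ hz')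
    have hmem2 : y * z * y⁻¹ * z⁻¹ ∈ (Cfsg.pCore 2 ↥(Subgroup.centralizer ({b} : Set G))).map
        (Subgroup.centralizer ({b} : Set G)).subtype := by
      refine ⟨_, h3, ?_⟩
      simp only [Subgroup.subtype_apply, Subgroup.coe_mul, Subgroup.coe_inv]
      have hz'' : ((z' : ↥(Subgroup.centralizer ({b} : Set G))) : G) = z := hz'e
      rw [hz'', hy']
    have hP2 : IsPGroup 2 ((Cfsg.pCore 2 ↥(Subgroup.centralizer ({b} : Set G))).map
        (Subgroup.centralizer ({b} : Set G)).subtype) :=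
      IsPGroup.map hOp _
    have h1 : y * (z * y⁻¹ * z⁻¹) ∈ K :=
      Cfsg.Agent.Lib.ThreeT.LargeQ.comm_mem_left hyK (hQK (hZQ z hz))
    have h4 : y * (z * y⁻¹ * z⁻¹) = y * z * y⁻¹ * z⁻¹ := by group
    rw [← h4] at hmem2
    have h5 := Cfsg.Agent.Lib.ThreeT.LargeQ.eq_one_of_odd_of_isPGroup hK hP2 h1 hmem2
    have h6 : y * z * y⁻¹ * z⁻¹ = 1 := by rw [← h4]; exact h5
    have h7 : y * z * y⁻¹ = z := mul_inv_eq_one.mp h6
    calc z * y = y * z * y⁻¹ * y := by rw [h7]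
      _ = y * z := by group
  -- Step 2: b inverts K
  have hbN := hQK hbQ
  let φ : K →* K :=
    { toFun := fun x => ⟨b * x * b⁻¹, (Subgroup.mem_normalizer_iff.mp hbN x).mp x.2⟩
      map_one' := by apply Subtype.ext; simp
      map_mul' := by
        intro x y
        apply Subtype.ext
        show b * ((x : G) * y) * b⁻¹ = (b * x * b⁻¹) * (b * y * b⁻¹)
        group }
  have hφfp : MonoidHom.FixedPointFree φ := by
    intro x hx
    have hx' : b * (x : G) * b⁻¹ = x := congrArg Subtype.val hx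
    apply Subtype.ext
    apply hCK x x.2
    calc (x : G) * b = b * x * b⁻¹ * b := by rw [hx']
      _ = b * x := by group
  have hφinv : Function.Involutive φ := by
    intro x
    apply Subtype.ext
    show b * (b * (x : G) * b⁻¹) * b⁻¹ = x
    rw [hbi]
    calc b * (b * (x : G) * b) * b = (b * b) * x * (b * b) := by group
      _ = x := by rw [hbb, one_mul, mul_one]
  have hinv : ∀ x ∈ K, b * x * b⁻¹ = x⁻¹ := by
    intro x hx
    have := congrFun (hφfp.coe_eq_inv_of_involutive hφinv) ⟨x, hx⟩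
    exact congrArg Subtype.val this
  -- Step 3: a non-commuting element q of Q
  have hbnc : ∃ q : Q, q * ⟨b, hbQ⟩ ≠ ⟨b, hbQ⟩ * q := by
    by_contra hcon
    push Not at hcon
    apply hbZ
    exact ⟨⟨b, hbQ⟩, Subgroup.mem_center_iff.mpr hcon, rfl⟩
  obtain ⟨q, hq⟩ := hbnc
  have hqQ : (q : G) ∈ Q := q.2
  set qb : Q := ⟨b, hbQ⟩ with hqb
  have hz0c : q * qb * q⁻¹ * qb⁻¹ ∈ Subgroup.center ↥Q := by
    rw [← hL1.1.2.2]
    exact Subgroup.commutator_mem_commutator (Subgroup.mem_top _) (Subgroup.mem_top _)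
  have hz01 : q * qb * q⁻¹ * qb⁻¹ ≠ 1 := by
    intro h
    apply hq
    have h2 : q * qb * q⁻¹ = qb := mul_inv_eq_one.mp h
    calc q * qb = q * qb * q⁻¹ * q := by group
      _ = qb * q := by rw [h2]
  -- q b q⁻¹ inverts K as well
  have hqN := hQK hqQ
  have hinv2 : ∀ x ∈ K, ((q : G) * b * (q : G)⁻¹) * x * ((q : G) * b * (q : G)⁻¹)⁻¹ = x⁻¹ := by
    intro x hx
    have h1 : (q : G)⁻¹ * x * q ∈ K := by
      have := (Subgroup.mem_normalizer_iff.mp ((Subgroup.normalizer (K : Set G)).inv_mem hqN) x).mp hx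
      simpa using this
    have h2 := hinv _ h1
    calc ((q : G) * b * (q : G)⁻¹) * x * ((q : G) * b * (q : G)⁻¹)⁻¹
        = (q : G) * (b * ((q : G)⁻¹ * x * q) * b⁻¹) * (q : G)⁻¹ := by group
      _ = x⁻¹ := by rw [h2]; group
  -- the central element centralizes K
  have hz0K : ∀ x ∈ K, (((q * qb * q⁻¹ * qb⁻¹ : Q) : G)) * x = x * ((q * qb * q⁻¹ * qb⁻¹ : Q) : G) := by
    intro x hx
    have h1 := hinv2 (x⁻¹) (K.inv_mem hx)
    have h2 := hinv x hx
    have h3 : b⁻¹ * x * b = x⁻¹ := by rw [hbi]; rw [hbi] at h2; exact h2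
    have e : ((q * qb * q⁻¹ * qb⁻¹ : Q) : G) = (q : G) * b * (q : G)⁻¹ * b⁻¹ := rfl
    rw [e]
    calc (q : G) * b * (q : G)⁻¹ * b⁻¹ * x
        = ((q : G) * b * (q : G)⁻¹) * (b⁻¹ * x * b) * b⁻¹ := by group
      _ = ((q : G) * b * (q : G)⁻¹) * x⁻¹ * ((q : G) * b * (q : G)⁻¹)⁻¹ * ((q : G) * b * (q : G)⁻¹) * b⁻¹ := by
          rw [h3]; group
      _ = x * ((q : G) * b * (q : G)⁻¹ * b⁻¹) := by rw [h1]; simp [mul_assoc]
  refine Cfsg.Agent.Lib.ThreeT.LargeQ.eq_bot_of_centralizes Q hL1 hL2 hL3 hK hQK ?_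
  intro k hk
  rw [Subgroup.mem_centralizer_iff]
  rintro z ⟨w, hw, rfl⟩
  have hcard : Nat.card (Subgroup.center ↥Q) = 2 := hL1.2
  obtain ⟨y, -, huniq⟩ := (Nat.card_eq_two_iff' (1 : Subgroup.center ↥Q)).mp hcard
  have hwy : (⟨w, hw⟩ : Subgroup.center ↥Q) = 1 ∨ (⟨w, hw⟩ : Subgroup.center ↥Q) = y := by
    by_cases h : (⟨w, hw⟩ : Subgroup.center ↥Q) = 1
    · exact Or.inl h
    · exact Or.inr (huniq _ h)
  have hz0y : (⟨q * qb * q⁻¹ * qb⁻¹, hz0c⟩ : Subgroup.center ↥Q) = y := by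
    apply huniq
    intro h
    exact hz01 (congrArg Subtype.val h)
  rcases hwy with h | h
  · have : w = 1 := congrArg Subtype.val h
    rw [this]
    simp
  · have h5 : w = q * qb * q⁻¹ * qb⁻¹ := by
      have := h.trans hz0y.symm
      exact congrArg Subtype.val this
    rw [h5]
    exact (hz0K k hk).symm ▸ rfl

end Cfsg.Agent.S5421
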