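import Cfsg.Statements.S5423
import Cfsg.Agent.Lib.ThreeT.SLCore
import Cfsg.Agent.Lib.PGroups.Special
import Cfsg.Agent.Lib.Core.Basic

set_option autoImplicit false
open Cfsg

namespace Cfsg.Agent.S5423

open Subgroup Cfsg.Agent.Lib.PGroups.Special Cfsg.Agent.Lib.Core.Basic

variable {n : ℕ}

/-- The hyperplane. -/
abbrev VV (n : ℕ) := Fin n → ZMod 2
/-- The vector space `U`, in coordinates. -/
abbrev PP (n : ℕ) := ZMod 2 × VV n
/-- Linear automorphisms of `U`. -/
abbrev LL (n : ℕ) := PP n ≃ₗ[ZMod 2] PP n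
/-- Linear automorphisms of the hyperplane. -/
abbrev LV (n : ℕ) := VV n ≃ₗ[ZMod 2] VV n

/-- The distinguished vector. -/
def e0 (n : ℕ) : PP n := (1, 0)

lemma two_z : ∀ a : ZMod 2, a + a = 0 := by decide

lemma PP_two (p : PP n) : p + p = 0 := Prod.ext (two_z _) (funext fun _ => two_z _)

lemma e0_ne : e0 n ≠ 0 := by
  intro h
  have := congrArg Prod.fst h
  exact one_ne_zero this

/-- Linear algebra. -/
theorem exists_coords {V : Type*} [AddCommGroup V] [Module (ZMod 2) V] [Finite V] (z : V) (hz : z ≠ 0)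
    (hc : Nat.card V = 2 ^ (n + 1)) : ∃ e : PP n ≃ₗ[ZMod 2] V, e (e0 n) = z := by
  classical
  have hfin : Module.Finite (ZMod 2) V := Module.Finite.of_finite
  have h1 : Module.finrank (ZMod 2) V = n + 1 := by
    have h2 := Module.natCard_eq_pow_finrank (K := ZMod 2) (V := V)
    rw [hc, Nat.card_zmod] at h2
    exact (Nat.pow_right_injective (le_refl 2) h2).symm
  obtain ⟨H, hH⟩ := Submodule.exists_isCompl (Submodule.span (ZMod 2) {z})
  have h2 := Submodule.finrank_add_eq_of_isCompl hH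
  rw [finrank_span_singleton hz, h1] at h2
  have h3 : Module.finrank (ZMod 2) H = n := by omega
  have c : VV n ≃ₗ[ZMod 2] H := LinearEquiv.ofFinrankEq _ _ (by rw [h3]; simp)
  let a := LinearEquiv.toSpanNonzeroSingleton (ZMod 2) V z hz
  refine ⟨(LinearEquiv.prodCongr a c).trans (Submodule.prodEquivOfIsCompl _ H hH), ?_⟩
  show ((a 1 : Submodule.span (ZMod 2) {z}) : V) + ((c 0 : H) : V) = z
  rw [map_zero, LinearEquiv.toSpanNonzeroSingleton_one]
  simp

/-- The semidirect product structure of `G`. -/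
structure Coord (G : Type*) [Group G] (n : ℕ) where
  b : PP n → G
  rho : G →* LL n
  sec : LL n →* G
  b_add : ∀ p q, b (p + q) = b p * b q
  b_inj : Function.Injective b
  rho_b : ∀ g p, b (rho g p) = g * b p * g⁻¹
  ker_rho : ∀ g, rho g = 1 → ∃ p, b p = g
  rho_sec : ∀ σ, rho (sec σ) = σ

theorem exists_b {G : Type*} [Group G] [Finite G] (U : Subgroup G)
    (hU : IsElementaryAbelian 2 U) (hUcard : Nat.card ↥U = 2 ^ (n + 1)) (z : G) (hzU : z ∈ U) (hz1 : z ≠ 1) :
    ∃ b : PP n → G, (∀ p q, b (p + q) = b p * b q) ∧ Function.Injective b ∧ (∀ g, g ∈ U ↔ ∃ p, b p = g) ∧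
      b (e0 n) = z := by
  classical
  let _ : CommGroup ↥U := { (inferInstance : Group ↥U) with mul_comm := hU.1.is_comm.comm }
  let _ : Module (ZMod 2) (Additive ↥U) := AddCommGroup.zmodModule (by
    intro x
    show Additive.ofMul (x.toMul ^ 2) = 0
    have h1 : x.toMul ^ 2 = 1 := Subtype.ext (hU.2 _ x.toMul.2)
    rw [h1]
    rfl)
  have hcard : Nat.card (Additive ↥U) = 2 ^ (n + 1) := hUcard
  obtain ⟨e, he⟩ := exists_coords (n := n) (Additive.ofMul (⟨z, hzU⟩ : ↥U)) (by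
    intro h
    have h1 : (⟨z, hzU⟩ : ↥U) = 1 := h
    exact hz1 (congrArg Subtype.val h1)) hcard
  refine ⟨fun p => (((e p).toMul : ↥U) : G), fun p q => ?_, fun p q h => ?_, fun g => ?_, ?_⟩
  · show (((e (p + q)).toMul : ↥U) : G) = _
    rw [map_add]
    rfl
  · exact e.injective (Additive.toMul.injective (Subtype.ext h))
  · constructor
    · intro hg
      refine ⟨e.symm (Additive.ofMul ⟨g, hg⟩), ?_⟩
      simp
    · rintro ⟨p, rfl⟩
      exact (e p).toMul.2
  · show (((e (e0 n)).toMul : ↥U) : G) = _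
    rw [he]
    rfl


/-- From coordinates to the action. -/
theorem exists_coord {G : Type*} [Group G] [Finite G] (U M : Subgroup G) [U.Normal]
    (hUM' : U ⊔ M = ⊤) (hfaith : ∀ m ∈ M, (∀ u ∈ U, m * u * m⁻¹ = u) → m = 1)
    (hfull : ∀ φ : ↥U ≃* ↥U, ∃ m ∈ M, ∀ u : ↥U, ((φ u : ↥U) : G) = m * u * m⁻¹)
    (b : PP n → G) (b_add : ∀ p q, b (p + q) = b p * b q) (b_inj : Function.Injective b)
    (b_mem : ∀ g, g ∈ U ↔ ∃ p, b p = g) : ∃ X : Coord G n, X.b = b := by
  classical
  have hb0 : b 0 = 1 := by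
    have h := b_add 0 0
    rw [add_zero] at h
    exact (mul_eq_left.1 h.symm)
  have hbinv : ∀ p, (b p)⁻¹ = b p := by
    intro p
    apply inv_eq_of_mul_eq_one_left
    rw [← b_add, PP_two, hb0]
  have hconj : ∀ (g : G) (p : PP n), ∃ q, b q = g * b p * g⁻¹ := fun g p =>
    (b_mem _).1 (‹U.Normal›.conj_mem _ ((b_mem _).2 ⟨p, rfl⟩) g)
  choose act hact using hconj
  have hact_add : ∀ g p q, act g (p + q) = act g p + act g q := by
    intro g p q
    apply b_inj
    rw [hact, b_add, b_add, hact, hact]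
    group
  have hact_mul : ∀ g h p, act (g * h) p = act g (act h p) := by
    intro g h p
    apply b_inj
    rw [hact, hact, hact]
    group
  have hact_one : ∀ p, act 1 p = p := by
    intro p
    apply b_inj
    rw [hact]
    group
  let rhoF : G → LL n := fun g => LinearEquiv.ofLinearMap
    (AddMonoidHom.toZModLinearMap 2 (AddMonoidHom.mk' (act g) (hact_add g)))
    (AddMonoidHom.toZModLinearMap 2 (AddMonoidHom.mk' (act g⁻¹) (hact_add g⁻¹)))
    (by
      refine LinearMap.ext fun p => ?_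
      show act g (act g⁻¹ p) = p
      rw [← hact_mul, mul_inv_cancel, hact_one])
    (by
      refine LinearMap.ext fun p => ?_
      show act g⁻¹ (act g p) = p
      rw [← hact_mul, inv_mul_cancel, hact_one])
  have hrhoF : ∀ g p, rhoF g p = act g p := fun _ _ => rfl
  let rho : G →* LL n := MonoidHom.mk' rhoF (fun g h => by
    exact LinearEquiv.ext fun p => hact_mul g h p)
  have hrho : ∀ g p, rho g p = act g p := fun _ _ => rfl
  -- the complement
  have hMrho : ∀ σ : LL n, ∃ m ∈ M, rho m = σ := by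
    intro σ
    have hinv : ∀ u : ↥U, ∃ p, b p = (u : G) := fun u => (b_mem _).1 u.2
    choose cp hcp using hinv
    have hbU : ∀ p, b p ∈ U := fun p => (b_mem _).2 ⟨p, rfl⟩
    have hcpb : ∀ p, cp ⟨b p, hbU p⟩ = p := fun p => b_inj (hcp _)
    let φ : ↥U ≃* ↥U :=
      { toFun := fun u => ⟨b (σ (cp u)), hbU _⟩
        invFun := fun u => ⟨b (σ.symm (cp u)), hbU _⟩
        left_inv := fun u => by
          apply Subtype.ext
          show b (σ.symm (cp ⟨b (σ (cp u)), hbU _⟩)) = u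
          rw [hcpb, LinearEquiv.symm_apply_apply, hcp]
        right_inv := fun u => by
          apply Subtype.ext
          show b (σ (cp ⟨b (σ.symm (cp u)), hbU _⟩)) = u
          rw [hcpb, LinearEquiv.apply_symm_apply, hcp]
        map_mul' := fun u v => by
          apply Subtype.ext
          show b (σ (cp (u * v))) = b (σ (cp u)) * b (σ (cp v))
          have h1 : cp (u * v) = cp u + cp v := by
            apply b_inj
            rw [hcp, b_add, hcp, hcp]
            rfl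
          rw [h1, map_add, b_add] }
    obtain ⟨m, hm, hφ⟩ := hfull φ
    refine ⟨m, hm, ?_⟩
    refine LinearEquiv.ext fun p => ?_
    apply b_inj
    rw [hrho, hact]
    have h1 := hφ ⟨b p, hbU p⟩
    have h2 : ((φ ⟨b p, hbU p⟩ : ↥U) : G) = b (σ p) := by
      show b (σ (cp ⟨b p, hbU p⟩)) = b (σ p)
      rw [hcpb]
    rw [h2] at h1
    exact h1.symm
  have hMinj : ∀ m ∈ M, rho m = 1 → m = 1 := by
    intro m hm h1
    refine hfaith m hm fun u hu => ?_
    obtain ⟨p, rfl⟩ := (b_mem u).1 hu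
    rw [← hact, ← hrho, h1]
    rfl
  have hbij : Function.Bijective ((rho.comp M.subtype : ↥M →* LL n)) := by
    constructor
    · rw [injective_iff_map_eq_one]
      intro m hm
      exact Subtype.ext (hMinj m m.2 hm)
    · intro σ
      obtain ⟨m, hm, h⟩ := hMrho σ
      exact ⟨⟨m, hm⟩, h⟩
  let eM : ↥M ≃* LL n := MulEquiv.ofBijective _ hbij
  let sec : LL n →* G := M.subtype.comp eM.symm.toMonoidHom
  have hrs : ∀ σ, rho (sec σ) = σ := by
    intro σ
    have h1 := eM.apply_symm_apply σ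
    exact h1
  refine ⟨⟨b, rho, sec, b_add, b_inj, fun g p => by rw [hrho, hact], ?_, hrs⟩, rfl⟩
  intro g hg
  have hg' : g ∈ ((U ⊔ M : Subgroup G) : Set G) := by rw [hUM']; exact mem_top g
  rw [Subgroup.normal_mul] at hg'
  obtain ⟨u, hu, m, hm, rfl⟩ := Set.mem_mul.1 hg'
  have hrhou : rho u = 1 := by
    obtain ⟨p, rfl⟩ := (b_mem u).1 hu
    refine LinearEquiv.ext fun q => ?_
    apply b_inj
    rw [hrho, hact]
    show _ = b q
    rw [hbinv, ← b_add, ← b_add, add_comm p q, add_assoc, PP_two, add_zero]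
  rw [map_mul, hrhou, one_mul] at hg
  rw [hMinj m hm hg, mul_one]
  exact (b_mem u).1 hu

/-! ### The linear group acting on `U` -/

lemma dich : ∀ a : ZMod 2, a = 0 ∨ a = 1 := by decide

lemma sig_t {σ : LL n} (hσ : σ (e0 n) = e0 n) (t : ZMod 2) : σ (t, (0 : VV n)) = (t, 0) := by
  have h1 : ((t, 0) : PP n) = t • e0 n := by
    apply Prod.ext
    · show t = t * 1
      rw [mul_one]
    · show (0 : VV n) = t • 0
      rw [smul_zero]
  rw [h1, map_smul, hσ]

lemma sig_split {σ : LL n} (hσ : σ (e0 n) = e0 n) (t : ZMod 2) (w : VV n) :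
    σ (t, w) = (t, 0) + σ (0, w) := by
  have h1 : ((t, w) : PP n) = (t, 0) + (0, w) := by
    apply Prod.ext
    · show t = t + 0
      rw [add_zero]
    · show w = 0 + w
      rw [zero_add]
  rw [h1, map_add, sig_t hσ]

lemma sig_snd {σ : LL n} (hσ : σ (e0 n) = e0 n) (p : PP n) : (σ p).2 = (σ (0, p.2)).2 := by
  obtain ⟨t, w⟩ := p
  rw [sig_split hσ]
  show (0 : VV n) + _ = _
  rw [zero_add]

/-- The stabilizer of `e0`. -/
def SS0 (n : ℕ) : Subgroup (LL n) where
  carrier := {σ | σ (e0 n) = e0 n}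
  one_mem' := rfl
  mul_mem' := fun {a b} ha hb => by
    show a (b (e0 n)) = e0 n
    rw [show b (e0 n) = e0 n from hb, show a (e0 n) = e0 n from ha]
  inv_mem' := fun {a} ha => by
    show a.symm (e0 n) = e0 n
    conv_lhs => rw [← show a (e0 n) = e0 n from ha]
    exact a.symm_apply_apply _

/-- The group of transvections with centre `e0`. -/
def TT (n : ℕ) : Subgroup (LL n) where
  carrier := {σ | σ (e0 n) = e0 n ∧ ∀ p, (σ p).2 = p.2}
  one_mem' := ⟨rfl, fun _ => rfl⟩
  mul_mem' := fun {a b} ha hb => by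
    refine ⟨?_, fun p => ?_⟩
    · show a (b (e0 n)) = e0 n
      rw [hb.1, ha.1]
    · show (a (b p)).2 = p.2
      rw [ha.2, hb.2]
  inv_mem' := fun {a} ha => by
    refine ⟨?_, fun p => ?_⟩
    · show a.symm (e0 n) = e0 n
      conv_lhs => rw [← ha.1]
      exact a.symm_apply_apply _
    · show (a.symm p).2 = p.2
      have := ha.2 (a.symm p)
      rw [a.apply_symm_apply] at this
      exact this.symm

/-- The action on the quotient by `e0`, on the hyperplane. -/
def thetaL (σ : LL n) : VV n →ₗ[ZMod 2] VV n :=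
  (LinearMap.snd (ZMod 2) (ZMod 2) (VV n)) ∘ₗ σ.toLinearMap ∘ₗ (LinearMap.inr (ZMod 2) (ZMod 2) (VV n))

lemma thetaL_apply (σ : LL n) (w : VV n) : thetaL σ w = (σ (0, w)).2 := rfl

lemma thetaL_mul {σ τ : LL n} (hσ : σ (e0 n) = e0 n) (w : VV n) :
    thetaL (σ * τ) w = thetaL σ (thetaL τ w) := by
  rw [thetaL_apply, thetaL_apply, thetaL_apply]
  exact sig_snd hσ _

lemma thetaL_one (w : VV n) : thetaL (1 : LL n) w = w := rfl

/-- The action on the quotient by `e0`. -/
def theta (n : ℕ) : ↥(SS0 n) →* LV n :=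
  MonoidHom.mk'
    (fun σ => LinearEquiv.ofLinearMap (thetaL (σ : LL n)) (thetaL ((σ⁻¹ : ↥(SS0 n)) : LL n))
      (by
        refine LinearMap.ext fun w => ?_
        show thetaL (σ : LL n) (thetaL ((σ⁻¹ : ↥(SS0 n)) : LL n) w) = w
        rw [← thetaL_mul σ.2]
        have : (σ : LL n) * ((σ⁻¹ : ↥(SS0 n)) : LL n) = 1 :=
          congrArg Subtype.val (mul_inv_cancel σ)
        rw [this, thetaL_one])
      (by
        refine LinearMap.ext fun w => ?_
        show thetaL ((σ⁻¹ : ↥(SS0 n)) : LL n) (thetaL (σ : LL n) w) = w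
        rw [← thetaL_mul (σ⁻¹).2]
        have : ((σ⁻¹ : ↥(SS0 n)) : LL n) * (σ : LL n) = 1 :=
          congrArg Subtype.val (inv_mul_cancel σ)
        rw [this, thetaL_one]))
    (fun σ τ => LinearEquiv.ext fun w => thetaL_mul σ.2 w)

lemma theta_apply (σ : ↥(SS0 n)) (w : VV n) : theta n σ w = ((σ : LL n) (0, w)).2 := rfl

/-- The split of `theta`. -/
def s0 (n : ℕ) : LV n →* LL n :=
  MonoidHom.mk' (fun τ => LinearEquiv.prodCongr (LinearEquiv.refl (ZMod 2) (ZMod 2)) τ)
    (fun _ _ => rfl)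

lemma s0_apply (τ : LV n) (p : PP n) : s0 n τ p = (p.1, τ p.2) := rfl

lemma s0_mem (τ : LV n) : s0 n τ ∈ SS0 n := by
  show s0 n τ (e0 n) = e0 n
  rw [s0_apply]
  apply Prod.ext
  · rfl
  · exact map_zero τ

lemma theta_s0 (τ : LV n) : theta n ⟨s0 n τ, s0_mem τ⟩ = τ := rfl

lemma s0_injective : Function.Injective (s0 n) := by
  intro τ τ' h
  refine LinearEquiv.ext fun w => ?_
  have h1 := congrArg (fun σ : LL n => (σ (0, w)).2) h
  exact h1

lemma theta_eq_one_iff (σ : ↥(SS0 n)) : theta n σ = 1 ↔ (σ : LL n) ∈ TT n := by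
  constructor
  · intro h
    refine ⟨σ.2, fun p => ?_⟩
    rw [sig_snd σ.2]
    have h1 := congrArg (fun τ : LV n => τ p.2) h
    exact h1
  · intro h
    refine LinearEquiv.ext fun w => ?_
    exact h.2 (0, w)

lemma tt_cases {σ : LL n} (h : σ ∈ TT n) (p : PP n) : σ p = p ∨ σ p = p + e0 n := by
  have h2 := h.2 p
  have hd : ∀ a b : ZMod 2, a = b ∨ a = b + 1 := by decide
  rcases hd (σ p).1 p.1 with h3 | h3
  · exact Or.inl (Prod.ext h3 h2)
  · right
    apply Prod.ext
    · exact h3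
    · rw [h2]
      show p.2 = p.2 + 0
      rw [add_zero]

lemma tt_add {σ : LL n} (h : σ ∈ TT n) (p : PP n) : σ (p + e0 n) = σ p + e0 n := by
  rw [map_add, h.1]

lemma e0_add (p : PP n) : p + e0 n + e0 n = p := by
  rw [add_assoc, PP_two, add_zero]

lemma tt_comm {σ τ : LL n} (h : σ ∈ TT n) (h' : τ ∈ TT n) : σ * τ = τ * σ := by
  refine LinearEquiv.ext fun r => ?_
  show σ (τ r) = τ (σ r)
  rcases tt_cases h r with h1 | h1 <;> rcases tt_cases h' r with h2 | h2 <;>
    simp only [h1, h2, tt_add h, tt_add h']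

lemma tt_sq {σ : LL n} (h : σ ∈ TT n) : σ * σ = 1 := by
  refine LinearEquiv.ext fun r => ?_
  show σ (σ r) = r
  rcases tt_cases h r with h1 | h1
  · rw [h1, h1]
  · rw [h1, tt_add h, h1, e0_add]

/-- The transvection attached to a linear functional. -/
def tauF (f : VV n →+ ZMod 2) : LL n :=
  LinearEquiv.ofLinearMap
    (AddMonoidHom.toZModLinearMap 2 (AddMonoidHom.mk' (fun p : PP n => (p.1 + f p.2, p.2)) (fun p q => by
      apply Prod.ext
      · show p.1 + q.1 + f (p.2 + q.2) = p.1 + f p.2 + (q.1 + f q.2)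
        rw [map_add]; ring
      · rfl)))
    (AddMonoidHom.toZModLinearMap 2 (AddMonoidHom.mk' (fun p : PP n => (p.1 + f p.2, p.2)) (fun p q => by
      apply Prod.ext
      · show p.1 + q.1 + f (p.2 + q.2) = p.1 + f p.2 + (q.1 + f q.2)
        rw [map_add]; ring
      · rfl)))
    (by
      refine LinearMap.ext fun p => ?_
      apply Prod.ext
      · show p.1 + f p.2 + f p.2 = p.1
        rw [add_assoc, two_z, add_zero]
      · rfl)
    (by
      refine LinearMap.ext fun p => ?_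
      apply Prod.ext
      · show p.1 + f p.2 + f p.2 = p.1
        rw [add_assoc, two_z, add_zero]
      · rfl)

lemma tauF_apply (f : VV n →+ ZMod 2) (p : PP n) : tauF f p = (p.1 + f p.2, p.2) := rfl

lemma tauF_mem (f : VV n →+ ZMod 2) : tauF f ∈ TT n := by
  refine ⟨?_, fun p => rfl⟩
  rw [tauF_apply]
  apply Prod.ext
  · show (1 : ZMod 2) + f 0 = 1
    rw [map_zero, add_zero]
  · rfl

/-- The functional attached to a transvection. -/
def chi (σ : LL n) : VV n →+ ZMod 2 :=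
  AddMonoidHom.mk' (fun w => (σ (0, w)).1) (fun w w' => by
    have h1 : ((0, w + w') : PP n) = (0, w) + (0, w') := by
      apply Prod.ext
      · show (0 : ZMod 2) = 0 + 0
        rw [add_zero]
      · rfl
    rw [h1, map_add]
    rfl)

lemma tauF_chi {σ : LL n} (h : σ ∈ TT n) : tauF (chi σ) = σ := by
  refine LinearEquiv.ext fun p => ?_
  obtain ⟨t, w⟩ := p
  rw [tauF_apply, sig_split h.1]
  apply Prod.ext
  · show t + (σ (0, w)).1 = t + (σ (0, w)).1
    rfl
  · show w = (0 : VV n) + (σ (0, w)).2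
    rw [zero_add, h.2]

lemma chi_tauF (f : VV n →+ ZMod 2) : chi (tauF f) = f := by
  refine AddMonoidHom.ext fun w => ?_
  show (0 : ZMod 2) + f w = f w
  rw [zero_add]

/-- The dual of the hyperplane has the right order. -/
theorem card_dual : Nat.card (VV n →+ ZMod 2) = 2 ^ n := by
  let F : VV n → (VV n →+ ZMod 2) := fun c =>
    AddMonoidHom.mk' (fun w => ∑ i, c i * w i) (fun w w' => by
      simp only [Pi.add_apply, mul_add, Finset.sum_add_distrib])
  have hF : ∀ c w, F c w = ∑ i, c i * w i := fun _ _ => rfl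
  have hFs : ∀ c i, F c (Pi.single i 1) = c i := by
    intro c i
    rw [hF]
    simp [Pi.single_apply]
  have hbij : Function.Bijective F := by
    constructor
    · intro c c' h
      funext i
      rw [← hFs c i, ← hFs c' i, h]
    · intro f
      refine ⟨fun i => f (Pi.single i 1), ?_⟩
      refine AddMonoidHom.functions_ext _ _ _ fun i x => ?_
      rcases dich x with rfl | rfl
      · rw [Pi.single_zero, map_zero, map_zero]
      · rw [hFs]
  rw [← Nat.card_congr (Equiv.ofBijective F hbij), Nat.card_fun, Nat.card_zmod, Nat.card_fin]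

/-! ### The group -/

namespace Coord

variable {G : Type*} [Group G] (X : Coord G n)

/-- The central involution. -/
def z : G := X.b (e0 n)

lemma b_zero : X.b 0 = 1 := by
  have h := X.b_add 0 0
  rw [add_zero] at h
  exact mul_eq_left.1 h.symm

lemma b_comm (p q : PP n) : X.b p * X.b q = X.b q * X.b p := by
  rw [← X.b_add, ← X.b_add, add_comm]

lemma b_sq (p : PP n) : X.b p * X.b p = 1 := by
  rw [← X.b_add, PP_two, X.b_zero]

lemma z_ne_one : X.z ≠ 1 := fun h =>
  e0_ne (X.b_inj (h.trans X.b_zero.symm))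

lemma z_sq : X.z * X.z = 1 := X.b_sq _

lemma rho_b' (p : PP n) : X.rho (X.b p) = 1 := by
  refine LinearEquiv.ext fun q => X.b_inj ?_
  rw [X.rho_b, X.b_comm, mul_inv_cancel_right]
  rfl

lemma sec_b (σ : LL n) (q : PP n) : X.sec σ * X.b q = X.b (σ q) * X.sec σ := by
  have h := X.rho_b (X.sec σ) q
  rw [X.rho_sec] at h
  rw [h, inv_mul_cancel_right]

lemma decomp (g : G) : ∃ p, g = X.b p * X.sec (X.rho g) := by
  obtain ⟨p, hp⟩ := X.ker_rho (g * (X.sec (X.rho g))⁻¹) (by
    rw [map_mul, map_inv, X.rho_sec, mul_inv_cancel])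
  exact ⟨p, by rw [hp, inv_mul_cancel_right]⟩

lemma mul_formula (p q : PP n) (σ τ : LL n) :
    (X.b p * X.sec σ) * (X.b q * X.sec τ) = X.b (p + σ q) * X.sec (σ * τ) := by
  rw [X.b_add, map_mul, mul_assoc (X.b p), ← mul_assoc (X.sec σ), X.sec_b]
  simp only [mul_assoc]

lemma sec_injective : Function.Injective X.sec := by
  intro σ τ h
  have := congrArg X.rho h
  rwa [X.rho_sec, X.rho_sec] at this

/-- The centralizer of `z`. -/
def CC : Subgroup G := (SS0 n).comap X.rho

/-- The subgroup `Q`. -/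
def Q0 : Subgroup G := (TT n).comap X.rho

lemma mem_CC {g : G} : g ∈ X.CC ↔ X.rho g (e0 n) = e0 n := Iff.rfl

lemma mem_Q0 {g : G} : g ∈ X.Q0 ↔ X.rho g ∈ TT n := Iff.rfl

lemma Q0_le : X.Q0 ≤ X.CC := fun _ h => h.1

lemma b_mem (p : PP n) : X.b p ∈ X.Q0 := by
  rw [mem_Q0, rho_b']
  exact one_mem _

lemma z_mem : X.z ∈ X.Q0 := X.b_mem _

lemma sec_mem {σ : LL n} (h : σ ∈ TT n) : X.sec σ ∈ X.Q0 := by
  rw [mem_Q0, X.rho_sec]
  exact h

lemma comm_z_iff (g : G) : X.z * g = g * X.z ↔ g ∈ X.CC := by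
  rw [mem_CC]
  constructor
  · intro h
    apply X.b_inj
    rw [X.rho_b]
    show g * X.z * g⁻¹ = X.z
    rw [← h, mul_inv_cancel_right]
  · intro h
    have h1 := X.rho_b g (e0 n)
    rw [h] at h1
    have h2 : X.z * g = g * X.z * g⁻¹ * g := congrArg (· * g) h1
    rw [h2, inv_mul_cancel_right]

lemma comm_or {x y : G} (hx : x ∈ X.Q0) (hy : y ∈ X.Q0) : x * y = y * x ∨ x * y = X.z * (y * x) := by
  obtain ⟨p, hp⟩ := X.decomp x
  obtain ⟨q, hq⟩ := X.decomp y
  have hσ : X.rho x ∈ TT n := hx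
  have hτ : X.rho y ∈ TT n := hy
  generalize X.rho x = σ at hp hσ
  generalize X.rho y = τ at hq hτ
  subst hp hq
  rw [X.mul_formula, X.mul_formula, tt_comm hσ hτ]
  have hz : ∀ a : PP n, X.z * (X.b a * X.sec (τ * σ)) = X.b (e0 n + a) * X.sec (τ * σ) := by
    intro a
    rw [X.b_add, mul_assoc]
    rfl
  rw [hz]
  have he : e0 n + e0 n = 0 := PP_two _
  rcases tt_cases hσ q with h1 | h1 <;> rcases tt_cases hτ p with h2 | h2 <;> rw [h1, h2]
  · left
    rw [add_comm p q]
  · right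
    congr 2
    rw [show e0 n + (q + (p + e0 n)) = q + p + (e0 n + e0 n) by abel, he, add_zero, add_comm]
  · right
    congr 2
    abel
  · left
    congr 2
    abel

lemma sq_or {x : G} (hx : x ∈ X.Q0) : x * x = 1 ∨ x * x = X.z := by
  obtain ⟨p, hp⟩ := X.decomp x
  have hσ : X.rho x ∈ TT n := hx
  generalize X.rho x = σ at hp hσ
  subst hp
  rw [X.mul_formula, tt_sq hσ, map_one, mul_one]
  rcases tt_cases hσ p with h1 | h1 <;> rw [h1]
  · left
    rw [PP_two, X.b_zero]
  · right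
    rw [← add_assoc, PP_two, zero_add]
    rfl

lemma pow_four_eq {x : G} (hx : x ∈ X.Q0) : x ^ 2 ^ 2 = 1 := by
  have h2 : (2 : ℕ) ^ 2 = 2 + 2 := by norm_num
  rw [h2, pow_add, pow_two]
  rcases X.sq_or hx with h | h
  · rw [h, one_mul]
  · rw [h, X.z_sq]

lemma central_eq (x : G) (hc : ∀ y ∈ X.Q0, x * y = y * x) : x = 1 ∨ x = X.z := by
  -- `x` acts trivially on `U`
  have h1 : X.rho x = 1 := by
    refine LinearEquiv.ext fun q => X.b_inj ?_
    rw [X.rho_b, hc _ (X.b_mem q), mul_inv_cancel_right]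
    rfl
  obtain ⟨p, rfl⟩ := X.ker_rho x h1
  -- `p` is fixed by the transvections
  have h2 : ∀ f : VV n →+ ZMod 2, f p.2 = 0 := by
    intro f
    have h3 := hc _ (X.sec_mem (tauF_mem f))
    have h4 := X.sec_b (tauF f) p
    rw [← h3] at h4
    have h5 := mul_right_cancel h4
    have h6 := X.b_inj h5
    have h7 := congrArg Prod.fst h6
    rw [tauF_apply] at h7
    exact (add_eq_left.1 h7.symm)
  have h3 : p.2 = 0 := by
    funext i
    by_contra hi
    have h4 := h2 (Pi.evalAddMonoidHom _ i)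
    exact hi h4
  rcases dich p.1 with h4 | h4
  · left
    have : p = 0 := Prod.ext h4 h3
    rw [this, X.b_zero]
  · right
    have : p = e0 n := Prod.ext h4 h3
    rw [this]
    rfl

/-- The subgroup `U`. -/
def UU : Subgroup G where
  carrier := {g | ∃ p, X.b p = g}
  one_mem' := ⟨0, X.b_zero⟩
  mul_mem' := by
    rintro _ _ ⟨p, rfl⟩ ⟨q, rfl⟩
    exact ⟨p + q, X.b_add p q⟩
  inv_mem' := by
    rintro _ ⟨p, rfl⟩
    exact ⟨p, inv_eq_of_mul_eq_one_left (X.b_sq p) |>.symm⟩

lemma UU_le : X.UU ≤ X.Q0 := by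
  rintro _ ⟨p, rfl⟩
  exact X.b_mem p

lemma UU_elem : IsElementaryAbelian 2 X.UU := by
  refine ⟨⟨⟨fun x y => ?_⟩⟩, fun a ha => ?_⟩
  · rcases x with ⟨_, p, rfl⟩
    rcases y with ⟨_, q, rfl⟩
    exact Subtype.ext (X.b_comm p q)
  · obtain ⟨p, rfl⟩ := ha
    rw [pow_two, X.b_sq]

lemma UU_card : Nat.card ↥X.UU = 2 ^ (n + 1) := by
  have hbij : Function.Bijective (fun p : PP n => (⟨X.b p, p, rfl⟩ : ↥X.UU)) := by
    constructor
    · intro p q h
      exact X.b_inj (congrArg Subtype.val h)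
    · rintro ⟨_, p, rfl⟩
      exact ⟨p, rfl⟩
  rw [← Nat.card_congr (Equiv.ofBijective _ hbij), Nat.card_prod, Nat.card_fun, Nat.card_zmod, Nat.card_fin]
  ring

end Coord

/-! ### The centralizer -/

namespace Coord

section Main

variable {G : Type*} [Group G] [Finite G] (X : Coord G n)

/-- The action on the centralizer. -/
def Theta : ↥X.CC →* LV n :=
  (theta n).comp ((X.rho.comp X.CC.subtype).codRestrict (SS0 n) (fun g => g.2))

lemma Theta_eq_one_iff (x : ↥X.CC) : X.Theta x = 1 ↔ (x : G) ∈ X.Q0 := by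
  have h := theta_eq_one_iff (n := n) ⟨X.rho (x : G), x.2⟩
  exact h

/-- The section. -/
def Sec : LV n →* G := X.sec.comp (s0 n)

lemma Sec_mem (τ : LV n) : X.Sec τ ∈ X.CC := by
  rw [Coord.mem_CC]
  show X.rho (X.sec (s0 n τ)) (e0 n) = e0 n
  rw [X.rho_sec]
  exact s0_mem τ

lemma Theta_Sec (τ : LV n) : X.Theta ⟨X.Sec τ, X.Sec_mem τ⟩ = τ := by
  refine LinearEquiv.ext fun w => ?_
  show ((X.rho (X.sec (s0 n τ))) (0, w)).2 = τ w
  rw [X.rho_sec]
  rfl

lemma Sec_injective : Function.Injective (X.Sec : LV n →* G) :=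
  X.sec_injective.comp s0_injective

lemma Theta_surjective : Function.Surjective X.Theta :=
  fun τ => ⟨⟨X.Sec τ, X.Sec_mem τ⟩, X.Theta_Sec τ⟩

end Main

end Coord

/-! ### `O₂` of the linear group -/

/-- `SL = GL` over the field of two elements. -/
noncomputable def eSL (n : ℕ) : Matrix.SpecialLinearGroup (Fin n) (ZMod 2) ≃* Matrix.GeneralLinearGroup (Fin n) (ZMod 2) :=
  MulEquiv.ofBijective (Matrix.SpecialLinearGroup.toGL) (by
    refine ⟨Matrix.SpecialLinearGroup.toGL_injective, fun A => ?_⟩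
    have hdet : Matrix.det (A : Matrix (Fin n) (Fin n) (ZMod 2)) = 1 := by
      refine Cfsg.Agent.Lib.ThreeT.SLCore.zmod2_eq_one _ fun h => ?_
      have h1 : (A : Matrix (Fin n) (Fin n) (ZMod 2)) * ((A⁻¹ : Matrix.GeneralLinearGroup (Fin n) (ZMod 2)) : Matrix (Fin n) (Fin n) (ZMod 2)) = 1 :=
        congrArg Units.val (mul_inv_cancel A)
      have h2 := congrArg Matrix.det h1
      rw [Matrix.det_mul, h, zero_mul, Matrix.det_one] at h2
      exact zero_ne_one h2
    refine ⟨⟨(A : Matrix (Fin n) (Fin n) (ZMod 2)), hdet⟩, ?_⟩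
    exact Units.ext rfl)

/-- `GL` as linear automorphisms. -/
noncomputable def eGL (n : ℕ) : Matrix.GeneralLinearGroup (Fin n) (ZMod 2) ≃* LV n :=
  (Matrix.GeneralLinearGroup.toLin).trans (LinearMap.GeneralLinearGroup.generalLinearEquiv _ _)

lemma pCore_SL (hn : 1 ≤ n) : pCore 2 (Matrix.SpecialLinearGroup (Fin n) (ZMod 2)) = ⊥ := by
  by_cases h : 2 ≤ n
  · exact Cfsg.Agent.Lib.ThreeT.SLCore.eq_bot_of_normal_of_isPGroup h _ inferInstance pCore_isPGroup
  · have h1 : n = 1 := by omega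
    subst h1
    rw [eq_bot_iff]
    intro x _
    rw [Subgroup.mem_bot]
    apply Subtype.ext
    ext i j
    have hi : i = 0 := Subsingleton.elim _ _
    have hj : j = 0 := Subsingleton.elim _ _
    subst hi hj
    have h2 := x.2
    rw [Matrix.det_fin_one] at h2
    exact h2

lemma pCore_LV (hn : 1 ≤ n) : pCore 2 (LV n) = ⊥ := by
  rw [← map_pCore_equiv (p := 2) ((eSL n).trans (eGL n)), pCore_SL hn, Subgroup.map_bot]

namespace Coord

variable {G : Type*} [Group G] [Finite G] (X : Coord G n)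

omit [Finite G] in
theorem card_TT : Nat.card ↥(TT n) = 2 ^ n := by
  have hbij : Function.Bijective (fun f : VV n →+ ZMod 2 => (⟨tauF f, tauF_mem f⟩ : ↥(TT n))) := by
    constructor
    · intro f f' h
      have h1 := congrArg (fun σ : ↥(TT n) => chi (σ : LL n)) h
      simpa only [chi_tauF] using h1
    · rintro ⟨σ, hσ⟩
      exact ⟨chi σ, Subtype.ext (tauF_chi hσ)⟩
  rw [← Nat.card_congr (Equiv.ofBijective _ hbij), card_dual]

omit [Finite G] in
theorem card_Q0 : Nat.card ↥X.Q0 = 2 ^ (2 * n + 1) := by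
  have hbij : Function.Bijective (fun a : PP n × ↥(TT n) =>
      (⟨X.b a.1 * X.sec (a.2 : LL n), mul_mem (X.b_mem _) (X.sec_mem a.2.2)⟩ : ↥X.Q0)) := by
    constructor
    · rintro ⟨p, σ⟩ ⟨q, τ⟩ h
      have h1 : X.b p * X.sec (σ : LL n) = X.b q * X.sec (τ : LL n) := congrArg Subtype.val h
      have h2 := congrArg X.rho h1
      rw [map_mul, map_mul, X.rho_b', X.rho_b', one_mul, one_mul, X.rho_sec, X.rho_sec] at h2
      have h3 : σ = τ := Subtype.ext h2
      subst h3
      have h4 := mul_right_cancel h1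
      rw [X.b_inj h4]
    · rintro ⟨x, hx⟩
      obtain ⟨p, hp⟩ := X.decomp x
      exact ⟨(p, ⟨X.rho x, hx⟩), Subtype.ext hp.symm⟩
  rw [← Nat.card_congr (Equiv.ofBijective _ hbij), Nat.card_prod, Nat.card_prod, Nat.card_fun, Nat.card_zmod,
    Nat.card_fin, card_TT]
  ring

omit [Finite G] in
lemma center_iff (x : ↥X.Q0) : x ∈ center ↥X.Q0 ↔ (x : G) = 1 ∨ (x : G) = X.z := by
  constructor
  · intro hx
    apply X.central_eq
    intro y hy
    have h1 := mem_center_iff.1 hx ⟨y, hy⟩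
    exact (congrArg Subtype.val h1).symm
  · rw [mem_center_iff]
    rintro (h | h) y
    · apply Subtype.ext
      show (y : G) * x = x * y
      rw [h, one_mul, mul_one]
    · apply Subtype.ext
      show (y : G) * x = x * y
      rw [h]
      exact ((X.comm_z_iff _).2 (X.Q0_le y.2)).symm

omit [Finite G] in
theorem extraLike : ExtraLike 2 ↥X.Q0 := by
  refine ⟨fun x => ⟨2, ?_⟩, ?_, fun x y => ?_, fun x => ?_⟩
  · apply Subtype.ext
    exact X.pow_four_eq x.2
  · rw [Nat.card_eq_two_iff]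
    refine ⟨⟨1, one_mem _⟩, ⟨⟨X.z, X.z_mem⟩, (X.center_iff _).2 (Or.inr rfl)⟩, ?_, ?_⟩
    · intro h
      have h1 := congrArg (fun y : ↥(center ↥X.Q0) => ((y : ↥X.Q0) : G)) h
      exact X.z_ne_one h1.symm
    · ext ⟨x, hx⟩
      simp only [Set.mem_insert_iff, Set.mem_singleton_iff, Set.mem_univ, iff_true]
      rcases (X.center_iff _).1 hx with h | h
      · left
        apply Subtype.ext
        exact Subtype.ext h
      · right
        apply Subtype.ext
        exact Subtype.ext h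
  · rw [X.center_iff]
    rcases X.comm_or x.2 y.2 with h | h
    · left
      show (x : G) * y * (x : G)⁻¹ * (y : G)⁻¹ = 1
      rw [h]; group
    · right
      show (x : G) * y * (x : G)⁻¹ * (y : G)⁻¹ = X.z
      rw [h]; group
  · rw [X.center_iff, pow_two]
    exact X.sq_or x.2

omit [Finite G] in
lemma not_comm (hn : 1 ≤ n) : ¬ IsMulCommutative ↥X.Q0 := by
  intro hc
  classical
  let i : Fin n := ⟨0, hn⟩
  let w : VV n := Pi.single i 1
  let f : VV n →+ ZMod 2 := Pi.evalAddMonoidHom _ i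
  have hfw : f w = 1 := by simp [f, w]
  have h1 := hc.is_comm.comm (⟨X.sec (tauF f), X.sec_mem (tauF_mem f)⟩ : ↥X.Q0) ⟨X.b (0, w), X.b_mem _⟩
  have h2 : X.sec (tauF f) * X.b (0, w) = X.b (0, w) * X.sec (tauF f) := congrArg Subtype.val h1
  rw [X.sec_b] at h2
  have h3 := X.b_inj (mul_right_cancel h2)
  have h4 := congrArg Prod.fst h3
  rw [tauF_apply] at h4
  have h5 : (0 : ZMod 2) + f w = 0 := h4
  rw [hfw, zero_add] at h5
  exact one_ne_zero h5

theorem mem_pCore_iff (hn : 1 ≤ n) (x : ↥X.CC) : x ∈ pCore 2 ↥X.CC ↔ (x : G) ∈ X.Q0 := by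
  rw [← X.Theta_eq_one_iff]
  constructor
  · intro hx
    have h1 : (pCore 2 ↥X.CC).map X.Theta ≤ pCore 2 (LV n) :=
      le_pCore (Subgroup.Normal.map inferInstance _ X.Theta_surjective) (pCore_isPGroup.map _)
    rw [pCore_LV hn] at h1
    exact h1 ⟨x, hx, rfl⟩
  · intro hx
    have h2 : IsPGroup 2 ↥X.Theta.ker := by
      intro y
      refine ⟨2, ?_⟩
      apply Subtype.ext
      apply Subtype.ext
      exact X.pow_four_eq ((X.Theta_eq_one_iff _).1 y.2)
    exact le_pCore (MonoidHom.normal_ker _) h2 hx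

theorem main (hn : 1 ≤ n) (Q : Subgroup G) (hQ : Q = (pCore 2 ↥X.CC).map X.CC.subtype) :
    IsExtraspecial 2 ↥Q ∧ Nat.card ↥Q = 2 ^ (2 * n + 1) ∧
    (∃ E : Subgroup G, E ≤ Q ∧ IsElementaryAbelian 2 E ∧ Nat.card ↥E = 2 ^ (n + 1)) ∧
    IsLargeExtraspecial Q ∧
    ∃ K : Subgroup G, K ≤ X.CC ∧ Q ⊓ K = ⊥ ∧ Q ⊔ K = X.CC ∧
      Nonempty (↥K ≃* Matrix.GeneralLinearGroup (Fin n) (ZMod 2)) := by
  have hQ' : Q = X.Q0 := by
    rw [hQ]
    ext g
    constructor
    · rintro ⟨x, hx, rfl⟩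
      exact (X.mem_pCore_iff hn x).1 hx
    · intro hg
      exact ⟨⟨g, X.Q0_le hg⟩, (X.mem_pCore_iff hn _).2 hg, rfl⟩
  subst hQ'
  clear hQ
  have hL1 : IsExtraspecial 2 ↥X.Q0 := X.extraLike.isExtraspecial (X.not_comm hn)
  have hZ : ∀ x : G, x ∈ (center ↥X.Q0).map X.Q0.subtype ↔ x = 1 ∨ x = X.z := by
    intro x
    constructor
    · rintro ⟨y, hy, rfl⟩
      exact (X.center_iff y).1 hy
    · rintro (h | h)
      · rw [h]; exact one_mem _
      · exact ⟨⟨X.z, X.z_mem⟩, (X.center_iff _).2 (Or.inr rfl), h.symm⟩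
  have hzZ : X.z ∈ (center ↥X.Q0).map X.Q0.subtype := (hZ _).2 (Or.inr rfl)
  refine ⟨hL1, X.card_Q0, ⟨X.UU, X.UU_le, X.UU_elem, X.UU_card⟩, ⟨hL1, ?_, ?_, ?_⟩,
    (X.Sec : LV n →* G).range, ?_, ?_, ?_, ⟨?_⟩⟩
  · ext x
    rw [hZ, mem_centralizer_iff]
    constructor
    · intro hx
      exact X.central_eq x fun y hy => (hx y hy).symm
    · rintro (h | h) y hy
      · rw [h, one_mul, mul_one]
      · rw [h]
        exact ((X.comm_z_iff _).2 (X.Q0_le hy)).symm
  · intro x hx
    have hxC : x ∈ X.CC := (X.comm_z_iff x).1 (mem_centralizer_iff.1 hx _ hzZ)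
    have hconj : ∀ x ∈ X.CC, ∀ h ∈ X.Q0, x * h * x⁻¹ ∈ X.Q0 := by
      intro x hxC h hh
      have h1 : X.Theta ⟨x * h * x⁻¹, mul_mem (mul_mem hxC (X.Q0_le hh)) (inv_mem hxC)⟩ = 1 := by
        have h2 : (⟨x * h * x⁻¹, mul_mem (mul_mem hxC (X.Q0_le hh)) (inv_mem hxC)⟩ : ↥X.CC) =
            ⟨x, hxC⟩ * ⟨h, X.Q0_le hh⟩ * ⟨x, hxC⟩⁻¹ := rfl
        rw [h2, map_mul, map_mul, map_inv, (X.Theta_eq_one_iff ⟨h, X.Q0_le hh⟩).2 hh, mul_one, mul_inv_cancel]
      exact (X.Theta_eq_one_iff _).1 h1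
    rw [mem_normalizer_iff]
    intro h
    constructor
    · exact hconj x hxC h
    · intro hh
      have := hconj x⁻¹ (inv_mem hxC) _ hh
      simpa [mul_assoc] using this
  · intro K hK hN
    rw [eq_bot_iff]
    -- an involution of `K` is trivial
    have hinv : ∀ k ∈ K, k * k = 1 → k = 1 := by
      intro k hk h2
      have h3 : (⟨k, hk⟩ : ↥K) ^ 2 = 1 := by
        apply Subtype.ext
        show k ^ 2 = 1
        rw [pow_two, h2]
      have h4 : orderOf (⟨k, hk⟩ : ↥K) ∣ 2 := orderOf_dvd_of_pow_eq_one h3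
      have h5 : orderOf (⟨k, hk⟩ : ↥K) ∣ Nat.card ↥K := orderOf_dvd_natCard _
      have h6 : orderOf (⟨k, hk⟩ : ↥K) = 1 := by
        rcases (Nat.dvd_prime Nat.prime_two).1 h4 with h | h
        · exact h
        · rw [h] at h5
          exact absurd (hK.of_dvd_nat h5) (by decide)
      have h7 := orderOf_eq_one_iff.1 h6
      exact congrArg Subtype.val h7
    have hcomm : ∀ k ∈ K, ∀ p, k * X.b p = X.b p * k := by
      intro k hk p
      have h1 : X.b p * k * (X.b p)⁻¹ ∈ K :=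
        (mem_normalizer_iff.1 (hN (X.b_mem p)) k).1 hk
      have h2 : X.b p * k * (X.b p)⁻¹ * k⁻¹ ∈ K := mul_mem h1 (inv_mem hk)
      have h3 : X.b p * k * (X.b p)⁻¹ * k⁻¹ = X.b (p + X.rho k p) := by
        have h4 := X.rho_b k p
        have h5 : (X.b p)⁻¹ = X.b p := inv_eq_of_mul_eq_one_left (X.b_sq p)
        rw [X.b_add, h4, h5]
        group
      have h6 : X.b p * k * (X.b p)⁻¹ * k⁻¹ = 1 := by
        refine hinv _ h2 ?_
        rw [h3, X.b_sq]
      have h7 : X.b p * k = k * X.b p := by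
        have h5 : (X.b p)⁻¹ = X.b p := inv_eq_of_mul_eq_one_left (X.b_sq p)
        rw [h5] at h6
        have h8 : X.b p * k * X.b p = k := by
          rw [mul_inv_eq_one] at h6
          exact h6
        calc X.b p * k = X.b p * k * X.b p * X.b p := by rw [mul_assoc (X.b p * k), X.b_sq, mul_one]
          _ = k * X.b p := by rw [h8]
      exact h7.symm
    intro k hk
    rw [Subgroup.mem_bot]
    have h1 : X.rho k = 1 := by
      refine LinearEquiv.ext fun q => X.b_inj ?_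
      rw [X.rho_b, hcomm k hk q, mul_inv_cancel_right]
      rfl
    obtain ⟨p, rfl⟩ := X.ker_rho k h1
    exact hinv _ hk (X.b_sq p)
  · rintro _ ⟨τ, rfl⟩
    exact X.Sec_mem τ
  · rw [eq_bot_iff]
    rintro x ⟨hx1, τ, rfl⟩
    rw [Subgroup.mem_bot]
    have h1 := (X.Theta_eq_one_iff ⟨X.Sec τ, X.Sec_mem τ⟩).2 hx1
    rw [X.Theta_Sec] at h1
    rw [h1, map_one]
  · apply le_antisymm
    · refine sup_le X.Q0_le ?_
      rintro _ ⟨τ, rfl⟩
      exact X.Sec_mem τ
    · intro x hx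
      have h1 : X.Theta (⟨x, hx⟩ * ⟨X.Sec (X.Theta ⟨x, hx⟩), X.Sec_mem _⟩⁻¹) = 1 := by
        rw [map_mul, map_inv, X.Theta_Sec, mul_inv_cancel]
      have h2 := (X.Theta_eq_one_iff _).1 h1
      have h3 : x = (x * (X.Sec (X.Theta ⟨x, hx⟩))⁻¹) * X.Sec (X.Theta ⟨x, hx⟩) := by
        group
      rw [h3]
      exact Subgroup.mul_mem_sup h2 ⟨_, rfl⟩
  · exact (MonoidHom.ofInjective X.Sec_injective).symm.trans (eGL n).symm

end Coord

/-- Let G be a finite group that is the split extension of an elementary abelian normal subgroup U of order 2^(n+1), n ≥ 1, by its full automorphism group: U has a complement M in G whose conjugation action on U is faithful and realizes every automorphism of U. Let Z be a subgroup of U of order 2 and Q the largest normal 2-subgroup of the centralizer C of Z. Then Q is extraspecial of order 2^(2n+1) with an elementary abelian subgroup of order 2^(n+1) (plus type), Q is a large extraspecial 2-subgroup of G, and C is the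 split extension of Q by the general linear group of degree n over the field with two elements. -/
theorem result {G : Type*} [Group G] [Finite G] (n : ℕ) (hn : 1 ≤ n) (U M : Subgroup G) [U.Normal] (hU : Cfsg.IsElementaryAbelian 2 U) (hUcard : Nat.card ↥U = 2 ^ (n + 1)) (hUM : U ⊓ M = ⊥) (hUM' : U ⊔ M = ⊤) (hfaith : ∀ m ∈ M, (∀ u ∈ U, m * u * m⁻¹ = u) → m = 1) (hfull : ∀ φ : ↥U ≃* ↥U, ∃ m ∈ M, ∀ u : ↥U, ((φ u : ↥U) : G) = m * u * m⁻¹) (Z : Subgroup G) (hZU : Z ≤ U) (hZ : Nat.card ↥Z = 2) (Q : Subgroup G) (hQ : Q = (Cfsg.pCore 2 ↥(Subgroup.centralizer (Z : Set G))).map (Subgroup.centralizer (Z : Set G)).subtype) : Cfsg.IsExtraspecial 2 ↥Q ∧ Nat.card ↥Q = 2 ^ (2 * n + 1) ∧ (∃ E : Subgroup G, E ≤ Q ∧ Cfsg.IsElementaryAbelian 2 E ∧ Nat.card ↥E = 2 ^ (n + 1)) ∧ Cfsg.IsLargeExtraspecial Q ∧ ∃ K : Subgroup G, K ≤ Subgroup.centralizer (Z : Set G) ∧ Q ⊓ K = ⊥ ∧ Q ⊔ K = Subgroup.centralizer (Z : Set G) ∧ Nonempty (↥K ≃* Matrix.GeneralLinearGroup (Fin n) (ZMod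 2)) := by
  classical
  -- the involution of `Z`
  have hZ1 : Nontrivial ↥Z := by
    rw [← Finite.one_lt_card_iff_nontrivial, hZ]
    norm_num
  obtain ⟨⟨z, hzZ⟩, hz1⟩ := exists_ne (1 : ↥Z)
  have hz1' : z ≠ 1 := fun h => hz1 (Subtype.ext h)
  have hZmem : ∀ g, g ∈ Z → g = 1 ∨ g = z := by
    intro g hg
    by_contra hcon
    push Not at hcon
    obtain ⟨y, -, hy⟩ := (Nat.card_eq_two_iff' (1 : ↥Z)).1 hZ
    have h1 : (⟨g, hg⟩ : ↥Z) = y := hy _ (fun h => hcon.1 (congrArg Subtype.val h))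
    have h2 : (⟨z, hzZ⟩ : ↥Z) = y := hy _ hz1
    exact hcon.2 (congrArg Subtype.val (h1.trans h2.symm))
  obtain ⟨b, b_add, b_inj, b_mem, hbz⟩ := exists_b (n := n) U hU hUcard z (hZU hzZ) hz1'
  obtain ⟨X, hX⟩ := exists_coord U M hUM' hfaith hfull b b_add b_inj b_mem
  have hXz : X.z = z := by
    show X.b (e0 n) = z
    rw [hX, hbz]
  have hC : Subgroup.centralizer (Z : Set G) = X.CC := by
    ext g
    rw [mem_centralizer_iff, ← X.comm_z_iff, hXz]
    constructor
    · intro h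
      exact h z hzZ
    · intro h y hy
      rcases hZmem y hy with h1 | h1
      · rw [h1, one_mul, mul_one]
      · rw [h1, h]
  rw [hC] at hQ ⊢
  exact X.main hn Q hQ

end Cfsg.Agent.S5423
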