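import Cfsg.Statements.S5425
import Cfsg.Agent.Lib.M24Data.OctadInv

set_option autoImplicit false
open Cfsg

namespace Cfsg.Agent.S5425

open Cfsg.Agent.Lib.M24Data.OctadInv Cfsg.Agent.Lib.M24Data.OctadData Cfsg.Agent.Lib.Golay.Perm
  Cfsg.Agent.Lib.M24Data.Tree Cfsg.Agent.Lib.M24Data.CommTree Cfsg.Agent.Lib.M24Data.Classes in
theorem conj_base (z : ↥Cfsg.M24) (τ : Equiv.Perm Cfsg.GolayPt) (hτ : τ ∈ Cfsg.M24)
    (he : τ * z.1 * τ⁻¹ = g t2A) : ∃ φ : ↥Cfsg.M24 ≃* ↥Cfsg.M24, φ z0 = z := by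
  have hR := good_of_goodC Rho_good
  have hT := good_of_check reps_ok.2.2.1
  have h1 := congrArg g Rho_conj
  rw [g_comp hR.1 vZ, g_comp hT.1 hR.1] at h1
  have h2 : g Rho * g Zo * (g Rho)⁻¹ = g t2A := by
    rw [h1]
    group
  have hm : τ⁻¹ * g Rho ∈ Cfsg.M24 := Cfsg.M24.mul_mem (Cfsg.M24.inv_mem hτ) hR.2
  refine ⟨MulAut.conj (⟨τ⁻¹ * g Rho, hm⟩ : ↥Cfsg.M24), ?_⟩
  apply Subtype.ext
  show (τ⁻¹ * g Rho) * g Zo * (τ⁻¹ * g Rho)⁻¹ = z.1
  have e : (τ⁻¹ * g Rho) * g Zo * (τ⁻¹ * g Rho)⁻¹ = τ⁻¹ * (g Rho * g Zo * (g Rho)⁻¹) * τ := by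
    group
  rw [e, h2, ← he]
  group

/-- In the Mathieu group of degree 24 (the automorphism group of the length-24 binary Golay code, acting on the 24 coordinates), let z be an involution whose fixed points form an octad (the support of a code word of weight 8), and let Q be the largest normal 2-subgroup of the centralizer C of z. Then Q is extraspecial of order 2^7 with an elementary abelian subgroup of order 16 (plus type), Q is a large extraspecial 2-subgroup, and C is the split extension of Q by the special linear group of degree 3 over the field with two elements. -/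
theorem result (z : ↥Cfsg.M24) (hz : orderOf z = 2) (hfix : (Finset.univ.filter fun p : Cfsg.GolayPt => (z : Equiv.Perm Cfsg.GolayPt) p = p) ∈ Cfsg.octads) (Q : Subgroup ↥Cfsg.M24) (hQ : Q = (Cfsg.pCore 2 ↥(Subgroup.centralizer ({z} : Set ↥Cfsg.M24))).map (Subgroup.centralizer ({z} : Set ↥Cfsg.M24)).subtype) : Cfsg.IsExtraspecial 2 ↥Q ∧ Nat.card ↥Q = 2 ^ 7 ∧ (∃ E : Subgroup ↥Cfsg.M24, E ≤ Q ∧ Cfsg.IsElementaryAbelian 2 E ∧ Nat.card ↥E = 2 ^ 4) ∧ Cfsg.IsLargeExtraspecial Q ∧ ∃ K : Subgroup ↥Cfsg.M24, K ≤ Subgroup.centralizer ({z} : Set ↥Cfsg.M24) ∧ Q ⊓ K = ⊥ ∧ Q ⊔ K = Subgroup.centralizer ({z} : Set ↥Cfsg.M24) ∧ Nonempty (↥K ≃* Matrix.SpecialLinearGroup (Fin 3) (ZMod 2)) := by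
  have hcard : (Finset.univ.filter fun p : Cfsg.GolayPt => (z : Equiv.Perm Cfsg.GolayPt) p = p).card = 8 :=
    hfix.2
  have hz2 : (z : Equiv.Perm Cfsg.GolayPt) ^ 2 = 1 := by
    have := pow_orderOf_eq_one z
    rw [hz] at this
    exact congrArg Subtype.val this
  have hne : (z : Equiv.Perm Cfsg.GolayPt) ≠ 1 := by
    intro h
    have : z = 1 := Subtype.ext h
    rw [this, orderOf_one] at hz
    omega
  rcases Cfsg.Agent.Lib.M24Data.Classes.class2 z.2 hz2 hne with ⟨_, τ, hτ, he⟩ | ⟨h0, _⟩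
  · obtain ⟨φ, hφ⟩ := conj_base z τ hτ he
    have os := Cfsg.Agent.Lib.M24Data.OctadInv.base.map φ
    rw [hφ] at os
    have hQ1 := hQ.trans os.core_eq
    rw [hQ1]
    exact os.main
  · omega

end Cfsg.Agent.S5425
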