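import Cfsg.Statements.S5427
import Cfsg.Agent.Lib.LargeExtra.FStar

set_option autoImplicit false
open Cfsg

namespace Cfsg.Agent.S5427

/-- Let z be an involution of the finite group G whose centralizer C has generalized Fitting subgroup Q, an extraspecial 2-group of width at least 2 (order 2^(2w+1), w ≥ 2). Let K be a subgroup of G such that the subgroup U generated by the K-conjugates of z is abelian and C is generated by the C-conjugates of U. Suppose that either some K-conjugate of z other than z lies in Q, or some element u of U ∩ Q outside the subgroup generated by z has z in the largest normal 2-subgroup of its centralizer. Then G is simple and Q is a large extraspecial 2-subgroup of G. -/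
theorem result {G : Type*} [Group G] [Finite G] (z : G) (hz : orderOf z = 2) (Q : Subgroup G) (hQC : Q ≤ Subgroup.centralizer ({z} : Set G)) (hF : (Cfsg.generalizedFittingSubgroup ↥(Subgroup.centralizer ({z} : Set G))).map (Subgroup.centralizer ({z} : Set G)).subtype = Q) (hQ : Cfsg.IsExtraspecial 2 ↥Q) (w : ℕ) (hw : 2 ≤ w) (hcard : Nat.card ↥Q = 2 ^ (2 * w + 1)) (K U : Subgroup G) (hU : U = Subgroup.closure {x : G | ∃ k ∈ K, x = k * z * k⁻¹}) (hUab : IsMulCommutative ↥U) (hgen : Subgroup.closure {x : G | ∃ c ∈ Subgroup.centralizer ({z} : Set G), ∃ u ∈ U, x = c * u * c⁻¹} = Subgroup.centralizer ({z} : Set G)) (h3 : (∃ k ∈ K, k * z * k⁻¹ ∈ Q ∧ k * z * k⁻¹ ≠ z) ∨ ∃ u ∈ U ⊓ Q, u ∉ Subgroup.zpowers z ∧ (∃ hz' : z ∈ Subgroup.centralizer ({u} : Set G), (⟨z, hz'⟩ : ↥(Subgroup.centralizer ({u} : Set G))) ∈ Cfsg.pCore 2 ↥(Subgroup.centralizer ({u} : Set G)))) : IsSimpleGroup G ∧ Cfsg.IsLargeExtraspecial Q := by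
  classical
  have hL : Cfsg.Agent.Lib.LargeExtra.Pair.LX z Q := Cfsg.Agent.Lib.LargeExtra.FStar.lx_of_fstar hz hF hQ
  obtain ⟨hZ, hcent, hnorm⟩ := Cfsg.Agent.Lib.LargeExtra.FStar.fstar_facts hz hF hQ
  have hzz : z * z = 1 := hL.sq
  have hc32 : 32 ≤ Nat.card ↥Q := by
    rw [hcard]
    calc 32 = 2 ^ 5 := by norm_num
      _ ≤ 2 ^ (2 * w + 1) := Nat.pow_le_pow_right (by norm_num) (by omega)
  have hodd : ∀ K₀ : Subgroup G, Odd (Nat.card ↥K₀) → Q ≤ Subgroup.normalizer (K₀ : Set G) → K₀ = ⊥ := by
    intro K₀ hK₀ hn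
    rcases h3 with ⟨k, hk, hkQ, hkz⟩ | ⟨u, hu, huz, hz', hzu⟩
    · have hL' := hL.conj k
      have hzQ' : z ∈ Q.map (MulAut.conj k).toMonoidHom :=
        Cfsg.Agent.Lib.LargeExtra.Pair.z_mem hL hL' rfl rfl hkQ hkz hc32
      refine Cfsg.Agent.Lib.LargeExtra.FStar.no_odd hL hkQ hL'.sq hL'.ne_one hkz hL'.isPGroup hzQ' ?_ hK₀ hn
      intro x hx a ha
      exact hL'.norm x hx a ha
    · have huQ : u ∈ Q := hu.2
      have huU : u ∈ U := hu.1
      have hUsq : ∀ v ∈ U, v * v = 1 := by
        intro v hv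
        rw [hU] at hv
        have hUcomm : ∀ a ∈ U, ∀ b ∈ U, a * b = b * a := by
          intro a ha b hb
          have := hUab.is_comm.comm ⟨a, ha⟩ ⟨b, hb⟩
          exact congrArg Subtype.val this
        rw [← hU] at hv
        rw [hU] at hUcomm
        rw [hU] at hv
        induction hv using Subgroup.closure_induction with
        | mem x hx =>
          obtain ⟨k, hk, rfl⟩ := hx
          have : k * z * k⁻¹ * (k * z * k⁻¹) = k * (z * z) * k⁻¹ := by group
          rw [this, hzz]; group
        | one => simp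
        | mul a b ha hb iha ihb =>
          have := hUcomm a ha b hb
          calc a * b * (a * b) = a * (b * a) * b := by group
            _ = a * (a * b) * b := by rw [this]
            _ = (a * a) * (b * b) := by group
            _ = 1 := by rw [iha, ihb, one_mul]
        | inv a ha iha =>
          have : a⁻¹ * a⁻¹ = (a * a)⁻¹ := by group
          rw [this, iha, inv_one]
      have hu1 : u ≠ 1 := fun h => huz (by rw [h]; exact one_mem _)
      have huz' : u ≠ z := fun h => huz (by rw [h]; exact Subgroup.mem_zpowers z)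
      let T : Subgroup G := (Cfsg.pCore 2 ↥(Subgroup.centralizer ({u} : Set G))).map (Subgroup.centralizer ({u} : Set G)).subtype
      have hTP : IsPGroup 2 ↥T := by
        have := Cfsg.Agent.Lib.Core.Basic.pCore_isPGroup (p := 2) (G := ↥(Subgroup.centralizer ({u} : Set G)))
        exact this.map _
      have hzT : z ∈ T := ⟨⟨z, hz'⟩, hzu, rfl⟩
      refine Cfsg.Agent.Lib.LargeExtra.FStar.no_odd hL huQ (hUsq u huU) hu1 huz' hTP hzT ?_ hK₀ hn
      intro x hx a ha
      obtain ⟨a', ha', rfl⟩ := ha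
      have hxC : x ∈ Subgroup.centralizer ({u} : Set G) := by
        rw [Subgroup.mem_centralizer_iff]
        intro v hv
        have hv' : v = u := hv
        rw [hv']
        exact hx.symm
      have hnorm' : (Cfsg.pCore 2 ↥(Subgroup.centralizer ({u} : Set G))).Normal := Subgroup.normal_of_characteristic _
      exact ⟨_, hnorm'.conj_mem a' ha' ⟨x, hxC⟩, rfl⟩
  refine ⟨Cfsg.Agent.Lib.LargeExtra.FStar.simple_of hL hodd ?_, hQ, hcent, hnorm, hodd⟩
  intro N hN hzN
  rw [← hgen, Subgroup.closure_le]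
  rintro _ ⟨c, hc, u, hu, rfl⟩
  have hUN : U ≤ N := by
    rw [hU, Subgroup.closure_le]
    rintro _ ⟨k, hk, rfl⟩
    exact hN.conj_mem z hzN k
  exact hN.conj_mem u (hUN hu) c

end Cfsg.Agent.S5427
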