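import Cfsg.Statements.S5428
import Cfsg.Agent.Lib.LargeExtra.LargeOf
import Cfsg.Agent.Lib.LargeExtra.PairQuot
import Cfsg.Agent.Lib.Coprime.Action

set_option autoImplicit false
open Cfsg

namespace Cfsg.Agent.S5428

open Cfsg.Agent.Lib.LargeExtra.Basic Cfsg.Agent.Lib.LargeExtra.Pair Cfsg.Agent.Lib.LargeExtra.FStar Cfsg.Agent.Lib.LargeExtra.LargeOf Cfsg.Agent.Lib.LargeExtra.PairStruct

set_option linter.unusedVariables false
set_option linter.unusedSectionVars false
set_option linter.style.longLine false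
set_option linter.unusedSimpArgs false
set_option linter.unnecessarySimpa false

section aux

variable {G : Type*} [Group G] [Finite G]

/-- Coprime action: a non-central fixed element is non-central in the fixed points. -/
theorem exists_in_fixed {Q A : Subgroup G} {z r : G} (hL : LX z Q) (hAodd : Odd (Nat.card ↥A))
    (hAz : ∀ a ∈ A, a * z = z * a) (hr : r ∈ Q) (hrA : ∀ a ∈ A, a * r = r * a) (hr1 : r ≠ 1) (hrz : r ≠ z) :
    ∃ u ∈ Q ⊓ Subgroup.centralizer (A : Set G), u * r * u⁻¹ = z * r := by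
  classical
  have hF2 : Fact (Nat.Prime 2) := ⟨Nat.prime_two⟩
  obtain ⟨q, hq, hqr⟩ := hL.exists_comm hr hr1 hrz
  have hAQ : A ≤ Subgroup.normalizer (Q : Set G) := by
    intro a ha
    rw [Subgroup.mem_normalizer_iff]
    intro b
    refine ⟨fun hb => hL.norm a (hAz a ha) b hb, fun hb => ?_⟩
    have h1 := hL.norm a⁻¹ (show Commute a z from hAz a ha).inv_left.eq _ hb
    have e : a⁻¹ * (a * b * a⁻¹) * a⁻¹⁻¹ = b := by group
    rwa [e] at h1
  let N : Subgroup G := Q ⊓ Subgroup.centralizer ({r} : Set G)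
  have memN : ∀ b, b ∈ N ↔ b ∈ Q ∧ b * r = r * b := by
    intro b
    rw [Subgroup.mem_inf, Subgroup.mem_centralizer_iff]
    simp only [Set.mem_singleton_iff, forall_eq]
    exact and_congr_right (fun _ => eq_comm)
  have hcop : (Nat.card ↥A).Coprime (Nat.card ↥Q) := by
    obtain ⟨k, hk⟩ := IsPGroup.iff_card.1 hL.isPGroup
    rw [hk]
    exact Nat.Coprime.pow_right k hAodd.coprime_two_right
  have hsolv : Group.IsSolvable ↥Q := by
    have := hL.isPGroup.isNilpotent
    infer_instance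
  have hAN : A ≤ Subgroup.normalizer (N : Set G) := by
    intro a ha
    rw [Subgroup.mem_normalizer_iff]
    intro b
    have h3 : a * r * a⁻¹ = r := by rw [hrA a ha]; group
    have key : ∀ a' ∈ A, ∀ b', b' ∈ N → a' * b' * a'⁻¹ ∈ N := by
      intro a' ha' b' hb'
      obtain ⟨h1, h2⟩ := (memN b').1 hb'
      have h4 : a' * r * a'⁻¹ = r := by rw [hrA a' ha']; group
      refine (memN _).2 ⟨hL.norm a' (hAz a' ha') b' h1, ?_⟩
      calc a' * b' * a'⁻¹ * r = a' * b' * (a'⁻¹ * r * a') * a'⁻¹ := by group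
        _ = a' * b' * r * a'⁻¹ := by
          have : a'⁻¹ * r * a' = r := by
            have h5 : a'⁻¹ * r = r * a'⁻¹ := (show Commute a' r from hrA a' ha').inv_left.eq
            rw [h5]; group
          rw [this]
        _ = a' * (b' * r) * a'⁻¹ := by group
        _ = a' * (r * b') * a'⁻¹ := by rw [h2]
        _ = (a' * r * a'⁻¹) * (a' * b' * a'⁻¹) := by group
        _ = r * (a' * b' * a'⁻¹) := by rw [h4]
    refine ⟨fun hb => key a ha b hb, fun hb => ?_⟩
    have h1 := key a⁻¹ (inv_mem ha) _ hb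
    have e : a⁻¹ * (a * b * a⁻¹) * a⁻¹⁻¹ = b := by group
    rwa [e] at h1
  obtain ⟨n, hn, hqn⟩ := Cfsg.Agent.Lib.Coprime.Action.exists_fixed_in_coset (A := A) (K := Q) N hAQ hcop (Or.inr hsolv)
    inf_le_left hAN hq (by
      intro a ha
      have h1 : a * q * a⁻¹ ∈ Q := hL.norm a (hAz a ha) q hq
      refine (memN _).2 ⟨?_, ?_⟩
      · have e : q⁻¹ * a * q * a⁻¹ = q⁻¹ * (a * q * a⁻¹) := by group
        rw [e]
        exact mul_mem (inv_mem hq) h1
      · have h3 : a * r * a⁻¹ = r := by rw [hrA a ha]; group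
        have h5 : a⁻¹ * r * a = r := by
          have h6 : a⁻¹ * r = r * a⁻¹ := (show Commute a r from hrA a ha).inv_left.eq
          rw [h6]; group
        have hzr : a * (z * r) * a⁻¹ = z * r := by
          have e : a * (z * r) * a⁻¹ = (a * z * a⁻¹) * (a * r * a⁻¹) := by group
          rw [e, h3, hAz a ha]; group
        have h7 : (a * q * a⁻¹) * r * (a * q * a⁻¹)⁻¹ = z * r := by
          calc (a * q * a⁻¹) * r * (a * q * a⁻¹)⁻¹ = a * (q * (a⁻¹ * r * a) * q⁻¹) * a⁻¹ := by group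
            _ = a * (q * r * q⁻¹) * a⁻¹ := by rw [h5]
            _ = a * (z * r) * a⁻¹ := by rw [hqr]
            _ = z * r := hzr
        calc q⁻¹ * a * q * a⁻¹ * r = q⁻¹ * ((a * q * a⁻¹) * r * (a * q * a⁻¹)⁻¹) * (a * q * a⁻¹) := by group
          _ = q⁻¹ * (q * r * q⁻¹) * (a * q * a⁻¹) := by rw [h7, hqr]
          _ = r * (q⁻¹ * a * q * a⁻¹) := by group)
  refine ⟨q * n, hqn, ?_⟩
  obtain ⟨h1, h2⟩ := (memN n).1 hn
  have h3 : n * r * n⁻¹ = r := by rw [h2]; group
  calc (q * n) * r * (q * n)⁻¹ = q * (n * r * n⁻¹) * q⁻¹ := by group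
    _ = z * r := by rw [h3, hqr]

/-- A group with a central involution and Sylow 2-subgroup of order 2. -/
theorem exists_complement {D : Type*} [Group D] [Finite D] {z : D} (hz1 : z ≠ 1) (hzz : z * z = 1)
    (hc : ∀ c : D, c * z = z * c) (h4 : ¬ 4 ∣ Nat.card D) :
    ∀ c : D, c ∈ Cfsg.oddCore D ∨ z * c ∈ Cfsg.oddCore D := by
  classical
  have hF2 : Fact (Nat.Prime 2) := ⟨Nat.prime_two⟩
  have hzP : IsPGroup 2 ↥(Subgroup.zpowers z) := by
    intro a
    refine ⟨1, ?_⟩
    obtain ⟨a, k, rfl⟩ := a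
    apply Subtype.ext
    simp only [Subgroup.coe_pow, Subgroup.coe_one, pow_one]
    rw [← zpow_natCast, ← zpow_mul, mul_comm, zpow_mul]
    have : z ^ ((2 : ℕ) : ℤ) = 1 := by
      rw [zpow_natCast, pow_two, hzz]
    rw [this, one_zpow]
  obtain ⟨P, hP⟩ := hzP.exists_le_sylow
  have hPcard : Nat.card ↥(P : Subgroup D) = 2 := by
    obtain ⟨k, hk⟩ := IsPGroup.iff_card.1 P.isPGroup'
    have hdvd : Nat.card ↥(P : Subgroup D) ∣ Nat.card D := Subgroup.card_subgroup_dvd_card _
    have hk1 : k ≤ 1 := by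
      by_contra hk2
      push Not at hk2
      apply h4
      apply dvd_trans _ hdvd
      rw [hk]
      exact pow_dvd_pow 2 hk2
    have hzm : z ∈ (P : Subgroup D) := hP (Subgroup.mem_zpowers z)
    interval_cases k
    · exfalso
      rw [pow_zero] at hk
      have := Subgroup.card_eq_one.1 hk
      rw [this] at hzm
      exact hz1 hzm
    · simpa using hk
  have hPz : ∀ x ∈ (P : Subgroup D), x = 1 ∨ x = z := by
    have hle : Subgroup.zpowers z = (P : Subgroup D) := by
      apply Subgroup.eq_of_le_of_card_ge hP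
      rw [hPcard, Nat.card_zpowers, orderOf_eq_prime (by rw [pow_two]; exact hzz) hz1]
    intro x hx
    rw [← hle] at hx
    obtain ⟨k, rfl⟩ := hx
    have h2z : z ^ (2 : ℤ) = 1 := by
      rw [zpow_ofNat, pow_two, hzz]
    rcases Int.emod_two_eq_zero_or_one k with h | h
    · left
      simp only
      rw [← Int.emod_add_mul_ediv k 2, h, zero_add, zpow_mul, h2z, one_zpow]
    · right
      simp only
      rw [← Int.emod_add_mul_ediv k 2, h, zpow_add, zpow_mul, h2z, one_zpow, zpow_one, mul_one]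
  have hnc : Subgroup.normalizer ((P : Subgroup D) : Set D) ≤ Subgroup.centralizer ((P : Subgroup D) : Set D) := by
    intro x _
    rw [Subgroup.mem_centralizer_iff]
    intro p hp
    rcases hPz p hp with rfl | rfl
    · simp
    · exact (hc x).symm
  have hcompl := MonoidHom.ker_transferSylow_isComplement' P hnc
  set K := (MonoidHom.transferSylow P hnc).ker with hK
  have hKn : K.Normal := MonoidHom.normal_ker _
  have hKcard : Nat.card ↥K * Nat.card ↥(P : Subgroup D) = Nat.card D := hcompl.card_mul_card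
  have hKodd : (Nat.card ↥K).Coprime 2 := by
    rw [Nat.coprime_two_right]
    by_contra hne
    rw [Nat.not_odd_iff_even] at hne
    obtain ⟨m, hm⟩ := hne
    apply h4
    rw [← hKcard, hPcard, hm]
    exact ⟨m, by ring⟩
  have hKle : K ≤ Cfsg.oddCore D := Cfsg.Agent.Lib.Core.Basic.le_pPrimeCore hKn hKodd
  intro c
  obtain ⟨⟨k, p⟩, hkp⟩ := hcompl.existsUnique c |>.exists
  simp only at hkp
  rcases hPz p p.2 with h | h
  · left
    rw [← hkp, h, mul_one]
    exact hKle k.2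
  · right
    rw [← hkp, h, ← mul_assoc, ← hc k, mul_assoc, hzz, mul_one]
    exact hKle k.2

end aux

/-- Let z be an involution of the finite group G whose centralizer C has generalized Fitting subgroup Q extraspecial (as a 2-group), let A be a subgroup of C of odd order, and let R be the centralizer of A in Q; suppose R has order at least 32, the largest normal subgroup of odd order of the centralizer of the subgroup generated by A and R lies in A, the order of that centralizer is not divisible by 4, and g is an element of G with g z g⁻¹ in R but outside the centre Z of Q. Let M be the subgroup generated by A and the centralizer of A (A is normal in it). Then: the centralizer in M of the subgroup generated by R and A, joined with A, equals the subgroup generated by A and Z; the image of R in M/A is a large extraspecial 2-subgroup of M/A; and g z g⁻¹ is conjugate to z inside the subgroup generated by R and the centralizer of A in g Q g⁻¹. -/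
theorem result {G : Type*} [Group G] [Finite G] (z : G) (hz : orderOf z = 2) (Q : Subgroup G) (hQC : Q ≤ Subgroup.centralizer ({z} : Set G)) (hF : (Cfsg.generalizedFittingSubgroup ↥(Subgroup.centralizer ({z} : Set G))).map (Subgroup.centralizer ({z} : Set G)).subtype = Q) (hQ : Cfsg.IsExtraspecial 2 ↥Q) (A : Subgroup G) (hA : A ≤ Subgroup.centralizer ({z} : Set G)) (hAodd : Odd (Nat.card ↥A)) (R : Subgroup G) (hR : R = Q ⊓ Subgroup.centralizer (A : Set G)) (hR32 : 32 ≤ Nat.card ↥R) (hO : (Cfsg.oddCore ↥(Subgroup.centralizer ((A ⊔ R : Subgroup G) : Set G))).map (Subgroup.centralizer ((A ⊔ R : Subgroup G) : Set G)).subtype ≤ A) (h4 : ¬ 4 ∣ Nat.card ↥(Subgroup.centralizer ((A ⊔ R : Subgroup G) : Set G))) (g : G) (hgR : g * z * g⁻¹ ∈ R) (hgZ : g * z * g⁻¹ ∉ ((Subgroup.center ↥Q).map Q.subtype)) (M : Subgroup G) (hM : M = Subgroup.centralizer (A : Set G) ⊔ A) [hn : (A.subgroupOf M).Normal] : (M ⊓ Subgroup.centralizer ((R ⊔ A : Subgroup G) : Set G)) ⊔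 A = A ⊔ ((Subgroup.center ↥Q).map Q.subtype) ∧ Cfsg.IsLargeExtraspecial ((R.subgroupOf M).map (QuotientGroup.mk' (A.subgroupOf M))) ∧ ∃ x ∈ R ⊔ ((Q).map (MulAut.conj g).toMonoidHom ⊓ Subgroup.centralizer (A : Set G)), x * (g * z * g⁻¹) * x⁻¹ = z := by
  classical
  have hF2 : Fact (Nat.Prime 2) := ⟨Nat.prime_two⟩
  have hL : LX z Q := lx_of_fstar hz hF hQ
  obtain ⟨hZ, hcent, hnorm⟩ := fstar_facts hz hF hQ
  have hL' : LX (g * z * g⁻¹) (Q.map (MulAut.conj g).toMonoidHom) := hL.conj g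
  set y := g * z * g⁻¹ with hy
  set Q' := Q.map (MulAut.conj g).toMonoidHom with hQ'
  have hzz : z * z = 1 := hL.sq
  have hz1 : z ≠ 1 := hL.ne_one
  have hAz : ∀ a ∈ A, a * z = z * a := by
    intro a ha
    have := hA ha
    rw [Subgroup.mem_centralizer_iff] at this
    exact (this z rfl).symm
  have memCA : ∀ c, c ∈ Subgroup.centralizer (A : Set G) ↔ ∀ a ∈ A, a * c = c * a := by
    intro c
    rw [Subgroup.mem_centralizer_iff]
    rfl
  have memR : ∀ c, c ∈ R ↔ c ∈ Q ∧ ∀ a ∈ A, a * c = c * a := by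
    intro c
    rw [hR, Subgroup.mem_inf, memCA]
  obtain ⟨hyQ, hAy⟩ := (memR y).1 hgR
  have hne : y ≠ z := by
    intro h
    apply hgZ
    rw [h, hZ]
    exact Subgroup.mem_zpowers z
  have hy1 : y ≠ 1 := hL'.ne_one
  have hRQ : R ≤ Q := by
    intro a ha
    exact ((memR a).1 ha).1
  have hc32 : 32 ≤ Nat.card ↥Q := hR32.trans (Subgroup.card_le_of_le hRQ)
  have hzQ' : z ∈ Q' := z_mem hL hL' hy.symm hQ' hyQ hne hc32
  have hPS : PS Q Q' z y g := ⟨hL, hL', hy.symm, hQ', hyQ, hzQ', hne⟩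
  obtain ⟨u, huR, huy⟩ := exists_in_fixed hL hAodd hAz hyQ hAy hy1 hne
  obtain ⟨t₀, ht₀, ht₀z⟩ := exists_in_fixed hL' hAodd hAy hzQ' hAz hz1 hne.symm
  have huQ : u ∈ Q := (Subgroup.mem_inf.1 huR).1
  have ht₀Q' : t₀ ∈ Q' := (Subgroup.mem_inf.1 ht₀).1
  -- The final clause
  have hfinal : ∃ x ∈ R ⊔ ((Q).map (MulAut.conj g).toMonoidHom ⊓ Subgroup.centralizer (A : Set G)), x * (g * z * g⁻¹) * x⁻¹ = z := by
    have hrho := PS.rho_z hPS huQ huy ht₀Q' ht₀z
    refine ⟨(u * t₀)⁻¹, inv_mem (mul_mem ((le_sup_left : R ≤ _) (by rw [hR]; exact huR)) ((le_sup_right : (Q).map (MulAut.conj g).toMonoidHom ⊓ Subgroup.centralizer (A : Set G) ≤ R ⊔ _) ht₀)), ?_⟩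
    rw [← hy]
    calc (u * t₀)⁻¹ * y * (u * t₀)⁻¹⁻¹ = (u * t₀)⁻¹ * ((u * t₀) * z * (u * t₀)⁻¹) * (u * t₀) := by
          rw [hrho, inv_inv]
      _ = z := by group
  -- The group `M`
  have hCM : Subgroup.centralizer (A : Set G) ≤ M := by rw [hM]; exact le_sup_left
  have hAM : A ≤ M := by rw [hM]; exact le_sup_right
  have hRCA : R ≤ Subgroup.centralizer (A : Set G) := by
    intro a ha
    exact (memCA a).2 ((memR a).1 ha).2
  have hRM : R ≤ M := hRCA.trans hCM
  have hzCA : z ∈ Subgroup.centralizer (A : Set G) := (memCA z).2 hAz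
  have hyCA : y ∈ Subgroup.centralizer (A : Set G) := (memCA y).2 hAy
  have hzR : z ∈ R := (memR z).2 ⟨hL.mem, hAz⟩
  have mem_M : ∀ m ∈ M, ∃ c ∈ Subgroup.centralizer (A : Set G), ∃ a ∈ A, m = c * a := by
    intro m hm
    let S : Subgroup G :=
      { carrier := {r | ∃ c ∈ Subgroup.centralizer (A : Set G), ∃ a ∈ A, r = c * a}
        one_mem' := ⟨1, one_mem _, 1, one_mem _, by simp⟩
        mul_mem' := by
          rintro _ _ ⟨c, hc, a, ha, rfl⟩ ⟨c', hc', a', ha', rfl⟩
          refine ⟨c * c', mul_mem hc hc', a * a', mul_mem ha ha', ?_⟩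
          have := (memCA c').1 hc' a ha
          calc c * a * (c' * a') = c * (a * c') * a' := by group
            _ = c * (c' * a) * a' := by rw [this]
            _ = c * c' * (a * a') := by group
        inv_mem' := by
          rintro _ ⟨c, hc, a, ha, rfl⟩
          refine ⟨c⁻¹, inv_mem hc, a⁻¹, inv_mem ha, ?_⟩
          have := (memCA c).1 hc a ha
          rw [mul_inv_rev]
          exact ((show Commute a c from this).inv_inv).eq }
    have hle : M ≤ S := by
      rw [hM]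
      refine sup_le ?_ ?_
      · intro c hc
        exact ⟨c, hc, 1, one_mem _, by simp⟩
      · intro a ha
        exact ⟨1, one_mem _, a, ha, by simp⟩
    exact hle hm
  -- The key lifting lemma.
  have hlift : ∀ (c r : G) (k : ℕ), (∀ a ∈ A, a * r = r * a) → r ^ 2 ^ k = 1 →
      r⁻¹ * (c * r * c⁻¹) ∈ A → c * r * c⁻¹ = r := by
    intro c r k hr hrk ha
    have hrc : r⁻¹ * (c * r * c⁻¹) * r = r * (r⁻¹ * (c * r * c⁻¹)) := (hr _ ha)
    have hcomm : Commute r (r⁻¹ * (c * r * c⁻¹)) := hrc.symm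
    have e1 : c * r * c⁻¹ = r * (r⁻¹ * (c * r * c⁻¹)) := by group
    have e2 : (c * r * c⁻¹) ^ 2 ^ k = 1 := by
      rw [conj_pow, hrk]; group
    rw [e1, hcomm.mul_pow, hrk, one_mul] at e2
    have h3 := pow_gcd_eq_one.2 ⟨e2, Cfsg.Agent.Lib.RankOne.OddInvert.pow_card_sub ha⟩
    have h4 : Nat.gcd (2 ^ k) (Nat.card A) = 1 := Nat.Coprime.pow_left k hAodd.coprime_two_left
    rw [h4, pow_one] at h3
    rw [e1, h3, mul_one]
  have hQ4 : ∀ q ∈ Q, q ^ 2 ^ 2 = 1 := by
    intro q hq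
    have e : q ^ 2 ^ 2 = (q * q) * (q * q) := by
      rw [show 2 ^ 2 = 4 from rfl]
      simp only [pow_succ, pow_zero, one_mul, mul_assoc]
    rw [e]
    rcases hL.sq_mem q hq with h | h <;> rw [h]
    · simp
    · exact hzz
  have hQ'4 : ∀ q ∈ Q', q ^ 2 ^ 2 = 1 := by
    intro q hq
    have e : q ^ 2 ^ 2 = (q * q) * (q * q) := by
      rw [show 2 ^ 2 = 4 from rfl]
      simp only [pow_succ, pow_zero, one_mul, mul_assoc]
    rw [e]
    rcases hL'.sq_mem q hq with h | h <;> rw [h]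
    · simp
    · exact hL'.sq
  -- the quotient
  let Γ := ↥M ⧸ A.subgroupOf M
  let Rb := (R.subgroupOf M).map (QuotientGroup.mk' (A.subgroupOf M))
  have memRb : ∀ c : Γ, c ∈ Rb ↔ ∃ p : ↥M, (p : G) ∈ R ∧ (p : Γ) = c := by
    intro c
    constructor
    · rintro ⟨p, hp, rfl⟩
      exact ⟨p, hp, rfl⟩
    · rintro ⟨p, hp, rfl⟩
      exact ⟨p, hp, rfl⟩
  have heq1 : ∀ a : ↥M, ((a : Γ) = 1) ↔ (a : G) ∈ A := by
    intro a
    show ((a : ↥M ⧸ A.subgroupOf M) = 1) ↔ (a : G) ∈ A
    rw [QuotientGroup.eq_one_iff, Subgroup.mem_subgroupOf]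
  have heq : ∀ a b : ↥M, ((a : Γ) = (b : Γ)) ↔ (a : G)⁻¹ * b ∈ A := by
    intro a b
    show ((a : ↥M ⧸ A.subgroupOf M) = (b : ↥M ⧸ A.subgroupOf M)) ↔ _
    rw [QuotientGroup.eq, Subgroup.mem_subgroupOf]
    simp
  -- representatives
  have hrep : ∀ c : Γ, ∃ x : ↥M, (x : G) ∈ Subgroup.centralizer (A : Set G) ∧ (x : Γ) = c := by
    intro c
    obtain ⟨m, rfl⟩ := QuotientGroup.mk_surjective c
    obtain ⟨c', hc', a, ha, hm⟩ := mem_M m m.2
    refine ⟨⟨c', hCM hc'⟩, hc', ?_⟩
    rw [heq]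
    simp only
    have : c'⁻¹ * (m : G) = a := by rw [hm]; group
    rw [this]
    exact ha
  -- commuting in the quotient
  have hcb : ∀ (x r : ↥M) (k : ℕ), (∀ a ∈ A, a * (r : G) = r * a) → (r : G) ^ 2 ^ k = 1 →
      (x : Γ) * (r : Γ) = (r : Γ) * (x : Γ) → (x : G) * r = r * x := by
    intro x r k hr hrk hh
    have h1 : ((x * r : ↥M) : Γ) = ((r * x : ↥M) : Γ) := hh
    rw [heq] at h1
    have h2 : (r : G)⁻¹ * ((x : G)⁻¹ * r * ((x : G)⁻¹)⁻¹) ∈ A := by
      have e : (r : G)⁻¹ * ((x : G)⁻¹ * r * ((x : G)⁻¹)⁻¹) = (((x : G) * r)⁻¹ * (r * x)) := by group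
      rw [e]
      simpa using h1
    have h3 := hlift _ _ k hr hrk h2
    calc (x : G) * r = x * ((x : G)⁻¹ * r * ((x : G)⁻¹)⁻¹) := by rw [h3]
      _ = r * x := by group
  let zt : ↥M := ⟨z, hCM hzCA⟩
  let yt : ↥M := ⟨y, hCM hyCA⟩
  have hzb : ∀ x : ↥M, (x : Γ) * (zt : Γ) = (zt : Γ) * (x : Γ) → (x : G) * z = z * x :=
    fun x hx => hcb x zt 2 hAz (hQ4 z hL.mem) hx
  have hyb : ∀ x : ↥M, (x : Γ) * (yt : Γ) = (yt : Γ) * (x : Γ) → (x : G) * y = y * x :=
    fun x hx => hcb x yt 2 hAy (hQ4 y hyQ) hx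
  -- the centralizer of `A ⊔ R`
  have memD : ∀ c, c ∈ Subgroup.centralizer ((A ⊔ R : Subgroup G) : Set G) ↔
      (∀ a ∈ A, a * c = c * a) ∧ (∀ r ∈ R, r * c = c * r) := by
    intro c
    rw [Subgroup.mem_centralizer_iff]
    constructor
    · intro hh
      exact ⟨fun a ha => hh a ((le_sup_left : A ≤ A ⊔ R) ha), fun r hr => hh r ((le_sup_right : R ≤ A ⊔ R) hr)⟩
    · rintro ⟨h1, h2⟩ h hh
      have hle : A ⊔ R ≤ Subgroup.centralizer ({c} : Set G) := by
        refine sup_le ?_ ?_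
        · intro a ha
          rw [Subgroup.mem_centralizer_iff]
          rintro _ rfl
          exact (h1 a ha).symm
        · intro a ha
          rw [Subgroup.mem_centralizer_iff]
          rintro _ rfl
          exact (h2 a ha).symm
      have := hle hh
      rw [Subgroup.mem_centralizer_iff] at this
      exact (this c rfl).symm
  have hzD : z ∈ Subgroup.centralizer ((A ⊔ R : Subgroup G) : Set G) :=
    (memD z).2 ⟨hAz, fun r hr => hL.central r ((memR r).1 hr).1⟩
  have hDc : ∀ c ∈ Subgroup.centralizer ((A ⊔ R : Subgroup G) : Set G), c ∈ A ∨ z * c ∈ A := by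
    intro c hc
    have h1 := exists_complement (D := ↥(Subgroup.centralizer ((A ⊔ R : Subgroup G) : Set G))) (z := ⟨z, hzD⟩)
      (fun h => hz1 (congrArg Subtype.val h)) (Subtype.ext hzz)
      (fun c' => Subtype.ext (((memD _).1 c'.2).2 z hzR).symm) h4 ⟨c, hc⟩
    rcases h1 with h1 | h1
    · left
      exact hO ⟨_, h1, rfl⟩
    · right
      exact hO ⟨_, h1, rfl⟩
  -- The `LX`
  have hzRb : (zt : Γ) ∈ Rb := (memRb _).2 ⟨zt, hzR, rfl⟩
  have hyRb : (yt : Γ) ∈ Rb := (memRb _).2 ⟨yt, hgR, rfl⟩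
  have hzA : z ∉ A := by
    intro h
    exact hz1 (Cfsg.Agent.Lib.RankOne.OddInvert.eq_one_of_sq hAodd h hzz)
  have hLbar : LX (zt : Γ) Rb := by
    refine ⟨⟨hzRb, ?_, ?_, ?_, ?_, ?_⟩, ?_, ?_, ?_⟩
    · intro h
      exact hzA ((heq1 zt).1 h)
    · have : (zt * zt : ↥M) = 1 := Subtype.ext hzz
      rw [← QuotientGroup.mk_mul, this]
      rfl
    · intro a ha
      obtain ⟨p, hp, rfl⟩ := (memRb _).1 ha
      have : p * zt = zt * p := Subtype.ext (hL.central p ((memR p).1 hp).1)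
      rw [← QuotientGroup.mk_mul, ← QuotientGroup.mk_mul, this]
    · intro a ha b hb
      obtain ⟨p, hp, rfl⟩ := (memRb _).1 ha
      obtain ⟨p', hp', rfl⟩ := (memRb _).1 hb
      have e : (p : Γ) * (p' : Γ) * (p : Γ)⁻¹ * (p' : Γ)⁻¹ = ((p * p' * p⁻¹ * p'⁻¹ : ↥M) : Γ) := rfl
      rw [e]
      rcases hL.comm p ((memR p).1 hp).1 p' ((memR p').1 hp').1 with h | h
      · left
        rw [heq1]
        have : ((p * p' * p⁻¹ * p'⁻¹ : ↥M) : G) = 1 := by simpa using h
        rw [this]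
        exact one_mem _
      · right
        have : (p * p' * p⁻¹ * p'⁻¹ : ↥M) = zt := Subtype.ext (by simpa using h)
        rw [this]
    · intro a ha hc
      obtain ⟨p, hp, rfl⟩ := (memRb _).1 ha
      obtain ⟨hpQ, hpA⟩ := (memR p).1 hp
      have hc' : ∀ r ∈ R, (p : G) * r = r * p := by
        intro r hr
        obtain ⟨hr1, hr2⟩ := (memR r).1 hr
        exact hcb p ⟨r, hRM hr⟩ 2 hr2 (hQ4 r hr1) (hc _ ((memRb _).2 ⟨⟨r, hRM hr⟩, hr, rfl⟩))
      by_cases hp1 : (p : G) = 1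
      · left
        rw [heq1, hp1]
        exact one_mem _
      by_cases hpz : (p : G) = z
      · right
        have : p = zt := Subtype.ext hpz
        rw [this]
      exfalso
      obtain ⟨u', hu', hu'p⟩ := exists_in_fixed hL hAodd hAz hpQ hpA hp1 hpz
      have hu'R : u' ∈ R := by rw [hR]; exact hu'
      have := hc' u' hu'R
      have h2 : u' * p * u'⁻¹ = p := by rw [← this]; group
      rw [h2] at hu'p
      exact hz1 (mul_eq_right.1 hu'p.symm)
    · intro a ha
      obtain ⟨p, hp, rfl⟩ := (memRb _).1 ha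
      rw [← QuotientGroup.mk_mul]
      rcases hL.sq_mem p ((memR p).1 hp).1 with h | h
      · left
        rw [heq1]
        have : ((p * p : ↥M) : G) = 1 := by simpa using h
        rw [this]
        exact one_mem _
      · right
        have : (p * p : ↥M) = zt := Subtype.ext (by simpa using h)
        rw [this]
    · intro c hc
      obtain ⟨x, hxA, rfl⟩ := hrep c
      have hc' : ∀ r ∈ R, r * (x : G) = x * r := by
        intro r hr
        obtain ⟨hr1, hr2⟩ := (memR r).1 hr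
        exact (hcb x ⟨r, hRM hr⟩ 2 hr2 (hQ4 r hr1) (hc _ ((memRb _).2 ⟨⟨r, hRM hr⟩, hr, rfl⟩))).symm
      have hxD := (memD x).2 ⟨(memCA x).1 hxA, hc'⟩
      rcases hDc x hxD with h | h
      · left
        exact (heq1 x).2 h
      · right
        rw [heq]
        have : (x : G)⁻¹ * z = (z * x)⁻¹ * (z * z) := by group
        have hzxc : (x : G) * z = z * x := (hc' z hzR).symm
        show (x : G)⁻¹ * z ∈ A
        have e : (x : G)⁻¹ * z = (z * (x : G))⁻¹ := by
          rw [mul_inv_rev, Cfsg.Agent.Lib.LargeExtra.PairStruct.PS.zi hPS]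
        rw [e]
        exact inv_mem h
    · intro c hc a ha
      obtain ⟨x, hxA, rfl⟩ := hrep c
      obtain ⟨p, hp, rfl⟩ := (memRb _).1 ha
      have hxz := hzb x hc
      obtain ⟨hp1, hp2⟩ := (memR p).1 hp
      have h1 : (x : G) * p * (x : G)⁻¹ ∈ Q := hL.norm x hxz p hp1
      refine (memRb _).2 ⟨x * p * x⁻¹, (memR _).2 ⟨by simpa using h1, ?_⟩, rfl⟩
      intro a' ha'
      have h2 := (memCA x).1 hxA
      have h3 : ∀ a ∈ A, a * ((x : G))⁻¹ = ((x : G))⁻¹ * a := by
        intro b hb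
        exact ((show Commute b (x : G) from h2 b hb).inv_right).eq
      simp only [Subgroup.coe_mul, Subgroup.coe_inv]
      calc a' * ((x : G) * p * (x : G)⁻¹) = (a' * x) * p * (x : G)⁻¹ := by group
        _ = (x * a') * p * (x : G)⁻¹ := by rw [h2 a' ha']
        _ = x * (a' * p) * (x : G)⁻¹ := by group
        _ = x * (p * a') * (x : G)⁻¹ := by rw [hp2 a' ha']
        _ = x * p * (a' * (x : G)⁻¹) := by group
        _ = x * p * ((x : G)⁻¹ * a') := by rw [h3 a' ha']
        _ = _ := by group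
  have hnc : ∃ a ∈ Rb, ∃ b ∈ Rb, a * b ≠ b * a := by
    have huRR : u ∈ R := by rw [hR]; exact huR
    refine ⟨((⟨u, hRM huRR⟩ : ↥M) : Γ), (memRb _).2 ⟨⟨u, hRM huRR⟩, huRR, rfl⟩, (yt : Γ), hyRb, ?_⟩
    intro hh
    have h1 := hyb ⟨u, hRM huRR⟩ hh
    have h1' : u * y = y * u := h1
    have h2 : u * y * u⁻¹ = y := by rw [h1']; group
    rw [huy] at h2
    exact hz1 (mul_eq_right.1 h2)
  have hoddbar : ∀ K : Subgroup Γ, Odd (Nat.card ↥K) → Rb ≤ Subgroup.normalizer (K : Set Γ) → K = ⊥ := by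
    intro K hK hKn
    let T₁ := (Q' ⊓ Subgroup.centralizer (A : Set G)).subgroupOf M
    let T : Subgroup Γ := T₁.map (QuotientGroup.mk' (A.subgroupOf M))
    have hT₁ : IsPGroup 2 ↥T₁ := by
      intro x
      have hx1 : ((x : ↥M) : G) ∈ Q' := (Subgroup.mem_subgroupOf.1 x.2).1
      obtain ⟨n, hn'⟩ := hL'.isPGroup ⟨_, hx1⟩
      refine ⟨n, ?_⟩
      have h0 : ((x : ↥M) : G) ^ 2 ^ n = 1 := congrArg Subtype.val hn'
      apply Subtype.ext
      apply Subtype.ext
      simpa using h0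
    have hTP : IsPGroup 2 ↥T := hT₁.map _
    have hzT : (zt : Γ) ∈ T := ⟨zt, Subgroup.mem_subgroupOf.2 ⟨hzQ', hzCA⟩, rfl⟩
    refine no_odd hLbar hyRb ?_ ?_ ?_ hTP hzT ?_ hK hKn
    · have : (yt * yt : ↥M) = 1 := Subtype.ext hL'.sq
      rw [← QuotientGroup.mk_mul, this]
      rfl
    · intro h
      have h1 := (heq1 yt).1 h
      exact hy1 (Cfsg.Agent.Lib.RankOne.OddInvert.eq_one_of_sq hAodd h1 hL'.sq)
    · intro h
      have h1 : (yt : G)⁻¹ * z ∈ A := (heq yt zt).1 h
      have h2 : y⁻¹ * (z⁻¹ * y * z⁻¹⁻¹) = 1 := by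
        rw [show z⁻¹⁻¹ = z from inv_inv z, hPS.zi, hPS.zy, mul_assoc y z z, hzz, mul_one]
        group
      have hw : y⁻¹ * z ∈ Q := mul_mem (inv_mem hyQ) hL.mem
      have hw2 : y⁻¹ * z = y * z := by rw [hPS.yi]
      have h3 : (y * z) * (y * z) = 1 := by
        rw [← hPS.zy, mul_assoc, ← mul_assoc y z y, ← hPS.zy, mul_assoc z y y, hL'.sq, mul_one, hzz]
      have h4 := Cfsg.Agent.Lib.RankOne.OddInvert.eq_one_of_sq hAodd (a := y * z) (by rw [← hw2]; exact h1) h3
      apply hne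
      have : y * (y * z) = y * 1 := by rw [h4]
      rw [← mul_assoc, hL'.sq, one_mul, mul_one] at this
      exact this.symm
    · intro c hc a ha
      obtain ⟨x, hxA, rfl⟩ := hrep c
      obtain ⟨p, hp, rfl⟩ := ha
      have hxy := hyb x hc
      have hp0 := Subgroup.mem_subgroupOf.1 hp
      have hp1 : (p : G) ∈ Q' := hp0.1
      have h1 : (x : G) * p * (x : G)⁻¹ ∈ Q' := hL'.norm x hxy p hp1
      refine ⟨x * p * x⁻¹, Subgroup.mem_subgroupOf.2 ⟨by simpa using h1, ?_⟩, rfl⟩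
      have := mul_mem (mul_mem hxA hp0.2) (inv_mem hxA)
      simpa using this
  refine ⟨?_, large_of_lx hLbar hnc hoddbar, hfinal⟩
  apply le_antisymm
  · refine sup_le ?_ le_sup_left
    intro w hw
    obtain ⟨h1, h2⟩ := Subgroup.mem_inf.1 hw
    have hwD : w ∈ Subgroup.centralizer ((A ⊔ R : Subgroup G) : Set G) := by
      rw [sup_comm]; exact h2
    have hzZ : z ∈ (Subgroup.center ↥Q).map Q.subtype := by
      rw [hZ]; exact Subgroup.mem_zpowers z
    rcases hDc w hwD with h | h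
    · exact (le_sup_left : A ≤ A ⊔ _) h
    · have e : w = z * (z * w) := by rw [← mul_assoc, hzz, one_mul]
      rw [e]
      exact mul_mem ((le_sup_right : _ ≤ A ⊔ _) hzZ) ((le_sup_left : A ≤ A ⊔ _) h)
  · refine sup_le le_sup_right ?_
    rw [hZ, Subgroup.zpowers_le]
    refine (le_sup_left : M ⊓ Subgroup.centralizer ((R ⊔ A : Subgroup G) : Set G) ≤ _) (Subgroup.mem_inf.2 ⟨hCM hzCA, ?_⟩)
    rw [sup_comm]
    exact hzD

end Cfsg.Agent.S5428
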