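import Cfsg.Statements.S5429
import Cfsg.Agent.Lib.LargeExtra.LargeOf
import Cfsg.Agent.Lib.LargeExtra.PairQuot

set_option autoImplicit false
open Cfsg

namespace Cfsg.Agent.S5429

open Cfsg.Agent.Lib.LargeExtra.Basic Cfsg.Agent.Lib.LargeExtra.Pair Cfsg.Agent.Lib.LargeExtra.FStar Cfsg.Agent.Lib.LargeExtra.LargeOf Cfsg.Agent.Lib.LargeExtra.PairStruct

set_option linter.unusedVariables false
set_option linter.style.longLine false
set_option linter.unusedSimpArgs false
set_option linter.unnecessarySimpa false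

theorem mem_zpowers_invol {G : Type*} [Group G] {t x : G} (htt : t * t = 1) (hx : x ∈ Subgroup.zpowers t) :
    x = 1 ∨ x = t := by
  obtain ⟨k, rfl⟩ := hx
  have h2z : t ^ (2 : ℤ) = 1 := by
    rw [zpow_ofNat, pow_two, htt]
  rcases Int.emod_two_eq_zero_or_one k with h | h
  · left
    simp only
    rw [← Int.emod_add_mul_ediv k 2, h, zero_add, zpow_mul, h2z, one_zpow]
  · right
    simp only
    rw [← Int.emod_add_mul_ediv k 2, h, zpow_add, zpow_mul, h2z, one_zpow, zpow_one, mul_one]

section quot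

variable {G : Type*} [Group G] [Finite G] {t : G}
  [hn : ((Subgroup.zpowers t).subgroupOf (Subgroup.centralizer ({t} : Set G))).Normal]


omit [Finite G] hn in
theorem mem_HH {x : G} : x ∈ Subgroup.centralizer ({t} : Set G) ↔ x * t = t * x := by
  rw [Subgroup.mem_centralizer_iff]
  simp only [Set.mem_singleton_iff, forall_eq]
  exact eq_comm

omit [Finite G] in
theorem eq_one_iff' (htt : t * t = 1) (a : ↥(Subgroup.centralizer ({t} : Set G))) : ((a : ↥(Subgroup.centralizer ({t} : Set G)) ⧸ ((Subgroup.zpowers t).subgroupOf (Subgroup.centralizer ({t} : Set G)))) = 1) ↔ (a : G) = 1 ∨ (a : G) = t := by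
  rw [QuotientGroup.eq_one_iff, Subgroup.mem_subgroupOf]
  constructor
  · exact mem_zpowers_invol htt
  · rintro (h | h)
    · rw [h]; exact one_mem _
    · rw [h]; exact Subgroup.mem_zpowers t

omit [Finite G] in
theorem eq_iff' (htt : t * t = 1) (a b : ↥(Subgroup.centralizer ({t} : Set G))) : ((a : ↥(Subgroup.centralizer ({t} : Set G)) ⧸ ((Subgroup.zpowers t).subgroupOf (Subgroup.centralizer ({t} : Set G)))) = (b : ↥(Subgroup.centralizer ({t} : Set G)) ⧸ ((Subgroup.zpowers t).subgroupOf (Subgroup.centralizer ({t} : Set G))))) ↔ (b : G) = a ∨ (b : G) = a * t := by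
  rw [QuotientGroup.eq, Subgroup.mem_subgroupOf]
  constructor
  · intro h
    rcases mem_zpowers_invol htt h with h1 | h1
    · left
      have h2 : (a : G)⁻¹ * b = 1 := by simpa using h1
      have : (b : G) = a * ((a : G)⁻¹ * b) := by group
      rw [this, h2, mul_one]
    · right
      have h2 : (a : G)⁻¹ * b = t := by simpa using h1
      have : (b : G) = a * ((a : G)⁻¹ * b) := by group
      rw [this, h2]
  · rintro (h | h)
    · have : ((a⁻¹ * b : ↥(Subgroup.centralizer ({t} : Set G))) : G) = 1 := by simp [h]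
      rw [this]; exact one_mem _
    · have : ((a⁻¹ * b : ↥(Subgroup.centralizer ({t} : Set G))) : G) = t := by simp [h]
      rw [this]; exact Subgroup.mem_zpowers t

omit [Finite G] in
/-- Commutation in the quotient. -/
theorem comm_iff' (htt : t * t = 1) (a b : ↥(Subgroup.centralizer ({t} : Set G))) :
    (a : ↥(Subgroup.centralizer ({t} : Set G)) ⧸ ((Subgroup.zpowers t).subgroupOf (Subgroup.centralizer ({t} : Set G)))) * (b : ↥(Subgroup.centralizer ({t} : Set G)) ⧸ ((Subgroup.zpowers t).subgroupOf (Subgroup.centralizer ({t} : Set G)))) = (b : ↥(Subgroup.centralizer ({t} : Set G)) ⧸ ((Subgroup.zpowers t).subgroupOf (Subgroup.centralizer ({t} : Set G)))) * (a : ↥(Subgroup.centralizer ({t} : Set G)) ⧸ ((Subgroup.zpowers t).subgroupOf (Subgroup.centralizer ({t} : Set G)))) ↔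
      (a : G) * b = b * a ∨ (a : G) * b * (a : G)⁻¹ = b * t := by
  have ha : (a : G) * t = t * a := mem_HH.1 a.2
  have hb : (b : G) * t = t * b := mem_HH.1 b.2
  rw [← QuotientGroup.mk_mul, ← QuotientGroup.mk_mul, eq_iff' htt]
  simp only [Subgroup.coe_mul]
  constructor
  · rintro (h | h)
    · exact Or.inl h.symm
    · right
      have h2 : (a : G) * b = b * a * t := by
        calc (a : G) * b = ((a : G) * b * t) * t := by rw [mul_assoc _ t t, htt, mul_one]
          _ = b * a * t := by rw [← h]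
      rw [h2]
      calc (b : G) * a * t * (a : G)⁻¹ = b * (a * t) * (a : G)⁻¹ := by group
        _ = b * (t * a) * (a : G)⁻¹ := by rw [ha]
        _ = b * t := by group
  · rintro (h | h)
    · exact Or.inl h.symm
    · right
      have h2 : (a : G) * b = b * t * a := by
        calc (a : G) * b = ((a : G) * b * (a : G)⁻¹) * a := by group
          _ = b * t * a := by rw [h]
      rw [h2]
      calc (b : G) * a = b * (a * t) * t := by rw [mul_assoc (b : G), mul_assoc (a : G), htt, mul_one]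
        _ = b * (t * a) * t := by rw [ha]
        _ = b * t * a * t := by group

end quot

/-- Let z be an involution of the finite group G with centralizer C whose generalized Fitting subgroup Q is extraspecial of width at least 3 (order 2^(2w+1), w ≥ 3); let g be an element of G with g z g⁻¹ in Q but outside the centre Z of Q, and t an involution lying in both Q and g Q g⁻¹ that is not conjugate to z; write P for the centralizer of t in Q and suppose that the elements of C acting trivially by conjugation on P modulo the subgroup generated by t and z are exactly the elements of Q. Then the image of P in the centralizer of t modulo the subgroup generated by t is a large extraspecial 2-subgroup there, and g z g⁻¹ is conjugate to z inside the subgroup generated by P and the centralizer of t in g Q g⁻¹. -/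
theorem result {G : Type*} [Group G] [Finite G] (z : G) (hz : orderOf z = 2) (Q : Subgroup G) (hQC : Q ≤ Subgroup.centralizer ({z} : Set G)) (hF : (Cfsg.generalizedFittingSubgroup ↥(Subgroup.centralizer ({z} : Set G))).map (Subgroup.centralizer ({z} : Set G)).subtype = Q) (hQ : Cfsg.IsExtraspecial 2 ↥Q) (w : ℕ) (hw : 3 ≤ w) (hcard : Nat.card ↥Q = 2 ^ (2 * w + 1)) (g : G) (hgQ : g * z * g⁻¹ ∈ Q) (hgZ : g * z * g⁻¹ ∉ ((Subgroup.center ↥Q).map Q.subtype)) (t : G) (ht : orderOf t = 2) (htQ : t ∈ Q ⊓ (Q).map (MulAut.conj g).toMonoidHom) (htz : ¬ IsConj z t) (P : Subgroup G) (hP : P = Q ⊓ Subgroup.centralizer ({t} : Set G)) (hCP : ∀ c ∈ Subgroup.centralizer ({z} : Set G), (∀ x ∈ P, ∃ y ∈ Subgroup.closure ({t, z} : Set G), c * x * c⁻¹ = x * y) ↔ c ∈ Q) [hn : ((Subgroup.zpowers t).subgroupOf (Subgroup.centralizer ({t} : Set G))).Normal] : Cfsg.IsLargeExtraspecial ((P.subgroupOf (Subgroup.centralizer ({t} : Set G))).map (QuotientGroup.mk' ((Subgroup.zpowers t).subgroupOf (Subgroup.centralizer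 ({t} : Set G))))) ∧ ∃ x ∈ P ⊔ ((Q).map (MulAut.conj g).toMonoidHom ⊓ Subgroup.centralizer ({t} : Set G)), x * (g * z * g⁻¹) * x⁻¹ = z := by
  classical
  have hF2 : Fact (Nat.Prime 2) := ⟨Nat.prime_two⟩
  have hL : LX z Q := lx_of_fstar hz hF hQ
  obtain ⟨hZ, hcent, hnorm⟩ := fstar_facts hz hF hQ
  have hL' : LX (g * z * g⁻¹) (Q.map (MulAut.conj g).toMonoidHom) := hL.conj g
  set y := g * z * g⁻¹ with hy
  set Q' := Q.map (MulAut.conj g).toMonoidHom with hQ'
  have hne : y ≠ z := by
    intro h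
    apply hgZ
    rw [h, hZ]
    exact Subgroup.mem_zpowers z
  have hc32 : 32 ≤ Nat.card ↥Q := by
    rw [hcard]
    calc 32 = 2 ^ 5 := by norm_num
      _ ≤ 2 ^ (2 * w + 1) := Nat.pow_le_pow_right (by norm_num) (by omega)
  have hzQ' : z ∈ Q' := z_mem hL hL' hy.symm hQ' hgQ hne hc32
  have hPS : PS Q Q' z y g := ⟨hL, hL', hy.symm, hQ', hgQ, hzQ', hne⟩
  have htt : t * t = 1 := by
    have := pow_orderOf_eq_one t
    rwa [ht, pow_two] at this
  have ht1 : t ≠ 1 := by
    rintro rfl
    simp at ht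
  have htQ1 : t ∈ Q := htQ.1
  have htQ2 : t ∈ Q' := htQ.2
  have hconj : ∀ a : G, a * z * a⁻¹ ≠ t := by
    intro a h
    apply htz
    rw [isConj_iff]
    exact ⟨a, h⟩
  have htzne : t ≠ z := by
    intro h
    exact hconj 1 (by rw [h]; group)
  have hty : t ≠ y := by
    intro h
    exact hconj g (by rw [h])
  -- `t` commutes with `z`, `y`
  have htzc : t * z = z * t := hL.central t htQ1
  have htyc : t * y = y * t := hL'.central t htQ2
  have hzyc : z * y = y * z := hPS.zy
  have hzi : z⁻¹ = z := hPS.zi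
  have hyi : y⁻¹ = y := hPS.yi
  have hti : t⁻¹ = t := inv_eq_of_mul_eq_one_left htt
  -- `z t` is not conjugate to `z`
  obtain ⟨q₁, hq₁, hq₁t⟩ := hL.exists_comm htQ1 ht1 htzne
  have hnoz : ∀ a : G, a * z * a⁻¹ ≠ z * t := by
    intro a h
    apply hconj (q₁⁻¹ * a)
    calc (q₁⁻¹ * a) * z * (q₁⁻¹ * a)⁻¹ = q₁⁻¹ * (a * z * a⁻¹) * q₁ := by group
      _ = q₁⁻¹ * (z * t) * q₁ := by rw [h]
      _ = q₁⁻¹ * (q₁ * t * q₁⁻¹) * q₁ := by rw [hq₁t]
      _ = t := by group
  obtain ⟨q₂, hq₂, hq₂t⟩ := hL'.exists_comm htQ2 ht1 hty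
  have hnoy : ∀ a : G, a * y * a⁻¹ ≠ y * t := by
    intro a h
    apply hconj (q₂⁻¹ * a * g)
    calc (q₂⁻¹ * a * g) * z * (q₂⁻¹ * a * g)⁻¹ = q₂⁻¹ * (a * (g * z * g⁻¹) * a⁻¹) * q₂ := by group
      _ = q₂⁻¹ * (y * t) * q₂ := by rw [← hy, h]
      _ = q₂⁻¹ * (q₂ * t * q₂⁻¹) * q₂ := by rw [hq₂t]
      _ = t := by group
  -- The subgroup `P`
  have memP : ∀ a, a ∈ P ↔ a ∈ Q ∧ a * t = t * a := by
    intro a
    rw [hP, Subgroup.mem_inf, mem_HH]
  have hzH : z ∈ Subgroup.centralizer ({t} : Set G) := mem_HH.2 htzc.symm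
  have hyH : y ∈ Subgroup.centralizer ({t} : Set G) := mem_HH.2 htyc.symm
  have hPH : P ≤ Subgroup.centralizer ({t} : Set G) := by
    intro a ha
    exact mem_HH.2 ((memP a).1 ha).2
  let zt : ↥(Subgroup.centralizer ({t} : Set G)) := ⟨z, hzH⟩
  let yt : ↥(Subgroup.centralizer ({t} : Set G)) := ⟨y, hyH⟩
  let Γ := ↥(Subgroup.centralizer ({t} : Set G)) ⧸ ((Subgroup.zpowers t).subgroupOf (Subgroup.centralizer ({t} : Set G)))
  let Pb := (P.subgroupOf (Subgroup.centralizer ({t} : Set G))).map (QuotientGroup.mk' ((Subgroup.zpowers t).subgroupOf (Subgroup.centralizer ({t} : Set G))))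
  have memPb : ∀ c : Γ, c ∈ Pb ↔ ∃ p : ↥(Subgroup.centralizer ({t} : Set G)), (p : G) ∈ P ∧ (p : Γ) = c := by
    intro c
    constructor
    · rintro ⟨p, hp, rfl⟩
      exact ⟨p, hp, rfl⟩
    · rintro ⟨p, hp, rfl⟩
      exact ⟨p, hp, rfl⟩
  -- Commutation facts
  have hBz : ∀ x : ↥(Subgroup.centralizer ({t} : Set G)), (x : Γ) * (zt : Γ) = (zt : Γ) * (x : Γ) → (x : G) * z = z * x := by
    intro x hx
    rcases (comm_iff' htt x zt).1 hx with h | h
    · exact h
    · exact absurd h (hnoz _)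
  have hBy : ∀ x : ↥(Subgroup.centralizer ({t} : Set G)), (x : Γ) * (yt : Γ) = (yt : Γ) * (x : Γ) → (x : G) * y = y * x := by
    intro x hx
    rcases (comm_iff' htt x yt).1 hx with h | h
    · exact h
    · exact absurd h (hnoy _)
  -- The subgroup `Y = ⟨t, z⟩`
  have hYmem := mem_closure_pair htt hL.sq htzc
  have hYQ : Subgroup.closure ({t, z} : Set G) ≤ Q := by
    rw [Subgroup.closure_le]
    rintro _ (rfl | rfl)
    · exact htQ1
    · exact hL.mem
  have hzY : z ∈ Subgroup.closure ({t, z} : Set G) := Subgroup.subset_closure (by simp)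
  have htY : t ∈ Subgroup.closure ({t, z} : Set G) := Subgroup.subset_closure (by simp)
  have hradP : ∀ p ∈ Q, (∀ a ∈ P, p * a = a * p) → p = 1 ∨ p = t ∨ p = z ∨ p = t * z := by
    intro p hp hc
    rw [← hYmem]
    by_contra hpY
    obtain ⟨q, hq, hq1, hq2⟩ := hL.toSettingAt.exists_centralizing _ hYQ hzY hp hpY
    have hqP : q ∈ P := (memP q).2 ⟨hq, hq1 t htY⟩
    have h1 := hc q hqP
    have h2 : q * p * q⁻¹ = p := by rw [← h1]; group
    rw [h2] at hq2
    apply hL.ne_one
    exact (mul_eq_right.1 hq2.symm)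
  -- an element of `P` not commuting with `y`
  have hyY : y ∉ Subgroup.closure ({t, z} : Set G) := by
    rw [hYmem]
    rintro (h | h | h | h)
    · exact hL'.ne_one h
    · exact hty h.symm
    · exact hne h
    · apply hnoz g
      rw [← hy, h, htzc]
  obtain ⟨u, huQ, hu1, huy⟩ := hL.toSettingAt.exists_centralizing _ hYQ hzY hgQ hyY
  have huP : u ∈ P := (memP u).2 ⟨huQ, hu1 t htY⟩
  have hradbar : ∀ a ∈ Pb, (∀ b ∈ Pb, a * b = b * a) → a = 1 ∨ a = (zt : Γ) := by
    intro a ha hc
    obtain ⟨p, hp, rfl⟩ := (memPb _).1 ha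
    have hpQ := ((memP p).1 hp).1
    have hc' : ∀ a ∈ P, (p : G) * a = a * p := by
      intro a' ha'
      have hh := hc _ ((memPb _).2 ⟨⟨a', hPH ha'⟩, ha', rfl⟩)
      rcases (comm_iff' htt p ⟨a', hPH ha'⟩).1 hh with h | h
      · exact h
      · exfalso
        simp only at h
        rcases hL.comm p hpQ a' ((memP a').1 ha').1 with h2 | h2
        · have h3 : (p : G) * a' = a' * p := (Cfsg.Agent.Lib.LargeExtra.Duality.comm_eq_one_iff _ _).1 h2
          have h4 : (p : G) * a' * (p : G)⁻¹ = a' := by rw [h3]; group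
          rw [h4] at h
          apply ht1
          exact (mul_eq_left.1 h.symm)
        · rw [h] at h2
          have e5 : (a' : G) * t * (a' : G)⁻¹ = t := by
            have := ((memP a').1 ha').2
            rw [this]; group
          exact htzne (e5.symm.trans h2)
    rcases hradP p hpQ hc' with h | h | h | h
    · left
      rw [eq_one_iff' htt]
      exact Or.inl h
    · left
      rw [eq_one_iff' htt]
      exact Or.inr h
    · right
      have : p = zt := Subtype.ext h
      rw [this]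
    · right
      rw [eq_iff' htt]
      right
      show z = (p : G) * t
      rw [h, mul_assoc, htzc.symm, ← mul_assoc, htt, one_mul] 
  have hLbar : LX ((zt : Γ)) Pb := by
    refine ⟨⟨?_, ?_, ?_, ?_, ?_, ?_⟩, ?_, ?_, ?_⟩
    · exact (memPb _).2 ⟨zt, (memP z).2 ⟨hL.mem, htzc.symm⟩, rfl⟩
    · intro h
      rcases (eq_one_iff' htt zt).1 h with h1 | h1
      · exact hL.ne_one h1
      · exact htzne h1.symm
    · have : (zt * zt : ↥(Subgroup.centralizer ({t} : Set G))) = 1 := Subtype.ext hL.sq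
      rw [← QuotientGroup.mk_mul, this]
      rfl
    · intro a ha
      obtain ⟨p, hp, rfl⟩ := (memPb _).1 ha
      have : p * zt = zt * p := Subtype.ext (hL.central p ((memP p).1 hp).1)
      rw [← QuotientGroup.mk_mul, ← QuotientGroup.mk_mul, this]
    · intro a ha b hb
      obtain ⟨p, hp, rfl⟩ := (memPb _).1 ha
      obtain ⟨p', hp', rfl⟩ := (memPb _).1 hb
      have e : (p : Γ) * (p' : Γ) * (p : Γ)⁻¹ * (p' : Γ)⁻¹ = ((p * p' * p⁻¹ * p'⁻¹ : ↥(Subgroup.centralizer ({t} : Set G))) : Γ) := rfl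
      rw [e]
      rcases hL.comm p ((memP p).1 hp).1 p' ((memP p').1 hp').1 with h | h
      · left
        rw [eq_one_iff' htt]
        left
        simpa using h
      · right
        have : (p * p' * p⁻¹ * p'⁻¹ : ↥(Subgroup.centralizer ({t} : Set G))) = zt := Subtype.ext (by simpa using h)
        rw [this]
    · exact hradbar
    · intro a ha
      obtain ⟨p, hp, rfl⟩ := (memPb _).1 ha
      rw [← QuotientGroup.mk_mul]
      rcases hL.sq_mem p ((memP p).1 hp).1 with h | h
      · left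
        rw [eq_one_iff' htt]
        left
        simpa using h
      · right
        have : (p * p : ↥(Subgroup.centralizer ({t} : Set G))) = zt := Subtype.ext (by simpa using h)
        rw [this]
    · intro c hc
      obtain ⟨x, rfl⟩ := QuotientGroup.mk_surjective c
      have hxz := hBz x (hc _ ((memPb _).2 ⟨zt, (memP z).2 ⟨hL.mem, htzc.symm⟩, rfl⟩))
      have hxC : (x : G) ∈ Subgroup.centralizer ({z} : Set G) := by
        rw [Subgroup.mem_centralizer_iff]
        intro v hv
        have hv' : v = z := hv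
        rw [hv']
        exact hxz.symm
      have hxQ : (x : G) ∈ Q := by
        rw [← hCP x hxC]
        intro p hp
        have hh := hc _ ((memPb _).2 ⟨⟨p, hPH hp⟩, hp, rfl⟩)
        rcases (comm_iff' htt x ⟨p, hPH hp⟩).1 hh with h | h
        · refine ⟨1, one_mem _, ?_⟩
          simp only at h
          rw [h]; group
        · refine ⟨t, Subgroup.subset_closure (by simp), ?_⟩
          simp only at h
          exact h
      have hxP : (x : G) ∈ P := (memP x).2 ⟨hxQ, mem_HH.1 x.2⟩
      exact hradbar _ ((memPb _).2 ⟨x, hxP, rfl⟩) hc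
    · intro c hc a ha
      obtain ⟨x, rfl⟩ := QuotientGroup.mk_surjective c
      obtain ⟨p, hp, rfl⟩ := (memPb _).1 ha
      have hxz := hBz x hc
      have h1 : (x : G) * p * (x : G)⁻¹ ∈ Q := hL.norm x hxz p ((memP p).1 hp).1
      refine (memPb _).2 ⟨x * p * x⁻¹, (memP _).2 ⟨by simpa using h1, ?_⟩, rfl⟩
      exact mem_HH.1 (x * p * x⁻¹).2
  have hyP : (yt : Γ) ∈ Pb := (memPb _).2 ⟨yt, (memP y).2 ⟨hgQ, htyc.symm⟩, rfl⟩
  have hnc : ∃ a ∈ Pb, ∃ b ∈ Pb, a * b ≠ b * a := by
    refine ⟨((⟨u, hPH huP⟩ : ↥(Subgroup.centralizer ({t} : Set G))) : Γ), (memPb _).2 ⟨⟨u, hPH huP⟩, huP, rfl⟩, (yt : Γ), hyP, ?_⟩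
    intro hh
    rcases (comm_iff' htt ⟨u, hPH huP⟩ yt).1 hh with h | h
    · have h' : u * y = y * u := h
      have h2 : u * y * u⁻¹ = y := by rw [h']; group
      rw [huy] at h2
      exact hL.ne_one (mul_eq_right.1 h2)
    · have h' : u * y * u⁻¹ = y * t := h
      rw [huy, ← htyc] at h'
      exact htzne (mul_right_cancel h').symm
  have hoddbar : ∀ K : Subgroup Γ, Odd (Nat.card ↥K) → Pb ≤ Subgroup.normalizer (K : Set Γ) → K = ⊥ := by
    intro K hK hKn
    let T₁ := (Q' ⊓ Subgroup.centralizer ({t} : Set G)).subgroupOf (Subgroup.centralizer ({t} : Set G))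
    let T : Subgroup Γ := T₁.map (QuotientGroup.mk' ((Subgroup.zpowers t).subgroupOf (Subgroup.centralizer ({t} : Set G))))
    have hT₁ : IsPGroup 2 ↥T₁ := by
      intro x
      have hx1 : ((x : ↥(Subgroup.centralizer ({t} : Set G))) : G) ∈ Q' := (Subgroup.mem_subgroupOf.1 x.2).1
      obtain ⟨n, hn'⟩ := hL'.isPGroup ⟨_, hx1⟩
      refine ⟨n, ?_⟩
      have h0 : ((x : ↥(Subgroup.centralizer ({t} : Set G))) : G) ^ 2 ^ n = 1 := congrArg Subtype.val hn'
      apply Subtype.ext
      apply Subtype.ext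
      simpa using h0
    have hTP : IsPGroup 2 ↥T := hT₁.map _
    have hzT : (zt : Γ) ∈ T := ⟨zt, Subgroup.mem_subgroupOf.2 ⟨hzQ', hzH⟩, rfl⟩
    refine no_odd hLbar hyP ?_ ?_ ?_ hTP hzT ?_ hK hKn
    · have : (yt * yt : ↥(Subgroup.centralizer ({t} : Set G))) = 1 := Subtype.ext hL'.sq
      rw [← QuotientGroup.mk_mul, this]
      rfl
    · intro h
      rcases (eq_one_iff' htt yt).1 h with h1 | h1
      · exact hL'.ne_one h1
      · exact hty h1.symm
    · intro h
      rcases (eq_iff' htt yt zt).1 h with h1 | h1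
      · exact hne h1.symm
      · apply hnoz g
        rw [← hy]
        show y = z * t
        have h2 : z = y * t := h1
        rw [h2, mul_assoc, htt, mul_one]
    · intro c hc a ha
      obtain ⟨x, rfl⟩ := QuotientGroup.mk_surjective c
      obtain ⟨p, hp, rfl⟩ := ha
      have hxy := hBy x hc
      have hp1 : (p : G) ∈ Q' := (Subgroup.mem_subgroupOf.1 hp).1
      have h1 : (x : G) * p * (x : G)⁻¹ ∈ Q' := hL'.norm x hxy p hp1
      refine ⟨x * p * x⁻¹, Subgroup.mem_subgroupOf.2 ⟨by simpa using h1, (x * p * x⁻¹).2⟩, rfl⟩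
  refine ⟨large_of_lx hLbar hnc hoddbar, ?_⟩
  -- The final element
  have hY'mem := mem_closure_pair htt hL'.sq htyc
  have hY'Q : Subgroup.closure ({t, y} : Set G) ≤ Q' := by
    rw [Subgroup.closure_le]
    rintro _ (rfl | rfl)
    · exact htQ2
    · exact hL'.mem
  have hyY' : y ∈ Subgroup.closure ({t, y} : Set G) := Subgroup.subset_closure (by simp)
  have htY' : t ∈ Subgroup.closure ({t, y} : Set G) := Subgroup.subset_closure (by simp)
  have hzY' : z ∉ Subgroup.closure ({t, y} : Set G) := by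
    rw [hY'mem]
    rintro (h | h | h | h)
    · exact hL.ne_one h
    · exact htzne h.symm
    · exact hne h.symm
    · apply hconj (u * g)
      have e1 : (u * g) * z * (u * g)⁻¹ = u * y * u⁻¹ := by rw [hy]; group
      rw [e1, huy, h, mul_assoc, hL'.sq, mul_one]
  obtain ⟨t₀, ht₀, ht₀1, ht₀z⟩ := hL'.toSettingAt.exists_centralizing _ hY'Q hyY' hzQ' hzY'
  have hrho := PS.rho_z hPS huQ huy ht₀ ht₀z
  refine ⟨(u * t₀)⁻¹, inv_mem (mul_mem ((le_sup_left : P ≤ _) huP) ((le_sup_right : Q' ⊓ Subgroup.centralizer ({t} : Set G) ≤ P ⊔ (Q' ⊓ Subgroup.centralizer ({t} : Set G))) (Subgroup.mem_inf.2 ⟨ht₀, mem_HH.2 (ht₀1 t htY')⟩))), ?_⟩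
  calc (u * t₀)⁻¹ * y * (u * t₀)⁻¹⁻¹ = (u * t₀)⁻¹ * ((u * t₀) * z * (u * t₀)⁻¹) * (u * t₀) := by
        rw [hrho, inv_inv]
    _ = z := by group

end Cfsg.Agent.S5429
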