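-- Statement S5433 (row 5433).
import Cfsg.Statements.S5433

set_option autoImplicit false
open Cfsg

namespace Cfsg.Agent.S5433

private lemma eq_of_card_two {G : Type*} [Group G] (H : Subgroup G) (hcard : Nat.card H = 2)
    {a b : G} (ha : a ∈ H) (hb : b ∈ H) (ha1 : a ≠ 1) (hb1 : b ≠ 1) : a = b := by
  obtain ⟨y, -, hy⟩ := (Nat.card_eq_two_iff' (1 : H)).mp hcard
  have h1 : (⟨a, ha⟩ : H) = y := hy ⟨a, ha⟩ (by
    intro h; exact ha1 (congrArg Subtype.val h))
  have h2 : (⟨b, hb⟩ : H) = y := hy ⟨b, hb⟩ (by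
    intro h; exact hb1 (congrArg Subtype.val h))
  exact congrArg Subtype.val (h1.trans h2.symm)

theorem result {G : Type*} [Group G] [Finite G] (Q : Subgroup G) (hQ : Cfsg.IsLargeExtraspecial Q) (L : Subgroup G) [L.Normal] (hQL : Q ≤ L) : L ⊔ Subgroup.normalizer (Q : Set G) = ⊤ := by
  classical
  obtain ⟨hex, hcent, hnorm, -⟩ := hQ
  have : Fact (Nat.Prime 2) := ⟨Nat.prime_two⟩
  have hQ2 : IsPGroup 2 Q := hex.1.1
  -- the centre of Q, as a subgroup of G
  set Zq : Subgroup G := (Subgroup.center Q).map Q.subtype with hZq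
  have hZcard : Nat.card Zq = 2 := by
    have : Nat.card Zq = Nat.card (Subgroup.center Q) :=
      Nat.card_congr (Subgroup.equivMapOfInjective _ _ Q.subtype_injective).symm.toEquiv
    rw [this]; exact hex.2
  have hQsub : IsPGroup 2 (Q.subgroupOf L) :=
    hQ2.of_injective (Subgroup.subgroupOfEquivOfLe hQL).toMonoidHom
      (Subgroup.subgroupOfEquivOfLe hQL).injective
  obtain ⟨T, hT⟩ := hQsub.exists_le_sylow
  set P : Subgroup G := (T : Subgroup L).map L.subtype with hP
  have hQP : Q ≤ P := by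
    intro x hx
    exact ⟨⟨x, hQL hx⟩, hT hx, rfl⟩
  have hP2 : IsPGroup 2 P := (T.isPGroup').map L.subtype
  -- any element of Z(P) lies in Zq
  have hZP : ∀ c ∈ P, (∀ x ∈ P, x * c = c * x) → c ∈ Zq := by
    intro c hcP hc
    rw [← hcent, Subgroup.mem_centralizer_iff]
    intro x hx
    exact hc x (hQP hx)
  -- Nontriviality of P
  have hne : Zq ≠ ⊥ := by
    intro h
    rw [h] at hZcard
    simp at hZcard
  have hZqP : Zq ≤ P := by
    rintro _ ⟨x, -, rfl⟩
    exact hQP x.2
  have hnontriv : Nontrivial P := by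
    obtain ⟨c, hc⟩ := (Subgroup.ne_bot_iff_exists_ne_one (H := Zq)).mp hne
    refine ⟨⟨⟨(c : G), hZqP c.2⟩, 1, fun h => hc (Subtype.ext ?_)⟩⟩
    have := congrArg Subtype.val h
    exact this
  -- a nontrivial central element of P
  have hcn : Nontrivial (Subgroup.center P) := hP2.center_nontrivial
  obtain ⟨c, hc1⟩ := exists_ne (1 : Subgroup.center P)
  have hcP : ((c : P) : G) ∈ P := (c : P).2
  have hc_comm : ∀ x ∈ P, x * ((c : P) : G) = ((c : P) : G) * x := by
    intro x hx
    have := (Subgroup.mem_center_iff.mp c.2 ⟨x, hx⟩)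
    exact congrArg Subtype.val this
  have hc1' : ((c : P) : G) ≠ 1 := by
    intro h
    apply hc1
    apply Subtype.ext
    apply Subtype.ext
    exact h
  have hcZ : ((c : P) : G) ∈ Zq := hZP _ hcP hc_comm
  -- the normalizer of P lies in the normalizer of Q
  have hNN : Subgroup.normalizer ((P : Subgroup G) : Set G) ≤ Subgroup.normalizer (Q : Set G) := by
    intro n hn
    have hn' : ∀ x, x ∈ P ↔ n * x * n⁻¹ ∈ P := fun x => Subgroup.mem_normalizer_iff.mp hn x
    apply hnorm
    rw [Subgroup.mem_centralizer_iff]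
    intro w hw
    -- w ∈ Zq
    by_cases hw1 : w = 1
    · simp [hw1]
    have hwc : w = (c : P) := eq_of_card_two Zq hZcard hw hcZ hw1 hc1'
    subst hwc
    -- the conjugate of c by n is central in P as well
    set c' : G := n * ((c : P) : G) * n⁻¹ with hc'
    have hc'P : c' ∈ P := (hn' _).mp hcP
    have hc'comm : ∀ x ∈ P, x * c' = c' * x := by
      intro x hx
      have hx' : n⁻¹ * x * n ∈ P := by
        rw [hn']
        have : n * (n⁻¹ * x * n) * n⁻¹ = x := by group
        rw [this]; exact hx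
      have h := hc_comm _ hx'
      calc x * c' = n * ((n⁻¹ * x * n) * ((c : P) : G)) * n⁻¹ := by rw [hc']; group
        _ = n * (((c : P) : G) * (n⁻¹ * x * n)) * n⁻¹ := by rw [h]
        _ = c' * x := by rw [hc']; group
    have hc'Z : c' ∈ Zq := hZP _ hc'P hc'comm
    have hc'1 : c' ≠ 1 := by
      intro h
      apply hc1'
      have : n⁻¹ * c' * n = ((c : P) : G) := by rw [hc']; group
      rw [← this, h]; group
    have : c' = ((c : P) : G) := eq_of_card_two Zq hZcard hc'Z hcZ hc'1 hc1'
    symm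
    calc n * ((c : P) : G) = c' * n := by rw [hc']; group
      _ = ((c : P) : G) * n := by rw [this]
  have hF := Sylow.normalizer_sup_eq_top T
  rw [eq_top_iff, ← hF]
  rw [sup_comm]
  apply sup_le_sup le_rfl
  exact hNN

end Cfsg.Agent.S5433
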