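import Cfsg.Statements.S5434
import Cfsg.Agent.Lib.Coprime.Action
import Cfsg.Agent.Lib.PGroups.Special

set_option autoImplicit false
open Cfsg

namespace Cfsg.Agent.S5434

open Subgroup Cfsg.Agent.Lib.PGroups.Special Cfsg.Agent.Lib.Coprime.Action
open scoped commutatorElement

variable {G : Type*} [Group G]

private theorem mem_Z {Q : Subgroup G} {z : G} :
    z ∈ (center ↥Q).map Q.subtype ↔ z ∈ Q ∧ ∀ y ∈ Q, y * z = z * y := by
  constructor
  · rintro ⟨x, hx, rfl⟩
    refine ⟨x.2, fun y hy => ?_⟩
    have := (mem_center_iff.mp hx) ⟨y, hy⟩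
    exact congrArg Subtype.val this
  · rintro ⟨h1, h2⟩
    refine ⟨⟨z, h1⟩, ?_, rfl⟩
    rw [SetLike.mem_coe, mem_center_iff]
    intro y
    exact Subtype.ext (h2 y y.2)

private theorem comm_mem_Z [Finite G] {Q : Subgroup G} (hE : Cfsg.IsExtraspecial 2 ↥Q) {x y : G}
    (hx : x ∈ Q) (hy : y ∈ Q) : ⁅x, y⁆ ∈ (center ↥Q).map Q.subtype :=
  ⟨⁅(⟨x, hx⟩ : ↥Q), ⟨y, hy⟩⁆, IsSpecial.comm_mem hE.1 _ _, rfl⟩

private theorem pow_mem_Z [Finite G] {Q : Subgroup G} (hE : Cfsg.IsExtraspecial 2 ↥Q) {x : G}
    (hx : x ∈ Q) : x ^ 2 ∈ (center ↥Q).map Q.subtype :=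
  ⟨(⟨x, hx⟩ : ↥Q) ^ 2, IsSpecial.pow_mem hE.1 _, rfl⟩

private theorem card_Z {Q : Subgroup G} (hE : Cfsg.IsExtraspecial 2 ↥Q) :
    Nat.card ((center ↥Q).map Q.subtype) = 2 := by
  have h : Nat.card ((center ↥Q).map Q.subtype) = Nat.card (center ↥Q) :=
    Nat.card_congr (Subgroup.equivMapOfInjective _ _ Q.subtype_injective).symm.toEquiv
  rw [h]
  exact hE.2

/-- A subgroup of an extraspecial group whose centre lies in the centre of the big group, and which
is not abelian, is extraspecial. -/
private theorem extra_of_sub [Finite G] {Q Y : Subgroup G} (hE : Cfsg.IsExtraspecial 2 ↥Q) (hYQ : Y ≤ Q)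
    (hZ : ∀ y ∈ Y, (∀ u ∈ Y, u * y = y * u) → y ∈ (center ↥Q).map Q.subtype)
    (hnc : ¬ IsMulCommutative ↥Y) : Cfsg.IsExtraspecial 2 ↥Y := by
  have hpQ : IsPGroup 2 (Q : Subgroup G) := hE.1.1
  have hpY : IsPGroup 2 ↥Y := hpQ.to_le hYQ
  have hnt : Nontrivial ↥Y := by
    by_contra hc
    rw [not_nontrivial_iff_subsingleton] at hc
    apply hnc
    exact ⟨⟨fun a b => Subsingleton.elim _ _⟩⟩
  have hcenter : Nat.card (center ↥Y) = 2 := by
    have h1 : Nontrivial (center ↥Y) := hpY.center_nontrivial
    have h2 : 1 < Nat.card (center ↥Y) := Finite.one_lt_card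
    have h3 : Nat.card (center ↥Y) ≤ Nat.card ((center ↥Q).map Q.subtype) := by
      apply Nat.card_le_card_of_injective (fun y : center ↥Y => (⟨(y : ↥Y), hZ _ (y : ↥Y).2 (fun u hu => by
        have := (mem_center_iff.mp y.2) ⟨u, hu⟩
        exact congrArg Subtype.val this)⟩ : ((center ↥Q).map Q.subtype : Subgroup G)))
      intro a b hab
      apply Subtype.ext
      apply Subtype.ext
      exact congrArg (fun t : ((center ↥Q).map Q.subtype : Subgroup G) => (t : G)) hab
    rw [card_Z hE] at h3
    omega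
  have hcentral : ∀ x : ↥Y, (x : G) ∈ (center ↥Q).map Q.subtype → x ∈ center ↥Y := by
    intro x hx
    rw [mem_center_iff]
    intro u
    apply Subtype.ext
    exact (mem_Z.mp hx).2 _ (hYQ u.2)
  refine ExtraLike.isExtraspecial (p := 2) ⟨hpY, hcenter, fun x y => hcentral _ ?_, fun x => hcentral _ ?_⟩ hnc
  · exact comm_mem_Z hE (hYQ x.2) (hYQ y.2)
  · exact pow_mem_Z hE (hYQ x.2)

private theorem conj_fix [Finite G] {Q : Subgroup G} (hE : Cfsg.IsExtraspecial 2 ↥Q) {a z : G}
    (ha : a ∈ normalizer (Q : Set G)) (hz : z ∈ (center ↥Q).map Q.subtype) : a * z * a⁻¹ = z := by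
  classical
  by_cases hz1 : z = 1
  · subst hz1; simp
  have hnorm : ∀ q, q ∈ Q ↔ a * q * a⁻¹ ∈ Q := fun q => Subgroup.mem_normalizer_iff.mp ha q
  have hz' := mem_Z.mp hz
  have hmem : a * z * a⁻¹ ∈ (center ↥Q).map Q.subtype := by
    rw [mem_Z]
    refine ⟨(hnorm z).mp hz'.1, fun y hy => ?_⟩
    have hy' : a⁻¹ * y * a ∈ Q := by
      have := (hnorm (a⁻¹ * y * a)).mpr (by simpa [mul_assoc] using hy)
      exact this
    have h1 := hz'.2 _ hy'
    calc y * (a * z * a⁻¹) = a * ((a⁻¹ * y * a) * z) * a⁻¹ := by group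
      _ = a * (z * (a⁻¹ * y * a)) * a⁻¹ := by rw [h1]
      _ = a * z * a⁻¹ * y := by group
  have hne : a * z * a⁻¹ ≠ 1 := by
    intro h
    apply hz1
    have : a * z = a := by
      have h2 := congrArg (· * a) h
      simpa using h2
    simpa using this
  -- a group of order two has one nontrivial element
  have hcard := card_Z hE
  have h2 : ∀ u v : ((center ↥Q).map Q.subtype : Subgroup G), u ≠ 1 → v ≠ 1 → u = v := by
    intro u v hu hv
    by_contra huv
    have h3 : ({1, u, v} : Finset ((center ↥Q).map Q.subtype : Subgroup G)).card = 3 := by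
      rw [Finset.card_insert_of_notMem, Finset.card_pair huv]
      simp only [Finset.mem_insert, Finset.mem_singleton, not_or]
      exact ⟨Ne.symm hu, Ne.symm hv⟩
    have hfin : Fintype ((center ↥Q).map Q.subtype : Subgroup G) := Fintype.ofFinite _
    have h4 := Finset.card_le_univ ({1, u, v} : Finset ((center ↥Q).map Q.subtype : Subgroup G))
    rw [h3, ← Nat.card_eq_fintype_card, hcard] at h4
    omega
  have := h2 ⟨_, hmem⟩ ⟨z, hz⟩ (fun h => hne (congrArg Subtype.val h)) (fun h => hz1 (congrArg Subtype.val h))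
  exact congrArg Subtype.val this


/-- Let Q be a large extraspecial 2-subgroup of the finite group G (extraspecial; centralizer equal to its centre; normal in the centralizer of its centre; normalizing no non-trivial subgroup of odd order), and A a non-trivial subgroup of odd order of the normalizer of Q. Then Q is the central product of the centralizer of A in Q and the commutator subgroup [Q, A] (they generate Q and commute elementwise), [Q, A] is extraspecial, and the centralizer of A in Q is either the centre of Q or extraspecial. -/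
theorem result {G : Type*} [Group G] [Finite G] (Q : Subgroup G) (hQ : Cfsg.IsLargeExtraspecial Q) (A : Subgroup G) (hA : A ≤ Subgroup.normalizer (Q : Set G)) (hAodd : Odd (Nat.card ↥A)) (hA1 : A ≠ ⊥) : (Q ⊓ Subgroup.centralizer (A : Set G)) ⊔ ⁅Q, A⁆ = Q ∧ (∀ x ∈ Q ⊓ Subgroup.centralizer (A : Set G), ∀ y ∈ ⁅Q, A⁆, x * y = y * x) ∧ Cfsg.IsExtraspecial 2 ↥⁅Q, A⁆ ∧ (Q ⊓ Subgroup.centralizer (A : Set G) = ((Subgroup.center ↥Q).map Q.subtype) ∨ Cfsg.IsExtraspecial 2 ↥(Q ⊓ Subgroup.centralizer (A : Set G))) := by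
  obtain ⟨hE, hC, -, -⟩ := hQ
  have hpQ : IsPGroup 2 ↥Q := hE.1.1
  have hfinQ : Finite ↥Q := inferInstance
  have hcop : (Nat.card ↥A).Coprime (Nat.card ↥Q) := by
    obtain ⟨n, hn⟩ := IsPGroup.iff_card.mp hpQ
    rw [hn]
    exact Nat.Coprime.pow_right n (Nat.coprime_two_right.mpr hAodd)
  have hsolv : Group.IsSolvable ↥A ∨ Group.IsSolvable ↥Q := by
    right
    have : Group.IsNilpotent ↥Q := hpQ.isNilpotent
    infer_instance
  have hLQ : ⁅Q, A⁆ ≤ Q := commutator_le_of_le_normalizer hA
  have hsup : ⁅Q, A⁆ ⊔ (Q ⊓ centralizer (A : Set G)) = Q := commutator_sup_fixed hA hcop hsolv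
  -- commuting
  have hcomm : ∀ x ∈ Q ⊓ centralizer (A : Set G), ∀ y ∈ ⁅Q, A⁆, x * y = y * x := by
    intro x hx
    have hxQ := (mem_inf.mp hx).1
    have hxA := (mem_inf.mp hx).2
    have hle : ⁅Q, A⁆ ≤ centralizer ({x} : Set G) := by
      rw [Subgroup.commutator_le]
      intro q hq a ha
      rw [mem_centralizer_singleton_iff]
      set b := a * q * a⁻¹ with hb
      have hbQ : b ∈ Q := (Subgroup.mem_normalizer_iff.mp (hA ha) q).mp hq
      set c := ⁅x, q⁆ with hc
      have hcZ : c ∈ (center ↥Q).map Q.subtype := comm_mem_Z hE hxQ hq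
      have hcfix := conj_fix hE (hA ha) hcZ
      have hax : a * x * a⁻¹ = x := by
        have := (Subgroup.mem_centralizer_iff.mp hxA) a ha
        rw [this]; group
      have h2 : ⁅x, b⁆ = c := by
        have e0 : ⁅x, b⁆ = a * ⁅x, q⁆ * a⁻¹ := by
          calc ⁅x, b⁆ = ⁅a * x * a⁻¹, a * q * a⁻¹⁆ := by rw [hax]
            _ = a * ⁅x, q⁆ * a⁻¹ := by simp only [commutatorElement_def]; group
        rw [e0]
        exact hcfix
      have e1 : x * q * x⁻¹ = c * q := by rw [hc, commutatorElement_def]; group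
      have e2 : x * b * x⁻¹ = c * b := by rw [← h2, commutatorElement_def]; group
      have hcq := (mem_Z.mp hcZ).2 (q * b⁻¹) (Q.mul_mem hq (Q.inv_mem hbQ))
      have hcomm' : ⁅q, a⁆ = q * b⁻¹ := by
        rw [commutatorElement_def, hb]; group
      rw [hcomm']
      have e3 : x * (q * b⁻¹) * x⁻¹ = q * b⁻¹ := by
        calc x * (q * b⁻¹) * x⁻¹ = (x * q * x⁻¹) * (x * b * x⁻¹)⁻¹ := by group
          _ = c * q * (c * b)⁻¹ := by rw [e1, e2]
          _ = c * (q * b⁻¹) * c⁻¹ := by group
          _ = (q * b⁻¹) * c * c⁻¹ := by rw [← hcq]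
          _ = q * b⁻¹ := by group
      calc q * b⁻¹ * x = (x * (q * b⁻¹) * x⁻¹) * x := by rw [e3]
        _ = x * (q * b⁻¹) := by group
    intro y hy
    have := hle hy
    rw [mem_centralizer_singleton_iff] at this
    exact this.symm
  -- an element of `Q` commuting with the two factors is in the centre
  have hcentre : ∀ y ∈ Q, (∀ u ∈ ⁅Q, A⁆, u * y = y * u) →
      (∀ u ∈ Q ⊓ centralizer (A : Set G), u * y = y * u) → y ∈ (center ↥Q).map Q.subtype := by
    intro y hy h1 h2
    rw [mem_Z]
    refine ⟨hy, ?_⟩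
    have hle : Q ≤ centralizer ({y} : Set G) := by
      rw [← hsup]
      refine sup_le ?_ ?_
      · intro u hu
        rw [mem_centralizer_singleton_iff]
        exact h1 u hu
      · intro u hu
        rw [mem_centralizer_singleton_iff]
        exact h2 u hu
    intro u hu
    have := hle hu
    rw [mem_centralizer_singleton_iff] at this
    exact this
  have hZC : (center ↥Q).map Q.subtype ≤ Q ⊓ centralizer (A : Set G) := by
    intro z hz
    refine mem_inf.mpr ⟨(mem_Z.mp hz).1, ?_⟩
    rw [Subgroup.mem_centralizer_iff]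
    intro a ha
    have := conj_fix hE (hA ha) hz
    calc a * z = (a * z * a⁻¹) * a := by group
      _ = z * a := by rw [this]
  refine ⟨by rw [sup_comm]; exact hsup, hcomm, ?_, ?_⟩
  · -- `[Q, A]` is extraspecial
    apply extra_of_sub hE hLQ
    · intro y hy hu
      apply hcentre y (hLQ hy) hu
      intro u hu'
      exact hcomm u hu' y hy
    · intro hab
      -- else `[Q, A]` lies in the centre, so `A` acts trivially on it, so it is trivial
      have hbotL : ⁅Q, A⁆ ≤ (center ↥Q).map Q.subtype := by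
        intro y hy
        apply hcentre y (hLQ hy)
        · intro u hu
          exact congrArg Subtype.val (hab.is_comm.comm (⟨u, hu⟩ : ↥⁅Q, A⁆) ⟨y, hy⟩)
        · intro u hu'
          exact hcomm u hu' y hy
      have hLL := commutator_commutator_eq hA hcop hsolv
      have htriv : ⁅⁅Q, A⁆, A⁆ = ⊥ := by
        rw [eq_bot_iff, Subgroup.commutator_le]
        intro y hy a ha
        have := conj_fix hE (hA ha) (hbotL hy)
        rw [Subgroup.mem_bot, commutatorElement_def]
        have h2 : a * y * a⁻¹ * y⁻¹ = 1 := by rw [this]; group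
        have h3 : a * y * a⁻¹ = y := this
        calc y * a * y⁻¹ * a⁻¹ = y * (a * y⁻¹ * a⁻¹) := by group
          _ = y * (a * y * a⁻¹)⁻¹ := by group
          _ = 1 := by rw [h3]; group
      rw [hLL] at htriv
      -- then `A` centralizes `Q`, so it lies in the centre
      apply hA1
      rw [eq_bot_iff]
      intro a ha
      have hacen : a ∈ centralizer (Q : Set G) := by
        rw [Subgroup.mem_centralizer_iff]
        intro q hq
        have : ⁅q, a⁆ = 1 := by
          have := Subgroup.commutator_mem_commutator hq ha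
          rw [htriv] at this
          exact this
        rw [commutatorElement_eq_one_iff_mul_comm] at this
        exact this
      rw [hC] at hacen
      have h2 := pow_mem_Z hE (mem_Z.mp hacen).1
      -- order of `a`
      have ha2 : a ^ 2 = 1 := by
        have hcard := card_Z hE
        have h3 : (⟨a, hacen⟩ : ((center ↥Q).map Q.subtype : Subgroup G)) ^ 2 = 1 := by
          have := pow_card_eq_one' (G := ((center ↥Q).map Q.subtype : Subgroup G))
            (x := ⟨a, hacen⟩)
          rwa [hcard] at this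
        exact congrArg Subtype.val h3
      have hodd : Odd (orderOf a) := by
        have h3 : orderOf (⟨a, ha⟩ : ↥A) ∣ Nat.card ↥A := orderOf_dvd_natCard _
        rw [Subgroup.orderOf_mk] at h3
        exact Odd.of_dvd_nat hAodd h3
      have h3 : orderOf a ∣ 2 := orderOf_dvd_of_pow_eq_one ha2
      have h4 : orderOf a = 1 := by
        rcases (Nat.dvd_prime Nat.prime_two).mp h3 with h | h
        · exact h
        · rw [h] at hodd
          exact absurd hodd (by decide)
      rw [Subgroup.mem_bot]
      exact orderOf_eq_one_iff.mp h4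
  · -- the centralizer
    by_cases hCZ : Q ⊓ centralizer (A : Set G) = (center ↥Q).map Q.subtype
    · exact Or.inl hCZ
    · right
      apply extra_of_sub hE inf_le_left
      · intro y hy hu
        apply hcentre y (mem_inf.mp hy).1 _ hu
        intro u hu'
        exact (hcomm y hy u hu').symm
      · intro hab
        apply hCZ
        apply le_antisymm _ hZC
        intro y hy
        apply hcentre y (mem_inf.mp hy).1
        · intro u hu'
          exact (hcomm y hy u hu').symm
        · intro u hu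
          exact congrArg Subtype.val (hab.is_comm.comm (⟨u, hu⟩ : ↥(Q ⊓ centralizer (A : Set G))) ⟨y, hy⟩)

end Cfsg.Agent.S5434
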