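import Cfsg.Statements.S5436
import Cfsg.Agent.Lib.Components.GenFitting

set_option autoImplicit false
open Cfsg

namespace Cfsg.Agent.S5436

open Subgroup
open scoped commutatorElement

variable {G : Type*} [Group G]

/-- A fixed-point-free involutory automorphism of a normal subgroup inverts it. -/
private theorem inverts_of_fpf [Finite G] {M : Subgroup G} [hM : M.Normal] {t : G} (ht : t * t = 1)
    (hfix : ∀ m ∈ M, t * m * t⁻¹ = m → m = 1) : ∀ m ∈ M, t * m * t⁻¹ = m⁻¹ := by
  have htinv : t⁻¹ = t := inv_eq_of_mul_eq_one_left ht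
  let f : ↥M → ↥M := fun a => ⟨a⁻¹ * (t * a * t⁻¹), M.mul_mem (M.inv_mem a.2) (hM.conj_mem _ a.2 t)⟩
  have hinj : Function.Injective f := by
    intro a b hab
    have h1 : (a : G)⁻¹ * (t * a * t⁻¹) = (b : G)⁻¹ * (t * b * t⁻¹) := congrArg Subtype.val hab
    have h2 : t * ((b : G) * (a : G)⁻¹) * t⁻¹ = (b : G) * (a : G)⁻¹ := by
      have h3 : (b : G) * ((a : G)⁻¹ * (t * a * t⁻¹)) * (t * (a : G)⁻¹ * t⁻¹) = (b : G) * (a : G)⁻¹ := by
        group
      have h4 : (b : G) * ((b : G)⁻¹ * (t * b * t⁻¹)) * (t * (a : G)⁻¹ * t⁻¹) = t * ((b : G) * (a : G)⁻¹) * t⁻¹ := by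
        group
      rw [h1] at h3
      rw [← h4, h3]
    have h5 := hfix _ (M.mul_mem b.2 (M.inv_mem a.2)) h2
    apply Subtype.ext
    exact (mul_inv_eq_one.mp h5).symm
  have hsurj : Function.Surjective f := Finite.injective_iff_surjective.mp hinj
  intro m hm
  obtain ⟨a, ha⟩ := hsurj ⟨m, hm⟩
  have h1 : (a : G)⁻¹ * (t * a * t⁻¹) = m := congrArg Subtype.val ha
  rw [← h1, htinv]
  have h2 : t * t = 1 := ht
  calc t * ((a : G)⁻¹ * (t * a * t)) * t = t * (a : G)⁻¹ * t * a * (t * t) := by group
    _ = t * (a : G)⁻¹ * t * a := by rw [h2]; group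
    _ = ((a : G)⁻¹ * (t * a * t))⁻¹ := by
      have : t⁻¹ = t := htinv
      simp only [mul_inv_rev, inv_inv, this]
      group

private theorem mem_zpowers_two {z x : G} (hz : orderOf z = 2) (hx : x ∈ zpowers z) : x = 1 ∨ x = z := by
  obtain ⟨k, rfl⟩ := mem_zpowers_iff.mp hx
  have h2 : z ^ (2 : ℤ) = 1 := by
    have := pow_orderOf_eq_one z
    rw [hz] at this
    exact_mod_cast this
  rcases Int.even_or_odd' k with ⟨n, rfl | rfl⟩
  · left
    rw [zpow_mul, h2, one_zpow]
  · right
    rw [zpow_add, zpow_mul, h2, one_zpow, one_mul, zpow_one]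


private theorem aux (z : G) (hz : orderOf z = 2) [Finite G] (H : Subgroup G) (hH : ∀ x, x ∈ H ↔ x * z = z * x)
    (Q : Subgroup ↥H) [Q.Normal] (hF : Cfsg.generalizedFittingSubgroup ↥H = Q)
    (hQ : Cfsg.IsExtraspecial 2 ↥Q)
    (hnwc : ∃ g : G, (∃ hq : g * z * g⁻¹ ∈ H, (⟨g * z * g⁻¹, hq⟩ : ↥H) ∈ Q) ∧ g * z * g⁻¹ ≠ z)
    (hsimp : IsSimpleGroup (↥H ⧸ Q))
    (hirr : ∀ W : Subgroup ↥H, W.Normal → W ≤ Q → (W = Q ∨ ∀ x ∈ W, (x : G) ∈ Subgroup.zpowers z))
    (hwcl : Subgroup.closure {x : ↥H | IsConj z (x : G)} ≠ Q) : IsSimpleGroup G := by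
  classical
  have hzH : z ∈ H := (hH z).mpr rfl
  let zH : ↥H := ⟨z, hzH⟩
  have hz1 : z ≠ 1 := by
    rintro rfl
    simp at hz
  have hzz : z * z = 1 := by
    have := pow_orderOf_eq_one z
    rw [hz, pow_two] at this
    exact this
  have hzinv : z⁻¹ = z := inv_eq_of_mul_eq_one_left hzz
  have hHcomm : ∀ h : ↥H, (h : G) * z = z * h := by
    intro h
    exact (hH _).mp h.2
  -- `C_H(Q) ≤ Q`
  have hCQ : ∀ h : ↥H, (∀ q ∈ Q, q * h = h * q) → h ∈ Q := by
    intro h hh
    have h1 := Cfsg.Agent.Lib.Components.GenFitting.centralizer_generalizedFitting_le (G := ↥H)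
    rw [hF] at h1
    apply h1
    rw [mem_centralizer_iff]
    intro q hq
    exact hh q hq
  have hzQ : zH ∈ Q := by
    apply hCQ
    intro q _
    apply Subtype.ext
    exact (hHcomm q)
  -- the centre of `Q`
  have hcenter : ∀ u ∈ Q, (∀ q ∈ Q, q * u = u * q) → u = 1 ∨ u = zH := by
    intro u hu hq
    have hc := hQ.2
    have hzc : (⟨⟨zH, hzQ⟩, by
        rw [mem_center_iff]
        intro q
        apply Subtype.ext
        apply Subtype.ext
        exact hHcomm q.1⟩ : center ↥Q) ≠ 1 := by
      intro h
      apply hz1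
      have := congrArg (fun t : center ↥Q => ((t : ↥Q) : ↥H)) h
      exact congrArg Subtype.val this
    by_cases hu1 : u = 1
    · exact Or.inl hu1
    right
    have huc : (⟨⟨u, hu⟩, by
        rw [mem_center_iff]
        intro q
        apply Subtype.ext
        exact hq q.1 q.2⟩ : center ↥Q) ≠ 1 := by
      intro h
      apply hu1
      have := congrArg (fun t : center ↥Q => ((t : ↥Q) : ↥H)) h
      exact this
    obtain ⟨y, -, hy⟩ := (Nat.card_eq_two_iff' (1 : center ↥Q)).mp hc
    have := (hy _ huc).trans (hy _ hzc).symm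
    have h2 := congrArg (fun t : center ↥Q => ((t : ↥Q) : ↥H)) this
    exact h2
  have hnormal : ∀ (N : Subgroup G) [N.Normal], ((N.comap H.subtype) ⊓ Q).Normal := by
    intro N _
    exact Subgroup.normal_inf_normal _ _
  obtain ⟨g, ⟨hq, hqQ⟩, hne⟩ := hnwc
  set z' : G := g * z * g⁻¹ with hz'
  have hz'1 : z' ≠ 1 := by
    intro h
    apply hz1
    have : g * z = g := by
      have h2 := congrArg (· * g) h
      simpa [hz'] using h2
    simpa using this
  have hz'notmem : z' ∉ zpowers z := by
    intro h
    rcases mem_zpowers_two hz h with h | h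
    · exact hz'1 h
    · exact hne h
  have hnt : Nontrivial G := ⟨⟨z, 1, hz1⟩⟩
  refine ⟨?_⟩
  · -- simple
    intro M hM
    by_contra hcon
    push Not at hcon
    obtain ⟨hMbot, hMtop⟩ := hcon
    by_cases hzM : z ∈ M
    · -- `z ∈ M`
      have hz'M : z' ∈ M := hM.conj_mem _ hzM g
      have hW := hirr _ (hnormal M) inf_le_right
      have hQM : Q ≤ M.comap H.subtype := by
        rcases hW with hW | hW
        · rw [← hW]; exact inf_le_left
        · exact absurd (hW ⟨z', hq⟩ (mem_inf.mpr ⟨hz'M, hqQ⟩)) hz'notmem
      -- the normal subgroup of `H`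
      have hNn : (M.comap H.subtype).Normal := hM.comap _
      have hquot := hsimp.eq_bot_or_eq_top_of_normal ((M.comap H.subtype).map (QuotientGroup.mk' Q))
        inferInstance
      rcases hquot with hb | ht
      · -- `M ∩ H = Q`
        have hle : M.comap H.subtype ≤ Q := by
          intro x hx
          have : (x : ↥H ⧸ Q) = 1 := by
            have h2 : ((QuotientGroup.mk' Q) x) ∈ (M.comap H.subtype).map (QuotientGroup.mk' Q) :=
              mem_map_of_mem _ hx
            rw [hb] at h2
            exact h2
          exact (QuotientGroup.eq_one_iff x).mp this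
        set S : Set ↥H := {x : ↥H | IsConj z (x : G)} with hS
        have hDle : Subgroup.closure S ≤ Q := by
          rw [closure_le]
          intro x hx
          apply hle
          obtain ⟨c, hc⟩ := isConj_iff.mp hx
          show (x : G) ∈ M
          rw [← hc]
          exact hM.conj_mem _ hzM c
        have hDn : (Subgroup.closure S).Normal := by
          constructor
          intro n hn h
          have hle2 : Subgroup.closure S ≤ (Subgroup.closure S).comap (MulAut.conj h).toMonoidHom := by
            rw [closure_le]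
            intro x hx
            apply Subgroup.subset_closure
            show IsConj z ((h * x * h⁻¹ : ↥H) : G)
            have hx' : IsConj z (x : G) := hx
            refine hx'.trans ?_
            rw [isConj_iff]
            exact ⟨h, rfl⟩
          exact hle2 hn
        rcases hirr _ hDn hDle with h1 | h1
        · exact hwcl h1
        · have : z' ∈ zpowers z := h1 ⟨z', hq⟩ (Subgroup.subset_closure (by
            show IsConj z z'
            rw [isConj_iff]
            exact ⟨g, rfl⟩))
          exact hz'notmem this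
      · -- `H ≤ M`
        have hHM : ∀ h : ↥H, (h : G) ∈ M := by
          intro h
          have h2 : (QuotientGroup.mk' Q) h ∈ (M.comap H.subtype).map (QuotientGroup.mk' Q) := by
            rw [ht]; exact mem_top _
          obtain ⟨y, hy, hyh⟩ := h2
          have h3 : y⁻¹ * h ∈ Q := QuotientGroup.eq.mp hyh
          have h4 : y⁻¹ * h ∈ M.comap H.subtype := hQM h3
          have h5 : h = y * (y⁻¹ * h) := by group
          rw [h5]
          exact (M.comap H.subtype).mul_mem hy h4
        -- Frattini
        let QG : Subgroup G := Q.map H.subtype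
        have hQGM : QG ≤ M := by
          rintro _ ⟨q, -, rfl⟩
          exact hHM q
        have hpQG : IsPGroup 2 ↥QG := by
          have h0 : IsPGroup 2 ↥Q := hQ.1.1
          exact h0.map H.subtype
        have hpQM : IsPGroup 2 ↥(QG.subgroupOf M) := by
          have h0 := IsPGroup.comap_of_injective hpQG M.subtype M.subtype_injective
          exact h0
        obtain ⟨P, hP⟩ := hpQM.exists_le_sylow
        let PG : Subgroup G := (P : Subgroup ↥M).map M.subtype
        have hQP : QG ≤ PG := by
          intro x hx
          refine ⟨⟨x, hQGM hx⟩, hP ?_, rfl⟩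
          exact hx
        have hzP : z ∈ PG := hQP ⟨zH, hzQ, rfl⟩
        -- central elements of `PG`
        have hcen : ∀ u ∈ PG, (∀ y ∈ PG, y * u = u * y) → u = 1 ∨ u = z := by
          intro u hu hc
          have huH : u ∈ H := (hH u).mpr (hc z hzP).symm
          have h1 : (⟨u, huH⟩ : ↥H) ∈ Q := by
            apply hCQ
            intro q hq
            apply Subtype.ext
            exact hc q (hQP ⟨q, hq, rfl⟩)
          rcases hcenter _ h1 (by
            intro q hq
            apply Subtype.ext
            exact hc q (hQP ⟨q, hq, rfl⟩)) with h2 | h2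
          · left
            exact congrArg Subtype.val h2
          · right
            exact congrArg Subtype.val h2
        -- `z` is central in `PG`
        have hpP : IsPGroup 2 ↥(P : Subgroup ↥M) := P.isPGroup'
        have hntP : Nontrivial ↥(P : Subgroup ↥M) := by
          refine ⟨⟨1, ⟨⟨z, hQGM ⟨zH, hzQ, rfl⟩⟩, ?_⟩, ?_⟩⟩
          · exact hP (show (⟨z, hQGM ⟨zH, hzQ, rfl⟩⟩ : ↥M) ∈ QG.subgroupOf M from ⟨zH, hzQ, rfl⟩)
          · intro h
            apply hz1
            have := congrArg (fun t : ↥(P : Subgroup ↥M) => ((t : ↥M) : G)) h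
            exact this.symm
        have hntC := hpP.center_nontrivial
        obtain ⟨c, hc1⟩ := exists_ne (1 : center ↥(P : Subgroup ↥M))
        have hcval : ((c : ↥(P : Subgroup ↥M)) : ↥M).val ∈ PG := ⟨_, (c : ↥(P : Subgroup ↥M)).2, rfl⟩
        have hcc : ∀ y ∈ PG, y * ((c : ↥(P : Subgroup ↥M)) : ↥M).val = ((c : ↥(P : Subgroup ↥M)) : ↥M).val * y := by
          rintro _ ⟨y, hy, rfl⟩
          have := (mem_center_iff.mp c.2) ⟨y, hy⟩
          exact congrArg (fun t : ↥(P : Subgroup ↥M) => ((t : ↥M) : G)) this
        have hcz : ((c : ↥(P : Subgroup ↥M)) : ↥M).val = z := by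
          rcases hcen _ hcval hcc with h | h
          · exfalso
            apply hc1
            apply Subtype.ext
            apply Subtype.ext
            apply Subtype.ext
            exact h
          · exact h
        have hzcen : ∀ y ∈ PG, y * z = z * y := by
          rw [← hcz]
          exact hcc
        have hnorm : Subgroup.normalizer (PG : Set G) ≤ M := by
          intro x hx
          have h1 : x * z * x⁻¹ ∈ PG := (mem_normalizer_iff.mp hx z).mp hzP
          have h2 : ∀ y ∈ PG, y * (x * z * x⁻¹) = (x * z * x⁻¹) * y := by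
            intro y hy
            have hy' : x⁻¹ * y * x ∈ PG := by
              have := (mem_normalizer_iff.mp hx (x⁻¹ * y * x)).mpr (by simpa [mul_assoc] using hy)
              exact this
            have h3 := hzcen _ hy'
            calc y * (x * z * x⁻¹) = x * ((x⁻¹ * y * x) * z) * x⁻¹ := by group
              _ = x * (z * (x⁻¹ * y * x)) * x⁻¹ := by rw [h3]
              _ = (x * z * x⁻¹) * y := by group
          have h3 : x * z * x⁻¹ = z := by
            rcases hcen _ h1 h2 with h | h
            · exfalso
              apply hz1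
              have h4 : x * z = x := by
                have h5 := congrArg (· * x) h
                simpa using h5
              simpa using h4
            · exact h
          have hxH : x ∈ H := by
            rw [hH]
            calc x * z = (x * z * x⁻¹) * x := by group
              _ = z * x := by rw [h3]
          exact hHM ⟨x, hxH⟩
        apply hMtop
        have hfr := Sylow.normalizer_sup_eq_top (P := P)
        rw [eq_top_iff, ← hfr]
        exact sup_le hnorm le_rfl
    · -- `z ∉ M`
      have hW1 : ∀ h : ↥H, (h : G) ∈ M → h ∈ Q → h = 1 := by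
        intro h hhM hhQ
        have h1 : h ∈ (M.comap H.subtype) ⊓ Q := mem_inf.mpr ⟨hhM, hhQ⟩
        rcases hirr _ (hnormal M) inf_le_right with h2 | h2
        · rw [← h2] at hzQ
          exact absurd (mem_inf.mp hzQ).1 hzM
        · rcases mem_zpowers_two hz (h2 h h1) with h3 | h3
          · exact Subtype.ext h3
          · exact absurd (h3 ▸ hhM) hzM
      have hfix : ∀ m ∈ M, z * m * z⁻¹ = m → m = 1 := by
        intro m hm hmz
        have hmH : m ∈ H := by
          rw [hH]
          calc m * z = (z * m * z⁻¹) * z := by rw [hmz]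
            _ = z * m := by group
        have hmQ : (⟨m, hmH⟩ : ↥H) ∈ Q := by
          apply hCQ
          intro q hq
          have hmem : ⁅q, (⟨m, hmH⟩ : ↥H)⁆ ∈ Q := by
            have e : ⁅q, (⟨m, hmH⟩ : ↥H)⁆ = q * ((⟨m, hmH⟩ : ↥H) * q⁻¹ * (⟨m, hmH⟩ : ↥H)⁻¹) := by
              rw [commutatorElement_def]; group
            rw [e]
            exact Q.mul_mem hq (‹Q.Normal›.conj_mem q⁻¹ (Q.inv_mem hq) ⟨m, hmH⟩)
          have hmemM : ((⁅q, (⟨m, hmH⟩ : ↥H)⁆ : ↥H) : G) ∈ M := by
            rw [commutatorElement_def]
            push_cast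
            exact M.mul_mem (hM.conj_mem _ hm _) (M.inv_mem hm)
          have h1 := hW1 _ hmemM hmem
          rw [commutatorElement_eq_one_iff_mul_comm] at h1
          exact h1
        have := hW1 _ hm hmQ
        exact congrArg Subtype.val this
      have hinvz := inverts_of_fpf hzz hfix
      have hzz' : z' * z' = 1 := by
        rw [hz']
        calc g * z * g⁻¹ * (g * z * g⁻¹) = g * (z * z) * g⁻¹ := by group
          _ = 1 := by rw [hzz]; group
      have hfix' : ∀ m ∈ M, z' * m * z'⁻¹ = m → m = 1 := by
        intro m hm hmz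
        have hm' : g⁻¹ * m * g ∈ M := by
          have := hM.conj_mem m hm g⁻¹
          simpa using this
        have h1 : z * (g⁻¹ * m * g) * z⁻¹ = g⁻¹ * m * g := by
          have : g⁻¹ * (z' * m * z'⁻¹) * g = g⁻¹ * m * g := by rw [hmz]
          rw [hz'] at this
          calc z * (g⁻¹ * m * g) * z⁻¹ = g⁻¹ * (g * z * g⁻¹ * m * (g * z * g⁻¹)⁻¹) * g := by group
            _ = g⁻¹ * m * g := this
        have h2 := hfix _ hm' h1
        have h3 : m = g * (g⁻¹ * m * g) * g⁻¹ := by group
        rw [h3, h2]
        group
      have hinvz' := inverts_of_fpf hzz' hfix'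
      -- the product centralizes `M`
      have hW2n : ((centralizer (M : Set G)).comap H.subtype ⊓ Q).Normal := hnormal _
      rcases hirr _ hW2n inf_le_right with h2 | h2
      · -- `z` centralizes `M`
        rw [← h2] at hzQ
        have h3 : z ∈ centralizer (M : Set G) := (mem_inf.mp hzQ).1
        apply hMbot
        rw [eq_bot_iff]
        intro m hm
        rw [mem_bot]
        apply hfix m hm
        have := (mem_centralizer_iff.mp h3) m hm
        rw [← this]
        group
      · have hzz'mem : (zH * ⟨z', hq⟩ : ↥H) ∈ (centralizer (M : Set G)).comap H.subtype ⊓ Q := by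
          refine mem_inf.mpr ⟨?_, Q.mul_mem hzQ hqQ⟩
          show z * z' ∈ centralizer (M : Set G)
          rw [mem_centralizer_iff]
          intro m hm
          have h3 := hinvz' m hm
          have h4 := hinvz _ (M.inv_mem hm)
          have h5 : z' * m = m⁻¹ * z' := by
            calc z' * m = (z' * m * z'⁻¹) * z' := by group
              _ = m⁻¹ * z' := by rw [h3]
          have h6 : z * m⁻¹ = m * z := by
            calc z * m⁻¹ = (z * m⁻¹ * z⁻¹) * z := by group
              _ = m * z := by rw [h4, inv_inv]
          calc m * (z * z') = (m * z) * z' := by group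
            _ = (z * m⁻¹) * z' := by rw [h6]
            _ = z * (m⁻¹ * z') := by group
            _ = z * (z' * m) := by rw [h5]
            _ = z * z' * m := by group
        rcases mem_zpowers_two hz (h2 _ hzz'mem) with h3 | h3
        · have h4 : z * z' = 1 := h3
          apply hne
          have h5 : z' = z⁻¹ := eq_inv_of_mul_eq_one_right h4
          rw [h5, hzinv]
        · have h4 : z * z' = z := h3
          exact hz'1 (by simpa using h4)


/-- Let z be an involution of the finite group G with centralizer H whose generalized Fitting subgroup Q is extraspecial of width at least 2 (order 2^(2w+1), w ≥ 2); suppose some conjugate of z other than z lies in Q, H/Q is a non-abelian simple group, H acts irreducibly by conjugation on Q modulo the subgroup generated by z (the only H-invariant subgroups of Q containing z are that subgroup and Q), and Q is not the subgroup generated by the conjugates of z lying in H. Then G is simple. -/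
theorem result {G : Type*} [Group G] [Finite G] (z : G) (hz : orderOf z = 2) (Q : Subgroup (Subgroup.centralizer ({z} : Set G))) [Q.Normal] (hF : Cfsg.generalizedFittingSubgroup ↥(Subgroup.centralizer ({z} : Set G)) = Q) (hQ : Cfsg.IsExtraspecial 2 ↥Q) (w : ℕ) (hw : 2 ≤ w) (hcard : Nat.card ↥Q = 2 ^ (2 * w + 1)) (hnwc : ∃ g : G, (∃ hq : g * z * g⁻¹ ∈ Subgroup.centralizer ({z} : Set G), (⟨g * z * g⁻¹, hq⟩ : Subgroup.centralizer ({z} : Set G)) ∈ Q) ∧ g * z * g⁻¹ ≠ z) (hsimp : IsSimpleGroup (↥(Subgroup.centralizer ({z} : Set G)) ⧸ Q)) (hna : ¬ IsMulCommutative (↥(Subgroup.centralizer ({z} : Set G)) ⧸ Q)) (hirr : ∀ W : Subgroup (Subgroup.centralizer ({z} : Set G)), W.Normal → W ≤ Q → (W = Q ∨ ∀ x ∈ W, (x : G) ∈ Subgroup.zpowers z)) (hwcl : Subgroup.closure {x : Subgroup.centralizer ({z} : Set G) | IsConj z (x : G)} ≠ Q) : IsSimpleGroup G := by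
  exact aux z hz _ (fun x => mem_centralizer_singleton_iff) Q hF hQ hnwc hsimp hirr hwcl

end Cfsg.Agent.S5436
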