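-- Statement S5437 (row 5437).
import Cfsg.Statements.S5437

set_option autoImplicit false
open Cfsg

namespace Cfsg.Agent.S5437

private lemma mem_map_conj {G : Type*} [Group G] (H : Subgroup G) (g x : G) :
    x ∈ (H : Subgroup G).map (MulAut.conj g).toMonoidHom ↔ g⁻¹ * x * g ∈ H := by
  constructor
  · rintro ⟨h, hh, rfl⟩
    have : g⁻¹ * ((MulAut.conj g).toMonoidHom h) * g = h := by
      simp [MulAut.conj_apply]; group
    rw [this]; exact hh
  · intro h
    refine ⟨_, h, ?_⟩
    simp [MulAut.conj_apply]; group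

private lemma smul_mk_eq {G : Type*} [Group G] (H : Subgroup G) (x g : G) :
    x • (QuotientGroup.mk g : G ⧸ H) = QuotientGroup.mk g ↔ g⁻¹ * x * g ∈ H := by
  rw [MulAction.Quotient.smul_mk, QuotientGroup.eq]
  simp only [smul_eq_mul]
  have : (x * g)⁻¹ * g = (g⁻¹ * x * g)⁻¹ := by group
  rw [this, Subgroup.inv_mem_iff]

theorem result {G : Type*} [Group G] [Finite G] (I : Set G) (hI : ∀ x ∈ I, orderOf x = 2) (hIc : ∀ g : G, ∀ x ∈ I, g * x * g⁻¹ ∈ I) (H : Subgroup G) : ((∀ x ∈ I, x ∈ H → (∀ g : G, g * x * g⁻¹ ∈ H → ∃ h ∈ H, h * x * h⁻¹ = g * x * g⁻¹) ∧ Subgroup.centralizer ({x} : Set G) ≤ H) ↔ (∀ g : G, g ∉ H → ∀ x ∈ I, ¬ (x ∈ H ∧ x ∈ (H : Subgroup G).map (MulAut.conj g).toMonoidHom))) ∧ ((∀ g : G, g ∉ H → ∀ x ∈ I, ¬ (x ∈ H ∧ x ∈ (H : Subgroup G).map (MulAut.conj g).toMonoidHom)) ↔ ∀ x ∈ I, x ∈ H → ∃! c : G ⧸ H, x • c = c) := by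
  constructor
  · constructor
    · intro h1 g hg x hx ⟨hxH, hxg⟩
      rw [mem_map_conj] at hxg
      obtain ⟨h2, h3⟩ := h1 x hx hxH
      have hg' : g⁻¹ * x * (g⁻¹)⁻¹ ∈ H := by rwa [inv_inv]
      obtain ⟨h, hh, hhe⟩ := h2 g⁻¹ hg'
      -- g * h centralizes x
      have hc : g * h ∈ Subgroup.centralizer ({x} : Set G) := by
        rw [Subgroup.mem_centralizer_iff]
        rintro y rfl
        have : h * y * h⁻¹ = g⁻¹ * y * g := by rw [hhe, inv_inv]
        calc y * (g * h) = g * (g⁻¹ * y * g) * h := by group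
          _ = g * (h * y * h⁻¹) * h := by rw [this]
          _ = g * h * y := by group
      have : g * h ∈ H := h3 hc
      apply hg
      have h4 := H.mul_mem this (H.inv_mem hh)
      simpa using h4
    · intro h2 x hx hxH
      constructor
      · intro g hgx
        have hgH : g ∈ H := by
          by_contra hg
          have hg' : g⁻¹ ∉ H := fun h => hg (by simpa using H.inv_mem h)
          refine h2 g⁻¹ hg' x hx ⟨hxH, ?_⟩
          rw [mem_map_conj, inv_inv]
          exact hgx
        exact ⟨g, hgH, rfl⟩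
      · intro c hc
        by_contra hcH
        refine h2 c hcH x hx ⟨hxH, ?_⟩
        rw [mem_map_conj]
        rw [Subgroup.mem_centralizer_iff] at hc
        have := hc x rfl
        have h3 : c⁻¹ * x * c = x := by
          calc c⁻¹ * x * c = c⁻¹ * (x * c) := by group
            _ = c⁻¹ * (c * x) := by rw [this]
            _ = x := by group
        rw [h3]; exact hxH
  · constructor
    · intro h2 x hx hxH
      refine ⟨QuotientGroup.mk 1, ?_, ?_⟩
      · show x • (QuotientGroup.mk 1 : G ⧸ H) = QuotientGroup.mk 1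
        rw [smul_mk_eq]
        simpa using hxH
      · intro c hc
        induction c using QuotientGroup.induction_on with
        | H g =>
          have hc' : x • (QuotientGroup.mk g : G ⧸ H) = QuotientGroup.mk g := hc
          rw [smul_mk_eq] at hc'
          have hgH : g ∈ H := by
            by_contra hg
            exact h2 g hg x hx ⟨hxH, (mem_map_conj H g x).mpr hc'⟩
          rw [QuotientGroup.eq]
          simpa using hgH
    · intro h3 g hg x hx ⟨hxH, hxg⟩
      obtain ⟨c, -, hcu⟩ := h3 x hx hxH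
      have h1 : x • (QuotientGroup.mk 1 : G ⧸ H) = QuotientGroup.mk 1 := by
        rw [smul_mk_eq]
        simpa using hxH
      have h2 : x • (QuotientGroup.mk g : G ⧸ H) = QuotientGroup.mk g := by
        rw [smul_mk_eq]
        exact (mem_map_conj H g x).mp hxg
      have h4 := (hcu _ h1).trans (hcu _ h2).symm
      rw [QuotientGroup.eq] at h4
      apply hg
      simpa using h4

end Cfsg.Agent.S5437
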