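-- Statement S5438 (row 5438).
import Cfsg.Statements.S5438

set_option autoImplicit false
open Cfsg

namespace Cfsg.Agent.S5438

variable {G : Type*} [Group G]

private lemma mem_map_conj (H : Subgroup G) (g x : G) :
    x ∈ (H : Subgroup G).map (MulAut.conj g).toMonoidHom ↔ g⁻¹ * x * g ∈ H := by
  constructor
  · rintro ⟨h, hh, rfl⟩
    have : g⁻¹ * ((MulAut.conj g).toMonoidHom h) * g = h := by
      simp [MulAut.conj_apply]; group
    rw [this]; exact hh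
  · intro h
    refine ⟨_, h, ?_⟩
    simp [MulAut.conj_apply]; group

private lemma mem_cent (x y : G) :
    y ∈ Subgroup.centralizer ({x} : Set G) ↔ x * y = y * x := by
  rw [Subgroup.mem_centralizer_iff]
  simp

private lemma exists_normalizing [Finite G] {T Q : Subgroup G} (hQ : IsPGroup 2 Q) (h : T < Q) :
    ∃ n ∈ Q, n ∉ T ∧ ∀ t ∈ T, n * t * n⁻¹ ∈ T := by
  have : Fact (Nat.Prime 2) := ⟨Nat.prime_two⟩
  have hnil : Group.IsNilpotent Q := hQ.isNilpotent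
  have hlt : T.subgroupOf Q < ⊤ := by
    rw [lt_top_iff_ne_top]
    intro htop
    obtain ⟨q, hq, hqT⟩ := SetLike.exists_of_lt h
    apply hqT
    have : (⟨q, hq⟩ : Q) ∈ T.subgroupOf Q := by rw [htop]; trivial
    exact this
  obtain ⟨y, hy, hyT⟩ := SetLike.exists_of_lt (Group.normalizerCondition_of_isNilpotent _ hlt)
  refine ⟨(y : G), y.2, hyT, ?_⟩
  intro t ht
  have htQ : t ∈ Q := h.le ht
  have h1 : (⟨t, htQ⟩ : Q) ∈ T.subgroupOf Q := ht
  have h2 := (Subgroup.mem_normalizer_iff.mp hy _).mp h1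
  exact h2

private lemma main_lemma [Finite G] {z : G} (P : Sylow 2 G) (hzP : z ∈ P)
    (hzc : ∀ x ∈ P, x * z = z * x) (H : Subgroup G) (hPH : (P : Subgroup G) ≤ H)
    (hfix : ∀ g : G, g⁻¹ * z * g ∈ H → g ∈ H) (x a : G) (hxa : a⁻¹ * x * a ∈ H)
    (hx2 : ∃ k : ℕ, orderOf x = 2 ^ k) :
    ∃ (T : Subgroup G) (v : G), T ≤ (H : Subgroup G).map (MulAut.conj a).toMonoidHom ∧
      T ≤ Subgroup.centralizer ({x} : Set G) ∧ IsPGroup 2 T ∧ v * z * v⁻¹ ∈ T ∧
      ∀ Q : Subgroup G, IsPGroup 2 Q → T ≤ Q → Q ≤ Subgroup.centralizer ({x} : Set G) → Q ≤ T := by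
  classical
  have : Fact (Nat.Prime 2) := ⟨Nat.prime_two⟩
  set Ka : Subgroup G := (H : Subgroup G).map (MulAut.conj a).toMonoidHom with hKa
  set L : Subgroup G := Ka ⊓ Subgroup.centralizer ({x} : Set G) with hL
  have hxL : x ∈ L := ⟨(mem_map_conj H a x).mpr hxa, (mem_cent x x).mpr rfl⟩
  have hx2' : IsPGroup 2 (Subgroup.zpowers x) := by
    obtain ⟨k, hk⟩ := hx2
    apply IsPGroup.of_card (n := k)
    rw [Nat.card_zpowers, hk]
  have hzL : Subgroup.zpowers x ≤ L := by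
    rw [Subgroup.zpowers_le]; exact hxL
  have hS0 : IsPGroup 2 ((Subgroup.zpowers x).subgroupOf L) :=
    hx2'.of_injective (Subgroup.subgroupOfEquivOfLe hzL).toMonoidHom
      (Subgroup.subgroupOfEquivOfLe hzL).injective
  obtain ⟨T₀, hT₀⟩ := hS0.exists_le_sylow
  set T : Subgroup G := (T₀ : Subgroup L).map L.subtype with hT
  have hTL : T ≤ L := by
    rintro _ ⟨y, -, rfl⟩
    exact y.2
  have hT2 : IsPGroup 2 T := (T₀.isPGroup').map L.subtype
  have hxT : x ∈ T := ⟨⟨x, hxL⟩, hT₀ (show (⟨x, hxL⟩ : L) ∈ (Subgroup.zpowers x).subgroupOf L from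
    Subgroup.mem_subgroupOf.mpr (Subgroup.mem_zpowers x)), rfl⟩
  -- maximality of T in L
  have hmax : ∀ R : Subgroup G, IsPGroup 2 R → T ≤ R → R ≤ L → R ≤ T := by
    intro R hR hTR hRL r hr
    have hR' : IsPGroup 2 (R.subgroupOf L) :=
      hR.of_injective (Subgroup.subgroupOfEquivOfLe hRL).toMonoidHom
        (Subgroup.subgroupOfEquivOfLe hRL).injective
    have hle : (T₀ : Subgroup L) ≤ R.subgroupOf L := by
      intro y hy
      exact hTR ⟨y, hy, rfl⟩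
    have heq := T₀.is_maximal' hR' hle
    have : (⟨r, hRL hr⟩ : L) ∈ R.subgroupOf L := hr
    rw [heq] at this
    exact ⟨_, this, rfl⟩
  -- the Sylow subgroup of H containing a⁻¹ T a
  have hPH' := hPH
  set P' : Sylow 2 H := P.subtype hPH with hP'
  set Tc : Subgroup H := ((T.map (MulAut.conj a⁻¹).toMonoidHom).subgroupOf H) with hTc
  have hTa : ∀ t ∈ T, a⁻¹ * t * a ∈ H := by
    intro t ht
    exact (mem_map_conj H a t).mp (hTL ht).1
  have hconjle : T.map (MulAut.conj a⁻¹).toMonoidHom ≤ H := by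
    rintro _ ⟨t, ht, rfl⟩
    have := hTa t ht
    simpa [MulAut.conj_apply] using this
  have hTc2 : IsPGroup 2 Tc :=
    (hT2.map (MulAut.conj a⁻¹).toMonoidHom).of_injective
      (Subgroup.subgroupOfEquivOfLe hconjle).toMonoidHom
      (Subgroup.subgroupOfEquivOfLe hconjle).injective
  obtain ⟨Q', hQ'⟩ := hTc2.exists_le_sylow
  obtain ⟨w, hw⟩ := MulAction.exists_smul_eq H P' Q'
  -- so T is inside the conjugate of P by a * w
  set v : G := a * (w : G) with hv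
  have hTv : ∀ t ∈ T, v⁻¹ * t * v ∈ P := by
    intro t ht
    have h1 : (⟨a⁻¹ * t * a, hTa t ht⟩ : H) ∈ (Q' : Subgroup H) := by
      apply hQ'
      refine Subgroup.mem_subgroupOf.mpr ⟨t, ht, ?_⟩
      simp [MulAut.conj_apply]
    rw [← hw, Sylow.coe_subgroup_smul] at h1
    rw [Subgroup.mem_pointwise_smul_iff_inv_smul_mem] at h1
    have h2 : (w : G)⁻¹ * (a⁻¹ * t * a) * (w : G) ∈ P := by
      simp only [MulAut.smul_def, map_inv, MulAut.conj_inv_apply, hP', Sylow.coe_subtype] at h1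
      have h3 := Subgroup.mem_subgroupOf.mp h1
      show _ ∈ (P : Subgroup G)
      simpa using h3
    have h3 : v⁻¹ * t * v = (w : G)⁻¹ * (a⁻¹ * t * a) * (w : G) := by
      rw [hv]; group
    rw [h3]; exact h2
  set y : G := v * z * v⁻¹ with hy
  have hvP : IsPGroup 2 ((P : Subgroup G).map (MulAut.conj v).toMonoidHom) :=
    P.isPGroup'.map _
  have hyT : y ∈ T := by
    apply hmax (((P : Subgroup G).map (MulAut.conj v).toMonoidHom) ⊓ L)
      (hvP.to_le inf_le_left)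
    · intro t ht
      refine ⟨(mem_map_conj _ v t).mpr (hTv t ht), hTL ht⟩
    · exact inf_le_right
    · refine ⟨(mem_map_conj _ v y).mpr ?_, ?_, ?_⟩
      · have : v⁻¹ * y * v = z := by rw [hy]; group
        rw [this]; exact hzP
      · apply (mem_map_conj H a y).mpr
        have h1 : a⁻¹ * y * a = (w : G) * z * (w : G)⁻¹ := by
          rw [hy, hv]; group
        rw [h1]
        exact H.mul_mem (H.mul_mem w.2 (hPH hzP)) (H.inv_mem w.2)
      · apply (mem_cent x y).mpr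
        have h1 := hzc _ (hTv x hxT)
        calc x * y = v * ((v⁻¹ * x * v) * z) * v⁻¹ := by rw [hy]; group
          _ = v * (z * (v⁻¹ * x * v)) * v⁻¹ := by rw [h1]
          _ = y * x := by rw [hy]; group
  refine ⟨T, v, fun t ht => (hTL ht).1, fun t ht => (hTL ht).2, hT2, hyT, ?_⟩
  intro Q hQ hTQ hQC
  by_contra hne
  have hlt : T < Q := lt_of_le_of_ne hTQ (fun h => hne (h ▸ le_rfl))
  obtain ⟨n, hnQ, hnT, hn⟩ := exists_normalizing hQ hlt
  -- `n` lies in `K a`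
  have h1 : v⁻¹ * a ∈ H := by
    apply hfix
    have := (mem_map_conj H a y).mp (hTL hyT).1
    have h2 : (v⁻¹ * a)⁻¹ * z * (v⁻¹ * a) = a⁻¹ * y * a := by rw [hy]; group
    rw [h2]; exact this
  have h2 : (n * v)⁻¹ * a ∈ H := by
    apply hfix
    have := (mem_map_conj H a (n * y * n⁻¹)).mp (hTL (hn y hyT)).1
    have h3 : ((n * v)⁻¹ * a)⁻¹ * z * ((n * v)⁻¹ * a) = a⁻¹ * (n * y * n⁻¹) * a := by
      rw [hy]; group
    rw [h3]; exact this
  have h3 : a⁻¹ * n⁻¹ * a ∈ H := by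
    have := H.mul_mem (H.inv_mem h1) h2
    have h4 : (v⁻¹ * a)⁻¹ * ((n * v)⁻¹ * a) = a⁻¹ * n⁻¹ * a := by group
    rwa [h4] at this
  have hnK : n ∈ Ka := by
    have : n⁻¹ ∈ Ka := (mem_map_conj H a n⁻¹).mpr h3
    simpa using Ka.inv_mem this
  have hnL : n ∈ L := ⟨hnK, hQC hnQ⟩
  exact hnT (hmax (Q ⊓ L) (hQ.to_le inf_le_left) (le_inf hTQ hTL) inf_le_right ⟨hnQ, hnL⟩)

theorem result {G : Type*} [Group G] [Finite G] (z : G) (hz : Cfsg.IsTwoCentralInvolution z) (H : Subgroup G) (hzH : z ∈ H) (hfix : ∀ g : G, g⁻¹ * z * g ∈ H → g ∈ H) : Odd H.index ∧ ∀ x ∈ H, (∃ k : ℕ, orderOf x = 2 ^ k) → ∀ g : G, g * x * g⁻¹ ∈ H → ∃ h ∈ H, h * x * h⁻¹ = g * x * g⁻¹ := by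
  classical
  have : Fact (Nat.Prime 2) := ⟨Nat.prime_two⟩
  obtain ⟨hz2, P, hzP, hzc⟩ := hz
  have hPH : (P : Subgroup G) ≤ H := by
    intro x hx
    apply hfix
    have : x⁻¹ * z * x = z := by
      have h1 := hzc x hx
      calc x⁻¹ * z * x = x⁻¹ * (z * x) := by group
        _ = x⁻¹ * (x * z) := by rw [h1]
        _ = z := by group
    rw [this]; exact hzH
  constructor
  · have h1 : ¬ 2 ∣ (P : Subgroup G).index := P.not_dvd_index
    have h2 : H.index ∣ (P : Subgroup G).index := Subgroup.index_dvd_of_le hPH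
    rw [← Nat.not_even_iff_odd, even_iff_two_dvd]
    exact fun h => h1 (h.trans h2)
  · intro x hxH hx2 g hg
    obtain ⟨T₁, v₁, hT₁K, hT₁C, hT₁2, hv₁, hT₁max⟩ :=
      main_lemma P hzP hzc H hPH hfix x 1 (by simpa using hxH) hx2
    obtain ⟨T₂, v₂, hT₂K, hT₂C, hT₂2, hv₂, hT₂max⟩ :=
      main_lemma P hzP hzc H hPH hfix x g⁻¹ (by simpa using hg) hx2
    set C : Subgroup G := Subgroup.centralizer ({x} : Set G) with hC
    have h1' : IsPGroup 2 (T₁.subgroupOf C) :=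
      hT₁2.of_injective (Subgroup.subgroupOfEquivOfLe hT₁C).toMonoidHom
        (Subgroup.subgroupOfEquivOfLe hT₁C).injective
    have h2' : IsPGroup 2 (T₂.subgroupOf C) :=
      hT₂2.of_injective (Subgroup.subgroupOfEquivOfLe hT₂C).toMonoidHom
        (Subgroup.subgroupOfEquivOfLe hT₂C).injective
    obtain ⟨S₁, hS₁⟩ := h1'.exists_le_sylow
    obtain ⟨S₂, hS₂⟩ := h2'.exists_le_sylow
    obtain ⟨c, hc⟩ := MulAction.exists_smul_eq C S₂ S₁
    have hS₁T₁ : ((S₁ : Subgroup C).map C.subtype) ≤ T₁ := by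
      apply hT₁max _ (S₁.isPGroup'.map _)
      · intro t ht
        exact ⟨⟨t, hT₁C ht⟩, hS₁ ht, rfl⟩
      · rintro _ ⟨y, -, rfl⟩
        exact y.2
    -- the conjugate of z in T₂, conjugated by c
    set y₂ : G := v₂ * z * v₂⁻¹ with hy₂
    have hy₂C : y₂ ∈ C := hT₂C hv₂
    have hc1 : (c : G) * y₂ * (c : G)⁻¹ ∈ T₁ := by
      apply hS₁T₁
      have h3 : (⟨y₂, hy₂C⟩ : C) ∈ (S₂ : Subgroup C) := hS₂ hv₂
      have h4 : c * (⟨y₂, hy₂C⟩ : C) * c⁻¹ ∈ (S₁ : Subgroup C) := by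
        rw [← hc, Sylow.coe_subgroup_smul]
        exact ⟨_, h3, rfl⟩
      exact ⟨_, h4, rfl⟩
    have hc2 : (c : G) * y₂ * (c : G)⁻¹ ∈ H := by
      have := (mem_map_conj H 1 _).mp (hT₁K hc1)
      simpa using this
    have hc3 : (c * v₂ : G)⁻¹ ∈ H := by
      apply hfix
      have h5 : ((c * v₂ : G)⁻¹)⁻¹ * z * (c * v₂ : G)⁻¹ = (c : G) * y₂ * (c : G)⁻¹ := by
        rw [hy₂]; group
      rw [h5]; exact hc2
    have hc4 : (c * v₂ : G)⁻¹ * (c * g⁻¹ : G) ∈ H := by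
      apply hfix
      have h5 := (mem_map_conj H g⁻¹ y₂).mp (hT₂K hv₂)
      have h6 : ((c * v₂ : G)⁻¹ * (c * g⁻¹ : G))⁻¹ * z * ((c * v₂ : G)⁻¹ * (c * g⁻¹ : G))
          = (g⁻¹)⁻¹ * y₂ * g⁻¹ := by
        rw [hy₂]; group
      rw [h6]; exact h5
    have hc5 : (c : G) * g⁻¹ ∈ H := by
      have := H.mul_mem (H.inv_mem hc3) hc4
      have h7 : ((c * v₂ : G)⁻¹)⁻¹ * ((c * v₂ : G)⁻¹ * (c * g⁻¹ : G)) = (c : G) * g⁻¹ := by group
      rwa [h7] at this
    refine ⟨((c : G) * g⁻¹)⁻¹, H.inv_mem hc5, ?_⟩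
    have hcx : x * (c : G) = (c : G) * x := (mem_cent x c).mp c.2
    calc ((c : G) * g⁻¹)⁻¹ * x * ((c : G) * g⁻¹)⁻¹⁻¹
        = g * ((c : G)⁻¹ * (x * (c : G))) * g⁻¹ := by group
      _ = g * ((c : G)⁻¹ * ((c : G) * x)) * g⁻¹ := by rw [hcx]
      _ = g * x * g⁻¹ := by group

end Cfsg.Agent.S5438
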