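-- Statement S5439 (row 5439).
import Cfsg.Statements.S5439
import Cfsg.Agent.Lib.Involutions.Dihedral

set_option autoImplicit false
open Cfsg

namespace Cfsg.Agent.S5439

open Cfsg.Agent.Lib.Involutions.Dihedral (central_involution exists_conj_of_odd)

variable {G : Type*} [Group G]

private lemma smul_mk_eq (H : Subgroup G) (x g : G) :
    x • (QuotientGroup.mk g : G ⧸ H) = QuotientGroup.mk g ↔ g⁻¹ * x * g ∈ H := by
  rw [MulAction.Quotient.smul_mk, QuotientGroup.eq]
  simp only [smul_eq_mul]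
  have : (x * g)⁻¹ * g = (g⁻¹ * x * g)⁻¹ := by group
  rw [this, Subgroup.inv_mem_iff]

private lemma reflect_pow {a b : G} (ha : a * a = 1) (hb : b * b = 1) (k : ℕ) :
    ((a * b) ^ k)⁻¹ * a = a * (a * b) ^ k := by
  have hai : a⁻¹ = a := inv_eq_of_mul_eq_one_left ha
  have hbi : b⁻¹ = b := inv_eq_of_mul_eq_one_left hb
  have h1 : a * (a * b) * a⁻¹ = (a * b)⁻¹ := by
    rw [hai, mul_inv_rev, hai, hbi, ← mul_assoc, ha, one_mul]
  have h2 : a * (a * b) ^ k * a⁻¹ = ((a * b)⁻¹) ^ k := by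
    rw [← conj_pow, h1]
  have h3 : ((a * b) ^ k)⁻¹ = a * (a * b) ^ k * a := by
    rw [← inv_pow, ← h2, hai]
  rw [h3, mul_assoc _ a a, ha, mul_one]

private lemma conj_central_even {a b : G} (ha : a * a = 1) (hb : b * b = 1) (k : ℕ) :
    IsConj a (a * (a * b) ^ (2 * k)) := by
  rw [isConj_iff]
  refine ⟨((a * b) ^ k)⁻¹, ?_⟩
  rw [reflect_pow ha hb, inv_inv, mul_assoc, ← pow_add, two_mul]

private lemma conj_central_odd {a b : G} (ha : a * a = 1) (hb : b * b = 1) (k : ℕ) :
    IsConj b (a * (a * b) ^ (2 * k + 1)) := by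
  rw [isConj_iff]
  refine ⟨((a * b) ^ k)⁻¹, ?_⟩
  have hb' : b = a * (a * b) := by rw [← mul_assoc, ha, one_mul]
  rw [inv_inv]
  calc ((a * b) ^ k)⁻¹ * b * (a * b) ^ k
      = ((a * b) ^ k)⁻¹ * (a * (a * b)) * (a * b) ^ k := by rw [← hb']
    _ = (((a * b) ^ k)⁻¹ * a) * (a * b) * (a * b) ^ k := by group
    _ = a * (a * b) ^ k * (a * b) * (a * b) ^ k := by rw [reflect_pow ha hb]
    _ = a * ((a * b) ^ k * (a * b) * (a * b) ^ k) := by group
    _ = a * (a * b) ^ (2 * k + 1) := by
      rw [← pow_succ, ← pow_add]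
      congr 2
      omega

theorem result {G : Type*} [Group G] [Finite G] (I J : Set G) (a₀ b₀ : G) (ha₀ : orderOf a₀ = 2) (hb₀ : orderOf b₀ = 2) (hI : I = {x | IsConj a₀ x}) (hJ : J = {x | IsConj b₀ x}) (hIJ : I ≠ J) (H : Subgroup G) (hfix : ∀ x ∈ I ∪ J, ∃! c : G ⧸ H, x • c = c) (hcent : ∀ a ∈ I, a ∈ H → ∀ b ∈ I ∪ J, b ∈ H → a ≠ b → a * b = b * a → Subgroup.centralizer ({a * b} : Set G) ≤ H) : H = ⊤ := by
  classical
  -- basic facts
  have hsq : ∀ x ∈ I ∪ J, x * x = 1 := by
    intro x hx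
    have hord : orderOf x = 2 := by
      rcases hx with hx | hx
      · rw [hI] at hx
        obtain ⟨c, rfl⟩ := isConj_iff.mp hx
        have : SemiconjBy c a₀ (c * a₀ * c⁻¹) := by simp [SemiconjBy]
        rw [← this.orderOf_eq, ha₀]
      · rw [hJ] at hx
        obtain ⟨c, rfl⟩ := isConj_iff.mp hx
        have : SemiconjBy c b₀ (c * b₀ * c⁻¹) := by simp [SemiconjBy]
        rw [← this.orderOf_eq, hb₀]
    have := pow_orderOf_eq_one x
    rwa [hord, pow_two] at this
  have hIconj : ∀ (x : G) (g : G), x ∈ I → g * x * g⁻¹ ∈ I := by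
    intro x g hx
    rw [hI] at hx ⊢
    exact (show IsConj a₀ x from hx).trans (isConj_iff.mpr ⟨g, rfl⟩)
  have hJconj : ∀ (x : G) (g : G), x ∈ J → g * x * g⁻¹ ∈ J := by
    intro x g hx
    rw [hJ] at hx ⊢
    exact (show IsConj b₀ x from hx).trans (isConj_iff.mpr ⟨g, rfl⟩)
  have hUconj : ∀ (x : G) (g : G), x ∈ I ∪ J → g * x * g⁻¹ ∈ I ∪ J := by
    intro x g hx
    rcases hx with hx | hx
    · exact Or.inl (hIconj x g hx)
    · exact Or.inr (hJconj x g hx)
  have hnc : ∀ a ∈ I, ∀ b ∈ J, ¬ IsConj a b := by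
    intro a ha b hb hab
    apply hIJ
    rw [hI] at ha ⊢
    rw [hJ] at hb ⊢
    have h1 : IsConj a₀ b₀ := (show IsConj a₀ a from ha).trans (hab.trans (show IsConj b₀ b from hb).symm)
    ext x
    exact ⟨fun h => h1.symm.trans h, fun h => h1.trans h⟩
  -- uniqueness of fixed cosets: commuting elements share their fixed coset
  have hcommfix : ∀ x ∈ I ∪ J, ∀ (y : G) (c : G ⧸ H), Commute x y → x • c = c → y • c = c := by
    intro x hx y c hc hxc
    obtain ⟨c₀, -, hu⟩ := hfix x hx
    have h1 : x • (y • c) = y • c := by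
      rw [← mul_smul, hc.eq, mul_smul, hxc]
    exact (hu _ h1).trans (hu _ hxc).symm
  -- the key step: a ∈ I and b ∈ J have the same fixed coset
  have hkey : ∀ a ∈ I, ∀ b ∈ J, ∀ c : G ⧸ H, a • c = c → b • c = c := by
    intro a ha b hb c hac
    have haU : a ∈ I ∪ J := Or.inl ha
    have hbU : b ∈ I ∪ J := Or.inr hb
    have haa := hsq a haU
    have hbb := hsq b hbU
    have ha2 : a ^ 2 = 1 := by rw [pow_two, haa]
    have hb2 : b ^ 2 = 1 := by rw [pow_two, hbb]
    -- the product has even order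
    have heven : Even (orderOf (a * b)) := by
      by_contra hne
      rw [Nat.not_even_iff_odd] at hne
      obtain ⟨d, -, hd⟩ := exists_conj_of_odd ha2 hb2 hne
      exact hnc a ha b hb (isConj_iff.mpr ⟨d, hd⟩)
    obtain ⟨ht2, hta, htb⟩ := central_involution ha2 hb2 heven
    set t : G := (a * b) ^ (orderOf (a * b) / 2) with ht
    -- a * t is conjugate to a or to b
    have hat : a * t ∈ I ∪ J := by
      obtain ⟨m, hm⟩ := heven
      have hdiv : orderOf (a * b) / 2 = m := by omega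
      rcases Nat.even_or_odd' m with ⟨k, hk | hk⟩
      · left
        have h1 : IsConj a (a * t) := by
          rw [ht, hdiv, hk]
          exact conj_central_even haa hbb k
        rw [hI] at ha ⊢
        exact (show IsConj a₀ a from ha).trans h1
      · right
        have h1 : IsConj b (a * t) := by
          rw [ht, hdiv, hk]
          exact conj_central_odd haa hbb k
        rw [hJ] at hb ⊢
        exact (show IsConj b₀ b from hb).trans h1
    have ht1 : t ≠ 1 := by
      intro h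
      rw [h, orderOf_one] at ht2
      omega
    have hne : a ≠ a * t := by
      intro h
      apply ht1
      exact (mul_eq_left.mp h.symm)
    have hatc : Commute a (a * t) := by
      exact (Commute.refl a).mul_right hta.symm
    -- the representative
    induction c using QuotientGroup.induction_on with
    | H g =>
      have hac' : a • (QuotientGroup.mk g : G ⧸ H) = QuotientGroup.mk g := hac
      have hatfix : (a * t) • (QuotientGroup.mk g : G ⧸ H) = QuotientGroup.mk g :=
        hcommfix a haU _ _ hatc hac'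
      have h1 : g⁻¹ * a * g ∈ H := (smul_mk_eq H a g).mp hac'
      have h2 : g⁻¹ * (a * t) * g ∈ H := (smul_mk_eq H _ g).mp hatfix
      have hg1 : g⁻¹ * a * (g⁻¹)⁻¹ ∈ I := hIconj a g⁻¹ ha
      have hg2 : g⁻¹ * (a * t) * (g⁻¹)⁻¹ ∈ I ∪ J := hUconj _ g⁻¹ hat
      rw [inv_inv] at hg1 hg2
      have hne' : g⁻¹ * a * g ≠ g⁻¹ * (a * t) * g := by
        intro h
        apply hne
        have := congrArg (fun x => g * x * g⁻¹) h
        simpa [mul_assoc] using this
      have hcomm' : g⁻¹ * a * g * (g⁻¹ * (a * t) * g) = g⁻¹ * (a * t) * g * (g⁻¹ * a * g) := by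
        calc g⁻¹ * a * g * (g⁻¹ * (a * t) * g) = g⁻¹ * (a * (a * t)) * g := by group
          _ = g⁻¹ * ((a * t) * a) * g := by rw [hatc.eq]
          _ = _ := by group
      have hC := hcent _ hg1 h1 _ hg2 h2 hne' hcomm'
      have hprod : g⁻¹ * a * g * (g⁻¹ * (a * t) * g) = g⁻¹ * t * g := by
        calc g⁻¹ * a * g * (g⁻¹ * (a * t) * g) = g⁻¹ * (a * a * t) * g := by group
          _ = g⁻¹ * t * g := by rw [haa, one_mul]
      rw [hprod] at hC
      have hb' : g⁻¹ * b * g ∈ Subgroup.centralizer ({g⁻¹ * t * g} : Set G) := by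
        rw [Subgroup.mem_centralizer_iff]
        rintro y rfl
        calc g⁻¹ * t * g * (g⁻¹ * b * g) = g⁻¹ * (t * b) * g := by group
          _ = g⁻¹ * (b * t) * g := by rw [htb.eq]
          _ = g⁻¹ * b * g * (g⁻¹ * t * g) := by group
      exact (smul_mk_eq H b g).mpr (hC hb')
  -- conclusion
  have ha₀I : a₀ ∈ I := by rw [hI]; exact IsConj.refl _
  have hb₀J : b₀ ∈ J := by rw [hJ]; exact IsConj.refl _
  obtain ⟨c, hc, -⟩ := hfix a₀ (Or.inl ha₀I)
  have hc' : ∀ g : G, g • c = c := by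
    intro g
    -- g a₀ g⁻¹ fixes g • c and c
    have h1 : (g * a₀ * g⁻¹) • (g • c) = g • c := by
      rw [← mul_smul]
      have : g * a₀ * g⁻¹ * g = g * a₀ := by group
      rw [this, mul_smul, hc]
    -- b₀ fixes c; b₀ also fixes g • c
    have h2 : b₀ • (g • c) = g • c := hkey _ (hIconj a₀ g ha₀I) b₀ hb₀J _ h1
    have h3 : b₀ • c = c := hkey a₀ ha₀I b₀ hb₀J c hc
    obtain ⟨_, -, hu⟩ := hfix b₀ (Or.inr hb₀J)
    exact (hu _ h2).trans (hu _ h3).symm
  induction c using QuotientGroup.induction_on with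
  | H g =>
    rw [eq_top_iff]
    intro x _
    have h1 : (g * x * g⁻¹) • (QuotientGroup.mk g : G ⧸ H) = QuotientGroup.mk g := hc' _
    rw [smul_mk_eq] at h1
    have : g⁻¹ * (g * x * g⁻¹) * g = x := by group
    rwa [this] at h1

end Cfsg.Agent.S5439
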