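import Cfsg.Statements.S5452
import Cfsg.Agent.Lib.ThreeT.U6Lift

set_option autoImplicit false
open Cfsg

namespace Cfsg.Agent.S5452

/-- Let G be a finite group with an involution d whose centralizer C is quasisimple with C modulo the subgroup generated by d isomorphic to the projective special unitary group of dimension 6 over the field with four elements, and suppose some conjugate of d other than d commutes with d. Then every involution of C modulo the subgroup generated by d is the image of an involution of C, and d is not a square in G. -/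
theorem result {G : Type*} [Group G] [Finite G] (d : G) (hd : orderOf d = 2) (hq : Cfsg.IsQuasisimple ↥(Subgroup.centralizer ({d} : Set G))) [hzn : ((Subgroup.zpowers d).subgroupOf (Subgroup.centralizer ({d} : Set G))).Normal] (K : Type) [Field K] [Fintype K] (hK : Fintype.card K = 4) (e : ↥(Subgroup.centralizer ({d} : Set G)) ⧸ (Subgroup.zpowers d).subgroupOf (Subgroup.centralizer ({d} : Set G)) ≃* Cfsg.PSU 6 K 2) (hnwc : ∃ g : G, g * d * g⁻¹ ∈ Subgroup.centralizer ({d} : Set G) ∧ g * d * g⁻¹ ≠ d) : (∀ x : ↥(Subgroup.centralizer ({d} : Set G)) ⧸ (Subgroup.zpowers d).subgroupOf (Subgroup.centralizer ({d} : Set G)), orderOf x = 2 → ∃ y : ↥(Subgroup.centralizer ({d} : Set G)), orderOf y = 2 ∧ (QuotientGroup.mk y : ↥(Subgroup.centralizer ({d} : Set G)) ⧸ (Subgroup.zpowers d).subgroupOf (Subgroup.centralizer ({d} : Set G))) = x) ∧ ¬ ∃ g : G, g ^ 2 = d := by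
  classical
  haveI : Fact (Fintype.card K = 4) := ⟨hK⟩
  set C := Subgroup.centralizer ({d} : Set G) with hC
  set N := (Subgroup.zpowers d).subgroupOf C with hN
  have hd2 : d * d = 1 := by
    have := pow_orderOf_eq_one d
    rw [hd, pow_two] at this
    exact this
  have hd1 : d ≠ 1 := by
    rintro rfl
    simp at hd
  have hmemC : ∀ c : ↥C, c.1 * d = d * c.1 := by
    intro c
    have := Subgroup.mem_centralizer_iff.1 c.2 d (Set.mem_singleton d)
    exact this.symm
  have hmemN : ∀ a : ↥C, a ∈ N → ∃ k : ℤ, a.1 = d ^ k := by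
    intro a ha
    have h1 : a.1 ∈ Subgroup.zpowers d := Subgroup.mem_subgroupOf.1 ha
    obtain ⟨k, hk⟩ := Subgroup.mem_zpowers_iff.1 h1
    exact ⟨k, hk.symm⟩
  have hcomm : ∀ a : ↥C, a ∈ N → ∀ b : ↥C, a * b = b * a := by
    intro a ha b
    obtain ⟨k, hk⟩ := hmemN a ha
    apply Subtype.ext
    show a.1 * b.1 = b.1 * a.1
    rw [hk]
    have h1 : Commute d b.1 := (hmemC b).symm
    exact (h1.zpow_left k)
  have hsq : ∀ a : ↥C, a ∈ N → a * a = 1 := by
    intro a ha
    obtain ⟨k, hk⟩ := hmemN a ha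
    apply Subtype.ext
    show a.1 * a.1 = 1
    rw [hk]
    have h1 : d ^ k * d ^ k = (d * d) ^ k := by
      rw [(Commute.refl d).mul_zpow]
    rw [h1, hd2, one_zpow]
  let φ : ↥C →* Cfsg.PSU 6 K 2 := e.toMonoidHom.comp (QuotientGroup.mk' N)
  have hφ : ∀ c, φ c = e (QuotientGroup.mk c) := fun _ => rfl
  have hφsurj : Function.Surjective φ := by
    intro x
    obtain ⟨c, hc⟩ := QuotientGroup.mk_surjective (e.symm x)
    exact ⟨c, by rw [hφ, hc]; simp⟩
  have hker : ∀ a, φ a = 1 → a ∈ N := by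
    intro a ha
    rw [hφ, map_eq_one_iff _ e.injective] at ha
    exact (QuotientGroup.eq_one_iff a).1 ha
  have part1 : ∀ x : ↥C ⧸ N, orderOf x = 2 → ∃ y : ↥C, orderOf y = 2 ∧ (QuotientGroup.mk y : ↥C ⧸ N) = x := by
    intro x hx
    have hxx : x * x = 1 := by
      have := pow_orderOf_eq_one x
      rw [hx, pow_two] at this
      exact this
    have hx1 : x ≠ 1 := by
      rintro rfl
      simp at hx
    obtain ⟨y, hy1, hy2⟩ := Cfsg.Agent.Lib.ThreeT.U6Lift.lift_psu φ hφsurj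
      (fun a ha => hcomm a (hker a ha)) (fun a ha => hsq a (hker a ha)) (e x)
      (by rw [← map_mul, hxx, map_one])
    have hyx : (QuotientGroup.mk y : ↥C ⧸ N) = x := e.injective hy1
    refine ⟨y, ?_, hyx⟩
    apply orderOf_eq_prime (by rw [pow_two]; exact hy2)
    rintro rfl
    exact hx1 hyx.symm
  refine ⟨part1, ?_⟩
  rintro ⟨g, hg⟩
  have hgC : g ∈ C := by
    apply Subgroup.mem_centralizer_iff.2
    intro z hz
    rw [Set.mem_singleton_iff] at hz
    rw [hz, ← hg, pow_two]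
    group
  have hgg : (⟨g, hgC⟩ : ↥C) * ⟨g, hgC⟩ ∈ N := by
    apply Subgroup.mem_subgroupOf.2
    show g * g ∈ Subgroup.zpowers d
    rw [← pow_two, hg]
    exact Subgroup.mem_zpowers d
  have h1 : (QuotientGroup.mk (⟨g, hgC⟩ : ↥C) : ↥C ⧸ N) * QuotientGroup.mk ⟨g, hgC⟩ = 1 :=
    (QuotientGroup.eq_one_iff _).2 hgg
  have h2 : (QuotientGroup.mk (⟨g, hgC⟩ : ↥C) : ↥C ⧸ N) ≠ 1 := by
    intro h
    have h3 := (QuotientGroup.eq_one_iff _).1 h
    obtain ⟨k, hk⟩ := hmemN _ h3
    have hgk : g = d ^ k := hk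
    have h4 : d = 1 := by
      rw [← hg, hgk, pow_two]
      have h1 : d ^ k * d ^ k = (d * d) ^ k := by
        rw [(Commute.refl d).mul_zpow]
      rw [h1, hd2, one_zpow]
    exact hd1 h4
  have h3 : orderOf (QuotientGroup.mk (⟨g, hgC⟩ : ↥C) : ↥C ⧸ N) = 2 :=
    orderOf_eq_prime (by rw [pow_two]; exact h1) h2
  obtain ⟨y, hy, hyg⟩ := part1 _ h3
  have hyy : y * y = 1 := by
    have := pow_orderOf_eq_one y
    rw [hy, pow_two] at this
    exact this
  have h4 : (⟨g, hgC⟩ : ↥C)⁻¹ * y ∈ N := by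
    have := QuotientGroup.eq.1 hyg.symm
    exact this
  obtain ⟨a, ha⟩ : ∃ a : ↥C, a = (⟨g, hgC⟩ : ↥C)⁻¹ * y := ⟨_, rfl⟩
  rw [← ha] at h4
  have h5 : y = ⟨g, hgC⟩ * a := by rw [ha]; group
  have h6 : y * y = (⟨g, hgC⟩ * ⟨g, hgC⟩) * (a * a) := by
    rw [h5]
    calc (⟨g, hgC⟩ : ↥C) * a * (⟨g, hgC⟩ * a) = ⟨g, hgC⟩ * (a * ⟨g, hgC⟩) * a := by group
      _ = ⟨g, hgC⟩ * (⟨g, hgC⟩ * a) * a := by rw [hcomm a h4]
      _ = _ := by group
  rw [hyy, hsq a h4, mul_one] at h6
  have h7 : g * g = 1 := (congrArg Subtype.val h6).symm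
  apply hd1
  rw [← hg, pow_two, h7]

end Cfsg.Agent.S5452
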