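import Cfsg.Statements.S5453
import Cfsg.Agent.Lib.ThreeT.M22c
import Cfsg.Agent.S5361

set_option autoImplicit false
open Cfsg

namespace Cfsg.Agent.S5453

/-- Let G be a finite group with an involution d whose centralizer C is quasisimple, such that C modulo the subgroup generated by d is of type M(22) with respect to some conjugacy class of 3-transpositions generating it and also has an involution whose own centralizer is quasisimple with quotient by it isomorphic to the projective special unitary group of dimension 6 over the field with four elements and which is not weakly closed in that centralizer; and suppose some conjugate of d other than d commutes with d. Then every involution of C modulo the subgroup generated by d is the image of an involution of C, and d is not a square in G. -/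
theorem result {G : Type*} [Group G] [Finite G] (d : G) (hd : orderOf d = 2) (hq : Cfsg.IsQuasisimple ↥(Subgroup.centralizer ({d} : Set G))) [hzn : ((Subgroup.zpowers d).subgroupOf (Subgroup.centralizer ({d} : Set G))).Normal] (htype : ∃ E : Set (↥(Subgroup.centralizer ({d} : Set G)) ⧸ (Subgroup.zpowers d).subgroupOf (Subgroup.centralizer ({d} : Set G))), Cfsg.IsThreeTranspositionClass E ∧ Cfsg.IsOfTypeM22 _ E) (hinvol : ∃ d' : ↥(Subgroup.centralizer ({d} : Set G)) ⧸ (Subgroup.zpowers d).subgroupOf (Subgroup.centralizer ({d} : Set G)), orderOf d' = 2 ∧ Cfsg.IsQuasisimple ↥(Subgroup.centralizer ({d'} : Set _)) ∧ (∃ (K : Type) (_ : Field K) (_ : Fintype K), Fintype.card K = 4 ∧ ∃ _ : ((Subgroup.zpowers d').subgroupOf (Subgroup.centralizer ({d'} : Set _))).Normal, Nonempty (↥(Subgroup.centralizer ({d'} : Set _)) ⧸ (Subgroup.zpowers d').subgroupOf (Subgroup.centralizer ({d'} : Set _)) ≃* Cfsg.PSU 6 K 2)) ∧ ∃ g, g * d' * g⁻¹ ∈ Subgroup.centralizer ({d'} :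 Set _) ∧ g * d' * g⁻¹ ≠ d') (hnwc : ∃ g : G, g * d * g⁻¹ ∈ Subgroup.centralizer ({d} : Set G) ∧ g * d * g⁻¹ ≠ d) : (∀ x : ↥(Subgroup.centralizer ({d} : Set G)) ⧸ (Subgroup.zpowers d).subgroupOf (Subgroup.centralizer ({d} : Set G)), orderOf x = 2 → ∃ y : ↥(Subgroup.centralizer ({d} : Set G)), orderOf y = 2 ∧ (QuotientGroup.mk y : ↥(Subgroup.centralizer ({d} : Set G)) ⧸ (Subgroup.zpowers d).subgroupOf (Subgroup.centralizer ({d} : Set G))) = x) ∧ ¬ ∃ g : G, g ^ 2 = d := by
  classical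
  set C := Subgroup.centralizer ({d} : Set G) with hC
  set N := (Subgroup.zpowers d).subgroupOf C with hN
  obtain ⟨E, hE, h22⟩ := htype
  have hd2 : d * d = 1 := by
    have := pow_orderOf_eq_one d
    rw [hd, pow_two] at this
    exact this
  have hd1 : d ≠ 1 := by
    rintro rfl
    simp at hd
  have hmemC : ∀ c : ↥C, c.1 * d = d * c.1 := by
    intro c
    have := Subgroup.mem_centralizer_iff.1 c.2 d (Set.mem_singleton d)
    exact this.symm
  have hmemN : ∀ a : ↥C, a ∈ N → ∃ k : ℤ, a.1 = d ^ k := by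
    intro a ha
    have h1 : a.1 ∈ Subgroup.zpowers d := Subgroup.mem_subgroupOf.1 ha
    obtain ⟨k, hk⟩ := Subgroup.mem_zpowers_iff.1 h1
    exact ⟨k, hk.symm⟩
  have hcomm : ∀ a : ↥C, a ∈ N → ∀ b : ↥C, a * b = b * a := by
    intro a ha b
    obtain ⟨k, hk⟩ := hmemN a ha
    apply Subtype.ext
    show a.1 * b.1 = b.1 * a.1
    rw [hk]
    have h1 : Commute d b.1 := (hmemC b).symm
    exact (h1.zpow_left k)
  have hsq : ∀ a : ↥C, a ∈ N → a * a = 1 := by
    intro a ha
    obtain ⟨k, hk⟩ := hmemN a ha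
    apply Subtype.ext
    show a.1 * a.1 = 1
    rw [hk]
    have h1 : d ^ k * d ^ k = (d * d) ^ k := by
      rw [(Commute.refl d).mul_zpow]
    rw [h1, hd2, one_zpow]
  have hdC : d ∈ C := by
    apply Subgroup.mem_centralizer_iff.2
    intro y hy
    rw [Set.mem_singleton_iff] at hy
    rw [hy]
  set z : ↥C := ⟨d, hdC⟩ with hzd
  let π : ↥C →* ↥C ⧸ N := QuotientGroup.mk' N
  have hsurj : Function.Surjective π := QuotientGroup.mk'_surjective N
  have hz : z * z = 1 := Subtype.ext hd2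
  have hz1 : z ≠ 1 := fun h => hd1 (congrArg Subtype.val h)
  have hzN : z ∈ N := Subgroup.mem_subgroupOf.2 (Subgroup.mem_zpowers d)
  have hπz : π z = 1 := (QuotientGroup.eq_one_iff z).2 hzN
  have hker : ∀ a : ↥C, π a = 1 → a = 1 ∨ a = z := by
    intro a ha
    have h1 : a ∈ N := (QuotientGroup.eq_one_iff a).1 ha
    obtain ⟨k, hk⟩ := hmemN a h1
    rcases Int.even_or_odd' k with ⟨m, rfl | rfl⟩
    · left
      apply Subtype.ext
      show a.1 = 1
      rw [hk, zpow_mul, zpow_two, hd2, one_zpow]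
    · right
      apply Subtype.ext
      show a.1 = d
      rw [hk, zpow_add, zpow_mul, zpow_two, hd2, one_zpow, one_mul, zpow_one]
  have hcen : ∀ c : ↥C, Commute c z := fun c => Subtype.ext (hmemC c)
  haveI : Finite (↥C ⧸ N) := inferInstance
  have hG := Cfsg.Agent.Lib.ThreeT.Class.isGroup_of_isClass hE
  have hZ := h22.1
  -- the quotient is simple
  have hsimple : IsSimpleGroup (↥C ⧸ N) := by
    haveI := hq.2
    have hle : N ≤ (Subgroup.center ↥C).comap (MonoidHom.id ↥C) := by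
      intro a ha
      exact Subgroup.mem_center_iff.2 (fun b => (hcomm a ha b).symm)
    let ρ : ↥C ⧸ N →* ↥C ⧸ Subgroup.center ↥C := QuotientGroup.map N (Subgroup.center ↥C) (MonoidHom.id ↥C) hle
    have hinj : Function.Injective ρ := by
      rw [injective_iff_map_eq_one]
      intro x hx
      obtain ⟨a, rfl⟩ := QuotientGroup.mk_surjective x
      have h1 : a ∈ Subgroup.center ↥C := (QuotientGroup.eq_one_iff a).1 hx
      have h2 : (QuotientGroup.mk a : ↥C ⧸ N) ∈ Subgroup.center (↥C ⧸ N) := by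
        apply Subgroup.mem_center_iff.2
        intro b
        obtain ⟨b, rfl⟩ := QuotientGroup.mk_surjective b
        rw [← QuotientGroup.mk_mul, ← QuotientGroup.mk_mul, (Subgroup.mem_center_iff.1 h1 b)]
      rw [hZ] at h2
      exact h2
    have hsur : Function.Surjective ρ := by
      intro y
      obtain ⟨a, rfl⟩ := QuotientGroup.mk_surjective y
      exact ⟨QuotientGroup.mk a, rfl⟩
    exact (MulEquiv.ofBijective ρ ⟨hinj, hsur⟩).isSimpleGroup
  have hperf : commutator (↥C ⧸ N) = ⊤ := by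
    have h1 : commutator ↥C = ⊤ := hq.1.commutator_eq_top
    have htop : (⊤ : Subgroup ↥C).map π = ⊤ := by
      rw [← MonoidHom.range_eq_map]
      exact MonoidHom.range_eq_top.2 hsurj
    have h2 : (commutator ↥C).map π = commutator (↥C ⧸ N) := by
      rw [commutator_def, commutator_def, Subgroup.map_commutator, htop]
    rw [← h2, h1, htop]
  have hw : ∃ a ∈ E, ∃ b ∈ E, a ≠ b ∧ Commute a b := by
    obtain ⟨-, d₁, hd₁, c₁, hc₁, hnc, ⟨F, _, _, hF, ⟨e⟩⟩, -⟩ := h22
    by_contra hcon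
    push Not at hcon
    have h0 : ∀ y : ↥C ⧸ N, y ∈ E → y ≠ d₁ → ¬ Commute d₁ y := by
      intro y hy hne
      exact hcon d₁ hd₁ y hy hne.symm
    have hempty : {y : ↥C ⧸ N | y ∈ E ∧ y ≠ d₁ ∧ Commute d₁ y} = ∅ := by
      ext y
      simp only [Set.mem_setOf_eq, Set.mem_empty_iff_false, iff_false, not_and]
      exact fun hy hne => h0 y hy hne
    haveI := Cfsg.Agent.Lib.ThreeT.NoSix.simple_of_equiv hF e
    have hnt := IsSimpleGroup.toNontrivial (G := ↥(Subgroup.closure {y : ↥C ⧸ N | y ∈ E ∧ y ≠ d₁ ∧ Commute d₁ y}) ⧸ Subgroup.center ↥(Subgroup.closure {y : ↥C ⧸ N | y ∈ E ∧ y ≠ d₁ ∧ Commute d₁ y}))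
    obtain ⟨u, v, huv⟩ := hnt
    apply huv
    obtain ⟨u, rfl⟩ := QuotientGroup.mk_surjective u
    obtain ⟨v, rfl⟩ := QuotientGroup.mk_surjective v
    have hclos : Subgroup.closure {y : ↥C ⧸ N | y ∈ E ∧ y ≠ d₁ ∧ Commute d₁ y} = ⊥ := by
      rw [hempty, Subgroup.closure_empty]
    have hu : u = 1 := Subtype.ext (Subgroup.mem_bot.1 (hclos.le u.2))
    have hv : v = 1 := Subtype.ext (Subgroup.mem_bot.1 (hclos.le v.2))
    rw [hu, hv]
  have hp : Cfsg.IsPrimitiveUnderConj E := by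
    apply (Cfsg.Agent.S5361.result hE hZ hw).1.1
    rw [hperf]
    haveI := hsimple
    exact (Subgroup.topEquiv (G := ↥C ⧸ N)).isSimpleGroup
  obtain ⟨F, _, _, _, data⟩ := Cfsg.Agent.Lib.ThreeT.M22.exists_data h22 hG hp
  have part1 : ∀ x : ↥C ⧸ N, orderOf x = 2 → ∃ y : ↥C, orderOf y = 2 ∧ (QuotientGroup.mk y : ↥C ⧸ N) = x := by
    intro x hx
    have hxx : x * x = 1 := by
      have := pow_orderOf_eq_one x
      rw [hx, pow_two] at this
      exact this
    have hx1 : x ≠ 1 := by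
      rintro rfl
      simp at hx
    obtain ⟨y, hy1, hy2⟩ := Cfsg.Agent.Lib.ThreeT.M22.lift_invol π hsurj hz hz1 hker hcen hπz hG hp hZ data hxx
    refine ⟨y, ?_, hy1⟩
    apply orderOf_eq_prime (by rw [pow_two]; exact hy2)
    rintro rfl
    apply hx1
    rw [← hy1, map_one]
  refine ⟨part1, ?_⟩
  rintro ⟨g, hg⟩
  have hgC : g ∈ C := by
    apply Subgroup.mem_centralizer_iff.2
    intro z hz
    rw [Set.mem_singleton_iff] at hz
    rw [hz, ← hg, pow_two]
    group
  have hgg : (⟨g, hgC⟩ : ↥C) * ⟨g, hgC⟩ ∈ N := by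
    apply Subgroup.mem_subgroupOf.2
    show g * g ∈ Subgroup.zpowers d
    rw [← pow_two, hg]
    exact Subgroup.mem_zpowers d
  have h1 : (QuotientGroup.mk (⟨g, hgC⟩ : ↥C) : ↥C ⧸ N) * QuotientGroup.mk ⟨g, hgC⟩ = 1 :=
    (QuotientGroup.eq_one_iff _).2 hgg
  have h2 : (QuotientGroup.mk (⟨g, hgC⟩ : ↥C) : ↥C ⧸ N) ≠ 1 := by
    intro h
    have h3 := (QuotientGroup.eq_one_iff _).1 h
    obtain ⟨k, hk⟩ := hmemN _ h3
    have hgk : g = d ^ k := hk
    have h4 : d = 1 := by
      rw [← hg, hgk, pow_two]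
      have h1 : d ^ k * d ^ k = (d * d) ^ k := by
        rw [(Commute.refl d).mul_zpow]
      rw [h1, hd2, one_zpow]
    exact hd1 h4
  have h3 : orderOf (QuotientGroup.mk (⟨g, hgC⟩ : ↥C) : ↥C ⧸ N) = 2 :=
    orderOf_eq_prime (by rw [pow_two]; exact h1) h2
  obtain ⟨y, hy, hyg⟩ := part1 _ h3
  have hyy : y * y = 1 := by
    have := pow_orderOf_eq_one y
    rw [hy, pow_two] at this
    exact this
  have h4 : (⟨g, hgC⟩ : ↥C)⁻¹ * y ∈ N := by
    have := QuotientGroup.eq.1 hyg.symm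
    exact this
  obtain ⟨a, ha⟩ : ∃ a : ↥C, a = (⟨g, hgC⟩ : ↥C)⁻¹ * y := ⟨_, rfl⟩
  rw [← ha] at h4
  have h5 : y = ⟨g, hgC⟩ * a := by rw [ha]; group
  have h6 : y * y = (⟨g, hgC⟩ * ⟨g, hgC⟩) * (a * a) := by
    rw [h5]
    calc (⟨g, hgC⟩ : ↥C) * a * (⟨g, hgC⟩ * a) = ⟨g, hgC⟩ * (a * ⟨g, hgC⟩) * a := by group
      _ = ⟨g, hgC⟩ * (⟨g, hgC⟩ * a) * a := by rw [hcomm a h4]
      _ = _ := by group
  rw [hyy, hsq a h4, mul_one] at h6
  have h7 : g * g = 1 := (congrArg Subtype.val h6).symm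
  apply hd1
  rw [← hg, pow_two, h7]

end Cfsg.Agent.S5453
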