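-- Statement S5459 (row 5459).
import Cfsg.Statements.S5459

set_option autoImplicit false
open Cfsg

namespace Cfsg.Agent.S5459

open scoped commutatorElement

variable {G : Type*} [Group G]

private lemma conj_mem_conjugatesOf {d x : G} (hx : x ∈ conjugatesOf d) (g : G) :
    g * x * g⁻¹ ∈ conjugatesOf d :=
  (show IsConj d x from hx).trans (isConj_iff.mpr ⟨g, rfl⟩)

/-- Conjugation by `g` as a graph homomorphism of the commuting graph of `D`. -/
private def conjHom (d g : G) :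
    Cfsg.commutingGraph (conjugatesOf d) →g Cfsg.commutingGraph (conjugatesOf d) where
  toFun x := ⟨g * x.1 * g⁻¹, conj_mem_conjugatesOf x.2 g⟩
  map_rel' := by
    intro a b hab
    rw [Cfsg.commutingGraph, SimpleGraph.fromRel_adj] at hab ⊢
    obtain ⟨hne, h⟩ := hab
    constructor
    · intro h2
      apply hne
      apply Subtype.ext
      have h3 := congrArg Subtype.val h2
      simpa using h3
    · rcases h with h | h
      · left
        show g * a.1 * g⁻¹ * (g * b.1 * g⁻¹) = g * b.1 * g⁻¹ * (g * a.1 * g⁻¹)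
        have h4 : a.1 * b.1 = b.1 * a.1 := h
        calc g * a.1 * g⁻¹ * (g * b.1 * g⁻¹) = g * (a.1 * b.1) * g⁻¹ := by group
          _ = g * (b.1 * a.1) * g⁻¹ := by rw [h4]
          _ = _ := by group
      · right
        show g * b.1 * g⁻¹ * (g * a.1 * g⁻¹) = g * a.1 * g⁻¹ * (g * b.1 * g⁻¹)
        have h4 : b.1 * a.1 = a.1 * b.1 := h
        calc g * b.1 * g⁻¹ * (g * a.1 * g⁻¹) = g * (b.1 * a.1) * g⁻¹ := by group
          _ = g * (a.1 * b.1) * g⁻¹ := by rw [h4]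
          _ = _ := by group

private lemma central_commutator {G : Type*} [Group G] {c₁ c₂ : G} (h₁ : c₁ ∈ Subgroup.center G)
    (h₂ : c₂ ∈ Subgroup.center G) (x y : G) : ⁅c₁ * x, c₂ * y⁆ = ⁅x, y⁆ := by
  have h₁' : ∀ g, g * c₁ = c₁ * g := fun g => Subgroup.mem_center_iff.mp h₁ g
  have h₂' : ∀ g, g * c₂ = c₂ * g := fun g => Subgroup.mem_center_iff.mp h₂ g
  have hAB : c₁ * x * (c₂ * y) = (c₁ * c₂) * (x * y) := by
    calc c₁ * x * (c₂ * y) = c₁ * (x * c₂) * y := by group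
      _ = c₁ * (c₂ * x) * y := by rw [h₂']
      _ = _ := by group
  have hBA : c₂ * y * (c₁ * x) = (c₁ * c₂) * (y * x) := by
    calc c₂ * y * (c₁ * x) = c₂ * (y * c₁) * x := by group
      _ = c₂ * (c₁ * y) * x := by rw [h₁']
      _ = (c₂ * c₁) * (y * x) := by group
      _ = (c₁ * c₂) * (y * x) := by rw [h₂' c₁]
  have hc : ∀ g, g * (c₁ * c₂) = (c₁ * c₂) * g := by
    intro g
    calc g * (c₁ * c₂) = (g * c₁) * c₂ := by group
      _ = (c₁ * g) * c₂ := by rw [h₁']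
      _ = c₁ * (g * c₂) := by group
      _ = c₁ * (c₂ * g) := by rw [h₂']
      _ = _ := by group
  rw [commutatorElement_def, commutatorElement_def]
  calc c₁ * x * (c₂ * y) * (c₁ * x)⁻¹ * (c₂ * y)⁻¹
      = (c₁ * x * (c₂ * y)) * (c₂ * y * (c₁ * x))⁻¹ := by group
    _ = ((c₁ * c₂) * (x * y)) * ((c₁ * c₂) * (y * x))⁻¹ := by rw [hAB, hBA]
    _ = (c₁ * c₂) * (x * y * x⁻¹ * y⁻¹) * (c₁ * c₂)⁻¹ := by group
    _ = (x * y * x⁻¹ * y⁻¹) * (c₁ * c₂) * (c₁ * c₂)⁻¹ := by rw [hc (x * y * x⁻¹ * y⁻¹)]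
    _ = x * y * x⁻¹ * y⁻¹ := by group

theorem result {G : Type*} [Group G] [Finite G] (L : Subgroup G) [L.Normal] (hL : Cfsg.IsQuasisimple ↥L) (d : G) (hd : orderOf d = 2) (hgen : L ⊔ Subgroup.zpowers d = ⊤) (hodd : Odd (Nat.card ↥(Subgroup.center ↥L))) (hinv : ∀ c ∈ (Subgroup.center ↥L).map L.subtype, d * c * d⁻¹ = c⁻¹) [hn : ((Subgroup.center ↥L).map L.subtype).Normal] (hconn : (Cfsg.commutingGraph (conjugatesOf (QuotientGroup.mk d : G ⧸ (Subgroup.center ↥L).map L.subtype))).Connected) : (Cfsg.commutingGraph (conjugatesOf d)).Connected := by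
  classical
  set Z : Subgroup G := (Subgroup.center ↥L).map L.subtype with hZ
  have hZcard : Odd (Nat.card Z) := by
    have : Nat.card Z = Nat.card (Subgroup.center L) :=
      Nat.card_congr (Subgroup.equivMapOfInjective _ _ L.subtype_injective).symm.toEquiv
    rw [this]; exact hodd
  -- elements of Z commute
  have hZcomm : ∀ a ∈ Z, ∀ b ∈ Z, a * b = b * a := by
    rintro _ ⟨a, ha, rfl⟩ _ ⟨b, hb, rfl⟩
    have := Subgroup.mem_center_iff.mp ha b
    exact (congrArg Subtype.val this).symm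
  -- square roots in Z
  have hsqrt : ∀ c ∈ Z, ∃ w ∈ Z, w * w = c := by
    intro c hc
    obtain ⟨k, hk⟩ := hZcard
    refine ⟨c ^ (k + 1), Z.pow_mem hc _, ?_⟩
    rw [← pow_add]
    have h1 : k + 1 + (k + 1) = Nat.card Z + 1 := by omega
    have h2 : c ^ Nat.card Z = 1 := by
      have := pow_card_eq_one' (G := Z) (x := ⟨c, hc⟩)
      exact congrArg Subtype.val this
    rw [h1, pow_succ, h2, one_mul]
  have hdd : d * d = 1 := by
    have := pow_orderOf_eq_one d
    rwa [hd, pow_two] at this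
  set D := conjugatesOf d with hD
  -- all members of D are involutions inverting Z
  have hDinv : ∀ a ∈ D, ∀ c ∈ Z, a * c * a⁻¹ = c⁻¹ := by
    intro a ha c hc
    obtain ⟨g, rfl⟩ := isConj_iff.mp (show IsConj d a from ha)
    have h1 : g⁻¹ * c * g ∈ Z := by
      have := hn.conj_mem c hc g⁻¹
      simpa using this
    have h2 := hinv _ h1
    calc g * d * g⁻¹ * c * (g * d * g⁻¹)⁻¹ = g * (d * (g⁻¹ * c * g) * d⁻¹) * g⁻¹ := by group
      _ = g * (g⁻¹ * c * g)⁻¹ * g⁻¹ := by rw [h2]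
      _ = c⁻¹ := by group
  have hDsq : ∀ a ∈ D, a * a = 1 := by
    intro a ha
    obtain ⟨g, rfl⟩ := isConj_iff.mp (show IsConj d a from ha)
    calc g * d * g⁻¹ * (g * d * g⁻¹) = g * (d * d) * g⁻¹ := by group
      _ = 1 := by rw [hdd]; group
  -- fibres of the quotient map are Z-orbits
  have hfibre : ∀ a ∈ D, ∀ c ∈ Z, ∃ s ∈ Z, c * a = s * a * s⁻¹ := by
    intro a ha c hc
    obtain ⟨s, hs, hs2⟩ := hsqrt c hc
    refine ⟨s, hs, ?_⟩
    have h1 : a * s⁻¹ * a⁻¹ = s := by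
      have := hDinv a ha s⁻¹ (Z.inv_mem hs)
      simpa using this
    calc c * a = s * s * a := by rw [hs2]
      _ = s * (a * s⁻¹ * a⁻¹) * a := by rw [h1]
      _ = s * a * s⁻¹ := by group
  -- lift of an edge
  have hlift : ∀ a ∈ D, ∀ b ∈ D,
      (QuotientGroup.mk a : G ⧸ Z) * QuotientGroup.mk b = QuotientGroup.mk b * QuotientGroup.mk a →
      ∃ b' ∈ D, (QuotientGroup.mk b' : G ⧸ Z) = QuotientGroup.mk b ∧ a * b' = b' * a := by
    intro a ha b hb hab
    have haa := hDsq a ha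
    have hbb := hDsq b hb
    have hai : a⁻¹ = a := inv_eq_of_mul_eq_one_left haa
    have hbi : b⁻¹ = b := inv_eq_of_mul_eq_one_left hbb
    -- (ab)² ∈ Z
    have hc : (a * b) * (a * b) ∈ Z := by
      have h1 : (QuotientGroup.mk ((a * b) * (a * b)) : G ⧸ Z) = 1 := by
        have h2 : (QuotientGroup.mk a : G ⧸ Z) * QuotientGroup.mk a = 1 := by
          rw [← QuotientGroup.mk_mul, haa]; rfl
        have h3 : (QuotientGroup.mk b : G ⧸ Z) * QuotientGroup.mk b = 1 := by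
          rw [← QuotientGroup.mk_mul, hbb]; rfl
        rw [QuotientGroup.mk_mul, QuotientGroup.mk_mul]
        calc (QuotientGroup.mk a : G ⧸ Z) * QuotientGroup.mk b * (QuotientGroup.mk a * QuotientGroup.mk b)
            = QuotientGroup.mk a * (QuotientGroup.mk b * QuotientGroup.mk a) * QuotientGroup.mk b := by group
          _ = QuotientGroup.mk a * (QuotientGroup.mk a * QuotientGroup.mk b) * QuotientGroup.mk b := by rw [hab]
          _ = (QuotientGroup.mk a * QuotientGroup.mk a) * (QuotientGroup.mk b * QuotientGroup.mk b) := by group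
          _ = 1 := by rw [h2, h3, one_mul]
      exact (QuotientGroup.eq_one_iff _).mp h1
    obtain ⟨w, hw, hw2⟩ := hsqrt _ hc
    -- ab commutes with Z
    have habw : (a * b) * w = w * (a * b) := by
      have h1 := hDinv a ha _ (Z.inv_mem hw)
      have h2 := hDinv b hb w hw
      have h3 : a * w⁻¹ * a⁻¹ = w := by simpa using h1
      calc a * b * w = a * (b * w * b⁻¹) * b := by group
        _ = a * w⁻¹ * b := by rw [h2]
        _ = (a * w⁻¹ * a⁻¹) * (a * b) := by group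
        _ = w * (a * b) := by rw [h3]
    obtain ⟨s, hs, hs2⟩ := hfibre b hb w hw
    refine ⟨w * b, ?_, ?_, ?_⟩
    · rw [hs2]
      exact conj_mem_conjugatesOf hb s
    · rw [QuotientGroup.eq]
      have : (w * b)⁻¹ * b = b⁻¹ * w⁻¹ * b := by group
      rw [this, hbi]
      have h1 := hDinv b hb w⁻¹ (Z.inv_mem hw)
      rw [hbi] at h1
      rw [h1]
      simpa using hw
    · -- a w b squared is 1
      have h1 : a * (w * b) = w⁻¹ * (a * b) := by
        have h2 := hDinv a ha w hw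
        calc a * (w * b) = (a * w * a⁻¹) * (a * b) := by group
          _ = w⁻¹ * (a * b) := by rw [h2]
      have h2 : (a * (w * b)) * (a * (w * b)) = 1 := by
        rw [h1]
        calc w⁻¹ * (a * b) * (w⁻¹ * (a * b)) = w⁻¹ * ((a * b) * w⁻¹) * (a * b) := by group
          _ = w⁻¹ * (w⁻¹ * (a * b)) * (a * b) := by
              have : (a * b) * w⁻¹ = w⁻¹ * (a * b) := by
                have h5 : w⁻¹ * ((a * b) * w) * w⁻¹ = w⁻¹ * (w * (a * b)) * w⁻¹ := by rw [habw]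
                calc (a * b) * w⁻¹ = w⁻¹ * (w * ((a * b) * w⁻¹)) := by group
                  _ = w⁻¹ * ((w * (a * b)) * w⁻¹) := by group
                  _ = w⁻¹ * (((a * b) * w) * w⁻¹) := by rw [habw]
                  _ = w⁻¹ * (a * b) := by group
              rw [this]
          _ = (w * w)⁻¹ * ((a * b) * (a * b)) := by group
          _ = 1 := by rw [hw2]; group
      have hbw : (w * b) * (w * b) = 1 := by
        have h3 : b * w * b⁻¹ = w⁻¹ := hDinv b hb w hw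
        calc (w * b) * (w * b) = w * (b * w * b⁻¹) * (b * b) := by group
          _ = 1 := by rw [h3, hbb]; group
      have h3 : (a * (w * b))⁻¹ = a * (w * b) := inv_eq_of_mul_eq_one_left h2
      rw [mul_inv_rev, inv_eq_of_mul_eq_one_left hbw, hai] at h3
      exact h3.symm
  -- lifting of paths
  set Γ := Cfsg.commutingGraph D with hΓ
  set Dbar := conjugatesOf (QuotientGroup.mk d : G ⧸ Z) with hDbar
  set Γb := Cfsg.commutingGraph Dbar with hΓb
  have hlv : ∀ x : G ⧸ Z, x ∈ Dbar → ∃ b ∈ D, (QuotientGroup.mk b : G ⧸ Z) = x := by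
    intro x hx
    obtain ⟨g, rfl⟩ := isConj_iff.mp (show IsConj (QuotientGroup.mk d : G ⧸ Z) x from hx)
    obtain ⟨g, rfl⟩ := QuotientGroup.mk_surjective g
    refine ⟨g * d * g⁻¹, conj_mem_conjugatesOf (mem_conjugatesOf_self) g, ?_⟩
    simp
  have hwalk : ∀ (x y : Dbar) (p : Γb.Walk x y) (a : D), (QuotientGroup.mk a.1 : G ⧸ Z) = x.1 →
      ∃ b : D, (QuotientGroup.mk b.1 : G ⧸ Z) = y.1 ∧ Γ.Reachable a b := by
    intro x y p
    induction p with
    | nil =>
      intro a ha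
      exact ⟨a, ha, SimpleGraph.Reachable.refl _⟩
    | @cons u v w hadj p ih =>
      intro a ha
      rw [hΓb, Cfsg.commutingGraph, SimpleGraph.fromRel_adj] at hadj
      obtain ⟨hne, hcomm⟩ := hadj
      have hcomm' : (QuotientGroup.mk a.1 : G ⧸ Z) * v.1 = v.1 * QuotientGroup.mk a.1 := by
        rw [ha]
        rcases hcomm with h | h
        · exact h
        · exact h.symm
      obtain ⟨b, hb, hbv⟩ := hlv v.1 v.2
      rw [← hbv] at hcomm'
      obtain ⟨b', hb', hb'v, hab'⟩ := hlift a.1 a.2 b hb hcomm'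
      obtain ⟨c, hc1, hc2⟩ := ih ⟨b', hb'⟩ (hb'v.trans hbv)
      refine ⟨c, hc1, ?_⟩
      refine SimpleGraph.Reachable.trans (SimpleGraph.Adj.reachable ?_) hc2
      rw [hΓ, Cfsg.commutingGraph, SimpleGraph.fromRel_adj]
      refine ⟨?_, Or.inl hab'⟩
      intro h
      apply hne
      apply Subtype.ext
      rw [← ha, ← hbv, ← hb'v]
      exact congrArg (fun t : D => (QuotientGroup.mk t.1 : G ⧸ Z)) h
  have hdD : d ∈ D := mem_conjugatesOf_self
  -- the subgroup K
  let K : Subgroup G :=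
    { carrier := {g | Γ.Reachable ⟨d, hdD⟩ ⟨g * d * g⁻¹, conj_mem_conjugatesOf hdD g⟩}
      one_mem' := by
        have h : (⟨1 * d * 1⁻¹, conj_mem_conjugatesOf hdD 1⟩ : D) = ⟨d, hdD⟩ :=
          Subtype.ext (by group)
        show Γ.Reachable _ _
        rw [h]
      mul_mem' := by
        intro g h hg hh
        have h1 : Γ.Reachable ⟨d, hdD⟩ ⟨g * d * g⁻¹, conj_mem_conjugatesOf hdD g⟩ := hg
        have h2 : Γ.Reachable ⟨d, hdD⟩ ⟨h * d * h⁻¹, conj_mem_conjugatesOf hdD h⟩ := hh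
        have h3 := h2.map (conjHom d g)
        have h4 : (conjHom d g) ⟨h * d * h⁻¹, conj_mem_conjugatesOf hdD h⟩ =
            ⟨(g * h) * d * (g * h)⁻¹, conj_mem_conjugatesOf hdD (g * h)⟩ :=
          Subtype.ext (by show g * (h * d * h⁻¹) * g⁻¹ = _; group)
        have h5 : (conjHom d g) ⟨d, hdD⟩ = ⟨g * d * g⁻¹, conj_mem_conjugatesOf hdD g⟩ := rfl
        rw [h4, h5] at h3
        exact h1.trans h3
      inv_mem' := by
        intro g hg
        have h1 : Γ.Reachable ⟨d, hdD⟩ ⟨g * d * g⁻¹, conj_mem_conjugatesOf hdD g⟩ := hg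
        have h3 := h1.map (conjHom d g⁻¹)
        have h4 : (conjHom d g⁻¹) ⟨g * d * g⁻¹, conj_mem_conjugatesOf hdD g⟩ = ⟨d, hdD⟩ :=
          Subtype.ext (by show g⁻¹ * (g * d * g⁻¹) * g⁻¹⁻¹ = _; group)
        rw [h4] at h3
        exact h3.symm }
  have hKmem : ∀ g, g ∈ K ↔ Γ.Reachable ⟨d, hdD⟩ ⟨g * d * g⁻¹, conj_mem_conjugatesOf hdD g⟩ :=
    fun g => Iff.rfl
  -- G = Z K
  have hZK : ∀ g : G, ∃ s ∈ Z, s * g ∈ K := by
    intro g
    have hx := conj_mem_conjugatesOf hdD g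
    have hxbar : (QuotientGroup.mk (g * d * g⁻¹) : G ⧸ Z) ∈ Dbar :=
      (show IsConj (QuotientGroup.mk d : G ⧸ Z) _ from
        isConj_iff.mpr ⟨QuotientGroup.mk g, by simp⟩)
    obtain ⟨p⟩ := hconn.preconnected ⟨QuotientGroup.mk d, mem_conjugatesOf_self⟩ ⟨_, hxbar⟩
    obtain ⟨b, hb1, hb2⟩ := hwalk _ _ p ⟨d, hdD⟩ rfl
    have hb1' : (QuotientGroup.mk (b : G) : G ⧸ Z) = QuotientGroup.mk (g * d * g⁻¹) := hb1
    have hc : (b : G) * (g * d * g⁻¹)⁻¹ ∈ Z := by
      have h1 := QuotientGroup.eq.mp hb1'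
      have h2 := hn.conj_mem _ h1 b
      have h3 : (b : G) * ((b : G)⁻¹ * (g * d * g⁻¹)) * (b : G)⁻¹ = g * d * g⁻¹ * (b : G)⁻¹ := by group
      rw [h3] at h2
      have h4 := Z.inv_mem h2
      simpa using h4
    obtain ⟨s, hs, hs2⟩ := hfibre _ hx _ hc
    refine ⟨s, hs, ?_⟩
    rw [hKmem]
    have h5 : (b : G) = (s * g) * d * (s * g)⁻¹ := by
      have h6 : (b : G) * (g * d * g⁻¹)⁻¹ * (g * d * g⁻¹) = b := by group
      rw [← h6, hs2]
      group
    have h7 : (⟨(s * g) * d * (s * g)⁻¹, conj_mem_conjugatesOf hdD (s * g)⟩ : D) = b :=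
      Subtype.ext h5.symm
    rw [h7]
    exact hb2
  -- L ≤ K
  have hLK : L ≤ K := by
    have hperf : commutator L = ⊤ := hL.1.commutator_eq_top
    have h1 : commutator L ≤ K.subgroupOf L := by
      rw [commutator_def, Subgroup.commutator_le]
      intro g₁ _ g₂ _
      rw [Subgroup.mem_subgroupOf]
      obtain ⟨s₁, ⟨c₁, hc₁, rfl⟩, hs₁⟩ := hZK g₁
      obtain ⟨s₂, ⟨c₂, hc₂, rfl⟩, hs₂⟩ := hZK g₂
      have h2 : (c₁ * g₁ : G) * (c₂ * g₂ : G) * (c₁ * g₁ : G)⁻¹ * (c₂ * g₂ : G)⁻¹ ∈ K :=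
        K.mul_mem (K.mul_mem (K.mul_mem hs₁ hs₂) (K.inv_mem hs₁)) (K.inv_mem hs₂)
      have h3 : ⁅c₁ * g₁, c₂ * g₂⁆ = ⁅g₁, g₂⁆ := central_commutator hc₁ hc₂ g₁ g₂
      have h4 := congrArg (fun t : L => (t : G)) h3
      simp only [commutatorElement_def, Subgroup.coe_mul, Subgroup.coe_inv] at h4
      simp only [commutatorElement_def, Subgroup.coe_mul, Subgroup.coe_inv]
      rw [← h4]
      exact h2
    intro x hx
    have h2 : (⟨x, hx⟩ : L) ∈ commutator L := by rw [hperf]; trivial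
    exact h1 h2
  have hdK : d ∈ K := by
    rw [hKmem]
    have h : (⟨d * d * d⁻¹, conj_mem_conjugatesOf hdD d⟩ : D) = ⟨d, hdD⟩ :=
      Subtype.ext (by group)
    rw [h]
  have hKtop : K = ⊤ := by
    rw [eq_top_iff, ← hgen]
    apply sup_le hLK
    rw [Subgroup.zpowers_le]
    exact hdK
  have : Nonempty D := ⟨⟨d, hdD⟩⟩
  have hreach : ∀ x : D, Γ.Reachable ⟨d, hdD⟩ x := by
    intro x
    obtain ⟨g, hg⟩ := isConj_iff.mp (show IsConj d x.1 from x.2)
    have h1 : g ∈ K := by rw [hKtop]; trivial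
    rw [hKmem] at h1
    have h2 : (⟨g * d * g⁻¹, conj_mem_conjugatesOf hdD g⟩ : D) = x := Subtype.ext hg
    rwa [h2] at h1
  exact ⟨fun x y => (hreach x).symm.trans (hreach y)⟩

end Cfsg.Agent.S5459
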