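import Cfsg.Statements.S5463
import Cfsg.Agent.Lib.ThreeT.M22

set_option autoImplicit false
open Cfsg

namespace Cfsg.Agent.S5463

open Cfsg.Agent.Lib.ThreeT.Relations Cfsg.Agent.Lib.ThreeT.NoSix Cfsg.Agent.Lib.ThreeT.M22 in
-- helper
theorem two_list {G : Type*} [Group G] (l : List G) (h : l.length = 2) : ∃ a b, l = [a, b] := by
  match l, h with
  | [a, b], _ => exact ⟨a, b, rfl⟩

theorem three_list {G : Type*} [Group G] (l : List G) (h : l.length = 3) : ∃ a b c, l = [a, b, c] := by
  match l, h with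
  | [a, b, c], _ => exact ⟨a, b, c, rfl⟩

/-- Let G be a finite group with trivial centre generated by a conjugation-invariant set D of 3-transpositions on which it acts primitively, such that for some d in D the subgroup generated by the members of D other than d commuting with d has central largest normal 2- and 3-subgroups, and suppose G with D is of type M(22). A product j of two distinct commuting members of D determines the pair: any two 2-element sets of commuting members of D with product j coincide. A product j of three distinct pairwise commuting members of D arises from exactly two such 3-element sets. -/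
theorem result {G : Type*} [Group G] [Finite G] {D : Set G} (hD : Cfsg.IsThreeTranspositionGroup D) (hprim : Cfsg.IsPrimitiveUnderConj D) (d₀ : G) (hd₀ : d₀ ∈ D) (h3 : Cfsg.pCore 3 ↥(Subgroup.closure {y : G | y ∈ D ∧ y ≠ d₀ ∧ Commute d₀ y}) ≤ Subgroup.center ↥(Subgroup.closure {y : G | y ∈ D ∧ y ≠ d₀ ∧ Commute d₀ y})) (h2 : Cfsg.pCore 2 ↥(Subgroup.closure {y : G | y ∈ D ∧ y ≠ d₀ ∧ Commute d₀ y}) ≤ Subgroup.center ↥(Subgroup.closure {y : G | y ∈ D ∧ y ≠ d₀ ∧ Commute d₀ y})) (h22 : Cfsg.IsOfTypeM22 G D) : (∀ (j : G) (l l' : List G), (l.Nodup ∧ l.length = 2 ∧ (∀ a ∈ l, a ∈ D) ∧ (∀ a ∈ l, ∀ b ∈ l, Commute a b) ∧ l.prod = j) → (l'.Nodup ∧ l'.length = 2 ∧ (∀ a ∈ l', a ∈ D) ∧ (∀ a ∈ l', ∀ b ∈ l', Commute a b) ∧ l'.prod = j) → (∀ x : G, x ∈ l ↔ x ∈ l')) ∧ ∀ (j : G) (l₀ : List G), (l₀.Nodup ∧ l₀.length = 3 ∧ (∀ a ∈ l₀, a ∈ D) ∧ (∀ a ∈ l₀, ∀ b ∈ l₀, Commute a b) ∧ l₀.prod = j) → ∃ l₁ l₂ : List G, (l₁.Nodup ∧ l₁.length = 3 ∧ (∀ a ∈ l₁, a ∈ D) ∧ (∀ a ∈ l₁, ∀ b ∈ l₁, Commute a b) ∧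 l₁.prod = j) ∧ (l₂.Nodup ∧ l₂.length = 3 ∧ (∀ a ∈ l₂, a ∈ D) ∧ (∀ a ∈ l₂, ∀ b ∈ l₂, Commute a b) ∧ l₂.prod = j) ∧ ¬ (∀ x : G, x ∈ l₁ ↔ x ∈ l₂) ∧ ∀ l : List G, (l.Nodup ∧ l.length = 3 ∧ (∀ a ∈ l, a ∈ D) ∧ (∀ a ∈ l, ∀ b ∈ l, Commute a b) ∧ l.prod = j) → ((∀ x : G, x ∈ l ↔ x ∈ l₁) ∨ (∀ x : G, x ∈ l ↔ x ∈ l₂)) := by
  open Cfsg.Agent.Lib.ThreeT.Relations Cfsg.Agent.Lib.ThreeT.NoSix Cfsg.Agent.Lib.ThreeT.M22 in
  obtain ⟨F, _, _, _, data⟩ := exists_data h22 hD hprim
  have hZ := h22.1
  constructor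
  · rintro j l l' ⟨h1, h2, h3, h4, h5⟩ ⟨h1', h2', h3', h4', h5'⟩ x
    obtain ⟨a, b, rfl⟩ := two_list l h2
    obtain ⟨r, s, rfl⟩ := two_list l' h2'
    simp only [List.nodup_cons, List.mem_cons, List.not_mem_nil, or_false, not_false_eq_true, List.nodup_nil, and_true] at h1 h1'
    simp only [List.prod_cons, List.prod_nil, mul_one] at h5 h5'
    rcases two_unique hD hprim (h3 a (by simp)) (h3 b (by simp)) (h3' r (by simp)) (h3' s (by simp)) h1
      (h4 a (by simp) b (by simp)) h1' (h4' r (by simp) s (by simp)) (h5.trans h5'.symm) with ⟨rfl, rfl⟩ | ⟨rfl, rfl⟩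
    · exact Iff.rfl
    · simp only [List.mem_cons, List.not_mem_nil, or_false]
      exact or_comm
  · rintro j l₀ ⟨h1, h2, h3, h4, h5⟩
    obtain ⟨a, b, c, rfl⟩ := three_list l₀ h2
    simp only [List.nodup_cons, List.mem_cons, List.not_mem_nil, or_false, not_or, not_false_eq_true, List.nodup_nil, and_true] at h1
    simp only [List.prod_cons, List.prod_nil, mul_one] at h5
    obtain ⟨⟨hab, hac⟩, hbc⟩ := h1
    have ha := h3 a (by simp)
    have hb := h3 b (by simp)
    have hc := h3 c (by simp)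
    have cab := h4 a (by simp) b (by simp)
    have cac := h4 a (by simp) c (by simp)
    have cbc := h4 b (by simp) c (by simp)
    obtain ⟨r, s, t, hR, hprod, hall⟩ := hexad_main hD hprim hZ data ha hb hc hab hac hbc cab cac cbc
    have hnd := hR.nodup
    simp only [List.nodup_cons, List.mem_cons, List.not_mem_nil, or_false, not_or, List.nodup_nil,
      not_false_eq_true, and_true] at hnd
    obtain ⟨⟨n1, n2, n3, n4, n5⟩, ⟨n6, n7, n8, n9⟩, ⟨n10, n11, n12⟩, ⟨n13, n14⟩, n15⟩ := hnd
    have hprod' : a * (b * c) = a * b * c := by group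
    have h5' : ([a, b, c] : List G).prod = j := by simpa using h5
    refine ⟨[a, b, c], [r, s, t], ⟨?_, rfl, h3, h4, h5'⟩, ⟨?_, rfl, ?_, ?_, ?_⟩, ?_, ?_⟩
    · simp only [List.nodup_cons, List.mem_cons, List.not_mem_nil, or_false, not_or, not_false_eq_true, List.nodup_nil, and_true]
      exact ⟨⟨hab, hac⟩, hbc⟩
    · simp only [List.nodup_cons, List.mem_cons, List.not_mem_nil, or_false, not_or, not_false_eq_true, List.nodup_nil, and_true]
      exact ⟨⟨n13, n14⟩, n15⟩
    · intro x hx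
      exact hR.mem x (by simp only [List.mem_cons, List.not_mem_nil, or_false] at hx ⊢; tauto)
    · intro x hx y hy
      exact hR.comm x (by simp only [List.mem_cons, List.not_mem_nil, or_false] at hx ⊢; tauto) y (by simp only [List.mem_cons, List.not_mem_nil, or_false] at hy ⊢; tauto)
    · simp only [List.prod_cons, List.prod_nil, mul_one]
      rw [← h5, hprod', hprod]
      group
    · intro h
      have := (h a).1 (by simp)
      simp only [List.mem_cons, List.not_mem_nil, or_false] at this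
      rcases this with h0 | h0 | h0
      · exact n3 h0
      · exact n4 h0
      · exact n5 h0
    · rintro l ⟨h6, h7, h8, h9, h10⟩
      obtain ⟨x, y, z, rfl⟩ := three_list l h7
      simp only [List.nodup_cons, List.mem_cons, List.not_mem_nil, or_false, not_or, not_false_eq_true, List.nodup_nil, and_true] at h6
      simp only [List.prod_cons, List.prod_nil, mul_one] at h10
      obtain ⟨⟨hxy, hxz⟩, hyz⟩ := h6
      have h11 : x * y * z = a * b * c := by
        rw [hprod'.symm, h5, ← h10]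
        group
      rcases hall x y z (h8 x (by simp)) (h8 y (by simp)) (h8 z (by simp)) hxy hxz hyz (h9 x (by simp) y (by simp))
        (h9 x (by simp) z (by simp)) (h9 y (by simp) z (by simp)) h11 with h | h
      · left
        intro w
        simp only [List.mem_cons, List.not_mem_nil, or_false]
        exact (h w).symm
      · right
        intro w
        simp only [List.mem_cons, List.not_mem_nil, or_false]
        exact (h w).symm

end Cfsg.Agent.S5463
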