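import Cfsg.Statements.S5469
import Cfsg.Agent.Lib.ThreeT.M22v

set_option autoImplicit false
open Cfsg

namespace Cfsg.Agent.S5469

open Cfsg.Agent.Lib.ThreeT.M22 Cfsg.Agent.Lib.ThreeT.Basic Cfsg.Agent.Lib.ThreeT.Class Cfsg.Agent.Lib.ThreeT.Relations Cfsg.Agent.Lib.ThreeT.Rank3

/-- Let G be a finite group with trivial centre generated by a conjugation-invariant set D of 3-transpositions on which it acts primitively, such that for some d in D the subgroup generated by the members of D other than d commuting with d has central largest normal 2- and 3-subgroups, and suppose G with D is of type M(22). Let d₁, d₂ be distinct commuting members of D, j = d₁ d₂, K the joint centralizer of d₁ and d₂, C the centralizer of j and V the subgroup generated by d₁ and d₂. Then K has index 2 in C, V is the centre of K, and C has a normal subgroup E containing V with E/V elementary abelian of order 2^8 and C/E isomorphic to the full automorphism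 group of the projective special unitary group of dimension 4 over the field with four elements. -/
theorem result {G : Type*} [Group G] [Finite G] {D : Set G} (hD : Cfsg.IsThreeTranspositionGroup D) (hprim : Cfsg.IsPrimitiveUnderConj D) (d₀ : G) (hd₀ : d₀ ∈ D) (h3 : Cfsg.pCore 3 ↥(Subgroup.closure {y : G | y ∈ D ∧ y ≠ d₀ ∧ Commute d₀ y}) ≤ Subgroup.center ↥(Subgroup.closure {y : G | y ∈ D ∧ y ≠ d₀ ∧ Commute d₀ y})) (h2 : Cfsg.pCore 2 ↥(Subgroup.closure {y : G | y ∈ D ∧ y ≠ d₀ ∧ Commute d₀ y}) ≤ Subgroup.center ↥(Subgroup.closure {y : G | y ∈ D ∧ y ≠ d₀ ∧ Commute d₀ y})) (h22 : Cfsg.IsOfTypeM22 G D) (d₁ d₂ : G) (h₁ : d₁ ∈ D) (h₂ : d₂ ∈ D) (hne : d₁ ≠ d₂) (hc : Commute d₁ d₂) (K C V : Subgroup G) (hK : K = Subgroup.centralizer ({d₁, d₂} : Set G)) (hC : C = Subgroup.centralizer ({d₁ * d₂} : Set G)) (hV : V = Subgroup.closure ({d₁, d₂} : Set G)) : K ≤ C ∧ (K.subgroupOf C).index = 2 ∧ (Subgroup.center ↥K).map K.subtype = V ∧ ∃ E : Subgroup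 G, V ≤ E ∧ E ≤ C ∧ (∀ c ∈ C, ∀ x ∈ E, c * x * c⁻¹ ∈ E) ∧ Nat.card E = 2 ^ 10 ∧ (∀ x ∈ E, ∀ y ∈ E, x * y * x⁻¹ * y⁻¹ ∈ V ∧ x ^ 2 ∈ V) ∧ ∃ (_ : (E.subgroupOf C).Normal) (F : Type) (_ : Field F) (_ : Fintype F), Fintype.card F = 4 ∧ Nonempty (↥C ⧸ E.subgroupOf C ≃* MulAut (Cfsg.PSU 4 F 2)) := by
  classical
  haveI := Fintype.ofFinite G
  obtain ⟨F, _, _, hF, data⟩ := Cfsg.Agent.Lib.ThreeT.M22.exists_data h22 hD hprim
  obtain ⟨U⟩ := data d₁ h₁
  have hu : d₂ ∈ Da D d₁ := ⟨h₂, hne.symm, hc⟩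
  obtain ⟨U', hb⟩ := exists_chart U hu
  let P : Pt D d₁ d₂ F := ⟨hD, hprim, h22, data, h₁, U', hu, hb⟩
  subst hK hC hV
  refine ⟨P.Kt_le, P.index_Kt, P.map_center, P.EE, P.closure_le_EE, P.EE_le.trans P.Kt_le, fun c hc x hx => P.conj_EE hc hx, P.card_EE,
    fun x hx y hy => P.EE_comm_sq hx hy, P.normal_EE, F, inferInstance, inferInstance, hF.out, ?_⟩
  haveI := P.normal_EE
  exact P.quot_iso

end Cfsg.Agent.S5469
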