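import Cfsg.Statements.S5471
import Cfsg.Agent.Lib.ThreeT.Swap

set_option autoImplicit false
open Cfsg

namespace Cfsg.Agent.S5471

open Cfsg.Agent.Lib.ThreeT.NoSix Cfsg.Agent.Lib.ThreeT.Relations Cfsg.Agent.Lib.ThreeT.Basic
  Cfsg.Agent.Lib.ThreeT.Rank3 Cfsg.Agent.Lib.ThreeT.Swap

/-- Every permutation of three points is a word in two transpositions. -/
theorem perm3_cases : ∀ σ : Equiv.Perm (Fin 3), σ = 1 ∨ σ = Equiv.swap 0 1 ∨ σ = Equiv.swap 1 2 ∨
    σ = Equiv.swap 0 1 * Equiv.swap 1 2 ∨ σ = Equiv.swap 1 2 * Equiv.swap 0 1 ∨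
    σ = Equiv.swap 0 1 * Equiv.swap 1 2 * Equiv.swap 0 1 := by
  decide

/-- Let G be a finite group with trivial centre generated by a conjugation-invariant set D of 3-transpositions on which it acts primitively, such that for some d in D the subgroup generated by the members of D other than d commuting with d has central largest normal 2- and 3-subgroups, and suppose G with D is of type M(23). Let d₁, d₂, d₃ be distinct pairwise commuting members of D and j their product. Then the joint centralizer of d₁, d₂, d₃ is normal in the centralizer of j with quotient isomorphic to the symmetric group of degree 3. -/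
theorem result {G : Type*} [Group G] [Finite G] {D : Set G} (hD : Cfsg.IsThreeTranspositionGroup D) (hprim : Cfsg.IsPrimitiveUnderConj D) (d₀ : G) (hd₀ : d₀ ∈ D) (h3 : Cfsg.pCore 3 ↥(Subgroup.closure {y : G | y ∈ D ∧ y ≠ d₀ ∧ Commute d₀ y}) ≤ Subgroup.center ↥(Subgroup.closure {y : G | y ∈ D ∧ y ≠ d₀ ∧ Commute d₀ y})) (h2 : Cfsg.pCore 2 ↥(Subgroup.closure {y : G | y ∈ D ∧ y ≠ d₀ ∧ Commute d₀ y}) ≤ Subgroup.center ↥(Subgroup.closure {y : G | y ∈ D ∧ y ≠ d₀ ∧ Commute d₀ y})) (h23 : Cfsg.IsOfTypeM23 G D) (d₁ d₂ d₃ : G) (h₁ : d₁ ∈ D) (h₂ : d₂ ∈ D) (h₃ : d₃ ∈ D) (h12 : d₁ ≠ d₂) (h13 : d₁ ≠ d₃) (h23 : d₂ ≠ d₃) (c12 : Commute d₁ d₂) (c13 : Commute d₁ d₃) (c23 : Commute d₂ d₃) (K C : Subgroup G) (hK : K = Subgroup.centralizer ({d₁, d₂, d₃} : Set G)) (hC : C = Subgroup.centralizer ({d₁ * d₂ * d₃} : Set G)) : K ≤ C ∧ ∃ _ : (K.subgroupOf C).Normal, Nonempty (↥C ⧸ K.subgroupOf C ≃* Equiv.Perm (Fin 3)) := by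
  classical
  have h23_ : Cfsg.IsOfTypeM23 G D := by assumption
  subst hK hC
  have hcj := hD.2.1
  have hne12 := h12
  have hne13 := h13
  have hne23 := h23
  have hKC : Subgroup.centralizer ({d₁, d₂, d₃} : Set G) ≤ Subgroup.centralizer ({d₁ * d₂ * d₃} : Set G) := by
    intro x hx
    rw [Subgroup.mem_centralizer_singleton_iff]
    rw [Subgroup.mem_centralizer_iff] at hx
    have h1 := hx d₁ (by simp)
    have h2' := hx d₂ (by simp)
    have h3' := hx d₃ (by simp)
    calc x * (d₁ * d₂ * d₃) = (x * d₁) * d₂ * d₃ := by group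
      _ = d₁ * (x * d₂) * d₃ := by rw [← h1]; group
      _ = d₁ * d₂ * (x * d₃) := by rw [← h2']; group
      _ = d₁ * d₂ * d₃ * x := by rw [← h3']; group
  refine ⟨hKC, ?_⟩
  set C := Subgroup.centralizer ({d₁ * d₂ * d₃} : Set G) with hC
  set K := Subgroup.centralizer ({d₁, d₂, d₃} : Set G) with hK
  let f : Fin 3 → G := ![d₁, d₂, d₃]
  have f0 : f 0 = d₁ := rfl
  have f1 : f 1 = d₂ := rfl
  have f2 : f 2 = d₃ := rfl
  have finj : Function.Injective f := by
    intro a b hab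
    fin_cases a <;> fin_cases b <;> first | rfl | (exfalso; simp only [f, Fin.zero_eta, Fin.mk_one, Fin.reduceFinMk, Matrix.cons_val] at hab; first | exact h12 hab | exact h13 hab | exact h23 hab | exact h12 hab.symm | exact h13 hab.symm | exact h23 hab.symm)
  -- conjugation permutes the three factors
  have key : ∀ (c : C) (i : Fin 3), ∃ i', (c : G) * f i * (c : G)⁻¹ = f i' := by
    intro c i
    have hcj0 := (Subgroup.mem_centralizer_singleton_iff.1 c.2)
    have hprod : ((c : G) * d₁ * (c : G)⁻¹) * ((c : G) * d₂ * (c : G)⁻¹) * ((c : G) * d₃ * (c : G)⁻¹) = d₁ * d₂ * d₃ := by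
      have e : ((c : G) * d₁ * (c : G)⁻¹) * ((c : G) * d₂ * (c : G)⁻¹) * ((c : G) * d₃ * (c : G)⁻¹) =
          (c : G) * (d₁ * d₂ * d₃) * (c : G)⁻¹ := by group
      rw [e, hcj0]; group
    have hcc : ∀ {x y : G}, x ≠ y → (c : G) * x * (c : G)⁻¹ ≠ (c : G) * y * (c : G)⁻¹ := by
      intro x y hxy h
      apply hxy
      simpa using h
    have huniq := three_unique hD hprim d₀ hd₀ h3 h2 (Or.inl h23_) (hcj c d₁ h₁) (hcj c d₂ h₂) (hcj c d₃ h₃)
      h₁ h₂ h₃ (hcc h12) (hcc h13) (hcc h23) h12 h13 h23 ((Cfsg.Agent.Lib.ThreeT.Relations.commute_conj_iff _ _ _).2 c12)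
      ((Cfsg.Agent.Lib.ThreeT.Relations.commute_conj_iff _ _ _).2 c13) ((Cfsg.Agent.Lib.ThreeT.Relations.commute_conj_iff _ _ _).2 c23) c12 c13 c23 hprod
    have h5 : ∀ x : G, (x = (c : G) * d₁ * (c : G)⁻¹ ∨ x = (c : G) * d₂ * (c : G)⁻¹ ∨ x = (c : G) * d₃ * (c : G)⁻¹) →
        ∃ i', x = f i' := by
      intro x hx
      rcases (huniq x).1 hx with h6 | h6 | h6
      · exact ⟨0, h6⟩
      · exact ⟨1, h6⟩
      · exact ⟨2, h6⟩
    fin_cases i
    · exact h5 _ (Or.inl rfl)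
    · exact h5 _ (Or.inr (Or.inl rfl))
    · exact h5 _ (Or.inr (Or.inr rfl))
  let s : C → Fin 3 → Fin 3 := fun c i => Classical.choose (key c i)
  have hs : ∀ (c : C) (i : Fin 3), (c : G) * f i * (c : G)⁻¹ = f (s c i) := fun c i => Classical.choose_spec (key c i)
  have sMul : ∀ (a b : C) (i : Fin 3), s (a * b) i = s a (s b i) := by
    intro a b i
    apply finj
    rw [← hs, ← hs, ← hs]
    simp only [Subgroup.coe_mul]
    group
  have sOne : ∀ i, s 1 i = i := by
    intro i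
    apply finj
    rw [← hs]
    simp
  let σ : C → Equiv.Perm (Fin 3) := fun c =>
    { toFun := s c
      invFun := s c⁻¹
      left_inv := fun i => by rw [← sMul]; simp [sOne]
      right_inv := fun i => by rw [← sMul]; simp [sOne] }
  let ρ : C →* Equiv.Perm (Fin 3) := MonoidHom.mk' σ (fun a b => Equiv.ext (fun i => sMul a b i))
  have hρ : ∀ (c : C) (i : Fin 3), ρ c i = s c i := fun c i => rfl
  -- the swaps
  have hmemC : ∀ {g : G}, g * d₁ * g⁻¹ * (g * d₂ * g⁻¹) * (g * d₃ * g⁻¹) = d₁ * d₂ * d₃ → g ∈ C := by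
    intro g hg
    rw [hC, Subgroup.mem_centralizer_singleton_iff]
    have e : g * d₁ * g⁻¹ * (g * d₂ * g⁻¹) * (g * d₃ * g⁻¹) = g * (d₁ * d₂ * d₃) * g⁻¹ := by group
    rw [e] at hg
    calc g * (d₁ * d₂ * d₃) = g * (d₁ * d₂ * d₃) * g⁻¹ * g := by group
      _ = d₁ * d₂ * d₃ * g := by rw [hg]
  obtain ⟨g12, hg3, hg12a, hg12b⟩ := exists_swap hD hprim h₃ (a := d₃) (b := d₁) (c := d₂)
    ⟨h₁, h13, c13.symm⟩ ⟨h₂, h23, c23.symm⟩ h12 c12
  have hg12c : g12 * d₃ * g12⁻¹ = d₃ := by rw [hg3.symm.eq]; group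
  have g12C : g12 ∈ C := hmemC (by rw [hg12a, hg12b, hg12c, c12.symm.eq])
  have hρ12 : ρ (⟨g12, g12C⟩ : C) = Equiv.swap 0 1 := by
    ext i
    rw [hρ]
    have hh := hs (⟨g12, g12C⟩ : C) i
    have : s (⟨g12, g12C⟩ : C) i = Equiv.swap 0 1 i := by
      apply finj
      rw [← hh]
      fin_cases i
      · show g12 * d₁ * g12⁻¹ = d₂
        exact hg12a
      · show g12 * d₂ * g12⁻¹ = d₁
        exact hg12b
      · show g12 * d₃ * g12⁻¹ = d₃
        exact hg12c
    rw [this]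
  obtain ⟨g23, hg1, hg23a, hg23b⟩ := exists_swap hD hprim h₁ (a := d₁) (b := d₂) (c := d₃)
    ⟨h₂, h12.symm, c12⟩ ⟨h₃, h13.symm, c13⟩ h23 c23
  have hg23c : g23 * d₁ * g23⁻¹ = d₁ := by rw [hg1.symm.eq]; group
  have g23C : g23 ∈ C := hmemC (by
    rw [hg23a, hg23b, hg23c, mul_assoc, c23.symm.eq, mul_assoc])
  have hρ23 : ρ (⟨g23, g23C⟩ : C) = Equiv.swap 1 2 := by
    ext i
    rw [hρ]
    have hh := hs (⟨g23, g23C⟩ : C) i
    have : s (⟨g23, g23C⟩ : C) i = Equiv.swap 1 2 i := by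
      apply finj
      rw [← hh]
      fin_cases i
      · show g23 * d₁ * g23⁻¹ = d₁
        exact hg23c
      · show g23 * d₂ * g23⁻¹ = d₃
        exact hg23a
      · show g23 * d₃ * g23⁻¹ = d₂
        exact hg23b
    rw [this]
  have hsurj : Function.Surjective ρ := by
    intro τ
    rcases perm3_cases τ with rfl | rfl | rfl | rfl | rfl | rfl
    · exact ⟨1, map_one ρ⟩
    · exact ⟨_, hρ12⟩
    · exact ⟨_, hρ23⟩
    · exact ⟨(⟨g12, g12C⟩ : C) * (⟨g23, g23C⟩ : C), by rw [map_mul, hρ12, hρ23]⟩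
    · exact ⟨(⟨g23, g23C⟩ : C) * (⟨g12, g12C⟩ : C), by rw [map_mul, hρ12, hρ23]⟩
    · exact ⟨(⟨g12, g12C⟩ : C) * (⟨g23, g23C⟩ : C) * (⟨g12, g12C⟩ : C), by rw [map_mul, map_mul, hρ12, hρ23]⟩
  have hker : K.subgroupOf C = ρ.ker := by
    ext c
    rw [Subgroup.mem_subgroupOf, MonoidHom.mem_ker, hK, Subgroup.mem_centralizer_iff]
    constructor
    · intro hc
      ext i
      show ((s c i : Fin 3) : ℕ) = _
      congr 1
      apply finj
      rw [← hs]
      have h0 : f i ∈ ({d₁, d₂, d₃} : Set G) := by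
        fin_cases i <;> simp [f]
      rw [← hc _ h0]
      group
      rfl
    · intro hc x hx
      have h0 : ∀ i, (c : G) * f i * (c : G)⁻¹ = f i := by
        intro i
        rw [hs]
        have : s c i = i := by
          have := congrArg (fun τ : Equiv.Perm (Fin 3) => τ i) hc
          exact this
        rw [this]
      have h1 : ∀ i, f i * (c : G) = (c : G) * f i := by
        intro i
        have := h0 i
        calc f i * (c : G) = ((c : G) * f i * (c : G)⁻¹) * (c : G) := by rw [this]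
          _ = _ := by group
      simp only [Set.mem_insert_iff, Set.mem_singleton_iff] at hx
      rcases hx with rfl | rfl | rfl
      · exact h1 0
      · exact h1 1
      · exact h1 2
  have hn : (K.subgroupOf C).Normal := by
    rw [hker]
    exact MonoidHom.normal_ker ρ
  exact ⟨hn, ⟨(QuotientGroup.quotientMulEquivOfEq hker).trans
    (QuotientGroup.quotientKerEquivOfSurjective ρ hsurj)⟩⟩

end Cfsg.Agent.S5471
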