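import Cfsg.Statements.S5514
import Cfsg.Agent.Lib.O73.Main

set_option autoImplicit false
open Cfsg

namespace Cfsg.Agent.S5514

/-- The commutator subgroup of the isometry group of a non-degenerate 7-dimensional quadratic form over the field with three elements, modulo its (trivial) centre — the simple group Ω(7, 3) — has exactly seven conjugacy classes of subgroups of order 3. -/
theorem result : ∃ Y : Fin 7 → Subgroup (Cfsg.POmega (ZMod 3) (Cfsg.quadFormOdd 3 (ZMod 3))), (∀ i, Nat.card (Y i) = 3) ∧ (∀ i j, (∃ g : Cfsg.POmega (ZMod 3) (Cfsg.quadFormOdd 3 (ZMod 3)), (Y i).map (MulAut.conj g).toMonoidHom = Y j) → i = j) ∧ (∀ X : Subgroup (Cfsg.POmega (ZMod 3) (Cfsg.quadFormOdd 3 (ZMod 3))), Nat.card X = 3 → ∃ i, ∃ g : Cfsg.POmega (ZMod 3) (Cfsg.quadFormOdd 3 (ZMod 3)), X.map (MulAut.conj g).toMonoidHom = Y i) := by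
  classical
  obtain ⟨e⟩ := Cfsg.Agent.Lib.TC.D.Fi22H.Tgt.equiv_T
  have key : ∀ (A : Subgroup Cfsg.Agent.Lib.O73.Hom.Γ) (h : Cfsg.Agent.Lib.O73.Hom.Γ),
      ((A.map (MulAut.conj h).toMonoidHom).map e.toMonoidHom) =
      ((A.map e.toMonoidHom).map (MulAut.conj (e h)).toMonoidHom) := by
    intro A h
    rw [Subgroup.map_map, Subgroup.map_map]
    congr 1
    ext a
    simp [MulAut.conj_apply, map_mul, map_inv]
  have hinj : Function.Injective e.toMonoidHom := e.injective
  refine ⟨fun i => (Subgroup.zpowers (Cfsg.Agent.Lib.O73.Main.x i.val)).map e.toMonoidHom, ?_, ?_, ?_⟩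
  · intro i
    have h1 := Cfsg.Agent.Lib.O73.Main.x_order i.2
    have h2 : Nat.card ((Subgroup.zpowers (Cfsg.Agent.Lib.O73.Main.x i.val)).map e.toMonoidHom) =
        Nat.card (Subgroup.zpowers (Cfsg.Agent.Lib.O73.Main.x i.val)) :=
      Nat.card_congr (e.subgroupMap _).toEquiv.symm
    rw [h2, Nat.card_zpowers, h1]
  · intro i j ⟨g, hg⟩
    have h1 := key (Subgroup.zpowers (Cfsg.Agent.Lib.O73.Main.x i.val)) (e.symm g)
    rw [MulEquiv.apply_symm_apply] at h1
    have h2 : (Subgroup.zpowers (Cfsg.Agent.Lib.O73.Main.x i.val)).map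
        (MulAut.conj (e.symm g)).toMonoidHom = Subgroup.zpowers (Cfsg.Agent.Lib.O73.Main.x j.val) := by
      apply Subgroup.map_injective hinj
      rw [h1]
      exact hg
    exact Fin.ext (Cfsg.Agent.Lib.O73.Main.no_conj i.2 j.2 _ h2)
  · intro X hX
    have h2 : Nat.card (X.map e.symm.toMonoidHom) = 3 := by
      refine Eq.trans ?_ hX
      exact Nat.card_congr (e.symm.subgroupMap _).toEquiv.symm
    obtain ⟨i, hi, g, hg⟩ := Cfsg.Agent.Lib.O73.Main.exists_conj _ h2
    refine ⟨⟨i, hi⟩, e g, ?_⟩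
    have h3 : (X.map e.symm.toMonoidHom).map e.toMonoidHom = X := by
      rw [Subgroup.map_map]
      have : e.toMonoidHom.comp e.symm.toMonoidHom = MonoidHom.id _ := by
        ext a
        simp
      rw [this, Subgroup.map_id]
    have h4 := key (X.map e.symm.toMonoidHom) g
    rw [h3] at h4
    rw [← h4, hg]

end Cfsg.Agent.S5514
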