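import Cfsg.Statements.S5515
import Cfsg.Agent.Lib.Triality.Ext
import Cfsg.Agent.Lib.Classical.OmegaPlusOdd
import Cfsg.Agent.Lib.Classical.QuadEichBridge

set_option autoImplicit false
open Cfsg

namespace Cfsg.Agent.S5515

/-- Let G and G′ be finite groups whose generalized Fitting subgroups are isomorphic to PΩ⁺(8, 3) (the commutator subgroup of the isometry group of the hyperbolic quadratic form in dimension 8 over the field with three elements, modulo its centre) with quotients isomorphic to the symmetric group of degree 3. Then G and G′ are isomorphic. -/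
theorem result {G G' : Type*} [Group G] [Finite G] [Group G'] [Finite G'] (hF : Nonempty (↥(Cfsg.generalizedFittingSubgroup G) ≃* Cfsg.POmega (ZMod 3) (Cfsg.quadFormPlus 4 (ZMod 3)))) (hF' : Nonempty (↥(Cfsg.generalizedFittingSubgroup G') ≃* Cfsg.POmega (ZMod 3) (Cfsg.quadFormPlus 4 (ZMod 3)))) [hn : (Cfsg.generalizedFittingSubgroup G).Normal] [hn' : (Cfsg.generalizedFittingSubgroup G').Normal] (hq : Nonempty (G ⧸ Cfsg.generalizedFittingSubgroup G ≃* Equiv.Perm (Fin 3))) (hq' : Nonempty (G' ⧸ Cfsg.generalizedFittingSubgroup G' ≃* Equiv.Perm (Fin 3))) : Nonempty (G ≃* G') := by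
  classical
  obtain ⟨e⟩ := hF
  obtain ⟨e'⟩ := hF'
  obtain ⟨q⟩ := hq
  obtain ⟨q'⟩ := hq'
  haveI : Fact (Nat.Prime 3) := ⟨Nat.prime_three⟩
  have hO := Cfsg.Agent.Lib.Classical.OmegaPlusOdd.out_plus_odd (F := ZMod 3) (p := 3) (f := 1) (m := 4) le_rfl
    (by simp [ZMod.card]) (by norm_num) le_rfl
  rw [if_pos rfl] at hO
  obtain ⟨o⟩ := hO
  have o' : Cfsg.Out (Cfsg.POmega (ZMod 3) (Cfsg.quadFormPlus 4 (ZMod 3))) ≃* Cfsg.Agent.Lib.Triality.Ext.S4 :=
    o.trans MulEquiv.prodUnique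
  haveI : Finite (Cfsg.POmega (ZMod 3) (Cfsg.quadFormPlus 4 (ZMod 3))) := Finite.of_equiv _ e.toEquiv
  haveI : IsSimpleGroup (Cfsg.POmega (ZMod 3) (Cfsg.quadFormPlus 4 (ZMod 3))) :=
    Cfsg.Agent.Lib.Classical.QuadEichBridge.isSimple_plus 4 le_rfl
  have hZ := Cfsg.Agent.Lib.Triality.Ext.center_eq_bot o'
  exact Cfsg.Agent.Lib.Triality.Ext.nonempty_equiv _ _ e e'
    Cfsg.Agent.Lib.Components.GenFitting.centralizer_generalizedFitting_le
    Cfsg.Agent.Lib.Components.GenFitting.centralizer_generalizedFitting_le hZ o' (Cfsg.Agent.Lib.Triality.Ext.card_of_equiv _ q) (Cfsg.Agent.Lib.Triality.Ext.card_of_equiv _ q')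

end Cfsg.Agent.S5515
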