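import Cfsg.Statements.S5517
import Cfsg.Agent.Lib.ThreeT.F22.Main
import Cfsg.Agent.Lib.TC.D.Fi22H.Tgt
import Cfsg.Agent.S1685
import Cfsg.Agent.S1686

set_option autoImplicit false
open Cfsg

namespace Cfsg.Agent.S5517

open Cfsg.Spor

/-- The generator of `Fi₂₂`. -/
noncomputable abbrev genE (x : Fi22.Gen) : Fi22 := PresentedGroup.of x

theorem genE_rel (x y : Fi22.Gen) (hx : x ∈ coxNodes Fi22.edges) (hy : y ∈ coxNodes Fi22.edges) :
    (genE x * genE y) ^ coxLabel Fi22.edges x y = 1 := by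
  have h : (FreeGroup.of x * FreeGroup.of y) ^ coxLabel Fi22.edges x y ∈
      (coxRelators Fi22.edges ∪ {r | r ∈ Fi22.extra}) := Or.inl ⟨x, hx, y, hy, rfl⟩
  have := PresentedGroup.one_of_mem h
  rw [map_pow, map_mul] at this
  exact this

theorem genE_sq (x : Fi22.Gen) (hx : x ∈ coxNodes Fi22.edges) : genE x * genE x = 1 := by
  have := genE_rel x x hx hx
  have h1 : coxLabel Fi22.edges x x = 1 := by simp [coxLabel]
  rw [h1, pow_one] at this
  exact this

/-- Adjacent generators are conjugate. -/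
theorem genE_conj (x y : Fi22.Gen) (hx : x ∈ coxNodes Fi22.edges) (hy : y ∈ coxNodes Fi22.edges)
    (h : coxLabel Fi22.edges x y = 3) :
    genE y = (genE x * genE y) * genE x * (genE x * genE y)⁻¹ := by
  have h3 := genE_rel x y hx hy
  rw [h] at h3
  have hx2 := genE_sq x hx
  have hy2 := genE_sq y hy
  have ix : (genE x)⁻¹ = genE x := inv_eq_of_mul_eq_one_left hx2
  have iy : (genE y)⁻¹ = genE y := inv_eq_of_mul_eq_one_left hy2
  rw [mul_inv_rev, ix, iy]
  have h4 : genE x * genE y * (genE x * genE y) * (genE x * genE y) = 1 := by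
    rw [pow_succ, pow_two] at h3
    exact h3
  have : genE x * genE y * genE x * (genE y * genE x) * genE y = 1 := by
    rw [← h4]; group
  have h5 : genE x * genE y * genE x * (genE y * genE x) = genE y := by
    calc _ = genE x * genE y * genE x * (genE y * genE x) * genE y * genE y := by
            rw [mul_assoc _ (genE y) (genE y), hy2, mul_one]
      _ = genE y := by rw [this, one_mul]
  exact h5.symm

theorem genE_step (x y : Fi22.Gen) (hx : x ∈ coxNodes Fi22.edges) (hy : y ∈ coxNodes Fi22.edges)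
    (h : coxLabel Fi22.edges x y = 3) (hk : ∃ k : Fi22, genE x = k * genE Fi22.Gen.a * k⁻¹) :
    ∃ k : Fi22, genE y = k * genE Fi22.Gen.a * k⁻¹ := by
  obtain ⟨k, hk⟩ := hk
  have hc := genE_conj x y hx hy h
  set t := genE x * genE y with ht
  refine ⟨t * k, ?_⟩
  rw [hc]
  conv_lhs => rw [hk]
  group

theorem gen_a : ∃ k : Fi22, genE Fi22.Gen.a = k * genE Fi22.Gen.a * k⁻¹ := ⟨1, by simp⟩
theorem gen_b : ∃ k : Fi22, genE Fi22.Gen.b = k * genE Fi22.Gen.a * k⁻¹ := genE_step Fi22.Gen.a _ (by decide) (by decide) (by decide) gen_a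
theorem gen_c : ∃ k : Fi22, genE Fi22.Gen.c = k * genE Fi22.Gen.a * k⁻¹ := genE_step Fi22.Gen.b _ (by decide) (by decide) (by decide) gen_b
theorem gen_d : ∃ k : Fi22, genE Fi22.Gen.d = k * genE Fi22.Gen.a * k⁻¹ := genE_step Fi22.Gen.c _ (by decide) (by decide) (by decide) gen_c
theorem gen_e : ∃ k : Fi22, genE Fi22.Gen.e = k * genE Fi22.Gen.a * k⁻¹ := genE_step Fi22.Gen.d _ (by decide) (by decide) (by decide) gen_d
theorem gen_f : ∃ k : Fi22, genE Fi22.Gen.f = k * genE Fi22.Gen.a * k⁻¹ := genE_step Fi22.Gen.e _ (by decide) (by decide) (by decide) gen_e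
theorem gen_g : ∃ k : Fi22, genE Fi22.Gen.g = k * genE Fi22.Gen.a * k⁻¹ := genE_step Fi22.Gen.f _ (by decide) (by decide) (by decide) gen_f
theorem gen_h : ∃ k : Fi22, genE Fi22.Gen.h = k * genE Fi22.Gen.a * k⁻¹ := genE_step Fi22.Gen.d _ (by decide) (by decide) (by decide) gen_d
theorem gen_i : ∃ k : Fi22, genE Fi22.Gen.i = k * genE Fi22.Gen.a * k⁻¹ := genE_step Fi22.Gen.h _ (by decide) (by decide) (by decide) gen_h

theorem fact_L : (4585351680 : ℕ).factorization 3 = 9 := by
  have hn : (4585351680 : ℕ) ≠ 0 := by norm_num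
  have h1 : 9 ≤ (4585351680 : ℕ).factorization 3 :=
    (Nat.Prime.pow_dvd_iff_le_factorization Nat.prime_three hn).1 (by norm_num)
  have h2 : ¬ 10 ≤ (4585351680 : ℕ).factorization 3 := fun h =>
    absurd ((Nat.Prime.pow_dvd_iff_le_factorization Nat.prime_three hn).2 h) (by norm_num)
  omega

theorem fact_G : (64561751654400 : ℕ).factorization 3 = 9 := by
  have hn : (64561751654400 : ℕ) ≠ 0 := by norm_num
  have h1 : 9 ≤ (64561751654400 : ℕ).factorization 3 :=
    (Nat.Prime.pow_dvd_iff_le_factorization Nat.prime_three hn).1 (by norm_num)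
  have h2 : ¬ 10 ≤ (64561751654400 : ℕ).factorization 3 := fun h =>
    absurd ((Nat.Prime.pow_dvd_iff_le_factorization Nat.prime_three hn).2 h) (by norm_num)
  omega


/-- Let G be a finite group with trivial centre generated by a conjugation-invariant set D of 3-transpositions on which it acts primitively, such that for some d in D the subgroup generated by the members of D other than d commuting with d has central largest normal 2- and 3-subgroups, and suppose G with D is of type M(22). Then G has a subgroup L generated by the members of D it contains and isomorphic to Ω(7, 3) (the commutator subgroup of the isometry group of a non-degenerate 7-dimensional quadratic form over the field with three elements, modulo its centre), and every Sylow 3-subgroup of L is a Sylow 3-subgroup of G. -/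
theorem result {G : Type*} [Group G] [Finite G] {D : Set G} (hD : Cfsg.IsThreeTranspositionGroup D) (hprim : Cfsg.IsPrimitiveUnderConj D) (d₀ : G) (hd₀ : d₀ ∈ D) (h3 : Cfsg.pCore 3 ↥(Subgroup.closure {y : G | y ∈ D ∧ y ≠ d₀ ∧ Commute d₀ y}) ≤ Subgroup.center ↥(Subgroup.closure {y : G | y ∈ D ∧ y ≠ d₀ ∧ Commute d₀ y})) (h2 : Cfsg.pCore 2 ↥(Subgroup.closure {y : G | y ∈ D ∧ y ≠ d₀ ∧ Commute d₀ y}) ≤ Subgroup.center ↥(Subgroup.closure {y : G | y ∈ D ∧ y ≠ d₀ ∧ Commute d₀ y})) (h22 : Cfsg.IsOfTypeM22 G D) : ∃ L : Subgroup G, Cfsg.IsDSubgroup D L ∧ Nonempty (↥L ≃* Cfsg.POmega (ZMod 3) (Cfsg.quadFormOdd 3 (ZMod 3))) ∧ ∀ P : Sylow 3 ↥L, ∃ P' : Sylow 3 G, (P : Subgroup ↥L).map L.subtype = (P' : Subgroup G) := by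
  classical
  obtain ⟨φ, hφ⟩ := Cfsg.Agent.Lib.ThreeT.F22.exists_iso hD hprim h22
  have hcardG : Nat.card G = 64561751654400 := by
    rw [← Nat.card_congr φ.toEquiv]
    exact Cfsg.Agent.Lib.ThreeT.F22.fi22_simple.2
  set R := (coxRelators Fi22.edges ∪ {r | r ∈ Fi22.extra}) with hR
  set H0 : Subgroup (FreeGroup Fi22.Gen) := Subgroup.closure ({Fi22.b, Fi22.c, Fi22.d, Fi22.e, Fi22.f, Fi22.g, Fi22.h, Fi22.i} : Set (FreeGroup Fi22.Gen)) with hH0
  set H : Subgroup Fi22 := H0.map (PresentedGroup.mk R) with hH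
  obtain ⟨eH⟩ : Nonempty (H ≃* Cfsg.POmega (ZMod 3) (Cfsg.quadFormOdd 3 (ZMod 3))) := Cfsg.Agent.S1686.result
  let L : Subgroup G := H.map φ.toMonoidHom
  have eL : H ≃* L := H.equivMapOfInjective φ.toMonoidHom φ.injective
  have hcardL : Nat.card L = 4585351680 := by
    rw [← Nat.card_congr eL.toEquiv, Nat.card_congr eH.toEquiv]
    exact Cfsg.Agent.Lib.TC.D.Fi22H.Tgt.card_T
  have hD_of : ∀ x : Fi22.Gen, (∃ k : Fi22, genE x = k * genE Fi22.Gen.a * k⁻¹) → φ (genE x) ∈ D := by
    rintro x ⟨k, hk⟩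
    rw [hφ]
    exact ⟨k, by rw [hk]⟩
  refine ⟨L, ?_, ⟨eL.symm.trans eH⟩, ?_⟩
  · apply le_antisymm
    · rw [Subgroup.closure_le]
      rintro y ⟨-, hy⟩
      exact hy
    · have hL : L = Subgroup.closure (φ.toMonoidHom '' (PresentedGroup.mk R '' ({Fi22.b, Fi22.c, Fi22.d, Fi22.e, Fi22.f, Fi22.g, Fi22.h, Fi22.i} : Set (FreeGroup Fi22.Gen)))) := by
        show (H0.map (PresentedGroup.mk R)).map φ.toMonoidHom = _
        rw [hH0, MonoidHom.map_closure, MonoidHom.map_closure]
      have hgen : ∀ y ∈ (φ.toMonoidHom '' (PresentedGroup.mk R '' ({Fi22.b, Fi22.c, Fi22.d, Fi22.e, Fi22.f, Fi22.g, Fi22.h, Fi22.i} : Set (FreeGroup Fi22.Gen)))), y ∈ D := by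
        rintro y ⟨_, ⟨w, hw, rfl⟩, rfl⟩
        simp only [Set.mem_insert_iff, Set.mem_singleton_iff] at hw
        rcases hw with rfl | rfl | rfl | rfl | rfl | rfl | rfl | rfl
        · exact hD_of _ gen_b
        · exact hD_of _ gen_c
        · exact hD_of _ gen_d
        · exact hD_of _ gen_e
        · exact hD_of _ gen_f
        · exact hD_of _ gen_g
        · exact hD_of _ gen_h
        · exact hD_of _ gen_i
      have hle : ∀ y ∈ (φ.toMonoidHom '' (PresentedGroup.mk R '' ({Fi22.b, Fi22.c, Fi22.d, Fi22.e, Fi22.f, Fi22.g, Fi22.h, Fi22.i} : Set (FreeGroup Fi22.Gen)))), y ∈ L := by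
        intro y hy
        rw [hL]
        exact Subgroup.subset_closure hy
      conv_lhs => rw [hL]
      rw [Subgroup.closure_le]
      intro y hy
      exact Subgroup.subset_closure ⟨hgen y hy, hle y hy⟩
  · intro P
    haveI : Fact (Nat.Prime 3) := ⟨Nat.prime_three⟩
    have hP : Nat.card (P : Subgroup L) = 3 ^ 9 := by
      rw [Sylow.card_eq_multiplicity, hcardL, fact_L]
    have hQ : Nat.card ((P : Subgroup L).map L.subtype) = 3 ^ (Nat.card G).factorization 3 := by
      rw [Subgroup.card_map_of_injective L.subtype_injective, hP, hcardG, fact_G]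
    exact ⟨Sylow.ofCard _ hQ, (Sylow.coe_ofCard _ _).symm⟩

end Cfsg.Agent.S5517
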