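import Cfsg.Statements.S5519
import Cfsg.Agent.Lib.ThreeT.M22x
import Cfsg.Agent.Lib.ThreeT.O6Aut

set_option autoImplicit false
open Cfsg

namespace Cfsg.Agent.S5519

open Cfsg.Agent.Lib.ThreeT.M22 Cfsg.Agent.Lib.ThreeT.Basic Cfsg.Agent.Lib.ThreeT.Class Cfsg.Agent.Lib.ThreeT.Relations Cfsg.Agent.Lib.ThreeT.Rank3

/-- Let G be a finite group with trivial centre generated by a conjugation-invariant set D of 3-transpositions on which it acts primitively, such that for some d in D the subgroup generated by the members of D other than d commuting with d has central largest normal 2- and 3-subgroups, and suppose G with D is of type M(22). Let d₁, d₂ be distinct commuting members of D and C the centralizer of their product. Then the generalized Fitting subgroup of C is the direct product of a group of order 2 and an extraspecial 2-group of order 2^9, and C modulo it is isomorphic to the full isometry group of the elliptic quadratic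 form in dimension 6 over the field with two elements. -/
theorem result {G : Type*} [Group G] [Finite G] {D : Set G} (hD : Cfsg.IsThreeTranspositionGroup D) (hprim : Cfsg.IsPrimitiveUnderConj D) (d₀ : G) (hd₀ : d₀ ∈ D) (h3 : Cfsg.pCore 3 ↥(Subgroup.closure {y : G | y ∈ D ∧ y ≠ d₀ ∧ Commute d₀ y}) ≤ Subgroup.center ↥(Subgroup.closure {y : G | y ∈ D ∧ y ≠ d₀ ∧ Commute d₀ y})) (h2 : Cfsg.pCore 2 ↥(Subgroup.closure {y : G | y ∈ D ∧ y ≠ d₀ ∧ Commute d₀ y}) ≤ Subgroup.center ↥(Subgroup.closure {y : G | y ∈ D ∧ y ≠ d₀ ∧ Commute d₀ y})) (h22 : Cfsg.IsOfTypeM22 G D) (d₁ d₂ : G) (h₁ : d₁ ∈ D) (h₂ : d₂ ∈ D) (hne : d₁ ≠ d₂) (hc : Commute d₁ d₂) (C : Subgroup G) (hC : C = Subgroup.centralizer ({d₁ * d₂} : Set G)) [hn : (Cfsg.generalizedFittingSubgroup ↥C).Normal] : (∃ (E : Type) (_ : Group E) (_ : Finite E), Cfsg.IsExtraspecial 2 E ∧ Nat.card E = 2 ^ 9 ∧ Nonempty (↥(Cfsg.generalizedFittingSubgroup ↥C) ≃* Multiplicative (ZMod 2) × E))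 ∧ Nonempty (↥C ⧸ Cfsg.generalizedFittingSubgroup ↥C ≃* Cfsg.isometryGroup (ZMod 2) (Cfsg.quadFormMinus 2 (ZMod 2) 1 1)) := by
  classical
  haveI := Fintype.ofFinite G
  obtain ⟨F, _, _, hF, data⟩ := Cfsg.Agent.Lib.ThreeT.M22.exists_data h22 hD hprim
  obtain ⟨U⟩ := data d₁ h₁
  have hu : d₂ ∈ Da D d₁ := ⟨h₂, hne.symm, hc⟩
  obtain ⟨U', hb⟩ := exists_chart U hu
  let P : Pt D d₁ d₂ F := ⟨hD, hprim, h22, data, h₁, U', hu, hb⟩
  subst hC
  have hfit : Cfsg.generalizedFittingSubgroup ↥(Subgroup.centralizer ({d₁ * d₂} : Set G)) = P.EE.subgroupOf (Subgroup.centralizer ({d₁ * d₂} : Set G)) := P.gFit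
  haveI hN : (P.EE.subgroupOf (Subgroup.centralizer ({d₁ * d₂} : Set G))).Normal := P.normal_EE
  refine ⟨?_, ?_⟩
  · obtain ⟨E₀, g, f, hex, hcd, ⟨e⟩⟩ := P.EE_struct
    have hle : P.EE ≤ Subgroup.centralizer ({d₁ * d₂} : Set G) := P.EE_le.trans P.Kt_le
    exact ⟨E₀, g, f, hex, hcd, ⟨(MulEquiv.subgroupCongr hfit).trans ((Subgroup.subgroupOfEquivOfLe hle).trans e)⟩⟩
  · haveI hN' : (P.EE.subgroupOf (Cc d₁ d₂)).Normal := P.normal_EE
    have hq : Nonempty (↥(Subgroup.centralizer ({d₁ * d₂} : Set G)) ⧸ P.EE.subgroupOf (Subgroup.centralizer ({d₁ * d₂} : Set G)) ≃* MulAut (Cfsg.PSU 4 F 2)) := P.quot_iso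
    obtain ⟨φ⟩ := hq
    obtain ⟨ψ⟩ := Cfsg.Agent.Lib.ThreeT.O6Aut.iso_O F hF.out
    exact ⟨(QuotientGroup.quotientMulEquivOfEq hfit).trans (φ.trans ψ.symm)⟩

end Cfsg.Agent.S5519
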