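-- Statement S5541 (row 5541).
import Cfsg.Statements.S5541

set_option autoImplicit false
open Cfsg

namespace Cfsg.Agent.S5541

theorem result {H : Type*} [Group H] {U : Type*} [AddCommGroup U] [Module ℝ U] [FiniteDimensional ℝ U] (ρ : Representation ℝ H U) (hirr : ∀ W : Submodule ℝ U, (∀ g : H, W.map (ρ g) ≤ W) → W = ⊥ ∨ W = ⊤) (B : LinearMap.BilinForm ℝ U) (hB0 : B ≠ 0) (hBs : ∀ u v, B u v = B v u) (hBi : ∀ (g : H) (u v : U), B (ρ g u) (ρ g v) = B u v) : (∃ m : U →ₗ[ℝ] U →ₗ[ℝ] U, m ≠ 0 ∧ (∀ u v, m u v = m v u) ∧ (∀ (g : H) (u v : U), m (ρ g u) (ρ g v) = ρ g (m u v)) ∧ ∀ m' : U →ₗ[ℝ] U →ₗ[ℝ] U, (∀ (g : H) (u v : U), m' (ρ g u) (ρ g v) = ρ g (m' u v)) → ∃ c : ℝ, m' = c • m) ↔ (∃ t : U →ₗ[ℝ] U →ₗ[ℝ] U →ₗ[ℝ] ℝ, t ≠ 0 ∧ (∀ u v w, t u v w = t v u w ∧ t u v w = t u w v) ∧ (∀ (g : H) (u v w : U), t (ρ g u) (ρ g v) (ρ g w) = t u v w) ∧ ∀ t' : U →ₗ[ℝ] U →ₗ[ℝ] U →ₗ[ℝ] ℝ, (∀ (g : H) (u v w : U), t' (ρ g u) (ρ g v) (ρ g w) = t'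 u v w) → ∃ c : ℝ, t' = c • t) := by
  classical
  -- inverse action
  have hinv : ∀ (g : H) (w : U), ρ g (ρ g⁻¹ w) = w := by
    intro g w
    rw [← Module.End.mul_apply, ← map_mul]
    simp
  -- non-degeneracy of B
  have hinj : ∀ u, (∀ v, B u v = 0) → u = 0 := by
    have hW := hirr (LinearMap.ker B) (by
      intro g
      rintro _ ⟨u, hu, rfl⟩
      rw [SetLike.mem_coe, LinearMap.mem_ker] at hu
      rw [LinearMap.mem_ker]
      ext v
      have := hBi g u (ρ g⁻¹ v)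
      rw [hinv] at this
      rw [this, hu]
      rfl)
    rcases hW with hW | hW
    · intro u hu
      have : u ∈ LinearMap.ker B := by
        rw [LinearMap.mem_ker]
        ext v
        exact hu v
      rw [hW] at this
      simpa using this
    · exfalso
      apply hB0
      ext u v
      have : u ∈ LinearMap.ker B := by rw [hW]; trivial
      rw [LinearMap.mem_ker] at this
      simp [this]
  have eq_of_B : ∀ x y : U, (∀ w, B x w = B y w) → x = y := by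
    intro x y h
    have := hinj (x - y) (fun v => by simp [h v])
    exact sub_eq_zero.mp this
  have hfr : Module.finrank ℝ U = Module.finrank ℝ (U →ₗ[ℝ] ℝ) :=
    (Subspace.dual_finrank_eq).symm
  let φ : U ≃ₗ[ℝ] (U →ₗ[ℝ] ℝ) := LinearMap.linearEquivOfInjective B (by
      intro x y h
      apply eq_of_B
      intro w
      exact congrArg (fun f => f w) h) hfr
  have hφ : ∀ x w, φ x w = B x w := fun x w => rfl
  have hφs : ∀ (f : U →ₗ[ℝ] ℝ) w, B (φ.symm f) w = f w := by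
    intro f w
    rw [← hφ, LinearEquiv.apply_symm_apply]
  let toM : (U →ₗ[ℝ] U →ₗ[ℝ] U →ₗ[ℝ] ℝ) → (U →ₗ[ℝ] U →ₗ[ℝ] U) :=
    fun t => t.compr₂ (φ.symm : (U →ₗ[ℝ] ℝ) →ₗ[ℝ] U)
  have htoM : ∀ t u v w, B (toM t u v) w = t u v w := by
    intro t u v w
    exact hφs _ _
  let toT : (U →ₗ[ℝ] U →ₗ[ℝ] U) → (U →ₗ[ℝ] U →ₗ[ℝ] U →ₗ[ℝ] ℝ) :=
    fun m => m.compr₂ B
  have htoT : ∀ m u v w, toT m u v w = B (m u v) w := fun _ _ _ _ => rfl
  have hρB : ∀ (g : H) (x w : U), B x (ρ g⁻¹ w) = B (ρ g x) w := by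
    intro g x w
    have := hBi g x (ρ g⁻¹ w)
    rw [hinv] at this
    exact this.symm
  have hEquiv : ∀ t : U →ₗ[ℝ] U →ₗ[ℝ] U →ₗ[ℝ] ℝ,
      (∀ (g : H) (u v w : U), t (ρ g u) (ρ g v) (ρ g w) = t u v w) →
      ∀ (g : H) (u v : U), toM t (ρ g u) (ρ g v) = ρ g (toM t u v) := by
    intro t ht g u v
    apply eq_of_B
    intro w
    rw [htoM, ← hρB, htoM, ← ht g u v (ρ g⁻¹ w), hinv]
  have hInvt : ∀ m : U →ₗ[ℝ] U →ₗ[ℝ] U,
      (∀ (g : H) (u v : U), m (ρ g u) (ρ g v) = ρ g (m u v)) →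
      ∀ (g : H) (u v w : U), toT m (ρ g u) (ρ g v) (ρ g w) = toT m u v w := by
    intro m hm g u v w
    rw [htoT, htoT, hm, hBi]
  constructor
  · rintro ⟨m, hm0, hmc, hme, hmu⟩
    have ht0 : toT m ≠ 0 := by
      intro h
      apply hm0
      ext u v
      apply eq_of_B
      intro w
      have := congrArg (fun f => f u v w) h
      simpa [htoT] using this
    have hmul : ∀ t' : U →ₗ[ℝ] U →ₗ[ℝ] U →ₗ[ℝ] ℝ,
        (∀ (g : H) (u v w : U), t' (ρ g u) (ρ g v) (ρ g w) = t' u v w) →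
        ∃ c : ℝ, t' = c • toT m := by
      intro t' ht'
      obtain ⟨c, hc⟩ := hmu (toM t') (hEquiv t' ht')
      refine ⟨c, ?_⟩
      ext u v w
      rw [← htoM, hc]
      simp [htoT]
    -- symmetry
    have h12 : ∀ u v w, toT m u v w = toT m v u w := by
      intro u v w
      rw [htoT, htoT, hmc]
    -- the flip of t
    let t' : U →ₗ[ℝ] U →ₗ[ℝ] U →ₗ[ℝ] ℝ := LinearMap.lflip.comp (toT m)
    have ht' : ∀ u v w, t' u v w = toT m u w v := fun _ _ _ => rfl
    obtain ⟨c, hc⟩ := hmul t' (by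
      intro g u v w
      rw [ht', ht']
      exact hInvt m hme g u w v)
    have hc' : ∀ u v w, toT m u w v = c * toT m u v w := by
      intro u v w
      have := congrArg (fun f => f u v w) hc
      simpa [ht'] using this
    have hne : ∃ u v w, toT m u v w ≠ 0 := by
      by_contra hcon
      push Not at hcon
      apply ht0
      ext u v w
      simpa using hcon u v w
    obtain ⟨u₀, v₀, w₀, hne0⟩ := hne
    have hc2 : c * c = 1 := by
      have h1 := hc' u₀ v₀ w₀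
      have h2 := hc' u₀ w₀ v₀
      rw [h1] at h2
      have h3 : toT m u₀ v₀ w₀ * (c * c - 1) = 0 := by linarith
      have := (mul_eq_zero.mp h3).resolve_left hne0
      linarith
    have h23 : ∀ u v w, toT m u v w = c * toT m u w v := fun u v w => hc' u w v
    have hc1 : c = 1 := by
      have h : toT m u₀ v₀ w₀ = c * toT m u₀ v₀ w₀ := by
        calc toT m u₀ v₀ w₀ = toT m v₀ u₀ w₀ := h12 _ _ _
          _ = c * toT m v₀ w₀ u₀ := h23 _ _ _
          _ = c * toT m w₀ v₀ u₀ := by rw [h12 v₀ w₀ u₀]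
          _ = c * (c * toT m w₀ u₀ v₀) := by rw [h23 w₀ v₀ u₀]
          _ = (c * c) * toT m w₀ u₀ v₀ := by ring
          _ = toT m w₀ u₀ v₀ := by rw [hc2, one_mul]
          _ = toT m u₀ w₀ v₀ := h12 _ _ _
          _ = c * toT m u₀ v₀ w₀ := hc' _ _ _
      have h3 : toT m u₀ v₀ w₀ * (c - 1) = 0 := by linarith
      have := (mul_eq_zero.mp h3).resolve_left hne0
      linarith
    refine ⟨toT m, ht0, ?_, hInvt m hme, hmul⟩
    intro u v w
    refine ⟨h12 u v w, ?_⟩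
    rw [h23 u v w, hc1, one_mul]
  · rintro ⟨t, ht0, hts, hti, htu⟩
    have hm0 : toM t ≠ 0 := by
      intro h
      apply ht0
      ext u v w
      rw [← htoM, h]
      simp
    refine ⟨toM t, hm0, ?_, hEquiv t hti, ?_⟩
    · intro u v
      apply eq_of_B
      intro w
      rw [htoM, htoM]
      exact (hts u v w).1
    · intro m' hm'
      obtain ⟨c, hc⟩ := htu (toT m') (hInvt m' hm')
      refine ⟨c, ?_⟩
      ext u v
      apply eq_of_B
      intro w
      have := congrArg (fun f => f u v w) hc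
      simp only [htoT, LinearMap.smul_apply] at this
      rw [this]
      simp [htoM]

end Cfsg.Agent.S5541
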