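-- Statement S5543 (row 5543).
import Cfsg.Statements.S5543
import Cfsg.Agent.Lib.Majorana.Basic

set_option autoImplicit false
open Cfsg

namespace Cfsg.Agent.S5543

open Cfsg.Agent.Lib.Majorana.Basic

theorem result {V : Type*} [AddCommGroup V] [Module ℝ V] [FiniteDimensional ℝ V] (mul : V →ₗ[ℝ] V →ₗ[ℝ] V) (B : LinearMap.BilinForm ℝ V) (hV : Cfsg.Axial.IsMajoranaAmbient mul B) (X : Subgroup (V ≃ₗ[ℝ] V)) (hX : ∀ x ∈ X, x * x = 1) (ax : (V ≃ₗ[ℝ] V) → V) (hax : ∀ x ∈ X, x ≠ 1 → Cfsg.Axial.IsMajoranaPair mul B x (ax x)) (h1 : ∀ x ∈ X, x ≠ 1 → B (ax x) (ax x) = 1) (h2A : ∀ x ∈ X, ∀ y ∈ X, x ≠ 1 → y ≠ 1 → x ≠ y → mul (ax x) (ax y) = (1 / 8 : ℝ) • (ax x + ax y - ax (x * y))) : Nat.card ↥X ≤ 4 := by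
  classical
  by_contra hcard
  have hcard' : 4 < Nat.card X := by omega
  -- avoid any small finite set
  have havoid : ∀ s : Finset (V ≃ₗ[ℝ] V), s.card ≤ 4 → ∃ z ∈ X, z ∉ s := by
    intro s hs
    by_contra hcon
    push Not at hcon
    have hfin : Finite X := Nat.finite_of_card_ne_zero (by omega)
    have h2 : (X : Set (V ≃ₗ[ℝ] V)) ⊆ (s : Set (V ≃ₗ[ℝ] V)) := fun z hz => hcon z hz
    have h3 := Set.ncard_le_ncard h2 (Finset.finite_toSet s)
    rw [Set.ncard_coe_finset, ← Nat.card_coe_set_eq] at h3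
    have h4 : Nat.card (X : Set (V ≃ₗ[ℝ] V)) = Nat.card X := rfl
    omega
  have hcomm : ∀ p ∈ X, ∀ q ∈ X, p * q = q * p := by
    intro p hp q hq
    have h2 := hX (p * q) (X.mul_mem hp hq)
    have hpi : p⁻¹ = p := inv_eq_of_mul_eq_one_left (hX p hp)
    have hqi : q⁻¹ = q := inv_eq_of_mul_eq_one_left (hX q hq)
    have h3 : (p * q)⁻¹ = p * q := inv_eq_of_mul_eq_one_left h2
    rw [mul_inv_rev, hpi, hqi] at h3
    exact h3.symm
  obtain ⟨x, hxX, hx⟩ := havoid {1} (by simp)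
  obtain ⟨y, hyX, hy⟩ := havoid {1, x} (Finset.card_le_two.trans (by omega))
  obtain ⟨z, hzX, hz⟩ := havoid {1, x, y, x * y} (Finset.card_le_four)
  simp only [Finset.mem_singleton, Finset.mem_insert, not_or] at hx hy hz
  obtain ⟨hy1, hyx⟩ := hy
  obtain ⟨hz1, hzx, hzy, hzxy⟩ := hz
  -- memberships
  have hxy : x * y ∈ X := X.mul_mem hxX hyX
  have hxz : x * z ∈ X := X.mul_mem hxX hzX
  have hyz : y * z ∈ X := X.mul_mem hyX hzX
  have hxyz : x * (y * z) ∈ X := X.mul_mem hxX hyz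
  have hxx := hX x hxX
  have hyy := hX y hyX
  have hzz := hX z hzX
  -- non-identity facts
  have hxi : x⁻¹ = x := inv_eq_of_mul_eq_one_left hxx
  have hyi : y⁻¹ = y := inv_eq_of_mul_eq_one_left hyy
  have hxy1 : x * y ≠ 1 := fun h => hyx (by
    have := inv_eq_of_mul_eq_one_right h
    rw [hxi] at this; exact this.symm)
  have hxz1 : x * z ≠ 1 := fun h => hzx (by
    have := inv_eq_of_mul_eq_one_right h
    rw [hxi] at this; exact this.symm)
  have hyz1 : y * z ≠ 1 := fun h => hzy (by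
    have := inv_eq_of_mul_eq_one_right h
    rw [hyi] at this; exact this.symm)
  have hxyz1 : x * (y * z) ≠ 1 := by
    intro h
    apply hzxy
    have h2 := inv_eq_of_mul_eq_one_right h
    rw [hxi] at h2
    have h3 : z = y⁻¹ * (y * z) := by group
    rw [h3, ← h2, hyi, hcomm y hyX x hxX]
  -- the products
  have e1 : mul (ax x) (ax y) = (1 / 8 : ℝ) • (ax x + ax y - ax (x * y)) :=
    h2A x hxX y hyX hx hy1 (Ne.symm hyx)
  have e2 : mul (ax x) (ax (x * y)) = (1 / 8 : ℝ) • (ax x + ax (x * y) - ax y) := by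
    have := h2A x hxX (x * y) hxy hx hxy1 (fun h => hy1 (by simpa using h.symm))
    rwa [← mul_assoc, hxx, one_mul] at this
  have e3 : mul (ax x) (ax z) = (1 / 8 : ℝ) • (ax x + ax z - ax (x * z)) :=
    h2A x hxX z hzX hx hz1 (Ne.symm hzx)
  have e4 : mul (ax x) (ax (x * z)) = (1 / 8 : ℝ) • (ax x + ax (x * z) - ax z) := by
    have := h2A x hxX (x * z) hxz hx hxz1 (fun h => hz1 (by simpa using h.symm))
    rwa [← mul_assoc, hxx, one_mul] at this
  have e5 : mul (ax x) (ax (y * z)) = (1 / 8 : ℝ) • (ax x + ax (y * z) - ax (x * (y * z))) :=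
    h2A x hxX (y * z) hyz hx hyz1 (fun h => hzxy (by
      have h3 : z = y⁻¹ * (y * z) := by group
      rw [h3, ← h, hyi, hcomm y hyX x hxX]))
  have e6 : mul (ax x) (ax (x * (y * z))) = (1 / 8 : ℝ) • (ax x + ax (x * (y * z)) - ax (y * z)) := by
    have := h2A x hxX (x * (y * z)) hxyz hx hxyz1 (fun h => hyz1 (by simpa using h.symm))
    have h6 : x * (x * (y * z)) = y * z := by rw [← mul_assoc, hxx, one_mul]
    rwa [h6] at this
  have e7 : mul (ax y) (ax z) = (1 / 8 : ℝ) • (ax y + ax z - ax (y * z)) :=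
    h2A y hyX z hzX hy1 hz1 (Ne.symm hzy)
  have e8 : mul (ax y) (ax (x * z)) = (1 / 8 : ℝ) • (ax y + ax (x * z) - ax (x * (y * z))) := by
    have := h2A y hyX (x * z) hxz hy1 hxz1 (fun h => hzxy (by
      have h3 : z = x⁻¹ * (x * z) := by group
      rw [h3, ← h, hxi]))
    have h4 : y * (x * z) = x * (y * z) := by
      rw [← mul_assoc, hcomm y hyX x hxX, mul_assoc]
    rwa [h4] at this
  have e9 : mul (ax (x * y)) (ax z) = (1 / 8 : ℝ) • (ax (x * y) + ax z - ax (x * (y * z))) := by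
    have := h2A (x * y) hxy z hzX hxy1 hz1 (Ne.symm hzxy)
    rwa [mul_assoc] at this
  have e10 : mul (ax (x * y)) (ax (x * z)) = (1 / 8 : ℝ) • (ax (x * y) + ax (x * z) - ax (y * z)) := by
    have := h2A (x * y) hxy (x * z) hxz hxy1 hxz1 (fun h => hzy (by
      have h3 : x⁻¹ * (x * y) = x⁻¹ * (x * z) := by rw [h]
      simp only [inv_mul_cancel_left] at h3
      exact h3.symm))
    have h4 : (x * y) * (x * z) = y * z := by
      calc (x * y) * (x * z) = (y * x) * (x * z) := by rw [hcomm x hxX y hyX]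
        _ = y * (x * x) * z := by group
        _ = y * z := by rw [hxx, mul_one]
    rwa [h4] at this
  -- the eigenvectors
  have hA := hax x hxX hx
  set u₁ : V := ax y - ax (x * y) with hu₁
  set u₂ : V := ax z - ax (x * z) with hu₂
  set u₃ : V := ax (y * z) - ax (x * (y * z)) with hu₃
  have h14 : ∀ {b c : V}, mul (ax x) b = (1 / 8 : ℝ) • (ax x + b - c) →
      mul (ax x) c = (1 / 8 : ℝ) • (ax x + c - b) → b - c ∈ Cfsg.Axial.eigen mul (ax x) (1 / 4) := by
    intro b c hb hc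
    rw [mem_eigen, map_sub, hb, hc]
    module
  have hu₁e : u₁ ∈ Cfsg.Axial.eigen mul (ax x) (1 / 4) := h14 e1 e2
  have hu₂e : u₂ ∈ Cfsg.Axial.eigen mul (ax x) (1 / 4) := h14 e3 e4
  have hu₃e : u₃ ∈ Cfsg.Axial.eigen mul (ax x) (1 / 4) := h14 e5 e6
  have hprod : mul u₁ u₂ = (-(1 / 4) : ℝ) • u₃ := by
    rw [hu₁, hu₂, hu₃]
    simp only [map_sub, LinearMap.sub_apply]
    rw [e7, e8, e9, e10]
    module
  have hfus := fusion_4_4 hA hu₁e hu₂e
  rw [hprod] at hfus
  obtain ⟨x1, hx1, x0, hx0, hsum⟩ := Submodule.mem_sup.mp hfus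
  have hind := eigen_indep hV hx1 hx0 ((Cfsg.Axial.eigen mul (ax x) (1 / 4)).smul_mem (1 / 4) hu₃e)
    (Submodule.zero_mem _) (show x1 + x0 + (1 / 4 : ℝ) • u₃ + 0 = 0 by
      rw [hsum]; module)
  have hu₃0 : u₃ = 0 := by
    have := hind.2.2.1
    have h5 : (1 / 4 : ℝ) ≠ 0 := by norm_num
    exact (smul_eq_zero.mp this).resolve_left h5
  have hfg : ax (y * z) = ax (x * (y * z)) := sub_eq_zero.mp hu₃0
  -- contradiction
  have hpq : mul (ax (y * z)) (ax (x * (y * z))) = (1 / 8 : ℝ) • (ax (y * z) + ax (x * (y * z)) - ax x) := by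
    have := h2A (y * z) hyz (x * (y * z)) hxyz hyz1 hxyz1 (fun h => hx (by
      have h3 : x * (y * z) = 1 * (y * z) := by rw [one_mul]; exact h.symm
      exact mul_right_cancel h3))
    have h6 : (y * z) * (x * (y * z)) = x := by
      calc (y * z) * (x * (y * z)) = ((y * z) * x) * (y * z) := by group
        _ = (x * (y * z)) * (y * z) := by rw [hcomm (y * z) hyz x hxX]
        _ = x * ((y * z) * (y * z)) := by group
        _ = x := by rw [hX _ hyz, mul_one]
    rwa [h6] at this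
  have hB := hax (y * z) hyz hyz1
  rw [← hfg, idem hB] at hpq
  have ha : ax x = (-6 : ℝ) • ax (y * z) := by
    have h7 : (8 : ℝ) • ax (y * z) = ax (y * z) + ax (y * z) - ax x := by
      have h8 := congrArg (fun t => (8 : ℝ) • t) hpq
      simp only [smul_smul] at h8
      rw [h8]
      norm_num
    calc ax x = ax (y * z) + ax (y * z) - (ax (y * z) + ax (y * z) - ax x) := by abel
      _ = ax (y * z) + ax (y * z) - (8 : ℝ) • ax (y * z) := by rw [h7]
      _ = (-6 : ℝ) • ax (y * z) := by module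
  have hn1 := h1 x hxX hx
  have hn2 := h1 (y * z) hyz hyz1
  rw [ha] at hn1
  simp only [map_smul, LinearMap.smul_apply, smul_eq_mul] at hn1
  rw [hn2] at hn1
  norm_num at hn1

end Cfsg.Agent.S5543
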