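-- Statement S5545 (row 5545).
import Cfsg.Statements.S5545
import Cfsg.Agent.Lib.Majorana.Basic

set_option autoImplicit false
open Cfsg

namespace Cfsg.Agent.S5545

open Cfsg.Axial Cfsg.Agent.Lib.Majorana.Basic

variable {V : Type*} [AddCommGroup V] [Module ℝ V] {mul : V →ₗ[ℝ] V →ₗ[ℝ] V}
  {B : LinearMap.BilinForm ℝ V} {μ μ' : V ≃ₗ[ℝ] V} {a b : V}

/-- decomposition of a vector fixed by the involution. -/
private lemma one_sided (hV : IsMajoranaAmbient mul B) (ha : IsMajoranaPair mul B μ a)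
    (hn : B a a = 1) (hfix : μ b = b) :
    ∃ u v : V, u ∈ eigen mul a 0 ∧ v ∈ eigen mul a (1 / 4) ∧ b = (B a b) • a + u + v := by
  obtain ⟨r, e0, e4, e32, h0, h4, h32, hb⟩ := decomp ha b
  have h1 : μ b = r • a + e0 + e4 - e32 := by
    rw [hb]
    simp only [map_add, map_smul, mu_self ha, mu_fix_zero ha h0, mu_fix_four ha h4, mu_neg ha h32]
    abel
  have h2 : e32 = 0 := by
    have h3 : (2 : ℝ) • e32 = 0 := by
      have h4' : r • a + e0 + e4 - e32 = r • a + e0 + e4 + e32 := by rw [← h1, hfix, ← hb]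
      have h5 : (2 : ℝ) • e32 = (r • a + e0 + e4 + e32) - (r • a + e0 + e4 - e32) := by module
      rw [h5, ← h4', sub_self]
    exact (smul_eq_zero.mp h3).resolve_left (by norm_num)
  subst h2
  have hr : B a b = r := by
    have h01 := eigen_orth hV (self_mem_eigen_one ha) h0 (by norm_num)
    have h41 := eigen_orth hV (self_mem_eigen_one ha) h4 (by norm_num)
    rw [hb]
    simp [hn, h01, h41]
  refine ⟨e0, e4, h0, h4, ?_⟩
  rw [hr, hb, add_zero]

/-- `a * b` in terms of the decomposition. -/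
private lemma mul_ab (ha : IsMajoranaPair mul B μ a) {u v : V} {l : ℝ} (hu : u ∈ eigen mul a 0)
    (hv : v ∈ eigen mul a (1 / 4)) (hb : b = l • a + u + v) :
    mul a b = l • a + (1 / 4 : ℝ) • v := by
  rw [hb]
  simp only [map_add, map_smul, idem ha, mem_eigen.mp hu, mem_eigen.mp hv, zero_smul, add_zero]

private lemma mul_a_w (ha : IsMajoranaPair mul B μ a) {u v : V} {l : ℝ} (hu : u ∈ eigen mul a 0)
    (hv : v ∈ eigen mul a (1 / 4)) (hb : b = l • a + u + v) :
    mul a (mul a b) = (3 * l / 4) • a + (1 / 4 : ℝ) • mul a b := by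
  rw [mul_ab ha hu hv hb]
  simp only [map_add, map_smul, idem ha, mem_eigen.mp hv]
  module

/-- The key relation coming from the idempotency of `b`. -/
private lemma key_uv (hV : IsMajoranaAmbient mul B) (ha : IsMajoranaPair mul B μ a)
    (hbb : mul b b = b) {u v : V} {l : ℝ} (hu : u ∈ eigen mul a 0)
    (hv : v ∈ eigen mul a (1 / 4)) (hb : b = l • a + u + v) :
    (2 : ℝ) • mul u v = (1 - l / 2) • v := by
  have hcomm := hV.1
  have hau : mul a u = 0 := by rw [mem_eigen.mp hu, zero_smul]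
  have hav : mul a v = (1 / 4 : ℝ) • v := mem_eigen.mp hv
  have hua : mul u a = 0 := by rw [hcomm u a, hau]
  have hva : mul v a = (1 / 4 : ℝ) • v := by rw [hcomm v a, hav]
  have hvu : mul v u = mul u v := hcomm v u
  have hexp : mul b b = (l * l) • a + (l / 2) • v + mul u u + (2 : ℝ) • mul u v + mul v v := by
    rw [hb]
    simp only [map_add, map_smul, LinearMap.add_apply, LinearMap.smul_apply, idem ha, hau, hav,
      hua, hva, hvu]
    module
  have huu := fusion_0_0 ha hu hu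
  have huv := fusion_0_4 ha hu hv
  obtain ⟨x1, hx1, x0, hx0, hvv⟩ := Submodule.mem_sup.mp (fusion_4_4 ha hv hv)
  have hsum : ((l * l - l) • a + x1) + (mul u u - u + x0)
      + ((l / 2 - 1) • v + (2 : ℝ) • mul u v) + 0 = 0 := by
    have h1 : (l * l) • a + (l / 2) • v + mul u u + (2 : ℝ) • mul u v + (x1 + x0)
        = l • a + u + v := by
      rw [hvv, ← hexp, hbb, ← hb]
    have h2 : ((l * l - l) • a + x1) + (mul u u - u + x0)
        + ((l / 2 - 1) • v + (2 : ℝ) • mul u v) + 0 =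
        ((l * l) • a + (l / 2) • v + mul u u + (2 : ℝ) • mul u v + (x1 + x0))
          - (l • a + u + v) := by module
    rw [h2, h1, sub_self]
  have h4 : (l / 2 - 1) • v + (2 : ℝ) • mul u v ∈ eigen mul a (1 / 4) :=
    Submodule.add_mem _ (Submodule.smul_mem _ _ hv) (Submodule.smul_mem _ _ huv)
  have h1' : (l * l - l) • a + x1 ∈ eigen mul a 1 :=
    Submodule.add_mem _ (Submodule.smul_mem _ _ (self_mem_eigen_one ha)) hx1
  have h0' : mul u u - u + x0 ∈ eigen mul a 0 :=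
    Submodule.add_mem _ (Submodule.sub_mem _ huu hu) hx0
  have := (eigen_indep hV h1' h0' h4 (Submodule.zero_mem _) hsum).2.2.1
  have h6 : (2 : ℝ) • mul u v = ((l / 2 - 1) • v + (2 : ℝ) • mul u v) + (1 - l / 2) • v := by module
  rw [h6, this, zero_add]

/-- The formula for `w * w`. -/
private lemma key16 (hV : IsMajoranaAmbient mul B) (ha : IsMajoranaPair mul B μ a)
    (hbb : mul b b = b) {u v : V} {l : ℝ} (hu : u ∈ eigen mul a 0)
    (hv : v ∈ eigen mul a (1 / 4)) (hb : b = l • a + u + v)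
    (hbw : mul b (mul a b) = (3 * l / 4) • b + (1 / 4 : ℝ) • mul a b) :
    (16 : ℝ) • mul (mul a b) (mul a b)
      = (3 * l) • b + (4 * l - 1) • mul a b + (8 * l * l + 2 * l) • a := by
  have hcomm := hV.1
  set w := mul a b with hw
  have hw' : w = l • a + (1 / 4 : ℝ) • v := mul_ab ha hu hv hb
  have hv' : v = (4 : ℝ) • w - (4 * l) • a := by rw [hw']; module
  have hu' : u = b + (3 * l) • a - (4 : ℝ) • w := by
    have h1 : u = b - l • a - v := by rw [hb]; abel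
    rw [h1, hv']; module
  have haw : mul a w = (3 * l / 4) • a + (1 / 4 : ℝ) • w := mul_a_w ha hu hv hb
  have hba : mul b a = w := hcomm b a
  have hwa : mul w a = (3 * l / 4) • a + (1 / 4 : ℝ) • w := by rw [hcomm w a, haw]
  have hk := key_uv hV ha hbb hu hv hb
  rw [hu', hv'] at hk
  simp only [map_add, map_sub, map_smul, LinearMap.add_apply, LinearMap.sub_apply,
    LinearMap.smul_apply, hbw, hba, haw, hwa, idem ha] at hk
  linear_combination (norm := module) (-(1 / 2) : ℝ) • hk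

/-- The relation `l = l² + B(v,v)/4`. -/
private lemma norm_relation (hV : IsMajoranaAmbient mul B) (ha : IsMajoranaPair mul B μ a)
    (hbb : mul b b = b) {u v : V} {l : ℝ} (hu : u ∈ eigen mul a 0)
    (hv : v ∈ eigen mul a (1 / 4)) (hb : b = l • a + u + v) (hl : l = B a b) :
    l = l * l + B v v / 4 := by
  have hsymm := hV.2.1
  have h1 : B b (mul b a) = B (mul b b) a := hV.2.2.2.1 b b a
  rw [hbb, hV.1 b a, mul_ab ha hu hv hb] at h1
  have hav : B a v = 0 := eigen_orth hV (self_mem_eigen_one ha) hv (by norm_num)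
  have huv : B u v = 0 := eigen_orth hV hu hv (by norm_num)
  have hba : B b a = l := by rw [hsymm, ← hl]
  have hbv : B b v = B v v := by
    rw [hb]
    simp only [map_add, LinearMap.add_apply, map_smul, LinearMap.smul_apply, hav, huv]
    simp
  simp only [map_add, map_smul, smul_eq_mul, hba, hbv] at h1
  linarith

theorem result {V : Type*} [AddCommGroup V] [Module ℝ V] [FiniteDimensional ℝ V] (mul : V →ₗ[ℝ] V →ₗ[ℝ] V) (B : LinearMap.BilinForm ℝ V) (hV : Cfsg.Axial.IsMajoranaAmbient mul B) (μ₀ μ₁ : V ≃ₗ[ℝ] V) (a₀ a₁ : V) (h₀ : Cfsg.Axial.IsMajoranaPair mul B μ₀ a₀) (h₁ : Cfsg.Axial.IsMajoranaPair mul B μ₁ a₁) (hu₀ : ∀ a : V, Cfsg.Axial.IsMajoranaPair mul B μ₀ a → a = a₀) (hu₁ : ∀ a : V, Cfsg.Axial.IsMajoranaPair mul B μ₁ a → a = a₁) (hn₀ : B a₀ a₀ = 1) (hn₁ : B a₁ a₁ = 1) (hc : μ₀ * μ₁ = μ₁ * μ₀) (hne : a₀ ≠ a₁) : (B a₀ a₁ = 0 ∧ mul a₀ a₁ = 0) ∨ (B a₀ a₁ = 1 / 8 ∧ mul (a₀ + a₁ - (8 : ℝ) • mul a₀ a₁) (a₀ + a₁ - (8 : ℝ) •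 mul a₀ a₁) = a₀ + a₁ - (8 : ℝ) • mul a₀ a₁ ∧ mul a₀ (a₀ + a₁ - (8 : ℝ) • mul a₀ a₁) = (1 / 8 : ℝ) • (a₀ + (a₀ + a₁ - (8 : ℝ) • mul a₀ a₁) - a₁) ∧ mul a₁ (a₀ + a₁ - (8 : ℝ) • mul a₀ a₁) = (1 / 8 : ℝ) • (a₁ + (a₀ + a₁ - (8 : ℝ) • mul a₀ a₁) - a₀)) := by
  have hcomm := hV.1
  have hsymm := hV.2.1
  -- the axes are fixed by the other involution
  have hfix : ∀ {μ μ' : V ≃ₗ[ℝ] V} {a a' : V}, IsMajoranaPair mul B μ a → IsMajoranaPair mul B μ' a' →
      (∀ c : V, IsMajoranaPair mul B μ' c → c = a') → μ * μ' = μ' * μ → μ a' = a' := by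
    intro μ μ' a a' hp hp' hu hcc
    have h := pair_conj (B := B) μ hp.1 hp.2.1 hp'
    apply hu
    have he : (μ⁻¹.trans (μ'.trans μ)) = μ' := by
      ext x
      show μ (μ' (μ⁻¹ x)) = μ' x
      rw [mu_inv hp]
      have h2 : (μ * μ') (μ x) = (μ' * μ) (μ x) := by rw [hcc]
      have h3 : (μ * μ') (μ x) = μ (μ' (μ x)) := rfl
      have h4 : (μ' * μ) (μ x) = μ' (μ (μ x)) := rfl
      rw [h3, h4, mu_mu hp] at h2
      exact h2
    rwa [he] at h
  have hfix₀ : μ₀ a₁ = a₁ := hfix h₀ h₁ hu₁ hc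
  have hfix₁ : μ₁ a₀ = a₀ := hfix h₁ h₀ hu₀ hc.symm
  obtain ⟨u, v, hu, hv, hb⟩ := one_sided hV h₀ hn₀ hfix₀
  obtain ⟨u', v', hu', hv', hb'⟩ := one_sided hV h₁ hn₁ hfix₁
  set l : ℝ := B a₀ a₁ with hl
  have hl' : B a₁ a₀ = l := hsymm _ _
  rw [hl'] at hb'
  have hw01 : mul a₁ a₀ = mul a₀ a₁ := hcomm _ _
  set w : V := mul a₀ a₁ with hw
  have haw : mul a₀ w = (3 * l / 4) • a₀ + (1 / 4 : ℝ) • w := mul_a_w h₀ hu hv hb
  have hbw : mul a₁ w = (3 * l / 4) • a₁ + (1 / 4 : ℝ) • w := by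
    have := mul_a_w h₁ hu' hv' hb'
    rwa [hw01] at this
  have hk1 : (16 : ℝ) • mul w w = (3 * l) • a₁ + (4 * l - 1) • w + (8 * l * l + 2 * l) • a₀ :=
    key16 hV h₀ (idem h₁) hu hv hb hbw
  have hk2 : (16 : ℝ) • mul w w = (3 * l) • a₀ + (4 * l - 1) • w + (8 * l * l + 2 * l) • a₁ := by
    have := key16 hV h₁ (idem h₀) hu' hv' hb' (by rw [hw01]; exact haw)
    rwa [hw01] at this
  -- the crucial dichotomy
  have hdi : l * (1 - 8 * l) = 0 := by
    have h3 : (l * (1 - 8 * l)) • (a₁ - a₀) = 0 := by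
      have h4 : (l * (1 - 8 * l)) • (a₁ - a₀) =
          ((3 * l) • a₁ + (4 * l - 1) • w + (8 * l * l + 2 * l) • a₀) -
            ((3 * l) • a₀ + (4 * l - 1) • w + (8 * l * l + 2 * l) • a₁) := by module
      rw [h4, ← hk1, ← hk2, sub_self]
    exact (smul_eq_zero.mp h3).resolve_right (sub_ne_zero.mpr hne.symm)
  have hwform : w = l • a₀ + (1 / 4 : ℝ) • v := mul_ab h₀ hu hv hb
  rcases mul_eq_zero.mp hdi with h0 | h8
  · left
    refine ⟨h0, ?_⟩
    have hr := norm_relation hV h₀ (idem h₁) hu hv hb rfl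
    rw [h0] at hr
    have hvv : B v v = 0 := by linarith
    have hv0 : v = 0 := eq_zero_of_self hV hvv
    rw [hwform, h0, hv0]
    simp
  · right
    have hl8 : l = 1 / 8 := by linarith
    refine ⟨hl8, ?_, ?_, ?_⟩
    · have hwa : mul w a₀ = (3 * l / 4) • a₀ + (1 / 4 : ℝ) • w := by rw [hcomm w a₀, haw]
      have hwb : mul w a₁ = (3 * l / 4) • a₁ + (1 / 4 : ℝ) • w := by rw [hcomm w a₁, hbw]
      simp only [map_add, map_sub, map_smul, LinearMap.add_apply, LinearMap.sub_apply,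
        LinearMap.smul_apply, idem h₀, idem h₁, hw01, ← hw, haw, hbw, hwa, hwb]
      rw [hl8] at hk1 ⊢
      linear_combination (norm := module) (4 : ℝ) • hk1
    · simp only [map_add, map_sub, map_smul, idem h₀, ← hw, haw]
      rw [hl8]
      module
    · simp only [map_add, map_sub, map_smul, idem h₁, hw01, hbw]
      rw [hl8]
      module

end Cfsg.Agent.S5545
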