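import Cfsg.Statements.S5546
import Cfsg.Agent.Lib.Leech.GenA

set_option autoImplicit false
open Cfsg

namespace Cfsg.Agent.S5546

open Cfsg.Spor
open Cfsg.Agent.Lib.Leech.Basic Cfsg.Agent.Lib.Leech.Even Cfsg.Agent.Lib.Leech.GenA
open Matrix

abbrev Lat : Type := ↥leechLattice

/-- The vector `8 e_j`. -/
def e8vec (j : GolayPt) : GolayPt → ℤ := fun i => if i = j then 8 else 0

theorem e8vec_mem (j : GolayPt) : e8vec j ∈ leechLattice := by
  rw [mem_leechLattice_iff, mem_leechSet_iff]
  refine ⟨0, fun k => ?_, ?_, ?_⟩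
  · unfold e8vec Int.ModEq
    split_ifs <;> norm_num
  · have : ∑ k, e8vec j k = 8 := by
      unfold e8vec
      simp
    rw [this]
    decide
  · have : digitWord (e8vec j) = 0 := by
      funext k
      simp only [digitWord, e8vec, bit1]
      split_ifs <;> rfl
    rw [this]
    exact Submodule.zero_mem _

def e8 (j : GolayPt) : Lat := ⟨e8vec j, e8vec_mem j⟩

theorem sum_e8 (x : Lat) : ∑ j, (x.1 j) • e8 j = (8 : ℤ) • x := by
  apply Subtype.ext
  funext i
  rw [AddSubgroup.val_finsetSum, Finset.sum_apply]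
  have h : ∀ j, (((x.1 j) • e8 j : Lat) : GolayPt → ℤ) i = x.1 j * (if i = j then 8 else 0) := by
    intro j
    simp [e8, e8vec]
  simp only [h]
  rw [Finset.sum_eq_single i]
  · simp [mul_comm]
  · intro b _ hb
    simp [hb.symm]
  · simp

/-- The matrix of `f` modulo 13. -/
def M (f : Equiv.Perm Lat) : Matrix GolayPt GolayPt (ZMod 13) :=
  fun i j => 5 * (((f (e8 j)).1 i : ℤ) : ZMod 13)

/-- Reduction modulo 13. -/
def phi (x : Lat) : GolayPt → ZMod 13 := fun i => ((x.1 i : ℤ) : ZMod 13)

def addH (f : Equiv.Perm Lat) (hf : f ∈ Co0) : Lat →+ Lat := AddMonoidHom.mk' f hf.1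

theorem addH_apply (f : Equiv.Perm Lat) (hf : f ∈ Co0) (x : Lat) : addH f hf x = f x := rfl

theorem apply_zsmul (f : Equiv.Perm Lat) (hf : f ∈ Co0) (n : ℤ) (x : Lat) : f (n • x) = n • f x := by
  rw [← addH_apply f hf, map_zsmul, addH_apply]

theorem eight_apply (f : Equiv.Perm Lat) (hf : f ∈ Co0) (x : Lat) (i : GolayPt) :
    8 * (f x).1 i = ∑ j, x.1 j * (f (e8 j)).1 i := by
  have h1 : f ((8 : ℤ) • x) = ∑ j, (x.1 j) • f (e8 j) := by
    rw [← sum_e8 x, ← addH_apply f hf, map_sum]
    apply Finset.sum_congr rfl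
    intro j _
    rw [map_zsmul, addH_apply]
  rw [apply_zsmul f hf] at h1
  have h2 := congrArg (fun y : Lat => y.1 i) h1
  simp only [AddSubgroup.coe_zsmul, Pi.smul_apply, smul_eq_mul] at h2
  rw [h2, AddSubgroup.val_finsetSum, Finset.sum_apply]
  simp

theorem phi_apply (f : Equiv.Perm Lat) (hf : f ∈ Co0) (x : Lat) :
    phi (f x) = (M f) *ᵥ (phi x) := by
  funext i
  have h := congrArg (fun n : ℤ => (n : ZMod 13)) (eight_apply f hf x i)
  simp only [Int.cast_mul, Int.cast_sum, Int.cast_ofNat] at h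
  have h5 : (5 : ZMod 13) * 8 = 1 := by decide
  have h6 : ((((f x).1 i : ℤ) : ZMod 13)) = 5 * (8 * (((f x).1 i : ℤ) : ZMod 13)) := by
    rw [← mul_assoc, h5, one_mul]
  simp only [phi, mulVec, dotProduct, M]
  rw [h6, h, Finset.mul_sum]
  apply Finset.sum_congr rfl
  intro j _
  ring

theorem M_one : M 1 = 1 := by
  ext i j
  simp only [M, Equiv.Perm.one_apply, e8, e8vec, Matrix.one_apply]
  by_cases h : i = j
  · simp only [h, if_true]
    decide
  · simp only [h, if_false]
    simp

theorem M_mul (f h : Equiv.Perm Lat) (hf : f ∈ Co0) : M (f * h) = M f * M h := by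
  ext i j
  have h1 := congrFun (phi_apply f hf (h (e8 j))) i
  simp only [M, Equiv.Perm.mul_apply, Matrix.mul_apply]
  simp only [phi, mulVec, dotProduct, M] at h1
  rw [h1, Finset.mul_sum]
  apply Finset.sum_congr rfl
  intro k _
  ring

theorem dotInt_apply (f : Equiv.Perm Lat) (hf : f ∈ Co0) (x y : Lat) :
    dotInt (f x).1 (f y).1 = dotInt x.1 y.1 := by
  have h1 := hf.2 (x + y)
  rw [hf.1] at h1
  have h2 : sqNorm ((f x + f y : Lat) : GolayPt → ℤ) = sqNorm ((f x).1 + (f y).1) := rfl
  have h3 : sqNorm ((x + y : Lat) : GolayPt → ℤ) = sqNorm (x.1 + y.1) := rfl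
  rw [h2, h3, sqNorm_add, sqNorm_add, hf.2 x, hf.2 y] at h1
  linarith

theorem M_orth (f : Equiv.Perm Lat) (hf : f ∈ Co0) : (M f)ᵀ * M f = 1 := by
  ext i j
  have h1 := dotInt_apply f hf (e8 i) (e8 j)
  have h2 := congrArg (fun n : ℤ => (n : ZMod 13)) h1
  simp only [dotInt, Int.cast_sum, Int.cast_mul] at h2
  simp only [Matrix.mul_apply, Matrix.transpose_apply, M]
  have h3 : ∑ k, 5 * (((f (e8 i)).1 k : ℤ) : ZMod 13) * (5 * (((f (e8 j)).1 k : ℤ) : ZMod 13)) =
      25 * ∑ k, (((f (e8 i)).1 k : ℤ) : ZMod 13) * (((f (e8 j)).1 k : ℤ) : ZMod 13) := by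
    rw [Finset.mul_sum]
    apply Finset.sum_congr rfl
    intro k _
    ring
  rw [h3, h2]
  simp only [e8, e8vec]
  by_cases h : i = j
  · subst h
    rw [Matrix.one_apply_eq]
    rw [Finset.sum_eq_single i]
    · simp only [if_true]
      decide
    · intro b _ hb
      simp [hb]
    · simp
  · rw [Matrix.one_apply_ne h]
    have : ∀ k : GolayPt, ((if k = i then (8 : ℤ) else 0 : ℤ) : ZMod 13) *
        ((if k = j then (8 : ℤ) else 0 : ℤ) : ZMod 13) = 0 := by
      intro k
      by_cases hk : k = i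
      · have : k ≠ j := fun hj => h (hk.symm.trans hj)
        simp [this]
      · simp [hk]
    rw [Finset.sum_eq_zero (fun k _ => this k), mul_zero]


theorem dot_M (f : Equiv.Perm Lat) (hf : f ∈ Co0) (v w : GolayPt → ZMod 13) :
    (M f *ᵥ v) ⬝ᵥ (M f *ᵥ w) = v ⬝ᵥ w := by
  rw [← Matrix.vecMul_transpose, ← Matrix.dotProduct_mulVec, Matrix.mulVec_mulVec, M_orth f hf,
    Matrix.one_mulVec]

/-- Elements acting trivially modulo 13 fix short vectors. -/
theorem fix_short (f : Equiv.Perm Lat) (hf : f ∈ Co0) (hM : M f = 1) (x : Lat)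
    (hx : sqNorm x.1 ≤ 168) : f x = x := by
  have hphi : phi (f x) = phi x := by
    rw [phi_apply f hf, hM, Matrix.one_mulVec]
  set D : GolayPt → ℤ := (f x).1 - x.1 with hD
  have hDmem : D ∈ leechLattice := leechLattice.sub_mem (f x).2 x.2
  have h13 : ∀ i, (13 : ℤ) ∣ D i := by
    intro i
    have h1 := congrFun hphi i
    simp only [phi] at h1
    have h2 := (ZMod.intCast_eq_intCast_iff ((f x).1 i) (x.1 i) 13).mp h1
    exact (Int.modEq_iff_dvd.mp h2.symm)
  have hnorm : sqNorm D ≤ 672 := by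
    have h1 : sqNorm D + sqNorm ((f x).1 + x.1) = 2 * sqNorm (f x).1 + 2 * sqNorm x.1 := by
      unfold sqNorm
      rw [Finset.mul_sum, Finset.mul_sum, ← Finset.sum_add_distrib, ← Finset.sum_add_distrib]
      apply Finset.sum_congr rfl
      intro i _
      simp only [hD, Pi.sub_apply, Pi.add_apply]
      ring
    have h2 : 0 ≤ sqNorm ((f x).1 + x.1) := Finset.sum_nonneg fun i _ => sq_nonneg _
    rw [hf.2 x] at h1
    linarith
  have hzero : D = 0 := by
    by_contra hne
    obtain ⟨j, hj⟩ : ∃ j, D j ≠ 0 := by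
      by_contra hcon
      push Not at hcon
      exact hne (funext hcon)
    rw [mem_leechLattice_iff, mem_leechSet_iff] at hDmem
    obtain ⟨m, hm, -, -⟩ := hDmem
    rcases exists_eq_two_mul_add m with ⟨q, rfl⟩ | ⟨q, rfl⟩
    · -- even
      obtain ⟨a, ha⟩ := h13 j
      have h2 := hm j
      rw [ha] at h2
      unfold Int.ModEq at h2
      have ha2 : a % 2 = 0 := by omega
      obtain ⟨b, rfl⟩ : ∃ b, a = 2 * b := ⟨a / 2, by omega⟩
      have hb0 : b ≠ 0 := by
        rintro rfl
        exact hj (by rw [ha]; ring)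
      have h3 : 676 ≤ D j ^ 2 := by
        rw [ha]
        nlinarith [Int.one_le_abs hb0, sq_abs b, abs_nonneg b]
      have := card_mul_le_sqNorm D {j} 676 (by
        intro i hi
        rw [Finset.mem_singleton] at hi
        rw [hi]
        exact h3)
      rw [Finset.card_singleton] at this
      push_cast at this
      linarith
    · -- odd
      have hall : ∀ i ∈ (Finset.univ : Finset GolayPt), (169 : ℤ) ≤ D i ^ 2 := by
        intro i _
        obtain ⟨a, ha⟩ := h13 i
        have h2 := hm i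
        rw [ha] at h2
        unfold Int.ModEq at h2
        have ha0 : a ≠ 0 := by
          rintro rfl
          omega
        rw [ha]
        nlinarith [Int.one_le_abs ha0, sq_abs a, abs_nonneg a]
      have := card_mul_le_sqNorm D Finset.univ 169 hall
      rw [Finset.card_univ, Fintype.card_option, ZMod.card] at this
      push_cast at this
      linarith
  apply Subtype.ext
  have := hzero
  rw [hD, sub_eq_zero] at this
  exact this

theorem eq_one_of_M (f : Equiv.Perm Lat) (hf : f ∈ Co0) (hM : M f = 1) : f = 1 := by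
  let F : AddSubgroup Lat :=
    { carrier := {x | f x = x}
      zero_mem' := by
        show f 0 = 0
        rw [← addH_apply f hf, map_zero]
      add_mem' := by
        intro a b ha hb
        show f (a + b) = a + b
        rw [hf.1, show f a = a from ha, show f b = b from hb]
      neg_mem' := by
        intro a ha
        show f (-a) = -a
        rw [← addH_apply f hf, map_neg, addH_apply, show f a = a from ha] }
  ext1 x
  exact mem_of_short x F (fun y hy => fix_short f hf hM y hy)

instance fact13 : Fact (Nat.Prime 13) := ⟨by norm_num⟩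

abbrev V : Type := GolayPt → ZMod 13

def u0 : V := phi leechU

theorem u0_dot : u0 ⬝ᵥ u0 = 6 := by decide

def ell : V →ₗ[ZMod 13] ZMod 13 where
  toFun v := u0 ⬝ᵥ v
  map_add' := dotProduct_add u0
  map_smul' c v := by simp [dotProduct_smul]

theorem ell_apply (v : V) : ell v = u0 ⬝ᵥ v := rfl

theorem ell_ne : ell ≠ 0 := by
  intro h
  have h1 : ell u0 = 0 := by rw [h]; rfl
  rw [ell_apply, u0_dot] at h1
  exact absurd h1 (by decide)

def W : Submodule (ZMod 13) V := LinearMap.ker ell

theorem finrank_W : Module.finrank (ZMod 13) W = 23 := by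
  have h1 := Module.Dual.finrank_ker_add_one_of_ne_zero ell_ne
  have h2 : Module.finrank (ZMod 13) V = 24 := by
    rw [Module.finrank_fintype_fun_eq_card, Fintype.card_option, ZMod.card]
  rw [h2] at h1
  exact Nat.succ.inj h1

theorem M_u0 (g : ↥Co2) : M g.1 *ᵥ u0 = u0 := by
  have h1 : g.1 leechU = leechU := g.2.2
  unfold u0
  rw [← phi_apply g.1 g.2.1, h1]

theorem maps_W (g : ↥Co2) (v : V) (hv : v ∈ W) : M g.1 *ᵥ v ∈ W := by
  have hv' : u0 ⬝ᵥ v = 0 := hv
  show u0 ⬝ᵥ (M g.1 *ᵥ v) = 0
  conv_lhs => rw [← M_u0 g]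
  rw [dot_M g.1 g.2.1, hv']

/-- The action on the orthogonal complement. -/
def R : ↥Co2 →* Module.End (ZMod 13) W where
  toFun g := (Matrix.mulVecLin (M g.1)).restrict (fun v hv => maps_W g v hv)
  map_one' := by
    ext v
    simp [M_one]
  map_mul' g h := by
    apply LinearMap.ext
    intro v
    apply Subtype.ext
    show M (g.1 * h.1) *ᵥ (v : V) = M g.1 *ᵥ (M h.1 *ᵥ (v : V))
    rw [M_mul g.1 h.1 g.2.1, Matrix.mulVec_mulVec]

theorem R_apply (g : ↥Co2) (v : W) : ((R g v : W) : V) = M g.1 *ᵥ (v : V) := rfl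

theorem M_eq_one_of_R (g : ↥Co2) (h : R g = 1) : M g.1 = 1 := by
  have h1 : ∀ v : V, M g.1 *ᵥ v = v := by
    intro v
    -- decompose `v = c • u0 + w`
    let c : ZMod 13 := (u0 ⬝ᵥ v) * 11
    have h6 : (6 : ZMod 13) * 11 = 1 := by decide
    have hw : v - c • u0 ∈ W := by
      show u0 ⬝ᵥ (v - c • u0) = 0
      rw [dotProduct_sub, dotProduct_smul, u0_dot, smul_eq_mul]
      simp only [c]
      rw [mul_assoc, mul_comm (11 : ZMod 13), h6, mul_one, sub_self]
    have h2 : M g.1 *ᵥ (v - c • u0) = v - c • u0 := by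
      have := congrArg (fun T : Module.End (ZMod 13) W => ((T ⟨_, hw⟩ : W) : V)) h
      simpa [R_apply] using this
    have h3 : M g.1 *ᵥ (c • u0) = c • u0 := by
      rw [Matrix.mulVec_smul, M_u0]
    rw [Matrix.mulVec_sub, h3, sub_left_inj] at h2
    exact h2
  apply Matrix.mulVec_injective
  funext v
  rw [h1, Matrix.one_mulVec]

/-- The second Conway group (the stabilizer in the Leech lattice automorphism group of the short vector fixed in the definitions) is isomorphic to a subgroup of the general linear group of degree 23 over the field with 13 elements: there is an injective homomorphism into it. -/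
theorem result : ∃ f : ↥Cfsg.Spor.Co2 →* GL (Fin 23) (ZMod 13), Function.Injective f := by
  let b : Module.Basis (Fin 23) (ZMod 13) W := Module.finBasisOfFinrankEq _ _ finrank_W
  let A := LinearMap.toMatrixAlgEquiv (R := ZMod 13) (M₁ := W) b
  let F : ↥Cfsg.Spor.Co2 →* Matrix (Fin 23) (Fin 23) (ZMod 13) :=
    (A.toAlgHom.toMonoidHom).comp R
  refine ⟨F.toHomUnits, ?_⟩
  rw [injective_iff_map_eq_one]
  intro g hg
  have h1 : F g = 1 := by
    have := congrArg Units.val hg
    simpa using this
  have h2 : R g = 1 := by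
    apply A.injective
    rw [map_one]
    exact h1
  apply Subtype.ext
  exact eq_one_of_M g.1 g.2.1 (M_eq_one_of_R g h2)

end Cfsg.Agent.S5546
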