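import Cfsg.Statements.S5549
import Cfsg.Agent.Lib.Golay.DualCheck

set_option autoImplicit false
open Cfsg

namespace Cfsg.Agent.S5549

open Cfsg.Agent.Lib.Golay.Core Cfsg.Agent.Lib.Golay.Perm Cfsg.Agent.Lib.Golay.Chain
  Cfsg.Agent.Lib.Golay.M24 Cfsg.Agent.Lib.Golay.Orbits Cfsg.Agent.Lib.Golay.DualCheck
open scoped Pointwise

private abbrev V := GolayPt → ZMod 2

/-! ### The dot product -/

private def dot (v w : V) : ZMod 2 := ∑ p, v p * w p

private theorem dot_add_left (u v w : V) : dot (u + v) w = dot u w + dot v w := by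
  simp [dot, add_mul, Finset.sum_add_distrib]

private theorem dot_add_right (u v w : V) : dot u (v + w) = dot u v + dot u w := by
  simp [dot, mul_add, Finset.sum_add_distrib]

private theorem dot_smul_right (r : ZMod 2) (u v : V) : dot u (r • v) = r * dot u v := by
  simp only [dot, Pi.smul_apply, smul_eq_mul, Finset.mul_sum]
  apply Finset.sum_congr rfl
  intro p _
  ring

private theorem dot_wordOf (n m : ℕ) : dot (wordOf n) (wordOf m) = ((pop (n &&& m) : ℕ) : ZMod 2) := by
  have h1 : ∀ p, wordOf n p * wordOf m p = if p ∈ setOf (n &&& m) then 1 else 0 := by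
    intro p
    simp only [mem_setOf, Nat.testBit_and, wordOf]
    cases n.testBit (idx p) <;> cases m.testBit (idx p) <;> simp
  simp only [dot, h1]
  rw [Finset.sum_ite_mem]
  simp only [Finset.univ_inter, Finset.sum_const, nsmul_eq_mul, mul_one, card_setOf]

private theorem inter_even {a b : ℕ} (ha : a < 4096) (hb : b < 4096) :
    2 ∣ pop (code a &&& code b) := by
  have h1 := card_symmDiff_eq (setOf (code a)) (setOf (code b))
  rw [← setOf_xor, ← setOf_inter, card_setOf, card_setOf, card_setOf, card_setOf,
    ← code_xor ha hb] at h1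
  have w1 := code_weights a ha
  have w2 := code_weights b hb
  have w3 := code_weights _ (lt_4096_xor ha hb)
  omega

private theorem dot_code {a b : ℕ} (ha : a < 4096) (hb : b < 4096) :
    dot (wordOf (code a)) (wordOf (code b)) = 0 := by
  rw [dot_wordOf]
  obtain ⟨k, hk⟩ := inter_even ha hb
  rw [hk]
  push_cast
  rw [show (2 : ZMod 2) = 0 from rfl, zero_mul]

/-- The code is self-orthogonal. -/
private theorem orth {v w : V} (hv : v ∈ golayCode) (hw : w ∈ golayCode) : dot v w = 0 := by
  obtain ⟨a, ha, rfl⟩ := mem_golayCode_iff.mp hv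
  obtain ⟨b, hb, rfl⟩ := mem_golayCode_iff.mp hw
  exact dot_code ha hb

/-- The code is self-dual. -/
private theorem mem_of_orth {w : V} (h : ∀ c ∈ golayCode, dot w c = 0) : w ∈ golayCode := by
  obtain ⟨s, hs, hsw⟩ := exists_syndrome w
  have hc := allUpTo_iff.mp syn_check s hs
  simp only [Bool.or_eq_true, List.any_eq_true] at hc
  rcases hc with h0 | ⟨b, hb, hb1⟩
  · have : s = 0 := Nat.eq_of_beq_eq_true h0
    subst this
    have e : wordOf (0 * 4096) = 0 := by simpa using wordOf_zero
    rwa [e, add_zero] at hsw
  · exfalso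
    have hbmem := basis_mem b hb
    have h1 := orth hsw hbmem
    rw [dot_add_left, h _ hbmem, zero_add, dot_wordOf] at h1
    have h2 : pop (Nat.land (s * 4096) b) % 2 = 1 := Nat.eq_of_beq_eq_true hb1
    have h3 : pop (s * 4096 &&& b) % 2 = 1 := h2
    rw [ZMod.natCast_eq_zero_iff] at h1
    omega

/-! ### Words of small weight in the code -/

private def word1 (D : Finset GolayPt) : V := fun p => if p ∈ D then 1 else 0

private theorem dot_word1 (D : Finset GolayPt) (c : V) : dot (word1 D) c = ∑ p ∈ D, c p := by
  simp only [dot, word1, ite_mul, one_mul, zero_mul]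
  rw [Finset.sum_ite_mem, Finset.univ_inter]

private theorem eq_zero_of_small {w : V} (hw : w ∈ golayCode) (h : hammingNorm w ≤ 6) : w = 0 := by
  rcases hammingNorm_mem hw with h1 | h1 | h1 | h1 | h1 <;> first | omega | exact hammingNorm_eq_zero.mp h1

/-- Three duads with a linear relation on the code: the first two meet in one point. -/
private theorem tri {D1 D2 D3 : Finset GolayPt} (h1 : D1.card = 2) (h2 : D2.card = 2) (h3 : D3.card = 2)
    (h : ∀ c ∈ golayCode, ∑ p ∈ D1, c p + ∑ p ∈ D2, c p = ∑ p ∈ D3, c p) : (D1 ∩ D2).card = 1 := by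
  classical
  set w : V := word1 D1 + word1 D2 + word1 D3 with hw
  have hmem : w ∈ golayCode := by
    apply mem_of_orth
    intro c hc
    rw [hw, dot_add_left, dot_add_left, dot_word1, dot_word1, dot_word1, h c hc]
    exact CharTwo.add_self_eq_zero _
  have hnorm : hammingNorm w ≤ 6 := by
    have hsub : (Finset.univ.filter fun p => w p ≠ 0) ⊆ D1 ∪ D2 ∪ D3 := by
      intro p hp
      have hp' := (Finset.mem_filter.mp hp).2
      by_contra hc
      simp only [Finset.mem_union, not_or] at hc
      apply hp'
      simp [hw, word1, hc.1.1, hc.1.2, hc.2]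
    calc hammingNorm w ≤ (D1 ∪ D2 ∪ D3).card := Finset.card_le_card hsub
      _ ≤ (D1 ∪ D2).card + D3.card := Finset.card_union_le _ _
      _ ≤ D1.card + D2.card + D3.card := by
        have := Finset.card_union_le D1 D2
        omega
      _ = 6 := by omega
  have hzero := eq_zero_of_small hmem hnorm
  have hpt : ∀ p, (if p ∈ D1 then (1 : ZMod 2) else 0) + (if p ∈ D2 then 1 else 0) +
      (if p ∈ D3 then 1 else 0) = 0 := fun p => congrFun hzero p
  have hle : (D1 ∩ D2).card ≤ 2 := by
    calc (D1 ∩ D2).card ≤ D1.card := Finset.card_le_card Finset.inter_subset_left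
      _ = 2 := h1
  have hne0 : (D1 ∩ D2).card ≠ 0 := by
    intro h0
    have hdis : Disjoint D1 D2 := Finset.disjoint_iff_inter_eq_empty.mpr (Finset.card_eq_zero.mp h0)
    have hsub : D1 ∪ D2 ⊆ D3 := by
      intro p hp
      by_contra hc
      have := hpt p
      rw [if_neg hc, add_zero] at this
      rcases Finset.mem_union.mp hp with hp1 | hp1
      · have hp2 : p ∉ D2 := Finset.disjoint_left.mp hdis hp1
        simp [hp1, hp2] at this
      · have hp2 : p ∉ D1 := Finset.disjoint_right.mp hdis hp1
        simp [hp1, hp2] at this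
    have := Finset.card_le_card hsub
    rw [Finset.card_union_of_disjoint hdis] at this
    omega
  have hne2 : (D1 ∩ D2).card ≠ 2 := by
    intro h0
    have e1 : D1 ∩ D2 = D1 := Finset.eq_of_subset_of_card_le Finset.inter_subset_left (by omega)
    have e2 : D1 ∩ D2 = D2 := Finset.eq_of_subset_of_card_le Finset.inter_subset_right (by omega)
    have e3 : D1 = D2 := e1.symm.trans e2
    obtain ⟨p, hp⟩ : D3.Nonempty := by
      rw [← Finset.card_pos]; omega
    have := hpt p
    rw [if_pos hp, e3] at this
    split_ifs at this <;> exact absurd this (by decide)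
  omega

/-- A family of pairwise meeting duads has a common point. -/
private theorem common_point {ι : Type*} (D : ι → Finset GolayPt) (hD : ∀ i, (D i).card = 2)
    (hm : ∀ i j, i ≠ j → (D i ∩ D j).card = 1) (i0 i1 : ι) (h01 : i0 ≠ i1)
    (h3 : ∀ a b c : ι, ∃ k, k ≠ a ∧ k ≠ b ∧ k ≠ c) : ∃ p, ∀ i, p ∈ D i := by
  classical
  obtain ⟨p, hp⟩ := Finset.card_eq_one.mp (hm i0 i1 h01)
  have hp0 : p ∈ D i0 := (Finset.mem_inter.mp (hp ▸ Finset.mem_singleton_self p)).1
  have hp1 : p ∈ D i1 := (Finset.mem_inter.mp (hp ▸ Finset.mem_singleton_self p)).2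
  refine ⟨p, ?_⟩
  by_contra hcon
  push Not at hcon
  obtain ⟨j, hj⟩ := hcon
  -- `D j` contains the other points of `D i0`, `D i1`
  obtain ⟨q, hq⟩ := Finset.card_eq_one.mp (hm j i0 (fun h => hj (h ▸ hp0)))
  obtain ⟨r, hr⟩ := Finset.card_eq_one.mp (hm j i1 (fun h => hj (h ▸ hp1)))
  have hqj : q ∈ D j := (Finset.mem_inter.mp (hq ▸ Finset.mem_singleton_self q)).1
  have hq0 : q ∈ D i0 := (Finset.mem_inter.mp (hq ▸ Finset.mem_singleton_self q)).2
  have hrj : r ∈ D j := (Finset.mem_inter.mp (hr ▸ Finset.mem_singleton_self r)).1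
  have hr1 : r ∈ D i1 := (Finset.mem_inter.mp (hr ▸ Finset.mem_singleton_self r)).2
  have hqp : q ≠ p := fun h => hj (h ▸ hqj)
  have hrp : r ≠ p := fun h => hj (h ▸ hrj)
  have hqr : q ≠ r := by
    intro h
    have : q ∈ D i0 ∩ D i1 := Finset.mem_inter.mpr ⟨hq0, h ▸ hr1⟩
    rw [hp, Finset.mem_singleton] at this
    exact hqp this
  have pair_eq : ∀ {E : Finset GolayPt} {u v : GolayPt}, E.card = 2 → u ≠ v → u ∈ E → v ∈ E →
      E = {u, v} := by
    intro E u v hE huv hu hv
    symm
    apply Finset.eq_of_subset_of_card_le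
    · intro t ht
      simp only [Finset.mem_insert, Finset.mem_singleton] at ht
      rcases ht with rfl | rfl
      · exact hu
      · exact hv
    · rw [hE, Finset.card_pair huv]
  have e0 : D i0 = {p, q} := pair_eq (hD _) (Ne.symm hqp) hp0 hq0
  have e1 : D i1 = {p, r} := pair_eq (hD _) (Ne.symm hrp) hp1 hr1
  have ej : D j = {q, r} := pair_eq (hD _) hqr hqj hrj
  -- a fourth index
  obtain ⟨k, hk0, hk1, hkj⟩ := h3 i0 i1 j
  have hk := hD k
  by_cases hpk : p ∈ D k
  · -- `D k` meets `D j`
    obtain ⟨t, ht⟩ := Finset.card_eq_one.mp (hm k j hkj)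
    have htk : t ∈ D k := (Finset.mem_inter.mp (ht ▸ Finset.mem_singleton_self t)).1
    have htj : t ∈ D j := (Finset.mem_inter.mp (ht ▸ Finset.mem_singleton_self t)).2
    rw [ej, Finset.mem_insert, Finset.mem_singleton] at htj
    rcases htj with rfl | rfl
    · have : D k = D i0 := by rw [e0]; exact pair_eq hk (Ne.symm hqp) hpk htk
      have h5 := hm k i0 hk0
      rw [this, Finset.inter_self, hD] at h5
      omega
    · have : D k = D i1 := by rw [e1]; exact pair_eq hk (Ne.symm hrp) hpk htk
      have h5 := hm k i1 hk1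
      rw [this, Finset.inter_self, hD] at h5
      omega
  · -- `D k` contains the other two points, so equals `D j`
    obtain ⟨t, ht⟩ := Finset.card_eq_one.mp (hm k i0 hk0)
    obtain ⟨u, hu⟩ := Finset.card_eq_one.mp (hm k i1 hk1)
    have htk : t ∈ D k := (Finset.mem_inter.mp (ht ▸ Finset.mem_singleton_self t)).1
    have ht0 : t ∈ D i0 := (Finset.mem_inter.mp (ht ▸ Finset.mem_singleton_self t)).2
    have huk : u ∈ D k := (Finset.mem_inter.mp (hu ▸ Finset.mem_singleton_self u)).1
    have hu1 : u ∈ D i1 := (Finset.mem_inter.mp (hu ▸ Finset.mem_singleton_self u)).2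
    rw [e0, Finset.mem_insert, Finset.mem_singleton] at ht0
    rw [e1, Finset.mem_insert, Finset.mem_singleton] at hu1
    rcases ht0 with rfl | rfl
    · exact absurd htk hpk
    rcases hu1 with rfl | rfl
    · exact absurd huk hpk
    have : D k = D j := by rw [ej]; exact pair_eq hk hqr htk huk
    have h5 := hm k j hkj
    rw [this, Finset.inter_self, hD] at h5
    omega

/-! ### Functionals on the code -/

private abbrev CC := ↥(golayCode)

private noncomputable instance : Fintype CC := Fintype.ofFinite _

/-- Octads, as elements of the code. -/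
private noncomputable def octC' : Finset CC := by
  classical
  exact Finset.univ.filter fun c : CC => hammingNorm (c : V) = 8

private theorem mem_octC' {c : CC} : c ∈ octC' ↔ hammingNorm (c : V) = 8 := by
  classical
  simp [octC']

private def EE (m : ℕ) : CC := ⟨wordOf (code (Nat.land m 4095)), wordOf_code_mem (land_lt_4096 m)⟩

private theorem land_eq_self {m : ℕ} (hm : m < 4096) : Nat.land m 4095 = m := by
  have : Nat.land m 4095 = m % 2 ^ 12 := Nat.and_two_pow_sub_one_eq_mod m 12
  rw [this]
  exact Nat.mod_eq_of_lt hm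

private theorem EE_val {m : ℕ} (hm : m < 4096) : (EE m : V) = wordOf (code m) := by
  simp only [EE, land_eq_self hm]

/-- Counting octads through their numbers. -/
private theorem card_oct_filter (Q : CC → Prop) [DecidablePred Q] :
    (octC'.filter Q).card = (octM.filter fun m => decide (Q (EE m))).length := by
  have hnd : octM.Nodup := by
    rw [octM_eq]
    exact (List.nodup_range).filter _
  have hmem : ∀ m, m ∈ octM ↔ m < 4096 ∧ pop (code m) = 8 := by
    intro m
    rw [octM_eq, List.mem_filter, List.mem_range]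
    constructor
    · rintro ⟨h1, h2⟩
      exact ⟨h1, Nat.eq_of_beq_eq_true h2⟩
    · rintro ⟨h1, h2⟩
      exact ⟨h1, by rw [h2]; exact Nat.beq_refl _⟩
  rw [← List.toFinset_card_of_nodup (hnd.filter _)]
  symm
  apply Finset.card_bij (fun m _ => EE m)
  · intro m hm
    rw [List.mem_toFinset, List.mem_filter, hmem] at hm
    rw [Finset.mem_filter, mem_octC', EE_val hm.1.1, hammingNorm_wordOf]
    exact ⟨hm.1.2, by simpa using hm.2⟩
  · intro a ha b hb hab
    rw [List.mem_toFinset, List.mem_filter, hmem] at ha hb
    have h1 := congrArg Subtype.val hab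
    rw [EE_val ha.1.1, EE_val hb.1.1] at h1
    exact code_injOn ha.1.1 hb.1.1 (wordOf_inj (code_lt ha.1.1) (code_lt hb.1.1) h1)
  · intro c hc
    rw [Finset.mem_filter, mem_octC'] at hc
    obtain ⟨m, hm, hcm⟩ := mem_golayCode_iff.mp c.2
    have hE : EE m = c := Subtype.ext (by rw [EE_val hm, hcm])
    refine ⟨m, ?_, hE⟩
    rw [List.mem_toFinset, List.mem_filter, hmem]
    refine ⟨⟨hm, ?_⟩, by rw [hE]; simpa using hc.2⟩
    rw [← hammingNorm_wordOf, ← hcm]
    exact hc.1

private theorem par_le (n : ℕ) : par n ≤ 1 := by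
  have h : par n = (parT >>> n) % 2 ^ 1 := Nat.and_two_pow_sub_one_eq_mod _ 1
  rw [h]
  have := Nat.mod_lt (parT >>> n) (show 0 < 2 ^ 1 by norm_num)
  omega

private theorem xor_one_par (n : ℕ) : Nat.xor 1 (par n) ≤ 1 := by
  have h := par_le n
  interval_cases hp : par n <;> decide

/-- The functional given by a low mask. -/
private def dotL (w : V) : CC →ₗ[ZMod 2] ZMod 2 where
  toFun c := dot w c
  map_add' a b := dot_add_right _ _ _
  map_smul' r a := dot_smul_right r w a

private theorem encAux_mem_sub (T : Submodule (ZMod 2) V) (l : List ℕ) (hl : ∀ b ∈ l, wordOf b ∈ T) (m : ℕ) :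
    wordOf (encAux l m) ∈ T := by
  induction l generalizing m with
  | nil => simp [encAux_nil, wordOf_zero, Submodule.zero_mem]
  | cons c l ih =>
    rw [encAux_cons, wordOf_xor]
    refine Submodule.add_mem _ ?_ (ih (fun b hb => hl b (by simp [hb])) _)
    rcases Nat.mod_two_eq_zero_or_one m with h | h
    · simp [h, wordOf_zero, Submodule.zero_mem]
    · simp [h]; exact hl c (by simp)

/-- Two functionals agreeing on the basis agree. -/
private theorem functional_ext {f g : CC →ₗ[ZMod 2] ZMod 2}
    (h : ∀ b (hb : b ∈ basis), f ⟨wordOf b, basis_mem b hb⟩ = g ⟨wordOf b, basis_mem b hb⟩) : f = g := by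
  ext c
  set T : Submodule (ZMod 2) V := (LinearMap.ker (f - g)).map golayCode.subtype with hT
  have hb : ∀ b ∈ basis, wordOf b ∈ T := by
    intro b hb'
    refine ⟨⟨wordOf b, basis_mem b hb'⟩, ?_, rfl⟩
    simp [h b hb']
  obtain ⟨m, hm, hcm⟩ := mem_golayCode_iff.mp c.2
  have h1 : (c : V) ∈ T := by
    rw [hcm, code_eq_enc m hm]
    exact encAux_mem_sub T _ hb m
  obtain ⟨c', hc', he⟩ := h1
  have : c' = c := Subtype.ext he
  subst this
  simpa [sub_eq_zero] using hc'

private theorem mem_basis_getD {b : ℕ} (hb : b ∈ basis) : ∃ i < 12, b = basis.getD i 0 := by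
  obtain ⟨i, hi, rfl⟩ := List.getElem_of_mem hb
  have hlen : basis.length = 12 := by decide +kernel
  exact ⟨i, by omega, by simp [List.getD_eq_getElem, hi]⟩

private theorem land_basis_low {φ b : ℕ} (hφ : φ < 4096) : φ &&& b = φ &&& (Nat.land b 4095) := by
  apply Nat.eq_of_testBit_eq
  intro j
  rw [Nat.testBit_and, Nat.testBit_and]
  by_cases hj : j < 12
  · rw [land_testBit_low b hj]
  · have : φ.testBit j = false := by
      apply Nat.testBit_eq_false_of_lt
      calc φ < 2 ^ 12 := by simpa using hφ
        _ ≤ 2 ^ j := Nat.pow_le_pow_right (by norm_num) (by omega)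
    rw [this]
    simp

private theorem pop_low_eq {n : ℕ} (hn : n < 4096) : ((pop n : ℕ) : ZMod 2) = ((par n : ℕ) : ZMod 2) := by
  rw [par_eq hn]
  exact (ZMod.natCast_mod (pop n) 2).symm

/-- Every functional on the code is given by a low mask. -/
private theorem functional_repr (g : CC →ₗ[ZMod 2] ZMod 2) :
    ∃ φ < 4096, g = dotL (wordOf φ) := by
  classical
  let val : Fin 12 → Bool := fun i =>
    decide ((if h : wordOf (basis.getD i 0) ∈ golayCode then g ⟨_, h⟩ else 0) = 1)
  let φ := Nat.ofBits val
  have hφ : φ < 4096 := Nat.ofBits_lt_two_pow val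
  refine ⟨φ, hφ, functional_ext ?_⟩
  intro b hb
  obtain ⟨i, hi, rfl⟩ := mem_basis_getD hb
  have hmem := basis_mem _ hb
  have h1 := allUpTo_iff.mp (allUpTo_iff.mp basis_low φ hφ) i hi
  have h2 : par (Nat.land φ (Nat.land (basis.getD i 0) 4095)) = bit φ i := Nat.eq_of_beq_eq_true h1
  have h3 : φ.testBit i = val ⟨i, hi⟩ := Nat.testBit_ofBits_lt val i hi
  show _ = dot (wordOf φ) (wordOf (basis.getD i 0))
  rw [dot_wordOf, land_basis_low hφ]
  have hlt : (φ &&& Nat.land (basis.getD i 0) 4095) < 4096 := by
    calc (φ &&& Nat.land (basis.getD i 0) 4095) ≤ φ := Nat.and_le_left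
      _ < 4096 := hφ
  rw [pop_low_eq hlt]
  have h2' : par (φ &&& Nat.land (basis.getD i 0) 4095) = bit φ i := h2
  rw [h2', bit_eq, h3]
  simp only [val, dif_pos hmem]
  generalize g ⟨wordOf (basis.getD i 0), hmem⟩ = a
  revert a
  decide

private def one' : CC := ⟨1, one_mem_code⟩

private theorem wordOf_single {a : ℕ} (ha : a < 24) : wordOf (1 <<< a) = word1 {pt a} := by
  funext p
  simp only [wordOf, word1, Finset.mem_singleton, Nat.one_shiftLeft, Nat.testBit_two_pow]
  by_cases h : a = idx p
  · subst h
    simp [pt_idx]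
  · have : p ≠ pt a := by
      rintro rfl
      exact h (idx_pt ha).symm
    simp [h, this]

/-- A functional vanishing on the all-ones word and on 407 octads is a sum of two coordinates. -/
private theorem duad_of_count (g : CC →ₗ[ZMod 2] ZMod 2) (hg1 : g one' = 0)
    (hN : (octC'.filter fun c => g c = 0).card = 407) :
    ∃ a b : GolayPt, a ≠ b ∧ ∀ c : CC, g c = (c : V) a + (c : V) b := by
  classical
  obtain ⟨φ, hφ, rfl⟩ := functional_repr g
  have hφ24 : φ < 2 ^ 24 := by omega
  have hK := allUpTo_iff.mp K1 φ hφ
  simp only [Bool.or_eq_true, Bool.not_eq_true'] at hK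
  -- parity
  have hpar : par φ = 0 := by
    have h1 : dot (wordOf φ) (1 : V) = 0 := hg1
    have h2 : wordOf 16777215 = 1 := wordOf_ones
    rw [← h2, dot_wordOf] at h1
    have h3 : φ &&& 16777215 = φ := by
      have : φ &&& (2 ^ 24 - 1) = φ % 2 ^ 24 := Nat.and_two_pow_sub_one_eq_mod φ 24
      rw [show (16777215 : ℕ) = 2 ^ 24 - 1 by norm_num, this]
      exact Nat.mod_eq_of_lt hφ24
    rw [h3, pop_low_eq hφ] at h1
    have := par_le φ
    interval_cases hp : par φ
    · rfl
    · exact absurd h1 (by decide)
  have hcount : evenCount φ = 407 := by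
    rw [← hN, card_oct_filter]
    unfold evenCount
    rw [cnt_eq _ (fun m => xor_one_par _)]
    refine congrArg List.length (List.filter_congr ?_)
    intro m hm
    have hm' : m < 4096 := by
      rw [octM_eq, List.mem_filter, List.mem_range] at hm
      exact hm.1
    show _ = decide (dot (wordOf φ) ((EE m : CC) : V) = 0)
    rw [EE_val hm', dot_wordOf, land_basis_low hφ]
    have hm2 : Nat.land (code m) 4095 = m := code_low hm'
    rw [hm2]
    have hlt : (φ &&& m) < 4096 := by
      calc (φ &&& m) ≤ φ := Nat.and_le_left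
        _ < 4096 := hφ
    rw [pop_low_eq hlt]
    have h5 : Nat.land φ m = φ &&& m := rfl
    rw [h5]
    have := par_le (φ &&& m)
    interval_cases hp : par (φ &&& m) <;> rfl
  rcases hK with (h1 | h1) | h1
  · rw [Nat.eq_of_beq_eq_true h1] at hpar
    exact absurd hpar (by norm_num)
  · rw [hcount] at h1
    exact absurd h1 (by decide)
  · -- the two points
    have hex : ∃ a < 24, ∃ b < 24, a ≠ b ∧ isCode (φ ^^^ (1 <<< a) ^^^ (1 <<< b)) = true := by
      by_contra hno
      push Not at hno
      have : allUpTo (fun a => allUpTo (fun b => Nat.beq a b ||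
          !isCode (φ ^^^ (1 <<< a) ^^^ (1 <<< b))) 24) 24 = true := by
        apply allUpTo_iff.mpr
        intro a ha
        apply allUpTo_iff.mpr
        intro b hb
        by_cases hab : a = b
        · subst hab
          simp
        · have := hno a ha b hb hab
          simp [this]
      simp only [duadB, this] at h1
      exact absurd h1 (by simp)
    obtain ⟨a, ha, b, hb, hab, hc⟩ := hex
    refine ⟨pt a, pt b, fun h => hab (pt_injOn ha hb h), fun c => ?_⟩
    have hlt : φ ^^^ (1 <<< a) ^^^ (1 <<< b) < 2 ^ 24 := by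
      refine Nat.xor_lt_two_pow (Nat.xor_lt_two_pow hφ24 ?_) ?_
      · rw [Nat.one_shiftLeft]; exact Nat.pow_lt_pow_right (by norm_num) ha
      · rw [Nat.one_shiftLeft]; exact Nat.pow_lt_pow_right (by norm_num) hb
    have hcode := (wordOf_mem_iff hlt).mpr hc
    have horth := orth hcode c.2
    rw [wordOf_xor, wordOf_xor, dot_add_left, dot_add_left, wordOf_single ha, wordOf_single hb,
      dot_word1, dot_word1, Finset.sum_singleton, Finset.sum_singleton] at horth
    show dot (wordOf φ) (c : V) = _
    have key : ∀ x y z : ZMod 2, x + y + z = 0 → x = y + z := by decide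
    exact key _ _ _ horth

/-! ### Counting under the linear map -/

private theorem hammingNorm_comp (σ : Equiv.Perm GolayPt) (w : V) :
    hammingNorm (fun p => w (σ.symm p)) = hammingNorm w := by
  have h := support_comp σ w
  have h1 : (support₂ (w ∘ σ.symm)).card = (support₂ w).card := by
    rw [← h, Finset.card_smul_finset]
  exact h1

private theorem hammingNorm_add_one (w : V) : hammingNorm (w + 1) + hammingNorm w = 24 := by
  have hcomp : ∀ p, (w + 1) p ≠ 0 ↔ ¬ (w p ≠ 0) := by
    intro p
    simp only [Pi.add_apply, Pi.one_apply]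
    generalize w p = a
    revert a
    decide
  have h1 : (Finset.univ.filter fun p => (w + 1) p ≠ 0) =
      Finset.univ.filter fun p => ¬ (w p ≠ 0) := by
    ext p
    simp only [Finset.mem_filter, Finset.mem_univ, true_and, hcomp]
  have h2 := Finset.card_filter_add_card_filter_not (s := (Finset.univ : Finset GolayPt))
    (fun p => w p ≠ 0)
  rw [Finset.card_univ, card_golayPt] at h2
  simp only [hammingNorm]
  rw [h1]
  omega

/-- The linear map permutes the octads up to complement. -/
private theorem card_inv (x : CC ≃ₗ[ZMod 2] CC) (hx1 : x one' = one')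
    (hO : ∀ c ∈ octC', hammingNorm (x c : V) = 8 ∨ hammingNorm (x c : V) = 16)
    (f : CC →ₗ[ZMod 2] ZMod 2) (hf : f one' = 0) :
    (octC'.filter fun c => f (x c) = 0).card = (octC'.filter fun c => f c = 0).card := by
  classical
  let o : CC → CC := fun c => if hammingNorm (x c : V) = 8 then x c else x c + one'
  have ho8 : ∀ c ∈ octC', o c ∈ octC' := by
    intro c hc
    rw [mem_octC']
    by_cases h : hammingNorm (x c : V) = 8
    · simp only [o, if_pos h]; exact h
    · simp only [o, if_neg h]
      have h2 := hammingNorm_add_one (x c : V)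
      rcases hO c hc with h3 | h3
      · exact absurd h3 h
      · show hammingNorm ((x c : V) + 1) = 8
        omega
  have hof : ∀ c, f (o c) = f (x c) := by
    intro c
    by_cases h : hammingNorm (x c : V) = 8
    · simp only [o, if_pos h]
    · simp only [o, if_neg h, map_add, hf, add_zero]
  have hoinj : Set.InjOn o (octC' : Set CC) := by
    intro a ha b hb hab
    have ha8 := mem_octC'.mp ha
    have hb8 := mem_octC'.mp hb
    have key : x a = x b ∨ x a = x b + one' := by
      simp only [o] at hab
      have h1 : ∀ u : CC, u + one' + one' = u := by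
        intro u
        apply Subtype.ext
        funext p
        show (u : V) p + 1 + 1 = (u : V) p
        rw [add_assoc, CharTwo.add_self_eq_zero, add_zero]
      split_ifs at hab with h1' h2'
      · exact Or.inl hab
      · exact Or.inr hab
      · right
        rw [← hab, h1]
      · left
        have := congrArg (· + one') hab
        simpa only [h1] using this
    rcases key with h | h
    · exact x.injective h
    · exfalso
      have h2 : x a = x (b + one') := by rw [map_add, hx1, h]
      have h3 : a = b + one' := x.injective h2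
      have h4 := hammingNorm_add_one (b : V)
      have h5 : hammingNorm ((b + one' : CC) : V) = hammingNorm ((b : V) + 1) := rfl
      rw [← h3] at h5
      omega
  have himage : octC'.image o = octC' := by
    apply Finset.eq_of_subset_of_card_le
    · intro y hy
      obtain ⟨c, hc, rfl⟩ := Finset.mem_image.mp hy
      exact ho8 c hc
    · rw [Finset.card_image_of_injOn hoinj]
  calc (octC'.filter fun c => f (x c) = 0).card
      = (octC'.filter fun c => f (o c) = 0).card := by simp only [hof]
    _ = ((octC'.filter fun c => f (o c) = 0).image o).card := by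
        rw [Finset.card_image_of_injOn]
        exact hoinj.mono (by intro y hy; exact (Finset.mem_filter.mp hy).1)
    _ = (octC'.filter fun c => f c = 0).card := by
        congr 1
        conv_rhs => rw [← himage]
        rw [Finset.filter_image]

/-- The sum of two coordinates. -/
private def fab (a b : GolayPt) : CC →ₗ[ZMod 2] ZMod 2 where
  toFun c := (c : V) a + (c : V) b
  map_add' u v := by
    show (u : V) a + (v : V) a + ((u : V) b + (v : V) b) = _
    show _ = (u : V) a + (u : V) b + ((v : V) a + (v : V) b)
    ring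
  map_smul' r u := by
    show r * (u : V) a + r * (u : V) b = r * ((u : V) a + (u : V) b)
    ring

private theorem wordOf_pt (n i : ℕ) (hi : i < 24) :
    wordOf n (pt i) = if n.testBit i = true then 1 else 0 := by
  simp only [wordOf, idx_pt hi]

private theorem fab_count {a b : GolayPt} (hab : a ≠ b) :
    (octC'.filter fun c => fab a b c = 0).card = 407 := by
  classical
  have hia : idx a < 24 := idx_lt a
  have hib : idx b < 24 := idx_lt b
  have hne : idx a ≠ idx b := fun h => hab (idx_injective h)
  have h1 := allUpTo_iff.mp (allUpTo_iff.mp K0 (idx a) hia) (idx b) hib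
  simp only [Bool.or_eq_true] at h1
  rcases h1 with h1 | h1
  · exact absurd (Nat.eq_of_beq_eq_true h1) hne
  have h2 : K0count (idx a) (idx b) = 407 := Nat.eq_of_beq_eq_true h1
  rw [← h2, card_oct_filter]
  unfold K0count
  have hbit : ∀ c i, bit c i ≤ 1 := by
    intro c i
    rw [bit_eq]
    cases c.testBit i <;> simp
  rw [cnt_eq, octK_eq, List.filter_map, List.length_map]
  · refine congrArg List.length (List.filter_congr ?_)
    intro m hm
    have hm' : m < 4096 := by
      rw [octM_eq, List.mem_filter, List.mem_range] at hm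
      exact hm.1
    show decide (((EE m : CC) : V) a + ((EE m : CC) : V) b = 0) = _
    rw [EE_val hm']
    have ea : wordOf (code m) a = if (code m).testBit (idx a) = true then 1 else 0 := rfl
    have eb : wordOf (code m) b = if (code m).testBit (idx b) = true then 1 else 0 := rfl
    rw [ea, eb]
    simp only [Function.comp_apply, bit_eq]
    cases (code m).testBit (idx a) <;> cases (code m).testBit (idx b) <;> decide
  · intro c
    have h3 := hbit c (idx a)
    have h4 := hbit c (idx b)
    interval_cases hx : bit c (idx a) <;> interval_cases hy : bit c (idx b) <;> decide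


/-- Let X be a group of linear automorphisms of the length-24 binary Golay code of the definitions that fix the all-ones word, containing the coordinate-permutation action of every element of the code's automorphism group (the Mathieu group of degree 24), and such that every element of X sends each codeword into its orbit under that Mathieu group up to adding the all-ones word (X has the same orbits as the Mathieu group on the code modulo the all-ones word). Then every element of X agrees, modulo the all-ones word, with the action of a single element of the Mathieu group: X induces exactly the Mathieu group on the code modulo the all-ones word. -/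
theorem result (X : Subgroup (↥Cfsg.golayCode ≃ₗ[ZMod 2] ↥Cfsg.golayCode)) (h1 : ∀ x ∈ X, ∀ e : ↥Cfsg.golayCode, (e : (Cfsg.GolayPt → ZMod 2)) = (fun _ => (1 : ZMod 2)) → x e = e) (hM : ∀ σ ∈ Cfsg.M24, ∃ x ∈ X, ∀ c : ↥Cfsg.golayCode, ((x c : ↥Cfsg.golayCode) : (Cfsg.GolayPt → ZMod 2)) = fun p => (c : (Cfsg.GolayPt → ZMod 2)) (σ.symm p)) (horb : ∀ x ∈ X, ∀ c : ↥Cfsg.golayCode, ∃ σ ∈ Cfsg.M24, ((x c : ↥Cfsg.golayCode) : (Cfsg.GolayPt → ZMod 2)) = (fun p => (c : (Cfsg.GolayPt → ZMod 2)) (σ.symm p)) ∨ ((x c : ↥Cfsg.golayCode) : (Cfsg.GolayPt → ZMod 2)) = (fun p => (c : (Cfsg.GolayPt → ZMod 2)) (σ.symm p)) + fun _ => (1 : ZMod 2)) (x : ↥Cfsg.golayCode ≃ₗ[ZMod 2] ↥Cfsg.golayCode) (hx : x ∈ X) : ∃ σ ∈ Cfsg.M24, ∀ c : ↥Cfsg.golayCode, ((x c : ↥Cfsg.golayCode) : (Cfsg.GolayPt → ZMod 2)) = (fun p => (c : (Cfsg.GolayPt → ZMod 2)) (σ.symm p)) ∨ ((x c : ↥Cfsg.golayCode) : (Cfsg.GolayPt → ZMod 2)) = (fun p => (c : (Cfsg.GolayPt → ZMod 2)) (σ.symm p)) + fun _ => (1 : ZMod 2) := by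
  classical
  -- hypotheses on `x`
  have hx1 : x one' = one' := h1 x hx one' rfl
  have hO : ∀ c ∈ octC', hammingNorm (x c : V) = 8 ∨ hammingNorm (x c : V) = 16 := by
    intro c hc
    have h8 := mem_octC'.mp hc
    obtain ⟨σ, -, h2 | h2⟩ := horb x hx c
    · left
      rw [h2, hammingNorm_comp]
      exact h8
    · right
      rw [h2]
      have h3 := hammingNorm_add_one (fun p => (c : V) (σ.symm p))
      rw [hammingNorm_comp, h8] at h3
      have e : ((fun p => (c : V) (σ.symm p)) + fun _ => (1 : ZMod 2)) =
        (fun p => (c : V) (σ.symm p)) + 1 := rfl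
      rw [e]
      omega
  -- duads are carried to duads
  have T1 : ∀ a b : GolayPt, a ≠ b → ∃ D : Finset GolayPt, D.card = 2 ∧
      ∀ c : CC, (x c : V) a + (x c : V) b = ∑ p ∈ D, (c : V) p := by
    intro a b hab
    have hg1 : ((fab a b).comp x.toLinearMap) one' = 0 := by
      show (x one' : V) a + (x one' : V) b = 0
      rw [hx1]
      exact CharTwo.add_self_eq_zero _
    have hN : (octC'.filter fun c => ((fab a b).comp x.toLinearMap) c = 0).card = 407 := by
      have h2 := card_inv x hx1 hO (fab a b) (by
        show (1 : ZMod 2) + 1 = 0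
        decide)
      rw [fab_count hab] at h2
      exact h2
    obtain ⟨a', b', hab', h3⟩ := duad_of_count _ hg1 hN
    refine ⟨{a', b'}, Finset.card_pair hab', fun c => ?_⟩
    rw [Finset.sum_pair hab']
    exact h3 c
  choose D hD hDsum using fun i : ZMod 23 => T1 none (some i) (by simp)
  have hcard : ∀ i j : ZMod 23, i ≠ j → (D i ∩ D j).card = 1 := by
    intro i j hij
    obtain ⟨E, hE, hEsum⟩ := T1 (some i) (some j) (by simpa using hij)
    apply tri (hD i) (hD j) hE
    intro c hc
    rw [← hDsum i ⟨c, hc⟩, ← hDsum j ⟨c, hc⟩, ← hEsum ⟨c, hc⟩]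
    generalize (x ⟨c, hc⟩ : V) none = a
    generalize (x ⟨c, hc⟩ : V) (some i) = b
    generalize (x ⟨c, hc⟩ : V) (some j) = d
    revert a b d
    decide
  obtain ⟨p0, hp0⟩ := common_point D hD hcard 0 1 (by decide) (by
    intro a b c
    by_contra hcon
    push Not at hcon
    have : (Finset.univ : Finset (ZMod 23)) ⊆ {a, b, c} := by
      intro k _
      simp only [Finset.mem_insert, Finset.mem_singleton]
      by_cases h1 : k = a
      · exact Or.inl h1
      by_cases h2 : k = b
      · exact Or.inr (Or.inl h2)
      · exact Or.inr (Or.inr (hcon k h1 h2))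
    have h2 := Finset.card_le_card this
    have h3 : ({a, b, c} : Finset (ZMod 23)).card ≤ 3 := Finset.card_le_three
    rw [Finset.card_univ, ZMod.card] at h2
    omega)
  -- the second points
  have hq : ∀ i, ∃ q, q ≠ p0 ∧ D i = {p0, q} := by
    intro i
    obtain ⟨u, v, huv, he⟩ := Finset.card_eq_two.mp (hD i)
    have h3 := hp0 i
    rw [he, Finset.mem_insert, Finset.mem_singleton] at h3
    rcases h3 with rfl | rfl
    · exact ⟨v, Ne.symm huv, he⟩
    · exact ⟨u, huv, by rw [he, Finset.pair_comm]⟩
  choose q hqne hqD using hq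
  have hqinj : Function.Injective q := by
    intro i j hij
    by_contra hne
    have h3 := hcard i j hne
    rw [hqD i, hqD j, hij, Finset.inter_self, Finset.card_pair (Ne.symm (hqne j))] at h3
    omega
  let π : GolayPt → GolayPt := fun p => match p with
    | none => p0
    | some i => q i
  have hπinj : Function.Injective π := by
    rintro (_ | i) (_ | j) h
    · rfl
    · exact absurd h.symm (hqne j)
    · exact absurd h (hqne i)
    · rw [hqinj h]
  let πE : Equiv.Perm GolayPt := Equiv.ofBijective π (Finite.injective_iff_bijective.mp hπinj)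
  have hπE : ∀ p, πE p = π p := fun p => rfl
  -- the main formula
  have hform : ∀ (c : CC) (p : GolayPt), (x c : V) p = (c : V) (π p) + ((x c : V) none + (c : V) p0) := by
    intro c p
    cases p with
    | none =>
      show (x c : V) none = (c : V) p0 + ((x c : V) none + (c : V) p0)
      generalize (x c : V) none = a
      generalize (c : V) p0 = b
      revert a b
      decide
    | some i =>
      have h3 := hDsum i c
      rw [hqD i, Finset.sum_pair (Ne.symm (hqne i))] at h3
      show (x c : V) (some i) = (c : V) (q i) + ((x c : V) none + (c : V) p0)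
      generalize (x c : V) none = a at h3 ⊢
      generalize (x c : V) (some i) = b at h3 ⊢
      generalize (c : V) p0 = d at h3 ⊢
      generalize (c : V) (q i) = e at h3 ⊢
      revert a b d e
      decide
  have hword : ∀ c : CC, (fun p => (c : V) (π p)) = (x c : V) + ((x c : V) none + (c : V) p0) • (1 : V) := by
    intro c
    funext p
    have h3 := hform c p
    simp only [Pi.add_apply, Pi.smul_apply, Pi.one_apply, smul_eq_mul, mul_one]
    rw [h3]
    generalize (c : V) (π p) = a
    generalize (x c : V) none + (c : V) p0 = b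
    revert a b
    decide
  have hσ : πE⁻¹ ∈ M24 := by
    apply mem_M24_of_comp
    intro w hw
    have h3 := hword ⟨w, hw⟩
    have h4 : w ∘ (πE⁻¹).symm = fun p => w (π p) := rfl
    rw [h4]
    have h5 : (fun p => w (π p)) = (fun p => ((⟨w, hw⟩ : CC) : V) (π p)) := rfl
    rw [h5, h3]
    exact Submodule.add_mem _ (x ⟨w, hw⟩).2 (Submodule.smul_mem _ _ one_mem_code)
  refine ⟨πE⁻¹, hσ, fun c => ?_⟩
  have h3 := hword c
  have h4 : (fun p => (c : V) ((πE⁻¹).symm p)) = fun p => (c : V) (π p) := rfl
  rw [h4, h3]
  generalize (x c : V) none + (c : V) p0 = e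
  have he : e = 0 ∨ e = 1 := by revert e; decide
  rcases he with rfl | rfl
  · left
    simp
  · right
    funext p
    simp only [Pi.add_apply, Pi.smul_apply, Pi.one_apply, smul_eq_mul, mul_one]
    rw [add_assoc, CharTwo.add_self_eq_zero, add_zero]

end Cfsg.Agent.S5549
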