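import Cfsg.Statements.S5550
import Cfsg.Agent.Lib.Golay.Orbits

set_option autoImplicit false
open Cfsg

namespace Cfsg.Agent.S5550

open Cfsg.Agent.Lib.Golay.Core Cfsg.Agent.Lib.Golay.Perm Cfsg.Agent.Lib.Golay.Chain
  Cfsg.Agent.Lib.Golay.M24 Cfsg.Agent.Lib.Golay.Orbits

private def PO1 : ℕ := 231477325878837844655397271452028353
private def PO2 : ℕ := 735008433773577064251457419552654455
private def PD1 : ℕ := 673767164050548406000237669416274464
private def PD2 : ℕ := 17836522802328266435927477685078133

private theorem cO1 : checkAut PO1 = true := by decide +kernel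
private theorem cO2 : checkAut PO2 = true := by decide +kernel
private theorem cD1 : checkAut PD1 = true := by decide +kernel
private theorem cD2 : checkAut PD2 = true := by decide +kernel
private theorem sO1 : mapMask PO1 O0 = O0 := by decide +kernel
private theorem sO2 : mapMask PO2 O0 = O0 := by decide +kernel
private theorem sD1 : mapMask PD1 D1 = D1 := by decide +kernel
private theorem sD2 : mapMask PD2 D1 = D1 := by decide +kernel
private theorem mO : allUpTo (fun s => Nat.beq s 0 || movedS PO1 s || movedS PO2 s) 4096 = true := by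
  decide +kernel
private theorem mD : allUpTo (fun s => Nat.beq s 0 || movedS PD1 s || movedS PD2 s) 4096 = true := by
  decide +kernel

private theorem caseO (w : GolayPt → ZMod 2) (hw : w ∉ golayCode) :
    ∃ σ ∈ M24, wordOf O0 ∘ σ.symm = wordOf O0 ∧ (fun p => w (σ.symm p)) - w ∉ golayCode :=
  stab_case cO1 cO2 sO1 sO2 mO w hw

private theorem caseD (w : GolayPt → ZMod 2) (hw : w ∉ golayCode) :
    ∃ σ ∈ M24, wordOf D1 ∘ σ.symm = wordOf D1 ∧ (fun p => w (σ.symm p)) - w ∉ golayCode :=
  stab_case cD1 cD2 sD1 sD2 mD w hw


/-- Let u be a word of the length-24 binary Golay code of the definitions (possibly zero or all-ones) and w any binary word of length 24 outside the code. Then some automorphism of the code (a coordinate permutation preserving it) fixes u but moves w to a word not congruent to w modulo the code: the stabilizer of a codeword fixes no non-zero element of the quotient of the space of all words by the code. -/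
theorem result (u : (Cfsg.GolayPt → ZMod 2)) (hu : u ∈ Cfsg.golayCode) (w : (Cfsg.GolayPt → ZMod 2)) (hw : w ∉ Cfsg.golayCode) : ∃ σ ∈ Cfsg.M24, (fun p => u (σ.symm p)) = u ∧ (fun p => w (σ.symm p)) - w ∉ Cfsg.golayCode := by
  rcases word_cases hu with rfl | rfl | ⟨τ, hτ, rfl⟩ | ⟨τ, hτ, h⟩ | ⟨τ, hτ, rfl⟩
  · obtain ⟨σ, hσ, -, h2⟩ := caseO w hw
    exact ⟨σ, hσ, rfl, h2⟩
  · obtain ⟨σ, hσ, -, h2⟩ := caseO w hw
    exact ⟨σ, hσ, rfl, h2⟩
  · exact transport_stab hτ caseO w hw
  · obtain ⟨σ, hσ, h1, h2⟩ := transport_stab hτ caseO w hw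
    refine ⟨σ, hσ, ?_, h2⟩
    rw [← h] at h1
    funext p
    have := congrFun h1 p
    simp only [Function.comp_apply, Pi.add_apply, Pi.one_apply] at this
    exact add_right_cancel this
  · exact transport_stab hτ caseD w hw

end Cfsg.Agent.S5550
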