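import Cfsg.Statements.S5551
import Cfsg.Agent.Lib.Leech.Basic
import Cfsg.Agent.Lib.Golay.Core

set_option autoImplicit false
open Cfsg

namespace Cfsg.Agent.S5551

/-- In the Leech lattice of the definitions (integer coordinates, minimal squared length 32), let v and w be non-zero lattice vectors of squared length at most 64 that are congruent modulo twice the lattice. Then they have the same squared length, and if that length is less than 64 then w = v or w = −v. (So a class that contains a non-zero vector of squared length at most 64 has a well-defined type 2, 3 or 4, and a class of type 2 or 3 contains no such vector other than v and −v.) -/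
theorem result (v w : Cfsg.GolayPt → ℤ) (hv : v ∈ Cfsg.leechLattice) (hw : w ∈ Cfsg.leechLattice) (hv0 : v ≠ 0) (hw0 : w ≠ 0) (hvn : Cfsg.sqNorm v ≤ 64) (hwn : Cfsg.sqNorm w ≤ 64) (hc : ∃ z ∈ Cfsg.leechLattice, v - w = 2 • z) : Cfsg.sqNorm v = Cfsg.sqNorm w ∧ (Cfsg.sqNorm v < 64 → w = v ∨ w = -v) := by
  have hmin : ∀ x : Cfsg.GolayPt → ℤ, x ∈ Cfsg.leechLattice → x ≠ 0 → 32 ≤ Cfsg.sqNorm x :=
    fun x hx h0 => Cfsg.Agent.Lib.Leech.Basic.min_norm
      (fun w hw => Cfsg.Agent.Lib.Golay.Core.hammingNorm_mem hw) x hx h0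
  obtain ⟨z, hz, hvw⟩ := hc
  have hv_eq : v = w + 2 • z := by rw [← hvw]; abel
  set a : Cfsg.GolayPt → ℤ := w + z with ha
  have haL : a ∈ Cfsg.leechLattice := add_mem hw hz
  have hv' : v = a + z := by rw [hv_eq, ha, two_nsmul]; abel
  have hw' : w = a - z := by rw [ha]; abel
  have hpar : Cfsg.sqNorm v + Cfsg.sqNorm w = 2 * (Cfsg.sqNorm a + Cfsg.sqNorm z) := by
    rw [hv', hw']
    simp only [Cfsg.sqNorm, Pi.add_apply, Pi.sub_apply]
    rw [← Finset.sum_add_distrib, ← Finset.sum_add_distrib, Finset.mul_sum]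
    apply Finset.sum_congr rfl
    intro i _
    ring
  by_cases ha0 : a = 0
  · have h1 : w = -v := by rw [hv', hw', ha0]; simp
    refine ⟨?_, fun _ => Or.inr h1⟩
    rw [h1]
    simp [Cfsg.sqNorm]
  by_cases hz0 : z = 0
  · have h1 : w = v := by rw [hv', hw', hz0]; simp
    refine ⟨by rw [h1], fun _ => Or.inl h1⟩
  have h2 := hmin a haL ha0
  have h3 := hmin z hz hz0
  constructor
  · linarith
  · intro h4
    linarith

end Cfsg.Agent.S5551
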