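import Cfsg.Statements.S5553
import Cfsg.Agent.Lib.Leech.Even
import Cfsg.Agent.Lib.Golay.Core

set_option autoImplicit false
open Cfsg

namespace Cfsg.Agent.S5553

open Cfsg.Agent.Lib.Leech.Basic Cfsg.Agent.Lib.Leech.Even

private theorem cast_add_self_two (a : ZMod 2) : a + a = 0 := CharTwo.add_self_eq_zero a

/-- Fold a word by `none`: kills the all-ones word. -/
private def fold (w : GolayPt → ZMod 2) : GolayPt → ZMod 2 := w + (w none) • (1 : GolayPt → ZMod 2)

private theorem fold_add (u v : GolayPt → ZMod 2) : fold (u + v) = fold u + fold v := by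
  funext i
  simp only [fold, Pi.add_apply, Pi.smul_apply, Pi.one_apply, smul_eq_mul, mul_one]
  ring

private theorem fold_smul_one (c : ZMod 2) : fold (c • (1 : GolayPt → ZMod 2)) = 0 := by
  funext i
  simp only [fold, Pi.add_apply, Pi.smul_apply, Pi.one_apply, smul_eq_mul, mul_one, Pi.zero_apply]
  exact cast_add_self_two c

/-- the constant parity of a lattice vector -/
private theorem parity_spec (x : leechLattice) :
    ∃ m : ℤ, (∀ i, (x : GolayPt → ℤ) i ≡ m [ZMOD 2]) ∧ (∑ i, (x : GolayPt → ℤ) i ≡ 4 * m [ZMOD 8])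
      ∧ digitWord (x : GolayPt → ℤ) ∈ golayCode := by
  have := x.2
  rwa [mem_leechLattice_iff, mem_leechSet_iff] at this

/-- The homomorphism with kernel `A`. -/
private def f : leechLattice →+ ZMod 2 × (GolayPt → ZMod 2) where
  toFun x := ((((x : GolayPt → ℤ) none : ℤ) : ZMod 2), fold (digitWord (x : GolayPt → ℤ)))
  map_zero' := by
    have h : digitWord (0 : GolayPt → ℤ) = 0 := by
      funext i; simp [digitWord, bit1]
    have h2 : fold 0 = 0 := by
      funext i; simp [fold]
    ext <;> simp [h, h2]
  map_add' := by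
    intro x y
    obtain ⟨m, hm, -, -⟩ := parity_spec x
    obtain ⟨n, hn, -, -⟩ := parity_spec y
    have h1 : digitWord (((x + y : leechLattice)) : GolayPt → ℤ) =
        digitWord (x : GolayPt → ℤ) + digitWord (y : GolayPt → ℤ) +
      (((m : ℤ) : ZMod 2) * ((n : ℤ) : ZMod 2)) • (1 : GolayPt → ZMod 2) :=
      digitWord_add _ _ m n hm hn
    have h2 : ((((x + y : leechLattice) : GolayPt → ℤ) none : ℤ) : ZMod 2) =
        (((x : GolayPt → ℤ) none : ℤ) : ZMod 2) + (((y : GolayPt → ℤ) none : ℤ) : ZMod 2) := by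
      simp
    simp only [Prod.mk_add_mk, Prod.mk.injEq]
    refine ⟨h2, ?_⟩
    rw [h1, fold_add, fold_add, fold_smul_one, add_zero]

private theorem f_fst (x : leechLattice) : (f x).1 = (((x : GolayPt → ℤ) none : ℤ) : ZMod 2) := rfl
private theorem f_snd (x : leechLattice) : (f x).2 = fold (digitWord (x : GolayPt → ℤ)) := rfl

/-- Code words vanishing at `none`. -/
private def ev : golayCode →ₗ[ZMod 2] ZMod 2 where
  toFun c := (c : GolayPt → ZMod 2) none
  map_add' _ _ := rfl
  map_smul' _ _ := rfl

private theorem ev_surj : Function.Surjective ev := by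
  intro a
  refine ⟨a • ⟨1, one_mem⟩, ?_⟩
  simp [ev]

private theorem card_ker_ev : Nat.card (LinearMap.ker ev) = 2048 := by
  have h1 := LinearMap.finrank_range_add_finrank_ker ev
  rw [LinearMap.range_eq_top.mpr ev_surj, finrank_top,
    Cfsg.Agent.Lib.Golay.Core.finrank_golayCode, Module.finrank_self] at h1
  have h2 : Module.finrank (ZMod 2) (LinearMap.ker ev) = 11 := by omega
  have h3 := Module.natCard_eq_pow_finrank (K := ZMod 2) (V := LinearMap.ker ev)
  rw [h3, h2, Nat.card_eq_fintype_card, ZMod.card]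
  norm_num

/-- The odd vector `(-3, 1, ..., 1)`. -/
private def x0 : GolayPt → ℤ := fun i => if i = none then -3 else 1

private theorem x0_mem : x0 ∈ leechLattice := by
  rw [mem_leechLattice_iff, mem_leechSet_iff]
  refine ⟨1, ?_, by decide, ?_⟩
  · intro i
    unfold x0
    split_ifs <;> decide
  · have h : digitWord x0 = 0 := by
      funext i
      show bit1 (x0 i) = 0
      unfold x0
      split_ifs <;> decide
    rw [h]
    exact Submodule.zero_mem _

private theorem digit_x0 : digitWord x0 = 0 := by
  funext i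
  show bit1 (x0 i) = 0
  unfold x0
  split_ifs <;> decide

private theorem fold_of_none {c : GolayPt → ZMod 2} (h : c none = 0) : fold c = c := by
  funext i
  simp [fold, h]

private theorem digit_twice (c : Finset GolayPt) :
    digitWord (twice c) = fun i => if i ∈ c then (1 : ZMod 2) else 0 := by
  funext i
  simp only [digitWord, bit1, twice]
  split_ifs <;> rfl

private theorem word_support (c : GolayPt → ZMod 2) :
    (fun i => if i ∈ support₂ c then (1 : ZMod 2) else 0) = c := by
  funext i
  simp only [support₂, Finset.mem_filter, Finset.mem_univ, true_and]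
  generalize c i = a
  revert a
  decide

private theorem twice_none (c : Finset GolayPt) (h : none ∉ c) : twice c none = 0 := by
  simp [twice, h]

/-- The range. -/
private theorem mem_range_f (a : ZMod 2) (c : GolayPt → ZMod 2) :
    (a, c) ∈ f.range ↔ c ∈ golayCode ∧ c none = 0 := by
  constructor
  · rintro ⟨x, hx⟩
    obtain ⟨m, hm, -, hw⟩ := parity_spec x
    have h2 : c = fold (digitWord (x : GolayPt → ℤ)) := (congrArg Prod.snd hx).symm
    subst h2
    constructor
    · exact Submodule.add_mem _ hw (Submodule.smul_mem _ _ one_mem)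
    · simp only [fold, Pi.add_apply, Pi.smul_apply, Pi.one_apply, smul_eq_mul, mul_one]
      exact cast_add_self_two _
  · rintro ⟨hc, hc0⟩
    have hs : support₂ c ∈ supports (golayCode : Set (GolayPt → ZMod 2)) := ⟨c, hc, rfl⟩
    have ht : twice (support₂ c) ∈ leechLattice := twice_mem hs
    have hn : none ∉ support₂ c := by
      simp [support₂, hc0]
    have hd : digitWord (twice (support₂ c)) = c := by
      rw [digit_twice, word_support]
    have hcases : a = 0 ∨ a = 1 := by revert a; decide
    rcases hcases with rfl | rfl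
    · refine ⟨⟨twice (support₂ c), ht⟩, ?_⟩
      apply Prod.ext
      · rw [f_fst]
        show ((twice (support₂ c) none : ℤ) : ZMod 2) = 0
        rw [twice_none _ hn]; rfl
      · rw [f_snd]
        show fold (digitWord (twice (support₂ c))) = c
        rw [hd, fold_of_none hc0]
    · refine ⟨⟨twice (support₂ c), ht⟩ + ⟨x0, x0_mem⟩, ?_⟩
      rw [map_add]
      apply Prod.ext
      · show (f ⟨twice (support₂ c), ht⟩).1 + (f ⟨x0, x0_mem⟩).1 = 1
        rw [f_fst, f_fst]
        show ((twice (support₂ c) none : ℤ) : ZMod 2) + ((x0 none : ℤ) : ZMod 2) = 1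
        rw [twice_none _ hn]
        decide
      · show (f ⟨twice (support₂ c), ht⟩).2 + (f ⟨x0, x0_mem⟩).2 = c
        rw [f_snd, f_snd]
        show fold (digitWord (twice (support₂ c))) + fold (digitWord x0) = c
        rw [hd, fold_of_none hc0, digit_x0]
        have : fold 0 = 0 := by
          funext i; simp [fold]
        rw [this, add_zero]

private theorem card_range_f : Nat.card f.range = 2 ^ 12 := by
  have e : f.range ≃ ZMod 2 × LinearMap.ker ev :=
    { toFun := fun r => (r.1.1, ⟨⟨r.1.2, ((mem_range_f _ _).mp r.2).1⟩, by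
        simp only [LinearMap.mem_ker]
        exact ((mem_range_f _ _).mp r.2).2⟩)
      invFun := fun q => ⟨(q.1, (q.2.1 : GolayPt → ZMod 2)), (mem_range_f _ _).mpr
        ⟨q.2.1.2, q.2.2⟩⟩
      left_inv := fun r => rfl
      right_inv := fun q => rfl }
  rw [Nat.card_congr e, Nat.card_prod, card_ker_ev, Nat.card_eq_fintype_card, ZMod.card]
  norm_num

/-- The norm condition. -/
private theorem dvd_of_ker (x : leechLattice) (hx : f x = 0) :
    (32 : ℤ) ∣ sqNorm (x : GolayPt → ℤ) := by
  obtain ⟨m, hm, hs, hw⟩ := parity_spec x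
  have hcard : Fintype.card GolayPt = 24 := by
    rw [Fintype.card_option, ZMod.card]
  have h1 : (((x : GolayPt → ℤ) none : ℤ) : ZMod 2) = 0 := congrArg Prod.fst hx
  have h2 : fold (digitWord (x : GolayPt → ℤ)) = 0 := congrArg Prod.snd hx
  rw [ZMod.intCast_zmod_eq_zero_iff_dvd] at h1
  have hmev : m % 2 = 0 := by
    have := hm none
    unfold Int.ModEq at this
    push_cast at h1
    omega
  have hev : ∀ i, ∃ u, (x : GolayPt → ℤ) i = 2 * u := by
    intro i
    have := hm i
    unfold Int.ModEq at this
    exact ⟨(x : GolayPt → ℤ) i / 2, by omega⟩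
  have hs' : (8 : ℤ) ∣ ∑ i, (x : GolayPt → ℤ) i := by
    unfold Int.ModEq at hs
    omega
  have hdig : ∀ i, digitWord (x : GolayPt → ℤ) i = digitWord (x : GolayPt → ℤ) none := by
    intro i
    have := congrFun h2 i
    simp only [fold, Pi.add_apply, Pi.smul_apply, Pi.one_apply, smul_eq_mul, mul_one,
      Pi.zero_apply] at this
    generalize digitWord (x : GolayPt → ℤ) i = a at this ⊢
    generalize digitWord (x : GolayPt → ℤ) none = b at this ⊢
    revert a b
    decide
  obtain ⟨u0, hu0⟩ := hev none
  rcases Int.even_or_odd' u0 with ⟨r0, hr0 | hr0⟩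
  · -- all coordinates divisible by 4
    have hall : ∀ i, ∃ r, (x : GolayPt → ℤ) i = 4 * r := by
      intro i
      obtain ⟨u, hu⟩ := hev i
      have h3 := hdig i
      simp only [digitWord] at h3
      rw [hu, hu0, bit1_two_mul, bit1_two_mul, hr0] at h3
      have h4 : ((u : ℤ) : ZMod 2) = 0 := by
        rw [h3]; push_cast
        rw [show (2 : ZMod 2) = 0 from rfl, zero_mul]
      rw [ZMod.intCast_zmod_eq_zero_iff_dvd] at h4
      obtain ⟨r, hr⟩ := h4
      exact ⟨r, by rw [hu, hr]; push_cast; ring⟩
    have h3 : ∀ i, (32 : ℤ) ∣ (x : GolayPt → ℤ) i ^ 2 - 4 * (x : GolayPt → ℤ) i := by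
      intro i
      obtain ⟨r, hr⟩ := hall i
      rw [hr]
      obtain ⟨c, hc⟩ : (2 : ℤ) ∣ r ^ 2 - r := by
        have : r ^ 2 - r = r * (r - 1) := by ring
        rw [this]
        exact (Int.even_mul_pred_self r).two_dvd
      exact ⟨c, by linear_combination 16 * hc⟩
    have h4 : (32 : ℤ) ∣ ∑ i, ((x : GolayPt → ℤ) i ^ 2 - 4 * (x : GolayPt → ℤ) i) :=
      Finset.dvd_sum (fun i _ => h3 i)
    rw [Finset.sum_sub_distrib, ← Finset.mul_sum] at h4
    unfold sqNorm
    omega
  · -- all coordinates congruent to 2 modulo 4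
    have hall : ∀ i, ∃ r, (x : GolayPt → ℤ) i = 2 * (2 * r + 1) := by
      intro i
      obtain ⟨u, hu⟩ := hev i
      have h3 := hdig i
      simp only [digitWord] at h3
      rw [hu, hu0, bit1_two_mul, bit1_two_mul, hr0] at h3
      have h4 : ((u : ℤ) : ZMod 2) = 1 := by
        rw [h3]; push_cast
        rw [show (2 : ZMod 2) = 0 from rfl, zero_mul, zero_add]
      rcases Int.even_or_odd' u with ⟨r, hr | hr⟩
      · exfalso
        rw [hr] at h4
        push_cast at h4
        rw [show (2 : ZMod 2) = 0 from rfl, zero_mul] at h4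
        exact absurd h4 (by decide)
      · exact ⟨r, by rw [hu, hr]⟩
    have h3 : ∀ i, (32 : ℤ) ∣ (x : GolayPt → ℤ) i ^ 2 - 4 := by
      intro i
      obtain ⟨r, hr⟩ := hall i
      rw [hr]
      obtain ⟨c, hc⟩ : (2 : ℤ) ∣ r * (r + 1) := (Int.even_mul_succ_self r).two_dvd
      exact ⟨c, by linear_combination 16 * hc⟩
    have h4 : (32 : ℤ) ∣ ∑ i, ((x : GolayPt → ℤ) i ^ 2 - 4) :=
      Finset.dvd_sum (fun i _ => h3 i)
    rw [Finset.sum_sub_distrib, Finset.sum_const, Finset.card_univ, hcard] at h4
    unfold sqNorm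
    rw [show (24 • (4 : ℤ)) = 96 by norm_num] at h4
    omega


/-- The Leech lattice of the definitions has an additive subgroup A containing twice the lattice, of index 2^12 in the lattice, all of whose vectors have squared length divisible by 32: the invariant quadratic form 'squared length over 16 modulo 2' on the lattice modulo twice the lattice (a 24-dimensional space over the field with two elements) vanishes on a 12-dimensional subspace, so it is of plus type. -/
theorem result : ∃ A : AddSubgroup (Cfsg.GolayPt → ℤ), A ≤ Cfsg.leechLattice ∧ (∀ v ∈ Cfsg.leechLattice, (2 : ℤ) • v ∈ A) ∧ (A.addSubgroupOf Cfsg.leechLattice).index = 2 ^ 12 ∧ ∀ v ∈ A, (32 : ℤ) ∣ Cfsg.sqNorm v := by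
  refine ⟨f.ker.map leechLattice.subtype, AddSubgroup.map_subtype_le _, ?_, ?_, ?_⟩
  · intro v hv
    refine ⟨(2 : ℤ) • ⟨v, hv⟩, ?_, rfl⟩
    rw [SetLike.mem_coe, AddMonoidHom.mem_ker, map_zsmul]
    apply Prod.ext
    · show (2 : ℤ) • (f ⟨v, hv⟩).1 = 0
      rw [two_zsmul]; exact cast_add_self_two _
    · funext i
      show (2 : ℤ) • (f ⟨v, hv⟩).2 i = 0
      rw [two_zsmul]; exact cast_add_self_two _
  · have : (f.ker.map leechLattice.subtype).addSubgroupOf leechLattice = f.ker := by
      ext x
      rw [AddSubgroup.mem_addSubgroupOf, AddSubgroup.mem_map]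
      constructor
      · rintro ⟨y, hy, hyx⟩
        have : y = x := Subtype.ext hyx
        rwa [← this]
      · intro hx
        exact ⟨x, hx, rfl⟩
    rw [this, AddSubgroup.index_ker, card_range_f]
  · rintro _ ⟨x, hx, rfl⟩
    exact dvd_of_ker x hx

end Cfsg.Agent.S5553
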