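import Cfsg.Statements.S5594
import Cfsg.Agent.Lib.Leech.Packed

set_option autoImplicit false
open Cfsg

namespace Cfsg.Agent.S5594

open Cfsg.Agent.Lib.Golay.Core Cfsg.Agent.Lib.Golay.Perm Cfsg.Agent.Lib.Leech.Lat
  Cfsg.Agent.Lib.Leech.Mon Cfsg.Agent.Lib.Leech.Packed

/-- Involution without fixed points of `M24`. -/
def P0 : ℕ := 440621023275803327314036891792492047

/-- Dodecad exchanged with its complement by `P0`. -/
def D0 : ℕ := 587102

theorem P0_ok : checkAut P0 = true := by decide +kernel

theorem D0_lt : D0 < 2 ^ 24 := by decide +kernel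

theorem D0_ok : isCode D0 = true := by decide +kernel

theorem P0_data : ∀ i < 24, img P0 (img P0 i) = i ∧ (D0.testBit (img P0 i) = !(D0.testBit i)) := by
  decide +kernel

/-- A square root of negation. -/
noncomputable def t0 : Co0 := monP P0 D0 P0_ok D0_lt D0_ok

theorem t0_sq : t0 * t0 = negG := by
  apply ext_smul
  intro v
  apply Subtype.ext
  funext j
  have hv := checkAut_valid P0_ok
  -- write `j = g P0 (g P0 j)`
  have hjj : g P0 (g P0 j) = j := by
    apply idx_injective
    rw [idx_g hv, idx_g hv]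
    exact (P0_data _ (idx_lt j)).1
  show ((t0 • (t0 • v) : L) : GolayPt → ℤ) j = - v.1 j
  have h1 : ((t0 • (t0 • v) : L) : GolayPt → ℤ) (g P0 (g P0 j)) = _ :=
    monP_smul_apply P0_ok D0_lt D0_ok (t0 • v) (g P0 j)
  have h2 : ((t0 • v : L) : GolayPt → ℤ) (g P0 j) = _ :=
    monP_smul_apply P0_ok D0_lt D0_ok v j
  rw [hjj] at h1
  rw [h1, h2, idx_g hv, (P0_data _ (idx_lt j)).1, (P0_data _ (idx_lt j)).2]
  cases hb : D0.testBit (idx j) <;> simp

theorem negG_ne_one : negG ≠ 1 := by
  intro h
  have h1 : negG • e8L none = (1 : Co0) • e8L none := by rw [h]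
  have h2 := congrFun (congrArg Subtype.val h1) none
  have h3 : ((negG • e8L none : L) : GolayPt → ℤ) none = - 8 := by
    simp [e8L, e8]
  have h4 : (((1 : Co0) • e8L none : L) : GolayPt → ℤ) none = 8 := by
    simp [e8L, e8]
  rw [h3, h4] at h2
  norm_num at h2

theorem negG_sq : negG * negG = 1 := by
  apply ext_smul
  intro v
  show negG • (negG • v) = v
  rw [negG_smul', negG_smul', neg_neg]

/-- The automorphism group of the Leech lattice contains the negation map, and the subgroup of order 2 it generates has no complement: the automorphism group is a non-split extension of its quotient by that subgroup (it is not the direct product of a group of order 2 with the first Conway group). -/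
theorem result :
    ∃ n : ↥Cfsg.Co0, (∀ v : ↥Cfsg.leechLattice, ((n • v : ↥Cfsg.leechLattice) : Cfsg.GolayPt → ℤ) = -(v : Cfsg.GolayPt → ℤ)) ∧
    ∀ K : Subgroup ↥Cfsg.Co0, ¬ (Subgroup.zpowers n).IsComplement' K := by
  refine ⟨negG, fun v => rfl, fun K hK => ?_⟩
  obtain ⟨⟨⟨z, hz⟩, ⟨k, hk⟩⟩, hzk⟩ := (Subgroup.isComplement'_def.1 hK).2 t0
  have hzk' : z * k = t0 := hzk
  have hz2 : z * z = 1 := by
    obtain ⟨e, rfl⟩ := Subgroup.mem_zpowers_iff.1 hz
    rw [← zpow_add, ← two_mul, zpow_mul]
    have : negG ^ (2 : ℤ) = 1 := by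
      rw [zpow_two, negG_sq]
    rw [this, one_zpow]
  have hcomm : Commute z k := by
    obtain ⟨e, rfl⟩ := Subgroup.mem_zpowers_iff.1 hz
    exact Commute.zpow_left (negG_central k) e
  have h1 : negG = k * k := by
    rw [← t0_sq, ← hzk', hcomm.symm.mul_mul_mul_comm z k, hz2, one_mul]
  have h2 : negG ∈ K := by
    rw [h1]
    exact K.mul_mem hk hk
  have h3 := Subgroup.disjoint_def.1 hK.disjoint (Subgroup.mem_zpowers negG) h2
  exact negG_ne_one h3

end Cfsg.Agent.S5594
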