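import Cfsg.Statements.S5599
import Cfsg.Agent.Lib.Golay.Stab

set_option autoImplicit false
open scoped Pointwise
open Cfsg

namespace Cfsg.Agent.S5599

open Cfsg.Agent.Lib.Golay.Core Cfsg.Agent.Lib.Golay.Perm Cfsg.Agent.Lib.Golay.Chain
  Cfsg.Agent.Lib.Golay.M24 Cfsg.Agent.Lib.Golay.Basic Cfsg.Agent.Lib.Golay.Stab

theorem mem_M22 {σ : Equiv.Perm GolayPt} :
    σ ∈ Spor.M22 ↔ σ ∈ M24 ∧ σ none = none ∧ σ (some 0) = some 0 := by
  simp only [Spor.M22, Spor.M23, Subgroup.mem_inf, MulAction.mem_stabilizer_iff,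
    Equiv.Perm.smul_def]
  tauto

/-- Four distinct points can be carried anywhere. -/
theorem exists_map_four {a b c d a' b' c' d' : GolayPt}
    (h1 : a ≠ b) (h2 : a ≠ c) (h3 : a ≠ d) (h4 : b ≠ c) (h5 : b ≠ d) (h6 : c ≠ d)
    (h1' : a' ≠ b') (h2' : a' ≠ c') (h3' : a' ≠ d') (h4' : b' ≠ c') (h5' : b' ≠ d') (h6' : c' ≠ d') :
    ∃ σ ∈ M24, σ a = a' ∧ σ b = b' ∧ σ c = c' ∧ σ d = d' := by
  obtain ⟨σ, hσ, H⟩ := exists_map_tuple (k := 4) (by norm_num)
    ⟨![a, b, c, d], by
      intro i j hij
      fin_cases i <;> fin_cases j <;> simp_all⟩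
    ⟨![a', b', c', d'], by
      intro i j hij
      fin_cases i <;> fin_cases j <;> simp_all⟩
  exact ⟨σ, hσ, H 0, H 1, H 2, H 3⟩

theorem none_mem_oct : (none : GolayPt) ∈ setOf 13938692 := by decide +kernel
theorem zero_not_mem_oct : (some 0 : GolayPt) ∉ setOf 13938692 := by decide +kernel

theorem no_swap (c : Equiv.Perm GolayPt) (hc : c ∈ M24) (h1 : c none = some 0)
    (h3 : ∀ p, p ≠ none → p ≠ some 0 → c p = p) : False := by
  -- an octad through the extra point and not through `0`
  have ho : setOf 13938692 ∈ octads := setOf_basis_mem (by decide +kernel)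
  have hco := smul_mem_octads hc ho
  have hcard : 5 ≤ (c • setOf 13938692 ∩ setOf 13938692).card := by
    have hsub : (setOf 13938692).erase none ⊆ c • setOf 13938692 ∩ setOf 13938692 := by
      intro x hx
      obtain ⟨hx1, hx2⟩ := Finset.mem_erase.mp hx
      refine Finset.mem_inter.mpr ⟨?_, hx2⟩
      rw [Finset.mem_smul_finset]
      refine ⟨x, hx2, ?_⟩
      have hx0 : x ≠ some 0 := by
        rintro rfl
        exact zero_not_mem_oct hx2
      exact h3 x hx1 hx0
    have := Finset.card_le_card hsub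
    rw [Finset.card_erase_of_mem none_mem_oct, ho.2] at this
    omega
  have he := two_octads_eq hco ho hcard
  apply zero_not_mem_oct
  rw [← he, Finset.mem_smul_finset]
  exact ⟨none, none_mem_oct, h1⟩


/-- In the automorphism group of the length-24 code, the two-point Mathieu group (permutations of the code's group fixing the extra point and the residue 0) has index 2 in the setwise stabiliser of that pair of points, and an element of the code's group interchanging the two points normalises the two-point group and induces on it, by conjugation, an automorphism that is not inner. -/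
theorem result (g : Equiv.Perm Cfsg.GolayPt) (hg : g ∈ Cfsg.M24) (h₁ : g none = some 0) (h₂ : g (some 0) = none) : Cfsg.Spor.M22.relIndex (Cfsg.M24 ⊓ MulAction.stabilizer (Equiv.Perm Cfsg.GolayPt) ({none, some 0} : Finset Cfsg.GolayPt)) = 2 ∧ (∀ x ∈ Cfsg.Spor.M22, g * x * g⁻¹ ∈ Cfsg.Spor.M22) ∧ ¬ ∃ h ∈ Cfsg.Spor.M22, ∀ x ∈ Cfsg.Spor.M22, g * x * g⁻¹ = h * x * h⁻¹ := by
  have hginv1 : g⁻¹ none = some 0 := by rw [Equiv.Perm.inv_eq_iff_eq, h₂]
  have hginv2 : g⁻¹ (some 0) = none := by rw [Equiv.Perm.inv_eq_iff_eq, h₁]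
  -- membership of the big group
  have hA : ∀ σ : Equiv.Perm GolayPt, σ ∈ M24 ⊓ MulAction.stabilizer (Equiv.Perm GolayPt) ({none, some 0} : Finset GolayPt) ↔
      σ ∈ M24 ∧ ((σ none = none ∧ σ (some 0) = some 0) ∨ (σ none = some 0 ∧ σ (some 0) = none)) := by
    intro σ
    rw [Subgroup.mem_inf]
    refine and_congr_right fun _ => ?_
    rw [MulAction.mem_stabilizer_iff]
    constructor
    · intro h
      have h1 : σ none ∈ ({none, some 0} : Finset GolayPt) := by
        rw [← h]
        exact Finset.mem_smul_finset.mpr ⟨none, by simp, rfl⟩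
      have h2 : σ (some 0) ∈ ({none, some 0} : Finset GolayPt) := by
        rw [← h]
        exact Finset.mem_smul_finset.mpr ⟨some 0, by simp, rfl⟩
      simp only [Finset.mem_insert, Finset.mem_singleton] at h1 h2
      rcases h1 with h1 | h1 <;> rcases h2 with h2 | h2
      · exact absurd (σ.injective (h1.trans h2.symm)) (by simp)
      · exact Or.inl ⟨h1, h2⟩
      · exact Or.inr ⟨h1, h2⟩
      · exact absurd (σ.injective (h1.trans h2.symm)) (by simp)
    · rintro (⟨h1, h2⟩ | ⟨h1, h2⟩)
      · ext x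
        simp only [Finset.mem_smul_finset, Finset.mem_insert, Finset.mem_singleton]
        constructor
        · rintro ⟨y, rfl | rfl, rfl⟩
          · exact Or.inl h1
          · exact Or.inr h2
        · rintro (rfl | rfl)
          · exact ⟨none, Or.inl rfl, h1⟩
          · exact ⟨some 0, Or.inr rfl, h2⟩
      · ext x
        simp only [Finset.mem_smul_finset, Finset.mem_insert, Finset.mem_singleton]
        constructor
        · rintro ⟨y, rfl | rfl, rfl⟩
          · exact Or.inr h1
          · exact Or.inl h2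
        · rintro (rfl | rfl)
          · exact ⟨some 0, Or.inr rfl, h2⟩
          · exact ⟨none, Or.inl rfl, h1⟩
  have hgA := (hA g).mpr ⟨hg, Or.inr ⟨h₁, h₂⟩⟩
  refine ⟨?_, ?_, ?_⟩
  · rw [Subgroup.relIndex, Subgroup.index_eq_two_iff]
    refine ⟨⟨g, hgA⟩, ?_⟩
    rintro ⟨b, hb⟩
    rw [Subgroup.mem_subgroupOf, Subgroup.mem_subgroupOf]
    show Xor (b * g ∈ Spor.M22) (b ∈ Spor.M22)
    obtain ⟨hbM, hb'⟩ := (hA b).mp hb
    rcases hb' with ⟨h1, h2⟩ | ⟨h1, h2⟩
    · right
      refine ⟨mem_M22.mpr ⟨hbM, h1, h2⟩, ?_⟩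
      intro h
      have := (mem_M22.mp h).2.1
      rw [Equiv.Perm.mul_apply, h₁, h2] at this
      exact absurd this (by simp)
    · left
      refine ⟨mem_M22.mpr ⟨M24.mul_mem hbM hg, ?_, ?_⟩, ?_⟩
      · rw [Equiv.Perm.mul_apply, h₁, h2]
      · rw [Equiv.Perm.mul_apply, h₂, h1]
      · intro h
        have := (mem_M22.mp h).2.1
        rw [h1] at this
        exact absurd this (by simp)
  · intro x hx
    obtain ⟨hxM, h1, h2⟩ := mem_M22.mp hx
    refine mem_M22.mpr ⟨M24.mul_mem (M24.mul_mem hg hxM) (M24.inv_mem hg), ?_, ?_⟩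
    · simp only [Equiv.Perm.mul_apply]
      rw [hginv1, h2, h₂]
    · simp only [Equiv.Perm.mul_apply]
      rw [hginv2, h1, h₁]
  · rintro ⟨h, hh, H⟩
    obtain ⟨hhM, hh1, hh2⟩ := mem_M22.mp hh
    set c := h⁻¹ * g with hc
    have hcM : c ∈ M24 := M24.mul_mem (M24.inv_mem hhM) hg
    have hcomm : ∀ x ∈ Spor.M22, c * x = x * c := by
      intro x hx
      have := H x hx
      have h3 : c * x * c⁻¹ = x := by
        rw [hc]
        calc h⁻¹ * g * x * (h⁻¹ * g)⁻¹ = h⁻¹ * (g * x * g⁻¹) * h := by group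
          _ = x := by rw [this]; group
      calc c * x = c * x * c⁻¹ * c := by group
        _ = x * c := by rw [h3]
    have hh1' : h⁻¹ none = none := by rw [Equiv.Perm.inv_eq_iff_eq, hh1]
    have hh2' : h⁻¹ (some 0) = some 0 := by rw [Equiv.Perm.inv_eq_iff_eq, hh2]
    have hc1 : c none = some 0 := by
      rw [hc, Equiv.Perm.mul_apply, h₁, hh2']
    have hc2 : c (some 0) = none := by
      rw [hc, Equiv.Perm.mul_apply, h₂, hh1']
    apply no_swap c hcM hc1
    intro p hp1 hp2
    by_contra hne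
    set q := c p with hq
    have hq1 : q ≠ none := by
      intro h'
      have : c p = c (some 0) := by rw [← hq, h', hc2]
      exact hp2 (c.injective this)
    have hq2 : q ≠ some 0 := by
      intro h'
      have : c p = c none := by rw [← hq, h', hc1]
      exact hp1 (c.injective this)
    -- pick a fifth point
    obtain ⟨r, hr⟩ : ∃ r : GolayPt, r ∉ ({none, some 0, p, q} : Finset GolayPt) := by
      by_contra hcon
      push Not at hcon
      have : (Finset.univ : Finset GolayPt) ⊆ {none, some 0, p, q} := fun x _ => hcon x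
      have h4 := Finset.card_le_card this
      have h5 : ({none, some 0, p, q} : Finset GolayPt).card ≤ 4 := Finset.card_le_four
      rw [Finset.card_univ, card_golayPt] at h4
      omega
    simp only [Finset.mem_insert, Finset.mem_singleton, not_or] at hr
    obtain ⟨hr1, hr2, hr3, hr4⟩ := hr
    have hqp : q ≠ p := hne
    have hnz : (none : GolayPt) ≠ some 0 := by simp
    obtain ⟨x, hxM, hx1, hx2, hx3, hx4⟩ := exists_map_four (a := none) (b := some 0) (c := p) (d := q)
      (a' := none) (b' := some 0) (c' := p) (d' := r) hnz (Ne.symm hp1) (Ne.symm hq1) (Ne.symm hp2)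
      (Ne.symm hq2) (Ne.symm hqp) hnz (Ne.symm hp1) (Ne.symm hr1) (Ne.symm hp2) (Ne.symm hr2)
      (Ne.symm hr3)
    have := hcomm x (mem_M22.mpr ⟨hxM, hx1, hx2⟩)
    have h6 := congrArg (fun f : Equiv.Perm GolayPt => f p) this
    simp only [Equiv.Perm.mul_apply] at h6
    rw [hx3, ← hq, hx4] at h6
    exact hr4 h6.symm


end Cfsg.Agent.S5599
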