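import Cfsg.Statements.S5600
import Cfsg.Agent.Lib.M24Data.FixE

set_option autoImplicit false
open scoped Pointwise
open Cfsg

namespace Cfsg.Agent.S5600

open Cfsg.Agent.Lib.Golay.Core Cfsg.Agent.Lib.Golay.Perm Cfsg.Agent.Lib.Golay.Chain
  Cfsg.Agent.Lib.Golay.M24 Cfsg.Agent.Lib.Golay.Basic Cfsg.Agent.Lib.Golay.Stab
  Cfsg.Agent.Lib.M24Data.Restrict Cfsg.Agent.Lib.M24Data.FixE

theorem card_stab_six {E : Finset GolayPt} (hE : E.card = 6) :
    Nat.card ↥(MulAction.stabilizer M24 E) = Nat.card (FixE E) * 720 := by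
  have hH : ∀ h ∈ MulAction.stabilizer M24 E, ∀ x ∈ (E : Set GolayPt), h • x ∈ (E : Set GolayPt) := by
    intro h hh x hx
    have h2 : h • E = E := hh
    have : h • x ∈ h • E := Finset.smul_mem_smul_finset hx
    rw [h2] at this
    exact this
  set f := restrH (MulAction.stabilizer M24 E) (E : Set GolayPt) hH with hf
  have hsurj : Function.Surjective f := by
    intro σ
    let σ' : Equiv.Perm ↥E := σ
    obtain ⟨g, hg, hg'⟩ := exists_extend_perm hE σ'
    have hgE : ∀ p ∈ E, g p ∈ E := by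
      intro p hp
      rw [hg' ⟨p, hp⟩]
      exact (σ' ⟨p, hp⟩).2
    have hgs : g • E = E := by
      apply Finset.eq_of_subset_of_card_le
      · intro z hz
        obtain ⟨w, hw, rfl⟩ := Finset.mem_smul_finset.mp hz
        exact hgE w hw
      · rw [Finset.card_smul_finset]
    refine ⟨⟨⟨g, hg⟩, hgs⟩, ?_⟩
    apply Equiv.ext
    rintro ⟨p, hp⟩
    apply Subtype.ext
    exact hg' ⟨p, hp⟩
  have h1 := Subgroup.card_mul_index f.ker
  rw [Subgroup.index_ker, MonoidHom.range_eq_top.mpr hsurj] at h1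
  have h2 : Nat.card (⊤ : Subgroup (Equiv.Perm (E : Set GolayPt))) = 720 := by
    rw [Subgroup.card_top, Nat.card_perm]
    have : Nat.card (E : Set GolayPt) = 6 := by
      rw [Nat.card_coe_set_eq, Set.ncard_coe_finset, hE]
    rw [this]
    rfl
  rw [h2] at h1
  rw [← h1]
  congr 1
  apply Nat.card_congr
  refine ⟨fun x => ⟨x.1.1.1, x.1.1.2, fun p hp => ?_⟩, fun y => ⟨⟨⟨y.1, y.2.1⟩, ?_⟩, ?_⟩, fun x => rfl, fun y => rfl⟩
  · have h3 := MonoidHom.mem_ker.mp x.2
    have h4 := congrArg (fun φ : Equiv.Perm (E : Set GolayPt) => ((φ ⟨p, hp⟩ : (E : Set GolayPt)) : GolayPt)) h3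
    exact h4
  · show y.1 • E = E
    ext z
    rw [Finset.mem_smul_finset]
    constructor
    · rintro ⟨w, hw, rfl⟩
      rw [Equiv.Perm.smul_def, y.2.2 w hw]
      exact hw
    · intro hz
      exact ⟨z, hz, y.2.2 z hz⟩
  · apply MonoidHom.mem_ker.mpr
    apply Equiv.ext
    rintro ⟨p, hp⟩
    apply Subtype.ext
    exact y.2.2 p hp

/-- Although the group of the length-24 code is only 5-transitive on the 24 points, it induces the full symmetric group on every 6-element subset: every permutation of a 6-set E is the restriction of an element of the group mapping E to itself. The pointwise stabiliser of E has order 16 when E lies in an octad and order 3 otherwise; in the latter case the setwise stabiliser of E has order 2160. -/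
theorem result (E : Finset Cfsg.GolayPt) (hE : E.card = 6) : (∀ σ : Equiv.Perm ↥E, ∃ g ∈ Cfsg.M24, ∀ p : ↥E, g p = σ p) ∧ ((∃ o ∈ Cfsg.octads, E ⊆ o) → Nat.card {g : Equiv.Perm Cfsg.GolayPt // g ∈ Cfsg.M24 ∧ ∀ p ∈ E, g p = p} = 16) ∧ ((¬ ∃ o ∈ Cfsg.octads, E ⊆ o) → Nat.card {g : Equiv.Perm Cfsg.GolayPt // g ∈ Cfsg.M24 ∧ ∀ p ∈ E, g p = p} = 3 ∧ Nat.card ↥(MulAction.stabilizer Cfsg.M24 E) = 2160) := by
  obtain ⟨τ, hτ, H⟩ := six_normal_form hE
  have hcardE : Nat.card {g : Equiv.Perm Cfsg.GolayPt // g ∈ Cfsg.M24 ∧ ∀ p ∈ E, g p = p} = Nat.card (FixE E) := rfl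
  refine ⟨exists_extend_perm hE, ?_, ?_⟩
  · intro hO
    rw [hcardE]
    rcases H with ⟨h1, _⟩ | ⟨_, h2⟩
    · rw [← h1, card_FixE_smul hτ, card_FixE_E0a]
    · exact absurd hO h2
  · intro hO
    rcases H with ⟨_, h2⟩ | ⟨h1, _⟩
    · exact absurd h2 hO
    · have h3 : Nat.card (FixE E) = 3 := by
        rw [← h1, card_FixE_smul hτ, card_FixE_E0b]
      rw [hcardE, card_stab_six hE, h3]
      exact ⟨rfl, rfl⟩

end Cfsg.Agent.S5600
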