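import Cfsg.Statements.S5601
import Cfsg.Agent.Lib.M24Data.Counts

set_option autoImplicit false
open scoped Pointwise
open Cfsg

namespace Cfsg.Agent.S5601

open Cfsg.Agent.Lib.Golay.Core Cfsg.Agent.Lib.Golay.Perm Cfsg.Agent.Lib.Golay.M24
  Cfsg.Agent.Lib.M24Data.Tree Cfsg.Agent.Lib.M24Data.Classes Cfsg.Agent.Lib.M24Data.Counts

/-- A subgroup of order 3 is cyclic. -/
theorem exists_gen (X : Subgroup ↥M24) (hX : Nat.card X = 3) :
    ∃ x : ↥M24, X = Subgroup.zpowers x ∧ (x : Equiv.Perm GolayPt) ^ 3 = 1 ∧ (x : Equiv.Perm GolayPt) ≠ 1 := by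
  have hp : Fact (Nat.Prime 3) := ⟨by norm_num⟩
  have hc : IsCyclic X := isCyclic_of_prime_card hX
  obtain ⟨a, ha⟩ := IsCyclic.exists_generator (α := X)
  have hord : orderOf a = 3 := by
    rw [orderOf_eq_card_of_forall_mem_zpowers ha, hX]
  have hord' : orderOf (a : ↥M24) = 3 := by
    rw [Subgroup.orderOf_coe, hord]
  have hord2 : orderOf ((a : ↥M24) : Equiv.Perm GolayPt) = 3 := by
    rw [Subgroup.orderOf_coe, hord']
  refine ⟨a, ?_, ?_, ?_⟩
  · ext y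
    constructor
    · intro hy
      obtain ⟨k, hk⟩ := ha ⟨y, hy⟩
      refine Subgroup.mem_zpowers_iff.mpr ⟨k, ?_⟩
      have := congrArg Subtype.val hk
      simpa using this
    · intro hy
      obtain ⟨k, rfl⟩ := Subgroup.mem_zpowers_iff.mp hy
      exact X.zpow_mem a.2 k
  · rw [← hord2]
    exact pow_orderOf_eq_one _
  · exact ne_one_of_order (by norm_num) hord2

theorem fixed_set_zpowers (x : ↥M24) :
    {p : GolayPt | ∀ y ∈ Subgroup.zpowers x, ((y : ↥M24) : Equiv.Perm GolayPt) p = p} =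
      ↑(Finset.univ.filter fun p => (x : Equiv.Perm GolayPt) p = p) := by
  ext p
  simp only [Set.mem_ofPred_eq, Finset.coe_filter, Finset.mem_univ, true_and]
  constructor
  · intro h
    exact h x (Subgroup.mem_zpowers x)
  · intro h y hy
    obtain ⟨k, rfl⟩ := Subgroup.mem_zpowers_iff.mp hy
    have hsm : (x : Equiv.Perm GolayPt) • p = p := h
    have : ((x ^ k : ↥M24) : Equiv.Perm GolayPt) • p = p := by
      rw [Subgroup.coe_zpow]
      have hst : (x : Equiv.Perm GolayPt) ∈ MulAction.stabilizer (Equiv.Perm GolayPt) p := hsm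
      exact (MulAction.stabilizer (Equiv.Perm GolayPt) p).zpow_mem hst k
    exact this

theorem ncard_fixed (x : ↥M24) :
    {p : GolayPt | ∀ y ∈ Subgroup.zpowers x, ((y : ↥M24) : Equiv.Perm GolayPt) p = p}.ncard =
      (Finset.univ.filter fun p => (x : Equiv.Perm GolayPt) p = p).card := by
  rw [fixed_set_zpowers, Set.ncard_coe_finset]

theorem zpowers_card (P : ℕ) (hP : g P ∈ M24) (h3 : g P ^ 3 = 1) (hne : g P ≠ 1) :
    Nat.card (Subgroup.zpowers (⟨g P, hP⟩ : ↥M24)) = 3 := by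
  rw [Nat.card_zpowers]
  have hp : Fact (Nat.Prime 3) := ⟨by norm_num⟩
  have : orderOf (g P) = 3 := orderOf_eq_prime h3 hne
  rw [← this, ← Subgroup.orderOf_coe]

theorem g_ne_one_of {P : ℕ} (hP : validPerm P = true) (i : ℕ) (hi : i < 24) (h : img P i ≠ i) : g P ≠ 1 := by
  intro h1
  have h2 := g_pt hP hi
  rw [h1] at h2
  exact h (pt_injOn (valid_img_lt hP hi) hi h2.symm)

theorem cube_g {P : ℕ} (hP : validPerm P = true) (h : cube P = true) : g P ^ 3 = 1 := by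
  ext1 p
  simp only [pow_succ, pow_zero, one_mul, Equiv.Perm.mul_apply, Equiv.Perm.one_apply]
  rw [g_apply hP p, g_pt hP (valid_img_lt hP (idx_lt p)), g_pt hP (valid_img_lt hP (valid_img_lt hP (idx_lt p)))]
  rw [Nat.eq_of_beq_eq_true (allUpTo_iff.mp h _ (idx_lt p)), pt_idx]

theorem x3A_cube : cube x3A = true := by decide +kernel
theorem x3B_cube : cube x3B = true := by decide +kernel
theorem x3A_fix : fixC x3A = 6 := by decide +kernel
theorem x3B_fix : fixC x3B = 0 := by decide +kernel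
theorem x3A_mv : img x3A 4 ≠ 4 := by decide +kernel
theorem x3B_mv : img x3B 0 ≠ 0 := by decide +kernel

theorem conj_zpowers (k x y : ↥M24) (h : k * x * k⁻¹ = y) :
    MulAut.conj k • Subgroup.zpowers x = Subgroup.zpowers y := by
  ext w
  rw [Subgroup.mem_pointwise_smul_iff_inv_smul_mem, MulAut.smul_def, MulAut.conj_inv_apply,
    Subgroup.mem_zpowers_iff, Subgroup.mem_zpowers_iff, ← h]
  constructor
  · rintro ⟨n, hn⟩
    refine ⟨n, ?_⟩
    rw [conj_zpow, hn]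
    group
  · rintro ⟨n, hn⟩
    refine ⟨n, ?_⟩
    rw [conj_zpow] at hn
    rw [← hn]
    group

theorem conj_of_rep {x y : ↥M24} {t : Equiv.Perm GolayPt} {τ₁ τ₂ : Equiv.Perm GolayPt} (h1 : τ₁ ∈ M24)
    (h2 : τ₂ ∈ M24) (e1 : τ₁ * (x : Equiv.Perm GolayPt) * τ₁⁻¹ = t)
    (e2 : τ₂ * (y : Equiv.Perm GolayPt) * τ₂⁻¹ = t) :
    ∃ k : ↥M24, k * x * k⁻¹ = y := by
  refine ⟨⟨τ₂⁻¹ * τ₁, M24.mul_mem (M24.inv_mem h2) h1⟩, ?_⟩
  apply Subtype.ext
  show τ₂⁻¹ * τ₁ * (x : Equiv.Perm GolayPt) * (τ₂⁻¹ * τ₁)⁻¹ = y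
  have : τ₂⁻¹ * τ₁ * (x : Equiv.Perm GolayPt) * (τ₂⁻¹ * τ₁)⁻¹ = τ₂⁻¹ * (τ₁ * (x : Equiv.Perm GolayPt) * τ₁⁻¹) * τ₂ := by
    group
  rw [this, e1, ← e2]
  group

/-- The group of the length-24 code has exactly two conjugacy classes of subgroups of order 3: a subgroup of order 3 fixes either exactly 6 of the 24 points or none of them, both cases occur, and two subgroups of order 3 with the same number of fixed points are conjugate. -/
theorem result : (∀ X : Subgroup ↥Cfsg.M24, Nat.card X = 3 → {p : Cfsg.GolayPt | ∀ x ∈ X, ((x : ↥Cfsg.M24) : Equiv.Perm Cfsg.GolayPt) p = p}.ncard = 6 ∨ {p : Cfsg.GolayPt | ∀ x ∈ X, ((x : ↥Cfsg.M24) : Equiv.Perm Cfsg.GolayPt) p = p}.ncard = 0) ∧ (∃ X : Subgroup ↥Cfsg.M24, Nat.card X = 3 ∧ {p : Cfsg.GolayPt | ∀ x ∈ X, ((x : ↥Cfsg.M24) : Equiv.Perm Cfsg.GolayPt) p = p}.ncard = 6) ∧ (∃ X : Subgroup ↥Cfsg.M24, Nat.card X = 3 ∧ {p : Cfsg.GolayPt | ∀ x ∈ X, ((x : ↥Cfsg.M24)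 : Equiv.Perm Cfsg.GolayPt) p = p}.ncard = 0) ∧ ∀ X Y : Subgroup ↥Cfsg.M24, Nat.card X = 3 → Nat.card Y = 3 → {p : Cfsg.GolayPt | ∀ x ∈ X, ((x : ↥Cfsg.M24) : Equiv.Perm Cfsg.GolayPt) p = p}.ncard = {p : Cfsg.GolayPt | ∀ x ∈ Y, ((x : ↥Cfsg.M24) : Equiv.Perm Cfsg.GolayPt) p = p}.ncard → ∃ k : ↥Cfsg.M24, MulAut.conj k • X = Y := by
  have hvA := checkAut_valid reps_ok.1
  have hvB := checkAut_valid reps_ok.2.1
  have hmA := g_mem_M24 reps_ok.1
  have hmB := g_mem_M24 reps_ok.2.1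
  refine ⟨?_, ?_, ?_, ?_⟩
  · intro X hX
    obtain ⟨x, rfl, h3, hne⟩ := exists_gen X hX
    rw [ncard_fixed]
    rcases class3 x.2 h3 hne with ⟨h, -⟩ | ⟨h, -⟩
    · exact Or.inl h
    · exact Or.inr h
  · refine ⟨Subgroup.zpowers ⟨g x3A, hmA⟩, zpowers_card _ hmA (cube_g hvA x3A_cube)
      (g_ne_one_of hvA 4 (by norm_num) x3A_mv), ?_⟩
    rw [ncard_fixed]
    show (Finset.univ.filter fun p => g x3A p = p).card = 6
    rw [← fixC_eq hvA, x3A_fix]
  · refine ⟨Subgroup.zpowers ⟨g x3B, hmB⟩, zpowers_card _ hmB (cube_g hvB x3B_cube)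
      (g_ne_one_of hvB 0 (by norm_num) x3B_mv), ?_⟩
    rw [ncard_fixed]
    show (Finset.univ.filter fun p => g x3B p = p).card = 0
    rw [← fixC_eq hvB, x3B_fix]
  · intro X Y hX hY hXY
    obtain ⟨x, rfl, h3x, hnex⟩ := exists_gen X hX
    obtain ⟨y, rfl, h3y, hney⟩ := exists_gen Y hY
    rw [ncard_fixed, ncard_fixed] at hXY
    have key : ∃ k : ↥M24, k * x * k⁻¹ = y := by
      rcases class3 x.2 h3x hnex with ⟨hx, τ₁, h1, e1⟩ | ⟨hx, τ₁, h1, e1⟩ <;>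
        rcases class3 y.2 h3y hney with ⟨hy, τ₂, h2, e2⟩ | ⟨hy, τ₂, h2, e2⟩
      · exact conj_of_rep h1 h2 e1 e2
      · omega
      · omega
      · exact conj_of_rep h1 h2 e1 e2
    obtain ⟨k, hk⟩ := key
    exact ⟨k, conj_zpowers k x y hk⟩

end Cfsg.Agent.S5601
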