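import Cfsg.Statements.S5604
import Cfsg.Agent.Lib.M24Data.CommTree

set_option autoImplicit false
open scoped Pointwise
open Cfsg

namespace Cfsg.Agent.S5604

open Cfsg.Agent.Lib.Golay.Core Cfsg.Agent.Lib.Golay.Perm Cfsg.Agent.Lib.Golay.Chain Cfsg.Agent.Lib.Golay.M24
  Cfsg.Agent.Lib.M24Data.OctadPairs Cfsg.Agent.Lib.M24Data.Tree Cfsg.Agent.Lib.M24Data.Universe
  Cfsg.Agent.Lib.M24Data.Classes Cfsg.Agent.Lib.M24Data.CommTree

/-- Powers of the representative of order seven. -/
def X1 : ℕ := 980296294882146363485576092429487136
def X2 : ℕ := 972678630716235700924423007097803808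
def X3 : ℕ := 961152142314858484265183302632413216
def X4 : ℕ := 970280423369759319177701804856518688
def X5 : ℕ := 967169919791891010006221221229213728
def X6 : ℕ := 977592742270187552611102466486909984

/-- The normaliser of the subgroup generated by the representative. -/
def L126 : List ℕ := [5413752613728778084503522775420983, 5503245851244585906017702769770551, 5529954180209742611809521456361527, 6858483239730608985671700102615777, 6954612831809980339734954820164321, 7022232526023146078954166228930273, 9541157333445425917884469916406497, 9779377422459029825261305707476705, 10005886044406809449368546380916449, 10762559870951104871444788497985249, 11163648249432963666721737926199009, 11281469379230993471579988920931041, 11969691262478882432963856730435639, 12351406059551688350553955951517751, 12426385349849178538092467364009015, 14611633333941439555424818139910199, 14785379825963672491862775593243703, 15027094336768624677107903448226871, 15766408767787661710195873706194657, 15961332403322127024401950702718689, 16270591517611462434193473903308513, 17166687359625060183479952589853751,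 17365994576309399155494498325907511, 17699618898471395500104671608160311, 20949994237919021333425156665036513, 21304352940228093811946338506188513, 21680923335550206134812270244546273, 22395744602059101673993903676202039, 22734802679429514748552398572367927, 22881982541683491885184809052948535, 23906015158537076674966565821209313, 24073172844495857919921888502916833, 24163497977470768225865679705255649, 24868936034300579058891856296812599, 25177326885405712895653108639780919, 25320436056305399750833234628724791, 26136898642520727020185986504705761, 26426923149403777174629024068155105, 26735086918788317085762747770460897, 28765031667186678094764872527659063, 29314859771423768764292158654160951, 29388485205356301736080382197570615, 44487767565043805742921431886745623, 44626784217459133596322345716880407, 44881316181719119591727460526595095, 45731055366270472055531964133290007, 46087560731830794299207497133137943, 46187101522594080822581996023944215, 48126644123392000191881344589437664, 48164876796956389709887111608483552, 48608789269092221317427154250738400, 49541455026478503959558991489155095,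 50078627928403737009835961838903319, 50143762923980462809444925293796375, 50734726273555934080249102123351776, 50890164351354559091019047624150752, 51491440228189084957133124587829984, 52068974496717443311421364568918752, 52178424171621010791985745126080224, 52357229577016738675290451703191264, 54736507541745717149637762162892823, 55028013363405620806305374168862743, 55196182404767837951534145396426775, 57242369259015101569897843389868768, 57745933471139735983684679444904672, 57978817960277333718310054598380256, 60023861681668431577194114116359191, 60209703545284079004864975798421527, 60547654878918413956237235757236247, 61229053670533901204229866790342679, 61315127218374580942192409806290967, 61358192844397927073751816601841687, 62556315697164426370540665678845664, 62903561427635745936679863685680864, 62933334284198981650420026239822560, 65331717643441916137081339598506720, 65496358769151730566449660912016096, 65772550487366724156772626279632608, 67586281628106692429985308200123104, 67919773672025940621266068539775712, 68132906513767566256702399908763360, 69134469178393465101706943254895639,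 69463857327724234403754961915883543, 69623427815246563567653208852023319, 958151305168429853775326492360100865, 958522179601151704617069979415290881, 958894420416033632505129566745019393, 959448235523628865502965189386552321, 959746715985467200699518478278865921, 960068435870445482454378973192640513, 960987272459175447151156754424432672, 961152142314858484265183302632413216, 961437802094680978853503588116139040, 963339769365322804461723233744892929, 963559529253892835333839233882409985, 963886441452380482684226577724910593, 967169919791891010006221221229213728, 967491758519891516367314186559100960, 967683527222130802454992074130674720, 968824914066962427917699581642215425, 969073858342283928016305053048878081, 969262703053198521754577856715334657, 969928408386152391636398392055682080, 970245253857456990554306890847947808, 970280423369759319177701804856518688, 972388843434889812588431988828211232, 972526773981616621590758581890825248, 972678630716235700924423007097803808, 973930464789570492604587976906353665, 974342223710695297309568454847316993, 974473528158201284119723303158190081,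 975390037368432014835642502687086593, 975553725508615235736379194354344961, 975630934160334294276115801567702017, 977541932328922602959141083360466976, 977592742270187552611102466486909984, 978043322874912850759077239251380256, 980142736658610497879363303081458720, 980296294882146363485576092429487136, 980918349640568845057430966063151136, 983027793986524843569355454780116993, 983098955685635302762197256934709249, 983195490708178138948317290808265729, 984085288390961648805970583473334304, 984555525911694910489668236298860576, 984818244535754528103549039458486304]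

/-- The centraliser of the representative. -/
def L42 : List ℕ := [5529954180209742611809521456361527, 6858483239730608985671700102615777, 10005886044406809449368546380916449, 11163648249432963666721737926199009, 12351406059551688350553955951517751, 15027094336768624677107903448226871, 16270591517611462434193473903308513, 17166687359625060183479952589853751, 20949994237919021333425156665036513, 22881982541683491885184809052948535, 23906015158537076674966565821209313, 25177326885405712895653108639780919, 26426923149403777174629024068155105, 28765031667186678094764872527659063, 44881316181719119591727460526595095, 46087560731830794299207497133137943, 48164876796956389709887111608483552, 49541455026478503959558991489155095, 50890164351354559091019047624150752, 52357229577016738675290451703191264, 55028013363405620806305374168862743, 57978817960277333718310054598380256, 60023861681668431577194114116359191, 61358192844397927073751816601841687, 62933334284198981650420026239822560, 65496358769151730566449660912016096, 67586281628106692429985308200123104, 69623427815246563567653208852023319,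 958151305168429853775326492360100865, 959746715985467200699518478278865921, 961152142314858484265183302632413216, 963886441452380482684226577724910593, 967169919791891010006221221229213728, 969262703053198521754577856715334657, 970280423369759319177701804856518688, 972678630716235700924423007097803808, 974342223710695297309568454847316993, 975390037368432014835642502687086593, 977592742270187552611102466486909984, 980296294882146363485576092429487136, 983027793986524843569355454780116993, 984818244535754528103549039458486304]

/-- Two elements of the centraliser which do not commute. -/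
def A0 : ℕ := 12351406059551688350553955951517751
def B0 : ℕ := 10005886044406809449368546380916449

/-- The invariant trio. -/
def t0 : ℕ := 1269

theorem hX1 : checkAut X1 = true := by decide +kernel
theorem hv : validPerm X1 = true := checkAut_valid hX1
theorem hg : Good X1 := good_of_check hX1

theorem powers_ok : allL checkAut [X2, X3, X4, X5, X6] = true := by decide +kernel
theorem v2 : validPerm X2 = true := checkAut_valid (allL_iff.mp powers_ok _ (by simp))
theorem v3 : validPerm X3 = true := checkAut_valid (allL_iff.mp powers_ok _ (by simp))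
theorem v4 : validPerm X4 = true := checkAut_valid (allL_iff.mp powers_ok _ (by simp))
theorem v5 : validPerm X5 = true := checkAut_valid (allL_iff.mp powers_ok _ (by simp))
theorem v6 : validPerm X6 = true := checkAut_valid (allL_iff.mp powers_ok _ (by simp))

theorem gX2 : g X2 = g X1 ^ 2 := by
  rw [pow_two, ← g_comp hv hv]
  exact g_congr v2 (valid_comp hv hv) (by intro i hi; rw [img_comp _ _ hi]; revert i; decide +kernel)
theorem gX3 : g X3 = g X1 ^ 3 := by
  rw [pow_succ, ← gX2, ← g_comp v2 hv]
  exact g_congr v3 (valid_comp v2 hv) (by intro i hi; rw [img_comp _ _ hi]; revert i; decide +kernel)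
theorem gX4 : g X4 = g X1 ^ 4 := by
  rw [pow_succ, ← gX3, ← g_comp v3 hv]
  exact g_congr v4 (valid_comp v3 hv) (by intro i hi; rw [img_comp _ _ hi]; revert i; decide +kernel)
theorem gX5 : g X5 = g X1 ^ 5 := by
  rw [pow_succ, ← gX4, ← g_comp v4 hv]
  exact g_congr v5 (valid_comp v4 hv) (by intro i hi; rw [img_comp _ _ hi]; revert i; decide +kernel)
theorem gX6 : g X6 = g X1 ^ 6 := by
  rw [pow_succ, ← gX5, ← g_comp v5 hv]
  exact g_congr v6 (valid_comp v5 hv) (by intro i hi; rw [img_comp _ _ hi]; revert i; decide +kernel)

theorem hX7 : g X1 ^ 7 = 1 := by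
  rw [pow_succ, ← gX6]
  ext1 p
  rw [Equiv.Perm.mul_apply, Equiv.Perm.one_apply, g_apply hv p, g_pt v6 (valid_img_lt hv (idx_lt p))]
  have key : ∀ i < 24, img X6 (img X1 i) = i := by decide +kernel
  rw [key _ (idx_lt p), pt_idx]

theorem hX1_ne : g X1 ≠ 1 := by
  intro h
  have e := congrArg (fun f : Equiv.Perm GolayPt => f (pt 2)) h
  simp only [Equiv.Perm.one_apply] at e
  rw [g_pt hv (by norm_num)] at e
  have e2 := pt_injOn (valid_img_lt hv (by norm_num)) (by norm_num) e
  revert e2
  decide +kernel

/-- The representative as an element of the group. -/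
noncomputable def x0 : ↥M24 := ⟨g X1, hg.2⟩

theorem x0_pow : x0 ^ 7 = 1 := Subtype.ext hX7

theorem x0_ne : x0 ≠ 1 := fun h => hX1_ne (congrArg Subtype.val h)

theorem x0_order : orderOf x0 = 7 := by
  have : Fact (Nat.Prime 7) := ⟨by norm_num⟩
  exact orderOf_eq_prime x0_pow x0_ne

/-- The subgroup generated by the representative. -/
noncomputable def S0 : Subgroup ↥M24 := Subgroup.zpowers x0

theorem card_S0 : Nat.card S0 = 7 := by
  rw [S0, Nat.card_zpowers, x0_order]

/-! ### Walks -/

def leafC (Q : ℕ) : Bool := !(commB X1 X1 Q) || memL Q L42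
def leafN (y Q : ℕ) : Bool := !(commB X1 y Q) || memL Q L126

theorem run1 : treeAux leafC (pruneS X1 X1) chain [] idP = true := by decide +kernel
theorem run2 : treeAux (leafN X2) (pruneS X1 X2) chain [] idP = true := by decide +kernel
theorem run3 : treeAux (leafN X3) (pruneS X1 X3) chain [] idP = true := by decide +kernel
theorem run4 : treeAux (leafN X4) (pruneS X1 X4) chain [] idP = true := by decide +kernel
theorem run5 : treeAux (leafN X5) (pruneS X1 X5) chain [] idP = true := by decide +kernel
theorem run6 : treeAux (leafN X6) (pruneS X1 X6) chain [] idP = true := by decide +kernel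

theorem sub_ok : allL (fun Q => memL Q L126) L42 = true := by decide +kernel
theorem N_good : allL goodC L126 = true := by decide +kernel
theorem C_good : allL goodC L42 = true := by decide +kernel
theorem N_nd : pairB neB L126 = true := by decide +kernel
theorem C_nd : pairB neB L42 = true := by decide +kernel
theorem N_len : L126.length = 126 := by decide +kernel
theorem C_len : L42.length = 42 := by decide +kernel
theorem C_spec : allL (commB X1 X1) L42 = true := by decide +kernel
theorem N_spec : allL (fun Q => anyL (fun y => commB X1 y Q) [X1, X2, X3, X4, X5, X6] &&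
    anyL (fun y => commB y X1 Q) [X1, X2, X3, X4, X5, X6]) L126 = true := by decide +kernel
theorem tri_spec : allL (fun Q => relT Q t0 t0) L126 = true := by decide +kernel
theorem t0_lt : t0 < 3795 := by decide

theorem mem_zp {y : ℕ} (hy : y ∈ [X1, X2, X3, X4, X5, X6]) : ∃ h : g y ∈ M24, (⟨g y, h⟩ : ↥M24) ∈ S0 := by
  have key : ∃ e : ℕ, g y = g X1 ^ e := by
    simp only [List.mem_cons, List.not_mem_nil, or_false] at hy
    rcases hy with rfl | rfl | rfl | rfl | rfl | rfl
    · exact ⟨1, (pow_one _).symm⟩
    · exact ⟨2, gX2⟩
    · exact ⟨3, gX3⟩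
    · exact ⟨4, gX4⟩
    · exact ⟨5, gX5⟩
    · exact ⟨6, gX6⟩
  obtain ⟨e, he⟩ := key
  have hm : g y ∈ M24 := by rw [he]; exact M24.pow_mem hg.2 e
  refine ⟨hm, ?_⟩
  have e2 : (⟨g y, hm⟩ : ↥M24) = x0 ^ e := by
    apply Subtype.ext
    show g y = (g X1) ^ e
    exact he
  rw [e2]
  exact Subgroup.pow_mem _ (Subgroup.mem_zpowers x0) e

theorem x0_mem_S0 : x0 ∈ S0 := Subgroup.mem_zpowers x0

theorem mem_norm_zpowers {G : Type*} [Group G] (x n : G) (h1 : n * x * n⁻¹ ∈ Subgroup.zpowers x)
    (h2 : n⁻¹ * x * n ∈ Subgroup.zpowers x) : n ∈ Subgroup.normalizer (Subgroup.zpowers x : Set G) := by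
  rw [Subgroup.mem_set_normalizer_iff]
  intro h
  constructor
  · intro hh
    obtain ⟨m, rfl⟩ := Subgroup.mem_zpowers_iff.mp hh
    have e : n * x ^ m * n⁻¹ = (n * x * n⁻¹) ^ m := conj_zpow.symm
    show n * x ^ m * n⁻¹ ∈ Subgroup.zpowers x
    rw [e]
    exact Subgroup.zpow_mem _ h1 m
  · intro hh
    obtain ⟨m, hm⟩ := Subgroup.mem_zpowers_iff.mp hh
    have e : h = (n⁻¹ * x * n) ^ m := by
      have e3 : (n⁻¹ * x * n) ^ m = n⁻¹ * x ^ m * n := by
        have := conj_zpow (a := n⁻¹) (b := x) (i := m)
        rwa [inv_inv] at this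
      rw [e3]
      show h = n⁻¹ * x ^ m * n
      rw [hm]
      group
    rw [e]
    exact Subgroup.zpow_mem _ h2 m

/-- Elements of the normaliser, in the group of all permutations. -/
noncomputable def NP : Subgroup (Equiv.Perm GolayPt) := (Subgroup.normalizer (S0 : Set ↥M24)).map M24.subtype

/-- Elements of the centraliser, in the group of all permutations. -/
noncomputable def CP : Subgroup (Equiv.Perm GolayPt) := (Subgroup.centralizer (S0 : Set ↥M24)).map M24.subtype

theorem comm_of_mem {y : ℕ} (hy : y ∈ [X1, X2, X3, X4, X5, X6]) {Q : ℕ} (hQ : Good Q)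
    (h : commB X1 y Q = true) : (⟨g Q, hQ.2⟩ : ↥M24) * x0 * (⟨g Q, hQ.2⟩ : ↥M24)⁻¹ ∈ S0 := by
  obtain ⟨hm, hm2⟩ := mem_zp hy
  have hvy : validPerm y = true := by
    simp only [List.mem_cons, List.not_mem_nil, or_false] at hy
    rcases hy with rfl | rfl | rfl | rfl | rfl | rfl
    · exact hv
    · exact v2
    · exact v3
    · exact v4
    · exact v5
    · exact v6
  have e := of_commB hv hvy hQ.1 h
  have e2 : (⟨g Q, hQ.2⟩ : ↥M24) * x0 * (⟨g Q, hQ.2⟩ : ↥M24)⁻¹ = ⟨g y, hm⟩ := by
    apply Subtype.ext
    show g Q * g X1 * (g Q)⁻¹ = g y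
    rw [e]
    group
  rw [e2]
  exact hm2

theorem comm_of_mem' {y : ℕ} (hy : y ∈ [X1, X2, X3, X4, X5, X6]) {Q : ℕ} (hQ : Good Q)
    (h : commB y X1 Q = true) : (⟨g Q, hQ.2⟩ : ↥M24)⁻¹ * x0 * (⟨g Q, hQ.2⟩ : ↥M24) ∈ S0 := by
  obtain ⟨hm, hm2⟩ := mem_zp hy
  have hvy : validPerm y = true := by
    simp only [List.mem_cons, List.not_mem_nil, or_false] at hy
    rcases hy with rfl | rfl | rfl | rfl | rfl | rfl
    · exact hv
    · exact v2
    · exact v3
    · exact v4
    · exact v5
    · exact v6
  have e := of_commB hvy hv hQ.1 h
  have e2 : (⟨g Q, hQ.2⟩ : ↥M24)⁻¹ * x0 * (⟨g Q, hQ.2⟩ : ↥M24) = ⟨g y, hm⟩ := by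
    apply Subtype.ext
    show (g Q)⁻¹ * g X1 * g Q = g y
    rw [mul_assoc, ← e]
    group
  rw [e2]
  exact hm2

theorem norm_of_L {Q : ℕ} (hQ : Q ∈ L126) :
    ∃ hm : g Q ∈ M24, (⟨g Q, hm⟩ : ↥M24) ∈ Subgroup.normalizer (S0 : Set ↥M24) := by
  have hG := good_of_goodC (allL_iff.mp N_good Q hQ)
  refine ⟨hG.2, ?_⟩
  have hs := allL_iff.mp N_spec Q hQ
  simp only [Bool.and_eq_true] at hs
  obtain ⟨y, hy, hy2⟩ := anyL_iff.mp hs.1
  obtain ⟨y', hy', hy2'⟩ := anyL_iff.mp hs.2
  exact mem_norm_zpowers x0 _ (comm_of_mem hy hG hy2) (comm_of_mem' hy' hG hy2')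

theorem cent_of_comm {n : ↥M24} (h : n * x0 = x0 * n) : n ∈ Subgroup.centralizer (S0 : Set ↥M24) := by
  rw [Subgroup.mem_centralizer_iff]
  intro s hs
  obtain ⟨m, rfl⟩ := Subgroup.mem_zpowers_iff.mp hs
  exact ((Commute.zpow_left (a := x0) (b := n) (h.symm) m))

theorem cent_of_L {Q : ℕ} (hQ : Q ∈ L42) :
    ∃ hm : g Q ∈ M24, (⟨g Q, hm⟩ : ↥M24) ∈ Subgroup.centralizer (S0 : Set ↥M24) := by
  have hG := good_of_goodC (allL_iff.mp C_good Q hQ)
  refine ⟨hG.2, cent_of_comm ?_⟩
  apply Subtype.ext
  exact of_commB hv hv hG.1 (allL_iff.mp C_spec Q hQ)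

theorem pow_cases {n : ↥M24} (hn : n * x0 * n⁻¹ ∈ S0) :
    (n.1 * g X1 = g X1 * n.1) ∨ (n.1 * g X1 = g X2 * n.1) ∨ (n.1 * g X1 = g X3 * n.1) ∨
    (n.1 * g X1 = g X4 * n.1) ∨ (n.1 * g X1 = g X5 * n.1) ∨ (n.1 * g X1 = g X6 * n.1) := by
  have h2 : ∃ e < 7, x0 ^ e = n * x0 * n⁻¹ := by
    have := mem_zpowers_iff_mem_range_orderOf.mp hn
    rw [x0_order] at this
    simpa using this
  obtain ⟨e, he, hee⟩ := h2
  have h3 : (n.1 * g X1) = (g X1) ^ e * n.1 := by
    have h4 : n * x0 = x0 ^ e * n := by rw [hee]; group
    exact congrArg Subtype.val h4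
  interval_cases e
  · exfalso
    rw [pow_zero] at hee
    have : n * x0 = n := by
      have := hee.symm
      rw [mul_inv_eq_one] at this
      exact this
    apply x0_ne
    simpa using this
  · left; rw [pow_one] at h3; exact h3
  · right; left; rw [gX2]; exact h3
  · right; right; left; rw [gX3]; exact h3
  · right; right; right; left; rw [gX4]; exact h3
  · right; right; right; right; left; rw [gX5]; exact h3
  · right; right; right; right; right; rw [gX6]; exact h3

theorem mem_L126 {n : ↥M24} (hn : n ∈ Subgroup.normalizer (S0 : Set ↥M24)) : ∃ P ∈ L126, n.1 = g P := by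
  have h1 : n * x0 * n⁻¹ ∈ S0 := (Subgroup.mem_normalizer_iff.mp hn x0).mp x0_mem_S0
  have ag : ∀ x ∈ ([] : List ℕ), n.1 (pt x) = pt (img idP x) := by simp
  have hF : ∀ x ∈ ([] : List ℕ), x < 24 := by simp
  have finish : ∀ y, validPerm y = true → n.1 * g X1 = g y * n.1 →
      treeAux (leafN y) (pruneS X1 y) chain [] idP = true → ∃ P ∈ L126, n.1 = g P := by
    intro y hvy hc hrun
    obtain ⟨Q, hQ, hleaf, hQe⟩ := treeAux_sound (Φ := fun σ => σ * g X1 = g y * σ)
      (pruneS_sound hv hvy) chain [] levels0 idP good_idP hrun n.1 n.2 hc ag hF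
    have hcb := commB_of hv hvy hQ.1 (by rw [← hQe]; exact hc)
    simp only [leafN, hcb, Bool.not_true, Bool.false_or] at hleaf
    exact ⟨Q, memL_iff.mp hleaf, hQe⟩
  rcases pow_cases h1 with h | h | h | h | h | h
  · -- the centraliser
    obtain ⟨Q, hQ, hleaf, hQe⟩ := treeAux_sound (Φ := fun σ => σ * g X1 = g X1 * σ)
      (pruneS_sound hv hv) chain [] levels0 idP good_idP run1 n.1 n.2 h ag hF
    have hcb := commB_of hv hv hQ.1 (by rw [← hQe]; exact h)
    simp only [leafC, hcb, Bool.not_true, Bool.false_or] at hleaf
    exact ⟨Q, memL_iff.mp (allL_iff.mp sub_ok Q (memL_iff.mp hleaf)), hQe⟩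
  · exact finish _ v2 h run2
  · exact finish _ v3 h run3
  · exact finish _ v4 h run4
  · exact finish _ v5 h run5
  · exact finish _ v6 h run6

theorem mem_L42 {n : ↥M24} (hn : n ∈ Subgroup.centralizer (S0 : Set ↥M24)) : ∃ P ∈ L42, n.1 = g P := by
  have h1 : x0 * n = n * x0 := (Subgroup.mem_centralizer_iff.mp hn) x0 x0_mem_S0
  have h : n.1 * g X1 = g X1 * n.1 := (congrArg Subtype.val h1).symm
  have ag : ∀ x ∈ ([] : List ℕ), n.1 (pt x) = pt (img idP x) := by simp
  have hF : ∀ x ∈ ([] : List ℕ), x < 24 := by simp
  obtain ⟨Q, hQ, hleaf, hQe⟩ := treeAux_sound (Φ := fun σ => σ * g X1 = g X1 * σ)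
    (pruneS_sound hv hv) chain [] levels0 idP good_idP run1 n.1 n.2 h ag hF
  have hcb := commB_of hv hv hQ.1 (by rw [← hQe]; exact h)
  simp only [leafC, hcb, Bool.not_true, Bool.false_or] at hleaf
  exact ⟨Q, memL_iff.mp hleaf, hQe⟩

theorem card_norm : Nat.card ↥(Subgroup.normalizer (S0 : Set ↥M24)) = 126 := by
  have h := card_list NP L126 N_good N_nd (fun P hP => by
      obtain ⟨hm, hm2⟩ := norm_of_L hP
      exact ⟨⟨g P, hm⟩, hm2, rfl⟩) (fun σ hσ => by
      obtain ⟨n, hn, rfl⟩ := hσ
      exact mem_L126 hn)
  rw [N_len] at h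
  rw [← h]
  exact (Subgroup.card_map_of_injective (f := M24.subtype) M24.subtype_injective).symm

theorem card_cent : Nat.card ↥(Subgroup.centralizer (S0 : Set ↥M24)) = 42 := by
  have h := card_list CP L42 C_good C_nd (fun P hP => by
      obtain ⟨hm, hm2⟩ := cent_of_L hP
      exact ⟨⟨g P, hm⟩, hm2, rfl⟩) (fun σ hσ => by
      obtain ⟨n, hn, rfl⟩ := hσ
      exact mem_L42 hn)
  rw [C_len] at h
  rw [← h]
  exact (Subgroup.card_map_of_injective (f := M24.subtype) M24.subtype_injective).symm

theorem A0_mem : A0 ∈ L42 := by decide +kernel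
theorem B0_mem : B0 ∈ L42 := by decide +kernel

theorem noncomm : ∃ a ∈ Subgroup.centralizer (S0 : Set ↥M24), ∃ b ∈ Subgroup.centralizer (S0 : Set ↥M24),
    a * b ≠ b * a := by
  obtain ⟨h1, h2⟩ := cent_of_L A0_mem
  obtain ⟨h3, h4⟩ := cent_of_L B0_mem
  refine ⟨_, h2, _, h4, ?_⟩
  intro h
  have e := congrArg (fun f : ↥M24 => f.1 (pt 0)) h
  have hA := (good_of_goodC (allL_iff.mp C_good _ A0_mem)).1
  have hB := (good_of_goodC (allL_iff.mp C_good _ B0_mem)).1
  simp only [Subgroup.coe_mul, Equiv.Perm.mul_apply] at e
  have hj : 0 < 24 := by norm_num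
  rw [g_pt hB hj, g_pt hA (valid_img_lt hB hj), g_pt hA hj, g_pt hB (valid_img_lt hA hj)] at e
  have e2 := pt_injOn (valid_img_lt hA (valid_img_lt hB hj))
    (valid_img_lt hB (valid_img_lt hA hj)) e
  revert e2
  decide +kernel

theorem tri_fix {n : ↥M24} (hn : n ∈ Subgroup.normalizer (S0 : Set ↥M24)) : n.1 • decT t0 = decT t0 := by
  obtain ⟨P, hP, hnP⟩ := mem_L126 hn
  rw [hnP]
  exact (relT_iff (good_of_goodC (allL_iff.mp N_good P hP)) t0_lt t0_lt).mp (allL_iff.mp tri_spec P hP)

/-! ### Conjugating -/

theorem cardM_fact : (Nat.card ↥M24).factorization 7 = 1 := by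
  rw [card_M24]
  have e : (244823040 : ℕ) = 7 * 34974720 := by norm_num
  rw [e, Nat.factorization_mul (by norm_num) (by norm_num)]
  simp only [Finsupp.coe_add, Pi.add_apply]
  have h7 : Nat.Prime 7 := by norm_num
  rw [h7.factorization_self, Nat.factorization_eq_zero_of_not_dvd (by norm_num)]

theorem exists_conj (S : Subgroup ↥M24) (hS : Nat.card S = 7) : ∃ k : ↥M24, ∀ h, h ∈ S ↔ k * h * k⁻¹ ∈ S0 := by
  have : Fact (Nat.Prime 7) := ⟨by norm_num⟩
  have hf : Nat.card S = 7 ^ (Nat.card ↥M24).factorization 7 := by rw [cardM_fact, hS, pow_one]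
  have hf0 : Nat.card S0 = 7 ^ (Nat.card ↥M24).factorization 7 := by rw [cardM_fact, card_S0, pow_one]
  have : Finite ↥M24 := Subtype.finite
  obtain ⟨k, hk⟩ := MulAction.exists_smul_eq ↥M24 (Sylow.ofCard S hf) (Sylow.ofCard S0 hf0)
  refine ⟨k, fun h => ?_⟩
  have e := congrArg (fun P : Sylow 7 ↥M24 => (P : Subgroup ↥M24)) hk
  simp only [Sylow.coe_subgroup_smul, Sylow.coe_ofCard] at e
  rw [← e]
  have := Subgroup.smul_mem_pointwise_smul_iff (a := MulAut.conj k) (S := S) (x := h)
  rw [MulAut.smul_def, MulAut.conj_apply] at this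
  exact this.symm

theorem norm_iff {G : Type*} [Group G] {S S' : Subgroup G} {k : G} (h : ∀ x, x ∈ S ↔ k * x * k⁻¹ ∈ S') (n : G) :
    n ∈ Subgroup.normalizer (S : Set G) ↔ k * n * k⁻¹ ∈ Subgroup.normalizer (S' : Set G) := by
  simp only [Subgroup.mem_normalizer_iff]
  constructor
  · intro hn x
    have e1 := hn (k⁻¹ * x * k)
    rw [h, h] at e1
    have e2 : k * (k⁻¹ * x * k) * k⁻¹ = x := by group
    have e3 : k * (n * (k⁻¹ * x * k) * n⁻¹) * k⁻¹ = k * n * k⁻¹ * x * (k * n * k⁻¹)⁻¹ := by group
    rw [e2, e3] at e1
    exact e1
  · intro hn x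
    have e1 := hn (k * x * k⁻¹)
    rw [← h] at e1
    have e3 : k * n * k⁻¹ * (k * x * k⁻¹) * (k * n * k⁻¹)⁻¹ = k * (n * x * n⁻¹) * k⁻¹ := by group
    rw [e3, ← h] at e1
    exact e1

theorem cent_iff {G : Type*} [Group G] {S S' : Subgroup G} {k : G} (h : ∀ x, x ∈ S ↔ k * x * k⁻¹ ∈ S') (n : G) :
    n ∈ Subgroup.centralizer (S : Set G) ↔ k * n * k⁻¹ ∈ Subgroup.centralizer (S' : Set G) := by
  simp only [Subgroup.mem_centralizer_iff, SetLike.mem_coe]
  constructor
  · intro hn x hx
    have e1 := hn (k⁻¹ * x * k) ((h _).mpr (by
      have e2 : k * (k⁻¹ * x * k) * k⁻¹ = x := by group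
      rw [e2]; exact hx))
    have e4 : x = k * (k⁻¹ * x * k) * k⁻¹ := by group
    rw [e4]
    have e5 : k * (k⁻¹ * x * k) * k⁻¹ * (k * n * k⁻¹) = k * ((k⁻¹ * x * k) * n) * k⁻¹ := by group
    have e6 : k * n * k⁻¹ * (k * (k⁻¹ * x * k) * k⁻¹) = k * (n * (k⁻¹ * x * k)) * k⁻¹ := by group
    rw [e5, e6, e1]
  · intro hn x hx
    have e1 := hn (k * x * k⁻¹) ((h _).mp hx)
    have e5 : k * x * k⁻¹ * (k * n * k⁻¹) = k * (x * n) * k⁻¹ := by group
    have e6 : k * n * k⁻¹ * (k * x * k⁻¹) = k * (n * x) * k⁻¹ := by group
    rw [e5, e6] at e1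
    exact mul_left_cancel (mul_right_cancel e1)

theorem card_sub {G : Type*} [Group G] {A B : Subgroup G} {k : G} (h : ∀ x, x ∈ A ↔ k * x * k⁻¹ ∈ B) :
    Nat.card A = Nat.card B :=
  Nat.card_congr (Equiv.subtypeEquiv (MulAut.conj k).toEquiv (fun a => by
    simpa using h a))


/-- For a subgroup S of order 7 of the group of the length-24 code (a Sylow 7-subgroup): the normaliser of S has order 126, the centraliser of S has order 42 and is non-abelian, and the whole normaliser leaves some trio invariant. (These are the orders of a Frobenius group of order 21 times a symmetric group of degree 3; the isomorphism type itself is not asserted here.) -/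
theorem result (S : Subgroup ↥Cfsg.M24) (hS : Nat.card S = 7) : Nat.card ↥(Subgroup.normalizer (S : Set ↥Cfsg.M24)) = 126 ∧ Nat.card ↥(Subgroup.centralizer (S : Set ↥Cfsg.M24)) = 42 ∧ (∃ x ∈ Subgroup.centralizer (S : Set ↥Cfsg.M24), ∃ y ∈ Subgroup.centralizer (S : Set ↥Cfsg.M24), x * y ≠ y * x) ∧ ∃ T ∈ Cfsg.trios, ∀ n ∈ Subgroup.normalizer (S : Set ↥Cfsg.M24), ((n : ↥Cfsg.M24) : Equiv.Perm Cfsg.GolayPt) • T = T := by
  obtain ⟨k, hk⟩ := exists_conj S hS
  refine ⟨?_, ?_, ?_, ?_⟩
  · rw [card_sub (norm_iff hk), card_norm]
  · rw [card_sub (cent_iff hk), card_cent]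
  · obtain ⟨a, ha, b, hb, hab⟩ := noncomm
    refine ⟨k⁻¹ * a * k, ?_, k⁻¹ * b * k, ?_, ?_⟩
    · rw [cent_iff hk]
      have e : k * (k⁻¹ * a * k) * k⁻¹ = a := by group
      rw [e]
      exact ha
    · rw [cent_iff hk]
      have e : k * (k⁻¹ * b * k) * k⁻¹ = b := by group
      rw [e]
      exact hb
    · intro h
      apply hab
      have e1 : a * b = k * ((k⁻¹ * a * k) * (k⁻¹ * b * k)) * k⁻¹ := by group
      have e2 : b * a = k * ((k⁻¹ * b * k) * (k⁻¹ * a * k)) * k⁻¹ := by group
      rw [e1, e2, h]
  · refine ⟨(k⁻¹ : ↥M24).1 • decT t0, smul_mem_trios (k⁻¹ : ↥M24).2 (decT_mem t0_lt), ?_⟩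
    intro n hn
    have h1 := tri_fix ((norm_iff hk n).mp hn)
    have e : (n : Equiv.Perm GolayPt) • (k⁻¹ : ↥M24).1 • decT t0 = ((k⁻¹ : ↥M24) * (k * n * k⁻¹)).1 • decT t0 := by
      rw [← mul_smul]
      have e2 : (k⁻¹ * (k * n * k⁻¹)) = n * k⁻¹ := by group
      rw [e2]
      rfl
    rw [e]
    rw [Subgroup.coe_mul, mul_smul, h1]

end Cfsg.Agent.S5604
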