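import Cfsg.Statements.S5608
import Cfsg.Agent.Lib.M24Data.Counts

set_option autoImplicit false
open scoped Pointwise
open Cfsg

namespace Cfsg.Agent.S5608

open Cfsg.Agent.Lib.Golay.Core Cfsg.Agent.Lib.Golay.Perm Cfsg.Agent.Lib.Golay.M24
  Cfsg.Agent.Lib.M24Data.Tree Cfsg.Agent.Lib.M24Data.Classes Cfsg.Agent.Lib.M24Data.Counts

theorem pack_congr {f f' : ℕ → ℕ} {k : ℕ} (h : ∀ i < k, f i = f' i) : pack f k = pack f' k := by
  induction k with
  | zero => rfl
  | succ k ih =>
    rw [pack_succ, pack_succ, ih (fun i hi => h i (Nat.lt_succ_of_lt hi)), h k (Nat.lt_succ_self k)]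

theorem comp_eq_of_mul_eq {P Q R S : ℕ} (hP : validPerm P = true) (hQ : validPerm Q = true)
    (hR : validPerm R = true) (hS : validPerm S = true) (h : g P * g Q = g R * g S) :
    comp P Q = comp R S := by
  apply pack_congr
  intro i hi
  have h1 := congrArg (fun f : Equiv.Perm GolayPt => f (pt i)) h
  simp only [Equiv.Perm.mul_apply] at h1
  rw [g_pt hQ hi, g_pt hS hi, g_pt hP (valid_img_lt hQ hi), g_pt hR (valid_img_lt hS hi)] at h1
  exact pt_injOn (valid_img_lt hP (valid_img_lt hQ hi)) (valid_img_lt hR (valid_img_lt hS hi)) h1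

/-- Inner test. -/
def leafIn (Q R : ℕ) : Bool :=
  !(cube R) || Nat.beq (fixC R) 24 || !(Nat.beq (comp Q R) (comp R Q))

/-- Outer test. -/
def leafOut (Q : ℕ) : Bool :=
  !(square Q && Nat.beq (fixC Q) 0) || treeAux (leafIn Q) (fun _ _ => false) lv5 [3, 2, 1, 0, 23] idP

theorem run_comm : treeAux leafOut (fun _ _ => false) lv4 [2, 1, 0, 23] P2B = true := by
  decide +kernel

theorem no_3A_2B {x s : Equiv.Perm GolayPt} (hx : x ∈ M24) (hs : s ∈ M24) (h3 : x ^ 3 = 1) (hne : x ≠ 1)
    (h2 : s ^ 2 = 1) (hc : Commute x s) (hx6 : (Finset.univ.filter fun p => x p = p).card = 6)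
    (hs0 : (Finset.univ.filter fun p => s p = p).card = 0) : False := by
  have hnf : ∀ p, s p ≠ p := by
    intro p hp
    have : p ∈ Finset.univ.filter fun p => s p = p := by simp [hp]
    rw [Finset.card_eq_zero.mp hs0] at this
    simp at this
  have h22 : ∀ p, s (s p) = p := by
    intro p
    have := congrArg (fun f : Equiv.Perm GolayPt => f p) h2
    simpa [pow_succ, Equiv.Perm.mul_apply] using this
  set F := Finset.univ.filter fun p => x p = p with hF
  have hFs : ∀ p ∈ F, s p ∈ F := by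
    intro p hp
    have hp' : x p = p := (Finset.mem_filter.mp hp).2
    have h4 := congrArg (fun f : Equiv.Perm GolayPt => f p) hc.eq
    simp only [Equiv.Perm.mul_apply, hp'] at h4
    exact Finset.mem_filter.mpr ⟨Finset.mem_univ _, h4⟩
  have hx1 : ∀ p ∈ F, x p = p := fun p hp => (Finset.mem_filter.mp hp).2
  obtain ⟨a, ha⟩ : F.Nonempty := by
    rw [← Finset.card_pos, hx6]
    norm_num
  obtain ⟨c, hc1, hc2⟩ := Finset.exists_mem_notMem_of_card_lt_card (s := {a, s a}) (t := F)
    (by rw [hx6]; exact lt_of_le_of_lt Finset.card_le_two (by norm_num))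
  simp only [Finset.mem_insert, Finset.mem_singleton, not_or] at hc2
  obtain ⟨hca, hcb⟩ := hc2
  obtain ⟨e, he1, he2⟩ := Finset.exists_mem_notMem_of_card_lt_card (s := {a, s a, c, s c}) (t := F)
    (by rw [hx6]; exact lt_of_le_of_lt Finset.card_le_four (by norm_num))
  simp only [Finset.mem_insert, Finset.mem_singleton, not_or] at he2
  obtain ⟨hea, heb, hec, hed⟩ := he2
  have h1' : a ≠ s a := fun h => hnf a h.symm
  have h3' : s c ≠ a := fun h => hcb (by rw [← h, h22])
  have h4' : s c ≠ s a := fun h => hca (s.injective h)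
  obtain ⟨τ, hτ, t0, t1, t2, t3, t4⟩ := exists_tau5 h1' (Ne.symm hca) (Ne.symm h3') (Ne.symm hea)
    (Ne.symm hcb) (Ne.symm h4') (Ne.symm heb) (Ne.symm (hnf c)) (Ne.symm hec) (Ne.symm hed)
  have hs' : τ * s * τ⁻¹ ∈ M24 := M24.mul_mem (M24.mul_mem hτ hs) (M24.inv_mem hτ)
  have hx' : τ * x * τ⁻¹ ∈ M24 := M24.mul_mem (M24.mul_mem hτ hx) (M24.inv_mem hτ)
  obtain ⟨e0, e1, e2, e3⟩ := img_P2B
  obtain ⟨Q, hQ, hleaf, hQe⟩ := tree4 (good_of_check reps_ok.2.2.2.2.2.2.1) run_comm hs'
    (by rw [conj_apply t0, e0, t1]) (by rw [conj_apply t1, e1, h22, t0])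
    (by rw [conj_apply t2, e2, t3]) (by rw [conj_apply t3, e3, h22, t2])
  have hsquare : square Q = true := by
    apply square_of_pow hQ.1
    rw [← hQe, conj_pow, h2]
    group
  have hb0 : Nat.beq (fixC Q) 0 = true := by
    rw [fixC_eq hQ.1, ← hQe, card_fix_conj, hs0]
    rfl
  simp only [leafOut, hsquare, hb0, Bool.and_self, Bool.not_true, Bool.false_or] at hleaf
  obtain ⟨R, hR, hleaf2, hRe⟩ := tree5 hleaf hx'
    (by rw [conj_apply t0, hx1 _ ha, t0]) (by rw [conj_apply t1, hx1 _ (hFs _ ha), t1])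
    (by rw [conj_apply t2, hx1 _ hc1, t2]) (by rw [conj_apply t3, hx1 _ (hFs _ hc1), t3])
    (by rw [conj_apply t4, hx1 _ he1, t4])
  have hcube : cube R = true := by
    apply cube_of_pow hR.1
    rw [← hRe, conj_pow, h3]
    group
  have hb24 : Nat.beq (fixC R) 24 = false := by
    cases h : Nat.beq (fixC R) 24 with
    | false => rfl
    | true =>
      exfalso
      have h5 := Nat.eq_of_beq_eq_true h
      rw [fixC_eq hR.1, ← hRe, card_fix_conj] at h5
      exact hne (eq_one_of_card h5)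
  have hcomm : g Q * g R = g R * g Q := by
    rw [← hQe, ← hRe]
    have e : τ * s * τ⁻¹ * (τ * x * τ⁻¹) = τ * (s * x) * τ⁻¹ := by group
    have e' : τ * x * τ⁻¹ * (τ * s * τ⁻¹) = τ * (x * s) * τ⁻¹ := by group
    rw [e, e', hc.eq]
  have hcc := comp_eq_of_mul_eq hQ.1 hR.1 hR.1 hQ.1 hcomm
  simp [leafIn, hcube, hb24, hcc] at hleaf2

theorem no_3B_2A {x s : Equiv.Perm GolayPt} (h3 : x ^ 3 = 1) (hc : Commute x s)
    (hx0 : (Finset.univ.filter fun p => x p = p).card = 0)
    (hs8 : (Finset.univ.filter fun p => s p = p).card = 8) : False := by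
  have hnf : ∀ p, x p ≠ p := by
    intro p hp
    have : p ∈ Finset.univ.filter fun p => x p = p := by simp [hp]
    rw [Finset.card_eq_zero.mp hx0] at this
    simp at this
  set E := Finset.univ.filter fun p => s p = p with hE
  have hxE : ∀ p, p ∈ E → x p ∈ E := by
    intro p hp
    have hp' : s p = p := (Finset.mem_filter.mp hp).2
    have h4 := congrArg (fun f : Equiv.Perm GolayPt => f p) hc.eq
    simp only [Equiv.Perm.mul_apply, hp'] at h4
    exact Finset.mem_filter.mpr ⟨Finset.mem_univ _, h4.symm⟩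
  have h33 : ∀ p, x (x (x p)) = p := by
    intro p
    have := congrArg (fun f : Equiv.Perm GolayPt => f p) h3
    simpa [pow_succ, Equiv.Perm.mul_apply] using this
  have hiff : ∀ p, x p ∈ E ↔ p ∈ E := by
    intro p
    refine ⟨fun h => ?_, hxE p⟩
    have := hxE _ (hxE _ h)
    rwa [h33] at this
  let y : Equiv.Perm {p // p ∈ E} := x.subtypePerm (fun p => hiff p)
  have hy3 : y ^ 3 ^ 1 = 1 := by
    apply Equiv.ext
    rintro ⟨p, hp⟩
    apply Subtype.ext
    simp only [pow_succ, pow_zero, one_mul, Equiv.Perm.mul_apply, Equiv.Perm.one_apply]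
    exact h33 p
  have hp3 : Fact (Nat.Prime 3) := ⟨by norm_num⟩
  have hm := Equiv.Perm.card_compl_support_modEq hy3
  have hsup : y.supportᶜ = ∅ := by
    ext p
    simp only [Finset.mem_compl, Equiv.Perm.mem_support, not_not, Finset.notMem_empty, iff_false]
    intro h
    exact hnf p.1 (congrArg Subtype.val h)
  rw [hsup, Finset.card_empty, Fintype.card_coe, hs8] at hm
  exact absurd hm (by decide)

/-- If an element of order 3 and an involution of the group of the length-24 code commute, then either the element of order 3 has exactly 6 fixed points and the involution exactly 8, or both are fixed-point-free. -/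
theorem result (x s : Equiv.Perm Cfsg.GolayPt) (hx : x ∈ Cfsg.M24) (hs : s ∈ Cfsg.M24) (h₃ : orderOf x = 3) (h₂ : orderOf s = 2) (hc : Commute x s) : ((Finset.univ.filter fun p => x p = p).card = 6 ∧ (Finset.univ.filter fun p => s p = p).card = 8) ∨ ((Finset.univ.filter fun p => x p = p).card = 0 ∧ (Finset.univ.filter fun p => s p = p).card = 0) := by
  have hx3 : x ^ 3 = 1 := by rw [← h₃]; exact pow_orderOf_eq_one x
  have hs2 : s ^ 2 = 1 := by rw [← h₂]; exact pow_orderOf_eq_one s
  have hxne := ne_one_of_order (by norm_num) h₃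
  have hsne := ne_one_of_order (by norm_num) h₂
  rcases class3 hx hx3 hxne with ⟨h1, -⟩ | ⟨h1, -⟩ <;> rcases class2 hs hs2 hsne with ⟨h2, -⟩ | ⟨h2, -⟩
  · exact Or.inl ⟨h1, h2⟩
  · exact (no_3A_2B hx hs hx3 hxne hs2 hc h1 h2).elim
  · exact (no_3B_2A hx3 hc h1 h2).elim
  · exact Or.inr ⟨h1, h2⟩

end Cfsg.Agent.S5608
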