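import Cfsg.Statements.S5609
import Cfsg.Agent.Lib.M24Data.OctadPairs

set_option autoImplicit false
open scoped Pointwise
open Cfsg

namespace Cfsg.Agent.S5609

open Cfsg.Agent.Lib.Golay.Core Cfsg.Agent.Lib.Golay.Perm Cfsg.Agent.Lib.Golay.Chain
  Cfsg.Agent.Lib.Golay.M24 Cfsg.Agent.Lib.Golay.Basic Cfsg.Agent.Lib.M24Data.OctadPairs

theorem adj_iff {o o' : octads} :
    (Cfsg.blockGraph Cfsg.octads).Adj o o' ↔ (o : Finset GolayPt) ≠ o' ∧ Disjoint (o : Finset GolayPt) o' := by
  rw [Cfsg.blockGraph, SimpleGraph.fromRel_adj]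
  constructor
  · rintro ⟨h1, h2⟩
    refine ⟨fun h => h1 (Subtype.ext h), ?_⟩
    rcases h2 with h2 | h2
    · exact h2
    · exact h2.symm
  · rintro ⟨h1, h2⟩
    exact ⟨fun h => h1 (congrArg _ h), Or.inl h2⟩

theorem disjoint_iff_card {o o' : Finset GolayPt} : Disjoint o o' ↔ (o ∩ o').card = 0 := by
  rw [Finset.disjoint_iff_inter_eq_empty, Finset.card_eq_zero]

theorem ne_of_disjoint {o o' : Finset GolayPt} (ho : o ∈ octads) (h : Disjoint o o') : o ≠ o' := by
  rintro rfl
  have h2 : o = ∅ := by simpa using h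
  have := ho.2
  rw [h2] at this
  simp at this

/-- Walks of length two. -/
theorem walk_two {o o' : octads} (p : (Cfsg.blockGraph Cfsg.octads).Walk o o') (hp : p.length = 2) :
    ∃ x : octads, (Cfsg.blockGraph Cfsg.octads).Adj o x ∧ (Cfsg.blockGraph Cfsg.octads).Adj x o' := by
  cases p with
  | nil => simp at hp
  | cons h q =>
    cases q with
    | nil => simp at hp
    | cons h2 r =>
      cases r with
      | nil => exact ⟨_, h, h2⟩
      | cons h3 s =>
        simp only [SimpleGraph.Walk.length_cons] at hp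
        omega

theorem adj_of_disjoint {o o' : Finset GolayPt} (ho : o ∈ octads) (ho' : o' ∈ octads) (h : Disjoint o o') :
    (Cfsg.blockGraph Cfsg.octads).Adj ⟨o, ho⟩ ⟨o', ho'⟩ :=
  adj_iff.mpr ⟨ne_of_disjoint ho h, h⟩

/-- Distinct octads are at distance at most three. -/
theorem exists_walk (o o' : octads) (hne : (o : Finset GolayPt) ≠ o') :
    (Cfsg.blockGraph Cfsg.octads).Reachable o o' := by
  obtain ⟨o, ho⟩ := o
  obtain ⟨o', ho'⟩ := o'
  rcases pair_cases ho ho' hne with h | ⟨_, x, hx, h1, h2⟩ | ⟨_, _, a, ha, b, hb, h1, h2, h3⟩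
  · exact (adj_of_disjoint ho ho' (disjoint_iff_card.mpr h)).reachable
  · exact (adj_of_disjoint ho hx h1).reachable.trans (adj_of_disjoint hx ho' h2.symm).reachable
  · exact ((adj_of_disjoint ho ha h1).reachable.trans (adj_of_disjoint ha hb h2).reachable).trans
      (adj_of_disjoint hb ho' h3).reachable

theorem connected : (Cfsg.blockGraph Cfsg.octads).Connected := by
  have : Nonempty octads := ⟨⟨_, O0_mem⟩⟩
  refine ⟨?_⟩
  intro o o'
  by_cases h : (o : Finset GolayPt) = o'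
  · rw [Subtype.ext h]
  · exact exists_walk o o' h

/-- In the graph on the 759 octads of the length-24 code in which two octads are adjacent when they are disjoint, the graph is connected (of diameter 3) and two distinct octads are at distance 1, 2 or 3 exactly when they meet in 0, 4 or 2 points respectively. -/
theorem result (o o' : Finset Cfsg.GolayPt) (ho : o ∈ Cfsg.octads) (ho' : o' ∈ Cfsg.octads) (hne : o ≠ o') : (Cfsg.blockGraph Cfsg.octads).Connected ∧ ((Cfsg.blockGraph Cfsg.octads).dist ⟨o, ho⟩ ⟨o', ho'⟩ = 1 ↔ (o ∩ o').card = 0) ∧ ((Cfsg.blockGraph Cfsg.octads).dist ⟨o, ho⟩ ⟨o', ho'⟩ = 2 ↔ (o ∩ o').card = 4) ∧ ((Cfsg.blockGraph Cfsg.octads).dist ⟨o, ho⟩ ⟨o', ho'⟩ = 3 ↔ (o ∩ o').card = 2) := by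
  have hne' : (⟨o, ho⟩ : octads) ≠ ⟨o', ho'⟩ := fun h => hne (congrArg Subtype.val h)
  have hC := connected
  set G := Cfsg.blockGraph Cfsg.octads with hG
  have hpos : 0 < G.dist ⟨o, ho⟩ ⟨o', ho'⟩ := hC.pos_dist_of_ne hne'
  have h1 : G.dist ⟨o, ho⟩ ⟨o', ho'⟩ = 1 ↔ (o ∩ o').card = 0 := by
    rw [SimpleGraph.dist_eq_one_iff_adj, hG, adj_iff]
    constructor
    · rintro ⟨-, h⟩
      exact disjoint_iff_card.mp h
    · intro h
      exact ⟨hne, disjoint_iff_card.mpr h⟩
  have hle2 : ∀ x ∈ octads, Disjoint o x → Disjoint o' x → G.dist ⟨o, ho⟩ ⟨o', ho'⟩ ≤ 2 := by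
    intro x hx h3 h4
    have a1 := adj_of_disjoint ho hx h3
    have a2 := adj_of_disjoint hx ho' h4.symm
    exact (SimpleGraph.dist_le (a1.toWalk.append a2.toWalk)).trans (by simp)
  have hlow : (∀ x ∈ octads, ¬ (Disjoint o x ∧ Disjoint o' x)) → (o ∩ o').card ≠ 0 → 3 ≤ G.dist ⟨o, ho⟩ ⟨o', ho'⟩ := by
    intro hx h0
    by_contra hc
    have hd : G.dist ⟨o, ho⟩ ⟨o', ho'⟩ = 1 ∨ G.dist ⟨o, ho⟩ ⟨o', ho'⟩ = 2 := by omega
    rcases hd with hd | hd
    · exact h0 (h1.mp hd)
    · obtain ⟨p, hp⟩ := hC.exists_walk_length_eq_dist (⟨o, ho⟩ : octads) ⟨o', ho'⟩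
      rw [hd] at hp
      obtain ⟨x, a1, a2⟩ := walk_two p hp
      have a3 := (adj_iff.mp a1).2
      have a4 := (adj_iff.mp a2).2
      exact hx x.1 x.2 ⟨a3, a4.symm⟩
  have hcases := pair_cases ho ho' hne
  refine ⟨hC, h1, ?_, ?_⟩
  · rcases hcases with h | ⟨h, x, hx, h3, h4⟩ | ⟨h, hx, a, ha, b, hb, h3, h4, h5⟩
    · rw [h]
      have := h1.mpr h
      rw [this]
      norm_num
    · rw [h]
      have hd := hle2 x hx h3 h4
      have hd1 : G.dist ⟨o, ho⟩ ⟨o', ho'⟩ ≠ 1 := fun h6 => by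
        have := h1.mp h6
        omega
      simp only [iff_true]
      omega
    · rw [h]
      have := hlow hx (by omega)
      constructor
      · intro h6
        omega
      · intro h6
        omega
  · rcases hcases with h | ⟨h, x, hx, h3, h4⟩ | ⟨h, hx, a, ha, b, hb, h3, h4, h5⟩
    · rw [h]
      have := h1.mpr h
      rw [this]
      norm_num
    · rw [h]
      have hd := hle2 x hx h3 h4
      constructor
      · intro h6
        omega
      · intro h6
        omega
    · rw [h]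
      have h6 := hlow hx (by omega)
      have a1 := adj_of_disjoint ho ha h3
      have a2 := adj_of_disjoint ha hb h4
      have a3 := adj_of_disjoint hb ho' h5
      have h7 : G.dist ⟨o, ho⟩ ⟨o', ho'⟩ ≤ 3 :=
        (SimpleGraph.dist_le (a1.toWalk.append (a2.toWalk.append a3.toWalk))).trans (by simp)
      simp only [iff_true]
      omega

end Cfsg.Agent.S5609
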