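import Cfsg.Statements.S5613
import Cfsg.Agent.Lib.M24Orb.OctadOrbits
import Cfsg.Agent.Lib.M24Orb.OctadStab

set_option autoImplicit false
open scoped Pointwise
open Cfsg

namespace Cfsg.Agent.S5613

open Cfsg.Agent.Lib.M24Orb.OctadOrbits Cfsg.Agent.Lib.M24Orb.OctadStab
open Cfsg.Agent.Lib.Golay.Perm Cfsg.Agent.Lib.M24Orb.OctadTables

theorem orbit_eq {o o' : Finset Cfsg.GolayPt} (ho : o ∈ Cfsg.octads) (ho' : o' ∈ Cfsg.octads) :
    MulAction.orbit ↥(MulAction.stabilizer Cfsg.M24 o) o' =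
      {s : Finset Cfsg.GolayPt | s ∈ Cfsg.octads ∧ (o ∩ s).card = (o ∩ o').card} := by
  ext s
  constructor
  · rintro ⟨⟨⟨σ, hσ⟩, hs⟩, rfl⟩
    have hs' : σ • o = o := hs
    refine ⟨smul_mem_octads hσ ho', ?_⟩
    show (o ∩ σ • o').card = _
    conv_lhs => rw [← hs']
    rw [← Finset.smul_finset_inter, Finset.card_smul_finset]
  · rintro ⟨h1, h2⟩
    obtain ⟨σ, hσ, h3, h4⟩ := octad_conj ho ho' h1 h2.symm
    exact ⟨⟨⟨σ, hσ⟩, h3⟩, h4⟩

theorem key {o o' : Finset Cfsg.GolayPt} (ho : o ∈ Cfsg.octads) (ho' : o' ∈ Cfsg.octads) :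
    Nat.card ↥(MulAction.stabilizer Cfsg.M24 o ⊓ MulAction.stabilizer Cfsg.M24 o') *
      Cfsg.Agent.Lib.Golay.Core.countUpTo (fun m => pred (o ∩ o').card (Cfsg.Agent.Lib.Golay.Core.code m)) 4096 = 322560 := by
  have h1 := Subgroup.card_mul_index (MulAction.stabilizer ↥(MulAction.stabilizer Cfsg.M24 o) o')
  rw [MulAction.index_stabilizer, orbit_eq ho ho', ncard_octads_meet ho, card_stab_eq, card_StabO ho] at h1
  rw [← h1]
  congr 1
  symm
  apply Nat.card_congr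
  exact ⟨fun x => ⟨x.1.1, x.1.2, x.2⟩, fun x => ⟨⟨x.1, x.2.1⟩, x.2.2⟩, fun _ => rfl, fun _ => rfl⟩


/-- In the group of the length-24 code, the joint stabiliser of two octads has order 10752, 1152 or 720 according as the octads meet in 0, 4 or 2 points. -/
theorem result (o o' : Finset Cfsg.GolayPt) (ho : o ∈ Cfsg.octads) (ho' : o' ∈ Cfsg.octads) : ((o ∩ o').card = 0 → Nat.card ↥(MulAction.stabilizer Cfsg.M24 o ⊓ MulAction.stabilizer Cfsg.M24 o') = 10752) ∧ ((o ∩ o').card = 4 → Nat.card ↥(MulAction.stabilizer Cfsg.M24 o ⊓ MulAction.stabilizer Cfsg.M24 o') = 1152) ∧ ((o ∩ o').card = 2 → Nat.card ↥(MulAction.stabilizer Cfsg.M24 o ⊓ MulAction.stabilizer Cfsg.M24 o') = 720) := by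
  refine ⟨fun h => ?_, fun h => ?_, fun h => ?_⟩
  · have h2 := key ho ho'
    rw [h, count0] at h2
    omega
  · have h2 := key ho ho'
    rw [h, count4] at h2
    omega
  · have h2 := key ho ho'
    rw [h, count2] at h2
    omega

end Cfsg.Agent.S5613
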