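import Cfsg.Statements.S5614
import Cfsg.Agent.S5613
import Cfsg.Agent.Lib.M24Data.Restrict
import Cfsg.Agent.Lib.M24Data.Tree

set_option autoImplicit false
open scoped Pointwise
open Cfsg

namespace Cfsg.Agent.S5614

open Cfsg.Agent.Lib.Golay.Core Cfsg.Agent.Lib.Golay.Perm Cfsg.Agent.Lib.Golay.M24
  Cfsg.Agent.Lib.Golay.Basic Cfsg.Agent.Lib.M24Data.Tree Cfsg.Agent.Lib.M24Data.Restrict
  Cfsg.Agent.Lib.M24Orb.OctadOrbits

/-- An octad meeting the base octad in two points. -/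
def b2 : ℕ := 2019456

theorem b2_mem : Cfsg.Agent.Lib.Golay.Core.setOf b2 ∈ Cfsg.octads :=
  (setOf_mem_octads_iff (by decide +kernel)).mpr ⟨by decide +kernel, by decide +kernel⟩

def leafB (Q : ℕ) : Bool :=
  !(Nat.beq (mapMask Q b2) b2) || allUpTo (fun i => Nat.beq (img Q i) i) 24

theorem runB : treeAux leafB (fun _ _ => false) [(4, T6)] [5, 3, 2, 1, 0, 23] idP = true := by
  decide +kernel

theorem idP_img : ∀ i < 24, img idP i = i := by decide +kernel

theorem base {σ : Equiv.Perm Cfsg.GolayPt} (hσ : σ ∈ Cfsg.M24)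
    (h1 : σ • Cfsg.Agent.Lib.Golay.Core.setOf b2 = Cfsg.Agent.Lib.Golay.Core.setOf b2)
    (h2 : ∀ x ∈ [5, 3, 2, 1, 0, 23], σ (pt x) = pt x) : σ = 1 := by
  obtain ⟨Q, hQ, hleaf, rfl⟩ := treeAux_sound (Φ := fun σ => σ • Cfsg.Agent.Lib.Golay.Core.setOf b2 = Cfsg.Agent.Lib.Golay.Core.setOf b2)
    (prune := fun _ _ => false) (fun _ _ _ _ _ _ => rfl) [(4, T6)] _ levels6 idP good_idP runB σ hσ h1
    (fun x hx => by
      rw [h2 x hx, idP_img x]
      simp only [List.mem_cons, List.not_mem_nil, or_false] at hx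
      rcases hx with rfl | rfl | rfl | rfl | rfl | rfl <;> norm_num)
    (by
      intro x hx
      simp only [List.mem_cons, List.not_mem_nil, or_false] at hx
      rcases hx with rfl | rfl | rfl | rfl | rfl | rfl <;> norm_num)
  rw [smul_setOf hQ.1] at h1
  have h3 := eq_of_setOf_eq (mapMask_lt hQ.1 _) (by decide +kernel) h1
  simp only [leafB, h3, Nat.beq_refl, Bool.not_true, Bool.false_or] at hleaf
  have h4 := allUpTo_iff.mp hleaf
  ext1 p
  rw [g_apply hQ.1, Nat.eq_of_beq_eq_true (h4 _ (idx_lt p)), pt_idx]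
  rfl

theorem pts_mem : ∀ x ∈ [5, 3, 2, 1, 0, 23], pt x ∈ Cfsg.Agent.Lib.Golay.Core.setOf O0 ∧ pt x ∉ Cfsg.Agent.Lib.Golay.Core.setOf b2 := by
  intro x hx
  have h24 : x < 24 := by
    simp only [List.mem_cons, List.not_mem_nil, or_false] at hx
    rcases hx with rfl | rfl | rfl | rfl | rfl | rfl <;> norm_num
  rw [mem_setOf, mem_setOf, idx_pt h24]
  have key : ∀ y ∈ [5, 3, 2, 1, 0, 23], Nat.testBit O0 y = true ∧ ¬ Nat.testBit b2 y = true := by decide +kernel
  exact key x hx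

theorem inter_card : (Cfsg.Agent.Lib.Golay.Core.setOf O0 ∩ Cfsg.Agent.Lib.Golay.Core.setOf b2).card = 2 := by
  rw [← setOf_inter, card_setOf]
  decide +kernel


/-- In the group of the length-24 code, the joint stabiliser of two octads meeting in exactly two points is isomorphic to the symmetric group of degree 6. -/
theorem result (o o' : Finset Cfsg.GolayPt) (ho : o ∈ Cfsg.octads) (ho' : o' ∈ Cfsg.octads) (h₂ : (o ∩ o').card = 2) : Nonempty (↥(MulAction.stabilizer Cfsg.M24 o ⊓ MulAction.stabilizer Cfsg.M24 o') ≃* Equiv.Perm (Fin 6)) := by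
  -- bring the pair to the base pair
  obtain ⟨ρ, hρ, rfl⟩ := exists_smul_O0 ho
  have hi := Cfsg.M24.inv_mem hρ
  have ho'' : ρ⁻¹ • o' ∈ Cfsg.octads := smul_mem_octads hi ho'
  have hk : (Cfsg.Agent.Lib.Golay.Core.setOf O0 ∩ Cfsg.Agent.Lib.Golay.Core.setOf b2).card =
      (Cfsg.Agent.Lib.Golay.Core.setOf O0 ∩ ρ⁻¹ • o').card := by
    have e0 : ρ • Cfsg.Agent.Lib.Golay.Core.setOf O0 ∩ o' = ρ • (Cfsg.Agent.Lib.Golay.Core.setOf O0 ∩ ρ⁻¹ • o') := by
      rw [Finset.smul_finset_inter, smul_inv_smul]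
    rw [inter_card, ← h₂, e0, Finset.card_smul_finset]
  obtain ⟨σ, hσ, h1, h2⟩ := octad_conj O0_mem b2_mem ho'' hk
  set τ := ρ * σ with hτ
  have hτM : τ ∈ Cfsg.M24 := Cfsg.M24.mul_mem hρ hσ
  have e1 : τ • Cfsg.Agent.Lib.Golay.Core.setOf O0 = ρ • Cfsg.Agent.Lib.Golay.Core.setOf O0 := by
    rw [hτ, mul_smul, h1]
  have e2 : τ • Cfsg.Agent.Lib.Golay.Core.setOf b2 = o' := by
    rw [hτ, mul_smul, h2, smul_inv_smul]
  rw [← e1] at h₂ ho ⊢
  rw [← e2] at h₂ ho' ⊢
  -- the restriction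
  set o₁ := τ • Cfsg.Agent.Lib.Golay.Core.setOf O0 with ho₁
  set o₂ := τ • Cfsg.Agent.Lib.Golay.Core.setOf b2 with ho₂
  set H := MulAction.stabilizer Cfsg.M24 o₁ ⊓ MulAction.stabilizer Cfsg.M24 o₂ with hH
  have hcardH : Nat.card H = 720 := (Cfsg.Agent.S5613.result o₁ o₂ ho ho').2.2 h₂
  let C : Set Cfsg.GolayPt := ((o₁ \ o₂ : Finset Cfsg.GolayPt) : Set Cfsg.GolayPt)
  have hinv : ∀ h ∈ H, ∀ x ∈ C, h • x ∈ C := by
    rintro h ⟨ha, hb⟩ x hx
    have ha' : h.1 • o₁ = o₁ := ha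
    have hb' : h.1 • o₂ = o₂ := hb
    have hx' := Finset.mem_sdiff.mp (Finset.mem_coe.mp hx)
    apply Finset.mem_coe.mpr
    apply Finset.mem_sdiff.mpr
    have hs : ∀ s : Finset Cfsg.GolayPt, h • x ∈ h.1 • s ↔ x ∈ s := fun s =>
      Finset.smul_mem_smul_finset_iff h.1
    refine ⟨?_, fun h5 => hx'.2 ((hs o₂).mp ?_)⟩
    · have h6 := (hs o₁).mpr hx'.1
      rwa [ha'] at h6
    · rw [hb']
      exact h5
  have hcardC : Nat.card C = 6 := by
    have h6 : (o₁ \ o₂).card = 6 := by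
      have h8 := ho.2
      have := Finset.card_sdiff_add_card_inter o₁ o₂
      omega
    show Nat.card ↥((o₁ \ o₂ : Finset Cfsg.GolayPt) : Set Cfsg.GolayPt) = 6
    rw [Nat.card_coe_set_eq, Set.ncard_coe_finset, h6]
  have e : C ≃ Fin 6 := Finite.equivFinOfCardEq hcardC
  apply nonempty_equiv_perm_fin H C hinv e
  have hinj : Function.Injective (restrH H C hinv) := by
    rw [injective_iff_map_eq_one]
    intro h hh
    -- conjugate into the base
    have hfix : ∀ x ∈ C, h.1.1 x = x := by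
      intro x hx
      have := congrArg (fun f : Equiv.Perm C => ((f ⟨x, hx⟩ : C) : Cfsg.GolayPt)) hh
      exact this
    have hb : h.1.1 • o₂ = o₂ := h.2.2
    have hone : τ⁻¹ * h.1.1 * τ = 1 := by
      apply base (Cfsg.M24.mul_mem (Cfsg.M24.mul_mem (Cfsg.M24.inv_mem hτM) h.1.2) hτM)
      · rw [mul_smul, mul_smul, ← ho₂, hb, inv_smul_smul]
      · intro x hx
        obtain ⟨h3, h4⟩ := pts_mem x hx
        have h5 : τ (pt x) ∈ C := by
          apply Finset.mem_coe.mpr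
          apply Finset.mem_sdiff.mpr
          constructor
          · exact Finset.smul_mem_smul_finset h3
          · intro h6
            exact h4 ((Finset.smul_mem_smul_finset_iff τ).mp h6)
        simp only [Equiv.Perm.mul_apply]
        rw [hfix _ h5]
        simp
    apply Subtype.ext
    apply Subtype.ext
    have h7 : h.1.1 = τ * (τ⁻¹ * h.1.1 * τ) * τ⁻¹ := by group
    rw [h7, hone]
    simp
  apply Function.Injective.bijective_of_nat_card_le hinj
  rw [hcardH, Nat.card_perm, hcardC]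
  decide

end Cfsg.Agent.S5614
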