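import Cfsg.Statements.S5618
import Cfsg.Agent.Lib.M24Data.Restrict
import Cfsg.Agent.Lib.Golay.Dodecad

set_option autoImplicit false
open scoped Pointwise
open Cfsg

namespace Cfsg.Agent.S5618

open Cfsg.Agent.Lib.Golay.Core Cfsg.Agent.Lib.Golay.Perm Cfsg.Agent.Lib.Golay.Chain
  Cfsg.Agent.Lib.Golay.M24 Cfsg.Agent.Lib.Golay.Basic Cfsg.Agent.Lib.Golay.Stab
  Cfsg.Agent.Lib.Golay.Dodecad Cfsg.Agent.Lib.M24Data.Restrict

/-- An element of the stabiliser of a dodecad fixing five of its points is trivial. -/
theorem eq_one_of_fix_five {d : Finset GolayPt} (hd : d ∈ dodecads)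
    (g : MulAction.stabilizer M24 d) (s : Finset GolayPt) (hs : s ⊆ d) (h5 : 5 ≤ s.card)
    (hg : ∀ p ∈ s, ((g : M24) : Equiv.Perm GolayPt) p = p) : g = 1 := by
  obtain ⟨x, hx⟩ := exists_embedding h5
  obtain ⟨k, -, hk⟩ := sharply_five hd x x (fun i => hs (hx i)) (fun i => hs (hx i))
  rw [hk g (fun i => hg _ (hx i)), hk 1 (fun i => rfl)]

theorem inf_mem_stab {d C : Finset GolayPt} {g : M24}
    (hg : g ∈ MulAction.stabilizer M24 d ⊓ MulAction.stabilizer M24 C) :
    g ∈ MulAction.stabilizer M24 d := hg.1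

/-- For a dodecad d of the length-24 code and a hexad C on it (a 6-point intersection of d with an octad): the joint stabiliser of d and C in the code's group is isomorphic to the symmetric group of degree 6, and it acts faithfully both on the six points of C and on the six points of d outside C. -/
theorem result (d : Finset Cfsg.GolayPt) (hd : d ∈ Cfsg.dodecads) (C : Finset Cfsg.GolayPt) (hC : C ∈ Cfsg.hexadsOn d) : Nonempty (↥(MulAction.stabilizer Cfsg.M24 d ⊓ MulAction.stabilizer Cfsg.M24 C) ≃* Equiv.Perm (Fin 6)) ∧ (∀ g ∈ MulAction.stabilizer Cfsg.M24 d ⊓ MulAction.stabilizer Cfsg.M24 C, (∀ p ∈ C, ((g : ↥Cfsg.M24) : Equiv.Perm Cfsg.GolayPt) p = p) → g = 1) ∧ ∀ g ∈ MulAction.stabilizer Cfsg.M24 d ⊓ MulAction.stabilizer Cfsg.M24 C, (∀ p ∈ d \ C, ((g : ↥Cfsg.M24) : Equiv.Perm Cfsg.GolayPt) p = p) → g = 1 := by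
  obtain ⟨hC6, o, ho, hoC⟩ := hC
  have hCd : C ⊆ d := by
    rw [← hoC]
    exact Finset.inter_subset_right
  have hCo : C ⊆ o := by
    rw [← hoC]
    exact Finset.inter_subset_left
  have hfaith : ∀ g ∈ MulAction.stabilizer M24 d ⊓ MulAction.stabilizer M24 C, ∀ s : Finset GolayPt,
      s ⊆ d → 5 ≤ s.card → (∀ p ∈ s, ((g : ↥M24) : Equiv.Perm GolayPt) p = p) → g = 1 := by
    intro g hg s hs hs5 hfix
    have := eq_one_of_fix_five hd ⟨g, hg.1⟩ s hs hs5 hfix
    exact congrArg Subtype.val this
  refine ⟨?_, ?_, ?_⟩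
  · -- the restriction to `C` is bijective
    have hinv : ∀ h ∈ MulAction.stabilizer M24 d ⊓ MulAction.stabilizer M24 C, ∀ x ∈ (C : Set GolayPt),
        h • x ∈ (C : Set GolayPt) := by
      intro h hh x hx
      have h2 : h • C = C := hh.2
      have : h • x ∈ h • C := Finset.smul_mem_smul_finset hx
      rw [h2] at this
      exact this
    have e : ((C : Set GolayPt)) ≃ Fin 6 := by
      have : (C : Set GolayPt) ≃ C := Equiv.refl _
      exact this.trans (C.equivFinOfCardEq hC6)
    apply nonempty_equiv_perm_fin _ _ hinv e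
    constructor
    · rw [injective_iff_map_eq_one]
      rintro ⟨g, hg⟩ hg1
      apply Subtype.ext
      apply hfaith g hg C hCd (by omega)
      intro p hp
      have := congrArg (fun f : Equiv.Perm (C : Set GolayPt) => ((f ⟨p, hp⟩ : (C : Set GolayPt)) : GolayPt)) hg1
      exact this
    · intro σ
      -- take five points of `C`
      have hC1 : C.Nonempty := by
        rw [← Finset.card_pos]
        omega
      obtain ⟨c₀, hc₀⟩ := hC1
      have hc5 : (C.erase c₀).card = 5 := by
        rw [Finset.card_erase_of_mem hc₀, hC6]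
      obtain ⟨x, hx⟩ := exists_embedding (s := C.erase c₀) (le_of_eq hc5.symm)
      have hxC : ∀ i, x i ∈ C := fun i => Finset.mem_of_mem_erase (hx i)
      -- the images
      let y : Fin 5 ↪ GolayPt :=
        ⟨fun i => ((σ ⟨x i, hxC i⟩ : (C : Set GolayPt)) : GolayPt), by
          intro i j hij
          have h1 := σ.injective (Subtype.ext hij)
          exact x.injective (congrArg Subtype.val h1)⟩
      have hyC : ∀ i, y i ∈ C := fun i => (σ ⟨x i, hxC i⟩).2
      obtain ⟨g, hg, -⟩ := sharply_five hd x y (fun i => hCd (hxC i)) (fun i => hCd (hyC i))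
      -- `g` stabilises `C`
      have hgo : ((g : M24) : Equiv.Perm GolayPt) • o = o := by
        apply two_octads_eq (smul_mem_octads g.1.2 ho) ho
        have hsub : (Finset.univ.map y) ⊆ ((g : M24) : Equiv.Perm GolayPt) • o ∩ o := by
          intro z hz
          obtain ⟨i, -, rfl⟩ := Finset.mem_map.mp hz
          refine Finset.mem_inter.mpr ⟨?_, hCo (hyC i)⟩
          exact Finset.mem_smul_finset.mpr ⟨x i, hCo (hxC i), hg i⟩
        have := Finset.card_le_card hsub
        simpa using this
      have hgd : ((g : M24) : Equiv.Perm GolayPt) • d = d := g.2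
      have hgC : (g : M24) • C = C := by
        show ((g : M24) : Equiv.Perm GolayPt) • C = C
        rw [← hoC, Finset.smul_finset_inter, hgo, hgd]
      refine ⟨⟨g.1, g.2, hgC⟩, ?_⟩
      apply perm_eq_of_agree _ _ ⟨c₀, hc₀⟩
      rintro ⟨c, hc⟩ hne
      have hcc : c ∈ C.erase c₀ := Finset.mem_erase.mpr ⟨fun h => hne (Subtype.ext h), hc⟩
      -- `c` is one of the five points
      have hsurj : ∃ i, x i = c := by
        have hsub : Finset.univ.map x = C.erase c₀ := by
          apply Finset.eq_of_subset_of_card_le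
          · intro z hz
            obtain ⟨i, -, rfl⟩ := Finset.mem_map.mp hz
            exact hx i
          · rw [hc5]
            simp
        rw [← hsub] at hcc
        obtain ⟨i, -, h⟩ := Finset.mem_map.mp hcc
        exact ⟨i, h⟩
      obtain ⟨i, rfl⟩ := hsurj
      apply Subtype.ext
      exact hg i
  · intro g hg hfix
    exact hfaith g hg C hCd (by omega) hfix
  · intro g hg hfix
    have hd12 : d.card = 12 := hd.2
    have hcard : (d \ C).card = 6 := by
      rw [Finset.card_sdiff_of_subset hCd, hd12, hC6]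
    exact hfaith g hg (d \ C) Finset.sdiff_subset (by omega) hfix

end Cfsg.Agent.S5618
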