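import Cfsg.Statements.S5619
import Cfsg.Agent.Lib.M24Data.ListGroup
import Cfsg.Agent.Lib.PGroups.Presentations

set_option autoImplicit false
open scoped Pointwise
open Cfsg

namespace Cfsg.Agent.S5619

open Cfsg.Agent.Lib.Golay.Core Cfsg.Agent.Lib.Golay.Perm Cfsg.Agent.Lib.Golay.Chain Cfsg.Agent.Lib.Golay.M24
  Cfsg.Agent.Lib.Golay.Dodecad Cfsg.Agent.Lib.Golay.Basic
  Cfsg.Agent.Lib.M24Data.Tree Cfsg.Agent.Lib.M24Data.Universe
  Cfsg.Agent.Lib.M24Data.CommTree Cfsg.Agent.Lib.M24Data.ListGroup Cfsg.Agent.Lib.M24Data.OctadPairs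

/-- The group in general. -/
abbrev Hm (d : Finset Cfsg.GolayPt) (p q r : Cfsg.GolayPt) : Subgroup ↥Cfsg.M24 :=
  MulAction.stabilizer Cfsg.M24 d ⊓ MulAction.stabilizer Cfsg.M24 p ⊓ MulAction.stabilizer Cfsg.M24 q ⊓
    MulAction.stabilizer Cfsg.M24 r

theorem mem_Hm {d : Finset Cfsg.GolayPt} {p q r : Cfsg.GolayPt} {x : ↥Cfsg.M24} :
    x ∈ Hm d p q r ↔ x.1 • d = d ∧ x.1 p = p ∧ x.1 q = q ∧ x.1 r = r := by
  constructor
  · rintro ⟨⟨⟨h1, h2⟩, h3⟩, h4⟩
    exact ⟨h1, h2, h3, h4⟩
  · rintro ⟨h1, h2, h3, h4⟩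
    exact ⟨⟨⟨h1, h2⟩, h3⟩, h4⟩

/-- The abstract structure. -/
theorem m9_of {G : Type*} [Group G] [Finite G] (h72 : Nat.card G = 72) (N : Subgroup G) (hN : N.Normal)
    (hN9 : Nat.card N = 9) (hN3 : ∀ x ∈ N, x ^ 3 = 1) (P0 : Subgroup G)
    (hP0 : Nonempty (P0 ≃* QuaternionGroup 2)) :
    (∀ Q : Sylow 3 G, (Q : Subgroup G).Normal ∧ Nat.card ↥Q = 9 ∧ ∀ x ∈ (Q : Subgroup G), x ^ 3 = 1) ∧
      ∀ P : Sylow 2 G, Nonempty (↥P ≃* QuaternionGroup 2) := by
  have f3 : Fact (Nat.Prime 3) := ⟨by norm_num⟩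
  have f2 : Fact (Nat.Prime 2) := ⟨by norm_num⟩
  have e3 : (72 : ℕ).factorization 3 = 2 := by
    have e : (72 : ℕ) = 3 ^ 2 * 8 := by norm_num
    rw [e, Nat.factorization_mul (by norm_num) (by norm_num), Nat.factorization_pow]
    simp only [Finsupp.coe_add, Finsupp.coe_smul, Pi.add_apply, Pi.smul_apply, smul_eq_mul]
    rw [Nat.Prime.factorization_self (by norm_num), Nat.factorization_eq_zero_of_not_dvd (by norm_num)]
  have e2 : (72 : ℕ).factorization 2 = 3 := by
    have e : (72 : ℕ) = 2 ^ 3 * 9 := by norm_num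
    rw [e, Nat.factorization_mul (by norm_num) (by norm_num), Nat.factorization_pow]
    simp only [Finsupp.coe_add, Finsupp.coe_smul, Pi.add_apply, Pi.smul_apply, smul_eq_mul]
    rw [Nat.Prime.factorization_self (by norm_num), Nat.factorization_eq_zero_of_not_dvd (by norm_num)]
  have hS3 : Nat.card N = 3 ^ (Nat.card G).factorization 3 := by rw [h72, e3, hN9]; norm_num
  have hP08 : Nat.card P0 = 2 ^ (Nat.card G).factorization 2 := by
    obtain ⟨E⟩ := hP0
    rw [Nat.card_congr E.toEquiv, h72, e2, Nat.card_eq_fintype_card, QuaternionGroup.card]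
    norm_num
  refine ⟨fun Q => ?_, fun P => ?_⟩
  · have hnorm : (Sylow.ofCard N hS3 : Subgroup G).Normal := by
      rw [Sylow.coe_ofCard]
      exact hN
    have huniq := Sylow.unique_of_normal (Sylow.ofCard N hS3) hnorm
    have e : Q = Sylow.ofCard N hS3 := Subsingleton.elim _ _
    have e' : (Q : Subgroup G) = N := by rw [e, Sylow.coe_ofCard]
    refine ⟨?_, ?_, ?_⟩
    · rw [e']
      exact hN
    · show Nat.card ↥(Q : Subgroup G) = 9
      rw [e']
      exact hN9
    · rw [e']
      exact hN3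
  · obtain ⟨E⟩ := hP0
    have E2 : ↥(Sylow.ofCard P0 hP08 : Subgroup G) ≃* ↥P0 := by
      rw [Sylow.coe_ofCard]
    exact ⟨(Sylow.equiv P (Sylow.ofCard P0 hP08)).trans (E2.trans E)⟩

/-- The elements of the group of the base data. -/
def L72 : List ℕ := [960792386108188404871541436004403232, 960798715614879300320412435083442208, 960801247330106828774215118862388256, 961278688604686681898179689373284384, 961285018165632515674876685174836256, 961287549667283201426177752282892320, 962049886769385557593025881059858464, 962056221415872664652324427776926752, 962058769054186077686417142960336928, 962576714539515933862448732285546528, 962583049052544552416187657945684000, 962585596646897021367213807849907232, 968915591316301102576062963584703520, 968918125094133312867142674648674336, 968919409030377569367867774279563296, 969199267465777758467557010220496928, 969201801737914399582087469765794848, 969203085545096192581837129131307040, 970316283145511195738452356036500512, 970317553152264875908707334731533344,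 970332766586372488476379061509661728, 970397333438387248265932395064140832, 970398603952780882525231244152020000, 970413816723260913173792713288715296, 972688134266055579891466361512240160, 972690654788068270555282010416613408, 972691920945534030602486367832456224, 973093386122642432831531753268447264, 973095906777892999349257471726664736, 973097173253489427018857814261212192, 976603834103289591883962494260555808, 976605097772023899913323629758324768, 976620311940227580045552674370193440, 976887510154770538766490027346206752, 976888774479474864997516652471158816, 976903988488357046571053803337134112, 977626298262095591357407496854872096, 977632649001851940335108048784079904, 977635175595271619883596410324720672, 977666823536203675389992086812081184, 977673174087184283007205668609399840, 977675700850916535859931809945428000, 979199902066532810481018051797007392, 979201170686462026945191602333038624, 979216378665369791964214565764601888, 979402527825026585148956979945904160, 979403796593800993275903105318566944,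 979419005076317945616368219168421920, 980911461251221312023219252313177120, 980915266709283679625909308187806752, 980924132068208647414064372895658016, 980951986951017870453124109145934880, 980955791882061147476043190404165664, 980964656811598351650102294615440416, 981774360376483848975691882925889568, 981776911847549885571076928117705760, 981778164387565612539766139250614304, 981895936084179490344870648004091936, 981898487193044901871029544582322208, 981899740180765567200638860598152224, 983426482554381605818421604213039136, 983430277307270629577775126545512480, 983439156539618644473047614254949408, 983548058628271758227072553185584160, 983551852417171758156912368798900256, 983560732202510771760283209707927584, 984724508489452699215480746259449888, 984728318097572058002623567840450592, 984737193616507953332582334206319648, 984805558863217693247631069753514016, 984809368035280166958453665004231712, 984818244535754528103549039458486304]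

/-- The Sylow 3-subgroup. -/
def N9 : List ℕ := [980951986951017870453124109145934880, 980955791882061147476043190404165664, 980964656811598351650102294615440416, 983426482554381605818421604213039136, 983430277307270629577775126545512480, 983439156539618644473047614254949408, 984805558863217693247631069753514016, 984809368035280166958453665004231712, 984818244535754528103549039458486304]

/-- A Sylow 2-subgroup. -/
def P8 : List ℕ := [960792386108188404871541436004403232, 961287549667283201426177752282892320, 972690654788068270555282010416613408, 973093386122642432831531753268447264, 976620311940227580045552674370193440, 976888774479474864997516652471158816, 984724508489452699215480746259449888, 984818244535754528103549039458486304]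

def Aq : ℕ := 961287549667283201426177752282892320
def Yq : ℕ := 972690654788068270555282010416613408

def leafM (Q : ℕ) : Bool := !(Nat.beq (mapMask Q d0) d0) || memL Q L72

theorem runM : treeAux leafM (fun _ _ => false) [(2, T3), (3, T4), (5, T5), (4, T6)] [1, 0, 23] idP = true := by
  decide +kernel

theorem idP_img : ∀ i < 24, img idP i = i := by decide +kernel

abbrev H0 : Subgroup ↥Cfsg.M24 := Hm (Cfsg.Agent.Lib.Golay.Core.setOf d0) (pt 23) (pt 0) (pt 1)

theorem L_good : allL goodC L72 = true := by decide +kernel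
theorem L_nd : pairB neB L72 = true := by decide +kernel
theorem L_len : L72.length = 72 := by decide +kernel
theorem L_spec : allL (fun Q => Nat.beq (mapMask Q d0) d0 && Nat.beq (img Q 23) 23 && Nat.beq (img Q 0) 0 && Nat.beq (img Q 1) 1) L72 = true := by
  decide +kernel

theorem N_good : allL goodC N9 = true := by decide +kernel
theorem N_nd : pairB neB N9 = true := by decide +kernel
theorem N_len : N9.length = 9 := by decide +kernel
theorem N_cl : closedB N9 = true := by decide +kernel
theorem N_sub : allL (fun Q => memL Q L72) N9 = true := by decide +kernel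
theorem N_cube : allL (fun Q => allUpTo (fun i => Nat.beq (img Q (img Q (img Q i))) i) 24) N9 = true := by decide +kernel
theorem N_head : 980951986951017870453124109145934880 ∈ N9 := by decide +kernel
theorem N_conj : allL (fun h => allL (fun x => anyL (fun y => commB x y h) N9) N9) L72 = true := by decide +kernel

theorem P_good : allL goodC P8 = true := by decide +kernel
theorem P_nd : pairB neB P8 = true := by decide +kernel
theorem P_len : P8.length = 8 := by decide +kernel
theorem P_cl : closedB P8 = true := by decide +kernel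
theorem P_sub : allL (fun Q => memL Q L72) P8 = true := by decide +kernel
theorem P_head : 960792386108188404871541436004403232 ∈ P8 := by decide +kernel
theorem A_mem : Aq ∈ P8 := by decide +kernel
theorem Y_mem : Yq ∈ P8 := by decide +kernel

/-- The map to permutations. -/
noncomputable def iota : ↥H0 →* Equiv.Perm Cfsg.GolayPt := Cfsg.M24.subtype.comp H0.subtype

theorem iota_inj : Function.Injective iota := by
  intro a b h
  exact Subtype.ext (Subtype.ext h)

theorem mem_of_L {Q : ℕ} (hQ : Q ∈ L72) : ∃ x : ↥H0, iota x = g Q := by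
  have hG := good_of_goodC (allL_iff.mp L_good Q hQ)
  have hs := allL_iff.mp L_spec Q hQ
  simp only [Bool.and_eq_true] at hs
  obtain ⟨⟨⟨h1, h2⟩, h3⟩, h4⟩ := hs
  refine ⟨⟨⟨g Q, hG.2⟩, mem_Hm.mpr ⟨?_, ?_, ?_, ?_⟩⟩, rfl⟩
  · show g Q • _ = _
    rw [smul_setOf hG.1, Nat.eq_of_beq_eq_true h1]
  · show g Q (pt 23) = pt 23
    rw [g_pt hG.1 (by norm_num), Nat.eq_of_beq_eq_true h2]
  · show g Q (pt 0) = pt 0
    rw [g_pt hG.1 (by norm_num), Nat.eq_of_beq_eq_true h3]
  · show g Q (pt 1) = pt 1
    rw [g_pt hG.1 (by norm_num), Nat.eq_of_beq_eq_true h4]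

theorem exists_L (x : ↥H0) : ∃ Q ∈ L72, iota x = g Q := by
  obtain ⟨h1, h2, h3, h4⟩ := mem_Hm.mp x.2
  have ag : ∀ y ∈ [1, 0, 23], x.1.1 (pt y) = pt (img idP y) := by
    intro y hy
    simp only [List.mem_cons, List.not_mem_nil, or_false] at hy
    rcases hy with rfl | rfl | rfl
    · rw [h4, idP_img _ (by norm_num)]
    · rw [h3, idP_img _ (by norm_num)]
    · rw [h2, idP_img _ (by norm_num)]
  obtain ⟨Q, hQ, hleaf, hQe⟩ := treeAux_sound (Φ := fun σ => σ • Cfsg.Agent.Lib.Golay.Core.setOf d0 = Cfsg.Agent.Lib.Golay.Core.setOf d0)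
    (prune := fun _ _ => false) (fun _ _ _ _ _ _ => rfl) _ _ levels3 idP good_idP runM x.1.1 x.1.2 h1 ag
    (by
      intro y hy
      simp only [List.mem_cons, List.not_mem_nil, or_false] at hy
      rcases hy with rfl | rfl | rfl <;> norm_num)
  rw [hQe, smul_setOf hQ.1] at h1
  have h5 := eq_of_setOf_eq (mapMask_lt hQ.1 _) (by decide +kernel) h1
  simp only [leafM, h5, Nat.beq_refl, Bool.not_true, Bool.false_or] at hleaf
  exact ⟨Q, memL_iff.mp hleaf, hQe⟩

theorem card_H0 : Nat.card H0 = 72 := by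
  have h := card_list (H0.map Cfsg.M24.subtype) L72 L_good L_nd (fun P hP => by
      obtain ⟨x, hx⟩ := mem_of_L hP
      exact ⟨x.1, x.2, hx⟩) (fun σ hσ => by
      obtain ⟨x, hx, rfl⟩ := hσ
      exact exists_L ⟨x, hx⟩)
  rw [L_len] at h
  rw [← h]
  exact (Subgroup.card_map_of_injective (f := Cfsg.M24.subtype) Cfsg.M24.subtype_injective).symm

theorem card_comap (K : Subgroup (Equiv.Perm Cfsg.GolayPt)) (hK : ∀ σ ∈ K, ∃ x, iota x = σ) :
    Nat.card (K.comap iota) = Nat.card K := by
  have e : (K.comap iota).map iota = K := by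
    ext σ
    constructor
    · rintro ⟨x, hx, rfl⟩
      exact hx
    · intro hσ
      obtain ⟨x, rfl⟩ := hK σ hσ
      exact ⟨x, hσ, rfl⟩
  conv_rhs => rw [← e]
  exact (Subgroup.card_map_of_injective iota_inj).symm

noncomputable def NP : Subgroup (Equiv.Perm Cfsg.GolayPt) := subL N9 N_head N_good N_cl
noncomputable def PP : Subgroup (Equiv.Perm Cfsg.GolayPt) := subL P8 P_head P_good P_cl

theorem mem_NP {σ : Equiv.Perm Cfsg.GolayPt} : σ ∈ NP ↔ ∃ Q ∈ N9, σ = g Q := Iff.rfl
theorem mem_PP {σ : Equiv.Perm Cfsg.GolayPt} : σ ∈ PP ↔ ∃ Q ∈ P8, σ = g Q := Iff.rfl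

theorem card_N0 : Nat.card (NP.comap iota) = 9 := by
  rw [card_comap, NP, card_subL _ _ _ _ N_nd, N_len]
  intro σ hσ
  obtain ⟨Q, hQ, rfl⟩ := mem_subL.mp hσ
  exact mem_of_L (memL_iff.mp (allL_iff.mp N_sub Q hQ))

theorem card_P0 : Nat.card (PP.comap iota) = 8 := by
  rw [card_comap, PP, card_subL _ _ _ _ P_nd, P_len]
  intro σ hσ
  obtain ⟨Q, hQ, rfl⟩ := mem_subL.mp hσ
  exact mem_of_L (memL_iff.mp (allL_iff.mp P_sub Q hQ))

theorem N_normal : (NP.comap iota).Normal := by
  constructor
  intro x hx c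
  obtain ⟨Q, hQ, hQe⟩ := mem_NP.mp hx
  obtain ⟨h, hh, hhe⟩ := exists_L c
  have hc := allL_iff.mp (allL_iff.mp N_conj h hh) Q hQ
  obtain ⟨y, hy, hy2⟩ := anyL_iff.mp hc
  have hvQ := (good_of_goodC (allL_iff.mp N_good Q hQ)).1
  have hvy := (good_of_goodC (allL_iff.mp N_good y hy)).1
  have hvh := (good_of_goodC (allL_iff.mp L_good h hh)).1
  have e := of_commB hvQ hvy hvh hy2
  refine mem_NP.mpr ⟨y, hy, ?_⟩
  rw [map_mul, map_mul, map_inv, hQe, hhe, e]
  group

theorem N_exp : ∀ x ∈ NP.comap iota, x ^ 3 = 1 := by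
  intro x hx
  obtain ⟨Q, hQ, hQe⟩ := mem_NP.mp hx
  apply iota_inj
  rw [map_pow, map_one, hQe]
  have hvQ := (good_of_goodC (allL_iff.mp N_good Q hQ)).1
  have h3 := allUpTo_iff.mp (allL_iff.mp N_cube Q hQ)
  ext1 p
  simp only [pow_succ, pow_zero, one_mul, Equiv.Perm.mul_apply, Equiv.Perm.one_apply]
  rw [g_apply hvQ p, g_pt hvQ (valid_img_lt hvQ (idx_lt p)), g_pt hvQ (valid_img_lt hvQ (valid_img_lt hvQ (idx_lt p))),
    Nat.eq_of_beq_eq_true (h3 _ (idx_lt p)), pt_idx]

theorem hvA : validPerm Aq = true := (good_of_goodC (allL_iff.mp P_good _ A_mem)).1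
theorem hvY : validPerm Yq = true := (good_of_goodC (allL_iff.mp P_good _ Y_mem)).1

theorem rel1 : ∀ i < 24, img Aq (img Aq (img Aq (img Aq i))) = i := by decide +kernel
theorem rel2 : ∃ i < 24, img Aq (img Aq i) ≠ i := by decide +kernel
theorem rel3 : ∀ i < 24, img Yq (img Yq i) = img Aq (img Aq i) := by decide +kernel
theorem rel4 : ∀ i < 24, img Aq (img Yq (img Aq i)) = img Yq i := by decide +kernel

theorem gA4 : g Aq ^ 4 = 1 := by
  ext1 p
  simp only [pow_succ, pow_zero, one_mul, Equiv.Perm.mul_apply, Equiv.Perm.one_apply]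
  have h := valid_img_lt hvA (idx_lt p)
  rw [g_apply hvA p, g_pt hvA h, g_pt hvA (valid_img_lt hvA h), g_pt hvA (valid_img_lt hvA (valid_img_lt hvA h)),
    rel1 _ (idx_lt p), pt_idx]

theorem gA2 : g Aq ^ 2 ≠ 1 := by
  intro h
  obtain ⟨i, hi, hne⟩ := rel2
  have e := congrArg (fun f : Equiv.Perm Cfsg.GolayPt => f (pt i)) h
  simp only [pow_succ, pow_zero, one_mul, Equiv.Perm.mul_apply, Equiv.Perm.one_apply] at e
  rw [g_pt hvA hi, g_pt hvA (valid_img_lt hvA hi)] at e
  exact hne (pt_injOn (valid_img_lt hvA (valid_img_lt hvA hi)) hi e)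

theorem gYA : g Yq ^ 2 = g Aq ^ 2 := by
  ext1 p
  simp only [pow_succ, pow_zero, one_mul, Equiv.Perm.mul_apply]
  rw [g_apply hvY p, g_pt hvY (valid_img_lt hvY (idx_lt p)), g_apply hvA p, g_pt hvA (valid_img_lt hvA (idx_lt p)),
    rel3 _ (idx_lt p)]

theorem gAYA : g Aq * g Yq * g Aq = g Yq := by
  ext1 p
  simp only [Equiv.Perm.mul_apply]
  rw [g_apply hvA p, g_pt hvY (valid_img_lt hvA (idx_lt p)), g_pt hvA (valid_img_lt hvY (valid_img_lt hvA (idx_lt p))),
    rel4 _ (idx_lt p), g_apply hvY p]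

theorem P_quat : Nonempty (↥(PP.comap iota) ≃* QuaternionGroup 2) := by
  obtain ⟨xa, hxa⟩ := mem_of_L (memL_iff.mp (allL_iff.mp P_sub _ A_mem))
  obtain ⟨xy, hxy⟩ := mem_of_L (memL_iff.mp (allL_iff.mp P_sub _ Y_mem))
  have hma : xa ∈ PP.comap iota := mem_PP.mpr ⟨Aq, A_mem, hxa⟩
  have hmy : xy ∈ PP.comap iota := mem_PP.mpr ⟨Yq, Y_mem, hxy⟩
  have hinj : ∀ u v : ↥(PP.comap iota), iota u.1 = iota v.1 → u = v := fun u v h =>
    Subtype.ext (iota_inj h)
  let A : ↥(PP.comap iota) := ⟨xa, hma⟩
  let Y : ↥(PP.comap iota) := ⟨xy, hmy⟩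
  have iA : iota A.1 = g Aq := hxa
  have iY : iota Y.1 = g Yq := hxy
  have hA2 : A ^ 2 ≠ 1 := by
    intro h
    apply gA2
    have := congrArg (fun u : ↥(PP.comap iota) => iota u.1) h
    simpa [iA] using this
  have hA4 : A ^ 4 = 1 := by
    apply hinj
    simp [iA, gA4]
  have ho : orderOf A = 2 * 2 := by
    have := orderOf_eq_prime_pow (p := 2) (n := 1) (x := A) (by simpa using hA2) (by simpa using hA4)
    simpa using this
  have h2 : Y ^ 2 = A ^ 2 := by
    apply hinj
    simp [iA, iY, gYA]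
  have h3 : Y * A * Y⁻¹ = A⁻¹ := by
    apply hinj
    simp only [InvMemClass.coe_inv, MulMemClass.coe_mul, map_mul, map_inv, iA, iY]
    have e : g Yq * g Aq = (g Aq)⁻¹ * g Yq := by
      rw [eq_inv_mul_iff_mul_eq, ← mul_assoc]
      exact gAYA
    rw [e]
    group
  have hnot : Y ∉ Subgroup.zpowers A := by
    intro h
    obtain ⟨k, hk⟩ := Subgroup.mem_zpowers_iff.mp h
    have hc : Y * A = A * Y := by
      rw [← hk]
      exact (Commute.zpow_left (Commute.refl A) k).eq
    apply hA2
    have e : A = A⁻¹ := by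
      rw [← h3, hc]
      group
    rw [pow_two]
    nth_rewrite 1 [e]
    group
  obtain ⟨E⟩ := Cfsg.Agent.Lib.PGroups.Presentations.nonempty_quaternion_equiv (m := 2) ho h2 h3 hnot
    (by rw [card_P0])
  exact ⟨E.symm⟩

theorem base_pre : ∃ N : Subgroup ↥H0, N.Normal ∧ Nat.card N = 9 ∧ (∀ x ∈ N, x ^ 3 = 1) ∧
    ∃ P0 : Subgroup ↥H0, Nonempty (P0 ≃* QuaternionGroup 2) :=
  ⟨NP.comap iota, N_normal, card_N0, N_exp, PP.comap iota, P_quat⟩

/-- A base element moved to the given data. -/
theorem exists_tau {d : Finset Cfsg.GolayPt} (hd : d ∈ Cfsg.dodecads) {p q r : Cfsg.GolayPt} (hp : p ∈ d) (hq : q ∈ d) (hr : r ∈ d)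
    (hpq : p ≠ q) (hpr : p ≠ r) (hqr : q ≠ r) :
    ∃ τ ∈ Cfsg.M24, τ • Cfsg.Agent.Lib.Golay.Core.setOf d0 = d ∧ τ (pt 23) = p ∧ τ (pt 0) = q ∧ τ (pt 1) = r := by
  obtain ⟨ρ, hρ, hρd⟩ := exists_smul_d0 hd
  -- two more points
  have h9 : 1 < (d \ {p, q, r}).card := by
    have h1 := Finset.le_card_sdiff ({p, q, r} : Finset Cfsg.GolayPt) d
    have h2 : ({p, q, r} : Finset Cfsg.GolayPt).card ≤ 3 := Finset.card_le_three
    have h3 := hd.2
    omega
  obtain ⟨a, ha, b, hb, hab⟩ := Finset.one_lt_card.mp h9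
  simp only [Finset.mem_sdiff, Finset.mem_insert, Finset.mem_singleton, not_or] at ha hb
  obtain ⟨had, hap, haq, har⟩ := ha
  obtain ⟨hbd, hbp, hbq, hbr⟩ := hb
  have hxs : ∀ i : Fin 5, ![23, 0, 1, 2, 3] i < 24 ∧ Nat.testBit d0 (![23, 0, 1, 2, 3] i) = true := by decide +kernel
  have hinj : Function.Injective (![23, 0, 1, 2, 3] : Fin 5 → ℕ) := by decide
  let x0 : Fin 5 ↪ Cfsg.GolayPt := ⟨fun i => ρ (pt (![23, 0, 1, 2, 3] i)), by
    intro i j h
    exact hinj (pt_injOn (hxs i).1 (hxs j).1 (ρ.injective h))⟩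
  let y0 : Fin 5 ↪ Cfsg.GolayPt := ⟨![p, q, r, a, b], by
    intro i j h
    fin_cases i <;> fin_cases j <;> simp_all [eq_comm]⟩
  obtain ⟨⟨⟨k, hk⟩, hks⟩, hk', -⟩ := sharply_five hd x0 y0 (by
      intro i
      have h1 : pt (![23, 0, 1, 2, 3] i) ∈ Cfsg.Agent.Lib.Golay.Core.setOf d0 := by
        rw [mem_setOf, idx_pt (hxs i).1]
        exact (hxs i).2
      have h2 := Finset.smul_mem_smul_finset (a := ρ) h1
      rw [hρd] at h2
      exact h2) (by
      intro i
      fin_cases i
      · exact hp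
      · exact hq
      · exact hr
      · exact had
      · exact hbd)
  refine ⟨k * ρ, Cfsg.M24.mul_mem hk hρ, ?_, hk' 0, hk' 1, hk' 2⟩
  rw [mul_smul, hρd]
  exact hks

/-- Conjugation of subgroups. -/
noncomputable def conjIso {G : Type*} [Group G] (t : G) (K K' : Subgroup G) (h1 : ∀ x ∈ K, t * x * t⁻¹ ∈ K')
    (h2 : ∀ y ∈ K', t⁻¹ * y * t ∈ K) : K ≃* K' where
  toFun x := ⟨t * x.1 * t⁻¹, h1 x.1 x.2⟩
  invFun y := ⟨t⁻¹ * y.1 * t, h2 y.1 y.2⟩
  left_inv x := Subtype.ext (by simp only; group)
  right_inv y := Subtype.ext (by simp only; group)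
  map_mul' a b := Subtype.ext (by simp only [Subgroup.coe_mul]; group)


/-- In the group of the length-24 code, the subgroup fixing a dodecad setwise and three of its points individually (a group of order 72) has a normal Sylow 3-subgroup that is elementary abelian of order 9, and its Sylow 2-subgroups are quaternion of order 8. -/
theorem result (d : Finset Cfsg.GolayPt) (hd : d ∈ Cfsg.dodecads) (p q r : Cfsg.GolayPt) (hp : p ∈ d) (hq : q ∈ d) (hr : r ∈ d) (hpq : p ≠ q) (hpr : p ≠ r) (hqr : q ≠ r) : (∀ Q : Sylow 3 ↥(MulAction.stabilizer Cfsg.M24 d ⊓ MulAction.stabilizer Cfsg.M24 p ⊓ MulAction.stabilizer Cfsg.M24 q ⊓ MulAction.stabilizer Cfsg.M24 r), (Q : Subgroup ↥(MulAction.stabilizer Cfsg.M24 d ⊓ MulAction.stabilizer Cfsg.M24 p ⊓ MulAction.stabilizer Cfsg.M24 q ⊓ MulAction.stabilizer Cfsg.M24 r)).Normal ∧ Nat.card ↥Q = 9 ∧ ∀ x ∈ (Q : Subgroup ↥(MulAction.stabilizer Cfsg.M24 d ⊓ MulAction.stabilizer Cfsg.M24 p ⊓ MulAction.stabilizer Cfsg.M24 q ⊓ MulAction.stabilizer Cfsg.M24 r)), x ^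 3 = 1) ∧ ∀ P : Sylow 2 ↥(MulAction.stabilizer Cfsg.M24 d ⊓ MulAction.stabilizer Cfsg.M24 p ⊓ MulAction.stabilizer Cfsg.M24 q ⊓ MulAction.stabilizer Cfsg.M24 r), Nonempty (↥P ≃* QuaternionGroup 2) := by
  obtain ⟨τ, hτ, e1, e2, e3, e4⟩ := exists_tau hd hp hq hr hpq hpr hqr
  let t : ↥Cfsg.M24 := ⟨τ, hτ⟩
  have hconj : ∀ x ∈ H0, t * x * t⁻¹ ∈ Hm d p q r := by
    intro x hx
    obtain ⟨h1, h2, h3, h4⟩ := mem_Hm.mp hx
    refine mem_Hm.mpr ⟨?_, ?_, ?_, ?_⟩
    · show (τ * x.1 * τ⁻¹) • d = d
      rw [← e1, mul_smul, mul_smul, inv_smul_smul, h1]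
    · show (τ * x.1 * τ⁻¹) p = p
      rw [← e2]
      simp [h2]
    · show (τ * x.1 * τ⁻¹) q = q
      rw [← e3]
      simp [h3]
    · show (τ * x.1 * τ⁻¹) r = r
      rw [← e4]
      simp [h4]
  have hconj' : ∀ y ∈ Hm d p q r, t⁻¹ * y * t ∈ H0 := by
    intro y hy
    obtain ⟨h1, h2, h3, h4⟩ := mem_Hm.mp hy
    refine mem_Hm.mpr ⟨?_, ?_, ?_, ?_⟩
    · show (τ⁻¹ * y.1 * τ) • _ = _
      rw [mul_smul, mul_smul, e1, h1, ← e1, inv_smul_smul]
    · show (τ⁻¹ * y.1 * τ) (pt 23) = pt 23
      simp only [Equiv.Perm.mul_apply]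
      rw [e2, h2, ← e2]
      simp
    · show (τ⁻¹ * y.1 * τ) (pt 0) = pt 0
      simp only [Equiv.Perm.mul_apply]
      rw [e3, h3, ← e3]
      simp
    · show (τ⁻¹ * y.1 * τ) (pt 1) = pt 1
      simp only [Equiv.Perm.mul_apply]
      rw [e4, h4, ← e4]
      simp
  let e := conjIso t H0 (Hm d p q r) hconj hconj'
  obtain ⟨N, hN, hN9, hN3, P0, hP0⟩ := base_pre
  refine m9_of ?_ (N.map e.toMonoidHom) (hN.map _ e.surjective) ?_ ?_ (P0.map e.toMonoidHom) ?_
  · rw [← card_H0]
    exact (Nat.card_congr e.toEquiv).symm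
  · rw [Subgroup.card_map_of_injective e.injective, hN9]
  · rintro _ ⟨x, hx, rfl⟩
    show e x ^ 3 = 1
    rw [← map_pow, hN3 x hx, map_one]
  · obtain ⟨E⟩ := hP0
    exact ⟨(MulEquiv.subgroupMap e P0).symm.trans E⟩

end Cfsg.Agent.S5619
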