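import Cfsg.Statements.S5620
import Cfsg.Agent.Lib.Golay.M12
import Cfsg.Agent.Lib.Golay.Stab
import Cfsg.Agent.Lib.Golay.Dodecad
import Cfsg.Agent.S0372

set_option autoImplicit false
open scoped Pointwise
open Cfsg

namespace Cfsg.Agent.S5620

open Cfsg.Agent.Lib.Golay.Core Cfsg.Agent.Lib.Golay.Perm Cfsg.Agent.Lib.Golay.Chain
  Cfsg.Agent.Lib.Golay.M24 Cfsg.Agent.Lib.Golay.Basic Cfsg.Agent.Lib.Golay.Stab
  Cfsg.Agent.Lib.Golay.Dodecad Cfsg.Agent.Lib.Golay.M12

/-- The complement of the dodecad of squares, as a mask. -/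
def D0c : ℕ := 16436384

theorem D0c_mem : setOf D0c ∈ dodecads :=
  (setOf_mem_dodecads_iff (by decide +kernel)).mpr ⟨by decide +kernel, by decide +kernel⟩

theorem mem_D0c_iff : ∀ p : GolayPt, p ∈ setOf D0c ↔ p ∉ setOf D0 := by
  decide +kernel

theorem compl_D0 : (Finset.univ \ setOf D0 : Finset GolayPt) = setOf D0c := by
  ext p
  rw [mem_D0c_iff, Finset.mem_sdiff]
  simp

theorem projInv_map : ∀ p : GolayPt, projInv p ∈ setOf D0 ↔ p ∈ setOf D0c := by
  decide +kernel

theorem projInv_sq : projInv * projInv = 1 := by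
  apply Equiv.ext
  intro p
  exact projInv.left_inv p

theorem projInv_smul_D0 : projInv • setOf D0 = setOf D0c := by
  ext q
  rw [Finset.mem_smul_finset]
  constructor
  · rintro ⟨p, hp, rfl⟩
    rw [Equiv.Perm.smul_def, ← projInv_map]
    have h3 : projInv (projInv p) = p := projInv.left_inv p
    rwa [h3]
  · intro hq
    exact ⟨projInv q, (projInv_map q).mpr hq, projInv.left_inv q⟩

theorem pp (s : Finset GolayPt) : projInv • projInv • s = s := by
  rw [smul_smul, projInv_sq, one_smul]

theorem mem_M12_iff {σ : Equiv.Perm GolayPt} : σ ∈ Spor.M12 ↔ σ ∈ M24 ∧ σ • setOf D0 = setOf D0 := by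
  rw [Spor.M12, Subgroup.mem_inf, squareDodecad_eq, MulAction.mem_stabilizer_iff (a := setOf D0)]

theorem mem_M11_iff' {σ : Equiv.Perm GolayPt} :
    σ ∈ Spor.M11 ↔ σ ∈ M24 ∧ σ • setOf D0 = setOf D0 ∧ σ (some 0) = some 0 := by
  rw [Spor.M11, Subgroup.mem_inf, mem_M12_iff, MulAction.mem_stabilizer_iff (a := (some 0 : GolayPt))]
  simp only [and_assoc, Equiv.Perm.smul_def]

theorem stab_compl {σ : Equiv.Perm GolayPt} : σ • setOf D0c = setOf D0c ↔ σ • setOf D0 = setOf D0 := by
  rw [← compl_D0]
  rw [Finset.smul_finset_sdiff]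
  simp only [Finset.smul_finset_univ]
  constructor
  · intro h
    have h2 := congrArg (fun s => (Finset.univ : Finset GolayPt) \ s) h
    simpa using h2
  · intro h
    rw [h]

theorem conj_eq : MulAut.conj projInv • Spor.M11 =
    Spor.M12 ⊓ MulAction.stabilizer (Equiv.Perm GolayPt) (none : GolayPt) := by
  have hM := Cfsg.Agent.S0372.result
  have hinv : projInv⁻¹ = projInv := by
    rw [inv_eq_iff_mul_eq_one, projInv_sq]
  ext x
  rw [Subgroup.mem_pointwise_smul_iff_inv_smul_mem, Subgroup.mem_inf, mem_M12_iff, mem_M11_iff',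
    MulAction.mem_stabilizer_iff (a := (none : GolayPt))]
  have e : (MulAut.conj projInv)⁻¹ • x = projInv * x * projInv := by
    rw [MulAut.smul_def, MulAut.conj_inv_apply, hinv]
  rw [e]
  have hsm : projInv * x * projInv ∈ M24 ↔ x ∈ M24 := by
    constructor
    · intro h
      have := M24.mul_mem (M24.mul_mem hM h) hM
      have e2 : projInv * (projInv * x * projInv) * projInv = x := by
        have h1 : projInv * (projInv * x * projInv) * projInv =
          (projInv * projInv) * x * (projInv * projInv) := by group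
        rw [h1, projInv_sq]
        group
      rwa [e2] at this
    · intro h
      exact M24.mul_mem (M24.mul_mem hM h) hM
  have hd : (projInv * x * projInv) • setOf D0 = setOf D0 ↔ x • setOf D0 = setOf D0 := by
    rw [mul_smul, mul_smul, projInv_smul_D0, ← stab_compl]
    constructor
    · intro h
      calc x • setOf D0c = projInv • projInv • x • setOf D0c := (pp _).symm
        _ = projInv • setOf D0 := by rw [h]
        _ = setOf D0c := projInv_smul_D0
    · intro h
      rw [h, ← projInv_smul_D0, pp]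
  have hf : (projInv * x * projInv) (some 0) = some 0 ↔ x • (none : GolayPt) = none := by
    have e1 : projInv (some 0) = none := by decide +kernel
    have e2 : projInv none = some 0 := by decide +kernel
    rw [Equiv.Perm.mul_apply, Equiv.Perm.mul_apply, e1, Equiv.Perm.smul_def]
    constructor
    · intro h
      have := congrArg projInv h
      rw [show projInv (projInv (x none)) = x none from projInv.left_inv _, e1] at this
      exact this
    · intro h
      rw [h, e2]
  rw [hsm, hd, hf]
  exact ⟨fun ⟨h1, h2, h3⟩ => ⟨⟨h1, h2⟩, h3⟩, fun ⟨⟨h1, h2⟩, h3⟩ => ⟨h1, h2, h3⟩⟩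

theorem some0_mem : (some 0 : GolayPt) ∈ setOf D0 := by decide +kernel


/-- Inside the stabiliser of the dodecad of squares (a Mathieu group of degree 12), the stabiliser of the residue 0 (a point of the dodecad) and the stabiliser of the extra point (a point outside the dodecad) are isomorphic but not conjugate; conjugation by a suitable element of the code's group that maps the dodecad of squares onto its complement carries the first onto the second. -/
theorem result : Nonempty (↥(Cfsg.Spor.M12 ⊓ MulAction.stabilizer (Equiv.Perm Cfsg.GolayPt) (none : Cfsg.GolayPt)) ≃* ↥Cfsg.Spor.M11) ∧ (¬ ∃ k ∈ Cfsg.Spor.M12, MulAut.conj k • Cfsg.Spor.M11 = Cfsg.Spor.M12 ⊓ MulAction.stabilizer (Equiv.Perm Cfsg.GolayPt) (none : Cfsg.GolayPt)) ∧ ∃ g ∈ Cfsg.M24, g • Cfsg.Spor.squareDodecad = Finset.univ \ Cfsg.Spor.squareDodecad ∧ MulAut.conj g • Cfsg.Spor.M11 = Cfsg.Spor.M12 ⊓ MulAction.stabilizer (Equiv.Perm Cfsg.GolayPt) (none : Cfsg.GolayPt) := by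
  have hM := Cfsg.Agent.S0372.result
  have hsq : Spor.squareDodecad = setOf D0 := squareDodecad_eq
  refine ⟨?_, ?_, projInv, hM, ?_, conj_eq⟩
  · rw [← conj_eq]
    exact ⟨(Subgroup.equivSMul (MulAut.conj projInv) Spor.M11).symm⟩
  · rintro ⟨k, hk, hconj⟩
    obtain ⟨hkM, hkD⟩ := mem_M12_iff.mp hk
    -- the image of `0` under `k` is a point of the dodecad fixed by the one-point stabiliser of `none`
    set q := k (some 0) with hq
    have hqD : q ∈ setOf D0 := by
      rw [← hkD]
      exact Finset.mem_smul_finset.mpr ⟨some 0, some0_mem, rfl⟩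
    have hfix : ∀ x ∈ Spor.M12 ⊓ MulAction.stabilizer (Equiv.Perm GolayPt) (none : GolayPt), x q = q := by
      intro x hx
      rw [← hconj, Subgroup.mem_pointwise_smul_iff_inv_smul_mem] at hx
      have e : (MulAut.conj k)⁻¹ • x = k⁻¹ * x * k := by
        rw [MulAut.smul_def, MulAut.conj_inv_apply]
      rw [e] at hx
      have h2 := (mem_M11_iff'.mp hx).2.2
      rw [Equiv.Perm.mul_apply, Equiv.Perm.mul_apply, ← hq] at h2
      have h3 := congrArg k h2
      simpa [hq] using h3
    -- three points of the dodecad: choose a target different from `q`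
    have hD0d : setOf D0 ∈ dodecads :=
      (setOf_mem_dodecads_iff D0_lt).mpr ⟨by decide +kernel, by decide +kernel⟩
    have hnone : (none : GolayPt) ∈ setOf D0c := by decide +kernel
    -- three further points of the dodecad
    have h12 : (((setOf D0).erase q)).card = 11 := by
      rw [Finset.card_erase_of_mem hqD, hD0d.2]
    obtain ⟨r, hr⟩ : ((setOf D0).erase q).Nonempty := by
      rw [← Finset.card_pos, h12]
      norm_num
    obtain ⟨hrq, hrD⟩ := Finset.mem_erase.mp hr
    obtain ⟨a, ha⟩ : (((setOf D0).erase q).erase r).Nonempty := by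
      rw [← Finset.card_pos, Finset.card_erase_of_mem hr, h12]
      norm_num
    obtain ⟨har, haq, haD⟩ : a ≠ r ∧ a ≠ q ∧ a ∈ setOf D0 := by
      simpa using ha
    obtain ⟨b, hb⟩ : (((setOf D0).erase q).erase a).Nonempty := by
      rw [← Finset.card_pos, Finset.card_erase_of_mem (Finset.mem_erase.mpr ⟨haq, haD⟩), h12]
      norm_num
    obtain ⟨hba, hbq, hbD⟩ : b ≠ a ∧ b ≠ q ∧ b ∈ setOf D0 := by
      simpa using hb
    obtain ⟨c, hc⟩ : (((setOf D0).erase r).erase a).Nonempty := by
      rw [← Finset.card_pos, Finset.card_erase_of_mem (Finset.mem_erase.mpr ⟨har, haD⟩),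
        Finset.card_erase_of_mem hrD, hD0d.2]
      norm_num
    obtain ⟨hca, hcr, hcD⟩ : c ≠ a ∧ c ≠ r ∧ c ∈ setOf D0 := by
      simpa using hc
    -- `(q, a, b) ↦ (r, a, c)`
    have hna : ∀ z, z ∈ setOf D0 → z ∉ setOf D0c := fun z hz hz' => ((mem_D0c_iff z).mp hz') hz
    obtain ⟨g, hg, hg'⟩ := three_transitive D0c_mem hnone
      (⟨![q, a, b], by
        intro i j hij
        fin_cases i <;> fin_cases j <;> simp_all⟩ : Fin 3 ↪ GolayPt)
      (⟨![r, a, c], by
        intro i j hij
        fin_cases i <;> fin_cases j <;> simp_all⟩ : Fin 3 ↪ GolayPt)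
      (by
        intro i
        fin_cases i
        · exact hna _ hqD
        · exact hna _ haD
        · exact hna _ hbD)
      (by
        intro i
        fin_cases i
        · exact hna _ hrD
        · exact hna _ haD
        · exact hna _ hcD)
    have hg1 : (g : Equiv.Perm GolayPt) q = r := hg' 0
    have hgD : (g : Equiv.Perm GolayPt) • setOf D0c = setOf D0c := MulAction.mem_stabilizer_iff.mp hg.1
    have hgN : (g : Equiv.Perm GolayPt) none = none := MulAction.mem_stabilizer_iff.mp hg.2
    have hmem : (g : Equiv.Perm GolayPt) ∈ Spor.M12 ⊓ MulAction.stabilizer (Equiv.Perm GolayPt) (none : GolayPt) :=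
      Subgroup.mem_inf.mpr ⟨mem_M12_iff.mpr ⟨g.2, stab_compl.mp hgD⟩, MulAction.mem_stabilizer_iff.mpr hgN⟩
    have := hfix _ hmem
    rw [hg1] at this
    exact hrq this
  · rw [hsq, projInv_smul_D0, compl_D0]

end Cfsg.Agent.S5620
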