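import Cfsg.Statements.S5625
import Cfsg.Agent.Lib.Steiner.Counting

set_option autoImplicit false
open Cfsg

namespace Cfsg.Agent.S5625

open Finset

/-- In any Steiner system S(5, 8, 24) and for any set Y of three points, the blocks meeting Y in exactly 3, 2, 1 and 0 points number 21, 168, 360 and 210 respectively (so there are 759 blocks in all). -/
theorem result (α : Type*) [Fintype α] [DecidableEq α] (hα : Fintype.card α = 24) (B : Set (Finset α)) (hB : Cfsg.IsSteinerSystem 5 8 B) (Y : Finset α) (hY : Y.card = 3) : {b : Finset α | b ∈ B ∧ (b ∩ Y).card = 3}.ncard = 21 ∧ {b : Finset α | b ∈ B ∧ (b ∩ Y).card = 2}.ncard = 168 ∧ {b : Finset α | b ∈ B ∧ (b ∩ Y).card = 1}.ncard = 360 ∧ {b : Finset α | b ∈ B ∧ (b ∩ Y).card = 0}.ncard = 210 := by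
  classical
  have hfin : B.Finite := Set.toFinite B
  set B' : Finset (Finset α) := hfin.toFinset with hB'def
  have hB' : ∀ b, b ∈ B' ↔ b ∈ B := fun b => hfin.mem_toFinset
  -- number of blocks through a set of size i
  have hthrough := Cfsg.Agent.Lib.Steiner.Counting.card_blocks_through hB B' hB'
  have n3 : ∀ S : Finset α, S.card = 3 → (B'.filter (fun b => S ⊆ b)).card = 21 := by
    intro S hS
    have := hthrough S (by omega)
    rw [hS, hα] at this
    norm_num [Nat.choose] at this
    omega
  have n2 : ∀ S : Finset α, S.card = 2 → (B'.filter (fun b => S ⊆ b)).card = 77 := by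
    intro S hS
    have := hthrough S (by omega)
    rw [hS, hα] at this
    norm_num [Nat.choose] at this
    omega
  have n1 : ∀ S : Finset α, S.card = 1 → (B'.filter (fun b => S ⊆ b)).card = 253 := by
    intro S hS
    have := hthrough S (by omega)
    rw [hS, hα] at this
    norm_num [Nat.choose] at this
    omega
  have n0 : ∀ S : Finset α, S.card = 0 → (B'.filter (fun b => S ⊆ b)).card = 759 := by
    intro S hS
    have := hthrough S (by omega)
    rw [hS, hα] at this
    norm_num [Nat.choose] at this
    omega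
  -- the moment identity
  have hmom : ∀ k : ℕ, ∑ b ∈ B', (b ∩ Y).card.choose k =
      ∑ S ∈ powersetCard k Y, (B'.filter (fun b => S ⊆ b)).card := by
    intro k
    have hdouble := Finset.sum_card_bipartiteAbove_eq_sum_card_bipartiteBelow
      (s := powersetCard k Y) (t := B') (fun S b => S ⊆ b)
    have e1 : ∀ b ∈ B', (b ∩ Y).card.choose k =
        ((powersetCard k Y).bipartiteBelow (fun S b => S ⊆ b) b).card := by
      intro b _
      rw [← card_powersetCard]
      congr 1
      ext S
      simp only [bipartiteBelow, mem_filter, mem_powersetCard, subset_inter_iff]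
      tauto
    rw [sum_congr rfl e1, ← hdouble]
    rfl
  have hY3 : ∀ b : Finset α, (b ∩ Y).card ≤ 3 := fun b => by
    rw [← hY]; exact card_le_card inter_subset_right
  -- fibres
  have hfib : ∀ f : ℕ → ℕ, ∑ b ∈ B', f (b ∩ Y).card =
      (B'.filter (fun b => (b ∩ Y).card = 0)).card * f 0 +
      (B'.filter (fun b => (b ∩ Y).card = 1)).card * f 1 +
      (B'.filter (fun b => (b ∩ Y).card = 2)).card * f 2 +
      (B'.filter (fun b => (b ∩ Y).card = 3)).card * f 3 := by
    intro f
    have h := Finset.sum_fiberwise_of_maps_to (s := B') (t := range 4) (g := fun b => (b ∩ Y).card)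
      (fun b _ => by simpa [Nat.lt_succ_iff] using hY3 b) (fun b => f (b ∩ Y).card)
    rw [← h]
    simp only [sum_range_succ, sum_range_zero, zero_add]
    have e : ∀ j : ℕ, ∑ b ∈ B' with (b ∩ Y).card = j, f (b ∩ Y).card =
        (B'.filter (fun b => (b ∩ Y).card = j)).card * f j := by
      intro j
      rw [sum_congr rfl (g := fun _ => f j)]
      · rw [sum_const, smul_eq_mul]
      · intro b hb
        rw [(mem_filter.1 hb).2]
    rw [e 0, e 1, e 2, e 3]
  set a0 := (B'.filter (fun b => (b ∩ Y).card = 0)).card with ha0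
  set a1 := (B'.filter (fun b => (b ∩ Y).card = 1)).card with ha1
  set a2 := (B'.filter (fun b => (b ∩ Y).card = 2)).card with ha2
  set a3 := (B'.filter (fun b => (b ∩ Y).card = 3)).card with ha3
  have hsum : ∀ (k N : ℕ), (∀ S : Finset α, S.card = k → (B'.filter (fun b => S ⊆ b)).card = N) →
      ∑ S ∈ powersetCard k Y, (B'.filter (fun b => S ⊆ b)).card = Nat.choose 3 k * N := by
    intro k N hN
    rw [sum_congr rfl (g := fun _ => N), sum_const, smul_eq_mul, card_powersetCard, hY]
    intro S hS
    exact hN S (mem_powersetCard.1 hS).2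
  have e3 := (hfib (fun j => j.choose 3)).symm.trans ((hmom 3).trans (hsum 3 21 n3))
  have e2 := (hfib (fun j => j.choose 2)).symm.trans ((hmom 2).trans (hsum 2 77 n2))
  have e1 := (hfib (fun j => j.choose 1)).symm.trans ((hmom 1).trans (hsum 1 253 n1))
  have e0 := (hfib (fun j => j.choose 0)).symm.trans ((hmom 0).trans (hsum 0 759 n0))
  norm_num [Nat.choose] at e3 e2 e1 e0
  have hset : ∀ j : ℕ, {b : Finset α | b ∈ B ∧ (b ∩ Y).card = j}.ncard =
      (B'.filter (fun b => (b ∩ Y).card = j)).card := by
    intro j
    rw [← Set.ncard_coe_finset]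
    congr 1
    ext b
    simp [hB']
  rw [hset, hset, hset, hset]
  refine ⟨?_, ?_, ?_, ?_⟩ <;> omega

end Cfsg.Agent.S5625
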