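import Cfsg.Statements.S5632
import Cfsg.Agent.Lib.Geo.Parabolic

set_option autoImplicit false
open Cfsg

namespace Cfsg.Agent.S5632

/-- For a finite field F and subspaces 0 < W < U of F^n with dim W + dim U = n, the elements of SL_n(F) stabilising both W and U form a subgroup that is not maximal in SL_n(F): some subgroup lies strictly between it and SL_n(F). -/
theorem result {F : Type*} [Field F] [Fintype F] (n : ℕ) (W U : Submodule F (Fin n → F)) (hW0 : W ≠ ⊥) (hWU : W < U) (hdim : Module.finrank F W + Module.finrank F U = n) : ∃ K : Subgroup (Matrix.GeneralLinearGroup (Fin n) F), Cfsg.Geo.subspaceStabilizer W ⊓ Cfsg.Geo.subspaceStabilizer U ⊓ Cfsg.Geo.specialLinear (Fin n) F < K ∧ K < Cfsg.Geo.specialLinear (Fin n) F := by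
  have hU : U ≠ ⊤ := by
    rintro rfl
    have hpos : 0 < Module.finrank F W := Module.finrank_pos_iff_exists_ne_zero.mpr (by
      obtain ⟨w, hw, hw0⟩ := Submodule.exists_mem_ne_zero_of_ne_bot hW0
      exact ⟨⟨w, hw⟩, fun h => hw0 (congrArg Subtype.val h)⟩)
    have hn' : Module.finrank F (⊤ : Submodule F (Fin n → F)) = n := by simp
    omega
  refine ⟨Cfsg.Geo.subspaceStabilizer W ⊓ Cfsg.Geo.specialLinear (Fin n) F, ?_, ?_⟩
  · exact Cfsg.Agent.Lib.Geo.Parabolic.stab_inf_stab_lt_of_lt W U hWU hU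
  · exact Cfsg.Agent.Lib.Geo.Parabolic.subspaceStabilizer_inf_lt_specialLinear W hW0 (by
      rintro rfl
      exact hU (top_le_iff.mp hWU.le))

end Cfsg.Agent.S5632
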