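import Cfsg.Statements.S5649
import Cfsg.Agent.Lib.Geo.SpLagrange

set_option autoImplicit false
open Cfsg

namespace Cfsg.Agent.S5649

/-- For a finite field F of odd order and m ≥ 7, let D be a decomposition of F^(2m) into two complementary subspaces of dimension m on each of which the standard alternating form vanishes identically. Then the elements of Sp_2m(F) preserving or interchanging the two subspaces form a maximal subgroup of Sp_2m(F). -/
theorem result {F : Type*} [Field F] [Fintype F] (m : ℕ) (hm : 7 ≤ m) (hodd : Odd (Fintype.card F)) (D : Fin 2 → Submodule F (Fin m ⊕ Fin m → F)) (hD : Cfsg.Geo.IsMDecomposition m D) (hts : ∀ i, Cfsg.Geo.IsTotallySingularFor (Cfsg.sympForm m F) (D i)) : Cfsg.Geo.IsMaximalIn (Cfsg.spGL m F) (Cfsg.Geo.decompositionStabilizer D ⊓ Cfsg.spGL m F) := by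
  have h2 : (2 : F) ≠ 0 := by
    intro h
    have hc : ringChar F = 2 := by
      have := CharTwo.of_one_ne_zero_of_two_eq_zero (R := F) one_ne_zero h
      exact ringChar.eq F 2
    have h3 := FiniteField.even_card_of_char_two hc
    exact Nat.not_even_iff_odd.mpr hodd (Nat.even_iff.mpr h3)
  exact Cfsg.Agent.Lib.Geo.SpLagrange.lagrangian_isMaximalIn (Cfsg.Agent.Lib.Geo.SpBase.isSpGroup_spGL m) h2 (by omega) hD hts

end Cfsg.Agent.S5649
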