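import Cfsg.Statements.S5662
import Cfsg.Agent.Lib.AschS.Main
import Cfsg.Agent.Lib.Geo.Basic

set_option autoImplicit false
open Cfsg

namespace Cfsg.Agent.S5662

/-- Subgroup structure of the finite symplectic groups. Let F be a finite field and m ≥ 2 with (m, |F|) ≠ (2, 2), and let Sp_2m(F) be the group of invertible matrices preserving the standard alternating form on F^(2m). Let H be a subgroup of Sp_2m(F) whose product with the scalar matrices ±1 is not all of Sp_2m(F) (H does not cover PSp_2m(F)). Then either H is contained in a member of one of the eight geometric classes of subgroups of Sp_2m(F) (with the conditions built into InSymplecticClass), or H is in the residual class: modulo scalars it is almost simple, and the perfect preimage of its socle acts absolutely irreducibly, is realisable over no proper subfield, and fixes no non-degenerate quadratic form and no non-degenerate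 unitary form on F^(2m). -/
theorem result {F : Type*} [Field F] [Fintype F] (m : ℕ) (hm : 2 ≤ m) (hex : ¬ (m = 2 ∧ Fintype.card F = 2)) (H : Subgroup (Matrix.GeneralLinearGroup (Fin m ⊕ Fin m) F)) (hH : H ≤ Cfsg.spGL m F) (hproper : H ⊔ (Cfsg.Geo.scalars (Fin m ⊕ Fin m) F ⊓ Cfsg.spGL m F) ≠ Cfsg.spGL m F) : (∃ M : Subgroup (Matrix.GeneralLinearGroup (Fin m ⊕ Fin m) F), Cfsg.Geo.InSymplecticClass m F M ∧ H ≤ M) ∨ Cfsg.Geo.InSymplecticResidualClass H := by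
  classical
  have hm0 : 0 < m := by omega
  by_cases hC : ∃ M : Subgroup (Matrix.GeneralLinearGroup (Fin m ⊕ Fin m) F), Cfsg.Geo.InSymplecticClass m F M ∧ H ≤ M
  · exact Or.inl hC
  right
  haveI : Nonempty (Fin m ⊕ Fin m) := ⟨Sum.inl ⟨0, hm0⟩⟩
  have hcardι : Fintype.card (Fin m ⊕ Fin m) = m + m := by simp
  refine Cfsg.Agent.Lib.AschS.Main.main_of_noclass (Cfsg.Agent.Lib.AschS.Base.hf_symp m) (Cfsg.Agent.Lib.AschS.Base.symp_self m)
    (by rw [hcardι]; omega) (fun g hg u v => (Cfsg.Agent.Lib.Geo.Basic.mem_spGL_iff m g).1 (hH hg) u v) ?_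
  refine ⟨?_, ?_, ?_, ?_, ?_, ?_, ?_, ?_, ?_, ?_, ?_⟩
  · intro W h1 h3 h4
    exact hC ⟨_, Or.inl (Or.inl ⟨W, h1, h3, rfl⟩), le_inf h4 hH⟩
  · intro W h1 h3 h4 h5
    rw [hcardι] at h4
    exact hC ⟨_, Or.inl (Or.inr (Or.inl ⟨W, h1, h3, by omega, rfl⟩)), le_inf h5 hH⟩
  · intro t k D h1 h3
    exact hC ⟨_, Or.inl (Or.inr (Or.inr (Or.inl ⟨t, k, D, h1, rfl⟩))), le_inf h3 hH⟩
  · intro k D h1 h3 h4 h5 h6
    rw [hcardι] at h3
    obtain rfl : k = m := by omega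
    exact hC ⟨_, Or.inl (Or.inr (Or.inr (Or.inr (Or.inl ⟨D, h1, h4, h5, rfl⟩)))), le_inf h6 hH⟩
  · intro F₀ r P ζ h1 h3 h4 h5 h6
    exact hC ⟨_, Or.inl (Or.inr (Or.inr (Or.inr (Or.inr (Or.inl ⟨F₀, r, P, ζ, h1, h3, h4, h5, rfl⟩))))), le_inf h6 hH⟩
  · intro R p k h1 h3 h4 h5 h6 h7 h8 h9 h10 h11
    exact hC ⟨_, Or.inl (Or.inr (Or.inr (Or.inr (Or.inr (Or.inr (Or.inl ⟨R, p, k, h1, h3, h4, h5, h6, h7, h8, h9, h10, rfl⟩)))))), le_inf h11 hH⟩
  · intro Q h1 h3 h4 h5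
    exact hC ⟨_, Or.inl (Or.inr (Or.inr (Or.inr (Or.inr (Or.inr (Or.inr ⟨Q, h1, h3, h4, rfl⟩)))))), le_inf h5 hH⟩
  · intro r K h1 h3 h4 h5 h6
    exact hC ⟨_, Or.inr (Or.inl ⟨r, K, h1, h3, h4, h5, rfl⟩), le_inf h6 hH⟩
  · intro K h1 h3 h4 h5 h6
    exact hC ⟨_, Or.inr (Or.inr (Or.inl ⟨K, h1, h3, h4, h5, rfl⟩)), le_inf h6 hH⟩
  · intro n₁ n₂ e P f₁ f₂ h1 h3 h4 h5 h6 h7
    exact hC ⟨_, Or.inr (Or.inr (Or.inr (Or.inl ⟨n₁, n₂, e, P, f₁, f₂, h1, h3, h4, h5, h6, rfl⟩))), le_inf h7 hH⟩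
  · intro k t e P f₁ h1 h3 h4 h5 h6 h7 h8
    exact hC ⟨_, Or.inr (Or.inr (Or.inr (Or.inr ⟨k, t, e, P, f₁, h1, h3, h4, h5, h6, h7, rfl⟩))), le_inf h8 hH⟩

end Cfsg.Agent.S5662
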