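import Cfsg.Statements.S5663
import Cfsg.Agent.Lib.AschU.Main

set_option autoImplicit false
open Cfsg

namespace Cfsg.Agent.S5663

/-- Subgroup structure of the finite unitary groups. Let F be the field with q² elements and n ≥ 3 with (n, q) ≠ (3, 2), and let SU_n(q) be the group of matrices of determinant one preserving the standard unitary form Σ u_i v_i^q on F^n. Let H be a subgroup of SU_n(q) whose product with the scalar matrices in SU_n(q) is not all of SU_n(q) (H does not cover PSU_n(q)). Then either H is contained in a member of one of the geometric classes of subgroups of the unitary group GU_n(q) (with the conditions built into InUnitaryClass), or H is in the residual class: modulo scalars it is almost simple, and the perfect preimage of its socle acts absolutely irreducibly, is realisable over no proper subfield of F, and fixes no non-degenerate quadratic form and no non-degenerate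 symplectic form on F^n. -/
theorem result {F : Type*} [Field F] [Fintype F] (n q : ℕ) (hF : Fintype.card F = q ^ 2) (hn : 3 ≤ n) (hex : ¬ (n = 3 ∧ q = 2)) (H : Subgroup (Matrix.GeneralLinearGroup (Fin n) F)) (hH : H ≤ (Cfsg.GU n F q ⊓ Cfsg.Geo.specialLinear (Fin n) F)) (hproper : H ⊔ (Cfsg.Geo.scalars (Fin n) F ⊓ (Cfsg.GU n F q ⊓ Cfsg.Geo.specialLinear (Fin n) F)) ≠ (Cfsg.GU n F q ⊓ Cfsg.Geo.specialLinear (Fin n) F)) : (∃ M : Subgroup (Matrix.GeneralLinearGroup (Fin n) F), Cfsg.Geo.InUnitaryClass n F q M ∧ H ≤ M) ∨ Cfsg.Geo.InUnitaryResidualClass H := by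
  classical
  have hHI : H ≤ Cfsg.GU n F q := hH.trans inf_le_left
  by_cases hC : ∃ M : Subgroup (Matrix.GeneralLinearGroup (Fin n) F), Cfsg.Geo.InUnitaryClass n F q M ∧ H ≤ M
  · exact Or.inl hC
  right
  refine Cfsg.Agent.Lib.AschU.Main.main_of_noclass hF (by omega) hHI ?_
  refine ⟨?_, ?_, ?_, ?_, ?_, ?_, ?_, ?_, ?_, ?_, ?_⟩
  · intro W h1 h3 h4
    exact hC ⟨_, Or.inl (Or.inl ⟨W, h1, h3, rfl⟩), le_inf h4 hHI⟩
  · intro W h1 h3 h4 h5
    exact hC ⟨_, Or.inl (Or.inr (Or.inl ⟨W, h1, h3, h4, rfl⟩)), le_inf h5 hHI⟩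
  · intro t k D h1 h3
    exact hC ⟨_, Or.inl (Or.inr (Or.inr (Or.inl ⟨t, k, D, h1, rfl⟩))), le_inf h3 hHI⟩
  · intro k D h1 h3 h4 h5
    exact hC ⟨_, Or.inl (Or.inr (Or.inr (Or.inr (Or.inl ⟨k, D, h1, h3, h4, rfl⟩)))), le_inf h5 hHI⟩
  · intro F₀ r P h1 h3 h4 h5 h6
    exact hC ⟨_, Or.inl (Or.inr (Or.inr (Or.inr (Or.inr (Or.inl ⟨F₀, r, P, h1, h3, h4, h5, rfl⟩))))), le_inf h6 hHI⟩
  · intro F₀ P h1 h3 h4 h5
    exact hC ⟨_, Or.inl (Or.inr (Or.inr (Or.inr (Or.inr (Or.inr (Or.inl ⟨F₀, P, h1, h3, h4, rfl⟩)))))), le_inf h5 hHI⟩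
  · intro F₀ P ζ h1 h3 h4 h5 h6 h7 h8
    exact hC ⟨_, Or.inl (Or.inr (Or.inr (Or.inr (Or.inr (Or.inr (Or.inr (Or.inl ⟨F₀, P, ζ, h1, h3, h4, h5, h6, h7, rfl⟩))))))), le_inf h8 hHI⟩
  · intro r R p e k h1 h3 h4 h5 h6 h7 h8
    exact hC ⟨_, Or.inl (Or.inr (Or.inr (Or.inr (Or.inr (Or.inr (Or.inr (Or.inr ⟨r, R, p, e, k, h1, h3, h4, h5, h6, h7, rfl⟩))))))), le_inf h8 hHI⟩
  · intro r K h1 h3 h4 h5 h6
    exact hC ⟨_, Or.inr (Or.inl ⟨r, K, h1, h3, h4, h5, rfl⟩), le_inf h6 hHI⟩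
  · intro n₁ n₂ e P f₁ f₂ h1 h3 h4 h5 h6 h7
    exact hC ⟨_, Or.inr (Or.inr (Or.inl ⟨n₁, n₂, e, P, f₁, f₂, h1, h3, h4, h5, h6, rfl⟩)), le_inf h7 hHI⟩
  · intro k t e P f₁ h1 h3 h4 h5 h6 h7
    exact hC ⟨_, Or.inr (Or.inr (Or.inr ⟨k, t, e, P, f₁, h1, h3, h4, h5, h6, rfl⟩)), le_inf h7 hHI⟩

end Cfsg.Agent.S5663
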