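import Cfsg.Statements.S5665
import Cfsg.Agent.Lib.Geo.SpGU

set_option autoImplicit false
open Cfsg

namespace Cfsg.Agent.S5665

/-- For a finite field F of odd order and m ≥ 7, let K be a subfield of the algebra of 2m × 2m matrices over F containing the scalars, of degree 2 over F, that is closed under adjoints for the standard alternating form on F^(2m) but whose elements are not all self-adjoint (so the adjoint map induces the automorphism of order two of K). Then the elements of Sp_2m(F) normalising K form a maximal subgroup of Sp_2m(F). -/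
theorem result {F : Type*} [Field F] [Fintype F] (m : ℕ) (hm : 7 ≤ m) (hodd : Odd (Fintype.card F)) (K : Subalgebra F (Matrix (Fin m ⊕ Fin m) (Fin m ⊕ Fin m) F)) (hK : Cfsg.Geo.IsFieldSubalgebra 2 K) (hac : Cfsg.Geo.IsAdjointClosedFor (Cfsg.sympForm m F) K) (hnsa : ¬ Cfsg.Geo.IsSelfAdjointFor (Cfsg.sympForm m F) K) : Cfsg.Geo.IsMaximalIn (Cfsg.spGL m F) (Cfsg.Geo.subalgebraNormalizer K ⊓ Cfsg.spGL m F) := by
  have S := Cfsg.Agent.Lib.Geo.SpBase.isSpGroup_spGL (F := F) m
  have hf := Cfsg.Agent.Lib.Geo.SpBase.isSymplecticForm_sympForm (F := F) m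
  have h2 : (2 : F) ≠ 0 := by
    intro h0
    have h3 : ringChar F = 2 := by
      have := CharP.ringChar_of_prime_eq_zero Nat.prime_two (R := F) (by exact_mod_cast h0)
      exact this
    have h5 := FiniteField.even_card_of_char_two h3
    exact (Nat.not_even_iff_odd.mpr hodd) (Nat.even_iff.mpr h5)
  obtain ⟨θ, d, D, hKK⟩ := Cfsg.Agent.Lib.Geo.SpGU.exists_kstr hf K hK hac hnsa h2
  exact D.isMaximalIn S (by simp; omega) K hKK

end Cfsg.Agent.S5665
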