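import Cfsg.Statements.S5673
import Cfsg.Agent.Lib.AschF.OddE
import Cfsg.Agent.Lib.GeoOmega.Planes

set_option autoImplicit false
open Cfsg

namespace Cfsg.Agent.S5673

/-- Subgroup structure of the odd-dimensional orthogonal groups. Let F be a finite field of odd order and m ≥ 3, let Q be the standard quadratic form x₀² + Σ x_i y_i on F^(2m+1), and let Ω be the commutator subgroup of its isometry group, viewed inside GL_(2m+1)(F). Let H be a subgroup of Ω whose product with the scalar matrices in Ω is not all of Ω. Then either H is contained in a member of one of the geometric classes of subgroups of the isometry group (with the conditions built into InOrthogonalOddClass), or H is in the residual class: modulo scalars it is almost simple, and the perfect preimage of its socle acts absolutely irreducibly, is realisable over no proper subfield, and fixes no non-degenerate unitary form. -/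
theorem result {F : Type*} [Field F] [Fintype F] (hodd : Odd (Fintype.card F)) (m : ℕ) (hm : 3 ≤ m) (H : Subgroup (Matrix.GeneralLinearGroup (Unit ⊕ (Fin m ⊕ Fin m)) F)) (hH : H ≤ Cfsg.Geo.omegaGL (Cfsg.quadFormOdd m F)) (hproper : H ⊔ (Cfsg.Geo.scalars (Unit ⊕ (Fin m ⊕ Fin m)) F ⊓ Cfsg.Geo.omegaGL (Cfsg.quadFormOdd m F)) ≠ Cfsg.Geo.omegaGL (Cfsg.quadFormOdd m F)) : (∃ M : Subgroup (Matrix.GeneralLinearGroup (Unit ⊕ (Fin m ⊕ Fin m)) F), Cfsg.Geo.InOrthogonalOddClass m F M ∧ H ≤ M) ∨ Cfsg.Geo.InOrthogonalResidualClass H := by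
  classical
  have h2 : (2 : F) ≠ 0 := by
    intro h
    have hF : ringChar F = 2 := by
      haveI : CharP F 2 := by
        obtain ⟨p, hp⟩ := CharP.exists F
        have h3 : ((2 : ℕ) : F) = 0 := by exact_mod_cast h
        have h4 := (CharP.cast_eq_zero_iff F p 2).1 h3
        have h5 : p.Prime := CharP.char_is_prime F p
        have h6 : p = 2 := (Nat.prime_dvd_prime_iff_eq h5 Nat.prime_two).1 h4
        rw [h6] at hp
        exact hp
      exact ringChar.eq F 2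
    have h7 := FiniteField.even_card_of_char_two hF
    rw [Nat.odd_iff] at hodd
    omega
  have hQ := Cfsg.Agent.Lib.GeoOmega.Planes.quadFormOdd_nondeg m F h2
  have hHI : H ≤ Cfsg.isometryGroup F (Cfsg.quadFormOdd m F) := by
    refine hH.trans ?_
    rintro _ ⟨g, -, rfl⟩
    exact g.2
  by_cases hC : ∃ M : Subgroup (Matrix.GeneralLinearGroup (Unit ⊕ (Fin m ⊕ Fin m)) F), Cfsg.Geo.InOrthogonalOddClass m F M ∧ H ≤ M
  · exact Or.inl hC
  right
  haveI : Nonempty (Unit ⊕ (Fin m ⊕ Fin m)) := ⟨Sum.inl ()⟩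
  have hcardι : Fintype.card (Unit ⊕ (Fin m ⊕ Fin m)) = 2 * m + 1 := by
    simp [Fintype.card_sum]
    omega
  refine Cfsg.Agent.Lib.AschF.OddE.main_of_noclass hQ h2 (by rw [hcardι]; exact ⟨m, rfl⟩) (by rw [hcardι]; omega) ?_ hHI ?_
  · intro F₁ a b
    change QuadraticMap.polar (Cfsg.quadFormOdd m F) _ _ ∈ F₁
    rw [Cfsg.Agent.Lib.GeoOmega.Planes.polar_quadFormOdd]
    have hs : ∀ (c d : Unit ⊕ (Fin m ⊕ Fin m)), (Pi.single c (1 : F) : Unit ⊕ (Fin m ⊕ Fin m) → F) d ∈ F₁ := by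
      intro c d
      exact Cfsg.Agent.Lib.Geo.RatStruct.isRat_single c d
    have h2F : (2 : F) ∈ F₁ := by
      have := F₁.add_mem F₁.one_mem F₁.one_mem
      rwa [one_add_one_eq_two] at this
    refine F₁.add_mem (F₁.mul_mem h2F (F₁.mul_mem (hs _ _) (hs _ _))) (F₁.sum_mem fun i _ => F₁.add_mem (F₁.mul_mem (hs _ _) (hs _ _)) (F₁.mul_mem (hs _ _) (hs _ _)))
  · refine ⟨?_, ?_, ?_, ?_, ?_, ?_, ?_, ?_⟩
    · intro W h1 h3 h4
      exact hC ⟨_, Or.inl ⟨W, h1, h3, rfl⟩, le_inf h4 hHI⟩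
    · intro W h1 h3 h4 h5
      exact hC ⟨_, Or.inr (Or.inl ⟨W, h1, h3, h4, rfl⟩), le_inf h5 hHI⟩
    · intro t k D h1 h3 h4
      exact hC ⟨_, Or.inr (Or.inr (Or.inl ⟨t, k, D, h1, h3, rfl⟩)), le_inf h4 hHI⟩
    · intro t D h1 h3 h4
      exact hC ⟨_, Or.inr (Or.inr (Or.inr (Or.inl ⟨t, D, h1, h3, rfl⟩))), le_inf h4 hHI⟩
    · intro r K h1 h3 h4 h5 h6
      refine hC ⟨_, Or.inr (Or.inr (Or.inr (Or.inr (Or.inl ⟨r, K, h1, ?_, h4, h5, rfl⟩)))), le_inf h6 hHI⟩
      rw [← hcardι]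
      exact h3
    · intro n₁ n₂ e P f₁ f₂ h1 h3 h4 h5 h6 h7
      exact hC ⟨_, Or.inr (Or.inr (Or.inr (Or.inr (Or.inr (Or.inl ⟨n₁, n₂, e, P, f₁, f₂, h1, h3, h4, h5, h6, rfl⟩))))), le_inf h7 hHI⟩
    · intro F₀ r P h1 h3 h4 h5
      exact hC ⟨_, Or.inr (Or.inr (Or.inr (Or.inr (Or.inr (Or.inr (Or.inl ⟨F₀, r, P, h1, h3, h4, rfl⟩)))))), le_inf h5 hHI⟩
    · intro k t e P f₁ h1 h3 h4 h5 h6 h7
      exact hC ⟨_, Or.inr (Or.inr (Or.inr (Or.inr (Or.inr (Or.inr (Or.inr ⟨k, t, e, P, f₁, h1, h3, h4, h5, h6, rfl⟩)))))), le_inf h7 hHI⟩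

end Cfsg.Agent.S5673
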