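import Cfsg.Statements.S5674
import Cfsg.Agent.Lib.GeoOmega.Singular
-- import your own Cfsg.Agent.* helpers here

set_option autoImplicit false
open Cfsg

namespace Cfsg.Agent.S5674

/-- Let F be a finite field of odd order, m ≥ 6, Q the standard quadratic form x₀² + Σ x_i y_i on F^(2m+1) and Ω the commutator subgroup of its isometry group inside GL_(2m+1)(F). The elements of Ω stabilising a non-zero subspace on which Q vanishes form a maximal subgroup of Ω. -/
theorem result {F : Type*} [Field F] [Fintype F] (hodd : Odd (Fintype.card F)) (m : ℕ) (hm : 6 ≤ m) (W : Submodule F (Unit ⊕ (Fin m ⊕ Fin m) → F)) (hW0 : W ≠ ⊥) (hW : Cfsg.Geo.IsTotallySingularQuad (Cfsg.quadFormOdd m F) W) : Cfsg.Geo.IsMaximalIn (Cfsg.Geo.omegaGL (Cfsg.quadFormOdd m F)) (Cfsg.Geo.subspaceStabilizer W ⊓ Cfsg.Geo.omegaGL (Cfsg.quadFormOdd m F)) := by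
  have h2 : (2 : F) ≠ 0 := by
    intro h
    have hc : ringChar F = 2 := by
      have := CharTwo.of_one_ne_zero_of_two_eq_zero (R := F) one_ne_zero h
      exact ringChar.eq F 2
    have h3 := FiniteField.even_card_of_char_two hc
    exact Nat.not_even_iff_odd.mpr hodd (Nat.even_iff.mpr h3)
  have hQ := Cfsg.Agent.Lib.GeoOmega.Planes.quadFormOdd_nondeg m F h2
  have hcard : Fintype.card (Unit ⊕ (Fin m ⊕ Fin m)) = 2 * m + 1 := by
    simp
    omega
  refine Cfsg.Agent.Lib.GeoOmega.Singular.ts_stab_isMaximalIn hQ (by omega) W hW0 hW ?_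
  rintro ⟨U, -, -, -, hU⟩
  omega

end Cfsg.Agent.S5674
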