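import Cfsg.Statements.S5675
import Cfsg.Agent.Lib.GeoOmega.NondegW
-- import your own Cfsg.Agent.* helpers here

set_option autoImplicit false
open Cfsg

namespace Cfsg.Agent.S5675

/-- Let F be a finite field of odd order q, m ≥ 6, Q the standard quadratic form on F^(2m+1) and Ω the commutator subgroup of its isometry group. Let W be a non-zero subspace of even dimension on which the polar form of Q is non-degenerate; exclude the case q = 3, dim W = 2 with Q vanishing on some line of W (a plus-type plane). Then the elements of Ω stabilising W (equivalently, stabilising its orthogonal complement, of odd dimension) form a maximal subgroup of Ω. -/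
theorem result {F : Type*} [Field F] [Fintype F] (hodd : Odd (Fintype.card F)) (m : ℕ) (hm : 6 ≤ m) (W : Submodule F (Unit ⊕ (Fin m ⊕ Fin m) → F)) (hW0 : W ≠ ⊥) (hev : Even (Module.finrank F W)) (hW : Cfsg.Geo.IsNondegenerateOn (QuadraticMap.polar (Cfsg.quadFormOdd m F)) W) (hex : ¬ (Fintype.card F = 3 ∧ Module.finrank F W = 2 ∧ Cfsg.Geo.IsPlusTypeOn (Cfsg.quadFormOdd m F) W)) : Cfsg.Geo.IsMaximalIn (Cfsg.Geo.omegaGL (Cfsg.quadFormOdd m F)) (Cfsg.Geo.subspaceStabilizer W ⊓ Cfsg.Geo.omegaGL (Cfsg.quadFormOdd m F)) := by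
  open Cfsg.Agent.Lib.GeoOmega.NondegW Cfsg.Agent.Lib.GeoOmega.Nondeg Cfsg.Agent.Lib.GeoOmega.Basic
    Cfsg.Agent.Lib.GeoOmega.Singular in
  have h2 : (2 : F) ≠ 0 := by
    intro h
    have h1 : ringChar F = 2 := by
      have := CharTwo.of_one_ne_zero_of_two_eq_zero (R := F) one_ne_zero h
      exact ringChar.eq F 2
    obtain ⟨k, hk⟩ := hodd
    have h3 := FiniteField.even_card_of_char_two h1
    omega
  have hQ := Cfsg.Agent.Lib.GeoOmega.Planes.quadFormOdd_nondeg m F h2
  have hcard : Fintype.card (Unit ⊕ (Fin m ⊕ Fin m)) = 2 * m + 1 := by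
    simp
    omega
  have hsum := Cfsg.Agent.Lib.GeoOmega.Singular.finrank_orth' hQ W
  obtain ⟨l, hl⟩ := hev
  refine nondeg_isMaximalIn hQ (by rw [hcard]; omega) hW0 ?_ hW ?_ ?_ ?_
  · intro h
    rw [h, finrank_top] at hl
    simp at hl
    omega
  · intro hd hq y hy hyQ
    by_contra hy0
    apply hex
    refine ⟨?_, hd, plus_of_singular hQ hd hy hy0 hyQ⟩
    obtain ⟨k, hk⟩ := hodd
    have := Fintype.one_lt_card (α := F)
    omega
  · intro hd
    rw [hcard] at hsum
    omega
  · intro g _
    apply swap_of_dim hQ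
    rw [hcard]
    omega

end Cfsg.Agent.S5675
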