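import Cfsg.Statements.S5677
import Cfsg.Agent.Lib.Geo.OmDec3
import Cfsg.Agent.Lib.GeoOmega.Planes
import Cfsg.Agent.Lib.Elusive.Atoms

set_option autoImplicit false
open Cfsg

namespace Cfsg.Agent.S5677

/-- Let F be a finite field of odd order q, m ≥ 6, Q the standard quadratic form on F^(2m+1) and Ω the commutator subgroup of its isometry group. Let D be a decomposition of F^(2m+1) into t ≥ 2 pairwise orthogonal, pairwise Q-isometric subspaces of equal dimension k > 1 on which the polar form is non-degenerate. Unless q = 3 and k = 3, the elements of Ω permuting the members of D form a maximal subgroup of Ω. -/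
theorem result {F : Type*} [Field F] [Fintype F] (hodd : Odd (Fintype.card F)) (m : ℕ) (hm : 6 ≤ m) {t : ℕ} (k : ℕ) (hk : 1 < k) (D : Fin t → Submodule F (Unit ⊕ (Fin m ⊕ Fin m) → F)) (hD : Cfsg.Geo.IsOrthogonalMDecomposition (Cfsg.quadFormOdd m F) k D) (hex : ¬ (Fintype.card F = 3 ∧ k = 3)) : Cfsg.Geo.IsMaximalIn (Cfsg.Geo.omegaGL (Cfsg.quadFormOdd m F)) (Cfsg.Geo.decompositionStabilizer D ⊓ Cfsg.Geo.omegaGL (Cfsg.quadFormOdd m F)) := by
  have hoddc := Nat.odd_iff.mp hodd
  have h2 : (2 : F) ≠ 0 := by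
    intro h
    haveI : CharP F 2 := by
      haveI := CharTwo.of_one_ne_zero_of_two_eq_zero (R := F) one_ne_zero h
      infer_instance
    have h3 : ringChar F = 2 := ringChar.eq F 2
    have h4 := FiniteField.even_card_of_char_two h3
    omega
  have hQ := Cfsg.Agent.Lib.GeoOmega.Planes.quadFormOdd_nondeg m F h2
  have hcard : Fintype.card (Unit ⊕ (Fin m ⊕ Fin m)) = 2 * m + 1 := by
    simp
    ring
  have h1 := Cfsg.Agent.Lib.Elusive.Atoms.finrank_iSup_fintype D hD.decomp.decomp.indep
  rw [hD.decomp.decomp.iSup_eq_top, finrank_top, Module.finrank_fintype_fun_eq_card, hcard] at h1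
  simp only [hD.decomp.decomp.finrank_eq, Finset.sum_const, Finset.card_univ, Fintype.card_fin, smul_eq_mul] at h1
  have hkodd : k % 2 = 1 := by
    by_contra h
    have h3 : 2 ∣ k := Nat.dvd_of_mod_eq_zero (by omega)
    have h4 : 2 ∣ t * k := Dvd.dvd.mul_left h3 t
    omega
  refine Cfsg.Agent.Lib.Geo.OmDec.isMaximalIn_dec hQ hoddc (by omega) (by omega) (by omega) (fun h3 => ?_) hD
  have h5 : Fintype.card F ≠ 3 := fun h => hex ⟨h, h3⟩
  have h6 : 1 < Fintype.card F := Fintype.one_lt_card
  omega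

end Cfsg.Agent.S5677
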