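import Cfsg.Statements.S5679
import Cfsg.Agent.Lib.OmFrame.Final
import Cfsg.Agent.Lib.GeoOmega.Planes
import Cfsg.Agent.Lib.Elusive.Atoms

set_option autoImplicit false
open Cfsg


namespace Cfsg.Agent.S5679


/-- Let F be a field of odd prime order p, m ≥ 6, Q the standard quadratic form on F^(2m+1) and Ω the commutator subgroup of its isometry group. Let D be a decomposition of F^(2m+1) into pairwise orthogonal lines on which Q takes non-zero values lying in one square class (pairwise Q-isometric non-degenerate 1-spaces). Then the elements of Ω permuting these lines form a maximal subgroup of Ω. -/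
theorem result {F : Type*} [Field F] [Fintype F] (hodd : Odd (Fintype.card F)) (m : ℕ) (hm : 6 ≤ m) (hprime : (Fintype.card F).Prime) {t : ℕ} (D : Fin t → Submodule F (Unit ⊕ (Fin m ⊕ Fin m) → F)) (hD : Cfsg.Geo.IsOrthogonalMDecomposition (Cfsg.quadFormOdd m F) 1 D) : Cfsg.Geo.IsMaximalIn (Cfsg.Geo.omegaGL (Cfsg.quadFormOdd m F)) (Cfsg.Geo.decompositionStabilizer D ⊓ Cfsg.Geo.omegaGL (Cfsg.quadFormOdd m F)) := by
  have hoddc := Nat.odd_iff.mp hodd
  have h2 : (2 : F) ≠ 0 := by
    intro h
    haveI : CharP F 2 := by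
      haveI := CharTwo.of_one_ne_zero_of_two_eq_zero (R := F) one_ne_zero h
      infer_instance
    have h3 : ringChar F = 2 := ringChar.eq F 2
    have h4 := FiniteField.even_card_of_char_two h3
    omega
  have hQ := Cfsg.Agent.Lib.GeoOmega.Planes.quadFormOdd_nondeg m F h2
  have hcard : Fintype.card (Unit ⊕ (Fin m ⊕ Fin m)) = 2 * m + 1 := by
    simp
    ring
  have h1 := Cfsg.Agent.Lib.Elusive.Atoms.finrank_iSup_fintype D hD.decomp.decomp.indep
  rw [hD.decomp.decomp.iSup_eq_top, finrank_top, Module.finrank_fintype_fun_eq_card, hcard] at h1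
  simp only [hD.decomp.decomp.finrank_eq, Finset.sum_const, Finset.card_univ, Fintype.card_fin, smul_eq_mul] at h1
  obtain ⟨e, c, S⟩ := Cfsg.Agent.Lib.OmFrame.Final.exists_frame hQ h2 hD
  exact Cfsg.Agent.Lib.OmFrame.Final.frame_isMaximal S hprime hoddc (by omega) ⟨m, by omega⟩ (by omega)
    hD.decomp.decomp.finrank_eq hD.isometric

end Cfsg.Agent.S5679
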