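import Cfsg.Statements.S5692
import Cfsg.Agent.Lib.Geo.Om2H

set_option autoImplicit false
open Cfsg

namespace Cfsg.Agent.S5692

/-- Let F be a finite field with q elements, n ≥ 13 even, Q a non-degenerate quadratic form on F^n of plus type (some subspace of dimension n/2 is totally singular), and Ω the commutator subgroup of the isometry group of Q, viewed inside GL_n(F). Let D be a decomposition of F^n into t ≥ 2 pairwise orthogonal, pairwise Q-isometric subspaces of equal dimension k ≥ 2 on which the polar form is non-degenerate, such that: if k is even, either every member is of plus type or t is even; if k is odd, q is odd and the discriminant of Q is a square. Exclude the cases k = 2 with q = 3, k = 2 with plus-type members and q ∈ {2, 4, 5}, k = 3 with q = 3, and k = 4 with plus-type members and q = 2. Then the elements of Ω permuting the members of D form a maximal subgroup of Ω. -/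
theorem result {F : Type*} [Field F] [Fintype F] {n : ℕ} (hn : 13 ≤ n) (heven : Even n) (Q : (Fin n → F) → F) (hQ : Cfsg.Geo.IsNondegenerateQuadraticForm Q) (hplus : Cfsg.Geo.IsPlusTypeOn Q ⊤) {t : ℕ} (k : ℕ) (hk : 2 ≤ k) (D : Fin t → Submodule F (Fin n → F)) (hD : Cfsg.Geo.IsOrthogonalMDecomposition Q k D) (hke : Even k → ((∀ i, Cfsg.Geo.IsPlusTypeOn Q (D i)) ∨ Even t)) (hko : Odd k → (Odd (Fintype.card F) ∧ Cfsg.Geo.HasSquareDiscriminant Q)) (hex : ¬ ((k = 2 ∧ (Fintype.card F = 3 ∨ ((∀ i, Cfsg.Geo.IsPlusTypeOn Q (D i)) ∧ (Fintype.card F = 2 ∨ Fintype.card F = 4 ∨ Fintype.card F = 5)))) ∨ (k = 3 ∧ Fintype.card F = 3) ∨ (k = 4 ∧ Fintype.card F = 2 ∧ ∀ i, Cfsg.Geo.IsPlusTypeOn Q (D i)))) : Cfsg.Geo.IsMaximalIn (Cfsg.Geo.omegaGL Q) (Cfsg.Geo.decompositionStabilizer D ⊓ Cfsg.Geo.omegaGL Q) := by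
  have hc := Cfsg.Agent.Lib.Geo.Om2.card_of_dec hD
  rw [Fintype.card_fin] at hc
  have h14 : 14 ≤ n := by
    obtain ⟨m, hm⟩ := heven
    omega
  have h7 : 7 ≤ Fintype.card (Fin n) := by
    rw [Fintype.card_fin]
    omega
  have hnot : (¬ ∀ i, Cfsg.Geo.IsPlusTypeOn Q (D i)) → ∀ i, ¬ Cfsg.Geo.IsPlusTypeOn Q (D i) := fun h i hi => by
    apply h
    intro j
    exact Cfsg.Agent.Lib.Geo.Om2.plus_iso (hD.isometric i j) hi
  by_cases hk2 : k = 2
  · subst hk2
    have ht : 7 ≤ t := by omega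
    by_cases hall : ∀ i, Cfsg.Geo.IsPlusTypeOn Q (D i)
    · have hsing : ∀ i, ∃ p ∈ D i, p ≠ 0 ∧ Q p = 0 := fun i => by
        obtain ⟨U, hU, hts, hd⟩ := hall i
        rw [hD.decomp.decomp.finrank_eq] at hd
        obtain ⟨p, hp, hp0⟩ := Submodule.exists_mem_ne_zero_of_ne_bot (p := U) (by
          intro h0
          rw [h0] at hd
          simp at hd)
        exact ⟨p, hU hp, hp0, hts p hp⟩
      have hq : 7 ≤ Fintype.card F := by
        have h1 : Fintype.card F ≠ 3 := fun h => hex (Or.inl ⟨rfl, Or.inl h⟩)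
        have h2 : Fintype.card F ≠ 2 := fun h => hex (Or.inl ⟨rfl, Or.inr ⟨hall, Or.inl h⟩⟩)
        have h4 : Fintype.card F ≠ 4 := fun h => hex (Or.inl ⟨rfl, Or.inr ⟨hall, Or.inr (Or.inl h)⟩⟩)
        have h5 : Fintype.card F ≠ 5 := fun h => hex (Or.inl ⟨rfl, Or.inr ⟨hall, Or.inr (Or.inr h)⟩⟩)
        have h6 : Fintype.card F ≠ 6 := fun h => by
          have h0 := Fintype.isPrimePow_card_of_field (α := F)
          rw [h] at h0
          revert h0
          decide
        have h0 : 1 < Fintype.card F := Fintype.one_lt_card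
        omega
      exact Cfsg.Agent.Lib.Geo.Om2.isMaximalIn_plus hQ hD h7 ht hsing hq
    · have hnp := hnot hall
      exact Cfsg.Agent.Lib.Geo.Om2.isMaximalIn_anis hQ hD h7 ht (fun i x hx hx0 hxQ => hnp i
        (Cfsg.Agent.Lib.Geo.Om2.plus_of_sing hQ (hD.decomp.decomp.finrank_eq i) hx hx0 hxQ))
        (fun h => hex (Or.inl ⟨rfl, Or.inl h⟩))
  · refine Cfsg.Agent.Lib.Geo.Om2.isMaximalIn_ge3 hQ hD h7 (by omega) (fun h => Nat.odd_iff.mp (hko h).1)
      (fun h3 h => hex (Or.inr (Or.inl ⟨h3, h⟩))) (fun h2 hk4 => hnot fun hall => hex (Or.inr (Or.inr ⟨hk4, h2, hall⟩)))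

end Cfsg.Agent.S5692
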