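import Cfsg.Statements.S5696
import Cfsg.Agent.Lib.OmFrame.EvenC
import Cfsg.Agent.Lib.GeoOmega.Planes
import Cfsg.Agent.Lib.Elusive.Atoms

set_option autoImplicit false
open Cfsg

namespace Cfsg.Agent.S5696

/-- Let F be a finite field with q elements, n ≥ 13 even, Q a non-degenerate quadratic form on F^n (of either type), and Ω the commutator subgroup of the isometry group of Q, viewed inside GL_n(F). Suppose q = p is an odd prime and the discriminant of Q is a square, and let D be a decomposition of F^n into pairwise orthogonal lines on which Q takes non-zero values in one square class (pairwise Q-isometric non-degenerate 1-spaces). Then the elements of Ω permuting these lines form a maximal subgroup of Ω. -/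
theorem result {F : Type*} [Field F] [Fintype F] {n : ℕ} (hn : 13 ≤ n) (heven : Even n) (Q : (Fin n → F) → F) (hQ : Cfsg.Geo.IsNondegenerateQuadraticForm Q) (hprime : (Fintype.card F).Prime) (hodd : Odd (Fintype.card F)) (hdisc : Cfsg.Geo.HasSquareDiscriminant Q) {t : ℕ} (D : Fin t → Submodule F (Fin n → F)) (hD : Cfsg.Geo.IsOrthogonalMDecomposition Q 1 D) : Cfsg.Geo.IsMaximalIn (Cfsg.Geo.omegaGL Q) (Cfsg.Geo.decompositionStabilizer D ⊓ Cfsg.Geo.omegaGL Q) := by
  have hoddc := Nat.odd_iff.mp hodd
  have h2 : (2 : F) ≠ 0 := by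
    intro h
    haveI : CharP F 2 := by
      haveI := CharTwo.of_one_ne_zero_of_two_eq_zero (R := F) one_ne_zero h
      infer_instance
    have h3 : ringChar F = 2 := ringChar.eq F 2
    have h4 := FiniteField.even_card_of_char_two h3
    omega
  have h1 := Cfsg.Agent.Lib.Elusive.Atoms.finrank_iSup_fintype D hD.decomp.decomp.indep
  rw [hD.decomp.decomp.iSup_eq_top, finrank_top, Module.finrank_fintype_fun_eq_card, Fintype.card_fin] at h1
  simp only [hD.decomp.decomp.finrank_eq, Finset.sum_const, Finset.card_univ, Fintype.card_fin, smul_eq_mul] at h1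
  obtain ⟨e, c, S⟩ := Cfsg.Agent.Lib.OmFrame.Final.exists_frame hQ h2 hD
  have htn : t = n := by omega
  subst htn
  obtain ⟨k, hk⟩ := heven
  exact Cfsg.Agent.Lib.OmFrame.EvenC.even_frame_isMaximal S hprime hoddc (by simp; omega) ⟨k, hk⟩ (by omega)
    hD.decomp.decomp.finrank_eq hD.isometric

end Cfsg.Agent.S5696
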