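import Cfsg.Statements.S5699
import Cfsg.Agent.Lib.GeoOmega.NondegW
-- import your own Cfsg.Agent.* helpers here

set_option autoImplicit false
open Cfsg

namespace Cfsg.Agent.S5699

/-- Let F be a finite field with q elements, n ≥ 13 even, Q a non-degenerate quadratic form on F^n (of either type), and Ω the commutator subgroup of the isometry group of Q, viewed inside GL_n(F). Let D be a decomposition of F^n into two orthogonal subspaces of odd dimension n/2 on which the polar form is non-degenerate and which are not Q-isometric to each other. Then the elements of Ω permuting (necessarily fixing) the two subspaces form a maximal subgroup of Ω. -/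
theorem result {F : Type*} [Field F] [Fintype F] {n : ℕ} (hn : 13 ≤ n) (heven : Even n) (Q : (Fin n → F) → F) (hQ : Cfsg.Geo.IsNondegenerateQuadraticForm Q) (k : ℕ) (hk : 2 * k = n) (hko : Odd k) (D : Fin 2 → Submodule F (Fin n → F)) (hD : Cfsg.Geo.IsNondegenerateMDecomposition (QuadraticMap.polar Q) k D) (hni : ¬ Cfsg.Geo.AreIsometricFor Q (D 0) (D 1)) : Cfsg.Geo.IsMaximalIn (Cfsg.Geo.omegaGL Q) (Cfsg.Geo.decompositionStabilizer D ⊓ Cfsg.Geo.omegaGL Q) := by
  open Cfsg.Agent.Lib.GeoOmega.NondegW Cfsg.Agent.Lib.GeoOmega.Nondeg Cfsg.Agent.Lib.GeoOmega.Basic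
    Cfsg.Agent.Lib.GeoOmega.Singular Cfsg.Agent.Lib.Geo.Basic Cfsg.Geo in
  have hcard : Fintype.card (Fin n) = n := by simp
  have hd0 : Module.finrank F (D 0) = k := hD.decomp.finrank_eq 0
  have hd1 : Module.finrank F (D 1) = k := hD.decomp.finrank_eq 1
  have hsum := Cfsg.Agent.Lib.GeoOmega.Singular.finrank_orth' hQ (D 0)
  rw [hcard] at hsum
  have hD1 : D 1 = (polB hQ).orthogonal (D 0) := by
    apply Submodule.eq_of_le_of_finrank_eq
    · intro u hu
      rw [mem_orth_iff hQ]
      intro v hv
      exact hD.orthogonal 1 0 (by decide) u hu v hv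
    · omega
  have hgsw : ∀ g ∈ omegaGL Q, (D 0).map (Matrix.toLin' (g : Matrix (Fin n) (Fin n) F)) ≠ D 1 := by
    intro g hg h
    apply hni
    have hgI := omegaGL_le_isometryGroup Q hg
    refine ⟨LinearEquiv.ofSubmodules (linOf g) (D 0) (D 1) (by rw [← map_toLin'_eq_map_linOf]; exact h), ?_⟩
    intro w
    exact (mem_isometryGroup_iff Q g).mp hgI w
  have hEq : decompositionStabilizer D ⊓ omegaGL Q = subspaceStabilizer (D 0) ⊓ omegaGL Q := by
    apply le_antisymm
    · rintro g ⟨⟨σ, hσ⟩, hgO⟩
      refine ⟨?_, hgO⟩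
      have h0 := hσ 0
      have hσ0 : σ 0 = 0 := by
        by_contra hc
        have h1 : σ 0 = 1 := by
          have := (σ 0).2
          omega
        rw [h1] at h0
        exact hgsw g hgO h0
      rw [hσ0] at h0
      exact (mem_subspaceStabilizer_iff_map_eq _ g).mpr h0
    · rintro g ⟨hgS, hgO⟩
      refine ⟨⟨1, fun i => ?_⟩, hgO⟩
      have h1 := (mem_subspaceStabilizer_iff_map_eq _ g).mp hgS
      have h2 := (mem_subspaceStabilizer_iff_map_eq _ g).mp
        (Cfsg.Agent.Lib.GeoOmega.NondegW.stab_orth_of_stab hQ (omegaGL_le_isometryGroup Q hgO) hgS)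
      rw [← hD1] at h2
      fin_cases i
      · exact h1
      · exact h2
  rw [hEq]
  have hk7 : 7 ≤ k := by omega
  refine nondeg_isMaximalIn hQ (by rw [hcard]; omega) ?_ ?_ (hD.nondegenerate 0) ?_ ?_ ?_
  · intro h
    rw [h] at hd0
    simp at hd0
    omega
  · intro h
    rw [h, finrank_top] at hd0
    simp at hd0
    omega
  · intro h
    omega
  · intro h
    omega
  · intro g hg
    rw [← hD1]
    exact hgsw g hg

end Cfsg.Agent.S5699
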