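import Cfsg.Statements.S5707
import Cfsg.Agent.Lib.Ten.Trans
-- import your own Cfsg.Agent.* helpers here

set_option autoImplicit false
open Cfsg

namespace Cfsg.Agent.S5707

/-- Let F be a finite field with q elements, n ≥ 13 even, Q a non-degenerate quadratic form on F^n of plus type (some subspace of dimension n/2 is totally singular), and Ω the commutator subgroup of the isometry group of Q, viewed inside GL_n(F). Suppose q is even and that, through P and e, the polar form of Q is similar to the t-fold tensor power (t ≥ 2) of a non-degenerate symplectic form f₁ on F^k with k ≤ 4 and (q, k) ≠ (2, 2), Q vanishing on the images of all pure tensors. Then the elements of Ω in the stabiliser of this decomposition form a subgroup that is not maximal: some subgroup lies strictly between it and Ω. -/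
theorem result {F : Type*} [Field F] [Fintype F] {n : ℕ} (hn : 13 ≤ n) (heven : Even n) (Q : (Fin n → F) → F) (hQ : Cfsg.Geo.IsNondegenerateQuadraticForm Q) (hplus : Cfsg.Geo.IsPlusTypeOn Q ⊤) (hchar : ¬ Odd (Fintype.card F)) (k t : ℕ) (ht : 2 ≤ t) (hk : k ≤ 4) (hex1 : ¬ (Fintype.card F = 2 ∧ k = 2)) (e : (Fin n) ≃ (Fin t → Fin k)) (P : Matrix.GeneralLinearGroup (Fin n) F) (f₁ : (Fin k → F) → (Fin k → F) → F) (hf₁ : Cfsg.Geo.IsSymplecticForm f₁) (hT : Cfsg.Geo.IsTensorPowerFormStructure id (QuadraticMap.polar Q) f₁ e P) (hpure : (∀ xs : Fin t → (Fin k → F), Q (Matrix.mulVec (P : Matrix (Fin n) (Fin n) F) ((fun a : Fin t → Fin k => ∏ i, xs i (a i)) ∘ e)) = 0)) : ∃ K : Subgroup (Matrix.GeneralLinearGroup (Fin n) F), Cfsg.Geo.tensorWreathSubgroup k t e P ⊓ Cfsg.Geo.omegaGL Q < K ∧ K < Cfsg.Geo.omegaGL Q := by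
  classical
  have h2 : (2 : F) = 0 := by
    have hc : ringChar F = 2 := FiniteField.even_card_iff_char_two.mpr (Nat.even_iff.mp (Nat.not_odd_iff_even.mp hchar))
    have := ringChar.Nat.cast_ringChar (R := F)
    rw [hc] at this
    exact_mod_cast this
  have hcard : n = k ^ t := by
    have := Fintype.card_congr e
    simpa using this
  have hk4 : k = 2 ∨ k = 4 := by
    interval_cases k
    · rw [zero_pow (by omega)] at hcard
      omega
    · rw [one_pow] at hcard
      omega
    · exact Or.inl rfl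
    · exfalso
      have hodd : Odd (3 ^ t) := Odd.pow (by decide)
      rw [← hcard] at hodd
      exact (Nat.not_even_iff_odd.mpr hodd) heven
    · exact Or.inr rfl
  rcases hk4 with rfl | rfl
  · -- dimension two
    have ht4 : 3 ≤ t := by
      by_contra hlt
      have : t = 2 := by omega
      subst this
      omega
    obtain ⟨l, hl0, hl1⟩ : ∃ l : F, l ≠ 0 ∧ l ≠ 1 := by
      by_contra hcon
      push Not at hcon
      have hle : Fintype.card F ≤ ({0, 1} : Finset F).card := by
        rw [← Finset.card_univ]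
        refine Finset.card_le_card fun x _ => ?_
        by_cases hx : x = 0
        · simp [hx]
        · simp [hcon x hx]
      have h11 : ({0, 1} : Finset F).card ≤ 2 := Finset.card_le_two
      have h12 : 2 ≤ Fintype.card F := Fintype.one_lt_card
      exact hex1 ⟨by omega, rfl⟩
    obtain ⟨A, hA⟩ := Cfsg.Agent.Lib.Ten.Trans.exists_A2 hf₁ h2
    obtain ⟨c₀, hc₀⟩ := Cfsg.Agent.Lib.Ten.Trans.tq e P A hQ hA hT hpure
    refine Cfsg.Agent.Lib.Ten.Trans.final e P A ?_
    exact Cfsg.Agent.Lib.Ten.Inst.main2 hc₀ h2 hl0 hl1 (i₀ := ⟨0, by omega⟩) (i₁ := ⟨1, by omega⟩) (i₂ := ⟨2, by omega⟩)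
      (by simp) (by simp) (by simp)
  · -- dimension four
    obtain ⟨A, hA⟩ := Cfsg.Agent.Lib.Ten.Trans.exists_A4 hf₁ h2
    obtain ⟨c₀, hc₀⟩ := Cfsg.Agent.Lib.Ten.Trans.tq e P A hQ hA hT hpure
    refine Cfsg.Agent.Lib.Ten.Trans.final e P A ?_
    exact Cfsg.Agent.Lib.Ten.Inst.main4 hc₀ h2 (i₀ := ⟨0, by omega⟩) (i₁ := ⟨1, by omega⟩) (by simp)

end Cfsg.Agent.S5707
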