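import Cfsg.Statements.S5775
import Cfsg.Agent.Lib.CmaxL.Arith
import Cfsg.Agent.Lib.CmaxL.CubicQ4

set_option autoImplicit false
open Cfsg

namespace Cfsg.Agent.S5775

/-- Every maximal subgroup of SL_3(q) is of one of the listed geometric types or lies in the residual class. Let F be a finite field with q elements and H a maximal subgroup of SL_3(F) (viewed inside GL_3(F)). Then H is the intersection with SL_3(F) of one of: the stabiliser of a proper non-zero subspace; for q ≥ 5, the stabiliser of a decomposition of F^3 into three independent lines; for q ≠ 4, the normaliser of a degree-3 subfield of the matrix algebra; a subfield group for a subfield F₀ with |F| = |F₀|^r, r prime; for q = p ≡ 1 mod 3 prime, the normaliser of an absolutely irreducible 3-subgroup R of exponent 3 with centre of order 3, all of whose characteristic abelian subgroups are cyclic, of order 3^(1+2m) for some m ≥ 1, with F the smallest field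 of characteristic p containing the cube roots of unity (so R is extraspecial of order 27); for q odd, the similarity group of a non-degenerate quadratic form; the similarity group of a non-degenerate unitary form — or else H lies in the residual class of the linear case (modulo scalars H is almost simple, with absolutely irreducible perfect socle preimage realisable over no proper subfield and fixing no non-degenerate quadratic, symplectic or unitary form). -/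
theorem result {F : Type*} [Field F] [Fintype F] (H : Subgroup (Matrix.GeneralLinearGroup (Fin 3) F)) (hH : Cfsg.Geo.IsMaximalIn (Cfsg.Geo.specialLinear (Fin 3) F) H) :
    (∃ W : Submodule F (Fin 3 → F), W ≠ ⊥ ∧ W ≠ ⊤ ∧ H = Cfsg.Geo.subspaceStabilizer W ⊓ Cfsg.Geo.specialLinear (Fin 3) F) ∨
    (5 ≤ Fintype.card F ∧ ∃ D : Fin 3 → Submodule F (Fin 3 → F), Cfsg.Geo.IsMDecomposition 1 D ∧ H = Cfsg.Geo.decompositionStabilizer D ⊓ Cfsg.Geo.specialLinear (Fin 3) F) ∨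
    (Fintype.card F ≠ 4 ∧ ∃ K : Subalgebra F (Matrix (Fin 3) (Fin 3) F), Cfsg.Geo.IsFieldSubalgebra 3 K ∧ H = Cfsg.Geo.subalgebraNormalizer K ⊓ Cfsg.Geo.specialLinear (Fin 3) F) ∨
    (∃ (F₀ : Subfield F) (r : ℕ) (P : Matrix.GeneralLinearGroup (Fin 3) F), r.Prime ∧ Fintype.card F = Nat.card F₀ ^ r ∧ H = Cfsg.Geo.subfieldSubgroup F₀ P ⊓ Cfsg.Geo.specialLinear (Fin 3) F) ∨
    (∃ (p : ℕ) (R : Subgroup (Matrix.GeneralLinearGroup (Fin 3) F)), p.Prime ∧ Fintype.card F = p ∧ p % 3 = 1 ∧ Cfsg.Geo.IsLinearSymplecticTypeData 3 R ∧ H = Cfsg.Geo.subgroupNormalizer R ⊓ Cfsg.Geo.specialLinear (Fin 3) F) ∨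
    (Odd (Fintype.card F) ∧ ∃ Q : (Fin 3 → F) → F, Cfsg.Geo.IsNondegenerateQuadraticForm Q ∧ H = Cfsg.Geo.quadSimilarityGroup Q ⊓ Cfsg.Geo.specialLinear (Fin 3) F) ∨
    (∃ (σ : F ≃+* F) (f : (Fin 3 → F) → (Fin 3 → F) → F), Cfsg.Geo.IsUnitaryForm σ f ∧ H = Cfsg.Geo.similarityGroup f ⊓ Cfsg.Geo.specialLinear (Fin 3) F) ∨
    Cfsg.Geo.InLinearResidualClass H := by
  rcases Cfsg.Agent.Lib.CmaxL.Master.master (by norm_num) H hH with
    ⟨W, h0, h1, hE⟩ | ⟨t, m, D, hD, htm, hm1, hm2, hE⟩ | ⟨r, K, hr, hrn, hK, hE⟩ | ⟨a, b, e, P, ha, hab, hprod, hq2, hE⟩ |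
    ⟨F₀, r, P, hr, hc, hE⟩ | ⟨r, R, hR, ⟨k, hk⟩, hE⟩ | ⟨m, t, e, P, h3, h2, hpow, hE⟩ | ⟨f, hf, hev, hE⟩ |
    ⟨σ, f, hf, hE⟩ | ⟨Q, hQ, hodd, hE⟩ | hres
  · exact Or.inl (⟨W, h0, h1, hE⟩)
  · obtain ⟨rfl, rfl⟩ := Cfsg.Agent.Lib.CmaxL.Arith.tm3 hD.two_le hD.pos htm
    exact Or.inr (Or.inl (⟨hm1 rfl, D, hD, hE⟩))
  · obtain rfl := Cfsg.Agent.Lib.CmaxL.Arith.pr3 hr hrn
    by_cases hq4 : Fintype.card F = 4
    · obtain ⟨F₀, P, hc, hle⟩ := Cfsg.Agent.Lib.CmaxL.CubicQ4.normalizer_le hq4 hK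
      have hc' : Fintype.card F = Nat.card F₀ ^ 2 := by
        rw [hq4, hc]
        norm_num
      have hle' : H ≤ Cfsg.Geo.subfieldSubgroup F₀ P := hE ▸ hle
      exact Or.inr (Or.inr (Or.inr (Or.inl (⟨F₀, 2, P, Nat.prime_two, hc', Cfsg.Agent.Lib.CmaxL.Master.eq_inf_of_le hH hle' (Cfsg.Agent.Lib.CmaxL.Proper.not_le_subfield (Cfsg.Agent.Lib.CmaxL.Master.subfield_ne_top Nat.prime_two hc') (by simp) P)⟩))))
    · exact Or.inr (Or.inr (Or.inl (⟨hq4, K, hK, hE⟩)))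
  · exact (Cfsg.Agent.Lib.CmaxL.Arith.ten3 ha hab hprod).elim
  · exact Or.inr (Or.inr (Or.inr (Or.inl (⟨F₀, r, P, hr, hc, hE⟩))))
  · have hrp := hR.symplecticType.prime
    obtain rfl : r = 3 := (Cfsg.Agent.Lib.CmaxL.Master.eq_of_dvd_pow (by norm_num : Nat.Prime 3) hrp hk (by norm_num)).symm
    obtain ⟨p, e', hp, hc, hqe, h0, ho, hlt, hpw, hmin⟩ := Cfsg.Agent.Lib.CmaxL.Master.odd_data hR (by decide)
    obtain ⟨rfl, hx⟩ := Cfsg.Agent.Lib.CmaxL.Arith.arith3 (Nat.mod_lt _ (by norm_num)) h0 hlt ho hpw hmin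
    exact Or.inr (Or.inr (Or.inr (Or.inr (Or.inl (⟨p, R, hp, by simpa using hqe, hx, hR, hE⟩)))))
  · have := Cfsg.Agent.Lib.CmaxL.Arith.pow_lower h3 h2
    omega
  · exact absurd hev (by decide)
  · exact Or.inr (Or.inr (Or.inr (Or.inr (Or.inr (Or.inr (Or.inl (⟨σ, f, hf, hE⟩)))))))
  · exact Or.inr (Or.inr (Or.inr (Or.inr (Or.inr (Or.inl (⟨hodd, Q, hQ, hE⟩))))))
  · exact Or.inr (Or.inr (Or.inr (Or.inr (Or.inr (Or.inr (Or.inr (hres)))))))

end Cfsg.Agent.S5775
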