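import Cfsg.Statements.S5781
import Cfsg.Agent.Lib.CmaxL.Arith
import Cfsg.Agent.Lib.CmaxL.PauliM

set_option autoImplicit false
open Cfsg

namespace Cfsg.Agent.S5781

/-- Every maximal subgroup of SL_4(q) is of one of the listed geometric types or lies in the residual class. Let F be a finite field with q elements and H a maximal subgroup of SL_4(F) (inside GL_4(F)). Then H is the intersection with SL_4(F) of one of: the stabiliser of a proper non-zero subspace; for q ≥ 7, the stabiliser of a decomposition into four independent lines; for q ≥ 4, the stabiliser of a decomposition into two independent planes; the normaliser of a degree-2 subfield of the matrix algebra; a subfield group for a subfield F₀ with |F| = |F₀|^r, r prime; for q = p ≡ 1 mod 4 prime, the normaliser of an absolutely irreducible 2-subgroup R of exponent 4 with centre of order 4, all of whose characteristic abelian subgroups are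 cyclic, of order 2^(2+2m) for some m (here |R| = 64), with 4 dividing p − 1; for q odd, the similarity group of a non-degenerate quadratic form; the similarity group of a non-degenerate symplectic form; the similarity group of a non-degenerate unitary form — or else H lies in the residual class of the linear case. -/
theorem result {F : Type*} [Field F] [Fintype F] (H : Subgroup (Matrix.GeneralLinearGroup (Fin 4) F)) (hH : Cfsg.Geo.IsMaximalIn (Cfsg.Geo.specialLinear (Fin 4) F) H) :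
    (∃ W : Submodule F (Fin 4 → F), W ≠ ⊥ ∧ W ≠ ⊤ ∧ H = Cfsg.Geo.subspaceStabilizer W ⊓ Cfsg.Geo.specialLinear (Fin 4) F) ∨
    (7 ≤ Fintype.card F ∧ ∃ D : Fin 4 → Submodule F (Fin 4 → F), Cfsg.Geo.IsMDecomposition 1 D ∧ H = Cfsg.Geo.decompositionStabilizer D ⊓ Cfsg.Geo.specialLinear (Fin 4) F) ∨
    (4 ≤ Fintype.card F ∧ ∃ D : Fin 2 → Submodule F (Fin 4 → F), Cfsg.Geo.IsMDecomposition 2 D ∧ H = Cfsg.Geo.decompositionStabilizer D ⊓ Cfsg.Geo.specialLinear (Fin 4) F) ∨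
    (∃ K : Subalgebra F (Matrix (Fin 4) (Fin 4) F), Cfsg.Geo.IsFieldSubalgebra 2 K ∧ H = Cfsg.Geo.subalgebraNormalizer K ⊓ Cfsg.Geo.specialLinear (Fin 4) F) ∨
    (∃ (F₀ : Subfield F) (r : ℕ) (P : Matrix.GeneralLinearGroup (Fin 4) F), r.Prime ∧ Fintype.card F = Nat.card F₀ ^ r ∧ H = Cfsg.Geo.subfieldSubgroup F₀ P ⊓ Cfsg.Geo.specialLinear (Fin 4) F) ∨
    (∃ (p : ℕ) (R : Subgroup (Matrix.GeneralLinearGroup (Fin 4) F)), p.Prime ∧ Fintype.card F = p ∧ p % 4 = 1 ∧ Cfsg.Geo.IsLinearSymplecticTypeData 2 R ∧ H = Cfsg.Geo.subgroupNormalizer R ⊓ Cfsg.Geo.specialLinear (Fin 4) F) ∨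
    (Odd (Fintype.card F) ∧ ∃ Q : (Fin 4 → F) → F, Cfsg.Geo.IsNondegenerateQuadraticForm Q ∧ H = Cfsg.Geo.quadSimilarityGroup Q ⊓ Cfsg.Geo.specialLinear (Fin 4) F) ∨
    (∃ f : (Fin 4 → F) → (Fin 4 → F) → F, Cfsg.Geo.IsSymplecticForm f ∧ H = Cfsg.Geo.similarityGroup f ⊓ Cfsg.Geo.specialLinear (Fin 4) F) ∨
    (∃ (σ : F ≃+* F) (f : (Fin 4 → F) → (Fin 4 → F) → F), Cfsg.Geo.IsUnitaryForm σ f ∧ H = Cfsg.Geo.similarityGroup f ⊓ Cfsg.Geo.specialLinear (Fin 4) F) ∨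
    Cfsg.Geo.InLinearResidualClass H := by
  rcases Cfsg.Agent.Lib.CmaxL.Master.master (by norm_num) H hH with
    ⟨W, h0, h1, hE⟩ | ⟨t, m, D, hD, htm, hm1, hm2, hE⟩ | ⟨r, K, hr, hrn, hK, hE⟩ | ⟨a, b, e, P, ha, hab, hprod, hq2, hE⟩ |
    ⟨F₀, r, P, hr, hc, hE⟩ | ⟨r, R, hR, ⟨k, hk⟩, hE⟩ | ⟨m, t, e, P, h3, h2, hpow, hE⟩ | ⟨f, hf, hev, hE⟩ |
    ⟨σ, f, hf, hE⟩ | ⟨Q, hQ, hodd, hE⟩ | hres
  · exact Or.inl (⟨W, h0, h1, hE⟩)
  · obtain ⟨rfl, rfl⟩ | ⟨rfl, rfl⟩ := Cfsg.Agent.Lib.CmaxL.Arith.tm4 hD.two_le hD.pos htm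
    · by_cases hq4 : 4 ≤ Fintype.card F
      · exact Or.inr (Or.inr (Or.inl (⟨hq4, D, hD, hE⟩)))
      · have hq3 : Fintype.card F = 3 := by
          have := hm2 rfl
          omega
        obtain ⟨f, hf, hle⟩ := Cfsg.Agent.Lib.CmaxL.Planes.planes_two_q3 hD hq3
        have hle' : H ≤ Cfsg.Geo.similarityGroup f := hE ▸ hle
        exact Or.inr (Or.inr (Or.inr (Or.inr (Or.inr (Or.inr (Or.inr (Or.inl (⟨f, hf, Cfsg.Agent.Lib.CmaxL.Master.eq_inf_of_le hH hle' (Cfsg.Agent.Lib.CmaxL.Proper.not_le_symp hf (by simp))⟩))))))))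
    · by_cases hq7 : 7 ≤ Fintype.card F
      · exact Or.inr (Or.inl (⟨hq7, D, hD, hE⟩))
      · have hq5 : Fintype.card F = 5 := by
          have h5 := hm1 rfl
          have h6 : Fintype.card F ≠ 6 := fun h => Cfsg.Agent.Lib.CmaxL.PauliM.not_card_six h
          omega
        obtain ⟨R, hR, hle⟩ := Cfsg.Agent.Lib.CmaxL.PauliM.lines_q5 hq5 hD
        have hle' : H ≤ Cfsg.Geo.subgroupNormalizer R := hE ▸ hle
        exact Or.inr (Or.inr (Or.inr (Or.inr (Or.inr (Or.inl (⟨5, R, by norm_num, hq5, by norm_num, hR, Cfsg.Agent.Lib.CmaxL.Master.eq_inf_of_le hH hle' (Cfsg.Agent.Lib.CmaxL.Proper2.not_le_normalizer (by norm_num) hR.absIrred (Cfsg.Agent.Lib.CmaxL.PauliM.two_ne hq5) hR.symplecticType.pGroup)⟩))))))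
  · obtain rfl := Cfsg.Agent.Lib.CmaxL.Arith.pr4 hr hrn
    exact Or.inr (Or.inr (Or.inr (Or.inl (⟨K, hK, hE⟩))))
  · exact (Cfsg.Agent.Lib.CmaxL.Arith.ten4 ha hab hprod).elim
  · exact Or.inr (Or.inr (Or.inr (Or.inr (Or.inl (⟨F₀, r, P, hr, hc, hE⟩)))))
  · have hrp := hR.symplecticType.prime
    obtain rfl : r = 2 := (Cfsg.Agent.Lib.CmaxL.Master.eq_of_dvd_pow (by norm_num : Nat.Prime 2) hrp hk (by norm_num)).symm
    obtain ⟨p, hp, hq, hx⟩ := Cfsg.Agent.Lib.CmaxL.Master.two_data (by norm_num) hR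
    exact Or.inr (Or.inr (Or.inr (Or.inr (Or.inr (Or.inl (⟨p, R, hp, hq, hx, hR, hE⟩))))))
  · have := Cfsg.Agent.Lib.CmaxL.Arith.pow_lower h3 h2
    omega
  · exact Or.inr (Or.inr (Or.inr (Or.inr (Or.inr (Or.inr (Or.inr (Or.inl (⟨f, hf, hE⟩))))))))
  · exact Or.inr (Or.inr (Or.inr (Or.inr (Or.inr (Or.inr (Or.inr (Or.inr (Or.inl (⟨σ, f, hf, hE⟩)))))))))
  · exact Or.inr (Or.inr (Or.inr (Or.inr (Or.inr (Or.inr (Or.inl (⟨hodd, Q, hQ, hE⟩)))))))
  · exact Or.inr (Or.inr (Or.inr (Or.inr (Or.inr (Or.inr (Or.inr (Or.inr (Or.inr (hres)))))))))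

end Cfsg.Agent.S5781
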