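import Cfsg.Statements.S5808
import Cfsg.Agent.Lib.CmaxL.Arith

set_option autoImplicit false
open Cfsg

namespace Cfsg.Agent.S5808

/-- Every maximal subgroup of SL_7(q) is of one of the listed geometric types or lies in the residual class. Let F be a finite field with q elements (p its characteristic) and H a maximal subgroup of SL_7(F) (inside GL_7(F)). Then H is the intersection with SL_7(F) of one of: the stabiliser of a proper non-zero subspace; for q ≥ 5, the stabiliser of a decomposition into 7 independent 1-spaces; the normaliser of a degree-7 subfield of the matrix algebra; a subfield group for a subfield F₀ with |F| = |F₀|^r, r prime; for q = p prime with p ≡ 1 mod 7, or q = p³ with p ≡ 2 or 4 mod 7, the normaliser of an absolutely irreducible 7-subgroup R of exponent 7 and order 7^(1+2m) with centre of order 7, all of whose characteristic abelian subgroups are cyclic, F being the smallest field of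 characteristic p containing the seventh roots of unity (here R is extraspecial of order 343); for q odd, the similarity group of a non-degenerate quadratic form; the similarity group of a non-degenerate unitary form — or else H lies in the residual class of the linear case (modulo scalars H is almost simple, with absolutely irreducible perfect socle preimage realisable over no proper subfield and fixing no non-degenerate quadratic, symplectic or unitary form). -/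
theorem result {F : Type*} [Field F] [Fintype F] (H : Subgroup (Matrix.GeneralLinearGroup (Fin 7) F)) (hH : Cfsg.Geo.IsMaximalIn (Cfsg.Geo.specialLinear (Fin 7) F) H) :
    (∃ W : Submodule F (Fin 7 → F), W ≠ ⊥ ∧ W ≠ ⊤ ∧ H = Cfsg.Geo.subspaceStabilizer W ⊓ Cfsg.Geo.specialLinear (Fin 7) F) ∨
    (5 ≤ Fintype.card F ∧ ∃ D : Fin 7 → Submodule F (Fin 7 → F), Cfsg.Geo.IsMDecomposition 1 D ∧ H = Cfsg.Geo.decompositionStabilizer D ⊓ Cfsg.Geo.specialLinear (Fin 7) F) ∨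
    (∃ K : Subalgebra F (Matrix (Fin 7) (Fin 7) F), Cfsg.Geo.IsFieldSubalgebra 7 K ∧ H = Cfsg.Geo.subalgebraNormalizer K ⊓ Cfsg.Geo.specialLinear (Fin 7) F) ∨
    (∃ (F₀ : Subfield F) (r : ℕ) (P : Matrix.GeneralLinearGroup (Fin 7) F), r.Prime ∧ Fintype.card F = Nat.card F₀ ^ r ∧ H = Cfsg.Geo.subfieldSubgroup F₀ P ⊓ Cfsg.Geo.specialLinear (Fin 7) F) ∨
    ((∃ p : ℕ, p.Prime ∧ CharP F p ∧ ((Fintype.card F = p ∧ p % 7 = 1) ∨ (Fintype.card F = p ^ 3 ∧ (p % 7 = 2 ∨ p % 7 = 4)))) ∧ ∃ R : Subgroup (Matrix.GeneralLinearGroup (Fin 7) F), Cfsg.Geo.IsLinearSymplecticTypeData 7 R ∧ H = Cfsg.Geo.subgroupNormalizer R ⊓ Cfsg.Geo.specialLinear (Fin 7) F) ∨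
    (Odd (Fintype.card F) ∧ ∃ Q : (Fin 7 → F) → F, Cfsg.Geo.IsNondegenerateQuadraticForm Q ∧ H = Cfsg.Geo.quadSimilarityGroup Q ⊓ Cfsg.Geo.specialLinear (Fin 7) F) ∨
    (∃ (σ : F ≃+* F) (f : (Fin 7 → F) → (Fin 7 → F) → F), Cfsg.Geo.IsUnitaryForm σ f ∧ H = Cfsg.Geo.similarityGroup f ⊓ Cfsg.Geo.specialLinear (Fin 7) F) ∨
    Cfsg.Geo.InLinearResidualClass H := by
  rcases Cfsg.Agent.Lib.CmaxL.Master.master (by norm_num) H hH with
    ⟨W, h0, h1, hE⟩ | ⟨t, m, D, hD, htm, hm1, hm2, hE⟩ | ⟨r, K, hr, hrn, hK, hE⟩ | ⟨a, b, e, P, ha, hab, hprod, hq2, hE⟩ |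
    ⟨F₀, r, P, hr, hc, hE⟩ | ⟨r, R, hR, ⟨k, hk⟩, hE⟩ | ⟨m, t, e, P, h3, h2, hpow, hE⟩ | ⟨f, hf, hev, hE⟩ |
    ⟨σ, f, hf, hE⟩ | ⟨Q, hQ, hodd, hE⟩ | hres
  · exact Or.inl (⟨W, h0, h1, hE⟩)
  · obtain ⟨rfl, rfl⟩ := Cfsg.Agent.Lib.CmaxL.Arith.tm7 hD.two_le hD.pos htm
    · exact Or.inr (Or.inl (⟨hm1 rfl, D, hD, hE⟩))
  · obtain rfl := Cfsg.Agent.Lib.CmaxL.Arith.pr7 hr hrn
    · exact Or.inr (Or.inr (Or.inl (⟨K, hK, hE⟩)))
  · exact (Cfsg.Agent.Lib.CmaxL.Arith.ten7 ha hab hprod).elim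
  · exact Or.inr (Or.inr (Or.inr (Or.inl (⟨F₀, r, P, hr, hc, hE⟩))))
  · have hrp := hR.symplecticType.prime
    obtain rfl : r = 7 := (Cfsg.Agent.Lib.CmaxL.Master.eq_of_dvd_pow (by norm_num : Nat.Prime 7) hrp hk (by norm_num)).symm
    obtain ⟨p, e', hp, hc, hqe, h0, ho, hlt, hpw, hmin⟩ := Cfsg.Agent.Lib.CmaxL.Master.odd_data hR (by decide)
    rcases Cfsg.Agent.Lib.CmaxL.Arith.arith7 (Nat.mod_lt _ (by norm_num)) h0 hlt ho hpw hmin with ⟨rfl, hx⟩ | ⟨rfl, hx⟩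
    · exact Or.inr (Or.inr (Or.inr (Or.inr (Or.inl (⟨⟨p, hp, hc, Or.inl ⟨by simpa using hqe, hx⟩⟩, R, hR, hE⟩)))))
    · exact Or.inr (Or.inr (Or.inr (Or.inr (Or.inl (⟨⟨p, hp, hc, Or.inr ⟨hqe, hx⟩⟩, R, hR, hE⟩)))))
  · have := Cfsg.Agent.Lib.CmaxL.Arith.pow_lower h3 h2
    omega
  · exact absurd hev (by decide)
  · exact Or.inr (Or.inr (Or.inr (Or.inr (Or.inr (Or.inr (Or.inl (⟨σ, f, hf, hE⟩)))))))
  · exact Or.inr (Or.inr (Or.inr (Or.inr (Or.inr (Or.inl (⟨hodd, Q, hQ, hE⟩))))))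
  · exact Or.inr (Or.inr (Or.inr (Or.inr (Or.inr (Or.inr (Or.inr (hres)))))))

end Cfsg.Agent.S5808
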