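import Cfsg.Statements.S5876
-- import your own Cfsg.Agent.* helpers here

set_option autoImplicit false
open Cfsg

namespace Cfsg.Agent.S5876

open scoped commutatorElement

section Independence

variable {F V ι : Type*} [Field F] [AddCommGroup V] [Module F V]

/-- A family of subspaces separated by endomorphisms is independent. -/
lemma indep_aux [Finite ι] (D : ι → Submodule F V)
    (h : ∀ i j, i ≠ j → ∃ T : Module.End F V, (∀ v ∈ D i, T v = 0) ∧ (∀ k, ∀ v ∈ D k, T v ∈ D k) ∧
      (∀ v ∈ D j, T v = 0 → v = 0)) : iSupIndep D := by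
  classical
  haveI := Fintype.ofFinite ι
  have key : ∀ s : Finset ι, ∀ i, i ∉ s → D i ⊓ s.sup D = ⊥ := by
    intro s
    induction s using Finset.induction_on with
    | empty => intro i _; simp
    | insert j₀ s hj₀ ih =>
      intro i hi
      rw [Finset.mem_insert, not_or] at hi
      obtain ⟨hij, his⟩ := hi
      rw [eq_bot_iff]
      intro x hx
      obtain ⟨hx1, hx2⟩ := Submodule.mem_inf.mp hx
      rw [Finset.sup_insert] at hx2
      obtain ⟨u, hu, w, hw, rfl⟩ := Submodule.mem_sup.mp hx2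
      obtain ⟨T, hT1, hT2, hT3⟩ := h i j₀ hij
      have hTw : T w ∈ s.sup D := by
        have : s.sup D ≤ (s.sup D).comap T := by
          apply Finset.sup_le
          intro k hk v hv
          exact (Finset.le_sup (f := D) hk) (hT2 k v hv)
        exact this hw
      have h0 : T u + T w = 0 := by rw [← map_add]; exact hT1 _ hx1
      have hu' : T u ∈ D j₀ ⊓ s.sup D := by
        refine Submodule.mem_inf.mpr ⟨hT2 _ _ hu, ?_⟩
        rw [eq_neg_of_add_eq_zero_left h0]
        exact Submodule.neg_mem _ hTw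
      rw [ih j₀ hj₀] at hu'
      have hu0 : u = 0 := hT3 u hu (by simpa using hu')
      subst hu0
      rw [zero_add] at hx1 ⊢
      have : w ∈ D i ⊓ s.sup D := Submodule.mem_inf.mpr ⟨hx1, hw⟩
      rwa [ih i his] at this
  intro i
  rw [disjoint_iff]
  have := key (Finset.univ.erase i) i (by simp)
  rw [← this]
  congr 1
  rw [Finset.sup_eq_iSup]
  simp

end Independence

section Abstract

variable {F V G : Type*} [Field F] [AddCommGroup V] [Module F V]
  [Group G]

/-- fixed space -/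
abbrev fixSp (ρ : G →* Module.End F V) (g : G) : Submodule F V := Module.End.eigenspace (ρ g) 1

lemma mem_fixSp (ρ : G →* Module.End F V) (g : G) (v : V) : v ∈ fixSp ρ g ↔ ρ g v = v := by
  simp [fixSp]

/-- pointwise fixed space of a subgroup -/
def fixOf (ρ : G →* Module.End F V) (B : Subgroup G) : Submodule F V where
  carrier := {v | ∀ b ∈ B, ρ b v = v}
  add_mem' {x y} hx hy b hb := by rw [map_add, hx b hb, hy b hb]
  zero_mem' b _ := map_zero _
  smul_mem' c x hx b hb := by rw [map_smul, hx b hb]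

lemma mem_fixOf (ρ : G →* Module.End F V) (B : Subgroup G) (v : V) :
    v ∈ fixOf ρ B ↔ ∀ b ∈ B, ρ b v = v := Iff.rfl

lemma rho_inv_rho (ρ : G →* Module.End F V) (g : G) (v : V) : ρ g⁻¹ (ρ g v) = v := by
  have : (ρ g⁻¹ * ρ g) v = v := by rw [← map_mul]; simp
  simpa using this

lemma rho_rho_inv (ρ : G →* Module.End F V) (g : G) (v : V) : ρ g (ρ g⁻¹ v) = v := by
  have : (ρ g * ρ g⁻¹) v = v := by rw [← map_mul]; simp
  simpa using this

lemma rho_mul (ρ : G →* Module.End F V) (g h : G) (v : V) : ρ (g * h) v = ρ g (ρ h v) := by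
  rw [map_mul]; rfl

/-- `ρ g` as a linear equivalence. -/
def rhoEquiv (ρ : G →* Module.End F V) (g : G) : V ≃ₗ[F] V :=
  { ρ g with
    invFun := ρ g⁻¹
    left_inv := rho_inv_rho ρ g
    right_inv := rho_rho_inv ρ g }

lemma finrank_map_rho (ρ : G →* Module.End F V) (g : G) (W : Submodule F V) :
    Module.finrank F (W.map (ρ g)) = Module.finrank F W :=
  LinearEquiv.finrank_map_eq (rhoEquiv ρ g) W

/-- The doubling inequality. -/
lemma doubling [FiniteDimensional F V] (ρ : G →* Module.End F V) (x g : G) :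
    2 * Module.finrank F (fixSp ρ g) ≤
      Module.finrank F V + Module.finrank F (fixSp ρ ⁅x, g⁆) := by
  set W := fixSp ρ g with hW
  set W' := W.map (ρ x) with hW'
  have hfin : Module.finrank F W' = Module.finrank F W := finrank_map_rho ρ x W
  have hle : W ⊓ W' ≤ fixSp ρ ⁅x, g⁆ := by
    intro v hv
    obtain ⟨hv1, hv2⟩ := Submodule.mem_inf.mp hv
    obtain ⟨u, hu, rfl⟩ := Submodule.mem_map.mp hv2
    rw [hW, mem_fixSp] at hu hv1
    rw [mem_fixSp, commutatorElement_def]
    have h1 : ρ g⁻¹ (ρ x u) = ρ x u := by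
      conv_lhs => rw [← hv1]
      exact rho_inv_rho ρ g _
    rw [rho_mul, rho_mul, rho_mul, h1, rho_inv_rho, hu]
  have h := Submodule.finrank_sup_add_finrank_inf_eq W W'
  have h1 : Module.finrank F (W ⊔ W' : Submodule F V) ≤ Module.finrank F V :=
    Submodule.finrank_le _
  have h2 : Module.finrank F (W ⊓ W' : Submodule F V) ≤ Module.finrank F (fixSp ρ ⁅x, g⁆) :=
    Submodule.finrank_mono hle
  omega

/-- Primitivity and irreducibility force elements of abelian normal subgroups to be fixed-point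
free. -/
lemma fpf_of_abelian_normal [Finite G] [FiniteDimensional F V] (ρ : G →* Module.End F V)
    (hinj : Function.Injective ρ)
    (hirr : ∀ W : Submodule F V, (∀ g, W.map (ρ g) ≤ W) → W = ⊥ ∨ W = ⊤)
    (hprim : ∀ (m t : ℕ) (D : Fin t → Submodule F V), 2 ≤ t → 0 < m →
      (∀ i, Module.finrank F (D i) = m) → iSupIndep D → iSup D = ⊤ →
      ¬ ∀ g, ∃ σ : Equiv.Perm (Fin t), ∀ i, (D i).map (ρ g) = D (σ i))
    (A : Subgroup G) (hA : A.Normal) (hcomm : ∀ x ∈ A, ∀ y ∈ A, Commute x y)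
    (a : G) (haA : a ∈ A) (ha1 : a ≠ 1) : fixSp ρ a = ⊥ := by
  classical
  by_contra hne
  -- the stabilizer of a vector in `A`
  let stb : V → Subgroup G := fun v =>
    { carrier := {b | b ∈ A ∧ ρ b v = v}
      mul_mem' := fun {x y} hx hy => ⟨A.mul_mem hx.1 hy.1, by rw [rho_mul, hy.2, hx.2]⟩
      one_mem' := ⟨A.one_mem, by simp⟩
      inv_mem' := fun {x} hx => ⟨A.inv_mem hx.1, by
        conv_lhs => rw [← hx.2]
        exact rho_inv_rho ρ x v⟩ }
  have hstb : ∀ v b, b ∈ stb v ↔ b ∈ A ∧ ρ b v = v := fun _ _ => Iff.rfl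
  -- maximal `B`
  let 𝔅 : Set (Subgroup G) := {B | B ≤ A ∧ a ∈ B ∧ fixOf ρ B ≠ ⊥}
  have h𝔅 : 𝔅.Nonempty := by
    obtain ⟨v, hv, hv0⟩ := Submodule.exists_mem_ne_zero_of_ne_bot hne
    refine ⟨stb v, fun b hb => hb.1, ⟨haA, (mem_fixSp ρ a v).mp hv⟩, ?_⟩
    intro h
    have : v ∈ fixOf ρ (stb v) := fun b hb => hb.2
    rw [h] at this
    exact hv0 (by simpa using this)
  obtain ⟨B, hBmax⟩ := (Set.toFinite 𝔅).exists_maximal h𝔅
  obtain ⟨hBA, haB, hW0⟩ := hBmax.prop
  set W := fixOf ρ B with hW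
  -- (1)
  have h1 : ∀ b ∈ A, ∀ w ∈ W, ρ b w = w → w ≠ 0 → b ∈ B := by
    intro b hb w hw hbw hw0
    have hmem : stb w ∈ 𝔅 := by
      refine ⟨fun x hx => hx.1, ⟨haA, hw a haB⟩, ?_⟩
      intro h
      have : w ∈ fixOf ρ (stb w) := fun b hb => hb.2
      rw [h] at this
      exact hw0 (by simpa using this)
    have hle : B ≤ stb w := fun x hx => ⟨hBA hx, hw x hx⟩
    exact hBmax.le_of_ge hmem hle ⟨hb, hbw⟩
  -- the family
  let 𝒮 : Set (Submodule F V) := Set.range fun g : G => W.map (ρ g)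
  have hW𝒮 : W ∈ 𝒮 := ⟨1, by
    simp only [map_one]
    exact Submodule.map_id W⟩
  have hmap : ∀ U ∈ 𝒮, ∀ g, U.map (ρ g) ∈ 𝒮 := by
    rintro U ⟨h, rfl⟩ g
    refine ⟨g * h, ?_⟩
    simp only [map_mul, Module.End.mul_eq_comp, Submodule.map_comp]
  have hsep : ∀ U₁ U₂ : 𝒮, U₁ ≠ U₂ → ∃ T : Module.End F V,
      (∀ v ∈ (U₁ : Submodule F V), T v = 0) ∧
      (∀ U : 𝒮, ∀ v ∈ (U : Submodule F V), T v ∈ (U : Submodule F V)) ∧
      (∀ v ∈ (U₂ : Submodule F V), T v = 0 → v = 0) := by
    rintro ⟨_, g₁, rfl⟩ ⟨_, g₂, rfl⟩ hne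
    -- find `b`
    have hex : ∃ b, g₁⁻¹ * b * g₁ ∈ B ∧ g₂⁻¹ * b * g₂ ∉ B := by
      by_contra hcon
      push Not at hcon
      apply hne
      apply Subtype.ext
      simp only
      set c := g₂⁻¹ * g₁ with hc
      have hle : B.map (MulAut.conj c).toMonoidHom ≤ B := by
        rintro _ ⟨x, hx, rfl⟩
        have := hcon (g₁ * x * g₁⁻¹) (by simpa [mul_assoc] using hx)
        simpa [hc, mul_assoc] using this
      have heq : B.map (MulAut.conj c).toMonoidHom = B := by
        apply Subgroup.eq_of_le_of_card_ge hle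
        rw [Subgroup.card_map_of_injective (MulAut.conj c).injective]
      have hc1 : ∀ x ∈ B, c * x * c⁻¹ ∈ B := fun x hx => hle ⟨x, hx, rfl⟩
      have hc2 : ∀ x ∈ B, c⁻¹ * x * c ∈ B := by
        intro x hx
        rw [← heq] at hx
        obtain ⟨y, hy, rfl⟩ := hx
        simpa [mul_assoc] using hy
      have hcW : W.map (ρ c) = W := by
        apply le_antisymm
        · rintro _ ⟨w, hw, rfl⟩ b hb
          have h2 := hw _ (hc2 b hb)
          have : ρ b (ρ c w) = ρ c (ρ (c⁻¹ * b * c) w) := by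
            rw [← rho_mul, ← rho_mul]; congr 2; group
          rw [this, h2]
        · intro w hw
          refine ⟨ρ c⁻¹ w, ?_, rho_rho_inv ρ c w⟩
          intro b hb
          have h2 := hw _ (hc1 b hb)
          have : ρ b (ρ c⁻¹ w) = ρ c⁻¹ (ρ (c * b * c⁻¹) w) := by
            rw [← rho_mul, ← rho_mul]; congr 2; group
          rw [this, h2]
      have : g₁ = g₂ * c := by rw [hc]; group
      change W.map (ρ g₁) = W.map (ρ g₂)
      rw [this, map_mul, Module.End.mul_eq_comp, Submodule.map_comp, hcW]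
    obtain ⟨b, hb1, hb2⟩ := hex
    have hbA : b ∈ A := by
      have := hA.conj_mem _ (hBA hb1) g₁
      simpa [mul_assoc] using this
    refine ⟨ρ b - 1, ?_, ?_, ?_⟩
    · rintro _ ⟨w, hw, rfl⟩
      have h2 := hw _ hb1
      have : ρ b (ρ g₁ w) = ρ g₁ (ρ (g₁⁻¹ * b * g₁) w) := by
        rw [← rho_mul, ← rho_mul]; congr 2; group
      simp only [SetLike.mem_coe, LinearMap.sub_apply, Module.End.one_apply]
      rw [this, h2, sub_self]
    · rintro ⟨_, g, rfl⟩ _ ⟨w, hw, rfl⟩
      have hW' : ρ (g⁻¹ * b * g) w ∈ W := by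
        intro x hx
        have hxA := hBA hx
        have hbA' : g⁻¹ * b * g ∈ A := by
          have := hA.conj_mem _ hbA g⁻¹
          simpa using this
        rw [← rho_mul, (hcomm _ hxA _ hbA').eq, rho_mul, hw x hx]
      have : ρ b (ρ g w) = ρ g (ρ (g⁻¹ * b * g) w) := by
        rw [← rho_mul, ← rho_mul]; congr 2; group
      simp only [LinearMap.sub_apply, Module.End.one_apply]
      refine Submodule.sub_mem _ ?_ ?_
      · rw [this]; exact ⟨_, hW', rfl⟩
      · exact ⟨_, hw, rfl⟩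
    · rintro _ ⟨w, hw, rfl⟩ h0
      have h0' : ρ b (ρ g₂ w) = ρ g₂ w := by
        simpa [sub_eq_zero] using h0
      have : ρ (g₂⁻¹ * b * g₂) w = w := by
        rw [rho_mul, rho_mul]
        rw [h0', rho_inv_rho]
      by_cases hw0 : w = 0
      · simp [hw0]
      · exfalso
        apply hb2
        refine h1 _ ?_ w hw this hw0
        have := hA.conj_mem _ hbA g₂⁻¹
        simpa using this
  have hindep : iSupIndep (fun U : 𝒮 => (U : Submodule F V)) := by
    haveI : Finite 𝒮 := Set.toFinite _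
    exact indep_aux _ hsep
  have hsup : (⨆ U : 𝒮, (U : Submodule F V)) = ⊤ := by
    have := hirr (⨆ U : 𝒮, (U : Submodule F V)) (by
      intro g
      rw [Submodule.map_iSup]
      apply iSup_le
      intro U
      exact le_iSup (fun U : 𝒮 => (U : Submodule F V)) ⟨_, hmap U U.2 g⟩)
    rcases this with h | h
    · exfalso
      apply hW0
      have := le_iSup (fun U : 𝒮 => (U : Submodule F V)) ⟨W, hW𝒮⟩
      rw [h] at this
      exact le_bot_iff.mp this
    · exact h
  -- cardinality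
  haveI : Finite 𝒮 := Set.toFinite _
  by_cases ht : Nat.card 𝒮 < 2
  · -- `W` is invariant
    have hsub : Subsingleton 𝒮 := by
      haveI : Nonempty 𝒮 := ⟨⟨W, hW𝒮⟩⟩
      have : Nat.card 𝒮 = 1 := by
        have : 0 < Nat.card 𝒮 := Nat.card_pos
        omega
      exact (Nat.card_eq_one_iff_unique.mp this).1
    have hinv : ∀ g, W.map (ρ g) ≤ W := by
      intro g
      have : (⟨W.map (ρ g), ⟨g, rfl⟩⟩ : 𝒮) = ⟨W, hW𝒮⟩ := Subsingleton.elim _ _
      exact le_of_eq (congrArg Subtype.val this)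
    rcases hirr W hinv with h | h
    · exact hW0 h
    · apply ha1
      apply hinj
      ext v
      have : v ∈ W := by rw [h]; trivial
      have := this a haB
      simpa using this
  · let e : Fin (Nat.card 𝒮) ≃ 𝒮 := (Finite.equivFin 𝒮).symm
    refine hprim (Module.finrank F W) (Nat.card 𝒮) (fun i => ((e i : 𝒮) : Submodule F V))
      (by omega) ?_ ?_ ?_ ?_ ?_
    · exact Module.finrank_pos_iff.mpr (Submodule.nontrivial_iff_ne_bot.mpr hW0)
    · intro i
      obtain ⟨g, hg⟩ := (e i).2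
      change Module.finrank F ((e i : 𝒮) : Submodule F V) = _
      rw [← hg]
      exact finrank_map_rho ρ g W
    · exact hindep.comp e.injective
    · rw [← hsup]
      exact e.surjective.iSup_comp (fun U : 𝒮 => (U : Submodule F V))
    · intro g
      let p : Equiv.Perm 𝒮 :=
        { toFun := fun U => ⟨(U : Submodule F V).map (ρ g), hmap U U.2 g⟩
          invFun := fun U => ⟨(U : Submodule F V).map (ρ g⁻¹), hmap U U.2 g⁻¹⟩
          left_inv := by
            rintro ⟨U, hU⟩
            apply Subtype.ext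
            simp only
            rw [← Submodule.map_comp, ← Module.End.mul_eq_comp, ← map_mul]
            simp only [inv_mul_cancel, mul_inv_cancel, map_one]
            exact Submodule.map_id U
          right_inv := by
            rintro ⟨U, hU⟩
            apply Subtype.ext
            simp only
            rw [← Submodule.map_comp, ← Module.End.mul_eq_comp, ← map_mul]
            simp only [inv_mul_cancel, mul_inv_cancel, map_one]
            exact Submodule.map_id U }
      refine ⟨e.trans (p.trans e.symm), fun i => ?_⟩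
      have : e ((e.trans (p.trans e.symm)) i) = p (e i) := e.apply_symm_apply _
      rw [this]
      rfl

/-- Group-theoretic structure: an abelian normal subgroup `A`, a normal `D ≥ A` with `[D,D] ≤ A`,
`Z(D) ≤ A`, `C_G(D) ≤ D`. -/
lemma exists_AD (G : Type*) [Group G] [Finite G] [Group.IsSolvable G] :
    ∃ A D : Subgroup G, A.Normal ∧ D.Normal ∧ (∀ x ∈ A, ∀ y ∈ A, Commute x y) ∧ A ≤ D ∧
      (∀ x ∈ D, ∀ y ∈ D, ⁅x, y⁆ ∈ A) ∧ (∀ x ∈ D, (∀ y ∈ D, Commute x y) → x ∈ A) ∧
      (∀ x, (∀ y ∈ D, Commute x y) → x ∈ D) := by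
  classical
  let 𝒜 : Set (Subgroup G) := {A | A.Normal ∧ ∀ x ∈ A, ∀ y ∈ A, Commute x y}
  have h𝒜 : 𝒜.Nonempty := by
    refine ⟨⊥, inferInstance, ?_⟩
    intro x hx y hy
    rw [Subgroup.mem_bot] at hx hy
    simp [hx, hy]
  obtain ⟨A, hAmax⟩ := (Set.toFinite 𝒜).exists_maximal h𝒜
  obtain ⟨hAn, hAc⟩ := hAmax.prop
  let 𝒟 : Set (Subgroup G) := {D | D.Normal ∧ A ≤ D ∧ (∀ d ∈ D, ∀ a ∈ A, Commute d a) ∧
    ∀ x ∈ D, ∀ y ∈ D, ⁅x, y⁆ ∈ A}
  have h𝒟 : 𝒟.Nonempty := by
    refine ⟨A, hAn, le_rfl, fun d hd a ha => hAc d hd a ha, fun x hx y hy => ?_⟩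
    rw [commutatorElement_eq_one_iff_commute.mpr (hAc x hx y hy)]
    exact A.one_mem
  obtain ⟨D, hDmax⟩ := (Set.toFinite 𝒟).exists_maximal h𝒟
  obtain ⟨hDn, hAD, hDA, hDD⟩ := hDmax.prop
  -- centralizer
  let T : Subgroup G := Subgroup.centralizer (D : Set G)
  have hTmem : ∀ x, x ∈ T ↔ ∀ y ∈ D, Commute x y := by
    intro x
    rw [Subgroup.mem_centralizer_iff]
    constructor
    · intro h y hy; exact (h y hy).symm
    · intro h y hy; exact (h y hy).symm
  have hTn : T.Normal := by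
    constructor
    intro x hx g
    rw [hTmem] at hx ⊢
    intro y hy
    have h1 := hx (g⁻¹ * y * g) (by simpa using hDn.conj_mem y hy g⁻¹)
    have h2 := (h1.conj g)
    simpa [SemiconjBy, Commute, mul_assoc] using h2
  have hZ : ∀ x ∈ D, (∀ y ∈ D, Commute x y) → x ∈ A := by
    intro x hx hxc
    have hmem : (D ⊓ T) ∈ 𝒜 := by
      refine ⟨Subgroup.normal_inf_normal D T, ?_⟩
      intro u hu v hv
      exact (hTmem u).mp hu.2 v hv.1
    have hle : A ≤ D ⊓ T := by
      intro u hu
      refine ⟨hAD hu, (hTmem u).mpr ?_⟩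
      intro y hy
      exact (hDA y hy u hu).symm
    exact hAmax.le_of_ge hmem hle ⟨hx, (hTmem x).mpr hxc⟩
  refine ⟨A, D, hAn, hDn, hAc, hAD, hDD, hZ, ?_⟩
  intro x hx
  by_contra hxD
  have hTD : ¬ T ≤ D := fun h => hxD (h ((hTmem x).mpr hx))
  -- minimal normal `S ≤ T`, `S ≰ A`
  let 𝒯 : Set (Subgroup G) := {S | S.Normal ∧ S ≤ T ∧ ¬ S ≤ A}
  have h𝒯 : 𝒯.Nonempty := ⟨T, hTn, le_rfl, fun h => hTD (h.trans hAD)⟩
  obtain ⟨S, hSmin⟩ := (Set.toFinite 𝒯).exists_minimal h𝒯
  obtain ⟨hSn, hST, hSA⟩ := hSmin.prop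
  have hSS : ⁅S, S⁆ ≤ A := by
    by_contra hcon
    have hmem : ⁅S, S⁆ ∈ 𝒯 :=
      ⟨inferInstance, (Subgroup.commutator_le_left S S).trans hST, hcon⟩
    have hle : ⁅S, S⁆ ≤ S := Subgroup.commutator_le_left S S
    have hge : S ≤ ⁅S, S⁆ := hSmin.le_of_le hmem hle
    have heq : ⁅S, S⁆ = S := le_antisymm hle hge
    have hall : ∀ n, S ≤ derivedSeries G n := by
      intro n
      induction n with
      | zero => simp
      | succ n ih =>
        rw [derivedSeries_succ, ← heq]
        exact Subgroup.commutator_mono ih ih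
    obtain ⟨n, hn⟩ := (isSolvable_def G).mp inferInstance
    have := hall n
    rw [hn] at this
    exact hSA (this.trans bot_le)
  -- `D ⊔ S`
  have hcomm : ∀ x ∈ D ⊔ S, ∀ y ∈ D ⊔ S, ⁅x, y⁆ ∈ A := by
    intro x hx y hy
    let π := QuotientGroup.mk' A
    have hker : ∀ u v, ⁅u, v⁆ ∈ A ↔ Commute (π u) (π v) := by
      intro u v
      rw [← commutatorElement_eq_one_iff_commute, ← map_commutatorElement]
      exact (QuotientGroup.eq_one_iff _).symm
    rw [hker]
    rw [← SetLike.mem_coe, Subgroup.mul_normal, Set.mem_mul] at hx hy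
    obtain ⟨d₁, hd₁, s₁, hs₁, rfl⟩ := hx
    obtain ⟨d₂, hd₂, s₂, hs₂, rfl⟩ := hy
    have h11 : Commute (π d₁) (π d₂) := (hker _ _).mp (hDD _ hd₁ _ hd₂)
    have h12 : Commute (π d₁) (π s₂) :=
      (((hTmem _).mp (hST hs₂) d₁ hd₁).map π).symm
    have h21 : Commute (π s₁) (π d₂) :=
      (((hTmem _).mp (hST hs₁) d₂ hd₂).map π)
    have h22 : Commute (π s₁) (π s₂) := (hker _ _).mp (hSS (Subgroup.commutator_mem_commutator hs₁ hs₂))
    rw [map_mul, map_mul]
    exact (h11.mul_right h12).mul_left (h21.mul_right h22)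
  have hmem : D ⊔ S ∈ 𝒟 := by
    refine ⟨Subgroup.sup_normal D S, hAD.trans le_sup_left, ?_, hcomm⟩
    intro d hd a ha
    have hle : D ⊔ S ≤ Subgroup.centralizer (A : Set G) := by
      apply sup_le
      · intro u hu
        rw [Subgroup.mem_centralizer_iff]
        intro v hv
        exact (hDA u hu v hv).symm
      · intro u hu
        rw [Subgroup.mem_centralizer_iff]
        intro v hv
        exact ((hTmem u).mp (hST hu) v (hAD hv)).symm
    have := hle hd
    rw [Subgroup.mem_centralizer_iff] at this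
    exact (this a ha).symm
  have hSD : S ≤ D := le_sup_right.trans (hDmax.le_of_ge hmem le_sup_left)
  apply hSA
  intro u hu
  exact hZ u (hSD hu) ((hTmem u).mp (hST hu))

/-- The abstract theorem. -/
theorem main_abstract [Finite G] [Group.IsSolvable G] [FiniteDimensional F V] (ρ : G →* Module.End F V)
    (hinj : Function.Injective ρ)
    (hirr : ∀ W : Submodule F V, (∀ g, W.map (ρ g) ≤ W) → W = ⊥ ∨ W = ⊤)
    (hprim : ∀ (m t : ℕ) (D : Fin t → Submodule F V), 2 ≤ t → 0 < m →
      (∀ i, Module.finrank F (D i) = m) → iSupIndep D → iSup D = ⊤ →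
      ¬ ∀ g, ∃ σ : Equiv.Perm (Fin t), ∀ i, (D i).map (ρ g) = D (σ i))
    (g : G) (hg : g ≠ 1) :
    4 * Module.finrank F (fixSp ρ g) ≤ 3 * Module.finrank F V := by
  obtain ⟨A, D, hAn, hDn, hAc, hAD, hDD, hZ, hC⟩ := exists_AD G
  have hA0 : ∀ a ∈ A, a ≠ 1 → Module.finrank F (fixSp ρ a) = 0 := by
    intro a ha ha1
    rw [fpf_of_abelian_normal ρ hinj hirr hprim A hAn hAc a ha ha1]
    simp
  have hD : ∀ d ∈ D, d ≠ 1 → 2 * Module.finrank F (fixSp ρ d) ≤ Module.finrank F V := by
    intro d hd hd1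
    by_cases hdA : d ∈ A
    · rw [hA0 d hdA hd1]; simp
    · have : ∃ y ∈ D, ¬ Commute d y := by
        by_contra hcon
        push Not at hcon
        exact hdA (hZ d hd hcon)
      obtain ⟨y, hy, hyc⟩ := this
      have hz : ⁅y, d⁆ ≠ 1 := fun h =>
        hyc (commutatorElement_eq_one_iff_commute.mp h).symm
      have h1 := doubling ρ y d
      rw [hA0 _ (hDD y hy d hd) hz] at h1
      omega
  by_cases hgD : g ∈ D
  · have := hD g hgD hg
    omega
  · have : ∃ y ∈ D, ¬ Commute g y := by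
      by_contra hcon
      push Not at hcon
      exact hgD (hC g hcon)
    obtain ⟨y, hy, hyc⟩ := this
    have hz : ⁅y, g⁆ ≠ 1 := fun h =>
      hyc (commutatorElement_eq_one_iff_commute.mp h).symm
    have hzD : ⁅y, g⁆ ∈ D := by
      rw [commutatorElement_def, mul_assoc, mul_assoc, ← mul_assoc g]
      exact D.mul_mem hy (hDn.conj_mem _ (D.inv_mem hy) g)
    have h1 := doubling ρ y g
    have h2 := hD _ hzD hz
    omega

end Abstract

/-- Let F be a finite field and G a soluble subgroup of GL_n(F) that acts irreducibly on F^n and primitively (G preserves no decomposition of F^n into two or more independent subspaces of equal dimension). Then every non-identity element g of G has fixed-point space {v : g v = v} of dimension at most 3n/4. -/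
theorem result {F : Type*} [Field F] [Fintype F] {n : ℕ} (G : Subgroup (Matrix.GeneralLinearGroup (Fin n) F)) (hsol : IsSolvable G) (hirr : Cfsg.Geo.ActsIrreducibly (Cfsg.Geo.matrixSet G)) (hprim : ∀ (m t : ℕ) (D : Fin t → Submodule F (Fin n → F)), 2 ≤ t → Cfsg.Geo.IsMDecomposition m D → ¬ G ≤ Cfsg.Geo.decompositionStabilizer D) (g : Matrix.GeneralLinearGroup (Fin n) F) (hg : g ∈ G) (hg1 : g ≠ 1) :
    4 * Module.finrank F (Module.End.eigenspace (Matrix.toLin' (g : Matrix (Fin n) (Fin n) F)) 1) ≤ 3 * n := by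
  let ρ : G →* Module.End F (Fin n → F) :=
    { toFun := fun x => Matrix.toLin' ((x : Matrix.GeneralLinearGroup (Fin n) F) : Matrix (Fin n) (Fin n) F)
      map_one' := by
        simp only [OneMemClass.coe_one, Units.val_one, Matrix.toLin'_one]
        rfl
      map_mul' := fun x y => by
        simp [Matrix.toLin'_mul, Module.End.mul_eq_comp] }
  haveI : Finite (Matrix.GeneralLinearGroup (Fin n) F) := inferInstance
  haveI : Group.IsSolvable G := hsol
  have hinj : Function.Injective ρ := by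
    intro x y hxy
    apply Subtype.ext
    apply Units.ext
    exact Matrix.toLin'.injective hxy
  have hirr' : ∀ W : Submodule F (Fin n → F), (∀ x, W.map (ρ x) ≤ W) → W = ⊥ ∨ W = ⊤ := by
    intro W hW
    apply hirr W
    rintro _ ⟨x, hx, rfl⟩
    exact hW ⟨x, hx⟩
  have hprim' : ∀ (m t : ℕ) (D : Fin t → Submodule F (Fin n → F)), 2 ≤ t → 0 < m →
      (∀ i, Module.finrank F (D i) = m) → iSupIndep D → iSup D = ⊤ →
      ¬ ∀ x, ∃ σ : Equiv.Perm (Fin t), ∀ i, (D i).map (ρ x) = D (σ i) := by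
    intro m t D ht hm hfin hind hsup hall
    refine hprim m t D ht ⟨ht, hm, hfin, hind, hsup⟩ ?_
    intro x hx
    exact hall ⟨x, hx⟩
  have := main_abstract ρ hinj hirr' hprim' ⟨g, hg⟩ (fun h => hg1 (congrArg Subtype.val h))
  simpa [fixSp, ρ, Module.finrank_fin_fun] using this

end Cfsg.Agent.S5876
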