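import Cfsg.Statements.S5877
import Cfsg.Agent.Lib.ExtraEig.Cases

set_option autoImplicit false
open Cfsg

namespace Cfsg.Agent.S5877

open Cfsg.Agent.Lib.ExtraEig in
/-- Determinant argument: `r ∣ n` from a nontrivial commutator. -/
theorem dvd_of_comm {F : Type*} [Field F] {n r : ℕ} {R : Subgroup (GLn n F)} [ScalarComm R]
    [NeZero n] (hr : r.Prime) (hκr : ∀ u v : ↥(SS R), κ u v ^ r = 1) (u v : ↥(SS R))
    (hne : κ u v ≠ 1) : r ∣ n := by
  have h1 : (u : GLn n F) * (v : GLn n F) = sc (κ u v) * ((v : GLn n F) * (u : GLn n F)) := by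
    have := conj_eq u v
    rw [mul_inv_eq_iff_eq_mul] at this
    rw [this, mul_assoc]
  have h2 := congrArg (fun z : GLn n F => Matrix.det (z : Matrix (Fin n) (Fin n) F)) h1
  simp only [Units.val_mul, Matrix.det_mul, sc_val, Matrix.det_smul, Matrix.det_one,
    Fintype.card_fin, mul_one] at h2
  have hu : IsUnit (Matrix.det ((u : GLn n F) : Matrix (Fin n) (Fin n) F)) :=
    (Matrix.isUnit_iff_isUnit_det _).mp (u : GLn n F).isUnit
  have hv : IsUnit (Matrix.det ((v : GLn n F) : Matrix (Fin n) (Fin n) F)) :=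
    (Matrix.isUnit_iff_isUnit_det _).mp (v : GLn n F).isUnit
  have h3 : ((κ u v : F)) ^ n = 1 := by
    have h4 : (Matrix.det ((v : GLn n F) : Matrix (Fin n) (Fin n) F)) *
        Matrix.det ((u : GLn n F) : Matrix (Fin n) (Fin n) F) ≠ 0 :=
      mul_ne_zero hv.ne_zero hu.ne_zero
    apply mul_right_cancel₀ h4
    rw [one_mul, ← h2, mul_comm]
  have hprim : IsPrimitiveRoot (κ u v : F) r := by
    apply prim_of hr
    · have := congrArg Units.val (hκr u v)
      simpa using this
    · intro h
      exact hne (Units.ext h)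
  exact hprim.dvd_of_pow_eq_one n h3

open Cfsg.Agent.Lib.ExtraEig Module Cfsg.Geo commutatorElement in
/-- Eigenspaces of elements normalising an absolutely irreducible extraspecial group. Let F be a finite field, r a prime, and R ≤ GL_n(F) an absolutely irreducible extraspecial r-group (an r-group whose centre equals its derived subgroup and has order r) of exponent r or 4. Let g ∈ GL_n(F) normalise the product of R with the scalar matrices, have prime order ϖ and not be scalar, and let W be the eigenspace of g for any c ∈ F (W may be the zero subspace). Then dim W ≤ 3n/4 if ϖ = 2, dim W ≤ 2n/3 if ϖ = 3, and dim W ≤ n/2 if ϖ > 3; moreover if ϖ = 3 and 3 does not divide n then dim W ≤ n/2. -/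
theorem result {F : Type*} [Field F] [Fintype F] {n r ϖ : ℕ} (R : Subgroup (Matrix.GeneralLinearGroup (Fin n) F)) (hr : r.Prime) (hR : IsPGroup r R) (hZ : Nat.card (Subgroup.center R) = r) (hext : commutator R = Subgroup.center R) (hexp : Monoid.exponent R = r ∨ Monoid.exponent R = 4) (hirr : Cfsg.Geo.ActsAbsolutelyIrreducibly (Cfsg.Geo.matrixSet R)) (g : Matrix.GeneralLinearGroup (Fin n) F) (hg : g ∈ Cfsg.Geo.subgroupNormalizer (R ⊔ Cfsg.Geo.scalars (Fin n) F)) (hϖ : ϖ.Prime) (hord : orderOf g = ϖ) (hns : g ∉ Cfsg.Geo.scalars (Fin n) F) (c : F) :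
    (ϖ = 2 → 4 * Module.finrank F (Module.End.eigenspace (Matrix.toLin' (g : Matrix (Fin n) (Fin n) F)) c) ≤ 3 * n) ∧
    (ϖ = 3 → 3 * Module.finrank F (Module.End.eigenspace (Matrix.toLin' (g : Matrix (Fin n) (Fin n) F)) c) ≤ 2 * n) ∧
    (3 < ϖ → 2 * Module.finrank F (Module.End.eigenspace (Matrix.toLin' (g : Matrix (Fin n) (Fin n) F)) c) ≤ n) ∧
    (ϖ = 3 → ¬ 3 ∣ n → 2 * Module.finrank F (Module.End.eigenspace (Matrix.toLin' (g : Matrix (Fin n) (Fin n) F)) c) ≤ n) := by
  classical
  have hr2 := hr.two_le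
  -- `n ≠ 0`
  have hn : NeZero n := by
    refine ⟨fun h0 => hns ?_⟩
    subst h0
    refine ⟨1, Units.ext ?_⟩
    exact Subsingleton.elim _ _
  -- the commutators are central
  have hzc : ∀ x y : R, ⁅x, y⁆ ∈ Subgroup.center R := by
    intro x y
    rw [← hext]
    exact Subgroup.commutator_mem_commutator (Subgroup.mem_top _) (Subgroup.mem_top _)
  have hcoe : ∀ x y : R, ((⁅x, y⁆ : R) : GLn n F)
      = (x : GLn n F) * y * (x : GLn n F)⁻¹ * (y : GLn n F)⁻¹ := fun x y => rfl
  have hSC : ScalarComm R := by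
    constructor
    intro x hx y hy
    have h1 := hzc ⟨x, hx⟩ ⟨y, hy⟩
    rw [← hcoe ⟨x, hx⟩ ⟨y, hy⟩] 
    apply mem_scalars_of_commute hirr
    intro w hw
    have h2 := (Subgroup.mem_center_iff.mp h1) ⟨w, hw⟩
    have h3 := congrArg (fun z : R => (z : GLn n F)) h2
    exact h3.symm
  -- `κ ^ r = 1`
  have hκr : ∀ u v : ↥(SS R), κ u v ^ r = 1 := by
    intro u v
    obtain ⟨x, hx, a, hu⟩ := mem_SS u.2
    obtain ⟨y, hy, b, hv⟩ := mem_SS v.2
    apply sc_injective (n := n)
    rw [map_pow, sc_κ, hu, hv, comm_SS, map_one, ← hcoe ⟨x, hx⟩ ⟨y, hy⟩]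
    have h1 := pow_card_eq_one' (x := (⟨_, hzc ⟨x, hx⟩ ⟨y, hy⟩⟩ : Subgroup.center R))
    rw [hZ] at h1
    have h2 := congrArg (fun z : Subgroup.center R => (((z : R) : GLn n F))) h1
    exact h2
  have hfac : Fact r.Prime := ⟨hr⟩
  -- `r ∣ n`
  have hrn : r ∣ n := by
    have hfin : Finite (Subgroup.center R) := Nat.finite_of_card_ne_zero (by rw [hZ]; exact hr.ne_zero)
    obtain ⟨x, y, hxy⟩ : ∃ x y : R, ⁅x, y⁆ ≠ 1 := by
      by_contra hcon
      push Not at hcon
      have h1 : commutator R ≤ ⊥ := by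
        rw [commutator_def, Subgroup.commutator_le]
        intro a _ b _
        rw [hcon a b]
        exact one_mem _
      rw [hext, le_bot_iff] at h1
      rw [h1, Subgroup.card_bot] at hZ
      omega
    set x' : ↥(SS R) := ⟨x, le_SS R x.2⟩
    set y' : ↥(SS R) := ⟨y, le_SS R y.2⟩
    refine dvd_of_comm hr hκr x' y' ?_
    intro h1
    have h2 := sc_κ x' y'
    rw [h1, map_one] at h2
    apply hxy
    apply Subtype.ext
    rw [hcoe]
    exact h2.symm
  -- exponent `r` when `r` is odd
  have hexpR : Odd r → ∀ x ∈ R, x ^ r = 1 := by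
    intro hodd x hx
    have hfin : Finite (Subgroup.center R) := Nat.finite_of_card_ne_zero (by rw [hZ]; exact hr.ne_zero)
    have h4 : Monoid.exponent R = r := by
      rcases hexp with h | h
      · exact h
      · exfalso
        obtain ⟨z, hz⟩ := exists_prime_orderOf_dvd_card' (G := Subgroup.center R) r (by rw [hZ])
        have h1 : orderOf (z : R) = r := by rw [Subgroup.orderOf_coe, hz]
        have h2 := Monoid.order_dvd_exponent (z : R)
        rw [h1, h] at h2
        have h3 : r ∣ 2 ^ 2 := h2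
        have h5 := hr.dvd_of_dvd_pow h3
        have h6 := (Nat.prime_dvd_prime_iff_eq hr Nat.prime_two).mp h5
        subst h6
        exact absurd hodd (by decide)
    have h1 := Monoid.pow_exponent_eq_one (⟨x, hx⟩ : R)
    rw [h4] at h1
    exact congrArg (fun z : R => (z : GLn n F)) h1
  have hgϖ : g ^ ϖ = 1 := by
    rw [← hord]
    exact pow_orderOf_eq_one g
  have hg' : g ∈ Subgroup.normalizer (SS R : Set (GLn n F)) := hg
  change (ϖ = 2 → 4 * finrank F ((op g).eigenspace c) ≤ 3 * n) ∧
    (ϖ = 3 → 3 * finrank F ((op g).eigenspace c) ≤ 2 * n) ∧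
    (3 < ϖ → 2 * finrank F ((op g).eigenspace c) ≤ n) ∧
    (ϖ = 3 → ¬ 3 ∣ n → 2 * finrank F ((op g).eigenspace c) ≤ n)
  -- `c = 0`
  by_cases hc : c = 0
  · have h0 : finrank F ((op g).eigenspace c) = 0 := by
      have : (op g).eigenspace c = ⊥ := by
        rw [eq_bot_iff]
        intro v hv
        have h1 := Module.End.mem_eigenspace_iff.mp hv
        rw [hc, zero_smul] at h1
        have h2 := op_injective g (h1.trans (map_zero (op g)).symm)
        exact h2
      rw [this, finrank_bot]
    rw [h0]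
    simp
  set d := finrank F ((op g).eigenspace c) with hd
  by_cases hB : ∃ u : ↥(SS R), (yy g hg' u : GLn n F) ∉ scalars (Fin n) F
  · have hfirst : r * (2 * d) ≤ r * n + n := by
      obtain ⟨u, hu⟩ := hB
      exact first_bound hirr hr hκr u hu hc
    have hB1 : Odd ϖ → ϖ ≠ r → 2 * d ≤ n := by
      intro hodd hne
      exact caseB1 hirr hκr hodd ((Nat.coprime_primes hϖ hr).mpr hne) hgϖ hB hc
    refine ⟨?_, ?_, ?_, ?_⟩
    · intro _
      by_contra hcon
      push Not at hcon
      nlinarith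
    · intro h3
      by_cases hr3 : r = 3
      · subst hr3
        omega
      · have := hB1 (h3 ▸ (by decide)) (by omega)
        omega
    · intro h3
      have hodd : Odd ϖ := hϖ.odd_of_ne_two (by omega)
      by_cases hre : ϖ = r
      · subst hre
        exact caseB2 hirr hr (by omega) hκr (hexpR hodd) hgϖ hB hc
      · exact hB1 hodd hre
    · intro h3 hn3
      have hre : ϖ ≠ r := by
        intro h4
        apply hn3
        rw [h3] at h4
        rw [h4]
        exact hrn
      exact hB1 (h3 ▸ (by decide)) hre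
  · push Not at hB
    have hA : 2 * d ≤ n := caseA hirr hns hB hc
    refine ⟨fun _ => by omega, fun _ => by omega, fun _ => hA, fun _ _ => hA⟩

end Cfsg.Agent.S5877
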