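import Cfsg.Statements.S5944
-- import your own Cfsg.Agent.* helpers here

set_option autoImplicit false
open Cfsg

namespace Cfsg.Agent.S5944

/-- For n ≠ 4, every proper subgroup of the symmetric group S_n other than the alternating group A_n has index at least n. -/
theorem result (n : ℕ) (hn : n ≠ 4) (H : Subgroup (Equiv.Perm (Fin n))) (hH : H ≠ ⊤) (hA : H ≠ alternatingGroup (Fin n)) : n ≤ H.index := by
  classical
  by_contra hlt
  push Not at hlt
  have hne0 : H.index ≠ 0 := Subgroup.index_ne_zero_of_finite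
  have hne1 : H.index ≠ 1 := fun h => hH (Subgroup.index_eq_one.mp h)
  have hne2 : H.index ≠ 2 := fun h => hA (Equiv.Perm.eq_alternatingGroup_of_index_eq_two h)
  have h3 : 3 ≤ H.index := by omega
  have hn5 : 5 ≤ n := by omega
  -- action on cosets
  let φ : Equiv.Perm (Fin n) →* Equiv.Perm (Equiv.Perm (Fin n) ⧸ H) := MulAction.toPermHom _ _
  have hker : φ.ker = H.normalCore := (Subgroup.normalCore_eq_ker H).symm
  have hcard5 : 5 ≤ Nat.card (Fin n) := by simpa using hn5
  by_cases hinj : Function.Injective φ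
  · -- then n! ≤ k!
    have h1 : Nat.card (Equiv.Perm (Fin n)) ≤ Nat.card (Equiv.Perm (Equiv.Perm (Fin n) ⧸ H)) :=
      Nat.card_le_card_of_injective φ hinj
    have : Finite (Equiv.Perm (Fin n) ⧸ H) := inferInstance
    letI := Fintype.ofFinite (Equiv.Perm (Fin n) ⧸ H)
    rw [Nat.card_eq_fintype_card, Nat.card_eq_fintype_card, Fintype.card_perm, Fintype.card_perm,
      Fintype.card_fin, ← Nat.card_eq_fintype_card (α := Equiv.Perm (Fin n) ⧸ H)] at h1
    have h2 : Nat.card (Equiv.Perm (Fin n) ⧸ H) = H.index := rfl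
    rw [h2] at h1
    have := Nat.factorial_lt (n := H.index) (m := n) (by omega)
    omega
  · -- the kernel is nontrivial
    have hkerne : φ.ker ≠ ⊥ := fun h => hinj ((MonoidHom.ker_eq_bot_iff φ).mp h)
    have hnt : Nontrivial φ.ker := (Subgroup.nontrivial_iff_ne_bot _).mpr hkerne
    have hA' : alternatingGroup (Fin n) ≤ φ.ker :=
      Equiv.Perm.alternatingGroup_le_of_normal hcard5 hnt
    have hAH : alternatingGroup (Fin n) ≤ H := by
      rw [hker] at hA'
      exact hA'.trans (Subgroup.normalCore_le H)
    have hdvd : H.index ∣ (alternatingGroup (Fin n)).index := Subgroup.index_dvd_of_le hAH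
    haveI : Nontrivial (Fin n) := Fin.nontrivial_iff_two_le.mpr (by omega)
    rw [alternatingGroup.index_eq_two] at hdvd
    have := Nat.le_of_dvd (by norm_num) hdvd
    omega

end Cfsg.Agent.S5944
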