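import Cfsg.Statements.S5945
import Cfsg.Agent.Lib.PermIndex.Six

set_option autoImplicit false
open Cfsg

namespace Cfsg.Agent.S5945

/-- The symmetric group S_6 has exactly 12 subgroups of index 6; each of them is isomorphic to S_5, and at least one of them is not the stabilizer of any point. -/
theorem result : Nat.card {H : Subgroup (Equiv.Perm (Fin 6)) // H.index = 6} = 12 ∧ (∀ H : Subgroup (Equiv.Perm (Fin 6)), H.index = 6 → Nonempty (H ≃* Equiv.Perm (Fin 5))) ∧ ∃ H : Subgroup (Equiv.Perm (Fin 6)), H.index = 6 ∧ ∀ a : Fin 6, H ≠ MulAction.stabilizer (Equiv.Perm (Fin 6)) a := by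
  classical
  have h6 : Fintype.card (Fin 6) = 6 := Fintype.card_fin 6
  refine ⟨Cfsg.Agent.Lib.PermIndex.Six.card_index_six h6,
    fun H hH => Cfsg.Agent.Lib.PermIndex.Six.index_six_mulEquiv h6 H hH, ?_⟩
  obtain ⟨α, hα⟩ := Cfsg.Agent.Lib.PermIndex.Six.exists_twisted (Ω := Fin 6) h6
  exact ⟨(MulAction.stabilizer (Equiv.Perm (Fin 6)) (0 : Fin 6)).comap α.toMonoidHom,
    Cfsg.Agent.Lib.PermIndex.Six.index_comap_stabilizer h6 α 0,
    fun a => Cfsg.Agent.Lib.PermIndex.Six.comap_ne_stabilizer h6 α hα 0 a⟩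

end Cfsg.Agent.S5945
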