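import Cfsg.Statements.S5949
import Cfsg.Agent.Lib.ElusL.Bridge

set_option autoImplicit false
open scoped MatrixGroups
open Cfsg

namespace Cfsg.Agent.S5949

/-- Elements of prime order of PSL_n(q) with no fixed `m`-space. Here `T = PSL_n(F)` for a field `F` with `q = p^f` elements (`n ≥ 2`, `(n, q) ≠ (2, 2), (2, 3)`); an element of `T` of prime order `r` is represented by a matrix `x` of determinant 1 with `x^r` scalar and `x` not scalar; `i` denotes the multiplicative order of `q` modulo `r` (when `r ≠ p`), and `(a)_r` the `r`-part of `a`. Let `1 ≤ m ≤ n/2` and let `r` be a prime dividing the number of `m`-dimensional subspaces of `F^n`. Then every element of `T` of order `r` fixes some `m`-dimensional subspace (the action on `m`-spaces is `r`-elusive) if and only if `r ≠ p` and either (i) `i = 1` and (`r ∣ m`, or `(q−1)_r ≥ (n)_r` where in addition `q ≡ 1 (mod 4)` is required when `r = 2` and `n` is even), or (ii) `2 ≤ i ≤ m` and `n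 mod i ≥ m mod i`. -/
theorem result {F : Type*} [Field F] [Fintype F] {p : ℕ} [Fact p.Prime] [CharP F p] {q : ℕ} (hq : Fintype.card F = q)
    (n m : ℕ) (hn : 2 ≤ n) (hT : (n, q) ≠ (2, 2) ∧ (n, q) ≠ (2, 3)) (hm : 1 ≤ m) (hmn : 2 * m ≤ n)
    (r : ℕ) [Fact r.Prime] (hrΩ : r ∣ Nat.card {W : Submodule F (Fin n → F) // Module.finrank F ↥W = m}) :
    (∀ x : Matrix.SpecialLinearGroup (Fin n) F,
      (∃ c : F, ((x ^ r : Matrix.SpecialLinearGroup (Fin n) F) : Matrix (Fin n) (Fin n) F) = c • (1 : Matrix (Fin n) (Fin n) F)) →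
      (∀ c : F, (x : Matrix (Fin n) (Fin n) F) ≠ c • (1 : Matrix (Fin n) (Fin n) F)) →
      ∃ W : Submodule F (Fin n → F), Module.finrank F ↥W = m ∧ W.map (Matrix.toLin' (x : Matrix (Fin n) (Fin n) F)) ≤ W) ↔
    (r ≠ p ∧
      ((orderOf (q : ZMod r) = 1 ∧ (r ∣ m ∨ (padicValNat r n ≤ padicValNat r (q - 1) ∧ (r = 2 → Even n → q % 4 = 1)))) ∨
       (2 ≤ orderOf (q : ZMod r) ∧ orderOf (q : ZMod r) ≤ m ∧ m % orderOf (q : ZMod r) ≤ n % orderOf (q : ZMod r)))) := by
  classical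
  have hfin : Module.finrank F (Fin n → F) = n := Module.finrank_fin_fun F
  have hn0 : n ≠ 0 := by omega
  have hq1 : 1 ≤ q := Cfsg.Agent.Lib.ElusL.Bridge.one_le_card hq
  have hr : r.Prime := Fact.out
  have hmn' : m ≤ n := by omega
  constructor
  · intro hall
    obtain ⟨l, hl1, hl2, hl3⟩ := Cfsg.Agent.Lib.ElusL.Count.exists_of_dvd (F := F)
      (V := Fin n → F) (k := m) hq hr (by rw [hfin]; exact hmn') hrΩ
    rw [hfin] at hl1 hl2
    have hrp : r ≠ p := by
      rintro rfl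
      exact Cfsg.Agent.Lib.ElusL.Bridge.char_not_dvd (F := F) hq (by omega) hl3
    refine ⟨hrp, ?_⟩
    obtain ⟨hrF, hrq⟩ := Cfsg.Agent.Lib.ElusL.Bridge.r_facts (F := F) hq hr hrp
    have hipos := Cfsg.Agent.Lib.ElusL.Cyc.ord_pos (q := q) hr hrq
    by_contra hcon
    push Not at hcon
    by_cases hi1 : orderOf (q : ZMod r) = 1
    · have hdvd : r ∣ q - 1 := by
        have h := (Cfsg.Agent.Lib.ElusL.Cyc.ord_dvd_iff (r := r) hq1 1).mp (by rw [hi1])
        simpa using h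
      have hnot := hcon.1 hi1
      obtain ⟨T, c, hc, hT, hdet, hsc, hW, -⟩ := Cfsg.Agent.Lib.ElusL.Neg.neg_eq1 (F := F)
        (V := Fin n → F) (m := m) hq hr hdvd (by rw [hfin]; exact hn0) hnot.1
        (by
          rw [hfin]
          by_cases h1 : padicValNat r n ≤ padicValNat r (q - 1)
          · right
            obtain ⟨h2, h3, h4⟩ := by simpa [h1] using hnot.2
            exact ⟨h2, h3, h4⟩
          · left
            omega)
      obtain ⟨W, hW1, hW2⟩ := hall (Cfsg.Agent.Lib.ElusL.Bridge.ofEnd T hdet)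
        ⟨c, Cfsg.Agent.Lib.ElusL.Bridge.ofEnd_pow hdet hT⟩
        (Cfsg.Agent.Lib.ElusL.Bridge.ofEnd_ne hdet hsc)
      rw [Cfsg.Agent.Lib.ElusL.Bridge.map_le_iff, Cfsg.Agent.Lib.ElusL.Bridge.toLin_ofEnd] at hW2
      exact hW W hW2 hW1
    · have hi2 : 2 ≤ orderOf (q : ZMod r) := by omega
      have hcop : ¬ r ∣ q - 1 := by
        intro h
        apply hi1
        apply Nat.dvd_one.mp
        exact (Cfsg.Agent.Lib.ElusL.Cyc.ord_dvd_iff (r := r) hq1 1).mpr (by simpa using h)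
      have hil : orderOf (q : ZMod r) ∣ l := (Cfsg.Agent.Lib.ElusL.Cyc.ord_dvd_iff hq1 l).mpr hl3
      obtain ⟨hin, hnm⟩ := Cfsg.Agent.Lib.ElusL.Bridge.order_facts hipos hl1 hl2 hil
      have hlt : n % orderOf (q : ZMod r) < m % orderOf (q : ZMod r) := by
        by_cases him : orderOf (q : ZMod r) ≤ m
        · exact hcon.2 hi2 him
        · rw [Nat.mod_eq_of_lt (a := m) (by omega)]
          exact hnm
      obtain ⟨T, hT, hdet, hsc, hW⟩ := Cfsg.Agent.Lib.ElusL.Neg.neg_ge2 (F := F)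
        (V := Fin n → F) (m := m) hq hr hrF hrq hcop hi2 (by rw [hfin]; exact hin)
        (by rw [hfin]; exact hlt)
      obtain ⟨W, hW1, hW2⟩ := hall (Cfsg.Agent.Lib.ElusL.Bridge.ofEnd T hdet)
        ⟨1, by
          apply Cfsg.Agent.Lib.ElusL.Bridge.ofEnd_pow hdet
          rw [hT, one_smul]⟩
        (Cfsg.Agent.Lib.ElusL.Bridge.ofEnd_ne hdet hsc)
      rw [Cfsg.Agent.Lib.ElusL.Bridge.map_le_iff, Cfsg.Agent.Lib.ElusL.Bridge.toLin_ofEnd] at hW2
      exact hW W hW2 hW1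
  · rintro ⟨hrp, hcond⟩ x ⟨c, hc⟩ hx
    obtain ⟨hrF, hrq⟩ := Cfsg.Agent.Lib.ElusL.Bridge.r_facts (F := F) hq hr hrp
    have hc0 : c ≠ 0 := Cfsg.Agent.Lib.ElusL.Bridge.scalar_ne_zero hn0 hc
    have hT := Cfsg.Agent.Lib.ElusL.Bridge.pow_toLin hc
    have hW : ∃ W : Submodule F (Fin n → F),
        Cfsg.Agent.Lib.ElusL.Basic.Inv (Matrix.toLin' (x : Matrix (Fin n) (Fin n) F)) W ∧
          Module.finrank F W = m := by
      rcases hcond with ⟨hi1, h2⟩ | ⟨hi2, him, hmod⟩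
      · have hdvd : r ∣ q - 1 := by
          have h := (Cfsg.Agent.Lib.ElusL.Cyc.ord_dvd_iff (r := r) hq1 1).mp (by rw [hi1])
          simpa using h
        exact Cfsg.Agent.Lib.ElusL.Pos.pos_eq1 hq hr hrF hrq hdvd hc0 hT
          (Cfsg.Agent.Lib.ElusL.Bridge.det_toLin x) (by rw [hfin]; exact hmn')
          (by rw [hfin]; exact hn0) (by rw [hfin]; exact h2)
      · have hcop : ¬ r ∣ q - 1 := by
          intro h
          have : orderOf (q : ZMod r) ∣ 1 :=
            (Cfsg.Agent.Lib.ElusL.Cyc.ord_dvd_iff (r := r) hq1 1).mpr (by simpa using h)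
          have := Nat.le_of_dvd one_pos this
          omega
        exact Cfsg.Agent.Lib.ElusL.Pos.pos_ge2 hq hr hrF hrq hcop hc0 hT
          (by rw [hfin]; exact hmn') (by rw [hfin]; exact hmod)
    obtain ⟨W, hW1, hW2⟩ := hW
    exact ⟨W, hW2, (Cfsg.Agent.Lib.ElusL.Bridge.map_le_iff _ _).mpr hW1⟩

end Cfsg.Agent.S5949
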