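import Cfsg.Statements.S5950
import Cfsg.Agent.Lib.ElusL.Dec5

set_option autoImplicit false
open scoped MatrixGroups
open Cfsg

namespace Cfsg.Agent.S5950

/-- Elements of prime order of PSL_n(q) fixing no decomposition `F^n = U ⊕ W` with `dim U = m`. Here `T = PSL_n(F)` for a field `F` with `q = p^f` elements (`n ≥ 2`, `(n, q) ≠ (2, 2), (2, 3)`); an element of `T` of prime order `r` is represented by a matrix `x` of determinant 1 with `x^r` scalar and `x` not scalar; `i` denotes the multiplicative order of `q` modulo `r` (when `r ≠ p`), and `(a)_r` the `r`-part of `a`. Let `n ≥ 3`, `1 ≤ m < n/2`, and let `r` be a prime dividing the number of such decompositions (unordered pairs `{U, W}` of complementary subspaces with `dim U = m`; since `m ≠ n − m` these are the ordered pairs with `dim U = m`). Then every element of `T` of order `r` fixes such a pair (fixes both `U` and `W` for some complementary `U, W` with `dim U = m`) if and only if one of: (i) `r = p > 2`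 and every partition of `n` into parts of size at most `p` contains, as a sub-multiset, a partition of `m`; (ii) `r = p = 2` and `n` is odd or `m` is even; (iii) `r ≠ p`, `i = 1`, and `r ∣ m` or `(q−1)_r ≥ (n)_r` (with `q ≡ 1 (mod 4)` required when `r = 2` and `n` is even); (iv) `r ≠ p`, `2 ≤ i ≤ m` and `n mod i ≥ m mod i`. -/
theorem result {F : Type*} [Field F] [Fintype F] {p : ℕ} [Fact p.Prime] [CharP F p] {q : ℕ} (hq : Fintype.card F = q)
    (n m : ℕ) (hn : 3 ≤ n) (hm : 1 ≤ m) (hmn : 2 * m < n)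
    (r : ℕ) [Fact r.Prime]
    (hrΩ : r ∣ Nat.card {P : Submodule F (Fin n → F) × Submodule F (Fin n → F) // IsCompl P.1 P.2 ∧ Module.finrank F ↥P.1 = m}) :
    (∀ x : Matrix.SpecialLinearGroup (Fin n) F,
      (∃ c : F, ((x ^ r : Matrix.SpecialLinearGroup (Fin n) F) : Matrix (Fin n) (Fin n) F) = c • (1 : Matrix (Fin n) (Fin n) F)) →
      (∀ c : F, (x : Matrix (Fin n) (Fin n) F) ≠ c • (1 : Matrix (Fin n) (Fin n) F)) →
      ∃ U W : Submodule F (Fin n → F), IsCompl U W ∧ Module.finrank F ↥U = m ∧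
        U.map (Matrix.toLin' (x : Matrix (Fin n) (Fin n) F)) ≤ U ∧ W.map (Matrix.toLin' (x : Matrix (Fin n) (Fin n) F)) ≤ W) ↔
    ((r = p ∧ 2 < p ∧ (∀ μ : Multiset ℕ, (∀ a ∈ μ, 0 < a ∧ a ≤ p) → μ.sum = n → ∃ ν : Multiset ℕ, ν ≤ μ ∧ ν.sum = m)) ∨
     (r = p ∧ p = 2 ∧ (Odd n ∨ Even m)) ∨
     (r ≠ p ∧
      ((orderOf (q : ZMod r) = 1 ∧ (r ∣ m ∨ (padicValNat r n ≤ padicValNat r (q - 1) ∧ (r = 2 → Even n → q % 4 = 1)))) ∨
       (2 ≤ orderOf (q : ZMod r) ∧ orderOf (q : ZMod r) ≤ m ∧ m % orderOf (q : ZMod r) ≤ n % orderOf (q : ZMod r))))) := by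
  classical
  have hfin : Module.finrank F (Fin n → F) = n := Module.finrank_fin_fun F
  have hn0 : n ≠ 0 := by omega
  have hq1 : 1 ≤ q := Cfsg.Agent.Lib.ElusL.Bridge.one_le_card hq
  have hr : r.Prime := Fact.out
  have hmn' : m ≤ n := by omega
  by_cases hrp : r = p
  · subst hrp
    constructor
    · intro hall
      have key := Cfsg.Agent.Lib.ElusL.Dec5.neg_rp (F := F) (V := Fin n → F) (p := r) (m := m)
        (by rw [hfin]; exact hmn') (by rw [hfin]; exact hn0) (by
          intro T hT hdet hsc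
          obtain ⟨U, W, hUW, hU, h1, h2⟩ := hall (Cfsg.Agent.Lib.ElusL.Bridge.ofEnd T hdet)
            ⟨1, by
              apply Cfsg.Agent.Lib.ElusL.Bridge.ofEnd_pow hdet
              rw [hT, one_smul]⟩
            (Cfsg.Agent.Lib.ElusL.Bridge.ofEnd_ne hdet hsc)
          rw [Cfsg.Agent.Lib.ElusL.Bridge.map_le_iff, Cfsg.Agent.Lib.ElusL.Bridge.toLin_ofEnd] at h1 h2
          exact ⟨U, W, hUW, hU, h1, h2⟩)
      by_cases hp2 : r = 2
      · right
        left
        refine ⟨rfl, hp2, ?_⟩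
        by_contra hcon
        push Not at hcon
        obtain ⟨hodd, heven⟩ := hcon
        rw [Nat.not_odd_iff_even] at hodd
        rw [Nat.not_even_iff_odd] at heven
        obtain ⟨t, ht⟩ := hodd
        obtain ⟨ν, h1, h2⟩ := key (Multiset.replicate t 2) (by
            intro a ha
            rw [Multiset.eq_of_mem_replicate ha, hp2]
            omega) (by
            rw [hfin, Multiset.sum_replicate, ht]
            simp only [smul_eq_mul]
            omega)
        have h3 := Cfsg.Agent.Lib.ElusL.Dec5.p2_even t ν h1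
        rw [h2] at h3
        exact (Nat.not_even_iff_odd.mpr heven) h3
      · left
        refine ⟨rfl, ?_, ?_⟩
        · have := hr.two_le
          omega
        · intro μ h1 h2
          exact key μ h1 (by rw [hfin]; exact h2)
    · intro hrhs x ⟨c, hc⟩ hx
      have hc0 : c ≠ 0 := Cfsg.Agent.Lib.ElusL.Bridge.scalar_ne_zero hn0 hc
      have hT := Cfsg.Agent.Lib.ElusL.Bridge.pow_toLin hc
      have hprop : ∀ μ : Multiset ℕ, (∀ a ∈ μ, 0 < a ∧ a ≤ r) → μ.sum = Module.finrank F (Fin n → F) →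
          ∃ ν : Multiset ℕ, ν ≤ μ ∧ ν.sum = m := by
        intro μ h1 h2
        rw [hfin] at h2
        rcases hrhs with ⟨-, -, h⟩ | ⟨-, h4, h⟩ | ⟨h, -⟩
        · exact h μ h1 h2
        · subst h4
          exact Cfsg.Agent.Lib.ElusL.Dec5.p2_exists μ h1 (by rw [h2]; exact hmn') (by rw [h2]; exact h)
        · exact absurd rfl h
      obtain ⟨U, W, hUW, hU, h1, h2⟩ := Cfsg.Agent.Lib.ElusL.Dec5.pos_rp hc0 hT hprop
      exact ⟨U, W, hUW, hU, (Cfsg.Agent.Lib.ElusL.Bridge.map_le_iff _ _).mpr h1,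
        (Cfsg.Agent.Lib.ElusL.Bridge.map_le_iff _ _).mpr h2⟩
  · obtain ⟨hrF, hrq⟩ := Cfsg.Agent.Lib.ElusL.Bridge.r_facts (F := F) hq hr hrp
    have hipos := Cfsg.Agent.Lib.ElusL.Cyc.ord_pos (q := q) hr hrq
    constructor
    · intro hall
      obtain ⟨l, hl1, hl2, hl3⟩ := Cfsg.Agent.Lib.ElusL.Dec1.exists_of_dvd_compl (F := F)
        (V := Fin n → F) (m := m) hq hr hrq (by rw [hfin]; exact hmn') hrΩ
      rw [hfin] at hl1 hl2
      right
      right
      refine ⟨hrp, ?_⟩
      by_contra hcon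
      push Not at hcon
      by_cases hi1 : orderOf (q : ZMod r) = 1
      · have hdvd : r ∣ q - 1 := by
          have h := (Cfsg.Agent.Lib.ElusL.Cyc.ord_dvd_iff (r := r) hq1 1).mp (by rw [hi1])
          simpa using h
        have hnot := hcon.1 hi1
        obtain ⟨T, c, hc, hT, hdet, hsc, hW, -⟩ := Cfsg.Agent.Lib.ElusL.Neg.neg_eq1 (F := F)
          (V := Fin n → F) (m := m) hq hr hdvd (by rw [hfin]; exact hn0) hnot.1
          (by
            rw [hfin]
            by_cases h1 : padicValNat r n ≤ padicValNat r (q - 1)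
            · right
              obtain ⟨h2, h3, h4⟩ := by simpa [h1] using hnot.2
              exact ⟨h2, h3, h4⟩
            · left
              omega)
        obtain ⟨U, W, -, hU1, hU2, -⟩ := hall (Cfsg.Agent.Lib.ElusL.Bridge.ofEnd T hdet)
          ⟨c, Cfsg.Agent.Lib.ElusL.Bridge.ofEnd_pow hdet hT⟩
          (Cfsg.Agent.Lib.ElusL.Bridge.ofEnd_ne hdet hsc)
        rw [Cfsg.Agent.Lib.ElusL.Bridge.map_le_iff, Cfsg.Agent.Lib.ElusL.Bridge.toLin_ofEnd] at hU2
        exact hW U hU2 hU1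
      · have hi2 : 2 ≤ orderOf (q : ZMod r) := by omega
        have hcop : ¬ r ∣ q - 1 := by
          intro h
          apply hi1
          apply Nat.dvd_one.mp
          exact (Cfsg.Agent.Lib.ElusL.Cyc.ord_dvd_iff (r := r) hq1 1).mpr (by simpa using h)
        have hil : orderOf (q : ZMod r) ∣ l := (Cfsg.Agent.Lib.ElusL.Cyc.ord_dvd_iff hq1 l).mpr hl3
        obtain ⟨hin, hnm⟩ := Cfsg.Agent.Lib.ElusL.Bridge.order_facts hipos hl1 hl2 hil
        have hlt : n % orderOf (q : ZMod r) < m % orderOf (q : ZMod r) := by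
          by_cases him : orderOf (q : ZMod r) ≤ m
          · exact hcon.2 hi2 him
          · rw [Nat.mod_eq_of_lt (a := m) (by omega)]
            exact hnm
        obtain ⟨T, hT, hdet, hsc, hW⟩ := Cfsg.Agent.Lib.ElusL.Neg.neg_ge2 (F := F)
          (V := Fin n → F) (m := m) hq hr hrF hrq hcop hi2 (by rw [hfin]; exact hin)
          (by rw [hfin]; exact hlt)
        obtain ⟨U, W, -, hU1, hU2, -⟩ := hall (Cfsg.Agent.Lib.ElusL.Bridge.ofEnd T hdet)
          ⟨1, by
            apply Cfsg.Agent.Lib.ElusL.Bridge.ofEnd_pow hdet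
            rw [hT, one_smul]⟩
          (Cfsg.Agent.Lib.ElusL.Bridge.ofEnd_ne hdet hsc)
        rw [Cfsg.Agent.Lib.ElusL.Bridge.map_le_iff, Cfsg.Agent.Lib.ElusL.Bridge.toLin_ofEnd] at hU2
        exact hW U hU2 hU1
    · intro hrhs x ⟨c, hc⟩ hx
      have hcond : (orderOf (q : ZMod r) = 1 ∧ (r ∣ m ∨ (padicValNat r n ≤ padicValNat r (q - 1) ∧
          (r = 2 → Even n → q % 4 = 1)))) ∨ (2 ≤ orderOf (q : ZMod r) ∧ orderOf (q : ZMod r) ≤ m ∧
          m % orderOf (q : ZMod r) ≤ n % orderOf (q : ZMod r)) := by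
        rcases hrhs with ⟨h, -⟩ | ⟨h, -⟩ | ⟨-, h⟩
        · exact absurd h hrp
        · exact absurd h hrp
        · exact h
      have hc0 : c ≠ 0 := Cfsg.Agent.Lib.ElusL.Bridge.scalar_ne_zero hn0 hc
      have hT := Cfsg.Agent.Lib.ElusL.Bridge.pow_toLin hc
      have hW : ∃ W : Submodule F (Fin n → F),
          Cfsg.Agent.Lib.ElusL.Basic.Inv (Matrix.toLin' (x : Matrix (Fin n) (Fin n) F)) W ∧
            Module.finrank F W = m := by
        rcases hcond with ⟨hi1, h2⟩ | ⟨hi2, him, hmod⟩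
        · have hdvd : r ∣ q - 1 := by
            have h := (Cfsg.Agent.Lib.ElusL.Cyc.ord_dvd_iff (r := r) hq1 1).mp (by rw [hi1])
            simpa using h
          exact Cfsg.Agent.Lib.ElusL.Pos.pos_eq1 hq hr hrF hrq hdvd hc0 hT
            (Cfsg.Agent.Lib.ElusL.Bridge.det_toLin x) (by rw [hfin]; exact hmn')
            (by rw [hfin]; exact hn0) (by rw [hfin]; exact h2)
        · have hcop : ¬ r ∣ q - 1 := by
            intro h
            have : orderOf (q : ZMod r) ∣ 1 :=
              (Cfsg.Agent.Lib.ElusL.Cyc.ord_dvd_iff (r := r) hq1 1).mpr (by simpa using h)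
            have := Nat.le_of_dvd one_pos this
            omega
          exact Cfsg.Agent.Lib.ElusL.Pos.pos_ge2 hq hr hrF hrq hcop hc0 hT
            (by rw [hfin]; exact hmn') (by rw [hfin]; exact hmod)
      obtain ⟨U, hU1, hU2⟩ := hW
      obtain ⟨W, hW1, hUW⟩ := Cfsg.Agent.Lib.ElusL.Dec1.exists_inv_compl hrF hc0 hT hU1
      exact ⟨U, W, hUW, hU2, (Cfsg.Agent.Lib.ElusL.Bridge.map_le_iff _ _).mpr hU1,
        (Cfsg.Agent.Lib.ElusL.Bridge.map_le_iff _ _).mpr hW1⟩

end Cfsg.Agent.S5950
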