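import Cfsg.Statements.S5952
-- import your own Cfsg.Agent.* helpers here

set_option autoImplicit false
open Cfsg

namespace Cfsg.Agent.S5952

theorem exists_subspace_le {F V : Type*} [Field F] [AddCommGroup V] [Module F V]
    [FiniteDimensional F V] (E : Submodule F V) {c : ℕ} (hc : c ≤ Module.finrank F E) :
    ∃ W : Submodule F V, W ≤ E ∧ Module.finrank F W = c := by
  obtain ⟨v, hv⟩ := exists_linearIndependent_of_le_finrank (R := F) (M := E) hc
  let W' : Submodule F E := Submodule.span F (Set.range v)
  refine ⟨W'.map E.subtype, ?_, ?_⟩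
  · rintro _ ⟨x, _, rfl⟩
    exact x.2
  · rw [LinearEquiv.finrank_eq (Submodule.equivMapOfInjective E.subtype E.injective_subtype W').symm,
      finrank_span_eq_card hv, Fintype.card_fin]

theorem finrank_sup_of_disjoint {F V : Type*} [Field F] [AddCommGroup V] [Module F V]
    [FiniteDimensional F V] {X Y : Submodule F V} (h : Disjoint X Y) :
    Module.finrank F ↥(X ⊔ Y) = Module.finrank F X + Module.finrank F Y := by
  have := Submodule.finrank_sup_add_finrank_inf_eq X Y
  rw [h.eq_bot, finrank_bot, add_zero] at this
  exact this


/-- Which dimensions of invariant subspaces a semisimple linear map has. Let `V` be a finite-dimensional vector space over a field `F` and `f` an invertible semisimple linear map of `V`. Suppose `V` is the internal direct sum of the fixed space `C_V(f)` (the eigenspace for 1) and subspaces `U_1, …, U_s`, each `f`-invariant of dimension `a ≥ 1` on which `f` acts irreducibly (no `f`-invariant subspaces other than 0 and `U_j`). Let `0 < m < dim V` and `ℓ = m mod a`. Then `f` leaves some `m`-dimensional subspace invariant if and only if `dim C_V(f)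 ≥ m`, or `a ≤ m` and `dim C_V(f) ≥ ℓ`. -/
theorem result {F V : Type*} [Field F] [AddCommGroup V] [Module F V]
    [FiniteDimensional F V] (f : V →ₗ[F] V) (hf : Function.Bijective f) (hss : Module.End.IsSemisimple f)
    {s a : ℕ} (ha : 1 ≤ a) (U : Fin s → Submodule F V)
    (hUinv : ∀ j, (U j).map f ≤ U j) (hUdim : ∀ j, Module.finrank F ↥(U j) = a)
    (hUirr : ∀ j, ∀ W : Submodule F V, W ≤ U j → W.map f ≤ W → W = ⊥ ∨ W = U j)
    (hdec : DirectSum.IsInternal (fun o : Option (Fin s) => o.elim (Module.End.eigenspace f 1) U))
    (m : ℕ) (hm : 0 < m) (hmV : m < Module.finrank F V) :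
    (∃ W : Submodule F V, Module.finrank F ↥W = m ∧ W.map f ≤ W) ↔
    (m ≤ Module.finrank F ↥(Module.End.eigenspace f 1) ∨
      (a ≤ m ∧ m % a ≤ Module.finrank F ↥(Module.End.eigenspace f 1))) := by
  classical
  set E := Module.End.eigenspace f 1 with hE
  let A : Option (Fin s) → Submodule F V := fun o => o.elim E U
  have hint := (DirectSum.isInternal_submodule_iff_iSupIndep_and_iSup_eq_top A).mp hdec
  obtain ⟨hind, htop⟩ := hint
  have hEinv : ∀ W : Submodule F V, W ≤ E → W.map f ≤ W := by
    rintro W hW _ ⟨x, hx, rfl⟩
    have h1 : f x = x := by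
      have := hW hx
      rw [hE, Module.End.mem_eigenspace_iff] at this
      simpa using this
    change f x ∈ W
    rw [h1]
    exact hx
  let Vs : Finset (Fin s) → Submodule F V := fun J => E ⊔ ⨆ j ∈ J, U j
  have hVs_insert : ∀ (J : Finset (Fin s)) (k : Fin s), Vs (insert k J) = Vs J ⊔ U k := by
    intro J k
    simp only [Vs, Finset.iSup_insert]
    rw [sup_assoc, sup_comm (U k)]
  have hVs_empty : Vs ∅ = E := by simp [Vs]
  have hdisj : ∀ (J : Finset (Fin s)) (k : Fin s), k ∉ J → Disjoint (Vs J) (U k) := by
    intro J k hk
    have h1 := hind (some k)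
    refine Disjoint.mono_left ?_ h1.symm
    refine sup_le (le_iSup₂_of_le (none : Option (Fin s)) (by simp) le_rfl) ?_
    refine iSup₂_le fun j hj => le_iSup₂_of_le (some j) ?_ le_rfl
    intro h
    apply hk
    have : j = k := by simpa using h
    rwa [← this]
  have hVs_top : Vs Finset.univ = ⊤ := by
    rw [← htop, iSup_option]
    simp [Vs, A]
  have hVs_dim : ∀ J : Finset (Fin s), Module.finrank F ↥(Vs J) = Module.finrank F E + J.card * a := by
    intro J
    induction J using Finset.induction_on with
    | empty => rw [hVs_empty]; simp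
    | insert k J hk ih =>
      rw [hVs_insert, finrank_sup_of_disjoint (hdisj J k hk), ih, hUdim, Finset.card_insert_of_notMem hk]
      ring
  have hVs_inv : ∀ J : Finset (Fin s), (Vs J).map f ≤ Vs J := by
    intro J
    induction J using Finset.induction_on with
    | empty => rw [hVs_empty]; exact hEinv E le_rfl
    | insert k J hk ih =>
      rw [hVs_insert, Submodule.map_sup]
      exact sup_le_sup ih (hUinv k)
  have hdimV : Module.finrank F V = Module.finrank F E + s * a := by
    have := hVs_dim Finset.univ
    rw [hVs_top, finrank_top, Finset.card_univ, Fintype.card_fin] at this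
    exact this
  constructor
  · rintro ⟨W, hWdim, hWinv⟩
    have hforward : ∀ J : Finset (Fin s), ∃ c t : ℕ, Module.finrank F ↥(W ⊓ Vs J) = c + a * t ∧
        c ≤ Module.finrank F E := by
      intro J
      induction J using Finset.induction_on with
      | empty =>
        refine ⟨Module.finrank F ↥(W ⊓ Vs ∅), 0, by simp, ?_⟩
        rw [hVs_empty]
        exact Submodule.finrank_mono inf_le_right
      | insert k J hk ih =>
        obtain ⟨c, t, h1, h2⟩ := ih
        set X := Vs J with hX
        set T := W ⊓ Vs (insert k J) with hT
        let R := (T ⊔ X) ⊓ U k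
        have hXle : X ≤ Vs (insert k J) := by rw [hVs_insert]; exact le_sup_left
        have hTX : T ⊓ X = W ⊓ X := by
          rw [hT, inf_assoc, inf_eq_right.mpr hXle]
        have hTle : T ≤ X ⊔ U k := by
          rw [← hVs_insert]; exact inf_le_right
        have hmod : T ⊔ X = X ⊔ R := by
          have h3 := sup_inf_assoc_of_le (U k) (show X ≤ T ⊔ X from le_sup_right)
          have h4 : (X ⊔ U k) ⊓ (T ⊔ X) = T ⊔ X := inf_eq_right.mpr (sup_le hTle le_sup_left)
          rw [h4] at h3
          rw [h3, inf_comm]
        have hdisjR : Disjoint X R := (hdisj J k hk).mono_right inf_le_right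
        have hdim1 := Submodule.finrank_sup_add_finrank_inf_eq T X
        rw [hmod, finrank_sup_of_disjoint hdisjR, hTX] at hdim1
        have hdim2 : Module.finrank F ↥T = Module.finrank F ↥(W ⊓ X) + Module.finrank F ↥R := by
          omega
        have hTinv : T.map f ≤ T := by
          refine (Submodule.map_inf_le f).trans (inf_le_inf hWinv (hVs_inv _))
        have hRinv : R.map f ≤ R := by
          refine (Submodule.map_inf_le f).trans (inf_le_inf ?_ (hUinv k))
          rw [Submodule.map_sup]
          exact sup_le_sup hTinv (hVs_inv J)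
        rcases hUirr k R inf_le_right hRinv with hR | hR
        · refine ⟨c, t, ?_, h2⟩
          rw [hdim2, hR, finrank_bot, add_zero, h1]
        · refine ⟨c, t + 1, ?_, h2⟩
          rw [hdim2, hR, hUdim, h1]
          ring
    obtain ⟨c, t, h1, h2⟩ := hforward Finset.univ
    rw [hVs_top, inf_top_eq, hWdim] at h1
    by_cases ht : t = 0
    · left
      subst ht
      simp at h1
      omega
    · right
      have ht1 : 1 ≤ t := Nat.one_le_iff_ne_zero.mpr ht
      refine ⟨?_, ?_⟩
      · rw [h1]
        nlinarith
      · rw [h1, Nat.add_mul_mod_self_left]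
        exact (Nat.mod_le _ _).trans h2
  · intro h
    -- the main construction
    have hbuild : ∀ (c t : ℕ), c ≤ Module.finrank F E → t ≤ s → c + t * a = m →
        ∃ W : Submodule F V, Module.finrank F ↥W = m ∧ W.map f ≤ W := by
      intro c t hc ht hm'
      obtain ⟨W₀, hW₀, hW₀dim⟩ := exists_subspace_le E hc
      obtain ⟨J, -, hJ⟩ := Finset.exists_subset_card_eq
        (s := (Finset.univ : Finset (Fin s))) (n := t) (by simpa using ht)
      have hbuild2 : ∀ J : Finset (Fin s), ∃ W : Submodule F V, W ≤ Vs J ∧
          Module.finrank F ↥W = c + J.card * a ∧ W.map f ≤ W := by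
        intro J
        induction J using Finset.induction_on with
        | empty =>
          refine ⟨W₀, ?_, by simp [hW₀dim], hEinv W₀ hW₀⟩
          rw [hVs_empty]
          exact hW₀
        | insert k J hk ih =>
          obtain ⟨W, h1, h2, h3⟩ := ih
          refine ⟨W ⊔ U k, ?_, ?_, ?_⟩
          · rw [hVs_insert]
            exact sup_le_sup h1 le_rfl
          · rw [finrank_sup_of_disjoint ((hdisj J k hk).mono_left h1), h2, hUdim,
              Finset.card_insert_of_notMem hk]
            ring
          · rw [Submodule.map_sup]
            exact sup_le_sup h3 (hUinv k)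
      obtain ⟨W, -, h2, h3⟩ := hbuild2 J
      refine ⟨W, ?_, h3⟩
      rw [h2, hJ, hm']
    rcases h with h | ⟨h1, h2⟩
    · exact hbuild m 0 h (Nat.zero_le _) (by simp)
    · by_cases hs : m / a ≤ s
      · refine hbuild (m % a) (m / a) h2 hs ?_
        rw [mul_comm]
        exact Nat.mod_add_div m a
      · push Not at hs
        have hle : s * a ≤ m := by
          have h3 : s + 1 ≤ m / a := hs
          have h4 : (m / a) * a ≤ m := Nat.div_mul_le_self m a
          nlinarith
        refine hbuild (m - s * a) s ?_ le_rfl (by omega)
        omega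

end Cfsg.Agent.S5952
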