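import Cfsg.Statements.S5957
import Cfsg.Agent.Lib.Elusive.SqScalar

set_option autoImplicit false
open scoped MatrixGroups
open Cfsg

namespace Cfsg.Agent.S5957

/-- Involutions of PSL_n(q) and imprimitive subgroups. Here `T = PSL_n(F)` for a field `F` with `q = p^f` elements (`n ≥ 2`, `(n, q) ≠ (2, 2), (2, 3)`), `n = a·t` with `t ≥ 2`, and Ω is the set of direct-sum decompositions of `F^n` into `t` subspaces of dimension `a` (unordered; their number is the number of ordered ones divided by `t!`), whose stabilizers are the imprimitive subgroups of type GL_a(q) ≀ S_t (maximal except in some small cases; maximality is not assumed); an element of `T` of prime order `r` (a matrix `x` of determinant 1 with `x^r` scalar, `x` not scalar) fixes a point of Ω when it permutes the summands of some such decomposition. If the number of such decompositions is even, then every involution of `T` stabilizes one of them (the action is 2-elusive). -/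
theorem result {F : Type*} [Field F] [Fintype F] {p : ℕ} [Fact p.Prime] [CharP F p] {q : ℕ} (hq : Fintype.card F = q)
    (n a t : ℕ) (hn : 2 ≤ n) (hT : (n, q) ≠ (2, 2) ∧ (n, q) ≠ (2, 3)) (hat : n = a * t) (ha : 1 ≤ a) (ht : 2 ≤ t)
    (hΩ : 2 ∣ Nat.card {D : Fin t → Submodule F (Fin n → F) // Cfsg.Geo.IsMDecomposition a D} / Nat.factorial t)
    (x : Matrix.SpecialLinearGroup (Fin n) F)
    (hx1 : ∃ z : F, ((x ^ 2 : Matrix.SpecialLinearGroup (Fin n) F) : Matrix (Fin n) (Fin n) F) = z • (1 : Matrix (Fin n) (Fin n) F))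
    (hx2 : ∀ z : F, (x : Matrix (Fin n) (Fin n) F) ≠ z • (1 : Matrix (Fin n) (Fin n) F)) :
    ∃ D : Fin t → Submodule F (Fin n → F), Cfsg.Geo.IsMDecomposition a D ∧
        ∃ σ : Equiv.Perm (Fin t), ∀ j, (D j).map (Matrix.toLin' (x : Matrix (Fin n) (Fin n) F)) = D (σ j) := by
  classical
  subst hat
  obtain ⟨z, hz⟩ := hx1
  set A : Matrix (Fin (a * t)) (Fin (a * t)) F := (x : Matrix (Fin (a * t)) (Fin (a * t)) F) with hA
  have hsq : A * A = z • (1 : Matrix (Fin (a * t)) (Fin (a * t)) F) := by
    have h := hz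
    rw [Matrix.SpecialLinearGroup.coe_pow, pow_two] at h
    exact h
  have hdet : IsUnit A.det := by
    have : A.det = 1 := x.2
    rw [this]; exact isUnit_one
  have hnt : Nonempty (Fin (a * t)) := ⟨⟨0, by omega⟩⟩
  have hz0 : z ≠ 0 := by
    rintro rfl
    rw [zero_smul] at hsq
    have hdet2 : A.det * A.det = 0 := by
      rw [← Matrix.det_mul, hsq, Matrix.det_zero]
    rw [mul_self_eq_zero] at hdet2
    rw [hdet2] at hdet
    exact not_isUnit_zero hdet
  let g : (Fin (a * t) → F) →ₗ[F] (Fin (a * t) → F) := Matrix.toLin' A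
  have hg : ∀ v, g (g v) = z • v := by
    intro v
    simp only [g, Matrix.toLin'_apply, Matrix.mulVec_mulVec, hsq, Matrix.smul_mulVec, Matrix.one_mulVec]
  have hginj : Function.Injective g := by
    intro u v huv
    have := congrArg g huv
    rw [hg, hg] at this
    exact smul_right_injective _ hz0 this
  obtain ⟨I, _, τ, P, hτ, hind, htop, hdim, hmap⟩ :=
    Cfsg.Agent.Lib.Elusive.SqScalar.exists_atoms g z hz0 hg
  have hcard : Fintype.card I = a * t := by
    have h1 := Cfsg.Agent.Lib.Elusive.Atoms.finrank_iSup_fintype P hind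
    rw [htop, finrank_top, Module.finrank_fintype_fun_eq_card] at h1
    simp only [hdim, Finset.sum_const, Finset.card_univ, smul_eq_mul, mul_one, Fintype.card_fin] at h1
    exact h1.symm
  obtain ⟨e, σ, he⟩ := Cfsg.Agent.Lib.Elusive.Bins.exists_bins I τ hτ a t (by omega) hcard
  obtain ⟨h1, h2, h3, h4⟩ := Cfsg.Agent.Lib.Elusive.Atoms.decomposition_of_atoms τ P 1 hind htop hdim
    g hginj hmap e σ he
  refine ⟨fun j => ⨆ m : Fin a, P (e.symm (j, m)), ⟨ht, by omega, ?_, h1, h2⟩, σ, h4⟩
  intro j
  rw [h3, mul_one]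

end Cfsg.Agent.S5957
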