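import Cfsg.Statements.S5958
import Cfsg.Agent.Lib.ElusDec.Neg
import Cfsg.Agent.Lib.ElusDec.Pos3

set_option autoImplicit false
open scoped MatrixGroups
open Cfsg

namespace Cfsg.Agent.S5958

/-- Elements of odd prime order of PSL_n(q) and imprimitive subgroups. Here `T = PSL_n(F)` for a field `F` with `q = p^f` elements (`n ≥ 2`, `(n, q) ≠ (2, 2), (2, 3)`), `n = a·t` with `t ≥ 2`, and Ω is the set of direct-sum decompositions of `F^n` into `t` subspaces of dimension `a` (unordered; their number is the number of ordered ones divided by `t!`), whose stabilizers are the imprimitive subgroups of type GL_a(q) ≀ S_t (maximal except in some small cases; maximality is not assumed); an element of `T` of prime order `r` (a matrix `x` of determinant 1 with `x^r` scalar, `x` not scalar) fixes a point of Ω when it permutes the summands of some such decomposition. Let `r ≠ p` be an odd prime dividing the number of such decompositions, let `c` be the multiplicative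 order of `q` modulo `r`, and write `k = n mod c`, `ℓ = a mod c`. Then every element of `T` of order `r` stabilizes such a decomposition if and only if either `a = 1`, `c = r − 1 > 1` and `n ≤ k·r`, or `c ≤ a` and `k = t·ℓ`. -/
theorem result {F : Type*} [Field F] [Fintype F] {p : ℕ} [Fact p.Prime] [CharP F p] {q : ℕ} (hq : Fintype.card F = q)
    (n a t : ℕ) (hn : 2 ≤ n) (hT : (n, q) ≠ (2, 2) ∧ (n, q) ≠ (2, 3)) (hat : n = a * t) (ha : 1 ≤ a) (ht : 2 ≤ t)
    (r : ℕ) [Fact r.Prime] (hr2 : r ≠ 2) (hrp : r ≠ p) (hΩ : r ∣ Nat.card {D : Fin t → Submodule F (Fin n → F) // Cfsg.Geo.IsMDecomposition a D} / Nat.factorial t)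
    (c : ℕ) (hc : c = orderOf (q : ZMod r)) :
    (∀ x : Matrix.SpecialLinearGroup (Fin n) F,
      (∃ z : F, ((x ^ r : Matrix.SpecialLinearGroup (Fin n) F) : Matrix (Fin n) (Fin n) F) = z • (1 : Matrix (Fin n) (Fin n) F)) →
      (∀ z : F, (x : Matrix (Fin n) (Fin n) F) ≠ z • (1 : Matrix (Fin n) (Fin n) F)) →
      ∃ D : Fin t → Submodule F (Fin n → F), Cfsg.Geo.IsMDecomposition a D ∧
        ∃ σ : Equiv.Perm (Fin t), ∀ j, (D j).map (Matrix.toLin' (x : Matrix (Fin n) (Fin n) F)) = D (σ j)) ↔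
    ((a = 1 ∧ 1 < c ∧ c = r - 1 ∧ n ≤ (n % c) * r) ∨ (c ≤ a ∧ n % c = t * (a % c))) := by
  classical
  have hr : r.Prime := Fact.out
  have hq1 : 1 ≤ q := Cfsg.Agent.Lib.ElusL.Bridge.one_le_card hq
  obtain ⟨hrF, hrq⟩ := Cfsg.Agent.Lib.ElusL.Bridge.r_facts (F := F) hq hr hrp
  have hfin : Module.finrank F (Fin n → F) = n := Module.finrank_fin_fun F
  have hn0 : n ≠ 0 := by omega
  subst hc
  by_cases hc1 : orderOf (q : ZMod r) = 1
  · have hdvd : r ∣ q - 1 := by
      have h := (Cfsg.Agent.Lib.ElusL.Cyc.ord_dvd_iff (r := r) hq1 1).mp (by rw [hc1])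
      simpa using h
    constructor
    · intro _
      right
      refine ⟨by rw [hc1]; omega, ?_⟩
      rw [hc1]
      simp [Nat.mod_one]
    · rintro _ x ⟨z, hz⟩ hx
      have hz0 := Cfsg.Agent.Lib.ElusL.Bridge.scalar_ne_zero hn0 hz
      have hT' := Cfsg.Agent.Lib.ElusL.Bridge.pow_toLin hz
      exact Cfsg.Agent.Lib.ElusDec.Pos2.pos_eq1 hat (by omega) ht hq hr hdvd hz0 hT'
  · have hipos := Cfsg.Agent.Lib.ElusL.Cyc.ord_pos (q := q) hr hrq
    have hc2 : 2 ≤ orderOf (q : ZMod r) := by omega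
    have hcop : ¬ r ∣ q - 1 := by
      intro h
      apply hc1
      apply Nat.dvd_one.mp
      exact (Cfsg.Agent.Lib.ElusL.Cyc.ord_dvd_iff (r := r) hq1 1).mpr (by simpa using h)
    constructor
    · intro hall
      obtain ⟨l, hl1, hl2, hl3⟩ := Cfsg.Agent.Lib.ElusDec.Basic.exists_of_dvd hq hr hrq hat
        (by omega) ht hΩ
      have hcl : orderOf (q : ZMod r) ∣ l := (Cfsg.Agent.Lib.ElusL.Cyc.ord_dvd_iff hq1 l).mpr hl3
      have hcn : orderOf (q : ZMod r) ≤ n := (Nat.le_of_dvd (by omega) hcl).trans hl2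
      apply Cfsg.Agent.Lib.ElusDec.Neg.neg_main (V := Fin n → F) hq hr hrF hrq hcop hc2 hfin hat ha hcn
      intro T hTr hdet hsc
      obtain ⟨D, hD, σ, hσ⟩ := hall (Cfsg.Agent.Lib.ElusL.Bridge.ofEnd T hdet)
        ⟨1, by
          apply Cfsg.Agent.Lib.ElusL.Bridge.ofEnd_pow hdet
          rw [hTr, one_smul]⟩
        (Cfsg.Agent.Lib.ElusL.Bridge.ofEnd_ne hdet hsc)
      rw [Cfsg.Agent.Lib.ElusL.Bridge.toLin_ofEnd] at hσ
      exact ⟨D, hD.finrank_eq, hD.indep, hD.iSup_eq_top, σ, hσ⟩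
    · rintro h x ⟨z, hz⟩ hx
      have hz0 := Cfsg.Agent.Lib.ElusL.Bridge.scalar_ne_zero hn0 hz
      have hT' := Cfsg.Agent.Lib.ElusL.Bridge.pow_toLin hz
      rcases h with ⟨ha1, -, hcr, hcond⟩ | ⟨hca, hmod⟩
      · subst ha1
        have htn : t = n := by omega
        subst htn
        exact Cfsg.Agent.Lib.ElusDec.Pos3.pos_special hn hq hr hrF hrq hcop hcr hc2 hcond hz0 hT'
      · have hlt : t * (a % orderOf (q : ZMod r)) < orderOf (q : ZMod r) := by
          rw [← hmod]
          exact Nat.mod_lt _ hipos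
        obtain ⟨D, h1, h2, h3, h4⟩ := Cfsg.Agent.Lib.ElusDec.Pos.pos_decomp hq hr hrF hrq hcop hz0 hT'
          t ⊤ (fun _ _ => trivial) (by rw [finrank_top, hfin, hat]) hlt
        have hinj := Cfsg.Agent.Lib.ElusDec.Pos.injective_of_pow_scalar hr.ne_zero hz0 hT'
        exact ⟨D, ⟨ht, ha, h2, h3, h4⟩, 1,
          fun j => Cfsg.Agent.Lib.ElusDec.Pos.map_eq_of_inv hinj (h1 j)⟩

end Cfsg.Agent.S5958
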