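import Cfsg.Statements.S5959
import Cfsg.Agent.Lib.Elusive.RankSeq
import Cfsg.Agent.Lib.Elusive.JordanModel

set_option autoImplicit false
open scoped MatrixGroups
open Cfsg

namespace Cfsg.Agent.S5959


open Module Cfsg.Agent.Lib.Elusive.RankSeq Cfsg.Agent.Lib.Elusive.JordanModel

/-- The top rank counts the maximal parts. -/
theorem sum_sub_pred (p : ℕ) (hp : 1 ≤ p) (μ : Multiset ℕ) (hμ : ∀ b ∈ μ, 0 < b ∧ b ≤ p) :
    (μ.map (fun b => b - (p - 1))).sum = μ.count p := by
  classical
  induction μ using Multiset.induction_on with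
  | empty => simp
  | cons a t ih =>
    have ih' := ih (fun b hb => hμ b (Multiset.mem_cons_of_mem hb))
    have ha := hμ a (Multiset.mem_cons_self a t)
    simp only [Multiset.map_cons, Multiset.sum_cons, Multiset.count_cons, ih']
    by_cases h : p = a
    · subst h
      simp
      omega
    · have h1 : a - (p - 1) = 0 := by omega
      simp [h, h1]

/-- Powers on a permuted family. -/
theorem map_pow_eq {F V : Type*} [Field F] [AddCommGroup V] [Module F V] {t : ℕ}
    (D : Fin t → Submodule F V) (X : Module.End F V) (σ : Equiv.Perm (Fin t))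
    (hX : ∀ j, (D j).map X = D (σ j)) (i : ℕ) (j : Fin t) :
    (D j).map (X ^ i : Module.End F V) = D ((σ ^ i) j) := by
  induction i generalizing j with
  | zero =>
    simp only [pow_zero]
    ext v
    simp
  | succ i ih =>
    rw [pow_succ, pow_succ, Module.End.mul_eq_comp, Submodule.map_comp, hX, ih]
    rfl

/-- A moved summand forces a large top rank. -/
theorem finrank_le_of_moved {F V : Type*} [Field F] [AddCommGroup V] [Module F V] [FiniteDimensional F V]
    {t p : ℕ} (hpp : p.Prime) (D : Fin t → Submodule F V) (hind : iSupIndep D) (hne : ∀ j, D j ≠ ⊥)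
    (X : Module.End F V) (σ : Equiv.Perm (Fin t)) (hX : ∀ j, (D j).map X = D (σ j))
    (hXp : X ^ p = 1) (j₀ : Fin t) (hj₀ : σ j₀ ≠ j₀) :
    finrank F (D j₀) ≤ finrank F (LinearMap.range ((X - 1) ^ (p - 1) : Module.End F V)) := by
  classical
  have hinj := hind.injective hne
  have hper : (σ ^ p) j₀ = j₀ := by
    apply hinj
    rw [← map_pow_eq D X σ hX, hXp]
    ext v
    simp
  have hmoved : ∀ i, 0 < i → i < p → (σ ^ i) j₀ ≠ j₀ := by
    intro i hi hip h
    apply hj₀
    have h1 : Function.IsPeriodicPt σ i j₀ := by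
      change (⇑σ)^[i] j₀ = j₀
      rw [Equiv.Perm.iterate_eq_pow]
      exact h
    have h2 : Function.IsPeriodicPt σ p j₀ := by
      change (⇑σ)^[p] j₀ = j₀
      rw [Equiv.Perm.iterate_eq_pow]
      exact hper
    have h3 := h1.gcd h2
    have hg : i.gcd p = 1 := by
      rw [Nat.gcd_comm]
      exact (Nat.Prime.coprime_iff_not_dvd hpp).2 (fun hd => by
        have := Nat.le_of_dvd hi hd
        omega)
    rw [hg] at h3
    exact h3
  let A : Submodule F V := ⨆ (j : Fin t) (_ : j ≠ j₀), D j
  have hdisj : Disjoint (D j₀) A := hind j₀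
  have hmemA : ∀ j, j ≠ j₀ → D j ≤ A := fun j hj => le_iSup₂_of_le j hj le_rfl
  let g : Polynomial F := (Polynomial.X - Polynomial.C 1) ^ (p - 1)
  have hg : Polynomial.aeval X g = (X - 1) ^ (p - 1) := by
    simp [g]
  have hgdeg : g.natDegree = p - 1 := by
    simp only [g]
    rw [Polynomial.natDegree_pow, Polynomial.natDegree_X_sub_C, mul_one]
  have hpos := hpp.pos
  have hc : g.coeff 0 ≠ 0 := by
    rw [Polynomial.coeff_zero_eq_eval_zero]
    simp [g]
  have hexp : ∀ v ∈ D j₀, ∃ u ∈ A, ((X - 1) ^ (p - 1) : Module.End F V) v = g.coeff 0 • v + u := by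
    intro v hv
    rw [← hg, Polynomial.aeval_eq_sum_range, hgdeg, Finset.sum_range_succ', LinearMap.add_apply, pow_zero]
    refine ⟨(∑ k ∈ Finset.range (p - 1), g.coeff (k + 1) • X ^ (k + 1)) v, ?_, ?_⟩
    rotate_left
    · rw [add_comm]
      rfl
    · rw [LinearMap.sum_apply]
      apply Submodule.sum_mem
      intro i hi
      have hi' : i < p - 1 := Finset.mem_range.mp hi
      apply Submodule.smul_mem
      apply hmemA _ (hmoved (i + 1) (by omega) (by omega))
      rw [← map_pow_eq D X σ hX]
      exact Submodule.mem_map_of_mem hv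
  have hinf : D j₀ ⊓ LinearMap.ker ((X - 1) ^ (p - 1) : Module.End F V) = ⊥ := by
    rw [Submodule.eq_bot_iff]
    rintro v ⟨hv, hv2⟩
    obtain ⟨u, hu, huv⟩ := hexp v hv
    rw [hv2] at huv
    have h1 : g.coeff 0 • v = -u := eq_neg_of_add_eq_zero_left huv.symm
    have h2 : v ∈ A := by
      have : v = (g.coeff 0)⁻¹ • (g.coeff 0 • v) := by
        rw [smul_smul, inv_mul_cancel₀ hc, one_smul]
      rw [this, h1]
      exact A.smul_mem _ (A.neg_mem hu)
    exact Submodule.disjoint_def.mp hdisj v hv h2
  have h := finrank_map_add_inf_ker ((X - 1) ^ (p - 1) : Module.End F V) (D j₀)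
  rw [hinf, finrank_bot, add_zero] at h
  rw [← h]
  exact Submodule.finrank_mono (LinearMap.map_le_range)

/-- Elements of order `p` of PSL_n(q) and imprimitive subgroups: a necessary condition. Here `T = PSL_n(F)` for a field `F` with `q = p^f` elements (`n ≥ 2`, `(n, q) ≠ (2, 2), (2, 3)`), `n = a·t` with `t ≥ 2`, and Ω is the set of direct-sum decompositions of `F^n` into `t` subspaces of dimension `a` (unordered; their number is the number of ordered ones divided by `t!`), whose stabilizers are the imprimitive subgroups of type GL_a(q) ≀ S_t (maximal except in some small cases; maximality is not assumed); an element of `T` of prime order `r` (a matrix `x` of determinant 1 with `x^r` scalar, `x` not scalar) fixes a point of Ω when it permutes the summands of some such decomposition. Suppose `p > 2` divides the number of such decompositions. If every element of `T` of order `p` stabilizes such a decomposition, then every partition of `n` into parts of size at most `p` in which the part `p` occurs fewer than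 `a` times contains (as a sub-multiset) a partition of `a`. -/
theorem result {F : Type*} [Field F] [Fintype F] {p : ℕ} [Fact p.Prime] [CharP F p] {q : ℕ} (hq : Fintype.card F = q)
    (n a t : ℕ) (hn : 2 ≤ n) (hT : (n, q) ≠ (2, 2) ∧ (n, q) ≠ (2, 3)) (hat : n = a * t) (ha : 1 ≤ a) (ht : 2 ≤ t)
    (hp : 2 < p) (hΩ : p ∣ Nat.card {D : Fin t → Submodule F (Fin n → F) // Cfsg.Geo.IsMDecomposition a D} / Nat.factorial t)
    (h : ∀ x : Matrix.SpecialLinearGroup (Fin n) F,
      (∃ z : F, ((x ^ p : Matrix.SpecialLinearGroup (Fin n) F) : Matrix (Fin n) (Fin n) F) = z • (1 : Matrix (Fin n) (Fin n) F)) →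
      (∀ z : F, (x : Matrix (Fin n) (Fin n) F) ≠ z • (1 : Matrix (Fin n) (Fin n) F)) →
      ∃ D : Fin t → Submodule F (Fin n → F), Cfsg.Geo.IsMDecomposition a D ∧
        ∃ σ : Equiv.Perm (Fin t), ∀ j, (D j).map (Matrix.toLin' (x : Matrix (Fin n) (Fin n) F)) = D (σ j)) :
    (∀ μ : Multiset ℕ, (∀ b ∈ μ, 0 < b ∧ b ≤ p) → μ.sum = n → μ.count p < a → ∃ ν : Multiset ℕ, ν ≤ μ ∧ ν.sum = a) := by
  classical
  intro μ hμ hsum hcount
  have hpp : p.Prime := Fact.out
  have hpos := hpp.pos
  have ha1 : a ≤ n := by
    rw [hat]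
    exact Nat.le_mul_of_pos_right a (by omega)
  by_cases hall : ∀ b ∈ μ, b = 1
  · -- all parts are `1`
    have hμeq : μ = Multiset.replicate (Multiset.card μ) 1 := Multiset.eq_replicate_card.mpr hall
    have hcard : Multiset.card μ = n := by
      have h1 := hsum
      rw [hμeq, Multiset.sum_replicate, smul_eq_mul, mul_one] at h1
      simpa using h1
    refine ⟨Multiset.replicate a 1, ?_, by simp⟩
    rw [hμeq, hcard]
    exact Multiset.replicate_le_replicate _ |>.mpr ha1
  obtain ⟨N, hN⟩ := exists_jordan_model F μ n hsum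
  have hμ0 : ∀ b ∈ μ, 0 < b := fun b hb => (hμ b hb).1
  have hNp : (N ^ p : Module.End F (Fin n → F)) = 0 := by
    have h1 := hN p
    have h2 : (μ.map (fun b => b - p)).sum = 0 := by
      rw [Multiset.sum_eq_zero_iff]
      intro y hy
      obtain ⟨b, hb, rfl⟩ := Multiset.mem_map.mp hy
      have := (hμ b hb).2
      omega
    rw [h2] at h1
    have h3 := Submodule.finrank_eq_zero.mp h1
    exact LinearMap.range_eq_bot.mp h3
  have hne : Nonempty (Fin n) := ⟨⟨0, by omega⟩⟩
  -- the element
  let xM : Matrix (Fin n) (Fin n) F := LinearMap.toMatrix' (1 + N)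
  have hxM : Matrix.toLin' xM = 1 + N := Matrix.toLin'_toMatrix' (1 + N)
  haveI hchar : CharP (Matrix (Fin n) (Fin n) F) p := inferInstance
  have hNM : (LinearMap.toMatrix' N) ^ p = 0 := by
    have h1 : LinearMap.toMatrix' (N ^ p : Module.End F (Fin n → F)) = (LinearMap.toMatrix' N) ^ p := by
      exact map_pow (LinearMap.toMatrixAlgEquiv' (R := F) (n := Fin n)) N p
    rw [← h1, hNp]
    simp
  have hxMdef : xM = 1 + LinearMap.toMatrix' N := by
    simp only [xM]
    rw [map_add]
    congr 1
    exact LinearMap.toMatrix'_one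
  have hxp : xM ^ p = 1 := by
    rw [hxMdef, add_pow_char_of_commute p (Commute.one_left _), hNM, one_pow, add_zero]
  have hdet : xM.det = 1 := by
    have h1 : xM.det ^ p = 1 := by
      rw [← Matrix.det_pow, hxp, Matrix.det_one]
    have h2 : (xM.det - 1) ^ p = 0 := by
      rw [sub_pow_char, h1, one_pow, sub_self]
    exact sub_eq_zero.mp (pow_eq_zero_iff (by omega) |>.mp h2)
  let x : Matrix.SpecialLinearGroup (Fin n) F := ⟨xM, hdet⟩
  have hx1 : ∃ z : F, ((x ^ p : Matrix.SpecialLinearGroup (Fin n) F) : Matrix (Fin n) (Fin n) F) = z • (1 : Matrix (Fin n) (Fin n) F) := by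
    refine ⟨1, ?_⟩
    rw [Matrix.SpecialLinearGroup.coe_pow, one_smul]
    exact hxp
  have hx2 : ∀ z : F, (x : Matrix (Fin n) (Fin n) F) ≠ z • (1 : Matrix (Fin n) (Fin n) F) := by
    intro z hz
    have hz' : xM = z • 1 := hz
    have h1 : LinearMap.toMatrix' N = (z - 1) • (1 : Matrix (Fin n) (Fin n) F) := by
      rw [sub_smul, one_smul, ← hz', hxMdef]
      abel
    have hz1 : z = 1 := by
      have h3 : (z - 1) ^ p • (1 : Matrix (Fin n) (Fin n) F) = 0 := by
        have := hNM
        rw [h1, smul_pow, one_pow] at this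
        exact this
      have h4 : (z - 1) ^ p = 0 := by
        have h8 := congrFun (congrFun h3 ⟨0, by omega⟩) ⟨0, by omega⟩
        simpa using h8
      exact sub_eq_zero.mp (pow_eq_zero_iff (by omega) |>.mp h4)
    have hN0 : N = 0 := by
      apply LinearMap.toMatrix'.injective
      rw [h1, hz1, sub_self, zero_smul, map_zero]
    apply hall
    intro b hb
    have h3 := hN 1
    rw [pow_one, hN0, LinearMap.range_zero, finrank_bot] at h3
    have h4 := (Multiset.sum_eq_zero_iff.mp h3.symm) (b - 1) (Multiset.mem_map_of_mem _ hb)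
    have := hμ0 b hb
    omega
  obtain ⟨D, hD, σ, hσ⟩ := h x hx1 hx2
  have hDne : ∀ j, D j ≠ ⊥ := by
    intro j hj
    have := hD.finrank_eq j
    rw [hj, finrank_bot] at this
    omega
  have hX : Matrix.toLin' (x : Matrix (Fin n) (Fin n) F) = 1 + N := hxM
  have hXp : ((1 + N : Module.End F (Fin n → F))) ^ p = 1 := by
    rw [← hX]
    have h1 : (Matrix.toLin' (x : Matrix (Fin n) (Fin n) F) : Module.End F (Fin n → F)) ^ p = Matrix.toLin' ((x : Matrix (Fin n) (Fin n) F) ^ p) := by
      exact (map_pow (Matrix.toLinAlgEquiv' (R := F) (n := Fin n)) _ p).symm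
    rw [h1]
    change Matrix.toLin' (xM ^ p) = 1
    rw [hxp]
    exact Matrix.toLin'_one
  have hX' : ∀ j, (D j).map (1 + N : Module.End F (Fin n → F)) = D (σ j) := by
    intro j
    rw [← hX]
    exact hσ j
  -- `σ` is trivial
  have hσ1 : ∀ j, σ j = j := by
    intro j
    by_contra hj
    have h1 := finrank_le_of_moved hpp D hD.indep hDne _ σ hX' hXp j hj
    rw [add_sub_cancel_left, hN, hD.finrank_eq, sum_sub_pred p hpos μ hμ] at h1
    omega
  -- the invariant subspaces
  have hinvD : ∀ j, ∀ v ∈ D j, N v ∈ D j := by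
    intro j v hv
    have h1 : (1 + N : Module.End F (Fin n → F)) v ∈ D j := by
      have h2 := hX' j
      rw [hσ1] at h2
      rw [← h2]
      exact Submodule.mem_map_of_mem hv
    have h3 : N v = (1 + N : Module.End F (Fin n → F)) v - v := by simp
    rw [h3]
    exact Submodule.sub_mem _ h1 hv
  let j₀ : Fin t := ⟨0, by omega⟩
  let W₁ := D j₀
  let W₂ : Submodule F (Fin n → F) := ⨆ (j : Fin t) (_ : j ≠ j₀), D j
  have hd : Disjoint W₁ W₂ := hD.indep j₀
  have hsup : W₁ ⊔ W₂ = ⊤ := by
    rw [eq_top_iff, ← hD.iSup_eq_top]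
    apply iSup_le
    intro j
    by_cases hj : j = j₀
    · rw [hj]
      exact le_sup_left
    · exact le_sup_of_le_right (le_iSup₂_of_le j hj le_rfl)
  have h₁ : ∀ v ∈ W₁, N v ∈ W₁ := hinvD j₀
  have h₂ : ∀ v ∈ W₂, N v ∈ W₂ := by
    have : W₂ ≤ W₂.comap N := by
      apply iSup₂_le
      intro j hj v hv
      exact (le_iSup₂_of_le j hj le_rfl : D j ≤ W₂) (hinvD j v hv)
    exact fun v hv => this hv
  have hr : ∀ j, r N W₁ j + r N W₂ j = (μ.map (fun b => b - j)).sum := by
    intro j
    rw [← r_add N W₁ W₂ h₁ h₂ hd j, hsup, ← hN j]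
    simp only [r]
    rw [show LinearMap.range (N ^ j : Module.End F (Fin n → F)) = Submodule.map (N ^ j : Module.End F (Fin n → F)) ⊤ from
      (Submodule.map_top _).symm]
  have hc₁ := r_convex N W₁ h₁
  have hc₂ := r_convex N W₂ h₂
  refine ⟨typeOf (r N W₁) p, ?_, ?_⟩
  · rw [Multiset.le_iff_count]
    intro i
    rcases i with _ | i
    · rw [count_typeOf_zero]
      exact Nat.zero_le _
    · by_cases hi : i < p
      · rw [count_typeOf _ _ _ hi]
        have h1 := second_diff_count μ hμ0 i
        have h3 := hr i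
        have h4 := hr (i + 1)
        have h5 := hr (i + 2)
        have h6 := hc₁ i
        have h7 := hc₂ i
        omega
      · rw [count_typeOf_of_le _ _ _ (by omega)]
        exact Nat.zero_le _
  · rw [sum_typeOf _ hc₁]
    · have : W₁.map (N ^ 0 : Module.End F (Fin n → F)) = W₁ := by
        ext v
        simp
      simp only [r]
      rw [this]
      exact hD.finrank_eq j₀
    · simp only [r]
      rw [hNp]
      simp
    · simp only [r]
      rw [pow_succ, hNp]
      simp

end Cfsg.Agent.S5959
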