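import Cfsg.Statements.S5960
import Cfsg.Agent.Lib.Elusive.Sympl
import Cfsg.Agent.Lib.Classical.SympForm

set_option autoImplicit false
open scoped MatrixGroups
open Cfsg

namespace Cfsg.Agent.S5960

/-- Involutions of PSp_n(q) and imprimitive subgroups. Here `T = PSp_n(q)`, `n = 2d ≥ 4`, `(n, q) ≠ (4, 2)`, realised through the symplectic matrices over the field `F` with `q` elements and the standard alternating form; `n = a·t` with `a` even and `t ≥ 2`, and Ω is the (nonempty) set of orthogonal decompositions of `F^n` into `t` nondegenerate subspaces of dimension `a` (unordered; counted as ordered ones divided by `t!`), whose stabilizers are the imprimitive subgroups of type Sp_a(q) ≀ S_t (maximality is not assumed); an element of `T` of prime order `r` (a symplectic matrix `x` with `x^r` scalar, `x` not scalar) fixes a point of Ω when it permutes the summands of some such decomposition. If the number of such decompositions is even, then every involution of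 `T` stabilizes one of them (the action is 2-elusive). -/
theorem result {F : Type*} [Field F] [Fintype F] {p : ℕ} [Fact p.Prime] [CharP F p] {q : ℕ} (hq : Fintype.card F = q)
    (d : ℕ) (hd : 2 ≤ d) (hT : (d, q) ≠ (2, 2))
    (a t : ℕ) (hat : 2 * d = a * t) (ha : 2 ≤ a) (hae : Even a) (ht : 2 ≤ t) (hΩ : 2 ∣ Nat.card {D : Fin t → Submodule F (Fin d ⊕ Fin d → F) // (Cfsg.Geo.IsMDecomposition a D ∧ (∀ j, ∀ u ∈ D j, u ≠ 0 → ∃ v ∈ D j, Cfsg.sympForm d F u v ≠ 0) ∧
          (∀ j j', j ≠ j' → ∀ u ∈ D j, ∀ v ∈ D j', Cfsg.sympForm d F u v = 0))} / Nat.factorial t)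
    (x : ↥(Matrix.symplecticGroup (Fin d) F))
    (hx1 : ∃ z : F, ((x ^ 2 : ↥(Matrix.symplecticGroup (Fin d) F)) : Matrix (Fin d ⊕ Fin d) (Fin d ⊕ Fin d) F) = z • (1 : Matrix (Fin d ⊕ Fin d) (Fin d ⊕ Fin d) F))
    (hx2 : ∀ z : F, (x : Matrix (Fin d ⊕ Fin d) (Fin d ⊕ Fin d) F) ≠ z • (1 : Matrix (Fin d ⊕ Fin d) (Fin d ⊕ Fin d) F)) :
    ∃ D : Fin t → Submodule F (Fin d ⊕ Fin d → F), (Cfsg.Geo.IsMDecomposition a D ∧ (∀ j, ∀ u ∈ D j, u ≠ 0 → ∃ v ∈ D j, Cfsg.sympForm d F u v ≠ 0) ∧
          (∀ j j', j ≠ j' → ∀ u ∈ D j, ∀ v ∈ D j', Cfsg.sympForm d F u v = 0)) ∧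
        ∃ σ : Equiv.Perm (Fin t), ∀ j, (D j).map (Matrix.toLin' (x : Matrix (Fin d ⊕ Fin d) (Fin d ⊕ Fin d) F)) = D (σ j) := by
  classical
  obtain ⟨a', rfl⟩ : ∃ a', a = 2 * a' := by
    obtain ⟨a', ha'⟩ := hae
    exact ⟨a', by omega⟩
  have ha'0 : 0 < a' := by omega
  obtain ⟨z, hz⟩ := hx1
  set A : Matrix (Fin d ⊕ Fin d) (Fin d ⊕ Fin d) F := (x : Matrix (Fin d ⊕ Fin d) (Fin d ⊕ Fin d) F) with hA
  have hAsp : A ∈ Matrix.symplecticGroup (Fin d) F := x.2
  have hsq : A * A = z • (1 : Matrix (Fin d ⊕ Fin d) (Fin d ⊕ Fin d) F) := by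
    have h := hz
    rw [pow_two] at h
    exact h
  let B := Cfsg.Agent.Lib.Classical.SympForm.sympBilin d F
  have hB : B.IsAlt := Cfsg.Agent.Lib.Classical.SympForm.sympBilin_isAlt
  have hiso : ∀ u v, B (A.mulVec u) (A.mulVec v) = B u v :=
    (Cfsg.Agent.Lib.Classical.SympForm.mem_symplecticGroup_iff A).1 hAsp
  have hnd : Cfsg.Agent.Lib.Elusive.Sympl.NondegOn B ⊤ := by
    intro u _ hu0
    by_contra hcon
    apply hu0
    have hsep := (Cfsg.Agent.Lib.Classical.SympForm.sympBilin_nondegenerate (m := d) (F := F)).1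
    apply hsep u
    intro y
    by_contra hy
    exact hcon ⟨y, Submodule.mem_top, hy⟩
  have hnt : Nonempty (Fin d ⊕ Fin d) := ⟨Sum.inl ⟨0, by omega⟩⟩
  have hdetA : IsUnit A.det := SymplecticGroup.symplectic_det hAsp
  have hz0 : z ≠ 0 := by
    rintro rfl
    rw [zero_smul] at hsq
    have hdet2 : A.det * A.det = 0 := by
      rw [← Matrix.det_mul, hsq, Matrix.det_zero]
    rw [mul_self_eq_zero] at hdet2
    rw [hdet2] at hdetA
    exact not_isUnit_zero hdetA
  let g : (Fin d ⊕ Fin d → F) →ₗ[F] (Fin d ⊕ Fin d → F) := Matrix.toLin' A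
  have hg : ∀ v, g (g v) = z • v := by
    intro v
    simp only [g, Matrix.toLin'_apply, Matrix.mulVec_mulVec, hsq, Matrix.smul_mulVec, Matrix.one_mulVec]
  have hginj : Function.Injective g := by
    intro u v huv
    have := congrArg g huv
    rw [hg, hg] at this
    exact smul_right_injective _ hz0 this
  obtain ⟨I, _, τ, P, hτ, htop, hdim, hmap, hnondeg, horth⟩ :=
    Cfsg.Agent.Lib.Elusive.Sympl.exists_plane_atoms B hB hnd g hiso z hz0 hg
  have hind : iSupIndep P := Cfsg.Agent.Lib.Elusive.Sympl.iSupIndep_of_orth hnondeg horth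
  have hcard : Fintype.card I = a' * t := by
    have h1 := Cfsg.Agent.Lib.Elusive.Atoms.finrank_iSup_fintype P hind
    rw [htop, finrank_top, Module.finrank_fintype_fun_eq_card] at h1
    simp only [hdim, Finset.sum_const, Finset.card_univ, smul_eq_mul, Fintype.card_sum, Fintype.card_fin] at h1
    have : 2 * d = 2 * (a' * t) := by rw [hat]; ring
    omega
  obtain ⟨e, σ, he⟩ := Cfsg.Agent.Lib.Elusive.Bins.exists_bins I τ hτ a' t ha'0 hcard
  obtain ⟨h1, h2, h3, h4⟩ := Cfsg.Agent.Lib.Elusive.Atoms.decomposition_of_atoms τ P 2 hind htop hdim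
    g hginj hmap e σ he
  refine ⟨fun j => ⨆ m : Fin a', P (e.symm (j, m)), ⟨⟨ht, by omega, ?_, h1, h2⟩, ?_, ?_⟩, σ, h4⟩
  · intro j
    rw [h3, mul_comm]
  · intro j u hu hu0
    have hnd' : Cfsg.Agent.Lib.Elusive.Sympl.NondegOn B (⨆ m : Fin a', P (e.symm (j, m))) := by
      apply Cfsg.Agent.Lib.Elusive.Sympl.nondeg_iSup_fintype hB (fun m => hnondeg _)
      intro m m' hmm'
      apply horth
      intro h
      apply hmm'
      have := e.symm.injective h
      simpa using this
    exact hnd' u hu hu0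
  · intro j j' hjj' u hu v hv
    refine Cfsg.Agent.Lib.Elusive.Sympl.orth_iSup_left (B := B) (fun m u hu => ?_) u hu
    refine Cfsg.Agent.Lib.Elusive.Sympl.orth_iSup_right (B := B) (fun m' v hv => ?_) v hv
    apply horth _ _ _ u hu v hv
    intro h
    apply hjj'
    have := e.symm.injective h
    simpa using congrArg Prod.fst this

end Cfsg.Agent.S5960
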