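import Cfsg.Statements.S5961
import Cfsg.Agent.Lib.ElusDec.SpCountD
import Cfsg.Agent.Lib.ElusDec.Pos

set_option autoImplicit false
open scoped MatrixGroups
open Cfsg

namespace Cfsg.Agent.S5961

/-- Elements of odd prime order of PSp_n(q) and imprimitive subgroups. Here `T = PSp_n(q)`, `n = 2d ≥ 4`, `(n, q) ≠ (4, 2)`, realised through the symplectic matrices over the field `F` with `q` elements and the standard alternating form; `n = a·t` with `a` even and `t ≥ 2`, and Ω is the (nonempty) set of orthogonal decompositions of `F^n` into `t` nondegenerate subspaces of dimension `a` (unordered; counted as ordered ones divided by `t!`), whose stabilizers are the imprimitive subgroups of type Sp_a(q) ≀ S_t (maximality is not assumed); an element of `T` of prime order `r` (a symplectic matrix `x` with `x^r` scalar, `x` not scalar) fixes a point of Ω when it permutes the summands of some such decomposition. Let `r ≠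 p` be an odd prime dividing the number of such decompositions, let `i` be the multiplicative order of `q` modulo `r`, `c = i` if `i` is even and `c = 2i` if `i` is odd, and write `k = n mod c`, `ℓ = a mod c`. Then every element of `T` of order `r` stabilizes such a decomposition if and only if `c ≤ a` and `k = t·ℓ`. -/
theorem result {F : Type*} [Field F] [Fintype F] {p : ℕ} [Fact p.Prime] [CharP F p] {q : ℕ} (hq : Fintype.card F = q)
    (d : ℕ) (hd : 2 ≤ d) (hT : (d, q) ≠ (2, 2))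
    (a t : ℕ) (hat : 2 * d = a * t) (ha : 2 ≤ a) (hae : Even a) (ht : 2 ≤ t)
    (r : ℕ) [Fact r.Prime] (hr2 : r ≠ 2) (hrp : r ≠ p) (hΩ : r ∣ Nat.card {D : Fin t → Submodule F (Fin d ⊕ Fin d → F) // (Cfsg.Geo.IsMDecomposition a D ∧ (∀ j, ∀ u ∈ D j, u ≠ 0 → ∃ v ∈ D j, Cfsg.sympForm d F u v ≠ 0) ∧
          (∀ j j', j ≠ j' → ∀ u ∈ D j, ∀ v ∈ D j', Cfsg.sympForm d F u v = 0))} / Nat.factorial t)
    (i c : ℕ) (hi : i = orderOf (q : ZMod r)) (hc : c = if Even i then i else 2 * i) :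
    (∀ x : ↥(Matrix.symplecticGroup (Fin d) F),
      (∃ z : F, ((x ^ r : ↥(Matrix.symplecticGroup (Fin d) F)) : Matrix (Fin d ⊕ Fin d) (Fin d ⊕ Fin d) F) = z • (1 : Matrix (Fin d ⊕ Fin d) (Fin d ⊕ Fin d) F)) →
      (∀ z : F, (x : Matrix (Fin d ⊕ Fin d) (Fin d ⊕ Fin d) F) ≠ z • (1 : Matrix (Fin d ⊕ Fin d) (Fin d ⊕ Fin d) F)) →
      ∃ D : Fin t → Submodule F (Fin d ⊕ Fin d → F), (Cfsg.Geo.IsMDecomposition a D ∧ (∀ j, ∀ u ∈ D j, u ≠ 0 → ∃ v ∈ D j, Cfsg.sympForm d F u v ≠ 0) ∧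
          (∀ j j', j ≠ j' → ∀ u ∈ D j, ∀ v ∈ D j', Cfsg.sympForm d F u v = 0)) ∧
        ∃ σ : Equiv.Perm (Fin t), ∀ j, (D j).map (Matrix.toLin' (x : Matrix (Fin d ⊕ Fin d) (Fin d ⊕ Fin d) F)) = D (σ j)) ↔
    (c ≤ a ∧ (2 * d) % c = t * (a % c)) := by
  classical
  have hr : r.Prime := Fact.out
  obtain ⟨hrF, hrq⟩ := Cfsg.Agent.Lib.ElusL.Bridge.r_facts (F := F) hq hr hrp
  have hfin : Module.finrank F (Fin d ⊕ Fin d → F) = 2 * d := Cfsg.Agent.Lib.ElusF.SpModel.finrank_triv d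
  have hcpos := Cfsg.Agent.Lib.ElusDec.SpNegD.c_pos hr hrq hi hc
  obtain ⟨k, hk⟩ : ∃ k, a = 2 * k := by
    obtain ⟨k, hk⟩ := hae
    exact ⟨k, by omega⟩
  have hk0 : 0 < k := by omega
  constructor
  · intro hL
    have hc2d := Cfsg.Agent.Lib.ElusDec.SpCountD.c_le_of_dvd hq hr hrF hrq hi hc hk hk0 hat ht hΩ
    by_cases hca : c ≤ a
    · refine ⟨hca, ?_⟩
      have hw1 : 1 ≤ (2 * d) / c := Nat.div_pos hc2d hcpos
      obtain ⟨V, i1, i2, i3, B, T, hRz, hf, hD, hNS⟩ :=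
        Cfsg.Agent.Lib.ElusDec.SpNegD.exists_model_w (d := d) hq hr hr2 hrF hrq hi hc hw1
          (Nat.div_mul_le_self _ _)
      obtain ⟨D, h1, h2, -, h4, σ, hσ⟩ :=
        Cfsg.Agent.Lib.ElusDec.SpNegD.transport (t := t) (a := a) hRz hf hNS hL
      refine Cfsg.Agent.Lib.ElusDec.SpNegD.neg_case1 hRz hq hr hrF hrq hi hc hat hca ?_ D h1 h2 h4 σ hσ
      rw [hD]
      have := Nat.div_add_mod' (2 * d) c
      omega
    · exfalso
      obtain ⟨V, i1, i2, i3, B, T, hRz, hf, hD, hNS⟩ :=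
        Cfsg.Agent.Lib.ElusDec.SpNegD.exists_model_w (d := d) (w := 1) hq hr hr2 hrF hrq hi hc le_rfl
          (by omega)
      obtain ⟨D, h1, h2, h3, h4, σ, hσ⟩ :=
        Cfsg.Agent.Lib.ElusDec.SpNegD.transport (t := t) (a := a) hRz hf hNS hL
      refine Cfsg.Agent.Lib.ElusDec.SpNegD.neg_case2 hRz hq hr hr2 hrF hrq hi hc (a := a) (t := t)
        (by omega) ha (by omega) ?_ D h1 h2 h3 h4 σ hσ
      rw [hD, hf, one_mul]
  · rintro ⟨-, hmod⟩ x ⟨z, hz⟩ hx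
    have hB := Cfsg.Agent.Lib.ElusF.SpMain.fm_std (F := F) (d := d)
    have hT' := Cfsg.Agent.Lib.ElusF.SpMain.iso_std x
    have hTr := Cfsg.Agent.Lib.ElusF.SpMain.pow_std hz
    have hz2 : z ^ 2 = 1 := Cfsg.Agent.Lib.ElusF.SpTwo.scalar_sq hB hT' hTr (by rw [hfin]; omega)
    have hz0 : z ≠ 0 := Cfsg.Agent.Lib.ElusF.SpTwo.z_ne_zero hz2
    have hrodd : Odd r := hr.odd_of_ne_two hr2
    have hS := Cfsg.Agent.Lib.ElusF.SpTwo.scaled hB hT' hz2
    have hSr := Cfsg.Agent.Lib.ElusF.SpTwo.scaled_pow hrodd hz2 hTr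
    have hRz : Cfsg.Agent.Lib.ElusF.SpModel.Rz (Cfsg.Agent.Lib.Classical.SympForm.sympBilin d F)
        (z • (Matrix.toLin' (x : Matrix (Fin d ⊕ Fin d) (Fin d ⊕ Fin d) F) :
          Module.End F (Fin d ⊕ Fin d → F))) r :=
      ⟨Cfsg.Agent.Lib.Classical.SympForm.sympBilin_isAlt,
        Cfsg.Agent.Lib.Classical.SympForm.sympBilin_nondegenerate, hS, hSr⟩
    have hlt : t * (a % c) < c := by
      rw [← hmod]
      exact Nat.mod_lt _ hcpos
    obtain ⟨D, h1, h2, h3, h4⟩ := Cfsg.Agent.Lib.ElusDec.SpOrth.pos_main hRz hq hr hr2 hrF hrq hi hc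
      hae (by rw [hfin, hat]) hlt
    have hind := Cfsg.Agent.Lib.ElusDec.SpOrth.indep_of_orth hB h1 h4
    have htop : iSup D = ⊤ := by
      apply Submodule.eq_top_of_finrank_eq
      rw [Cfsg.Agent.Lib.Elusive.Atoms.finrank_iSup_fintype _ hind, hfin, hat]
      simp [h3, mul_comm]
    have hinj := Cfsg.Agent.Lib.ElusDec.Pos.injective_of_pow_scalar hr.ne_zero hz0 hTr
    refine ⟨D, ⟨⟨ht, by omega, h3, hind, htop⟩,
      fun j => (Cfsg.Agent.Lib.ElusF.SpNdThm.nd_std_iff (D j)).mpr (h1 j), h4⟩, 1, fun j => ?_⟩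
    exact Cfsg.Agent.Lib.ElusDec.Pos.map_eq_of_inv hinj
      ((Cfsg.Agent.Lib.ElusL.Pos.inv_smul_iff hz0).mp (h2 j))

end Cfsg.Agent.S5961
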