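import Cfsg.Statements.S5962
import Cfsg.Agent.Lib.Elusive.Lagrangian
import Cfsg.Agent.Lib.Classical.SympForm

set_option autoImplicit false
open scoped MatrixGroups
open Cfsg

namespace Cfsg.Agent.S5962

open Cfsg.Agent.Lib.Elusive.Sympl Cfsg.Agent.Lib.Elusive.Lagrangian

theorem two_ne_zero_of_odd {F : Type*} [Field F] [Fintype F] {q : ℕ} (hq : Fintype.card F = q)
    (hodd : Odd q) : (2 : F) ≠ 0 := by
  intro h2
  have hch : ringChar F = 2 := by
    have : CharP F 2 := CharTwo.of_one_ne_zero_of_two_eq_zero one_ne_zero h2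
    exact ringChar.eq F 2
  have := FiniteField.even_card_of_char_two hch
  rw [hq] at this
  rcases hodd with ⟨k, hk⟩
  omega

/-- Involutions of PSp_n(q), q odd, and the subgroups GL_{n/2}(q).2. Here `T = PSp_n(q)`, `n = 2d ≥ 4`, `q` odd, realised through the symplectic matrices over the field `F` with `q` elements; Ω is the set of unordered pairs `{U, W}` of complementary totally isotropic `d`-spaces (`F^n = U ⊕ W`), whose stabilizers are the subgroups of type GL_d(q).2 (maximal except in some small cases; maximality is not assumed); an element of `T` of prime order `r` (a symplectic matrix `x` with `x^r` scalar, `x` not scalar) fixes such a pair when it fixes or interchanges `U` and `W`. If the number of such pairs is even, every involution of `T` fixes one of them (the action is 2-elusive). -/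
theorem result {F : Type*} [Field F] [Fintype F] {p : ℕ} [Fact p.Prime] [CharP F p] {q : ℕ} (hq : Fintype.card F = q)
    (d : ℕ) (hd : 2 ≤ d) (hT : (d, q) ≠ (2, 2)) (hodd : Odd q)
    (hΩ : 2 ∣ Nat.card {P : Submodule F (Fin d ⊕ Fin d → F) × Submodule F (Fin d ⊕ Fin d → F) // IsCompl P.1 P.2 ∧ (∀ u ∈ P.1, ∀ v ∈ P.1, Cfsg.sympForm d F u v = 0) ∧ (∀ u ∈ P.2, ∀ v ∈ P.2, Cfsg.sympForm d F u v = 0)} / 2)
    (x : ↥(Matrix.symplecticGroup (Fin d) F))
    (hx1 : ∃ z : F, ((x ^ 2 : ↥(Matrix.symplecticGroup (Fin d) F)) : Matrix (Fin d ⊕ Fin d) (Fin d ⊕ Fin d) F) = z • (1 : Matrix (Fin d ⊕ Fin d) (Fin d ⊕ Fin d) F))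
    (hx2 : ∀ z : F, (x : Matrix (Fin d ⊕ Fin d) (Fin d ⊕ Fin d) F) ≠ z • (1 : Matrix (Fin d ⊕ Fin d) (Fin d ⊕ Fin d) F)) :
    ∃ U W : Submodule F (Fin d ⊕ Fin d → F), IsCompl U W ∧ (∀ u ∈ U, ∀ v ∈ U, Cfsg.sympForm d F u v = 0) ∧ (∀ u ∈ W, ∀ v ∈ W, Cfsg.sympForm d F u v = 0) ∧
        ((U.map (Matrix.toLin' (x : Matrix (Fin d ⊕ Fin d) (Fin d ⊕ Fin d) F)) = U ∧ W.map (Matrix.toLin' (x : Matrix (Fin d ⊕ Fin d) (Fin d ⊕ Fin d) F)) = W) ∨
         (U.map (Matrix.toLin' (x : Matrix (Fin d ⊕ Fin d) (Fin d ⊕ Fin d) F)) = W ∧ W.map (Matrix.toLin' (x : Matrix (Fin d ⊕ Fin d) (Fin d ⊕ Fin d) F)) = U)) := by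
  classical
  obtain ⟨z, hz⟩ := hx1
  have h2 : (2 : F) ≠ 0 := two_ne_zero_of_odd hq hodd
  set A : Matrix (Fin d ⊕ Fin d) (Fin d ⊕ Fin d) F := (x : Matrix (Fin d ⊕ Fin d) (Fin d ⊕ Fin d) F) with hA
  have hAsp : A ∈ Matrix.symplecticGroup (Fin d) F := x.2
  have hsq : A * A = z • (1 : Matrix (Fin d ⊕ Fin d) (Fin d ⊕ Fin d) F) := by
    have h := hz
    rw [pow_two] at h
    exact h
  let B := Cfsg.Agent.Lib.Classical.SympForm.sympBilin d F
  have hB : B.IsAlt := Cfsg.Agent.Lib.Classical.SympForm.sympBilin_isAlt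
  have hiso : ∀ u v, B (A.mulVec u) (A.mulVec v) = B u v :=
    (Cfsg.Agent.Lib.Classical.SympForm.mem_symplecticGroup_iff A).1 hAsp
  have hnd : Cfsg.Agent.Lib.Elusive.Sympl.NondegOn B ⊤ := by
    intro u _ hu0
    by_contra hcon
    apply hu0
    have hsep := (Cfsg.Agent.Lib.Classical.SympForm.sympBilin_nondegenerate (m := d) (F := F)).1
    apply hsep u
    intro y
    by_contra hy
    exact hcon ⟨y, Submodule.mem_top, hy⟩
  let g : (Fin d ⊕ Fin d → F) →ₗ[F] (Fin d ⊕ Fin d → F) := Matrix.toLin' A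
  have hg : ∀ v, g (g v) = z • v := by
    intro v
    simp only [g, Matrix.toLin'_apply, Matrix.mulVec_mulVec, hsq, Matrix.smul_mulVec, Matrix.one_mulVec]
  have hiso' : ∀ u v, B (g u) (g v) = B u v := hiso
  -- `z² = 1`
  have hz2 : z ^ 2 = 1 := by
    obtain ⟨e, he⟩ : ∃ e : Fin d ⊕ Fin d → F, e ≠ 0 :=
      ⟨Pi.single (Sum.inl ⟨0, by omega⟩) 1, by
        intro h
        have := congrFun h (Sum.inl ⟨0, by omega⟩)
        simp at this⟩
    obtain ⟨w, -, hw⟩ := hnd e Submodule.mem_top he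
    have h3 : B (g (g e)) (g (g w)) = B e w := by rw [hiso', hiso']
    rw [hg, hg] at h3
    simp only [map_smul, LinearMap.smul_apply, smul_eq_mul] at h3
    have h4 : (z ^ 2 - 1) * B e w = 0 := by linear_combination h3
    have h5 := (mul_eq_zero.mp h4).resolve_right hw
    linear_combination h5
  have hzz : z = 1 ∨ z = -1 := by
    have : (z - 1) * (z + 1) = 0 := by linear_combination hz2
    rcases mul_eq_zero.mp this with h | h
    · left; linear_combination h
    · right; linear_combination h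
  rcases hzz with rfl | rfl
  · -- `x² = 1`
    have hg1 : ∀ v, g (g v) = v := fun v => by rw [hg, one_smul]
    obtain ⟨U, W, ⟨hsup, hdis, hU, hW⟩, hUg, hWg⟩ := exists_fixed_lagPair hB h2 g hiso' hg1 hnd
    refine ⟨U, W, ⟨hdis, ?_⟩, hU, hW, Or.inl ⟨hUg, hWg⟩⟩
    rw [codisjoint_iff]
    exact hsup
  · -- `x² = -1`
    have hg1 : ∀ v, g (g v) = - v := fun v => by rw [hg, neg_smul, one_smul]
    obtain ⟨U, hsup, hdis, hU, hW⟩ := exists_swap_lagrangian hB h2 g hiso' hg1 _ ⊤ rfl hnd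
      (fun _ _ => Submodule.mem_top)
    refine ⟨U, U.map g, ⟨hdis, ?_⟩, hU, hW, Or.inr ⟨rfl, ?_⟩⟩
    · rw [codisjoint_iff]
      exact hsup
    · have : (U.map g).map g = U := by
        rw [← Submodule.map_comp]
        apply le_antisymm
        · rintro _ ⟨u, hu, rfl⟩
          simp only [LinearMap.comp_apply, hg1]
          exact U.neg_mem hu
        · intro u hu
          refine ⟨-u, U.neg_mem hu, ?_⟩
          simp [hg1]
      exact this

end Cfsg.Agent.S5962
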