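import Cfsg.Statements.S5963
import Cfsg.Agent.Lib.Elusive.SpPairs
import Cfsg.Agent.Lib.Elusive.SpElt

set_option autoImplicit false
open scoped MatrixGroups
open Cfsg

namespace Cfsg.Agent.S5963

open Matrix Module Cfsg.Agent.Lib.Elusive Cfsg.Agent.Lib.Elusive.SpPairs Cfsg.Agent.Lib.Elusive.SpElt
open Cfsg.Agent.Lib.Classical.SympForm

/-- The arithmetic of the number of pairs. -/
theorem exists_even_order {F : Type*} [Field F] [Fintype F] {p : ℕ} [hp : Fact p.Prime] [CharP F p] {q : ℕ} (hq : Fintype.card F = q)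
    (d : ℕ) (hd : 2 ≤ d) (hodd : Odd q) (r : ℕ) [hr : Fact r.Prime] (hr2 : r ≠ 2) (hrp : r ≠ p)
    (hΩ : r ∣ Nat.card (Pairs d F) / 2) :
    ∃ e, 0 < e ∧ e ≤ d ∧ orderOf ((q : ℕ) : ZMod r) = 2 * e ∧ r ∣ q ^ (2 * e) - 1 := by
  classical
  have hq2 : 2 ≤ q := hq ▸ Fintype.one_lt_card
  have hform := card_pairs_formula (d := d) (F := F) hq
  set a := Nat.card (Pairs d F) with ha
  set P := ∏ j ∈ Finset.range d, (q ^ (j + 1) + 1) with hP
  have hrq : ¬ r ∣ q := OrderRank.not_dvd_card hq hr.out hrp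
  have hPeven : 2 ∣ P := by
    have h0 : 0 ∈ Finset.range d := Finset.mem_range.2 (by omega)
    refine dvd_trans ?_ (Finset.dvd_prod_of_mem (fun j => q ^ (j + 1) + 1) h0)
    simp only [zero_add, pow_one]
    exact (hodd.add_one).two_dvd
  have haeven : 2 ∣ a := by
    have h1 : 2 ∣ a * q ^ (d * (d - 1) / 2) := by
      rw [hform]
      exact hPeven.mul_left _
    rcases (Nat.Prime.dvd_mul Nat.prime_two).1 h1 with h | h
    · exact h
    · have := Nat.prime_two.dvd_of_dvd_pow h
      exact absurd (even_iff_two_dvd.2 this) (Nat.not_even_iff_odd.2 hodd)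
  have hra : r ∣ a := hΩ.trans (Nat.div_dvd_of_dvd haeven)
  have hrP : r ∣ P := by
    have h1 : r ∣ q ^ (d ^ 2) * P := by
      rw [← hform]
      exact hra.mul_right _
    rcases (Nat.Prime.dvd_mul hr.out).1 h1 with h | h
    · exact absurd (hr.out.dvd_of_dvd_pow h) hrq
    · exact h
  obtain ⟨j, hj, hdj⟩ := (Prime.dvd_finset_prod_iff hr.out.prime _).1 hrP
  have hj' := Finset.mem_range.1 hj
  -- in `ZMod r`
  have hqj : ((q : ℕ) : ZMod r) ^ (j + 1) = -1 := by
    have h2 : ((q ^ (j + 1) + 1 : ℕ) : ZMod r) = 0 := (ZMod.natCast_eq_zero_iff _ _).2 hdj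
    push_cast at h2
    linear_combination h2
  have hq2j : ((q : ℕ) : ZMod r) ^ (2 * (j + 1)) = 1 := by
    rw [mul_comm, pow_mul, hqj]
    ring
  have hne : (-1 : ZMod r) ≠ 1 := by
    intro h
    have h2 : ((2 : ℕ) : ZMod r) = 0 := by
      push_cast
      linear_combination -h
    have h3 := (ZMod.natCast_eq_zero_iff _ _).1 h2
    exact hr2 ((Nat.prime_dvd_prime_iff_eq hr.out Nat.prime_two).1 h3)
  set c := orderOf ((q : ℕ) : ZMod r) with hc
  have hcd : c ∣ 2 * (j + 1) := orderOf_dvd_of_pow_eq_one hq2j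
  have hceven : Even c := by
    by_contra hn
    rw [Nat.not_even_iff_odd] at hn
    have h1 : Nat.Coprime c 2 := Nat.Coprime.symm (Nat.coprime_two_left.2 hn)
    have h2 : c ∣ j + 1 := h1.dvd_of_dvd_mul_left hcd
    have h3 : ((q : ℕ) : ZMod r) ^ (j + 1) = 1 := orderOf_dvd_iff_pow_eq_one.1 h2
    rw [hqj] at h3
    exact hne h3
  obtain ⟨e, he⟩ := hceven
  have hcpos : 0 < c := Nat.pos_of_dvd_of_pos hcd (by omega)
  have hcle := Nat.le_of_dvd (by omega) hcd
  refine ⟨e, by omega, by omega, by omega, ?_⟩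
  have h1 : ((q : ℕ) : ZMod r) ^ (2 * e) = 1 := by
    rw [show 2 * e = c by omega]
    exact pow_orderOf_eq_one _
  have hq1 : 1 ≤ q ^ (2 * e) := Nat.one_le_pow _ _ (by omega)
  rw [← ZMod.natCast_eq_zero_iff, Nat.cast_sub hq1]
  push_cast
  rw [h1, sub_self]


/-- Derangements of odd prime order of PSp_n(q), q odd, on pairs of complementary totally isotropic subspaces. Here `T = PSp_n(q)`, `n = 2d ≥ 4`, `q` odd, realised through the symplectic matrices over the field `F` with `q` elements; Ω is the set of unordered pairs `{U, W}` of complementary totally isotropic `d`-spaces (`F^n = U ⊕ W`), whose stabilizers are the subgroups of type GL_d(q).2 (maximal except in some small cases; maximality is not assumed); an element of `T` of prime order `r` (a symplectic matrix `x` with `x^r` scalar, `x` not scalar) fixes such a pair when it fixes or interchanges `U` and `W`. For every odd prime `r ≠ p` dividing the number of such pairs, some element of `T` of order `r` fixes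 no such pair (the action is never `r`-elusive for odd `r ≠ p`). -/
theorem result {F : Type*} [Field F] [Fintype F] {p : ℕ} [Fact p.Prime] [CharP F p] {q : ℕ} (hq : Fintype.card F = q)
    (d : ℕ) (hd : 2 ≤ d) (hT : (d, q) ≠ (2, 2)) (hodd : Odd q)
    (r : ℕ) [Fact r.Prime] (hr2 : r ≠ 2) (hrp : r ≠ p) (hΩ : r ∣ Nat.card {P : Submodule F (Fin d ⊕ Fin d → F) × Submodule F (Fin d ⊕ Fin d → F) // IsCompl P.1 P.2 ∧ (∀ u ∈ P.1, ∀ v ∈ P.1, Cfsg.sympForm d F u v = 0) ∧ (∀ u ∈ P.2, ∀ v ∈ P.2, Cfsg.sympForm d F u v = 0)} / 2) :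
    ∃ x : ↥(Matrix.symplecticGroup (Fin d) F),
      (∃ z : F, ((x ^ r : ↥(Matrix.symplecticGroup (Fin d) F)) : Matrix (Fin d ⊕ Fin d) (Fin d ⊕ Fin d) F) = z • (1 : Matrix (Fin d ⊕ Fin d) (Fin d ⊕ Fin d) F)) ∧
      (∀ z : F, (x : Matrix (Fin d ⊕ Fin d) (Fin d ⊕ Fin d) F) ≠ z • (1 : Matrix (Fin d ⊕ Fin d) (Fin d ⊕ Fin d) F)) ∧
      ¬ (∃ U W : Submodule F (Fin d ⊕ Fin d → F), IsCompl U W ∧ (∀ u ∈ U, ∀ v ∈ U, Cfsg.sympForm d F u v = 0) ∧ (∀ u ∈ W, ∀ v ∈ W, Cfsg.sympForm d F u v = 0) ∧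
        ((U.map (Matrix.toLin' (x : Matrix (Fin d ⊕ Fin d) (Fin d ⊕ Fin d) F)) = U ∧ W.map (Matrix.toLin' (x : Matrix (Fin d ⊕ Fin d) (Fin d ⊕ Fin d) F)) = W) ∨
         (U.map (Matrix.toLin' (x : Matrix (Fin d ⊕ Fin d) (Fin d ⊕ Fin d) F)) = W ∧ W.map (Matrix.toLin' (x : Matrix (Fin d ⊕ Fin d) (Fin d ⊕ Fin d) F)) = U))) := by
  classical
  have hr' := (Fact.out : r.Prime)
  have hrodd : Odd r := hr'.odd_of_ne_two hr2
  obtain ⟨e, he0, hed, hce, hdvd⟩ := exists_even_order hq d hd hodd r hr2 hrp hΩ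
  have hq' : Nat.card F = q := by rw [Nat.card_eq_fintype_card, hq]
  let B := sympBilin d F
  have hB : B.IsAlt := sympBilin_isAlt
  have hBn : B.Nondegenerate := sympBilin_nondegenerate
  have hnd : Sympl.NondegOn B ⊤ := by
    intro u _ hu
    by_contra hcon
    push Not at hcon
    exact hu (hBn.1 u fun y => hcon y Submodule.mem_top)
  have hV : finrank F (Fin d ⊕ Fin d → F) = d + d := by simp
  obtain ⟨x, W₁, hiso, hxr, hx1, hrange, hWd⟩ := exists_isometry_small B hB hnd hq' e he0 hdvd (by omega)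
  let A : Matrix (Fin d ⊕ Fin d) (Fin d ⊕ Fin d) F := LinearMap.toMatrix' x
  have hAv : ∀ v, A *ᵥ v = x v := fun v => LinearMap.toMatrix'_mulVec x v
  have hA : A ∈ Matrix.symplecticGroup (Fin d) F := by
    rw [mem_symplecticGroup_iff]
    intro u v
    rw [hAv, hAv]
    exact hiso u v
  have hL : Matrix.toLin' A = x := Matrix.toLin'_toMatrix' x
  have hAr : A ^ r = 1 := by
    have h1 : A = LinearMap.toMatrixAlgEquiv' x := rfl
    rw [h1, ← map_pow, hxr, map_one]
  have hrank : finrank F (LinearMap.range (x - 1)) ≤ orderOf ((q : ℕ) : ZMod r) := by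
    rw [hce, ← hWd]
    exact Submodule.finrank_mono hrange
  refine ⟨⟨A, hA⟩, ⟨1, ?_⟩, ?_, ?_⟩
  · rw [one_smul]
    exact hAr
  · intro z hz
    change A = z • 1 at hz
    have hzv : ∀ v, x v = z • v := by
      intro v
      rw [← hAv, hz, Matrix.smul_mulVec, Matrix.one_mulVec]
    let i0 : Fin d := ⟨0, by omega⟩
    have hz2 : z ^ 2 = 1 := by
      have h1 := hiso (Pi.single (Sum.inl i0) 1) (Pi.single (Sum.inr i0) 1)
      rw [hzv, hzv] at h1
      have h2 : B (Pi.single (Sum.inl i0) 1) (Pi.single (Sum.inr i0) 1) = -1 := by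
        change sympForm d F _ _ = _
        rw [Cfsg.Agent.Lib.Classical.SympCount.sympForm_single_single]
        simp [Matrix.J]
      simp only [map_smul, LinearMap.smul_apply, smul_eq_mul, h2] at h1
      linear_combination -h1
    have hpow : ∀ (k : ℕ) v, (x ^ k) v = z ^ k • v := by
      intro k
      induction k with
      | zero => intro v; simp
      | succ k ih =>
        intro v
        rw [pow_succ, Module.End.mul_apply, ih, hzv, smul_smul, pow_succ]
    have hzr : z ^ r = 1 := by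
      have h1 := hpow r (Pi.single (Sum.inl i0) 1)
      rw [hxr] at h1
      have h2 := congrFun h1 (Sum.inl i0)
      simp at h2
      exact h2.symm
    have hz1 : z = 1 := by
      obtain ⟨k, hk⟩ := hrodd
      rw [hk, pow_succ, pow_mul, hz2, one_pow, one_mul] at hzr
      exact hzr
    apply hx1
    refine LinearMap.ext fun v => ?_
    rw [hzv, hz1, one_smul]
    rfl
  · rintro ⟨U, W, hc, hU, hW, hmap⟩
    have hcoe : ((⟨A, hA⟩ : ↥(Matrix.symplecticGroup (Fin d) F)) : Matrix (Fin d ⊕ Fin d) (Fin d ⊕ Fin d) F) = A := rfl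
    rw [hcoe, hL] at hmap
    have heven : ∀ (X : Submodule F (Fin d ⊕ Fin d → F)), (∀ u ∈ X, x (x u) ∈ X) → ∀ u ∈ X, x u ∈ X := by
      intro X hX u hu
      have h1 : ∀ (k : ℕ), ∀ u ∈ X, (x ^ (2 * k)) u ∈ X := by
        intro k
        induction k with
        | zero => intro u hu; simpa using hu
        | succ k ih =>
          intro u hu
          rw [show 2 * (k + 1) = 2 * k + 2 by ring, pow_add, Module.End.mul_apply]
          apply ih
          rw [pow_two]
          exact hX u hu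
      obtain ⟨k, hk⟩ := hrodd
      have h2 := h1 (k + 1) u hu
      rw [show 2 * (k + 1) = r + 1 by omega, pow_succ, hxr, one_mul] at h2
      exact h2
    have hinv : (∀ u ∈ U, x u ∈ U) ∧ (∀ u ∈ W, x u ∈ W) := by
      rcases hmap with ⟨h1, h2⟩ | ⟨h1, h2⟩
      · exact ⟨fun u hu => h1 ▸ Submodule.mem_map_of_mem hu, fun u hu => h2 ▸ Submodule.mem_map_of_mem hu⟩
      · constructor
        · apply heven
          intro u hu
          have h3 : x u ∈ W := h1 ▸ Submodule.mem_map_of_mem hu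
          exact h2 ▸ Submodule.mem_map_of_mem h3
        · apply heven
          intro u hu
          have h3 : x u ∈ U := h2 ▸ Submodule.mem_map_of_mem hu
          exact h1 ▸ Submodule.mem_map_of_mem h3
    have hfixU := fixes_of_invariant hq hrp B hB hnd x hiso hxr hrank U hU hinv.1
    have hfixW := fixes_of_invariant hq hrp B hB hnd x hiso hxr hrank W hW hinv.2
    apply hx1
    refine LinearMap.ext fun v => ?_
    have htop : v ∈ U ⊔ W := by rw [hc.sup_eq_top]; trivial
    obtain ⟨a, ha, b, hb, rfl⟩ := Submodule.mem_sup.1 htop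
    rw [map_add, hfixU a ha, hfixW b hb]
    rfl

end Cfsg.Agent.S5963
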