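import Cfsg.Statements.S5964
import Cfsg.Agent.Lib.Elusive.SubfieldConj
import Cfsg.Agent.Lib.Elusive.BlockForm
import Cfsg.Agent.Lib.Classical.SLBasic
import Cfsg.Agent.S5967

set_option autoImplicit false
open scoped MatrixGroups
open Cfsg

namespace Cfsg.Agent.S5964


open Module Cfsg.Agent.Lib.Elusive.SubfieldConj Cfsg.Agent.Lib.Elusive.BlockForm Cfsg.Agent.Lib.Jordan.Basis

/-- Elements of the subfield of index `2` are squares. -/
theorem isSquare_of_mem_subfield {F : Type*} [Field F] [Fintype F] (F₀ : Subfield F) {q₀ : ℕ}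
    (hF₀ : Nat.card ↥F₀ = q₀) (hq : Fintype.card F = q₀ ^ 2) (hodd : Odd q₀) (s : F) (hs : s ∈ F₀) :
    IsSquare s := by
  classical
  by_cases hs0 : s = 0
  · rw [hs0]
    exact IsSquare.zero
  have hcharne : ringChar F ≠ 2 := by
    intro hch
    have := FiniteField.even_card_of_char_two hch
    rw [hq] at this
    have h1 : Odd (q₀ ^ 2) := hodd.pow
    rw [Nat.odd_iff] at h1
    omega
  rw [FiniteField.isSquare_iff hcharne hs0, hq]
  obtain ⟨r, rfl⟩ := hodd
  have e1 : (2 * r + 1) ^ 2 / 2 = (2 * r) * (r + 1) := by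
    have : (2 * r + 1) ^ 2 = 2 * ((2 * r) * (r + 1)) + 1 := by ring
    omega
  rw [e1, pow_mul]
  haveI : Fintype ↥F₀ := Fintype.ofFinite _
  have h3 : (⟨s, hs⟩ : ↥F₀) ^ (Fintype.card ↥F₀ - 1) = 1 :=
    FiniteField.pow_card_sub_one_eq_one _ (by
      intro h
      exact hs0 (congrArg Subtype.val h))
  rw [← Nat.card_eq_fintype_card, hF₀] at h3
  have h4 : s ^ (2 * r + 1 - 1) = 1 := by
    have := congrArg Subtype.val h3
    simpa using this
  have h5 : 2 * r = 2 * r + 1 - 1 := by omega
  rw [h5, h4, one_pow]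

/-- The full `2`-part of `q - 1` divides the exponent of a power of a nonsquare. -/
theorem pow_dvd_of_nonsquare {F : Type*} [Field F] [Fintype F] {q : ℕ} (hq : Fintype.card F = q)
    (hodd : Odd q) (u : F) (hu : ¬ IsSquare u) (m : ℕ) (hm : u ^ m = 1) :
    2 ^ padicValNat 2 (q - 1) ∣ m := by
  classical
  have hq2 : 2 ≤ q := hq ▸ Fintype.one_lt_card
  have hcharne : ringChar F ≠ 2 := by
    intro hch
    have := FiniteField.even_card_of_char_two hch
    rw [hq] at this
    rw [Nat.odd_iff] at hodd
    omega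
  have hu0 : u ≠ 0 := by
    rintro rfl
    exact hu IsSquare.zero
  set e := padicValNat 2 (q - 1) with he
  have hq1 : q - 1 ≠ 0 := by omega
  have hevenq1 : 2 ∣ q - 1 := by
    rcases hodd with ⟨r, rfl⟩
    exact ⟨r, by omega⟩
  have he1 : 1 ≤ e := by
    have hfact : Fact (Nat.Prime 2) := ⟨Nat.prime_two⟩
    exact one_le_padicValNat_of_dvd hq1 hevenq1
  obtain ⟨o, ho⟩ : 2 ^ e ∣ q - 1 := pow_padicValNat_dvd
  have hdich := FiniteField.pow_dichotomy hcharne hu0
  have hnot : u ^ (Fintype.card F / 2) ≠ 1 := by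
    intro h
    exact hu ((FiniteField.isSquare_iff hcharne hu0).2 h)
  have hneg := hdich.resolve_left hnot
  have hcard2 : Fintype.card F / 2 = 2 ^ (e - 1) * o := by
    rw [hq]
    obtain ⟨r, hr⟩ : ∃ r, e = r + 1 := ⟨e - 1, by omega⟩
    rw [hr, pow_succ] at ho
    rw [hr, Nat.add_sub_cancel]
    have : q = 2 * (2 ^ r * o) + 1 := by
      have : q - 1 + 1 = q := by omega
      rw [← this, ho]
      ring
    omega
  rw [hcard2] at hneg
  let t : Fˣ := Units.mk0 (u ^ o) (pow_ne_zero _ hu0)
  have hneg1 : (-1 : F) ≠ 1 := by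
    intro h
    have h2 : (2 : F) = 0 := by
      have : (1 : F) + 1 = 0 := by
        nth_rewrite 1 [← h]
        ring
      rw [← this]
      ring
    exact hcharne (by
      have : CharP F 2 := CharTwo.of_one_ne_zero_of_two_eq_zero one_ne_zero h2
      exact ringChar.eq F 2)
  have ht1 : t ^ (2 ^ (e - 1)) ≠ 1 := by
    intro h
    have h3 := congrArg Units.val h
    rw [Units.val_pow_eq_pow_val, Units.val_one] at h3
    simp only [t, Units.val_mk0] at h3
    rw [← pow_mul, mul_comm, hneg] at h3
    exact hneg1 h3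
  have ht2 : t ^ (2 ^ e) = 1 := by
    obtain ⟨r, hr⟩ : ∃ r, e = r + 1 := ⟨e - 1, by omega⟩
    have h3 : (t : F) ^ (2 ^ (e - 1)) = -1 := by
      simp only [t, Units.val_mk0]
      rw [← pow_mul, mul_comm, hneg]
    ext
    rw [Units.val_pow_eq_pow_val, Units.val_one, hr, pow_succ, pow_mul]
    rw [hr, Nat.add_sub_cancel] at h3
    rw [h3]
    simp
  have hord : orderOf t = 2 ^ e := by
    obtain ⟨r, hr⟩ : ∃ r, e = r + 1 := ⟨e - 1, by omega⟩
    rw [hr] at ht1 ht2 ⊢
    rw [Nat.add_sub_cancel] at ht1
    exact orderOf_eq_prime_pow ht1 ht2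
  rw [← hord]
  apply orderOf_dvd_of_pow_eq_one
  ext
  rw [Units.val_pow_eq_pow_val, Units.val_one]
  simp only [t, Units.val_mk0]
  rw [← pow_mul, mul_comm, pow_mul, hm, one_pow]

/-- A nonsquare of `2`-power order. -/
theorem exists_nonsquare_two_power {F : Type*} [Field F] [Fintype F] {q : ℕ} (hq : Fintype.card F = q)
    (hodd : Odd q) : ∃ z : F, ¬ IsSquare z ∧ z ^ (2 ^ padicValNat 2 (q - 1)) = 1 := by
  classical
  have hq2 : 2 ≤ q := hq ▸ Fintype.one_lt_card
  have hcharne : ringChar F ≠ 2 := by
    intro hch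
    have := FiniteField.even_card_of_char_two hch
    rw [hq] at this
    rw [Nat.odd_iff] at hodd
    omega
  obtain ⟨a, ha⟩ := FiniteField.exists_nonsquare hcharne
  have ha0 : a ≠ 0 := by
    rintro rfl
    exact ha IsSquare.zero
  set e := padicValNat 2 (q - 1) with he
  obtain ⟨o, ho⟩ : 2 ^ e ∣ q - 1 := pow_padicValNat_dvd
  have hoodd : Odd o := by
    rw [← Nat.not_even_iff_odd]
    rintro ⟨r, rfl⟩
    have hfact : Fact (Nat.Prime 2) := ⟨Nat.prime_two⟩
    have : 2 ^ (e + 1) ∣ q - 1 := ⟨r, by rw [ho]; ring⟩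
    exact pow_succ_padicValNat_not_dvd (by omega) this
  refine ⟨a ^ o, ?_, ?_⟩
  · intro h
    apply ha
    obtain ⟨r, hr⟩ := hoodd
    have h1 := h
    rw [hr, pow_succ] at h1
    have h3 : IsSquare (a ^ (2 * r)) := ⟨a ^ r, by rw [two_mul, pow_add]⟩
    have h4 : a = (a ^ (2 * r) * a) * (a ^ (2 * r))⁻¹ := by
      field_simp
    rw [h4]
    exact h1.mul h3.inv
  · rw [← pow_mul, mul_comm, ← ho, ← hq]
    exact FiniteField.pow_card_sub_one_eq_one a ha0

/-- Odd geometric sums. -/
theorem pow_sub_pow_eq_mul_odd (x y k : ℕ) (hxy : y ≤ x) (hx : Odd x) (hy : Odd y) (hk : Odd k) :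
    ∃ S : ℕ, Odd S ∧ x ^ k - y ^ k = (x - y) * S := by
  refine ⟨∑ i ∈ Finset.range k, x ^ i * y ^ (k - 1 - i), ?_, ?_⟩
  · rw [Finset.odd_sum_iff_odd_card_odd]
    have : (Finset.range k).filter (fun i => Odd (x ^ i * y ^ (k - 1 - i))) = Finset.range k := by
      apply Finset.filter_true_of_mem
      intro i _
      exact (hx.pow).mul (hy.pow)
    rw [this, Finset.card_range]
    exact hk
  · have h1 : y ^ k ≤ x ^ k := Nat.pow_le_pow_left hxy k
    zify [h1, hxy]
    rw [mul_comm]
    have := geom_sum₂_mul (x : ℤ) (y : ℤ) k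
    rw [← this]

/-- The index of the subfield subgroup is odd for odd `k`, `q`. -/
theorem index_odd {F : Type*} [Field F] [Fintype F] (F₀ : Subfield F) {q q₀ k : ℕ} (hq : Fintype.card F = q)
    (hF₀ : Nat.card ↥F₀ = q₀) (hqk : q = q₀ ^ k) (hodd : Odd q) (hk : Odd k) (n : ℕ) (hn : n ≠ 0) :
    ¬ 2 ∣ ((Cfsg.Geo.subfieldSubgroup F₀ 1).comap (Matrix.SpecialLinearGroup.toGL : Matrix.SpecialLinearGroup (Fin n) F →* GL (Fin n) F)).index := by
  classical
  haveI : Fintype ↥F₀ := Fintype.ofFinite _
  haveI : Nonempty (Fin n) := ⟨⟨0, by omega⟩⟩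
  have hF₀' : Fintype.card ↥F₀ = q₀ := by rw [← Nat.card_eq_fintype_card, hF₀]
  have hq₀2 : 2 ≤ q₀ := hF₀' ▸ Fintype.one_lt_card
  have hq₀odd : Odd q₀ := by
    rw [hqk] at hodd
    exact (Nat.odd_pow_iff (by
      rcases hk with ⟨r, rfl⟩
      omega)).1 hodd
  let φ : Matrix.SpecialLinearGroup (Fin n) ↥F₀ →* Matrix.SpecialLinearGroup (Fin n) F :=
    Matrix.SpecialLinearGroup.map (F₀.subtype : ↥F₀ →+* F)
  have hφinj : Function.Injective φ := by
    intro a b hab
    apply Subtype.ext
    ext i j
    have h1 := congrFun (congrFun (congrArg (fun y : Matrix.SpecialLinearGroup (Fin n) F => (y : Matrix (Fin n) (Fin n) F)) hab) i) j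
    exact h1
  have hle : φ.range ≤ (Cfsg.Geo.subfieldSubgroup F₀ 1).comap (Matrix.SpecialLinearGroup.toGL : Matrix.SpecialLinearGroup (Fin n) F →* GL (Fin n) F) := by
    rintro _ ⟨g, rfl⟩
    refine mem_of_entries F₀ _ 1 one_ne_zero ((g : Matrix (Fin n) (Fin n) ↥F₀).map (F₀.subtype : ↥F₀ →+* F)) ?_ ?_
    · intro i j
      simp
    · rw [one_smul]
      rfl
  have hdvd := Subgroup.index_dvd_of_le hle
  have hcard : Nat.card φ.range = Nat.card (Matrix.SpecialLinearGroup (Fin n) ↥F₀) :=
    Nat.card_congr (MonoidHom.ofInjective hφinj).toEquiv.symm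
  have hidx := Subgroup.index_mul_card φ.range
  rw [hcard] at hidx
  set idx := φ.range.index
  set c₀ := Nat.card (Matrix.SpecialLinearGroup (Fin n) ↥F₀)
  set c := Nat.card (Matrix.SpecialLinearGroup (Fin n) F)
  have hc₀pos : 0 < c₀ := Nat.card_pos
  have hgl := Cfsg.Agent.Lib.Classical.SLBasic.card_gl_eq_mul_card_sl (F := F) (ι := Fin n)
  have hgl₀ := Cfsg.Agent.Lib.Classical.SLBasic.card_gl_eq_mul_card_sl (F := ↥F₀) (ι := Fin n)
  have hGL := Matrix.card_GL_field (𝔽 := F) n
  have hGL₀ := Matrix.card_GL_field (𝔽 := ↥F₀) n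
  rw [hq] at hgl hGL
  rw [hF₀'] at hgl₀ hGL₀
  -- arithmetic
  have hfac : ∀ i : Fin n, ∃ S : ℕ, Odd S ∧ q ^ n - q ^ (i : ℕ) = (q₀ ^ n - q₀ ^ (i : ℕ)) * S := by
    intro i
    have h1 := pow_sub_pow_eq_mul_odd (q₀ ^ n) (q₀ ^ (i : ℕ)) k
      (Nat.pow_le_pow_right (by omega) i.2.le) hq₀odd.pow hq₀odd.pow hk
    obtain ⟨S, hS, hS2⟩ := h1
    refine ⟨S, hS, ?_⟩
    rw [hqk, ← hS2, ← pow_mul, ← pow_mul, ← pow_mul, ← pow_mul, mul_comm k, mul_comm k]
  choose S hSodd hS using hfac
  have hU : Odd (∏ i, S i) := by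
    exact Finset.prod_induction _ Odd (fun _ _ => Odd.mul) odd_one (fun i _ => hSodd i)
  have hprod : ∏ i : Fin n, (q ^ n - q ^ (i : ℕ)) = (∏ i : Fin n, (q₀ ^ n - q₀ ^ (i : ℕ))) * ∏ i, S i := by
    rw [← Finset.prod_mul_distrib]
    exact Finset.prod_congr rfl (fun i _ => hS i)
  obtain ⟨W, hWodd, hW⟩ := pow_sub_pow_eq_mul_odd q₀ 1 k (by omega) hq₀odd odd_one hk
  rw [one_pow, ← hqk] at hW
  have hmain : (q₀ - 1) * (W * (idx * c₀)) = (q₀ - 1) * (c₀ * ∏ i, S i) := by
    have h1 : (q - 1) * c = (q₀ - 1) * c₀ * ∏ i, S i := by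
      rw [← hgl, hGL, hprod, ← hGL₀, hgl₀]
    rw [← hidx, hW] at h1
    linarith
  have hq₀1 : 0 < q₀ - 1 := by omega
  have h2 := Nat.eq_of_mul_eq_mul_left hq₀1 hmain
  have h3 : W * idx = ∏ i, S i := by
    apply Nat.eq_of_mul_eq_mul_right hc₀pos
    calc W * idx * c₀ = W * (idx * c₀) := by ring
      _ = c₀ * ∏ i, S i := h2
      _ = (∏ i, S i) * c₀ := by ring
  intro h2dvd
  have h4 : 2 ∣ idx := h2dvd.trans hdvd
  have h5 : 2 ∣ ∏ i, S i := by
    rw [← h3]
    exact h4.trans (dvd_mul_left _ _)
  have h6 := hU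
  rw [Nat.odd_iff] at h6
  omega

/-- Involutions of PSL_n(q) and subfield subgroups. Here `T = PSL_n(F)` for a field `F` with `q = p^f` elements (`n ≥ 2`, `(n, q) ≠ (2, 2), (2, 3)`), `F₀` is the subfield with `q₀` elements where `q = q₀^k` for a prime `k`, and `H` is the subgroup of matrices of determinant 1 lying in the subfield group of `F₀` (invertible matrices over `F₀` times scalars) — a maximal subgroup of type GL_n(q₀) (the case `n = 2`, `q₀ = 2` is excluded); Ω is the set of `T`-conjugates of `H` (cosets of `H`), so an element of `T` of prime order `r` (a matrix `x` of determinant 1 with `x^r` scalar, `x` not scalar) fixes a point of Ω when some conjugate of `x` by a matrix of determinant 1 lies in `H`. Suppose the index of `H` is even. Then every involution of `T` is conjugate in `T` into `H` if and only if either `q` is even, or `k = 2` and `(n)_2 ≤ (q − 1)_2`. (For `q` odd and `k` odd the index of `H` is odd, so that case does not arise.) -/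
theorem result {F : Type*} [Field F] [Fintype F] {p : ℕ} [Fact p.Prime] [CharP F p] {q : ℕ} (hq : Fintype.card F = q)
    (n : ℕ) (hn : 2 ≤ n) (hT : (n, q) ≠ (2, 2) ∧ (n, q) ≠ (2, 3))
    (F₀ : Subfield F) (k q₀ : ℕ) (hk : k.Prime) (hF₀ : Nat.card ↥F₀ = q₀) (hqk : q = q₀ ^ k) (hC5 : ¬ (n = 2 ∧ q₀ = 2)) (hΩ : 2 ∣ ((Cfsg.Geo.subfieldSubgroup F₀ 1).comap (Matrix.SpecialLinearGroup.toGL : Matrix.SpecialLinearGroup (Fin n) F →* GL (Fin n) F)).index) :
    (∀ x : Matrix.SpecialLinearGroup (Fin n) F,
      (∃ z : F, ((x ^ 2 : Matrix.SpecialLinearGroup (Fin n) F) : Matrix (Fin n) (Fin n) F) = z • (1 : Matrix (Fin n) (Fin n) F)) →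
      (∀ z : F, (x : Matrix (Fin n) (Fin n) F) ≠ z • (1 : Matrix (Fin n) (Fin n) F)) →
      ∃ P : Matrix.SpecialLinearGroup (Fin n) F, P⁻¹ * x * P ∈ ((Cfsg.Geo.subfieldSubgroup F₀ 1).comap (Matrix.SpecialLinearGroup.toGL : Matrix.SpecialLinearGroup (Fin n) F →* GL (Fin n) F))) ↔
    (Odd q → (k = 2 ∧ padicValNat 2 n ≤ padicValNat 2 (q - 1))) := by
  classical
  have hn0 : n ≠ 0 := by omega
  have hne : Nonempty (Fin n) := ⟨⟨0, by omega⟩⟩
  have hq2 : 2 ≤ q := hq ▸ Fintype.one_lt_card
  have hfin : finrank F (Fin n → F) = n := by simp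
  constructor
  · intro hall hodd
    -- `k = 2`
    have hk2 : k = 2 := by
      rcases hk.eq_two_or_odd' with h | h
      · exact h
      · exact absurd hΩ (index_odd F₀ hq hF₀ hqk hodd h n hn0)
    refine ⟨hk2, ?_⟩
    subst hk2
    by_contra hcon
    have hlt : padicValNat 2 (q - 1) + 1 ≤ padicValNat 2 n := by omega
    have hq₀odd : Odd q₀ := by
      rw [hqk] at hodd
      exact (Nat.odd_pow_iff (by norm_num)).1 hodd
    set e := padicValNat 2 (q - 1) with he
    have hq1 : q - 1 ≠ 0 := by omega
    have he1 : 1 ≤ e := by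
      have hfact : Fact (Nat.Prime 2) := ⟨Nat.prime_two⟩
      apply one_le_padicValNat_of_dvd hq1
      rcases hodd with ⟨r, rfl⟩
      exact ⟨r, by omega⟩
    have hdvd : 2 ^ (e + 1) ∣ n := by
      have hfact : Fact (Nat.Prime 2) := ⟨Nat.prime_two⟩
      exact (padicValNat_dvd_iff_le hn0).2 hlt
    obtain ⟨m', hm'⟩ := hdvd
    let m := 2 ^ e * m'
    have hnm : n = 2 * m := by
      rw [hm', pow_succ]
      simp only [m]
      ring
    obtain ⟨z, hzns, hzpow⟩ := exists_nonsquare_two_power hq hodd
    have hz0 : z ≠ 0 := by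
      rintro rfl
      exact hzns IsSquare.zero
    have hzm : z ^ m = 1 := by
      simp only [m]
      rw [pow_mul, hzpow, one_pow]
    have hmeven : Even m := by
      simp only [m]
      apply Even.mul_right
      obtain ⟨r, hr⟩ : ∃ r, e = r + 1 := ⟨e - 1, by omega⟩
      rw [hr, pow_succ]
      exact even_two.mul_left _
    -- the element
    let ε : Fin n ≃ Fin 2 × Fin m := (finCongr hnm).trans finProdFinEquiv.symm
    let XM : Matrix (Fin 2 × Fin m) (Fin 2 × Fin m) F := Matrix.blockDiagonal (fun _ => swapBlock z)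
    have hXX : XM * XM = z • 1 := by
      have hs : swapBlock z * swapBlock z = z • (1 : Matrix (Fin 2) (Fin 2) F) := by
        ext a b
        fin_cases a <;> fin_cases b <;> simp [swapBlock, Matrix.mul_apply, Fin.sum_univ_two]
      simp only [XM]
      rw [← Matrix.blockDiagonal_mul]
      simp only [hs]
      ext a b
      rw [Matrix.blockDiagonal_apply]
      by_cases hab : a.2 = b.2
      · rw [if_pos hab]
        by_cases ha1 : a.1 = b.1
        · have : a = b := Prod.ext ha1 hab
          subst this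
          simp
        · have : a ≠ b := fun h => ha1 (congrArg Prod.fst h)
          simp [ha1, this]
      · rw [if_neg hab]
        have : a ≠ b := fun h => hab (congrArg Prod.snd h)
        simp [this]
    let xM : Matrix (Fin n) (Fin n) F := Matrix.reindex ε.symm ε.symm XM
    have hxxM : xM * xM = z • 1 := by
      simp only [xM, Matrix.reindex_apply]
      rw [Matrix.submatrix_mul_equiv, hXX]
      ext a b
      simp [Matrix.one_apply]
    have hdet : xM.det = 1 := by
      simp only [xM]
      rw [Matrix.det_reindex_self, Matrix.det_blockDiagonal]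
      simp only [Finset.prod_const, Finset.card_univ, Fintype.card_fin, det_swapBlock]
      rw [hmeven.neg_pow, hzm]
    let x : Matrix.SpecialLinearGroup (Fin n) F := ⟨xM, hdet⟩
    have hx1 : ∃ z' : F, ((x ^ 2 : Matrix.SpecialLinearGroup (Fin n) F) : Matrix (Fin n) (Fin n) F) = z' • (1 : Matrix (Fin n) (Fin n) F) := by
      refine ⟨z, ?_⟩
      rw [pow_two, Matrix.SpecialLinearGroup.coe_mul]
      exact hxxM
    have hx2 : ∀ z' : F, (x : Matrix (Fin n) (Fin n) F) ≠ z' • (1 : Matrix (Fin n) (Fin n) F) := by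
      intro c hc
      apply hzns
      have hc' : xM = c • 1 := hc
      rw [hc', Matrix.smul_mul, Matrix.mul_smul, Matrix.one_mul, smul_smul] at hxxM
      have h1 := congrFun (congrFun hxxM ⟨0, by omega⟩) ⟨0, by omega⟩
      simp only [Matrix.smul_apply, Matrix.one_apply_eq, smul_eq_mul, mul_one] at h1
      exact ⟨c, h1.symm⟩
    obtain ⟨P, hP⟩ := hall x hx1 hx2
    rw [Subgroup.mem_comap] at hP
    obtain ⟨c, A, hc0, hA, hyA⟩ := exists_entries_of_mem F₀ _ hP
    have hyy : ((P⁻¹ * x * P : Matrix.SpecialLinearGroup (Fin n) F) : Matrix (Fin n) (Fin n) F) *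
        ((P⁻¹ * x * P : Matrix.SpecialLinearGroup (Fin n) F) : Matrix (Fin n) (Fin n) F) = z • 1 := by
      have h1 : (P⁻¹ * x * P) * (P⁻¹ * x * P) = P⁻¹ * (x * x) * P := by group
      rw [← Matrix.SpecialLinearGroup.coe_mul, h1, Matrix.SpecialLinearGroup.coe_mul,
        Matrix.SpecialLinearGroup.coe_mul, Matrix.SpecialLinearGroup.coe_mul]
      have h3 : (x : Matrix (Fin n) (Fin n) F) * (x : Matrix (Fin n) (Fin n) F) = z • 1 := hxxM
      rw [h3, Matrix.mul_smul, Matrix.mul_one, Matrix.smul_mul, ← Matrix.SpecialLinearGroup.coe_mul,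
        inv_mul_cancel]
      simp
    have hyA' : ((P⁻¹ * x * P : Matrix.SpecialLinearGroup (Fin n) F) : Matrix (Fin n) (Fin n) F) = c • A := hyA
    rw [hyA', Matrix.smul_mul, Matrix.mul_smul, smul_smul] at hyy
    let i₀ : Fin n := ⟨0, by omega⟩
    have h1 := congrFun (congrFun hyy i₀) i₀
    simp only [Matrix.smul_apply, Matrix.one_apply_eq, smul_eq_mul, mul_one] at h1
    have hsmem : (A * A) i₀ i₀ ∈ F₀ := by
      rw [Matrix.mul_apply]
      exact F₀.sum_mem (fun l _ => F₀.mul_mem (hA _ _) (hA _ _))
    obtain ⟨r, hr⟩ := isSquare_of_mem_subfield F₀ hF₀ (by rw [hq, hqk]) hq₀odd _ hsmem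
    apply hzns
    rw [hr] at h1
    exact ⟨c * r, by rw [← h1]; ring⟩
  · intro hcond x hx1 hx2
    obtain ⟨z, hz⟩ := hx1
    have hsq : (x : Matrix (Fin n) (Fin n) F) * (x : Matrix (Fin n) (Fin n) F) = z • (1 : Matrix (Fin n) (Fin n) F) := by
      have h := hz
      rw [pow_two, Matrix.SpecialLinearGroup.coe_mul] at h
      exact h
    have hz0 : z ≠ 0 := by
      rintro rfl
      rw [zero_smul] at hsq
      have : (x : Matrix (Fin n) (Fin n) F).det * (x : Matrix (Fin n) (Fin n) F).det = 0 := by
        rw [← Matrix.det_mul, hsq]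
        exact Matrix.det_zero
      rw [Matrix.SpecialLinearGroup.det_coe] at this
      simp at this
    let g : (Fin n → F) →ₗ[F] (Fin n → F) := Matrix.toLin' (x : Matrix (Fin n) (Fin n) F)
    have hg : ∀ v, g (g v) = z • v := by
      intro v
      simp only [g, Matrix.toLin'_apply, Matrix.mulVec_mulVec, hsq, Matrix.smul_mulVec, Matrix.one_mulVec]
    by_cases h2 : (2 : F) = 0
    · -- characteristic two
      have hchar2 : CharP F 2 := CharTwo.of_one_ne_zero_of_two_eq_zero one_ne_zero h2
      have hch : ringChar F = 2 := ringChar.eq F 2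
      obtain ⟨w, hw⟩ := FiniteField.isSquare_of_char_two hch z
      have hw0 : w ≠ 0 := by
        rintro rfl
        apply hz0
        rw [hw, zero_mul]
      let N : (Fin n → F) →ₗ[F] (Fin n → F) := w⁻¹ • g - LinearMap.id
      have hN : ∀ v, (x : Matrix (Fin n) (Fin n) F).mulVec v = w • (v + N v) := by
        intro v
        simp only [N, LinearMap.sub_apply, LinearMap.smul_apply, LinearMap.id_apply, add_sub_cancel,
          smul_smul, mul_inv_cancel₀ hw0, one_smul]
        rfl
      have hN2 : (N ^ 2 : Module.End F (Fin n → F)) = 0 := by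
        refine LinearMap.ext fun v => ?_
        rw [pow_two, Module.End.mul_apply]
        have hNv : ∀ u, N u = w⁻¹ • g u - u := fun u => rfl
        rw [hNv, hNv, map_sub, map_smul, hg, hw, LinearMap.zero_apply]
        have e0 : w⁻¹ • (w⁻¹ • (w * w) • v - g v) - (w⁻¹ • g v - v) =
            (w⁻¹ * w⁻¹ * (w * w) + 1) • v - (2 * w⁻¹) • g v := by module
        have e1 : w⁻¹ * w⁻¹ * (w * w) = 1 := by field_simp
        have e2 : (1 : F) + 1 = 0 := by
          rw [one_add_one_eq_two, h2]
        rw [e0, e1, e2, h2]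
        simp
      obtain ⟨t, d, b, hd, hJ⟩ := exists_jordanBasis N ⟨2, hN2⟩
      have hd2 := (hJ.pow_eq_zero_iff 2).1 hN2
      have htpos : Nonempty (Fin t) := by
        by_contra hcon
        rw [not_nonempty_iff] at hcon
        have h1 := hJ.sum_eq
        rw [hfin] at h1
        simp at h1
        omega
      obtain ⟨k₀⟩ := htpos
      refine exists_conj_of_jordan F₀ x w hw0 N hN d b hJ k₀ ?_
      intro δ _
      have h1 := hd2 k₀
      have h3 := hd k₀
      have h4 : d k₀ = 1 ∨ d k₀ = 2 := by omega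
      rcases h4 with h4 | h4
      · exact ⟨δ, by rw [h4, pow_one]⟩
      · obtain ⟨c, hc⟩ := FiniteField.isSquare_of_char_two hch δ
        exact ⟨c, by rw [h4, pow_two, hc]⟩
    · have hodd : Odd q := by
        by_contra hcon2
        rw [Nat.not_odd_iff_even] at hcon2
        apply h2
        have hp2 : ringChar F = 2 := by
          by_contra hch
          have := FiniteField.odd_card_of_char_ne_two hch
          rw [hq] at this
          rcases hcon2 with ⟨r, hr⟩
          omega
        have : CharP F 2 := hp2 ▸ ringChar.charP F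
        exact CharTwo.two_eq_zero
      by_cases hsqz : IsSquare z
      · -- eigenspaces
        obtain ⟨w, hw⟩ := hsqz
        have hw0 : w ≠ 0 := by
          rintro rfl
          apply hz0
          rw [hw]
          ring
        obtain ⟨a, c, e, he1, he2⟩ := Cfsg.Agent.S5967.exists_eigen_basis g w hw0 h2 (by
          intro v
          rw [hg, hw]
          congr 1
          ring)
        have hac : a + c = n := by
          have := finrank_eq_card_basis e
          rw [hfin] at this
          simpa using this.symm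
        let ε : Fin a ⊕ Fin c ≃ Fin n := finSumFinEquiv.trans (finCongr hac)
        let b : Basis (Fin n) F (Fin n → F) := e.reindex ε
        have hb : ∀ s, b (ε s) = e s := fun s => by simp [b]
        let σ : Fin n → F := fun i => Sum.elim (fun _ => 1) (fun _ => -1) (ε.symm i)
        have hσ : ∀ i, (x : Matrix (Fin n) (Fin n) F).mulVec (b i) = (w * σ i) • b i := by
          intro i
          obtain ⟨s, rfl⟩ := ε.surjective i
          rw [hb]
          rcases s with j | j
          · have h5 : ε.symm (ε (.inl j)) = .inl j := by simp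
            simp only [σ, h5, Sum.elim_inl, mul_one]
            exact he1 j
          · have h5 : ε.symm (ε (.inr j)) = .inr j := by simp
            simp only [σ, h5, Sum.elim_inr, mul_neg_one]
            exact he2 j
        obtain ⟨P, hP⟩ := exists_sl_conj_of_basis x b (w • Matrix.diagonal σ)
          (by
            intro i
            rw [hσ]
            simp only [Matrix.smul_apply, Matrix.diagonal_apply, smul_eq_mul]
            rw [Finset.sum_eq_single i]
            · simp
            · intro j _ hj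
              simp [hj]
            · simp)
          (by
            intro δ hδ
            let i₀ : Fin n := ⟨0, by omega⟩
            refine ⟨Matrix.diagonal (fun i => if i = i₀ then δ else 1), ?_, ?_⟩
            · rw [Matrix.mul_smul, Matrix.smul_mul, Matrix.diagonal_mul_diagonal, Matrix.diagonal_mul_diagonal]
              congr 2
              funext i
              ring
            · rw [Matrix.det_diagonal, Finset.prod_ite_eq' Finset.univ i₀ (fun _ => δ)]
              simp)
        refine ⟨P, mem_of_entries F₀ _ w hw0 _ ?_ hP⟩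
        intro i j
        rw [Matrix.diagonal_apply]
        split_ifs
        · simp only [σ]
          rcases ε.symm i with l | l
          · exact F₀.one_mem
          · exact F₀.neg_mem F₀.one_mem
        · exact F₀.zero_mem
      · -- `z` is not a square: impossible
        exfalso
        obtain ⟨hk2, hval⟩ := hcond hodd
        subst hk2
        have hq₀odd : Odd q₀ := by
          rw [hqk] at hodd
          exact (Nat.odd_pow_iff (by norm_num)).1 hodd
        -- `-1` is a square
        have hneg : IsSquare (-1 : F) := by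
          apply isSquare_of_mem_subfield F₀ hF₀ (by rw [hq, hqk]) hq₀odd
          exact F₀.neg_mem F₀.one_mem
        have hu : ¬ IsSquare (-z) := by
          intro h
          apply hsqz
          have := hneg.mul h
          have e1 : -1 * -z = z := by ring
          rwa [e1] at this
        obtain ⟨K', L, _, _, e, s, h1, h3, h4⟩ := exists_normal_basis g z hz0 hg
        have hLempty : IsEmpty L := ⟨fun l => by
          apply hsqz
          have h5 := hg (e (.inr l))
          rw [h4, map_smul, h4, smul_smul] at h5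
          have h6 : (s l * s l - z) • e (.inr l) = 0 := by
            rw [sub_smul, h5, sub_self]
          have h7 := (smul_eq_zero.mp h6).resolve_right (e.ne_zero _)
          exact ⟨s l, by linear_combination -h7⟩⟩
        let ε : Fin 2 × K' ≃ (K' × Bool) ⊕ L :=
          { toFun := fun p => .inl (p.2, decide (p.1 = 1))
            invFun := fun y => match y with
              | .inl (k, b) => (if b then 1 else 0, k)
              | .inr l => (hLempty.false l).elim
            left_inv := by
              rintro ⟨i, k⟩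
              fin_cases i <;> simp
            right_inv := by
              rintro (⟨k, b⟩ | l)
              · cases b <;> simp
              · exact (hLempty.false l).elim }
        let b : Basis (Fin 2 × K') F (Fin n → F) := e.reindex ε.symm
        have hb : ∀ p, b p = e (ε p) := fun p => by simp [b]
        have hblocks : ∀ i m, g (b (i, m)) = ∑ j, swapBlock z j i • b (j, m) := by
          intro i k
          fin_cases i
          · simp [hb, ε, swapBlock, Fin.sum_univ_two, h1]
          · simp [hb, ε, swapBlock, Fin.sum_univ_two, h3]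
        have hdetg : (-z) ^ Fintype.card K' = 1 := by
          have h5 : LinearMap.det g = 1 := by
            simp only [g]
            rw [LinearMap.det_toLin']
            exact Matrix.SpecialLinearGroup.det_coe x
          rw [← LinearMap.det_toMatrix b, toMatrix_eq_blockDiagonal b (fun _ => swapBlock z) g hblocks,
            Matrix.det_blockDiagonal] at h5
          simpa [det_swapBlock] using h5
        have hdvd := pow_dvd_of_nonsquare hq hodd _ hu _ hdetg
        have hcard : n = 2 * Fintype.card K' := by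
          have := finrank_eq_card_basis b
          rw [hfin] at this
          simpa using this
        have hK0 : Fintype.card K' ≠ 0 := by
          intro h
          rw [h] at hcard
          omega
        have hle := (padicValNat_dvd_iff_le hK0).1 hdvd
        have hv : padicValNat 2 n = 1 + padicValNat 2 (Fintype.card K') := by
          have hfact : Fact (Nat.Prime 2) := ⟨Nat.prime_two⟩
          rw [hcard, padicValNat.mul (by norm_num) hK0]
          simp
        omega

end Cfsg.Agent.S5964
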