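import Cfsg.Statements.S5966
import Cfsg.Agent.Lib.Elusive.SubfieldConj2
import Cfsg.Agent.Lib.Elusive.SquareZeroInv
import Cfsg.Agent.S5964

set_option autoImplicit false
open scoped MatrixGroups
open Cfsg

namespace Cfsg.Agent.S5966


open Module Cfsg.Agent.Lib.Elusive.SubfieldConj Cfsg.Agent.Lib.Elusive.SubfieldConj2
open Cfsg.Agent.Lib.Elusive.SquareZeroInv Cfsg.Agent.Lib.Jordan.Basis Cfsg.Agent.S5964

section
variable {F : Type*} [Field F] [Fintype F] [CharP F 3]

theorem three_eq_zero : (3 : F) = 0 := by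
  have := CharP.cast_eq_zero F 3
  simpa using this

theorem two_ne_zero' : (2 : F) ≠ 0 := by
  intro h
  have h3 := three_eq_zero (F := F)
  have : (1 : F) = 0 := by
    have e : (3 : F) = 2 + 1 := by norm_num
    rw [e, h, zero_add] at h3
    exact h3
  exact one_ne_zero this

theorem ringChar_ne_two : ringChar F ≠ 2 := by
  intro hch
  apply two_ne_zero' (F := F)
  have : CharP F 2 := hch ▸ ringChar.charP F
  exact CharTwo.two_eq_zero

/-- Cube roots in characteristic three. -/
theorem exists_cube_root (z : F) : ∃ w : F, w ^ 3 = z := by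
  haveI : Fact (Nat.Prime 3) := ⟨Nat.prime_three⟩
  have hinj : Function.Injective (frobenius F 3) := frobenius_inj F 3
  obtain ⟨w, hw⟩ := (Finite.injective_iff_surjective.1 hinj) z
  exact ⟨w, by simpa [frobenius_def] using hw⟩

theorem eq_one_of_cube_eq_one (a : F) (h : a ^ 3 = 1) : a = 1 := by
  haveI : Fact (Nat.Prime 3) := ⟨Nat.prime_three⟩
  have h1 : (a - 1) ^ 3 = 0 := by
    rw [sub_pow_char, h, one_pow, sub_self]
  exact sub_eq_zero.mp (pow_eq_zero_iff (by norm_num) |>.mp h1)



end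

/-- Nonsquares of the subfield stay nonsquare for odd degree. -/
theorem not_isSquare_of_odd {F : Type*} [Field F] [Fintype F] (F₀ : Subfield F) {q₀ k : ℕ}
    (hF₀ : Nat.card ↥F₀ = q₀) (hq : Fintype.card F = q₀ ^ k) (hk : Odd k) (hchar : ringChar F ≠ 2)
    (d₀ : ↥F₀) (hd₀ : ¬ IsSquare d₀) : ¬ IsSquare (d₀ : F) := by
  classical
  haveI : Fintype ↥F₀ := Fintype.ofFinite _
  have hF₀' : Fintype.card ↥F₀ = q₀ := by rw [← Nat.card_eq_fintype_card, hF₀]
  have hq₀2 : 2 ≤ q₀ := hF₀' ▸ Fintype.one_lt_card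
  have hqodd : Odd (q₀ ^ k) := by
    rw [← hq, Nat.odd_iff]
    exact FiniteField.odd_card_of_char_ne_two hchar
  have hq₀odd : Odd q₀ := (Nat.odd_pow_iff (by
    rcases hk with ⟨r, rfl⟩
    omega)).1 hqodd
  have hchar₀ : ringChar ↥F₀ ≠ 2 := by
    intro h
    have hc : CharP ↥F₀ 2 := h ▸ ringChar.charP _
    have h2 : (2 : ↥F₀) = 0 := CharTwo.two_eq_zero
    have h4 : (2 : F) = 0 := by
      have h3 := congrArg F₀.subtype h2
      rwa [map_ofNat, map_zero] at h3
    apply hchar
    have : CharP F 2 := CharTwo.of_one_ne_zero_of_two_eq_zero one_ne_zero h4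
    exact ringChar.eq F 2
  have hd₀0 : d₀ ≠ 0 := by
    rintro rfl
    exact hd₀ IsSquare.zero
  have hd₀0' : (d₀ : F) ≠ 0 := fun h => hd₀0 (Subtype.ext h)
  have hneg : d₀ ^ (Fintype.card ↥F₀ / 2) = -1 :=
    (FiniteField.pow_dichotomy hchar₀ hd₀0).resolve_left (fun h =>
      hd₀ ((FiniteField.isSquare_iff hchar₀ hd₀0).2 h))
  rw [hF₀'] at hneg
  have hneg' : (d₀ : F) ^ (q₀ / 2) = -1 := by
    have := congrArg Subtype.val hneg
    simpa using this
  intro hsq
  have h1 := (FiniteField.isSquare_iff hchar hd₀0').1 hsq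
  obtain ⟨S, hS, hS2⟩ := pow_sub_pow_eq_mul_odd q₀ 1 k (by omega) hq₀odd odd_one hk
  rw [one_pow] at hS2
  have hdiv : Fintype.card F / 2 = (q₀ / 2) * S := by
    rw [hq]
    obtain ⟨r, hr⟩ := hq₀odd
    have h2 : q₀ / 2 = r := by omega
    rw [h2]
    have h3 : q₀ - 1 = 2 * r := by omega
    rw [h3] at hS2
    have h4 : 1 ≤ q₀ ^ k := Nat.one_le_pow _ _ (by omega)
    have h5 : q₀ ^ k = 2 * (r * S) + 1 := by
      have : q₀ ^ k - 1 + 1 = q₀ ^ k := by omega
      rw [← this, hS2]
      ring
    omega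
  rw [hdiv, pow_mul, hneg', hS.neg_one_pow] at h1
  have h2 : (2 : F) = 0 := by
    have e : (2 : F) = (1 : F) - (-1) := by ring
    rw [e, h1]
    ring
  apply hchar
  have : CharP F 2 := CharTwo.of_one_ne_zero_of_two_eq_zero one_ne_zero h2
  exact ringChar.eq F 2

/-- Entries of the square-zero part lie in the subfield. -/
theorem entries_of_square_zero {F : Type*} [Field F] {n : ℕ} (h2 : (2 : F) ≠ 0) (F₀ : Subfield F) (c : F)
    (hc : c ≠ 0) (A N' : Matrix (Fin n) (Fin n) F) (hA : ∀ i j, A i j ∈ F₀) (hy : 1 + N' = c • A)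
    (hNN : N' * N' = 0) (hne : N' ≠ 0) : ∀ i j, N' i j ∈ F₀ := by
  classical
  have h2F₀ : (2 : F)⁻¹ ∈ F₀ := F₀.inv_mem (by
    have : (2 : F) = 1 + 1 := by norm_num
    rw [this]
    exact F₀.add_mem F₀.one_mem F₀.one_mem)
  -- the relation
  have hrel : c • (c • (A * A)) = (2 * c) • A - 1 := by
    have h1 : (c • A) * (c • A) = (1 + N') * (1 + N') := by rw [hy]
    rw [Matrix.smul_mul, Matrix.mul_smul] at h1
    have h3 : (1 + N') * (1 + N') = 1 + N' + N' + N' * N' := by
      rw [mul_add, add_mul, add_mul]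
      simp only [one_mul, mul_one]
      abel
    rw [h1, h3, hNN, add_zero]
    have h4 : N' = c • A - 1 := by rw [← hy]; abel
    rw [two_mul, add_smul, h4]
    abel
  -- `c⁻¹ ∈ F₀` from an off-diagonal entry
  have hoff : ∃ i j, i ≠ j ∧ A i j ≠ 0 := by
    by_contra hcon
    push Not at hcon
    have hdiag : ∀ i j, i ≠ j → N' i j = 0 := by
      intro i j hij
      have h1 := congrFun (congrFun hy i) j
      simp only [Matrix.add_apply, Matrix.one_apply_ne hij, zero_add, Matrix.smul_apply, smul_eq_mul] at h1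
      rw [h1, hcon i j hij, mul_zero]
    apply hne
    ext i j
    by_cases hij : i = j
    · subst hij
      have h1 := congrFun (congrFun hNN i) i
      rw [Matrix.mul_apply, Finset.sum_eq_single i] at h1
      · exact mul_self_eq_zero.mp h1
      · intro l _ hl
        rw [hdiag i l (Ne.symm hl), zero_mul]
      · simp
    · exact hdiag i j hij
  obtain ⟨i, j, hij, hAij⟩ := hoff
  have hcinv : c⁻¹ ∈ F₀ := by
    have h1 := congrFun (congrFun hrel i) j
    simp only [Matrix.smul_apply, Matrix.sub_apply, Matrix.one_apply_ne hij, sub_zero, smul_eq_mul] at h1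
    -- `c² (A²)ᵢⱼ = 2 c Aᵢⱼ`
    have h3 : c⁻¹ = (A * A) i j * (A i j)⁻¹ * (2 : F)⁻¹ := by
      have h5 : c * (A * A) i j = 2 * A i j := mul_left_cancel₀ hc (by linear_combination h1)
      have h4 : (A * A) i j = 2 * c⁻¹ * A i j := by
        field_simp
        linear_combination h5
      rw [h4]
      field_simp
    rw [h3]
    refine F₀.mul_mem (F₀.mul_mem ?_ (F₀.inv_mem (hA i j))) h2F₀
    rw [Matrix.mul_apply]
    exact F₀.sum_mem (fun l _ => F₀.mul_mem (hA _ _) (hA _ _))
  have hcmem : c ∈ F₀ := by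
    have := F₀.inv_mem hcinv
    rwa [inv_inv] at this
  intro a b
  have h1 := congrFun (congrFun hy a) b
  simp only [Matrix.add_apply, Matrix.smul_apply, smul_eq_mul] at h1
  have h3 : N' a b = c * A a b - (1 : Matrix (Fin n) (Fin n) F) a b := by
    rw [← h1]
    ring
  rw [h3]
  refine F₀.sub_mem (F₀.mul_mem hcmem (hA a b)) ?_
  rw [Matrix.one_apply]
  split_ifs
  · exact F₀.one_mem
  · exact F₀.zero_mem

/-- The twisted square-zero element is not conjugate into the subfield subgroup of index two. -/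
theorem not_conj_twisted {F : Type*} [Field F] [Fintype F] [CharP F 3] {n m : ℕ} (hnm : n = m + m) (hm : 0 < m)
    (F₀ : Subfield F) {q₀ : ℕ} (hF₀ : Nat.card ↥F₀ = q₀) (hq : Fintype.card F = q₀ ^ 2) :
    ¬ (∀ x : Matrix.SpecialLinearGroup (Fin n) F,
      (∃ z : F, ((x ^ 3 : Matrix.SpecialLinearGroup (Fin n) F) : Matrix (Fin n) (Fin n) F) = z • (1 : Matrix (Fin n) (Fin n) F)) →
      (∀ z : F, (x : Matrix (Fin n) (Fin n) F) ≠ z • (1 : Matrix (Fin n) (Fin n) F)) →
      ∃ P : Matrix.SpecialLinearGroup (Fin n) F, P⁻¹ * x * P ∈ ((Cfsg.Geo.subfieldSubgroup F₀ 1).comap (Matrix.SpecialLinearGroup.toGL : Matrix.SpecialLinearGroup (Fin n) F →* GL (Fin n) F))) := by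
  classical
  intro hall
  have hchar := ringChar_ne_two (F := F)
  have h2 := two_ne_zero' (F := F)
  have h3 := three_eq_zero (F := F)
  have hqodd : Odd (q₀ ^ 2) := by
    rw [← hq, Nat.odd_iff]
    exact FiniteField.odd_card_of_char_ne_two hchar
  have hq₀odd : Odd q₀ := (Nat.odd_pow_iff (by norm_num)).1 hqodd
  obtain ⟨d, hd⟩ := FiniteField.exists_nonsquare hchar
  have hd0 : d ≠ 0 := by
    rintro rfl
    exact hd IsSquare.zero
  let ε : Fin m ⊕ Fin m ≃ Fin n := finSumFinEquiv.trans (finCongr hnm.symm)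
  let i₀ : Fin m := ⟨0, hm⟩
  let τ : Fin m → F := fun l => if l = i₀ then d else 1
  have hτ0 : ∀ l, τ l ≠ 0 := by
    intro l
    simp only [τ]
    split_ifs
    · exact hd0
    · exact one_ne_zero
  -- the coordinates of the square-zero matrix
  let N : Matrix (Fin n) (Fin n) F := fun a b =>
    match ε.symm a, ε.symm b with
    | .inr l, .inl l' => if l = l' then τ l else 0
    | _, _ => 0
  have hNe : ∀ p q, N (ε p) (ε q) = match p, q with
    | .inr l, .inl l' => if l = l' then τ l else 0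
    | _, _ => 0 := by
    intro p q
    simp [N]
  have hNv : ∀ (v : Fin n → F) l, N.mulVec v (ε (.inr l)) = τ l * v (ε (.inl l)) := by
    intro v l
    simp only [Matrix.mulVec, dotProduct]
    rw [← Equiv.sum_comp ε, Fintype.sum_sum_type]
    simp only [hNe]
    simp
  have hNv' : ∀ (v : Fin n → F) l, N.mulVec v (ε (.inl l)) = 0 := by
    intro v l
    simp only [Matrix.mulVec, dotProduct]
    rw [← Equiv.sum_comp ε, Fintype.sum_sum_type]
    simp only [hNe]
    simp
  have hNN : N * N = 0 := by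
    apply Matrix.toLin'.injective
    refine LinearMap.ext fun v => ?_
    rw [Matrix.toLin'_apply, map_zero, LinearMap.zero_apply, ← Matrix.mulVec_mulVec]
    funext a
    obtain ⟨p, rfl⟩ := ε.surjective a
    rcases p with l | l
    · rw [hNv']
      rfl
    · rw [hNv, hNv', mul_zero]
      rfl
  have hN0 : N ≠ 0 := by
    intro h
    have h1 := hNe (.inr i₀) (.inl i₀)
    rw [h] at h1
    simp [τ, i₀] at h1
    exact hd0 h1.symm
  let xM : Matrix (Fin n) (Fin n) F := 1 + N
  have hxcube : xM * xM * xM = 1 := by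
    have h1 : xM * xM * xM = 1 + (3 : F) • N + (3 : F) • (N * N) + N * N * N := by
      simp only [xM, mul_add, add_mul, one_mul, mul_one]
      have e1 : (3 : F) = 1 + 1 + 1 := by norm_num
      rw [e1]
      simp only [add_smul, one_smul]
      abel
    rw [h1, hNN, h3]
    simp
  have hdet : xM.det = 1 := by
    apply eq_one_of_cube_eq_one
    rw [pow_three, ← mul_assoc, ← Matrix.det_mul, ← Matrix.det_mul, hxcube, Matrix.det_one]
  let x : Matrix.SpecialLinearGroup (Fin n) F := ⟨xM, hdet⟩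
  have hxx : ((x ^ 3 : Matrix.SpecialLinearGroup (Fin n) F) : Matrix (Fin n) (Fin n) F) = (1 : F) • (1 : Matrix (Fin n) (Fin n) F) := by
    rw [one_smul, pow_three, ← mul_assoc, Matrix.SpecialLinearGroup.coe_mul, Matrix.SpecialLinearGroup.coe_mul]
    exact hxcube
  have hxns : ∀ z : F, (x : Matrix (Fin n) (Fin n) F) ≠ z • (1 : Matrix (Fin n) (Fin n) F) := by
    intro z hz
    have hz' : xM = z • 1 := hz
    have hne : ε (.inr i₀) ≠ ε (.inl i₀) := by
      intro h
      have := ε.injective h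
      simp at this
    have h1 := congrFun (congrFun hz' (ε (.inr i₀))) (ε (.inl i₀))
    simp only [xM, Matrix.add_apply, Matrix.one_apply_ne hne, zero_add, Matrix.smul_apply, smul_eq_mul,
      mul_zero] at h1
    rw [hNe] at h1
    simp [τ, i₀] at h1
    exact hd0 h1
  obtain ⟨P, hP⟩ := hall x ⟨1, hxx⟩ hxns
  rw [Subgroup.mem_comap] at hP
  obtain ⟨c, A, hc0, hA, hyA⟩ := exists_entries_of_mem F₀ _ hP
  let PM : Matrix (Fin n) (Fin n) F := (P : Matrix (Fin n) (Fin n) F)
  let PI : Matrix (Fin n) (Fin n) F := ((P⁻¹ : Matrix.SpecialLinearGroup (Fin n) F) : Matrix (Fin n) (Fin n) F)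
  have hPIP : PI * PM = 1 := by
    simp only [PI, PM]
    rw [← Matrix.SpecialLinearGroup.coe_mul, inv_mul_cancel]
    rfl
  have hPPI : PM * PI = 1 := by
    simp only [PI, PM]
    rw [← Matrix.SpecialLinearGroup.coe_mul, mul_inv_cancel]
    rfl
  let N' : Matrix (Fin n) (Fin n) F := PI * N * PM
  have hyN : PI * xM * PM = 1 + N' := by
    simp only [xM, N', mul_add, add_mul, mul_one, hPIP]
  have hN'N' : N' * N' = 0 := by
    simp only [N']
    calc PI * N * PM * (PI * N * PM) = PI * N * (PM * PI) * N * PM := by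
          simp only [Matrix.mul_assoc]
      _ = PI * (N * N) * PM := by
          rw [hPPI, Matrix.mul_one, Matrix.mul_assoc PI N N]
      _ = 0 := by rw [hNN]; simp
  have hPN' : PM * N' = N * PM := by
    simp only [N']
    calc PM * (PI * N * PM) = (PM * PI) * N * PM := by
          simp only [Matrix.mul_assoc]
      _ = N * PM := by rw [hPPI, Matrix.one_mul]
  have hN'ne : N' ≠ 0 := by
    intro h
    apply hN0
    have h1 := hPN'
    rw [h, Matrix.mul_zero] at h1
    have h4 : N * PM * PI = 0 := by rw [← h1, Matrix.zero_mul]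
    rwa [Matrix.mul_assoc, hPPI, Matrix.mul_one] at h4
  have hy1 : 1 + N' = c • A := by
    rw [← hyN]
    exact hyA
  have hN'entries := entries_of_square_zero h2 F₀ c hc0 A N' hA hy1 hN'N' hN'ne
  -- kernel = image
  have hker : ∀ g : Fin n → F, N'.mulVec g = 0 → ∃ y, N'.mulVec y = g := by
    intro g hg
    have h1 : N.mulVec (PM.mulVec g) = 0 := by
      rw [Matrix.mulVec_mulVec, ← hPN', ← Matrix.mulVec_mulVec, hg, Matrix.mulVec_zero]
    let g' := PM.mulVec g
    have h4 : ∀ l, g' (ε (.inl l)) = 0 := by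
      intro l
      have h5 := congrFun h1 (ε (.inr l))
      rw [hNv] at h5
      exact (mul_eq_zero.mp h5).resolve_left (hτ0 l)
    let y₀ : Fin n → F := fun a => match ε.symm a with
      | .inl l => (τ l)⁻¹ * g' (ε (.inr l))
      | .inr _ => 0
    have hy₀ : N.mulVec y₀ = g' := by
      funext a
      obtain ⟨p, rfl⟩ := ε.surjective a
      rcases p with l | l
      · rw [hNv', h4]
      · rw [hNv]
        simp only [y₀, Equiv.symm_apply_apply]
        field_simp [hτ0 l]
    refine ⟨PI.mulVec y₀, ?_⟩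
    have e : PM.mulVec (PI.mulVec y₀) = y₀ := by
      rw [Matrix.mulVec_mulVec, hPPI, Matrix.one_mulVec]
    have h5 : PM.mulVec (N'.mulVec (PI.mulVec y₀)) = g' := by
      rw [Matrix.mulVec_mulVec, hPN', ← Matrix.mulVec_mulVec, e, hy₀]
    have hinv : ∀ u, PI.mulVec (PM.mulVec u) = u := fun u => by
      rw [Matrix.mulVec_mulVec, hPIP, Matrix.one_mulVec]
    rw [← hinv (N'.mulVec _), h5]
    exact hinv g
  obtain ⟨b₂, hb₂, hb₂det⟩ := exists_rational_basis hnm F₀ N' hN'entries hN'N' hker
  let Nlin : (Fin n → F) →ₗ[F] (Fin n → F) := Matrix.toLin' N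
  have hNlin : ∀ v, Nlin (Nlin v) = 0 := by
    intro v
    simp only [Nlin, Matrix.toLin'_apply, Matrix.mulVec_mulVec, hNN, Matrix.zero_mulVec]
  let Pe : (Fin n → F) ≃ₗ[F] (Fin n → F) := Matrix.SpecialLinearGroup.toLin' P
  have hPe : ∀ v, Pe v = PM.mulVec v := fun v => Matrix.SpecialLinearGroup.toLin'_apply P v
  have hPedet : LinearMap.det Pe.toLinearMap = 1 := by
    have : Pe.toLinearMap = Matrix.toLin' PM := by
      refine LinearMap.ext fun v => ?_
      rw [Matrix.toLin'_apply]
      exact hPe v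
    rw [this, LinearMap.det_toLin']
    exact P.2
  let b₃ : Basis (Fin m ⊕ Fin m) F (Fin n → F) := b₂.map Pe
  have hb₃ : ∀ s, b₃ s = PM.mulVec (b₂ s) := fun s => by
    simp only [b₃, Basis.map_apply]
    exact hPe _
  have hb₃' : ∀ i, Nlin (b₃ (.inl i)) = b₃ (.inr i) := by
    intro i
    simp only [Nlin, Matrix.toLin'_apply]
    rw [hb₃, hb₃, Matrix.mulVec_mulVec, ← hPN', ← Matrix.mulVec_mulVec, hb₂]
  let s₀ : Basis (Fin m ⊕ Fin m) F (Fin n → F) := (Pi.basisFun F (Fin n)).reindex ε.symm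
  have hs₀ : ∀ p, s₀ p = Pi.single (ε p) 1 := fun p => by
    simp [s₀]
  let u : Fin m ⊕ Fin m → Fˣ := Sum.elim (fun _ => 1) (fun l => Units.mk0 (τ l) (hτ0 l))
  let b : Basis (Fin m ⊕ Fin m) F (Fin n → F) := s₀.unitsSMul u
  have hb1 : ∀ l, b (.inl l) = Pi.single (ε (.inl l)) 1 := fun l => by
    simp only [b, Basis.unitsSMul_apply, u, Sum.elim_inl, one_smul, hs₀]
  have hb2 : ∀ l, b (.inr l) = τ l • Pi.single (ε (.inr l)) 1 := fun l => by
    simp only [b, Basis.unitsSMul_apply, u, Sum.elim_inr, hs₀]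
    rfl
  have hb' : ∀ i, Nlin (b (.inl i)) = b (.inr i) := by
    intro l
    rw [hb1, hb2]
    simp only [Nlin, Matrix.toLin'_apply]
    funext a
    obtain ⟨p, rfl⟩ := ε.surjective a
    rcases p with l' | l'
    · rw [hNv']
      have : ε (.inl l') ≠ ε (.inr l) := fun h => by simpa using ε.injective h
      simp [Pi.single_apply, this]
    · rw [hNv]
      by_cases hl : l' = l
      · subst hl
        simp
      · have h5 : ε (.inl l') ≠ ε (.inl l) := fun h => hl (by simpa using ε.injective h)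
        have h6 : ε (.inr l') ≠ ε (.inr l) := fun h => hl (by simpa using ε.injective h)
        simp [Pi.single_apply, h5, h6]
  have hsq1 := det_isSquare Nlin hNlin b b₃ hb' hb₃'
  have hdet3 : b.det b₃ = b.det b₂ := by
    have : ⇑b₃ = ⇑Pe.toLinearMap ∘ ⇑b₂ := by
      funext s
      simp [b₃]
    rw [this, Basis.det_comp, hPedet, one_mul]
  rw [hdet3] at hsq1
  have hsq2 : IsSquare (s₀.det b₂) :=
    isSquare_of_mem_subfield F₀ hF₀ hq hq₀odd _ (hb₂det ε)
  have hmult : ∀ v, b.det s₀ * s₀.det v = b.det v := by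
    intro v
    rw [Basis.det_apply, Basis.det_apply, Basis.det_apply, ← Matrix.det_mul, Basis.toMatrix_mul_toMatrix]
  have hβ : s₀.det b = d := by
    rw [Basis.det_apply, Basis.toMatrix_unitsSMul, Matrix.det_diagonal, Fintype.prod_sum_type]
    have e1 : ∀ x, (Units.val ∘ u) (Sum.inl x) = 1 := fun _ => rfl
    have e2 : ∀ x, (Units.val ∘ u) (Sum.inr x) = τ x := fun _ => rfl
    simp only [e1, e2, Finset.prod_const_one, one_mul, τ]
    rw [Finset.prod_ite_eq' Finset.univ i₀ (fun _ => d)]
    simp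
  have hαβ : b.det s₀ * d = 1 := by
    rw [← hβ, hmult, Basis.det_self]
  obtain ⟨a, ha⟩ := hsq1
  obtain ⟨ρ, hρ⟩ := hsq2
  have hγ : s₀.det b₂ ≠ 0 := ((Module.Basis.is_basis_iff_det s₀).1 ⟨b₂.linearIndependent, b₂.span_eq⟩).ne_zero
  have hmul := hmult b₂
  rw [ha, hρ] at hmul
  have hρ0 : ρ ≠ 0 := by
    rintro rfl
    rw [hρ, mul_zero] at hγ
    exact hγ rfl
  have hα0 : b.det s₀ ≠ 0 := left_ne_zero_of_mul_eq_one hαβ
  have ha0 : a ≠ 0 := by
    rintro rfl
    rw [mul_zero] at hmul
    exact (mul_ne_zero hα0 (mul_ne_zero hρ0 hρ0)) hmul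
  apply hd
  refine ⟨ρ / a, ?_⟩
  have : b.det s₀ * d * (ρ * ρ) = a * a * d := by
    rw [← hmul]
    ring
  rw [hαβ, one_mul] at this
  rw [div_mul_div_comm, eq_div_iff (mul_ne_zero ha0 ha0)]
  linear_combination -this

/-- Elements of order 3 of PSL_n(q) in characteristic 3 and subfield subgroups. Here `T = PSL_n(F)` for a field `F` with `q` elements, `q` a power of 3 (`n ≥ 2`, `(n, q) ≠ (2, 2), (2, 3)`), `F₀` is the subfield with `q₀` elements where `q = q₀^k` for a prime `k`, and `H` is the subgroup of matrices of determinant 1 lying in the subfield group of `F₀` (invertible matrices over `F₀` times scalars) — a maximal subgroup of type GL_n(q₀) (the case `n = 2`, `q₀ = 2` is excluded); Ω is the set of `T`-conjugates of `H` (cosets of `H`), so an element of `T` of prime order `r` (a matrix `x` of determinant 1 with `x^r` scalar, `x` not scalar) fixes a point of Ω when some conjugate of `x` by a matrix of determinant 1 lies in `H`. Suppose 3 divides the index of `H`. Then every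 element of `T` of order 3 is conjugate in `T` into `H` if and only if `n` is odd, or `n` is even and `k > 2`. -/
theorem result {F : Type*} [Field F] [Fintype F] [CharP F 3] {q : ℕ} (hq : Fintype.card F = q)
    (n : ℕ) (hn : 2 ≤ n) (hT : (n, q) ≠ (2, 3))
    (F₀ : Subfield F) (k q₀ : ℕ) (hk : k.Prime) (hF₀ : Nat.card ↥F₀ = q₀) (hqk : q = q₀ ^ k) (hC5 : ¬ (n = 2 ∧ q₀ = 2)) (hΩ : 3 ∣ ((Cfsg.Geo.subfieldSubgroup F₀ 1).comap (Matrix.SpecialLinearGroup.toGL : Matrix.SpecialLinearGroup (Fin n) F →* GL (Fin n) F)).index) :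
    (∀ x : Matrix.SpecialLinearGroup (Fin n) F,
      (∃ z : F, ((x ^ 3 : Matrix.SpecialLinearGroup (Fin n) F) : Matrix (Fin n) (Fin n) F) = z • (1 : Matrix (Fin n) (Fin n) F)) →
      (∀ z : F, (x : Matrix (Fin n) (Fin n) F) ≠ z • (1 : Matrix (Fin n) (Fin n) F)) →
      ∃ P : Matrix.SpecialLinearGroup (Fin n) F, P⁻¹ * x * P ∈ ((Cfsg.Geo.subfieldSubgroup F₀ 1).comap (Matrix.SpecialLinearGroup.toGL : Matrix.SpecialLinearGroup (Fin n) F →* GL (Fin n) F))) ↔
    (Odd n ∨ (Even n ∧ 2 < k)) := by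
  classical
  have hchar := ringChar_ne_two (F := F)
  have h3z := three_eq_zero (F := F)
  have hne : Nonempty (Fin n) := ⟨⟨0, by omega⟩⟩
  have hfin : finrank F (Fin n → F) = n := by simp
  constructor
  · intro hall
    by_cases hodd : Odd n
    · exact Or.inl hodd
    · right
      have hev := Nat.not_odd_iff_even.1 hodd
      refine ⟨hev, ?_⟩
      by_contra hk2
      have hk2' : k = 2 := by
        have := hk.two_le
        omega
      subst hk2'
      obtain ⟨m, hm⟩ := hev
      exact not_conj_twisted hm (by omega) F₀ hF₀ (by rw [hq, hqk]) hall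
  · intro hcond x hx1 _
    obtain ⟨z, hz⟩ := hx1
    have hcube : (x : Matrix (Fin n) (Fin n) F) * (x : Matrix (Fin n) (Fin n) F) * (x : Matrix (Fin n) (Fin n) F) = z • (1 : Matrix (Fin n) (Fin n) F) := by
      have h := hz
      rw [pow_three, ← mul_assoc, Matrix.SpecialLinearGroup.coe_mul, Matrix.SpecialLinearGroup.coe_mul] at h
      exact h
    have hz0 : z ≠ 0 := by
      rintro rfl
      rw [zero_smul] at hcube
      have : (x : Matrix (Fin n) (Fin n) F).det * (x : Matrix (Fin n) (Fin n) F).det * (x : Matrix (Fin n) (Fin n) F).det = 0 := by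
        rw [← Matrix.det_mul, ← Matrix.det_mul, hcube]
        exact Matrix.det_zero
      rw [Matrix.SpecialLinearGroup.det_coe] at this
      simp at this
    obtain ⟨w, hw⟩ := exists_cube_root z
    have hw0 : w ≠ 0 := by
      rintro rfl
      apply hz0
      rw [← hw]
      ring
    let g : (Fin n → F) →ₗ[F] (Fin n → F) := Matrix.toLin' (x : Matrix (Fin n) (Fin n) F)
    have hg : ∀ v, g (g (g v)) = z • v := by
      intro v
      simp only [g, Matrix.toLin'_apply, Matrix.mulVec_mulVec, ← Matrix.mul_assoc, hcube, Matrix.smul_mulVec, Matrix.one_mulVec]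
    let N : (Fin n → F) →ₗ[F] (Fin n → F) := w⁻¹ • g - LinearMap.id
    have hN : ∀ v, (x : Matrix (Fin n) (Fin n) F).mulVec v = w • (v + N v) := by
      intro v
      simp only [N, LinearMap.sub_apply, LinearMap.smul_apply, LinearMap.id_apply, add_sub_cancel,
        smul_smul, mul_inv_cancel₀ hw0, one_smul]
      rfl
    have hN3 : (N ^ 3 : Module.End F (Fin n → F)) = 0 := by
      refine LinearMap.ext fun v => ?_
      rw [pow_three, Module.End.mul_apply, Module.End.mul_apply, LinearMap.zero_apply]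
      have hNv : ∀ u, N u = w⁻¹ • g u - u := fun u => rfl
      simp only [hNv, map_sub, map_smul, hg, ← hw]
      have e0 : w⁻¹ • (w⁻¹ • (w⁻¹ • (w ^ 3) • v - g (g v)) - (w⁻¹ • g (g v) - g v)) -
          (w⁻¹ • (w⁻¹ • g (g v) - g v) - (w⁻¹ • g v - v)) =
          (w⁻¹ * w⁻¹ * w⁻¹ * w ^ 3 - 1) • v + ((3 : F) * (w⁻¹ * w⁻¹)) • (-g (g v)) + ((3 : F) * w⁻¹) • g v := by module
      rw [e0, h3z]
      have e1 : w⁻¹ * w⁻¹ * w⁻¹ * w ^ 3 = 1 := by field_simp
      rw [e1]
      simp
    obtain ⟨t, d, b, hd, hJ⟩ := exists_jordanBasis N ⟨3, hN3⟩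
    have hd3 := (hJ.pow_eq_zero_iff 3).1 hN3
    have hsum := hJ.sum_eq
    rw [hfin] at hsum
    have htpos : Nonempty (Fin t) := by
      by_contra hcon
      rw [not_nonempty_iff] at hcon
      simp at hsum
      omega
    obtain ⟨k₁⟩ := htpos
    by_cases hall2 : ∀ l, d l = 2
    · -- all blocks of size two
      have hn2 : Even n := by
        rw [← hsum]
        simp only [hall2, Finset.sum_const, Finset.card_univ, Fintype.card_fin, smul_eq_mul]
        exact even_two.mul_left _
      have hk2 : 2 < k := by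
        rcases hcond with h | h
        · exact absurd hn2 (Nat.not_even_iff_odd.mpr h)
        · exact h.2
      have hkodd : Odd k := hk.odd_of_ne_two (by omega)
      haveI : Fintype ↥F₀ := Fintype.ofFinite _
      have hchar₀ : ringChar ↥F₀ ≠ 2 := by
        intro h
        have hc : CharP ↥F₀ 2 := h ▸ ringChar.charP _
        have h2 : (2 : ↥F₀) = 0 := CharTwo.two_eq_zero
        have h4 : (2 : F) = 0 := by
          have h3 := congrArg F₀.subtype h2
          rwa [map_ofNat, map_zero] at h3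
        exact two_ne_zero' (F := F) h4
      obtain ⟨d₀, hd₀⟩ := FiniteField.exists_nonsquare hchar₀
      have hd₀F := not_isSquare_of_odd F₀ hF₀ (by rw [hq, hqk]) hkodd hchar d₀ hd₀
      have hd₀0 : (d₀ : F) ≠ 0 := by
        intro h
        apply hd₀F
        rw [h]
        exact IsSquare.zero
      refine exists_conj_of_jordan_scaled F₀ x w hw0 N hN d b hJ k₁ ?_
      intro r hr
      by_cases hrs : IsSquare r
      · obtain ⟨ρ, hρ⟩ := hrs
        have hρ0 : ρ ≠ 0 := by
          rintro rfl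
          apply hr
          rw [hρ, mul_zero]
        refine ⟨fun _ => 1, ρ⁻¹, fun _ => F₀.one_mem, ?_⟩
        rw [hall2 k₁, hρ]
        simp
        field_simp
      · have hsq : IsSquare (r * d₀) := by
          rw [← quadraticChar_one_iff_isSquare (mul_ne_zero hr hd₀0), map_mul,
            (quadraticChar_neg_one_iff_not_isSquare).2 hrs,
            (quadraticChar_neg_one_iff_not_isSquare).2 hd₀F]
          norm_num
        obtain ⟨ρ, hρ⟩ := hsq
        have hρ0 : ρ ≠ 0 := by
          rintro rfl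
          apply mul_ne_zero hr hd₀0
          rw [hρ, mul_zero]
        let s₁ : (k : Fin t) × Fin (d k) := ⟨k₁, ⟨0, by rw [hall2 k₁]; omega⟩⟩
        refine ⟨fun s => if s = s₁ then Units.mk0 (d₀ : F) hd₀0 else 1, ρ⁻¹, ?_, ?_⟩
        · intro s
          by_cases hs : s = s₁
          · simp [hs]
          · simp only [hs, if_false, Units.val_one]
            exact F₀.one_mem
        · have hprod : ∏ s, ((if s = s₁ then Units.mk0 (d₀ : F) hd₀0 else 1 : Fˣ) : F) = d₀ := by
            rw [Finset.prod_eq_single s₁]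
            · simp
            · intro s _ hs
              simp [hs]
            · simp
          rw [hprod, hρ, hall2 k₁]
          field_simp
    · -- a block of size one or three
      push Not at hall2
      obtain ⟨k₀, hk₀⟩ := hall2
      refine exists_conj_of_jordan_scaled F₀ x w hw0 N hN d b hJ k₀ ?_
      intro r hr
      have h1 := hd3 k₀
      have h4 := hd k₀
      have h5 : d k₀ = 1 ∨ d k₀ = 3 := by omega
      refine ⟨fun _ => 1, ?_⟩
      simp only [Units.val_one, Finset.prod_const_one, mul_one]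
      rcases h5 with h5 | h5
      · exact ⟨r⁻¹, fun _ => F₀.one_mem, by rw [h5, pow_one, inv_mul_cancel₀ hr]⟩
      · obtain ⟨c, hc⟩ := exists_cube_root r⁻¹
        exact ⟨c, fun _ => F₀.one_mem, by rw [h5, hc, inv_mul_cancel₀ hr]⟩

end Cfsg.Agent.S5966
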