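import Cfsg.Statements.S5968
import Cfsg.Agent.Lib.Elusive.SpIndex
import Cfsg.Agent.Lib.Elusive.OrderRank

set_option autoImplicit false
open scoped MatrixGroups
open Cfsg

namespace Cfsg.Agent.S5968

open Matrix Module Cfsg.Agent.Lib.Elusive Cfsg.Agent.Lib.Elusive.SpIndex

section helpers

variable {F : Type*} [Field F] {n : ℕ}
variable {f : (Fin n → F) → (Fin n → F) → F}

/-- Powers of similitudes. -/
theorem sim_pow (Y : Matrix (Fin n) (Fin n) F) (μ : F)
    (h : ∀ u v, f (Y *ᵥ u) (Y *ᵥ v) = μ * f u v) (k : ℕ) (u v : Fin n → F) :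
    f ((Y ^ k) *ᵥ u) ((Y ^ k) *ᵥ v) = μ ^ k * f u v := by
  induction k generalizing u v with
  | zero => simp
  | succ k ih =>
    rw [pow_succ, ← Matrix.mulVec_mulVec, ← Matrix.mulVec_mulVec, ih, h, pow_succ]
    ring

/-- The multiplier of a similitude of order dividing `r`. -/
theorem mu_pow (hf : Cfsg.Geo.IsSymplecticForm f) (hn : 0 < n) (Y : Matrix (Fin n) (Fin n) F) (μ : F)
    (h : ∀ u v, f (Y *ᵥ u) (Y *ᵥ v) = μ * f u v) {r : ℕ} (hY : Y ^ r = 1) : μ ^ r = 1 := by
  classical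
  let i0 : Fin n := ⟨0, hn⟩
  have hu : (Pi.single i0 1 : Fin n → F) ≠ 0 := by
    intro h0
    have := congrFun h0 i0
    simp at this
  obtain ⟨v, hv⟩ := (hf.nondegenerate _ hu).2
  have h1 := sim_pow Y μ h r (Pi.single i0 1) v
  rw [hY, Matrix.one_mulVec, Matrix.one_mulVec] at h1
  apply mul_right_cancel₀ hv
  rw [one_mul]
  exact h1.symm

/-- Conjugates and powers of matrices. -/
theorem conj_pow_mat {κ : Type} [Fintype κ] [DecidableEq κ] (P' P₀ A : Matrix κ κ F) (h1 : P' * P₀ = 1) (h2 : P₀ * P' = 1) (k : ℕ) :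
    (P' * A * P₀) ^ k = P' * A ^ k * P₀ := by
  induction k with
  | zero => simp [h1]
  | succ k ih =>
    rw [pow_succ, ih, pow_succ]
    calc P' * A ^ k * P₀ * (P' * A * P₀) = P' * A ^ k * (P₀ * P') * A * P₀ := by
          simp only [Matrix.mul_assoc]
      _ = _ := by rw [h2, Matrix.mul_one]; simp only [Matrix.mul_assoc]

/-- The obstruction for `r = p`. -/
theorem nilp_obstruct (hf : Cfsg.Geo.IsSymplecticForm f) (h2 : (2 : F) ≠ 0)
    (Y : Matrix (Fin n) (Fin n) F) (hiso : ∀ u v, f (Y *ᵥ u) (Y *ᵥ v) = f u v)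
    (hN : (Y - 1) ^ 3 = 0) (φ : (Fin n → F) → F) (e : Fin n → F)
    (hN2 : ∀ u, ((Y - 1) ^ 2) *ᵥ u = φ u • e) (hφ : ∃ u, φ u ≠ 0) (he : e ≠ 0) : False := by
  classical
  set N := Y - 1 with hNdef
  have hb := hf.bilinear
  have hzl : ∀ v, f 0 v = 0 := by
    intro v
    have := hb.smul_left 0 0 v
    simpa using this
  have hzr : ∀ v, f v 0 = 0 := by
    intro v
    have := hb.smul_right 0 v 0
    simpa using this
  have hY : ∀ u, Y *ᵥ u = u + N *ᵥ u := by
    intro u
    rw [hNdef, Matrix.sub_mulVec, Matrix.one_mulVec]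
    abel
  have key : ∀ u v, f (N *ᵥ u) v + f u (N *ᵥ v) + f (N *ᵥ u) (N *ᵥ v) = 0 := by
    intro u v
    have h := hiso u v
    rw [hY, hY, hb.add_left, hb.add_right, hb.add_right] at h
    linear_combination h
  have hN3 : ∀ u, N *ᵥ (N *ᵥ (N *ᵥ u)) = 0 := by
    intro u
    have h0 : N ^ 2 * N = 0 := by
      rw [← pow_succ]
      exact hN
    rw [Matrix.mulVec_mulVec, Matrix.mulVec_mulVec, ← pow_two, h0, Matrix.zero_mulVec]
  have h3 : ∀ u v, f (N *ᵥ (N *ᵥ u)) (N *ᵥ v) = 0 := by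
    intro u v
    have h := key (N *ᵥ (N *ᵥ u)) v
    rw [hN3, hzl, hzl] at h
    simpa using h
  have h3' : ∀ u v, f (N *ᵥ u) (N *ᵥ (N *ᵥ v)) = 0 := by
    intro u v
    have h := key u (N *ᵥ (N *ᵥ v))
    rw [hN3, hzr, hzr] at h
    simpa using h
  have h4 : ∀ u v, f (N *ᵥ (N *ᵥ u)) v = f u (N *ᵥ (N *ᵥ v)) := by
    intro u v
    have h5 := key (N *ᵥ u) v
    have h6 := key u (N *ᵥ v)
    rw [h3] at h5
    rw [h3'] at h6
    linear_combination h5 - h6
  have hN2' : ∀ u, N *ᵥ (N *ᵥ u) = φ u • e := by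
    intro u
    rw [Matrix.mulVec_mulVec, ← pow_two, hN2]
  have h5 : ∀ u v, φ u * f e v = φ v * f u e := by
    intro u v
    have h := h4 u v
    rw [hN2', hN2', hb.smul_left, hb.smul_right] at h
    exact h
  obtain ⟨u₀, hu₀⟩ := hφ
  obtain ⟨v₀, hv₀⟩ := (hf.nondegenerate e he).2
  have h6 : φ v₀ ≠ 0 := by
    intro h
    have h7 := h5 u₀ v₀
    rw [h, zero_mul] at h7
    exact (mul_ne_zero hu₀ hv₀) h7
  have h7 := h5 v₀ v₀
  rw [hf.skew v₀ e] at h7
  have h8 : 2 * (φ v₀ * f e v₀) = 0 := by linear_combination h7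
  rcases mul_eq_zero.1 h8 with h | h
  · exact h2 h
  · exact (mul_ne_zero h6 hv₀) h

/-- The number of eigenvectors: comparison via non-degeneracy. -/
theorem card_le_of_sim [DecidableEq F] (hf : Cfsg.Geo.IsSymplecticForm f) (P' P₀ : Matrix (Fin n) (Fin n) F)
    (h1 : P' * P₀ = 1) (h2 : P₀ * P' = 1) (d : Fin n → F) (μ : F)
    (hμ : ∀ u v, f ((P' * Matrix.diagonal d * P₀) *ᵥ u) ((P' * Matrix.diagonal d * P₀) *ᵥ v) = μ * f u v)
    (a b : F) (ha : a ≠ 0) (hab : a * b = μ) :
    (Finset.univ.filter fun i => d i = a).card ≤ (Finset.univ.filter fun i => d i = b).card := by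
  classical
  let S := Finset.univ.filter fun i => d i = a
  let T := Finset.univ.filter fun i => d i = b
  let w : Fin n → (Fin n → F) := fun i => P' *ᵥ (Pi.single i 1)
  have hYw : ∀ i, (P' * Matrix.diagonal d * P₀) *ᵥ w i = d i • w i := by
    intro i
    simp only [w]
    rw [Matrix.mulVec_mulVec, Matrix.mul_assoc, Matrix.mul_assoc, h2, Matrix.mul_one,
      ← Matrix.mulVec_mulVec, ← Matrix.mulVec_smul]
    congr 1
    ext j
    by_cases hj : j = i
    · subst hj
      simp [Matrix.mulVec_diagonal]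
    · simp [Matrix.mulVec_diagonal, hj]
  let B := toBilin hf
  have hzero : ∀ i ∈ S, ∀ j, j ∉ T → B (w i) (w j) = 0 := by
    intro i hi j hj
    have hi' : d i = a := (Finset.mem_filter.1 hi).2
    have hj' : d j ≠ b := fun h => hj (Finset.mem_filter.2 ⟨Finset.mem_univ _, h⟩)
    have h3 := hμ (w i) (w j)
    rw [hYw, hYw, hf.bilinear.smul_left, hf.bilinear.smul_right, hi'] at h3
    have hne : a * d j - μ ≠ 0 := by
      rw [← hab, ← mul_sub]
      exact mul_ne_zero ha (sub_ne_zero.2 hj')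
    have h4 : (a * d j - μ) * f (w i) (w j) = 0 := by linear_combination h3
    exact (mul_eq_zero.1 h4).resolve_left hne
  have hli : LinearIndependent F (fun i : S => (fun j : T => B (w i.1) (w j.1))) := by
    rw [Fintype.linearIndependent_iff]
    intro g hg i₀
    let v : Fin n → F := ∑ i : S, g i • w i.1
    have hvj : ∀ j, B v (w j) = 0 := by
      intro j
      by_cases hj : j ∈ T
      · have h3 := congrFun hg ⟨j, hj⟩
        simp only [Finset.sum_apply, Pi.smul_apply, smul_eq_mul, Pi.zero_apply] at h3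
        simp only [v, map_sum, LinearMap.sum_apply, map_smul, LinearMap.smul_apply, smul_eq_mul]
        exact h3
      · simp only [v, map_sum, LinearMap.sum_apply, map_smul, LinearMap.smul_apply, smul_eq_mul]
        refine Finset.sum_eq_zero fun i _ => ?_
        rw [hzero i.1 i.2 j hj, mul_zero]
    have hv0 : v = 0 := by
      by_contra hv
      obtain ⟨x, hx⟩ := (hf.nondegenerate v hv).2
      apply hx
      have hℓ : (B v) ∘ₗ P'.mulVecLin = 0 := by
        apply (Pi.basisFun F (Fin n)).ext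
        intro j
        simp only [Pi.basisFun_apply, LinearMap.comp_apply, Matrix.mulVecLin_apply, LinearMap.zero_apply]
        exact hvj j
      have h5 := LinearMap.congr_fun hℓ (P₀ *ᵥ x)
      simp only [LinearMap.comp_apply, Matrix.mulVecLin_apply, LinearMap.zero_apply, Matrix.mulVec_mulVec, h1,
        Matrix.one_mulVec] at h5
      exact h5
    have h6 := congrArg (fun t => (P₀ *ᵥ t) i₀.1) hv0
    simp only [v, w, Matrix.mulVec_zero, Pi.zero_apply] at h6
    rw [Matrix.mulVec_sum] at h6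
    simp only [Matrix.mulVec_smul, Matrix.mulVec_mulVec, h2, Matrix.one_mulVec, Finset.sum_apply,
      Pi.smul_apply, smul_eq_mul] at h6
    rw [Finset.sum_eq_single i₀] at h6
    · simpa using h6
    · intro i _ hne
      have : i₀.1 ≠ i.1 := fun h => hne (Subtype.ext h.symm)
      simp [this]
    · simp
  have h7 := hli.fintype_card_le_finrank
  simpa using h7

/-- The diagonal pattern. -/
def dPat (a b c : F) : ℕ → F := fun k => if k = 0 then a else if k = 1 then b else if k = 2 then c else 1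

theorem count_dPat [DecidableEq F] (a b c t : F) (hn : 3 ≤ n) :
    (Finset.univ.filter fun i : Fin n => dPat a b c i.val = t).card =
      (if a = t then 1 else 0) + (if b = t then 1 else 0) + (if c = t then 1 else 0) +
        (if (1 : F) = t then n - 3 else 0) := by
  classical
  obtain ⟨m, rfl⟩ : ∃ m, n = m + 3 := ⟨n - 3, by omega⟩
  rw [Finset.card_filter]
  rw [Fin.sum_univ_eq_sum_range (fun k => if dPat a b c k = t then 1 else 0) (m + 3)]
  rw [Finset.sum_range_succ', Finset.sum_range_succ', Finset.sum_range_succ']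
  have h0 : dPat a b c 0 = a := rfl
  have h1 : dPat a b c (0 + 1) = b := rfl
  have h2 : dPat a b c (0 + 1 + 1) = c := rfl
  have h3 : ∀ k, dPat a b c (k + 1 + 1 + 1) = 1 := fun k => by
    simp [dPat]
  simp only [h0, h1, h2, h3]
  by_cases h : (1 : F) = t <;> simp [h] <;> omega

theorem prod_dPat (a b c : F) (hn : 3 ≤ n) : ∏ i : Fin n, dPat a b c i.val = a * b * c := by
  classical
  obtain ⟨m, rfl⟩ : ∃ m, n = m + 3 := ⟨n - 3, by omega⟩
  rw [Fin.prod_univ_eq_prod_range (fun k => dPat a b c k) (m + 3)]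
  rw [Finset.prod_range_succ', Finset.prod_range_succ', Finset.prod_range_succ']
  have h0 : dPat a b c 0 = a := rfl
  have h1 : dPat a b c (0 + 1) = b := rfl
  have h2 : dPat a b c (0 + 1 + 1) = c := rfl
  have h3 : ∀ k, dPat a b c (k + 1 + 1 + 1) = 1 := fun k => by
    simp [dPat]
  simp only [h0, h1, h2, h3]
  simp
  ring

/-- Data from a conjugate in the similarity group. -/
theorem exists_of_mem (x P : Matrix.SpecialLinearGroup (Fin n) F)
    (hP : P⁻¹ * x * P ∈ ((Cfsg.Geo.similarityGroup f).comap (Matrix.SpecialLinearGroup.toGL : Matrix.SpecialLinearGroup (Fin n) F →* GL (Fin n) F))) :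
    ∃ (P' P₀ : Matrix (Fin n) (Fin n) F) (μ : F), P' * P₀ = 1 ∧ P₀ * P' = 1 ∧
      ∀ u v, f ((P' * (x : Matrix (Fin n) (Fin n) F) * P₀) *ᵥ u) ((P' * (x : Matrix (Fin n) (Fin n) F) * P₀) *ᵥ v) = μ * f u v := by
  obtain ⟨c, hc⟩ := hP
  refine ⟨((P⁻¹ : Matrix.SpecialLinearGroup (Fin n) F) : Matrix (Fin n) (Fin n) F), (P : Matrix (Fin n) (Fin n) F), c, ?_, ?_, ?_⟩
  · rw [← Matrix.SpecialLinearGroup.coe_mul, inv_mul_cancel, Matrix.SpecialLinearGroup.coe_one]
  · rw [← Matrix.SpecialLinearGroup.coe_mul, mul_inv_cancel, Matrix.SpecialLinearGroup.coe_one]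
  · intro u v
    have := hc u v
    rwa [show (((Matrix.SpecialLinearGroup.toGL (P⁻¹ * x * P) : GL (Fin n) F) : Matrix (Fin n) (Fin n) F)) =
      ((P⁻¹ : Matrix.SpecialLinearGroup (Fin n) F) : Matrix (Fin n) (Fin n) F) * (x : Matrix (Fin n) (Fin n) F) * (P : Matrix (Fin n) (Fin n) F) from rfl] at this

end helpers

section cases

variable {F : Type*} [Field F] [Fintype F] {p : ℕ} [Fact p.Prime] [CharP F p] {q : ℕ}

/-- The case `r = p`. -/
theorem case_p (n : ℕ) (hn : 4 ≤ n) (f : (Fin n → F) → (Fin n → F) → F) (hf : Cfsg.Geo.IsSymplecticForm f)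
    (hp2 : p ≠ 2) :
    ∃ x : Matrix.SpecialLinearGroup (Fin n) F,
      (∃ z : F, ((x ^ p : Matrix.SpecialLinearGroup (Fin n) F) : Matrix (Fin n) (Fin n) F) = z • (1 : Matrix (Fin n) (Fin n) F)) ∧
      (∀ z : F, (x : Matrix (Fin n) (Fin n) F) ≠ z • (1 : Matrix (Fin n) (Fin n) F)) ∧
      ∀ P : Matrix.SpecialLinearGroup (Fin n) F, P⁻¹ * x * P ∉ ((Cfsg.Geo.similarityGroup f).comap (Matrix.SpecialLinearGroup.toGL : Matrix.SpecialLinearGroup (Fin n) F →* GL (Fin n) F)) := by
  classical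
  have hp := (Fact.out : p.Prime)
  have hp3 : 3 ≤ p := by
    have := hp.two_le
    omega
  have h2F : (2 : F) ≠ 0 := by
    intro h
    have h3 : ((2 : ℕ) : F) = 0 := by exact_mod_cast h
    have h4 := (CharP.cast_eq_zero_iff F p 2).1 h3
    exact hp2 ((Nat.prime_dvd_prime_iff_eq hp Nat.prime_two).1 h4)
  let i0 : Fin n := ⟨0, by omega⟩
  let i1 : Fin n := ⟨1, by omega⟩
  let i2 : Fin n := ⟨2, by omega⟩
  have h01 : i0 ≠ i1 := fun h => by simpa [i0, i1] using congrArg Fin.val h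
  have h02 : i0 ≠ i2 := fun h => by simpa [i0, i2] using congrArg Fin.val h
  have h12 : i1 ≠ i2 := fun h => by simpa [i1, i2] using congrArg Fin.val h
  let N₀ : Matrix (Fin n) (Fin n) F := Matrix.single i0 i1 1 + Matrix.single i1 i2 1
  have hN2 : N₀ ^ 2 = Matrix.single i0 i2 1 := by
    rw [pow_two]
    simp only [N₀, add_mul, mul_add]
    rw [Matrix.single_mul_single_of_ne _ i0 i1 i0 (Ne.symm h01) _, Matrix.single_mul_single_of_ne _ i1 i2 i0 (Ne.symm h02) _,
      Matrix.single_mul_single_same, Matrix.single_mul_single_of_ne _ i1 i2 i1 (Ne.symm h12) _]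
    simp
  have hN3 : N₀ ^ 3 = 0 := by
    rw [pow_succ, hN2]
    simp only [N₀, mul_add]
    rw [Matrix.single_mul_single_of_ne _ i0 i2 i0 (Ne.symm h02) _, Matrix.single_mul_single_of_ne _ i0 i2 i1 (Ne.symm h12) _]
    simp
  have hdet : (1 + N₀).det = 1 := by
    have htri : (1 + N₀).BlockTriangular id := by
      intro a b hab
      have hab' : b < a := hab
      simp only [N₀, Matrix.add_apply]
      have h1 : (1 : Matrix (Fin n) (Fin n) F) a b = 0 := Matrix.one_apply_ne (ne_of_gt hab')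
      have h2 : (Matrix.single i0 i1 (1 : F) : Matrix (Fin n) (Fin n) F) a b = 0 := by
        rw [Matrix.single_apply_of_ne]
        rintro ⟨rfl, rfl⟩
        simp [i0, i1, Fin.lt_def] at hab'
      have h3 : (Matrix.single i1 i2 (1 : F) : Matrix (Fin n) (Fin n) F) a b = 0 := by
        rw [Matrix.single_apply_of_ne]
        rintro ⟨rfl, rfl⟩
        simp [i1, i2, Fin.lt_def] at hab'
      rw [h1, h2, h3]
      simp
    rw [Matrix.det_of_upperTriangular htri]
    refine Finset.prod_eq_one fun a _ => ?_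
    simp only [N₀, Matrix.add_apply, Matrix.one_apply_eq]
    have h2 : (Matrix.single i0 i1 (1 : F) : Matrix (Fin n) (Fin n) F) a a = 0 := by
      rw [Matrix.single_apply_of_ne]
      rintro ⟨rfl, h⟩
      exact h01 h.symm
    have h3 : (Matrix.single i1 i2 (1 : F) : Matrix (Fin n) (Fin n) F) a a = 0 := by
      rw [Matrix.single_apply_of_ne]
      rintro ⟨rfl, h⟩
      exact h12 h.symm
    rw [h2, h3]
    simp
  let x : Matrix.SpecialLinearGroup (Fin n) F := ⟨1 + N₀, hdet⟩
  have hne : Nonempty (Fin n) := ⟨i0⟩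
  have hxp : (1 + N₀) ^ p = 1 := by
    haveI : CharP (Matrix (Fin n) (Fin n) F) p := Matrix.charP p
    rw [add_pow_char_of_commute p (Commute.one_left N₀), one_pow]
    obtain ⟨k, hk⟩ : ∃ k, p = 3 + k := ⟨p - 3, by omega⟩
    rw [hk, pow_add, hN3, zero_mul, add_zero]
  refine ⟨x, ⟨1, ?_⟩, ?_, ?_⟩
  · rw [one_smul, Matrix.SpecialLinearGroup.coe_pow]
    exact hxp
  · intro z hz
    have h1 : (1 + N₀) i0 i1 = (z • (1 : Matrix (Fin n) (Fin n) F)) i0 i1 := congrFun (congrFun hz i0) i1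
    have h2 : (1 + N₀) i0 i1 = 1 := by
      simp only [N₀, Matrix.add_apply, Matrix.one_apply_ne h01]
      have h3 : (Matrix.single i1 i2 (1 : F) : Matrix (Fin n) (Fin n) F) i0 i1 = 0 := by
        rw [Matrix.single_apply_of_ne]
        rintro ⟨h, -⟩
        exact h01 h.symm
      rw [h3]
      simp
    rw [h2] at h1
    simp [Matrix.one_apply_ne h01] at h1
  · intro P hP
    obtain ⟨P', P₀, μ, h1, h2, hμ⟩ := exists_of_mem (f := f) x P hP
    have hxc : (x : Matrix (Fin n) (Fin n) F) = 1 + N₀ := rfl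
    rw [hxc] at hμ
    set Y := P' * (1 + N₀) * P₀ with hY
    have hYN : Y - 1 = P' * N₀ * P₀ := by
      rw [hY, Matrix.mul_add, Matrix.add_mul, Matrix.mul_one, h1]
      abel
    have hYp : Y ^ p = 1 := by
      rw [hY, conj_pow_mat P' P₀ _ h1 h2, hxp, Matrix.mul_one, h1]
    have hμ1 : μ = 1 := by
      have h3 := mu_pow hf (by omega) Y μ hμ hYp
      have h4 : (μ - 1) ^ p = 0 := by
        rw [sub_pow_char, h3, one_pow, sub_self]
      have := pow_eq_zero_iff (hp.ne_zero) |>.1 h4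
      exact sub_eq_zero.1 this
    refine nilp_obstruct hf h2F Y (fun u v => by rw [hμ, hμ1, one_mul]) ?_
      (fun u => (P₀ *ᵥ u) i2) (P' *ᵥ Pi.single i0 1) ?_ ?_ ?_
    · rw [hYN, conj_pow_mat P' P₀ _ h1 h2, hN3, Matrix.mul_zero, Matrix.zero_mul]
    · intro u
      rw [hYN, conj_pow_mat P' P₀ _ h1 h2, hN2, ← Matrix.mulVec_mulVec, ← Matrix.mulVec_mulVec,
        ← Matrix.mulVec_smul]
      congr 1
      generalize P₀ *ᵥ u = y
      rw [Matrix.single_mulVec]
      ext j
      by_cases hj : j = i0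
      · subst hj
        simp
      · simp [hj]
    · refine ⟨P' *ᵥ Pi.single i2 1, ?_⟩
      show (P₀ *ᵥ (P' *ᵥ Pi.single i2 1)) i2 ≠ 0
      rw [Matrix.mulVec_mulVec, h2, Matrix.one_mulVec]
      simp
    · intro h0
      have h3 : P₀ *ᵥ (P' *ᵥ Pi.single i0 1) = P₀ *ᵥ 0 := by rw [h0]
      rw [Matrix.mulVec_mulVec, h2, Matrix.one_mulVec, Matrix.mulVec_zero] at h3
      have h4 := congrFun h3 i0
      simp at h4

/-- The case of block elements. -/
theorem case_block (hq : Fintype.card F = q) (n : ℕ) (f : (Fin n → F) → (Fin n → F) → F) (hf : Cfsg.Geo.IsSymplecticForm f)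
    (r : ℕ) [hr : Fact r.Prime] (hrp : r ≠ p) (h1 : ¬ r ∣ q - 1) (hodd : Odd (orderOf ((q : ℕ) : ZMod r)))
    (hle : orderOf ((q : ℕ) : ZMod r) + 1 ≤ n) :
    ∃ x : Matrix.SpecialLinearGroup (Fin n) F,
      (∃ z : F, ((x ^ r : Matrix.SpecialLinearGroup (Fin n) F) : Matrix (Fin n) (Fin n) F) = z • (1 : Matrix (Fin n) (Fin n) F)) ∧
      (∀ z : F, (x : Matrix (Fin n) (Fin n) F) ≠ z • (1 : Matrix (Fin n) (Fin n) F)) ∧
      ∀ P : Matrix.SpecialLinearGroup (Fin n) F, P⁻¹ * x * P ∉ ((Cfsg.Geo.similarityGroup f).comap (Matrix.SpecialLinearGroup.toGL : Matrix.SpecialLinearGroup (Fin n) F →* GL (Fin n) F)) := by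
  classical
  obtain ⟨x, hxr, hrank⟩ := OrderRank.exists_block_elt hq hrp h1 (n := n) (by omega)
  have hrF : (r : F) ≠ 0 := by
    intro h
    have h3 := (CharP.cast_eq_zero_iff F p r).1 h
    exact hrp ((Nat.prime_dvd_prime_iff_eq (Fact.out : p.Prime) hr.out).1 h3).symm
  have hodd' := hodd
  rw [← hrank] at hodd'
  refine ⟨x, ⟨1, ?_⟩, ?_, ?_⟩
  · rw [one_smul, Matrix.SpecialLinearGroup.coe_pow]
    exact hxr
  · intro z hz
    rw [hz] at hrank
    by_cases hz1 : z = 1
    · subst hz1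
      rw [one_smul, sub_self, Matrix.rank_zero] at hrank
      have := hodd.pos
      omega
    · have h5 : z • (1 : Matrix (Fin n) (Fin n) F) - 1 = Matrix.diagonal (fun _ => z - 1) := by
        ext a b
        by_cases hab : a = b
        · subst hab
          simp
        · simp [hab]
      rw [h5, Matrix.rank_diagonal] at hrank
      have h6 : Fintype.card {i : Fin n // z - 1 ≠ 0} = n := by
        have h7 : z - 1 ≠ 0 := sub_ne_zero.2 hz1
        simp [h7]
      omega
  · intro P hP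
    obtain ⟨P', P₀, μ, h3, h4, hμ⟩ := exists_of_mem (f := f) x P hP
    set Y := P' * (x : Matrix (Fin n) (Fin n) F) * P₀ with hY
    have hYr : Y ^ r = 1 := by
      rw [hY, conj_pow_mat P' P₀ _ h3 h4, hxr, Matrix.mul_one, h3]
    have hn0 : 0 < n := by omega
    have hμ1 : μ = 1 := by
      have h5 := mu_pow hf hn0 Y μ hμ hYr
      exact Cfsg.Agent.Lib.Elusive.CycConj.eq_one_of_pow_eq_one hq hr.out h1 μ h5
    have hev := even_rank_of_isometry hf Y hrF hYr (fun u v => by rw [hμ, hμ1, one_mul])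
    have hYN : Y - 1 = P' * ((x : Matrix (Fin n) (Fin n) F) - 1) * P₀ := by
      rw [hY, Matrix.mul_sub, Matrix.sub_mul, Matrix.mul_one, h3]
    have hu1 : IsUnit P₀ := ⟨⟨P₀, P', h4, h3⟩, rfl⟩
    have hu2 : IsUnit P' := ⟨⟨P', P₀, h3, h4⟩, rfl⟩
    have hrk : (Y - 1).rank = ((x : Matrix (Fin n) (Fin n) F) - 1).rank := by
      rw [hYN, Matrix.rank_mul_eq_left_of_isUnit_det _ _ ((Matrix.isUnit_iff_isUnit_det _).1 hu1),
        Matrix.rank_mul_eq_right_of_isUnit_det _ _ ((Matrix.isUnit_iff_isUnit_det _).1 hu2)]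
    rw [hrk] at hev
    exact (Nat.not_even_iff_odd.2 hodd') hev

/-- The diagonal matrix in `SL`. -/
theorem exists_diag_sl (n : ℕ) (hn : 4 ≤ n) (a b c : F) (r : ℕ) (ha : a ^ r = 1) (hb : b ^ r = 1) (hc : c ^ r = 1)
    (habc : a * b * c = 1) (ha1 : a ≠ 1) :
    ∃ x : Matrix.SpecialLinearGroup (Fin n) F, (x : Matrix (Fin n) (Fin n) F) = Matrix.diagonal (fun i : Fin n => dPat a b c i.val) ∧
      (x : Matrix (Fin n) (Fin n) F) ^ r = 1 ∧
      (∀ z : F, (x : Matrix (Fin n) (Fin n) F) ≠ z • (1 : Matrix (Fin n) (Fin n) F)) := by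
  classical
  have hdet : (Matrix.diagonal (fun i : Fin n => dPat a b c i.val)).det = 1 := by
    rw [Matrix.det_diagonal, prod_dPat a b c (by omega), habc]
  refine ⟨⟨_, hdet⟩, rfl, ?_, ?_⟩
  · change (Matrix.diagonal (fun i : Fin n => dPat a b c i.val)) ^ r = 1
    rw [Matrix.diagonal_pow, ← Matrix.diagonal_one]
    congr 1
    funext i
    simp only [Pi.pow_apply, dPat]
    split_ifs <;> simp [ha, hb, hc]
  · intro z hz
    let i0 : Fin n := ⟨0, by omega⟩
    let i3 : Fin n := ⟨3, by omega⟩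
    have h0 := congrFun (congrFun hz i0) i0
    have h3 := congrFun (congrFun hz i3) i3
    change (Matrix.diagonal (fun i : Fin n => dPat a b c i.val)) i0 i0 = _ at h0
    change (Matrix.diagonal (fun i : Fin n => dPat a b c i.val)) i3 i3 = _ at h3
    simp [i0, i3, dPat] at h0 h3
    apply ha1
    rw [h0, ← h3]

/-- The case `r = 3`. -/
theorem case_three (n : ℕ) (hn : 4 ≤ n) (hn6 : n ≠ 6) (f : (Fin n → F) → (Fin n → F) → F) (hf : Cfsg.Geo.IsSymplecticForm f)
    (ζ : F) (hζ : ζ ^ 3 = 1) (hζ1 : ζ ≠ 1) :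
    ∃ x : Matrix.SpecialLinearGroup (Fin n) F,
      (∃ z : F, ((x ^ 3 : Matrix.SpecialLinearGroup (Fin n) F) : Matrix (Fin n) (Fin n) F) = z • (1 : Matrix (Fin n) (Fin n) F)) ∧
      (∀ z : F, (x : Matrix (Fin n) (Fin n) F) ≠ z • (1 : Matrix (Fin n) (Fin n) F)) ∧
      ∀ P : Matrix.SpecialLinearGroup (Fin n) F, P⁻¹ * x * P ∉ ((Cfsg.Geo.similarityGroup f).comap (Matrix.SpecialLinearGroup.toGL : Matrix.SpecialLinearGroup (Fin n) F →* GL (Fin n) F)) := by
  classical
  obtain ⟨x, hx, hxr, hxs⟩ := exists_diag_sl n hn ζ ζ ζ 3 hζ hζ hζ (by rw [← hζ]; ring) hζ1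
  refine ⟨x, ⟨1, ?_⟩, hxs, ?_⟩
  · rw [one_smul, Matrix.SpecialLinearGroup.coe_pow]
    exact hxr
  · intro P hP
    obtain ⟨P', P₀, μ, h3, h4, hμ⟩ := exists_of_mem (f := f) x P hP
    have hμ3 : μ ^ 3 = 1 := by
      refine mu_pow hf (by omega) _ μ hμ ?_
      rw [conj_pow_mat P' P₀ _ h3 h4, hxr, Matrix.mul_one, h3]
    rw [hx] at hμ
    have hζ0 : ζ ≠ 0 := by
      rintro rfl
      simp at hζ
    have hcount := fun t : F => count_dPat (n := n) ζ ζ ζ t (by omega)
    have hle := fun (a b : F) (ha : a ≠ 0) (hab : a * b = μ) =>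
      card_le_of_sim hf P' P₀ h3 h4 _ μ hμ a b ha hab
    simp only [hcount] at hle
    have hsum : ζ ^ 2 + ζ + 1 = 0 := by
      have h5 : (ζ - 1) * (ζ ^ 2 + ζ + 1) = 0 := by linear_combination hζ
      exact (mul_eq_zero.1 h5).resolve_left (sub_ne_zero.2 hζ1)
    have hζ2 : ζ ^ 2 ≠ ζ := by
      intro h
      apply hζ1
      have h5 : ζ * (ζ - 1) = 0 := by linear_combination h
      exact sub_eq_zero.1 ((mul_eq_zero.1 h5).resolve_left hζ0)
    have hζ21 : (1 : F) ≠ ζ ^ 2 := by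
      intro h
      apply hζ1
      linear_combination hζ + ζ * h
    have hne1 : (1 : F) ≠ ζ := Ne.symm hζ1
    have hfac : (μ - 1) * ((μ - ζ) * (μ - ζ ^ 2)) = 0 := by
      linear_combination hμ3 - hζ - μ ^ 2 * hsum + μ * ζ * hsum
    rcases mul_eq_zero.1 hfac with h | h
    · have hμ1 : μ = 1 := sub_eq_zero.1 h
      have h6 := hle ζ (ζ ^ 2) hζ0 (by rw [hμ1, ← hζ]; ring)
      simp [hζ2.symm, hζ21, Ne.symm hζ2] at h6
    · rcases mul_eq_zero.1 h with h | h
      · have hμ1 : μ = ζ := sub_eq_zero.1 h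
        have h6 := hle ζ 1 hζ0 (by rw [hμ1, mul_one])
        have h7 := hle 1 ζ one_ne_zero (by rw [hμ1, one_mul])
        simp [hne1, Ne.symm hne1] at h6 h7
        omega
      · have hμ1 : μ = ζ ^ 2 := sub_eq_zero.1 h
        have h6 := hle 1 (ζ ^ 2) one_ne_zero (by rw [hμ1, one_mul])
        simp [hne1, Ne.symm hne1, hζ2, hζ2.symm, hζ21, Ne.symm hζ21] at h6
        omega

/-- The case `r ≥ 5`. -/
theorem case_five (n : ℕ) (hn : 4 ≤ n) (he : Even n) (f : (Fin n → F) → (Fin n → F) → F) (hf : Cfsg.Geo.IsSymplecticForm f)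
    (r : ℕ) (ζ : F) (hζ : ζ ^ r = 1) (hr : ∀ k, ζ ^ k = 1 → r ∣ k) (hr5 : r.Prime) (hr6 : 5 ≤ r) :
    ∃ x : Matrix.SpecialLinearGroup (Fin n) F,
      (∃ z : F, ((x ^ r : Matrix.SpecialLinearGroup (Fin n) F) : Matrix (Fin n) (Fin n) F) = z • (1 : Matrix (Fin n) (Fin n) F)) ∧
      (∀ z : F, (x : Matrix (Fin n) (Fin n) F) ≠ z • (1 : Matrix (Fin n) (Fin n) F)) ∧
      ∀ P : Matrix.SpecialLinearGroup (Fin n) F, P⁻¹ * x * P ∉ ((Cfsg.Geo.similarityGroup f).comap (Matrix.SpecialLinearGroup.toGL : Matrix.SpecialLinearGroup (Fin n) F →* GL (Fin n) F)) := by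
  classical
  have hζ0 : ζ ≠ 0 := by
    rintro rfl
    rw [zero_pow hr5.ne_zero] at hζ
    exact zero_ne_one hζ
  have hnd : ∀ k, 0 < k → k < 5 → ζ ^ k ≠ 1 := by
    intro k hk0 hk5 h
    have := Nat.le_of_dvd hk0 (hr k h)
    omega
  have hnd6 : ζ ^ 6 ≠ 1 := by
    intro h
    have h1 := hr 6 h
    have h2 : r ≤ 6 := Nat.le_of_dvd (by norm_num) h1
    interval_cases r
    · omega
    · exact absurd hr5 (by norm_num)
  have hζ1 : ζ ≠ 1 := by
    have := hnd 1 (by norm_num) (by norm_num)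
    simpa using this
  let c : F := (ζ⁻¹) ^ 2
  have hc : c * ζ ^ 2 = 1 := by
    simp only [c]
    field_simp
  have hc0 : c ≠ 0 := by
    simp only [c]
    exact pow_ne_zero _ (inv_ne_zero hζ0)
  have hcr : c ^ r = 1 := by
    simp only [c]
    rw [← pow_mul, mul_comm, pow_mul, inv_pow, hζ, inv_one, one_pow]
  obtain ⟨x, hx, hxr, hxs⟩ := exists_diag_sl n hn ζ ζ c r hζ hζ hcr (by rw [← hc]; ring) hζ1
  refine ⟨x, ⟨1, ?_⟩, hxs, ?_⟩
  · rw [one_smul, Matrix.SpecialLinearGroup.coe_pow]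
    exact hxr
  · intro P hP
    obtain ⟨P', P₀, μ, h3, h4, hμ⟩ := exists_of_mem (f := f) x P hP
    have hμr : μ ^ r = 1 := by
      refine mu_pow hf (by omega) _ μ hμ ?_
      rw [conj_pow_mat P' P₀ _ h3 h4, hxr, Matrix.mul_one, h3]
    have hμ0 : μ ≠ 0 := by
      rintro rfl
      rw [zero_pow hr5.ne_zero] at hμr
      exact zero_ne_one hμr
    rw [hx] at hμ
    have hcount := fun t : F => count_dPat (n := n) ζ ζ c t (by omega)
    have hle := fun (a b : F) (ha : a ≠ 0) (hab : a * b = μ) =>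
      card_le_of_sim hf P' P₀ h3 h4 _ μ hμ a b ha hab
    simp only [hcount] at hle
    have hcζ : c ≠ ζ := by
      intro h
      apply hnd 3 (by norm_num) (by norm_num)
      rw [← hc, h]
      ring
    have hc1 : c ≠ 1 := by
      intro h
      apply hnd 2 (by norm_num) (by norm_num)
      rw [h, one_mul] at hc
      exact hc
    -- the partner of `ζ`
    set b := μ * ζ⁻¹ with hb
    have hb0 : b ≠ 0 := mul_ne_zero hμ0 (inv_ne_zero hζ0)
    have h5 := hle ζ b hζ0 (by rw [hb]; field_simp)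
    have h6 := hle b ζ hb0 (by rw [hb]; field_simp)
    have hodd3 : n - 3 ≠ 2 := by
      obtain ⟨k, hk⟩ := he
      omega
    have hne1 : (1 : F) ≠ ζ := Ne.symm hζ1
    have hbζ : b = ζ := by
      by_contra hne
      have hne' : ζ ≠ b := Ne.symm hne
      simp only [hcζ, hne1, hne', if_true, if_false] at h5 h6
      by_cases h1 : (1 : F) = b
      · have hcb : c ≠ b := fun h => hc1 (h.trans h1.symm)
        simp only [h1, hcb, if_true, if_false] at h5 h6
        omega
      · simp only [h1, if_false] at h5 h6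
        by_cases h7 : c = b
        · simp only [h7, if_true] at h5
          omega
        · simp only [h7, if_false] at h5
          omega
    have hμ2 : μ = ζ ^ 2 := by
      rw [hb] at hbζ
      field_simp at hbζ
      rw [hbζ]
    have h7 := hle c (ζ ^ 4) hc0 (by rw [hμ2, show ζ ^ 4 = ζ ^ 2 * ζ ^ 2 by ring, ← mul_assoc, hc, one_mul])
    have h41 : ζ ≠ ζ ^ 4 := by
      intro h
      apply hnd 3 (by norm_num) (by norm_num)
      have h8 : ζ * (ζ ^ 3 - 1) = 0 := by linear_combination -h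
      exact sub_eq_zero.1 ((mul_eq_zero.1 h8).resolve_left hζ0)
    have h42 : c ≠ ζ ^ 4 := by
      intro h
      apply hnd6
      rw [← hc, h]
      ring
    have h43 : (1 : F) ≠ ζ ^ 4 := (hnd 4 (by norm_num) (by norm_num)).symm
    have hcζ' : ζ ≠ c := Ne.symm hcζ
    have h1c : (1 : F) ≠ c := Ne.symm hc1
    simp only [hcζ', h1c, h41, h42, h43, if_true, if_false] at h7
    omega

end cases


/-- Derangements of odd prime order of PSL_n(q) on the cosets of a symplectic-type subgroup. Here `T = PSL_n(F)` for a field `F` with `q` elements, `n ≥ 4` even, `f` is a nondegenerate alternating form on `F^n`, and `H` is the subgroup of matrices of determinant 1 preserving `f` up to a scalar — a maximal subgroup of type Sp_n(q); Ω is the set of `T`-conjugates of `H` (cosets of `H`), so an element of `T` of prime order `r` (a matrix `x` of determinant 1 with `x^r` scalar, `x` not scalar) fixes a point of Ω when some conjugate of `x` by a matrix of determinant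 1 preserves `f` up to a scalar. For every odd prime `r` dividing the index of `H`, with `(n, r) ≠ (6, 3)`, there is an element of `T` of order `r` with no conjugate in `H`. (For `n = 6`, `r = 3` this can fail: when `(q − 1)_3 = 3` every element of order 3 is conjugate into `H`.) -/
theorem result {F : Type*} [Field F] [Fintype F] {p : ℕ} [Fact p.Prime] [CharP F p] {q : ℕ} (hq : Fintype.card F = q)
    (n : ℕ) (hn : 4 ≤ n) (he : Even n) (f : (Fin n → F) → (Fin n → F) → F) (hf : Cfsg.Geo.IsSymplecticForm f)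
    (r : ℕ) [Fact r.Prime] (hr2 : r ≠ 2) (hgap : ¬ (n = 6 ∧ r = 3)) (hΩ : r ∣ ((Cfsg.Geo.similarityGroup f).comap (Matrix.SpecialLinearGroup.toGL : Matrix.SpecialLinearGroup (Fin n) F →* GL (Fin n) F)).index) :
    ∃ x : Matrix.SpecialLinearGroup (Fin n) F,
      (∃ z : F, ((x ^ r : Matrix.SpecialLinearGroup (Fin n) F) : Matrix (Fin n) (Fin n) F) = z • (1 : Matrix (Fin n) (Fin n) F)) ∧
      (∀ z : F, (x : Matrix (Fin n) (Fin n) F) ≠ z • (1 : Matrix (Fin n) (Fin n) F)) ∧
      ∀ P : Matrix.SpecialLinearGroup (Fin n) F, P⁻¹ * x * P ∉ ((Cfsg.Geo.similarityGroup f).comap (Matrix.SpecialLinearGroup.toGL : Matrix.SpecialLinearGroup (Fin n) F →* GL (Fin n) F)) := by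
  classical
  have hn0 : 0 < n := by omega
  obtain ⟨m, hm⟩ := he
  have hp := (Fact.out : p.Prime)
  have hr' := (Fact.out : r.Prime)
  by_cases hrp : r = p
  · subst hrp
    exact case_p n hn f hf hr2
  · have hrq : ¬ r ∣ q := OrderRank.not_dvd_card hq hr' hrp
    obtain ⟨hodd, hle⟩ := order_of_dvd_index hf hq m (by omega) (by omega) hrq hΩ
    by_cases h1 : r ∣ q - 1
    · -- `ζ`
      have hcardU : Nat.card Fˣ = q - 1 := by
        rw [Nat.card_eq_fintype_card, Fintype.card_units, hq]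
      obtain ⟨ζ₀, hζ₀⟩ := exists_prime_orderOf_dvd_card' (G := Fˣ) r (by rw [hcardU]; exact h1)
      have hpow : ((ζ₀ : Fˣ) : F) ^ r = 1 := by
        rw [← Units.val_pow_eq_pow_val, ← hζ₀, pow_orderOf_eq_one, Units.val_one]
      have hdvd : ∀ k, ((ζ₀ : Fˣ) : F) ^ k = 1 → r ∣ k := by
        intro k hk
        rw [← hζ₀]
        apply orderOf_dvd_of_pow_eq_one
        ext
        rw [Units.val_pow_eq_pow_val, hk, Units.val_one]
      have hne : r ≠ 4 := by
        rintro rfl
        exact absurd hr' (by norm_num)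
      by_cases hr3 : r = 3
      · subst hr3
        refine case_three n hn (fun h => hgap ⟨h, rfl⟩) f hf ζ₀ hpow ?_
        intro h
        have := hdvd 1 (by rw [pow_one, h])
        omega
      · have hr5 : 5 ≤ r := by
          have := hr'.two_le
          omega
        exact case_five n hn ⟨m, hm⟩ f hf r ζ₀ hpow hdvd hr' hr5
    · exact case_block hq n f hf r hrp h1 hodd hle

end Cfsg.Agent.S5968
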