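import Cfsg.Statements.S5997
import Cfsg.Agent.Lib.GL2.SL2Classes
import Cfsg.Prelude.Def_GeometricClasses

set_option autoImplicit false
open scoped MatrixGroups
open Cfsg

namespace Cfsg.Agent.S5997

open Matrix

variable {F : Type*} [Field F]

/-- Non-scalar. -/
theorem eq_add_smul_of_comm (X A : Matrix (Fin 2) (Fin 2) F) (hX : ∀ z : F, X ≠ z • 1)
    (hc : X * A = A * X) : ∃ α β : F, A = α • 1 + β • X := by
  have h00 := congrFun (congrFun hc 0) 0
  have h01 := congrFun (congrFun hc 0) 1
  have h10 := congrFun (congrFun hc 1) 0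
  simp only [Matrix.mul_apply, Fin.sum_univ_two] at h00 h01 h10
  by_cases hb : X 0 1 = 0
  · by_cases hc' : X 1 0 = 0
    · have had : X 0 0 - X 1 1 ≠ 0 := by
        intro h
        apply hX (X 0 0)
        ext i j
        fin_cases i <;> fin_cases j <;> simp [hb, hc']
        linear_combination -h
      refine ⟨A 0 0 - (A 0 0 - A 1 1) / (X 0 0 - X 1 1) * X 0 0, (A 0 0 - A 1 1) / (X 0 0 - X 1 1), ?_⟩
      simp only [hb, hc'] at h00 h01 h10
      have hf : A 0 1 = 0 := by
        have : (X 0 0 - X 1 1) * A 0 1 = 0 := by linear_combination h01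
        exact (mul_eq_zero.mp this).resolve_left had
      have hg : A 1 0 = 0 := by
        have : (X 0 0 - X 1 1) * A 1 0 = 0 := by linear_combination -h10
        exact (mul_eq_zero.mp this).resolve_left had
      ext i j
      fin_cases i <;> fin_cases j <;> simp [hb, hc', hf, hg]
      field_simp
      ring
    · refine ⟨A 0 0 - A 1 0 / X 1 0 * X 0 0, A 1 0 / X 1 0, ?_⟩
      have hf : A 0 1 = 0 := by
        rw [hb] at h00
        have : A 0 1 * X 1 0 = 0 := by linear_combination -h00
        exact (mul_eq_zero.mp this).resolve_right hc'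
      ext i j
      fin_cases i <;> fin_cases j <;> simp [hb, hf]
      · field_simp
      · field_simp
        linear_combination -h10
  · refine ⟨A 0 0 - A 0 1 / X 0 1 * X 0 0, A 0 1 / X 0 1, ?_⟩
    ext i j
    fin_cases i <;> fin_cases j <;> simp
    · field_simp
    · field_simp
      linear_combination h00
    · field_simp
      linear_combination h01

/-- Two matrices commuting with a non-scalar matrix commute. -/
theorem comm_of_comm_nonscalar (X A B : Matrix (Fin 2) (Fin 2) F) (hX : ∀ z : F, X ≠ z • 1)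
    (hA : X * A = A * X) (hB : X * B = B * X) : A * B = B * A := by
  obtain ⟨α, β, rfl⟩ := eq_add_smul_of_comm X A hX hA
  obtain ⟨α', β', rfl⟩ := eq_add_smul_of_comm X B hX hB
  simp only [add_mul, mul_add, smul_mul_assoc, mul_smul_comm, one_mul, mul_one, smul_smul, smul_add]
  rw [mul_comm β' β, mul_comm β' α, mul_comm α' α, mul_comm α' β]
  abel

/-- Cayley--Hamilton in dimension two. -/
theorem cayley_two (X : Matrix (Fin 2) (Fin 2) F) :
    X * X = Matrix.trace X • X - X.det • (1 : Matrix (Fin 2) (Fin 2) F) := by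
  ext i j
  fin_cases i <;> fin_cases j <;>
    simp [Matrix.mul_apply, Fin.sum_univ_two, Matrix.trace_fin_two, Matrix.det_fin_two] <;> ring

/-- Anticommuting square roots of `-1`: trace zero and determinant one. -/
theorem trace_det_of_anticomm (h2 : (2 : F) ≠ 0) (X Y : Matrix (Fin 2) (Fin 2) F)
    (hX : X * X = -1) (hY : Y * Y = -1) (hXY : Y * X = -(X * Y)) :
    Matrix.trace X = 0 ∧ X.det = 1 := by
  have h1 : Matrix.trace (X * Y * Y) = - Matrix.trace (X * Y * Y) := by
    nth_rewrite 1 [Matrix.trace_mul_comm (X * Y) Y]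
    rw [← Matrix.mul_assoc, hXY, Matrix.neg_mul, Matrix.trace_neg]
  have h3 : X * Y * Y = -X := by
    rw [Matrix.mul_assoc, hY]
    simp
  rw [h3, Matrix.trace_neg, neg_neg] at h1
  have ht : Matrix.trace X = 0 := by
    have : (2 : F) * Matrix.trace X = 0 := by linear_combination -h1
    exact (mul_eq_zero.mp this).resolve_left h2
  refine ⟨ht, ?_⟩
  have hc := cayley_two X
  rw [hX, ht, zero_smul, zero_sub] at hc
  have h00 := congrFun (congrFun hc 0) 0
  simp at h00
  exact h00.symm

/-- The Hurwitz matrix. -/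
noncomputable def hurwitz (s : F) (A B : Matrix (Fin 2) (Fin 2) F) : Matrix (Fin 2) (Fin 2) F :=
  (s / 2) • (-1 + A + B + A * B)

section Relations

variable (A B : Matrix (Fin 2) (Fin 2) F) (hA : A * A = -1) (hB : B * B = -1)
  (hBA : B * A = -(A * B))

include hA hB hBA

theorem aba : A * B * A = B := by
  rw [Matrix.mul_assoc, hBA, Matrix.mul_neg, ← Matrix.mul_assoc, hA]
  simp

theorem abb : A * B * B = -A := by
  rw [Matrix.mul_assoc, hB]
  simp

theorem abab : A * B * (A * B) = -1 := by
  rw [← Matrix.mul_assoc, aba A B hA hB hBA, hB]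

theorem hurwitz_mul_left (s : F) : hurwitz s A B * A = (A * B) * hurwitz s A B := by
  have h1 := aba A B hA hB hBA
  have h2 := abb A B hA hB hBA
  have h3 := abab A B hA hB hBA
  have h4 : A * (A * B) = -B := by rw [← Matrix.mul_assoc, hA]; simp
  simp only [hurwitz, smul_mul_assoc, mul_smul_comm]
  congr 1
  simp only [add_mul, mul_add, Matrix.neg_mul, Matrix.mul_neg, Matrix.one_mul, Matrix.mul_one]
  rw [hA, hBA, h1, h2, h3]
  abel

theorem hurwitz_mul_right (s : F) : hurwitz s A B * B = A * hurwitz s A B := by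
  have h1 := aba A B hA hB hBA
  have h2 := abb A B hA hB hBA
  have h3 := abab A B hA hB hBA
  have h4 : A * (A * B) = -B := by rw [← Matrix.mul_assoc, hA]; simp
  simp only [hurwitz, smul_mul_assoc, mul_smul_comm]
  congr 1
  simp only [add_mul, mul_add, Matrix.neg_mul, Matrix.mul_neg, Matrix.one_mul, Matrix.mul_one]
  rw [hA, hB, h2, h4]
  abel

theorem trace_hurwitz (h2 : (2 : F) ≠ 0) (s : F) : Matrix.trace (hurwitz s A B) = -s := by
  have ha := (trace_det_of_anticomm h2 A B hA hB hBA).1
  have hb := (trace_det_of_anticomm h2 B A hB hA (by rw [hBA, neg_neg])).1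
  have hk : Matrix.trace (A * B) = 0 := by
    refine (trace_det_of_anticomm h2 (A * B) A (abab A B hA hB hBA) hA ?_).1
    have h4 : A * (A * B) = -B := by rw [← Matrix.mul_assoc, hA]; simp
    rw [h4, aba A B hA hB hBA]
  simp only [hurwitz, Matrix.trace_smul, Matrix.trace_add, Matrix.trace_neg, ha, hb, hk]
  simp [Matrix.trace_fin_two]
  field_simp

theorem det_hurwitz (h2 : (2 : F) ≠ 0) (s : F) (hs : s ^ 2 = 1) : (hurwitz s A B).det = 1 := by
  have hk : (A * B).det = 1 := by
    rw [Matrix.det_mul, (trace_det_of_anticomm h2 A B hA hB hBA).2,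
      (trace_det_of_anticomm h2 B A hB hA (by rw [hBA, neg_neg])).2, one_mul]
  have h1 := aba A B hA hB hBA
  have h3 := abb A B hA hB hBA
  have h4 := abab A B hA hB hBA
  have h5 : A * (A * B) = -B := by rw [← Matrix.mul_assoc, hA]; simp
  have hc := cayley_two (hurwitz s A B)
  rw [trace_hurwitz A B hA hB hBA h2 s] at hc
  -- expand the square
  have hsq : hurwitz s A B * hurwitz s A B = (s ^ 2 / 2) • (-1 - A - B - A * B) := by
    simp only [hurwitz, smul_mul_assoc, mul_smul_comm, smul_smul]
    have : (-1 + A + B + A * B) * (-1 + A + B + A * B) = (2 : F) • (-1 - A - B - A * B) := by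
      simp only [add_mul, mul_add, Matrix.neg_mul, Matrix.mul_neg, Matrix.one_mul, Matrix.mul_one, neg_neg]
      rw [hA, hB, hBA, h1, h3, h4, h5]
      have h6 : B * (A * B) = A := by
        rw [← Matrix.mul_assoc, hBA, Matrix.neg_mul, h3, neg_neg]
      rw [h6]
      rw [two_smul]
      abel
    rw [this, smul_smul]
    congr 1
    field_simp
  rw [hs] at hsq
  set H := hurwitz s A B with hH
  have e1 : (-s) • H = (1 / 2 : F) • (1 - A - B - A * B) := by
    rw [hH, hurwitz, smul_smul]
    have : -s * (s / 2) = -(1 / 2) := by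
      field_simp
      linear_combination -hs
    rw [this, neg_smul, ← smul_neg]
    congr 1
    abel
  have e3 : H.det • (1 : Matrix (Fin 2) (Fin 2) F) = 1 := by
    have h7 : H.det • (1 : Matrix (Fin 2) (Fin 2) F) = (-s) • H - H * H := by
      rw [hc]
      abel
    rw [h7, e1, hsq, ← smul_sub]
    have : (1 - A - B - A * B) - (-1 - A - B - A * B) = (2 : F) • (1 : Matrix (Fin 2) (Fin 2) F) := by
      rw [two_smul]
      abel
    rw [this, smul_smul]
    have h8 : (1 / 2 : F) * 2 = 1 := by field_simp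
    rw [h8, one_smul]
  have h00 := congrFun (congrFun e3 0) 0
  simpa using h00

end Relations



/-- Structure of a quaternion subgroup of `GL₂`. -/
theorem q8_rel (h2 : (2 : F) ≠ 0) (R : Subgroup (GL (Fin 2) F)) (e : ↥R ≃* QuaternionGroup 2) :
    ∃ I J : GL (Fin 2) F, I ∈ R ∧ J ∈ R ∧
      (I : Matrix (Fin 2) (Fin 2) F) * (I : Matrix (Fin 2) (Fin 2) F) = -1 ∧
      (J : Matrix (Fin 2) (Fin 2) F) * (J : Matrix (Fin 2) (Fin 2) F) = -1 ∧
      (J : Matrix (Fin 2) (Fin 2) F) * (I : Matrix (Fin 2) (Fin 2) F) =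
        -((I : Matrix (Fin 2) (Fin 2) F) * (J : Matrix (Fin 2) (Fin 2) F)) ∧
      (∀ u ∈ R, ∃ m n : ℕ, u = J ^ m * I ^ n) := by
  classical
  let a₁ : ↥R := e.symm (QuaternionGroup.a 1)
  let b₁ : ↥R := e.symm (QuaternionGroup.xa 0)
  let I : GL (Fin 2) F := a₁
  let J : GL (Fin 2) F := b₁
  have hab : a₁ * a₁ = b₁ * b₁ := by
    simp only [a₁, b₁, ← map_mul]
    congr 1
  have hu1 : a₁ * a₁ ≠ 1 := by
    intro h
    have h1 : e.symm (QuaternionGroup.a 1 * QuaternionGroup.a 1) = e.symm 1 := by
      rw [map_mul, map_one]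
      exact h
    have h3 := e.symm.injective h1
    revert h3
    decide
  have huu : a₁ * a₁ * (a₁ * a₁) = 1 := by
    simp only [a₁, ← map_mul]
    have : (QuaternionGroup.a 1 * QuaternionGroup.a 1 * (QuaternionGroup.a 1 * QuaternionGroup.a 1) : QuaternionGroup 2) = 1 := by
      decide
    rw [this, map_one]
  have hnc : a₁ * b₁ ≠ b₁ * a₁ := by
    intro h
    simp only [a₁, b₁, ← map_mul] at h
    have h3 := e.symm.injective h
    revert h3
    decide
  have hba : b₁ * a₁ = a₁ * a₁ * (a₁ * b₁) := by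
    simp only [a₁, b₁, ← map_mul]
    congr 1
  let U : Matrix (Fin 2) (Fin 2) F := (I : Matrix (Fin 2) (Fin 2) F) * (I : Matrix (Fin 2) (Fin 2) F)
  have hAU : U * (I : Matrix (Fin 2) (Fin 2) F) = (I : Matrix (Fin 2) (Fin 2) F) * U := by
    simp only [U, Matrix.mul_assoc]
  have hBU : U * (J : Matrix (Fin 2) (Fin 2) F) = (J : Matrix (Fin 2) (Fin 2) F) * U := by
    have h1 : a₁ * a₁ * b₁ = b₁ * (a₁ * a₁) := by
      rw [hab, mul_assoc]
    have h3 := congrArg (fun w : ↥R => ((w : GL (Fin 2) F) : Matrix (Fin 2) (Fin 2) F)) h1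
    exact h3
  have hvalmul : ∀ w w' : ↥R, (((w * w' : ↥R) : GL (Fin 2) F) : Matrix (Fin 2) (Fin 2) F) =
      ((w : GL (Fin 2) F) : Matrix (Fin 2) (Fin 2) F) * ((w' : GL (Fin 2) F) : Matrix (Fin 2) (Fin 2) F) :=
    fun _ _ => rfl
  have hUval : U = ((a₁ * a₁ : ↥R) : GL (Fin 2) F).val := rfl
  have hUscal : ∃ z : F, U = z • 1 := by
    by_contra hcon
    have hns : ∀ z : F, U ≠ z • 1 := fun z hz => hcon ⟨z, hz⟩
    have := comm_of_comm_nonscalar U _ _ hns hAU hBU
    apply hnc
    apply Subtype.ext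
    apply Units.ext
    exact this
  obtain ⟨z, hz⟩ := hUscal
  have hUU : U * U = 1 := by
    have h3 := congrArg (fun w : ↥R => ((w : GL (Fin 2) F) : Matrix (Fin 2) (Fin 2) F)) huu
    exact h3
  have hz1 : z ≠ 1 := by
    rintro rfl
    apply hu1
    apply Subtype.ext
    apply Units.ext
    rw [one_smul] at hz
    exact hz
  have hzz : z * z = 1 := by
    rw [hz, smul_mul_smul_comm, Matrix.one_mul] at hUU
    have h00 := congrFun (congrFun hUU 0) 0
    simpa using h00
  have hzm : z = -1 := by
    have : (z - 1) * (z + 1) = 0 := by linear_combination hzz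
    rcases mul_eq_zero.mp this with h | h
    · exact absurd (sub_eq_zero.mp h) hz1
    · linear_combination h
  have hUm : U = -1 := by
    rw [hz, hzm]
    simp
  refine ⟨I, J, a₁.2, b₁.2, hUm, ?_, ?_, ?_⟩
  · have h3 := congrArg (fun w : ↥R => ((w : GL (Fin 2) F) : Matrix (Fin 2) (Fin 2) F)) hab
    have h4 : U = (J : Matrix (Fin 2) (Fin 2) F) * (J : Matrix (Fin 2) (Fin 2) F) := h3
    rw [← h4, hUm]
  · have h3 := congrArg (fun w : ↥R => ((w : GL (Fin 2) F) : Matrix (Fin 2) (Fin 2) F)) hba
    have h4 : (J : Matrix (Fin 2) (Fin 2) F) * (I : Matrix (Fin 2) (Fin 2) F) =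
      U * ((I : Matrix (Fin 2) (Fin 2) F) * (J : Matrix (Fin 2) (Fin 2) F)) := h3
    rw [h4, hUm]
    simp
  · intro u hu
    -- elements of `Q₈`
    have hpowa : ∀ n : ℕ, ((a₁ ^ n : ↥R) : GL (Fin 2) F) = I ^ n := fun n => by
      simp [I]
    have key : ∀ q : QuaternionGroup 2, ∃ m n : ℕ, q = (QuaternionGroup.xa 0) ^ m * (QuaternionGroup.a 1) ^ n := by
      intro q
      rcases q with i | i
      · refine ⟨0, i.val, ?_⟩
        rw [QuaternionGroup.a_one_pow, pow_zero, one_mul]
        simp
      · refine ⟨1, i.val, ?_⟩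
        rw [QuaternionGroup.a_one_pow, pow_one, QuaternionGroup.xa_mul_a]
        simp
    obtain ⟨m, n, hmn⟩ := key (e ⟨u, hu⟩)
    refine ⟨m, n, ?_⟩
    have h5 : (⟨u, hu⟩ : ↥R) = b₁ ^ m * a₁ ^ n := by
      apply e.injective
      rw [hmn, map_mul, map_pow, map_pow]
      simp [a₁, b₁]
    have h6 := congrArg (fun w : ↥R => (w : GL (Fin 2) F)) h5
    simpa [I, J] using h6

/-- Normalizer membership from generators. -/
theorem mem_normalizer_of_gen (R : Subgroup (GL (Fin 2) F)) [Finite ↥R] (g I J : GL (Fin 2) F)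
    (hgen : ∀ u ∈ R, ∃ m n : ℕ, u = J ^ m * I ^ n) (hI : g * I * g⁻¹ ∈ R) (hJ : g * J * g⁻¹ ∈ R) :
    g ∈ Cfsg.Geo.subgroupNormalizer R := by
  have hfwd : ∀ u ∈ R, g * u * g⁻¹ ∈ R := by
    intro u hu
    obtain ⟨m, n, rfl⟩ := hgen u hu
    have h1 : g * (J ^ m * I ^ n) * g⁻¹ = (g * J * g⁻¹) ^ m * (g * I * g⁻¹) ^ n := by
      rw [conj_pow, conj_pow]
      group
    rw [h1]
    exact R.mul_mem (R.pow_mem hJ _) (R.pow_mem hI _)
  let φ : ↥R → ↥R := fun u => ⟨g * u * g⁻¹, hfwd u u.2⟩
  have hinj : Function.Injective φ := by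
    intro u v huv
    have := congrArg Subtype.val huv
    apply Subtype.ext
    simpa [φ] using this
  have hsurj := Finite.surjective_of_injective hinj
  show g ∈ Subgroup.normalizer (R : Set (GL (Fin 2) F))
  rw [Subgroup.mem_normalizer_iff]
  intro h
  constructor
  · exact hfwd h
  · intro hh
    obtain ⟨w, hw⟩ := hsurj ⟨_, hh⟩
    have := congrArg Subtype.val hw
    have h5 : (w : GL (Fin 2) F) = h := by
      simpa [φ] using this
    rw [← h5]
    exact w.2

/-- Conjugating within `SL₂` elements of the same trace. -/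
theorem conj_of_trace [Fintype F] (hodd : Fintype.card F % 2 = 1) (x W : GL (Fin 2) F)
    (hx : x ∈ Cfsg.Geo.specialLinear (Fin 2) F) (hW : W ∈ Cfsg.Geo.specialLinear (Fin 2) F)
    (htr : Matrix.trace (x : Matrix (Fin 2) (Fin 2) F) = Matrix.trace (W : Matrix (Fin 2) (Fin 2) F))
    (ht : (Matrix.trace (x : Matrix (Fin 2) (Fin 2) F)) ^ 2 ≠ 4) :
    ∃ g ∈ Cfsg.Geo.specialLinear (Fin 2) F, g⁻¹ * x * g = W := by
  have hdet : ∀ y : GL (Fin 2) F, y ∈ Cfsg.Geo.specialLinear (Fin 2) F → (y : Matrix (Fin 2) (Fin 2) F).det = 1 := by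
    intro y hy
    have h1 : Matrix.GeneralLinearGroup.det y = 1 := hy
    have h3 := congrArg Units.val h1
    simpa using h3
  let xs : Matrix.SpecialLinearGroup (Fin 2) F := ⟨x, hdet x hx⟩
  let Ws : Matrix.SpecialLinearGroup (Fin 2) F := ⟨W, hdet W hW⟩
  have h1 : Cfsg.Agent.Lib.GL2.SL2Classes.tr xs = Matrix.trace (x : Matrix (Fin 2) (Fin 2) F) := by
    rw [Matrix.trace_fin_two]
    rfl
  have h3 : Cfsg.Agent.Lib.GL2.SL2Classes.tr Ws = Matrix.trace (W : Matrix (Fin 2) (Fin 2) F) := by
    rw [Matrix.trace_fin_two]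
    rfl
  have c1 := Cfsg.Agent.Lib.GL2.SL2Classes.isConj_comp hodd xs (by rw [h1]; exact ht)
  have c2 := Cfsg.Agent.Lib.GL2.SL2Classes.isConj_comp hodd Ws (by rw [h3, ← htr]; exact ht)
  rw [h1] at c1
  rw [h3, ← htr] at c2
  have c3 : IsConj xs Ws := c1.trans c2.symm
  rw [isConj_iff] at c3
  obtain ⟨c, hc⟩ := c3
  refine ⟨Matrix.SpecialLinearGroup.toGL c⁻¹, ?_, ?_⟩
  · show Matrix.GeneralLinearGroup.det _ = 1
    ext
    simp
  · apply Units.ext
    have h5 := congrArg (fun w : Matrix.SpecialLinearGroup (Fin 2) F => (w : Matrix (Fin 2) (Fin 2) F)) hc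
    rw [map_inv, inv_inv]
    exact h5

/-- Elements of prime order of PSL_2(p) and the normalizer of a quaternion subgroup. Here `T = PSL_2(F)` for the field `F` with `p` elements, `p ≥ 5` prime; `R` is a subgroup of GL_2(F) isomorphic to the quaternion group of order 8 (an absolutely irreducible 2-group of symplectic type), and `H` is the subgroup of matrices of determinant 1 normalizing `R` — a subgroup of type 2^{1+2}.O₂⁻(2), isomorphic modulo scalars to A₄ or S₄ (maximality is not assumed). Ω is the set of cosets of `H` in `T`, so an element of `T` of prime order `r` (a matrix `x` of determinant 1 with `x^r` scalar, `x` not scalar) fixes a point of Ω exactly when some conjugate of `x` by a matrix of determinant 1 normalizes `R`. Let `r` be a prime dividing the index of `H`. Then every element of `T` of order `r` fixes a point of Ω if and only if `r = 2` or `r = 3`. -/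
theorem result {F : Type*} [Field F] [Fintype F] {p : ℕ} [Fact p.Prime] [CharP F p] (hF : Fintype.card F = p) (hp : 5 ≤ p)
    (R : Subgroup (GL (Fin 2) F)) (hR : Nonempty (↥R ≃* QuaternionGroup 2))
    (r : ℕ) [Fact r.Prime]
    (hΩ : r ∣ (Cfsg.Geo.subgroupNormalizer R).relIndex (Cfsg.Geo.specialLinear (Fin 2) F)) :
    (∀ x ∈ Cfsg.Geo.specialLinear (Fin 2) F, (∃ z : F, ((x ^ r : GL (Fin 2) F) : Matrix (Fin 2) (Fin 2) F) = z • (1 : Matrix (Fin 2) (Fin 2) F)) →
      (∀ z : F, (x : Matrix (Fin 2) (Fin 2) F) ≠ z • (1 : Matrix (Fin 2) (Fin 2) F)) →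
      ∃ g ∈ Cfsg.Geo.specialLinear (Fin 2) F, g⁻¹ * x * g ∈ Cfsg.Geo.subgroupNormalizer R) ↔ (r = 2 ∨ r = 3) := by
  classical
  have hp2 : p ≠ 2 := by omega
  have hp3 : p ≠ 3 := by omega
  have h2 : (2 : F) ≠ 0 := by
    intro h
    have : ((2 : ℕ) : F) = 0 := by exact_mod_cast h
    rw [CharP.cast_eq_zero_iff F p] at this
    have := Nat.le_of_dvd (by norm_num) this
    omega
  have h3 : (3 : F) ≠ 0 := by
    intro h
    have : ((3 : ℕ) : F) = 0 := by exact_mod_cast h
    rw [CharP.cast_eq_zero_iff F p] at this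
    have := Nat.le_of_dvd (by norm_num) this
    omega
  have hodd : Fintype.card F % 2 = 1 := by
    rw [hF]
    have := (Fact.out : p.Prime).eq_two_or_odd
    omega
  obtain ⟨e⟩ := hR
  have hfinR : Finite ↥R := Finite.of_equiv _ e.symm.toEquiv
  obtain ⟨I, J, hI, hJ, hA, hB, hBA, hgen⟩ := q8_rel h2 R e
  set A : Matrix (Fin 2) (Fin 2) F := (I : Matrix (Fin 2) (Fin 2) F) with hAdef
  set B : Matrix (Fin 2) (Fin 2) F := (J : Matrix (Fin 2) (Fin 2) F) with hBdef
  have hdetmem : ∀ y : GL (Fin 2) F, (y : Matrix (Fin 2) (Fin 2) F).det = 1 → y ∈ Cfsg.Geo.specialLinear (Fin 2) F := by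
    intro y hy
    show Matrix.GeneralLinearGroup.det y = 1
    ext
    simpa using hy
  have hdet : ∀ y : GL (Fin 2) F, y ∈ Cfsg.Geo.specialLinear (Fin 2) F → (y : Matrix (Fin 2) (Fin 2) F).det = 1 := by
    intro y hy
    have h1 : Matrix.GeneralLinearGroup.det y = 1 := hy
    have h3 := congrArg Units.val h1
    simpa using h3
  constructor
  · -- `r ≥ 5` fails
    intro hall
    by_contra hcon
    have hr2 : r ≠ 2 := fun h => hcon (Or.inl h)
    have hr3 : r ≠ 3 := fun h => hcon (Or.inr h)
    have hrp : r.Prime := Fact.out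
    have hdvd : r ∣ Nat.card ↥(Cfsg.Geo.specialLinear (Fin 2) F) :=
      hΩ.trans (Subgroup.relIndex_dvd_card _ _)
    obtain ⟨x₀, hx₀⟩ := exists_prime_orderOf_dvd_card' r hdvd
    let x : GL (Fin 2) F := x₀
    have hx : x ∈ Cfsg.Geo.specialLinear (Fin 2) F := x₀.2
    have hxo : orderOf x = r := by
      rw [← hx₀]
      exact Subgroup.orderOf_coe x₀
    have hxr : x ^ r = 1 := by
      rw [← hxo]
      exact pow_orderOf_eq_one x
    have hns : ∀ z : F, (x : Matrix (Fin 2) (Fin 2) F) ≠ z • (1 : Matrix (Fin 2) (Fin 2) F) := by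
      intro z hz
      have h1 := hdet x hx
      rw [hz, Matrix.det_smul, Matrix.det_one, mul_one, Fintype.card_fin, pow_two] at h1
      have h5 : x ^ 2 = 1 := by
        apply Units.ext
        rw [pow_two]
        change (x : Matrix (Fin 2) (Fin 2) F) * (x : Matrix (Fin 2) (Fin 2) F) = 1
        rw [hz, smul_mul_smul_comm, Matrix.one_mul, h1, one_smul]
      have h6 := orderOf_dvd_of_pow_eq_one h5
      rw [hxo] at h6
      exact hr2 ((Nat.prime_dvd_prime_iff_eq hrp Nat.prime_two).mp h6)
    obtain ⟨g, hg, hy⟩ := hall x hx ⟨1, by rw [hxr]; simp⟩ hns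
    set y : GL (Fin 2) F := g⁻¹ * x * g with hydef
    have hyr : y ^ r = 1 := by
      rw [hydef]
      have : g⁻¹ * x * g = g⁻¹ * x * g⁻¹⁻¹ := by rw [inv_inv]
      rw [this, conj_pow, hxr]
      simp
    have hyns : ∀ z : F, (y : Matrix (Fin 2) (Fin 2) F) ≠ z • (1 : Matrix (Fin 2) (Fin 2) F) := by
      intro z hz
      apply hns z
      have h1 : x = g * y * g⁻¹ := by
        rw [hydef]
        group
      rw [h1]
      change (g : Matrix (Fin 2) (Fin 2) F) * (y : Matrix (Fin 2) (Fin 2) F) * ((g⁻¹ : GL (Fin 2) F) : Matrix (Fin 2) (Fin 2) F) = _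
      rw [hz, Matrix.mul_smul, Matrix.smul_mul, Matrix.mul_one]
      congr 1
      exact Units.mul_inv g
    have hmem : ∀ u : GL (Fin 2) F, u ∈ R → y * u * y⁻¹ ∈ R := fun u hu =>
      (Subgroup.mem_normalizer_iff.1 hy u).1 hu
    let f : Function.End ↥R := fun u => ⟨y * u * y⁻¹, hmem u u.2⟩
    have hfpow : ∀ (k : ℕ) (u : ↥R), (((f ^ k) u : ↥R) : GL (Fin 2) F) = y ^ k * u * (y ^ k)⁻¹ := by
      intro k
      induction k with
      | zero =>
        intro u
        rw [pow_zero]
        change (u : GL (Fin 2) F) = _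
        simp
      | succ k ih =>
        intro u
        rw [pow_succ]
        change (((f ^ k) (f u) : ↥R) : GL (Fin 2) F) = _
        rw [ih]
        change y ^ k * (y * u * y⁻¹) * (y ^ k)⁻¹ = _
        rw [pow_succ]
        group
    have hfr : f ^ r ^ 1 = 1 := by
      rw [pow_one]
      funext u
      apply Subtype.ext
      rw [hfpow, hyr]
      simp only [one_mul, inv_one, mul_one]
      rfl
    have : Fintype ↥R := Fintype.ofFinite _
    have hmod := Equiv.Perm.card_fixedPoints_modEq hfr
    have hcardR : Nat.card ↥R = 8 := by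
      rw [Nat.card_congr e.toEquiv, Nat.card_eq_fintype_card, QuaternionGroup.card]
    let T : Subgroup ↥R :=
      { carrier := {u | f u = u}
        one_mem' := by
          apply Subtype.ext
          change y * 1 * y⁻¹ = 1
          simp
        mul_mem' := by
          intro u v hu hv
          have hu' : y * (u : GL (Fin 2) F) * y⁻¹ = u := congrArg Subtype.val hu
          have hv' : y * (v : GL (Fin 2) F) * y⁻¹ = v := congrArg Subtype.val hv
          apply Subtype.ext
          change y * ((u : GL (Fin 2) F) * v) * y⁻¹ = (u : GL (Fin 2) F) * v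
          nth_rewrite 2 [← hu']
          nth_rewrite 2 [← hv']
          group
        inv_mem' := by
          intro u hu
          have hu' : y * (u : GL (Fin 2) F) * y⁻¹ = u := congrArg Subtype.val hu
          apply Subtype.ext
          change y * (u : GL (Fin 2) F)⁻¹ * y⁻¹ = (u : GL (Fin 2) F)⁻¹
          nth_rewrite 2 [← hu']
          group }
    have hTmem : ∀ u : ↥R, u ∈ T ↔ y * (u : GL (Fin 2) F) * y⁻¹ = u := by
      intro u
      constructor
      · intro hu
        exact congrArg Subtype.val hu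
      · intro hu
        exact Subtype.ext hu
    have hTcard : Nat.card T = Fintype.card f.fixedPoints := by
      rw [← Nat.card_eq_fintype_card]
      rfl
    have hdiv : Nat.card T ∣ 2 ^ 3 := by
      have := Subgroup.card_subgroup_dvd_card T
      rw [hcardR] at this
      simpa using this
    -- `-1` is fixed
    have hII : (I * I : GL (Fin 2) F) ≠ 1 := by
      intro h
      have h5 : A * A = 1 := congrArg Units.val h
      rw [hA] at h5
      have h6 := congrFun (congrFun h5 0) 0
      simp at h6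
      apply h2
      linear_combination -h6
    have hT2 : Nat.card T ≠ 1 := by
      intro h
      have hbot := Subgroup.eq_bot_of_card_eq T h
      have hmemT : (⟨I * I, R.mul_mem hI hI⟩ : ↥R) ∈ T := by
        rw [hTmem]
        apply Units.ext
        change (y : Matrix (Fin 2) (Fin 2) F) * (A * A) * ((y⁻¹ : GL (Fin 2) F) : Matrix (Fin 2) (Fin 2) F) = A * A
        rw [hA]
        simp only [Matrix.mul_neg, Matrix.neg_mul, Matrix.mul_one]
        congr 1
        exact Units.mul_inv y
      rw [hbot, Subgroup.mem_bot] at hmemT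
      apply hII
      exact congrArg Subtype.val hmemT
    rw [← hTcard] at hmod
    have hmod8 : 8 ≡ Nat.card T [MOD r] := by
      rw [← Nat.card_eq_fintype_card, hcardR] at hmod
      exact hmod
    obtain ⟨k, hk, hkc⟩ := (Nat.dvd_prime_pow Nat.prime_two).1 hdiv
    have hT8 : Nat.card T = 8 := by
      interval_cases k
      · exact absurd (by simpa using hkc) hT2
      · have h5 : r ∣ 8 - Nat.card T := (Nat.modEq_iff_dvd' (by rw [hkc]; norm_num)).1 hmod8.symm
        rw [hkc] at h5
        have h6 : r ∣ 2 * 3 := by simpa using h5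
        rcases (Nat.Prime.dvd_mul hrp).1 h6 with h7 | h7
        · exact absurd ((Nat.prime_dvd_prime_iff_eq hrp Nat.prime_two).mp h7) hr2
        · exact absurd ((Nat.prime_dvd_prime_iff_eq hrp Nat.prime_three).mp h7) hr3
      · have h5 : r ∣ 8 - Nat.card T := (Nat.modEq_iff_dvd' (by rw [hkc]; norm_num)).1 hmod8.symm
        rw [hkc] at h5
        have h6 : r ∣ 2 ^ 2 := by simpa using h5
        exact absurd ((Nat.prime_dvd_prime_iff_eq hrp Nat.prime_two).mp (hrp.dvd_of_dvd_pow h6)) hr2
      · simpa using hkc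
    have hTtop : T = ⊤ := Subgroup.eq_top_of_card_eq T (by rw [hT8, hcardR])
    have hfix : ∀ u : GL (Fin 2) F, u ∈ R → (y : Matrix (Fin 2) (Fin 2) F) * (u : Matrix (Fin 2) (Fin 2) F) = (u : Matrix (Fin 2) (Fin 2) F) * (y : Matrix (Fin 2) (Fin 2) F) := by
      intro u hu
      have h5 : (⟨u, hu⟩ : ↥R) ∈ T := by rw [hTtop]; trivial
      rw [hTmem] at h5
      have h5' : y * u * y⁻¹ = u := h5
      have h6 : y * u = u * y := by
        nth_rewrite 2 [← h5']
        group
      exact congrArg Units.val h6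
    have hcomm := comm_of_comm_nonscalar _ A B hyns (hfix I hI) (hfix J hJ)
    rw [hBA] at hcomm
    have h5 : (2 : F) • (A * B) = 0 := by
      rw [two_smul]
      nth_rewrite 1 [hcomm]
      abel
    have h6 : A * B = 0 := (smul_eq_zero.mp h5).resolve_left h2
    have h7 := abab A B hA hB hBA
    rw [h6, Matrix.mul_zero] at h7
    have h8 := congrFun (congrFun h7 0) 0
    simp at h8
  · rintro (rfl | rfl)
    · -- `r = 2`
      intro x hx ⟨z, hz⟩ hns
      have hxx : (x : Matrix (Fin 2) (Fin 2) F) * (x : Matrix (Fin 2) (Fin 2) F) = z • 1 := by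
        rw [pow_two] at hz
        exact hz
      have hcay := cayley_two (x : Matrix (Fin 2) (Fin 2) F)
      rw [hxx, hdet x hx, one_smul] at hcay
      have ht0 : Matrix.trace (x : Matrix (Fin 2) (Fin 2) F) = 0 := by
        by_contra ht
        apply hns ((Matrix.trace (x : Matrix (Fin 2) (Fin 2) F))⁻¹ * (z + 1))
        have : Matrix.trace (x : Matrix (Fin 2) (Fin 2) F) • (x : Matrix (Fin 2) (Fin 2) F) = (z + 1) • 1 := by
          rw [add_smul, hcay, one_smul]
          abel
        rw [mul_smul, ← this, smul_smul, inv_mul_cancel₀ ht, one_smul]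
      have hAtr := trace_det_of_anticomm h2 A B hA hB hBA
      obtain ⟨g, hg, hgx⟩ := conj_of_trace hodd x I hx (hdetmem I hAtr.2) (by rw [ht0, ← hAdef, hAtr.1]) (by
        rw [ht0]
        intro h
        have : (2 : F) * 2 = 0 := by linear_combination -h
        exact h2 (mul_self_eq_zero.mp this))
      refine ⟨g, hg, ?_⟩
      rw [hgx]
      apply mem_normalizer_of_gen R I I J hgen
      · simpa using hI
      · exact R.mul_mem (R.mul_mem hI hJ) (R.inv_mem hI)
    · -- `r = 3`
      intro x hx ⟨z, hz⟩ hns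
      set X : Matrix (Fin 2) (Fin 2) F := (x : Matrix (Fin 2) (Fin 2) F) with hX
      set t : F := Matrix.trace X with ht
      have hcay : X * X = t • X - 1 := by
        have := cayley_two X
        rw [hdet x hx, one_smul] at this
        exact this
      have hcube : X * X * X = z • 1 := by
        have : ((x ^ 3 : GL (Fin 2) F) : Matrix (Fin 2) (Fin 2) F) = X * X * X := by
          rw [pow_succ, pow_two]
          rfl
        rw [← this]
        exact hz
      have hexp : X * X * X = (t ^ 2 - 1) • X - t • 1 := by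
        rw [hcay, sub_mul, smul_mul_assoc, hcay, one_mul, smul_sub, smul_smul, sub_smul, one_smul, pow_two]
        abel
      have ht2 : t ^ 2 = 1 := by
        by_contra hne
        have hne' : t ^ 2 - 1 ≠ 0 := sub_ne_zero.mpr hne
        apply hns ((t ^ 2 - 1)⁻¹ * (z + t))
        have h5 : (t ^ 2 - 1) • X = (z + t) • 1 := by
          rw [add_smul, ← hcube, hexp]
          abel
        rw [mul_smul, ← h5, smul_smul, inv_mul_cancel₀ hne', one_smul]
      have hs2 : (-t) ^ 2 = 1 := by rw [neg_sq]; exact ht2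
      have hWdet := det_hurwitz A B hA hB hBA h2 (-t) hs2
      let W : GL (Fin 2) F := Matrix.GeneralLinearGroup.mkOfDetNeZero (hurwitz (-t) A B) (by rw [hWdet]; exact one_ne_zero)
      have hWval : (W : Matrix (Fin 2) (Fin 2) F) = hurwitz (-t) A B := rfl
      have hWtr : Matrix.trace (W : Matrix (Fin 2) (Fin 2) F) = t := by
        rw [hWval, trace_hurwitz A B hA hB hBA h2, neg_neg]
      obtain ⟨g, hg, hgx⟩ := conj_of_trace hodd x W hx (hdetmem W (by rw [hWval, hWdet])) (by rw [hWtr]) (by
        rw [← hX, ← ht, ht2]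
        intro h
        apply h3
        linear_combination -h)
      refine ⟨g, hg, ?_⟩
      rw [hgx]
      apply mem_normalizer_of_gen R W I J hgen
      · have h6 : W * I = (I * J) * W := by
          apply Units.ext
          exact hurwitz_mul_left A B hA hB hBA (-t)
        rw [h6, mul_inv_cancel_right]
        exact R.mul_mem hI hJ
      · have h6 : W * J = I * W := by
          apply Units.ext
          exact hurwitz_mul_right A B hA hB hBA (-t)
        rw [h6, mul_inv_cancel_right]
        exact hI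

end Cfsg.Agent.S5997
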