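import Cfsg.Statements.S5969
import Cfsg.Agent.Lib.Elusive.QuadConj
import Cfsg.Agent.S5967
import Cfsg.Agent.S5997
import Cfsg.Agent.Lib.GL2.SL2

set_option autoImplicit false
open scoped MatrixGroups
open Cfsg

namespace Cfsg.Agent.S5969


open Module Cfsg.Agent.Lib.Elusive.FieldSub Cfsg.Agent.Lib.Elusive.QuadField
open Cfsg.Agent.Lib.Elusive.QuadConj Cfsg.Agent.Lib.Elusive.BlockForm

/-- A nonscalar element exists in `K`. -/
theorem exists_nonscalar {F : Type*} [Field F] {ι : Type} [Fintype ι] [DecidableEq ι]
    {K : Subalgebra F (Matrix ι ι F)} (hK : Cfsg.Geo.IsFieldSubalgebra 2 K) :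
    ∃ θ ∈ K, ∀ z : F, θ ≠ z • 1 := by
  by_contra hcon
  push Not at hcon
  have h1 : finrank F K ≤ 1 := by
    apply finrank_le_one (1 : ↥K)
    rintro ⟨w, hw⟩
    obtain ⟨z, hz⟩ := hcon w hw
    exact ⟨z, Subtype.ext (by simpa using hz.symm)⟩
  rw [hK.finrank_eq] at h1
  omega

/-- A square root of a nonsquare in `K`. -/
theorem exists_sqrt_elt {F : Type*} [Field F] {ι : Type} [Fintype ι] [DecidableEq ι]
    {K : Subalgebra F (Matrix ι ι F)} (hK : Cfsg.Geo.IsFieldSubalgebra 2 K) (h2 : (2 : F) ≠ 0) :
    ∃ α ∈ K, ∃ d : F, α * α = d • 1 ∧ ¬ IsSquare d ∧ ∀ z : F, α ≠ z • 1 := by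
  obtain ⟨θ, hθ, hns⟩ := exists_nonscalar hK
  obtain ⟨a, b, hab⟩ := exists_coeff hK hθ hns (θ * θ) (K.mul_mem hθ hθ)
  let α := θ - (b / 2) • (1 : Matrix ι ι F)
  have hαK : α ∈ K := K.sub_mem hθ (K.smul_mem K.one_mem _)
  have hαns : ∀ z : F, α ≠ z • 1 := by
    intro z hz
    apply hns (z + b / 2)
    have : θ = α + (b / 2) • (1 : Matrix ι ι F) := by simp [α]
    rw [this, hz, add_smul]
  have hα2 : α * α = (a + b ^ 2 / 4) • 1 := by
    simp only [α, sub_mul, mul_sub, Matrix.smul_mul, Matrix.mul_smul, Matrix.one_mul, Matrix.mul_one, hab]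
    have h4 : (4 : F) ≠ 0 := by
      have : (4 : F) = 2 * 2 := by norm_num
      rw [this]
      exact mul_ne_zero h2 h2
    have e1 : (a + b ^ 2 / 4) = a + (b / 2) * (b / 2) := by field_simp; ring
    rw [e1]
    simp only [add_smul, smul_smul, smul_sub, smul_add]
    have e2 : b / 2 * b = b * (b / 2) := by ring
    have e3 : (2 : F) * (b / 2) = b := by field_simp
    have e4 : b • θ = (2 : F) • ((b / 2) • θ) := by rw [smul_smul, e3]
    rw [e4, two_smul]
    abel_nf
  refine ⟨α, hαK, a + b ^ 2 / 4, hα2, ?_, hαns⟩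
  rintro ⟨s, hs⟩
  have h1 : (α - s • 1) * (α + s • 1) = 0 := by
    rw [sub_mul, mul_add, mul_add, hα2, hs]
    simp [smul_smul, Matrix.smul_mul, Matrix.mul_smul]
    abel
  have hnzd := noZeroDivisors hK
  have h3 : (⟨α - s • 1, K.sub_mem hαK (K.smul_mem K.one_mem _)⟩ : ↥K) *
      ⟨α + s • 1, K.add_mem hαK (K.smul_mem K.one_mem _)⟩ = 0 := Subtype.ext h1
  rcases mul_eq_zero.mp h3 with h | h
  · apply hαns s
    exact sub_eq_zero.mp (congrArg Subtype.val h)
  · apply hαns (-s)
    rw [neg_smul]
    exact eq_neg_of_add_eq_zero_left (congrArg Subtype.val h)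

/-- The obstruction for a scalar plus rank one element. -/
theorem no_conj_of_rank_one {F : Type*} [Field F] {n : ℕ} (hn : 4 ≤ n) (he : Even n)
    {K : Subalgebra F (Matrix (Fin n) (Fin n) F)} (hK : Cfsg.Geo.IsFieldSubalgebra 2 K)
    (x P : Matrix.SpecialLinearGroup (Fin n) F) (c : F) (φ₀ : (Fin n → F) →ₗ[F] F) (hφ₀ : φ₀ ≠ 0)
    (a₀ : Fin n → F) (ha₀ : a₀ ≠ 0)
    (hx : ∀ u, (x : Matrix (Fin n) (Fin n) F).mulVec u = c • u + φ₀ u • a₀)
    (hP : P⁻¹ * x * P ∈ ((Cfsg.Geo.subalgebraNormalizer K).comap
        (Matrix.SpecialLinearGroup.toGL : Matrix.SpecialLinearGroup (Fin n) F →* GL (Fin n) F))) : False := by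
  classical
  let PM : Matrix (Fin n) (Fin n) F := (P : Matrix (Fin n) (Fin n) F)
  let PI : Matrix (Fin n) (Fin n) F := ((P⁻¹ : Matrix.SpecialLinearGroup (Fin n) F) : Matrix (Fin n) (Fin n) F)
  have hPIP : PI * PM = 1 := by
    simp only [PI, PM]
    rw [← Matrix.SpecialLinearGroup.coe_mul, inv_mul_cancel]
    rfl
  have hPPI : PM * PI = 1 := by
    simp only [PI, PM]
    rw [← Matrix.SpecialLinearGroup.coe_mul, mul_inv_cancel]
    rfl
  let φ : (Fin n → F) →ₗ[F] F := φ₀ ∘ₗ Matrix.toLin' PM
  have hφ : φ ≠ 0 := by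
    intro h
    apply hφ₀
    refine LinearMap.ext fun v => ?_
    have h1 := LinearMap.congr_fun h (PI.mulVec v)
    simp only [φ, LinearMap.comp_apply, Matrix.toLin'_apply, Matrix.mulVec_mulVec, hPPI,
      Matrix.one_mulVec] at h1
    simpa using h1
  let a : Fin n → F := PI.mulVec a₀
  have ha : a ≠ 0 := by
    intro h
    apply ha₀
    have h1 : PM.mulVec a = a₀ := by
      simp only [a, Matrix.mulVec_mulVec, hPPI, Matrix.one_mulVec]
    rw [← h1, h, Matrix.mulVec_zero]
  refine no_rank_one hK (by simpa using hn) _ hP c φ hφ a ha ?_ (by simpa using he)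
  intro v
  have h0 : ((Matrix.SpecialLinearGroup.toGL (P⁻¹ * x * P) : GL (Fin n) F) : Matrix (Fin n) (Fin n) F) =
      PI * (x : Matrix (Fin n) (Fin n) F) * PM := rfl
  rw [h0, ← Matrix.mulVec_mulVec, ← Matrix.mulVec_mulVec, hx, Matrix.mulVec_add, Matrix.mulVec_smul,
    Matrix.mulVec_smul, Matrix.mulVec_mulVec, hPIP, Matrix.one_mulVec]
  rfl

/-- `GL` elements anticommuting with a generator normalize `K`. -/
theorem mem_normalizer_of_anti {F : Type*} [Field F] {ι : Type} [Fintype ι] [DecidableEq ι]
    {K : Subalgebra F (Matrix ι ι F)} (hK : Cfsg.Geo.IsFieldSubalgebra 2 K) {α : Matrix ι ι F} (hα : α ∈ K)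
    (hns : ∀ z : F, α ≠ z • 1) (W : GL ι F) (hW : (W : Matrix ι ι F) * α = -(α * W)) :
    W ∈ Cfsg.Geo.subalgebraNormalizer K := by
  have hWW : (W : Matrix ι ι F) * ((W⁻¹ : GL ι F) : Matrix ι ι F) = 1 := by
    rw [← Units.val_mul, mul_inv_cancel, Units.val_one]
  have hWW' : ((W⁻¹ : GL ι F) : Matrix ι ι F) * (W : Matrix ι ι F) = 1 := by
    rw [← Units.val_mul, inv_mul_cancel, Units.val_one]
  have hW' : ((W⁻¹ : GL ι F) : Matrix ι ι F) * α = -(α * ((W⁻¹ : GL ι F) : Matrix ι ι F)) := by
    have h1 : ((W⁻¹ : GL ι F) : Matrix ι ι F) * ((W : Matrix ι ι F) * α) * ((W⁻¹ : GL ι F) : Matrix ι ι F)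
        = α * ((W⁻¹ : GL ι F) : Matrix ι ι F) := by
      rw [← Matrix.mul_assoc, hWW', Matrix.one_mul]
    have h3 : ((W⁻¹ : GL ι F) : Matrix ι ι F) * (α * (W : Matrix ι ι F)) * ((W⁻¹ : GL ι F) : Matrix ι ι F)
        = ((W⁻¹ : GL ι F) : Matrix ι ι F) * α := by
      rw [Matrix.mul_assoc, Matrix.mul_assoc, hWW, Matrix.mul_one]
    rw [← h3, ← h1, hW]
    simp [Matrix.mul_neg, Matrix.neg_mul]
  have hfwd : ∀ (A B : Matrix ι ι F), A * B = 1 → A * α = -(α * A) → ∀ k ∈ K, A * k * B ∈ K := by
    intro A B hAB hA k hk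
    obtain ⟨a, b, rfl⟩ := exists_coeff hK hα hns k hk
    have : A * (a • 1 + b • α) * B = a • 1 + (-b) • α := by
      rw [Matrix.mul_add, Matrix.add_mul, Matrix.mul_smul, Matrix.smul_mul, Matrix.mul_one, hAB,
        Matrix.mul_smul, Matrix.smul_mul, hA, Matrix.neg_mul, Matrix.mul_assoc, hAB, Matrix.mul_one]
      simp
    rw [this]
    exact K.add_mem (K.smul_mem K.one_mem _) (K.smul_mem hα _)
  intro k
  constructor
  · exact hfwd _ _ hWW hW k
  · intro hk
    have h1 := hfwd _ _ hWW' hW' _ hk
    have h2 : ((W⁻¹ : GL ι F) : Matrix ι ι F) * ((W : Matrix ι ι F) * k * ((W⁻¹ : GL ι F) : Matrix ι ι F)) *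
        (W : Matrix ι ι F) = k := by
      simp only [Matrix.mul_assoc]
      rw [hWW', Matrix.mul_one, ← Matrix.mul_assoc, hWW', Matrix.one_mul]
    rwa [h2] at h1


/-- `n = 2`, characteristic two. -/
theorem case_two_even {F : Type*} [Field F] [Fintype F] {K : Subalgebra F (Matrix (Fin 2) (Fin 2) F)}
    (hK : Cfsg.Geo.IsFieldSubalgebra 2 K) (h2 : (2 : F) = 0) (x : Matrix.SpecialLinearGroup (Fin 2) F)
    (hxx : (x : Matrix (Fin 2) (Fin 2) F) * (x : Matrix (Fin 2) (Fin 2) F) = -1)
    (hx2 : ∀ z : F, (x : Matrix (Fin 2) (Fin 2) F) ≠ z • (1 : Matrix (Fin 2) (Fin 2) F)) :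
    ∃ P : Matrix.SpecialLinearGroup (Fin 2) F, P⁻¹ * x * P ∈ ((Cfsg.Geo.subalgebraNormalizer K).comap
      (Matrix.SpecialLinearGroup.toGL : Matrix.SpecialLinearGroup (Fin 2) F →* GL (Fin 2) F)) := by
  classical
  have : CharP F 2 := CharTwo.of_one_ne_zero_of_two_eq_zero one_ne_zero h2
  have hch : ringChar F = 2 := ringChar.eq F 2
  obtain ⟨T, hTN, hT2, hTns⟩ := exists_frobenius hK (by simp) (by norm_num)
  have hTT : (T : Matrix (Fin 2) (Fin 2) F) * (T : Matrix (Fin 2) (Fin 2) F) = 1 := by
    rw [← Units.val_mul, ← pow_two, hT2, Units.val_one]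
  have hTdet : (T : Matrix (Fin 2) (Fin 2) F).det = 1 := by
    have h1 : (T : Matrix (Fin 2) (Fin 2) F).det * (T : Matrix (Fin 2) (Fin 2) F).det = 1 := by
      rw [← Matrix.det_mul, hTT, Matrix.det_one]
    have h3 : ((T : Matrix (Fin 2) (Fin 2) F).det - 1) * ((T : Matrix (Fin 2) (Fin 2) F).det - 1) = 0 := by
      linear_combination h1 + (1 - (T : Matrix (Fin 2) (Fin 2) F).det) * h2
    exact sub_eq_zero.mp (mul_self_eq_zero.mp h3)
  let T' : Matrix.SpecialLinearGroup (Fin 2) F := ⟨T, hTdet⟩
  have hsqz : ∀ A : Matrix (Fin 2) (Fin 2) F, A * A = 1 → (A - 1) ^ 2 = 0 := by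
    intro A hA
    have h3 : (A - 1) ^ 2 = A * A - (2 : F) • A + 1 := by
      rw [pow_two, sub_mul, mul_sub, mul_sub, two_smul]
      simp only [mul_one, one_mul]
      abel
    rw [h3, h2, zero_smul, sub_zero, hA]
    have h4 : (1 : Matrix (Fin 2) (Fin 2) F) + 1 = (2 : F) • 1 := by rw [two_smul]
    rw [h4, h2, zero_smul]
  have hxx' : (x : Matrix (Fin 2) (Fin 2) F) * (x : Matrix (Fin 2) (Fin 2) F) = 1 := by
    rw [hxx]
    have h4 : (-1 : F) = 1 := by
      linear_combination -h2
    have h5 : (-1 : Matrix (Fin 2) (Fin 2) F) = (-1 : F) • 1 := by simp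
    rw [h5, h4, one_smul]
  have hne1 : x ≠ 1 := by
    intro h
    apply hx2 1
    rw [h, one_smul]
    rfl
  have hne2 : T' ≠ 1 := by
    intro h
    apply hTns 1
    have := congrArg (fun A : Matrix.SpecialLinearGroup (Fin 2) F => (A : Matrix (Fin 2) (Fin 2) F)) h
    simpa [T'] using this
  obtain ⟨b, hb, hconj⟩ := Cfsg.Agent.Lib.GL2.SL2.exists_isConj_uu x (hsqz _ hxx') hne1
  obtain ⟨b', hb', hconj'⟩ := Cfsg.Agent.Lib.GL2.SL2.exists_isConj_uu T' (hsqz _ hTT) hne2
  have h3 := (Cfsg.Agent.Lib.GL2.SL2.isConj_uu_iff hb hb').2 (FiniteField.isSquare_of_char_two hch _)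
  obtain ⟨c, hc⟩ := isConj_iff.1 (hconj.trans (h3.trans hconj'.symm))
  refine ⟨c⁻¹, ?_⟩
  rw [inv_inv, hc]
  have : (Matrix.SpecialLinearGroup.toGL T' : GL (Fin 2) F) = T := Units.ext rfl
  rw [Subgroup.mem_comap, this]
  exact hTN

/-- `n = 2`, odd characteristic. -/
theorem case_two_odd {F : Type*} [Field F] [Fintype F] {K : Subalgebra F (Matrix (Fin 2) (Fin 2) F)}
    (hK : Cfsg.Geo.IsFieldSubalgebra 2 K) (h2 : (2 : F) ≠ 0) (x : Matrix.SpecialLinearGroup (Fin 2) F)
    (hxx : (x : Matrix (Fin 2) (Fin 2) F) * (x : Matrix (Fin 2) (Fin 2) F) = -1)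
    (htr : Matrix.trace (x : Matrix (Fin 2) (Fin 2) F) = 0) :
    ∃ P : Matrix.SpecialLinearGroup (Fin 2) F, P⁻¹ * x * P ∈ ((Cfsg.Geo.subalgebraNormalizer K).comap
      (Matrix.SpecialLinearGroup.toGL : Matrix.SpecialLinearGroup (Fin 2) F →* GL (Fin 2) F)) := by
  classical
  obtain ⟨α, hαK, d, hα2, hdns, hαns⟩ := exists_sqrt_elt hK h2
  have hd0 : d ≠ 0 := by
    rintro rfl
    exact hdns IsSquare.zero
  -- trace zero
  have hcα := Cfsg.Agent.S5997.cayley_two α
  have htrα : Matrix.trace α = 0 := by
    by_contra ht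
    apply hαns ((d + α.det) / Matrix.trace α)
    have h1 : Matrix.trace α • α = (d + α.det) • 1 := by
      rw [add_smul, ← hα2, hcα]
      abel
    rw [div_eq_inv_mul, mul_smul, ← h1, smul_smul, inv_mul_cancel₀ ht, one_smul]
  have htrα' : α 0 0 + α 1 1 = 0 := by
    rw [Matrix.trace_fin_two] at htrα
    exact htrα
  have h00 : α 0 0 * α 0 0 + α 0 1 * α 1 0 = d := by
    have := congrFun (congrFun hα2 0) 0
    simpa [Matrix.mul_apply, Fin.sum_univ_two] using this
  have hc0 : α 1 0 ≠ 0 := by
    intro h
    rw [h, mul_zero, add_zero] at h00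
    exact hdns ⟨α 0 0, h00.symm⟩
  -- the reflection
  let s₀ : Matrix (Fin 2) (Fin 2) F := !![1, -(2 * α 0 0 / α 1 0); 0, -1]
  have hs₀α : s₀ * α = -(α * s₀) := by
    have h11 : α 1 1 = -α 0 0 := by linear_combination htrα'
    ext i j
    fin_cases i <;> fin_cases j <;>
      simp [s₀, Matrix.mul_apply, Fin.sum_univ_two, h11] <;> field_simp <;> ring
  have hs₀s₀ : s₀ * s₀ = 1 := by
    ext i j
    fin_cases i <;> fin_cases j <;> simp [s₀, Matrix.mul_apply, Fin.sum_univ_two]
  obtain ⟨u, t, hut⟩ := exists_sq_sub_mul_sq d (-1) hd0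
  let κ : Matrix (Fin 2) (Fin 2) F := u • 1 + t • α
  have hκα : κ * α = α * κ := by
    simp only [κ, add_mul, mul_add, Matrix.smul_mul, Matrix.mul_smul, Matrix.one_mul, Matrix.mul_one]
  have hs₀κ : s₀ * κ = (u • 1 - t • α) * s₀ := by
    simp only [κ, sub_mul, mul_add, Matrix.smul_mul, Matrix.mul_smul, Matrix.one_mul, Matrix.mul_one, hs₀α]
    simp [sub_eq_add_neg, smul_neg]
  let Y : Matrix (Fin 2) (Fin 2) F := κ * s₀
  have hYY : Y * Y = -1 := by
    have h1 : Y * Y = κ * (s₀ * κ) * s₀ := by
      simp only [Y, Matrix.mul_assoc]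
    have h3 : κ * (u • 1 - t • α) = (-1 : F) • 1 := by
      have e0 : κ * (u • 1 - t • α) = (u * u - t * (t * d)) • 1 := by
        simp only [κ, mul_sub, add_mul, Matrix.smul_mul, Matrix.mul_smul, Matrix.one_mul, Matrix.mul_one, hα2]
        simp only [sub_smul, smul_smul]
        rw [mul_comm u t]
        abel
      rw [e0]
      congr 1
      linear_combination hut
    rw [h1, hs₀κ, ← Matrix.mul_assoc, h3, Matrix.mul_assoc, hs₀s₀, Matrix.mul_one]
    simp
  have hYα : Y * α = -(α * Y) := by
    simp only [Y]
    rw [Matrix.mul_assoc, hs₀α, Matrix.mul_neg, ← Matrix.mul_assoc, hκα, Matrix.mul_assoc]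
  -- the invertible element
  let W : GL (Fin 2) F := ⟨Y, -Y, by rw [Matrix.mul_neg, hYY, neg_neg], by rw [Matrix.neg_mul, hYY, neg_neg]⟩
  have hWN : W ∈ Cfsg.Geo.subalgebraNormalizer K := mem_normalizer_of_anti hK hαK hαns W hYα
  -- trace and determinant
  have htrY : Matrix.trace Y = 0 := by
    have h1 : Matrix.trace (Y * (α * α)) = -Matrix.trace (Y * (α * α)) := by
      have h3 : Y * (α * α) = -(α * (Y * α)) := by
        calc Y * (α * α) = (Y * α) * α := (Matrix.mul_assoc _ _ _).symm
          _ = -(α * Y) * α := by rw [hYα]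
          _ = -(α * (Y * α)) := by rw [Matrix.neg_mul, Matrix.mul_assoc]
      nth_rewrite 1 [h3]
      rw [Matrix.trace_neg, Matrix.trace_mul_comm, Matrix.mul_assoc]
    rw [hα2, Matrix.mul_smul, Matrix.mul_one, Matrix.trace_smul, smul_eq_mul] at h1
    have h4 : 2 * (d * Matrix.trace Y) = 0 := by linear_combination h1
    have h5 := (mul_eq_zero.mp h4).resolve_left h2
    exact (mul_eq_zero.mp h5).resolve_left hd0
  have hdetY : Y.det = 1 := by
    have hc := Cfsg.Agent.S5997.cayley_two Y
    rw [hYY, htrY, zero_smul, zero_sub] at hc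
    have := congrFun (congrFun hc 0) 0
    simpa using this.symm
  have hodd : Fintype.card F % 2 = 1 := by
    by_contra hcon
    have h1 : ringChar F ≠ 2 := by
      intro hch
      apply h2
      have : CharP F 2 := hch ▸ ringChar.charP F
      exact CharTwo.two_eq_zero
    exact hcon (FiniteField.odd_card_of_char_ne_two h1)
  have hxs : (Matrix.SpecialLinearGroup.toGL x : GL (Fin 2) F) ∈ Cfsg.Geo.specialLinear (Fin 2) F := by
    change Matrix.GeneralLinearGroup.det _ = 1
    apply Units.ext
    simp
  have hWs : W ∈ Cfsg.Geo.specialLinear (Fin 2) F := by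
    change Matrix.GeneralLinearGroup.det _ = 1
    apply Units.ext
    simpa [W] using hdetY
  have h4 : (2 : F) ^ 2 ≠ 0 := pow_ne_zero _ h2
  obtain ⟨g, hg, hgW⟩ := Cfsg.Agent.S5997.conj_of_trace hodd _ W hxs hWs
    (by
      change Matrix.trace (x : Matrix (Fin 2) (Fin 2) F) = Matrix.trace Y
      rw [htr, htrY])
    (by
      change (Matrix.trace (x : Matrix (Fin 2) (Fin 2) F)) ^ 2 ≠ 4
      rw [htr]
      intro h
      apply h4
      rw [show (2 : F) ^ 2 = 4 by norm_num, ← h]
      ring)
  have hgdet : (g : Matrix (Fin 2) (Fin 2) F).det = 1 := by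
    have h1 : Matrix.GeneralLinearGroup.det g = 1 := hg
    have h3 := congrArg Units.val h1
    simpa using h3
  let P : Matrix.SpecialLinearGroup (Fin 2) F := ⟨g, hgdet⟩
  refine ⟨P, ?_⟩
  have hPg : (Matrix.SpecialLinearGroup.toGL P : GL (Fin 2) F) = g := Units.ext rfl
  rw [Subgroup.mem_comap, map_mul, map_mul, map_inv, hPg, hgW]
  exact hWN

/-- Involutions of PSL_n(q) and extension-field subgroups of degree 2. Here `T = PSL_n(F)` for a field `F` with `q = p^f` elements (`n ≥ 2`, `(n, q) ≠ (2, 2), (2, 3)`), `k` is a prime dividing `n`, `K` is a subalgebra of the `n × n` matrices that is a field of degree `k` over `F` (an extension-field structure F_{q^k} on `F^n`), and `H` is the subgroup of matrices of determinant 1 normalizing `K` — a subgroup of type GL_{n/k}(q^k) (maximal except in some small cases; maximality is not assumed); Ω is the set of cosets of `H` in `T`, so an element of `T` of prime order `r` (a matrix `x` of determinant 1 with `x^r` scalar, `x` not scalar) fixes a point of Ω when some conjugate of `x`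 by a matrix of determinant 1 normalizes `K`. Take `k = 2` and suppose the index of `H` is even. Then every involution of `T` is conjugate in `T` into `H` if and only if `n = 2`, or `q` is odd and `(q − 1)_2 ≤ (n)_2`. -/
theorem result {F : Type*} [Field F] [Fintype F] {p : ℕ} [Fact p.Prime] [CharP F p] {q : ℕ} (hq : Fintype.card F = q)
    (n : ℕ) (hn : 2 ≤ n) (hT : (n, q) ≠ (2, 2) ∧ (n, q) ≠ (2, 3))
    (k : ℕ) (hk : k.Prime) (hkn : k ∣ n) (K : Subalgebra F (Matrix (Fin n) (Fin n) F)) (hK : Cfsg.Geo.IsFieldSubalgebra k K) (hk2 : k = 2) (hΩ : 2 ∣ ((Cfsg.Geo.subalgebraNormalizer K).comap (Matrix.SpecialLinearGroup.toGL : Matrix.SpecialLinearGroup (Fin n) F →* GL (Fin n) F)).index) :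
    (∀ x : Matrix.SpecialLinearGroup (Fin n) F,
      (∃ z : F, ((x ^ 2 : Matrix.SpecialLinearGroup (Fin n) F) : Matrix (Fin n) (Fin n) F) = z • (1 : Matrix (Fin n) (Fin n) F)) →
      (∀ z : F, (x : Matrix (Fin n) (Fin n) F) ≠ z • (1 : Matrix (Fin n) (Fin n) F)) →
      ∃ P : Matrix.SpecialLinearGroup (Fin n) F, P⁻¹ * x * P ∈ ((Cfsg.Geo.subalgebraNormalizer K).comap (Matrix.SpecialLinearGroup.toGL : Matrix.SpecialLinearGroup (Fin n) F →* GL (Fin n) F))) ↔
    (n = 2 ∨ (Odd q ∧ padicValNat 2 (q - 1) ≤ padicValNat 2 n)) := by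
  classical
  subst hk2
  have hn0 : n ≠ 0 := by omega
  have hq2 : 2 ≤ q := hq ▸ Fintype.one_lt_card
  have hne : Nonempty (Fin n) := ⟨⟨0, by omega⟩⟩
  have hcardι : Fintype.card (Fin n) = n := Fintype.card_fin n
  constructor
  · intro hall
    by_cases hn2 : n = 2
    · exact Or.inl hn2
    right
    have hev : Even n := even_iff_two_dvd.mpr hkn
    have hn4 : 4 ≤ n := by
      rcases hev with ⟨m, hm⟩
      omega
    by_contra hcon
    let i0 : Fin n := ⟨0, by omega⟩
    let i1 : Fin n := ⟨1, by omega⟩
    have h01 : i0 ≠ i1 := by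
      intro h
      have := congrArg Fin.val h
      simp [i0, i1] at this
    by_cases h2 : (2 : F) = 0
    · -- transvection
      have hdet : (Matrix.transvection i0 i1 (1 : F)).det = 1 := Matrix.det_transvection_of_ne _ _ h01 _
      let x : Matrix.SpecialLinearGroup (Fin n) F := ⟨Matrix.transvection i0 i1 (1 : F), hdet⟩
      have hxu : ∀ u, (x : Matrix (Fin n) (Fin n) F).mulVec u = (1 : F) • u + (LinearMap.proj i1 : (Fin n → F) →ₗ[F] F) u • (Pi.single i0 1 : Fin n → F) := by
        intro u
        change (Matrix.transvection i0 i1 (1 : F)).mulVec u = _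
        rw [Matrix.transvection, Matrix.add_mulVec, Matrix.one_mulVec, one_smul]
        congr 1
        rw [Matrix.single_mulVec]
        funext j
        simp [Pi.single_apply, Function.update_apply]
      have hsq : (x : Matrix (Fin n) (Fin n) F) * (x : Matrix (Fin n) (Fin n) F) = 1 := by
        apply Matrix.toLin'.injective
        refine LinearMap.ext fun u => ?_
        rw [Matrix.toLin'_apply, Matrix.toLin'_one, LinearMap.id_apply, ← Matrix.mulVec_mulVec, hxu, hxu]
        simp only [map_add, map_smul, LinearMap.proj_apply, one_smul, Pi.single_apply, smul_eq_mul]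
        have h3 : i1 ≠ i0 := h01.symm
        simp only [h3, if_false, mul_zero, zero_smul, add_zero, add_assoc]
        have : u i1 • (Pi.single i0 1 : Fin n → F) + u i1 • (Pi.single i0 1 : Fin n → F) = (2 * u i1) • (Pi.single i0 1 : Fin n → F) := by
          rw [two_mul, add_smul]
        rw [this, h2, zero_mul, zero_smul, add_zero]
      have hx1 : ∃ z : F, ((x ^ 2 : Matrix.SpecialLinearGroup (Fin n) F) : Matrix (Fin n) (Fin n) F) = z • (1 : Matrix (Fin n) (Fin n) F) := by
        refine ⟨1, ?_⟩
        rw [pow_two, Matrix.SpecialLinearGroup.coe_mul, hsq, one_smul]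
      have hx2 : ∀ z : F, (x : Matrix (Fin n) (Fin n) F) ≠ z • (1 : Matrix (Fin n) (Fin n) F) := by
        intro z hz
        have h3 := congrFun (congrFun hz i0) i1
        change Matrix.transvection i0 i1 (1 : F) i0 i1 = _ at h3
        simp [Matrix.transvection, Matrix.one_apply, h01] at h3
      obtain ⟨P, hP⟩ := hall x hx1 hx2
      refine no_conj_of_rank_one hn4 hev hK x P 1 _ ?_ _ ?_ hxu hP
      · intro h
        have := LinearMap.congr_fun h (Pi.single i1 1)
        simp at this
      · intro h
        have := congrFun h i0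
        simp at this
    · -- scalar times reflection
      have hodd : Odd q := by
        by_contra hcon2
        rw [Nat.not_odd_iff_even] at hcon2
        apply h2
        have h3 : ((q : ℕ) : F) = 0 := by
          rw [← hq]
          exact Nat.cast_card_eq_zero F
        obtain ⟨m, hm⟩ := hcon2
        have hp2 : ringChar F = 2 := by
          by_contra hch
          have := FiniteField.odd_card_of_char_ne_two hch
          rw [hq] at this
          omega
        have : CharP F 2 := hp2 ▸ ringChar.charP F
        exact CharTwo.two_eq_zero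
      have hlt : padicValNat 2 n + 1 ≤ padicValNat 2 (q - 1) := by
        by_contra h3
        exact hcon ⟨hodd, by omega⟩
      set s := padicValNat 2 n with hs
      have hdvd : 2 ^ (s + 1) ∣ q - 1 :=
        (padicValNat_dvd_iff_le (by omega)).2 hlt
      have hneg : (-1 : F) ≠ 1 := by
        intro h
        apply h2
        have : (1 : F) + 1 = 0 := by
          nth_rewrite 1 [← h]
          ring
        rw [← this]
        ring
      obtain ⟨γ, hγ⟩ := IsCyclic.exists_generator (α := Fˣ)
      have hγo : orderOf γ = q - 1 := by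
        rw [orderOf_eq_card_of_forall_mem_zpowers hγ, Nat.card_eq_fintype_card, Fintype.card_units, hq]
      obtain ⟨k', hk'⟩ := hdvd
      let δ₀ : Fˣ := γ ^ k'
      have hq1 : q - 1 ≠ 0 := by omega
      have hδ₀ : orderOf δ₀ = 2 ^ (s + 1) := by
        have := orderOf_pow_of_dvd (x := γ) (n := k') (by
          intro h
          rw [h, mul_zero] at hk'
          exact hq1 hk') (by rw [hγo, hk']; exact dvd_mul_left _ _)
        rw [this, hγo, hk']
        have hk0 : k' ≠ 0 := by
          intro h
          rw [h, mul_zero] at hk'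
          exact hq1 hk'
        exact Nat.mul_div_cancel _ (Nat.pos_of_ne_zero hk0)
      let δ : F := (δ₀ : F)
      have hδ0 : δ ≠ 0 := δ₀.ne_zero
      have hδpow : δ ^ (2 ^ s) = -1 := by
        have h1 : (δ ^ (2 ^ s)) ^ 2 = 1 := by
          have : δ₀ ^ (2 ^ (s + 1)) = 1 := by
            rw [← hδ₀]
            exact pow_orderOf_eq_one _
          have h3 := congrArg Units.val this
          rw [Units.val_pow_eq_pow_val, Units.val_one, pow_succ, pow_mul] at h3
          exact h3
        have h4 : δ ^ (2 ^ s) ≠ 1 := by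
          intro h
          have : δ₀ ^ (2 ^ s) = 1 := by
            ext
            rw [Units.val_pow_eq_pow_val, Units.val_one]
            exact h
          have h5 := orderOf_dvd_of_pow_eq_one this
          rw [hδ₀] at h5
          have := Nat.le_of_dvd (by positivity) h5
          have h6 : 2 ^ s < 2 ^ (s + 1) := Nat.pow_lt_pow_right (by norm_num) (by omega)
          omega
        have h5 : (δ ^ (2 ^ s) - 1) * (δ ^ (2 ^ s) + 1) = 0 := by
          linear_combination h1
        rcases mul_eq_zero.mp h5 with h | h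
        · exact absurd (sub_eq_zero.mp h) h4
        · linear_combination h
      obtain ⟨m, hm⟩ : 2 ^ s ∣ n := pow_padicValNat_dvd
      have hmodd : Odd m := by
        rw [← Nat.not_even_iff_odd]
        rintro ⟨r, rfl⟩
        have : 2 ^ (s + 1) ∣ n := ⟨r, by rw [hm]; ring⟩
        have hfact : Fact (Nat.Prime 2) := ⟨Nat.prime_two⟩
        exact pow_succ_padicValNat_not_dvd hn0 this
      have hδn : δ ^ n = -1 := by
        rw [hm, pow_mul, hδpow]
        exact hmodd.neg_one_pow
      let d : Fin n → F := fun i => δ * (if i = i0 then -1 else 1)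
      have hddet : (Matrix.diagonal d).det = 1 := by
        rw [Matrix.det_diagonal]
        simp only [d]
        rw [Finset.prod_mul_distrib, Finset.prod_const, Finset.card_univ, Fintype.card_fin, hδn,
          Finset.prod_ite_eq' Finset.univ i0 (fun _ => (-1 : F))]
        simp
      let x : Matrix.SpecialLinearGroup (Fin n) F := ⟨Matrix.diagonal d, hddet⟩
      have hx1 : ∃ z : F, ((x ^ 2 : Matrix.SpecialLinearGroup (Fin n) F) : Matrix (Fin n) (Fin n) F) = z • (1 : Matrix (Fin n) (Fin n) F) := by
        refine ⟨δ ^ 2, ?_⟩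
        rw [pow_two, Matrix.SpecialLinearGroup.coe_mul]
        change Matrix.diagonal d * Matrix.diagonal d = _
        rw [Matrix.diagonal_mul_diagonal, ← Matrix.diagonal_one, ← Matrix.diagonal_smul]
        congr 1
        funext i
        simp only [d, Pi.smul_apply, smul_eq_mul]
        by_cases hi : i = i0 <;> simp [hi] <;> ring
      have hx2 : ∀ z : F, (x : Matrix (Fin n) (Fin n) F) ≠ z • (1 : Matrix (Fin n) (Fin n) F) := by
        intro z hz
        have h0 := congrFun (congrFun hz i0) i0
        have h1 := congrFun (congrFun hz i1) i1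
        have hi10 : i1 ≠ i0 := h01.symm
        change Matrix.diagonal d i0 i0 = _ at h0
        change Matrix.diagonal d i1 i1 = _ at h1
        simp [d, hi10] at h0 h1
        have h3 : 2 * δ = 0 := by
          have : -δ = δ := by rw [h0, h1]
          linear_combination -this
        rcases mul_eq_zero.mp h3 with h | h
        · exact h2 h
        · exact hδ0 h
      obtain ⟨P, hP⟩ := hall x hx1 hx2
      have hxu : ∀ u, (x : Matrix (Fin n) (Fin n) F).mulVec u = δ • u + ((-(2 * δ)) • (LinearMap.proj i0 : (Fin n → F) →ₗ[F] F)) u • (Pi.single i0 1 : Fin n → F) := by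
        intro v
        funext i
        change (Matrix.diagonal d).mulVec v i = _
        simp only [Matrix.mulVec_diagonal, Pi.add_apply, Pi.smul_apply, smul_eq_mul, d, Pi.single_apply,
          LinearMap.smul_apply, LinearMap.proj_apply]
        by_cases hi : i = i0
        · subst hi
          simp
          ring
        · simp [hi]
      refine no_conj_of_rank_one hn4 hev hK x P δ _ ?_ _ ?_ hxu hP
      · intro h
        have := LinearMap.congr_fun h (Pi.single i0 1)
        simp only [LinearMap.smul_apply, LinearMap.proj_apply, Pi.single_eq_same, smul_eq_mul, mul_one,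
          LinearMap.zero_apply, neg_eq_zero] at this
        rcases mul_eq_zero.mp this with h | h
        · exact h2 h
        · exact hδ0 h
      · intro h
        have := congrFun h i0
        simp at this
  · rintro (rfl | ⟨hodd, hval⟩) x hx1 hx2
    · -- `n = 2`
      obtain ⟨z, hz⟩ := hx1
      have hsq : (x : Matrix (Fin 2) (Fin 2) F) * (x : Matrix (Fin 2) (Fin 2) F) = z • (1 : Matrix (Fin 2) (Fin 2) F) := by
        have h := hz
        rw [pow_two, Matrix.SpecialLinearGroup.coe_mul] at h
        exact h
      have hc := Cfsg.Agent.S5997.cayley_two (x : Matrix (Fin 2) (Fin 2) F)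
      rw [hsq, Matrix.SpecialLinearGroup.det_coe, one_smul] at hc
      have htr : Matrix.trace (x : Matrix (Fin 2) (Fin 2) F) = 0 := by
        by_contra ht
        apply hx2 ((z + 1) / Matrix.trace (x : Matrix (Fin 2) (Fin 2) F))
        have h1 : Matrix.trace (x : Matrix (Fin 2) (Fin 2) F) • (x : Matrix (Fin 2) (Fin 2) F) = (z + 1) • 1 := by
          rw [add_smul, hc, one_smul]
          abel
        rw [div_eq_inv_mul, mul_smul, ← h1, smul_smul, inv_mul_cancel₀ ht, one_smul]
      have hxx : (x : Matrix (Fin 2) (Fin 2) F) * (x : Matrix (Fin 2) (Fin 2) F) = -1 := by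
        rw [hsq, hc, htr, zero_smul, zero_sub]
      by_cases h2 : (2 : F) = 0
      · -- characteristic two
        exact case_two_even hK h2 x hxx hx2
      · exact case_two_odd hK h2 x hxx htr
    · -- the parity case
      obtain ⟨z, hz⟩ := hx1
      have h2 : (2 : F) ≠ 0 := by
        intro h2
        have : CharP F 2 := CharTwo.of_one_ne_zero_of_two_eq_zero one_ne_zero h2
        have hch : ringChar F = 2 := ringChar.eq F 2
        have heven := FiniteField.even_card_of_char_two hch
        rw [hq] at heven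
        exact (Nat.not_even_iff_odd.mpr hodd) (Nat.even_iff.mpr heven)
      have hsq : (x : Matrix (Fin n) (Fin n) F) * (x : Matrix (Fin n) (Fin n) F) = z • (1 : Matrix (Fin n) (Fin n) F) := by
        have h := hz
        rw [pow_two, Matrix.SpecialLinearGroup.coe_mul] at h
        exact h
      have hz0 : z ≠ 0 := by
        rintro rfl
        rw [zero_smul] at hsq
        have : (x : Matrix (Fin n) (Fin n) F).det * (x : Matrix (Fin n) (Fin n) F).det = 0 := by
          rw [← Matrix.det_mul, hsq]
          exact Matrix.det_zero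
        rw [Matrix.SpecialLinearGroup.det_coe] at this
        simp at this
      let g : (Fin n → F) →ₗ[F] (Fin n → F) := Matrix.toLin' (x : Matrix (Fin n) (Fin n) F)
      have hg : ∀ v, g (g v) = z • v := by
        intro v
        simp only [g, Matrix.toLin'_apply, Matrix.mulVec_mulVec, hsq, Matrix.smul_mulVec, Matrix.one_mulVec]
      have hfin : finrank F (Fin n → F) = n := by simp
      obtain ⟨α, hαK, d, hα2, hdns, hαns⟩ := exists_sqrt_elt hK h2
      have hd0 : d ≠ 0 := by
        rintro rfl
        exact hdns (IsSquare.zero)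
      by_cases hsqz : IsSquare z
      · -- eigenspaces
        obtain ⟨w, hw⟩ := hsqz
        have hw0 : w ≠ 0 := by
          rintro rfl
          apply hz0
          rw [hw]
          ring
        obtain ⟨a, c, e, he1, he2⟩ := Cfsg.Agent.S5967.exists_eigen_basis g w hw0 h2 (by
          intro v
          rw [hg, hw]
          congr 1
          ring)
        have hac : a + c = n := by
          have := finrank_eq_card_basis e
          rw [hfin] at this
          simpa using this.symm
        have hdetg : w ^ a * (-w) ^ c = 1 := by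
          have h1 : LinearMap.det g = 1 := by
            simp only [g]
            rw [LinearMap.det_toLin']
            exact Matrix.SpecialLinearGroup.det_coe x
          have h3 : LinearMap.toMatrix e e g = Matrix.diagonal (Sum.elim (fun _ => w) (fun _ => -w)) := by
            ext p p'
            rw [LinearMap.toMatrix_apply]
            rcases p' with i | j
            · rw [he1]
              simp [Matrix.diagonal_apply, Finsupp.single_apply]
              rcases p with i' | j'
              · by_cases h : i = i'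
                · simp [h]
                · have h' : i' ≠ i := fun hh => h hh.symm
                  simp [h, h']
              · simp
            · rw [he2]
              simp [Matrix.diagonal_apply, Finsupp.single_apply]
              rcases p with i' | j'
              · simp
              · by_cases h : j = j'
                · simp [h]
                · have h' : j' ≠ j := fun hh => h hh.symm
                  simp [h, h']
          rw [← LinearMap.det_toMatrix e, h3, Matrix.det_diagonal] at h1
          simpa using h1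
        have hceven : Even c := by
          by_contra hodd'
          rw [Nat.not_even_iff_odd] at hodd'
          have hpow : w ^ n = -1 := by
            rw [hodd'.neg_pow] at hdetg
            rw [← hac, pow_add]
            linear_combination -hdetg
          have := Cfsg.Agent.S5967.padic_of_pow_eq_neg_one hq h2 n hn0 w hpow
          omega
        have hev : Even n := even_iff_two_dvd.mpr hkn
        obtain ⟨c', rfl⟩ : ∃ c', c = 2 * c' := by
          obtain ⟨r, hr⟩ := hceven
          exact ⟨r, by omega⟩
        obtain ⟨a', rfl⟩ : ∃ a', a = 2 * a' := by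
          obtain ⟨r, hr⟩ := hev
          exact ⟨r - c', by omega⟩
        let ε : Fin 2 × (Fin a' ⊕ Fin c') ≃ Fin (2 * a') ⊕ Fin (2 * c') :=
          (Equiv.prodSumDistrib _ _ _).trans (Equiv.sumCongr finProdFinEquiv finProdFinEquiv)
        let b : Basis (Fin 2 × (Fin a' ⊕ Fin c')) F (Fin n → F) := e.reindex ε.symm
        have hb : ∀ p, b p = e (ε p) := fun p => by simp [b]
        let M : Fin a' ⊕ Fin c' → Matrix (Fin 2) (Fin 2) F :=
          Sum.elim (fun _ => w • (1 : Matrix (Fin 2) (Fin 2) F))
            (fun _ => (-w) • (1 : Matrix (Fin 2) (Fin 2) F))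
        refine exists_conj_of_blocks hK x hαK hαns hd0 hα2 b M ?_ ?_
        · change ∀ i m, g (b (i, m)) = _
          rintro i (k | l') <;> fin_cases i
          · simp [hb, M, ε, Fin.sum_univ_two, he1]
          · simp [hb, M, ε, Fin.sum_univ_two, he1]
          · simp [hb, M, ε, Fin.sum_univ_two, he2]
          · simp [hb, M, ε, Fin.sum_univ_two, he2]
        · rintro (k | l') <;> simp [M]
      · -- `z` non-square: `x` looks like a square root of `z`
        obtain ⟨K', L, _, _, e, s, h1, h3, h4⟩ := exists_normal_basis g z hz0 hg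
        have hLempty : IsEmpty L := ⟨fun l => by
          apply hsqz
          have h5 := hg (e (.inr l))
          rw [h4, map_smul, h4, smul_smul] at h5
          have h6 : (s l * s l - z) • e (.inr l) = 0 := by
            rw [sub_smul, h5, sub_self]
          have h7 := (smul_eq_zero.mp h6).resolve_right (e.ne_zero _)
          exact ⟨s l, by linear_combination -h7⟩⟩
        -- the element `θ`
        have hcharne : ringChar F ≠ 2 := by
          intro hch
          apply h2
          have : CharP F 2 := hch ▸ ringChar.charP F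
          exact CharTwo.two_eq_zero
        have hχ : IsSquare (z * d) := by
          rw [← quadraticChar_one_iff_isSquare (mul_ne_zero hz0 hd0), map_mul,
            (quadraticChar_neg_one_iff_not_isSquare).2 hsqz,
            (quadraticChar_neg_one_iff_not_isSquare).2 hdns]
          norm_num
        obtain ⟨r, hr⟩ := hχ
        let t : F := r / d
        have ht0 : t ≠ 0 := by
          intro ht
          have hr0 : r = 0 := by
            have := (div_eq_zero_iff.mp ht).resolve_right hd0
            exact this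
          rw [hr0, mul_zero] at hr
          exact (mul_ne_zero hz0 hd0) hr
        have htz : t * t * d = z := by
          simp only [t]
          field_simp
          linear_combination -hr
        have hθK : t • α ∈ K := K.smul_mem hαK _
        have hθns : ∀ z' : F, t • α ≠ z' • 1 := by
          intro z' h
          apply hαns (t⁻¹ * z')
          rw [mul_smul, ← h, smul_smul, inv_mul_cancel₀ ht0, one_smul]
        have hθ2 : (t • α) * (t • α) = z • 1 := by
          rw [Matrix.smul_mul, Matrix.mul_smul, hα2, smul_smul, smul_smul, htz]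
        let ε : Fin 2 × K' ≃ (K' × Bool) ⊕ L :=
          { toFun := fun p => .inl (p.2, decide (p.1 = 1))
            invFun := fun y => match y with
              | .inl (k, b) => (if b then 1 else 0, k)
              | .inr l => (hLempty.false l).elim
            left_inv := by
              rintro ⟨i, k⟩
              fin_cases i <;> simp
            right_inv := by
              rintro (⟨k, b⟩ | l)
              · cases b <;> simp
              · exact (hLempty.false l).elim }
        let b : Basis (Fin 2 × K') F (Fin n → F) := e.reindex ε.symm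
        have hb : ∀ p, b p = e (ε p) := fun p => by simp [b]
        refine exists_conj_of_blocks hK x hθK hθns hz0 hθ2 b (fun _ => swapBlock z) ?_ ?_
        · change ∀ i m, g (b (i, m)) = _
          intro i k
          fin_cases i
          · simp [hb, ε, swapBlock, Fin.sum_univ_two, h1]
          · simp [hb, ε, swapBlock, Fin.sum_univ_two, h3]
        · intro _
          rfl

end Cfsg.Agent.S5969
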