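import Cfsg.Statements.S5970
import Cfsg.Agent.Lib.Elusive.FieldSub
import Cfsg.Agent.Lib.Elusive.CycConj
import Cfsg.Agent.Lib.Elusive.BlockElt

set_option autoImplicit false
open scoped MatrixGroups
open Cfsg

namespace Cfsg.Agent.S5970


/-- The element `diag(ζ, ζ⁻¹, 1, …, 1)`. -/
theorem exists_diag_elt {F : Type*} [Field F] {k : ℕ} (hk4 : 4 ≤ k) (ζ : F) (hζk : ζ ^ k = 1) (hζ1 : ζ ≠ 1)
    (hζ0 : ζ ≠ 0) :
    ∃ x : Matrix.SpecialLinearGroup (Fin k) F,
      ((x ^ k : Matrix.SpecialLinearGroup (Fin k) F) : Matrix (Fin k) (Fin k) F) = 1 ∧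
      (∀ z : F, (x : Matrix (Fin k) (Fin k) F) ≠ z • 1) ∧
      ∃ v v' : Fin k → F, LinearIndependent F ![v, v'] ∧
        (x : Matrix (Fin k) (Fin k) F).mulVec v = v ∧ (x : Matrix (Fin k) (Fin k) F).mulVec v' = v' := by
  classical
  let i0 : Fin k := ⟨0, by omega⟩
  let i1 : Fin k := ⟨1, by omega⟩
  let i2 : Fin k := ⟨2, by omega⟩
  let i3 : Fin k := ⟨3, by omega⟩
  have h01 : i0 ≠ i1 := fun h => by simpa [i0, i1] using congrArg Fin.val h
  have h02 : i0 ≠ i2 := fun h => by simpa [i0, i2] using congrArg Fin.val h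
  have h03 : i0 ≠ i3 := fun h => by simpa [i0, i3] using congrArg Fin.val h
  have h12 : i1 ≠ i2 := fun h => by simpa [i1, i2] using congrArg Fin.val h
  have h13 : i1 ≠ i3 := fun h => by simpa [i1, i3] using congrArg Fin.val h
  have h23 : i2 ≠ i3 := fun h => by simpa [i2, i3] using congrArg Fin.val h
  let d : Fin k → F := fun i => if i = i0 then ζ else if i = i1 then ζ⁻¹ else 1
  have hd0 : d i0 = ζ := by simp [d]
  have hd1' : d i1 = ζ⁻¹ := by simp [d, Ne.symm h01]
  have hd2 : d i2 = 1 := by simp [d, Ne.symm h02, Ne.symm h12]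
  have hd3 : d i3 = 1 := by simp [d, Ne.symm h03, Ne.symm h13]
  have hdet : (Matrix.diagonal d).det = 1 := by
    rw [Matrix.det_diagonal, Finset.prod_eq_mul i0 i1 h01, hd0, hd1', mul_inv_cancel₀ hζ0]
    · intro c _ hc
      simp [d, hc.1, hc.2]
    · simp
    · simp
  let x : Matrix.SpecialLinearGroup (Fin k) F := ⟨Matrix.diagonal d, hdet⟩
  have hxn : ((x ^ k : Matrix.SpecialLinearGroup (Fin k) F) : Matrix (Fin k) (Fin k) F) = 1 := by
    rw [Matrix.SpecialLinearGroup.coe_pow]
    change (Matrix.diagonal d) ^ k = 1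
    rw [Matrix.diagonal_pow, ← Matrix.diagonal_one]
    congr 1
    funext i
    simp only [Pi.pow_apply, d]
    by_cases hi0 : i = i0
    · simp [hi0, hζk]
    · by_cases hi1 : i = i1
      · simp [hi1, Ne.symm h01, hζk]
      · simp [hi0, hi1]
  have hxs : ∀ z : F, (x : Matrix (Fin k) (Fin k) F) ≠ z • 1 := by
    intro z hz
    have h1 := congrFun (congrFun hz i0) i0
    have h2 := congrFun (congrFun hz i2) i2
    change Matrix.diagonal d i0 i0 = _ at h1
    change Matrix.diagonal d i2 i2 = _ at h2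
    simp only [Matrix.diagonal_apply_eq, Matrix.smul_apply, Matrix.one_apply_eq, smul_eq_mul, mul_one] at h1 h2
    rw [hd0] at h1
    rw [hd2] at h2
    exact hζ1 (h1.trans h2.symm)
  have hfix : ∀ i : Fin k, d i = 1 → (x : Matrix (Fin k) (Fin k) F).mulVec (Pi.single i 1) = Pi.single i 1 := by
    intro i hi
    change (Matrix.diagonal d).mulVec _ = _
    funext j
    rw [Matrix.mulVec_diagonal]
    by_cases hj : j = i
    · subst hj
      simp [hi]
    · simp [hj]
  have hli : LinearIndependent F ![(Pi.single i2 1 : Fin k → F), Pi.single i3 1] := by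
    rw [LinearIndependent.pair_iff]
    intro s r hsr
    have h3 := congrFun hsr i2
    have h4 := congrFun hsr i3
    simp [h23, Ne.symm h23] at h3 h4
    exact ⟨h3, h4⟩
  exact ⟨x, hxn, hxs, _, _, hli, hfix i2 hd2, hfix i3 hd3⟩

/-- The part `q` primitive root implies conjugacy. -/
theorem construct_part {F : Type*} [Field F] [Fintype F] {p : ℕ} [Fact p.Prime] [CharP F p] {q : ℕ}
    (hq : Fintype.card F = q) (k : ℕ) (hk : k.Prime) (hnp : k ≠ p) (h3 : 3 < k)
    (K : Subalgebra F (Matrix (Fin k) (Fin k) F)) (hK : Cfsg.Geo.IsFieldSubalgebra k K)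
    (hkE : (k : F) ≠ 0) (hord : orderOf ((q : ℕ) : ZMod k) = k - 1)
    (x : Matrix.SpecialLinearGroup (Fin k) F)
    (hz : ((x ^ k : Matrix.SpecialLinearGroup (Fin k) F) : Matrix (Fin k) (Fin k) F) = 1)
    (hxs : ∀ z : F, (x : Matrix (Fin k) (Fin k) F) ≠ z • 1) :
    ∃ P : Matrix.SpecialLinearGroup (Fin k) F, P⁻¹ * x * P ∈ ((Cfsg.Geo.subalgebraNormalizer K).comap (Matrix.SpecialLinearGroup.toGL : Matrix.SpecialLinearGroup (Fin k) F →* GL (Fin k) F)) := by
  have hcardι : Fintype.card (Fin k) = k := Fintype.card_fin k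
  obtain ⟨W, hWN, hWr, hWs⟩ := Cfsg.Agent.Lib.Elusive.FieldSub.exists_frobenius hK hcardι (by omega)
  let T : (Fin k → F) →ₗ[F] (Fin k → F) := Matrix.toLin' (x : Matrix (Fin k) (Fin k) F)
  let T' : (Fin k → F) →ₗ[F] (Fin k → F) := Matrix.toLin' (W : Matrix (Fin k) (Fin k) F)
  have hTpow : ∀ (j : ℕ) (v : Fin k → F), (T ^ j) v = ((x ^ j : Matrix.SpecialLinearGroup (Fin k) F) : Matrix (Fin k) (Fin k) F).mulVec v := by
    intro j
    induction j with
    | zero => intro v; simp
    | succ j ih =>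
      intro v
      rw [pow_succ', Module.End.mul_apply, ih, pow_succ', Matrix.SpecialLinearGroup.coe_mul, ← Matrix.mulVec_mulVec]
      rfl
  have hTpow' : ∀ (j : ℕ) (v : Fin k → F), (T' ^ j) v = ((W ^ j : GL (Fin k) F) : Matrix (Fin k) (Fin k) F).mulVec v := by
    intro j
    induction j with
    | zero => intro v; simp
    | succ j ih =>
      intro v
      rw [pow_succ', Module.End.mul_apply, ih, pow_succ', Units.val_mul, ← Matrix.mulVec_mulVec]
      rfl
  have hTk : ∀ v, (T ^ k) v = v := by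
    intro v
    rw [hTpow, hz, Matrix.one_mulVec]
  have hTk' : ∀ v, (T' ^ k) v = v := by
    intro v
    rw [hTpow', hWr]
    simp
  have hT1 : ∃ v, T v ≠ v := by
    by_contra hcon
    push Not at hcon
    apply hxs 1
    rw [one_smul]
    apply Matrix.ext_of_mulVec_single
    intro i
    rw [Matrix.one_mulVec]
    exact hcon _
  have hT1' : ∃ v, T' v ≠ v := by
    by_contra hcon
    push Not at hcon
    apply hWs 1
    rw [one_smul]
    apply Matrix.ext_of_mulVec_single
    intro i
    rw [Matrix.one_mulVec]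
    exact hcon _
  have hfin : Module.finrank F (Fin k → F) = k := by simp
  obtain ⟨u, hu⟩ := Cfsg.Agent.Lib.Elusive.CycConj.exists_cyclic_of_order hq hk hnp (by omega) hord hfin T hTk hT1
  obtain ⟨u', hu'⟩ := Cfsg.Agent.Lib.Elusive.CycConj.exists_cyclic_of_order hq hk hnp (by omega) hord hfin T' hTk' hT1'
  obtain ⟨Q, hQ⟩ := Cfsg.Agent.Lib.Elusive.CycConj.exists_intertwiner T T' hfin (by omega) 1
    (fun v => by rw [hTk, one_smul]) (fun v => by rw [hTk', one_smul]) u u' hu hu'
  have hQ0 : LinearMap.det Q.toLinearMap ≠ 0 := (LinearEquiv.isUnit_det' Q).ne_zero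
  obtain ⟨E, hEd, hEc⟩ := Cfsg.Agent.Lib.Elusive.CycConj.exists_comm_det_of_cyclic T hfin (by omega) hTk hkE u hu
    (LinearMap.det Q.toLinearMap)⁻¹ (inv_ne_zero hQ0)
  let R : (Fin k → F) ≃ₗ[F] (Fin k → F) := E.trans Q
  have hR : LinearMap.det R.toLinearMap = 1 := by
    have : R.toLinearMap = Q.toLinearMap ∘ₗ E.toLinearMap := rfl
    rw [this, LinearMap.det_comp, hEd, mul_inv_cancel₀ hQ0]
  obtain ⟨P, hP⟩ := Cfsg.Agent.Lib.Elusive.FieldSub.exists_sl_conj_of_intertwiner x W R hR (by
    intro v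
    have h1 := hEc v
    have h2 := hQ (E v)
    change Q (E (T v)) = T' (Q (E v))
    rw [h1, h2])
  refine ⟨P, ?_⟩
  rw [Subgroup.mem_comap, hP]
  exact hWN

/-- Elements of order `n` of PSL_n(q), `n` prime, and the normalizer of a Singer cycle. Here `T = PSL_n(F)` for a field `F` with `q = p^f` elements (`n ≥ 2`, `(n, q) ≠ (2, 2), (2, 3)`), `k` is a prime dividing `n`, `K` is a subalgebra of the `n × n` matrices that is a field of degree `k` over `F` (an extension-field structure F_{q^k} on `F^n`), and `H` is the subgroup of matrices of determinant 1 normalizing `K` — a subgroup of type GL_{n/k}(q^k) (maximal except in some small cases; maximality is not assumed); Ω is the set of cosets of `H` in `T`, so an element of `T` of prime order `r` (a matrix `x` of determinant 1 with `x^r` scalar, `x` not scalar) fixes a point of Ω when some conjugate of `x` by a matrix of determinant 1 normalizes `K`. Take `k = n > 3` prime with `n ≠ p` (so `H` is the normalizer of a Singer cycle), and suppose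 `n` divides the index of `H`. Then every element of `T` of order `n` is conjugate in `T` into `H` if and only if the multiplicative order of `q` modulo `n` is `n − 1`. -/
theorem result {F : Type*} [Field F] [Fintype F] {p : ℕ} [Fact p.Prime] [CharP F p] {q : ℕ} (hq : Fintype.card F = q)
    (n : ℕ) (hn : 2 ≤ n) (hT : (n, q) ≠ (2, 2) ∧ (n, q) ≠ (2, 3))
    (k : ℕ) (hk : k.Prime) (hkn : k ∣ n) (K : Subalgebra F (Matrix (Fin n) (Fin n) F)) (hK : Cfsg.Geo.IsFieldSubalgebra k K) (hkn' : k = n) (hn3 : 3 < n) (hnp : n ≠ p) (hΩ : n ∣ ((Cfsg.Geo.subalgebraNormalizer K).comap (Matrix.SpecialLinearGroup.toGL : Matrix.SpecialLinearGroup (Fin n) F →* GL (Fin n) F)).index) :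
    (∀ x : Matrix.SpecialLinearGroup (Fin n) F,
      (∃ z : F, ((x ^ n : Matrix.SpecialLinearGroup (Fin n) F) : Matrix (Fin n) (Fin n) F) = z • (1 : Matrix (Fin n) (Fin n) F)) →
      (∀ z : F, (x : Matrix (Fin n) (Fin n) F) ≠ z • (1 : Matrix (Fin n) (Fin n) F)) →
      ∃ P : Matrix.SpecialLinearGroup (Fin n) F, P⁻¹ * x * P ∈ ((Cfsg.Geo.subalgebraNormalizer K).comap (Matrix.SpecialLinearGroup.toGL : Matrix.SpecialLinearGroup (Fin n) F →* GL (Fin n) F))) ↔
    orderOf (q : ZMod n) = n - 1 := by
  classical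
  subst hkn'
  have hpp : p.Prime := Fact.out
  have hq2 : 2 ≤ q := hq ▸ Fintype.one_lt_card
  have hcop : p.Coprime k := (Nat.coprime_primes hpp hk).mpr (Ne.symm hnp)
  have hcardι : Fintype.card (Fin k) = k := Fintype.card_fin k
  have hkE : (k : F) ≠ 0 := by
    intro h
    rw [CharP.cast_eq_zero_iff F p] at h
    exact hnp ((Nat.prime_dvd_prime_iff_eq hpp hk).mp h).symm
  have hord1 : ∀ (_ : k ∣ q - 1), orderOf ((q : ℕ) : ZMod k) = 1 := by
    intro h
    have : ((q : ℕ) : ZMod k) = 1 := by
      have h1 : ((q - 1 : ℕ) : ZMod k) = 0 := (ZMod.natCast_eq_zero_iff _ _).2 h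
      have h2 : ((q - 1 : ℕ) : ZMod k) = (q : ZMod k) - 1 := by
        rw [Nat.cast_sub (by omega)]
        simp
      rw [h2] at h1
      exact sub_eq_zero.mp h1
    rw [this, orderOf_one]
  constructor
  · -- if `q` is not a primitive root we build an obstruction
    intro hall
    by_contra hne
    have hcyc : (Polynomial.cyclotomic k F).natDegree = k - 1 := by
      rw [Polynomial.natDegree_cyclotomic, Nat.totient_prime hk]
    obtain ⟨g, hgirr, hgdvd⟩ := WfDvdMonoid.exists_irreducible_factor (a := Polynomial.cyclotomic k F)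
      (by
        intro hu
        have := Polynomial.natDegree_eq_zero_of_isUnit hu
        omega) (Polynomial.cyclotomic_ne_zero k F)
    have hgdeg : g.natDegree = orderOf ((q : ℕ) : ZMod k) :=
      Cfsg.Agent.Lib.Elusive.CycConj.natDegree_factor hq hcop hgdvd hgirr
    have hgle : g.natDegree ≤ k - 1 := by
      rw [← hcyc]
      exact Polynomial.natDegree_le_of_dvd hgdvd (Polynomial.cyclotomic_ne_zero k F)
    have hfact : Fact k.Prime := ⟨hk⟩
    have hX : Polynomial.X ^ k - 1 = Polynomial.cyclotomic k F * (Polynomial.X - 1) := by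
      have := Polynomial.cyclotomic_prime_mul_X_sub_one F k
      rw [this]
    have hdX : g ∣ Polynomial.X ^ k - 1 := by
      rw [hX]
      exact hgdvd.mul_right _
    have hg1 : ¬ g ∣ Polynomial.X - 1 := by
      intro h
      have h1 : IsCoprime (Polynomial.cyclotomic k F) (Polynomial.X - 1) := by
        have h5 : Polynomial.eval 1 (Polynomial.cyclotomic k F) = (k : F) :=
          Polynomial.eval_one_cyclotomic_prime
        have h6 := Polynomial.mul_divByMonic_eq_iff_isRoot (p := Polynomial.cyclotomic k F) (a := 1)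
        refine ⟨Polynomial.C (k : F)⁻¹, - Polynomial.C (k : F)⁻¹ * (Polynomial.cyclotomic k F /ₘ (Polynomial.X - Polynomial.C 1)), ?_⟩
        have h7 := Polynomial.modByMonic_add_div (Polynomial.cyclotomic k F) (Polynomial.X - Polynomial.C 1)
        rw [Polynomial.modByMonic_X_sub_C_eq_C_eval, h5] at h7
        nth_rewrite 1 [← h7]
        simp only [map_one]
        have h8 : Polynomial.C (k : F)⁻¹ * Polynomial.C (k : F) = 1 := by
          rw [← Polynomial.C_mul, inv_mul_cancel₀ hkE, map_one]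
        linear_combination h8
      have h2 := h1.of_isCoprime_of_dvd_left hgdvd
      have h3 := h2.of_isCoprime_of_dvd_right h
      exact hgirr.not_isUnit (h3.isUnit_of_dvd' dvd_rfl (dvd_refl g))
    by_cases hd1 : g.natDegree = 1
    · -- a root of unity in `F`
      have hdeg1 : g.degree = 1 := by
        rw [Polynomial.degree_eq_natDegree hgirr.ne_zero, hd1]
        rfl
      obtain ⟨ζ, hζ⟩ := Polynomial.exists_root_of_degree_eq_one hdeg1
      have hζk : ζ ^ k = 1 := by
        have h1 := Polynomial.eval_eq_zero_of_dvd_of_eval_eq_zero hdX hζ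
        simp only [Polynomial.eval_sub, Polynomial.eval_pow, Polynomial.eval_X, Polynomial.eval_one] at h1
        exact sub_eq_zero.mp h1
      have hζ1 : ζ ≠ 1 := by
        rintro rfl
        have h1 := Polynomial.eval_eq_zero_of_dvd_of_eval_eq_zero hgdvd hζ
        rw [Polynomial.eval_one_cyclotomic_prime] at h1
        exact hkE h1
      have hζ0 : ζ ≠ 0 := by
        rintro rfl
        rw [zero_pow hk.ne_zero] at hζk
        exact zero_ne_one hζk
      obtain ⟨x, hxn, hxs, v, v', hli, hv, hv'⟩ := exists_diag_elt (by omega) ζ hζk hζ1 hζ0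
      obtain ⟨P, hP⟩ := hall x ⟨1, by rw [hxn, one_smul]⟩ hxs
      exact Cfsg.Agent.Lib.Elusive.FieldSub.not_conj_of_eigen hK hcardι hk x 1 v v' hli
        (by rw [one_smul]; exact hv) (by rw [one_smul]; exact hv') hxs P hP
    · have hd2 : g.natDegree + 2 ≤ k := by
        have hne' : g.natDegree ≠ k - 1 := by rwa [hgdeg]
        have := hk.two_le
        omega
      have hndvd : ¬ k ∣ q - 1 := by
        intro h
        rw [hgdeg, hord1 h] at hd1
        exact hd1 rfl
      obtain ⟨x, hxn, hxs, v, v', hli, hv, hv'⟩ :=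
        Cfsg.Agent.Lib.Elusive.BlockElt.exists_sl_of_adjoin g hgirr hdX hg1 hd2
          (fun a ha => Cfsg.Agent.Lib.Elusive.CycConj.eq_one_of_pow_eq_one hq hk hndvd a ha)
      obtain ⟨P, hP⟩ := hall x ⟨1, by rw [hxn, one_smul]⟩ hxs
      exact Cfsg.Agent.Lib.Elusive.FieldSub.not_conj_of_eigen hK hcardι hk x 1 v v' hli
        (by rw [one_smul]; exact hv) (by rw [one_smul]; exact hv') hxs P hP
  · -- construction
    intro hord x ⟨z, hz⟩ hxs
    have hndvd : ¬ k ∣ q - 1 := by
      intro h
      rw [hord1 h] at hord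
      omega
    have hz1 : z = 1 := by
      apply Cfsg.Agent.Lib.Elusive.CycConj.eq_one_of_pow_eq_one hq hk hndvd
      have h1 := congrArg Matrix.det hz
      rw [Matrix.SpecialLinearGroup.det_coe, Matrix.det_smul, Matrix.det_one, mul_one, Fintype.card_fin] at h1
      exact h1.symm
    subst hz1
    rw [one_smul] at hz
    exact construct_part hq k hk hnp hn3 K hK hkE hord x hz hxs

end Cfsg.Agent.S5970
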