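import Cfsg.Statements.S5971
import Cfsg.Agent.Lib.Elusive.SingerConj
import Cfsg.Agent.Lib.Classical.SLBasic

set_option autoImplicit false
open scoped MatrixGroups
open Cfsg

namespace Cfsg.Agent.S5971


open Cfsg.Agent.Lib.Elusive

universe u_1

/-- `z³ = 1` from the determinant. -/
theorem cube_eq_one {F : Type*} [Field F] (x : Matrix.SpecialLinearGroup (Fin 3) F) (z : F)
    (hz : ((x ^ 3 : Matrix.SpecialLinearGroup (Fin 3) F) : Matrix (Fin 3) (Fin 3) F) = z • 1) : z ^ 3 = 1 := by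
  have h1 := congrArg Matrix.det hz
  rw [Matrix.SpecialLinearGroup.det_coe, Matrix.det_smul, Matrix.det_one, mul_one, Fintype.card_fin] at h1
  exact h1.symm

/-- The transvection in characteristic three. -/
theorem transvection_obstruct {F : Type*} [Field F] (h3 : (3 : F) = 0) :
    ∃ x : Matrix.SpecialLinearGroup (Fin 3) F,
      ((x ^ 3 : Matrix.SpecialLinearGroup (Fin 3) F) : Matrix (Fin 3) (Fin 3) F) = (1 : F) • 1 ∧
      (∀ z : F, (x : Matrix (Fin 3) (Fin 3) F) ≠ z • 1) ∧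
      ∃ v v' : Fin 3 → F, LinearIndependent F ![v, v'] ∧
        (x : Matrix (Fin 3) (Fin 3) F).mulVec v = (1 : F) • v ∧
        (x : Matrix (Fin 3) (Fin 3) F).mulVec v' = (1 : F) • v' := by
  let A : Matrix (Fin 3) (Fin 3) F := !![1, 1, 0; 0, 1, 0; 0, 0, 1]
  have hdet : A.det = 1 := by
    simp [A, Matrix.det_fin_three]
  let x : Matrix.SpecialLinearGroup (Fin 3) F := ⟨A, hdet⟩
  refine ⟨x, ?_, ?_, ![1, 0, 0], ![0, 0, 1], ?_, ?_, ?_⟩
  · rw [one_smul, pow_succ, pow_two, Matrix.SpecialLinearGroup.coe_mul, Matrix.SpecialLinearGroup.coe_mul]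
    change A * A * A = 1
    ext i j
    fin_cases i <;> fin_cases j <;> simp [A, Matrix.mul_apply, Fin.sum_univ_three]
    linear_combination h3
  · intro z hz
    have h1 := congrFun (congrFun hz 0) 1
    change A 0 1 = _ at h1
    simp [A] at h1
  · rw [LinearIndependent.pair_iff]
    intro s t hst
    have h0 := congrFun hst 0
    have h2 := congrFun hst 2
    simp at h0 h2
    exact ⟨h0, h2⟩
  · change A.mulVec _ = _
    funext i
    fin_cases i <;> simp [A, Matrix.mulVec, dotProduct, Fin.sum_univ_three]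
  · change A.mulVec _ = _
    funext i
    fin_cases i <;> simp [A, Matrix.mulVec, dotProduct, Fin.sum_univ_three]

/-- `w · diag(1, 1, ω²)` when `w³ = ω`. -/
theorem diag_obstruct {F : Type*} [Field F] (w ω : F) (hw : w ^ 3 = ω) (hω : ω * ω + ω + 1 = 0)
    (hω1 : ω ≠ 1) :
    ∃ x : Matrix.SpecialLinearGroup (Fin 3) F, ∃ z : F,
      ((x ^ 3 : Matrix.SpecialLinearGroup (Fin 3) F) : Matrix (Fin 3) (Fin 3) F) = z • 1 ∧
      (∀ z : F, (x : Matrix (Fin 3) (Fin 3) F) ≠ z • 1) ∧
      ∃ v v' : Fin 3 → F, LinearIndependent F ![v, v'] ∧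
        (x : Matrix (Fin 3) (Fin 3) F).mulVec v = w • v ∧
        (x : Matrix (Fin 3) (Fin 3) F).mulVec v' = w • v' := by
  have hω3 : ω * ω * ω = 1 := by linear_combination (ω - 1) * hω
  have hw0 : w ≠ 0 := by
    rintro rfl
    have : ω = 0 := by rw [← hw]; ring
    rw [this] at hω
    simp at hω
  let A : Matrix (Fin 3) (Fin 3) F := Matrix.diagonal ![w, w, w * (ω * ω)]
  have hdet : A.det = 1 := by
    rw [Matrix.det_diagonal, Fin.prod_univ_three]
    simp only [Matrix.cons_val_zero, Matrix.cons_val_one, Matrix.cons_val]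
    have : w * w * (w * (ω * ω)) = w ^ 3 * (ω * ω) := by ring
    rw [this, hw, ← hω3]
    ring
  let x : Matrix.SpecialLinearGroup (Fin 3) F := ⟨A, hdet⟩
  refine ⟨x, ω, ?_, ?_, ![1, 0, 0], ![0, 1, 0], ?_, ?_, ?_⟩
  · rw [pow_succ, pow_two, Matrix.SpecialLinearGroup.coe_mul, Matrix.SpecialLinearGroup.coe_mul]
    change A * A * A = _
    simp only [A, Matrix.diagonal_mul_diagonal]
    rw [← Matrix.diagonal_one, ← Matrix.diagonal_smul]
    congr 1
    funext i
    fin_cases i
    · simp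
      rw [← hw]
      ring
    · simp
      rw [← hw]
      ring
    · simp
      have e : w * (ω * ω) * (w * (ω * ω)) * (w * (ω * ω)) = w ^ 3 * ((ω * ω * ω) * (ω * ω * ω)) := by ring
      rw [e, hω3, hw]
      ring
  · intro z hz
    have h0 := congrFun (congrFun hz 0) 0
    have h2 := congrFun (congrFun hz 2) 2
    change A 0 0 = _ at h0
    change A 2 2 = _ at h2
    simp [A] at h0 h2
    rw [← h0] at h2
    -- `w ω² = w` forces `ω² = 1`
    have h5 : ω * ω = 1 := by
      have := mul_left_cancel₀ hw0 (h2.trans (mul_one w).symm)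
      exact this
    apply hω1
    calc ω = ω * ω * ω := by rw [h5, one_mul]
      _ = 1 := hω3
  · rw [LinearIndependent.pair_iff]
    intro s t hst
    have h0 := congrFun hst 0
    have h2 := congrFun hst 1
    simp at h0 h2
    exact ⟨h0, h2⟩
  · change A.mulVec _ = _
    funext i
    fin_cases i <;> simp [A, Matrix.mulVec_diagonal]
  · change A.mulVec _ = _
    funext i
    fin_cases i <;> simp [A, Matrix.mulVec_diagonal]

/-- The order of `GL₃` is not divisible by nine for `q ≡ 2, 5 (mod 9)`. -/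
theorem not_nine_dvd (q : ℕ) (hq2 : 2 ≤ q) (h : q % 9 = 2 ∨ q % 9 = 5) :
    ¬ 9 ∣ (q ^ 3 - q ^ 0) * (q ^ 3 - q ^ 1) * (q ^ 3 - q ^ 2) := by
  intro hd
  have hcast : (((q ^ 3 - q ^ 0) * (q ^ 3 - q ^ 1) * (q ^ 3 - q ^ 2) : ℕ) : ZMod 9) = 0 :=
    (ZMod.natCast_eq_zero_iff _ _).2 hd
  have h0 : q ^ 0 ≤ q ^ 3 := Nat.pow_le_pow_right (by omega) (by norm_num)
  have h1 : q ^ 1 ≤ q ^ 3 := Nat.pow_le_pow_right (by omega) (by norm_num)
  have h2 : q ^ 2 ≤ q ^ 3 := Nat.pow_le_pow_right (by omega) (by norm_num)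
  rw [Nat.cast_mul, Nat.cast_mul, Nat.cast_sub h0, Nat.cast_sub h1, Nat.cast_sub h2] at hcast
  simp only [Nat.cast_pow] at hcast
  rcases h with h | h
  · have : (q : ZMod 9) = 2 := by
      have := (ZMod.natCast_eq_natCast_iff' q 2 9).2 (by omega)
      simpa using this
    rw [this] at hcast
    revert hcast
    decide
  · have : (q : ZMod 9) = 5 := by
      have := (ZMod.natCast_eq_natCast_iff' q 5 9).2 (by omega)
      simpa using this
    rw [this] at hcast
    revert hcast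
    decide

/-- The index is prime to three for `q ≡ 2, 5 (mod 9)`. -/
theorem not_three_dvd_index {F : Type*} [Field F] [Fintype F] {q : ℕ} (hq : Fintype.card F = q)
    (K : Subalgebra F (Matrix (Fin 3) (Fin 3) F)) (hK : Cfsg.Geo.IsFieldSubalgebra 3 K)
    (h : q % 9 = 2 ∨ q % 9 = 5)
    (hΩ : 3 ∣ ((Cfsg.Geo.subalgebraNormalizer K).comap (Matrix.SpecialLinearGroup.toGL : Matrix.SpecialLinearGroup (Fin 3) F →* GL (Fin 3) F)).index) :
    False := by
  classical
  have hq2 : 2 ≤ q := hq ▸ Fintype.one_lt_card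
  obtain ⟨W, hWN, hWr, hWs⟩ := FieldSub.exists_frobenius hK (by simp) (by norm_num)
  have hnd : ¬ 3 ∣ q - 1 := by omega
  have hdet : (W : Matrix (Fin 3) (Fin 3) F).det = 1 := by
    apply CycConj.eq_one_of_pow_eq_one hq Nat.prime_three hnd
    rw [← Matrix.det_pow, ← Units.val_pow_eq_pow_val, hWr]
    simp
  let s : Matrix.SpecialLinearGroup (Fin 3) F := ⟨W, hdet⟩
  have hsW : (Matrix.SpecialLinearGroup.toGL s : GL (Fin 3) F) = W := by
    apply Units.ext
    rfl
  let H := ((Cfsg.Geo.subalgebraNormalizer K).comap (Matrix.SpecialLinearGroup.toGL : Matrix.SpecialLinearGroup (Fin 3) F →* GL (Fin 3) F))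
  have hsH : s ∈ H := by
    rw [Subgroup.mem_comap, hsW]
    exact hWN
  have hs3 : (⟨s, hsH⟩ : H) ^ 3 = 1 := by
    apply Subtype.ext
    apply Subtype.ext
    have := congrArg Units.val hWr
    simpa using this
  have hs1 : (⟨s, hsH⟩ : H) ≠ 1 := by
    intro h1
    have h2 := congrArg (fun y : H => ((y : Matrix.SpecialLinearGroup (Fin 3) F) : Matrix (Fin 3) (Fin 3) F)) h1
    apply hWs 1
    rw [one_smul]
    exact h2
  have hfact : Fact (Nat.Prime 3) := ⟨Nat.prime_three⟩
  have hord := orderOf_eq_prime hs3 hs1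
  have h3H : 3 ∣ Nat.card H := by
    have := orderOf_dvd_natCard (⟨s, hsH⟩ : H)
    rwa [hord] at this
  have hSL : 9 ∣ Nat.card (Matrix.SpecialLinearGroup (Fin 3) F) := by
    rw [← Subgroup.index_mul_card H]
    exact mul_dvd_mul hΩ h3H
  have hGL : 9 ∣ Nat.card (GL (Fin 3) F) := by
    rw [Cfsg.Agent.Lib.Classical.SLBasic.card_gl_eq_mul_card_sl]
    exact hSL.mul_left _
  rw [Matrix.card_GL_field, hq, Fin.prod_univ_three] at hGL
  exact not_nine_dvd q hq2 h hGL


/-- Case `q ≡ 2 (mod 3)`. -/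
theorem case_two {F : Type*} [Field F] [Fintype F] {p : ℕ} [Fact p.Prime] [CharP F p] {q : ℕ}
    (hq : Fintype.card F = q) (K : Subalgebra F (Matrix (Fin 3) (Fin 3) F))
    (hK : Cfsg.Geo.IsFieldSubalgebra 3 K) (hq3 : q % 3 = 2) (hp3 : p ≠ 3)
    (x : Matrix.SpecialLinearGroup (Fin 3) F) (z : F)
    (hz : ((x ^ 3 : Matrix.SpecialLinearGroup (Fin 3) F) : Matrix (Fin 3) (Fin 3) F) = z • 1)
    (hxs : ∀ z : F, (x : Matrix (Fin 3) (Fin 3) F) ≠ z • 1) :
    ∃ P : Matrix.SpecialLinearGroup (Fin 3) F, P⁻¹ * x * P ∈ ((Cfsg.Geo.subalgebraNormalizer K).comap (Matrix.SpecialLinearGroup.toGL : Matrix.SpecialLinearGroup (Fin 3) F →* GL (Fin 3) F)) := by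
  have hq2 : 2 ≤ q := hq ▸ Fintype.one_lt_card
  have hnd : ¬ 3 ∣ q - 1 := by omega
  have hz1 : z = 1 := CycConj.eq_one_of_pow_eq_one hq Nat.prime_three hnd z (cube_eq_one x z hz)
  subst hz1
  rw [one_smul] at hz
  have h3E : ((3 : ℕ) : F) ≠ 0 := by
    intro h
    rw [CharP.cast_eq_zero_iff F p] at h
    exact hp3 ((Nat.prime_dvd_prime_iff_eq Fact.out Nat.prime_three).mp h)
  have hfact : Fact (Nat.Prime 2) := ⟨Nat.prime_two⟩
  have hord : orderOf ((q : ℕ) : ZMod 3) = 3 - 1 := by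
    have h1 : ((q : ℕ) : ZMod 3) = 2 := by
      have := (ZMod.natCast_eq_natCast_iff' q 2 3).2 (by omega)
      simpa using this
    rw [h1]
    exact orderOf_eq_prime (by decide) (by decide)
  obtain ⟨W, hWN, hWr, hWs⟩ := FieldSub.exists_frobenius hK (by simp) (by norm_num)
  have hfin : Module.finrank F (Fin 3 → F) = 3 := by simp
  obtain ⟨u, hu⟩ := CycConj.exists_cyclic_of_order hq Nat.prime_three (Ne.symm hp3) (by norm_num) hord hfin
    (Matrix.toLin' (x : Matrix (Fin 3) (Fin 3) F))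
    (fun v => by rw [SingerConj.toLin'_pow_apply, ← Matrix.SpecialLinearGroup.coe_pow, hz, Matrix.one_mulVec])
    (by
      by_contra hcon
      push Not at hcon
      apply hxs 1
      rw [one_smul]
      apply Matrix.ext_of_mulVec_single
      intro i
      rw [Matrix.one_mulVec]
      exact hcon _)
  obtain ⟨u', hu'⟩ := CycConj.exists_cyclic_of_order hq Nat.prime_three (Ne.symm hp3) (by norm_num) hord hfin
    (Matrix.toLin' (W : Matrix (Fin 3) (Fin 3) F))
    (fun v => by
      rw [SingerConj.toLin'_pow_apply, ← Units.val_pow_eq_pow_val, hWr]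
      simp)
    (by
      by_contra hcon
      push Not at hcon
      apply hWs 1
      rw [one_smul]
      apply Matrix.ext_of_mulVec_single
      intro i
      rw [Matrix.one_mulVec]
      exact hcon _)
  exact SingerConj.conj_of_cyclic (by norm_num) K x W hWN hz hWr h3E u u' hu hu'

/-- Case `q ≡ 1 (mod 3)`, `x³ = 1`. -/
theorem case_one_regular {F : Type*} [Field F] [Fintype F] {p : ℕ} [Fact p.Prime] [CharP F p]
    (K : Subalgebra F (Matrix (Fin 3) (Fin 3) F))
    (hK : Cfsg.Geo.IsFieldSubalgebra 3 K) (hp3 : p ≠ 3) (ω : F) (hω : ω * ω + ω + 1 = 0)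
    (x : Matrix.SpecialLinearGroup (Fin 3) F)
    (hz : ((x ^ 3 : Matrix.SpecialLinearGroup (Fin 3) F) : Matrix (Fin 3) (Fin 3) F) = 1)
    (hxs : ∀ z : F, (x : Matrix (Fin 3) (Fin 3) F) ≠ z • 1) :
    ∃ P : Matrix.SpecialLinearGroup (Fin 3) F, P⁻¹ * x * P ∈ ((Cfsg.Geo.subalgebraNormalizer K).comap (Matrix.SpecialLinearGroup.toGL : Matrix.SpecialLinearGroup (Fin 3) F →* GL (Fin 3) F)) := by
  have h3E : ((3 : ℕ) : F) ≠ 0 := by
    intro h
    rw [CharP.cast_eq_zero_iff F p] at h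
    exact hp3 ((Nat.prime_dvd_prime_iff_eq Fact.out Nat.prime_three).mp h)
  have h3 : (3 : F) ≠ 0 := by exact_mod_cast h3E
  have hω3 : ω * ω * ω = 1 := by linear_combination (ω - 1) * hω
  obtain ⟨W, hWN, hWr, hWs⟩ := FieldSub.exists_frobenius hK (by simp) (by norm_num)
  have hAAA : (x : Matrix (Fin 3) (Fin 3) F) * x * x = 1 := by
    rw [pow_succ, pow_two, Matrix.SpecialLinearGroup.coe_mul, Matrix.SpecialLinearGroup.coe_mul] at hz
    exact hz
  have hxe : ∀ c : F, c ^ 3 = 1 → ∃ v : Fin 3 → F, v ≠ 0 ∧ (x : Matrix (Fin 3) (Fin 3) F).mulVec v = c • v :=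
    fun c hc => SingerConj.exists_eigen_of_det_one _ hAAA (Matrix.SpecialLinearGroup.det_coe x) hxs c hc
  obtain ⟨v₀, hv₀, hx₀⟩ := hxe 1 (by ring)
  obtain ⟨v₁, hv₁, hx₁⟩ := hxe ω (by rw [← hω3]; ring)
  obtain ⟨v₂, hv₂, hx₂⟩ := hxe (ω * ω) (by
    have : (ω * ω) ^ 3 = (ω * ω * ω) * (ω * ω * ω) := by ring
    rw [this, hω3, one_mul])
  obtain ⟨f₀, hf₀, hw₀⟩ := SingerConj.exists_eigen_of_normalizer hK W hWN hWr hWs h3 ω hω 1 (Or.inl rfl)
  obtain ⟨f₁, hf₁, hw₁⟩ := SingerConj.exists_eigen_of_normalizer hK W hWN hWr hWs h3 ω hω ω (Or.inr (Or.inl rfl))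
  obtain ⟨f₂, hf₂, hw₂⟩ := SingerConj.exists_eigen_of_normalizer hK W hWN hWr hWs h3 ω hω (ω * ω) (Or.inr (Or.inr rfl))
  exact SingerConj.conj_of_cyclic (by norm_num) K x W hWN hz hWr h3E _ _
    (SingerConj.cyc_of_eigen _ h3 ω hω v₀ v₁ v₂ hv₀ hv₁ hv₂ hx₀ hx₁ hx₂)
    (SingerConj.cyc_of_eigen _ h3 ω hω f₀ f₁ f₂ hf₀ hf₁ hf₂ hw₀ hw₁ hw₂)

/-- Case `x³ = z` with `z` not a cube. -/
theorem case_one_irreducible {F : Type u_1} [Field F] [Fintype F]
    (K : Subalgebra F (Matrix (Fin 3) (Fin 3) F))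
    (hK : Cfsg.Geo.IsFieldSubalgebra 3 K) (hq3 : Fintype.card F % 3 = 1)
    (x : Matrix.SpecialLinearGroup (Fin 3) F) (z : F) (hz3 : z ^ 3 = 1) (hnc : ∀ b : F, b ^ 3 ≠ z)
    (hz : ((x ^ 3 : Matrix.SpecialLinearGroup (Fin 3) F) : Matrix (Fin 3) (Fin 3) F) = z • 1) :
    ∃ P : Matrix.SpecialLinearGroup (Fin 3) F, P⁻¹ * x * P ∈ ((Cfsg.Geo.subalgebraNormalizer K).comap (Matrix.SpecialLinearGroup.toGL : Matrix.SpecialLinearGroup (Fin 3) F →* GL (Fin 3) F)) := by
  classical
  have hz0 : z ≠ 0 := by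
    rintro rfl
    simp at hz3
  obtain ⟨y, hyK, hy⟩ := SingerConj.exists_cube_root_in hK hq3 z hz3
  have hydet : y.det ≠ 0 := by
    intro h
    have h1 := congrArg Matrix.det hy
    rw [Matrix.det_mul, Matrix.det_mul, h, Matrix.det_smul, Matrix.det_one] at h1
    simp at h1
    exact hz0 (pow_eq_zero_iff (by norm_num) |>.1 h1.symm)
  let W : GL (Fin 3) F := Matrix.GeneralLinearGroup.mkOfDetNeZero y hydet
  have hWval : (W : Matrix (Fin 3) (Fin 3) F) = y := rfl
  have hWN : W ∈ Cfsg.Geo.subalgebraNormalizer K := SingerConj.mem_normalizer_of_mem hK W hyK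
  let P₀ : Polynomial F := Polynomial.X ^ 3 - Polynomial.C z
  have hirr : Irreducible P₀ := X_pow_sub_C_irreducible_of_prime Nat.prime_three hnc
  have hdeg : P₀.natDegree = 3 := Polynomial.natDegree_X_pow_sub_C
  let T : (Fin 3 → F) →ₗ[F] (Fin 3 → F) := Matrix.toLin' (x : Matrix (Fin 3) (Fin 3) F)
  let T' : (Fin 3 → F) →ₗ[F] (Fin 3 → F) := Matrix.toLin' y
  have hTk : ∀ v, (T ^ 3) v = z • v := by
    intro v
    rw [SingerConj.toLin'_pow_apply, ← Matrix.SpecialLinearGroup.coe_pow, hz, Matrix.smul_mulVec, Matrix.one_mulVec]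
  have hTk' : ∀ v, (T' ^ 3) v = z • v := by
    intro v
    rw [SingerConj.toLin'_pow_apply, pow_succ, pow_two, hy, Matrix.smul_mulVec, Matrix.one_mulVec]
  have hPT : Polynomial.aeval T P₀ = 0 := by
    apply LinearMap.ext
    intro v
    simp [P₀, hTk]
  have hPT' : Polynomial.aeval T' P₀ = 0 := by
    apply LinearMap.ext
    intro v
    simp [P₀, hTk']
  let e₀ : Fin 3 → F := Pi.single 0 1
  have he₀ : e₀ ≠ 0 := by
    intro h
    have := congrFun h 0
    simp [e₀] at this
  have hfin : Module.finrank F (Fin 3 → F) = 3 := by simp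
  obtain ⟨Q, hQ⟩ := CycConj.exists_intertwiner T T' hfin (by norm_num) z hTk hTk' e₀ e₀
    (SingerConj.li_of_irreducible T P₀ hirr hPT hdeg e₀ he₀)
    (SingerConj.li_of_irreducible T' P₀ hirr hPT' hdeg e₀ he₀)
  have hQ0 : LinearMap.det Q.toLinearMap ≠ 0 := (LinearEquiv.isUnit_det' Q).ne_zero
  obtain ⟨k, hkK, hkdet⟩ := FieldSub.exists_det_eq hK (by simp) (by norm_num) (LinearMap.det Q.toLinearMap)⁻¹
  have hk0 : k.det ≠ 0 := by
    rw [hkdet]
    exact inv_ne_zero hQ0
  let G : GL (Fin 3) F := Matrix.GeneralLinearGroup.mkOfDetNeZero k hk0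
  let EE : (Fin 3 → F) ≃ₗ[F] (Fin 3 → F) := Cfsg.Agent.Lib.Classical.MatrixBridge.glToLin G
  have hEE : ∀ v, EE v = k.mulVec v := fun v => rfl
  let R : (Fin 3 → F) ≃ₗ[F] (Fin 3 → F) := Q.trans EE
  have hEEl : EE.toLinearMap = Matrix.toLin' k := by
    apply LinearMap.ext
    intro v
    rfl
  have hR : LinearMap.det R.toLinearMap = 1 := by
    have : R.toLinearMap = EE.toLinearMap ∘ₗ Q.toLinearMap := rfl
    rw [this, LinearMap.det_comp, hEEl, LinearMap.det_toLin', hkdet, inv_mul_cancel₀ hQ0]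
  obtain ⟨P, hP⟩ := FieldSub.exists_sl_conj_of_intertwiner x W R hR (by
    intro v
    have h2 : Q ((x : Matrix (Fin 3) (Fin 3) F).mulVec v) = y.mulVec (Q v) := hQ v
    change k.mulVec (Q _) = y.mulVec (k.mulVec (Q v))
    rw [h2, Matrix.mulVec_mulVec, Matrix.mulVec_mulVec, hK.comm k hkK y hyK])
  refine ⟨P, ?_⟩
  rw [Subgroup.mem_comap, hP]
  exact hWN


/-- An element of order three in `F`. -/
theorem exists_omega {F : Type*} [Field F] [Fintype F] (h3 : 3 ∣ Fintype.card F - 1) :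
    ∃ ω : F, ω ^ 3 = 1 ∧ ω ≠ 1 ∧ ω * ω + ω + 1 = 0 := by
  have hunits : 3 ∣ Nat.card Fˣ := by
    rw [Cfsg.Agent.Lib.Classical.SLBasic.card_units_eq]
    exact h3
  have hfact : Fact (Nat.Prime 3) := ⟨Nat.prime_three⟩
  obtain ⟨u, hu⟩ := exists_prime_orderOf_dvd_card' 3 hunits
  have hω3 : (u : F) ^ 3 = 1 := by
    have := pow_orderOf_eq_one u
    rw [hu] at this
    have h5 := congrArg Units.val this
    simpa using h5
  have hω1 : (u : F) ≠ 1 := by
    intro h
    have : u = 1 := Units.ext h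
    rw [this, orderOf_one] at hu
    omega
  refine ⟨u, hω3, hω1, ?_⟩
  have h6 : ((u : F) - 1) * ((u : F) * u + u + 1) = 0 := by linear_combination hω3
  exact (mul_eq_zero.mp h6).resolve_left (sub_ne_zero.mpr hω1)

/-- Case `q ≡ 4, 7 (mod 9)`. -/
theorem case_one {F : Type u_1} [Field F] [Fintype F] {p : ℕ} [Fact p.Prime] [CharP F p] {q : ℕ}
    (hq : Fintype.card F = q) (K : Subalgebra F (Matrix (Fin 3) (Fin 3) F))
    (hK : Cfsg.Geo.IsFieldSubalgebra 3 K) (h9 : q % 9 = 4 ∨ q % 9 = 7) (hp3 : p ≠ 3)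
    (x : Matrix.SpecialLinearGroup (Fin 3) F) (z : F)
    (hz : ((x ^ 3 : Matrix.SpecialLinearGroup (Fin 3) F) : Matrix (Fin 3) (Fin 3) F) = z • 1)
    (hxs : ∀ z : F, (x : Matrix (Fin 3) (Fin 3) F) ≠ z • 1) :
    ∃ P : Matrix.SpecialLinearGroup (Fin 3) F, P⁻¹ * x * P ∈ ((Cfsg.Geo.subalgebraNormalizer K).comap (Matrix.SpecialLinearGroup.toGL : Matrix.SpecialLinearGroup (Fin 3) F →* GL (Fin 3) F)) := by
  have hq2 : 2 ≤ q := hq ▸ Fintype.one_lt_card
  by_cases hz1 : z = 1
  · subst hz1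
    rw [one_smul] at hz
    obtain ⟨ω, -, -, hω⟩ := exists_omega (F := F) (by rw [hq]; omega)
    exact case_one_regular K hK hp3 ω hω x hz hxs
  · refine case_one_irreducible K hK (by rw [hq]; omega) x z (cube_eq_one x z hz) ?_ hz
    intro b hb
    have hz3 := cube_eq_one x z hz
    have hb0 : b ≠ 0 := by
      rintro rfl
      rw [zero_pow (by norm_num)] at hb
      rw [← hb] at hz3
      simp at hz3
    let u : Fˣ := Units.mk0 b hb0
    have hu1 : u ^ (3 ^ 1) ≠ 1 := by
      intro h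
      apply hz1
      have := congrArg Units.val h
      simp only [pow_one, Units.val_pow_eq_pow_val, Units.val_one] at this
      rw [← hb]
      exact this
    have hu2 : u ^ (3 ^ (1 + 1)) = 1 := by
      ext
      simp only [Units.val_pow_eq_pow_val, Units.val_one, u, Units.val_mk0]
      have : b ^ 3 ^ (1 + 1) = (b ^ 3) ^ 3 := by ring
      rw [this, hb, hz3]
    have hfact : Fact (Nat.Prime 3) := ⟨Nat.prime_three⟩
    have hord := orderOf_eq_prime_pow hu1 hu2
    have hdvd : orderOf u ∣ q - 1 := by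
      apply orderOf_dvd_of_pow_eq_one
      ext
      rw [Units.val_pow_eq_pow_val, Units.val_one, ← hq]
      exact FiniteField.pow_card_sub_one_eq_one _ u.ne_zero
    rw [hord] at hdvd
    norm_num at hdvd
    omega

/-- Elements of order 3 of PSL_3(q) and the normalizer of a Singer cycle. Here `T = PSL_n(F)` for a field `F` with `q = p^f` elements (`n ≥ 2`, `(n, q) ≠ (2, 2), (2, 3)`), `k` is a prime dividing `n`, `K` is a subalgebra of the `n × n` matrices that is a field of degree `k` over `F` (an extension-field structure F_{q^k} on `F^n`), and `H` is the subgroup of matrices of determinant 1 normalizing `K` — a subgroup of type GL_{n/k}(q^k) (maximal except in some small cases; maximality is not assumed); Ω is the set of cosets of `H` in `T`, so an element of `T` of prime order `r` (a matrix `x` of determinant 1 with `x^r` scalar, `x` not scalar) fixes a point of Ω when some conjugate of `x` by a matrix of determinant 1 normalizes `K`. Take `n =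 k = 3` and suppose 3 divides the index of `H`. Then every element of `T` of order 3 is conjugate in `T` into `H` if and only if `q ≡ 4, 7` or `8 (mod 9)`. -/
theorem result {F : Type*} [Field F] [Fintype F] {p : ℕ} [Fact p.Prime] [CharP F p] {q : ℕ} (hq : Fintype.card F = q)
    (n : ℕ) (hn : n = 3) (k : ℕ) (hk : k.Prime) (hkn : k ∣ n) (K : Subalgebra F (Matrix (Fin n) (Fin n) F)) (hK : Cfsg.Geo.IsFieldSubalgebra k K) (hk3 : k = 3) (hΩ : 3 ∣ ((Cfsg.Geo.subalgebraNormalizer K).comap (Matrix.SpecialLinearGroup.toGL : Matrix.SpecialLinearGroup (Fin n) F →* GL (Fin n) F)).index) :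
    (∀ x : Matrix.SpecialLinearGroup (Fin n) F,
      (∃ z : F, ((x ^ 3 : Matrix.SpecialLinearGroup (Fin n) F) : Matrix (Fin n) (Fin n) F) = z • (1 : Matrix (Fin n) (Fin n) F)) →
      (∀ z : F, (x : Matrix (Fin n) (Fin n) F) ≠ z • (1 : Matrix (Fin n) (Fin n) F)) →
      ∃ P : Matrix.SpecialLinearGroup (Fin n) F, P⁻¹ * x * P ∈ ((Cfsg.Geo.subalgebraNormalizer K).comap (Matrix.SpecialLinearGroup.toGL : Matrix.SpecialLinearGroup (Fin n) F →* GL (Fin n) F))) ↔
    (q % 9 = 4 ∨ q % 9 = 7 ∨ q % 9 = 8) := by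
  classical
  subst hn
  subst hk3
  have hq2 : 2 ≤ q := hq ▸ Fintype.one_lt_card
  have hpp : p.Prime := Fact.out
  have hcard3 : Fintype.card (Fin 3) = 3 := by simp
  constructor
  · intro hall
    by_contra hcon
    have hobstruct : ∀ (x : Matrix.SpecialLinearGroup (Fin 3) F) (z c : F),
        ((x ^ 3 : Matrix.SpecialLinearGroup (Fin 3) F) : Matrix (Fin 3) (Fin 3) F) = z • 1 →
        (∀ z : F, (x : Matrix (Fin 3) (Fin 3) F) ≠ z • 1) →
        (∃ v v' : Fin 3 → F, LinearIndependent F ![v, v'] ∧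
          (x : Matrix (Fin 3) (Fin 3) F).mulVec v = c • v ∧
          (x : Matrix (Fin 3) (Fin 3) F).mulVec v' = c • v') → False := by
      intro x z c hz hxs ⟨v, v', hli, hv, hv'⟩
      obtain ⟨P, hP⟩ := hall x ⟨z, hz⟩ hxs
      exact FieldSub.not_conj_of_eigen hK hcard3 Nat.prime_three x c v v' hli hv hv' hxs P hP
    by_cases hp3 : p = 3
    · subst hp3
      have h3 : (3 : F) = 0 := by
        have := CharP.cast_eq_zero F 3
        exact_mod_cast this
      obtain ⟨x, hx3, hxs, h⟩ := transvection_obstruct h3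
      exact hobstruct x 1 1 hx3 hxs h
    · -- `q` is prime to three
      obtain ⟨f, -, hf⟩ := FiniteField.card F p
      have hq' : q = p ^ (f : ℕ) := by rw [← hq, hf]
      have h3q : ¬ 3 ∣ q := by
        intro h
        rw [hq'] at h
        have := Nat.prime_three.dvd_of_dvd_pow h
        exact hp3 ((Nat.prime_dvd_prime_iff_eq Nat.prime_three hpp).mp this).symm
      have hcases : q % 9 = 1 ∨ q % 9 = 2 ∨ q % 9 = 5 := by omega
      rcases hcases with h1 | h2 | h5
      · -- `9 ∣ q - 1`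
        have h9 : 9 ∣ Fintype.card F - 1 := by
          rw [hq]
          omega
        have hunits : 3 ∣ Nat.card Fˣ := by
          rw [Cfsg.Agent.Lib.Classical.SLBasic.card_units_eq]
          exact dvd_trans (by norm_num) h9
        have hfact : Fact (Nat.Prime 3) := ⟨Nat.prime_three⟩
        obtain ⟨u, hu⟩ := exists_prime_orderOf_dvd_card' 3 hunits
        let ω : F := u
        have hω3 : ω ^ 3 = 1 := by
          have := pow_orderOf_eq_one u
          rw [hu] at this
          have h5 := congrArg Units.val this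
          simpa using h5
        have hω1 : ω ≠ 1 := by
          intro h
          have : u = 1 := Units.ext h
          rw [this, orderOf_one] at hu
          omega
        have hω : ω * ω + ω + 1 = 0 := by
          have h6 : (ω - 1) * (ω * ω + ω + 1) = 0 := by linear_combination hω3
          exact (mul_eq_zero.mp h6).resolve_left (sub_ne_zero.mpr hω1)
        obtain ⟨w, hw⟩ := SingerConj.exists_cbrt_of_nine_dvd h9 ω hω3
        obtain ⟨x, z, hz, hxs, h⟩ := diag_obstruct w ω hw hω hω1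
        exact hobstruct x z w hz hxs h
      · exact not_three_dvd_index hq K hK (Or.inl h2) hΩ
      · exact not_three_dvd_index hq K hK (Or.inr h5) hΩ
  · intro hmod x ⟨z, hz⟩ hxs
    have hp3 : p ≠ 3 := by
      rintro rfl
      obtain ⟨f, -, hf⟩ := FiniteField.card F 3
      have hq' : q = 3 ^ (f : ℕ) := by rw [← hq, hf]
      have : 3 ∣ q := by
        rw [hq']
        exact dvd_pow_self 3 f.pos.ne'
      omega
    rcases hmod with h4 | h7 | h8
    · exact case_one hq K hK (Or.inl h4) hp3 x z hz hxs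
    · exact case_one hq K hK (Or.inr h7) hp3 x z hz hxs
    · exact case_two hq K hK (by omega) hp3 x z hz hxs

end Cfsg.Agent.S5971
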