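import Cfsg.Statements.S5972
import Cfsg.Agent.Lib.ElusT.OddTS

set_option autoImplicit false
open scoped MatrixGroups
open Cfsg

namespace Cfsg.Agent.S5972

/-- Elements of prime order of Ω_n(q), n = 2d+1 ≥ 7, q odd, with no fixed totally singular `m`-space. Here `T = Ω_n(q)` is realised as the commutator subgroup of the isometry group of the quadratic form `x₀² + Σ xᵢyᵢ` over the field `F` with `q` elements (it has trivial centre, so its elements of prime order `r` are used directly); let `1 ≤ m ≤ d` and let `r` be a prime dividing the number of totally singular `m`-spaces. For `r ≠ p` let `i` be the multiplicative order of `q` modulo `r`, `c = i` for `i` even and `c = 2i` for `i` odd, and write `k = n mod c`, `ℓ = m mod i`, `n' = ⌊n/i⌋`, `m' = ⌊m/i⌋`, `t = (r−1)/i`. Then every element of `T` of order `r` fixes some totally singular `m`-space if and only if either (i) `r = 2` and (`m < (n−1)/2` or `q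 ≡ 1 (mod 4)`); or (ii) `r ≠ p` is odd, `i ≤ m`, `k > 2ℓ`, and (`i` is odd or `n' − 2m' ≥ t`). -/
theorem result {F : Type*} [Field F] [Fintype F] {p : ℕ} [Fact p.Prime] [CharP F p] {q : ℕ} (hq : Fintype.card F = q) (hqodd : Odd q)
    (d m : ℕ) (hd : 3 ≤ d) (hm : 1 ≤ m) (hmd : m ≤ d)
    (r : ℕ) [Fact r.Prime]
    (hrΩ : r ∣ Nat.card {W : Submodule F (Unit ⊕ (Fin d ⊕ Fin d) → F) // Module.finrank F ↥W = m ∧ (∀ w ∈ W, Cfsg.quadFormOdd d F w = 0)})
    (i c : ℕ) (hi : i = orderOf (q : ZMod r)) (hc : c = if Even i then i else 2 * i) :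
    (∀ x : GL (Unit ⊕ (Fin d ⊕ Fin d)) F, x ∈ Cfsg.Geo.omegaGL (Cfsg.quadFormOdd d F) → orderOf x = r →
      ∃ W : Submodule F (Unit ⊕ (Fin d ⊕ Fin d) → F), Module.finrank F ↥W = m ∧ (∀ w ∈ W, Cfsg.quadFormOdd d F w = 0) ∧
        W.map (Matrix.toLin' (x : Matrix (Unit ⊕ (Fin d ⊕ Fin d)) (Unit ⊕ (Fin d ⊕ Fin d)) F)) ≤ W) ↔
    ((r = 2 ∧ (m < d ∨ q % 4 = 1)) ∨
     (r ≠ p ∧ 2 < r ∧ i ≤ m ∧ 2 * (m % i) < (2 * d + 1) % c ∧ (Odd i ∨ (r - 1) / i + 2 * (m / i) ≤ (2 * d + 1) / i))) := by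
  open Cfsg.Agent.Lib.ElusT.OddTS Cfsg.Agent.Lib.ElusT.Two Cfsg.Agent.Lib.ElusQ.OddThm Cfsg.Agent.Lib.ElusQ.OddMain Cfsg.Agent.Lib.ElusQ.Oz Cfsg.Agent.Lib.ElusQ.Bridge Cfsg.Agent.Lib.ElusL.Basic Cfsg.Agent.Lib.ElusF.Form Cfsg.Agent.Lib.Orth.Forms Cfsg.Agent.Lib.ElusQ.Syl in
  have h2 : (2 : F) ≠ 0 := two_ne_zero_of_odd hq hqodd
  have hr : r.Prime := Fact.out
  have hc' : c = cOf i := hc
  subst hi
  subst hc'
  set Q := oddForm d F with hQ
  have hN : (QuadraticMap.polarBilin Q).Nondegenerate := oddForm_nondeg d h2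
  have hV : Module.finrank F (Unit ⊕ (Fin d ⊕ Fin d) → F) = 2 * d + 1 := finrank_odd d
  have hcardι : Fintype.card (Unit ⊕ (Fin d ⊕ Fin d)) = 2 * d + 1 := by
    simp
    ring
  have hmn : 2 * m < 2 * d + 1 := by omega
  have hTS := fun W : Submodule F (Unit ⊕ (Fin d ⊕ Fin d) → F) => ti_iff (Q := Q) h2 W
  constructor
  · intro hL
    obtain ⟨j, hj, hjd⟩ := ts_dvd_odd hN h2 hq hV hmd hr hrΩ
    have hrp : r ≠ p := by
      rintro rfl
      exact Cfsg.Agent.Lib.ElusL.Bridge.char_not_dvd hq (by omega) hjd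
    obtain ⟨hrF, hrq⟩ := Cfsg.Agent.Lib.ElusL.Bridge.r_facts hq hr hrp
    by_cases hr2 : r = 2
    · subst hr2
      left
      refine ⟨rfl, ?_⟩
      by_contra hcon
      push Not at hcon
      obtain ⟨h3, h4⟩ := hcon
      have hmd' : m = d := by omega
      have hn : ¬ IsSquare (-1 : F) := by
        rw [FiniteField.isSquare_neg_one_iff, hq]
        obtain ⟨k, hk⟩ := hqodd
        omega
      let j₀ : Fin d := ⟨0, by omega⟩
      let v₁ : Unit ⊕ (Fin d ⊕ Fin d) → F := Pi.single (Sum.inl ()) 1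
      let v₂ : Unit ⊕ (Fin d ⊕ Fin d) → F := Pi.single (Sum.inr (Sum.inl j₀)) 1 + Pi.single (Sum.inr (Sum.inr j₀)) 1
      have h5 : Q v₁ = 1 := by
        simp [hQ, v₁, Cfsg.quadFormOdd, Pi.single_apply]
      have h6 : Q v₂ = 1 := by
        simp [hQ, v₂, Cfsg.quadFormOdd, Pi.single_apply]
      have h7 : QuadraticMap.polar Q v₁ v₂ = 0 := by
        rw [QuadraticMap.polar, h5, h6]
        simp [hQ, v₁, v₂, Cfsg.quadFormOdd, Pi.single_apply]
      obtain ⟨x, hx, hord, hW⟩ := two_neg Q hN h2 h5 h6 h7 hn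
      obtain ⟨W, hWm, hWs, hWi⟩ := hL x hx hord
      have h8 := hW W ((hTS W).mpr hWs) ((map_le_iff _ W).mp hWi)
      rw [hV, hWm] at h8
      omega
    · right
      have hr3 : 2 < r := lt_of_le_of_ne hr.two_le (Ne.symm hr2)
      obtain ⟨h3, h4, h5⟩ := ts_forward hN h2 hq hr hr2 hrF hrq hV hmd hj hjd (by
        intro T hT hT1
        obtain ⟨x, hx, hxo, hxT⟩ := exists_gl_of_oz Q hN h2 hr (hr.odd_of_ne_two hr2) hT hT1
        obtain ⟨W, hWm, hWs, hWi⟩ := hL x hx hxo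
        rw [map_le_iff, hxT] at hWi
        exact ⟨W, (hTS W).mpr hWs, hWi, hWm⟩)
      exact ⟨hrp, hr3, h3, h4, h5⟩
  · rintro (⟨rfl, hcond⟩ | ⟨hrp, hr3, hle, hmod, hbig⟩) x hx hord
    · have hx2 : x ^ 2 = 1 := by
        rw [← hord]
        exact pow_orderOf_eq_one x
      obtain ⟨W, h3, h4, h5⟩ := two_pos Q hN h2 hq hcardι hmd hcond hx hx2
      exact ⟨W, h5, (hTS W).mp h3, (map_le_iff _ W).mpr h4⟩
    · obtain ⟨hrF, hrq⟩ := Cfsg.Agent.Lib.ElusL.Bridge.r_facts hq hr hrp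
      have hxr : x ^ r = 1 := by
        rw [← hord]
        exact pow_orderOf_eq_one x
      obtain ⟨hxi, -⟩ := (Cfsg.Agent.Lib.Elusive.OmegaMem.mem_omegaGL_iff _ x).mp hx
      obtain ⟨W, h3, h4, h5⟩ := ts_backward (oz_of_mem Q hN hxi hxr) h2 hq hr (by omega) hrF hrq hV hmn hmod hbig
      exact ⟨W, h5, (hTS W).mp h3, (map_le_iff _ W).mpr h4⟩

end Cfsg.Agent.S5972
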