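import Cfsg.Statements.S5973
import Cfsg.Agent.Lib.ElusT.QMain

set_option autoImplicit false
open scoped MatrixGroups
open Cfsg

namespace Cfsg.Agent.S5973

open Polynomial Module QuadraticMap Matrix
open Cfsg.Agent.Lib.ElusL.Bridge Cfsg.Agent.Lib.ElusL.Cyc Cfsg.Agent.Lib.ElusT.QType Cfsg.Agent.Lib.ElusT.QTS
  Cfsg.Agent.Lib.ElusT.QTwoM Cfsg.Agent.Lib.ElusT.QMain Cfsg.Agent.Lib.ElusQ.Bridge Cfsg.Agent.Lib.Orth.Forms
  Cfsg.Agent.Lib.QuadFn.PlusForm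


/-- Elements of prime order of PΩ⁺_n(q), n = 2d ≥ 8, with no fixed totally singular `m`-space, `m < n/2`. Here `T = PΩ⁺_n(q)` is realised through `Ω⁺_n(q)`, the commutator subgroup of the isometry group of the quadratic form `Σ xᵢyᵢ` over the field `F` with `q` elements; an element of `T` of prime order `r` is an element `x` of `Ω⁺_n(q)` with `x^r` scalar and `x` not scalar. Let `1 ≤ m < d` and let `r` be a prime dividing the number of totally singular `m`-spaces. For `r ≠ p` let `i` be the multiplicative order of `q` modulo `r`, `c = i` for `i` even and `c = 2i` for `i` odd, and write `k = n mod c`, `ℓ = m mod i`, `n' = ⌊n/i⌋`, `m' = ⌊m/i⌋`, `t = (r−1)/i`. Then every element of `T` of order `r` fixes some totally singular `m`-space if and only if one of: (i) `r = 2 ≠ p` and either `q ≡ 1 (mod 4)`, or `q ≡ 3 (mod 4)`, `m ≤ n/2 − 2` and (`m` even or `n ≡ 2 (mod 4)`); (ii) `r ≠ p` odd, `i`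 odd, `i ≤ m` and `k ≥ 2ℓ`; (iii) `r ≠ p` odd, `i` even, `i ≤ m`, `n' − 2m' ≥ t`, and one of: `i ≥ 2ℓ`, `k = 0`, `n/i` odd and `n' − 2m' > t`; or `k ≥ 2ℓ` and `n'` even; or `k > 2ℓ` and `n'` odd. -/
theorem result {F : Type*} [Field F] [Fintype F] {p : ℕ} [Fact p.Prime] [CharP F p] {q : ℕ} (hq : Fintype.card F = q)
    (d m : ℕ) (hd : 4 ≤ d) (hm : 1 ≤ m) (hmd : m < d)
    (r : ℕ) [Fact r.Prime]
    (hrΩ : r ∣ Nat.card {W : Submodule F (Fin d ⊕ Fin d → F) // Module.finrank F ↥W = m ∧ (∀ w ∈ W, Cfsg.quadFormPlus d F w = 0)})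
    (i c : ℕ) (hi : i = orderOf (q : ZMod r)) (hc : c = if Even i then i else 2 * i) :
    (∀ x : GL (Fin d ⊕ Fin d) F, x ∈ Cfsg.Geo.omegaGL (Cfsg.quadFormPlus d F) →
      (∃ z : F, ((x ^ r : GL (Fin d ⊕ Fin d) F) : Matrix (Fin d ⊕ Fin d) (Fin d ⊕ Fin d) F) = z • (1 : Matrix (Fin d ⊕ Fin d) (Fin d ⊕ Fin d) F)) →
      (∀ z : F, (x : Matrix (Fin d ⊕ Fin d) (Fin d ⊕ Fin d) F) ≠ z • (1 : Matrix (Fin d ⊕ Fin d) (Fin d ⊕ Fin d) F)) →
      ∃ W : Submodule F (Fin d ⊕ Fin d → F), Module.finrank F ↥W = m ∧ (∀ w ∈ W, Cfsg.quadFormPlus d F w = 0) ∧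
        W.map (Matrix.toLin' (x : Matrix (Fin d ⊕ Fin d) (Fin d ⊕ Fin d) F)) ≤ W) ↔
    ((r = 2 ∧ p ≠ 2 ∧ (q % 4 = 1 ∨ (q % 4 = 3 ∧ m + 2 ≤ d ∧ (Even m ∨ (2 * d) % 4 = 2)))) ∨
     (r ≠ p ∧ 2 < r ∧ Odd i ∧ i ≤ m ∧ 2 * (m % i) ≤ (2 * d) % c) ∨
     (r ≠ p ∧ 2 < r ∧ Even i ∧ i ≤ m ∧ (r - 1) / i + 2 * (m / i) ≤ (2 * d) / i ∧
       ((2 * (m % i) ≤ i ∧ (2 * d) % c = 0 ∧ Odd ((2 * d) / i) ∧ (r - 1) / i + 2 * (m / i) < (2 * d) / i) ∨
        (2 * (m % i) ≤ (2 * d) % c ∧ Even ((2 * d) / i)) ∨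
        (2 * (m % i) < (2 * d) % c ∧ Odd ((2 * d) / i))))) := by
  classical
  subst hi
  have hr : r.Prime := Fact.out
  have hQ : ⇑(plusForm d F) = quadFormPlus d F := rfl
  have hN := plusForm_nondeg (F := F) d
  have hcard : Fintype.card (Fin d ⊕ Fin d) = 2 * d := by simp [two_mul]
  have hV : finrank F (Fin d ⊕ Fin d → F) = 2 * d := finrank_total F d
  have hy : HyQ (plusForm d F) := ⟨stdM F d, stdM_ts F d, by rw [stdM_finrank, hV]⟩
  have hq1 : 1 ≤ q := by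
    have := two_le_q hq
    omega
  have hL : (∀ x : GL (Fin d ⊕ Fin d) F, x ∈ Cfsg.Geo.omegaGL (Cfsg.quadFormPlus d F) →
      (∃ z : F, ((x ^ r : GL (Fin d ⊕ Fin d) F) : Matrix (Fin d ⊕ Fin d) (Fin d ⊕ Fin d) F) = z • (1 : Matrix (Fin d ⊕ Fin d) (Fin d ⊕ Fin d) F)) →
      (∀ z : F, (x : Matrix (Fin d ⊕ Fin d) (Fin d ⊕ Fin d) F) ≠ z • (1 : Matrix (Fin d ⊕ Fin d) (Fin d ⊕ Fin d) F)) →
      ∃ W : Submodule F (Fin d ⊕ Fin d → F), Module.finrank F ↥W = m ∧ (∀ w ∈ W, Cfsg.quadFormPlus d F w = 0) ∧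
        W.map (Matrix.toLin' (x : Matrix (Fin d ⊕ Fin d) (Fin d ⊕ Fin d) F)) ≤ W) ↔ Elus (plusForm d F) r m := by
    constructor
    · intro H x h1 h2 h3
      obtain ⟨W, h4, h5, h6⟩ := H x h1 h2 h3
      exact ⟨W, h5, (map_le_iff _ W).mp h6, h4⟩
    · intro H x h1 h2 h3
      obtain ⟨W, h4, h5, h6⟩ := H x h1 h2 h3
      exact ⟨W, h6, h4, (map_le_iff _ W).mpr h5⟩
  rw [hL]
  obtain ⟨j, hj, hdiv⟩ := ts_dvd_plus hN hq hV hmd hy hr hrΩ
  have hjd : d - j ≠ 0 := by omega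
  have hjd' : d - j - 1 ≠ 0 := by omega
  have hrp : r ≠ p := by
    rintro rfl
    rcases hdiv with h | h
    · exact char_not_dvd hq hjd h
    · exact not_char_dvd_plus hq _ hjd' h
  obtain ⟨hrF, hrq⟩ := r_facts hq hr hrp
  by_cases hr2 : r = 2
  · subst hr2
    have h2 : (2 : F) ≠ 0 := by exact_mod_cast hrF
    have hp2 : p ≠ 2 := fun h => hrp h.symm
    let j₀ : Fin d := ⟨0, by omega⟩
    let j₁ : Fin d := ⟨1, by omega⟩
    have hj01 : j₀ ≠ j₁ := by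
      intro h
      have := congrArg Fin.val h
      simp [j₀, j₁] at this
    have hval : ∀ j' : Fin d, quadFormPlus d F (Pi.single (Sum.inl j') 1 + Pi.single (Sum.inr j') 1) = 1 := by
      intro j'
      unfold quadFormPlus
      rw [Finset.sum_eq_single j']
      · simp
      · intro b _ hb
        simp [Pi.single_apply, hb]
      · simp
    have hpolar : polar (plusForm d F) (Pi.single (Sum.inl j₀) 1 + Pi.single (Sum.inr j₀) 1)
        (Pi.single (Sum.inl j₁) 1 + Pi.single (Sum.inr j₁) 1) = 0 := by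
      rw [QuadraticMap.polar, hQ]
      have h3 : quadFormPlus d F (Pi.single (Sum.inl j₀) 1 + Pi.single (Sum.inr j₀) 1 +
          (Pi.single (Sum.inl j₁) 1 + Pi.single (Sum.inr j₁) 1)) = 1 + 1 := by
        unfold quadFormPlus
        rw [Finset.sum_eq_add_of_mem j₀ j₁ (Finset.mem_univ _) (Finset.mem_univ _) hj01]
        · simp [Pi.single_apply, hj01, hj01.symm]
        · intro b _ hb
          simp [Pi.single_apply, hb.1, hb.2]
      rw [h3, hval, hval]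
      ring
    rw [two_plus_iff hN h2 hq hcard hy (by omega) hmd (v₁ := Pi.single (Sum.inl j₀) 1 + Pi.single (Sum.inr j₀) 1)
      (v₂ := Pi.single (Sum.inl j₁) 1 + Pi.single (Sum.inr j₁) 1) (hval j₀) (hval j₁) hpolar]
    constructor
    · intro h
      exact Or.inl ⟨rfl, hp2, h⟩
    · rintro (⟨-, -, h⟩ | ⟨-, h, -⟩ | ⟨-, h, -⟩)
      · exact h
      · omega
      · omega
  have hr2' : 2 < r := by
    have := hr.two_le
    omega
  have hcc : Fintype.card F ≠ 2 ∨ Fintype.card (Fin d ⊕ Fin d) ≠ 4 := Or.inr (by omega)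
  have hipos := ord_pos (q := q) hr hrq
  rcases Nat.even_or_odd (orderOf (q : ZMod r)) with hie | hio
  · obtain ⟨e, he⟩ := hie
    have he2 : orderOf (q : ZMod r) = 2 * e := by omega
    have he0 : 0 < e := by omega
    have hcv : c = 2 * e := by
      rw [hc, if_pos (by rw [he2]; exact even_two_mul e), he2]
    have hk : (2 * d) % c = 2 * (d % e) := by rw [hcv, Nat.mul_mod_mul_left]
    have hn : (2 * d) / (orderOf (q : ZMod r)) = d / e := by rw [he2, Nat.mul_div_mul_left _ _ (by omega)]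
    obtain ⟨w, b, hdwb, hw, hbm, hcnt⟩ := cnt_even_plus hq1 hr hr2 he2 he0 hj hmd hdiv
    rw [main_even hN hq hcard hcc hr hr2 hrF hrq he2 he0 hm hmd (iff_true_intro hy) hdwb hw hbm hcnt]
    rw [hk, hn, he2]
    simp only [iff_true, ← Nat.not_even_iff_odd]
    constructor
    · rintro ⟨h1, h2, h3⟩
      refine Or.inr (Or.inr ⟨hrp, hr2', even_two_mul e, h1, h2, ?_⟩)
      rcases h3 with ⟨h4, h5⟩ | ⟨h4, h5, h6⟩ | ⟨h4, h5, h6, h7⟩
      · exact Or.inr (Or.inl ⟨h5, h4⟩)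
      · exact Or.inr (Or.inr ⟨h6, h4⟩)
      · exact Or.inl ⟨h6, by omega, h4, h7⟩
    · rintro (⟨h, -⟩ | ⟨-, -, h, -⟩ | ⟨-, -, -, h1, h2, h3⟩)
      · exact absurd h hr2
      · exact absurd (even_two_mul e) h
      · refine ⟨h1, h2, ?_⟩
        rcases h3 with ⟨h4, h5, h6, h7⟩ | ⟨h4, h5⟩ | ⟨h4, h5⟩
        · exact Or.inr (Or.inr ⟨h6, by omega, h4, h7⟩)
        · exact Or.inl ⟨h5, h4⟩
        · exact Or.inr (Or.inl ⟨h5, by omega, h4⟩)
  · have hcv : c = 2 * orderOf (q : ZMod r) := by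
      rw [hc, if_neg (Nat.not_even_iff_odd.mpr hio)]
    have hk : (2 * d) % c = 2 * (d % orderOf (q : ZMod r)) := by rw [hcv, Nat.mul_mod_mul_left]
    obtain ⟨x, b, hdxb, hx, hbm, hcnt⟩ := cnt_odd_plus hq1 hr hr2 hio hj hmd hdiv
    rw [main_odd hN hq hcard hcc hr hr2 hrF hrq hio hm hmd (iff_true_intro hy) hdxb hx hbm hcnt]
    rw [hk]
    simp only [forall_true_left, not_true_eq_false, false_implies, and_true]
    constructor
    · rintro ⟨h1, h2⟩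
      exact Or.inr (Or.inl ⟨hrp, hr2', hio, h1, h2⟩)
    · rintro (⟨h, -⟩ | ⟨-, -, -, h1, h2⟩ | ⟨-, -, h, -⟩)
      · exact absurd h hr2
      · exact ⟨h1, h2⟩
      · exact absurd h (Nat.not_even_iff_odd.mpr hio)

end Cfsg.Agent.S5973
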