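import Cfsg.Statements.S5974
import Cfsg.Agent.Lib.ElusT.NFin

set_option autoImplicit false
open scoped MatrixGroups
open Cfsg

namespace Cfsg.Agent.S5974

open Polynomial Module QuadraticMap Matrix
open Cfsg.Agent.Lib.ElusL.Bridge Cfsg.Agent.Lib.ElusL.Cyc Cfsg.Agent.Lib.ElusF.Form Cfsg.Agent.Lib.ElusQ.Syl
  Cfsg.Agent.Lib.ElusT.QType Cfsg.Agent.Lib.ElusT.QK1 Cfsg.Agent.Lib.ElusT.QModel Cfsg.Agent.Lib.ElusQ.Bridge
  Cfsg.Agent.Lib.Orth.Forms Cfsg.Agent.Lib.QuadFn.PlusForm Cfsg.Agent.Lib.ElusT.NBase Cfsg.Agent.Lib.ElusT.NTwo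
  Cfsg.Agent.Lib.ElusT.NC2G Cfsg.Agent.Lib.ElusT.NFin Cfsg.Agent.Lib.ElusT.NStmt Cfsg.Agent.Lib.ElusQ.Disc


/-- Elements of prime order of PΩ⁺_n(q), n = 2d ≥ 8, with no fixed nondegenerate hyperbolic `m`-space. Here `T = PΩ⁺_n(q)` is realised through `Ω⁺_n(q)`, the commutator subgroup of the isometry group of `Q = Σ xᵢyᵢ` over the field `F` with `q` elements; an element of `T` of prime order `r` is an element `x` of `Ω⁺_n(q)` with `x^r` scalar and `x` not scalar. A hyperbolic `m`-space is a subspace `W` of even dimension `m` on which the polar form of `Q` is nondegenerate and which contains a totally singular subspace of dimension `m/2`. Let `m` be even with `2 ≤ m < n/2`, and let `r` be a prime dividing the number of hyperbolic `m`-spaces, with `r = 2` or `r ≠ p`. For `r ≠ p` let `i` be the multiplicative order of `q` modulo `r`, `c = i` for `i` even and `c = 2i` for `i` odd, and write `k = n mod c`, `ℓ' = m mod c`. Then every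 element of `T` of order `r` fixes some hyperbolic `m`-space if and only if one of: (i) `r = 2` and (`n ≡ 2 (mod 4)`, or `m ≡ 0 (mod 4)`, or `q ≡ 1 (mod 4)`); (ii) `r ≠ p` odd, `i` odd, `c ≤ m` and `k ≥ ℓ'`; (iii) `r ≠ p` odd, `i` even, and either `k = 0` and (`n/i` odd, or `ℓ' = 0` and `m/i` even), or `i ≤ m` and (`k > ℓ' > 0`, or `k = ℓ' > 0` and `(n + m − 2k)/i` even, or `k > ℓ' = 0` and `m/i` even). -/
theorem result {F : Type*} [Field F] [Fintype F] {p : ℕ} [Fact p.Prime] [CharP F p] {q : ℕ} (hq : Fintype.card F = q)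
    (d m : ℕ) (hd : 4 ≤ d) (hm : 2 ≤ m) (hme : Even m) (hmd : m < d)
    (r : ℕ) [Fact r.Prime] (hr : r = 2 ∨ r ≠ p)
    (hrΩ : r ∣ Nat.card {W : Submodule F (Fin d ⊕ Fin d → F) // (Module.finrank F ↥W = m ∧ (∀ u ∈ W, u ≠ 0 → ∃ v ∈ W, QuadraticMap.polar (Cfsg.quadFormPlus d F) u v ≠ 0) ∧
          ∃ U : Submodule F (Fin d ⊕ Fin d → F), U ≤ W ∧ 2 * Module.finrank F ↥U = m ∧ ∀ u ∈ U, Cfsg.quadFormPlus d F u = 0)})
    (i c : ℕ) (hi : i = orderOf (q : ZMod r)) (hc : c = if Even i then i else 2 * i) :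
    (∀ x : GL (Fin d ⊕ Fin d) F, x ∈ Cfsg.Geo.omegaGL (Cfsg.quadFormPlus d F) →
      (∃ z : F, ((x ^ r : GL (Fin d ⊕ Fin d) F) : Matrix (Fin d ⊕ Fin d) (Fin d ⊕ Fin d) F) = z • (1 : Matrix (Fin d ⊕ Fin d) (Fin d ⊕ Fin d) F)) →
      (∀ z : F, (x : Matrix (Fin d ⊕ Fin d) (Fin d ⊕ Fin d) F) ≠ z • (1 : Matrix (Fin d ⊕ Fin d) (Fin d ⊕ Fin d) F)) →
      ∃ W : Submodule F (Fin d ⊕ Fin d → F), (Module.finrank F ↥W = m ∧ (∀ u ∈ W, u ≠ 0 → ∃ v ∈ W, QuadraticMap.polar (Cfsg.quadFormPlus d F) u v ≠ 0) ∧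
          ∃ U : Submodule F (Fin d ⊕ Fin d → F), U ≤ W ∧ 2 * Module.finrank F ↥U = m ∧ ∀ u ∈ U, Cfsg.quadFormPlus d F u = 0) ∧
        W.map (Matrix.toLin' (x : Matrix (Fin d ⊕ Fin d) (Fin d ⊕ Fin d) F)) ≤ W) ↔
    ((r = 2 ∧ ((2 * d) % 4 = 2 ∨ m % 4 = 0 ∨ q % 4 = 1)) ∨
     (r ≠ p ∧ 2 < r ∧ Odd i ∧ c ≤ m ∧ m % c ≤ (2 * d) % c) ∨
     (r ≠ p ∧ 2 < r ∧ Even i ∧
       (((2 * d) % c = 0 ∧ (Odd ((2 * d) / i) ∨ (m % c = 0 ∧ Even (m / i)))) ∨
        (i ≤ m ∧ ((m % c < (2 * d) % c ∧ 0 < m % c) ∨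
                  ((2 * d) % c = m % c ∧ 0 < m % c ∧ Even ((2 * d + m - 2 * ((2 * d) % c)) / i)) ∨
                  (0 < (2 * d) % c ∧ m % c = 0 ∧ Even (m / i))))))) := by
  classical
  subst hi
  have hrP : r.Prime := Fact.out
  have hN := plusForm_nondeg (F := F) d
  have hcard : Fintype.card (Fin d ⊕ Fin d) = 2 * d := by simp [two_mul]
  have hV : finrank F (Fin d ⊕ Fin d → F) = 2 * d := finrank_total F d
  have hy : HyQ (plusForm d F) := ⟨stdM F d, stdM_ts F d, by rw [stdM_finrank, hV]⟩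
  have hq1 : 1 ≤ q := by
    have := two_le_q hq
    omega
  obtain ⟨κ, hκ⟩ := hme
  have hm2 : m = 2 * κ := by omega
  subst hm2
  have hκ0 : 0 < κ := by omega
  have hκd : κ < d := by omega
  refine Iff.trans (b := ElusP (plusForm d F) r (PQ (plusForm d F) (2 * κ) True)) ?_ ?_
  · constructor
    · intro H x h1 h2 h3
      obtain ⟨W, h4, h5⟩ := H x h1 h2 h3
      exact ⟨W, (hyp_family_iff (plusForm d F) W _).mp h4, (map_le_iff _ W).mp h5⟩
    · intro H x h1 h2 h3
      obtain ⟨W, h4, h5⟩ := H x h1 h2 h3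
      exact ⟨W, (hyp_family_iff (plusForm d F) W _).mpr h4, (map_le_iff _ W).mpr h5⟩
  have hcnt : r ∣ Nat.card {W // PQ (plusForm d F) (2 * κ) True W} := by
    rw [← Nat.card_congr (Equiv.subtypeEquivRight (fun W => hyp_family_iff (plusForm d F) W (2 * κ)))]
    exact hrΩ
  by_cases hr2 : r = 2
  · subst hr2
    have hmain : ElusP (plusForm d F) 2 (PQ (plusForm d F) (2 * κ) True) ↔
        ((2 * d) % 4 = 2 ∨ (2 * κ) % 4 = 0 ∨ q % 4 = 1) := by
      by_cases h2 : (2 : F) = 0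
      · have hp2 : p = 2 := p_eq_two h2
        have h2q := two_dvd_q (p := p) h2 hq
        subst hp2
        constructor
        · intro H
          by_contra hcon
          rw [not_or, not_or] at hcon
          obtain ⟨h3, h4, h5⟩ := hcon
          obtain ⟨g, hg⟩ : ∃ g, d = 2 * g := ⟨d / 2, by omega⟩
          obtain ⟨U, -, hU, hUd⟩ := exists_ts_sub (Q := plusForm d F) (U := ⊤) (fm_of_symm (polar_symm _) hN).nd_top
            (a := d) (by rw [finrank_top, hV]) (t := 2 * g) (Or.inl ⟨(hyS_top _).mpr hy, by omega⟩)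
          exact not_elus_of (p := 2) hN hq hcard (by omega) (by omega) hU hUd (fun a a' h6 h7 h8 h9 h10 h11 => by
            obtain ⟨k, hk⟩ := h9
            omega) H
        · intro hc'
          apply c2_elus_of hN h2 hq hcard (by omega) hκ0 hκd
          intro ρ hρe hρ2 hρd hρy
          obtain ⟨k, hk⟩ := hρe
          obtain ⟨q', hq'⟩ := h2q
          rcases Nat.lt_or_ge ρ κ with hlt | hge
          · exact ⟨k, κ - ρ, by omega, by omega, by omega, fun _ => trivial, fun _ => iff_of_true trivial hy⟩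
          · rcases Nat.even_or_odd κ with ⟨k', hk'⟩ | ⟨k', hk'⟩
            · exact ⟨k', 0, by omega, by omega, by omega, fun _ => trivial, fun _ => iff_of_true trivial hy⟩
            · exact ⟨k', 1, by omega, by omega, by omega, fun _ => trivial, fun _ => iff_of_true trivial hy⟩
      · exact two_hyp_iff hN h2 hq hcard (by omega) hκ0 hκd hy
    rw [hmain]
    constructor
    · intro h
      exact Or.inl ⟨rfl, h⟩
    · rintro (⟨-, h⟩ | ⟨-, h, -⟩ | ⟨-, h, -⟩)
      · exact h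
      · omega
      · omega
  · have hrp : r ≠ p := hr.resolve_left hr2
    obtain ⟨hrF, hrq⟩ := r_facts hq hrP hrp
    have hr2' : 2 < r := by
      have := hrP.two_le
      omega
    have hcount := count_of hN hq hcard hκ0 hκd hrP hr2 hrq hcnt
    have hipos := ord_pos (q := q) hrP hrq
    rcases Nat.even_or_odd (orderOf (q : ZMod r)) with hie | hio
    · obtain ⟨e, he⟩ := hie
      have he2 : orderOf (q : ZMod r) = 2 * e := by omega
      have he0 : 0 < e := by omega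
      have hcv : c = 2 * e := by
        rw [hc, if_pos (by rw [he2]; exact even_two_mul e), he2]
      rw [elusP_even hN hq hcard (by omega) hrP hr2 hrF hrq he2 he0 hκ0 hκd,
        rhs5974_even hy he0 (fun h1 h3 h4 => e_le_even hq1 hrP hr2 he2 he0 hκ0 hκd hcount h1 h3 h4), he2, hcv]
      constructor
      · intro h
        exact Or.inr (Or.inr ⟨hrp, hr2', even_two_mul e, h⟩)
      · rintro (⟨h, -⟩ | ⟨-, -, h, -⟩ | ⟨-, -, -, h⟩)
        · exact absurd h hr2
        · exact absurd (even_two_mul e) (Nat.not_even_iff_odd.mpr h)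
        · exact h
    · have hcv : c = 2 * orderOf (q : ZMod r) := by
        rw [hc, if_neg (Nat.not_even_iff_odd.mpr hio)]
      rw [elusP_odd hN hq hcard (by omega) hrP hr2 hrF hrq hio hκ0 hκd,
        rhs5974_odd hy hipos hκ0 (fun h1 h3 h4 => e_le_odd hq1 hrP hr2 hio hκ0 hκd hcount h1 h3 h4), hcv]
      constructor
      · rintro ⟨h1, h3⟩
        exact Or.inr (Or.inl ⟨hrp, hr2', hio, h1, h3⟩)
      · rintro (⟨h, -⟩ | ⟨-, -, -, h1, h3⟩ | ⟨-, -, h, -⟩)
        · exact absurd h hr2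
        · exact ⟨h1, h3⟩
        · exact absurd h (Nat.not_even_iff_odd.mpr hio)

end Cfsg.Agent.S5974
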