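import Cfsg.Statements.S5978
import Cfsg.Agent.Lib.ElusK2.FwdMain

set_option autoImplicit false
open scoped MatrixGroups
open Cfsg
open Cfsg.Agent.Lib.ElusK2.FwdMain Cfsg.Agent.Lib.Orth.Forms QuadraticMap

namespace Cfsg.Agent.S5978


/-- Elements of prime order of PΩ⁻_n(q), q odd, and the field-extension subgroups of degree 2 (orthogonal type over F_{q²}). Here `T = PΩ⁻_{2d}(F)` for a field `F` with `q` elements, `q` odd, `d ≥ 4`, realised through `Ω⁻_{2d}(q)`, the commutator subgroup of the isometry group of `Q = Σ_{i<d−1} xᵢyᵢ + z₁² + a z₁z₂ + b z₂²` with `z₁² + a z₁z₂ + b z₂²` anisotropic, with polar form `B`; `K` is a subalgebra of the `2d × 2d` matrices that is a field of degree 2 over `F` whose elements are self-adjoint for `B` (so `F^{2d}` becomes a `d`-dimensional space over `K ≅ F_{q²}` on which `B` is the trace of a `K`-bilinear symmetric form); `H` is the subgroup of `Ω⁻_{2d}(q)` normalizing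 `K` — the elements of `Ω⁻_{2d}(q)` that are `K`-linear or `K`-semilinear, a subgroup of orthogonal type over the quadratic extension (maximality is not assumed). Ω is the set of cosets of `H`, so an element of `T` of prime order `r` (`x ∈ Ω⁻_{2d}(q)` with `x^r` scalar, `x` not scalar) fixes a point of Ω exactly when some `Ω⁻_{2d}(q)`-conjugate of `x` normalizes `K`. Let `r` be a prime dividing the index of `H`. Then every element of `T` of order `r` fixes a point of Ω if and only if `r = 2`. -/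
theorem result {F : Type*} [Field F] [Fintype F] {p : ℕ} [Fact p.Prime] [CharP F p] {q : ℕ} (hq : Fintype.card F = q)
    (hodd : Odd q) (d : ℕ) (hd : 4 ≤ d) (a b : F) (hab : ∀ x y : F, x ^ 2 + a * x * y + b * y ^ 2 = 0 → x = 0 ∧ y = 0)
    (K : Subalgebra F (Matrix ((Fin (d - 1) ⊕ Fin (d - 1)) ⊕ Fin 2) ((Fin (d - 1) ⊕ Fin (d - 1)) ⊕ Fin 2) F)) (hK : Cfsg.Geo.IsFieldSubalgebra 2 K)
    (hKf : Cfsg.Geo.IsSelfAdjointFor (QuadraticMap.polar (Cfsg.quadFormMinus (d - 1) F a b)) K)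
    (r : ℕ) [Fact r.Prime]
    (hΩ : r ∣ (Cfsg.Geo.subalgebraNormalizer K).relIndex (Cfsg.Geo.omegaGL (Cfsg.quadFormMinus (d - 1) F a b))) :
    (∀ x ∈ Cfsg.Geo.omegaGL (Cfsg.quadFormMinus (d - 1) F a b), (∃ z : F, ((x ^ r : GL ((Fin (d - 1) ⊕ Fin (d - 1)) ⊕ Fin 2) F) : Matrix ((Fin (d - 1) ⊕ Fin (d - 1)) ⊕ Fin 2) ((Fin (d - 1) ⊕ Fin (d - 1)) ⊕ Fin 2) F) = z • (1 : Matrix ((Fin (d - 1) ⊕ Fin (d - 1)) ⊕ Fin 2) ((Fin (d - 1) ⊕ Fin (d - 1)) ⊕ Fin 2) F)) →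
      (∀ z : F, (x : Matrix ((Fin (d - 1) ⊕ Fin (d - 1)) ⊕ Fin 2) ((Fin (d - 1) ⊕ Fin (d - 1)) ⊕ Fin 2) F) ≠ z • (1 : Matrix ((Fin (d - 1) ⊕ Fin (d - 1)) ⊕ Fin 2) ((Fin (d - 1) ⊕ Fin (d - 1)) ⊕ Fin 2) F)) →
      ∃ g ∈ Cfsg.Geo.omegaGL (Cfsg.quadFormMinus (d - 1) F a b), g⁻¹ * x * g ∈ Cfsg.Geo.subalgebraNormalizer K) ↔ r = 2 := by
  classical
  have h2 : (2 : F) ≠ 0 := by
    intro h
    have h3 : ((2 : ℕ) : F) = 0 := by exact_mod_cast h
    have h4 := (CharP.cast_eq_zero_iff F p 2).1 h3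
    have h5 : p = 2 := (Nat.prime_dvd_prime_iff_eq (Fact.out) Nat.prime_two).1 h4
    obtain ⟨n, -, hn⟩ := FiniteField.card F p
    rw [hq, h5] at hn
    rw [hn] at hodd
    exact (Nat.not_even_iff_odd.2 hodd) ((Nat.even_pow.2 ⟨even_two, n.pos.ne'⟩))
  have hcard : Fintype.card ((Fin (d - 1) ⊕ Fin (d - 1)) ⊕ Fin 2) = 2 * d := by
    rw [Fintype.card_sum, Fintype.card_sum, Fintype.card_fin, Fintype.card_fin]
    omega
  have hzero : ∀ v : (Fin (d - 1) ⊕ Fin (d - 1)) ⊕ Fin 2 → F, (∀ i, v (Sum.inl (Sum.inr i)) = 0) → (∀ i, v (Sum.inr i) = 0) →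
      minusForm (d - 1) F a b v = 0 := by
    intro v hv hv'
    change (∑ i : Fin (d - 1), v (Sum.inl (Sum.inl i)) * v (Sum.inl (Sum.inr i))) +
      (v (Sum.inr 0) ^ 2 + a * v (Sum.inr 0) * v (Sum.inr 1) + b * v (Sum.inr 1) ^ 2) = 0
    simp [hv, hv']
  refine main_iff h2 hq (minusForm_nondeg (d - 1) hab) hcard (by omega) hK hKf hΩ ?_
  let i₀ : Fin (d - 1) := ⟨0, by omega⟩
  let i₁ : Fin (d - 1) := ⟨1, by omega⟩
  have h01 : i₀ ≠ i₁ := by
    intro h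
    have := congrArg Fin.val h
    simp [i₀, i₁] at this
  let u : (Fin (d - 1) ⊕ Fin (d - 1)) ⊕ Fin 2 → F := Pi.single (Sum.inl (Sum.inl i₀)) 1
  let w : (Fin (d - 1) ⊕ Fin (d - 1)) ⊕ Fin 2 → F := Pi.single (Sum.inl (Sum.inl i₁)) 1
  have hu : ∀ i, u (Sum.inl (Sum.inr i)) = 0 := fun i => by simp [u]
  have hw : ∀ i, w (Sum.inl (Sum.inr i)) = 0 := fun i => by simp [w]
  have hu' : ∀ i, u (Sum.inr i) = 0 := fun i => by simp [u]
  have hw' : ∀ i, w (Sum.inr i) = 0 := fun i => by simp [w]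
  refine ⟨u, w, hzero u hu hu', hzero w hw hw', ?_, ?_⟩
  · change polar (⇑(minusForm (d - 1) F a b)) u w = 0
    rw [polar, hzero u hu hu', hzero w hw hw', hzero (u + w) (fun i => by simp [hu, hw]) (fun i => by simp [hu', hw'])]
    simp
  · rw [LinearIndependent.pair_iff]
    intro s t hst
    have h3 := congrFun hst (Sum.inl (Sum.inl i₀))
    have h4 := congrFun hst (Sum.inl (Sum.inl i₁))
    simp [u, w, h01, h01.symm] at h3 h4
    exact ⟨h3, h4⟩

end Cfsg.Agent.S5978
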