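import Cfsg.Statements.S5979
import Cfsg.Agent.Lib.Elusive.KronConj
import Cfsg.Agent.Lib.Elusive.BlockForm
import Cfsg.Agent.S5967

set_option autoImplicit false
open scoped MatrixGroups
open Cfsg

namespace Cfsg.Agent.S5979

open Matrix Kronecker Module Cfsg.Agent.Lib.Elusive Cfsg.Agent.Lib.Elusive.KronConj Cfsg.Agent.Lib.Elusive.BlockForm

/-- Ranks of diagonal matrices minus scalars. -/
theorem rank_diag_eq {F : Type*} [Field F] {n : ℕ} (d : Fin n → F) (c : F) (S : Finset (Fin n))
    (h : ∀ i, i ∈ S ↔ d i ≠ c) :
    (Matrix.diagonal d - c • (1 : Matrix (Fin n) (Fin n) F)).rank = S.card := by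
  classical
  have h1 : Matrix.diagonal d - c • (1 : Matrix (Fin n) (Fin n) F) = Matrix.diagonal (fun i => d i - c) := by
    ext i j
    by_cases hij : i = j
    · subst hij
      simp
    · simp [hij]
  rw [h1, Matrix.rank_diagonal]
  exact Fintype.card_of_subtype S (fun i => by rw [h, sub_ne_zero])

/-- An element with `δ ^ n = -1`. -/
theorem exists_pow_eq_neg_one {F : Type*} [Field F] [Fintype F] {q : ℕ} (hq : Fintype.card F = q)
    (h2 : (2 : F) ≠ 0) (n : ℕ) (hn0 : n ≠ 0) (hlt : padicValNat 2 n + 1 ≤ padicValNat 2 (q - 1)) :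
    ∃ δ : F, δ ≠ 0 ∧ δ ^ n = -1 := by
  classical
  have hq2 : 2 ≤ q := hq ▸ Fintype.one_lt_card
  set s := padicValNat 2 n with hs
  have hdvd : 2 ^ (s + 1) ∣ q - 1 :=
    (padicValNat_dvd_iff_le (by omega)).2 hlt
  obtain ⟨γ, hγ⟩ := IsCyclic.exists_generator (α := Fˣ)
  have hγo : orderOf γ = q - 1 := by
    rw [orderOf_eq_card_of_forall_mem_zpowers hγ, Nat.card_eq_fintype_card, Fintype.card_units, hq]
  obtain ⟨k, hk⟩ := hdvd
  let δ₀ : Fˣ := γ ^ k
  have hq1 : q - 1 ≠ 0 := by omega
  have hδ₀ : orderOf δ₀ = 2 ^ (s + 1) := by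
    have := orderOf_pow_of_dvd (x := γ) (n := k) (by
      intro h
      rw [h, mul_zero] at hk
      exact hq1 hk) (by rw [hγo, hk]; exact dvd_mul_left _ _)
    rw [this, hγo, hk]
    have hk0 : k ≠ 0 := by
      intro h
      rw [h, mul_zero] at hk
      exact hq1 hk
    exact Nat.mul_div_cancel _ (Nat.pos_of_ne_zero hk0)
  let δ : F := (δ₀ : F)
  have hδ0 : δ ≠ 0 := δ₀.ne_zero
  have hδpow : δ ^ (2 ^ s) = -1 := by
    have h1 : (δ ^ (2 ^ s)) ^ 2 = 1 := by
      have : δ₀ ^ (2 ^ (s + 1)) = 1 := by
        rw [← hδ₀]
        exact pow_orderOf_eq_one _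
      have h3 := congrArg Units.val this
      rw [Units.val_pow_eq_pow_val, Units.val_one, pow_succ, pow_mul] at h3
      exact h3
    have h4 : δ ^ (2 ^ s) ≠ 1 := by
      intro h
      have : δ₀ ^ (2 ^ s) = 1 := by
        ext
        rw [Units.val_pow_eq_pow_val, Units.val_one]
        exact h
      have h5 := orderOf_dvd_of_pow_eq_one this
      rw [hδ₀] at h5
      have := Nat.le_of_dvd (by positivity) h5
      have h6 : 2 ^ s < 2 ^ (s + 1) := Nat.pow_lt_pow_right (by norm_num) (by omega)
      omega
    have h5 : (δ ^ (2 ^ s) - 1) * (δ ^ (2 ^ s) + 1) = 0 := by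
      linear_combination h1
    rcases mul_eq_zero.mp h5 with h | h
    · exact absurd (sub_eq_zero.mp h) h4
    · linear_combination h
  obtain ⟨m, hm⟩ : 2 ^ s ∣ n := pow_padicValNat_dvd
  have hmodd : Odd m := by
    rw [← Nat.not_even_iff_odd]
    rintro ⟨r, rfl⟩
    have : 2 ^ (s + 1) ∣ n := ⟨r, by rw [hm]; ring⟩
    have hfact : Fact (Nat.Prime 2) := ⟨Nat.prime_two⟩
    exact pow_succ_padicValNat_not_dvd hn0 this
  refine ⟨δ, hδ0, ?_⟩
  rw [hm, pow_mul, hδpow]
  exact hmodd.neg_one_pow

/-- The construction for `r = 2`, `a = 2`. -/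
theorem conj_case {F : Type*} [Field F] [Fintype F] {q : ℕ} (hq : Fintype.card F = q) (hodd : Odd q)
    (n b : ℕ) (hn : n = 2 * b) (hb : 0 < b) (hval : padicValNat 2 (q - 1) ≤ padicValNat 2 n)
    (e : Fin n ≃ Fin 2 × Fin b) (P x : GL (Fin n) F) (hx : x ∈ Cfsg.Geo.specialLinear (Fin n) F)
    (z : F) (hz : ((x ^ 2 : GL (Fin n) F) : Matrix (Fin n) (Fin n) F) = z • 1) :
    ∃ g ∈ Cfsg.Geo.specialLinear (Fin n) F, g⁻¹ * x * g ∈ Cfsg.Geo.tensorProductSubgroup 2 b e P := by
  classical
  have hn0 : n ≠ 0 := by omega
  have hne : Nonempty (Fin n) := ⟨⟨0, by omega⟩⟩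
  have hxdet : (x : Matrix (Fin n) (Fin n) F).det = 1 :=
    (Cfsg.Agent.Lib.Geo.Basic.mem_specialLinear_iff x).1 hx
  have h2 : (2 : F) ≠ 0 := by
    intro h2
    have : CharP F 2 := CharTwo.of_one_ne_zero_of_two_eq_zero one_ne_zero h2
    have hch : ringChar F = 2 := ringChar.eq F 2
    have heven := FiniteField.even_card_of_char_two hch
    rw [hq] at heven
    exact (Nat.not_even_iff_odd.mpr hodd) (Nat.even_iff.mpr heven)
  have hsq : (x : Matrix (Fin n) (Fin n) F) * (x : Matrix (Fin n) (Fin n) F) = z • (1 : Matrix (Fin n) (Fin n) F) := by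
    rw [← hz, pow_two, Units.val_mul]
  have hz0 : z ≠ 0 := by
    rintro rfl
    rw [zero_smul] at hsq
    have : (x : Matrix (Fin n) (Fin n) F).det * (x : Matrix (Fin n) (Fin n) F).det = 0 := by
      rw [← Matrix.det_mul, hsq]
      exact Matrix.det_zero
    rw [hxdet] at this
    simp at this
  let g : (Fin n → F) →ₗ[F] (Fin n → F) := Matrix.toLin' (x : Matrix (Fin n) (Fin n) F)
  have hgx : ∀ v, (x : Matrix (Fin n) (Fin n) F).mulVec v = g v := fun v => rfl
  have hg : ∀ v, g (g v) = z • v := by
    intro v
    simp only [g, Matrix.toLin'_apply, Matrix.mulVec_mulVec, hsq, Matrix.smul_mulVec, Matrix.one_mulVec]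
  have hfin : finrank F (Fin n → F) = n := by simp
  by_cases hsqz : IsSquare z
  · -- `z = w²`: eigenspaces
    obtain ⟨w, hw⟩ := hsqz
    have hw0 : w ≠ 0 := by
      rintro rfl
      apply hz0
      rw [hw]
      ring
    obtain ⟨a, c, e₀, he1, he2⟩ := Cfsg.Agent.S5967.exists_eigen_basis g w hw0 h2 (by
      intro v
      rw [hg, hw]
      congr 1
      ring)
    have hac : a + c = n := by
      have := finrank_eq_card_basis e₀
      rw [hfin] at this
      simpa using this.symm
    -- determinant
    have hdetg : w ^ a * (-w) ^ c = 1 := by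
      have h1 : LinearMap.det g = 1 := by
        simp only [g]
        rw [LinearMap.det_toLin']
        exact hxdet
      have h3 : LinearMap.toMatrix e₀ e₀ g = Matrix.diagonal (Sum.elim (fun _ => w) (fun _ => -w)) := by
        ext p p'
        rw [LinearMap.toMatrix_apply]
        rcases p' with i | j
        · rw [he1]
          simp [Matrix.diagonal_apply, Finsupp.single_apply]
          rcases p with i' | j'
          · by_cases h : i = i'
            · simp [h]
            · have h' : i' ≠ i := fun hh => h hh.symm
              simp [h, h']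
          · simp
        · rw [he2]
          simp [Matrix.diagonal_apply, Finsupp.single_apply]
          rcases p with i' | j'
          · simp
          · by_cases h : j = j'
            · simp [h]
            · have h' : j' ≠ j := fun hh => h hh.symm
              simp [h, h']
      rw [← LinearMap.det_toMatrix e₀, h3, Matrix.det_diagonal] at h1
      simpa using h1
    have hceven : Even c := by
      by_contra hodd
      rw [Nat.not_even_iff_odd] at hodd
      have hpow : w ^ n = -1 := by
        rw [hodd.neg_pow] at hdetg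
        rw [← hac, pow_add]
        linear_combination -hdetg
      have := Cfsg.Agent.S5967.padic_of_pow_eq_neg_one hq h2 n hn0 w hpow
      omega
    obtain ⟨c', rfl⟩ : ∃ c', c = 2 * c' := by
      obtain ⟨r, hr⟩ := hceven
      exact ⟨r, by omega⟩
    obtain ⟨a', rfl⟩ : ∃ a', a = 2 * a' := by
      exact ⟨b - c', by omega⟩
    let ε : Fin 2 × (Fin a' ⊕ Fin c') ≃ Fin (2 * a') ⊕ Fin (2 * c') :=
      (Equiv.prodSumDistrib _ _ _).trans (Equiv.sumCongr finProdFinEquiv finProdFinEquiv)
    let bas : Basis (Fin 2 × (Fin a' ⊕ Fin c')) F (Fin n → F) := e₀.reindex ε.symm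
    have hbas : ∀ p, bas p = e₀ (ε p) := fun p => by simp [bas]
    let s : Fin a' ⊕ Fin c' → F := Sum.elim (fun _ => w) (fun _ => -w)
    refine exists_conj_of_tensor_basis' (I := Fin a' ⊕ Fin c') (by simp; omega) e P x hx bas 1 s ?_ ?_ hb ?_
    · rintro (k | l)
      · simpa [s] using hw0
      · simpa [s] using hw0
    · rintro i (k | l) <;> fin_cases i
      · simp [hgx, hbas, s, ε, Fin.sum_univ_two, he1, Matrix.one_apply]
      · simp [hgx, hbas, s, ε, Fin.sum_univ_two, he1, Matrix.one_apply]
      · simp [hgx, hbas, s, ε, Fin.sum_univ_two, he2, Matrix.one_apply]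
      · simp [hgx, hbas, s, ε, Fin.sum_univ_two, he2, Matrix.one_apply]
    · intro δ
      refine ⟨!![δ, 0; 0, 1], ?_, ?_⟩
      · simp
      · simp [Matrix.det_fin_two]
  · -- `z` non-square
    obtain ⟨K, L, _, _, e₀, s, h1, h3, h4⟩ := exists_normal_basis g z hz0 hg
    have hL : IsEmpty L := by
      constructor
      intro l
      apply hsqz
      have hv := e₀.ne_zero (.inr l)
      have h5 := hg (e₀ (.inr l))
      rw [h4, map_smul, h4, smul_smul] at h5
      have h6 : (s l * s l - z) • e₀ (.inr l) = 0 := by
        rw [sub_smul, h5, sub_self]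
      have := (smul_eq_zero.mp h6).resolve_right hv
      exact ⟨s l, by linear_combination -this⟩
    let ε : Fin 2 × K ≃ (K × Bool) ⊕ L :=
      ((Equiv.prodComm _ _).trans (Equiv.prodCongr (Equiv.refl _) finTwoEquiv)).trans (Equiv.sumEmpty _ L).symm
    let bas : Basis (Fin 2 × K) F (Fin n → F) := e₀.reindex ε.symm
    have hbas : ∀ p, bas p = e₀ (ε p) := fun p => by simp [bas]
    have hcard : Fintype.card K = b := by
      have h5 := finrank_eq_card_basis bas
      rw [hfin, Fintype.card_prod, Fintype.card_fin] at h5
      omega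
    have hd : (swapBlock z).det ≠ 0 := by
      rw [det_swapBlock]
      exact neg_ne_zero.mpr hz0
    let A : GL (Fin 2) F := Matrix.GeneralLinearGroup.mkOfDetNeZero _ hd
    have hAc : (A : Matrix (Fin 2) (Fin 2) F) = swapBlock z := rfl
    refine exists_conj_of_tensor_basis' (I := K) hcard e P x hx bas A (fun _ => 1) (fun _ => one_ne_zero) ?_ hb ?_
    · rintro i k
      rw [hAc]
      have hf0 : finTwoEquiv 0 = false := rfl
      have hf1 : finTwoEquiv 1 = true := rfl
      fin_cases i
      · simp [hgx, hbas, ε, Fin.sum_univ_two, swapBlock, h1, hf0, hf1]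
      · simp [hgx, hbas, ε, Fin.sum_univ_two, swapBlock, h3, hf0, hf1]
    · intro δ
      rw [hAc]
      exact exists_comm_swapBlock z δ hz0

/-- Elements of prime order of PSL_n(q) and the stabilizers of tensor decompositions with factors of different dimensions. Here `T = PSL_n(F)` for a field `F` with `q` elements and `n = a·b` with `2 ≤ a < b`; a tensor decomposition `F^n ≅ F^a ⊗ F^b` is given by a bijection `e` of index sets and a change of basis `P`, and `H` is the subgroup of matrices of determinant 1 in its stabilizer (the conjugate by `P` of the group of Kronecker products `g₁ ⊗ g₂`) — a subgroup of type GL_a(q) ⊗ GL_b(q) (maximality is not assumed); Ω is the set of cosets of `H` in `T`, so an element of `T` of prime order `r` (a matrix `x` of determinant 1 with `x^r` scalar, `x` not scalar) fixes a point of Ω exactly when some conjugate of `x` by a matrix of determinant 1 lies in `H`. Let `r` be a prime dividing the index of `H`. Then every element of `T` of order `r` fixes a point of Ω if and only if `r = 2`, `a = 2`, `q` is odd and `(q − 1)_2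 ≤ (n)_2` (2-parts). -/
theorem result {F : Type*} [Field F] [Fintype F] {p : ℕ} [Fact p.Prime] [CharP F p] {q : ℕ} (hq : Fintype.card F = q)
    (n a b : ℕ) (hab : n = a * b) (ha : 2 ≤ a) (hlt : a < b) (e : Fin n ≃ Fin a × Fin b) (P : GL (Fin n) F)
    (r : ℕ) [Fact r.Prime]
    (hΩ : r ∣ (Cfsg.Geo.tensorProductSubgroup a b e P).relIndex (Cfsg.Geo.specialLinear (Fin n) F)) :
    (∀ x ∈ Cfsg.Geo.specialLinear (Fin n) F, (∃ z : F, ((x ^ r : GL (Fin n) F) : Matrix (Fin n) (Fin n) F) = z • (1 : Matrix (Fin n) (Fin n) F)) →
      (∀ z : F, (x : Matrix (Fin n) (Fin n) F) ≠ z • (1 : Matrix (Fin n) (Fin n) F)) →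
      ∃ g ∈ Cfsg.Geo.specialLinear (Fin n) F, g⁻¹ * x * g ∈ Cfsg.Geo.tensorProductSubgroup a b e P) ↔
    (r = 2 ∧ a = 2 ∧ Odd q ∧ padicValNat 2 (q - 1) ≤ padicValNat 2 n) := by
  classical
  have hq2 : 2 ≤ q := hq ▸ Fintype.one_lt_card
  have hb3 : 3 ≤ b := by omega
  have hn6 : 6 ≤ n := by
    rw [hab]
    nlinarith
  have hn0 : n ≠ 0 := by omega
  have hrp2 := (Fact.out : r.Prime).two_le
  constructor
  · intro hall
    -- data attached to a matrix
    have key : ∀ (M : Matrix (Fin n) (Fin n) F), M.det = 1 → ∀ z : F, M ^ r = z • 1 → (∀ z : F, M ≠ z • 1) →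
        ∃ (A : GL (Fin a) F) (B : GL (Fin b) F),
          (∀ c : F, (M - c • (1 : Matrix (Fin n) (Fin n) F)).rank =
            (((A : Matrix (Fin a) (Fin a) F) ⊗ₖ (B : Matrix (Fin b) (Fin b) F)) -
              c • (1 : Matrix (Fin a × Fin b) (Fin a × Fin b) F)).rank) := by
      intro M hdet z hz hns
      let x : GL (Fin n) F := Matrix.SpecialLinearGroup.toGL ⟨M, hdet⟩
      have hxc : (x : Matrix (Fin n) (Fin n) F) = M := rfl
      have hxm : x ∈ Cfsg.Geo.specialLinear (Fin n) F := Cfsg.Agent.Lib.Geo.Basic.toGL_mem_specialLinear _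
      obtain ⟨g, -, hg⟩ := hall x hxm ⟨z, by rw [Units.val_pow_eq_pow_val, hxc, hz]⟩ (by rw [hxc]; exact hns)
      obtain ⟨A, B, hR, -⟩ := exists_data e P x g hg
      exact ⟨A, B, hR⟩
    have hR1 : ∀ (M : Matrix (Fin n) (Fin n) F), M.det = 1 → ∀ z : F, M ^ r = z • 1 → (∀ z : F, M ≠ z • 1) →
        ∀ c : F, a ≤ (M - c • (1 : Matrix (Fin n) (Fin n) F)).rank := by
      intro M hdet z hz hns c
      obtain ⟨A, B, hR⟩ := key M hdet z hz hns
      rw [hR]
      exact le_rank hlt.le A B c (kron_ne_of_rank M _ hR hns)
    let i0 : Fin n := ⟨0, by omega⟩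
    let i1 : Fin n := ⟨1, by omega⟩
    let i2 : Fin n := ⟨2, by omega⟩
    have h10 : i1 ≠ i0 := by simp [i1, i0, Fin.ext_iff]
    have h20 : i2 ≠ i0 := by simp [i2, i0, Fin.ext_iff]
    have h21 : i2 ≠ i1 := by simp [i2, i1, Fin.ext_iff]
    have h01 : i0 ≠ i1 := h10.symm
    -- `r ≠ p`: transvections
    have hrnep : r ≠ p := by
      rintro rfl
      let M : Matrix (Fin n) (Fin n) F := Matrix.transvection i0 i1 1
      have hdet : M.det = 1 := Matrix.det_transvection_of_ne _ _ h01 _
      have hpow : ∀ k : ℕ, M ^ k = Matrix.transvection i0 i1 (k : F) := by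
        intro k
        induction k with
        | zero => simp [Matrix.transvection]
        | succ k ih =>
          rw [pow_succ, ih]
          simp only [M]
          rw [Matrix.transvection_mul_transvection_same _ _ h01]
          push_cast
          rfl
      have hMr : M ^ r = (1 : F) • 1 := by
        rw [hpow, CharP.cast_eq_zero F r, one_smul]
        simp [Matrix.transvection]
      have hns : ∀ z : F, M ≠ z • 1 := by
        intro z hz
        have h1 := congrFun (congrFun hz i0) i1
        simp [M, Matrix.transvection, Matrix.one_apply, h01, Matrix.single_apply] at h1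
      have h1 := hR1 M hdet 1 hMr hns 1
      have h2 : (M - (1 : F) • (1 : Matrix (Fin n) (Fin n) F)).rank ≤ 1 := by
        have h3 : M - (1 : F) • (1 : Matrix (Fin n) (Fin n) F) =
            Matrix.vecMulVec (Pi.single i0 1) (Pi.single i1 1) := by
          ext i j
          simp only [M, Matrix.transvection, one_smul, add_sub_cancel_left, Matrix.vecMulVec_apply,
            Matrix.single_apply, Pi.single_apply]
          by_cases hi : i = i0 <;> by_cases hj : j = i1 <;> simp [hi, hj, eq_comm]
        rw [h3]
        exact Matrix.rank_vecMulVec_le _ _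
      omega
    have hp2 := (Fact.out : p.Prime).two_le
    by_cases hr2 : r = 2
    · subst hr2
      -- characteristic not two
      have h2F : (2 : F) ≠ 0 := by
        intro h
        have h1 : ((2 : ℕ) : F) = 0 := by exact_mod_cast h
        have h3 := (CharP.cast_eq_zero_iff F p 2).1 h1
        exact hrnep ((Nat.prime_dvd_prime_iff_eq Fact.out Nat.prime_two).1 h3).symm
      have hneg : (-1 : F) ≠ 1 := by
        intro h
        apply h2F
        linear_combination -h
      have hoddq : Odd q := by
        obtain ⟨f, -, hf⟩ := FiniteField.card F p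
        rw [← hq, hf]
        exact (Nat.Prime.odd_of_ne_two Fact.out hrnep.symm).pow
      -- `a = 2`
      have ha2 : a = 2 := by
        by_contra hne
        have ha3 : 3 ≤ a := by omega
        let d : Fin n → F := fun i => if i = i0 then -1 else if i = i1 then -1 else 1
        have hdet : (Matrix.diagonal d).det = 1 := by
          rw [Matrix.det_diagonal]
          have h3 : ∏ i, d i = ∏ i ∈ ({i0, i1} : Finset (Fin n)), d i := by
            symm
            apply Finset.prod_subset (Finset.subset_univ _)
            intro i _ hi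
            simp only [Finset.mem_insert, Finset.mem_singleton, not_or] at hi
            simp [d, hi.1, hi.2]
          rw [h3, Finset.prod_pair h01]
          simp [d, h10]
        have hM2 : (Matrix.diagonal d) ^ 2 = (1 : F) • 1 := by
          rw [Matrix.diagonal_pow, one_smul, ← Matrix.diagonal_one]
          congr 1
          funext i
          simp only [Pi.pow_apply, d, Pi.one_apply]
          split_ifs <;> ring
        have hns : ∀ z : F, Matrix.diagonal d ≠ z • 1 := by
          intro z hz
          have h1 := congrFun (congrFun hz i0) i0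
          have h3 := congrFun (congrFun hz i2) i2
          simp only [Matrix.diagonal_apply_eq, Matrix.smul_apply, Matrix.one_apply_eq, smul_eq_mul, mul_one] at h1 h3
          simp only [d, h20, h21, if_false, if_true] at h1 h3
          exact hneg (h1.trans h3.symm)
        have h1 := hR1 _ hdet 1 hM2 hns 1
        rw [rank_diag_eq d 1 {i0, i1} (by
          intro i
          simp only [Finset.mem_insert, Finset.mem_singleton, d]
          by_cases hi0 : i = i0
          · simp [hi0, hneg]
          · by_cases hi1 : i = i1
            · simp [hi1, h10, hneg]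
            · simp [hi0, hi1]), Finset.card_pair h01] at h1
        omega
      refine ⟨rfl, ha2, hoddq, ?_⟩
      by_contra hcon
      have hlt' : padicValNat 2 n + 1 ≤ padicValNat 2 (q - 1) := by omega
      obtain ⟨δ, hδ0, hδn⟩ := exists_pow_eq_neg_one hq h2F n hn0 hlt'
      let d : Fin n → F := fun i => δ * (if i = i0 then -1 else 1)
      have hdet : (Matrix.diagonal d).det = 1 := by
        rw [Matrix.det_diagonal]
        simp only [d]
        rw [Finset.prod_mul_distrib, Finset.prod_const, Finset.card_univ, Fintype.card_fin, hδn,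
          Finset.prod_ite_eq' Finset.univ i0 (fun _ => (-1 : F))]
        simp
      have hM2 : (Matrix.diagonal d) ^ 2 = (δ ^ 2) • 1 := by
        rw [Matrix.diagonal_pow, ← Matrix.diagonal_one, ← Matrix.diagonal_smul]
        congr 1
        funext i
        simp only [Pi.pow_apply, d, Pi.smul_apply, Pi.one_apply, smul_eq_mul]
        split_ifs <;> ring
      have hns : ∀ z : F, Matrix.diagonal d ≠ z • 1 := by
        intro z hz
        have h1 := congrFun (congrFun hz i0) i0
        have h3 := congrFun (congrFun hz i2) i2
        simp only [Matrix.diagonal_apply_eq, Matrix.smul_apply, Matrix.one_apply_eq, smul_eq_mul, mul_one] at h1 h3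
        simp only [d, h20, if_false, if_true] at h1 h3
        apply hneg
        have : δ * (-1) = δ * 1 := h1.trans h3.symm
        exact mul_left_cancel₀ hδ0 this
      have h1 := hR1 _ hdet _ hM2 hns δ
      rw [rank_diag_eq d δ {i0} (by
        intro i
        simp only [Finset.mem_singleton, d]
        by_cases hi0 : i = i0
        · simp only [hi0, if_true, true_iff]
          intro h
          apply hneg
          have : δ * (-1) = δ * 1 := by rw [h, mul_one]
          exact mul_left_cancel₀ hδ0 this
        · simp [hi0]), Finset.card_singleton] at h1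
      omega
    · exfalso
      have hrodd : r ≠ 2 := hr2
      by_cases hrq : r ∣ q - 1
      · -- a diagonal element
        have hcard : r ∣ Nat.card Fˣ := by
          rw [Nat.card_eq_fintype_card, Fintype.card_units, hq]
          exact hrq
        obtain ⟨u, hu⟩ := exists_prime_orderOf_dvd_card' (G := Fˣ) r hcard
        let ζ : F := (u : F)
        have hζ0 : ζ ≠ 0 := u.ne_zero
        have hζr : ζ ^ r = 1 := by
          have := pow_orderOf_eq_one u
          rw [hu] at this
          have h3 := congrArg Units.val this
          simpa using h3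
        have hζ1 : ζ ≠ 1 := by
          intro h
          have h3 : u = 1 := Units.ext h
          rw [h3, orderOf_one] at hu
          omega
        have hζ2 : ζ * ζ ≠ 1 := by
          intro h
          have h3 : u ^ 2 = 1 := by
            apply Units.ext
            simp only [Units.val_pow_eq_pow_val, Units.val_one, pow_two]
            exact h
          have h4 := orderOf_dvd_of_pow_eq_one h3
          rw [hu] at h4
          exact hrodd ((Nat.prime_dvd_prime_iff_eq Fact.out Nat.prime_two).1 h4)
        have hζinv : ζ⁻¹ ≠ ζ := by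
          intro h
          apply hζ2
          nth_rewrite 1 [← h]
          exact inv_mul_cancel₀ hζ0
        have hζinv1 : ζ⁻¹ ≠ 1 := by
          intro h
          apply hζ1
          rwa [inv_eq_one] at h
        let d : Fin n → F := fun i => if i = i0 then ζ else if i = i1 then ζ⁻¹ else 1
        have hdet : (Matrix.diagonal d).det = 1 := by
          rw [Matrix.det_diagonal]
          have h3 : ∏ i, d i = ∏ i ∈ ({i0, i1} : Finset (Fin n)), d i := by
            symm
            apply Finset.prod_subset (Finset.subset_univ _)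
            intro i _ hi
            simp only [Finset.mem_insert, Finset.mem_singleton, not_or] at hi
            simp [d, hi.1, hi.2]
          rw [h3, Finset.prod_pair h01]
          simp only [d, h10, if_true, if_false]
          exact mul_inv_cancel₀ hζ0
        have hMr : (Matrix.diagonal d) ^ r = (1 : F) • 1 := by
          rw [Matrix.diagonal_pow, one_smul, ← Matrix.diagonal_one]
          congr 1
          funext i
          simp only [Pi.pow_apply, d, Pi.one_apply]
          split_ifs
          · exact hζr
          · rw [inv_pow, hζr, inv_one]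
          · exact one_pow _
        have hns : ∀ z : F, Matrix.diagonal d ≠ z • 1 := by
          intro z hz
          have h1 := congrFun (congrFun hz i0) i0
          have h3 := congrFun (congrFun hz i2) i2
          simp only [Matrix.diagonal_apply_eq, Matrix.smul_apply, Matrix.one_apply_eq, smul_eq_mul, mul_one] at h1 h3
          simp only [d, h20, h21, if_false, if_true] at h1 h3
          exact hζ1 (h1.trans h3.symm)
        obtain ⟨A, B, hR⟩ := key _ hdet 1 hMr hns
        have hrk1 : (Matrix.diagonal d - (1 : F) • (1 : Matrix (Fin n) (Fin n) F)).rank = 2 := by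
          rw [rank_diag_eq d 1 {i0, i1} (by
            intro i
            simp only [Finset.mem_insert, Finset.mem_singleton, d]
            by_cases hi0 : i = i0
            · simp [hi0, hζ1]
            · by_cases hi1 : i = i1
              · simp [hi1, h10, hζinv1]
              · simp [hi0, hi1]), Finset.card_pair h01]
        have hrk2 : (Matrix.diagonal d - ζ • (1 : Matrix (Fin n) (Fin n) F)).rank = n - 1 := by
          rw [rank_diag_eq d ζ ({i0}ᶜ) (by
            intro i
            simp only [Finset.mem_compl, Finset.mem_singleton, d]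
            by_cases hi0 : i = i0
            · simp [hi0]
            · by_cases hi1 : i = i1
              · simp [hi1, h10, hζinv]
              · simp [hi0, hi1, Ne.symm hζ1]), Finset.card_compl, Finset.card_singleton, Fintype.card_fin]
        by_cases hA : ∀ z : F, (A : Matrix (Fin a) (Fin a) F) ≠ z • 1
        · have hBinv : (B : Matrix (Fin b) (Fin b) F) * ((B⁻¹ : GL (Fin b) F) : Matrix (Fin b) (Fin b) F) = 1 := by
            rw [← Units.val_mul, mul_inv_cancel, Units.val_one]
          have h1 := Kron.card_le_rank_of_left (A : Matrix (Fin a) (Fin a) F) (B : Matrix (Fin b) (Fin b) F) _ hBinv hA 1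
          rw [← hR, hrk1, Fintype.card_fin] at h1
          omega
        · push Not at hA
          obtain ⟨s, hs⟩ := hA
          have h1 := hR ζ
          rw [hrk2, hs, rank_of_scalar_left] at h1
          have h3 : a ∣ n - 1 := ⟨_, h1⟩
          have h4 : a ∣ n := ⟨_, hab⟩
          have h5 : a ∣ 1 := by
            have := (Nat.dvd_sub h4 h3)
            have h6 : n - (n - 1) = 1 := by omega
            rwa [h6] at this
          have := Nat.le_of_dvd one_pos h5
          omega
      · -- a block element
        have hi : orderOf ((q : ℕ) : ZMod r) ≤ n ∧ 0 < orderOf ((q : ℕ) : ZMod r) := by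
          have h1 : r ∣ Nat.card (GL (Fin n) F) :=
            hΩ.trans (Subgroup.relIndex_dvd_card _ _ |>.trans (Subgroup.card_subgroup_dvd_card _))
          rw [Matrix.card_GL_field (𝔽 := F) n, hq] at h1
          obtain ⟨k, -, hk⟩ := (Prime.dvd_finset_prod_iff (Nat.Prime.prime Fact.out) _).1 h1
          have hk' : (k : ℕ) < n := k.2
          have hle : q ^ (k : ℕ) ≤ q ^ n := Nat.pow_le_pow_right (by omega) hk'.le
          have h3 : q ^ n - q ^ (k : ℕ) = q ^ (k : ℕ) * (q ^ (n - k) - 1) := by
            rw [Nat.mul_sub, mul_one, ← pow_add]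
            congr 2
            omega
          rw [h3] at hk
          have hnotq := OrderRank.not_dvd_card hq (Fact.out : r.Prime) hrnep
          have h4 : r ∣ q ^ (n - k) - 1 :=
            ((Nat.Prime.prime Fact.out).dvd_or_dvd hk).resolve_left
              (fun h => hnotq ((Nat.Prime.prime Fact.out).dvd_of_dvd_pow h))
          have hq1 : 1 ≤ q ^ (n - k) := Nat.one_le_pow _ _ (by omega)
          have h5 : ((q : ℕ) : ZMod r) ^ (n - k) = 1 := by
            have h6 : ((q ^ (n - k) - 1 : ℕ) : ZMod r) = 0 := (ZMod.natCast_eq_zero_iff _ _).2 h4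
            rw [Nat.cast_sub hq1, Nat.cast_pow, Nat.cast_one, sub_eq_zero] at h6
            exact h6
          have hpos : 0 < n - k := by omega
          have h7 := orderOf_dvd_of_pow_eq_one h5
          have h8 := Nat.le_of_dvd hpos h7
          refine ⟨by omega, Nat.pos_of_ne_zero ?_⟩
          intro h0
          rw [h0] at h7
          have := Nat.eq_zero_of_zero_dvd h7
          omega
        obtain ⟨xs, hxr, hxrk⟩ := OrderRank.exists_block_elt hq hrnep hrq hi.1
        let x : GL (Fin n) F := Matrix.SpecialLinearGroup.toGL xs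
        have hxc : (x : Matrix (Fin n) (Fin n) F) = (xs : Matrix (Fin n) (Fin n) F) := rfl
        have hxm : x ∈ Cfsg.Geo.specialLinear (Fin n) F := Cfsg.Agent.Lib.Geo.Basic.toGL_mem_specialLinear _
        have hx1 : (x : Matrix (Fin n) (Fin n) F) ≠ 1 := by
          intro h
          rw [hxc] at h
          rw [h, sub_self, Matrix.rank_zero] at hxrk
          omega
        have hxpow : ((x ^ r : GL (Fin n) F) : Matrix (Fin n) (Fin n) F) = (1 : F) • 1 := by
          rw [Units.val_pow_eq_pow_val, hxc, hxr, one_smul]
        have hns : ∀ z : F, (x : Matrix (Fin n) (Fin n) F) ≠ z • 1 := by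
          intro z hz
          apply hx1
          have hz1 : z = 1 := by
            apply CycConj.eq_one_of_pow_eq_one hq Fact.out hrq
            have h1 := congrFun (congrFun hxpow i0) i0
            rw [Units.val_pow_eq_pow_val, hz, smul_pow, one_pow] at h1
            simpa using h1
          rw [hz, hz1, one_smul]
        obtain ⟨g, -, hg⟩ := hall x hxm ⟨1, hxpow⟩ hns
        refine no_conj_block hq hrnep hrq ha hlt e P x g hxpow hx1 ?_ hi.2 hg
        rw [one_smul, hxc]
        exact hxrk
  · rintro ⟨rfl, rfl, hodd, hval⟩ x hx ⟨z, hz⟩ _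
    exact conj_case hq hodd n b hab (by omega) hval e P x hx z hz

end Cfsg.Agent.S5979
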