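import Cfsg.Statements.S5982
import Cfsg.Agent.Lib.ElusU.Neg
import Cfsg.Agent.Lib.ElusU.Pos2
import Cfsg.Agent.Lib.ElusU.Index

set_option autoImplicit false
open scoped MatrixGroups
open Cfsg

namespace Cfsg.Agent.S5982

open Cfsg.Agent.Lib.ElusU.Base Cfsg.Agent.Lib.ElusU.Neg Cfsg.Agent.Lib.ElusU.Pos2 Cfsg.Agent.Lib.ElusU.Index
open Cfsg.Agent.Lib.HermCount.Field (two_le)

/-- Elements of prime order of PSL_n(q), q = q₀², and the subgroups of unitary type. Here `T = PSL_n(F)` for a field `F` with `q = q₀²` elements (`n ≥ 3`), `f` is a non-degenerate unitary form on `F^n` for the involutory automorphism `x ↦ x^{q₀}`, and `H` is the subgroup of matrices of determinant 1 that preserve `f` up to a scalar — a subgroup of type GU_n(q₀) (maximality is not assumed); Ω is the set of cosets of `H` in `T`, so an element of `T` of prime order `r` (a matrix `x` of determinant 1 with `x^r` scalar, `x` not scalar) fixes a point of Ω exactly when some conjugate of `x` by a matrix of determinant 1 preserves `f` up to a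 scalar. Let `r` be a prime dividing the index of `H`, with `r = 2` or `r` different from the characteristic `p`, and with `(n, r) ≠ (6, 3)`. Then every element of `T` of order `r` fixes a point of Ω if and only if either `r = 2` and (`p = 2` or `(n)_2 ≤ (q − 1)_2`), or `r ∈ {3, 5}`, `n = r` and `(q₀ − 1)_r = r`. (Odd `r = p` and the case `(n, r) = (6, 3)` are not covered by this statement.) -/
theorem result {F : Type*} [Field F] [Fintype F] {p : ℕ} [Fact p.Prime] [CharP F p] {q : ℕ} (hq : Fintype.card F = q)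
    (q₀ : ℕ) (hq₀ : q = q₀ ^ 2) (n : ℕ) (hn : 3 ≤ n) (f : (Fin n → F) → (Fin n → F) → F) (hf : Cfsg.Geo.IsUnitaryFormPow q₀ f)
    (r : ℕ) [Fact r.Prime] (hr : r = 2 ∨ r ≠ p) (hgap : ¬ (n = 6 ∧ r = 3))
    (hΩ : r ∣ (Cfsg.Geo.similarityGroup f).relIndex (Cfsg.Geo.specialLinear (Fin n) F)) :
    (∀ x ∈ Cfsg.Geo.specialLinear (Fin n) F, (∃ z : F, ((x ^ r : GL (Fin n) F) : Matrix (Fin n) (Fin n) F) = z • (1 : Matrix (Fin n) (Fin n) F)) →
      (∀ z : F, (x : Matrix (Fin n) (Fin n) F) ≠ z • (1 : Matrix (Fin n) (Fin n) F)) →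
      ∃ g ∈ Cfsg.Geo.specialLinear (Fin n) F, g⁻¹ * x * g ∈ Cfsg.Geo.similarityGroup f) ↔
    ((r = 2 ∧ (p = 2 ∨ padicValNat 2 n ≤ padicValNat 2 (q - 1))) ∨ ((r = 3 ∨ r = 5) ∧ n = r ∧ padicValNat r (q₀ - 1) = 1)) := by
  classical
  subst hq₀
  have hF : Fintype.card F = q₀ ^ 2 := hq
  have hq2 := two_le hF
  have hrp' : Nat.Prime r := Fact.out
  change Elus f r ↔ _
  rw [elus_iff hF hf r]
  constructor
  · intro hE
    by_contra hcon
    rw [not_or] at hcon
    obtain ⟨h1, h2⟩ := hcon
    by_cases hr2 : r = 2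
    · subst hr2
      have h3 : ¬ (p = 2 ∨ padicValNat 2 n ≤ padicValNat 2 (q₀ ^ 2 - 1)) := fun h => h1 ⟨rfl, h⟩
      rw [not_or, not_le] at h3
      have h2F : (2 : F) ≠ 0 := by
        intro h
        have h5 : ((2 : ℕ) : F) = 0 := by exact_mod_cast h
        rw [CharP.cast_eq_zero_iff F p] at h5
        exact h3.1 ((Nat.prime_dvd_prime_iff_eq Fact.out Nat.prime_two).1 h5)
      exact case_two hF h2F (by omega) h3.2 hE
    · have hrp : r ≠ p := hr.resolve_left hr2
      obtain ⟨l, hlpos, hln, hl⟩ := exists_factor hF hf (by omega) hrp hΩ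
      obtain ⟨hi, hd⟩ := order_facts hr2 (by omega) hl
      by_cases h3 : r ∣ q₀ - 1
      · have hq1 : q₀ - 1 ≠ 0 := by omega
        have hfac : q₀ ^ 2 - 1 = (q₀ - 1) * (q₀ + 1) := by
          obtain ⟨t, ht⟩ : ∃ t, q₀ = t + 1 := ⟨q₀ - 1, by omega⟩
          rw [ht]
          simp only [Nat.add_sub_cancel]
          have : (t + 1) ^ 2 = t * (t + 1 + 1) + 1 := by ring
          omega
        have hcardU : Nat.card Fˣ = q₀ ^ 2 - 1 := by
          rw [Nat.card_eq_fintype_card, Fintype.card_units, hF]
        obtain ⟨ζ₀, hζ₀⟩ := exists_prime_orderOf_dvd_card' (G := Fˣ) r (by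
          rw [hcardU, hfac]
          exact h3.trans (dvd_mul_right _ _))
        have hpow : ((ζ₀ : Fˣ) : F) ^ r = 1 := by
          rw [← Units.val_pow_eq_pow_val, ← hζ₀, pow_orderOf_eq_one, Units.val_one]
        have hdvd : ∀ k, ((ζ₀ : Fˣ) : F) ^ k = 1 → r ∣ k := by
          intro k hk
          rw [← hζ₀]
          apply orderOf_dvd_of_pow_eq_one
          ext
          rw [Units.val_pow_eq_pow_val, hk, Units.val_one]
        have hζq : ((ζ₀ : Fˣ) : F) ^ q₀ = ζ₀ := by
          obtain ⟨t, ht⟩ := h3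
          have h4 : q₀ = (q₀ - 1) + 1 := by omega
          rw [h4, pow_succ]
          have h5 : ((ζ₀ : Fˣ) : F) ^ (q₀ - 1) = 1 := by
            rw [ht, pow_mul, hpow, one_pow]
          simp [h5]
        have htop : n = r → (r = 3 ∨ r = 5) → r * r ∣ q₀ - 1 := by
          intro hnr h35
          have hval : padicValNat r (q₀ - 1) ≠ 1 := fun h => h2 ⟨h35, hnr, h⟩
          have h4 : 1 ≤ padicValNat r (q₀ - 1) := one_le_padicValNat_of_dvd hq1 h3
          have h5 : 2 ≤ padicValNat r (q₀ - 1) := by omega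
          have h6 := (padicValNat_dvd_iff_le hq1).2 h5
          rwa [pow_two] at h6
        by_cases hr3 : r = 3
        · subst hr3
          by_cases hn3 : n = 3
          · subst hn3
            exact case_top hF hrp' hr2 (htop rfl (Or.inl rfl)) hq1 hE
          · refine case_three hF (by omega) (fun h => hgap ⟨h, rfl⟩) _ hpow ?_ hζq hE
            intro h
            have := hdvd 1 (by rw [pow_one, h])
            omega
        · have hr5 : 5 ≤ r := by
            have h4 := hrp'.two_le
            have h5 : r ≠ 4 := by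
              rintro rfl
              exact absurd hrp' (by norm_num)
            omega
          by_cases h55 : n = 5 ∧ r = 5
          · obtain ⟨h55, rfl⟩ := h55
            subst h55
            exact case_top hF hrp' hr2 (htop rfl (Or.inr rfl)) hq1 hE
          · exact case_five hF hn r _ hpow hdvd hrp' hr5 h55 hζq hE
      · exact case_block hF (by omega) hr2 hrp (not_dvd_sq hr2 hq2 hi h3) hi
          (le_trans (Nat.le_of_dvd hlpos hd) hln) hE
  · rintro (⟨hr2, h⟩ | ⟨h35, hnr, hval⟩)
    · subst hr2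
      refine elus_two hF (by omega) ?_
      rcases h with h | h
      · left
        subst h
        exact_mod_cast CharP.cast_eq_zero F 2
      · right
        exact h
    · subst hnr
      exact elus_prime hF h35 hval

end Cfsg.Agent.S5982
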