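import Cfsg.Statements.S5983
import Cfsg.Agent.Lib.Elusive.SpQuad
import Cfsg.Agent.Lib.QuadFn.PlusForm

set_option autoImplicit false
open scoped MatrixGroups
open Cfsg

namespace Cfsg.Agent.S5983

open Matrix Module Cfsg Cfsg.Geo Cfsg.Agent.Lib.Classical.SympForm Cfsg.Agent.Lib.Elusive Cfsg.Agent.Lib.Elusive.ArfSum
  Cfsg.Agent.Lib.QuadFn.MaxSingular Cfsg.Agent.Lib.Geo.SpBase Cfsg.Agent.Lib.Geo.SympInSL
  Cfsg.Agent.Lib.Geo.Basic Cfsg.Agent.Lib.Elusive.SpQuad

section cases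

variable {F : Type*} [Field F] [Fintype F] [CharP F 2] {d : ℕ} {q : ℕ}
variable {Q : (Fin d ⊕ Fin d → F) → F}

theorem finrank_V : finrank F (Fin d ⊕ Fin d → F) = 2 * d := by
  simp
  omega

/-- Every involution lies in some conjugate of the orthogonal group, when `Q` is plus type or `d` is odd. -/
theorem case_inv (hd : 0 < d) (S : QSpace (sympBilin d F) Q) (hcond : IsPlusTypeOn Q ⊤ ∨ Odd d)
    (x : GL (Fin d ⊕ Fin d) F) (hx : x ∈ spGL d F)
    (hxx : ∀ v, (x : Matrix (Fin d ⊕ Fin d) (Fin d ⊕ Fin d) F) *ᵥ ((x : Matrix (Fin d ⊕ Fin d) (Fin d ⊕ Fin d) F) *ᵥ v) = v) :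
    ∃ g ∈ spGL d F, g⁻¹ * x * g ∈ quadSimilarityGroup Q := by
  classical
  set X : Matrix (Fin d ⊕ Fin d) (Fin d ⊕ Fin d) F := (x : Matrix (Fin d ⊕ Fin d) (Fin d ⊕ Fin d) F) with hX
  let f := sympBilin d F
  have hf : ∀ u v, f (X *ᵥ u) (X *ᵥ v) = f u v := (mem_spGL_iff d x).1 hx
  have hdim : finrank F (Fin d ⊕ Fin d → F) = 2 * d := finrank_V
  have h11 : ∀ t : F, t + t = 0 := CharTwo.add_self_eq_zero
  have hsub : ∀ s t : F, s + t = 0 → s = t := fun s t h => by
    have := h11 t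
    linear_combination h - this
  obtain ⟨b, hb⟩ := exists_shift S (qspace_comp S x hx)
  let N : (Fin d ⊕ Fin d → F) →ₗ[F] (Fin d ⊕ Fin d → F) := X.mulVecLin + LinearMap.id
  have hN : ∀ v, N v = X *ᵥ v + v := fun v => rfl
  have hNN : ∀ v, N (N v) = 0 := by
    intro v
    rw [hN, hN, Matrix.mulVec_add, hxx]
    ext i
    have := h11 (v i)
    have h2 := h11 ((X *ᵥ v) i)
    simp only [Pi.add_apply, Pi.zero_apply]
    linear_combination this + h2
  have hkerfix : ∀ w, N w = 0 → X *ᵥ w = w := by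
    intro w hw
    rw [hN] at hw
    ext i
    exact hsub _ _ (congrFun hw i)
  have hrange_le : LinearMap.range N ≤ f.orthogonal (LinearMap.ker N) := by
    rintro _ ⟨u, rfl⟩
    rw [LinearMap.BilinForm.mem_orthogonal_iff]
    intro w hw
    change f w (N u) = 0
    have h1 : f w (X *ᵥ u) = f w u := by
      have h2 := hf w u
      rwa [hkerfix w hw] at h2
    rw [hN, map_add, h1, h11]
  have hrange_eq : LinearMap.range N = f.orthogonal (LinearMap.ker N) := by
    apply Submodule.eq_of_le_of_finrank_le hrange_le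
    have h1 : finrank F (f.orthogonal (LinearMap.ker N)) + finrank F (LinearMap.ker N) = 2 * d := S.finrank_orth hdim (LinearMap.ker N)
    have h2 := LinearMap.finrank_range_add_finrank_ker N
    rw [hdim] at h2
    omega
  have hb_mem : b ∈ LinearMap.range N := by
    rw [hrange_eq, LinearMap.BilinForm.mem_orthogonal_iff]
    intro w hw
    change f w b = 0
    have h1 := hb w
    rw [hkerfix w hw] at h1
    have h2 : (f b w) ^ 2 = 0 := by
      have := add_eq_left.1 h1.symm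
      exact this
    rw [S.symm]
    exact pow_eq_zero_iff (two_ne_zero) |>.1 h2
  obtain ⟨a₀, ha₀⟩ := hb_mem
  have hinv : ∀ a, N a = b → ∀ v, Q (X *ᵥ v) + (f a (X *ᵥ v)) ^ 2 = Q v + (f a v) ^ 2 := by
    intro a ha v
    have h1 : f a (X *ᵥ v) = f (X *ᵥ a) v := by
      have h2 := hf a (X *ᵥ v)
      rw [hxx] at h2
      exact h2.symm
    have h3 : f b v = f (X *ᵥ a) v + f a v := by
      rw [← ha, hN, map_add, LinearMap.add_apply]
    rw [h1, hb v, h3, ArfSum.add_sq']
    have := h11 ((f (X *ᵥ a) v) ^ 2)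
    linear_combination this
  by_cases hex : ∃ w ∈ LinearMap.ker N, Q (a₀ + w) ∈ AS F
  · obtain ⟨w, hw, hwAS⟩ := hex
    have hNa : N (a₀ + w) = b := by
      rw [map_add, ha₀, LinearMap.mem_ker.1 hw, add_zero]
    obtain ⟨c, hc⟩ := exists_transvection S (a₀ + w) hwAS
    let hfm := isSymplecticForm_sympForm (F := F) d
    let t : GL (Fin d ⊕ Fin d) F := sympT hfm (a₀ + w) c
    have ht : t ∈ spGL d F := fun u v => sympT_similarity hfm (a₀ + w) c u v
    have htv : ∀ u, Q ((t : Matrix (Fin d ⊕ Fin d) (Fin d ⊕ Fin d) F) *ᵥ u) = Q u + (f (a₀ + w) u) ^ 2 := by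
      intro u
      change Q ((sympT hfm (a₀ + w) c : GL (Fin d ⊕ Fin d) F) *ᵥ u) = _
      rw [sympT_mulVec, smul_smul, mul_comm]
      exact hc u
    refine ⟨t⁻¹, (spGL d F).inv_mem ht, ⟨1, fun v => ?_⟩⟩
    rw [inv_inv, Units.val_one, one_mul]
    set u : Fin d ⊕ Fin d → F := ((t⁻¹ : GL (Fin d ⊕ Fin d) F) : Matrix (Fin d ⊕ Fin d) (Fin d ⊕ Fin d) F) *ᵥ v with hu
    have hv : v = (t : Matrix (Fin d ⊕ Fin d) (Fin d ⊕ Fin d) F) *ᵥ u := by
      rw [hu, Matrix.mulVec_mulVec, ← Units.val_mul, mul_inv_cancel, Units.val_one, Matrix.one_mulVec]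
    have h1 : ((t * x * t⁻¹ : GL (Fin d ⊕ Fin d) F) : Matrix (Fin d ⊕ Fin d) (Fin d ⊕ Fin d) F) *ᵥ v =
        (t : Matrix (Fin d ⊕ Fin d) (Fin d ⊕ Fin d) F) *ᵥ (X *ᵥ u) := by
      rw [Units.val_mul, Units.val_mul, ← Matrix.mulVec_mulVec, ← Matrix.mulVec_mulVec]
    rw [h1, htv, hv, htv]
    exact hinv _ hNa u
  · exfalso
    have hno : ∀ w ∈ LinearMap.ker N, Q (a₀ + w) ∉ AS F := fun w hw h => hex ⟨w, hw, h⟩
    have h0 : Q a₀ ∉ AS F := by
      have := hno 0 (Submodule.zero_mem _)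
      rwa [add_zero] at this
    obtain ⟨t₀, ht₀⟩ := exists_not_mem_AS (F := F)
    let φ : F ≃+* F := (frobeniusEquiv F 2).symm
    have hφ : ∀ t : F, (φ t) ^ 2 = t := fun t => by
      have := (frobeniusEquiv F 2).apply_symm_apply t
      rwa [frobeniusEquiv_apply, frobenius_def] at this
    have hwQ : ∀ w ∈ LinearMap.ker N, Q w = (f a₀ w) ^ 2 := by
      intro w hw
      have hmem : ∀ c : F, c * (φ (Q w) + f a₀ w) ∈ AS F := by
        intro c
        have h1 := hno (c • w) ((LinearMap.ker N).smul_mem c hw)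
        have h2 := (AddSubgroup.add_mem_iff_of_index_two (H := AS F) index_AS (a := Q (a₀ + c • w)) (b := Q a₀)).2
          (by simp [h1, h0])
        have h3 : Q (a₀ + c • w) + Q a₀ = c ^ 2 * Q w + c * f a₀ w := by
          rw [S.add, S.smul, map_smul, smul_eq_mul]
          have := h11 (Q a₀)
          linear_combination this
        rw [h3] at h2
        have h4 : (c * φ (Q w)) ^ 2 + c * φ (Q w) ∈ AS F := ⟨_, rfl⟩
        have h5 := (AS F).add_mem h2 h4
        have h6 : c ^ 2 * Q w + c * f a₀ w + ((c * φ (Q w)) ^ 2 + c * φ (Q w)) = c * (φ (Q w) + f a₀ w) := by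
          rw [mul_pow, hφ]
          have := h11 (c ^ 2 * Q w)
          linear_combination this
        rwa [h6] at h5
      have h7 : φ (Q w) + f a₀ w = 0 := by
        by_contra hne
        apply ht₀
        have := hmem (t₀ / (φ (Q w) + f a₀ w))
        rwa [div_mul_cancel₀ _ hne] at this
      have h8 := hsub _ _ h7
      rw [← h8, hφ]
    let R : (Fin d ⊕ Fin d → F) → F := fun v => Q v + (f a₀ v) ^ 2
    have SR : QSpace f R := qspace_shift S a₀
    have hRts : TS R (LinearMap.ker N) := by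
      intro w hw
      change Q w + (f a₀ w) ^ 2 = 0
      rw [hwQ w hw]
      exact h11 _
    have hker_le : LinearMap.ker N ≤ LinearMap.range N := by
      rw [hrange_eq]
      exact SR.ts_le_orth hRts
    have hrange_le' : LinearMap.range N ≤ LinearMap.ker N := by
      rintro _ ⟨u, rfl⟩
      exact hNN u
    have hker_eq : LinearMap.ker N = LinearMap.range N := le_antisymm hker_le hrange_le'
    have hfin : finrank F (LinearMap.ker N) = d := by
      have h2 := LinearMap.finrank_range_add_finrank_ker N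
      rw [hdim, ← hker_eq] at h2
      omega
    rcases hcond with ⟨U, -, hU, hUd⟩ | hodd
    · rw [finrank_top, hdim] at hUd
      have h1 := arfS_of_ts S hdim U hU (by omega)
      have h2 := arfS_of_ts SR hdim (LinearMap.ker N) hRts hfin
      have h3 := arfS_shift S a₀
      have h4 : arfS R = chi (Q a₀) * arfS Q := h3
      rw [chi_eq_neg_one h0, h1, h2] at h4
      have h5 : 0 < Nat.card (LinearMap.ker N) := Nat.card_pos
      have h6 : 0 < Nat.card U := Nat.card_pos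
      omega
    · -- `f v (N v) = 0`
      have hRinv : ∀ v, R (X *ᵥ v) = R v := hinv a₀ ha₀
      have halt : ∀ v, f v (N v) = 0 := by
        intro v
        have h1 : X *ᵥ v = v + N v := by
          rw [hN]
          ext i
          have := h11 (v i)
          simp only [Pi.add_apply]
          linear_combination -this
        have h2 := hRinv v
        rw [h1, SR.add, hRts (N v) (hNN v)] at h2
        linear_combination h2
      have hsymm : ∀ u w, f u (N w) = f w (N u) := by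
        intro u w
        have h1 := halt (u + w)
        rw [map_add N, map_add f, LinearMap.add_apply, map_add (f u), map_add (f w), halt u, halt w] at h1
        apply hsub
        linear_combination h1
      obtain ⟨W, hW⟩ := Submodule.exists_isCompl (LinearMap.ker N)
      have hWd : finrank F W = d := by
        have := Submodule.finrank_add_eq_of_isCompl hW
        rw [hdim, hfin] at this
        omega
      let B : LinearMap.BilinForm F (Fin d ⊕ Fin d → F) := f.comp LinearMap.id N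
      have hBapp : ∀ u v, B u v = f u (N v) := fun _ _ => rfl
      let B' : LinearMap.BilinForm F W := B.restrict W
      have hB' : B'.IsAlt := fun u => halt u
      have hnd : Sympl.NondegOn B' ⊤ := by
        intro u _ hu
        have hNu : N u ≠ 0 := by
          intro h
          have h1 : (u : Fin d ⊕ Fin d → F) ∈ LinearMap.ker N ⊓ W := ⟨h, u.2⟩
          rw [hW.inf_eq_bot] at h1
          exact hu (Subtype.ext h1)
        have h2 : ∃ v, f (N u) v ≠ 0 := by
          by_contra hc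
          push Not at hc
          exact hNu (S.nd.1 _ hc)
        obtain ⟨v, hv⟩ := h2
        have hv1 : v ∈ LinearMap.ker N ⊔ W := by
          rw [hW.sup_eq_top]
          exact Submodule.mem_top
        obtain ⟨k, hk, w₁, hw₁, rfl⟩ := Submodule.mem_sup.1 hv1
        refine ⟨⟨w₁, hw₁⟩, Submodule.mem_top, ?_⟩
        change f u (N w₁) ≠ 0
        rw [hsymm, S.symm]
        intro h3
        apply hv
        rw [map_add, h3, add_zero]
        have h4 : f k (N u) = 0 := SR.ts_polar hRts hk (hNN u)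
        rw [S.symm]
        exact h4
      have hev := SpIndex.even_finrank_of_nondeg B' hB' hnd
      rw [hWd] at hev
      exact (Nat.not_even_iff_odd.2 hodd) hev

end cases

section cases2

variable {F : Type*} [Field F] [Fintype F] [CharP F 2] {d : ℕ} {q : ℕ}
variable {Q : (Fin d ⊕ Fin d → F) → F}

theorem sympForm_dot (n : ℕ) (u v : Fin n ⊕ Fin n → F) :
    sympForm n F u v = (u ∘ Sum.inr) ⬝ᵥ (v ∘ Sum.inl) - (u ∘ Sum.inl) ⬝ᵥ (v ∘ Sum.inr) := by
  rw [sympForm_eq_sum, Finset.sum_sub_distrib]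
  rfl

theorem sing_of_alt (T : Matrix (Fin d) (Fin d) F) (hT : ∀ v : Fin d → F, v ⬝ᵥ (T *ᵥ v) = 0) (u v : Fin d → F) :
    (T *ᵥ u) ⬝ᵥ v = u ⬝ᵥ (T *ᵥ v) := by
  have h1 := hT (u + v)
  rw [Matrix.mulVec_add, add_dotProduct, dotProduct_add, dotProduct_add, hT u, hT v, zero_add, add_zero] at h1
  rw [dotProduct_comm]
  have h2 := CharTwo.add_self_eq_zero (u ⬝ᵥ (T *ᵥ v))
  linear_combination h1 - h2

/-- The involution for `Q` of minus type and `d` even. -/
theorem case_even (hd : 0 < d) (hev : Even d) (S : QSpace (sympBilin d F) Q) (hnp : ¬ IsPlusTypeOn Q ⊤) :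
    ∃ x : GL (Fin d ⊕ Fin d) F, x ∈ spGL d F ∧
      (∃ z : F, ((x ^ 2 : GL (Fin d ⊕ Fin d) F) : Matrix (Fin d ⊕ Fin d) (Fin d ⊕ Fin d) F) = z • (1 : Matrix (Fin d ⊕ Fin d) (Fin d ⊕ Fin d) F)) ∧
      (∀ z : F, (x : Matrix (Fin d ⊕ Fin d) (Fin d ⊕ Fin d) F) ≠ z • (1 : Matrix (Fin d ⊕ Fin d) (Fin d ⊕ Fin d) F)) ∧
      ¬ ∃ g ∈ spGL d F, g⁻¹ * x * g ∈ quadSimilarityGroup Q := by
  classical
  obtain ⟨T, hTd, hT⟩ := exists_alt' (F := F) d hev
  have h22 : (2 : F) = 0 := CharTwo.two_eq_zero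
  let X : Matrix (Fin d ⊕ Fin d) (Fin d ⊕ Fin d) F := Matrix.fromBlocks 1 T 0 1
  have hXX : X ^ 2 = 1 := by
    rw [pow_two]
    simp only [X, Matrix.fromBlocks_multiply]
    have h3 : T + T = 0 := by
      rw [← two_smul F T, h22, zero_smul]
    simp [h3]
  have hXv : ∀ v, X *ᵥ v = Sum.elim ((v ∘ Sum.inl) + T *ᵥ (v ∘ Sum.inr)) (v ∘ Sum.inr) := by
    intro v
    simp only [X]
    rw [Matrix.fromBlocks_mulVec]
    simp
  have hXl : ∀ v, (X *ᵥ v) ∘ Sum.inl = (v ∘ Sum.inl) + T *ᵥ (v ∘ Sum.inr) := fun v => by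
    rw [hXv]
    rfl
  have hXr : ∀ v, (X *ᵥ v) ∘ Sum.inr = v ∘ Sum.inr := fun v => by
    rw [hXv]
    rfl
  have hXsp : ∀ u v, sympForm d F (X *ᵥ u) (X *ᵥ v) = sympForm d F u v := by
    intro u v
    rw [sympForm_dot, sympForm_dot, hXl, hXl, hXr, hXr, dotProduct_add, add_dotProduct, sing_of_alt T hT]
    ring
  have hXalt : ∀ v, sympForm d F v (X *ᵥ v - v) = 0 := by
    intro v
    have h1 : (X *ᵥ v - v) ∘ Sum.inl = T *ᵥ (v ∘ Sum.inr) := by
      ext i
      have := congrFun (hXl v) i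
      simp only [Function.comp_apply, Pi.sub_apply, Pi.add_apply] at this ⊢
      rw [this]
      ring
    have h2 : (X *ᵥ v - v) ∘ Sum.inr = 0 := by
      ext i
      have := congrFun (hXr v) i
      simp only [Function.comp_apply, Pi.sub_apply, Pi.zero_apply] at this ⊢
      rw [this]
      ring
    rw [sympForm_dot, h1, h2, hT]
    simp
  let x : GL (Fin d ⊕ Fin d) F := OmegaMem.glOfPow X 2 (by norm_num) hXX
  have hx2 : x ^ 2 = 1 := OmegaMem.glOfPow_pow X 2 (by norm_num) hXX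
  have hxc : (x : Matrix (Fin d ⊕ Fin d) (Fin d ⊕ Fin d) F) = X := rfl
  have hker : ∀ v, X *ᵥ v = v ↔ v ∘ Sum.inr = 0 := by
    intro v
    constructor
    · intro h
      have h1 := hXl v
      rw [h] at h1
      have h2 : T *ᵥ (v ∘ Sum.inr) = 0 := by simpa using h1.symm
      exact Matrix.eq_zero_of_mulVec_eq_zero hTd h2
    · intro h
      rw [hXv, h]
      ext (i | i)
      · simp
      · have := congrFun h i
        simpa using this.symm
  have hrank : (X - 1).rank = d := by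
    let N : (Fin d ⊕ Fin d → F) →ₗ[F] (Fin d ⊕ Fin d → F) := (X - 1).mulVecLin
    have h1 : LinearMap.ker N = Cfsg.Agent.Lib.QuadFn.PlusForm.stdM F d := by
      ext v
      rw [LinearMap.mem_ker]
      have h2 : N v = X *ᵥ v - v := by
        simp [N, Matrix.sub_mulVec]
      rw [h2, sub_eq_zero, hker]
      have h3 : v ∈ Cfsg.Agent.Lib.QuadFn.PlusForm.stdM F d ↔ LinearMap.funLeft F F (Sum.inr : Fin d → Fin d ⊕ Fin d) v = 0 := LinearMap.mem_ker
      rw [h3]
      rfl
    have h2 := LinearMap.finrank_range_add_finrank_ker N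
    rw [h1, Cfsg.Agent.Lib.QuadFn.PlusForm.stdM_finrank, finrank_V] at h2
    have h3 : (X - 1).rank = finrank F (LinearMap.range N) := rfl
    omega
  refine ⟨x, hXsp, ⟨1, ?_⟩, ?_, ?_⟩
  · rw [one_smul, hx2, Units.val_one]
  · intro z hz
    rw [hxc] at hz
    apply hTd
    have h0 : T = 0 := by
      ext i j
      have h1 := congrFun (congrFun hz (Sum.inl i)) (Sum.inr j)
      simpa [X] using h1
    haveI : Nonempty (Fin d) := ⟨⟨0, hd⟩⟩
    rw [h0]
    exact Matrix.det_zero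
  · rintro ⟨g, hg, c, hc⟩
    apply hnp
    set G : Matrix (Fin d ⊕ Fin d) (Fin d ⊕ Fin d) F := (g : Matrix (Fin d ⊕ Fin d) (Fin d ⊕ Fin d) F) with hG
    set Gi : Matrix (Fin d ⊕ Fin d) (Fin d ⊕ Fin d) F := ((g⁻¹ : GL (Fin d ⊕ Fin d) F) : Matrix (Fin d ⊕ Fin d) (Fin d ⊕ Fin d) F) with hGi
    have hGG : G * Gi = 1 := by
      rw [hG, hGi, ← Units.val_mul, mul_inv_cancel, Units.val_one]
    have hGiG : Gi * G = 1 := by
      rw [hG, hGi, ← Units.val_mul, inv_mul_cancel, Units.val_one]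
    have hy : ((g⁻¹ * x * g : GL (Fin d ⊕ Fin d) F) : Matrix (Fin d ⊕ Fin d) (Fin d ⊕ Fin d) F) = Gi * X * G := by
      rw [Units.val_mul, Units.val_mul]
      rfl
    have hyS : g⁻¹ * x * g ∈ spGL d F :=
      (spGL d F).mul_mem ((spGL d F).mul_mem ((spGL d F).inv_mem hg) hXsp) hg
    have hc1 := sim_eq_one hd S _ hyS c hc
    rw [hc1] at hc
    set Y : Matrix (Fin d ⊕ Fin d) (Fin d ⊕ Fin d) F := Gi * X * G with hY
    rw [hy] at hc
    have hYG : ∀ v, G *ᵥ (Y *ᵥ v) = X *ᵥ (G *ᵥ v) := by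
      intro v
      rw [hY, Matrix.mulVec_mulVec, ← mul_assoc, ← mul_assoc, hGG, one_mul, Matrix.mulVec_mulVec]
    have hgf : ∀ u v, sympForm d F (G *ᵥ u) (G *ᵥ v) = sympForm d F u v := (mem_spGL_iff d g).1 hg
    have hval : ∀ v, Q (Y *ᵥ v - v) = 0 := by
      intro v
      have h1 := S.add v (Y *ᵥ v - v)
      rw [add_sub_cancel, hc v, one_mul] at h1
      have h2 : sympBilin d F v (Y *ᵥ v - v) = 0 := by
        rw [sympBilin_apply, ← hgf, Matrix.mulVec_sub, hYG]
        exact hXalt _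
      rw [h2, add_zero] at h1
      exact (add_eq_left.1 h1.symm)
    let N : (Fin d ⊕ Fin d → F) →ₗ[F] (Fin d ⊕ Fin d → F) := (Y - 1).mulVecLin
    have hNv : ∀ v, N v = Y *ᵥ v - v := fun v => by
      simp [N, Matrix.sub_mulVec]
    have hYrank : (Y - 1).rank = d := by
      have h1 : Y - 1 = Gi * (X - 1) * G := by
        rw [Matrix.mul_sub, Matrix.sub_mul, mul_one, hGiG]
      have hdetG : IsUnit G.det := (Matrix.isUnit_iff_isUnit_det G).1 (g.isUnit)
      have hdetGi : IsUnit Gi.det := (Matrix.isUnit_iff_isUnit_det Gi).1 ((g⁻¹ : GL (Fin d ⊕ Fin d) F).isUnit)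
      rw [h1, Matrix.rank_mul_eq_left_of_isUnit_det _ _ hdetG, Matrix.rank_mul_eq_right_of_isUnit_det _ _ hdetGi, hrank]
    refine ⟨LinearMap.range N, le_top, ?_, ?_⟩
    · rintro _ ⟨v, rfl⟩
      rw [hNv]
      exact hval v
    · rw [finrank_top, finrank_V]
      have h4 : (Y - 1).rank = finrank F (LinearMap.range N) := rfl
      omega

/-- The element for odd `r` when the sum of `Q` is negative. -/
theorem case_minus_odd (hq : Fintype.card F = q) (hd : 0 < d) (S : QSpace (sympBilin d F) Q) (r : ℕ) [hr : Fact r.Prime]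
    (hdvd : r ∣ q ^ d - 1) (hS : arfS Q < 0) :
    ∃ x : GL (Fin d ⊕ Fin d) F, x ∈ spGL d F ∧
      (∃ z : F, ((x ^ r : GL (Fin d ⊕ Fin d) F) : Matrix (Fin d ⊕ Fin d) (Fin d ⊕ Fin d) F) = z • (1 : Matrix (Fin d ⊕ Fin d) (Fin d ⊕ Fin d) F)) ∧
      (∀ z : F, (x : Matrix (Fin d ⊕ Fin d) (Fin d ⊕ Fin d) F) ≠ z • (1 : Matrix (Fin d ⊕ Fin d) (Fin d ⊕ Fin d) F)) ∧
      ¬ ∃ g ∈ spGL d F, g⁻¹ * x * g ∈ quadSimilarityGroup Q := by
  classical
  obtain ⟨A, hAr, hAdet⟩ := OmegaMem.exists_fpf (p := 2) hq d hd hdvd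
  have hrpos := hr.out.pos
  let D : Matrix (Fin d) (Fin d) F := (A ^ (r - 1))ᵀ
  have hAD : Aᵀ * D = 1 := by
    simp only [D]
    rw [← Matrix.transpose_mul, ← pow_succ, Nat.sub_add_cancel hrpos, hAr, Matrix.transpose_one]
  have hDA : Dᵀ * A = 1 := by
    simp only [D]
    rw [Matrix.transpose_transpose, ← pow_succ, Nat.sub_add_cancel hrpos, hAr]
  have hDr : D ^ r = 1 := by
    simp only [D]
    rw [← Matrix.transpose_pow, ← pow_mul, mul_comm, pow_mul, hAr, one_pow, Matrix.transpose_one]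
  let X : Matrix (Fin d ⊕ Fin d) (Fin d ⊕ Fin d) F := Matrix.fromBlocks A 0 0 D
  have hXpow : ∀ k, X ^ k = Matrix.fromBlocks (A ^ k) 0 0 (D ^ k) := by
    intro k
    induction k with
    | zero => simp
    | succ k ih =>
      rw [pow_succ, ih]
      simp only [X, Matrix.fromBlocks_multiply]
      simp [pow_succ]
  have hXr : X ^ r = 1 := by
    rw [hXpow, hAr, hDr]
    simp
  have hXv : ∀ v, X *ᵥ v = Sum.elim (A *ᵥ (v ∘ Sum.inl)) (D *ᵥ (v ∘ Sum.inr)) := by
    intro v
    simp only [X]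
    rw [Matrix.fromBlocks_mulVec]
    simp
  have hXl : ∀ v, (X *ᵥ v) ∘ Sum.inl = A *ᵥ (v ∘ Sum.inl) := fun v => by
    rw [hXv]
    rfl
  have hXrr : ∀ v, (X *ᵥ v) ∘ Sum.inr = D *ᵥ (v ∘ Sum.inr) := fun v => by
    rw [hXv]
    rfl
  have hXsp : ∀ u v, sympForm d F (X *ᵥ u) (X *ᵥ v) = sympForm d F u v := by
    intro u v
    have h1 : ∀ a b : Fin d → F, (D *ᵥ a) ⬝ᵥ (A *ᵥ b) = a ⬝ᵥ b := by
      intro a b
      rw [Matrix.dotProduct_mulVec, ← Matrix.mulVec_transpose, Matrix.mulVec_mulVec, hAD, Matrix.one_mulVec]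
    have h2 : ∀ a b : Fin d → F, (A *ᵥ a) ⬝ᵥ (D *ᵥ b) = a ⬝ᵥ b := by
      intro a b
      rw [dotProduct_comm, h1, dotProduct_comm]
    rw [sympForm_dot, sympForm_dot, hXl, hXl, hXrr, hXrr, h1, h2]
  let x : GL (Fin d ⊕ Fin d) F := OmegaMem.glOfPow X r hrpos hXr
  have hxr : x ^ r = 1 := OmegaMem.glOfPow_pow X r hrpos hXr
  have hxc : (x : Matrix (Fin d ⊕ Fin d) (Fin d ⊕ Fin d) F) = X := rfl
  refine ⟨x, hXsp, ⟨1, ?_⟩, ?_, ?_⟩
  · rw [one_smul, hxr, Units.val_one]
  · intro z hz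
    rw [hxc] at hz
    have hA : A = z • 1 := by
      ext i j
      have h1 := congrFun (congrFun hz (Sum.inl i)) (Sum.inl j)
      by_cases hij : i = j
      · subst hij
        simpa [X] using h1
      · simpa [X, hij] using h1
    have hD : D = z • 1 := by
      ext i j
      have h1 := congrFun (congrFun hz (Sum.inr i)) (Sum.inr j)
      by_cases hij : i = j
      · subst hij
        simpa [X] using h1
      · simpa [X, hij] using h1
    rw [hA, hD] at hAD
    haveI : Nonempty (Fin d) := ⟨⟨0, hd⟩⟩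
    have hz2 : z ^ 2 = 1 := by
      let i0 : Fin d := ⟨0, hd⟩
      have h1 := congrFun (congrFun hAD i0) i0
      simp at h1
      rw [pow_two]
      exact h1
    have hz1 : z = 1 := by
      have h22 : (2 : F) = 0 := CharTwo.two_eq_zero
      have h3 : (z - 1) ^ 2 = 0 := by linear_combination hz2 - z * h22 + h22
      exact sub_eq_zero.1 (pow_eq_zero_iff (two_ne_zero) |>.1 h3)
    apply hAdet
    rw [hA, hz1, one_smul, sub_self]
    exact Matrix.det_zero
  · rintro ⟨g, hg, c, hc⟩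
    have hyS : g⁻¹ * x * g ∈ spGL d F :=
      (spGL d F).mul_mem ((spGL d F).mul_mem ((spGL d F).inv_mem hg) hXsp) hg
    have hc1 := sim_eq_one hd S _ hyS c hc
    rw [hc1] at hc
    set Gi : Matrix (Fin d ⊕ Fin d) (Fin d ⊕ Fin d) F := ((g⁻¹ : GL (Fin d ⊕ Fin d) F) : Matrix (Fin d ⊕ Fin d) (Fin d ⊕ Fin d) F) with hGi
    set G : Matrix (Fin d ⊕ Fin d) (Fin d ⊕ Fin d) F := (g : Matrix (Fin d ⊕ Fin d) (Fin d ⊕ Fin d) F) with hG
    have hGG : G * Gi = 1 := by
      rw [hG, hGi, ← Units.val_mul, mul_inv_cancel, Units.val_one]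
    let Q'' : (Fin d ⊕ Fin d → F) → F := fun v => Q (Gi *ᵥ v)
    have S'' : QSpace (sympBilin d F) Q'' := qspace_comp S g⁻¹ ((spGL d F).inv_mem hg)
    have hS'' : arfS Q'' = arfS Q := arfS_comp g⁻¹
    have hinv : ∀ v, Q'' (X *ᵥ v) = Q'' v := by
      intro v
      have h1 := hc (Gi *ᵥ v)
      rw [one_mul, Units.val_mul, Units.val_mul, ← hGi, ← hG, hxc, Matrix.mulVec_mulVec] at h1
      have h2 : Gi * X * G * Gi = Gi * X := by
        rw [mul_assoc, hGG, mul_one]
      rw [h2] at h1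
      change Q (Gi *ᵥ (X *ᵥ v)) = Q (Gi *ᵥ v)
      rw [Matrix.mulVec_mulVec]
      exact h1
    have hts : TS Q'' (Cfsg.Agent.Lib.QuadFn.PlusForm.stdM F d) := by
      intro u hu
      have hu' : u ∘ Sum.inr = 0 := (LinearMap.mem_ker.1 hu)
      have hdet1 : IsUnit (A - 1).det := isUnit_iff_ne_zero.2 hAdet
      let p : Fin d → F := (A - 1)⁻¹ *ᵥ (u ∘ Sum.inl)
      have hp : (A - 1) *ᵥ p = u ∘ Sum.inl := by
        simp only [p]
        rw [Matrix.mulVec_mulVec, Matrix.mul_nonsing_inv _ hdet1, Matrix.one_mulVec]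
      let w : Fin d ⊕ Fin d → F := Sum.elim p 0
      have hwr : w ∘ Sum.inr = 0 := rfl
      have hwl : w ∘ Sum.inl = p := rfl
      have hXw : X *ᵥ w = Sum.elim (A *ᵥ p) 0 := by
        rw [hXv, hwr, hwl, Matrix.mulVec_zero]
      have hu2 : u = X *ᵥ w + w := by
        rw [hXw]
        ext (i | i)
        · have h3 := congrFun hp i
          simp only [Matrix.sub_mulVec, Matrix.one_mulVec, Pi.sub_apply, Function.comp_apply] at h3
          simp only [Pi.add_apply, Sum.elim_inl, w]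
          rw [← h3]
          have := CharTwo.add_self_eq_zero (p i)
          linear_combination -this
        · have h3 := congrFun hu' i
          simp only [Function.comp_apply, Pi.zero_apply] at h3
          simp [w, h3]
      rw [hu2, S''.add, hinv, CharTwo.add_self_eq_zero, zero_add, sympBilin_apply, hXw, sympForm_dot]
      have h5 : (Sum.elim (A *ᵥ p) 0 : Fin d ⊕ Fin d → F) ∘ Sum.inr = 0 := rfl
      rw [h5, hwr]
      simp
    have h1 := arfS_of_ts S'' finrank_V _ hts (Cfsg.Agent.Lib.QuadFn.PlusForm.stdM_finrank F d)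
    rw [hS''] at h1
    rw [h1] at hS
    omega

/-- Reindexing for an orthogonal sum of symplectic spaces. -/
def spGlue {n k₁ k₂ : ℕ} (ε : Fin n ≃ Fin k₁ ⊕ Fin k₂) :
    (Fin k₁ ⊕ Fin k₁) ⊕ (Fin k₂ ⊕ Fin k₂) ≃ Fin n ⊕ Fin n where
  toFun := Sum.elim
    (Sum.elim (fun i => Sum.inl (ε.symm (Sum.inl i))) (fun i => Sum.inr (ε.symm (Sum.inl i))))
    (Sum.elim (fun i => Sum.inl (ε.symm (Sum.inr i))) (fun i => Sum.inr (ε.symm (Sum.inr i))))
  invFun := Sum.elim
    (fun i => (ε i).elim (fun j => Sum.inl (Sum.inl j)) (fun j => Sum.inr (Sum.inl j)))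
    (fun i => (ε i).elim (fun j => Sum.inl (Sum.inr j)) (fun j => Sum.inr (Sum.inr j)))
  left_inv := by
    rintro ((i | i) | (i | i)) <;> simp
  right_inv := by
    rintro (i | i)
    · simp only [Sum.elim_inl]
      cases h : ε i with
      | inl j =>
        have h' : ε.symm (Sum.inl j) = i := by rw [← h]; simp
        simp [h']
      | inr j =>
        have h' : ε.symm (Sum.inr j) = i := by rw [← h]; simp
        simp [h']
    · simp only [Sum.elim_inr]
      cases h : ε i with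
      | inl j =>
        have h' : ε.symm (Sum.inl j) = i := by rw [← h]; simp
        simp [h']
      | inr j =>
        have h' : ε.symm (Sum.inr j) = i := by rw [← h]; simp
        simp [h']

theorem symp_split {n k₁ k₂ : ℕ} (ε : Fin n ≃ Fin k₁ ⊕ Fin k₂) (u v : Fin n ⊕ Fin n → F) :
    sympForm n F u v = sympForm k₁ F ((u ∘ spGlue ε) ∘ Sum.inl) ((v ∘ spGlue ε) ∘ Sum.inl) +
      sympForm k₂ F ((u ∘ spGlue ε) ∘ Sum.inr) ((v ∘ spGlue ε) ∘ Sum.inr) := by
  rw [sympForm_eq_sum, sympForm_eq_sum, sympForm_eq_sum, ← Equiv.sum_comp ε.symm, Fintype.sum_sum_type]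
  simp only [spGlue, Function.comp_apply, Equiv.coe_fn_mk, Sum.elim_inl, Sum.elim_inr]

theorem sp_glue {n k₁ k₂ : ℕ} (hn : n = k₁ + k₂) (r : ℕ)
    (Y : Matrix (Fin k₁ ⊕ Fin k₁) (Fin k₁ ⊕ Fin k₁) F)
    (Z : Matrix (Fin k₂ ⊕ Fin k₂) (Fin k₂ ⊕ Fin k₂) F) (hY : Y ^ r = 1) (hZ : Z ^ r = 1)
    (hYi : ∀ u v, sympForm k₁ F (Y *ᵥ u) (Y *ᵥ v) = sympForm k₁ F u v)
    (hZi : ∀ u v, sympForm k₂ F (Z *ᵥ u) (Z *ᵥ v) = sympForm k₂ F u v)
    (hYf : ∀ v, Y *ᵥ v = v → v = 0) (hZf : ∀ v, Z *ᵥ v = v → v = 0) :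
    ∃ X : Matrix (Fin n ⊕ Fin n) (Fin n ⊕ Fin n) F, X ^ r = 1 ∧
      (∀ u v, sympForm n F (X *ᵥ u) (X *ᵥ v) = sympForm n F u v) ∧ ∀ v, X *ᵥ v = v → v = 0 := by
  classical
  let ε : Fin n ≃ Fin k₁ ⊕ Fin k₂ := (finCongr hn).trans finSumFinEquiv.symm
  let g := spGlue ε
  let B : Matrix ((Fin k₁ ⊕ Fin k₁) ⊕ (Fin k₂ ⊕ Fin k₂)) ((Fin k₁ ⊕ Fin k₁) ⊕ (Fin k₂ ⊕ Fin k₂)) F :=
    Matrix.fromBlocks Y 0 0 Z
  have hBpow : ∀ m, B ^ m = Matrix.fromBlocks (Y ^ m) 0 0 (Z ^ m) := by
    intro m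
    induction m with
    | zero => simp
    | succ m ih =>
      rw [pow_succ, ih]
      simp only [B, Matrix.fromBlocks_multiply]
      simp [pow_succ]
  let X : Matrix (Fin n ⊕ Fin n) (Fin n ⊕ Fin n) F := B.submatrix g.symm g.symm
  have hXpow : ∀ m, X ^ m = (B ^ m).submatrix g.symm g.symm := by
    intro m
    induction m with
    | zero => simp
    | succ m ih =>
      rw [pow_succ, ih, pow_succ, ← Matrix.submatrix_mul_equiv _ _ _ g.symm]
  have hXv : ∀ v, (X *ᵥ v) ∘ g = B *ᵥ (v ∘ g) := by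
    intro v
    simp only [X]
    rw [Matrix.submatrix_mulVec_equiv]
    ext i
    simp
  have hBl : ∀ u, (B *ᵥ u) ∘ Sum.inl = Y *ᵥ (u ∘ Sum.inl) := by
    intro u
    simp only [B]
    rw [Matrix.fromBlocks_mulVec]
    ext i
    simp
  have hBr : ∀ u, (B *ᵥ u) ∘ Sum.inr = Z *ᵥ (u ∘ Sum.inr) := by
    intro u
    simp only [B]
    rw [Matrix.fromBlocks_mulVec]
    ext i
    simp
  refine ⟨X, ?_, ?_, ?_⟩
  · rw [hXpow, hBpow, hY, hZ]
    ext i j
    rw [Matrix.submatrix_apply, Matrix.fromBlocks_one, Matrix.one_apply, Matrix.one_apply]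
    simp
  · intro u v
    rw [symp_split ε, symp_split ε u v]
    change sympForm k₁ F (((X *ᵥ u) ∘ g) ∘ Sum.inl) (((X *ᵥ v) ∘ g) ∘ Sum.inl) +
        sympForm k₂ F (((X *ᵥ u) ∘ g) ∘ Sum.inr) (((X *ᵥ v) ∘ g) ∘ Sum.inr) =
      sympForm k₁ F ((u ∘ g) ∘ Sum.inl) ((v ∘ g) ∘ Sum.inl) + sympForm k₂ F ((u ∘ g) ∘ Sum.inr) ((v ∘ g) ∘ Sum.inr)
    rw [hXv, hXv, hBl, hBl, hBr, hBr, hYi, hZi]
  · intro v hv
    have h1 := hXv v
    rw [hv] at h1
    have h2 : (v ∘ g) ∘ Sum.inl = 0 := by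
      apply hYf
      rw [← hBl, ← h1]
    have h3 : (v ∘ g) ∘ Sum.inr = 0 := by
      apply hZf
      rw [← hBr, ← h1]
    ext i
    obtain ⟨j, rfl⟩ := g.surjective i
    rcases j with j | j
    · exact congrFun h2 j
    · exact congrFun h3 j

theorem plus_polar' (k : ℕ) (u v : Fin k ⊕ Fin k → F) :
    Cfsg.quadFormPlus k F (u + v) = Cfsg.quadFormPlus k F u + Cfsg.quadFormPlus k F v + sympForm k F u v := by
  rw [sympForm_eq_sum]
  simp only [Cfsg.quadFormPlus, Pi.add_apply]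
  rw [← Finset.sum_add_distrib, ← Finset.sum_add_distrib]
  refine Finset.sum_congr rfl fun i _ => ?_
  have := CharTwo.add_self_eq_zero (u (Sum.inl i) * v (Sum.inr i))
  linear_combination this

/-- A fixed-point-free symplectic element of order `r`, for `r ∣ q ^ d + 1`. -/
theorem exists_sp_fpf (hq : Fintype.card F = q) (hd : 0 < d) (r : ℕ) [hr : Fact r.Prime] (hr2 : r ≠ 2)
    (hdvd : r ∣ q ^ d + 1) :
    ∃ X : Matrix (Fin d ⊕ Fin d) (Fin d ⊕ Fin d) F, X ^ r = 1 ∧
      (∀ u v, sympForm d F (X *ᵥ u) (X *ᵥ v) = sympForm d F u v) ∧ ∀ v, X *ᵥ v = v → v = 0 := by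
  classical
  obtain ⟨e, he0, hed, hord, hdvde, hdvdk⟩ := MinusBlock.arith_order hr2 hd hdvd
  obtain ⟨Z, hZ, hZi, hZf⟩ := MinusBlock.exists_plus_elt hq (d - e) r hdvdk
  have hZi' : ∀ u v, sympForm (d - e) F (Z *ᵥ u) (Z *ᵥ v) = sympForm (d - e) F u v := by
    intro u v
    have h1 := plus_polar' (d - e) (Z *ᵥ u) (Z *ᵥ v)
    rw [← Matrix.mulVec_add, hZi, hZi, hZi, plus_polar'] at h1
    exact (add_left_cancel h1).symm
  have hq' : Nat.card F = q := by rw [Nat.card_eq_fintype_card, hq]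
  have hdvd2 : r ∣ q ^ (2 * e) - 1 := by
    have h1 : q ^ (2 * e) - 1 = (q ^ e - 1) * (q ^ e + 1) := by
      have hqe : 1 ≤ q ^ e := Nat.one_le_pow _ _ (by rw [← hq]; exact Fintype.card_pos)
      zify [hqe, Nat.one_le_pow (2 * e) q (by rw [← hq]; exact Fintype.card_pos)]
      ring
    rw [h1]
    exact hdvde.mul_left _
  have hfin : finrank F (Fin e ⊕ Fin e → F) = 2 * e := finrank_V
  have hnd : Sympl.NondegOn (sympBilin e F) ⊤ := by
    intro u _ hu
    by_contra hc
    push Not at hc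
    exact hu (sympBilin_nondegenerate.1 u fun v => hc v Submodule.mem_top)
  obtain ⟨y, W, hy, hyr, hy1, -, -⟩ := SpElt.exists_isometry_small (sympBilin e F) sympBilin_isAlt hnd hq' e he0 hdvd2 hfin.ge
  let Y : Matrix (Fin e ⊕ Fin e) (Fin e ⊕ Fin e) F := LinearMap.toMatrix' y
  have hYv : ∀ v, Y *ᵥ v = y v := fun v => LinearMap.toMatrix'_mulVec y v
  have hYr : Y ^ r = 1 := by
    have h1 : ∀ n : ℕ, Y ^ n = LinearMap.toMatrix' (y ^ n) := by
      intro n
      induction n with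
      | zero =>
        rw [pow_zero, pow_zero]
        exact LinearMap.toMatrix'_id.symm
      | succ n ih =>
        rw [pow_succ, ih, pow_succ]
        exact (LinearMap.toMatrix'_comp _ _).symm
    rw [h1, hyr]
    exact LinearMap.toMatrix'_id
  have hY1 : Y ≠ 1 := by
    intro h
    apply hy1
    refine LinearMap.ext fun v => ?_
    rw [← hYv, h, Matrix.one_mulVec]
    rfl
  have hrank := OrderRank.order_le_rank (p := 2) hq hr2 Y hYr hY1
  rw [hord] at hrank
  have hYf : ∀ v, Y *ᵥ v = v → v = 0 := by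
    intro v hv
    let N := (Y - 1).mulVecLin
    have h1 := LinearMap.finrank_range_add_finrank_ker N
    have h2 : (Y - 1).rank = finrank F (LinearMap.range N) := rfl
    have h4 : finrank F (LinearMap.ker N) = 0 := by omega
    have h5 : LinearMap.ker N = ⊥ := Submodule.finrank_eq_zero.1 h4
    have h6 : v ∈ LinearMap.ker N := by
      change (Y - 1) *ᵥ v = 0
      rw [Matrix.sub_mulVec, Matrix.one_mulVec, hv, sub_self]
    rw [h5] at h6
    exact h6
  have hYi : ∀ u v, sympForm e F (Y *ᵥ u) (Y *ᵥ v) = sympForm e F u v := by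
    intro u v
    rw [hYv, hYv]
    exact hy u v
  exact sp_glue (k₁ := e) (k₂ := d - e) (by omega) r Y Z hYr hZ hYi hZi' hYf hZf

/-- The element for odd `r` when the sum of `Q` is positive. -/
theorem case_plus_odd (hq : Fintype.card F = q) (hd : 0 < d) (S : QSpace (sympBilin d F) Q) (r : ℕ) [hr : Fact r.Prime]
    (hr2 : r ≠ 2) (hdvd : r ∣ q ^ d + 1) (hS : arfS Q = (q : ℤ) ^ d) :
    ∃ x : GL (Fin d ⊕ Fin d) F, x ∈ spGL d F ∧
      (∃ z : F, ((x ^ r : GL (Fin d ⊕ Fin d) F) : Matrix (Fin d ⊕ Fin d) (Fin d ⊕ Fin d) F) = z • (1 : Matrix (Fin d ⊕ Fin d) (Fin d ⊕ Fin d) F)) ∧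
      (∀ z : F, (x : Matrix (Fin d ⊕ Fin d) (Fin d ⊕ Fin d) F) ≠ z • (1 : Matrix (Fin d ⊕ Fin d) (Fin d ⊕ Fin d) F)) ∧
      ¬ ∃ g ∈ spGL d F, g⁻¹ * x * g ∈ quadSimilarityGroup Q := by
  classical
  obtain ⟨X, hX, hXs, hXf⟩ := exists_sp_fpf hq hd r hr2 hdvd
  have hrpos := hr.out.pos
  let x : GL (Fin d ⊕ Fin d) F := OmegaMem.glOfPow X r hrpos hX
  have hxr : x ^ r = 1 := OmegaMem.glOfPow_pow X r hrpos hX
  have hxc : (x : Matrix (Fin d ⊕ Fin d) (Fin d ⊕ Fin d) F) = X := rfl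
  refine ⟨x, hXs, ⟨1, ?_⟩, ?_, ?_⟩
  · rw [one_smul, hxr, Units.val_one]
  · intro z hz
    rw [hxc] at hz
    obtain ⟨u, v, huv⟩ := exists_form_ne (F := F) hd
    have h1 := hXs u v
    rw [hz, Matrix.smul_mulVec, Matrix.smul_mulVec, Matrix.one_mulVec, Matrix.one_mulVec] at h1
    have h2 : sympBilin d F (z • u) (z • v) = z * z * sympBilin d F u v := by
      simp only [map_smul, LinearMap.smul_apply, smul_eq_mul]
      ring
    have hz2 : z * z = 1 := by
      have h3 : sympForm d F (z • u) (z • v) = z * z * sympForm d F u v := h2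
      rw [h3, huv, mul_one] at h1
      exact h1
    have hz1 : z = 1 := by
      have h22 : (2 : F) = 0 := CharTwo.two_eq_zero
      have h3 : (z - 1) ^ 2 = 0 := by linear_combination hz2 - z * h22 + h22
      exact sub_eq_zero.1 (pow_eq_zero_iff (two_ne_zero) |>.1 h3)
    rw [hz1, one_smul] at hz
    have h4 := hXf u (by rw [hz, Matrix.one_mulVec])
    rw [h4] at huv
    have h5 : sympForm d F 0 v = 0 := by
      rw [sympForm_eq_sum]
      simp
    rw [h5] at huv
    exact zero_ne_one huv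
  · rintro ⟨g, hg, c, hc⟩
    have hyS : g⁻¹ * x * g ∈ spGL d F :=
      (spGL d F).mul_mem ((spGL d F).mul_mem ((spGL d F).inv_mem hg) hXs) hg
    have hc1 := sim_eq_one hd S _ hyS c hc
    rw [hc1] at hc
    let y : GL (Fin d ⊕ Fin d) F := g⁻¹ * x * g
    let Y : Matrix (Fin d ⊕ Fin d) (Fin d ⊕ Fin d) F := (y : Matrix (Fin d ⊕ Fin d) (Fin d ⊕ Fin d) F)
    have hyr : y ^ r = 1 := by
      simp only [y]
      rw [show g⁻¹ * x * g = g⁻¹ * x * g⁻¹⁻¹ by rw [inv_inv], conj_pow, hxr, mul_one, mul_inv_cancel]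
    have hYr : Y ^ r = 1 := by
      have := congrArg (fun t : GL (Fin d ⊕ Fin d) F => (t : Matrix (Fin d ⊕ Fin d) (Fin d ⊕ Fin d) F)) hyr
      simpa [Units.val_pow_eq_pow_val] using this
    have hyf : ∀ v, Y *ᵥ v = v → v = 0 := by
      intro v hv
      have h1 : X *ᵥ ((g : Matrix (Fin d ⊕ Fin d) (Fin d ⊕ Fin d) F) *ᵥ v) = (g : Matrix (Fin d ⊕ Fin d) (Fin d ⊕ Fin d) F) *ᵥ v := by
        have h0 : X * (g : Matrix (Fin d ⊕ Fin d) (Fin d ⊕ Fin d) F) = (g : Matrix (Fin d ⊕ Fin d) (Fin d ⊕ Fin d) F) * Y := by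
          simp only [Y, y]
          rw [Units.val_mul, Units.val_mul, ← mul_assoc, ← mul_assoc, ← Units.val_mul, mul_inv_cancel, Units.val_one, one_mul]
          rfl
        rw [Matrix.mulVec_mulVec, h0, ← Matrix.mulVec_mulVec, hv]
      have h2 := hXf _ h1
      have h3 : v = ((g⁻¹ : GL (Fin d ⊕ Fin d) F) : Matrix (Fin d ⊕ Fin d) (Fin d ⊕ Fin d) F) *ᵥ ((g : Matrix (Fin d ⊕ Fin d) (Fin d ⊕ Fin d) F) *ᵥ v) := by
        rw [Matrix.mulVec_mulVec, ← Units.val_mul, inv_mul_cancel, Units.val_one, Matrix.one_mulVec]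
      rw [h3, h2, Matrix.mulVec_zero]
    have hYinj : ∀ v, v ≠ 0 → Y *ᵥ v ≠ 0 := by
      intro v hv h
      apply hv
      have := (glPerm y).injective (a₁ := v) (a₂ := 0) (by
        change Y *ᵥ v = Y *ᵥ 0
        rw [h, Matrix.mulVec_zero])
      exact this
    have hQY : ∀ v, Q (Y *ᵥ v) = Q v := fun v => by
      have := hc v
      rwa [one_mul] at this
    let σ : Equiv.Perm {v : Fin d ⊕ Fin d → F // v ≠ 0 ∧ Q v = 0} :=
      Equiv.subtypeEquiv (glPerm y) (fun v => by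
        constructor
        · rintro ⟨h1, h2⟩
          exact ⟨hYinj v h1, (hQY v).trans h2⟩
        · rintro ⟨h1, h2⟩
          refine ⟨fun h => h1 ?_, (hQY v).symm.trans h2⟩
          subst h
          change Y *ᵥ 0 = 0
          rw [Matrix.mulVec_zero])
    have hσ : ∀ (n : ℕ) (a : {v : Fin d ⊕ Fin d → F // v ≠ 0 ∧ Q v = 0}), ((σ ^ n) a).1 = (Y ^ n) *ᵥ a.1 := by
      intro n
      induction n with
      | zero =>
        intro a
        simp
      | succ n ih =>
        intro a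
        rw [pow_succ, Equiv.Perm.mul_apply, ih, pow_succ, ← Matrix.mulVec_mulVec]
        rfl
    have hσr : σ ^ r ^ 1 = 1 := by
      rw [pow_one]
      ext a
      rw [hσ, hYr, Matrix.one_mulVec]
      rfl
    have hrα : r ∣ Fintype.card {v : Fin d ⊕ Fin d → F // v ≠ 0 ∧ Q v = 0} := by
      by_contra hn
      obtain ⟨a, ha⟩ := Equiv.Perm.exists_fixed_point_of_prime hn hσr
      have h1 : Y *ᵥ a.1 = a.1 := congrArg Subtype.val ha
      exact a.2.1 (hyf _ h1)
    have hN : Nat.card {v : Fin d ⊕ Fin d → F // Q v = 0} = Fintype.card {v : Fin d ⊕ Fin d → F // v ≠ 0 ∧ Q v = 0} + 1 := by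
      rw [Nat.card_eq_fintype_card, Fintype.card_subtype, Fintype.card_subtype]
      have h0 : (0 : Fin d ⊕ Fin d → F) ∈ Finset.univ.filter fun v => Q v = 0 := by
        simp [S.map_zero]
      have h1 : (Finset.univ.filter fun v : Fin d ⊕ Fin d → F => v ≠ 0 ∧ Q v = 0) = (Finset.univ.filter fun v => Q v = 0).erase 0 := by
        ext v
        simp
      rw [h1, Finset.card_erase_add_one h0]
    have hcount := card_singular S
    rw [hN, hS, hq] at hcount
    have hsq := arfS_sq S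
    rw [hS] at hsq
    have hcount2 : (q : ℤ) * ((Fintype.card {v : Fin d ⊕ Fin d → F // v ≠ 0 ∧ Q v = 0} : ℤ) + 1) =
        ((q : ℤ) ^ d) ^ 2 + ((q : ℤ) - 1) * (q : ℤ) ^ d := by
      rw [hsq]
      exact_mod_cast hcount
    have hu := congrArg (Int.cast : ℤ → ZMod r) hcount2
    push_cast at hu
    rw [(ZMod.natCast_eq_zero_iff _ _).2 hrα] at hu
    have hud : ((q : ℕ) : ZMod r) ^ d = -1 := by
      have h1 : ((q ^ d + 1 : ℕ) : ZMod r) = 0 := (ZMod.natCast_eq_zero_iff _ _).2 hdvd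
      push_cast at h1
      exact eq_neg_of_add_eq_zero_left h1
    rw [hud] at hu
    haveI : Fact (2 < r) := ⟨lt_of_le_of_ne hr.out.two_le (Ne.symm hr2)⟩
    have h20 : (2 : ZMod r) ≠ 0 := by
      intro h
      have h1 : ((2 : ℕ) : ZMod r) = 0 := by exact_mod_cast h
      have h2 := (ZMod.natCast_eq_zero_iff _ _).1 h1
      exact hr2 ((Nat.prime_dvd_prime_iff_eq hr.out Nat.prime_two).1 h2)
    have hu1 : ((q : ℕ) : ZMod r) = 1 := by
      apply mul_left_cancel₀ h20
      linear_combination hu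
    rw [hu1, one_pow] at hud
    exact ZMod.neg_one_ne_one hud.symm

end cases2


/-- Elements of prime order of PSp_n(q), q even, and the subgroups of orthogonal type. Here `T = Sp_{2d}(F)` for a field `F` of characteristic 2 with `q` elements (`d ≥ 2`, `(d, q) ≠ (2, 2)`), realised as the invertible matrices preserving the standard alternating form; `Q` is a non-degenerate quadratic form on `F^{2d}` whose polar form is that alternating form, and `H` is the subgroup of `T` preserving `Q` up to a scalar (equivalently preserving `Q`) — a subgroup of type O^±_{2d}(q) (maximality is not assumed); `Q` is of plus type when `F^{2d}` contains a `d`-dimensional subspace on which `Q` vanishes, of minus type otherwise. Ω is the set of cosets of `H` in `T`, so an element of `T` of prime order `r` (`x ∈ T` with `x^r` scalar, `x` not scalar) fixes a point of Ω exactly when some `T`-conjugate of `x` preserves `Q`. Let `r` be a prime dividing the index of `H`.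 Then every element of `T` of order `r` fixes a point of Ω if and only if `r = 2` and either `Q` is of plus type or `d` is odd. -/
theorem result {F : Type*} [Field F] [Fintype F] {p : ℕ} [Fact p.Prime] [CharP F p] {q : ℕ} (hq : Fintype.card F = q)
    (hp : p = 2) (d : ℕ) (hd : 2 ≤ d) (hT : (d, q) ≠ (2, 2)) (Q : (Fin d ⊕ Fin d → F) → F) (hQ : Cfsg.Geo.IsNondegenerateQuadraticForm Q)
    (hQf : ∀ u v, QuadraticMap.polar Q u v = Cfsg.sympForm d F u v)
    (r : ℕ) [Fact r.Prime]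
    (hΩ : r ∣ (Cfsg.Geo.quadSimilarityGroup Q).relIndex (Cfsg.spGL d F)) :
    (∀ x ∈ Cfsg.spGL d F, (∃ z : F, ((x ^ r : GL (Fin d ⊕ Fin d) F) : Matrix (Fin d ⊕ Fin d) (Fin d ⊕ Fin d) F) = z • (1 : Matrix (Fin d ⊕ Fin d) (Fin d ⊕ Fin d) F)) →
      (∀ z : F, (x : Matrix (Fin d ⊕ Fin d) (Fin d ⊕ Fin d) F) ≠ z • (1 : Matrix (Fin d ⊕ Fin d) (Fin d ⊕ Fin d) F)) →
      ∃ g ∈ Cfsg.spGL d F, g⁻¹ * x * g ∈ Cfsg.Geo.quadSimilarityGroup Q) ↔
    (r = 2 ∧ (Cfsg.Geo.IsPlusTypeOn Q ⊤ ∨ Odd d)) := by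
  classical
  subst hp
  have hd0 : 0 < d := by omega
  have S := qspace_of hQ hQf
  have hq2 : 2 ≤ q := hq ▸ Fintype.one_lt_card
  have hr' := (Fact.out : r.Prime)
  constructor
  · intro hall
    by_contra hcon
    by_cases hr : r = 2
    · subst hr
      have hnot : ¬ (IsPlusTypeOn Q ⊤ ∨ Odd d) := fun h => hcon ⟨rfl, h⟩
      push Not at hnot
      have hev : Even d := Nat.not_odd_iff_even.1 hnot.2
      obtain ⟨x, h1, h2, h3, h4⟩ := case_even hd0 hev S hnot.1
      exact h4 (hall x h1 h2 h3)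
    · have hrq : ¬ r ∣ q := OrderRank.not_dvd_card hq hr' hr
      rw [relIndex_eq hd0 S] at hΩ
      have hA := card_AS_val Q
      have hsq := arfS_sq S
      have hV : (Nat.card (Fin d ⊕ Fin d → F) : ℤ) = ((q : ℤ) ^ d) ^ 2 := by
        rw [Nat.card_eq_fintype_card, Fintype.card_fun, hq]
        simp only [Fintype.card_sum, Fintype.card_fin]
        push_cast
        ring
      obtain ⟨m, hm⟩ := hΩ
      have hrqd : ¬ r ∣ q ^ d := fun h => hrq (hr'.dvd_of_dvd_pow h)
      rw [hV] at hsq hA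
      rcases sq_eq_sq_iff_eq_or_eq_neg.1 hsq with hS | hS
      · -- plus sign
        have hdvd : r ∣ q ^ d + 1 := by
          rw [hm, hS] at hA
          push_cast at hA
          have h1 : (q ^ d * (q ^ d + 1) : ℕ) = 2 * (r * m) := by
            zify
            linear_combination -hA
          have h2 : r ∣ q ^ d * (q ^ d + 1) := by
            rw [h1]
            exact ((dvd_mul_right r m).mul_left 2)
          exact ((Nat.Prime.dvd_mul hr').1 h2).resolve_left hrqd
        obtain ⟨x, h1, h2, h3, h4⟩ := case_plus_odd hq hd0 S r hr hdvd hS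
        exact h4 (hall x h1 h2 h3)
      · -- minus sign
        have hpos : 0 < q ^ d := pow_pos (by omega) _
        have hdvd : r ∣ q ^ d - 1 := by
          rw [hm, hS] at hA
          push_cast at hA
          have h1 : (q ^ d * (q ^ d - 1) : ℕ) = 2 * (r * m) := by
            have h5 : 1 ≤ q ^ d := hpos
            zify [h5]
            linear_combination -hA
          have h2 : r ∣ q ^ d * (q ^ d - 1) := by
            rw [h1]
            exact ((dvd_mul_right r m).mul_left 2)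
          exact ((Nat.Prime.dvd_mul hr').1 h2).resolve_left hrqd
        have hneg : arfS Q < 0 := by
          rw [hS]
          have : (0 : ℤ) < (q : ℤ) ^ d := by exact_mod_cast hpos
          omega
        obtain ⟨x, h1, h2, h3, h4⟩ := case_minus_odd hq hd0 S r hdvd hneg
        exact h4 (hall x h1 h2 h3)
  · rintro ⟨rfl, hcond⟩ x hx ⟨z, hz⟩ hns
    have hxf := (mem_spGL_iff d x).1 hx
    have hxx : (x : Matrix (Fin d ⊕ Fin d) (Fin d ⊕ Fin d) F) * (x : Matrix (Fin d ⊕ Fin d) (Fin d ⊕ Fin d) F) = z • 1 := by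
      rw [← hz, pow_two, Units.val_mul]
    obtain ⟨u, v, huv⟩ := exists_form_ne (F := F) hd0
    have hz1 : z = 1 := by
      have h1 := hxf ((x : Matrix (Fin d ⊕ Fin d) (Fin d ⊕ Fin d) F) *ᵥ u) ((x : Matrix (Fin d ⊕ Fin d) (Fin d ⊕ Fin d) F) *ᵥ v)
      rw [hxf u v, Matrix.mulVec_mulVec, Matrix.mulVec_mulVec, hxx, Matrix.smul_mulVec, Matrix.smul_mulVec, Matrix.one_mulVec, Matrix.one_mulVec] at h1
      have h2 : sympBilin d F (z • u) (z • v) = z * z * sympBilin d F u v := by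
        simp only [map_smul, LinearMap.smul_apply, smul_eq_mul]
        ring
      have h3 : sympForm d F (z • u) (z • v) = z * z * sympForm d F u v := h2
      rw [h3, huv, mul_one] at h1
      have h22 : (2 : F) = 0 := CharTwo.two_eq_zero
      have h4 : (z - 1) ^ 2 = 0 := by linear_combination h1 - z * h22 + h22
      exact sub_eq_zero.1 (pow_eq_zero_iff (two_ne_zero) |>.1 h4)
    rw [hz1, one_smul] at hxx
    exact case_inv hd0 S hcond x hx (fun v => by
      rw [Matrix.mulVec_mulVec, hxx, Matrix.one_mulVec])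

end Cfsg.Agent.S5983
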