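import Cfsg.Statements.S5984
import Cfsg.Agent.Lib.Elusive.HermPairE
import Cfsg.Agent.Lib.Elusive.HermPairF
import Cfsg.Agent.Lib.Elusive.MinusBlock
import Cfsg.Agent.Lib.Elusive.OrderRank

set_option autoImplicit false
open scoped MatrixGroups
open Cfsg

namespace Cfsg.Agent.S5984

open Matrix Module Cfsg.Geo Cfsg.Agent.Lib.Elusive Cfsg.Agent.Lib.Elusive.HermPair Cfsg.Agent.Lib.Elusive.HermPairB
open Cfsg.Agent.Lib.Elusive.HermPairC Cfsg.Agent.Lib.Elusive.HermPairE Cfsg.Agent.Lib.Elusive.HermPairF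
open Cfsg.Agent.Lib.HermCount.Field

theorem stab_of_fix {F : Type*} [Field F] [Fintype F] {n : ℕ} (D : Fin 2 → Submodule F (Fin n → F)) (g : GL (Fin n) F)
    (h0 : ∀ v ∈ D 0, (g : Matrix (Fin n) (Fin n) F) *ᵥ v ∈ D 0) (h1 : ∀ v ∈ D 1, (g : Matrix (Fin n) (Fin n) F) *ᵥ v ∈ D 1) :
    g ∈ decompositionStabilizer D := by
  refine ⟨1, ?_⟩
  intro i
  fin_cases i
  · exact map_eq_of_le g h0 rfl
  · exact map_eq_of_le g h1 rfl

theorem glOfMat_mem {F : Type*} [Field F] [Fintype F] {n q : ℕ} (X : Matrix (Fin n) (Fin n) F) (h : X.det ≠ 0)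
    (hdet : X.det = 1) (hiso : ∀ u v, hermForm n F q (X *ᵥ u) (X *ᵥ v) = hermForm n F q u v) :
    Matrix.GeneralLinearGroup.mkOfDetNeZero X h ∈ GU n F q ⊓ specialLinear (Fin n) F := by
  refine ⟨hiso, ?_⟩
  show Matrix.GeneralLinearGroup.det _ = 1
  apply Units.ext
  exact hdet

theorem two_ne_zero_of_odd {F : Type*} [Field F] [Fintype F] {p : ℕ} [hp : Fact p.Prime] [CharP F p] {q : ℕ}
    (hq : Fintype.card F = q ^ 2) (hodd : Odd q) : (2 : F) ≠ 0 := by
  intro h
  have h2p : p ∣ 2 := by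
    have := (CharP.cast_eq_zero_iff F p 2).1 (by exact_mod_cast h)
    exact this
  have hp2 : p = 2 := (Nat.prime_dvd_prime_iff_eq hp.out Nat.prime_two).1 h2p
  obtain ⟨f, -, hf⟩ := FiniteField.card F p
  have h3 : 2 ∣ q ^ 2 := by
    rw [← hq, hf, hp2]
    exact dvd_pow_self 2 f.ne_zero
  have h4 : 2 ∣ q := Nat.Prime.dvd_of_dvd_pow Nat.prime_two h3
  exact (Nat.not_even_iff_odd.2 hodd) (even_iff_two_dvd.2 h4)

theorem odd_of_two_ne {F : Type*} [Field F] [Fintype F] {p : ℕ} [hp : Fact p.Prime] [CharP F p] {q : ℕ}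
    (hq : Fintype.card F = q ^ 2) (hp2 : p ≠ 2) : Odd q := by
  rw [← Nat.not_even_iff_odd]
  intro h
  obtain ⟨f, -, hf⟩ := FiniteField.card F p
  have h3 : 2 ∣ p ^ (f : ℕ) := by
    rw [← hf, hq]
    exact Dvd.dvd.trans (even_iff_two_dvd.1 h) (dvd_pow_self q (by norm_num))
  have h4 : 2 ∣ p := Nat.Prime.dvd_of_dvd_pow Nat.prime_two h3
  exact hp2 ((Nat.prime_dvd_prime_iff_eq Nat.prime_two hp.out).1 h4).symm


/-- Elements of prime order of PSU_n(q) and the stabilizers of pairs of complementary totally singular subspaces. Here `T = PSU_n(q)` is realised through `SU_n(q)`, the matrices of determinant 1 over the field `F` with `q²` elements preserving the hermitian form `Σ uᵢ vᵢ^q`, with `n ≥ 4` even; `D` is a pair of complementary subspaces of dimension `n/2` on each of which the form vanishes identically, and `H` is the subgroup of `SU_n(q)` fixing or interchanging the two members — a subgroup of type GL_{n/2}(q²).2 (maximality is not assumed). Ω is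 the set of cosets of `H`, so an element of `T` of prime order `r` (`x ∈ SU_n(q)` with `x^r` scalar, `x` not scalar) fixes a point of Ω exactly when some `SU_n(q)`-conjugate of `x` lies in `H`. Let `r` be a prime dividing the index of `H`. Then every element of `T` of order `r` fixes a point of Ω if and only if `r = 2`, `q` is odd and `(q + 1)_2 ≤ (n)_2` (2-parts). -/
theorem result {F : Type*} [Field F] [Fintype F] {p : ℕ} [Fact p.Prime] [CharP F p] {q : ℕ} (hq : Fintype.card F = q ^ 2)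
    (n : ℕ) (hn : 4 ≤ n) (he : Even n) (D : Fin 2 → Submodule F (Fin n → F)) (hD : Cfsg.Geo.IsMDecomposition (n / 2) D)
    (hDs : ∀ i, Cfsg.Geo.IsTotallySingularFor (Cfsg.hermForm n F q) (D i))
    (r : ℕ) [Fact r.Prime]
    (hΩ : r ∣ (Cfsg.Geo.decompositionStabilizer D).relIndex (Cfsg.GU n F q ⊓ Cfsg.Geo.specialLinear (Fin n) F)) :
    (∀ x ∈ Cfsg.GU n F q ⊓ Cfsg.Geo.specialLinear (Fin n) F, (∃ z : F, ((x ^ r : GL (Fin n) F) : Matrix (Fin n) (Fin n) F) = z • (1 : Matrix (Fin n) (Fin n) F)) →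
      (∀ z : F, (x : Matrix (Fin n) (Fin n) F) ≠ z • (1 : Matrix (Fin n) (Fin n) F)) →
      ∃ g ∈ Cfsg.GU n F q ⊓ Cfsg.Geo.specialLinear (Fin n) F, g⁻¹ * x * g ∈ Cfsg.Geo.decompositionStabilizer D) ↔
    (r = 2 ∧ Odd q ∧ padicValNat 2 (q + 1) ≤ padicValNat 2 n) := by
  classical
  have hq2 := two_le hq
  obtain ⟨m, hm⟩ := he
  have hn2 : n = 2 * m := by omega
  have hm0 : 0 < m := by omega
  have hdiv : n / 2 = m := by omega
  have hP : IsPair q (D 0) (D 1) := pair_of_decomp hD hDs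
  have hr := (Fact.out : r.Prime)
  constructor
  · intro hall
    have key : ∀ (X : Matrix (Fin n) (Fin n) F) (z : F), X ^ r = z • 1 → X.det = 1 →
        (∀ u v, hermForm n F q (X *ᵥ u) (X *ᵥ v) = hermForm n F q u v) → (∀ z : F, X ≠ z • 1) → NoPair q X → False := by
      intro X z hXr hXdet hXiso hXns hXno
      have hd0 : X.det ≠ 0 := by rw [hXdet]; exact one_ne_zero
      obtain ⟨g, hg, hgx⟩ := hall (Matrix.GeneralLinearGroup.mkOfDetNeZero X hd0) (glOfMat_mem X hd0 hXdet hXiso)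
        ⟨z, by rw [Units.val_pow_eq_pow_val]; exact hXr⟩ hXns
      obtain ⟨U₀, U₁, hP', h⟩ := stab_pair hq hP _ g hg.1 hgx
      exact hXno U₀ U₁ hP' h
    have key1 : ∀ (X : Matrix (Fin n) (Fin n) F), X ^ r = 1 → X.det = 1 →
        (∀ u v, hermForm n F q (X *ᵥ u) (X *ᵥ v) = hermForm n F q u v) → (∀ z : F, X ≠ z • 1) → NoPair q X → False := by
      intro X hXr
      exact key X 1 (by rw [hXr, one_smul])
    by_contra hcon
    by_cases hrp : r = p
    · subst hrp
      obtain ⟨X, h1, h2, h3, h4, h5⟩ := transvection_elt (p := r) hq hn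
      exact key1 X h1 h2 h3 h4 h5
    by_cases hr2 : r = 2
    · subst hr2
      have hp2 : p ≠ 2 := fun h => hrp h.symm
      have hodd : Odd q := odd_of_two_ne hq hp2
      have h2F : (2 : F) ≠ 0 := two_ne_zero_of_odd hq hodd
      have hlt : padicValNat 2 n + 1 ≤ padicValNat 2 (q + 1) := by
        by_contra h
        exact hcon ⟨rfl, hodd, by omega⟩
      obtain ⟨s, hs0, hsq, hsn⟩ := exists_norm_root hq hodd (by omega) hlt
      obtain ⟨X, h1, h2, h3, h4, h5⟩ := reflection_elt hq hodd h2F hn s hs0 hsq hsn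
      exact key X (s ^ 2) h1 h2 h3 h4 h5
    · have hdvd := hΩ.trans (relIndex_dvd hq hP hn2 hm0 _ (fun g h0 h1 => stab_of_fix D g h0 h1))
      have hnq : ¬ r ∣ q := by
        intro h
        exact OrderRank.not_dvd_card (p := p) (F := F) rfl hr hrp (by rw [hq]; exact h.trans (dvd_pow_self q (by norm_num)))
      rcases (Nat.Prime.dvd_mul hr).1 hdvd with h | h
      · exact hnq (Nat.Prime.dvd_of_dvd_pow hr h)
      · obtain ⟨j, hj, hrj⟩ := (Prime.dvd_finset_prod_iff (Nat.Prime.prime hr) _).1 h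
        have hjm : j < m := Finset.mem_range.1 hj
        obtain ⟨e, he0, hed, hord, hre, -⟩ := MinusBlock.arith_order hr2 (d := 2 * j + 1) (by omega) hrj
        have hodde : Odd e := by
          have h1 : ((q : ℕ) : ZMod r) ^ (2 * j + 1) = -1 := by
            have h2 : ((q ^ (2 * j + 1) + 1 : ℕ) : ZMod r) = 0 := (ZMod.natCast_eq_zero_iff _ _).2 hrj
            push_cast at h2
            linear_combination h2
          have h3 : ((q : ℕ) : ZMod r) ^ (2 * (2 * j + 1)) = 1 := by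
            rw [mul_comm, pow_mul, h1]
            ring
          have h4 := orderOf_dvd_of_pow_eq_one h3
          rw [hord] at h4
          have h5 : e ∣ 2 * j + 1 := Nat.dvd_of_mul_dvd_mul_left (by norm_num) h4
          exact Odd.of_dvd_nat (by simp) h5
        by_cases he1 : e = 1
        · subst he1
          obtain ⟨X, h1, h2, h3, h4, h5⟩ := torus_elt hq hn r hr2 (by simpa using hre)
          exact key1 X h1 h2 h3 h4 h5
        · obtain ⟨X, h1, h2, h3, h4, h5⟩ := block_elt hq (p := p) ⟨m, hm⟩ r hrp hr2 e hodde (by omega) (by omega) hord hre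
          exact key1 X h1 h2 h3 h4 h5
  · rintro ⟨rfl, hodd, hcond⟩ x hx ⟨z, hz⟩ hns
    have h2F : (2 : F) ≠ 0 := two_ne_zero_of_odd hq hodd
    have hxiso : ∀ u v, hermForm n F q ((x : Matrix (Fin n) (Fin n) F) *ᵥ u) ((x : Matrix (Fin n) (Fin n) F) *ᵥ v) = hermForm n F q u v := hx.1
    have hxdet : (x : Matrix (Fin n) (Fin n) F).det = 1 := by
      have h1 : Matrix.GeneralLinearGroup.det x = 1 := hx.2
      have h2 := congrArg Units.val h1
      exact h2
    have hz' : (x : Matrix (Fin n) (Fin n) F) * x = z • 1 := by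
      rw [← hz, pow_two, Units.val_mul]
    obtain ⟨U₀, U₁, hP', h0, h1⟩ := case_inv hq hodd h2F (by omega) ⟨m, hm⟩ hcond _ hxiso hxdet z hz'
    obtain ⟨g, hg, hg0, hg1⟩ := exists_conj_pair hq hP' hP hn2 hm0
    refine ⟨g⁻¹, inv_mem hg, ?_⟩
    rw [inv_inv]
    have hgg : ∀ u : Fin n → F, ((g * x * g⁻¹ : GL (Fin n) F) : Matrix (Fin n) (Fin n) F) *ᵥ ((g : Matrix (Fin n) (Fin n) F) *ᵥ u) =
        (g : Matrix (Fin n) (Fin n) F) *ᵥ ((x : Matrix (Fin n) (Fin n) F) *ᵥ u) := by
      intro u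
      rw [Matrix.mulVec_mulVec, Matrix.mulVec_mulVec, ← Units.val_mul, ← Units.val_mul]
      congr 2
      group
    apply stab_of_fix
    · intro v hv
      rw [← hg0] at hv ⊢
      obtain ⟨u, hu, rfl⟩ := hv
      rw [Matrix.toLin'_apply, hgg]
      exact ⟨_, h0 u hu, by rw [Matrix.toLin'_apply]⟩
    · intro v hv
      rw [← hg1] at hv ⊢
      obtain ⟨u, hu, rfl⟩ := hv
      rw [Matrix.toLin'_apply, hgg]
      exact ⟨_, h1 u hu, by rw [Matrix.toLin'_apply]⟩

end Cfsg.Agent.S5984
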