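import Cfsg.Statements.S5985
import Cfsg.Agent.Lib.Elusive.OmegaMem
import Cfsg.Agent.Lib.Elusive.QuadCount
import Cfsg.Agent.Lib.Elusive.OrderRank
import Cfsg.Agent.Lib.QuadFn.PlusForm
import Cfsg.Agent.Lib.Classical.SympForm

set_option autoImplicit false
open scoped MatrixGroups
open Cfsg

namespace Cfsg.Agent.S5985

open Matrix Module Cfsg.Agent.Lib.Elusive Cfsg.Agent.Lib.Elusive.OmegaMem Cfsg.Agent.Lib.Elusive.QuadCount
open Cfsg.Agent.Lib.Orth.Forms Cfsg.Agent.Lib.QuadFn.PlusForm Cfsg.Agent.Lib.QuadFn.MaxSingular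

section helpers

variable {F : Type*} [Field F]

theorem plus_smul (d : ℕ) (c : F) (v : Fin d ⊕ Fin d → F) :
    Cfsg.quadFormPlus d F (c • v) = c ^ 2 * Cfsg.quadFormPlus d F v := by
  simp only [Cfsg.quadFormPlus, Pi.smul_apply, smul_eq_mul, Finset.mul_sum]
  exact Finset.sum_congr rfl fun _ _ => by ring

theorem plus_blocks (d : ℕ) (v : Fin d ⊕ Fin d → F) :
    Cfsg.quadFormPlus d F v = (v ∘ Sum.inl) ⬝ᵥ (v ∘ Sum.inr) := rfl

/-- An invertible alternating matrix. -/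
theorem exists_alt (d : ℕ) (he : Even d) :
    ∃ S : Matrix (Fin d) (Fin d) F, S.det ≠ 0 ∧ ∀ v : Fin d → F, v ⬝ᵥ (S *ᵥ v) = 0 := by
  classical
  obtain ⟨k, rfl⟩ := he
  let ε : Fin (k + k) ≃ Fin k ⊕ Fin k := finSumFinEquiv.symm
  refine ⟨(Matrix.J (Fin k) F).submatrix ε ε, ?_, ?_⟩
  · rw [Matrix.det_submatrix_equiv_self]
    exact (Matrix.isUnit_det_J (Fin k) F).ne_zero
  · intro v
    rw [Matrix.submatrix_mulVec_equiv]
    have h1 := Cfsg.Agent.Lib.Classical.SympForm.sympBilin_isAlt (m := k) (F := F) (v ∘ ε.symm)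
    have h2 : (v ∘ ε.symm) ⬝ᵥ (Matrix.J (Fin k) F *ᵥ (v ∘ ε.symm)) = 0 := h1
    rw [← h2, dotProduct, dotProduct]
    rw [← Equiv.sum_comp ε]
    refine Finset.sum_congr rfl fun i _ => ?_
    simp

end helpers

section cases

variable {F : Type*} [Field F] [Fintype F] [CharP F 2] {q : ℕ}

/-- The element for even `d`. -/
theorem case_even (d : ℕ) (hd : 4 ≤ d) (he : Even d) :
    ∃ x : GL (Fin d ⊕ Fin d) F, x ∈ Cfsg.Geo.omegaGL (Cfsg.quadFormPlus d F) ∧
      (∃ z : F, ((x ^ 2 : GL (Fin d ⊕ Fin d) F) : Matrix (Fin d ⊕ Fin d) (Fin d ⊕ Fin d) F) = z • (1 : Matrix (Fin d ⊕ Fin d) (Fin d ⊕ Fin d) F)) ∧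
      (∀ z : F, (x : Matrix (Fin d ⊕ Fin d) (Fin d ⊕ Fin d) F) ≠ z • (1 : Matrix (Fin d ⊕ Fin d) (Fin d ⊕ Fin d) F)) ∧
      ¬ ∃ W : Submodule F (Fin d ⊕ Fin d → F), (Module.finrank F ↥W = 1 ∧ ∃ v ∈ W, Cfsg.quadFormPlus d F v ≠ 0) ∧ W.map (Matrix.toLin' (x : Matrix (Fin d ⊕ Fin d) (Fin d ⊕ Fin d) F)) ≤ W := by
  classical
  obtain ⟨S, hS, hSalt⟩ := exists_alt (F := F) d he
  have h22 : (2 : F) = 0 := CharTwo.two_eq_zero
  let X : Matrix (Fin d ⊕ Fin d) (Fin d ⊕ Fin d) F := Matrix.fromBlocks 1 S 0 1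
  have hXX : X ^ 2 = 1 := by
    rw [pow_two]
    simp only [X, Matrix.fromBlocks_multiply]
    have h3 : S + S = 0 := by
      rw [← two_smul F S, h22, zero_smul]
    simp [h3]
  have hXv : ∀ v, X *ᵥ v = Sum.elim ((v ∘ Sum.inl) + S *ᵥ (v ∘ Sum.inr)) (v ∘ Sum.inr) := by
    intro v
    simp only [X]
    rw [Matrix.fromBlocks_mulVec]
    simp
  have hXl : ∀ v, (X *ᵥ v) ∘ Sum.inl = (v ∘ Sum.inl) + S *ᵥ (v ∘ Sum.inr) := fun v => by
    rw [hXv]
    rfl
  have hXr : ∀ v, (X *ᵥ v) ∘ Sum.inr = v ∘ Sum.inr := fun v => by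
    rw [hXv]
    rfl
  have hiso : ∀ v, Cfsg.quadFormPlus d F (X *ᵥ v) = Cfsg.quadFormPlus d F v := by
    intro v
    rw [plus_blocks, plus_blocks, hXl, hXr, add_dotProduct, dotProduct_comm (S *ᵥ _), hSalt, add_zero]
  let x : GL (Fin d ⊕ Fin d) F := glOfPow X 2 (by norm_num) hXX
  have hx2 : x ^ 2 = 1 := glOfPow_pow X 2 (by norm_num) hXX
  have hxc : (x : Matrix (Fin d ⊕ Fin d) (Fin d ⊕ Fin d) F) = X := rfl
  -- the kernel of `X - 1`
  have hker : ∀ v, X *ᵥ v = v ↔ v ∘ Sum.inr = 0 := by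
    intro v
    constructor
    · intro h
      have h1 := hXl v
      rw [h] at h1
      have h2 : S *ᵥ (v ∘ Sum.inr) = 0 := by simpa using h1.symm
      exact Matrix.eq_zero_of_mulVec_eq_zero hS h2
    · intro h
      rw [hXv, h]
      ext (i | i)
      · simp
      · have := congrFun h i
        simpa using this.symm
  have hrank : (X - 1).rank = d := by
    let N : (Fin d ⊕ Fin d → F) →ₗ[F] (Fin d ⊕ Fin d → F) := (X - 1).mulVecLin
    have h1 : LinearMap.ker N = stdM F d := by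
      ext v
      rw [LinearMap.mem_ker]
      have h2 : N v = X *ᵥ v - v := by
        simp [N, Matrix.sub_mulVec]
      rw [h2, sub_eq_zero, hker]
      have h3 : v ∈ stdM F d ↔ LinearMap.funLeft F F (Sum.inr : Fin d → Fin d ⊕ Fin d) v = 0 := LinearMap.mem_ker
      rw [h3]
      rfl
    have h2 := LinearMap.finrank_range_add_finrank_ker N
    rw [h1, stdM_finrank, finrank_total] at h2
    have h3 : (X - 1).rank = finrank F (LinearMap.range N) := rfl
    omega
  have hQ := plusForm_nondeg (F := F) d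
  have hcard : Fintype.card F ≠ 2 ∨ Fintype.card (Fin d ⊕ Fin d) ≠ 4 := by
    right
    simp
    omega
  refine ⟨x, ?_, ⟨1, ?_⟩, ?_, ?_⟩
  · have h1 := mem_omega_of_even_rank (plusForm d F) hQ hcard x
      ((Cfsg.Agent.Lib.Orth.Bridge.mem_isometryGroup_iff _ _).2 (fun v => hiso v))
      (by rw [hxc, hrank]; exact he)
    exact h1
  · rw [one_smul, hx2, Units.val_one]
  · intro z hz
    rw [hxc] at hz
    apply hS
    have h0 : S = 0 := by
      ext i j
      have h1 := congrFun (congrFun hz (Sum.inl i)) (Sum.inr j)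
      simpa [X] using h1
    haveI : Nonempty (Fin d) := ⟨⟨0, by omega⟩⟩
    rw [h0]
    exact Matrix.det_zero
  · rintro ⟨W, ⟨hW, v, hv, hQv⟩, hmap⟩
    have h1 := fixed_of_line (Cfsg.quadFormPlus d F) (plus_smul d) X hiso W hW v hv hQv hmap
    apply hQv
    rw [plus_blocks, (hker v).1 h1]
    simp

/-- The element for odd `r`. -/
theorem case_odd (hq : Fintype.card F = q) (d : ℕ) (hd : 4 ≤ d) (r : ℕ) [hr : Fact r.Prime] (hr2 : r ≠ 2) (hdvd : r ∣ q ^ d - 1) :
    ∃ x : GL (Fin d ⊕ Fin d) F, x ∈ Cfsg.Geo.omegaGL (Cfsg.quadFormPlus d F) ∧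
      (∃ z : F, ((x ^ r : GL (Fin d ⊕ Fin d) F) : Matrix (Fin d ⊕ Fin d) (Fin d ⊕ Fin d) F) = z • (1 : Matrix (Fin d ⊕ Fin d) (Fin d ⊕ Fin d) F)) ∧
      (∀ z : F, (x : Matrix (Fin d ⊕ Fin d) (Fin d ⊕ Fin d) F) ≠ z • (1 : Matrix (Fin d ⊕ Fin d) (Fin d ⊕ Fin d) F)) ∧
      ¬ ∃ W : Submodule F (Fin d ⊕ Fin d → F), (Module.finrank F ↥W = 1 ∧ ∃ v ∈ W, Cfsg.quadFormPlus d F v ≠ 0) ∧ W.map (Matrix.toLin' (x : Matrix (Fin d ⊕ Fin d) (Fin d ⊕ Fin d) F)) ≤ W := by
  classical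
  obtain ⟨A, hAr, hAdet⟩ := exists_fpf (p := 2) hq d (by omega) hdvd
  have hrpos := hr.out.pos
  let D : Matrix (Fin d) (Fin d) F := (A ^ (r - 1))ᵀ
  have hAD : Aᵀ * D = 1 := by
    simp only [D]
    rw [← Matrix.transpose_mul, ← pow_succ, Nat.sub_add_cancel hrpos, hAr, Matrix.transpose_one]
  have hDr : D ^ r = 1 := by
    simp only [D]
    rw [← Matrix.transpose_pow, ← pow_mul, mul_comm, pow_mul, hAr, one_pow, Matrix.transpose_one]
  let X : Matrix (Fin d ⊕ Fin d) (Fin d ⊕ Fin d) F := Matrix.fromBlocks A 0 0 D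
  have hXpow : ∀ k, X ^ k = Matrix.fromBlocks (A ^ k) 0 0 (D ^ k) := by
    intro k
    induction k with
    | zero => simp
    | succ k ih =>
      rw [pow_succ, ih]
      simp only [X, Matrix.fromBlocks_multiply]
      simp [pow_succ]
  have hXr : X ^ r = 1 := by
    rw [hXpow, hAr, hDr]
    simp
  have hXv : ∀ v, X *ᵥ v = Sum.elim (A *ᵥ (v ∘ Sum.inl)) (D *ᵥ (v ∘ Sum.inr)) := by
    intro v
    simp only [X]
    rw [Matrix.fromBlocks_mulVec]
    simp
  have hXl : ∀ v, (X *ᵥ v) ∘ Sum.inl = A *ᵥ (v ∘ Sum.inl) := fun v => by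
    rw [hXv]
    rfl
  have hXrr : ∀ v, (X *ᵥ v) ∘ Sum.inr = D *ᵥ (v ∘ Sum.inr) := fun v => by
    rw [hXv]
    rfl
  have hiso : ∀ v, Cfsg.quadFormPlus d F (X *ᵥ v) = Cfsg.quadFormPlus d F v := by
    intro v
    rw [plus_blocks, plus_blocks, hXl, hXrr, dotProduct_comm (A *ᵥ _), Matrix.dotProduct_mulVec, ← Matrix.mulVec_transpose,
      Matrix.mulVec_mulVec, hAD, Matrix.one_mulVec, dotProduct_comm]
  let x : GL (Fin d ⊕ Fin d) F := glOfPow X r hrpos hXr
  have hxr : x ^ r = 1 := glOfPow_pow X r hrpos hXr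
  have hxc : (x : Matrix (Fin d ⊕ Fin d) (Fin d ⊕ Fin d) F) = X := rfl
  have hQ := plusForm_nondeg (F := F) d
  have hcard : Fintype.card F ≠ 2 ∨ Fintype.card (Fin d ⊕ Fin d) ≠ 4 := by
    right
    simp
    omega
  have hrodd : Odd r := hr.out.odd_of_ne_two hr2
  refine ⟨x, ?_, ⟨1, ?_⟩, ?_, ?_⟩
  · exact mem_omega_of_odd (plusForm d F) hQ hcard x
      ((Cfsg.Agent.Lib.Orth.Bridge.mem_isometryGroup_iff _ _).2 (fun v => hiso v)) hrodd hxr
  · rw [one_smul, hxr, Units.val_one]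
  · intro z hz
    rw [hxc] at hz
    have hA : A = z • 1 := by
      ext i j
      have h1 := congrFun (congrFun hz (Sum.inl i)) (Sum.inl j)
      by_cases hij : i = j
      · subst hij
        simpa [X] using h1
      · simpa [X, hij] using h1
    have hD : D = z • 1 := by
      ext i j
      have h1 := congrFun (congrFun hz (Sum.inr i)) (Sum.inr j)
      by_cases hij : i = j
      · subst hij
        simpa [X] using h1
      · simpa [X, hij] using h1
    rw [hA, hD] at hAD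
    haveI : Nonempty (Fin d) := ⟨⟨0, by omega⟩⟩
    have hz2 : z ^ 2 = 1 := by
      let i0 : Fin d := ⟨0, by omega⟩
      have h1 := congrFun (congrFun hAD i0) i0
      simp at h1
      rw [pow_two]
      exact h1
    have hz1 : z = 1 := by
      have h22 : (2 : F) = 0 := CharTwo.two_eq_zero
      have h3 : (z - 1) ^ 2 = 0 := by linear_combination hz2 - z * h22 + h22
      exact sub_eq_zero.1 (pow_eq_zero_iff (two_ne_zero) |>.1 h3)
    apply hAdet
    rw [hA, hz1, one_smul, sub_self]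
    exact Matrix.det_zero
  · rintro ⟨W, ⟨hW, v, hv, hQv⟩, hmap⟩
    have h1 := fixed_of_line (Cfsg.quadFormPlus d F) (plus_smul d) X hiso W hW v hv hQv hmap
    have h2 := hXl v
    rw [h1] at h2
    have h3 : (A - 1) *ᵥ (v ∘ Sum.inl) = 0 := by
      rw [Matrix.sub_mulVec, Matrix.one_mulVec, ← h2, sub_self]
    have h4 := Matrix.eq_zero_of_mulVec_eq_zero hAdet h3
    apply hQv
    rw [plus_blocks, h4]
    simp

end cases


/-- Elements of prime order of Ω⁺_n(q), q even, with no fixed nonsingular 1-space. Here `T = PΩ⁺_n(F)`, `n = 2d ≥ 8`, realised through `Ω⁺_n(q)`, the commutator subgroup of the isometry group of `Q = Σ xᵢyᵢ` over the field `F` with `q` elements; an element of `T` of prime order `r` is an element `x` of `Ω⁺_n(q)` with `x^r` scalar and `x` not scalar; `q` is even (so the centre is trivial). Let Ω be the set of 1-dimensional subspaces spanned by a vector `v` with `Q(v) ≠ 0`, and let `r` be a prime dividing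 their number. Then every element of `T` of order `r` fixes some nonsingular 1-space if and only if `r = 2` and `n ≡ 2 (mod 4)` (that is, `d` is odd). -/
theorem result {F : Type*} [Field F] [Fintype F] {p : ℕ} [Fact p.Prime] [CharP F p] {q : ℕ} (hq : Fintype.card F = q)
    (hp : p = 2) (d : ℕ) (hd : 4 ≤ d) (r : ℕ) [Fact r.Prime]
    (hrΩ : r ∣ Nat.card {W : Submodule F (Fin d ⊕ Fin d → F) // Module.finrank F ↥W = 1 ∧ ∃ v ∈ W, Cfsg.quadFormPlus d F v ≠ 0}) :
    (∀ x : GL (Fin d ⊕ Fin d) F, x ∈ Cfsg.Geo.omegaGL (Cfsg.quadFormPlus d F) →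
      (∃ z : F, ((x ^ r : GL (Fin d ⊕ Fin d) F) : Matrix (Fin d ⊕ Fin d) (Fin d ⊕ Fin d) F) = z • (1 : Matrix (Fin d ⊕ Fin d) (Fin d ⊕ Fin d) F)) →
      (∀ z : F, (x : Matrix (Fin d ⊕ Fin d) (Fin d ⊕ Fin d) F) ≠ z • (1 : Matrix (Fin d ⊕ Fin d) (Fin d ⊕ Fin d) F)) →
      ∃ W : Submodule F (Fin d ⊕ Fin d → F), (Module.finrank F ↥W = 1 ∧ ∃ v ∈ W, Cfsg.quadFormPlus d F v ≠ 0) ∧ W.map (Matrix.toLin' (x : Matrix (Fin d ⊕ Fin d) (Fin d ⊕ Fin d) F)) ≤ W) ↔ (r = 2 ∧ Odd d) := by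
  classical
  subst hp
  have hq2 : 2 ≤ q := hq ▸ Fintype.one_lt_card
  have hr' := (Fact.out : r.Prime)
  constructor
  · intro hall
    by_contra hcon
    by_cases hr : r = 2
    · subst hr
      have hev : Even d := by
        by_contra hn
        exact hcon ⟨rfl, Nat.not_even_iff_odd.1 hn⟩
      obtain ⟨x, h1, h2, h3, h4⟩ := case_even (F := F) d hd hev
      exact h4 (hall x h1 h2 h3)
    · have hrq : ¬ r ∣ q := OrderRank.not_dvd_card hq hr' hr
      rw [card_lines_plus hq d (by omega)] at hrΩ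
      have hdvd : r ∣ q ^ d - 1 := by
        rcases (Nat.Prime.dvd_mul hr').1 hrΩ with h | h
        · exact absurd (hr'.dvd_of_dvd_pow h) hrq
        · exact h
      obtain ⟨x, h1, h2, h3, h4⟩ := case_odd (F := F) hq d hd r hr hdvd
      exact h4 (hall x h1 h2 h3)
  · rintro ⟨rfl, hodd⟩ x hx ⟨z, hz⟩ hns
    have hQ := plusForm_nondeg (F := F) d
    have hcard : Fintype.card F ≠ 2 ∨ Fintype.card (Fin d ⊕ Fin d) ≠ 4 := by
      right
      simp
      omega
    obtain ⟨hxI, -⟩ := (mem_omegaGL_iff _ _).1 hx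
    have hiso : ∀ v, Cfsg.quadFormPlus d F ((x : Matrix (Fin d ⊕ Fin d) (Fin d ⊕ Fin d) F) *ᵥ v) = Cfsg.quadFormPlus d F v :=
      (Cfsg.Agent.Lib.Orth.Bridge.mem_isometryGroup_iff _ _).1 hxI
    set X : Matrix (Fin d ⊕ Fin d) (Fin d ⊕ Fin d) F := (x : Matrix (Fin d ⊕ Fin d) (Fin d ⊕ Fin d) F) with hX
    have hXX : X * X = z • 1 := by
      rw [← hz, pow_two, Units.val_mul]
    have hz1 : z = 1 := by
      let i0 : Fin d := ⟨0, by omega⟩
      let v₀ : Fin d ⊕ Fin d → F := Pi.single (Sum.inl i0) 1 + Pi.single (Sum.inr i0) 1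
      have hv₀ : Cfsg.quadFormPlus d F v₀ = 1 := by
        simp only [Cfsg.quadFormPlus, v₀, Pi.add_apply]
        rw [Finset.sum_eq_single i0]
        · simp
        · intro j _ hj
          simp [Pi.single_apply, hj]
        · simp
      have h1 := hiso (X *ᵥ v₀)
      rw [Matrix.mulVec_mulVec, hXX, Matrix.smul_mulVec, Matrix.one_mulVec, plus_smul, hv₀, mul_one, hiso, hv₀] at h1
      have h22 : (2 : F) = 0 := CharTwo.two_eq_zero
      have h3 : (z - 1) ^ 2 = 0 := by linear_combination h1 - z * h22 + h22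
      exact sub_eq_zero.1 (pow_eq_zero_iff (two_ne_zero) |>.1 h3)
    rw [hz1, one_smul] at hXX
    by_contra hno
    have hfix : ∀ v, X *ᵥ v = v → Cfsg.quadFormPlus d F v = 0 := by
      intro v hv
      by_contra hQv
      exact hno (line_of_fixed _ (by simp [Cfsg.quadFormPlus]) X v hQv hv)
    let N : (Fin d ⊕ Fin d → F) →ₗ[F] (Fin d ⊕ Fin d → F) := (X - 1).mulVecLin
    have hts : TS (Cfsg.quadFormPlus d F) (LinearMap.ker N) := by
      intro v hv
      apply hfix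
      have h1 : (X - 1) *ᵥ v = 0 := hv
      rw [Matrix.sub_mulVec, Matrix.one_mulVec] at h1
      exact sub_eq_zero.1 h1
    have h1 := (qspace (F := F) (m := d)).finrank_ts_le (finrank_total F d) hts
    have h2 := LinearMap.finrank_range_add_finrank_ker N
    rw [finrank_total] at h2
    have h3 := two_mul_rank_le_of_sq X hXX
    have h4 : (X - 1).rank = finrank F (LinearMap.range N) := rfl
    simp only [Fintype.card_sum, Fintype.card_fin] at h3
    have h5 : (X - 1).rank = d := by omega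
    have h6 := even_rank_of_mem_omega (plusForm d F) hQ hcard x hx
    rw [← hX, h5] at h6
    exact (Nat.not_even_iff_odd.2 hodd) h6

end Cfsg.Agent.S5985
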