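import Cfsg.Statements.S5986
import Cfsg.Agent.Lib.Elusive.MinusBlock
import Cfsg.Agent.Lib.Orth.Parity
import Cfsg.Agent.Lib.Classical.OmegaForms

set_option autoImplicit false
open scoped MatrixGroups
open Cfsg

namespace Cfsg.Agent.S5986

open Matrix Module Cfsg.Agent.Lib.Elusive Cfsg.Agent.Lib.Elusive.OmegaMem Cfsg.Agent.Lib.Elusive.QuadCount Cfsg.Agent.Lib.Elusive.MinusBlock
open Cfsg.Agent.Lib.Orth.Forms

section cases

variable {F : Type*} [Field F] [Fintype F] [CharP F 2] {q : ℕ}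

/-- The element for odd `r`. -/
theorem case_odd (hq : Fintype.card F = q) (d : ℕ) (hd : 4 ≤ d) (a b : F)
    (hab : ∀ x y : F, x ^ 2 + a * x * y + b * y ^ 2 = 0 → x = 0 ∧ y = 0) (r : ℕ) [hr : Fact r.Prime] (hr2 : r ≠ 2)
    (hdvd : r ∣ q ^ d + 1) :
    ∃ x : GL ((Fin (d - 1) ⊕ Fin (d - 1)) ⊕ Fin 2) F, x ∈ Cfsg.Geo.omegaGL (Cfsg.quadFormMinus (d - 1) F a b) ∧
      (∃ z : F, ((x ^ r : GL ((Fin (d - 1) ⊕ Fin (d - 1)) ⊕ Fin 2) F) : Matrix ((Fin (d - 1) ⊕ Fin (d - 1)) ⊕ Fin 2) ((Fin (d - 1) ⊕ Fin (d - 1)) ⊕ Fin 2) F) = z • (1 : Matrix ((Fin (d - 1) ⊕ Fin (d - 1)) ⊕ Fin 2) ((Fin (d - 1) ⊕ Fin (d - 1)) ⊕ Fin 2) F)) ∧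
      (∀ z : F, (x : Matrix ((Fin (d - 1) ⊕ Fin (d - 1)) ⊕ Fin 2) ((Fin (d - 1) ⊕ Fin (d - 1)) ⊕ Fin 2) F) ≠ z • (1 : Matrix ((Fin (d - 1) ⊕ Fin (d - 1)) ⊕ Fin 2) ((Fin (d - 1) ⊕ Fin (d - 1)) ⊕ Fin 2) F)) ∧
      ¬ ∃ W : Submodule F ((Fin (d - 1) ⊕ Fin (d - 1)) ⊕ Fin 2 → F), (Module.finrank F ↥W = 1 ∧ ∃ v ∈ W, Cfsg.quadFormMinus (d - 1) F a b v ≠ 0) ∧ W.map (Matrix.toLin' (x : Matrix ((Fin (d - 1) ⊕ Fin (d - 1)) ⊕ Fin 2) ((Fin (d - 1) ⊕ Fin (d - 1)) ⊕ Fin 2) F)) ≤ W := by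
  classical
  obtain ⟨e, he0, hed, hord, hdvde, hdvdk⟩ := arith_order hr2 (by omega) hdvd
  obtain ⟨k₁, rfl⟩ : ∃ k₁, e = k₁ + 1 := ⟨e - 1, by omega⟩
  obtain ⟨Y, hY, hY1, hYi⟩ := exists_minus_elt hq k₁ a b hab r hdvde
  obtain ⟨Z, hZ, hZi, hZf⟩ := exists_plus_elt hq (d - (k₁ + 1)) r hdvdk
  have hrank := OrderRank.order_le_rank (p := 2) hq hr2 Y hY hY1
  rw [hord] at hrank
  have hYf : ∀ v, Y *ᵥ v = v → v = 0 := by
    intro v hv
    let N := (Y - 1).mulVecLin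
    have h1 := LinearMap.finrank_range_add_finrank_ker N
    have h2 : (Y - 1).rank = finrank F (LinearMap.range N) := rfl
    have h3 : finrank F ((Fin k₁ ⊕ Fin k₁) ⊕ Fin 2 → F) = 2 * (k₁ + 1) := by
      simp
      ring
    have h4 : finrank F (LinearMap.ker N) = 0 := by omega
    have h5 : LinearMap.ker N = ⊥ := Submodule.finrank_eq_zero.1 h4
    have h6 : v ∈ LinearMap.ker N := by
      change (Y - 1) *ᵥ v = 0
      rw [Matrix.sub_mulVec, Matrix.one_mulVec, hv, sub_self]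
    rw [h5] at h6
    exact h6
  obtain ⟨X, hX, hXi, hXf⟩ := glue (n := d - 1) (k₁ := k₁) (k₂ := d - (k₁ + 1)) (by omega) a b r Y Z hY hZ hYi hZi hYf hZf
  have hrpos := hr.out.pos
  let x : GL ((Fin (d - 1) ⊕ Fin (d - 1)) ⊕ Fin 2) F := glOfPow X r hrpos hX
  have hxr : x ^ r = 1 := glOfPow_pow X r hrpos hX
  have hxc : (x : Matrix ((Fin (d - 1) ⊕ Fin (d - 1)) ⊕ Fin 2) ((Fin (d - 1) ⊕ Fin (d - 1)) ⊕ Fin 2) F) = X := rfl
  have hQ := minusForm_nondeg (F := F) (d - 1) hab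
  have hcard : Fintype.card F ≠ 2 ∨ Fintype.card ((Fin (d - 1) ⊕ Fin (d - 1)) ⊕ Fin 2) ≠ 4 := by
    right
    simp
    omega
  have hrodd : Odd r := hr.out.odd_of_ne_two hr2
  refine ⟨x, ?_, ⟨1, ?_⟩, ?_, ?_⟩
  · exact mem_omega_of_odd (minusForm (d - 1) F a b) hQ hcard x
      ((Cfsg.Agent.Lib.Orth.Bridge.mem_isometryGroup_iff _ _).2 (fun v => hXi v)) hrodd hxr
  · rw [one_smul, hxr, Units.val_one]
  · intro z hz
    rw [hxc] at hz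
    let v₀ : (Fin (d - 1) ⊕ Fin (d - 1)) ⊕ Fin 2 → F := Pi.single (Sum.inr 0) 1
    have hv₀ : Cfsg.quadFormMinus (d - 1) F a b v₀ = 1 := by
      simp [Cfsg.quadFormMinus, v₀]
    have h1 := hXi v₀
    rw [hz, Matrix.smul_mulVec, Matrix.one_mulVec, minus_smul, hv₀, mul_one] at h1
    have hz1 : z = 1 := by
      have h22 : (2 : F) = 0 := CharTwo.two_eq_zero
      have h3 : (z - 1) ^ 2 = 0 := by linear_combination h1 - z * h22 + h22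
      exact sub_eq_zero.1 (pow_eq_zero_iff (two_ne_zero) |>.1 h3)
    have h2 := hXf v₀ (by rw [hz, hz1, one_smul, Matrix.one_mulVec])
    rw [h2] at hv₀
    have h3 : Cfsg.quadFormMinus (d - 1) F a b 0 = 0 := by simp [Cfsg.quadFormMinus]
    rw [h3] at hv₀
    exact zero_ne_one hv₀
  · rintro ⟨W, ⟨hW, v, hv, hQv⟩, hmap⟩
    have h1 := fixed_of_line (Cfsg.quadFormMinus (d - 1) F a b) (minus_smul (d - 1) a b) X hXi W hW v hv hQv hmap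
    have h2 := hXf v h1
    apply hQv
    rw [h2]
    simp [Cfsg.quadFormMinus]

end cases


/-- Elements of prime order of Ω⁻_n(q), q even, with no fixed nonsingular 1-space. Here `T = PΩ⁻_n(F)`, `n = 2d ≥ 8`, realised through `Ω⁻_n(q)`, the commutator subgroup of the isometry group of `Q = Σ_{i<d−1} xᵢyᵢ + z₁² + a z₁z₂ + b z₂²` with `z₁² + a z₁z₂ + b z₂²` anisotropic, over the field `F` with `q` elements; an element of `T` of prime order `r` is an element `x` of `Ω⁻_n(q)` with `x^r` scalar and `x` not scalar; `q` is even (so the centre is trivial). Let Ω be the set of 1-dimensional subspaces spanned by a vector `v` with `Q(v) ≠ 0`, and let `r` be a prime dividing their number. Then every element of `T` of order `r` fixes some nonsingular 1-space if and only if `r = 2`. -/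
theorem result {F : Type*} [Field F] [Fintype F] {p : ℕ} [Fact p.Prime] [CharP F p] {q : ℕ} (hq : Fintype.card F = q)
    (hp : p = 2) (d : ℕ) (hd : 4 ≤ d) (a b : F) (hab : ∀ x y : F, x ^ 2 + a * x * y + b * y ^ 2 = 0 → x = 0 ∧ y = 0) (r : ℕ) [Fact r.Prime]
    (hrΩ : r ∣ Nat.card {W : Submodule F ((Fin (d - 1) ⊕ Fin (d - 1)) ⊕ Fin 2 → F) // Module.finrank F ↥W = 1 ∧ ∃ v ∈ W, Cfsg.quadFormMinus (d - 1) F a b v ≠ 0}) :
    (∀ x : GL ((Fin (d - 1) ⊕ Fin (d - 1)) ⊕ Fin 2) F, x ∈ Cfsg.Geo.omegaGL (Cfsg.quadFormMinus (d - 1) F a b) →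
      (∃ z : F, ((x ^ r : GL ((Fin (d - 1) ⊕ Fin (d - 1)) ⊕ Fin 2) F) : Matrix ((Fin (d - 1) ⊕ Fin (d - 1)) ⊕ Fin 2) ((Fin (d - 1) ⊕ Fin (d - 1)) ⊕ Fin 2) F) = z • (1 : Matrix ((Fin (d - 1) ⊕ Fin (d - 1)) ⊕ Fin 2) ((Fin (d - 1) ⊕ Fin (d - 1)) ⊕ Fin 2) F)) →
      (∀ z : F, (x : Matrix ((Fin (d - 1) ⊕ Fin (d - 1)) ⊕ Fin 2) ((Fin (d - 1) ⊕ Fin (d - 1)) ⊕ Fin 2) F) ≠ z • (1 : Matrix ((Fin (d - 1) ⊕ Fin (d - 1)) ⊕ Fin 2) ((Fin (d - 1) ⊕ Fin (d - 1)) ⊕ Fin 2) F)) →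
      ∃ W : Submodule F ((Fin (d - 1) ⊕ Fin (d - 1)) ⊕ Fin 2 → F), (Module.finrank F ↥W = 1 ∧ ∃ v ∈ W, Cfsg.quadFormMinus (d - 1) F a b v ≠ 0) ∧ W.map (Matrix.toLin' (x : Matrix ((Fin (d - 1) ⊕ Fin (d - 1)) ⊕ Fin 2) ((Fin (d - 1) ⊕ Fin (d - 1)) ⊕ Fin 2) F)) ≤ W) ↔ r = 2 := by
  classical
  subst hp
  have hq2 : 2 ≤ q := hq ▸ Fintype.one_lt_card
  have hr' := (Fact.out : r.Prime)
  constructor
  · intro hall
    by_contra hr
    have hrq : ¬ r ∣ q := OrderRank.not_dvd_card hq hr' hr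
    rw [card_lines_minus hq (d - 1) a b hab] at hrΩ
    have hdvd : r ∣ q ^ d + 1 := by
      have hd1 : d - 1 + 1 = d := by omega
      rw [hd1] at hrΩ
      rcases (Nat.Prime.dvd_mul hr').1 hrΩ with h | h
      · exact absurd (hr'.dvd_of_dvd_pow h) hrq
      · exact h
    obtain ⟨x, h1, h2, h3, h4⟩ := case_odd (F := F) hq d hd a b hab r hr hdvd
    exact h4 (hall x h1 h2 h3)
  · rintro rfl x hx ⟨z, hz⟩ hns
    have hQ := minusForm_nondeg (F := F) (d - 1) hab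
    obtain ⟨hxI, -⟩ := (mem_omegaGL_iff _ _).1 hx
    have hiso : ∀ v, Cfsg.quadFormMinus (d - 1) F a b ((x : Matrix ((Fin (d - 1) ⊕ Fin (d - 1)) ⊕ Fin 2) ((Fin (d - 1) ⊕ Fin (d - 1)) ⊕ Fin 2) F) *ᵥ v) = Cfsg.quadFormMinus (d - 1) F a b v :=
      (Cfsg.Agent.Lib.Orth.Bridge.mem_isometryGroup_iff _ _).1 hxI
    set X : Matrix ((Fin (d - 1) ⊕ Fin (d - 1)) ⊕ Fin 2) ((Fin (d - 1) ⊕ Fin (d - 1)) ⊕ Fin 2) F := (x : Matrix ((Fin (d - 1) ⊕ Fin (d - 1)) ⊕ Fin 2) ((Fin (d - 1) ⊕ Fin (d - 1)) ⊕ Fin 2) F) with hX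
    have hXX : X * X = z • 1 := by
      rw [← hz, pow_two, Units.val_mul]
    have hz1 : z = 1 := by
      let v₀ : (Fin (d - 1) ⊕ Fin (d - 1)) ⊕ Fin 2 → F := Pi.single (Sum.inr 0) 1
      have hv₀ : Cfsg.quadFormMinus (d - 1) F a b v₀ = 1 := by
        simp [Cfsg.quadFormMinus, v₀]
      have h1 := hiso (X *ᵥ v₀)
      rw [Matrix.mulVec_mulVec, hXX, Matrix.smul_mulVec, Matrix.one_mulVec, minus_smul, hv₀, mul_one, hiso, hv₀] at h1
      have h22 : (2 : F) = 0 := CharTwo.two_eq_zero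
      have h3 : (z - 1) ^ 2 = 0 := by linear_combination h1 - z * h22 + h22
      exact sub_eq_zero.1 (pow_eq_zero_iff (two_ne_zero) |>.1 h3)
    rw [hz1, one_smul] at hXX
    by_contra hno
    have hfix : ∀ v, X *ᵥ v = v → Cfsg.quadFormMinus (d - 1) F a b v = 0 := by
      intro v hv
      by_contra hQv
      exact hno (line_of_fixed _ (by simp [Cfsg.quadFormMinus]) X v hQv hv)
    let N : ((Fin (d - 1) ⊕ Fin (d - 1)) ⊕ Fin 2 → F) →ₗ[F] ((Fin (d - 1) ⊕ Fin (d - 1)) ⊕ Fin 2 → F) := (X - 1).mulVecLin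
    have hker : ∀ v ∈ LinearMap.ker N, minusForm (d - 1) F a b v = 0 := by
      intro v hv
      apply hfix
      have h1 : (X - 1) *ᵥ v = 0 := hv
      rw [Matrix.sub_mulVec, Matrix.one_mulVec] at h1
      exact sub_eq_zero.1 h1
    have h2 := LinearMap.finrank_range_add_finrank_ker N
    have h3 := two_mul_rank_le_of_sq X hXX
    have h4 : (X - 1).rank = finrank F (LinearMap.range N) := rfl
    have h5 : finrank F ((Fin (d - 1) ⊕ Fin (d - 1)) ⊕ Fin 2 → F) = 2 * d := by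
      simp
      omega
    have h6 : Fintype.card ((Fin (d - 1) ⊕ Fin (d - 1)) ⊕ Fin 2) = 2 * d := by
      simp
      omega
    rw [h6] at h3
    have hS := Cfsg.Agent.Lib.Orth.Parity.qspace (minusForm_nondeg (F := F) (d - 1) hab)
    have h7 := Cfsg.Agent.Lib.QuadFn.MaxSingular.QSpace.finrank_ts_le hS h5 (U := LinearMap.ker N) hker
    exact Cfsg.Agent.Lib.Classical.OmegaForms.no_half_minus hab (LinearMap.ker N) hker (by omega)

end Cfsg.Agent.S5986
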