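import Cfsg.Statements.S5987
import Cfsg.Agent.Lib.ElusT.QMain

set_option autoImplicit false
open scoped MatrixGroups
open Cfsg

namespace Cfsg.Agent.S5987

open Polynomial Module QuadraticMap Matrix
open Cfsg.Agent.Lib.ElusL.Bridge Cfsg.Agent.Lib.ElusL.Cyc Cfsg.Agent.Lib.ElusT.QType Cfsg.Agent.Lib.ElusT.QTS
  Cfsg.Agent.Lib.ElusT.QTwoM Cfsg.Agent.Lib.ElusT.QMain Cfsg.Agent.Lib.ElusT.QModel Cfsg.Agent.Lib.ElusQ.Bridge
  Cfsg.Agent.Lib.Orth.Forms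


/-- Elements of prime order of PΩ⁻_n(q) with no fixed totally singular `m`-space. Here `T = PΩ⁻_n(F)`, `n = 2d ≥ 8`, realised through `Ω⁻_n(q)`, the commutator subgroup of the isometry group of `Q = Σ_{i<d−1} xᵢyᵢ + z₁² + a z₁z₂ + b z₂²` with `z₁² + a z₁z₂ + b z₂²` anisotropic, over the field `F` with `q` elements; an element of `T` of prime order `r` is an element `x` of `Ω⁻_n(q)` with `x^r` scalar and `x` not scalar. Let `1 ≤ m ≤ d − 1` and let `r` be a prime dividing the number of totally singular `m`-spaces (subspaces of dimension `m` on which `Q` vanishes); for `r ≠ p` let `i` be the multiplicative order of `q` modulo `r`, `c = i` for `i` even and `c = 2i` for `i` odd, and write `k = n mod c`, `ℓ = m mod i`, `n' = ⌊n/i⌋`, `m' = ⌊m/i⌋`, `t = (r−1)/i`. Then every element of `T` of order `r` fixes some totally singular `m`-space if and only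 if one of: (i) `r = 2 ≠ p` and (`n ≡ 0 (mod 4)`, or `m` is even, or `q ≢ 7 (mod 8)`); (ii) `r ≠ p` odd, `i` odd, `i ≤ m` and (`k = 0` or `k > 2ℓ`); (iii) `r ≠ p` odd, `i` even, `i ≤ m`, `n' − 2m' ≥ t`, and one of: (a) `i ≥ 2ℓ`, `k = 0`, `n/i` even and `n' − 2m' > t` (all four); (b) `k ≥ 2ℓ` and `n'` odd; (c) `k > 2ℓ` and `n'` even. -/
theorem result {F : Type*} [Field F] [Fintype F] {p : ℕ} [Fact p.Prime] [CharP F p] {q : ℕ} (hq : Fintype.card F = q)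
    (d m : ℕ) (hd : 4 ≤ d) (hm : 1 ≤ m) (hmd : m + 1 ≤ d) (a b : F) (hab : ∀ x y : F, x ^ 2 + a * x * y + b * y ^ 2 = 0 → x = 0 ∧ y = 0)
    (r : ℕ) [Fact r.Prime]
    (hrΩ : r ∣ Nat.card {W : Submodule F ((Fin (d - 1) ⊕ Fin (d - 1)) ⊕ Fin 2 → F) // Module.finrank F ↥W = m ∧ Cfsg.Geo.IsTotallySingularQuad (Cfsg.quadFormMinus (d - 1) F a b) W})
    (i c : ℕ) (hi : i = orderOf (q : ZMod r)) (hc : c = if Even i then i else 2 * i) :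
    (∀ x : GL ((Fin (d - 1) ⊕ Fin (d - 1)) ⊕ Fin 2) F, x ∈ Cfsg.Geo.omegaGL (Cfsg.quadFormMinus (d - 1) F a b) →
      (∃ z : F, ((x ^ r : GL ((Fin (d - 1) ⊕ Fin (d - 1)) ⊕ Fin 2) F) : Matrix ((Fin (d - 1) ⊕ Fin (d - 1)) ⊕ Fin 2) ((Fin (d - 1) ⊕ Fin (d - 1)) ⊕ Fin 2) F) = z • (1 : Matrix ((Fin (d - 1) ⊕ Fin (d - 1)) ⊕ Fin 2) ((Fin (d - 1) ⊕ Fin (d - 1)) ⊕ Fin 2) F)) →
      (∀ z : F, (x : Matrix ((Fin (d - 1) ⊕ Fin (d - 1)) ⊕ Fin 2) ((Fin (d - 1) ⊕ Fin (d - 1)) ⊕ Fin 2) F) ≠ z • (1 : Matrix ((Fin (d - 1) ⊕ Fin (d - 1)) ⊕ Fin 2) ((Fin (d - 1) ⊕ Fin (d - 1)) ⊕ Fin 2) F)) →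
      ∃ W : Submodule F ((Fin (d - 1) ⊕ Fin (d - 1)) ⊕ Fin 2 → F), (Module.finrank F ↥W = m ∧ Cfsg.Geo.IsTotallySingularQuad (Cfsg.quadFormMinus (d - 1) F a b) W) ∧ W.map (Matrix.toLin' (x : Matrix ((Fin (d - 1) ⊕ Fin (d - 1)) ⊕ Fin 2) ((Fin (d - 1) ⊕ Fin (d - 1)) ⊕ Fin 2) F)) ≤ W) ↔
    ((r = 2 ∧ p ≠ 2 ∧ (Even d ∨ Even m ∨ q % 8 ≠ 7)) ∨
     (r ≠ p ∧ 2 < r ∧ Odd i ∧ i ≤ m ∧ ((2 * d) % c = 0 ∨ 2 * (m % i) < (2 * d) % c)) ∨
     (r ≠ p ∧ 2 < r ∧ Even i ∧ i ≤ m ∧ (r - 1) / i + 2 * (m / i) ≤ (2 * d) / i ∧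
       ((2 * (m % i) ≤ i ∧ (2 * d) % c = 0 ∧ Even ((2 * d) / i) ∧ (r - 1) / i + 2 * (m / i) < (2 * d) / i) ∨
        (2 * (m % i) ≤ (2 * d) % c ∧ Odd ((2 * d) / i)) ∨
        (2 * (m % i) < (2 * d) % c ∧ Even ((2 * d) / i))))) := by
  classical
  subst hi
  have hr : r.Prime := Fact.out
  have hN := minusForm_nondeg (d - 1) hab
  have hcard : Fintype.card ((Fin (d - 1) ⊕ Fin (d - 1)) ⊕ Fin 2) = 2 * d := by
    simp
    omega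
  have hV : finrank F ((Fin (d - 1) ⊕ Fin (d - 1)) ⊕ Fin 2 → F) = 2 * d := by
    rw [Module.finrank_fintype_fun_eq_card, hcard]
  have hy : ¬ HyQ (minusForm (d - 1) F a b) := not_hyQ_minus hq hab (d - 1)
  have hq1 : 1 ≤ q := by
    have := two_le_q hq
    omega
  have hmd' : m < d := by omega
  have hL : (∀ x : GL ((Fin (d - 1) ⊕ Fin (d - 1)) ⊕ Fin 2) F, x ∈ Cfsg.Geo.omegaGL (Cfsg.quadFormMinus (d - 1) F a b) →
      (∃ z : F, ((x ^ r : GL ((Fin (d - 1) ⊕ Fin (d - 1)) ⊕ Fin 2) F) : Matrix ((Fin (d - 1) ⊕ Fin (d - 1)) ⊕ Fin 2) ((Fin (d - 1) ⊕ Fin (d - 1)) ⊕ Fin 2) F) = z • (1 : Matrix ((Fin (d - 1) ⊕ Fin (d - 1)) ⊕ Fin 2) ((Fin (d - 1) ⊕ Fin (d - 1)) ⊕ Fin 2) F)) →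
      (∀ z : F, (x : Matrix ((Fin (d - 1) ⊕ Fin (d - 1)) ⊕ Fin 2) ((Fin (d - 1) ⊕ Fin (d - 1)) ⊕ Fin 2) F) ≠ z • (1 : Matrix ((Fin (d - 1) ⊕ Fin (d - 1)) ⊕ Fin 2) ((Fin (d - 1) ⊕ Fin (d - 1)) ⊕ Fin 2) F)) →
      ∃ W : Submodule F ((Fin (d - 1) ⊕ Fin (d - 1)) ⊕ Fin 2 → F), (Module.finrank F ↥W = m ∧ Cfsg.Geo.IsTotallySingularQuad (Cfsg.quadFormMinus (d - 1) F a b) W) ∧ W.map (Matrix.toLin' (x : Matrix ((Fin (d - 1) ⊕ Fin (d - 1)) ⊕ Fin 2) ((Fin (d - 1) ⊕ Fin (d - 1)) ⊕ Fin 2) F)) ≤ W) ↔ Elus (minusForm (d - 1) F a b) r m := by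
    constructor
    · intro H x h1 h2 h3
      obtain ⟨W, ⟨h4, h5⟩, h6⟩ := H x h1 h2 h3
      exact ⟨W, h5, (map_le_iff _ W).mp h6, h4⟩
    · intro H x h1 h2 h3
      obtain ⟨W, h4, h5, h6⟩ := H x h1 h2 h3
      exact ⟨W, ⟨h6, h4⟩, (map_le_iff _ W).mpr h5⟩
  rw [hL]
  obtain ⟨j, hj, hdiv⟩ := ts_dvd_minus hN hq hV hmd' hy hr hrΩ
  have hjd : d - j ≠ 0 := by omega
  have hjd' : d - j - 1 ≠ 0 := by omega
  have hrp : r ≠ p := by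
    rintro rfl
    rcases hdiv with h | h
    · exact not_char_dvd_plus hq _ hjd h
    · exact char_not_dvd hq hjd' h
  obtain ⟨hrF, hrq⟩ := r_facts hq hr hrp
  by_cases hr2 : r = 2
  · subst hr2
    have h2 : (2 : F) ≠ 0 := by exact_mod_cast hrF
    have hp2 : p ≠ 2 := fun h => hrp h.symm
    rw [two_minus_iff hN h2 hq hcard hy (by omega) hmd]
    constructor
    · intro h
      exact Or.inl ⟨rfl, hp2, h⟩
    · rintro (⟨-, -, h⟩ | ⟨-, h, -⟩ | ⟨-, h, -⟩)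
      · exact h
      · omega
      · omega
  have hr2' : 2 < r := by
    have := hr.two_le
    omega
  have hcc : Fintype.card F ≠ 2 ∨ Fintype.card ((Fin (d - 1) ⊕ Fin (d - 1)) ⊕ Fin 2) ≠ 4 := Or.inr (by omega)
  have hipos := ord_pos (q := q) hr hrq
  rcases Nat.even_or_odd (orderOf (q : ZMod r)) with hie | hio
  · obtain ⟨e, he⟩ := hie
    have he2 : orderOf (q : ZMod r) = 2 * e := by omega
    have he0 : 0 < e := by omega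
    have hcv : c = 2 * e := by
      rw [hc, if_pos (by rw [he2]; exact even_two_mul e), he2]
    have hk : (2 * d) % c = 2 * (d % e) := by rw [hcv, Nat.mul_mod_mul_left]
    have hn : (2 * d) / (orderOf (q : ZMod r)) = d / e := by rw [he2, Nat.mul_div_mul_left _ _ (by omega)]
    obtain ⟨w, b, hdwb, hw, hbm, hcnt⟩ := cnt_even_minus hq1 hr hr2 he2 he0 hj hmd' hdiv
    rw [main_even hN hq hcard hcc hr hr2 hrF hrq he2 he0 hm hmd' (iff_false_intro hy) hdwb hw hbm hcnt]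
    rw [hk, hn, he2]
    simp only [iff_false, not_not, ← Nat.not_even_iff_odd]
    constructor
    · rintro ⟨h1, h2, h3⟩
      refine Or.inr (Or.inr ⟨hrp, hr2', even_two_mul e, h1, h2, ?_⟩)
      rcases h3 with ⟨h4, h5⟩ | ⟨h4, h5, h6⟩ | ⟨h4, h5, h6, h7⟩
      · exact Or.inr (Or.inl ⟨h5, h4⟩)
      · exact Or.inr (Or.inr ⟨h6, h4⟩)
      · exact Or.inl ⟨h6, by omega, h4, h7⟩
    · rintro (⟨h, -⟩ | ⟨-, -, h, -⟩ | ⟨-, -, -, h1, h2, h3⟩)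
      · exact absurd h hr2
      · exact absurd (even_two_mul e) h
      · refine ⟨h1, h2, ?_⟩
        rcases h3 with ⟨h4, h5, h6, h7⟩ | ⟨h4, h5⟩ | ⟨h4, h5⟩
        · exact Or.inr (Or.inr ⟨h6, by omega, h4, h7⟩)
        · exact Or.inl ⟨h5, h4⟩
        · exact Or.inr (Or.inl ⟨h5, by omega, h4⟩)
  · have hcv : c = 2 * orderOf (q : ZMod r) := by
      rw [hc, if_neg (Nat.not_even_iff_odd.mpr hio)]
    have hk : (2 * d) % c = 2 * (d % orderOf (q : ZMod r)) := by rw [hcv, Nat.mul_mod_mul_left]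
    obtain ⟨x, b, hdxb, hx, hbm, hcnt⟩ := cnt_odd_minus hq1 hr hr2 hio hj hmd' hdiv
    rw [main_odd hN hq hcard hcc hr hr2 hrF hrq hio hm hmd' (iff_false_intro hy) hdxb hx hbm hcnt]
    rw [hk]
    simp only [false_implies, not_false_eq_true, forall_true_left, true_and, mul_eq_zero, OfNat.ofNat_ne_zero, false_or]
    constructor
    · rintro ⟨h1, h2⟩
      exact Or.inr (Or.inl ⟨hrp, hr2', hio, h1, h2⟩)
    · rintro (⟨h, -⟩ | ⟨-, -, -, h1, h2⟩ | ⟨-, -, h, -⟩)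
      · exact absurd h hr2
      · exact ⟨h1, h2⟩
      · exact absurd h (Nat.not_even_iff_odd.mpr hio)

end Cfsg.Agent.S5987
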