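import Cfsg.Statements.S5988
import Cfsg.Agent.Lib.ElusT.NFin

set_option autoImplicit false
open scoped MatrixGroups
open Cfsg

namespace Cfsg.Agent.S5988

open Polynomial Module QuadraticMap Matrix
open Cfsg.Agent.Lib.ElusL.Bridge Cfsg.Agent.Lib.ElusL.Cyc Cfsg.Agent.Lib.ElusF.Form Cfsg.Agent.Lib.ElusQ.Syl
  Cfsg.Agent.Lib.ElusT.QType Cfsg.Agent.Lib.ElusT.QK1 Cfsg.Agent.Lib.ElusT.QModel Cfsg.Agent.Lib.ElusQ.Bridge
  Cfsg.Agent.Lib.Orth.Forms Cfsg.Agent.Lib.QuadFn.PlusForm Cfsg.Agent.Lib.ElusT.NBase Cfsg.Agent.Lib.ElusT.NTwo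
  Cfsg.Agent.Lib.ElusT.NC2G Cfsg.Agent.Lib.ElusT.NFin Cfsg.Agent.Lib.ElusT.NStmt Cfsg.Agent.Lib.ElusQ.Disc


/-- Elements of prime order of PΩ⁺_n(q) with no fixed elliptic `m`-space. Here `T = PΩ⁺_n(F)`, `n = 2d ≥ 8`, realised through `Ω⁺_n(q)`, the commutator subgroup of the isometry group of `Q = Σ xᵢyᵢ` over the field `F` with `q` elements; an element of `T` of prime order `r` is an element `x` of `Ω⁺_n(q)` with `x^r` scalar and `x` not scalar; a nondegenerate `m`-space (even `m`) is a subspace on which the polar form of `Q` is nondegenerate; it is hyperbolic if it contains an `m/2`-dimensional subspace on which `Q` vanishes, elliptic otherwise. Let `m` be even with `2 ≤ m < n/2` and let `r` be a prime dividing the number of elliptic `m`-spaces; for `r ≠ p` let `i` be the multiplicative order of `q` modulo `r`, `c = i` for `i` even and `c = 2i` for `i` odd, and write `k = n mod c`, `ℓ = m mod i`, `ℓ' = m mod c`,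 `n' = ⌊n/i⌋`, `m' = ⌊m/i⌋`, `t = (r−1)/i`. Then every element of `T` of order `r` fixes some elliptic `m`-space if and only if one of: (i) `r = 2 ≠ p` and either `n ≡ 0 (mod 4)`, `q ≡ 3 (mod 4)` and `m ≡ 2 (mod 4)`, or `n ≡ 2 (mod 4)` and `q ≢ 1 (mod 8)`; (ii) `r ≠ p` odd, `i` odd, `c ≤ m` and `k > ℓ' > 0`; (iii) `r ≠ p` odd, `i` even, and either `k = 0` and (`n/i` odd, or `ℓ' = 0` and `m/i` odd), or `i ≤ m` and (`k > ℓ' > 0`, or `k = ℓ' > 0` and `(n + m − 2k)/i` odd, or `k > ℓ' = 0` and `m/i` odd). (For `r = p` there is always an element of order `p` fixing no elliptic `m`-space.) -/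
theorem result {F : Type*} [Field F] [Fintype F] {p : ℕ} [Fact p.Prime] [CharP F p] {q : ℕ} (hq : Fintype.card F = q)
    (d m : ℕ) (hd : 4 ≤ d) (hm : 2 ≤ m) (hme : Even m) (hmd : m < d)
    (r : ℕ) [Fact r.Prime]
    (hrΩ : r ∣ Nat.card {W : Submodule F (Fin d ⊕ Fin d → F) // Module.finrank F ↥W = m ∧ Cfsg.Geo.IsNondegenerateOn (QuadraticMap.polar (Cfsg.quadFormPlus d F)) W ∧ ¬ Cfsg.Geo.IsPlusTypeOn (Cfsg.quadFormPlus d F) W})
    (i c : ℕ) (hi : i = orderOf (q : ZMod r)) (hc : c = if Even i then i else 2 * i) :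
    (∀ x : GL (Fin d ⊕ Fin d) F, x ∈ Cfsg.Geo.omegaGL (Cfsg.quadFormPlus d F) →
      (∃ z : F, ((x ^ r : GL (Fin d ⊕ Fin d) F) : Matrix (Fin d ⊕ Fin d) (Fin d ⊕ Fin d) F) = z • (1 : Matrix (Fin d ⊕ Fin d) (Fin d ⊕ Fin d) F)) →
      (∀ z : F, (x : Matrix (Fin d ⊕ Fin d) (Fin d ⊕ Fin d) F) ≠ z • (1 : Matrix (Fin d ⊕ Fin d) (Fin d ⊕ Fin d) F)) →
      ∃ W : Submodule F (Fin d ⊕ Fin d → F), (Module.finrank F ↥W = m ∧ Cfsg.Geo.IsNondegenerateOn (QuadraticMap.polar (Cfsg.quadFormPlus d F)) W ∧ ¬ Cfsg.Geo.IsPlusTypeOn (Cfsg.quadFormPlus d F) W) ∧ W.map (Matrix.toLin' (x : Matrix (Fin d ⊕ Fin d) (Fin d ⊕ Fin d) F)) ≤ W) ↔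
    ((r = 2 ∧ p ≠ 2 ∧ ((Even d ∧ q % 4 = 3 ∧ m % 4 = 2) ∨ (Odd d ∧ q % 8 ≠ 1))) ∨
     (r ≠ p ∧ 2 < r ∧ Odd i ∧ c ≤ m ∧ 0 < m % c ∧ m % c < (2 * d) % c) ∨
     (r ≠ p ∧ 2 < r ∧ Even i ∧
       (((2 * d) % c = 0 ∧ (Odd ((2 * d) / i) ∨ (m % c = 0 ∧ Odd (m / i)))) ∨
        (i ≤ m ∧ ((0 < m % c ∧ m % c < (2 * d) % c) ∨
                  (0 < m % c ∧ m % c = (2 * d) % c ∧ Odd ((2 * d + m - 2 * ((2 * d) % c)) / i)) ∨
                  (m % c = 0 ∧ 0 < (2 * d) % c ∧ Odd (m / i))))))) := by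
  classical
  subst hi
  have hrP : r.Prime := Fact.out
  have hN := plusForm_nondeg (F := F) d
  have hcard : Fintype.card (Fin d ⊕ Fin d) = 2 * d := by simp [two_mul]
  have hV : finrank F (Fin d ⊕ Fin d → F) = 2 * d := finrank_total F d
  have hy : HyQ (plusForm d F) := ⟨stdM F d, stdM_ts F d, by rw [stdM_finrank, hV]⟩
  have hq1 : 1 ≤ q := by
    have := two_le_q hq
    omega
  obtain ⟨κ, hκ⟩ := hme
  have hm2 : m = 2 * κ := by omega
  subst hm2
  have hκ0 : 0 < κ := by omega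
  have hκd : κ < d := by omega
  refine Iff.trans (b := ElusP (plusForm d F) r (PQ (plusForm d F) (2 * κ) False)) ?_ ?_
  · constructor
    · intro H x h1 h2 h3
      obtain ⟨W, h4, h5⟩ := H x h1 h2 h3
      exact ⟨W, (ell_family_iff (plusForm d F) W _).mp h4, (map_le_iff _ W).mp h5⟩
    · intro H x h1 h2 h3
      obtain ⟨W, h4, h5⟩ := H x h1 h2 h3
      exact ⟨W, (ell_family_iff (plusForm d F) W _).mpr h4, (map_le_iff _ W).mpr h5⟩
  have hcnt : r ∣ Nat.card {W // PQ (plusForm d F) (2 * κ) False W} := by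
    rw [← Nat.card_congr (Equiv.subtypeEquivRight (fun W => ell_family_iff (plusForm d F) W (2 * κ)))]
    exact hrΩ
  by_cases hrp : r = p
  · subst hrp
    have hmain : ¬ ElusP (plusForm d F) r (PQ (plusForm d F) (2 * κ) False) := by
      obtain ⟨g, hg⟩ : ∃ g, 2 * g + 1 = d ∨ 2 * g = d := ⟨d / 2, by omega⟩
      obtain ⟨U, -, hU, hUd⟩ := exists_ts_sub (Q := plusForm d F) (U := ⊤) (fm_of_symm (polar_symm _) hN).nd_top
        (a := d) (by rw [finrank_top, hV]) (t := 2 * g) (Or.inl ⟨(hyS_top _).mpr hy, by omega⟩)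
      exact not_elus_of (p := r) hN hq hcard (by omega) (by omega) hU hUd (fun a a' h6 h7 h8 h9 h10 h11 => by
        have h12 : a ≠ κ := h10
        have h13 : a' ≠ d - κ := fun h => h11 h hy
        omega)
    constructor
    · intro H
      exact absurd H hmain
    · rintro (⟨h1, h3, -⟩ | ⟨h, -⟩ | ⟨h, -⟩)
      · exact absurd h1 h3
      · exact absurd rfl h
      · exact absurd rfl h
  obtain ⟨hrF, hrq⟩ := r_facts hq hrP hrp
  by_cases hr2 : r = 2
  · subst hr2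
    have h2 : (2 : F) ≠ 0 := by exact_mod_cast hrF
    rw [two_ell_plus_iff hN h2 hq hcard (by omega) hκ0 hκd hy]
    constructor
    · intro h
      exact Or.inl ⟨rfl, fun h' => hrp h'.symm, h⟩
    · rintro (⟨-, -, h⟩ | ⟨-, h, -⟩ | ⟨-, h, -⟩)
      · exact h
      · omega
      · omega
  · have hr2' : 2 < r := by
      have := hrP.two_le
      omega
    have hcount := count_of hN hq hcard hκ0 hκd hrP hr2 hrq hcnt
    have hipos := ord_pos (q := q) hrP hrq
    rcases Nat.even_or_odd (orderOf (q : ZMod r)) with hie | hio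
    · obtain ⟨e, he⟩ := hie
      have he2 : orderOf (q : ZMod r) = 2 * e := by omega
      have he0 : 0 < e := by omega
      have hcv : c = 2 * e := by
        rw [hc, if_pos (by rw [he2]; exact even_two_mul e), he2]
      rw [elusP_even hN hq hcard (by omega) hrP hr2 hrF hrq he2 he0 hκ0 hκd,
        rhs5988_even hy he0 (fun h1 h3 h4 => e_le_even hq1 hrP hr2 he2 he0 hκ0 hκd hcount h1 h3 h4), he2, hcv]
      constructor
      · intro h
        exact Or.inr (Or.inr ⟨hrp, hr2', even_two_mul e, h⟩)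
      · rintro (⟨h, -⟩ | ⟨-, -, h, -⟩ | ⟨-, -, -, h⟩)
        · exact absurd h hr2
        · exact absurd (even_two_mul e) (Nat.not_even_iff_odd.mpr h)
        · exact h
    · have hcv : c = 2 * orderOf (q : ZMod r) := by
        rw [hc, if_neg (Nat.not_even_iff_odd.mpr hio)]
      rw [elusP_odd hN hq hcard (by omega) hrP hr2 hrF hrq hio hκ0 hκd,
        rhs5988_odd hy hipos hκ0 (fun h1 h3 h4 => e_le_odd hq1 hrP hr2 hio hκ0 hκd hcount h1 h3 h4), hcv]
      constructor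
      · rintro ⟨h1, h3, h4⟩
        exact Or.inr (Or.inl ⟨hrp, hr2', hio, h1, h3, h4⟩)
      · rintro (⟨h, -⟩ | ⟨-, -, -, h1, h3, h4⟩ | ⟨-, -, h, -⟩)
        · exact absurd h hr2
        · exact ⟨h1, h3, h4⟩
        · exact absurd h (Nat.not_even_iff_odd.mpr hio)

end Cfsg.Agent.S5988
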