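import Cfsg.Statements.S5989
import Cfsg.Agent.Lib.ElusQ.OddWFinal

set_option autoImplicit false
open scoped MatrixGroups
open Cfsg

namespace Cfsg.Agent.S5989

/-- Elements of prime order of PΩ⁺_n(q), q odd, with no fixed nondegenerate `m`-space of odd dimension. Here `T = PΩ⁺_n(F)`, `n = 2d ≥ 8`, realised through `Ω⁺_n(q)`, the commutator subgroup of the isometry group of `Q = Σ xᵢyᵢ` over the field `F` with `q` elements; an element of `T` of prime order `r` is an element `x` of `Ω⁺_n(q)` with `x^r` scalar and `x` not scalar; `q` and `m` are odd, `1 ≤ m < n/2`. The nondegenerate `m`-spaces (subspaces on which the polar form is nondegenerate) fall into two isometry classes, each an orbit of `T`, and the two actions are equivalent; fix one such space `W₀` and let Ω be the set of nondegenerate `m`-spaces isometric to `W₀` (some linear isomorphism preserves `Q`). Let `r` be a prime dividing the size of Ω; for `r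 ≠ p` let `i` be the multiplicative order of `q` modulo `r`, `c = i` for `i` even and `c = 2i` for `i` odd, and write `k = n mod c`, `ℓ = m mod i`, `ℓ' = m mod c`, `n' = ⌊n/i⌋`, `m' = ⌊m/i⌋`, `t = (r−1)/i`. Then every element of `T` of order `r` fixes a member of Ω if and only if one of: (i) `r = 2`, `n ≡ 2 (mod 4)` and `q ≢ 1 (mod 8)`; (ii) `r ≠ p` odd, `i` odd, `c ≤ m` and `k > ℓ' > 0`; (iii) `r ≠ p` odd, `i` even, and either `k = 0` and `n/i` odd, or `i ≤ m` and `k > ℓ' > 0`. (For `r = p` there is always an element of order `p` fixing no member of Ω.) -/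
theorem result {F : Type*} [Field F] [Fintype F] {p : ℕ} [Fact p.Prime] [CharP F p] {q : ℕ} (hq : Fintype.card F = q)
    (hodd : Odd q) (d m : ℕ) (hd : 4 ≤ d) (hm : Odd m) (hmd : m < d)
    (W₀ : Submodule F (Fin d ⊕ Fin d → F)) (hW₀ : Module.finrank F ↥W₀ = m ∧ Cfsg.Geo.IsNondegenerateOn (QuadraticMap.polar (Cfsg.quadFormPlus d F)) W₀)
    (r : ℕ) [Fact r.Prime]
    (hrΩ : r ∣ Nat.card {W : Submodule F (Fin d ⊕ Fin d → F) // Module.finrank F ↥W = m ∧ Cfsg.Geo.IsNondegenerateOn (QuadraticMap.polar (Cfsg.quadFormPlus d F)) W ∧ Cfsg.Geo.AreIsometricFor (Cfsg.quadFormPlus d F) W W₀})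
    (i c : ℕ) (hi : i = orderOf (q : ZMod r)) (hc : c = if Even i then i else 2 * i) :
    (∀ x : GL (Fin d ⊕ Fin d) F, x ∈ Cfsg.Geo.omegaGL (Cfsg.quadFormPlus d F) →
      (∃ z : F, ((x ^ r : GL (Fin d ⊕ Fin d) F) : Matrix (Fin d ⊕ Fin d) (Fin d ⊕ Fin d) F) = z • (1 : Matrix (Fin d ⊕ Fin d) (Fin d ⊕ Fin d) F)) →
      (∀ z : F, (x : Matrix (Fin d ⊕ Fin d) (Fin d ⊕ Fin d) F) ≠ z • (1 : Matrix (Fin d ⊕ Fin d) (Fin d ⊕ Fin d) F)) →
      ∃ W : Submodule F (Fin d ⊕ Fin d → F), (Module.finrank F ↥W = m ∧ Cfsg.Geo.IsNondegenerateOn (QuadraticMap.polar (Cfsg.quadFormPlus d F)) W ∧ Cfsg.Geo.AreIsometricFor (Cfsg.quadFormPlus d F) W W₀) ∧ W.map (Matrix.toLin' (x : Matrix (Fin d ⊕ Fin d) (Fin d ⊕ Fin d) F)) ≤ W) ↔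
    ((r = 2 ∧ Odd d ∧ q % 8 ≠ 1) ∨
     (r ≠ p ∧ 2 < r ∧ Odd i ∧ c ≤ m ∧ 0 < m % c ∧ m % c < (2 * d) % c) ∨
     (r ≠ p ∧ 2 < r ∧ Even i ∧ (((2 * d) % c = 0 ∧ Odd ((2 * d) / i)) ∨ (i ≤ m ∧ 0 < m % c ∧ m % c < (2 * d) % c)))) := by
  open Cfsg.Agent.Lib.ElusQ.OddThm Cfsg.Agent.Lib.ElusQ.OddWFinal Cfsg.Agent.Lib.ElusQ.OddW Cfsg.Agent.Lib.ElusQ.OddWThm Cfsg.Agent.Lib.ElusQ.Oz Cfsg.Agent.Lib.ElusQ.OddMain Cfsg.Agent.Lib.ElusQ.Disc Cfsg.Agent.Lib.ElusQ.Bridge Cfsg.Agent.Lib.ElusL.Basic Cfsg.Agent.Lib.ElusF.Form Cfsg.Agent.Lib.Orth.Forms Cfsg.Agent.Lib.ElusQ.Syl in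
  have h2 : (2 : F) ≠ 0 := two_ne_zero_of_odd hq hodd
  have hr : r.Prime := Fact.out
  have hc' : c = cOf i := hc
  subst hi
  subst hc'
  have hcard : Fintype.card (Fin d ⊕ Fin d) = 2 * d := by
    simp
    ring
  have hN := plusForm_nondeg (F := F) d
  have hS := polar_symm (plusForm d F)
  have hipos : r ≠ p → 0 < orderOf (q : ZMod r) := fun hrp => orderOf_pos_iff.mpr (by
    have : Fact r.Prime := ⟨hr⟩
    have hq0 : (q : ZMod r) ≠ 0 := by
      intro h0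
      exact not_dvd_q hq hr hrp ((ZMod.natCast_eq_zero_iff _ _).mp h0)
    exact isOfFinOrder_of_finite (Units.mk0 _ hq0) |> (fun h => by
      have := (Units.isOfFinOrder_val).mpr h
      simpa using this))
  have key := final_iff (p := p) (plusForm d F) hN h2 hq (d := d) (m := m) (by omega) hcard hm hmd (W₀ := W₀) hW₀ r hr hrΩ
  refine key.trans ?_
  have hD : dd (QuadraticMap.polarBilin (plusForm d F)) ⊤ ≠ 0 := dd_ne_zero hS (fm_of_symm hS hN).nd_top
  have hHy := hy_plus (F := F) d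
  have hdim : Module.finrank F (⊤ : Submodule F (Fin d ⊕ Fin d → F)) = 2 * d := by
    rw [finrank_top]
    simp
    ring
  have hsq := (hy_iff h2 hS (fm_of_symm hS hN).nd_top hdim).mp hHy
  rw [plus_two hq hodd h2 hD hsq]
  set i := orderOf (q : ZMod r) with hidef
  have hty : ¬ TypeE (2 * d) i (Hy (QuadraticMap.polarBilin (plusForm d F)) ⊤) ↔ Even i ∧ Odd (2 * d / i) := by
    constructor
    · intro h
      by_contra hc
      apply h
      refine ⟨fun _ => hHy, fun he => ⟨fun _ => hHy, fun _ => ?_⟩⟩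
      by_contra hc2
      exact hc ⟨he, Nat.not_even_iff_odd.mp hc2⟩
    · rintro ⟨he, ho⟩ ⟨_, h⟩
      exact Nat.not_even_iff_odd.mpr ho ((h he).mpr hHy)
  constructor
  · rintro (⟨h1, h3⟩ | ⟨h1, h3, h4⟩)
    · exact Or.inl ⟨h1, h3⟩
    · have hcpos : 0 < cOf i := cOf_pos (hipos h1)
      have hmpos := odd_mod_pos hm (even_cOf i) hcpos
      rcases Nat.even_or_odd i with he | ho
      · right
        right
        have hci : cOf i = i := by simp [cOf, he]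
        refine ⟨h1, h3, he, ?_⟩
        rcases h4 with ⟨h5, h6⟩ | ⟨h5, h6⟩
        · left
          exact ⟨h5, (hty.mp h6).2⟩
        · right
          exact ⟨by rwa [hci] at h5, hmpos, h6⟩
      · right
        left
        rcases h4 with ⟨h5, h6⟩ | ⟨h5, h6⟩
        · exact absurd ho (Nat.not_odd_iff_even.mpr (hty.mp h6).1)
        · exact ⟨h1, h3, ho, h5, hmpos, h6⟩
  · rintro (⟨h1, h3⟩ | ⟨h1, h3, ho, h5, _, h6⟩ | ⟨h1, h3, he, h4⟩)
    · exact Or.inl ⟨h1, h3⟩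
    · exact Or.inr ⟨h1, h3, Or.inr ⟨h5, h6⟩⟩
    · have hci : cOf i = i := by simp [cOf, he]
      rcases h4 with ⟨h5, h6⟩ | ⟨h5, _, h6⟩
      · exact Or.inr ⟨h1, h3, Or.inl ⟨h5, hty.mpr ⟨he, h6⟩⟩⟩
      · exact Or.inr ⟨h1, h3, Or.inr ⟨by rwa [hci], h6⟩⟩

end Cfsg.Agent.S5989
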