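import Cfsg.Statements.S5990
import Cfsg.Agent.Lib.ElusT.NFin

set_option autoImplicit false
open scoped MatrixGroups
open Cfsg

namespace Cfsg.Agent.S5990

open Polynomial Module QuadraticMap Matrix
open Cfsg.Agent.Lib.ElusL.Bridge Cfsg.Agent.Lib.ElusL.Cyc Cfsg.Agent.Lib.ElusF.Form Cfsg.Agent.Lib.ElusQ.Syl
  Cfsg.Agent.Lib.ElusT.QType Cfsg.Agent.Lib.ElusT.QK1 Cfsg.Agent.Lib.ElusT.QModel Cfsg.Agent.Lib.ElusQ.Bridge
  Cfsg.Agent.Lib.Orth.Forms Cfsg.Agent.Lib.QuadFn.PlusForm Cfsg.Agent.Lib.ElusT.NBase Cfsg.Agent.Lib.ElusT.NTwo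
  Cfsg.Agent.Lib.ElusT.NC2G Cfsg.Agent.Lib.ElusT.NFin Cfsg.Agent.Lib.ElusT.NStmt Cfsg.Agent.Lib.ElusQ.Disc


/-- Elements of prime order of PΩ⁻_n(q) with no fixed elliptic `m`-space. Here `T = PΩ⁻_n(F)`, `n = 2d ≥ 8`, realised through `Ω⁻_n(q)`, the commutator subgroup of the isometry group of `Q = Σ_{i<d−1} xᵢyᵢ + z₁² + a z₁z₂ + b z₂²` with `z₁² + a z₁z₂ + b z₂²` anisotropic, over the field `F` with `q` elements; an element of `T` of prime order `r` is an element `x` of `Ω⁻_n(q)` with `x^r` scalar and `x` not scalar; a nondegenerate `m`-space (even `m`) is a subspace on which the polar form of `Q` is nondegenerate; it is hyperbolic if it contains an `m/2`-dimensional subspace on which `Q` vanishes, elliptic otherwise. Let `m` be even with `2 ≤ m ≤ n − 2` (no restriction `m < n/2`: fixing an elliptic `m`-space is the same as fixing its hyperbolic orthogonal complement) and let `r` be a prime dividing the number of elliptic `m`-spaces,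 with `r = 2` or `r ≠ p`; for `r ≠ p` let `i` be the multiplicative order of `q` modulo `r`, `c = i` for `i` even and `c = 2i` for `i` odd, and write `k = n mod c`, `ℓ = m mod i`, `ℓ' = m mod c`, `n' = ⌊n/i⌋`, `m' = ⌊m/i⌋`, `t = (r−1)/i`. Then every element of `T` of order `r` fixes some elliptic `m`-space if and only if one of: (i) `r = p = 2` and (`n ≡ 0 (mod 4)` or `m ≡ 2 (mod 4)`); (ii) `r = 2 ≠ p` and (`n ≡ 0 (mod 4)`, or `q ≢ 7 (mod 8)`, or `m ≡ 2 (mod 4)`); (iii) `r ≠ p` odd, `i` odd, and `k = 0` or (`c ≤ m` and `k ≥ ℓ' > 0`); (iv) `r ≠ p` odd, `i` even, and either `k = 0` and (`n/i` even, or `ℓ' = 0` and `m/i` odd), or `k > 0`, `i ≤ m` and (`k > ℓ' > 0`, or `ℓ' = 0` and `m/i` odd, or `k = ℓ'` and `(n + m − 2k)/i` even). (Odd `r = p` is not covered by this statement.) -/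
theorem result {F : Type*} [Field F] [Fintype F] {p : ℕ} [Fact p.Prime] [CharP F p] {q : ℕ} (hq : Fintype.card F = q)
    (d m : ℕ) (hd : 4 ≤ d) (hm : 2 ≤ m) (hme : Even m) (hmn : m + 2 ≤ 2 * d) (a b : F) (hab : ∀ x y : F, x ^ 2 + a * x * y + b * y ^ 2 = 0 → x = 0 ∧ y = 0)
    (r : ℕ) [Fact r.Prime] (hr : r = 2 ∨ r ≠ p)
    (hrΩ : r ∣ Nat.card {W : Submodule F ((Fin (d - 1) ⊕ Fin (d - 1)) ⊕ Fin 2 → F) // Module.finrank F ↥W = m ∧ Cfsg.Geo.IsNondegenerateOn (QuadraticMap.polar (Cfsg.quadFormMinus (d - 1) F a b)) W ∧ ¬ Cfsg.Geo.IsPlusTypeOn (Cfsg.quadFormMinus (d - 1) F a b) W})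
    (i c : ℕ) (hi : i = orderOf (q : ZMod r)) (hc : c = if Even i then i else 2 * i) :
    (∀ x : GL ((Fin (d - 1) ⊕ Fin (d - 1)) ⊕ Fin 2) F, x ∈ Cfsg.Geo.omegaGL (Cfsg.quadFormMinus (d - 1) F a b) →
      (∃ z : F, ((x ^ r : GL ((Fin (d - 1) ⊕ Fin (d - 1)) ⊕ Fin 2) F) : Matrix ((Fin (d - 1) ⊕ Fin (d - 1)) ⊕ Fin 2) ((Fin (d - 1) ⊕ Fin (d - 1)) ⊕ Fin 2) F) = z • (1 : Matrix ((Fin (d - 1) ⊕ Fin (d - 1)) ⊕ Fin 2) ((Fin (d - 1) ⊕ Fin (d - 1)) ⊕ Fin 2) F)) →
      (∀ z : F, (x : Matrix ((Fin (d - 1) ⊕ Fin (d - 1)) ⊕ Fin 2) ((Fin (d - 1) ⊕ Fin (d - 1)) ⊕ Fin 2) F) ≠ z • (1 : Matrix ((Fin (d - 1) ⊕ Fin (d - 1)) ⊕ Fin 2) ((Fin (d - 1) ⊕ Fin (d - 1)) ⊕ Fin 2) F)) →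
      ∃ W : Submodule F ((Fin (d - 1) ⊕ Fin (d - 1)) ⊕ Fin 2 → F), (Module.finrank F ↥W = m ∧ Cfsg.Geo.IsNondegenerateOn (QuadraticMap.polar (Cfsg.quadFormMinus (d - 1) F a b)) W ∧ ¬ Cfsg.Geo.IsPlusTypeOn (Cfsg.quadFormMinus (d - 1) F a b) W) ∧ W.map (Matrix.toLin' (x : Matrix ((Fin (d - 1) ⊕ Fin (d - 1)) ⊕ Fin 2) ((Fin (d - 1) ⊕ Fin (d - 1)) ⊕ Fin 2) F)) ≤ W) ↔
    ((r = 2 ∧ p = 2 ∧ (Even d ∨ m % 4 = 2)) ∨
     (r = 2 ∧ p ≠ 2 ∧ (Even d ∨ q % 8 ≠ 7 ∨ m % 4 = 2)) ∨
     (r ≠ p ∧ 2 < r ∧ Odd i ∧ ((2 * d) % c = 0 ∨ (c ≤ m ∧ 0 < m % c ∧ m % c ≤ (2 * d) % c))) ∨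
     (r ≠ p ∧ 2 < r ∧ Even i ∧
       (((2 * d) % c = 0 ∧ (Even ((2 * d) / i) ∨ (m % c = 0 ∧ Odd (m / i)))) ∨
        (0 < (2 * d) % c ∧ i ≤ m ∧ ((0 < m % c ∧ m % c < (2 * d) % c) ∨ (m % c = 0 ∧ Odd (m / i)) ∨
                                    (m % c = (2 * d) % c ∧ Even ((2 * d + m - 2 * ((2 * d) % c)) / i))))))) := by
  classical
  subst hi
  have hrP : r.Prime := Fact.out
  have hN := minusForm_nondeg (d - 1) hab
  have hcard : Fintype.card ((Fin (d - 1) ⊕ Fin (d - 1)) ⊕ Fin 2) = 2 * d := by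
    simp
    omega
  have hV : finrank F ((Fin (d - 1) ⊕ Fin (d - 1)) ⊕ Fin 2 → F) = 2 * d := by
    rw [Module.finrank_fintype_fun_eq_card, hcard]
  have hy : ¬ HyQ (minusForm (d - 1) F a b) := not_hyQ_minus hq hab (d - 1)
  have hq1 : 1 ≤ q := by
    have := two_le_q hq
    omega
  obtain ⟨κ, hκ⟩ := hme
  have hm2 : m = 2 * κ := by omega
  subst hm2
  have hκ0 : 0 < κ := by omega
  have hκd : κ < d := by omega
  refine Iff.trans (b := ElusP (minusForm (d - 1) F a b) r (PQ (minusForm (d - 1) F a b) (2 * κ) False)) ?_ ?_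
  · constructor
    · intro H x h1 h2 h3
      obtain ⟨W, h4, h5⟩ := H x h1 h2 h3
      exact ⟨W, (ell_family_iff (minusForm (d - 1) F a b) W _).mp h4, (map_le_iff _ W).mp h5⟩
    · intro H x h1 h2 h3
      obtain ⟨W, h4, h5⟩ := H x h1 h2 h3
      exact ⟨W, (ell_family_iff (minusForm (d - 1) F a b) W _).mpr h4, (map_le_iff _ W).mpr h5⟩
  have hcnt : r ∣ Nat.card {W // PQ (minusForm (d - 1) F a b) (2 * κ) False W} := by
    rw [← Nat.card_congr (Equiv.subtypeEquivRight (fun W => ell_family_iff (minusForm (d - 1) F a b) W (2 * κ)))]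
    exact hrΩ
  by_cases hr2 : r = 2
  · subst hr2
    by_cases h2 : (2 : F) = 0
    · have hp2 : p = 2 := p_eq_two h2
      subst hp2
      have hmain : ElusP (minusForm (d - 1) F a b) 2 (PQ (minusForm (d - 1) F a b) (2 * κ) False) ↔
          (Even d ∨ (2 * κ) % 4 = 2) := by
        constructor
        · intro H
          by_contra hcon
          rw [not_or] at hcon
          obtain ⟨h3, h4⟩ := hcon
          rw [Nat.not_even_iff] at h3
          obtain ⟨g, hg⟩ : ∃ g, 2 * g + 1 = d := ⟨d / 2, by omega⟩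
          obtain ⟨U, -, hU, hUd⟩ := exists_ts_sub (Q := minusForm (d - 1) F a b) (U := ⊤)
            (fm_of_symm (polar_symm _) hN).nd_top
            (a := d) (by rw [finrank_top, hV]) (t := 2 * g) (Or.inr (by omega))
          exact not_elus_of (p := 2) hN hq hcard (by omega) (by omega) hU hUd (fun a a' h6 h7 h8 h9 h10 h11 => by
            have h12 : a ≠ κ := h10
            obtain ⟨k, hk⟩ := h9
            omega) H
        · intro hc'
          apply c2_elus_of hN h2 hq hcard (by omega) hκ0 hκd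
          intro ρ hρe hρ2 hρd hρy
          obtain ⟨k, hk⟩ := hρe
          have hρlt : ρ ≠ d := fun h => hy (hρy h)
          have hfin : ∀ t : ℕ, (t + ρ = d → (False ↔ HyQ (minusForm (d - 1) F a b))) :=
            fun t _ => iff_of_false not_false hy
          rcases Nat.even_or_odd κ with ⟨k', hk'⟩ | ⟨k', hk'⟩
          · have hev : Even d := by
              rcases hc' with h3 | h3
              · exact h3
              · omega
            obtain ⟨g, hg⟩ := hev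
            rcases Nat.lt_or_ge ρ κ with hlt | hge
            · exact ⟨k, κ - ρ, by omega, by omega, by omega, fun h => by omega, hfin _⟩
            · exact ⟨k' - 1, 2, by omega, by omega, by omega, fun h => by omega, hfin _⟩
          · rcases Nat.lt_or_ge ρ κ with hlt | hge
            · exact ⟨k, κ - ρ, by omega, by omega, by omega, fun h => by omega, hfin _⟩
            · exact ⟨k', 1, by omega, by omega, by omega, fun h => by omega, hfin _⟩
      rw [hmain]
      constructor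
      · intro h
        exact Or.inl ⟨rfl, rfl, h⟩
      · rintro (⟨-, -, h⟩ | ⟨-, h, -⟩ | ⟨h, -⟩ | ⟨h, -⟩)
        · exact h
        · exact absurd rfl h
        · exact absurd rfl h
        · exact absurd rfl h
    · rw [two_ell_minus_iff hN h2 hq hcard (by omega) hκ0 hκd hy]
      have hp2 : p ≠ 2 := by
        rintro rfl
        exact h2 (by exact_mod_cast CharP.cast_eq_zero F 2)
      constructor
      · intro h
        exact Or.inr (Or.inl ⟨rfl, hp2, h⟩)
      · rintro (⟨-, h, -⟩ | ⟨-, -, h⟩ | ⟨-, h, -⟩ | ⟨-, h, -⟩)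
        · exact absurd h hp2
        · exact h
        · omega
        · omega
  · have hrp : r ≠ p := hr.resolve_left hr2
    obtain ⟨hrF, hrq⟩ := r_facts hq hrP hrp
    have hr2' : 2 < r := by
      have := hrP.two_le
      omega
    have hcount := count_of hN hq hcard hκ0 hκd hrP hr2 hrq hcnt
    have hipos := ord_pos (q := q) hrP hrq
    rcases Nat.even_or_odd (orderOf (q : ZMod r)) with hie | hio
    · obtain ⟨e, he⟩ := hie
      have he2 : orderOf (q : ZMod r) = 2 * e := by omega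
      have he0 : 0 < e := by omega
      have hcv : c = 2 * e := by
        rw [hc, if_pos (by rw [he2]; exact even_two_mul e), he2]
      rw [elusP_even hN hq hcard (by omega) hrP hr2 hrF hrq he2 he0 hκ0 hκd,
        rhs5990_even hy he0 (fun h1 h3 h4 => e_le_even hq1 hrP hr2 he2 he0 hκ0 hκd hcount h1 h3 h4), he2, hcv]
      constructor
      · intro h
        exact Or.inr (Or.inr (Or.inr ⟨hrp, hr2', even_two_mul e, h⟩))
      · rintro (⟨h, -⟩ | ⟨h, -⟩ | ⟨-, -, h, -⟩ | ⟨-, -, -, h⟩)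
        · exact absurd h hr2
        · exact absurd h hr2
        · exact absurd (even_two_mul e) (Nat.not_even_iff_odd.mpr h)
        · exact h
    · have hcv : c = 2 * orderOf (q : ZMod r) := by
        rw [hc, if_neg (Nat.not_even_iff_odd.mpr hio)]
      rw [elusP_odd hN hq hcard (by omega) hrP hr2 hrF hrq hio hκ0 hκd,
        rhs5990_odd hy hipos hκ0 (fun h1 h3 h4 => e_le_odd hq1 hrP hr2 hio hκ0 hκd hcount h1 h3 h4), hcv]
      constructor
      · intro h
        exact Or.inr (Or.inr (Or.inl ⟨hrp, hr2', hio, h⟩))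
      · rintro (⟨h, -⟩ | ⟨h, -⟩ | ⟨-, -, -, h⟩ | ⟨-, -, h, -⟩)
        · exact absurd h hr2
        · exact absurd h hr2
        · exact h
        · exact absurd h (Nat.not_even_iff_odd.mpr hio)

end Cfsg.Agent.S5990
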