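import Cfsg.Statements.S5992
import Cfsg.Agent.Lib.ElusQ.OddThm

set_option autoImplicit false
open scoped MatrixGroups
open Cfsg

namespace Cfsg.Agent.S5992

/-- Elements of prime order r ≠ p of Ω_n(q), nq odd, with no fixed hyperbolic `m`-space. Here `T = Ω_n(F)`, `n = 2d+1 ≥ 7`, `q` odd, realised as the commutator subgroup of the isometry group of `Q = x₀² + Σ xᵢyᵢ` over the field `F` with `q` elements (trivial centre, so its elements of prime order `r` are used directly); a nondegenerate `m`-space (even `m`) is a subspace on which the polar form of `Q` is nondegenerate; it is hyperbolic if it contains an `m/2`-dimensional subspace on which `Q` vanishes, elliptic otherwise. Let `m` be even with `2 ≤ m ≤ n − 1` (no restriction `m < n/2`) and let `r ≠ p` be a prime dividing the number of hyperbolic `m`-spaces; for `r ≠ p` let `i` be the multiplicative order of `q` modulo `r`, `c = i` for `i` even and `c = 2i` for `i` odd, and write `k = n mod c`,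 `ℓ' = m mod c`. Then every element of `T` of order `r` fixes some hyperbolic `m`-space if and only if `r = 2`, or `r` is odd and one of: (i) `i` odd, `c ≤ m` and either `k > ℓ' > 0` or `ℓ' = 0`; (ii) `i` even, `i ≤ m`, `k > ℓ'`, and `m/i` even whenever `ℓ' = 0`. (`r = p` is not covered by this statement.) -/
theorem result {F : Type*} [Field F] [Fintype F] {p : ℕ} [Fact p.Prime] [CharP F p] {q : ℕ} (hq : Fintype.card F = q) (hqodd : Odd q)
    (d m : ℕ) (hd : 3 ≤ d) (hm : 2 ≤ m) (hme : Even m) (hmn : m ≤ 2 * d)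
    (r : ℕ) [Fact r.Prime] (hrp : r ≠ p)
    (hrΩ : r ∣ Nat.card {W : Submodule F (Unit ⊕ (Fin d ⊕ Fin d) → F) // Module.finrank F ↥W = m ∧ Cfsg.Geo.IsNondegenerateOn (QuadraticMap.polar (Cfsg.quadFormOdd d F)) W ∧ Cfsg.Geo.IsPlusTypeOn (Cfsg.quadFormOdd d F) W})
    (i c : ℕ) (hi : i = orderOf (q : ZMod r)) (hc : c = if Even i then i else 2 * i) :
    (∀ x : GL (Unit ⊕ (Fin d ⊕ Fin d)) F, x ∈ Cfsg.Geo.omegaGL (Cfsg.quadFormOdd d F) → orderOf x = r →
      ∃ W : Submodule F (Unit ⊕ (Fin d ⊕ Fin d) → F), (Module.finrank F ↥W = m ∧ Cfsg.Geo.IsNondegenerateOn (QuadraticMap.polar (Cfsg.quadFormOdd d F)) W ∧ Cfsg.Geo.IsPlusTypeOn (Cfsg.quadFormOdd d F) W) ∧ W.map (Matrix.toLin' (x : Matrix (Unit ⊕ (Fin d ⊕ Fin d)) (Unit ⊕ (Fin d ⊕ Fin d)) F)) ≤ W) ↔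
    (r = 2 ∨
     (2 < r ∧ Odd i ∧ c ≤ m ∧ (m % c = 0 ∨ (0 < m % c ∧ m % c < (2 * d + 1) % c))) ∨
     (2 < r ∧ Even i ∧ i ≤ m ∧ m % c < (2 * d + 1) % c ∧ (0 < m % c ∨ Even (m / i)))) := by
  open Cfsg.Agent.Lib.ElusQ.OddThm Cfsg.Agent.Lib.ElusQ.OddMain Cfsg.Agent.Lib.ElusQ.Oz Cfsg.Agent.Lib.ElusQ.Bridge Cfsg.Agent.Lib.ElusL.Basic Cfsg.Agent.Lib.Orth.Forms in
  have h2 : (2 : F) ≠ 0 := two_ne_zero_of_odd hq hqodd
  obtain ⟨l, rfl⟩ : ∃ l, m = 2 * l := by
    obtain ⟨l, hl⟩ := hme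
    exact ⟨l, by omega⟩
  have hl : 1 ≤ l := by omega
  have hld : l ≤ d := by omega
  have hr : r.Prime := Fact.out
  have hc' : c = cOf i := hc
  subst hi
  subst hc'
  set i := orderOf (q : ZMod r) with hi
  have hipos : 0 < i := orderOf_pos_iff.mpr (by
    have : Fact r.Prime := ⟨hr⟩
    have hq0 : (q : ZMod r) ≠ 0 := by
      intro h0
      exact not_dvd_q hq hr hrp ((ZMod.natCast_eq_zero_iff _ _).mp h0)
    exact isOfFinOrder_of_finite (Units.mk0 _ hq0) |> (fun h => by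
      have := (Units.isOfFinOrder_val).mpr h
      simpa using this))
  have hcpos : 0 < cOf i := cOf_pos hipos
  have hrΩ' : r ∣ Nat.card {W // PW (oddForm d F) (2 * l) True W} := by
    have : Nat.card {W // PW (oddForm d F) (2 * l) True W} = Nat.card {W : Submodule F (Unit ⊕ (Fin d ⊕ Fin d) → F) // Module.finrank F ↥W = 2 * l ∧ Cfsg.Geo.IsNondegenerateOn (QuadraticMap.polar (Cfsg.quadFormOdd d F)) W ∧ Cfsg.Geo.IsPlusTypeOn (Cfsg.quadFormOdd d F) W} :=
      Nat.card_congr (Equiv.subtypeEquivRight fun W => (pw_true_iff h2 d (2 * l) W).symm)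
    rw [this]
    exact hrΩ
  have hL : (∀ x : GL (Unit ⊕ (Fin d ⊕ Fin d)) F, x ∈ Cfsg.Geo.omegaGL (Cfsg.quadFormOdd d F) → orderOf x = r →
      ∃ W : Submodule F (Unit ⊕ (Fin d ⊕ Fin d) → F), (Module.finrank F ↥W = 2 * l ∧ Cfsg.Geo.IsNondegenerateOn (QuadraticMap.polar (Cfsg.quadFormOdd d F)) W ∧ Cfsg.Geo.IsPlusTypeOn (Cfsg.quadFormOdd d F) W) ∧ W.map (Matrix.toLin' (x : Matrix (Unit ⊕ (Fin d ⊕ Fin d)) (Unit ⊕ (Fin d ⊕ Fin d)) F)) ≤ W) ↔
      (∀ x : GL (Unit ⊕ (Fin d ⊕ Fin d)) F, x ∈ Cfsg.Geo.omegaGL (Cfsg.quadFormOdd d F) → orderOf x = r →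
      ∃ W, PW (oddForm d F) (2 * l) True W ∧ Inv (Matrix.toLin' (x : Matrix _ _ F)) W) := by
    refine forall_congr' fun x => forall_congr' fun _ => forall_congr' fun _ => exists_congr fun W => ?_
    exact and_congr (pw_true_iff h2 d (2 * l) W) (map_le_iff _ W)
  rw [hL]
  constructor
  · intro H
    by_cases hr2 : r = 2
    · exact Or.inl hr2
    have hr3 : 2 < r := lt_of_le_of_ne hr.two_le (Ne.symm hr2)
    obtain ⟨h1, h3, h4⟩ := std_forward hq h2 hl hld True hr hr2 hrp hrΩ' H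
    right
    rcases Nat.even_or_odd i with he | ho
    · right
      have hci : cOf i = i := by simp [cOf, he]
      refine ⟨hr3, he, by rwa [hci] at h1, h3, ?_⟩
      rcases Nat.eq_zero_or_pos (2 * l % cOf i) with h0 | h0
      · right
        have := (h4 h0).1 he
        simpa using this
      · exact Or.inl h0
    · left
      refine ⟨hr3, ho, h1, ?_⟩
      rcases Nat.eq_zero_or_pos (2 * l % cOf i) with h0 | h0
      · exact Or.inl h0
      · exact Or.inr ⟨h0, h3⟩
  · intro H x hx hxo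
    rcases H with hr2 | ⟨hr3, ho, h1, h3⟩ | ⟨hr3, he, h1, h3, h4⟩
    · subst hr2
      have : x ^ 2 = 1 := by
        rw [← hxo]
        exact pow_orderOf_eq_one x
      exact two_case h2 hl hld True x hx this
    · have hr2 : r ≠ 2 := by omega
      have hcE : Even (cOf i) := even_cOf i
      have hmod : 2 * l % cOf i < (2 * d + 1) % cOf i := by
        rcases h3 with h0 | ⟨_, h5⟩
        · rw [h0]
          exact odd_mod_pos ⟨d, rfl⟩ hcE hcpos
        · exact h5
      refine std_backward hq h2 hl hld True hr hr2 hrp hmod ?_ x hx (by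
        rw [← hxo]
        exact pow_orderOf_eq_one x)
      intro _
      exact ⟨fun he => absurd he (Nat.not_even_iff_odd.mpr ho), fun _ => trivial⟩
    · have hr2 : r ≠ 2 := by omega
      refine std_backward hq h2 hl hld True hr hr2 hrp h3 ?_ x hx (by
        rw [← hxo]
        exact pow_orderOf_eq_one x)
      intro h0
      refine ⟨fun _ => ?_, fun ho => absurd he (Nat.not_even_iff_odd.mpr ho)⟩
      rcases h4 with h5 | h5
      · exact absurd h0 (Nat.pos_iff_ne_zero.mp h5)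
      · simpa using h5

end Cfsg.Agent.S5992
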