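import Cfsg.Statements.S5993
import Cfsg.Agent.Lib.ElusQ.Uni

set_option autoImplicit false
open scoped MatrixGroups
open Cfsg

namespace Cfsg.Agent.S5993

/-- Elements of prime order of Ω_n(q), nq odd, with no fixed elliptic `m`-space. Here `T = Ω_n(F)`, `n = 2d+1 ≥ 7`, `q` odd, realised as the commutator subgroup of the isometry group of `Q = x₀² + Σ xᵢyᵢ` over the field `F` with `q` elements (trivial centre, so its elements of prime order `r` are used directly); a nondegenerate `m`-space (even `m`) is a subspace on which the polar form of `Q` is nondegenerate; it is hyperbolic if it contains an `m/2`-dimensional subspace on which `Q` vanishes, elliptic otherwise. Let `m` be even with `2 ≤ m ≤ n − 1` (no restriction `m < n/2`) and let `r` be a prime dividing the number of elliptic `m`-spaces; for `r ≠ p` let `i` be the multiplicative order of `q` modulo `r`, `c = i` for `i` even and `c = 2i` for `i` odd, and write `k = n mod c`, `ℓ' = m mod c`.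 Then every element of `T` of order `r` fixes some elliptic `m`-space if and only if `r = 2`, or `r ≠ p` is odd and one of: (i) `i` odd, `c ≤ m` and `k > ℓ' > 0`; (ii) `i` even, `i ≤ m`, `k > ℓ'`, and `m/i` odd whenever `ℓ' = 0`. (For `r = p` there is always an element of order `p` fixing no elliptic `m`-space.) -/
theorem result {F : Type*} [Field F] [Fintype F] {p : ℕ} [Fact p.Prime] [CharP F p] {q : ℕ} (hq : Fintype.card F = q) (hqodd : Odd q)
    (d m : ℕ) (hd : 3 ≤ d) (hm : 2 ≤ m) (hme : Even m) (hmn : m ≤ 2 * d)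
    (r : ℕ) [Fact r.Prime]
    (hrΩ : r ∣ Nat.card {W : Submodule F (Unit ⊕ (Fin d ⊕ Fin d) → F) // Module.finrank F ↥W = m ∧ Cfsg.Geo.IsNondegenerateOn (QuadraticMap.polar (Cfsg.quadFormOdd d F)) W ∧ ¬ Cfsg.Geo.IsPlusTypeOn (Cfsg.quadFormOdd d F) W})
    (i c : ℕ) (hi : i = orderOf (q : ZMod r)) (hc : c = if Even i then i else 2 * i) :
    (∀ x : GL (Unit ⊕ (Fin d ⊕ Fin d)) F, x ∈ Cfsg.Geo.omegaGL (Cfsg.quadFormOdd d F) → orderOf x = r →
      ∃ W : Submodule F (Unit ⊕ (Fin d ⊕ Fin d) → F), (Module.finrank F ↥W = m ∧ Cfsg.Geo.IsNondegenerateOn (QuadraticMap.polar (Cfsg.quadFormOdd d F)) W ∧ ¬ Cfsg.Geo.IsPlusTypeOn (Cfsg.quadFormOdd d F) W) ∧ W.map (Matrix.toLin' (x : Matrix (Unit ⊕ (Fin d ⊕ Fin d)) (Unit ⊕ (Fin d ⊕ Fin d)) F)) ≤ W) ↔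
    (r = 2 ∨
     (r ≠ p ∧ 2 < r ∧ Odd i ∧ c ≤ m ∧ 0 < m % c ∧ m % c < (2 * d + 1) % c) ∨
     (r ≠ p ∧ 2 < r ∧ Even i ∧ i ≤ m ∧ m % c < (2 * d + 1) % c ∧ (0 < m % c ∨ Odd (m / i)))) := by
  open Cfsg.Agent.Lib.ElusQ.OddThm Cfsg.Agent.Lib.ElusQ.OddMain Cfsg.Agent.Lib.ElusQ.Oz Cfsg.Agent.Lib.ElusQ.Bridge Cfsg.Agent.Lib.ElusL.Basic Cfsg.Agent.Lib.Orth.Forms Cfsg.Agent.Lib.ElusQ.Uni in
  have h2 : (2 : F) ≠ 0 := two_ne_zero_of_odd hq hqodd
  obtain ⟨l, rfl⟩ : ∃ l, m = 2 * l := by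
    obtain ⟨l, hl⟩ := hme
    exact ⟨l, by omega⟩
  have hl : 1 ≤ l := by omega
  have hld : l ≤ d := by omega
  have hr : r.Prime := Fact.out
  have hc' : c = cOf i := hc
  subst hi
  subst hc'
  set i := orderOf (q : ZMod r) with hi
  have hL : (∀ x : GL (Unit ⊕ (Fin d ⊕ Fin d)) F, x ∈ Cfsg.Geo.omegaGL (Cfsg.quadFormOdd d F) → orderOf x = r →
      ∃ W : Submodule F (Unit ⊕ (Fin d ⊕ Fin d) → F), (Module.finrank F ↥W = 2 * l ∧ Cfsg.Geo.IsNondegenerateOn (QuadraticMap.polar (Cfsg.quadFormOdd d F)) W ∧ ¬ Cfsg.Geo.IsPlusTypeOn (Cfsg.quadFormOdd d F) W) ∧ W.map (Matrix.toLin' (x : Matrix (Unit ⊕ (Fin d ⊕ Fin d)) (Unit ⊕ (Fin d ⊕ Fin d)) F)) ≤ W) ↔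
      (∀ x : GL (Unit ⊕ (Fin d ⊕ Fin d)) F, x ∈ Cfsg.Geo.omegaGL (Cfsg.quadFormOdd d F) → orderOf x = r →
      ∃ W, PW (oddForm d F) (2 * l) False W ∧ Inv (Matrix.toLin' (x : Matrix _ _ F)) W) := by
    refine forall_congr' fun x => forall_congr' fun _ => forall_congr' fun _ => exists_congr fun W => ?_
    exact and_congr (pw_false_iff h2 d (2 * l) W) (map_le_iff _ W)
  rw [hL]
  by_cases hrp : r = p
  · subst hrp
    have hr2 : r ≠ 2 := by
      rintro rfl
      exact h2 (CharTwo.two_eq_zero)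
    have hr3 : 3 ≤ r := by
      have := hr.two_le
      omega
    constructor
    · intro H
      exfalso
      have hO := oz_uni (F := F) (d := d) (p := r) h2 hr3 (by omega)
      obtain ⟨x, hx, hxo, hxT⟩ := exists_gl_of_oz (oddForm d F) (oddForm_nondeg d h2) h2 hr
        (hr.odd_of_ne_two hr2) hO (uni_ne_one h2 (by omega))
      obtain ⟨W, ⟨h3, h4, h5⟩, h6⟩ := H x hx hxo
      rw [hxT] at h6
      exact h5.mp (hy_uni (p := r) h2 hr3 (by omega) h4 h6 (by rw [h3]; exact ⟨l, by ring⟩))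
    · rintro (h | ⟨h, -⟩ | ⟨h, -⟩)
      · exact absurd h hr2
      · exact absurd rfl h
      · exact absurd rfl h
  have hipos : 0 < i := orderOf_pos_iff.mpr (by
    have : Fact r.Prime := ⟨hr⟩
    have hq0 : (q : ZMod r) ≠ 0 := by
      intro h0
      exact not_dvd_q hq hr hrp ((ZMod.natCast_eq_zero_iff _ _).mp h0)
    exact isOfFinOrder_of_finite (Units.mk0 _ hq0) |> (fun h => by
      have := (Units.isOfFinOrder_val).mpr h
      simpa using this))
  have hcpos : 0 < cOf i := cOf_pos hipos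
  have hrΩ' : r ∣ Nat.card {W // PW (oddForm d F) (2 * l) False W} := by
    have : Nat.card {W // PW (oddForm d F) (2 * l) False W} = Nat.card {W : Submodule F (Unit ⊕ (Fin d ⊕ Fin d) → F) // Module.finrank F ↥W = 2 * l ∧ Cfsg.Geo.IsNondegenerateOn (QuadraticMap.polar (Cfsg.quadFormOdd d F)) W ∧ ¬ Cfsg.Geo.IsPlusTypeOn (Cfsg.quadFormOdd d F) W} :=
      Nat.card_congr (Equiv.subtypeEquivRight fun W => (pw_false_iff h2 d (2 * l) W).symm)
    rw [this]
    exact hrΩ
  constructor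
  · intro H
    by_cases hr2 : r = 2
    · exact Or.inl hr2
    have hr3 : 2 < r := lt_of_le_of_ne hr.two_le (Ne.symm hr2)
    obtain ⟨h1, h3, h4⟩ := std_forward hq h2 hl hld False hr hr2 hrp hrΩ' H
    right
    rcases Nat.even_or_odd i with he | ho
    · right
      have hci : cOf i = i := by simp [cOf, he]
      refine ⟨hrp, hr3, he, by rwa [hci] at h1, h3, ?_⟩
      rcases Nat.eq_zero_or_pos (2 * l % cOf i) with h0 | h0
      · right
        have := (h4 h0).1 he
        simpa using this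
      · exact Or.inl h0
    · left
      refine ⟨hrp, hr3, ho, h1, ?_, h3⟩
      rcases Nat.eq_zero_or_pos (2 * l % cOf i) with h0 | h0
      · exact absurd ho ((h4 h0).2 · |>.elim)
      · exact h0
  · intro H x hx hxo
    rcases H with hr2 | ⟨_, hr3, ho, h1, h0, h3⟩ | ⟨_, hr3, he, h1, h3, h4⟩
    · subst hr2
      have : x ^ 2 = 1 := by
        rw [← hxo]
        exact pow_orderOf_eq_one x
      exact two_case h2 hl hld False x hx this
    · have hr2 : r ≠ 2 := by omega
      refine std_backward hq h2 hl hld False hr hr2 hrp h3 ?_ x hx (by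
        rw [← hxo]
        exact pow_orderOf_eq_one x)
      intro h5
      exact absurd h5 (Nat.pos_iff_ne_zero.mp h0)
    · have hr2 : r ≠ 2 := by omega
      refine std_backward hq h2 hl hld False hr hr2 hrp h3 ?_ x hx (by
        rw [← hxo]
        exact pow_orderOf_eq_one x)
      intro h0
      refine ⟨fun _ => ?_, fun ho => absurd he (Nat.not_even_iff_odd.mpr ho)⟩
      rcases h4 with h5 | h5
      · exact absurd h0 (Nat.pos_iff_ne_zero.mp h5)
      · simpa using h5

end Cfsg.Agent.S5993
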