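import Cfsg.Statements.S5994
import Cfsg.Agent.Lib.JordanFix.Main
-- import your own Cfsg.Agent.* helpers here

set_option autoImplicit false
open scoped MatrixGroups
open Cfsg

namespace Cfsg.Agent.S5994

/-- A necessary condition for every element of order p of PΩ⁻_n(q), q odd, to fix an elliptic `m`-space. Here `T = PΩ⁻_n(F)`, `n = 2d ≥ 8`, realised through `Ω⁻_n(q)`, the commutator subgroup of the isometry group of `Q = Σ_{i<d−1} xᵢyᵢ + z₁² + a z₁z₂ + b z₂²` with `z₁² + a z₁z₂ + b z₂²` anisotropic, over the field `F` with `q` elements; an element of `T` of prime order `r` is an element `x` of `Ω⁻_n(q)` with `x^r` scalar and `x` not scalar; `q` is odd; a nondegenerate `m`-space (even `m`) is a subspace on which the polar form of `Q` is nondegenerate; it is hyperbolic if it contains an `m/2`-dimensional subspace on which `Q` vanishes, elliptic otherwise. Let `m` be even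 with `2 ≤ m ≤ n − 2` and suppose `p` divides the number of elliptic `m`-spaces. If every element of `T` of order `p` fixes some elliptic `m`-space, then `n ≡ m (mod 4)` and every partition of `n` into parts of size at most `p` in which every even part has even multiplicity contains (as a sub-multiset) a partition of `m` in which every even part has even multiplicity. -/
theorem result {F : Type*} [Field F] [Fintype F] {p : ℕ} [Fact p.Prime] [CharP F p] {q : ℕ} (hq : Fintype.card F = q) (hqodd : Odd q)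
    (d m : ℕ) (hd : 4 ≤ d) (hm : 2 ≤ m) (hme : Even m) (hmn : m + 2 ≤ 2 * d) (a b : F) (hab : ∀ x y : F, x ^ 2 + a * x * y + b * y ^ 2 = 0 → x = 0 ∧ y = 0)
    (hpΩ : p ∣ Nat.card {W : Submodule F ((Fin (d - 1) ⊕ Fin (d - 1)) ⊕ Fin 2 → F) // Module.finrank F ↥W = m ∧ Cfsg.Geo.IsNondegenerateOn (QuadraticMap.polar (Cfsg.quadFormMinus (d - 1) F a b)) W ∧ ¬ Cfsg.Geo.IsPlusTypeOn (Cfsg.quadFormMinus (d - 1) F a b) W}) :
    (∀ x : GL ((Fin (d - 1) ⊕ Fin (d - 1)) ⊕ Fin 2) F, x ∈ Cfsg.Geo.omegaGL (Cfsg.quadFormMinus (d - 1) F a b) →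
      (∃ z : F, ((x ^ p : GL ((Fin (d - 1) ⊕ Fin (d - 1)) ⊕ Fin 2) F) : Matrix ((Fin (d - 1) ⊕ Fin (d - 1)) ⊕ Fin 2) ((Fin (d - 1) ⊕ Fin (d - 1)) ⊕ Fin 2) F) = z • (1 : Matrix ((Fin (d - 1) ⊕ Fin (d - 1)) ⊕ Fin 2) ((Fin (d - 1) ⊕ Fin (d - 1)) ⊕ Fin 2) F)) →
      (∀ z : F, (x : Matrix ((Fin (d - 1) ⊕ Fin (d - 1)) ⊕ Fin 2) ((Fin (d - 1) ⊕ Fin (d - 1)) ⊕ Fin 2) F) ≠ z • (1 : Matrix ((Fin (d - 1) ⊕ Fin (d - 1)) ⊕ Fin 2) ((Fin (d - 1) ⊕ Fin (d - 1)) ⊕ Fin 2) F)) →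
      ∃ W : Submodule F ((Fin (d - 1) ⊕ Fin (d - 1)) ⊕ Fin 2 → F), (Module.finrank F ↥W = m ∧ Cfsg.Geo.IsNondegenerateOn (QuadraticMap.polar (Cfsg.quadFormMinus (d - 1) F a b)) W ∧ ¬ Cfsg.Geo.IsPlusTypeOn (Cfsg.quadFormMinus (d - 1) F a b) W) ∧ W.map (Matrix.toLin' (x : Matrix ((Fin (d - 1) ⊕ Fin (d - 1)) ⊕ Fin 2) ((Fin (d - 1) ⊕ Fin (d - 1)) ⊕ Fin 2) F)) ≤ W) →
    ((2 * d) % 4 = m % 4 ∧ (∀ μ : Multiset ℕ, (∀ e ∈ μ, 0 < e ∧ e ≤ p) → (∀ e : ℕ, Even e → Even (μ.count e)) → μ.sum = 2 * d →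
        ∃ ν : Multiset ℕ, ν ≤ μ ∧ ν.sum = m ∧ ∀ e : ℕ, Even e → Even (ν.count e))) := by
  classical
  intro hx
  have h2 : (2 : F) ≠ 0 := Cfsg.Agent.Lib.JordanFix.two_ne_zero_of_odd_card hq hqodd
  obtain ⟨hpodd, hp3⟩ := Cfsg.Agent.Lib.JordanFix.odd_char_of_two (p := p) h2
  have hQ := Cfsg.Agent.Lib.Orth.Forms.minusForm_nondeg (F := F) (d - 1) hab
  haveI : Nonempty ((Fin (d - 1) ⊕ Fin (d - 1)) ⊕ Fin 2) := ⟨Sum.inr 0⟩
  have hfix : ∀ x : GL ((Fin (d - 1) ⊕ Fin (d - 1)) ⊕ Fin 2) F, x ∈ Cfsg.Geo.omegaGL ⇑(Cfsg.Agent.Lib.Orth.Forms.minusForm (d - 1) F a b) → x ^ p = 1 → x ≠ 1 →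
      ∃ W : Submodule F ((Fin (d - 1) ⊕ Fin (d - 1)) ⊕ Fin 2 → F), (Module.finrank F ↥W = m ∧ Cfsg.Geo.IsNondegenerateOn (QuadraticMap.polar ⇑(Cfsg.Agent.Lib.Orth.Forms.minusForm (d - 1) F a b)) W ∧ ¬ Cfsg.Geo.IsPlusTypeOn (Cfsg.quadFormMinus (d - 1) F a b) W) ∧
        W.map (Matrix.toLin' (x : Matrix ((Fin (d - 1) ⊕ Fin (d - 1)) ⊕ Fin 2) ((Fin (d - 1) ⊕ Fin (d - 1)) ⊕ Fin 2) F)) ≤ W := by
    intro x hxΩ hxp hne
    refine hx x hxΩ ⟨1, ?_⟩ (Cfsg.Agent.Lib.JordanFix.nonscalar_of_pow hxp hne)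
    rw [hxp, one_smul, Units.val_one]
  have hcard : Fintype.card ((Fin (d - 1) ⊕ Fin (d - 1)) ⊕ Fin 2) = 2 * d := by
    simp
    omega
  refine ⟨?_, fun μ hμ hev hsum => ?_⟩
  · have key : ∀ e c k : ℕ, Odd e → Odd c → e ≤ p → c ≤ p → Even k → 0 < k → e + (c + 2 * k) = 2 * d →
        ∃ W : Submodule F ((Fin (d - 1) ⊕ Fin (d - 1)) ⊕ Fin 2 → F), ¬ Cfsg.Geo.IsPlusTypeOn (Cfsg.quadFormMinus (d - 1) F a b) W ∧
          ∃ ν : Multiset ℕ, ((∃ j, Even j ∧ ν = Multiset.replicate j 2) ∨ ∃ j, Even j ∧ ν = e ::ₘ c ::ₘ Multiset.replicate j 2) ∧ ν.sum = m ∧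
            ∀ j, ν = Multiset.replicate j 2 → Cfsg.Geo.IsPlusTypeOn (Cfsg.quadFormMinus (d - 1) F a b) W := by
      intro e c k he hc hap hcp hk hk0 hs
      obtain ⟨h1, h3, h4⟩ := Cfsg.Agent.Lib.JordanFix.props_two he hc hap hcp (by omega) hk
      obtain ⟨W, hW, ν, hν, hνs, hνe, hνp⟩ := Cfsg.Agent.Lib.JordanFix.fix_key h2 (Cfsg.Agent.Lib.Orth.Forms.minusForm (d - 1) F a b) hQ _ hfix h1 h3
        (by rw [h4, hcard, hs]) (Multiset.mem_cons_self e _) he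
        (e₁ := 2) (Multiset.mem_cons_of_mem (Multiset.mem_cons_of_mem (Multiset.mem_replicate.mpr ⟨by omega, rfl⟩))) le_rfl
      exact ⟨W, hW, ν, Cfsg.Agent.Lib.JordanFix.split_two he hc hν (by rw [hνs]; exact hme) (hνe 2 (by decide)), hνs, hνp⟩
    rcases Nat.even_or_odd d with hd2 | hd2
    · obtain ⟨W, hW, ν, hν, hνs, hνp⟩ := key 3 1 (d - 2) (by decide) (by decide) hp3 (by omega) (by obtain ⟨r, hr⟩ := hd2; exact ⟨r - 1, by omega⟩) (by omega) (by omega)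
      obtain ⟨r, hr⟩ := hd2
      rcases hν with ⟨j, ⟨s, hs⟩, rfl⟩ | ⟨j, ⟨s, hs⟩, rfl⟩
      · rw [Multiset.sum_replicate] at hνs
        simp at hνs
        omega
      · rw [Multiset.sum_cons, Multiset.sum_cons, Multiset.sum_replicate] at hνs
        simp at hνs
        omega
    · obtain ⟨W, hW, ν, hν, hνs, hνp⟩ := key 1 1 (d - 1) (by decide) (by decide) (by omega) (by omega) (by obtain ⟨r, hr⟩ := hd2; exact ⟨r, by omega⟩) (by omega) (by omega)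
      obtain ⟨r, hr⟩ := hd2
      rcases hν with ⟨j, -, rfl⟩ | ⟨j, ⟨s, hs⟩, rfl⟩
      · exact absurd (hνp j rfl) hW
      · rw [Multiset.sum_cons, Multiset.sum_cons, Multiset.sum_replicate] at hνs
        simp at hνs
        omega
  · refine Cfsg.Agent.Lib.JordanFix.reduce_even hpodd hme (n := 2 * d) (by omega) (fun μ' hμ' hev' hsum' hodd' => ?_) μ hμ hev hsum
    exact Cfsg.Agent.Lib.JordanFix.fix_partition h2 (Cfsg.Agent.Lib.Orth.Forms.minusForm (d - 1) F a b) hQ (by rw [hcard]; omega) _ hfix μ' hμ' hev' (by rw [hsum', hcard]) hodd'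

end Cfsg.Agent.S5994
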