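import Cfsg.Statements.S5995
import Cfsg.Agent.Lib.JordanFix.Main
-- import your own Cfsg.Agent.* helpers here

set_option autoImplicit false
open scoped MatrixGroups
open Cfsg

namespace Cfsg.Agent.S5995

/-- A necessary condition for every element of order p of Ω_n(q), nq odd, to fix a hyperbolic `m`-space. Here `T = Ω_n(F)`, `n = 2d+1 ≥ 7`, `q` odd, realised as the commutator subgroup of the isometry group of `Q = x₀² + Σ xᵢyᵢ` over the field `F` with `q` elements (trivial centre, so its elements of prime order `r` are used directly); a nondegenerate `m`-space (even `m`) is a subspace on which the polar form of `Q` is nondegenerate; it is hyperbolic if it contains an `m/2`-dimensional subspace on which `Q` vanishes, elliptic otherwise. Let `m` be even with `2 ≤ m ≤ n − 1` and suppose `p` divides the number of hyperbolic `m`-spaces. If every element of `T` of order `p` fixes some hyperbolic `m`-space, then `m ≡ 0 (mod 4)` and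 every partition of `n` into parts of size at most `p` in which every even part has even multiplicity contains (as a sub-multiset) a partition of `m` in which every even part has even multiplicity. -/
theorem result {F : Type*} [Field F] [Fintype F] {p : ℕ} [Fact p.Prime] [CharP F p] {q : ℕ} (hq : Fintype.card F = q) (hqodd : Odd q)
    (d m : ℕ) (hd : 3 ≤ d) (hm : 2 ≤ m) (hme : Even m) (hmn : m ≤ 2 * d)
    (hpΩ : p ∣ Nat.card {W : Submodule F (Unit ⊕ (Fin d ⊕ Fin d) → F) // Module.finrank F ↥W = m ∧ Cfsg.Geo.IsNondegenerateOn (QuadraticMap.polar (Cfsg.quadFormOdd d F)) W ∧ Cfsg.Geo.IsPlusTypeOn (Cfsg.quadFormOdd d F) W}) :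
    (∀ x : GL (Unit ⊕ (Fin d ⊕ Fin d)) F, x ∈ Cfsg.Geo.omegaGL (Cfsg.quadFormOdd d F) → orderOf x = p →
      ∃ W : Submodule F (Unit ⊕ (Fin d ⊕ Fin d) → F), (Module.finrank F ↥W = m ∧ Cfsg.Geo.IsNondegenerateOn (QuadraticMap.polar (Cfsg.quadFormOdd d F)) W ∧ Cfsg.Geo.IsPlusTypeOn (Cfsg.quadFormOdd d F) W) ∧ W.map (Matrix.toLin' (x : Matrix (Unit ⊕ (Fin d ⊕ Fin d)) (Unit ⊕ (Fin d ⊕ Fin d)) F)) ≤ W) →
    (m % 4 = 0 ∧ (∀ μ : Multiset ℕ, (∀ e ∈ μ, 0 < e ∧ e ≤ p) → (∀ e : ℕ, Even e → Even (μ.count e)) → μ.sum = 2 * d + 1 →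
        ∃ ν : Multiset ℕ, ν ≤ μ ∧ ν.sum = m ∧ ∀ e : ℕ, Even e → Even (ν.count e))) := by
  classical
  intro hx
  have h2 : (2 : F) ≠ 0 := Cfsg.Agent.Lib.JordanFix.two_ne_zero_of_odd_card hq hqodd
  obtain ⟨hpodd, hp3⟩ := Cfsg.Agent.Lib.JordanFix.odd_char_of_two (p := p) h2
  have hQ := Cfsg.Agent.Lib.Orth.Forms.oddForm_nondeg d h2
  have hfix : ∀ x : GL (Unit ⊕ (Fin d ⊕ Fin d)) F, x ∈ Cfsg.Geo.omegaGL ⇑(Cfsg.Agent.Lib.Orth.Forms.oddForm d F) → x ^ p = 1 → x ≠ 1 →
      ∃ W : Submodule F (Unit ⊕ (Fin d ⊕ Fin d) → F), (Module.finrank F ↥W = m ∧ Cfsg.Geo.IsNondegenerateOn (QuadraticMap.polar ⇑(Cfsg.Agent.Lib.Orth.Forms.oddForm d F)) W ∧ Cfsg.Geo.IsPlusTypeOn (Cfsg.quadFormOdd d F) W) ∧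
        W.map (Matrix.toLin' (x : Matrix (Unit ⊕ (Fin d ⊕ Fin d)) (Unit ⊕ (Fin d ⊕ Fin d)) F)) ≤ W := by
    intro x hxΩ hxp hne
    exact hx x hxΩ (orderOf_eq_prime hxp hne)
  have hcard : Fintype.card (Unit ⊕ (Fin d ⊕ Fin d)) = 2 * d + 1 := by
    simp
    ring
  refine ⟨?_, fun μ hμ hev hsum => ?_⟩
  · have key : ∀ a k : ℕ, Odd a → a ≤ p → Even k → 0 < k → a + 2 * k = 2 * d + 1 → m % 4 = 0 := by
      intro a k ha hap hk hk0 hs
      obtain ⟨h1, h3, h4⟩ := Cfsg.Agent.Lib.JordanFix.props_one ha hap (by omega) hk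
      obtain ⟨W, -, ν, hν, hνs, hνe, -⟩ := Cfsg.Agent.Lib.JordanFix.fix_key h2 (Cfsg.Agent.Lib.Orth.Forms.oddForm d F) hQ _ hfix h1 h3
        (by rw [h4, hcard, hs]) (Multiset.mem_cons_self a _) ha
        (e₁ := 2) (Multiset.mem_cons_of_mem (Multiset.mem_replicate.mpr ⟨by omega, rfl⟩)) le_rfl
      obtain ⟨j, hj, rfl⟩ := Cfsg.Agent.Lib.JordanFix.split_one ha hν (by rw [hνs]; exact hme) (hνe 2 (by decide))
      rw [Multiset.sum_replicate] at hνs
      obtain ⟨r, hr⟩ := hj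
      simp at hνs
      omega
    rcases Nat.even_or_odd d with hd2 | hd2
    · exact key 1 d (by decide) (by omega) hd2 (by omega) (by omega)
    · exact key 3 (d - 1) (by decide) hp3 (by obtain ⟨r, hr⟩ := hd2; exact ⟨r, by omega⟩) (by omega) (by omega)
  · refine Cfsg.Agent.Lib.JordanFix.fix_partition h2 (Cfsg.Agent.Lib.Orth.Forms.oddForm d F) hQ (by rw [hcard]; omega) _ hfix μ hμ hev (by rw [hsum, hcard]) ?_
    by_contra hno
    push Not at hno
    have hall : ∀ e ∈ μ, Even e := fun e he => Nat.not_odd_iff_even.mp (hno e he)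
    have h5 := Cfsg.Agent.Lib.JordanFix.even_sum_of_all_even μ hall
    rw [hsum] at h5
    obtain ⟨r, hr⟩ := h5
    omega

end Cfsg.Agent.S5995
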