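import Cfsg.Statements.S5998
import Cfsg.Agent.Lib.Elusive.WeylHeis
import Cfsg.Agent.Lib.Classical.SLBasic
import Cfsg.Agent.S5967

set_option autoImplicit false
open scoped MatrixGroups
open Cfsg

namespace Cfsg.Agent.S5998

open Matrix Module Polynomial Cfsg.Agent.Lib.Elusive Cfsg.Agent.Lib.Elusive.WeylHeis

/-- A primitive cube root of unity. -/
theorem exists_omega {F : Type*} [Field F] [Fintype F] (h : 3 ∣ Fintype.card F - 1) :
    ∃ ω : F, ω * ω + ω + 1 = 0 ∧ ω ≠ 1 := by
  classical
  have hf : Fact (Nat.Prime 3) := ⟨Nat.prime_three⟩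
  have hcard : 3 ∣ Nat.card Fˣ := by
    rw [Nat.card_eq_fintype_card, Fintype.card_units]
    exact h
  obtain ⟨u, hu⟩ := exists_prime_orderOf_dvd_card' (G := Fˣ) 3 hcard
  have hu3 : (u : F) ^ 3 = 1 := by
    have := pow_orderOf_eq_one u
    rw [hu] at this
    have h3 := congrArg Units.val this
    simpa using h3
  have hu1 : (u : F) ≠ 1 := by
    intro h1
    have h3 : u = 1 := Units.ext h1
    rw [h3, orderOf_one] at hu
    omega
  refine ⟨u, ?_, hu1⟩
  have h1 : ((u : F) - 1) * ((u : F) * u + u + 1) = 0 := by linear_combination hu3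
  exact (mul_eq_zero.mp h1).resolve_left (sub_ne_zero.mpr hu1)

/-- Cube roots of unity are cubes when `q ≡ 1 (mod 9)`. -/
theorem exists_cube_root_of_nine {F : Type*} [Field F] [Fintype F] (h : 9 ∣ Fintype.card F - 1) (z : F)
    (hz : z ^ 3 = 1) : ∃ w : F, w ≠ 0 ∧ w ^ 3 = z := by
  classical
  have hz0 : z ≠ 0 := by
    rintro rfl
    simp at hz
  obtain ⟨γ, hγ⟩ := IsCyclic.exists_generator (α := Fˣ)
  have hγo : orderOf γ = Fintype.card F - 1 := by
    rw [orderOf_eq_card_of_forall_mem_zpowers hγ, Nat.card_eq_fintype_card, Fintype.card_units]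
  let u : Fˣ := Units.mk0 z hz0
  have hu3 : u ^ 3 = 1 := by
    apply Units.ext
    simpa [u] using hz
  obtain ⟨k, hk⟩ := (mem_powers_iff_mem_zpowers.mpr (hγ u) : u ∈ Submonoid.powers γ)
  have h1 : orderOf γ ∣ k * 3 := by
    apply orderOf_dvd_of_pow_eq_one
    rw [pow_mul]
    have hk' : γ ^ k = u := hk
    rw [hk']
    exact hu3
  rw [hγo] at h1
  obtain ⟨m, hm⟩ := h
  have h3k : 3 ∣ k := by
    rw [hm] at h1
    obtain ⟨t, ht⟩ := h1
    have : k = 3 * (m * t) := by
      have h5 : k * 3 = (3 * (m * t)) * 3 := by rw [ht]; ring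
      exact Nat.eq_of_mul_eq_mul_right (by norm_num) h5
    exact ⟨_, this⟩
  obtain ⟨k', rfl⟩ := h3k
  refine ⟨((γ ^ k' : Fˣ) : F), Units.ne_zero _, ?_⟩
  have h5 : (γ ^ k') ^ 3 = u := by
    have hk' : γ ^ (3 * k') = u := hk
    rw [← hk', ← pow_mul, mul_comm]
  have h6 := congrArg Units.val h5
  simpa [u] using h6

/-- Order of the determinant-one group. -/
theorem card_specialLinear_three {F : Type*} [Field F] [Fintype F] {p : ℕ} (hF : Fintype.card F = p) (hp : 2 ≤ p) :
    Nat.card (Cfsg.Geo.specialLinear (Fin 3) F) = p ^ 3 * ((p ^ 2 + p + 1) * ((p - 1) * (p - 1) * (p + 1))) := by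
  classical
  have h1 := Cfsg.Agent.Lib.Classical.SLBasic.card_gl_eq_mul_card_sl (F := F) (ι := Fin 3)
  have h2 : Nat.card (Cfsg.Geo.specialLinear (Fin 3) F) = Nat.card (Matrix.SpecialLinearGroup (Fin 3) F) := by
    rw [Cfsg.Agent.Lib.Geo.Basic.specialLinear_eq_range]
    refine Nat.card_congr (Equiv.ofInjective _ ?_).symm
    intro x y hxy
    apply Subtype.ext
    have := congrArg Units.val hxy
    exact this
  rw [h2]
  rw [Matrix.card_GL_field (𝔽 := F) 3, hF, Fin.prod_univ_three] at h1
  obtain ⟨m, rfl⟩ : ∃ m, p = m + 2 := ⟨p - 2, by omega⟩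
  have hm : m + 2 - 1 = m + 1 := by omega
  rw [hm] at h1 ⊢
  have e1 : (m + 2) ^ 3 - (m + 2) ^ ((0 : Fin 3) : ℕ) = (m + 1) * ((m + 2) ^ 2 + (m + 2) + 1) := by
    simp only [Fin.val_zero, pow_zero]
    have : (m + 2) ^ 3 = (m + 1) * ((m + 2) ^ 2 + (m + 2) + 1) + 1 := by ring
    omega
  have e2 : (m + 2) ^ 3 - (m + 2) ^ ((1 : Fin 3) : ℕ) = (m + 2) * ((m + 1) * (m + 2 + 1)) := by
    simp only [Fin.val_one, pow_one]
    have : (m + 2) ^ 3 = (m + 2) * ((m + 1) * (m + 2 + 1)) + (m + 2) := by ring
    omega
  have e3 : (m + 2) ^ 3 - (m + 2) ^ ((2 : Fin 3) : ℕ) = (m + 2) ^ 2 * (m + 1) := by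
    have hv : ((2 : Fin 3) : ℕ) = 2 := rfl
    rw [hv]
    have : (m + 2) ^ 3 = (m + 2) ^ 2 * (m + 1) + (m + 2) ^ 2 := by ring
    omega
  rw [e1, e2, e3] at h1
  have h3 : (m + 1) * ((m + 2) ^ 3 * (((m + 2) ^ 2 + (m + 2) + 1) * ((m + 1) * (m + 1) * (m + 2 + 1)))) =
      (m + 1) * Nat.card (Matrix.SpecialLinearGroup (Fin 3) F) := by
    rw [← h1]
    ring
  exact (Nat.eq_of_mul_eq_mul_left (by omega) h3).symm

/-- The arithmetic obstruction. -/
theorem not_eighty_one_dvd (p : ℕ) (h : p % 9 = 4 ∨ p % 9 = 7) (hp : 2 ≤ p) :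
    ¬ 81 ∣ p ^ 3 * ((p ^ 2 + p + 1) * ((p - 1) * (p - 1) * (p + 1))) := by
  intro hd
  have hcast : ((p ^ 3 * ((p ^ 2 + p + 1) * ((p - 1) * (p - 1) * (p + 1))) : ℕ) : ZMod 81) = 0 :=
    (ZMod.natCast_eq_zero_iff _ _).2 hd
  have hle : 1 ≤ p := by omega
  push_cast [Nat.cast_sub hle] at hcast
  have key : ∀ x : ZMod 81, (x.val % 9 = 4 ∨ x.val % 9 = 7) →
      x ^ 3 * ((x ^ 2 + x + 1) * ((x - 1) * (x - 1) * (x + 1))) ≠ 0 := by decide
  refine key (p : ZMod 81) ?_ hcast
  rw [ZMod.val_natCast]
  have h9 : p % 81 % 9 = p % 9 := Nat.mod_mod_of_dvd p (by norm_num)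
  rw [h9]
  exact h

/-- Elements of prime order of PSL_3(p), p ≡ 1 (mod 3), and the normalizer of an extraspecial subgroup of order 27. Here `T = PSL_3(F)` for the field `F` with `p` elements, `p` a prime with `p ≡ 1 (mod 3)`; `R` is a non-abelian subgroup of GL_3(F) of order 27 and exponent 3 (an extraspecial group 3^{1+2}, acting absolutely irreducibly), and `H` is the subgroup of matrices of determinant 1 normalizing `R` — a subgroup of type 3^{1+2}.Sp₂(3) (maximality is not assumed). Ω is the set of cosets of `H` in `T`, so an element of `T` of prime order `r` (a matrix `x` of determinant 1 with `x^r` scalar, `x` not scalar) fixes a point of Ω exactly when some conjugate of `x` by a matrix of determinant 1 normalizes `R`. Let `r` be a prime dividing the index of `H`. Then every element of `T` of order `r` fixes a point of Ω if and only if `r = 2`, or `r = 3` and `p ≡ 1 (mod 9)`. -/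
theorem result {F : Type*} [Field F] [Fintype F] {p : ℕ} [Fact p.Prime] [CharP F p] (hF : Fintype.card F = p) (hp3 : p % 3 = 1)
    (R : Subgroup (GL (Fin 3) F)) (hR : Nat.card R = 27) (hRe : Monoid.exponent R = 3) (hRna : ¬ IsMulCommutative R)
    (r : ℕ) [Fact r.Prime]
    (hΩ : r ∣ (Cfsg.Geo.subgroupNormalizer R).relIndex (Cfsg.Geo.specialLinear (Fin 3) F)) :
    (∀ x ∈ Cfsg.Geo.specialLinear (Fin 3) F, (∃ z : F, ((x ^ r : GL (Fin 3) F) : Matrix (Fin 3) (Fin 3) F) = z • (1 : Matrix (Fin 3) (Fin 3) F)) →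
      (∀ z : F, (x : Matrix (Fin 3) (Fin 3) F) ≠ z • (1 : Matrix (Fin 3) (Fin 3) F)) →
      ∃ g ∈ Cfsg.Geo.specialLinear (Fin 3) F, g⁻¹ * x * g ∈ Cfsg.Geo.subgroupNormalizer R) ↔ (r = 2 ∨ (r = 3 ∧ p % 9 = 1)) := by
  classical
  have hpp := (Fact.out : p.Prime)
  have hp2 : 2 ≤ p := hpp.two_le
  have hpne2 : p ≠ 2 := by
    rintro rfl
    omega
  have hpne3 : p ≠ 3 := by
    rintro rfl
    omega
  have h2F : (2 : F) ≠ 0 := by
    intro h
    have h1 : ((2 : ℕ) : F) = 0 := by exact_mod_cast h
    have h3 := (CharP.cast_eq_zero_iff F p 2).1 h1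
    exact hpne2 ((Nat.prime_dvd_prime_iff_eq hpp Nat.prime_two).1 h3)
  have h3dvd : 3 ∣ Fintype.card F - 1 := by
    rw [hF]
    omega
  obtain ⟨ω, hω, hω1⟩ := exists_omega h3dvd
  obtain ⟨l, P, a, b, c, hstd⟩ := exists_stdData ω hω hω1 R hR hRe hRna
  have hfinR : Finite ↥R := Nat.finite_of_card_ne_zero (by omega)
  have hRK : R ≤ Cfsg.Geo.specialLinear (Fin 3) F := det_eq_one_of_mem hstd
  have hl := hstd.hl
  have hl1 := hstd.hl1
  have hl3 : l ^ 3 = 1 := by linear_combination (l - 1) * hl
  have hdetF : ∀ x ∈ Cfsg.Geo.specialLinear (Fin 3) F, (x : Matrix (Fin 3) (Fin 3) F).det = 1 :=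
    fun x hx => (Cfsg.Agent.Lib.Geo.Basic.mem_specialLinear_iff x).1 hx
  constructor
  · intro hall
    by_cases hr2 : r = 2
    · exact Or.inl hr2
    by_cases hr3 : r = 3
    · subst hr3
      refine Or.inr ⟨rfl, ?_⟩
      by_contra hne
      have h9 : p % 9 = 4 ∨ p % 9 = 7 := by omega
      set K := Cfsg.Geo.specialLinear (Fin 3) F with hK
      set H := Cfsg.Geo.subgroupNormalizer R with hH
      have h27 : 27 ∣ Nat.card (H.subgroupOf K) := by
        have h1 : R.subgroupOf K ≤ H.subgroupOf K := Subgroup.comap_mono Subgroup.le_normalizer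
        have h2 := Subgroup.card_dvd_of_le h1
        rwa [Nat.card_congr (Subgroup.subgroupOfEquivOfLe hRK).toEquiv, hR] at h2
      have hmul := Subgroup.card_mul_index (H.subgroupOf K)
      have h81 : 81 ∣ Nat.card K := by
        rw [← hmul]
        obtain ⟨s, hs⟩ := h27
        obtain ⟨t, ht⟩ := hΩ
        refine ⟨s * t, ?_⟩
        change _ * (H.relIndex K) = _
        rw [hs, ht]
        ring
      rw [card_specialLinear_three hF hp2] at h81
      exact not_eighty_one_dvd p h9 hp2 h81
    · exfalso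
      have hr5 : 5 ≤ r := by
        have h1 := (Fact.out : r.Prime).two_le
        by_contra hlt
        have : r = 4 := by omega
        subst this
        exact absurd (Fact.out : Nat.Prime 4) (by norm_num)
      have hfinK : Finite ↥(Cfsg.Geo.specialLinear (Fin 3) F) := inferInstance
      exact no_conj_of_ge_five hstd hR _ le_rfl hr5 (hΩ.trans (Subgroup.relIndex_dvd_card _ _)) hall
  · rintro (hr2 | ⟨hr3, hp9⟩)
    · -- involutions
      subst hr2
      intro x hx hz hns
      obtain ⟨z, hz⟩ := hz
      have hxdet := hdetF x hx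
      have hsq : (x : Matrix (Fin 3) (Fin 3) F) * (x : Matrix (Fin 3) (Fin 3) F) = z • (1 : Matrix (Fin 3) (Fin 3) F) := by
        rw [← hz, pow_two, Units.val_mul]
      have hz3 : z ^ 3 = 1 := by
        have h1 := congrArg Matrix.det hsq
        rw [Matrix.det_mul, hxdet, Matrix.det_smul, Matrix.det_one, Fintype.card_fin] at h1
        simpa using h1.symm
      have hz0 : z ≠ 0 := by
        rintro rfl
        simp at hz3
      let t : F := z ^ 2
      have ht0 : t ≠ 0 := pow_ne_zero _ hz0
      have ht2 : t ^ 2 = z := by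
        simp only [t]
        linear_combination z * hz3
      have ht3 : t ^ 3 = 1 := by
        simp only [t]
        linear_combination (z ^ 3 + 1) * hz3
      let g : (Fin 3 → F) →ₗ[F] (Fin 3 → F) := Matrix.toLin' (x : Matrix (Fin 3) (Fin 3) F)
      have hgx : ∀ v, (x : Matrix (Fin 3) (Fin 3) F).mulVec v = g v := fun v => rfl
      have hg : ∀ v, g (g v) = t ^ 2 • v := by
        intro v
        rw [ht2]
        simp only [g, Matrix.toLin'_apply, Matrix.mulVec_mulVec, hsq, Matrix.smul_mulVec, Matrix.one_mulVec]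
      obtain ⟨a', c', e, he1, he2⟩ := Cfsg.Agent.S5967.exists_eigen_basis g t ht0 h2F hg
      have hac : a' + c' = 3 := by
        have := finrank_eq_card_basis e
        simpa using this.symm
      have hneg : (-1 : F) ≠ 1 := by
        intro h
        apply h2F
        linear_combination -h
      have hdetg : t ^ a' * (-t) ^ c' = 1 := by
        have h1 : LinearMap.det g = 1 := by
          simp only [g]
          rw [LinearMap.det_toLin']
          exact hxdet
        have h3 : LinearMap.toMatrix e e g = Matrix.diagonal (Sum.elim (fun _ => t) (fun _ => -t)) := by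
          ext p p'
          rw [LinearMap.toMatrix_apply]
          rcases p' with i | j
          · rw [he1]
            simp [Matrix.diagonal_apply, Finsupp.single_apply]
            rcases p with i' | j'
            · by_cases h : i = i'
              · simp [h]
              · have h' : i' ≠ i := fun hh => h hh.symm
                simp [h, h']
            · simp
          · rw [he2]
            simp [Matrix.diagonal_apply, Finsupp.single_apply]
            rcases p with i' | j'
            · simp
            · by_cases h : j = j'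
              · simp [h]
              · have h' : j' ≠ j := fun hh => h hh.symm
                simp [h, h']
        rw [← LinearMap.det_toMatrix e, h3, Matrix.det_diagonal] at h1
        simpa using h1
      have hc' : c' = 2 := by
        have hceven : Even c' := by
          by_contra hodd
          rw [Nat.not_even_iff_odd] at hodd
          rw [hodd.neg_pow] at hdetg
          have h1 : t ^ a' * t ^ c' = 1 := by
            rw [← pow_add, hac, ht3]
          apply hneg
          linear_combination hdetg + h1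
        have hc0 : c' ≠ 0 := by
          rintro rfl
          obtain rfl : a' = 3 := by omega
          apply hns t
          have h1 : g = t • LinearMap.id := by
            apply e.ext
            rintro (i | j)
            · rw [he1]
              rfl
            · exact j.elim0
          apply Matrix.toLin'.injective
          change g = _
          rw [h1, map_smul, Matrix.toLin'_one]
        obtain ⟨m, hm⟩ := hceven
        omega
      obtain rfl : c' = 2 := hc'
      obtain rfl : a' = 1 := by omega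
      let bas : Basis (Fin 3) F (Fin 3 → F) := e.reindex finSumFinEquiv
      have hbas : ∀ i : Fin 3, bas i = e (finSumFinEquiv.symm i) := fun i => by simp [bas]
      let d : Fin 3 → F := ![t, -t, -t]
      have hbasd : ∀ i, (x : Matrix (Fin 3) (Fin 3) F).mulVec (bas i) = d i • bas i := by
        intro i
        rw [hbas, hgx]
        have hs0 : (finSumFinEquiv.symm (0 : Fin 3) : Fin 1 ⊕ Fin 2) = Sum.inl 0 := by decide
        have hs1 : (finSumFinEquiv.symm (1 : Fin 3) : Fin 1 ⊕ Fin 2) = Sum.inr 0 := by decide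
        have hs2 : (finSumFinEquiv.symm (2 : Fin 3) : Fin 1 ⊕ Fin 2) = Sum.inr 1 := by decide
        fin_cases i
        · change g (e (finSumFinEquiv.symm (0 : Fin 3))) = t • e (finSumFinEquiv.symm (0 : Fin 3))
          rw [hs0, he1]
        · change g (e (finSumFinEquiv.symm (1 : Fin 3))) = (-t) • e (finSumFinEquiv.symm (1 : Fin 3))
          rw [hs1, he2]
        · change g (e (finSumFinEquiv.symm (2 : Fin 3))) = (-t) • e (finSumFinEquiv.symm (2 : Fin 3))
          rw [hs2, he2]
      obtain ⟨Q₁, hQ₁⟩ := exists_Q_of_basis _ bas d hbasd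
      -- the target element
      have hSd : (t • (sigMat : Matrix (Fin 3) (Fin 3) F)).det ≠ 0 := by
        rw [Matrix.det_smul, det_sigMat, Fintype.card_fin, mul_one]
        exact pow_ne_zero _ ht0
      let Sg : GL (Fin 3) F := Matrix.GeneralLinearGroup.mkOfDetNeZero _ hSd
      have hSgc : Sg.val = t • sigMat := rfl
      let W : GL (Fin 3) F := P * Sg * P⁻¹
      have hWP : W.val * P.val = P.val * (t • (sigMat : Matrix (Fin 3) (Fin 3) F)) := by
        have h1 : W * P = P * Sg := by
          simp [W]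
        have h3 := congrArg Units.val h1
        rwa [Units.val_mul, Units.val_mul] at h3
      have hFd : (frameMat : Matrix (Fin 3) (Fin 3) F).det ≠ 0 := by
        rw [det_frameMat]
        exact neg_ne_zero.mpr h2F
      let Fr : GL (Fin 3) F := Matrix.GeneralLinearGroup.mkOfDetNeZero _ hFd
      have hFrc : Fr.val = frameMat := rfl
      have hQ₂ : W.val * (P * Fr).val = (P * Fr).val * Matrix.diagonal d := by
        have hPFr : (P * Fr).val = P.val * Fr.val := Units.val_mul _ _
        rw [hPFr, ← Matrix.mul_assoc, hWP, hFrc, Matrix.mul_assoc, sigMat_mul_frameMat,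
          Matrix.mul_assoc]
      obtain ⟨g', hg', hconj⟩ := exists_conj_of_diag x W Q₁ (P * Fr) hx d hQ₁ hQ₂ 0
      refine ⟨g', hg', ?_⟩
      rw [hconj]
      exact sigma_mem_normalizer hstd W t hWP
    · -- elements of order three
      subst hr3
      intro x hx hz hns
      obtain ⟨z, hz⟩ := hz
      have hxdet := hdetF x hx
      have hz3 : z ^ 3 = 1 := by
        have h1 := congrArg Matrix.det hz
        rw [Units.val_pow_eq_pow_val, Matrix.det_pow, hxdet, Matrix.det_smul, Matrix.det_one,
          Fintype.card_fin] at h1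
        simpa using h1.symm
      obtain ⟨w, hw0, hw3⟩ := exists_cube_root_of_nine (F := F) (by rw [hF]; omega) z hz3
      let g : Module.End F (Fin 3 → F) := Matrix.toLinAlgEquiv' (x : Matrix (Fin 3) (Fin 3) F)
      have hg3 : g ^ 3 = (w ^ 3) • 1 := by
        simp only [g]
        rw [← map_pow, ← Units.val_pow_eq_pow_val, hz, map_smul, map_one, hw3]
      have hroots : aeval g (∏ α ∈ ({w, w * l, w * l ^ 2} : Finset F), (X - Polynomial.C α)) = 0 := by
        rw [EigenSplit.prod_cube_roots w l hl hl1 hw0]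
        rw [map_sub, map_pow, aeval_X, aeval_C, hg3, Module.algebraMap_end_eq_smul_id, sub_eq_zero]
        rfl
      obtain ⟨d, bas, hbas, hd⟩ := EigenSplit.exists_eigen_basis g _ hroots 3 (by simp)
      have hbasd : ∀ i, (x : Matrix (Fin 3) (Fin 3) F).mulVec (bas i) = d i • bas i := fun i => hbas i
      obtain ⟨Q₁, hQ₁⟩ := exists_Q_of_basis _ bas d hbasd
      have hdc : ∀ i, ∃ k : ℕ, d i = w * l ^ k := by
        intro i
        have h1 := hd i
        simp only [Finset.mem_insert, Finset.mem_singleton] at h1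
        rcases h1 with h1 | h1 | h1
        · exact ⟨0, by rw [h1]; simp⟩
        · exact ⟨1, by rw [h1]; simp⟩
        · exact ⟨2, h1⟩
      obtain ⟨c₀, hc₀⟩ := hdc 0
      obtain ⟨c₁, hc₁⟩ := hdc 1
      obtain ⟨c₂, hc₂⟩ := hdc 2
      have hdd : d = ![w * l ^ c₀, w * l ^ c₁, w * l ^ c₂] := by
        funext i
        fin_cases i
        · exact hc₀
        · exact hc₁
        · exact hc₂
      have hl0 : l ≠ 0 := by
        rintro rfl
        simp at hl
      have hDd : (Matrix.diagonal d).det ≠ 0 := by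
        rw [Matrix.det_diagonal, hdd]
        simp [Fin.prod_univ_three, hw0, hl0]
      let Dg : GL (Fin 3) F := Matrix.GeneralLinearGroup.mkOfDetNeZero _ hDd
      let W : GL (Fin 3) F := P * Dg * P⁻¹
      have hWP : W.val * P.val = P.val * Matrix.diagonal d := by
        have h1 : W * P = P * Dg := by
          simp [W]
        have h3 := congrArg Units.val h1
        rwa [Units.val_mul, Units.val_mul] at h3
      obtain ⟨g', hg', hconj⟩ := exists_conj_of_diag x W Q₁ P hx d hQ₁ hWP 0
      refine ⟨g', hg', ?_⟩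
      rw [hconj]
      rw [hdd] at hWP
      exact diag_mem_normalizer hstd W w hw0 c₀ c₁ c₂ hWP

end Cfsg.Agent.S5998
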