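import Cfsg.Statements.S5999
import Cfsg.Agent.Lib.Elusive.WeylHeis
import Cfsg.Agent.Lib.Elusive.HermEigen
import Cfsg.Agent.Lib.Classical.HermOrders
import Cfsg.Agent.Lib.Witt.HermParabolic
import Cfsg.Agent.S5998

set_option autoImplicit false
open scoped MatrixGroups
open Cfsg

namespace Cfsg.Agent.S5999

open Matrix Module Polynomial Cfsg.Agent.Lib.Elusive Cfsg.Agent.Lib.Elusive.WeylHeis
open Cfsg.Agent.Lib.HermCount.Field Cfsg.Agent.Lib.HermCount.Space
open Cfsg.Agent.Lib.HermCount.Lines (herm_space)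

universe u

section Herm

variable {F : Type u} [Field F] [Fintype F] {q : ℕ}

/-- An orthonormal frame gives a unitary matrix. -/
theorem unitary_of_orthonormal (hF : Fintype.card F = q ^ 2) {n : ℕ} (b : Fin n → Fin n → F)
    (horth : ∀ i j, Cfsg.hermForm n F q (b i) (b j) = if i = j then 1 else 0) :
    ∃ Q : GL (Fin n) F, Q ∈ Cfsg.GU n F q ∧ ∀ i k, Q.val i k = b k i := by
  classical
  have hq2 := two_le hF
  let Pm : Matrix (Fin n) (Fin n) F := Matrix.of fun i k => b k i
  have hrel : Pmᵀ * (frobHom hF).mapMatrix Pm = 1 := by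
    ext k l
    have h1 := horth k l
    simp only [Cfsg.hermForm] at h1
    simp only [Matrix.mul_apply, Matrix.transpose_apply, RingHom.mapMatrix_apply, Matrix.map_apply,
      frobHom_apply, Pm, Matrix.of_apply, Matrix.one_apply]
    exact h1
  have hdet : Pm.det ≠ 0 := by
    intro h0
    have h1 := congrArg Matrix.det hrel
    rw [Matrix.det_mul, Matrix.det_transpose, h0, zero_mul, Matrix.det_one] at h1
    exact zero_ne_one h1
  refine ⟨Matrix.GeneralLinearGroup.mkOfDetNeZero Pm hdet, ?_, fun i k => rfl⟩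
  intro u v
  change Cfsg.hermForm n F q (Pm *ᵥ u) (Pm *ᵥ v) = Cfsg.hermForm n F q u v
  have hform : ∀ x y : Fin n → F, Cfsg.hermForm n F q x y = x ⬝ᵥ (fun i => frobHom hF (y i)) := by
    intro x y
    rfl
  rw [hform, hform]
  have h1 : (fun i => frobHom hF ((Pm *ᵥ v) i)) = ((frobHom hF).mapMatrix Pm) *ᵥ (fun i => frobHom hF (v i)) := by
    funext i
    simp only [Matrix.mulVec, dotProduct, map_sum, map_mul, RingHom.mapMatrix_apply, Matrix.map_apply]
  rw [h1, Matrix.dotProduct_mulVec, ← Matrix.vecMul_transpose, Matrix.vecMul_vecMul, hrel, Matrix.vecMul_one]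

/-- Scalars in the unitary group have norm one. -/
theorem norm_of_scalar_mem (hF : Fintype.card F = q ^ 2) {n : ℕ} (hn : 0 < n) (y : GL (Fin n) F)
    (hy : y ∈ Cfsg.GU n F q) (z : F) (hz : y.val = z • 1) : z ^ (q + 1) = 1 := by
  classical
  have hq2 := two_le hF
  let e : Fin n → F := Pi.single ⟨0, hn⟩ 1
  have he : Cfsg.hermForm n F q e e = 1 := by
    simp only [Cfsg.hermForm, e]
    rw [Finset.sum_eq_single (⟨0, hn⟩ : Fin n)]
    · simp
    · intro j _ hj
      simp [Pi.single_apply, hj]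
    · simp
  have h1 := hy e e
  change Cfsg.hermForm n F q (y.val *ᵥ e) (y.val *ᵥ e) = _ at h1
  rw [hz, Matrix.smul_mulVec, Matrix.one_mulVec, he] at h1
  have S := herm_space (F := F) n hF
  rw [S.smul_left, S.smul_right hF, he, mul_one] at h1
  rw [pow_succ, mul_comm]
  exact h1

/-- A determinant-fixing correction within the unitary group. -/
theorem exists_conj_GU (hF : Fintype.card F = q ^ 2) {n : ℕ} (x W Q₁ Q₂ : GL (Fin n) F)
    (hx : x ∈ Cfsg.GU n F q ⊓ Cfsg.Geo.specialLinear (Fin n) F) (hQ₁ : Q₁ ∈ Cfsg.GU n F q)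
    (hQ₂ : Q₂ ∈ Cfsg.GU n F q) (d : Fin n → F)
    (h₁ : (x : Matrix (Fin n) (Fin n) F) * Q₁.val = Q₁.val * Matrix.diagonal d)
    (h₂ : (W : Matrix (Fin n) (Fin n) F) * Q₂.val = Q₂.val * Matrix.diagonal d) (i₀ : Fin n) :
    ∃ g ∈ Cfsg.GU n F q ⊓ Cfsg.Geo.specialLinear (Fin n) F, g⁻¹ * x * g = W := by
  classical
  have hq2 := two_le hF
  have hd1 : Q₁.val.det ≠ 0 := ((Matrix.isUnit_iff_isUnit_det _).1 Q₁.isUnit).ne_zero
  have hd2 : Q₂.val.det ≠ 0 := ((Matrix.isUnit_iff_isUnit_det _).1 Q₂.isUnit).ne_zero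
  have hn1 : Q₁.val.det ^ (q + 1) = 1 := by
    have := Cfsg.Agent.Lib.Witt.HermParabolic.det_mul_frob hF Q₁.val hQ₁
    rw [pow_succ, mul_comm]
    exact this
  have hn2 : Q₂.val.det ^ (q + 1) = 1 := by
    have := Cfsg.Agent.Lib.Witt.HermParabolic.det_mul_frob hF Q₂.val hQ₂
    rw [pow_succ, mul_comm]
    exact this
  let δ : F := Q₂.val.det / Q₁.val.det
  have hδ : δ ≠ 0 := div_ne_zero hd2 hd1
  have hδn : δ ^ (q + 1) = 1 := by
    simp only [δ]
    rw [div_pow, hn1, hn2, div_one]
  let u : Fin n → F := fun i => if i = i₀ then δ else 1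
  have hun : ∀ i, u i ^ (q + 1) = 1 := by
    intro i
    simp only [u]
    split_ifs
    · exact hδn
    · exact one_pow _
  have hudet : (Matrix.diagonal u).det = δ := by
    rw [Matrix.det_diagonal]
    simp only [u]
    rw [Finset.prod_ite_eq' Finset.univ i₀ (fun _ => δ)]
    simp
  let U : GL (Fin n) F := Matrix.GeneralLinearGroup.mkOfDetNeZero (Matrix.diagonal u) (by rw [hudet]; exact hδ)
  have hUc : U.val = Matrix.diagonal u := rfl
  have hUG : U ∈ Cfsg.GU n F q := by
    intro a b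
    change Cfsg.hermForm n F q (U.val *ᵥ a) (U.val *ᵥ b) = _
    rw [hUc]
    simp only [Cfsg.hermForm, Matrix.mulVec_diagonal]
    refine Finset.sum_congr rfl fun i _ => ?_
    rw [mul_pow]
    have h1 := hun i
    rw [pow_succ] at h1
    linear_combination (a i * b i ^ q) * h1
  have hcomm : U.val * Matrix.diagonal d = Matrix.diagonal d * U.val := by
    rw [hUc, Matrix.diagonal_mul_diagonal, Matrix.diagonal_mul_diagonal]
    congr 1
    funext i
    ring
  refine ⟨Q₁ * U * Q₂⁻¹, Subgroup.mem_inf.mpr ⟨?_, ?_⟩, ?_⟩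
  · exact (Cfsg.GU n F q).mul_mem ((Cfsg.GU n F q).mul_mem hQ₁ hUG) ((Cfsg.GU n F q).inv_mem hQ₂)
  · rw [Cfsg.Agent.Lib.Geo.Basic.mem_specialLinear_iff]
    rw [Units.val_mul, Units.val_mul, Matrix.det_mul, Matrix.det_mul, hUc, hudet]
    have h1 : Q₂.val.det * ((Q₂⁻¹ : GL (Fin n) F) : Matrix (Fin n) (Fin n) F).det = 1 := by
      rw [← Matrix.det_mul, ← Units.val_mul, mul_inv_cancel, Units.val_one, Matrix.det_one]
    simp only [δ]
    field_simp
    linear_combination h1
  · suffices hs : x * (Q₁ * U * Q₂⁻¹) = (Q₁ * U * Q₂⁻¹) * W by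
      rw [mul_assoc, hs, ← mul_assoc, inv_mul_cancel, one_mul]
    apply Units.ext
    have h₂' : ((Q₂⁻¹ : GL (Fin n) F) : Matrix (Fin n) (Fin n) F) * (W : Matrix (Fin n) (Fin n) F) =
        Matrix.diagonal d * ((Q₂⁻¹ : GL (Fin n) F) : Matrix (Fin n) (Fin n) F) := by
      have h3 : ((Q₂⁻¹ : GL (Fin n) F) : Matrix (Fin n) (Fin n) F) * Q₂.val = 1 := by
        rw [← Units.val_mul, inv_mul_cancel, Units.val_one]
      have h4 : Q₂.val * ((Q₂⁻¹ : GL (Fin n) F) : Matrix (Fin n) (Fin n) F) = 1 := by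
        rw [← Units.val_mul, mul_inv_cancel, Units.val_one]
      calc ((Q₂⁻¹ : GL (Fin n) F) : Matrix (Fin n) (Fin n) F) * (W : Matrix (Fin n) (Fin n) F)
          = ((Q₂⁻¹ : GL (Fin n) F) : Matrix (Fin n) (Fin n) F) * (W : Matrix (Fin n) (Fin n) F) *
            (Q₂.val * ((Q₂⁻¹ : GL (Fin n) F) : Matrix (Fin n) (Fin n) F)) := by rw [h4, Matrix.mul_one]
        _ = ((Q₂⁻¹ : GL (Fin n) F) : Matrix (Fin n) (Fin n) F) * ((W : Matrix (Fin n) (Fin n) F) * Q₂.val) *
            ((Q₂⁻¹ : GL (Fin n) F) : Matrix (Fin n) (Fin n) F) := by simp only [Matrix.mul_assoc]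
        _ = _ := by
            rw [h₂, ← Matrix.mul_assoc, h3, Matrix.one_mul]
    simp only [Units.val_mul]
    calc (x : Matrix (Fin n) (Fin n) F) * (Q₁.val * U.val * ((Q₂⁻¹ : GL (Fin n) F) : Matrix (Fin n) (Fin n) F))
        = ((x : Matrix (Fin n) (Fin n) F) * Q₁.val) * U.val * ((Q₂⁻¹ : GL (Fin n) F) : Matrix (Fin n) (Fin n) F) := by
          simp only [Matrix.mul_assoc]
      _ = Q₁.val * (Matrix.diagonal d * U.val) * ((Q₂⁻¹ : GL (Fin n) F) : Matrix (Fin n) (Fin n) F) := by
          rw [h₁]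
          simp only [Matrix.mul_assoc]
      _ = Q₁.val * U.val * (Matrix.diagonal d * ((Q₂⁻¹ : GL (Fin n) F) : Matrix (Fin n) (Fin n) F)) := by
          rw [← hcomm]
          simp only [Matrix.mul_assoc]
      _ = _ := by
          rw [← h₂']
          simp only [Matrix.mul_assoc]

/-- A unitary standard form. -/
theorem exists_unitary_std (hF : Fintype.card F = q ^ 2) {R : Subgroup (GL (Fin 3) F)} {l : F}
    {P a b c : GL (Fin 3) F} (hstd : StdData R l P a b c) (hRU : R ≤ Cfsg.GU 3 F q)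
    (hlq : l ^ (q + 1) = 1) : ∃ P' : GL (Fin 3) F, P' ∈ Cfsg.GU 3 F q ∧ StdData R l P' a b c := by
  classical
  have hq2 := two_le hF
  have hzero : (0 : F) ^ q = 0 := zero_pow (by omega)
  have hl := hstd.hl
  have hl1 := hstd.hl1
  have hl3 : l ^ 3 = 1 := by linear_combination (l - 1) * hl
  have hl0 : l ≠ 0 := by
    rintro rfl
    simp at hl
  have hl2ne : l ^ 2 ≠ 1 := by
    intro h
    apply hl1
    have h5 : l ^ 3 = l ^ 2 * l := by ring
    rw [h, one_mul, hl3] at h5
    exact h5.symm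
  have hlq' : l ^ q = l ^ 2 := by
    have h1 : l * l ^ q = 1 := by
      rw [← pow_succ']
      exact hlq
    have h2 : l * l ^ 2 = 1 := by linear_combination hl3
    exact mul_left_cancel₀ hl0 (h1.trans h2.symm)
  let frobM : Matrix (Fin 3) (Fin 3) F →+* Matrix (Fin 3) (Fin 3) F := (frobHom hF).mapMatrix
  let Pm : Matrix (Fin 3) (Fin 3) F := P.val
  let G : Matrix (Fin 3) (Fin 3) F := Pmᵀ * frobM Pm
  have hG_apply : ∀ k m, G k m = Cfsg.hermForm 3 F q (fun i => Pm i k) (fun i => Pm i m) := by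
    intro k m
    simp only [G, frobM, Matrix.mul_apply, Matrix.transpose_apply, RingHom.mapMatrix_apply, Matrix.map_apply,
      frobHom_apply, Cfsg.hermForm]
  have hgu : ∀ u ∈ R, u.valᵀ * frobM u.val = 1 := by
    intro u hu
    ext i j
    have h2 := hRU hu (Pi.single i 1) (Pi.single j 1)
    change Cfsg.hermForm 3 F q (u.val *ᵥ Pi.single i 1) (u.val *ᵥ Pi.single j 1) = _ at h2
    simp only [Matrix.mulVec_single_one] at h2
    have h3 : Cfsg.hermForm 3 F q (Pi.single i 1) (Pi.single j 1) = (1 : Matrix (Fin 3) (Fin 3) F) i j := by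
      unfold Cfsg.hermForm
      rw [Finset.sum_eq_single i]
      · by_cases hij : i = j
        · subst hij
          simp
        · simp [Matrix.one_apply, hij, Pi.single_apply, hzero, Ne.symm hij]
      · intro b _ hb
        simp [hb]
      · simp
    rw [← h3, ← h2]
    simp [frobM, Matrix.mul_apply, Cfsg.hermForm, Matrix.col_apply]
  have hGT : ∀ u ∈ R, ∀ T : Matrix (Fin 3) (Fin 3) F, u.val * Pm = Pm * T → G = Tᵀ * G * frobM T := by
    intro u hu T huT
    calc G = Pmᵀ * (u.valᵀ * frobM u.val) * frobM Pm := by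
          rw [hgu u hu, Matrix.mul_one]
      _ = (u.val * Pm)ᵀ * frobM (u.val * Pm) := by
          rw [Matrix.transpose_mul, map_mul]
          simp only [Matrix.mul_assoc]
      _ = (Pm * T)ᵀ * frobM (Pm * T) := by rw [huT]
      _ = Tᵀ * G * frobM T := by
          rw [Matrix.transpose_mul, map_mul]
          simp only [G, Matrix.mul_assoc]
  have hGD := hGT a hstd.ha _ hstd.haP
  have hGS := hGT b hstd.hb _ hstd.hbP
  have hfD : frobM (dMat l) = Matrix.diagonal ![1, l ^ 2, l] := by
    ext i j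
    fin_cases i <;> fin_cases j <;>
      simp [frobM, dMat, Matrix.diagonal_apply, hzero, hlq']
    rw [← pow_mul, mul_comm, pow_mul, hlq', ← pow_mul]
    have : l ^ (2 * 2) = l ^ 3 * l := by ring
    rw [this, hl3, one_mul]
  have hfS : frobM sMat = sMat := by
    ext i j
    fin_cases i <;> fin_cases j <;> simp [frobM, sMat, hzero]
  rw [hfS] at hGS
  rw [hfD] at hGD
  have hDt : (dMat l)ᵀ = Matrix.diagonal ![1, l, l ^ 2] := by
    simp [dMat]
  rw [hDt] at hGD
  have hent : ∀ k m, G k m = (![1, l, l ^ 2] : Fin 3 → F) k * G k m * (![1, l ^ 2, l] : Fin 3 → F) m := by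
    intro k m
    have h1 := congrFun (congrFun hGD k) m
    rwa [Matrix.mul_diagonal, Matrix.diagonal_mul] at h1
  have hzero_of : ∀ k m, (![1, l, l ^ 2] : Fin 3 → F) k * (![1, l ^ 2, l] : Fin 3 → F) m ≠ 1 → G k m = 0 := by
    intro k m hne
    have h1 := hent k m
    have h2 : G k m * ((![1, l, l ^ 2] : Fin 3 → F) k * (![1, l ^ 2, l] : Fin 3 → F) m - 1) = 0 := by
      linear_combination -h1
    exact (mul_eq_zero.mp h2).resolve_right (sub_ne_zero.mpr hne)
  have h01 : G 0 1 = 0 := hzero_of 0 1 (by simpa using hl2ne)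
  have h02 : G 0 2 = 0 := hzero_of 0 2 (by simpa using hl1)
  have h10 : G 1 0 = 0 := hzero_of 1 0 (by simpa using hl1)
  have h12 : G 1 2 = 0 := hzero_of 1 2 (by
    change l * l ≠ 1
    rw [← pow_two]
    exact hl2ne)
  have h20 : G 2 0 = 0 := hzero_of 2 0 (by simpa using hl2ne)
  have h21 : G 2 1 = 0 := hzero_of 2 1 (by
    change l ^ 2 * l ^ 2 ≠ 1
    have : l ^ 2 * l ^ 2 = l ^ 3 * l := by ring
    rw [this, hl3, one_mul]
    exact hl1)
  have e1 := congrFun (congrFun hGS 1) 1
  have e2 := congrFun (congrFun hGS 2) 2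
  simp only [sMat, Matrix.mul_apply, Fin.sum_univ_three, Matrix.transpose_apply] at e1 e2
  simp at e1 e2
  set ν := G 0 0 with hν
  have hGν : G = ν • 1 := by
    ext i j
    fin_cases i <;> fin_cases j <;> simp [h01, h02, h10, h12, h20, h21]
    · rfl
    · rw [e1, e2]
    · exact e2
  have hPd : Pm.det ≠ 0 := ((Matrix.isUnit_iff_isUnit_det _).1 P.isUnit).ne_zero
  have hν0 : ν ≠ 0 := by
    intro h
    have h1 : G = 0 := by rw [hGν, h, zero_smul]
    have h2 : G.det = Pm.det * (frobM Pm).det := by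
      simp only [G]
      rw [Matrix.det_mul, Matrix.det_transpose]
    rw [h1, Matrix.det_zero] at h2
    have h3 : (frobM Pm).det = Pm.det ^ q := by
      simp only [frobM]
      rw [← RingHom.map_det]
      rfl
    rw [h3] at h2
    exact (mul_ne_zero hPd (pow_ne_zero _ hPd)) h2.symm
  have S := herm_space (F := F) 3 hF
  have hνq : ν ^ q = ν := by
    rw [hν, hG_apply]
    exact S.self_fix _
  obtain ⟨c', hc'⟩ := Cfsg.Agent.Lib.Elusive.HermEigen.exists_norm_eq hF ν⁻¹ (by rw [inv_pow, hνq]) (inv_ne_zero hν0)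
  have hc'0 : c' ≠ 0 := by
    rintro rfl
    rw [zero_pow (by omega)] at hc'
    exact inv_ne_zero hν0 hc'.symm
  obtain ⟨Q, hQU, hQ⟩ := unitary_of_orthonormal hF (n := 3) (fun k i => c' * Pm i k) (by
    intro i j
    have h1 : (fun x => c' * Pm x i) = c' • (fun x => Pm x i) := by
      funext x
      rfl
    have h2 : (fun x => c' * Pm x j) = c' • (fun x => Pm x j) := by
      funext x
      rfl
    rw [h1, h2, S.smul_left, S.smul_right hF, ← hG_apply, hGν]
    have h3 : c' * (c' ^ q * (ν • (1 : Matrix (Fin 3) (Fin 3) F)) i j) =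
        c' ^ (q + 1) * (ν * (1 : Matrix (Fin 3) (Fin 3) F) i j) := by
      simp only [Matrix.smul_apply, smul_eq_mul]
      ring
    rw [h3, hc', ← mul_assoc, inv_mul_cancel₀ hν0, one_mul, Matrix.one_apply])
  have hQc : Q.val = c' • P.val := by
    ext i k
    rw [hQ]
    rfl
  refine ⟨Q, hQU, ⟨hstd.hl, hstd.hl1, hstd.ha, hstd.hb, hstd.hc, ?_, ?_, hstd.hcl, hstd.hclos⟩⟩
  · rw [hQc, Matrix.mul_smul, Matrix.smul_mul, hstd.haP]
  · rw [hQc, Matrix.mul_smul, Matrix.smul_mul, hstd.hbP]

/-- Cube roots of unity of norm one. -/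
theorem exists_cube_root_norm (hF : Fintype.card F = q ^ 2) (h9 : 9 ∣ q + 1) (z : F) (hz : z ^ 3 = 1) :
    ∃ w : F, w ≠ 0 ∧ w ^ 3 = z ∧ w ^ (q + 1) = 1 := by
  classical
  have hq2 := two_le hF
  have hz0 : z ≠ 0 := by
    rintro rfl
    simp at hz
  obtain ⟨γ, hγ⟩ := IsCyclic.exists_generator (α := Fˣ)
  have hγo : orderOf γ = q ^ 2 - 1 := by
    rw [orderOf_eq_card_of_forall_mem_zpowers hγ, Nat.card_eq_fintype_card, Fintype.card_units, hF]
  obtain ⟨m, hm⟩ := h9
  have hqq : q ^ 2 - 1 = (q - 1) * (9 * m) := by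
    rw [← hm]
    obtain ⟨q', rfl⟩ : ∃ q', q = q' + 1 := ⟨q - 1, by omega⟩
    simp only [Nat.add_sub_cancel]
    have : (q' + 1) ^ 2 = q' * (q' + 1 + 1) + 1 := by ring
    omega
  let u : Fˣ := Units.mk0 z hz0
  have hu3 : u ^ 3 = 1 := by
    apply Units.ext
    simpa [u] using hz
  obtain ⟨k, hk⟩ := (mem_powers_iff_mem_zpowers.mpr (hγ u) : u ∈ Submonoid.powers γ)
  have hk' : γ ^ k = u := hk
  have h1 : orderOf γ ∣ k * 3 := by
    apply orderOf_dvd_of_pow_eq_one
    rw [pow_mul, hk']
    exact hu3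
  rw [hγo, hqq] at h1
  obtain ⟨j, hj⟩ := h1
  have hk3 : k = 3 * ((q - 1) * m * j) := by
    have h5 : k * 3 = (3 * ((q - 1) * m * j)) * 3 := by rw [hj]; ring
    exact Nat.eq_of_mul_eq_mul_right (by norm_num) h5
  let w₀ : Fˣ := γ ^ ((q - 1) * m * j)
  refine ⟨(w₀ : F), Units.ne_zero _, ?_, ?_⟩
  · have h5 : w₀ ^ 3 = u := by
      rw [← hk', hk3, ← pow_mul, mul_comm]
    have h6 := congrArg Units.val h5
    simpa [u] using h6
  · have h5 : w₀ ^ (q + 1) = 1 := by
      simp only [w₀]
      rw [← pow_mul]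
      have h7 : (q - 1) * m * j * (q + 1) = (q ^ 2 - 1) * (m * j) := by
        rw [hqq, hm]
        ring
      rw [h7, pow_mul, ← hγo, pow_orderOf_eq_one, one_pow]
    have h6 := congrArg Units.val h5
    simpa using h6

/-- Columns to matrix identity. -/
theorem mul_eq_of_columns {n : ℕ} (x Q : Matrix (Fin n) (Fin n) F) (b : Fin n → Fin n → F) (d : Fin n → F)
    (hQ : ∀ i k, Q i k = b k i) (hb : ∀ k, x *ᵥ b k = d k • b k) : x * Q = Q * Matrix.diagonal d := by
  ext i k
  have h1 := congrFun (hb k) i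
  rw [Matrix.mul_diagonal, hQ]
  simp only [Matrix.mulVec, dotProduct, Pi.smul_apply, smul_eq_mul] at h1
  rw [Matrix.mul_apply]
  simp only [hQ]
  rw [h1]
  ring

/-- The sign pattern. -/
theorem exists_perm_pattern (t : F) (ht3 : t ^ 3 = 1) (hneg : (-1 : F) ≠ 1) (d : Fin 3 → F)
    (hd : ∀ i, d i = t ∨ d i = -t) (hprod : d 0 * d 1 * d 2 = 1) (hnot : ¬ ∀ i, d i = t) :
    ∃ π : Equiv.Perm (Fin 3), d ∘ π = ![t, -t, -t] := by
  have hbad : -(t ^ 3) ≠ 1 := by
    rw [ht3]
    exact hneg
  rcases hd 0 with h0 | h0 <;> rcases hd 1 with h1 | h1 <;> rcases hd 2 with h2 | h2 <;>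
    rw [h0, h1, h2] at hprod
  · exfalso
    apply hnot
    intro i
    fin_cases i
    · exact h0
    · exact h1
    · exact h2
  · exact absurd (by linear_combination hprod) hbad
  · exact absurd (by linear_combination hprod) hbad
  · refine ⟨1, ?_⟩
    funext i
    fin_cases i
    · exact h0
    · exact h1
    · exact h2
  · exact absurd (by linear_combination hprod) hbad
  · refine ⟨Equiv.swap 0 1, ?_⟩
    funext i
    fin_cases i
    · exact h1
    · exact h0
    · exact h2
  · refine ⟨Equiv.swap 0 2, ?_⟩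
    funext i
    fin_cases i
    · exact h2
    · exact h1
    · exact h0
  · exact absurd (by linear_combination hprod) hbad

end Herm

/-- The arithmetic obstruction. -/
theorem not_eighty_one_dvd_u (p : ℕ) (h : p % 9 = 2 ∨ p % 9 = 5) (hp : 2 ≤ p) :
    ¬ 81 ∣ p ^ 3 * ((p ^ 2 - 1) * (p ^ 3 + 1)) := by
  intro hd
  have hcast : ((p ^ 3 * ((p ^ 2 - 1) * (p ^ 3 + 1)) : ℕ) : ZMod 81) = 0 :=
    (ZMod.natCast_eq_zero_iff _ _).2 hd
  have hle : 1 ≤ p ^ 2 := Nat.one_le_pow _ _ (by omega)
  push_cast [Nat.cast_sub hle] at hcast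
  have key : ∀ x : ZMod 81, (x.val % 9 = 2 ∨ x.val % 9 = 5) →
      x ^ 3 * ((x ^ 2 - 1) * (x ^ 3 + 1)) ≠ 0 := by decide
  refine key (p : ZMod 81) ?_ hcast
  rw [ZMod.val_natCast]
  have h9 : p % 81 % 9 = p % 9 := Nat.mod_mod_of_dvd p (by norm_num)
  rw [h9]
  exact h

/-- Elements of prime order of PSU_3(p), p ≡ 2 (mod 3), and the normalizer of an extraspecial subgroup of order 27. Here `T = PSU_3(p)` for a prime `p ≥ 5` with `p ≡ 2 (mod 3)`, realised through `SU_3(p)`, the matrices of determinant 1 over the field `F` with `p²` elements preserving the hermitian form `Σ uᵢvᵢ^p`; `R` is a non-abelian subgroup of order 27 and exponent 3 of the full unitary group of that form (an extraspecial group 3^{1+2}, acting absolutely irreducibly), and `H` is the subgroup of `SU_3(p)` normalizing `R` — a subgroup of type 3^{1+2}.Sp₂(3) (maximality is not assumed). Ω is the set of cosets of `H`, so an element of `T` of prime order `r` (`x ∈ SU_3(p)` with `x^r` scalar, `x` not scalar) fixes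 a point of Ω exactly when some `SU_3(p)`-conjugate of `x` normalizes `R`. Let `r` be a prime dividing the index of `H`. Then every element of `T` of order `r` fixes a point of Ω if and only if `r = 2`, or `r = 3` and `p ≡ 8 (mod 9)`. -/
theorem result {F : Type*} [Field F] [Fintype F] {p : ℕ} [Fact p.Prime] [CharP F p] (hF : Fintype.card F = p ^ 2) (hp : 5 ≤ p) (hp3 : p % 3 = 2)
    (R : Subgroup (GL (Fin 3) F)) (hRU : R ≤ Cfsg.GU 3 F p) (hR : Nat.card R = 27) (hRe : Monoid.exponent R = 3) (hRna : ¬ IsMulCommutative R)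
    (r : ℕ) [Fact r.Prime]
    (hΩ : r ∣ (Cfsg.Geo.subgroupNormalizer R).relIndex (Cfsg.GU 3 F p ⊓ Cfsg.Geo.specialLinear (Fin 3) F)) :
    (∀ x ∈ Cfsg.GU 3 F p ⊓ Cfsg.Geo.specialLinear (Fin 3) F, (∃ z : F, ((x ^ r : GL (Fin 3) F) : Matrix (Fin 3) (Fin 3) F) = z • (1 : Matrix (Fin 3) (Fin 3) F)) →
      (∀ z : F, (x : Matrix (Fin 3) (Fin 3) F) ≠ z • (1 : Matrix (Fin 3) (Fin 3) F)) →
      ∃ g ∈ Cfsg.GU 3 F p ⊓ Cfsg.Geo.specialLinear (Fin 3) F, g⁻¹ * x * g ∈ Cfsg.Geo.subgroupNormalizer R) ↔ (r = 2 ∨ (r = 3 ∧ p % 9 = 8)) := by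
  classical
  have hpp := (Fact.out : p.Prime)
  have hq2 : 2 ≤ p := hpp.two_le
  have hpne2 : p ≠ 2 := by omega
  have h2F : (2 : F) ≠ 0 := by
    intro h
    have h1 : ((2 : ℕ) : F) = 0 := by exact_mod_cast h
    have h3 := (CharP.cast_eq_zero_iff F p 2).1 h1
    exact hpne2 ((Nat.prime_dvd_prime_iff_eq hpp Nat.prime_two).1 h3)
  have hneg : (-1 : F) ≠ 1 := by
    intro h
    apply h2F
    linear_combination -h
  have h3p : 3 ∣ p + 1 := by omega
  have h3dvd : 3 ∣ Fintype.card F - 1 := by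
    rw [hF]
    obtain ⟨k, hk⟩ := h3p
    have : p ^ 2 - 1 = (p + 1) * (p - 1) := by
      obtain ⟨p', rfl⟩ : ∃ p', p = p' + 1 := ⟨p - 1, by omega⟩
      simp only [Nat.add_sub_cancel]
      have : (p' + 1) ^ 2 = (p' + 1 + 1) * p' + 1 := by ring
      omega
    rw [this, hk]
    exact ⟨k * (p - 1), by ring⟩
  obtain ⟨ω, hω, hω1⟩ := Cfsg.Agent.S5998.exists_omega h3dvd
  obtain ⟨l, P₀, a, b, c, hstd₀⟩ := exists_stdData ω hω hω1 R hR hRe hRna
  have hl := hstd₀.hl
  have hl1 := hstd₀.hl1
  have hl3 : l ^ 3 = 1 := by linear_combination (l - 1) * hl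
  have hl0 : l ≠ 0 := by
    rintro rfl
    simp at hl
  have hlq : l ^ (p + 1) = 1 := by
    obtain ⟨k, hk⟩ := h3p
    rw [hk, pow_mul, hl3, one_pow]
  obtain ⟨P, hPU, hstd⟩ := exists_unitary_std hF hstd₀ hRU hlq
  have hfinR : Finite ↥R := Nat.finite_of_card_ne_zero (by omega)
  have hRSL := det_eq_one_of_mem hstd
  have hRK : R ≤ Cfsg.GU 3 F p ⊓ Cfsg.Geo.specialLinear (Fin 3) F := le_inf hRU hRSL
  have S := herm_space (F := F) 3 hF
  have hVr : finrank F (Fin 3 → F) = 3 := by simp
  constructor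
  · intro hall
    by_cases hr2 : r = 2
    · exact Or.inl hr2
    by_cases hr3 : r = 3
    · subst hr3
      refine Or.inr ⟨rfl, ?_⟩
      by_contra hne
      have h9 : p % 9 = 2 ∨ p % 9 = 5 := by omega
      set K := Cfsg.GU 3 F p ⊓ Cfsg.Geo.specialLinear (Fin 3) F with hK
      set H := Cfsg.Geo.subgroupNormalizer R with hH
      have h27 : 27 ∣ Nat.card (H.subgroupOf K) := by
        have h1 : R.subgroupOf K ≤ H.subgroupOf K := Subgroup.comap_mono Subgroup.le_normalizer
        have h2 := Subgroup.card_dvd_of_le h1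
        rwa [Nat.card_congr (Subgroup.subgroupOfEquivOfLe hRK).toEquiv, hR] at h2
      have hmul := Subgroup.card_mul_index (H.subgroupOf K)
      have h81 : 81 ∣ Nat.card K := by
        rw [← hmul]
        obtain ⟨s, hs⟩ := h27
        obtain ⟨t, ht⟩ := hΩ
        refine ⟨s * t, ?_⟩
        change _ * (H.relIndex K) = _
        rw [hs, ht]
        ring
      -- the order of `K`
      have hcardK : Nat.card K = Nat.card (Cfsg.SU 3 F p) := by
        refine Nat.card_congr
          { toFun := fun x => ⟨⟨x.1.val, (Cfsg.Agent.Lib.Geo.Basic.mem_specialLinear_iff _).1 (Subgroup.mem_inf.mp x.2).2⟩,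
              fun u v => (Subgroup.mem_inf.mp x.2).1 u v⟩
            invFun := fun s => ⟨Matrix.SpecialLinearGroup.toGL s.1,
              Subgroup.mem_inf.mpr ⟨fun u v => s.2 u v, Cfsg.Agent.Lib.Geo.Basic.toGL_mem_specialLinear _⟩⟩
            left_inv := fun x => Subtype.ext (Units.ext rfl)
            right_inv := fun s => Subtype.ext (Subtype.ext rfl) }
      have hSU := Cfsg.Agent.Lib.Classical.HermOrders.card_SU hF 3 (by norm_num)
      simp only [Finset.prod_range_succ, Finset.prod_range_zero] at hSU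
      have hSU' : (p + 1) * Nat.card (Cfsg.SU 3 F p) = (p + 1) * (p ^ 3 * ((p ^ 2 - 1) * (p ^ 3 + 1))) := by
        rw [hSU]
        simp
        ring
      have hcardSU := Nat.eq_of_mul_eq_mul_left (by omega) hSU'
      rw [hcardK, hcardSU] at h81
      exact not_eighty_one_dvd_u p h9 hq2 h81
    · exfalso
      have hr5 : 5 ≤ r := by
        have h1 := (Fact.out : r.Prime).two_le
        by_contra hlt
        have : r = 4 := by omega
        subst this
        exact absurd (Fact.out : Nat.Prime 4) (by norm_num)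
      exact no_conj_of_ge_five hstd hR _ inf_le_right hr5 (hΩ.trans (Subgroup.relIndex_dvd_card _ _)) hall
  · rintro (hr2 | ⟨hr3, hp9⟩)
    · -- involutions
      subst hr2
      intro x hx hz hns
      obtain ⟨z, hz⟩ := hz
      have hxU : x ∈ Cfsg.GU 3 F p := (Subgroup.mem_inf.mp hx).1
      have hxdet : (x : Matrix (Fin 3) (Fin 3) F).det = 1 :=
        (Cfsg.Agent.Lib.Geo.Basic.mem_specialLinear_iff x).1 (Subgroup.mem_inf.mp hx).2
      have hsq : (x : Matrix (Fin 3) (Fin 3) F) * (x : Matrix (Fin 3) (Fin 3) F) = z • (1 : Matrix (Fin 3) (Fin 3) F) := by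
        rw [← hz, pow_two, Units.val_mul]
      have hz3 : z ^ 3 = 1 := by
        have h1 := congrArg Matrix.det hsq
        rw [Matrix.det_mul, hxdet, Matrix.det_smul, Matrix.det_one, Fintype.card_fin] at h1
        simpa using h1.symm
      have hz0 : z ≠ 0 := by
        rintro rfl
        simp at hz3
      have hzn : z ^ (p + 1) = 1 := norm_of_scalar_mem hF (by norm_num) _ ((Cfsg.GU 3 F p).pow_mem hxU 2) z hz
      let t : F := z ^ 2
      have ht0 : t ≠ 0 := pow_ne_zero _ hz0
      have ht2 : t ^ 2 = z := by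
        simp only [t]
        linear_combination z * hz3
      have ht3 : t ^ 3 = 1 := by
        simp only [t]
        linear_combination (z ^ 3 + 1) * hz3
      have htn : t ^ (p + 1) = 1 := by
        simp only [t]
        rw [← pow_mul, mul_comm, pow_mul, hzn, one_pow]
      have hp1even : Even (p + 1) := by
        have := hpp.eq_two_or_odd
        rw [Nat.even_iff]
        omega
      have htne : t ≠ -t := by
        intro h
        apply h2F
        have h1 : 2 * t = 0 := by linear_combination h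
        exact (mul_eq_zero.mp h1).resolve_right ht0
      let g : Module.End F (Fin 3 → F) := Matrix.toLinAlgEquiv' (x : Matrix (Fin 3) (Fin 3) F)
      have hg2 : g * g = (t ^ 2) • 1 := by
        simp only [g]
        rw [← map_mul, hsq, ht2, map_smul, map_one]
      have hroots : aeval g (∏ α ∈ ({t, -t} : Finset F), (X - Polynomial.C α)) = 0 := by
        rw [Finset.prod_pair htne]
        simp only [map_neg, sub_neg_eq_add, map_mul, map_sub, map_add, aeval_X, aeval_C,
          Module.algebraMap_end_eq_smul_id]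
        have hcomm : (g - t • LinearMap.id) * (g + t • LinearMap.id) = g * g - (t ^ 2) • 1 := by
          refine LinearMap.ext fun v => ?_
          simp [Module.End.mul_apply, pow_two, smul_smul, sub_smul]
          abel
        rw [hcomm, hg2, sub_self]
      have hsn : ∀ α ∈ ({t, -t} : Finset F), α ^ (p + 1) = 1 := by
        intro α hα
        simp only [Finset.mem_insert, Finset.mem_singleton] at hα
        rcases hα with rfl | rfl
        · exact htn
        · rw [hp1even.neg_pow]
          exact htn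
      have hiso : ∀ u v, Cfsg.hermForm 3 F p (g u) (g v) = Cfsg.hermForm 3 F p u v := fun u v => hxU u v
      obtain ⟨bs, d, hbs, horth, hd⟩ := Cfsg.Agent.Lib.Elusive.HermEigen.exists_orth_eigen hF _ hsn 3 S g hiso hroots hVr
      obtain ⟨Q₀, hQ₀U, hQ₀⟩ := unitary_of_orthonormal hF bs horth
      have hx₀ : (x : Matrix (Fin 3) (Fin 3) F) * Q₀.val = Q₀.val * Matrix.diagonal d :=
        mul_eq_of_columns _ _ bs d hQ₀ hbs
      have hQ₀d : Q₀.val.det ≠ 0 := ((Matrix.isUnit_iff_isUnit_det _).1 Q₀.isUnit).ne_zero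
      have hprod : d 0 * d 1 * d 2 = 1 := by
        have h1 := congrArg Matrix.det hx₀
        rw [Matrix.det_mul, Matrix.det_mul, hxdet, one_mul, Matrix.det_diagonal, Fin.prod_univ_three] at h1
        have h2 : Q₀.val.det * (d 0 * d 1 * d 2) = Q₀.val.det * 1 := by
          rw [mul_one]
          exact h1.symm
        exact mul_left_cancel₀ hQ₀d h2
      have hnot : ¬ ∀ i, d i = t := by
        intro hall
        apply hns t
        have hdt : d = fun _ => t := funext hall
        have h1 : (x : Matrix (Fin 3) (Fin 3) F) * Q₀.val = (t • (1 : Matrix (Fin 3) (Fin 3) F)) * Q₀.val := by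
          rw [hx₀, hdt, Matrix.smul_mul, Matrix.one_mul]
          have : Matrix.diagonal (fun _ : Fin 3 => t) = t • (1 : Matrix (Fin 3) (Fin 3) F) := by
            ext i j
            by_cases hij : i = j
            · subst hij
              simp
            · simp [hij]
          rw [this, Matrix.mul_smul, Matrix.mul_one]
        have h2 : Q₀.val * ((Q₀⁻¹ : GL (Fin 3) F) : Matrix (Fin 3) (Fin 3) F) = 1 := by
          rw [← Units.val_mul, mul_inv_cancel, Units.val_one]
        calc (x : Matrix (Fin 3) (Fin 3) F) = (x : Matrix (Fin 3) (Fin 3) F) * (Q₀.val * ((Q₀⁻¹ : GL (Fin 3) F) : Matrix (Fin 3) (Fin 3) F)) := by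
              rw [h2, Matrix.mul_one]
          _ = ((x : Matrix (Fin 3) (Fin 3) F) * Q₀.val) * ((Q₀⁻¹ : GL (Fin 3) F) : Matrix (Fin 3) (Fin 3) F) := by
              rw [Matrix.mul_assoc]
          _ = (t • (1 : Matrix (Fin 3) (Fin 3) F)) * (Q₀.val * ((Q₀⁻¹ : GL (Fin 3) F) : Matrix (Fin 3) (Fin 3) F)) := by
              rw [h1, Matrix.mul_assoc]
          _ = _ := by rw [h2, Matrix.mul_one]
      obtain ⟨π, hπ⟩ := exists_perm_pattern t ht3 hneg d (by
        intro i
        have := hd i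
        simpa using this) hprod hnot
      let b' : Fin 3 → Fin 3 → F := fun k => bs (π k)
      have horth' : ∀ i j, Cfsg.hermForm 3 F p (b' i) (b' j) = if i = j then 1 else 0 := by
        intro i j
        simp only [b']
        rw [horth]
        simp only [π.injective.eq_iff]
      obtain ⟨Q₁, hQ₁U, hQ₁⟩ := unitary_of_orthonormal hF b' horth'
      let d' : Fin 3 → F := ![t, -t, -t]
      have hbd' : ∀ k, (x : Matrix (Fin 3) (Fin 3) F) *ᵥ b' k = d' k • b' k := by
        intro k
        have h1 : d' k = d (π k) := (congrFun hπ k).symm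
        rw [h1]
        exact hbs (π k)
      have hx₁ : (x : Matrix (Fin 3) (Fin 3) F) * Q₁.val = Q₁.val * Matrix.diagonal d' :=
        mul_eq_of_columns _ _ b' d' hQ₁ hbd'
      -- the target element
      have hSd : (t • (sigMat : Matrix (Fin 3) (Fin 3) F)).det ≠ 0 := by
        rw [Matrix.det_smul, det_sigMat, Fintype.card_fin, mul_one]
        exact pow_ne_zero _ ht0
      let Sg : GL (Fin 3) F := Matrix.GeneralLinearGroup.mkOfDetNeZero _ hSd
      let W : GL (Fin 3) F := P * Sg * P⁻¹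
      have hWP : W.val * P.val = P.val * (t • (sigMat : Matrix (Fin 3) (Fin 3) F)) := by
        have h1 : W * P = P * Sg := by
          simp [W]
        have h3 := congrArg Units.val h1
        rwa [Units.val_mul, Units.val_mul] at h3
      -- a unitary eigenframe of the inversion
      have h2q : (2 : F) ^ p = 2 := by
        have h3 : (2 : F) = 1 + 1 := by norm_num
        rw [h3, frob_add hF, one_pow]
      obtain ⟨κ, hκ⟩ := Cfsg.Agent.Lib.Elusive.HermEigen.exists_norm_eq hF (2⁻¹ : F)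
        (by rw [inv_pow, h2q]) (inv_ne_zero h2F)
      have hκ' : κ * κ ^ p * 2 = 1 := by
        rw [← pow_succ', hκ]
        exact inv_mul_cancel₀ h2F
      have hpodd : Odd p := hpp.odd_of_ne_two hpne2
      let fr : Fin 3 → Fin 3 → F := ![![0, κ, -κ], ![1, 0, 0], ![0, κ, κ]]
      have hq0 : (0 : F) ^ p = 0 := zero_pow (by omega)
      have hfr : ∀ i j, Cfsg.hermForm 3 F p (fr i) (fr j) = if i = j then 1 else 0 := by
        intro i j
        fin_cases i <;> fin_cases j <;>
          simp [Cfsg.hermForm, fr, Fin.sum_univ_three, hq0, hpodd.neg_pow] <;>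
          first
          | linear_combination hκ'
          | ring
      obtain ⟨Fr, hFrU, hFr⟩ := unitary_of_orthonormal hF fr hfr
      have hFrel : (t • (sigMat : Matrix (Fin 3) (Fin 3) F)) * Fr.val = Fr.val * Matrix.diagonal d' := by
        refine mul_eq_of_columns _ _ fr d' hFr ?_
        intro k
        funext i
        fin_cases k <;> fin_cases i <;>
          simp [sigMat, fr, d', Matrix.mulVec, dotProduct, Fin.sum_univ_three]
      have hQ₂ : W.val * (P * Fr).val = (P * Fr).val * Matrix.diagonal d' := by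
        have hPFr : (P * Fr).val = P.val * Fr.val := Units.val_mul _ _
        rw [hPFr, ← Matrix.mul_assoc, hWP, Matrix.mul_assoc, hFrel, Matrix.mul_assoc]
      obtain ⟨g', hg', hconj⟩ := exists_conj_GU hF x W Q₁ (P * Fr) hx hQ₁U
        ((Cfsg.GU 3 F p).mul_mem hPU hFrU) d' hx₁ hQ₂ 0
      refine ⟨g', hg', ?_⟩
      rw [hconj]
      exact sigma_mem_normalizer hstd W t hWP
    · -- elements of order three
      subst hr3
      intro x hx hz hns
      obtain ⟨z, hz⟩ := hz
      have hxU : x ∈ Cfsg.GU 3 F p := (Subgroup.mem_inf.mp hx).1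
      have hxdet : (x : Matrix (Fin 3) (Fin 3) F).det = 1 :=
        (Cfsg.Agent.Lib.Geo.Basic.mem_specialLinear_iff x).1 (Subgroup.mem_inf.mp hx).2
      have hz3 : z ^ 3 = 1 := by
        have h1 := congrArg Matrix.det hz
        rw [Units.val_pow_eq_pow_val, Matrix.det_pow, hxdet, Matrix.det_smul, Matrix.det_one,
          Fintype.card_fin] at h1
        simpa using h1.symm
      obtain ⟨w, hw0, hw3, hwn⟩ := exists_cube_root_norm hF (by omega) z hz3
      let g : Module.End F (Fin 3 → F) := Matrix.toLinAlgEquiv' (x : Matrix (Fin 3) (Fin 3) F)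
      have hg3 : g ^ 3 = (w ^ 3) • 1 := by
        simp only [g]
        rw [← map_pow, ← Units.val_pow_eq_pow_val, hz, map_smul, map_one, hw3]
      have hroots : aeval g (∏ α ∈ ({w, w * l, w * l ^ 2} : Finset F), (X - Polynomial.C α)) = 0 := by
        rw [EigenSplit.prod_cube_roots w l hl hl1 hw0]
        rw [map_sub, map_pow, aeval_X, aeval_C, hg3, Module.algebraMap_end_eq_smul_id, sub_eq_zero]
        rfl
      have hsn : ∀ α ∈ ({w, w * l, w * l ^ 2} : Finset F), α ^ (p + 1) = 1 := by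
        intro α hα
        simp only [Finset.mem_insert, Finset.mem_singleton] at hα
        rcases hα with rfl | rfl | rfl
        · exact hwn
        · rw [mul_pow, hwn, hlq, one_mul]
        · rw [mul_pow, hwn, one_mul, ← pow_mul, mul_comm 2, pow_mul, hlq, one_pow]
      have hiso : ∀ u v, Cfsg.hermForm 3 F p (g u) (g v) = Cfsg.hermForm 3 F p u v := fun u v => hxU u v
      obtain ⟨bs, d, hbs, horth, hd⟩ := Cfsg.Agent.Lib.Elusive.HermEigen.exists_orth_eigen hF _ hsn 3 S g hiso hroots hVr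
      obtain ⟨Q₁, hQ₁U, hQ₁⟩ := unitary_of_orthonormal hF bs horth
      have hx₁ : (x : Matrix (Fin 3) (Fin 3) F) * Q₁.val = Q₁.val * Matrix.diagonal d :=
        mul_eq_of_columns _ _ bs d hQ₁ hbs
      have hdc : ∀ i, ∃ k : ℕ, d i = w * l ^ k := by
        intro i
        have h1 := hd i
        simp only [Finset.mem_insert, Finset.mem_singleton] at h1
        rcases h1 with h1 | h1 | h1
        · exact ⟨0, by rw [h1]; simp⟩
        · exact ⟨1, by rw [h1]; simp⟩
        · exact ⟨2, h1⟩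
      obtain ⟨c₀, hc₀⟩ := hdc 0
      obtain ⟨c₁, hc₁⟩ := hdc 1
      obtain ⟨c₂, hc₂⟩ := hdc 2
      have hdd : d = ![w * l ^ c₀, w * l ^ c₁, w * l ^ c₂] := by
        funext i
        fin_cases i
        · exact hc₀
        · exact hc₁
        · exact hc₂
      have hDd : (Matrix.diagonal d).det ≠ 0 := by
        rw [Matrix.det_diagonal, hdd]
        simp [Fin.prod_univ_three, hw0, hl0]
      let Dg : GL (Fin 3) F := Matrix.GeneralLinearGroup.mkOfDetNeZero _ hDd
      let W : GL (Fin 3) F := P * Dg * P⁻¹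
      have hWP : W.val * P.val = P.val * Matrix.diagonal d := by
        have h1 : W * P = P * Dg := by
          simp [W]
        have h3 := congrArg Units.val h1
        rwa [Units.val_mul, Units.val_mul] at h3
      obtain ⟨g', hg', hconj⟩ := exists_conj_GU hF x W Q₁ P hx hQ₁U hPU d hx₁ hWP 0
      refine ⟨g', hg', ?_⟩
      rw [hconj]
      rw [hdd] at hWP
      exact diag_mem_normalizer hstd W w hw0 c₀ c₁ c₂ hWP

end Cfsg.Agent.S5999
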