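import Cfsg.Statements.S6000
import Cfsg.Agent.Lib.Pauli4.Fwd

set_option autoImplicit false
open scoped MatrixGroups
open Cfsg

namespace Cfsg.Agent.S6000

/-- Elements of prime order of PSL_4(p), p ≡ 1 (mod 4), and the normalizer of a 2-group of symplectic type of order 2⁶. Here `T = PSL_4(F)` for the field `F` with `p` elements, `p` a prime with `p ≡ 1 (mod 4)`; `R` is an absolutely irreducible subgroup of GL_4(F) of order 2⁶ that is a 2-group of symplectic type of exponent 4 with centre of order 4 (the central product of the scalars of order 4 with an extraspecial group 2^{1+4}), and `H` is the subgroup of matrices of determinant 1 normalizing `R` — a subgroup of type 2⁴.Sp₄(2) (maximality is not assumed). Ω is the set of cosets of `H` in `T`, so an element of `T` of prime order `r` (a matrix `x` of determinant 1 with `x^r` scalar, `x` not scalar) fixes a point of Ω exactly when some conjugate of `x` by a matrix of determinant 1 normalizes `R`. Let `r` be a prime dividing the index of `H`. Then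 every element of `T` of order `r` fixes a point of Ω if and only if `r = 2`, or `r = 3` and `p ≡ 2 (mod 3)`, or `r = 5` and `p ≡ ±2 (mod 5)` (`p` has multiplicative order 4 modulo 5). -/
theorem result {F : Type*} [Field F] [Fintype F] {p : ℕ} [Fact p.Prime] [CharP F p] (hF : Fintype.card F = p) (hp4 : p % 4 = 1)
    (R : Subgroup (GL (Fin 4) F)) (hR : Cfsg.Geo.IsLinearSymplecticTypeData 2 R) (hR6 : Nat.card R = 2 ^ 6)
    (r : ℕ) [Fact r.Prime]
    (hΩ : r ∣ (Cfsg.Geo.subgroupNormalizer R).relIndex (Cfsg.Geo.specialLinear (Fin 4) F)) :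
    (∀ x ∈ Cfsg.Geo.specialLinear (Fin 4) F, (∃ z : F, ((x ^ r : GL (Fin 4) F) : Matrix (Fin 4) (Fin 4) F) = z • (1 : Matrix (Fin 4) (Fin 4) F)) →
      (∀ z : F, (x : Matrix (Fin 4) (Fin 4) F) ≠ z • (1 : Matrix (Fin 4) (Fin 4) F)) →
      ∃ g ∈ Cfsg.Geo.specialLinear (Fin 4) F, g⁻¹ * x * g ∈ Cfsg.Geo.subgroupNormalizer R) ↔ (r = 2 ∨ (r = 3 ∧ p % 3 = 2) ∨ (r = 5 ∧ orderOf (p : ZMod 5) = 4)) := by
  classical
  have hp : p.Prime := Fact.out
  have hrp : r.Prime := Fact.out
  obtain ⟨i, ι, t₁, t₂, t₃, t₄, h⟩ := Cfsg.Agent.Lib.Pauli4.Setup.exists_cfg hR hR6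
  have h2 : (2 : F) ≠ 0 := h.two
  have hp3ne : p ≠ 3 := by
    rintro rfl
    norm_num at hp4
  have h3F : (3 : F) ≠ 0 := by
    intro h0
    have h1 : ((3 : ℕ) : F) = 0 := by exact_mod_cast h0
    have h5 := (CharP.cast_eq_zero_iff F p 3).1 h1
    exact hp3ne ((Nat.prime_dvd_prime_iff_eq hp Nat.prime_three).1 h5)
  constructor
  · intro hall
    by_contra hcon
    push Not at hcon
    obtain ⟨hr2, hr3, hr5⟩ := hcon
    have h4 : r ≠ 4 := by
      rintro rfl
      norm_num at hrp
    have h6 : r ≠ 6 := by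
      rintro rfl
      norm_num at hrp
    have hr_ : r = 3 ∨ r = 5 ∨ 7 ≤ r := by
      have := hrp.two_le
      omega
    rcases hr_ with rfl | rfl | hr7
    · have hp31 : p % 3 = 1 := by
        have h1 := hr3 rfl
        have h5 : p % 3 ≠ 0 := by
          intro h0
          have h7 : 3 ∣ p := Nat.dvd_of_mod_eq_zero h0
          exact hp3ne ((Nat.prime_dvd_prime_iff_eq Nat.prime_three hp).1 h7).symm
        omega
      obtain ⟨ω, hω⟩ := Cfsg.Agent.Lib.Pauli4.Setup.exists_omega' hF hp31 hp.one_le
      exact h.fwd_three hω h3F hall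
    · by_cases hp5 : (5 : F) = 0
      · exact h.fwd_five_t hp5 hall
      · have ha0 : (p : ZMod 5) ≠ 0 := by
          intro h0
          have h7 : 5 ∣ p := (ZMod.natCast_eq_zero_iff p 5).1 h0
          have h8 : 5 = p := (Nat.prime_dvd_prime_iff_eq (by norm_num) hp).1 h7
          apply hp5
          have h9 : ((p : ℕ) : F) = 0 := CharP.cast_eq_zero F p
          rw [← h8] at h9
          exact_mod_cast h9
        have hcases : (p : ZMod 5) = 1 ∨ (p : ZMod 5) = 4 := by
          by_contra hcon
          push Not at hcon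
          exact hr5 rfl (Cfsg.Agent.Lib.Pauli4.Setup.order_cases _ ha0 hcon.1 hcon.2)
        obtain ⟨s, hs⟩ := Cfsg.Agent.Lib.Pauli4.Setup.exists_s (F := F) hp4 hcases h2
        exact h.fwd_five_s hs hp5 hall
    · exact h.fwd_large hr7 hΩ hall
  · rintro (rfl | ⟨rfl, hp3⟩ | ⟨rfl, hord⟩) x hx hxr hns
    · exact h.back_two h3F hx hns hxr
    · exact h.back_three hF hp4 hp3 h3F hns hxr
    · have hp5 : ((5 : ℕ) : F) ≠ 0 := by
        intro h0
        have h5 := (CharP.cast_eq_zero_iff F p 5).1 h0
        have h8 : p = 5 := (Nat.prime_dvd_prime_iff_eq hp (by norm_num)).1 h5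
        subst h8
        have h9 : ((5 : ℕ) : ZMod 5) = 0 := ZMod.natCast_self 5
        rw [h9, orderOf_eq_zero_iff.2] at hord
        · omega
        · intro hh
          obtain ⟨n, hn, hn2⟩ := isOfFinOrder_iff_pow_eq_one.1 hh
          rw [zero_pow hn.ne'] at hn2
          haveI : Fact (1 < 5) := ⟨by norm_num⟩
          exact zero_ne_one hn2
      exact h.back_five hF hp5 hord hp.one_le hx hxr

end Cfsg.Agent.S6000
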